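import Cfsg.Statements.S0084
import Mathlib

set_option autoImplicit false
set_option linter.style.haveILetI false
open Cfsg

namespace Cfsg.Agent.S0084

/-- Conjugation by a normalizing element as a permutation of a subgroup. -/
def conjPerm {G : Type*} [Group G] (T : Subgroup G) (n : G)
    (hn : n ∈ Subgroup.normalizer (T : Set G)) : Equiv.Perm T where
  toFun t := ⟨n * t.1 * n⁻¹, (Subgroup.mem_normalizer_iff.mp hn t.1).mp t.2⟩
  invFun t := ⟨n⁻¹ * t.1 * n, by
    have := (Subgroup.mem_normalizer_iff.mp (Subgroup.inv_mem _ hn) t.1).mp t.2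
    simpa using this⟩
  left_inv t := by apply Subtype.ext; simp [mul_assoc]
  right_inv t := by apply Subtype.ext; simp [mul_assoc]

theorem conjPerm_pow {G : Type*} [Group G] (T : Subgroup G) (n : G)
    (hn : n ∈ Subgroup.normalizer (T : Set G)) (m : ℕ) (t : T) :
    (((conjPerm T n hn) ^ m) t : G) = n ^ m * t.1 * (n ^ m)⁻¹ := by
  induction m generalizing t with
  | zero => simp
  | succ m ih =>
    rw [pow_succ, Equiv.Perm.mul_apply, ih]
    have : ((conjPerm T n hn) t : G) = n * t.1 * n⁻¹ := rfl
    rw [this, pow_succ]; group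

/-- Fixed-point counting for a normalizing element of prime power order. -/
theorem card_modEq_centralizer {G : Type*} [Group G] (T : Subgroup G) [Finite T] (n : G)
    (hn : n ∈ Subgroup.normalizer (T : Set G)) (q k : ℕ) [Fact q.Prime] (hnq : n ^ q ^ k = 1) :
    Nat.card T ≡ Nat.card (T ⊓ Subgroup.centralizer {n} : Subgroup G) [MOD q] := by
  classical
  letI : Fintype T := Fintype.ofFinite T
  have hf : (conjPerm T n hn) ^ q ^ k = 1 := by
    ext t
    rw [conjPerm_pow, hnq]; simp
  have h1 := Equiv.Perm.card_compl_support_modEq hf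
  have e : ((conjPerm T n hn).supportᶜ : Finset T) ≃ (T ⊓ Subgroup.centralizer {n} : Subgroup G) :=
    { toFun := fun t => ⟨t.1.1, t.1.2, by
        show t.1.1 ∈ Subgroup.centralizer {n}
        rw [Subgroup.mem_centralizer_iff]
        intro h hh
        rw [Set.mem_singleton_iff] at hh
        subst hh
        have h2 := t.2
        rw [Finset.mem_compl, Equiv.Perm.mem_support, not_not] at h2
        have h3 : h * t.1.1 * h⁻¹ = t.1.1 := congrArg Subtype.val h2
        calc h * t.1.1 = (h * t.1.1 * h⁻¹) * h := by group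
          _ = t.1.1 * h := by rw [h3]⟩
      invFun := fun s => ⟨⟨s.1, s.2.1⟩, by
        have h2 := Subgroup.mem_centralizer_iff.mp s.2.2 n (Set.mem_singleton n)
        rw [Finset.mem_compl, Equiv.Perm.mem_support, not_not]
        apply Subtype.ext
        show n * s.1 * n⁻¹ = s.1
        rw [h2]; group⟩
      left_inv := fun t => rfl
      right_inv := fun s => rfl }
  rw [Nat.card_eq_fintype_card, ← Nat.card_congr e, Nat.card_eq_fintype_card, Fintype.card_coe]
  exact h1.symm


/-- Burnside's normal `p`-complement theorem in the `HasNormalPComplement` form. -/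
theorem hasNormalPComplement_of_le {G : Type*} [Group G] [Finite G] {p : ℕ} [Fact p.Prime]
    (P : Sylow p G) (h : Subgroup.normalizer (P : Set G) ≤ Subgroup.centralizer (P : Set G)) :
    Cfsg.HasNormalPComplement p G :=
  ⟨P, (MonoidHom.transferSylow P h).ker, MonoidHom.normal_ker _,
    MonoidHom.ker_transferSylow_isComplement' P h⟩

/-- An element outside a subgroup has a power of prime power order outside it. -/
theorem exists_prime_pow_not_mem {G : Type*} [Group G] [Finite G] (C : Subgroup G) :
    ∀ (N : ℕ) (x : G), orderOf x = N → x ∉ C →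
      ∃ y ∈ Subgroup.zpowers x, y ∉ C ∧ ∃ q k : ℕ, q.Prime ∧ orderOf y = q ^ k := by
  intro N
  induction N using Nat.strong_induction_on with
  | _ N ih =>
    intro x hx hxC
    have hN0 : N ≠ 0 := by rw [← hx]; exact (orderOf_pos x).ne'
    have hN1 : N ≠ 1 := by
      intro h1
      rw [h1, orderOf_eq_one_iff] at hx
      exact hxC (hx ▸ C.one_mem)
    set q := N.minFac with hq
    have hqp : q.Prime := Nat.minFac_prime hN1
    obtain ⟨a, m, hm, hNam⟩ := Nat.exists_eq_pow_mul_and_not_dvd hN0 q hqp.ne_one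
    by_cases hm1 : m = 1
    · refine ⟨x, Subgroup.mem_zpowers x, hxC, q, a, hqp, ?_⟩
      rw [hx, hNam, hm1, mul_one]
    · have ha : a ≠ 0 := by
        intro ha0
        rw [ha0, pow_zero, one_mul] at hNam
        exact hm (hNam ▸ Nat.minFac_dvd N)
      have hm0 : m ≠ 0 := by
        intro h0; rw [h0, mul_zero] at hNam; exact hN0 hNam
      have hqa : q ^ a ≠ 0 := pow_ne_zero _ hqp.ne_zero
      have hqa1 : 1 < q ^ a := Nat.one_lt_pow ha hqp.one_lt
      have hm1' : 1 < m := by omega
      -- the two components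
      have hy : orderOf (x ^ (q ^ a)) = m := by
        rw [orderOf_pow_of_dvd hqa (by rw [hx, hNam]; exact dvd_mul_right _ _), hx, hNam,
          Nat.mul_div_cancel_left _ (Nat.pos_of_ne_zero hqa)]
      have hz : orderOf (x ^ m) = q ^ a := by
        rw [orderOf_pow_of_dvd hm0 (by rw [hx, hNam]; exact dvd_mul_left _ _), hx, hNam,
          Nat.mul_div_cancel _ (Nat.pos_of_ne_zero hm0)]
      have hlt1 : m < N := by rw [hNam]; nlinarith
      have hlt2 : q ^ a < N := by rw [hNam]; nlinarith
      by_cases hyC : x ^ (q ^ a) ∈ C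
      · by_cases hzC : x ^ m ∈ C
        · exfalso
          apply hxC
          have hcop : Nat.Coprime (q ^ a) m :=
            Nat.Coprime.pow_left a ((Nat.Prime.coprime_iff_not_dvd hqp).mpr hm)
          have hb := Nat.gcd_eq_gcd_ab (q ^ a) m
          rw [hcop] at hb
          have hx1 : x = (x ^ (q ^ a)) ^ (Nat.gcdA (q ^ a) m) * (x ^ m) ^ (Nat.gcdB (q ^ a) m) := by
            rw [← zpow_natCast x (q ^ a), ← zpow_natCast x m, ← zpow_mul, ← zpow_mul, ← zpow_add,
              ← hb]
            simp
          rw [hx1]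
          exact C.mul_mem (C.zpow_mem hyC _) (C.zpow_mem hzC _)
        · obtain ⟨y, hy1, hy2, hy3⟩ := ih (q ^ a) hlt2 (x ^ m) hz hzC
          refine ⟨y, ?_, hy2, hy3⟩
          exact (Subgroup.zpowers_le.mpr (Subgroup.pow_mem _ (Subgroup.mem_zpowers x) m)) hy1
      · obtain ⟨y, hy1, hy2, hy3⟩ := ih m hlt1 (x ^ (q ^ a)) hy hyC
        refine ⟨y, ?_, hy2, hy3⟩
        exact (Subgroup.zpowers_le.mpr (Subgroup.pow_mem _ (Subgroup.mem_zpowers x) _)) hy1

/-- An abelian Sylow subgroup is central in its normalizer as soon as fixed-point counting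
forbids nontrivial coprime automorphisms. -/
theorem normalizer_le_centralizer_of_card {G : Type*} [Group G] [Finite G] {p : ℕ} [Fact p.Prime]
    (T : Sylow p G) (hT : IsMulCommutative T)
    (h : ∀ q : ℕ, q.Prime → q ≠ p → q ∣ Nat.card G → ∀ c : ℕ, c ∣ Nat.card T →
      Nat.card T ≡ c [MOD q] → c = Nat.card T) :
    Subgroup.normalizer (T : Set G) ≤ Subgroup.centralizer (T : Set G) := by
  intro x hxN
  by_contra hxC
  obtain ⟨y, hy1, hy2, q, k, hq, hy3⟩ :=
    exists_prime_pow_not_mem (Subgroup.centralizer (T : Set G)) _ x rfl hxC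
  have hyN : y ∈ Subgroup.normalizer (T : Set G) :=
    (Subgroup.zpowers_le.mpr hxN) hy1
  have hTC : (T : Subgroup G) ≤ Subgroup.centralizer (T : Set G) :=
    Subgroup.le_centralizer (T : Subgroup G)
  have hqp : q ≠ p := by
    intro hqp
    subst hqp
    have hP : IsPGroup q (Subgroup.zpowers y) := by
      apply IsPGroup.of_card (n := k)
      rw [Nat.card_zpowers, hy3]
    have h1 := hP.inf_normalizer_sylow T
    have h2 : y ∈ Subgroup.zpowers y ⊓ Subgroup.normalizer (T : Set G) :=
      ⟨Subgroup.mem_zpowers y, hyN⟩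
    rw [h1] at h2
    exact hy2 (hTC h2.2)
  have hk : k ≠ 0 := by
    intro hk0
    rw [hk0, pow_zero, orderOf_eq_one_iff] at hy3
    exact hy2 (hy3 ▸ Subgroup.one_mem _)
  have hqG : q ∣ Nat.card G := by
    have h1 : orderOf y ∣ Nat.card G := orderOf_dvd_natCard y
    rw [hy3] at h1
    exact (dvd_pow_self q hk).trans h1
  haveI : Fact q.Prime := ⟨hq⟩
  have hyq : y ^ q ^ k = 1 := by rw [← hy3]; exact pow_orderOf_eq_one y
  have h1 := card_modEq_centralizer (T : Subgroup G) y hyN q k hyq
  have h2 : Nat.card ((T : Subgroup G) ⊓ Subgroup.centralizer {y} : Subgroup G) ∣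
      Nat.card (T : Subgroup G) := Subgroup.card_dvd_of_le inf_le_left
  have h3 := h q hq hqp hqG _ h2 h1
  have h4 : ((T : Subgroup G) ⊓ Subgroup.centralizer {y} : Subgroup G) = (T : Subgroup G) :=
    Subgroup.eq_of_le_of_card_ge inf_le_left h3.ge
  apply hy2
  rw [Subgroup.mem_centralizer_iff]
  intro t ht
  have ht' : t ∈ ((T : Subgroup G) ⊓ Subgroup.centralizer {y} : Subgroup G) := by
    rw [h4]; exact ht
  exact (Subgroup.mem_centralizer_iff.mp ht'.2 y (Set.mem_singleton y)).symm

/-- A group whose Sylow 2-subgroups are Klein four-groups and whose order is prime to 3 has a normal 2-complement. -/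
theorem result {G : Type*} [Group G] [Finite G] (T : Sylow 2 G) (hT : IsKleinFour T) (h3 : ¬ 3 ∣ Nat.card G) : Cfsg.HasNormalPComplement 2 G := by
  have hc : IsMulCommutative T := IsKleinFour.isMulCommutative
  have h4 : Nat.card T = 4 := IsKleinFour.card_four
  apply hasNormalPComplement_of_le T
  apply normalizer_le_centralizer_of_card T hc
  intro q hq hq2 hqG c hc4 hmod
  rw [h4] at hc4 hmod ⊢
  have hq3 : q ≠ 3 := fun h => h3 (h ▸ hqG)
  have hq5 : 5 ≤ q := by
    have := hq.two_le
    by_contra hlt
    have : q = 2 ∨ q = 3 ∨ q = 4 := by omega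
    rcases this with h | h | h
    · exact hq2 h
    · exact hq3 h
    · rw [h] at hq; exact absurd hq (by decide)
  have hcle : c ≤ 4 := Nat.le_of_dvd (by norm_num) hc4
  have hdvd : q ∣ 4 - c := (Nat.modEq_iff_dvd' hcle).mp hmod.symm
  by_contra hne
  have hpos : 0 < 4 - c := by omega
  have := Nat.le_of_dvd hpos hdvd
  omega

end Cfsg.Agent.S0084
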