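import Cfsg.Statements.S0040
import Cfsg.Agent.S0016
import Cfsg.Agent.S0041
import Cfsg.Agent.S0084
import Cfsg.Agent.Lib.Helper16.Generation
import Cfsg.Agent.Lib.Helper10.Coprime
import Cfsg.Agent.Lib.Helper18.UniqueInvolution
import Mathlib

set_option autoImplicit false
open Cfsg

namespace Cfsg.Agent.S0040

/-- The subgroup generated by two commuting elements is commutative. -/
theorem comm_closure_pair {G : Type*} [Group G] (a b : G) (hab : a * b = b * a) :
    ∀ x ∈ Subgroup.closure ({a, b} : Set G), ∀ y ∈ Subgroup.closure ({a, b} : Set G),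
      x * y = y * x := by
  have h1 : Subgroup.closure ({a, b} : Set G) ≤ Subgroup.centralizer ({a, b} : Set G) := by
    rw [Subgroup.closure_le]
    rintro x (rfl | rfl)
    · show x ∈ Subgroup.centralizer ({x, b} : Set G)
      rw [Subgroup.mem_centralizer_iff]
      rintro y (rfl | rfl)
      · rfl
      · exact hab.symm
    · show x ∈ Subgroup.centralizer ({a, x} : Set G)
      rw [Subgroup.mem_centralizer_iff]
      rintro y (rfl | rfl)
      · exact hab
      · rfl
  have h2 : Subgroup.closure ({a, b} : Set G) ≤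
      Subgroup.centralizer (Subgroup.closure ({a, b} : Set G) : Set G) := by
    rw [Subgroup.closure_le]
    intro x hx
    show x ∈ Subgroup.centralizer (Subgroup.closure ({a, b} : Set G) : Set G)
    rw [Subgroup.mem_centralizer_iff]
    intro y hy
    have := Subgroup.mem_centralizer_iff.mp (h1 hy) x hx
    exact this.symm
  intro x hx y hy
  exact (Subgroup.mem_centralizer_iff.mp (h2 hx) y hy).symm

/-- An abelian `p`-subgroup of a group acting fixed-point-freely on `K` is cyclic. -/
theorem abelian_cyclic {G : Type*} [Group G] [Finite G] (K H : Subgroup G) [hKn : K.Normal]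
    (hK : K ≠ ⊥) (hfpf : ∀ h ∈ H, h ≠ 1 → K ⊓ Subgroup.centralizer {h} = ⊥)
    (p : ℕ) [hp : Fact p.Prime] (A : Subgroup G) (hAH : A ≤ H) (hAp : IsPGroup p A)
    (hAc : IsMulCommutative A) : IsCyclic A := by
  by_cases hA1 : A = ⊥
  · subst hA1
    exact isCyclic_of_subsingleton
  obtain ⟨b, hb1⟩ := (Subgroup.ne_bot_iff_exists_ne_one).mp hA1
  have hbA' : (b : G) ∈ A := b.2
  have hb1' : (b : G) ≠ 1 := fun h => hb1 (Subtype.ext h)
  obtain ⟨k, hk⟩ := hAp b
  have hbk : (b : G) ^ p ^ k = 1 := by
    have := congrArg Subtype.val hk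
    simpa using this
  have hNtop : Subgroup.normalizer (K : Set G) = ⊤ := Subgroup.normalizer_eq_top_iff.mpr hKn
  have hbN : (b : G) ∈ Subgroup.normalizer (K : Set G) := by rw [hNtop]; trivial
  have hmod := Cfsg.Agent.S0084.card_modEq_centralizer K (b : G) hbN p k hbk
  rw [hfpf (b : G) (hAH hbA') hb1', Subgroup.card_bot] at hmod
  have hcop : (Nat.card K).Coprime p := by
    rw [Nat.coprime_comm, Nat.Prime.coprime_iff_not_dvd hp.out]
    intro hd
    have h0 : Nat.card K ≡ 0 [MOD p] := (Nat.modEq_zero_iff_dvd).mpr hd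
    have h1 : 1 ≡ 0 [MOD p] := hmod.symm.trans h0
    have h2 : p ∣ 1 := (Nat.modEq_zero_iff_dvd).mp h1
    exact hp.out.one_lt.ne' (Nat.dvd_one.mp h2)
  have hK1 : Nat.card K ≠ 1 := by
    intro h
    exact hK ((Subgroup.card_eq_one).mp h)
  obtain ⟨q, hq, hqK⟩ := Nat.exists_prime_and_dvd hK1
  have : Fact q.Prime := ⟨hq⟩
  have hAK : A ≤ Subgroup.normalizer (K : Set G) := by rw [hNtop]; exact le_top
  obtain ⟨Q, hQ⟩ := Cfsg.Agent.Lib.Helper16.Generation.exists_invariant_sylow q hcop hAp hAK
  set Q' : Subgroup G := (Q : Subgroup K).map K.subtype with hQ'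
  have hQ'K : Q' ≤ K := by
    rintro _ ⟨x, -, rfl⟩
    exact x.2
  set V : Subgroup G := Q' ⊓ Subgroup.centralizer (Q' : Set G) with hVdef
  have hVc : IsMulCommutative V := by
    refine ⟨⟨fun x y => Subtype.ext ?_⟩⟩
    exact (Subgroup.mem_centralizer_iff.mp y.2.2 x x.2.1)
  have hV : V ≠ ⊥ := by
    have hQne : (Q : Subgroup K) ≠ ⊥ := Q.ne_bot_of_dvd_card hqK
    have : Nontrivial (Q : Subgroup K) := (Subgroup.nontrivial_iff_ne_bot _).mpr hQne
    have hcn : Nontrivial (Subgroup.center (Q : Subgroup K)) := Q.isPGroup'.center_nontrivial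
    obtain ⟨z, hz⟩ := exists_ne (1 : Subgroup.center (Q : Subgroup K))
    intro hbot
    have hzV : (((z : (Q : Subgroup K)) : K) : G) ∈ V := by
      refine ⟨⟨_, (z : (Q : Subgroup K)).2, rfl⟩, ?_⟩
      show (((z : (Q : Subgroup K)) : K) : G) ∈ Subgroup.centralizer (Q' : Set G)
      rw [Subgroup.mem_centralizer_iff]
      rintro _ ⟨x, hx, rfl⟩
      have h1 := Subgroup.mem_center_iff.mp z.2 ⟨x, hx⟩
      have h2 := congrArg (fun t : (Q : Subgroup K) => ((t : K) : G)) h1
      simpa using h2
    rw [hbot, Subgroup.mem_bot] at hzV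
    apply hz
    apply Subtype.ext
    apply Subtype.ext
    apply Subtype.ext
    simpa using hzV
  have hAV : A ≤ Subgroup.normalizer (V : Set G) := by
    intro a ha
    have haQ := hQ ha
    apply Cfsg.Agent.Lib.Helper10.Coprime.mem_normalizer_of_conj_mem
    rintro s ⟨hs1, hs2⟩
    have hs2' : s ∈ Subgroup.centralizer (Q' : Set G) := hs2
    refine ⟨(Subgroup.mem_normalizer_iff.mp haQ s).mp hs1, ?_⟩
    show a * s * a⁻¹ ∈ Subgroup.centralizer (Q' : Set G)
    rw [Subgroup.mem_centralizer_iff]
    intro y hy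
    have hy' : a⁻¹ * y * a⁻¹⁻¹ ∈ Q' :=
      (Subgroup.mem_normalizer_iff.mp (Subgroup.inv_mem _ haQ) y).mp hy
    have h1 := Subgroup.mem_centralizer_iff.mp hs2' _ hy'
    have e1 : y * (a * s * a⁻¹) = a * ((a⁻¹ * y * a⁻¹⁻¹) * s) * a⁻¹ := by group
    have e2 : a * s * a⁻¹ * y = a * (s * (a⁻¹ * y * a⁻¹⁻¹)) * a⁻¹ := by group
    rw [e1, e2, h1]
  have hfpfV : ∀ a ∈ A, a ≠ 1 → V ⊓ Subgroup.centralizer {a} = ⊥ := by
    intro a ha ha1
    rw [eq_bot_iff, ← hfpf a (hAH ha) ha1]
    exact inf_le_inf_right _ (inf_le_left.trans hQ'K)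
  exact Cfsg.Agent.S0041.result A V hV hAV hfpfV (Or.inl hAc)

/-- Sylow subgroups of Frobenius complements: if H complements a nontrivial normal subgroup K and every nonidentity element of H has trivial centraliser in K, then each Sylow subgroup of H is cyclic or isomorphic to a generalized quaternion group. -/
theorem result {G : Type*} [Group G] [Finite G] (K H : Subgroup G) [K.Normal]
    (hc : Subgroup.IsComplement' K H) (hK : K ≠ ⊥) (hfpf : ∀ h ∈ H, h ≠ 1 → K ⊓ Subgroup.centralizer {h} = ⊥)
    (p : ℕ) [Fact p.Prime] (P : Sylow p H) :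
    IsCyclic P ∨ ∃ n : ℕ, Nonempty (P ≃* QuaternionGroup (2 ^ n)) := by
  have hpp : p.Prime := Fact.out
  have h16 : IsCyclic P ∨ (p = 2 ∧ ∃ n : ℕ, Nonempty (P ≃* QuaternionGroup (2 ^ n))) := by
    apply Cfsg.Agent.S0016.result p P.isPGroup'
    intro X Y hX hY
    -- P is nontrivial
    have hPne : Nontrivial P := by
      have : Nontrivial X := by
        rw [← Finite.one_lt_card_iff_nontrivial, hX]; exact hpp.one_lt
      obtain ⟨x, y, hxy⟩ := this
      exact ⟨⟨(x : P), (y : P), fun h => hxy (Subtype.ext h)⟩⟩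
    have hcn : Nontrivial (Subgroup.center P) := P.isPGroup'.center_nontrivial
    have hdvd : p ∣ Nat.card (Subgroup.center P) := by
      have hZp : IsPGroup p (Subgroup.center P) := P.isPGroup'.to_subgroup _
      obtain ⟨n, hn⟩ := IsPGroup.iff_card.mp hZp
      have hn0 : n ≠ 0 := by
        rintro rfl
        rw [pow_zero] at hn
        have := (Finite.one_lt_card_iff_nontrivial).mpr hcn
        omega
      rw [hn]; exact dvd_pow_self p hn0
    obtain ⟨z₀, hz₀⟩ := exists_prime_orderOf_dvd_card' (G := Subgroup.center P) p hdvd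
    have hz₀' : orderOf (z₀ : P) = p := by rw [Subgroup.orderOf_coe]; exact hz₀
    have key : ∀ u : P, orderOf u = p → u ∈ Subgroup.zpowers (z₀ : P) := by
      intro u hu
      have hab : ((u : H) : G) * (((z₀ : P) : H) : G) = (((z₀ : P) : H) : G) * ((u : H) : G) := by
        have h1 := Subgroup.mem_center_iff.mp z₀.2 u
        have h2 := congrArg (fun t : P => ((t : H) : G)) h1
        simpa using h2
      set a : G := ((u : H) : G) with ha
      set b : G := (((z₀ : P) : H) : G) with hb
      have hAH : Subgroup.closure ({a, b} : Set G) ≤ H := by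
        rw [Subgroup.closure_le]
        rintro x (rfl | rfl)
        · exact (u : H).2
        · exact ((z₀ : P) : H).2
      have hAP : Subgroup.closure ({a, b} : Set G) ≤ (P : Subgroup H).map H.subtype := by
        rw [Subgroup.closure_le]
        rintro x (rfl | rfl)
        · exact ⟨(u : H), u.2, rfl⟩
        · exact ⟨((z₀ : P) : H), (z₀ : P).2, rfl⟩
      have hAp : IsPGroup p (Subgroup.closure ({a, b} : Set G)) :=
        (P.isPGroup'.map H.subtype).to_le hAP
      have hcomm := comm_closure_pair a b hab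
      have hAc : IsMulCommutative (Subgroup.closure ({a, b} : Set G)) :=
        ⟨⟨fun x y => Subtype.ext (hcomm x x.2 y y.2)⟩⟩
      have hcyc := abelian_cyclic K H hK hfpf p _ hAH hAp hAc
      obtain ⟨g, hg⟩ := hcyc.exists_generator
      have haA : a ∈ Subgroup.closure ({a, b} : Set G) := Subgroup.subset_closure (by simp)
      have hbA : b ∈ Subgroup.closure ({a, b} : Set G) := Subgroup.subset_closure (by simp)
      have hag : a ∈ Subgroup.zpowers (g : G) := by
        obtain ⟨i, hi⟩ := Subgroup.mem_zpowers_iff.mp (hg ⟨a, haA⟩)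
        refine Subgroup.mem_zpowers_iff.mpr ⟨i, ?_⟩
        have := congrArg Subtype.val hi
        simpa using this
      have hbg : b ∈ Subgroup.zpowers (g : G) := by
        obtain ⟨i, hi⟩ := Subgroup.mem_zpowers_iff.mp (hg ⟨b, hbA⟩)
        refine Subgroup.mem_zpowers_iff.mpr ⟨i, ?_⟩
        have := congrArg Subtype.val hi
        simpa using this
      have hordb : orderOf b = p := by
        have e1 : orderOf (((z₀ : P) : H) : G) = orderOf ((z₀ : P) : H) := Subgroup.orderOf_coe _
        have e2 : orderOf ((z₀ : P) : H) = orderOf (z₀ : P) :=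
          orderOf_injective (P : Subgroup H).subtype Subtype.coe_injective (z₀ : P)
        rw [hb, e1, e2, hz₀']
      have horda : orderOf a = p := by
        have e1 : orderOf ((u : H) : G) = orderOf (u : H) := Subgroup.orderOf_coe _
        have e2 : orderOf (u : H) = orderOf u :=
          orderOf_injective (P : Subgroup H).subtype Subtype.coe_injective u
        rw [ha, e1, e2, hu]
      have hap : a ^ orderOf b = 1 := by rw [hordb, ← horda]; exact pow_orderOf_eq_one a
      have hmem := Cfsg.Agent.Lib.Helper18.UniqueInvolution.mem_zpowers_of_pow_orderOf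
        (g : G) a b hag hbg hap
      obtain ⟨i, hi⟩ := Subgroup.mem_zpowers_iff.mp hmem
      refine Subgroup.mem_zpowers_iff.mpr ⟨i, ?_⟩
      apply Subtype.ext
      apply Subtype.ext
      have : (((z₀ : P) ^ i : P) : H) = (((z₀ : P) : H)) ^ i := by simp
      rw [this]
      have : ((((z₀ : P) : H) ^ i : H) : G) = b ^ i := by simp [hb]
      rw [this, hi]
    have hsub : ∀ W : Subgroup P, Nat.card W = p → W = Subgroup.zpowers (z₀ : P) := by
      intro W hW
      apply Subgroup.eq_of_le_of_card_ge
      · intro w hw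
        by_cases hw1 : w = 1
        · rw [hw1]; exact Subgroup.one_mem _
        · apply key
          have h1 : orderOf w ∣ p := by
            have h0 := Subgroup.orderOf_dvd_natCard W hw
            rw [hW] at h0
            exact h0
          rcases (Nat.dvd_prime hpp).mp h1 with h | h
          · exact absurd (orderOf_eq_one_iff.mp h) hw1
          · exact h
      · rw [Nat.card_zpowers, hz₀', hW]
    rw [hsub X hX, hsub Y hY]
  rcases h16 with h | ⟨-, h⟩
  · exact Or.inl h
  · exact Or.inr h

end Cfsg.Agent.S0040
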