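import Cfsg.Statements.S1477
import Cfsg.Agent.Lib.Helper10.CN

set_option autoImplicit false
open Cfsg

namespace Cfsg.Agent.S1477

open Cfsg.Agent.Lib.Helper10.CN Cfsg.Agent.Lib.Helper10.Coprime

variable {G : Type*} [Group G]

theorem exists_other_prime (n p : ℕ) (hn : n ≠ 0) (h : ¬ ∃ k, n = p ^ k) :
    ∃ q, q.Prime ∧ q ∣ n ∧ q ≠ p := by
  by_contra hno
  push Not at hno
  exact h ⟨_, Nat.eq_prime_pow_of_unique_prime_dvd hn (fun {d} hd hdvd => hno d hd hdvd)⟩

theorem comm_of_centralizer_eq {H : Subgroup G} {w z : G}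
    (hCw : Subgroup.centralizer ({w} : Set G) = H) (hz : z ∈ H) : z * w = w * z := by
  rw [← hCw] at hz
  exact Subgroup.mem_centralizer_singleton_iff.mp hz

theorem hall [Finite G] (hCN : Cfsg.IsCNGroup G) (H : Subgroup G) (hH : Group.IsNilpotent H)
    (hmax : ∀ L : Subgroup G, Group.IsNilpotent L → H ≤ L → L = H) :
    (Nat.card H).Coprime H.index := by
  by_contra hcon
  obtain ⟨p, hp, hpH, hpI⟩ := Nat.Prime.not_coprime_iff_dvd.mp hcon
  haveI : Fact p.Prime := ⟨hp⟩
  haveI := hH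
  by_cases hPG : ∃ k, Nat.card H = p ^ k
  · obtain ⟨k, hk⟩ := hPG
    have hPG' : IsPGroup p H := IsPGroup.of_card hk
    obtain ⟨S, hS⟩ := hPG'.exists_le_sylow
    have hSH : (S : Subgroup G) = H := hmax S S.isPGroup'.isNilpotent hS
    have hnd : ¬ p ∣ (S : Subgroup G).index := S.not_dvd_index
    rw [hSH] at hnd
    exact hnd hpI
  · obtain ⟨q, hq, hqH, hqp⟩ := exists_other_prime _ p (Nat.card_pos (α := H)).ne' hPG
    obtain ⟨w, hwH, hw1, ⟨kw, hkw⟩, hCw⟩ := exists_central_pelement hCN H hH hmax q hq hqH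
    obtain ⟨Ps⟩ : Nonempty (Sylow p H) := inferInstance
    have hPle : (Ps : Subgroup H).map H.subtype ≤ H := Subgroup.map_subtype_le _
    have hPp : IsPGroup p ((Ps : Subgroup H).map H.subtype) := Ps.isPGroup'.map _
    have hPne : (Ps : Subgroup H).map H.subtype ≠ ⊥ := by
      have hne := Sylow.ne_bot_of_dvd_card Ps hpH
      intro h
      exact hne ((Subgroup.map_eq_bot_iff_of_injective _ (Subgroup.subtype_injective H)).mp h)
    have hPall : ∀ y ∈ H, (∃ k, orderOf y = p ^ k) → y ∈ (Ps : Subgroup H).map H.subtype := by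
      rintro y hy ⟨k, hk⟩
      have hpg : IsPGroup p (Subgroup.zpowers (⟨y, hy⟩ : H)) := by
        apply IsPGroup.of_card (n := k)
        rw [Nat.card_zpowers, Subgroup.orderOf_mk, hk]
      obtain ⟨S, hS⟩ := hpg.exists_le_sylow
      have h1 : (Ps : Subgroup H) ≤ S := IsPGroup.le_sylow_of_normal Ps.isPGroup' S
      have h2 : (S : Subgroup H) = Ps := Ps.is_maximal' S.isPGroup' h1
      have h3 : (⟨y, hy⟩ : H) ∈ (Ps : Subgroup H) := by
        rw [← h2]; exact hS (Subgroup.mem_zpowers _)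
      exact ⟨⟨y, hy⟩, h3, rfl⟩
    obtain ⟨S, hS⟩ := hPp.exists_le_sylow
    have hlt : (Ps : Subgroup H).map H.subtype < (S : Subgroup G) := by
      refine lt_of_le_of_ne hS (fun heq => ?_)
      have h1 : ¬ p ∣ (S : Subgroup G).index := S.not_dvd_index
      have h2 : H.index ∣ (S : Subgroup G).index := Subgroup.index_dvd_of_le (heq ▸ hPle)
      exact h1 (hpI.trans h2)
    obtain ⟨y, hyS, hyN, hyP⟩ := exists_mem_normalizer_not_mem' S.isPGroup' hlt
    have hPT : (Ps : Subgroup H).map H.subtype ≤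
        (S : Subgroup G) ⊓ Subgroup.normalizer (((Ps : Subgroup H).map H.subtype : Subgroup G) : Set G) :=
      le_inf hS Subgroup.le_normalizer
    have hTp : IsPGroup p ((S : Subgroup G) ⊓
        Subgroup.normalizer (((Ps : Subgroup H).map H.subtype : Subgroup G) : Set G) : Subgroup G) :=
      S.isPGroup'.to_le inf_le_left
    haveI : Group.IsNilpotent ((S : Subgroup G) ⊓
        Subgroup.normalizer (((Ps : Subgroup H).map H.subtype : Subgroup G) : Set G) : Subgroup G) :=
      hTp.isNilpotent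
    haveI : (((Ps : Subgroup H).map H.subtype).subgroupOf ((S : Subgroup G) ⊓
        Subgroup.normalizer (((Ps : Subgroup H).map H.subtype : Subgroup G) : Set G))).Normal :=
      (Subgroup.normal_subgroupOf_iff_le_normalizer hPT).mpr inf_le_right
    have hne : ((Ps : Subgroup H).map H.subtype).subgroupOf ((S : Subgroup G) ⊓
        Subgroup.normalizer (((Ps : Subgroup H).map H.subtype : Subgroup G) : Set G)) ≠ ⊥ := by
      obtain ⟨a, ha1⟩ := (Subgroup.ne_bot_iff_exists_ne_one).mp hPne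
      intro h
      have hm : (⟨a, hPT a.2⟩ : ((S : Subgroup G) ⊓
          Subgroup.normalizer (((Ps : Subgroup H).map H.subtype : Subgroup G) : Set G) :
            Subgroup G)) ∈ ((Ps : Subgroup H).map H.subtype).subgroupOf ((S : Subgroup G) ⊓
        Subgroup.normalizer (((Ps : Subgroup H).map H.subtype : Subgroup G) : Set G)) :=
        Subgroup.mem_subgroupOf.mpr a.2
      rw [h, Subgroup.mem_bot] at hm
      have h2 : (a : G) = 1 := congrArg Subtype.val hm
      exact ha1 (Subtype.ext h2)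
    obtain ⟨z, hzP, hz1, hzc⟩ := inf_center_ne_bot _ hne
    have hzP' : (z : G) ∈ (Ps : Subgroup H).map H.subtype := Subgroup.mem_subgroupOf.mp hzP
    have hz1' : (z : G) ≠ 1 := fun h => hz1 (Subtype.ext h)
    have hyz : y * (z : G) = z * y := congrArg Subtype.val (hzc ⟨y, hyS, hyN⟩)
    have hyC : y ∈ Subgroup.centralizer ({(z : G)} : Set G) :=
      Subgroup.mem_centralizer_singleton_iff.mpr hyz
    have hwC : w ∈ Subgroup.centralizer ({(z : G)} : Set G) :=
      Subgroup.mem_centralizer_singleton_iff.mpr (comm_of_centralizer_eq hCw (hPle hzP')).symm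
    obtain ⟨ky, hky⟩ := (IsPGroup.iff_orderOf.mp S.isPGroup') ⟨y, hyS⟩
    have hky' : orderOf y = p ^ ky := by rw [← hky, Subgroup.orderOf_mk]
    have hwp : (orderOf w).Coprime p := by
      rw [hkw]
      exact Nat.Coprime.pow_left kw ((Nat.coprime_primes hq hp).mpr hqp)
    have hcomm := comm_of_nilpotent _ (hCN z hz1') hyC hwC ⟨ky, hky'⟩ hwp
    have hyH : y ∈ H := by
      rw [← hCw]; exact Subgroup.mem_centralizer_singleton_iff.mpr hcomm
    exact hyP (hPall y hyH ⟨ky, hky'⟩)

theorem ti [Finite G] (hCN : Cfsg.IsCNGroup G) (H : Subgroup G) (hH : Group.IsNilpotent H)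
    (hmax : ∀ L : Subgroup G, Group.IsNilpotent L → H ≤ L → L = H)
    (hnpp : ¬ IsPrimePow (Nat.card H)) (h1 : Nat.card H ≠ 1) (g : G)
    (hg : H.map (MulAut.conj g).toMonoidHom ≠ H) :
    H ⊓ H.map (MulAut.conj g).toMonoidHom = ⊥ := by
  by_contra hne
  obtain ⟨x, hx1⟩ := (Subgroup.ne_bot_iff_exists_ne_one).mp hne
  have hxH : (x : G) ∈ H := x.2.1
  have hxHg : g⁻¹ * (x : G) * g ∈ H := mem_map_conj_iff.mp x.2.2
  have hx1' : (x : G) ≠ 1 := fun h => hx1 (Subtype.ext h)
  haveI := hH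
  obtain ⟨p, hp, hpH⟩ := Nat.exists_prime_and_dvd h1
  have hnp : ¬ ∃ k, Nat.card H = p ^ k := by
    rintro ⟨k, hk⟩
    apply hnpp
    rw [hk]
    have hk0 : k ≠ 0 := by
      intro h0; rw [h0, pow_zero] at hk; exact h1 hk
    exact (hp.prime.isPrimePow).pow hk0
  obtain ⟨q, hq, hqH, hqp⟩ := exists_other_prime _ p (Nat.card_pos (α := H)).ne' hnp
  haveI : Fact p.Prime := ⟨hp⟩
  haveI : Fact q.Prime := ⟨hq⟩
  obtain ⟨wp, hwpH, hwp1, ⟨kp, hkp⟩, hCwp⟩ := exists_central_pelement hCN H hH hmax p hp hpH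
  obtain ⟨wq, hwqH, hwq1, ⟨kq, hkq⟩, hCwq⟩ := exists_central_pelement hCN H hH hmax q hq hqH
  have hcop : (p ^ kp).Coprime q := Nat.Coprime.pow_left kp ((Nat.coprime_primes hp hq).mpr hqp.symm)
  have hcop' : (q ^ kq).Coprime p := Nat.Coprime.pow_left kq ((Nat.coprime_primes hq hp).mpr hqp)
  have hCnil := hCN x hx1'
  -- membership in `C_G(x)`
  have hwpC : wp ∈ Subgroup.centralizer ({(x : G)} : Set G) :=
    Subgroup.mem_centralizer_singleton_iff.mpr (comm_of_centralizer_eq hCwp hxH).symm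
  have hwqC : wq ∈ Subgroup.centralizer ({(x : G)} : Set G) :=
    Subgroup.mem_centralizer_singleton_iff.mpr (comm_of_centralizer_eq hCwq hxH).symm
  have hconjC : ∀ w : G, Subgroup.centralizer ({w} : Set G) = H →
      g * w * g⁻¹ ∈ Subgroup.centralizer ({(x : G)} : Set G) := by
    intro w hCw
    rw [Subgroup.mem_centralizer_singleton_iff]
    have e := comm_of_centralizer_eq hCw hxHg
    calc g * w * g⁻¹ * (x : G) = g * (w * (g⁻¹ * (x : G) * g)) * g⁻¹ := by group
      _ = g * ((g⁻¹ * (x : G) * g) * w) * g⁻¹ := by rw [e]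
      _ = (x : G) * (g * w * g⁻¹) := by group
  have hord : ∀ w : G, orderOf (g * w * g⁻¹) = orderOf w := fun w =>
    MulEquiv.orderOf_eq (MulAut.conj g) w
  -- the conjugates of the central elements lie in `H`
  have huH : g * wp * g⁻¹ ∈ H := by
    have hcomm := comm_of_nilpotent _ hCnil (hconjC wp hCwp) hwqC ⟨kp, by rw [hord, hkp]⟩
      (by rw [hkq]; exact hcop')
    rw [← hCwq]; exact Subgroup.mem_centralizer_singleton_iff.mpr hcomm
  have hvH : g * wq * g⁻¹ ∈ H := by
    have hcomm := comm_of_nilpotent _ hCnil (hconjC wq hCwq) hwpC ⟨kq, by rw [hord, hkq]⟩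
      (by rw [hkp]; exact hcop)
    rw [← hCwp]; exact Subgroup.mem_centralizer_singleton_iff.mpr hcomm
  -- an element commuting with `g w g⁻¹` lies in `H^g`
  have hmem : ∀ w : G, Subgroup.centralizer ({w} : Set G) = H → ∀ h : G,
      h * (g * w * g⁻¹) = (g * w * g⁻¹) * h → h ∈ H.map (MulAut.conj g).toMonoidHom := by
    intro w hCw h hh
    rw [mem_map_conj_iff, ← hCw, Subgroup.mem_centralizer_singleton_iff]
    calc g⁻¹ * h * g * w = g⁻¹ * (h * (g * w * g⁻¹)) * g := by group
      _ = g⁻¹ * ((g * w * g⁻¹) * h) * g := by rw [hh]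
      _ = w * (g⁻¹ * h * g) := by group
  have hle : H ≤ H.map (MulAut.conj g).toMonoidHom := by
    intro h hh
    obtain ⟨a, b, hab, ⟨k, hk⟩, hb⟩ := exists_decomp_pow q hq h
    have haH : h ^ a ∈ H := H.pow_mem hh a
    have hbH : h ^ b ∈ H := H.pow_mem hh b
    rw [hab]
    apply Subgroup.mul_mem
    · -- `h ^ a` is a `q`-element, `u` a `p`-element
      have hcomm := comm_of_nilpotent H hH huH haH ⟨kp, by rw [hord, hkp]⟩
        (by rw [hk]; exact Nat.Coprime.pow_left k ((Nat.coprime_primes hq hp).mpr hqp))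
      exact hmem wp hCwp _ hcomm.symm
    · have hcomm := comm_of_nilpotent H hH hvH hbH ⟨kq, by rw [hord, hkq]⟩ hb
      exact hmem wq hCwq _ hcomm.symm
  apply hg
  symm
  apply Subgroup.eq_of_le_of_card_ge hle
  rw [Subgroup.card_map_of_injective (MulAut.conj g).injective]

theorem cent_le [Finite G] (hCN : Cfsg.IsCNGroup G) (H : Subgroup G) (hH : Group.IsNilpotent H)
    (hmax : ∀ L : Subgroup G, Group.IsNilpotent L → H ≤ L → L = H)
    (hTI : ∀ g : G, H.map (MulAut.conj g).toMonoidHom ≠ H →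
      H ⊓ H.map (MulAut.conj g).toMonoidHom = ⊥) (x : G) (hx : x ∈ H) (hx1 : x ≠ 1) :
    Subgroup.centralizer ({x} : Set G) ≤ H := by
  have hCnil : Group.IsNilpotent (Subgroup.centralizer ({x} : Set G)) := hCN x hx1
  have hnorm : ∀ c ∈ Subgroup.centralizer ({x} : Set G),
      H.map (MulAut.conj c).toMonoidHom = H := by
    intro c hc
    by_contra hne
    have hbot := hTI c hne
    have hcx : c * x = x * c := Subgroup.mem_centralizer_singleton_iff.mp hc
    have hxm : x ∈ H ⊓ H.map (MulAut.conj c).toMonoidHom := by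
      refine ⟨hx, mem_map_conj_iff.mpr ?_⟩
      have : c⁻¹ * x * c = x := by
        calc c⁻¹ * x * c = c⁻¹ * (x * c) := by group
          _ = c⁻¹ * (c * x) := by rw [hcx]
          _ = x := by group
      rw [this]; exact hx
    rw [hbot, Subgroup.mem_bot] at hxm
    exact hx1 hxm
  have key : ∀ c ∈ Subgroup.centralizer ({x} : Set G), ∀ r : ℕ, r.Prime →
      (∃ k, orderOf c = r ^ k) → c ∈ H := by
    intro c hc r hr hcr
    haveI : Fact r.Prime := ⟨hr⟩
    by_cases hex : ∃ k, Nat.card H = r ^ k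
    · obtain ⟨k, hk⟩ := hex
      have hHr : IsPGroup r H := IsPGroup.of_card hk
      have hcN : Subgroup.zpowers c ≤ Subgroup.normalizer (H : Set G) := by
        rw [Subgroup.zpowers_le]
        apply mem_normalizer_of_conj_mem
        intro s hs
        rw [← hnorm c hc]
        exact ⟨s, hs, rfl⟩
      have hcr' : IsPGroup r (Subgroup.zpowers c) := by
        obtain ⟨j, hj⟩ := hcr
        exact IsPGroup.of_card (n := j) (by rw [Nat.card_zpowers, hj])
      have hT : IsPGroup r (H ⊔ Subgroup.zpowers c : Subgroup G) :=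
        IsPGroup.to_sup_of_normal_left' hHr hcr' hcN
      have hTH := hmax _ hT.isNilpotent le_sup_left
      rw [← hTH]; exact Subgroup.mem_sup_right (Subgroup.mem_zpowers c)
    · obtain ⟨q, hq, hqH, hqr⟩ := exists_other_prime _ r (Nat.card_pos (α := H)).ne' hex
      obtain ⟨w, hwH, hw1, ⟨kw, hkw⟩, hCw⟩ := exists_central_pelement hCN H hH hmax q hq hqH
      have hwC : w ∈ Subgroup.centralizer ({x} : Set G) :=
        Subgroup.mem_centralizer_singleton_iff.mpr (comm_of_centralizer_eq hCw hx).symm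
      have hcomm := comm_of_nilpotent _ hCnil hc hwC hcr
        (by rw [hkw]; exact Nat.Coprime.pow_left kw ((Nat.coprime_primes hq hr).mpr hqr))
      rw [← hCw]; exact Subgroup.mem_centralizer_singleton_iff.mpr hcomm
  by_contra hnle
  have hidx : (H.subgroupOf (Subgroup.centralizer ({x} : Set G))).index ≠ 1 := by
    intro h; apply hnle
    rw [Subgroup.index_eq_one, Subgroup.subgroupOf_eq_top] at h
    exact h
  obtain ⟨r, hr, hrd⟩ := Nat.exists_prime_and_dvd hidx
  haveI : Fact r.Prime := ⟨hr⟩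
  obtain ⟨R⟩ : Nonempty (Sylow r (Subgroup.centralizer ({x} : Set G))) := inferInstance
  have hRle : (R : Subgroup (Subgroup.centralizer ({x} : Set G))) ≤
      H.subgroupOf (Subgroup.centralizer ({x} : Set G)) := by
    intro c hcR
    rw [Subgroup.mem_subgroupOf]
    obtain ⟨k, hk⟩ := (IsPGroup.iff_orderOf.mp R.isPGroup') ⟨c, hcR⟩
    exact key c c.2 r hr ⟨k, by rw [← hk, Subgroup.orderOf_mk, Subgroup.orderOf_coe]⟩
  exact R.not_dvd_index (hrd.trans (Subgroup.index_dvd_of_le hRle))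

/-- Let G be a finite group in which every non-identity element has nilpotent centralizer, and H a nilpotent subgroup not properly contained in any nilpotent subgroup. Then the order of H is coprime to its index; if the order of H is not a prime power then H ∩ gHg⁻¹ = 1 whenever gHg⁻¹ ≠ H; and if H ∩ gHg⁻¹ = 1 whenever gHg⁻¹ ≠ H, then C_G(x) ≤ H for every non-identity x ∈ H. -/
theorem result {G : Type*} [Group G] [Finite G] (hCN : Cfsg.IsCNGroup G) (H : Subgroup G) (hH : Group.IsNilpotent H)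
    (hmax : ∀ L : Subgroup G, Group.IsNilpotent L → H ≤ L → L = H) :
    (Nat.card H).Coprime H.index ∧
      (¬ IsPrimePow (Nat.card H) → Nat.card H ≠ 1 → ∀ g : G, H.map (MulAut.conj g).toMonoidHom ≠ H → H ⊓ H.map (MulAut.conj g).toMonoidHom = ⊥) ∧
      ((∀ g : G, H.map (MulAut.conj g).toMonoidHom ≠ H → H ⊓ H.map (MulAut.conj g).toMonoidHom = ⊥) → ∀ x ∈ H, x ≠ 1 → Subgroup.centralizer ({x} : Set G) ≤ H) := by
  exact ⟨hall hCN H hH hmax, fun hnpp h1 g hg => ti hCN H hH hmax hnpp h1 g hg,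
    fun hTI x hx hx1 => cent_le hCN H hH hmax hTI x hx hx1⟩

end Cfsg.Agent.S1477
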