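import Cfsg.Statements.S1474
import Cfsg.Agent.S1477
import Cfsg.Agent.S0039
import Cfsg.Agent.S0040
import Cfsg.Agent.Lib.Helper10.EPPO
import Cfsg.Agent.Lib.Helper10.KW

set_option autoImplicit false
open Cfsg

namespace Cfsg.Agent.S1474

open Cfsg.Agent.Lib.Helper10.CN Cfsg.Agent.Lib.Helper10.CNQuot Cfsg.Agent.Lib.Helper10.EPPO

open scoped commutatorElement

variable {G : Type*} [Group G]

/-- An involution acting without fixed points on a normal abelian subgroup inverts it. -/
theorem invol_inverts (Z E : Subgroup G) [hZn : Z.Normal]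
    (hZab : ∀ a ∈ Z, ∀ b ∈ Z, a * b = b * a)
    (hfpf : ∀ e ∈ E, e ≠ 1 → ∀ v ∈ Z, e * v = v * e → v = 1)
    (t : G) (ht : t ∈ E) (ht1 : t ≠ 1) (ht2 : t * t = 1) (v : G) (hv : v ∈ Z) :
    t * v * t⁻¹ = v⁻¹ := by
  have htinv : t⁻¹ = t := inv_eq_of_mul_eq_one_left ht2
  have hw : t * v * t⁻¹ ∈ Z := hZn.conj_mem v hv t
  have hfix : t * (v * (t * v * t⁻¹)) = (v * (t * v * t⁻¹)) * t := by
    calc t * (v * (t * v * t⁻¹)) = t * ((t * v * t⁻¹) * v) := by rw [hZab v hv _ hw]
      _ = (t * t) * v * t⁻¹ * v := by group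
      _ = v * t⁻¹ * v := by rw [ht2, one_mul]
      _ = v * t * v := by rw [htinv]
      _ = (v * (t * v * t⁻¹)) * t := by group
  have h1 := hfpf t ht ht1 _ (Z.mul_mem hv hw) hfix
  exact eq_inv_of_mul_eq_one_right h1

/-- An involution in a group acting without fixed points on a non-trivial normal abelian
subgroup is central in that group. -/
theorem invol_central (Z E : Subgroup G) [hZn : Z.Normal] (hZ : Z ≠ ⊥)
    (hZab : ∀ a ∈ Z, ∀ b ∈ Z, a * b = b * a)
    (hfpf : ∀ e ∈ E, e ≠ 1 → ∀ v ∈ Z, e * v = v * e → v = 1)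
    (t : G) (ht : t ∈ E) (ht1 : t ≠ 1) (ht2 : t * t = 1) (y : G) (hy : y ∈ E) :
    y * t = t * y := by
  obtain ⟨v₀, hv₀1⟩ := (Subgroup.ne_bot_iff_exists_ne_one).mp hZ
  have hv₀1' : (v₀ : G) ≠ 1 := fun h => hv₀1 (Subtype.ext h)
  have ht'E : y * t * y⁻¹ ∈ E := E.mul_mem (E.mul_mem hy ht) (E.inv_mem hy)
  have ht'2 : (y * t * y⁻¹) * (y * t * y⁻¹) = 1 := by
    calc (y * t * y⁻¹) * (y * t * y⁻¹) = y * (t * t) * y⁻¹ := by group
      _ = 1 := by rw [ht2]; group
  have ht'1 : y * t * y⁻¹ ≠ 1 := by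
    intro h
    apply ht1
    have e : t = y⁻¹ * (y * t * y⁻¹) * y := by group
    rw [e, h]; group
  by_contra hne
  have hprod1 : t * (y * t * y⁻¹) ≠ 1 := by
    intro h
    apply hne
    have h2 : y * t * y⁻¹ = t := by
      have h3 : y * t * y⁻¹ = t⁻¹ := eq_inv_of_mul_eq_one_right h
      rw [h3]; exact inv_eq_of_mul_eq_one_left ht2
    calc y * t = (y * t * y⁻¹) * y := by group
      _ = t * y := by rw [h2]
  have hcomm : (t * (y * t * y⁻¹)) * (v₀ : G) = (v₀ : G) * (t * (y * t * y⁻¹)) := by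
    have e2 := invol_inverts Z E hZab hfpf (y * t * y⁻¹) ht'E ht'1 ht'2 (v₀ : G) v₀.2
    have e3 := invol_inverts Z E hZab hfpf t ht ht1 ht2 ((v₀ : G)⁻¹) (Z.inv_mem v₀.2)
    have e4 : (t * (y * t * y⁻¹)) * (v₀ : G) * (t * (y * t * y⁻¹))⁻¹ = v₀ := by
      calc (t * (y * t * y⁻¹)) * (v₀ : G) * (t * (y * t * y⁻¹))⁻¹
          = t * ((y * t * y⁻¹) * (v₀ : G) * (y * t * y⁻¹)⁻¹) * t⁻¹ := by group
        _ = t * (v₀ : G)⁻¹ * t⁻¹ := by rw [e2]
        _ = v₀ := by rw [e3, inv_inv]
    calc (t * (y * t * y⁻¹)) * (v₀ : G)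
        = (t * (y * t * y⁻¹)) * (v₀ : G) * (t * (y * t * y⁻¹))⁻¹ * (t * (y * t * y⁻¹)) := by group
      _ = (v₀ : G) * (t * (y * t * y⁻¹)) := by rw [e4]
  exact hv₀1' (hfpf _ (E.mul_mem ht ht'E) hprod1 v₀ v₀.2 hcomm)

/-- In a cyclic group, the elements of order dividing a prime `q` lie in any subgroup of
order `q`. -/
theorem mem_zpowers_of_cyclic {D : Type*} [Group D] [Finite D] [IsCyclic D] (q : ℕ) (hq : q.Prime)
    (x w : D) (hx : orderOf x = q) (hw : w ^ q = 1) : w ∈ Subgroup.zpowers x := by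
  classical
  haveI : Fintype D := Fintype.ofFinite D
  have h1 : (Finset.univ.filter (fun a : D => a ^ q = 1)).card ≤ q :=
    IsCyclic.card_pow_eq_one_le hq.pos
  have h2 : Finset.univ.filter (fun a : D => a ∈ Subgroup.zpowers x) ⊆
      Finset.univ.filter (fun a : D => a ^ q = 1) := by
    intro a ha
    rw [Finset.mem_filter] at ha ⊢
    obtain ⟨k, rfl⟩ := Subgroup.mem_zpowers_iff.mp ha.2
    refine ⟨Finset.mem_univ _, ?_⟩
    rw [← zpow_natCast, ← zpow_mul, mul_comm, zpow_mul, zpow_natCast, ← hx, pow_orderOf_eq_one,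
      one_zpow]
  have h3 : (Finset.univ.filter (fun a : D => a ∈ Subgroup.zpowers x)).card = q := by
    rw [← Fintype.card_subtype, ← Nat.card_eq_fintype_card]
    exact (Nat.card_zpowers x).trans hx
  have h4 := Finset.eq_of_subset_of_card_le h2 (by rw [h3]; exact h1)
  have h5 : w ∈ Finset.univ.filter (fun a : D => a ^ q = 1) :=
    Finset.mem_filter.mpr ⟨Finset.mem_univ _, hw⟩
  rw [← h4, Finset.mem_filter] at h5
  exact h5.2

/-- If `z` of prime order normalises `⟨x⟩` of prime order and both act without fixed points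
on a non-trivial normal abelian subgroup of coprime order, then `z` and `x` commute. -/
theorem comm_of_normalizes [Finite G] (Z E : Subgroup G) [hZn : Z.Normal] (hZ : Z ≠ ⊥)
    (hZab : ∀ a ∈ Z, ∀ b ∈ Z, a * b = b * a)
    (hcop : (Nat.card E).Coprime (Nat.card Z))
    (hfpf : ∀ e ∈ E, e ≠ 1 → ∀ v ∈ Z, e * v = v * e → v = 1)
    (x z : G) (hx : x ∈ E) (hz : z ∈ E) (q r : ℕ) (hq : q.Prime) (hr : r.Prime)
    (hxq : orderOf x = q) (hzr : orderOf z = r)
    (hnorm : ∀ m ∈ Subgroup.zpowers x, z * m * z⁻¹ ∈ Subgroup.zpowers x) :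
    z * x = x * z := by
  by_contra hne
  have hx1 : x ≠ 1 := by
    intro h; rw [h, orderOf_one] at hxq; exact hq.one_lt.ne hxq
  have hz1 : z ≠ 1 := by
    intro h; rw [h, orderOf_one] at hzr; exact hr.one_lt.ne hzr
  letI cg : CommGroup Z :=
    { (inferInstance : Group Z) with mul_comm := fun a b => Subtype.ext (hZab a a.2 b b.2) }
  have key := frob_lemma (V := Z) (MulAut.conjNormal (H := Z)) (Subgroup.zpowers x) z r
    hr.pos (by rw [← hzr]; exact pow_orderOf_eq_one _) hnorm
    (by
      intro v hv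
      have h1 : z * (v : G) * z⁻¹ = v := by
        have := congrArg Subtype.val hv
        rwa [MulAut.conjNormal_apply] at this
      have hcomm : z * (v : G) = v * z := by
        calc z * (v : G) = z * v * z⁻¹ * z := by group
          _ = v * z := by rw [h1]
      exact Subtype.ext (hfpf z hz hz1 v v.2 hcomm))
    (by
      intro v hv
      have h1 : x * (v : G) * x⁻¹ = v := by
        have := congrArg Subtype.val (hv x (Subgroup.mem_zpowers x))
        rwa [MulAut.conjNormal_apply] at this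
      have hcomm : x * (v : G) = v * x := by
        calc x * (v : G) = x * v * x⁻¹ * x := by group
          _ = v * x := by rw [h1]
      exact Subtype.ext (hfpf x hx hx1 v v.2 hcomm))
    (by
      intro m hm i hi0 hir hfix
      by_contra hm1
      apply hne
      have hmq : orderOf m = q := by
        have hmq' : m ^ q = 1 := by
          obtain ⟨k, rfl⟩ := Subgroup.mem_zpowers_iff.mp hm
          rw [← zpow_natCast, ← zpow_mul, mul_comm, zpow_mul, zpow_natCast, ← hxq,
            pow_orderOf_eq_one, one_zpow]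
        haveI : Fact q.Prime := ⟨hq⟩
        exact orderOf_eq_prime hmq' hm1
      have hxm : x ∈ Subgroup.zpowers m := by
        have hle : Subgroup.zpowers m ≤ Subgroup.zpowers x := Subgroup.zpowers_le.mpr hm
        have hcard : Nat.card (Subgroup.zpowers x) ≤ Nat.card (Subgroup.zpowers m) := by
          rw [Nat.card_zpowers, Nat.card_zpowers, hmq, hxq]
        rw [Subgroup.eq_of_le_of_card_ge hle hcard]
        exact Subgroup.mem_zpowers x
      have hzi : z ∈ Subgroup.zpowers (z ^ i) := by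
        have hzi1 : z ^ i ≠ 1 := pow_ne_one_of_lt_orderOf hi0.ne' (by rw [hzr]; exact hir)
        have hziq : orderOf (z ^ i) = r := by
          haveI : Fact r.Prime := ⟨hr⟩
          apply orderOf_eq_prime _ hzi1
          rw [← pow_mul, mul_comm, pow_mul, ← hzr, pow_orderOf_eq_one, one_pow]
        have hle : Subgroup.zpowers (z ^ i) ≤ Subgroup.zpowers z :=
          Subgroup.zpowers_le.mpr (Subgroup.pow_mem _ (Subgroup.mem_zpowers z) i)
        have hcard : Nat.card (Subgroup.zpowers z) ≤ Nat.card (Subgroup.zpowers (z ^ i)) := by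
          rw [Nat.card_zpowers, Nat.card_zpowers, hziq, hzr]
        rw [Subgroup.eq_of_le_of_card_ge hle hcard]
        exact Subgroup.mem_zpowers z
      have hc : Commute (z ^ i) m := by
        show z ^ i * m = m * z ^ i
        calc z ^ i * m = z ^ i * m * (z ^ i)⁻¹ * z ^ i := by group
          _ = m * z ^ i := by rw [hfix]
      obtain ⟨a, ha⟩ := Subgroup.mem_zpowers_iff.mp hxm
      obtain ⟨b, hb⟩ := Subgroup.mem_zpowers_iff.mp hzi
      have h5 := hc.zpow_zpow b a
      rw [hb, ha] at h5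
      exact h5)
  obtain ⟨v₀, hv₀1⟩ := (Subgroup.ne_bot_iff_exists_ne_one).mp hZ
  have h1 := key v₀
  rw [Nat.card_zpowers, hxq] at h1
  have h2 : orderOf v₀ ∣ q := orderOf_dvd_of_pow_eq_one h1
  have h3 : orderOf v₀ ∣ Nat.card Z := orderOf_dvd_natCard v₀
  have h4 : q ∣ Nat.card E := by
    have := orderOf_dvd_natCard (⟨x, hx⟩ : E)
    rwa [Subgroup.orderOf_mk, hxq] at this
  have h5 : orderOf v₀ = 1 := Nat.eq_one_of_dvd_coprimes hcop (h2.trans h4) h3
  exact hv₀1 (orderOf_eq_one_iff.mp h5)

/-- A complement of a normal subgroup of a CN-group acting without fixed points is nilpotent,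
provided the normal subgroup contains a non-trivial normal abelian subgroup of `G` of order
prime to that of the complement. -/
theorem compl_nilpotent [Finite G] (hCN : Cfsg.IsCNGroup G) (K Z E : Subgroup G) [hKn : K.Normal]
    [hZn : Z.Normal] (hZ : Z ≠ ⊥) (hZK : Z ≤ K) (hZab : ∀ a ∈ Z, ∀ b ∈ Z, a * b = b * a)
    (hc : Subgroup.IsComplement' K E) (hcop : (Nat.card E).Coprime (Nat.card Z))
    (hfpf : ∀ e ∈ E, e ≠ 1 → K ⊓ Subgroup.centralizer ({e} : Set G) = ⊥) :
    Group.IsNilpotent E := by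
  have hfpf' : ∀ e ∈ E, e ≠ 1 → ∀ v ∈ Z, e * v = v * e → v = 1 := by
    intro e he he1 v hv hcomm
    have h1 : v ∈ K ⊓ Subgroup.centralizer ({e} : Set G) :=
      Subgroup.mem_inf.mpr ⟨hZK hv, Subgroup.mem_centralizer_singleton_iff.mpr hcomm.symm⟩
    rw [hfpf e he he1, Subgroup.mem_bot] at h1
    exact h1
  have hK : K ≠ ⊥ := fun h => hZ (le_bot_iff.mp (h ▸ hZK))
  have hsuff : (∃ x ∈ E, x ≠ 1 ∧ ∀ y ∈ E, y * x = x * y) → Group.IsNilpotent E := by
    rintro ⟨x, hxE, hx1, hxc⟩
    refine isNilpotent_of_le' ?_ (hCN x hx1)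
    intro y hy
    exact Subgroup.mem_centralizer_singleton_iff.mpr (hxc y hy)
  by_cases hE1 : E = ⊥
  · subst hE1
    infer_instance
  by_cases h2 : 2 ∣ Nat.card E
  · haveI : Fact (Nat.Prime 2) := ⟨Nat.prime_two⟩
    obtain ⟨t, ht⟩ := exists_prime_orderOf_dvd_card' 2 h2
    have ht1 : (t : G) ≠ 1 := by
      intro h
      have h3 : t = 1 := Subtype.ext h
      rw [h3, orderOf_one] at ht
      omega
    have ht2 : (t : G) * (t : G) = 1 := by
      have h3 : t ^ 2 = 1 := by rw [← ht]; exact pow_orderOf_eq_one t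
      have h4 := congrArg Subtype.val h3
      simpa [pow_two] using h4
    apply hsuff
    exact ⟨(t : G), t.2, ht1, fun y hy => invol_central Z E hZ hZab hfpf' t t.2 ht1 ht2 y hy⟩
  · haveI hZG : IsZGroup E := by
      constructor
      intro r hr R
      haveI : Fact r.Prime := ⟨hr⟩
      rcases Cfsg.Agent.S0040.result K E hc hK hfpf r R with h | ⟨n, ⟨e⟩⟩
      · exact h
      · exfalso
        apply h2
        have h4 : Nat.card R = 4 * 2 ^ n := by
          rw [Nat.card_congr e.toEquiv, Nat.card_eq_fintype_card, QuaternionGroup.card]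
        have h5 : Nat.card R ∣ Nat.card E := Subgroup.card_subgroup_dvd_card _
        rw [h4] at h5
        exact (Dvd.intro (2 * 2 ^ n) (by ring)).trans h5
    have hcyc : IsCyclic (commutator E) := IsZGroup.isCyclic_commutator E
    by_cases hD : commutator E = ⊥
    · obtain ⟨x, hx1⟩ := (Subgroup.ne_bot_iff_exists_ne_one).mp hE1
      apply hsuff
      refine ⟨x, x.2, fun h => hx1 (Subtype.ext h), fun y hy => ?_⟩
      have h3 : ⁅(⟨y, hy⟩ : E), x⁆ ∈ commutator E := by
        rw [commutator_def]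
        exact Subgroup.commutator_mem_commutator (Subgroup.mem_top _) (Subgroup.mem_top _)
      rw [hD, Subgroup.mem_bot] at h3
      have h4 := commutatorElement_eq_one_iff_mul_comm.mp h3
      exact congrArg Subtype.val h4
    · haveI : Nontrivial (commutator E) := (Subgroup.nontrivial_iff_ne_bot _).mpr hD
      obtain ⟨q, hq, hqd⟩ := Nat.exists_prime_and_dvd (Finite.one_lt_card (α := commutator E)).ne'
      haveI : Fact q.Prime := ⟨hq⟩
      obtain ⟨x, hxq⟩ := exists_prime_orderOf_dvd_card' q hqd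
      have hx₁q : orderOf (x : E) = q := by rw [Subgroup.orderOf_coe, hxq]
      have hx₀q : orderOf ((x : E) : G) = q := by rw [Subgroup.orderOf_coe, hx₁q]
      have hx₀1 : ((x : E) : G) ≠ 1 := by
        intro h; rw [h, orderOf_one] at hx₀q; exact hq.one_lt.ne hx₀q
      have hconj : ∀ y : E, ∀ m ∈ Subgroup.zpowers ((x : E) : G),
          (y : G) * m * (y : G)⁻¹ ∈ Subgroup.zpowers ((x : E) : G) := by
        intro y m hm
        obtain ⟨k, rfl⟩ := Subgroup.mem_zpowers_iff.mp hm
        have hw : y * (x : E) * y⁻¹ ∈ commutator E :=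
          (inferInstance : (commutator E).Normal).conj_mem (x : E) x.2 y
        have hw2 : (⟨y * (x : E) * y⁻¹, hw⟩ : commutator E) ^ q = 1 := by
          apply Subtype.ext
          show (y * (x : E) * y⁻¹) ^ q = 1
          rw [conj_pow, ← hx₁q, pow_orderOf_eq_one]; group
        have hmem := mem_zpowers_of_cyclic q hq x ⟨y * (x : E) * y⁻¹, hw⟩ hxq hw2
        obtain ⟨j, hj⟩ := Subgroup.mem_zpowers_iff.mp hmem
        have hj' : ((x : E) : G) ^ j = (y : G) * (x : E) * (y : G)⁻¹ := by
          have := congrArg (fun d : commutator E => ((d : E) : G)) hj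
          simpa using this
        refine Subgroup.mem_zpowers_iff.mpr ⟨j * k, ?_⟩
        rw [zpow_mul, hj', conj_zpow]
      apply hsuff
      refine ⟨((x : E) : G), (x : E).2, hx₀1, ?_⟩
      have hle : E ≤ Subgroup.centralizer {((x : E) : G)} := by
        apply le_of_sylow_le
        intro r hr
        haveI : Fact r.Prime := ⟨hr⟩
        by_cases hrq : r = q
        · subst hrq
          have hpg : IsPGroup r (Subgroup.zpowers (x : E)) := by
            apply IsPGroup.of_card (n := 1)
            rw [Nat.card_zpowers, hx₁q, pow_one]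
          obtain ⟨R, hR⟩ := hpg.exists_le_sylow
          refine ⟨R, fun c hc => ?_⟩
          have hRc : IsCyclic R := hZG.isZGroup r hr R
          have h1 : c * (x : E) = (x : E) * c :=
            Cfsg.Agent.Lib.Helper10.KW.cyclic_comm (R : Subgroup E) hRc hc
              (hR (Subgroup.mem_zpowers (x : E)))
          exact Subgroup.mem_centralizer_singleton_iff.mpr (congrArg Subtype.val h1)
        · obtain ⟨R⟩ : Nonempty (Sylow r E) := inferInstance
          refine ⟨R, fun c hc => ?_⟩
          rw [Subgroup.mem_centralizer_singleton_iff]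
          by_cases hc1 : c = 1
          · rw [hc1]; simp
          obtain ⟨k, hk⟩ := (IsPGroup.iff_orderOf.mp R.isPGroup') ⟨c, hc⟩
          have hck : orderOf (c : G) = r ^ k := by
            rw [Subgroup.orderOf_coe, ← hk]
            exact (Subgroup.orderOf_mk c hc).symm
          have hk0 : k ≠ 0 := by
            rintro rfl
            rw [pow_zero] at hck
            exact hc1 (Subtype.ext (orderOf_eq_one_iff.mp hck))
          have hzr : orderOf ((c : G) ^ r ^ (k - 1)) = r := by
            apply orderOf_eq_prime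
            · rw [← pow_mul, ← pow_succ, Nat.sub_add_cancel (Nat.pos_of_ne_zero hk0), ← hck,
                pow_orderOf_eq_one]
            · apply pow_ne_one_of_lt_orderOf (pow_ne_zero _ hr.ne_zero)
              rw [hck]
              exact Nat.pow_lt_pow_right hr.one_lt (by omega)
          have hzE : (c : G) ^ r ^ (k - 1) ∈ E := E.pow_mem c.2 _
          have hzc : (c : G) ^ r ^ (k - 1) * (c : G) = c * (c : G) ^ r ^ (k - 1) :=
            (Commute.pow_self (c : G) _)
          have hzx : (c : G) ^ r ^ (k - 1) * ((x : E) : G) = (x : E) * (c : G) ^ r ^ (k - 1) :=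
            comm_of_normalizes Z E hZ hZab hcop hfpf' ((x : E) : G) _ (x : E).2 hzE q r hq hr
              hx₀q hzr (fun m hm => hconj ⟨_, hzE⟩ m hm)
          have hz1 : (c : G) ^ r ^ (k - 1) ≠ 1 := by
            intro h; rw [h, orderOf_one] at hzr; exact hr.one_lt.ne hzr
          have hcC : (c : G) ∈ Subgroup.centralizer {(c : G) ^ r ^ (k - 1)} :=
            Subgroup.mem_centralizer_singleton_iff.mpr hzc.symm
          have hxC : ((x : E) : G) ∈ Subgroup.centralizer {(c : G) ^ r ^ (k - 1)} :=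
            Subgroup.mem_centralizer_singleton_iff.mpr hzx.symm
          exact comm_of_nilpotent _ (hCN _ hz1) hcC hxC ⟨k, hck⟩
            (by rw [hx₀q]; exact (Nat.coprime_primes hq hr).mpr (Ne.symm hrq))
      exact fun y hy => Subgroup.mem_centralizer_singleton_iff.mp (hle hy)

/-- Let G be a finite group in which every non-identity element has nilpotent centralizer, not itself nilpotent, and having a nontrivial normal Sylow p-subgroup for some prime p. Let H be the largest normal nilpotent Hall subgroup of G. Then H is a nontrivial proper normal subgroup with a complement E that is a Frobenius complement in G (no non-identity element of E centralizes a non-identity element of H), and G/H is nilpotent. -/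
theorem result {G : Type*} [Group G] [Finite G] (hCN : Cfsg.IsCNGroup G) (hnn : ¬ Group.IsNilpotent G) (p : ℕ) [Fact p.Prime] (P : Sylow p G)
    (hP1 : (P : Subgroup G) ≠ ⊥) (hPn : (P : Subgroup G).Normal) :
    Cfsg.fittingHall G ≠ ⊥ ∧ Cfsg.fittingHall G ≠ ⊤ ∧
      (∃ E : Subgroup G, Subgroup.IsComplement' (Cfsg.fittingHall G) E ∧ Cfsg.IsFrobeniusComplement E ∧
        ∀ e ∈ E, e ≠ 1 → Cfsg.fittingHall G ⊓ Subgroup.centralizer ({e} : Set G) = ⊥) ∧
      Group.IsNilpotent (G ⧸ Cfsg.fittingHall G) := by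
  have hp : p.Prime := Fact.out
  haveI := hPn
  obtain ⟨Z, hZdef⟩ : ∃ Z : Subgroup G,
      Z = (P : Subgroup G) ⊓ Subgroup.centralizer ((P : Subgroup G) : Set G) := ⟨_, rfl⟩
  haveI hZn : Z.Normal := by rw [hZdef]; infer_instance
  have hZP : Z ≤ (P : Subgroup G) := by rw [hZdef]; exact inf_le_left
  have hZcent : ∀ v ∈ Z, ∀ h ∈ (P : Subgroup G), h * v = v * h := by
    intro v hv h hh
    rw [hZdef] at hv
    exact Subgroup.mem_centralizer_iff.mp (Subgroup.mem_inf.mp hv).2 h hh
  have hZab : ∀ a ∈ Z, ∀ b ∈ Z, a * b = b * a := fun a ha b hb => hZcent b hb a (hZP ha)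
  haveI hPnil : Group.IsNilpotent (P : Subgroup G) := P.isPGroup'.isNilpotent
  haveI hPnt : Nontrivial (P : Subgroup G) := (Subgroup.nontrivial_iff_ne_bot _).mpr hP1
  obtain ⟨z₀, -, hz₀1, hz₀c⟩ := inf_center_ne_bot (⊤ : Subgroup (P : Subgroup G)) top_ne_bot
  have hz₀Z : (z₀ : G) ∈ Z := by
    rw [hZdef]
    refine Subgroup.mem_inf.mpr ⟨z₀.2, ?_⟩
    rw [Subgroup.mem_centralizer_iff]
    intro h hh
    exact congrArg Subtype.val (hz₀c ⟨h, hh⟩)
  have hz₀1' : (z₀ : G) ≠ 1 := fun h => hz₀1 (Subtype.ext h)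
  have hZ : Z ≠ ⊥ := by
    intro h; rw [h, Subgroup.mem_bot] at hz₀Z; exact hz₀1' hz₀Z
  obtain ⟨C, hCdef⟩ : ∃ C : Subgroup G, C = Subgroup.centralizer (Z : Set G) := ⟨_, rfl⟩
  haveI hCn : C.Normal := by rw [hCdef]; infer_instance
  have hCmem : ∀ c : G, c ∈ C ↔ ∀ v ∈ Z, v * c = c * v := by
    intro c; rw [hCdef, Subgroup.mem_centralizer_iff]; exact Iff.rfl
  have hPC : (P : Subgroup G) ≤ C := by
    intro x hx
    rw [hCmem]
    intro v hv
    exact (hZcent v hv x hx).symm
  have hZC : Z ≤ C := hZP.trans hPC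
  have hCnil : Group.IsNilpotent C := by
    refine isNilpotent_of_le' ?_ (hCN (z₀ : G) hz₀1')
    intro c hc
    rw [Subgroup.mem_centralizer_singleton_iff]
    exact ((hCmem c).mp hc (z₀ : G) hz₀Z).symm
  have hpel : ∀ y : G, (∃ k, orderOf y = p ^ k) → y ∈ (P : Subgroup G) := by
    rintro y ⟨k, hk⟩
    have hpg : IsPGroup p (Subgroup.zpowers y) := by
      apply IsPGroup.of_card (n := k); rw [Nat.card_zpowers, hk]
    obtain ⟨S, hS⟩ := hpg.exists_le_sylow
    have h1 : (P : Subgroup G) ≤ S := IsPGroup.le_sylow_of_normal P.isPGroup' S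
    have h2 : (S : Subgroup G) = P := P.is_maximal' S.isPGroup' h1
    rw [← h2]; exact hS (Subgroup.mem_zpowers y)
  have hPord : ∀ v ∈ (P : Subgroup G), ∃ j, orderOf v = p ^ j := by
    intro v hvP
    obtain ⟨j, hj⟩ := (IsPGroup.iff_orderOf.mp P.isPGroup') ⟨v, hvP⟩
    exact ⟨j, by rw [← hj, Subgroup.orderOf_mk]⟩
  have hover : ∀ L : Subgroup G, Group.IsNilpotent L → (P : Subgroup G) ≤ L → L ≤ C := by
    intro L hL hPL m hm
    obtain ⟨a, b, hab, hpa, hpb⟩ := exists_decomp_pow p hp m
    have h1 : m ^ a ∈ C := hPC (hpel _ hpa)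
    have h2 : m ^ b ∈ C := by
      rw [hCmem]
      intro v hv
      exact comm_of_nilpotent L hL (hPL (hZP hv)) (L.pow_mem hm b) (hPord v (hZP hv)) hpb
    rw [hab]; exact C.mul_mem h1 h2
  have hmax : ∀ L : Subgroup G, Group.IsNilpotent L → C ≤ L → L = C :=
    fun L hL hCL => le_antisymm (hover L hL (hPC.trans hCL)) hCL
  have hhall : (Nat.card C).Coprime C.index := Cfsg.Agent.S1477.hall hCN C hCnil hmax
  have hpC : p ∣ Nat.card C := by
    obtain ⟨j, hj⟩ := (IsPGroup.iff_orderOf.mp P.isPGroup') z₀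
    have hj0 : j ≠ 0 := by
      rintro rfl; rw [pow_zero] at hj; exact hz₀1 (orderOf_eq_one_iff.mp hj)
    have h1 : p ∣ Nat.card (P : Subgroup G) :=
      (dvd_pow_self p hj0).trans (hj ▸ orderOf_dvd_natCard z₀)
    exact h1.trans (Subgroup.card_dvd_of_le hPC)
  have hFH : Cfsg.fittingHall G = C := by
    apply le_antisymm
    · apply sSup_le
      rintro N ⟨hNn, hNnil, hNcop⟩
      by_cases hpN : p ∣ Nat.card N
      · have hpi : ¬ p ∣ N.index := by
          intro h
          exact hp.one_lt.ne' (Nat.eq_one_of_dvd_coprimes hNcop hpN h)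
        have hPN : (P : Subgroup G) ≤ N := by
          intro y hy
          haveI := hNn
          have h1 : y ^ N.index ∈ N := Subgroup.pow_index_mem N y
          obtain ⟨j, hj'⟩ := hPord y hy
          have hc : (N.index).Coprime (orderOf y) := by
            rw [hj']
            exact (Nat.Coprime.pow_left j ((Nat.Prime.coprime_iff_not_dvd hp).mpr hpi)).symm
          obtain ⟨m, hm⟩ := exists_pow_eq_self_of_coprime hc
          rw [← hm]; exact N.pow_mem h1 m
        exact hover N hNnil hPN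
      · intro n hn
        rw [hCmem]
        intro v hv
        have hvP : v ∈ (P : Subgroup G) := hZP hv
        have h1 : n * v * n⁻¹ * v⁻¹ ∈ N := by
          have h := hNn.conj_mem n⁻¹ (N.inv_mem hn) v
          have e : n * v * n⁻¹ * v⁻¹ = n * (v * n⁻¹ * v⁻¹) := by group
          rw [e]; exact N.mul_mem hn h
        have h2 : n * v * n⁻¹ * v⁻¹ ∈ (P : Subgroup G) := by
          have h := hPn.conj_mem v hvP n
          exact (P : Subgroup G).mul_mem h ((P : Subgroup G).inv_mem hvP)
        have h3 : n * v * n⁻¹ * v⁻¹ = 1 := by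
          obtain ⟨j, hj'⟩ := hPord _ h2
          have hd : orderOf (n * v * n⁻¹ * v⁻¹) ∣ Nat.card N := by
            have h := orderOf_dvd_natCard (⟨_, h1⟩ : N)
            rwa [Subgroup.orderOf_mk] at h
          have hcop : (p ^ j).Coprime (Nat.card N) :=
            Nat.Coprime.pow_left j ((Nat.Prime.coprime_iff_not_dvd hp).mpr hpN)
          rw [hj'] at hd
          have h4 := Nat.Coprime.eq_one_of_dvd hcop hd
          rw [← hj'] at h4
          exact orderOf_eq_one_iff.mp h4
        calc v * n = (n * v * n⁻¹ * v⁻¹)⁻¹ * (n * v) := by group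
          _ = n * v := by rw [h3, inv_one, one_mul]
    · exact le_sSup ⟨hCn, hCnil, hhall⟩
  have key : ∀ (F : Subgroup G) [hFn : F.Normal], F = C →
      F ≠ ⊥ ∧ F ≠ ⊤ ∧
      (∃ E : Subgroup G, Subgroup.IsComplement' F E ∧ Cfsg.IsFrobeniusComplement E ∧
        ∀ e ∈ E, e ≠ 1 → F ⊓ Subgroup.centralizer ({e} : Set G) = ⊥) ∧
      Group.IsNilpotent (G ⧸ F) := by
    intro F hFn hF
    subst hF
    have hC1 : F ≠ ⊥ := fun h => hP1 (le_bot_iff.mp (h ▸ hPC))
    have hC2 : F ≠ ⊤ := by
      intro h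
      apply hnn
      haveI h1 : Group.IsNilpotent (⊤ : Subgroup G) := h ▸ hCnil
      exact Group.nilpotent_of_mulEquiv (Subgroup.topEquiv (G := G))
    obtain ⟨E, hE⟩ := Subgroup.exists_right_complement'_of_coprime hhall
    have hEC : (Nat.card E).Coprime (Nat.card F) := by
      rw [← hE.symm.index_eq_card]; exact hhall.symm
    have hECinf : F ⊓ E = ⊥ := hE.disjoint.eq_bot
    have hfpf : ∀ e ∈ E, e ≠ 1 → F ⊓ Subgroup.centralizer ({e} : Set G) = ⊥ := by
      intro e he he1
      rw [eq_bot_iff]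
      intro h hh
      rw [Subgroup.mem_bot]
      by_contra hh1
      obtain ⟨hhC, hhe⟩ := Subgroup.mem_inf.mp hh
      rw [Subgroup.mem_centralizer_singleton_iff] at hhe
      have hnil := hCN h hh1
      have heC : e ∈ F := by
        rw [hCmem]
        intro v hv
        have hvh : v ∈ Subgroup.centralizer ({h} : Set G) := by
          rw [Subgroup.mem_centralizer_singleton_iff]
          exact (hCmem h).mp hhC v hv
        have heh : e ∈ Subgroup.centralizer ({h} : Set G) :=
          Subgroup.mem_centralizer_singleton_iff.mpr hhe.symm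
        have hep : (orderOf e).Coprime p := by
          have h1 : orderOf e ∣ Nat.card E := by
            have h := orderOf_dvd_natCard (⟨e, he⟩ : E)
            rwa [Subgroup.orderOf_mk] at h
          exact Nat.Coprime.coprime_dvd_left h1 (Nat.Coprime.coprime_dvd_right hpC hEC)
        exact comm_of_nilpotent _ hnil hvh heh (hPord v (hZP hv)) hep
      have h5 : e ∈ F ⊓ E := Subgroup.mem_inf.mpr ⟨heC, he⟩
      rw [hECinf, Subgroup.mem_bot] at h5
      exact he1 h5
    have hE1 : E ≠ ⊥ := by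
      intro h
      subst h
      exact hC2 (Subgroup.isComplement'_bot_right.mp hE)
    have hFrob : Cfsg.IsFrobeniusComplement E :=
      (Cfsg.Agent.S0039.result F E hE hC1 hE1).mpr hfpf
    have hEnil : Group.IsNilpotent E :=
      compl_nilpotent hCN F Z E hZ hZC hZab hE
        (Nat.Coprime.coprime_dvd_right (Subgroup.card_dvd_of_le hZC) hEC) hfpf
    refine ⟨hC1, hC2, ⟨E, hE, hFrob, hfpf⟩, ?_⟩
    have hsurj : Function.Surjective ((QuotientGroup.mk' F).comp E.subtype) := by
      intro q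
      obtain ⟨g, rfl⟩ := QuotientGroup.mk'_surjective F q
      obtain ⟨⟨c, e⟩, hce⟩ := hE.2 g
      have hce' : (c : G) * (e : G) = g := hce
      refine ⟨e, ?_⟩
      show QuotientGroup.mk' F (e : G) = QuotientGroup.mk' F g
      rw [QuotientGroup.mk'_apply, QuotientGroup.mk'_apply, QuotientGroup.eq, ← hce']
      have h := hFn.conj_mem (c : G) c.2 (e : G)⁻¹
      have e1 : (e : G)⁻¹ * ((c : G) * (e : G)) = (e : G)⁻¹ * (c : G) * (e : G)⁻¹⁻¹ := by group
      rw [e1]; exact h
    exact Group.nilpotent_of_surjective _ hsurj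
  exact key (Cfsg.fittingHall G) hFH

end Cfsg.Agent.S1474
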