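import Cfsg.Statements.S1498
import Mathlib.GroupTheory.Complement
import Mathlib.GroupTheory.Index
import Mathlib.GroupTheory.OrderOfElement

set_option autoImplicit false
open Cfsg

namespace Cfsg.Agent.S1498

theorem mem_of_coprime_of_normal_compl {C : Type*} [Group C] [Finite C] (H' L' : Subgroup C)
    [H'.Normal] (hinf : H' ⊓ L' = ⊥) (hsup : H' ⊔ L' = ⊤) (k : C)
    (hk : (orderOf k).Coprime (Nat.card L')) : k ∈ H' := by
  have hcompl : Subgroup.IsComplement' H' L' := by
    apply Subgroup.isComplement'_of_disjoint_and_mul_eq_univ (disjoint_iff.mpr hinf)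
    rw [← Subgroup.normal_mul, hsup]
    rfl
  have hidx : H'.index = Nat.card L' := hcompl.symm.index_eq_card
  have h1 : orderOf (QuotientGroup.mk' H' k) ∣ orderOf k := orderOf_map_dvd _ k
  have h2 : orderOf (QuotientGroup.mk' H' k) ∣ Nat.card L' := by
    rw [← hidx, Subgroup.index]
    exact orderOf_dvd_natCard _
  have h3 : orderOf (QuotientGroup.mk' H' k) = 1 := Nat.eq_one_of_dvd_coprimes hk h1 h2
  exact (QuotientGroup.eq_one_iff k).mp (orderOf_eq_one_iff.mp h3)

theorem key {G : Type*} [Group G] [Finite G] (A : Set G) (L : Subgroup G) (H : G → Subgroup G)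
    (hD : Cfsg.DadeHypothesis A L H) (a : G) (ha : a ∈ A) (x : G) (hx : x ∈ L) :
    (H a).map (MulAut.conj x).toMonoidHom ≤ H (x * a * x⁻¹) := by
  rintro _ ⟨u, hu, rfl⟩
  have hb : x * a * x⁻¹ ∈ A := hD.conj_mem x hx a ha
  set b := x * a * x⁻¹ with hb_def
  have hkC : (MulAut.conj x).toMonoidHom u ∈ Subgroup.centralizer ({b} : Set G) := by
    rw [Subgroup.mem_centralizer_singleton_iff]
    have hua : u * a = a * u := by
      have := hD.le_centralizer a ha hu
      rw [Subgroup.mem_centralizer_singleton_iff] at this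
      exact this
    show x * u * x⁻¹ * b = b * (x * u * x⁻¹)
    rw [hb_def]
    calc x * u * x⁻¹ * (x * a * x⁻¹) = x * (u * a) * x⁻¹ := by group
      _ = x * (a * u) * x⁻¹ := by rw [hua]
      _ = x * a * x⁻¹ * (x * u * x⁻¹) := by group
  let C := Subgroup.centralizer ({b} : Set G)
  let H' : Subgroup C := (H b).subgroupOf C
  let L' : Subgroup C := (L ⊓ C).subgroupOf C
  haveI : H'.Normal := by
    constructor
    intro n hn g
    rw [Subgroup.mem_subgroupOf] at hn ⊢
    exact hD.conj_mem_H b hb g g.2 n hn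
  have hinf : H' ⊓ L' = ⊥ := by
    rw [eq_bot_iff]
    rintro ⟨c, hc⟩ ⟨h1, h2⟩
    have h1 : c ∈ H b := Subgroup.mem_subgroupOf.mp h1
    have h2 : c ∈ L ⊓ Subgroup.centralizer ({b} : Set G) := Subgroup.mem_subgroupOf.mp h2
    have : c ∈ H b ⊓ (L ⊓ Subgroup.centralizer ({b} : Set G)) := ⟨h1, h2⟩
    rw [hD.inf_eq_bot b hb, Subgroup.mem_bot] at this
    rw [Subgroup.mem_bot]
    exact Subtype.ext this
  have hsup : H' ⊔ L' = ⊤ := by
    have hle1 : H b ≤ C := hD.le_centralizer b hb
    have hle2 : L ⊓ C ≤ C := inf_le_right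
    rw [← Subgroup.subgroupOf_sup hle1 hle2, hD.sup_eq b hb]
    exact Subgroup.subgroupOf_self _
  have hcardL : Nat.card L' = Nat.card ↥(L ⊓ Subgroup.centralizer ({b} : Set G)) :=
    Nat.card_congr (Subgroup.subgroupOfEquivOfLe (inf_le_right)).toEquiv
  have hord : orderOf (⟨(MulAut.conj x).toMonoidHom u, hkC⟩ : C) = orderOf u := by
    rw [← Subgroup.orderOf_coe]
    exact MulEquiv.orderOf_eq (MulAut.conj x) u
  have hcop : (orderOf (⟨(MulAut.conj x).toMonoidHom u, hkC⟩ : C)).Coprime (Nat.card L') := by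
    rw [hord, hcardL]
    exact Nat.Coprime.coprime_dvd_left ((H a).orderOf_dvd_natCard hu) (hD.coprime a ha b hb)
  have := mem_of_coprime_of_normal_compl H' L' hinf hsup ⟨_, hkC⟩ hcop
  exact Subgroup.mem_subgroupOf.mp this

theorem result {G : Type*} [Group G] [Finite G] (A : Set G) (L : Subgroup G) (H : G → Subgroup G) (hD : Cfsg.DadeHypothesis A L H) (a : G) (ha : a ∈ A) (x : G) (hx : x ∈ L) : H (x * a * x⁻¹) = (H a).map (MulAut.conj x).toMonoidHom := by
  apply le_antisymm
  · have hb : x * a * x⁻¹ ∈ A := hD.conj_mem x hx a ha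
    have h := key A L H hD (x * a * x⁻¹) hb x⁻¹ (L.inv_mem hx)
    have e : x⁻¹ * (x * a * x⁻¹) * x⁻¹⁻¹ = a := by group
    rw [e] at h
    intro v hv
    refine ⟨x⁻¹ * v * x, ?_, ?_⟩
    · apply h
      refine ⟨v, hv, ?_⟩
      simp
    · simp [MulAut.conj_apply, mul_assoc]
  · exact key A L H hD a ha x hx

end Cfsg.Agent.S1498
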