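import Cfsg.Statements.S1499
import Mathlib.GroupTheory.OrderOfElement
import Mathlib.Data.Nat.ModEq

set_option autoImplicit false
open Cfsg

namespace Cfsg.Agent.S1499

theorem pow_split {G : Type*} [Group G] (a u : G) (hau : a * u = u * a) (k : ℕ)
    (h1 : k ≡ 1 [MOD orderOf a]) (h0 : k ≡ 0 [MOD orderOf u]) : (a * u) ^ k = a := by
  have hc : Commute a u := hau
  rw [hc.mul_pow]
  have e1 : a ^ k = a ^ 1 := pow_eq_pow_iff_modEq.mpr h1
  have e2 : u ^ k = u ^ 0 := pow_eq_pow_iff_modEq.mpr h0
  rw [e1, e2]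
  simp

theorem orders {G : Type*} [Group G] [Finite G] (A : Set G) (L : Subgroup G) (H : G → Subgroup G)
    (hD : Cfsg.DadeHypothesis A L H) (a b : G) (ha : a ∈ A) (hb : b ∈ A) (u : G) (hu : u ∈ H a) :
    (orderOf b).Coprime (orderOf u) := by
  have hbm : b ∈ L ⊓ Subgroup.centralizer ({b} : Set G) :=
    ⟨hD.subset hb, Subgroup.mem_centralizer_singleton_iff.mpr rfl⟩
  have h1 : orderOf b ∣ Nat.card ↥(L ⊓ Subgroup.centralizer ({b} : Set G)) :=
    Subgroup.orderOf_dvd_natCard _ hbm
  have h2 : orderOf u ∣ Nat.card (H a) := Subgroup.orderOf_dvd_natCard _ hu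
  exact (Nat.Coprime.coprime_dvd_left h2 (Nat.Coprime.coprime_dvd_right h1 (hD.coprime a ha b hb))).symm

theorem comm_of_mem {G : Type*} [Group G] (A : Set G) (L : Subgroup G) (H : G → Subgroup G)
    (hD : Cfsg.DadeHypothesis A L H) (a : G) (ha : a ∈ A) (u : G) (hu : u ∈ H a) :
    a * u = u * a := by
  have := hD.le_centralizer a ha hu
  rw [Subgroup.mem_centralizer_singleton_iff] at this
  exact this.symm

theorem result {G : Type*} [Group G] [Finite G] (A : Set G) (L : Subgroup G) (H : G → Subgroup G) (hD : Cfsg.DadeHypothesis A L H) (a b : G) (ha : a ∈ A) (hb : b ∈ A) : ((∃ u ∈ H a, ∃ v ∈ H b, ∃ g : G, g * (a * u) * g⁻¹ = b * v) → ∃ x ∈ L, x * a * x⁻¹ = b) ∧ Subgroup.normalizer ((fun u : G => a * u) '' (H a : Set G)) = Subgroup.centralizer ({a} : Set G) := by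
  constructor
  · rintro ⟨u, hu, v, hv, g, hg⟩
    have c1 : (orderOf a * orderOf b).Coprime (orderOf u * orderOf v) := by
      apply Nat.Coprime.mul_left
      · exact Nat.Coprime.mul_right (orders A L H hD a a ha ha u hu) (orders A L H hD b a hb ha v hv)
      · exact Nat.Coprime.mul_right (orders A L H hD a b ha hb u hu) (orders A L H hD b b hb hb v hv)
    obtain ⟨k, hk1, hk0⟩ := Nat.chineseRemainder c1 1 0
    have e1 : (a * u) ^ k = a := pow_split a u (comm_of_mem A L H hD a ha u hu) k
      (hk1.of_mul_right _) (hk0.of_mul_right _)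
    have e2 : (b * v) ^ k = b := pow_split b v (comm_of_mem A L H hD b hb v hv) k
      (hk1.of_mul_left _) (hk0.of_mul_left _)
    have hgab : g * a * g⁻¹ = b := by
      calc g * a * g⁻¹ = g * (a * u) ^ k * g⁻¹ := by rw [e1]
        _ = (g * (a * u) * g⁻¹) ^ k := by rw [conj_pow]
        _ = (b * v) ^ k := by rw [hg]
        _ = b := e2
    obtain ⟨x, hx, hxa⟩ := hD.fusion a ha g (by rw [hgab]; exact hb)
    exact ⟨x, hx, hxa.trans hgab⟩
  · apply le_antisymm
    · intro g hg
      have hmem : a ∈ (fun u : G => a * u) '' (H a : Set G) := ⟨1, (H a).one_mem, mul_one a⟩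
      obtain ⟨u, hu, hgu⟩ := (Subgroup.mem_set_normalizer_iff.mp hg a).mp hmem
      have hu' : u ∈ H a := hu
      have c1 : (orderOf a).Coprime (orderOf u) := orders A L H hD a a ha ha u hu'
      obtain ⟨k, hk1, hk0⟩ := Nat.chineseRemainder c1 1 0
      have e1 : (a * u) ^ k = a := pow_split a u (comm_of_mem A L H hD a ha u hu') k hk1 hk0
      have ho : orderOf (g * a * g⁻¹) = orderOf a := MulEquiv.orderOf_eq (MulAut.conj g) a
      have e2 : (g * a * g⁻¹) ^ k = g * a * g⁻¹ := by
        have : (g * a * g⁻¹) ^ k = (g * a * g⁻¹) ^ 1 := by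
          rw [pow_eq_pow_iff_modEq, ho]
          exact hk1
        simpa using this
      have hfin : g * a * g⁻¹ = a := by
        rw [← e2]
        have hgu' : a * u = g * a * g⁻¹ := hgu
        rw [← hgu', e1]
      rw [Subgroup.mem_centralizer_singleton_iff]
      calc g * a = g * a * g⁻¹ * g := by group
        _ = a * g := by rw [hfin]
    · intro c hc
      have hca : c * a = a * c := Subgroup.mem_centralizer_singleton_iff.mp hc
      have hca' : c⁻¹ * a = a * c⁻¹ :=
        Subgroup.mem_centralizer_singleton_iff.mp (Subgroup.inv_mem _ hc)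
      rw [Subgroup.mem_set_normalizer_iff]
      intro h
      constructor
      · rintro ⟨u, hu, rfl⟩
        refine ⟨c * u * c⁻¹, hD.conj_mem_H a ha c hc u hu, ?_⟩
        show a * (c * u * c⁻¹) = c * (a * u) * c⁻¹
        calc a * (c * u * c⁻¹) = (a * c) * u * c⁻¹ := by group
          _ = c * (a * u) * c⁻¹ := by rw [← hca]; group
      · rintro ⟨u, hu, hcu⟩
        have hcu' : a * u = c * h * c⁻¹ := hcu
        refine ⟨c⁻¹ * u * c, ?_, ?_⟩
        · have := hD.conj_mem_H a ha c⁻¹ (Subgroup.inv_mem _ hc) u hu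
          simpa using this
        · show a * (c⁻¹ * u * c) = h
          calc a * (c⁻¹ * u * c) = (a * c⁻¹) * u * c := by group
            _ = c⁻¹ * (a * u) * c := by rw [← hca']; group
            _ = c⁻¹ * (c * h * c⁻¹) * c := by rw [hcu']
            _ = h := by group

end Cfsg.Agent.S1499
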