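import Cfsg.Statements.S0395
import Cfsg.Agent.Lib.Helper11.LeechGF

set_option autoImplicit false
open Cfsg

namespace Cfsg.Agent.S0395

open Cfsg.Agent.Lib.Helper11.LeechGF in
theorem num : gw (fun _ => 0) 48 {0} 0 + 759 * gw (fun _ => 0) 48 {0} 8 +
    2576 * gw (fun _ => 0) 48 {0} 12 + 759 * gw (fun _ => 0) 48 {0} 16 +
    gw (fun _ => 0) 48 {0} 24 = 16773120 := by
  decide +kernel

theorem result : {x : Cfsg.GolayPt → ℤ | x ∈ Cfsg.leechLattice ∧ Cfsg.sqNorm x = 48}.ncard = 16773120 := by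
  have h := Cfsg.Agent.Lib.Helper11.LeechGF.count_eval (fun _ => 0) (fun _ => Nat.zero_le 1) 48
    (by norm_num) {0} (by simp)
  rw [num] at h
  rw [← h]
  congr 1
  ext x
  simp

end Cfsg.Agent.S0395
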