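import Cfsg.Statements.S1588

set_option autoImplicit false
open Matrix
open Cfsg

namespace Cfsg.Agent.S1588

/-- The bilinear form of `B`. -/
def bl (B : Matrix (Fin 24) (Fin 24) ℤ) (x y : Fin 24 → ℤ) : ℤ := x ⬝ᵥ (B *ᵥ y)

theorem bl_symm (B : Matrix (Fin 24) (Fin 24) ℤ) (hsymm : B.IsSymm) (x y : Fin 24 → ℤ) :
    bl B x y = bl B y x := by
  unfold bl
  rw [Matrix.dotProduct_mulVec, ← Matrix.vecMul_transpose, hsymm.eq]
  exact dotProduct_comm _ _

theorem bl_add_left (B : Matrix (Fin 24) (Fin 24) ℤ) (x y z : Fin 24 → ℤ) :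
    bl B (x + y) z = bl B x z + bl B y z := by
  unfold bl; rw [add_dotProduct]

theorem bl_add_right (B : Matrix (Fin 24) (Fin 24) ℤ) (x y z : Fin 24 → ℤ) :
    bl B x (y + z) = bl B x y + bl B x z := by
  unfold bl; rw [Matrix.mulVec_add, dotProduct_add]

theorem bl_smul_left (B : Matrix (Fin 24) (Fin 24) ℤ) (a : ℤ) (x y : Fin 24 → ℤ) :
    bl B (a • x) y = a * bl B x y := by
  unfold bl; rw [smul_dotProduct, smul_eq_mul]

theorem bl_smul_right (B : Matrix (Fin 24) (Fin 24) ℤ) (a : ℤ) (x y : Fin 24 → ℤ) :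
    bl B x (a • y) = a * bl B x y := by
  unfold bl; rw [Matrix.mulVec_smul, dotProduct_smul, smul_eq_mul]

theorem bl_neg_left (B : Matrix (Fin 24) (Fin 24) ℤ) (x y : Fin 24 → ℤ) :
    bl B (-x) y = - bl B x y := by
  unfold bl; rw [neg_dotProduct]

theorem bl_neg_right (B : Matrix (Fin 24) (Fin 24) ℤ) (x y : Fin 24 → ℤ) :
    bl B x (-y) = - bl B x y := by
  unfold bl; rw [Matrix.mulVec_neg, dotProduct_neg]

theorem bl_zero_left (B : Matrix (Fin 24) (Fin 24) ℤ) (y : Fin 24 → ℤ) :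
    bl B 0 y = 0 := by
  unfold bl; rw [zero_dotProduct]

/-- Nonzero vectors have norm at least 4. -/
theorem four_le (B : Matrix (Fin 24) (Fin 24) ℤ)
    (hpos : ∀ x : Fin 24 → ℤ, x ≠ 0 → 0 < x ⬝ᵥ (B *ᵥ x))
    (heven : ∀ x : Fin 24 → ℤ, (2 : ℤ) ∣ x ⬝ᵥ (B *ᵥ x))
    (h2 : ∀ x : Fin 24 → ℤ, x ⬝ᵥ (B *ᵥ x) ≠ 2) (z : Fin 24 → ℤ) (hz : z ≠ 0) :
    4 ≤ bl B z z := by
  have h1 := hpos z hz
  have h3 := h2 z
  obtain ⟨k, hk⟩ := heven z
  unfold bl
  omega

/-- The key lemma: two short vectors congruent mod 2, not equal up to sign, are orthogonal of norm 8. -/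
theorem key (B : Matrix (Fin 24) (Fin 24) ℤ) (hsymm : B.IsSymm)
    (hpos : ∀ x : Fin 24 → ℤ, x ≠ 0 → 0 < x ⬝ᵥ (B *ᵥ x))
    (heven : ∀ x : Fin 24 → ℤ, (2 : ℤ) ∣ x ⬝ᵥ (B *ᵥ x))
    (h2 : ∀ x : Fin 24 → ℤ, x ⬝ᵥ (B *ᵥ x) ≠ 2) (x y : Fin 24 → ℤ)
    (hx : bl B x x ≤ 8) (hy : bl B y y ≤ 8) (hc : ∀ i, (2 : ℤ) ∣ (x - y) i)
    (hne : y ≠ x) (hne' : y ≠ -x) :
    bl B x x = 8 ∧ bl B y y = 8 ∧ bl B x y = 0 := by
  choose z hz using hc
  have hxy : x = y + (2 : ℤ) • z := by
    funext i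
    have := hz i
    simp only [Pi.sub_apply] at this
    simp only [Pi.add_apply, Pi.smul_apply, smul_eq_mul]
    omega
  have hz0 : z ≠ 0 := by
    rintro rfl
    apply hne
    rw [hxy]; simp
  have hw0 : z + y ≠ 0 := by
    intro h
    apply hne'
    have hz' : z = -y := eq_neg_of_add_eq_zero_left h
    rw [hxy, hz']
    funext i
    simp only [Pi.add_apply, Pi.smul_apply, Pi.neg_apply, smul_eq_mul]
    ring
  have e1 := four_le B hpos heven h2 z hz0
  have e2 := four_le B hpos heven h2 (z + y) hw0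
  have s1 := bl_symm B hsymm z y
  have hxx : bl B x x = bl B y y + 4 * bl B y z + 4 * bl B z z := by
    rw [hxy]
    simp only [bl_add_left, bl_add_right, bl_smul_left, bl_smul_right]
    rw [s1]; ring
  have hxy' : bl B x y = bl B y y + 2 * bl B y z := by
    rw [hxy]
    simp only [bl_add_left, bl_add_right, bl_smul_left, bl_smul_right]
    rw [s1]
  have hww : bl B (z + y) (z + y) = bl B z z + 2 * bl B y z + bl B y y := by
    simp only [bl_add_left, bl_add_right]
    rw [s1]; ring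
  refine ⟨?_, ?_, ?_⟩ <;> omega

/-- Reduction mod 2. -/
def cls (x : Fin 24 → ℤ) : Fin 24 → ZMod 2 := fun i => (x i : ZMod 2)

theorem cls_eq_iff (x y : Fin 24 → ℤ) : cls x = cls y ↔ ∀ i, (2 : ℤ) ∣ (x - y) i := by
  unfold cls
  rw [funext_iff]
  refine forall_congr' fun i => ?_
  rw [eq_comm, ZMod.intCast_eq_intCast_iff_dvd_sub]
  simp

theorem cls_neg (x : Fin 24 → ℤ) : cls (-x) = cls x := by
  rw [cls_eq_iff]
  intro i
  simp only [Pi.sub_apply, Pi.neg_apply]
  omega

/-- The functional `bl B z` as a linear map. -/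
def blL (B : Matrix (Fin 24) (Fin 24) ℤ) (z : Fin 24 → ℤ) : (Fin 24 → ℤ) →ₗ[ℤ] ℤ where
  toFun v := bl B z v
  map_add' := bl_add_right B z
  map_smul' a v := by simpa using bl_smul_right B a z v

/-- Pairwise orthogonal vectors of nonzero norm: at most 24. -/
theorem card_le_of_orth (B : Matrix (Fin 24) (Fin 24) ℤ) (P : Finset (Fin 24 → ℤ))
    (hnz : ∀ y ∈ P, bl B y y ≠ 0) (horth : ∀ y ∈ P, ∀ z ∈ P, y ≠ z → bl B y z = 0) :
    P.card ≤ 24 := by
  have hli : LinearIndependent ℤ (fun y : P => (y : Fin 24 → ℤ)) := by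
    rw [linearIndependent_iff']
    intro s g hsum i hi
    have h1 := congrArg (blL B i) hsum
    rw [map_sum, map_zero] at h1
    rw [Finset.sum_eq_single i] at h1
    · simp only [map_smul, smul_eq_mul] at h1
      rcases mul_eq_zero.mp h1 with h | h
      · exact h
      · exact absurd h (hnz i i.2)
    · intro j _ hji
      simp only [map_smul, smul_eq_mul]
      have : bl B i j = 0 := horth i i.2 j j.2 (fun h => hji (Subtype.ext h.symm))
      show g j * bl B i j = 0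
      rw [this, mul_zero]
    · intro h; exact absurd hi h
  have := hli.finset_card_le_finrank
  simpa using this

/-- The positive representative of `± y`. -/
noncomputable def rep (y : Fin 24 → ℤ) : Fin 24 → ℤ :=
  haveI := Classical.dec (toLex (-y) < toLex y)
  if toLex (-y) < toLex y then y else -y

theorem rep_cases (y : Fin 24 → ℤ) : rep y = y ∨ rep y = -y := by
  unfold rep; split_ifs <;> simp

theorem rep_pos (y : Fin 24 → ℤ) (hy : y ≠ 0) : toLex (-(rep y)) < toLex (rep y) := by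
  unfold rep
  split_ifs with h
  · exact h
  · rw [neg_neg]
    have h1 : toLex y ≤ toLex (-y) := not_lt.mp h
    refine lt_of_le_of_ne h1 ?_
    intro h2
    have h3 : y = -y := toLex.injective h2
    apply hy
    funext i
    have := congrFun h3 i
    simp only [Pi.neg_apply] at this
    simp only [Pi.zero_apply]
    omega

/-- A set of norm-8 vectors, pairwise equal, opposite or orthogonal, has at most 48 elements. -/
theorem card_le_48 (B : Matrix (Fin 24) (Fin 24) ℤ) (A : Finset (Fin 24 → ℤ))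
    (h8 : ∀ y ∈ A, bl B y y = 8)
    (horth : ∀ y ∈ A, ∀ z ∈ A, z ≠ y → z ≠ -y → bl B y z = 0) : A.card ≤ 48 := by
  classical
  have hbl : ∀ y z : Fin 24 → ℤ, bl B (rep y) (rep z) = bl B y z ∨ bl B (rep y) (rep z) = - bl B y z := by
    intro y z
    rcases rep_cases y with h | h <;> rcases rep_cases z with h' | h' <;> rw [h, h'] <;>
      simp [bl_neg_left, bl_neg_right]
  have hnz : ∀ y ∈ A, y ≠ 0 := by
    intro y hy h0
    have := h8 y hy
    rw [h0, bl_zero_left] at this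
    omega
  have hP : (A.image rep).card ≤ 24 := by
    apply card_le_of_orth B
    · intro p hp
      obtain ⟨y, hy, rfl⟩ := Finset.mem_image.mp hp
      rcases hbl y y with h | h <;> rw [h, h8 y hy] <;> norm_num
    · intro p hp q hq hpq
      obtain ⟨y, hy, rfl⟩ := Finset.mem_image.mp hp
      obtain ⟨z, hz, rfl⟩ := Finset.mem_image.mp hq
      have hzy : z ≠ y := fun h => hpq (by rw [h])
      have hzy' : z ≠ -y := by
        intro h
        have h1 := rep_pos y (hnz y hy)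
        have h2 := rep_pos z (hnz z hz)
        rcases rep_cases y with e | e <;> rcases rep_cases z with e' | e'
        · rw [e] at h1; rw [e', h] at h2
          simp only [neg_neg] at h1 h2
          exact lt_asymm h1 h2
        · apply hpq; rw [e, e', h, neg_neg]
        · apply hpq; rw [e, e', h]
        · rw [e] at h1; rw [e', h] at h2
          simp only [neg_neg] at h1 h2
          exact lt_asymm h1 h2
      have := horth y hy z hz hzy hzy'
      rcases hbl y z with h | h <;> rw [h, this] <;> simp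
  have hA : A.card ≤ 2 * (A.image rep).card := by
    apply Finset.card_le_mul_card_image
    intro p _
    have : (A.filter fun x => rep x = p) ⊆ {p, -p} := by
      intro y hy
      rw [Finset.mem_filter] at hy
      rw [Finset.mem_insert, Finset.mem_singleton]
      rcases rep_cases y with e | e
      · left; rw [← hy.2, e]
      · right; rw [← hy.2, e, neg_neg]
    exact (Finset.card_le_card this).trans Finset.card_le_two
  omega

/-- The weight of a short vector. -/
noncomputable def wt (B : Matrix (Fin 24) (Fin 24) ℤ) (y : Fin 24 → ℤ) : ℕ :=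
  haveI := Classical.dec (y = 0)
  haveI := Classical.dec (bl B y y = 8)
  if y = 0 then 48 else if bl B y y = 8 then 1 else 24

theorem wt_zero (B : Matrix (Fin 24) (Fin 24) ℤ) : wt B 0 = 48 := by
  unfold wt; simp

theorem wt_eight (B : Matrix (Fin 24) (Fin 24) ℤ) (y : Fin 24 → ℤ) (h : bl B y y = 8) :
    wt B y = 1 := by
  have hy : y ≠ 0 := by
    rintro rfl
    rw [bl_zero_left] at h
    omega
  unfold wt
  rw [if_neg hy, if_pos h]

theorem wt_other (B : Matrix (Fin 24) (Fin 24) ℤ) (y : Fin 24 → ℤ) (hy : y ≠ 0)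
    (h : bl B y y ≠ 8) : wt B y = 24 := by
  unfold wt
  rw [if_neg hy, if_neg h]

theorem class_bound (B : Matrix (Fin 24) (Fin 24) ℤ) (hsymm : B.IsSymm)
    (hpos : ∀ x : Fin 24 → ℤ, x ≠ 0 → 0 < x ⬝ᵥ (B *ᵥ x))
    (heven : ∀ x : Fin 24 → ℤ, (2 : ℤ) ∣ x ⬝ᵥ (B *ᵥ x))
    (h2 : ∀ x : Fin 24 → ℤ, x ⬝ᵥ (B *ᵥ x) ≠ 2) (A : Finset (Fin 24 → ℤ))
    (hle : ∀ y ∈ A, bl B y y ≤ 8) (hcls : ∀ y ∈ A, ∀ z ∈ A, cls y = cls z) :
    ∑ y ∈ A, wt B y ≤ 48 := by
  classical
  rcases A.eq_empty_or_nonempty with hA | ⟨x, hxA⟩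
  · rw [hA]; simp
  have hk : ∀ y ∈ A, ∀ z ∈ A, z ≠ y → z ≠ -y →
      bl B y y = 8 ∧ bl B z z = 8 ∧ bl B y z = 0 := by
    intro y hy z hz h1 h2'
    exact key B hsymm hpos heven h2 y z (hle y hy) (hle z hz)
      ((cls_eq_iff y z).mp (hcls y hy z hz)) h1 h2'
  by_cases hx8 : bl B x x = 8
  · have all8 : ∀ y ∈ A, bl B y y = 8 := by
      intro y hy
      by_cases e1 : y = x
      · rw [e1]; exact hx8
      by_cases e2 : y = -x
      · rw [e2, bl_neg_left, bl_neg_right, neg_neg]; exact hx8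
      exact (hk x hxA y hy e1 e2).2.1
    have : ∑ y ∈ A, wt B y = A.card := by
      rw [Finset.card_eq_sum_ones]
      exact Finset.sum_congr rfl fun y hy => wt_eight B y (all8 y hy)
    rw [this]
    exact card_le_48 B A all8 fun y hy z hz h1 h2' => (hk y hy z hz h1 h2').2.2
  · have sub : A ⊆ {x, -x} := by
      intro y hy
      rw [Finset.mem_insert, Finset.mem_singleton]
      by_contra h
      rw [not_or] at h
      exact hx8 (hk x hxA y hy h.1 h.2).1
    by_cases hx0 : x = 0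
    · subst hx0
      have sub' : A ⊆ {0} := by
        intro y hy
        have := sub hy
        simpa using this
      calc ∑ y ∈ A, wt B y ≤ ∑ y ∈ ({0} : Finset (Fin 24 → ℤ)), wt B y :=
            Finset.sum_le_sum_of_subset sub'
        _ = 48 := by rw [Finset.sum_singleton, wt_zero]
    · have hw : ∀ y ∈ A, wt B y ≤ 24 := by
        intro y hy
        have := sub hy
        rw [Finset.mem_insert, Finset.mem_singleton] at this
        rcases this with e | e
        · rw [e, wt_other B x hx0 hx8]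
        · have hne : -x ≠ 0 := fun h => hx0 (neg_eq_zero.mp h)
          have hb : bl B (-x) (-x) ≠ 8 := by
            rw [bl_neg_left, bl_neg_right, neg_neg]; exact hx8
          rw [e, wt_other B (-x) hne hb]
      have h1 : ∑ y ∈ A, wt B y ≤ A.card • 24 := Finset.sum_le_card_nsmul A (wt B) 24 hw
      have h3 : A.card ≤ 2 := (Finset.card_le_card sub).trans Finset.card_le_two
      rw [smul_eq_mul] at h1
      omega

theorem result (B : Matrix (Fin 24) (Fin 24) ℤ) (hsymm : B.IsSymm) (hpos : ∀ x : Fin 24 → ℤ, x ≠ 0 → 0 < x ⬝ᵥ (B *ᵥ x)) (heven : ∀ x : Fin 24 → ℤ, (2 : ℤ) ∣ x ⬝ᵥ (B *ᵥ x)) (h2 : ∀ x : Fin 24 → ℤ, x ⬝ᵥ (B *ᵥ x) ≠ 2) (h4 : {x : Fin 24 → ℤ | x ⬝ᵥ (B *ᵥ x) = 4}.ncard = 196560) (h6 : {x : Fin 24 → ℤ | x ⬝ᵥ (B *ᵥ x) = 6}.ncard = 16773120) (h8 : {x : Fin 24 → ℤ | x ⬝ᵥ (B *ᵥ x) = 8}.ncard = 398034000) (x : Fin 24 → ℤ) (hx : x ⬝ᵥ (B *ᵥ x) = 8) : {y : Fin 24 → ℤ | y ⬝ᵥ (B *ᵥ y) = 8 ∧ ∀ i, (2 : ℤ) ∣ (x - y) i}.ncard = 48 := by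
  classical
  have hfin : ∀ k : ℤ, ({x : Fin 24 → ℤ | x ⬝ᵥ (B *ᵥ x) = k}.ncard ≠ 0) →
      {x : Fin 24 → ℤ | x ⬝ᵥ (B *ᵥ x) = k}.Finite :=
    fun k h => Set.finite_of_ncard_ne_zero h
  have f4 := hfin 4 (by rw [h4]; norm_num)
  have f6 := hfin 6 (by rw [h6]; norm_num)
  have f8 := hfin 8 (by rw [h8]; norm_num)
  have c4 : f4.toFinset.card = 196560 := by rw [← h4, Set.ncard_eq_toFinset_card _ f4]
  have c6 : f6.toFinset.card = 16773120 := by rw [← h6, Set.ncard_eq_toFinset_card _ f6]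
  have c8 : f8.toFinset.card = 398034000 := by rw [← h8, Set.ncard_eq_toFinset_card _ f8]
  have m4 : ∀ y, y ∈ f4.toFinset ↔ bl B y y = 4 := fun y => by
    rw [Set.Finite.mem_toFinset]; rfl
  have m6 : ∀ y, y ∈ f6.toFinset ↔ bl B y y = 6 := fun y => by
    rw [Set.Finite.mem_toFinset]; rfl
  have m8 : ∀ y, y ∈ f8.toFinset ↔ bl B y y = 8 := fun y => by
    rw [Set.Finite.mem_toFinset]; rfl
  generalize f4.toFinset = F4 at c4 m4
  generalize f6.toFinset = F6 at c6 m6
  generalize f8.toFinset = F8 at c8 m8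
  have hT : ∀ y, y ∈ insert 0 (F4 ∪ F6 ∪ F8) ↔
      (y = 0 ∨ bl B y y = 4 ∨ bl B y y = 6 ∨ bl B y y = 8) := by
    intro y
    rw [Finset.mem_insert, Finset.mem_union, Finset.mem_union, m4, m6, m8, or_assoc]
  have hTle : ∀ y ∈ insert 0 (F4 ∪ F6 ∪ F8), bl B y y ≤ 8 := by
    intro y hy
    rcases (hT y).mp hy with h | h | h | h
    · rw [h, bl_zero_left]; norm_num
    all_goals omega
  have hsum : ∑ y ∈ insert 0 (F4 ∪ F6 ∪ F8), wt B y = 48 * 2 ^ 24 := by
    have d0 : (0 : Fin 24 → ℤ) ∉ F4 ∪ F6 ∪ F8 := by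
      rw [Finset.mem_union, Finset.mem_union, m4, m6, m8, bl_zero_left]
      omega
    have d1 : Disjoint (F4 ∪ F6) F8 := by
      rw [Finset.disjoint_left]; intro y hy hy'
      rw [Finset.mem_union, m4, m6] at hy; rw [m8] at hy'; omega
    have d2 : Disjoint F4 F6 := by
      rw [Finset.disjoint_left]; intro y hy hy'
      rw [m4] at hy; rw [m6] at hy'; omega
    rw [Finset.sum_insert d0, Finset.sum_union d1, Finset.sum_union d2, wt_zero]
    have hne : ∀ y : Fin 24 → ℤ, bl B y y ≠ 0 → y ≠ 0 := by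
      rintro y h rfl
      exact h (bl_zero_left B 0)
    have w4 : ∑ y ∈ F4, wt B y = F4.card * 24 :=
      Finset.sum_const_nat fun y hy => by
        rw [m4] at hy
        exact wt_other B y (hne y (by omega)) (by omega)
    have w6 : ∑ y ∈ F6, wt B y = F6.card * 24 :=
      Finset.sum_const_nat fun y hy => by
        rw [m6] at hy
        exact wt_other B y (hne y (by omega)) (by omega)
    have w8 : ∑ y ∈ F8, wt B y = F8.card * 1 :=
      Finset.sum_const_nat fun y hy => by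
        rw [m8] at hy
        exact wt_eight B y hy
    rw [w4, w6, w8, c4, c6, c8]
    norm_num
  have hfib := Finset.sum_fiberwise (insert 0 (F4 ∪ F6 ∪ F8)) cls (wt B)
  have hle : ∀ c ∈ (Finset.univ : Finset (Fin 24 → ZMod 2)),
      ∑ y ∈ insert 0 (F4 ∪ F6 ∪ F8) with cls y = c, wt B y ≤ 48 := by
    intro c _
    apply class_bound B hsymm hpos heven h2
    · intro y hy; exact hTle y (Finset.mem_filter.mp hy).1
    · intro y hy z hz; rw [(Finset.mem_filter.mp hy).2, (Finset.mem_filter.mp hz).2]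
  have heq := (Finset.sum_eq_sum_iff_of_le hle).mp (by
    rw [hfib, hsum, Finset.sum_const, Finset.card_univ, Fintype.card_fun, ZMod.card,
      Fintype.card_fin, smul_eq_mul, mul_comm])
  have hx48 := heq (cls x) (Finset.mem_univ _)
  have hx' : bl B x x = 8 := hx
  have hmem : ∀ y ∈ insert 0 (F4 ∪ F6 ∪ F8), cls y = cls x → bl B y y = 8 := by
    intro y h1 hc
    by_cases e1 : y = x
    · rw [e1]; exact hx'
    by_cases e2 : y = -x
    · rw [e2, bl_neg_left, bl_neg_right, neg_neg]; exact hx'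
    exact (key B hsymm hpos heven h2 x y (le_of_eq hx') (hTle y h1)
      ((cls_eq_iff x y).mp hc.symm) e1 e2).2.1
  have hset : {y : Fin 24 → ℤ | y ⬝ᵥ (B *ᵥ y) = 8 ∧ ∀ i, (2 : ℤ) ∣ (x - y) i} =
      ↑((insert 0 (F4 ∪ F6 ∪ F8)).filter (fun y => cls y = cls x)) := by
    ext y
    rw [Finset.mem_coe, Finset.mem_filter]
    constructor
    · rintro ⟨h1, h2'⟩
      exact ⟨(hT y).mpr (Or.inr (Or.inr (Or.inr h1))), ((cls_eq_iff x y).mpr h2').symm⟩
    · rintro ⟨h1, h2'⟩
      exact ⟨hmem y h1 h2', (cls_eq_iff x y).mp h2'.symm⟩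
  rw [hset, Set.ncard_coe_finset, ← hx48, Finset.card_eq_sum_ones]
  refine Finset.sum_congr rfl fun y hy => ?_
  rw [Finset.mem_filter] at hy
  exact (wt_eight B y (hmem y hy.1 hy.2)).symm

end Cfsg.Agent.S1588
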