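import Cfsg.Statements.S5592
import Mathlib
import Cfsg.Agent.Lib.Helper3.Leech2

set_option autoImplicit false
open Cfsg

namespace Cfsg.Agent.S5592

open Cfsg.Agent.Lib.Helper3.Leech Cfsg.Agent.Lib.Helper3.Leech2

theorem sqNorm_sub (x y : GolayPt → ℤ) :
    sqNorm (x - y) = sqNorm x + sqNorm y - 2 * dotInt x y := by
  simp only [sqNorm, dotInt, Pi.sub_apply, Finset.mul_sum, ← Finset.sum_add_distrib,
    ← Finset.sum_sub_distrib]
  apply Finset.sum_congr rfl
  intro i _
  ring

theorem sqNorm_add (x y : GolayPt → ℤ) :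
    sqNorm (x + y) = sqNorm x + sqNorm y + 2 * dotInt x y := by
  simp only [sqNorm, dotInt, Pi.add_apply, Finset.mul_sum, ← Finset.sum_add_distrib]
  apply Finset.sum_congr rfl
  intro i _
  ring

theorem sqNorm_two_smul (z : GolayPt → ℤ) : sqNorm (2 • z) = 4 * sqNorm z := by
  simp only [sqNorm, Pi.smul_apply, Finset.mul_sum]
  apply Finset.sum_congr rfl
  intro i _
  simp only [nsmul_eq_mul, Nat.cast_ofNat]
  ring

/-- In the Leech lattice (integer coordinates, sum of squares equal to 8 times the customary norm, so the shortest non-zero vectors have sum of squares 32): if two distinct vectors of sum of squares at most 64 are congruent modulo twice the lattice, then either they are negatives of each other, or both have sum of squares 64 and they are orthogonal. -/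
theorem result (x y : Cfsg.GolayPt → ℤ) (hx : x ∈ Cfsg.leechLattice) (hy : y ∈ Cfsg.leechLattice) (hxy : x ≠ y) (hxn : Cfsg.sqNorm x ≤ 64) (hyn : Cfsg.sqNorm y ≤ 64) (hc : (∃ z ∈ Cfsg.leechLattice, x - y = 2 • z)) :
    x = -y ∨ (Cfsg.sqNorm x = 64 ∧ Cfsg.sqNorm y = 64 ∧ Cfsg.dotInt x y = 0) := by
  obtain ⟨z, hz, hxyz⟩ := hc
  by_cases hneg : x = -y
  · exact Or.inl hneg
  · right
    have hz0 : z ≠ 0 := by
      rintro rfl
      apply hxy
      rw [smul_zero] at hxyz
      exact sub_eq_zero.mp hxyz
    have h1 : 32 ≤ sqNorm z := thirtytwo_le_sqNorm ((mem_leechLattice_iff z).mp hz) hz0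
    have hzy : z + y ∈ leechLattice := leechLattice.add_mem hz hy
    have hxpy : x + y = 2 • (z + y) := by
      have : x + y = (x - y) + 2 • y := by
        rw [two_nsmul]
        abel
      rw [this, hxyz, smul_add]
    have hzy0 : z + y ≠ 0 := by
      intro h
      apply hneg
      rw [h, smul_zero] at hxpy
      exact eq_neg_of_add_eq_zero_left hxpy
    have h2 : 32 ≤ sqNorm (z + y) := thirtytwo_le_sqNorm ((mem_leechLattice_iff _).mp hzy) hzy0
    have e1 := sqNorm_sub x y
    have e2 := sqNorm_add x y
    rw [hxyz, sqNorm_two_smul] at e1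
    rw [hxpy, sqNorm_two_smul] at e2
    refine ⟨by linarith, by linarith, by linarith⟩


end Cfsg.Agent.S5592
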