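import Cfsg.Statements.S0376
import Cfsg.Agent.Lib.Helper3.M24Trans

set_option autoImplicit false
open Cfsg

namespace Cfsg.Agent.S0376

/-- A point stabiliser in the group of the length-24 code has order 10200960 = 2^7·3^2·5·7·11·23. -/
theorem result (p : Cfsg.GolayPt) : Nat.card (MulAction.stabilizer Cfsg.M24 p) = 10200960 := by
  have h := Cfsg.Agent.Lib.Helper3.M24Cert.card_eq_ncard_mul (G := Cfsg.M24)
    (⊤ : Subgroup Cfsg.M24) (MulAction.stabilizer Cfsg.M24 p) p Set.univ
    (fun g => by simp [MulAction.mem_stabilizer_iff])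
    (fun g _ => Set.mem_univ _)
    (fun s _ => by
      obtain ⟨g, hg, h⟩ := Cfsg.Agent.Lib.Helper3.M24Trans.trans1 p s
      exact ⟨⟨g, hg⟩, Subgroup.mem_top _, h⟩)
  rw [Subgroup.card_top, Cfsg.Agent.Lib.Helper3.M24Order.card_M24, Set.ncard_univ,
    Nat.card_eq_fintype_card, Cfsg.Agent.Lib.Helper3.Golay2.card_golayPt] at h
  omega

end Cfsg.Agent.S0376
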