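import Cfsg.Statements.S0378
import Cfsg.Agent.Lib.Helper3.M24Trans
import Cfsg.Agent.S0376

set_option autoImplicit false
open Cfsg

namespace Cfsg.Agent.S0378

/-- A two-point stabiliser in the group of the length-24 code has order 443520 = 2^7·3^2·5·7·11. -/
theorem result (p q : Cfsg.GolayPt) (hpq : p ≠ q) : Nat.card ↥(MulAction.stabilizer Cfsg.M24 p ⊓ MulAction.stabilizer Cfsg.M24 q) = 443520 := by
  have h1 := Cfsg.Agent.S0376.result p
  have h := Cfsg.Agent.Lib.Helper3.M24Cert.card_eq_ncard_mul (G := Cfsg.M24)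
    (MulAction.stabilizer Cfsg.M24 p)
    (MulAction.stabilizer Cfsg.M24 p ⊓ MulAction.stabilizer Cfsg.M24 q) q ({p}ᶜ : Set Cfsg.GolayPt)
    (fun g => by simp [Subgroup.mem_inf, MulAction.mem_stabilizer_iff])
    (fun g hg => by
      rw [MulAction.mem_stabilizer_iff] at hg
      rw [Set.mem_compl_iff, Set.mem_singleton_iff]
      intro h2
      apply hpq
      have h3 : g • q = g • p := by rw [h2, hg]
      exact (MulAction.injective g h3).symm)
    (fun s hs => by
      rw [Set.mem_compl_iff, Set.mem_singleton_iff] at hs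
      obtain ⟨g, hg, h1, h2⟩ := Cfsg.Agent.Lib.Helper3.M24Trans.trans2 p q p s hpq (Ne.symm hs)
      exact ⟨⟨g, hg⟩, h1, h2⟩)
  rw [h1, Set.ncard_compl, Set.ncard_singleton, Nat.card_eq_fintype_card,
    Cfsg.Agent.Lib.Helper3.Golay2.card_golayPt] at h
  omega

end Cfsg.Agent.S0378
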