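import Cfsg.Statements.S0398
import Cfsg.Agent.Lib.Helper11.Co0Mono

set_option autoImplicit false
open Cfsg

namespace Cfsg.Agent.S0398

open Cfsg.Agent.Lib.Helper11.Co0Mono

theorem neg_central : (⟨negP, negP_mem⟩ : ↥Cfsg.Co0) ∈ Subgroup.center Cfsg.Co0 := by
  rw [Subgroup.mem_center_iff]
  intro g
  apply Subtype.ext
  ext v : 1
  show g.1 (negP v) = negP (g.1 v)
  rw [negP_apply, negP_apply, perm_neg g.1 g.2.1]

theorem one_ne_neg : (1 : Equiv.Perm ↥Cfsg.leechLattice) ≠ negP := by
  intro h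
  have h1 := congrArg (fun f : Equiv.Perm ↥Cfsg.leechLattice =>
    ((f (E none) : ↥Cfsg.leechLattice) : Cfsg.GolayPt → ℤ) none) h
  simp only [Equiv.Perm.one_apply, negP_apply, AddSubgroup.coe_neg, Pi.neg_apply] at h1
  rw [E_apply, if_pos rfl] at h1
  omega

theorem result : Nat.card (Subgroup.center Cfsg.Co0) = 2 := by
  rw [Nat.card_eq_two_iff]
  refine ⟨1, ⟨⟨negP, negP_mem⟩, neg_central⟩, ?_, ?_⟩
  · intro h
    have h1 : (1 : Equiv.Perm ↥Cfsg.leechLattice) = negP :=
      congrArg (fun z : ↥(Subgroup.center Cfsg.Co0) => (z.1.1 : Equiv.Perm ↥Cfsg.leechLattice)) h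
    exact one_ne_neg h1
  · ext z
    simp only [Set.mem_insert_iff, Set.mem_singleton_iff, Set.mem_univ, iff_true]
    have hz := z.2
    rw [Subgroup.mem_center_iff] at hz
    have hc := central_eq z.1.1 z.1.2
      (fun d hd => congrArg Subtype.val (hz ⟨sgnP d hd, sgnP_mem d hd⟩))
      (fun σ hσ => congrArg Subtype.val (hz ⟨prmP σ hσ, prmP_mem σ hσ⟩))
    rcases hc with h | h
    · left
      apply Subtype.ext
      apply Subtype.ext
      exact h
    · right
      apply Subtype.ext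
      apply Subtype.ext
      exact h

end Cfsg.Agent.S0398
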