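import Cfsg.Statements.S5393
import Cfsg.Agent.Lib.Helper3.M24Dod

set_option autoImplicit false
open Cfsg

namespace Cfsg.Agent.S5393

open Cfsg.Agent.Lib.Helper3.Golay Cfsg.Agent.Lib.Helper3.Golay2
open Cfsg.Agent.Lib.Helper3.GolayM24 Cfsg.Agent.Lib.Helper3.M24Trans
open Cfsg.Agent.Lib.Helper3.M24Dod
open scoped Pointwise

theorem transport {W : Submodule (ZMod 2) (GolayPt → ZMod 2)}
    (hW : ∀ σ ∈ M24, ∀ w ∈ W, (fun p => w (σ.symm p)) ∈ W) {w v : GolayPt → ZMod 2}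
    (hw : w ∈ W) {g : Equiv.Perm GolayPt} (hg : g ∈ M24) (h : g • support₂ w = support₂ v) :
    v ∈ W := by
  have h1 := hW g hg w hw
  have h2 : (fun p => w (g.symm p)) = v := by
    apply support_injective
    rw [← h, smul_support]
    rfl
  rw [← h2]
  exact h1

theorem chkB : (List.range 4096).all (fun k => Nat.beq k 0 || Nat.beq k 2048 ||
    Nat.beq (pc (cw k)) 8 || Nat.beq (pc (cw k)) 12 || Nat.beq (pc (cw (k ^^^ 2048))) 8) = true := by
  decide +kernel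

theorem chk : ∀ k < 4096, k = 0 ∨ k = 2048 ∨ pc (cw k) = 8 ∨ pc (cw k) = 12 ∨
    pc (cw (k ^^^ 2048)) = 8 := by
  intro k hk
  have h := List.all_eq_true.mp chkB k (List.mem_range.mpr hk)
  simp only [Bool.or_eq_true] at h
  rcases h with (((h | h) | h) | h) | h
  · exact Or.inl (Nat.eq_of_beq_eq_true h)
  · exact Or.inr (Or.inl (Nat.eq_of_beq_eq_true h))
  · exact Or.inr (Or.inr (Or.inl (Nat.eq_of_beq_eq_true h)))
  · exact Or.inr (Or.inr (Or.inr (Or.inl (Nat.eq_of_beq_eq_true h))))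
  · exact Or.inr (Or.inr (Or.inr (Or.inr (Nat.eq_of_beq_eq_true h))))

theorem gens_wt : ∀ i < 23, pc (gens.getD i 0) = 12 := by decide +kernel

theorem qr_dod (t : ZMod 23) : support₂ (qrWord t) ∈ dodecads := by
  refine ⟨⟨qrWord t, qrWord_mem t, rfl⟩, ?_⟩
  rw [qrWord_eq, card_support_dec]
  exact gens_wt _ (ZMod.val_lt t)

theorem oct_mem (k : ℕ) (h : pc (cw k) = 8) : support₂ (dec (cw k)) ∈ octads :=
  ⟨⟨dec (cw k), dec_cw_mem k, rfl⟩, by rw [card_support_dec]; exact h⟩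

theorem dod_mem (k : ℕ) (h : pc (cw k) = 12) : support₂ (dec (cw k)) ∈ dodecads :=
  ⟨⟨dec (cw k), dec_cw_mem k, rfl⟩, by rw [card_support_dec]; exact h⟩

theorem oct_to_dod {W : Submodule (ZMod 2) (GolayPt → ZMod 2)}
    (hW : ∀ σ ∈ M24, ∀ w ∈ W, (fun p => w (σ.symm p)) ∈ W) {w : GolayPt → ZMod 2}
    (hw : w ∈ W) (ho : support₂ w ∈ octads) : ∃ d ∈ W, support₂ d ∈ dodecads := by
  obtain ⟨g1, hg1, e1⟩ := octad_trans ho (oct_mem 15 (by decide +kernel))
  obtain ⟨g2, hg2, e2⟩ := octad_trans ho (oct_mem 19 (by decide +kernel))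
  have m1 := transport hW hw hg1 e1
  have m2 := transport hW hw hg2 e2
  refine ⟨dec (cw (15 ^^^ 19)), ?_, dod_mem _ (by decide +kernel)⟩
  rw [cw_xor, dec_xor]
  exact W.add_mem m1 m2

theorem result : (fun _ : Cfsg.GolayPt => (1 : ZMod 2)) ∈ Cfsg.golayCode ∧ ∀ W : Submodule (ZMod 2) (Cfsg.GolayPt → ZMod 2), (fun _ => (1 : ZMod 2)) ∈ W → W ≤ Cfsg.golayCode → (∀ σ ∈ Cfsg.M24, ∀ w ∈ W, (fun p => w (σ.symm p)) ∈ W) → W = Submodule.span (ZMod 2) {fun _ => (1 : ZMod 2)} ∨ W = Cfsg.golayCode := by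
  refine ⟨one_mem, ?_⟩
  intro W h1 hle hW
  have h1' : (1 : GolayPt → ZMod 2) ∈ W := h1
  by_cases hsp : W ≤ Submodule.span (ZMod 2) {fun _ => (1 : ZMod 2)}
  · left
    refine le_antisymm hsp (Submodule.span_le.mpr ?_)
    intro x hx
    rw [Set.mem_singleton_iff] at hx
    subst hx
    exact h1
  · right
    obtain ⟨w, hwW, hwn⟩ := SetLike.not_le_iff_exists.mp hsp
    have hw0 : w ≠ 0 := fun e => hwn (e ▸ Submodule.zero_mem _)
    have hw1 : w ≠ 1 := fun e => hwn (e ▸ Submodule.subset_span rfl)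
    have hwC := hle hwW
    have key : ∃ d ∈ W, support₂ d ∈ dodecads := by
      obtain ⟨k, hk, rfl⟩ := (mem_golayCode_iff w).mp hwC
      rcases chk k hk with rfl | rfl | h | h | h
      · exact absurd (by rw [cw_zero, dec_zero]) hw0
      · exact absurd (by rw [ones_eq, dec_ones]) hw1
      · exact oct_to_dod hW hwW (oct_mem k h)
      · exact ⟨_, hwW, dod_mem k h⟩
      · refine oct_to_dod hW (w := dec (cw (k ^^^ 2048))) ?_ (oct_mem _ h)
        rw [cw_xor, dec_xor, ones_eq, dec_ones]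
        exact W.add_mem hwW h1'
    obtain ⟨d, hdW, hd⟩ := key
    apply le_antisymm hle
    unfold golayCode
    rw [Submodule.span_le]
    rintro x (⟨t, rfl⟩ | hx)
    · obtain ⟨g, hg, e⟩ := dodecad_trans hd (qr_dod t)
      exact transport hW hdW hg e
    · rw [Set.mem_singleton_iff] at hx
      subst hx
      exact h1'

end Cfsg.Agent.S5393
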