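import Cfsg.Statements.S1573
import Cfsg.Agent.Lib.Helper11.LeechIPNumA
import Cfsg.Agent.Lib.Helper11.LeechIPNumB
import Cfsg.Agent.Lib.Helper11.LeechIPNumC

set_option autoImplicit false
open Cfsg

namespace Cfsg.Agent.S1573

theorem result (v : Cfsg.GolayPt → ℤ) (hv : v ∈ Cfsg.leechLattice) (hvn : Cfsg.sqNorm v = 32) : {w : Cfsg.GolayPt → ℤ | w ∈ Cfsg.leechLattice ∧ Cfsg.sqNorm w = 32 ∧ Cfsg.dotInt v w = -16}.ncard = 4600 ∧ {w : Cfsg.GolayPt → ℤ | w ∈ Cfsg.leechLattice ∧ Cfsg.sqNorm w = 32 ∧ Cfsg.dotInt v w = -8}.ncard = 47104 ∧ {w : Cfsg.GolayPt → ℤ | w ∈ Cfsg.leechLattice ∧ Cfsg.sqNorm w = 32 ∧ Cfsg.dotInt v w = 0}.ncard = 93150 := by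
  obtain ⟨g, hg, h⟩ := Cfsg.Agent.Lib.Helper11.LeechIP.shape_reps ⟨v, hv⟩ hvn
  have key : ∀ d : ℤ, (Cfsg.Agent.Lib.Helper11.LeechIP.ipSet v d).ncard =
      (Cfsg.Agent.Lib.Helper11.LeechIP.ipSet
        ((g ⟨v, hv⟩ : ↥Cfsg.leechLattice) : Cfsg.GolayPt → ℤ) d).ncard :=
    fun d => (Cfsg.Agent.Lib.Helper11.LeechIP.ipSet_co0 hg ⟨v, hv⟩ d).symm
  show (Cfsg.Agent.Lib.Helper11.LeechIP.ipSet v (-16)).ncard = 4600 ∧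
    (Cfsg.Agent.Lib.Helper11.LeechIP.ipSet v (-8)).ncard = 47104 ∧
    (Cfsg.Agent.Lib.Helper11.LeechIP.ipSet v 0).ncard = 93150
  rw [key, key, key]
  rcases h with h | h | h
  · rw [h]
    exact ⟨Cfsg.Agent.Lib.Helper11.LeechIP.cntAa, Cfsg.Agent.Lib.Helper11.LeechIP.cntAb,
      Cfsg.Agent.Lib.Helper11.LeechIP.cntAc⟩
  · rw [h]
    exact ⟨Cfsg.Agent.Lib.Helper11.LeechIP.cntBa, Cfsg.Agent.Lib.Helper11.LeechIP.cntBb,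
      Cfsg.Agent.Lib.Helper11.LeechIP.cntBc⟩
  · rw [h]
    exact ⟨Cfsg.Agent.Lib.Helper11.LeechIP.cntCa, Cfsg.Agent.Lib.Helper11.LeechIP.cntCb,
      Cfsg.Agent.Lib.Helper11.LeechIP.cntCc⟩

end Cfsg.Agent.S1573
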