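import Mathlib
import Cfsg.Statements.S0285
import Cfsg.Agent.Lib.Helper2.HermCount

set_option autoImplicit false
open Cfsg

namespace Cfsg.Agent.S0285

theorem arith_Z (q n Z : ℕ) (hq : 2 ≤ q)
    (hcl : (Z : ℤ) * q = (q : ℤ) ^ (2 * n) + (-1) ^ n * ((q : ℤ) ^ (n + 1) - (q : ℤ) ^ n)) :
    Z = (if Even n then (q ^ n - 1) * (q ^ (n - 1) + 1) else (q ^ n + 1) * (q ^ (n - 1) - 1)) + 1 := by
  have hq0 : 0 < q := by omega
  split_ifs with he
  · rw [Even.neg_one_pow he, one_mul] at hcl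
    rcases Nat.eq_zero_or_pos n with rfl | hn
    · simp only [Nat.mul_zero, pow_zero, zero_add, pow_one] at hcl
      have : Z * q = 1 * q := by
        have h2 : (Z : ℤ) * q = 1 * q := by rw [hcl]; ring
        exact_mod_cast h2
      have hZ : Z = 1 := Nat.eq_of_mul_eq_mul_right hq0 this
      simp [hZ]
    · obtain ⟨k, rfl⟩ : ∃ k, n = k + 1 := ⟨n - 1, by omega⟩
      apply Nat.eq_of_mul_eq_mul_right hq0
      have h1 : 1 ≤ q ^ (k + 1) := Nat.one_le_pow _ _ hq0
      simp only [Nat.add_sub_cancel]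
      zify [h1]
      rw [hcl]
      ring
  · have ho : Odd n := Nat.not_even_iff_odd.mp he
    rw [Odd.neg_one_pow ho] at hcl
    obtain ⟨k, rfl⟩ : ∃ k, n = k + 1 := ⟨n - 1, by have := ho.pos; omega⟩
    apply Nat.eq_of_mul_eq_mul_right hq0
    have h1 : 1 ≤ q ^ k := Nat.one_le_pow _ _ hq0
    simp only [Nat.add_sub_cancel]
    zify [h1]
    rw [hcl]
    ring

/-- The standard Hermitian form on F^n, |F| = q^2, has exactly (q^n - (-1)^n)(q^(n-1) + (-1)^n) non-zero isotropic vectors; counting the zero vector too: -/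
theorem result {F : Type*} [Field F] [Fintype F] {q : ℕ} (hF : Fintype.card F = q ^ 2) (n : ℕ) : Nat.card {v : Fin n → F // Cfsg.hermForm n F q v v = 0} = (if Even n then (q ^ n - 1) * (q ^ (n - 1) + 1) else (q ^ n + 1) * (q ^ (n - 1) - 1)) + 1 := by
  classical
  have hq := Cfsg.Agent.Lib.Helper2.HermCount.two_le_q hF
  have h1 := Cfsg.Agent.Lib.Helper2.HermCount.card_herm hF n 0 (zero_pow (by omega))
  rw [if_pos rfl] at h1
  have hcl := (Cfsg.Agent.Lib.Helper2.HermCount.ZU_closed q hq n).1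
  have h2 : Nat.card {v : Fin n → F // Cfsg.hermForm n F q v v = 0} =
      (Cfsg.Agent.Lib.Helper2.HermCount.ZU q n).1 := h1
  rw [h2]
  exact arith_Z q n _ hq hcl

end Cfsg.Agent.S0285
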