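import Cfsg.Statements.S2623
import Cfsg.Agent.S0756
import Cfsg.Agent.Lib.Helper15.Gram

set_option autoImplicit false
open Cfsg

namespace Cfsg.Agent.S2623

open Cfsg.Agent.Lib.Helper15.Gram

theorem gram_eq {F : Type*} [Field F] {n : ℕ} (Q : QuadraticForm F (Fin n → F)) :
    Matrix.of (fun i j : Fin n => QuadraticMap.polar ⇑Q (Pi.single i 1) (Pi.single j 1))
      = LinearMap.BilinForm.toMatrix' (QuadraticMap.polarBilin Q) := by
  ext i j
  rw [LinearMap.BilinForm.toMatrix'_apply]
  rfl

theorem polar_symm {F V : Type*} [Field F] [AddCommGroup V] [Module F V] (Q : QuadraticForm F V) :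
    LinearMap.BilinForm.IsSymm (QuadraticMap.polarBilin Q) := by
  rw [LinearMap.BilinForm.isSymm_def]
  intro x y
  exact QuadraticMap.polar_comm Q x y

/-- Gram determinant in the basis produced by `S0756`. -/
theorem det_std {F : Type*} [Field F] {k : ℕ} (B : LinearMap.BilinForm F (Fin (k + 1) → F))
    (b : Module.Basis (Fin (k + 1)) F (Fin (k + 1) → F))
    (h0 : ∀ i j, i ≠ j → B (b i) (b j) = 0) (h1 : ∀ i, i ≠ Fin.last k → B (b i) (b i) = 1) :
    (LinearMap.BilinForm.toMatrix b B).det = B (b (Fin.last k)) (b (Fin.last k)) := by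
  have : LinearMap.BilinForm.toMatrix b B
      = Matrix.diagonal (fun i => if i = Fin.last k then B (b (Fin.last k)) (b (Fin.last k)) else 1) := by
    ext i j
    rw [LinearMap.BilinForm.toMatrix_apply]
    by_cases hij : i = j
    · subst hij
      rw [Matrix.diagonal_apply_eq]
      by_cases hi : i = Fin.last k
      · rw [if_pos hi, hi]
      · rw [if_neg hi, h1 i hi]
    · rw [Matrix.diagonal_apply_ne _ hij, h0 i j hij]
  rw [this, Matrix.det_diagonal, Finset.prod_ite_eq' ]
  simp

/-- Over a finite field of odd order, two quadratic forms on F^n with non-degenerate polar forms are isometric (related by an invertible linear change of variables) if and only if their discriminants (determinants of the Gram matrices of their polar forms) lie in the same square class. -/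
theorem result {F : Type*} [Field F] [Fintype F] (h2 : (2 : F) ≠ 0) {n : ℕ} (Q₁ Q₂ : QuadraticForm F (Fin n → F)) (h₁ : (QuadraticMap.polarBilin Q₁).Nondegenerate) (h₂ : (QuadraticMap.polarBilin Q₂).Nondegenerate) : (∃ g : (Fin n → F) ≃ₗ[F] (Fin n → F), ∀ v, Q₂ (g v) = Q₁ v) ↔ IsSquare ((Matrix.of (fun i j : Fin n => QuadraticMap.polar ⇑Q₁ (Pi.single i 1) (Pi.single j 1))).det * (Matrix.of (fun i j : Fin n => QuadraticMap.polar ⇑Q₂ (Pi.single i 1) (Pi.single j 1))).det) := by
  classical
  rw [gram_eq, gram_eq]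
  set B₁ := QuadraticMap.polarBilin Q₁ with hB₁
  set B₂ := QuadraticMap.polarBilin Q₂ with hB₂
  constructor
  · rintro ⟨g, hg⟩
    let b : Module.Basis (Fin n) F (Fin n → F) := (Pi.basisFun F (Fin n)).map g
    obtain ⟨d, hd, hdet⟩ := det_gram B₂ b
    have hG : LinearMap.BilinForm.toMatrix b B₂ = LinearMap.BilinForm.toMatrix' B₁ := by
      ext i j
      rw [LinearMap.BilinForm.toMatrix_apply, LinearMap.BilinForm.toMatrix'_apply]
      change QuadraticMap.polar ⇑Q₂ (g (Pi.basisFun F (Fin n) i)) (g (Pi.basisFun F (Fin n) j))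
        = QuadraticMap.polar ⇑Q₁ (Pi.single i 1) (Pi.single j 1)
      rw [Pi.basisFun_apply, Pi.basisFun_apply]
      simp only [QuadraticMap.polar, ← map_add, hg]
    rw [hG] at hdet
    rw [hdet]
    exact ⟨d * (LinearMap.BilinForm.toMatrix' B₂).det, by ring⟩
  · rintro ⟨s, hs⟩
    rcases Nat.eq_zero_or_pos n with hn | hn
    · subst hn
      refine ⟨LinearEquiv.refl F _, fun v => ?_⟩
      have hv : v = 0 := Subsingleton.elim _ _
      rw [hv, map_zero, map_zero, map_zero]
    · obtain ⟨k, rfl⟩ : ∃ k, n = k + 1 := ⟨n - 1, by omega⟩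
      obtain ⟨α, hα⟩ := FiniteField.exists_nonsquare (F := F) (by
        intro h
        have := (CharP.cast_eq_zero_iff F (ringChar F) 2).mpr (by rw [h])
        exact h2 (by exact_mod_cast this))
      have hfr : Module.finrank F (Fin (k + 1) → F) = k + 1 := by simp
      obtain ⟨b₁, h10, h11, h1l⟩ := Cfsg.Agent.S0756.result h2 B₁ (polar_symm Q₁) h₁ hfr α hα
      obtain ⟨b₂, h20, h21, h2l⟩ := Cfsg.Agent.S0756.result h2 B₂ (polar_symm Q₂) h₂ hfr α hα
      obtain ⟨d₁, hd₁, hdet₁⟩ := det_gram B₁ b₁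
      obtain ⟨d₂, hd₂, hdet₂⟩ := det_gram B₂ b₂
      rw [det_std B₁ b₁ h10 h11] at hdet₁
      rw [det_std B₂ b₂ h20 h21] at hdet₂
      have hprod : IsSquare (B₁ (b₁ (Fin.last k)) (b₁ (Fin.last k)) * B₂ (b₂ (Fin.last k)) (b₂ (Fin.last k))) := by
        rw [hdet₁, hdet₂]
        refine ⟨d₁ * d₂ * s, ?_⟩
        have : d₁ ^ 2 * (LinearMap.BilinForm.toMatrix' B₁).det * (d₂ ^ 2 * (LinearMap.BilinForm.toMatrix' B₂).det)
            = (d₁ * d₂) ^ 2 * ((LinearMap.BilinForm.toMatrix' B₁).det * (LinearMap.BilinForm.toMatrix' B₂).det) := by ring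
        rw [this, hs]
        ring
      have heq : B₁ (b₁ (Fin.last k)) (b₁ (Fin.last k)) = B₂ (b₂ (Fin.last k)) (b₂ (Fin.last k)) := by
        rcases h1l with h1l | h1l <;> rcases h2l with h2l | h2l
        · rw [h1l, h2l]
        · rw [h1l, h2l, one_mul] at hprod
          exact absurd hprod hα
        · rw [h1l, h2l, mul_one] at hprod
          exact absurd hprod hα
        · rw [h1l, h2l]
      let g : (Fin (k + 1) → F) ≃ₗ[F] (Fin (k + 1) → F) := b₁.equiv b₂ (Equiv.refl _)
      have hgb : ∀ i, g (b₁ i) = b₂ i := fun i => by simp [g]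
      have hB : ∀ u v, B₂ (g u) (g v) = B₁ u v := by
        have : B₂.compl₁₂ (g : (Fin (k + 1) → F) →ₗ[F] (Fin (k + 1) → F)) (g : (Fin (k + 1) → F) →ₗ[F] (Fin (k + 1) → F)) = B₁ := by
          apply LinearMap.BilinForm.ext_basis b₁
          intro i j
          rw [LinearMap.compl₁₂_apply, LinearEquiv.coe_coe, hgb, hgb]
          by_cases hij : i = j
          · subst hij
            by_cases hi : i = Fin.last k
            · rw [hi, heq]
            · rw [h11 i hi, h21 i hi]
          · rw [h10 i j hij, h20 i j hij]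
        intro u v
        rw [← this]
        rfl
      refine ⟨g, fun v => ?_⟩
      have h := hB v v
      change QuadraticMap.polar ⇑Q₂ (g v) (g v) = QuadraticMap.polar ⇑Q₁ v v at h
      rw [QuadraticMap.polar_self, QuadraticMap.polar_self, two_nsmul, two_nsmul, ← two_mul, ← two_mul] at h
      exact mul_left_cancel₀ h2 h

end Cfsg.Agent.S2623
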