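import Cfsg.Statements.S2624
import Cfsg.Agent.S2623

set_option autoImplicit false
open Cfsg

namespace Cfsg.Agent.S2624

/-- For a quadratic form Q on F^n with non-degenerate polar form, F finite and n ≥ 2 even, every non-zero scalar c is the multiplier of some similarity: there is an invertible linear map g with Q(g v) = c·Q(v) for all v. -/
theorem result {F : Type*} [Field F] [Fintype F] {n : ℕ} (hn : 2 ≤ n) (he : Even n) (Q : QuadraticForm F (Fin n → F)) (hQ : (QuadraticMap.polarBilin Q).Nondegenerate) (c : F) (hc : c ≠ 0) : ∃ g : (Fin n → F) ≃ₗ[F] (Fin n → F), ∀ v, Q (g v) = c * Q v := by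
  classical
  by_cases h2 : (2 : F) = 0
  · have : CharP F 2 := CharTwo.of_one_ne_zero_of_two_eq_zero one_ne_zero h2
    obtain ⟨d, hd⟩ := FiniteField.isSquare_of_char_two (ringChar.eq F 2) c
    have hd0 : d ≠ 0 := by
      rintro rfl
      rw [mul_zero] at hd
      exact hc hd
    refine ⟨LinearEquiv.smulOfNeZero F _ d hd0, fun v => ?_⟩
    rw [LinearEquiv.smulOfNeZero_apply, QuadraticMap.map_smul, smul_eq_mul, hd]
  · have hpol : ∀ u v, QuadraticMap.polar ⇑(c • Q) u v = c * QuadraticMap.polar ⇑Q u v := by
      intro u v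
      simp only [QuadraticMap.polar, FunLike.coe_smul, Pi.smul_apply, smul_eq_mul]
      ring
    have hnd : (QuadraticMap.polarBilin (c • Q)).Nondegenerate := by
      have hsymm : (QuadraticMap.polarBilin (c • Q)).IsRefl := by
        intro x y hxy
        change QuadraticMap.polar ⇑(c • Q) y x = 0
        rw [QuadraticMap.polar_comm]
        exact hxy
      rw [LinearMap.IsRefl.nondegenerate_iff_separatingLeft hsymm]
      intro x hx
      apply hQ.1 x
      intro y
      have := hx y
      change QuadraticMap.polar ⇑(c • Q) x y = 0 at this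
      rw [hpol] at this
      rcases mul_eq_zero.mp this with h | h
      · exact absurd h hc
      · exact h
    apply (Cfsg.Agent.S2623.result h2 (c • Q) Q hnd hQ).mpr
    obtain ⟨k, hk⟩ := he
    have hG : Matrix.of (fun i j : Fin n => QuadraticMap.polar ⇑(c • Q) (Pi.single i 1) (Pi.single j 1))
        = c • Matrix.of (fun i j : Fin n => QuadraticMap.polar ⇑Q (Pi.single i 1) (Pi.single j 1)) := by
      ext i j
      rw [Matrix.smul_apply, Matrix.of_apply, Matrix.of_apply, hpol, smul_eq_mul]
    rw [hG, Matrix.det_smul, Fintype.card_fin]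
    have hpow : c ^ n = c ^ k * c ^ k := by rw [← pow_add, ← hk]
    refine ⟨c ^ k * (Matrix.of (fun i j : Fin n => QuadraticMap.polar ⇑Q (Pi.single i 1) (Pi.single j 1))).det, ?_⟩
    rw [hpow]
    ring

end Cfsg.Agent.S2624
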