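import Cfsg.Statements.S0831
import Cfsg.Agent.Lib.Helper15.WittInf

set_option autoImplicit false
open Cfsg

namespace Cfsg.Agent.S0831

open Module Cfsg.Agent.Lib.Helper15.Spinor Cfsg.Agent.Lib.Helper15.CD2
  Cfsg.Agent.Lib.Helper15.Parity Cfsg.Agent.Lib.Helper15.Witt Cfsg.Agent.Lib.Helper15.WittInf
  Cfsg.Agent.Lib.Helper15.StdForms

theorem three {F : Type*} [Field F] (m : ℕ) (U W X : Submodule F (Fin m ⊕ Fin m → F))
    (hU : finrank F U = m ∧ ∀ w ∈ U, plusQF m F w = 0)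
    (hW : finrank F W = m ∧ ∀ w ∈ W, plusQF m F w = 0)
    (hX : finrank F X = m ∧ ∀ w ∈ X, plusQF m F w = 0) :
    Even ((m - finrank F ↥(U ⊓ W)) + (m - finrank F ↥(W ⊓ X)) + (m - finrank F ↥(U ⊓ X))) := by
  classical
  have hQ := plus_nondeg (F := F) m
  have hnd : ∀ x, (∀ y, QuadraticMap.polar ⇑(plusQF m F) x y = 0) → x = 0 := fun x hx => hQ.1 x hx
  have hcard : Fintype.card (Fin m ⊕ Fin m) = 2 * m := by
    rw [Fintype.card_sum, Fintype.card_fin]; omega
  have hUs := selfOrth_of_finrank (plusQF m F) hQ U hU.2 m hU.1 hcard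
  have hWs := selfOrth_of_finrank (plusQF m F) hQ W hW.2 m hW.1 hcard
  obtain ⟨vs₁, hvs₁, -, hmap₁⟩ := ts_trans_inf (plusQF m F) hnd m ⊥ U W (splits_bot _)
    (fun x _ => mem_perp_bot _ x) (fun x _ => mem_perp_bot _ x) hU.2 hW.2 hU.1 hW.1
  obtain ⟨vs₂, hvs₂, -, hmap₂⟩ := ts_trans_inf (plusQF m F) hnd m ⊥ W X (splits_bot _)
    (fun x _ => mem_perp_bot _ x) (fun x _ => mem_perp_bot _ x) hW.2 hX.2 hW.1 hX.1
  have hmap₃ : U.map (act (plusQF m F) (prodRefl (plusQF m F) (vs₂ ++ vs₁))) = X := by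
    rw [prodRefl_append_inf, map_act_mul, hmap₁, hmap₂]
  have h1 := parity_gen_inf (plusQF m F) hQ U hUs m hU.1 vs₁ hvs₁
  have h2 := parity_gen_inf (plusQF m F) hQ W hWs m hW.1 vs₂ hvs₂
  have h3 := parity_gen_inf (plusQF m F) hQ U hUs m hU.1 (vs₂ ++ vs₁) (by
    intro v hv
    rw [List.mem_append] at hv
    rcases hv with hv | hv
    · exact hvs₂ v hv
    · exact hvs₁ v hv)
  rw [hmap₁] at h1
  rw [hmap₂] at h2
  rw [hmap₃, List.length_append] at h3
  rw [Nat.even_iff] at h1 h2 h3 ⊢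
  rw [Nat.even_iff] at h1 h2 h3
  omega

theorem two {F : Type*} [Field F] (m : ℕ) (hm : 1 ≤ m) :
    ∃ U W : Submodule F (Fin m ⊕ Fin m → F),
      (finrank F U = m ∧ ∀ w ∈ U, plusQF m F w = 0) ∧
      (finrank F W = m ∧ ∀ w ∈ W, plusQF m F w = 0) ∧ finrank F ↥(U ⊓ W) + 1 = m := by
  classical
  have hQ := plus_nondeg (F := F) m
  have hUs := selfOrth_U0 (F := F) m
  obtain ⟨w, hw⟩ : ∃ w : Fin m ⊕ Fin m → F, plusQF m F w ≠ 0 := by
    refine ⟨fun i => if i = Sum.inl ⟨0, hm⟩ ∨ i = Sum.inr ⟨0, hm⟩ then 1 else 0, ?_⟩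
    rw [plusQF_apply]
    unfold Cfsg.quadFormPlus
    rw [Finset.sum_eq_single (⟨0, hm⟩ : Fin m)]
    · simp
    · intro b _ hb
      simp [hb]
    · intro h
      exact absurd (Finset.mem_univ _) h
  refine ⟨U0 m F, (U0 m F).map (act (plusQF m F) (reflO (plusQF m F) w)),
    ⟨finrank_U0 m, hUs.1⟩, ⟨?_, ?_⟩, ?_⟩
  · rw [finrank_map_act, finrank_U0]
  · exact (selfOrth_map _ _ hUs _).1
  · have hstep := parity_step (plusQF m F) (U0 m F) (U0 m F) hUs.1 hUs.1
      (sup_of_selfOrth _ hQ _ _ hUs hUs) w hw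
    rw [inf_idem, finrank_U0] at hstep
    have hle := Submodule.finrank_mono (inf_le_left :
      U0 m F ⊓ (U0 m F).map (act (plusQF m F) (reflO (plusQF m F) w)) ≤ U0 m F)
    rw [finrank_U0] at hle
    rcases hstep with h | h
    · omega
    · exact h


/-- The two families of maximal totally singular subspaces of the hyperbolic quadric: for the form Σ x_i y_i on F^(2m), m ≥ 1, and m-dimensional subspaces U, W, X on which it vanishes, the parities of m − dim(U ∩ W), m − dim(W ∩ X) and m − dim(U ∩ X) sum to an even number (so 'even codimension of the intersection' is an equivalence relation), and there exist two such subspaces meeting in codimension 1 (so there are exactly two classes). -/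
theorem result {F : Type*} [Field F] (m : ℕ) (hm : 1 ≤ m) : (∀ U W X : Submodule F (Fin m ⊕ Fin m → F), (Module.finrank F U = m ∧ ∀ w ∈ U, Cfsg.quadFormPlus m F w = 0) → (Module.finrank F W = m ∧ ∀ w ∈ W, Cfsg.quadFormPlus m F w = 0) → (Module.finrank F X = m ∧ ∀ w ∈ X, Cfsg.quadFormPlus m F w = 0) → Even ((m - Module.finrank F ↥(U ⊓ W)) + (m - Module.finrank F ↥(W ⊓ X)) + (m - Module.finrank F ↥(U ⊓ X)))) ∧ ∃ U W : Submodule F (Fin m ⊕ Fin m → F), (Module.finrank F U = m ∧ ∀ w ∈ U, Cfsg.quadFormPlus m F w = 0) ∧ (Module.finrank F W = m ∧ ∀ w ∈ W, Cfsg.quadFormPlus m F w = 0) ∧ Module.finrank F ↥(U ⊓ W) + 1 = m := by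
  exact ⟨three m, two m hm⟩

end Cfsg.Agent.S0831
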