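import Mathlib
import Cfsg.Statements.S0264
import Cfsg.Agent.Lib.Helper2.SLGen

set_option autoImplicit false
open Cfsg

namespace Cfsg.Agent.S0264

open Matrix Matrix.SpecialLinearGroup
open scoped commutatorElement

theorem toGL_transvection_mem_commutator {ι F : Type*} [DecidableEq ι] [Fintype ι] [Field F]
    {i j : ι} (hij : i ≠ j) {a : F} (ha : a ≠ 0) (ha1 : a ≠ 1) (c : F) :
    (toGL (transvection hij c : SpecialLinearGroup ι F) : GeneralLinearGroup ι F) ∈
      commutator (GeneralLinearGroup ι F) := by
  have hdet : (diagonal (fun k : ι => if k = i then a else 1)).det ≠ 0 := by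
    rw [det_diagonal, Finset.prod_ite_eq' Finset.univ i (fun _ => a)]
    simpa using ha
  set d : GeneralLinearGroup ι F :=
    GeneralLinearGroup.mkOfDetNeZero (diagonal (fun k : ι => if k = i then a else 1)) hdet
    with hd
  have ha1' : a - 1 ≠ 0 := sub_ne_zero_of_ne ha1
  set t : GeneralLinearGroup ι F := toGL (transvection hij (c / (a - 1))) with ht
  set T : GeneralLinearGroup ι F := toGL (transvection hij c) with hT
  have hdv : (d : Matrix ι ι F) = diagonal (fun k : ι => if k = i then a else 1) := rfl
  have key : d * t = T * t * d := by
    apply Units.ext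
    rw [Matrix.ext_iff_mulVec]
    intro v
    funext k
    simp only [ht, hT, Units.val_mul, hdv, coe_GL_coe_matrix,
      ← mulVec_mulVec, Cfsg.Agent.Lib.Helper2.SLGen.tv_mulVec_apply, mulVec_diagonal]
    have hji : j ≠ i := hij.symm
    by_cases hki : k = i
    · subst hki
      simp only [if_true, if_neg hji]
      field_simp
      ring
    · simp only [if_neg hki, one_mul]
  have : T = ⁅d, t⁆ := by
    rw [commutatorElement_def, key]
    group
  rw [this]
  exact Subgroup.commutator_mem_commutator (Subgroup.mem_top _) (Subgroup.mem_top _)

/-- GL_n(F)' = SL_n(F) (as the kernel of det), for every field F and every n, except n = 2 over the field of two elements. -/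
theorem result {F : Type*} [Field F] (n : ℕ) (h : n = 2 → ∃ a : F, a ≠ 0 ∧ a ≠ 1) : commutator (Matrix.GeneralLinearGroup (Fin n) F) = (Matrix.GeneralLinearGroup.det : Matrix.GeneralLinearGroup (Fin n) F →* Fˣ).ker := by
  apply le_antisymm
  · exact Abelianization.commutator_subset_ker _
  · intro g hg
    rw [MonoidHom.mem_ker] at hg
    have hdet : (g : Matrix (Fin n) (Fin n) F).det = 1 := by
      have := congrArg Units.val hg
      simpa using this
    obtain ⟨s, hgs⟩ : ∃ s : SpecialLinearGroup (Fin n) F, g = toGL s :=
      ⟨⟨(g : Matrix (Fin n) (Fin n) F), hdet⟩, Units.ext rfl⟩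
    rcases Nat.lt_or_ge n 2 with hn | hn
    · -- n ≤ 1 : g = 1
      have hg1 : g = 1 := by
        apply Units.ext
        ext i j
        interval_cases n
        · exact i.elim0
        · have hi : i = 0 := Subsingleton.elim _ _
          have hj : j = 0 := Subsingleton.elim _ _
          subst hi; subst hj
          rw [det_fin_one] at hdet
          simp [hdet]
      rw [hg1]
      exact one_mem _
    · haveI : Nontrivial (Fin n) := Fin.nontrivial_iff_two_le.mpr hn
      rw [hgs]
      rcases Nat.lt_or_ge n 3 with hn3 | hn3
      · have hn2 : n = 2 := by omega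
        obtain ⟨a, ha, ha1⟩ := h hn2
        exact Cfsg.Agent.Lib.Helper2.SLGen.transvection_induction
          (fun A => (toGL A : GeneralLinearGroup (Fin n) F) ∈ commutator (GeneralLinearGroup (Fin n) F))
          (fun i j hij c => toGL_transvection_mem_commutator hij ha ha1 c)
          (fun A B hA hB => by
            show toGL (A * B) ∈ _
            rw [map_mul]; exact mul_mem hA hB) _
      · have hperf := Cfsg.Agent.Lib.Helper2.SLGen.commutator_eq_top (ι := Fin n) (F := F)
          (by simpa using hn3)
        have hmem : s ∈ commutator (SpecialLinearGroup (Fin n) F) := by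
          rw [hperf]; exact Subgroup.mem_top _
        have h1 : Subgroup.map (toGL : SpecialLinearGroup (Fin n) F →* GeneralLinearGroup (Fin n) F)
            (commutator (SpecialLinearGroup (Fin n) F)) ≤ commutator (GeneralLinearGroup (Fin n) F) := by
          rw [commutator_def, commutator_def, Subgroup.map_commutator]
          exact Subgroup.commutator_mono le_top le_top
        exact h1 (Subgroup.mem_map_of_mem _ hmem)

end Cfsg.Agent.S0264
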