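import Cfsg.Statements.S2611
import Cfsg.Agent.Lib.Helper15.OrthGen
import Cfsg.Agent.Lib.Helper15.StdForms
import Cfsg.Agent.S0264

set_option autoImplicit false
open Cfsg

namespace Cfsg.Agent.S2611

open Cfsg.Agent.Lib.Helper15.Spinor Cfsg.Agent.Lib.Helper15.StdForms
  Cfsg.Agent.Lib.Helper15.CD2 Cfsg.Agent.Lib.Helper15.OrthGen

section

variable {F : Type*} [Field F] {m : ℕ}

theorem plus_dot (v : Fin m ⊕ Fin m → F) :
    plusQF m F v = (v ∘ Sum.inl) ⬝ᵥ (v ∘ Sum.inr) := rfl

theorem levi_iso (A : GL (Fin m) F) (v : Fin m ⊕ Fin m → F) :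
    plusQF m F ((Matrix.fromBlocks (A : Matrix (Fin m) (Fin m) F) 0 0
      ((A⁻¹ : GL (Fin m) F) : Matrix (Fin m) (Fin m) F).transpose).mulVec v) = plusQF m F v := by
  rw [plus_dot, plus_dot, fromBlocks_mulVec_inl, fromBlocks_mulVec_inr, Matrix.mulVec_transpose,
    dotProduct_comm, ← Matrix.dotProduct_mulVec, Matrix.mulVec_mulVec, ← Units.val_mul,
    inv_mul_cancel, Units.val_one, Matrix.one_mulVec, dotProduct_comm]

/-- The Levi element `diag(A, A⁻ᵀ)` of the orthogonal group of the hyperbolic form. -/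
noncomputable def levi (A : GL (Fin m) F) : ↥(Cfsg.isometryGroup F ⇑(plusQF m F)) :=
  ⟨⟨Matrix.fromBlocks (A : Matrix (Fin m) (Fin m) F) 0 0
      ((A⁻¹ : GL (Fin m) F) : Matrix (Fin m) (Fin m) F).transpose,
    Matrix.fromBlocks ((A⁻¹ : GL (Fin m) F) : Matrix (Fin m) (Fin m) F) 0 0
      (A : Matrix (Fin m) (Fin m) F).transpose,
    by
      rw [Matrix.fromBlocks_multiply]
      simp [← Matrix.transpose_mul, Matrix.fromBlocks_one],
    by
      rw [Matrix.fromBlocks_multiply]
      simp [← Matrix.transpose_mul, Matrix.fromBlocks_one]⟩,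
   (mem_iso _ _).2 (levi_iso A)⟩

theorem coe_levi (A : GL (Fin m) F) :
    ((levi A : Matrix.GeneralLinearGroup (Fin m ⊕ Fin m) F)
        : Matrix (Fin m ⊕ Fin m) (Fin m ⊕ Fin m) F)
      = Matrix.fromBlocks (A : Matrix (Fin m) (Fin m) F) 0 0
        ((A⁻¹ : GL (Fin m) F) : Matrix (Fin m) (Fin m) F).transpose := rfl

theorem levi_mul (A B : GL (Fin m) F) : levi (A * B) = levi A * levi B := by
  apply iso_ext
  rw [coe_mul, coe_levi, coe_levi, coe_levi, Matrix.fromBlocks_multiply]
  simp [Matrix.transpose_mul]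

/-- The Levi embedding followed by the abelianisation map. -/
noncomputable def psi : GL (Fin m) F →* Abelianization ↥(Cfsg.isometryGroup F ⇑(plusQF m F)) :=
  (Abelianization.of).comp (MonoidHom.mk' levi levi_mul)

theorem psi_apply (A : GL (Fin m) F) : psi A = Abelianization.of (levi A) := rfl

theorem psi_eq_one_iff (A : GL (Fin m) F) :
    psi A = 1 ↔ levi A ∈ commutator ↥(Cfsg.isometryGroup F ⇑(plusQF m F)) := by
  rw [psi_apply, ← Abelianization.ker_of, MonoidHom.mem_ker]

theorem psi_eq_of_det (hcomm : commutator (Matrix.GeneralLinearGroup (Fin m) F)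
      = (Matrix.GeneralLinearGroup.det : Matrix.GeneralLinearGroup (Fin m) F →* Fˣ).ker)
    (A D : GL (Fin m) F)
    (hdet : (A : Matrix (Fin m) (Fin m) F).det = (D : Matrix (Fin m) (Fin m) F).det) :
    psi A = psi D := by
  have hmem : A * D⁻¹ ∈ (Matrix.GeneralLinearGroup.det :
      Matrix.GeneralLinearGroup (Fin m) F →* Fˣ).ker := by
    rw [MonoidHom.mem_ker, map_mul, map_inv, mul_inv_eq_one, Units.ext_iff]
    exact hdet
  rw [← hcomm] at hmem
  have h1 : psi (A * D⁻¹) = 1 := (Abelianization.commutator_subset_ker psi) hmem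
  rw [map_mul, map_inv, mul_inv_eq_one] at h1
  exact h1

/-- The diagonal matrix `diag(d, 1, …, 1)`. -/
noncomputable def dg (hm : 1 ≤ m) (d : F) (hd : d ≠ 0) : GL (Fin m) F :=
  ⟨Matrix.diagonal (fun i : Fin m => if i = ⟨0, hm⟩ then d else 1),
   Matrix.diagonal (fun i : Fin m => if i = ⟨0, hm⟩ then d⁻¹ else 1),
   by
     rw [Matrix.diagonal_mul_diagonal, ← Matrix.diagonal_one]
     congr 1
     funext i
     split_ifs
     · exact mul_inv_cancel₀ hd
     · exact mul_one 1,
   by
     rw [Matrix.diagonal_mul_diagonal, ← Matrix.diagonal_one]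
     congr 1
     funext i
     split_ifs
     · exact inv_mul_cancel₀ hd
     · exact mul_one 1⟩

theorem det_dg (hm : 1 ≤ m) (d : F) (hd : d ≠ 0) :
    ((dg hm d hd : GL (Fin m) F) : Matrix (Fin m) (Fin m) F).det = d := by
  change (Matrix.diagonal (fun i : Fin m => if i = ⟨0, hm⟩ then d else 1)).det = d
  rw [Matrix.det_diagonal, Finset.prod_ite_eq' Finset.univ (⟨0, hm⟩ : Fin m) (fun _ => d)]
  simp

theorem act_levi_dg (hm : 1 ≤ m) (d : F) (hd : d ≠ 0) (v : Fin m ⊕ Fin m → F) :
    act (plusQF m F) (levi (dg hm d hd)) v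
      = Sum.elim (fun i => (if i = ⟨0, hm⟩ then d else 1) * v (Sum.inl i))
          (fun i => (if i = ⟨0, hm⟩ then d⁻¹ else 1) * v (Sum.inr i)) := by
  rw [act_apply, coe_levi]
  have e1 : ((dg hm d hd : GL (Fin m) F) : Matrix (Fin m) (Fin m) F)
      = Matrix.diagonal (fun i : Fin m => if i = ⟨0, hm⟩ then d else 1) := rfl
  have e2 : (((dg hm d hd)⁻¹ : GL (Fin m) F) : Matrix (Fin m) (Fin m) F)
      = Matrix.diagonal (fun i : Fin m => if i = ⟨0, hm⟩ then d⁻¹ else 1) := rfl
  rw [e1, e2, Matrix.diagonal_transpose]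
  funext k
  rcases k with i | i
  · have h := congrFun (fromBlocks_mulVec_inl
      (Matrix.diagonal (fun i : Fin m => if i = ⟨0, hm⟩ then d else 1))
      (Matrix.diagonal (fun i : Fin m => if i = ⟨0, hm⟩ then d⁻¹ else 1)) v) i
    rw [Function.comp_apply, Matrix.mulVec_diagonal] at h
    rw [h]
    rfl
  · have h := congrFun (fromBlocks_mulVec_inr
      (Matrix.diagonal (fun i : Fin m => if i = ⟨0, hm⟩ then d else 1))
      (Matrix.diagonal (fun i : Fin m => if i = ⟨0, hm⟩ then d⁻¹ else 1)) v) i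
    rw [Function.comp_apply, Matrix.mulVec_diagonal] at h
    rw [h]
    rfl

/-- The vector `e₀ - a f₀`. -/
noncomputable def wv (hm : 1 ≤ m) (a : F) : Fin m ⊕ Fin m → F :=
  Pi.single (Sum.inl ⟨0, hm⟩) 1 - a • Pi.single (Sum.inr ⟨0, hm⟩) 1

theorem Q_wv (hm : 1 ≤ m) (a : F) : plusQF m F (wv hm a) = -a := by
  classical
  rw [plusQF_apply]
  unfold Cfsg.quadFormPlus
  rw [Finset.sum_eq_single (⟨0, hm⟩ : Fin m)]
  · simp [wv]
  · intro j _ hj
    simp [wv, hj]
  · intro h
    exact absurd (Finset.mem_univ _) h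

theorem polar_wv (hm : 1 ≤ m) (a : F) (x : Fin m ⊕ Fin m → F) :
    QuadraticMap.polar ⇑(plusQF m F) (wv hm a) x
      = x (Sum.inr ⟨0, hm⟩) - a * x (Sum.inl ⟨0, hm⟩) := by
  classical
  rw [coe_plusQF, polar_plus, Finset.sum_eq_single (⟨0, hm⟩ : Fin m)]
  · simp [wv]
    ring
  · intro j _ hj
    simp [wv, hj]
  · intro h
    exact absurd (Finset.mem_univ _) h

theorem act_refl_wv (hm : 1 ≤ m) (a : F) (ha : a ≠ 0) (x : Fin m ⊕ Fin m → F) :
    act (plusQF m F) (reflO (plusQF m F) (wv hm a)) x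
      = Sum.elim (fun i => if i = ⟨0, hm⟩ then a⁻¹ * x (Sum.inr ⟨0, hm⟩) else x (Sum.inl i))
          (fun i => if i = ⟨0, hm⟩ then a * x (Sum.inl ⟨0, hm⟩) else x (Sum.inr i)) := by
  classical
  have hw0 : plusQF m F (wv hm a) ≠ 0 := by
    rw [Q_wv]
    exact neg_ne_zero.mpr ha
  rw [act_reflO _ _ hw0, Q_wv, polar_wv]
  funext k
  rcases k with i | i
  · by_cases hi : i = ⟨0, hm⟩
    · subst hi
      simp [wv]
      field_simp
      ring
    · simp [wv, hi]
  · by_cases hi : i = ⟨0, hm⟩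
    · subst hi
      simp [wv]
      field_simp
      ring
    · simp [wv, hi]

variable [Fintype F]

theorem levi_dg_eq (hm : 1 ≤ m) (d : F) (hd : d ≠ 0) :
    levi (dg hm d hd) = prodRefl (plusQF m F) [wv hm 1, wv hm d] := by
  apply act_ext
  intro v
  rw [act_levi_dg, act_cons, act_cons, act_nil, act_refl_wv hm d hd, act_refl_wv hm 1 one_ne_zero]
  funext k
  rcases k with i | i
  · by_cases hi : i = ⟨0, hm⟩
    · subst hi
      simp
    · simp [hi]
  · by_cases hi : i = ⟨0, hm⟩
    · subst hi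
      simp
    · simp [hi]

/-- The statement for the hyperbolic form as a quadratic form. -/
theorem aux (hm : 1 ≤ m) (h : Fintype.card F ≠ 2 ∨ m ≠ 2) (A : GL (Fin m) F) :
    (∃ g : ↥(Cfsg.isometryGroup F ⇑(plusQF m F)),
      g ∈ commutator ↥(Cfsg.isometryGroup F ⇑(plusQF m F)) ∧
      ((g : Matrix.GeneralLinearGroup (Fin m ⊕ Fin m) F)
          : Matrix (Fin m ⊕ Fin m) (Fin m ⊕ Fin m) F)
        = Matrix.fromBlocks (A : Matrix (Fin m) (Fin m) F) 0 0
          ((A : Matrix (Fin m) (Fin m) F)⁻¹).transpose)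
      ↔ IsSquare (A : Matrix (Fin m) (Fin m) F).det := by
  classical
  have hc : Fintype.card F ≠ 2 ∨ Fintype.card (Fin m ⊕ Fin m) ≠ 4 := by
    rcases h with h | h
    · exact Or.inl h
    · right
      rw [Fintype.card_sum, Fintype.card_fin]
      omega
  have hcomm : commutator (Matrix.GeneralLinearGroup (Fin m) F)
      = (Matrix.GeneralLinearGroup.det : Matrix.GeneralLinearGroup (Fin m) F →* Fˣ).ker := by
    apply Cfsg.Agent.S0264.result
    intro hm2
    have hF : Fintype.card F ≠ 2 := by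
      rcases h with h | h
      · exact h
      · exact absurd hm2 h
    by_contra hno
    have hall : ∀ a : F, a = 0 ∨ a = 1 := by
      intro a
      by_contra ha
      exact hno ⟨a, fun h0 => ha (Or.inl h0), fun h1 => ha (Or.inr h1)⟩
    have hle : Fintype.card F ≤ 2 := by
      have hsub : (Finset.univ : Finset F) ⊆ {0, 1} := by
        intro a _
        rcases hall a with h0 | h1
        · simp [h0]
        · simp [h1]
      calc Fintype.card F = (Finset.univ : Finset F).card := rfl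
        _ ≤ ({0, 1} : Finset F).card := Finset.card_le_card hsub
        _ ≤ 2 := Finset.card_le_two
    have hgt : 1 < Fintype.card F := Fintype.one_lt_card
    omega
  have hfirst : (∃ g : ↥(Cfsg.isometryGroup F ⇑(plusQF m F)),
      g ∈ commutator ↥(Cfsg.isometryGroup F ⇑(plusQF m F)) ∧
      ((g : Matrix.GeneralLinearGroup (Fin m ⊕ Fin m) F)
          : Matrix (Fin m ⊕ Fin m) (Fin m ⊕ Fin m) F)
        = Matrix.fromBlocks (A : Matrix (Fin m) (Fin m) F) 0 0
          ((A : Matrix (Fin m) (Fin m) F)⁻¹).transpose) ↔ psi A = 1 := by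
    rw [psi_eq_one_iff]
    constructor
    · rintro ⟨g, hg, hgm⟩
      have hgeq : g = levi A := by
        apply iso_ext
        rw [hgm, coe_levi, Matrix.coe_units_inv]
      rw [← hgeq]
      exact hg
    · intro hmem
      exact ⟨levi A, hmem, by rw [coe_levi, Matrix.coe_units_inv]⟩
  rw [hfirst]
  have hd0 : (A : Matrix (Fin m) (Fin m) F).det ≠ 0 := by
    have hu : IsUnit (A : Matrix (Fin m) (Fin m) F).det :=
      (Matrix.isUnit_iff_isUnit_det _).1 A.isUnit
    exact hu.ne_zero
  constructor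
  · intro hpsi
    by_cases h2 : (2 : F) = 0
    · have hchar : CharP F 2 := CharTwo.of_one_ne_zero_of_two_eq_zero one_ne_zero h2
      exact FiniteField.isSquare_of_char_two ((ringChar.eq_iff).2 hchar) _
    · rw [psi_eq_of_det hcomm A (dg hm _ hd0) (det_dg hm _ hd0).symm, psi_eq_one_iff,
        levi_dg_eq] at hpsi
      have hvs : ∀ v ∈ [wv hm (1 : F), wv hm (A : Matrix (Fin m) (Fin m) F).det],
          plusQF m F v ≠ 0 := by
        intro v hv
        rw [List.mem_cons, List.mem_singleton] at hv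
        rcases hv with rfl | rfl
        · rw [Q_wv]
          exact neg_ne_zero.mpr one_ne_zero
        · rw [Q_wv]
          exact neg_ne_zero.mpr hd0
      have hsq := ((prodRefl_mem_omega_iff h2 (plusQF m F) _ hvs).1 hpsi).2
      simp only [List.map_cons, List.map_nil, List.prod_cons, List.prod_nil, Q_wv, mul_one,
        neg_mul, one_mul, neg_neg] at hsq
      exact hsq
  · rintro ⟨c, hcc⟩
    have hc0 : c ≠ 0 := by
      rintro rfl
      rw [mul_zero] at hcc
      exact hd0 hcc
    have hdet : (A : Matrix (Fin m) (Fin m) F).det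
        = ((dg hm c hc0 * dg hm c hc0 : GL (Fin m) F) : Matrix (Fin m) (Fin m) F).det := by
      rw [Units.val_mul, Matrix.det_mul, det_dg, hcc]
    rw [psi_eq_of_det hcomm A _ hdet, map_mul, psi_apply, ← map_mul]
    have hmem := sq_mem_commutator (plusQF m F) (plus_sep m) hc (levi (dg hm c hc0))
    rw [← Abelianization.ker_of, MonoidHom.mem_ker] at hmem
    exact hmem

end


/-- For the hyperbolic quadratic form Σ x_i y_i on F^(2m) (F finite, m ≥ 1, excluding m = 2 over the field of two elements) and an invertible m × m matrix A, the block-diagonal isometry diag(A, (A⁻¹)ᵀ), which stabilises the two maximal totally singular subspaces x = 0 and y = 0, lies in Ω⁺_2m(F) (the commutator subgroup of the orthogonal group) if and only if det A is a square in F. -/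
theorem result {F : Type*} [Field F] [Fintype F] {m : ℕ} (hm : 1 ≤ m) (h : Fintype.card F ≠ 2 ∨ m ≠ 2) (A : GL (Fin m) F) : (∃ g : ↥(Cfsg.isometryGroup F (Cfsg.quadFormPlus m F)), g ∈ Cfsg.Omega F (Cfsg.quadFormPlus m F) ∧ ((g : Matrix.GeneralLinearGroup (Fin m ⊕ Fin m) F) : Matrix (Fin m ⊕ Fin m) (Fin m ⊕ Fin m) F) = Matrix.fromBlocks (A : Matrix (Fin m) (Fin m) F) 0 0 ((A : Matrix (Fin m) (Fin m) F)⁻¹).transpose) ↔ IsSquare (A : Matrix (Fin m) (Fin m) F).det := by
  exact aux hm h A

end Cfsg.Agent.S2611
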