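import Cfsg.Statements.S2629
import Cfsg.Agent.Lib.Helper15.Parity
import Cfsg.Agent.Lib.Helper15.CartanD

set_option autoImplicit false
open Cfsg

namespace Cfsg.Agent.S2629

open Cfsg.Agent.Lib.Helper15.Spinor Cfsg.Agent.Lib.Helper15.StdForms
  Cfsg.Agent.Lib.Helper15.Parity Cfsg.Agent.Lib.Helper15.CD2 in
/-- The statement for the hyperbolic form as a quadratic form. -/
theorem aux {F : Type*} [Field F] [Fintype F] (h2 : (2 : F) ≠ 0) {m : ℕ}
    (g : ↥(Cfsg.isometryGroup F ⇑(plusQF m F))) :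
    Even (m - Module.finrank F ↥(U0 m F ⊓ (U0 m F).map (act (plusQF m F) g)))
      ↔ ((g : Matrix.GeneralLinearGroup (Fin m ⊕ Fin m) F)
          : Matrix (Fin m ⊕ Fin m) (Fin m ⊕ Fin m) F).det = 1 := by
  classical
  obtain ⟨vs, hvs, rfl⟩ := Cfsg.Agent.Lib.Helper15.CartanD.cartan_dieudonne h2 (plusQF m F)
    (plus_nondeg m) g
  rw [parity_prodRefl m vs hvs, Cfsg.Agent.Lib.Helper15.CartanD.det_prodRefl _ vs hvs]
  have hneg : (-1 : F) ≠ 1 := by
    intro h
    apply h2
    linear_combination -h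
  exact (neg_one_pow_eq_one_iff_even hneg).symm


/-- For the hyperbolic form Σ x_i y_i on F^(2m) over a finite field of odd order (m ≥ 1), an isometry g preserves the class of the maximal totally singular subspace U₀ = {y = 0} (that is, m − dim(U₀ ∩ gU₀) is even) if and only if det g = 1: the stabiliser of each of the two classes of maximal totally singular subspaces is SO. -/
theorem result {F : Type*} [Field F] [Fintype F] (h2 : (2 : F) ≠ 0) {m : ℕ} (hm : 1 ≤ m) (g : ↥(Cfsg.isometryGroup F (Cfsg.quadFormPlus m F))) : Even (m - Module.finrank F ↥(LinearMap.ker (LinearMap.funLeft F F (Sum.inr : Fin m → Fin m ⊕ Fin m)) ⊓ (LinearMap.ker (LinearMap.funLeft F F (Sum.inr : Fin m → Fin m ⊕ Fin m))).map (Matrix.mulVecLin ((g : Matrix.GeneralLinearGroup (Fin m ⊕ Fin m) F) : Matrix (Fin m ⊕ Fin m) (Fin m ⊕ Fin m) F)))) ↔ ((g : Matrix.GeneralLinearGroup (Fin m ⊕ Fin m) F) : Matrix (Fin m ⊕ Fin m) (Fin m ⊕ Fin m) F).det = 1 := by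
  exact aux h2 g

end Cfsg.Agent.S2629
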