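import Mathlib
import Cfsg.Statements.S1012

set_option autoImplicit false
open Cfsg

namespace Cfsg.Agent.S1012

theorem arith (c r m : ℕ) (h2 : c * (r * m) = 24) (hr : r = 1 ∨ r = 2) (hc : ¬ 2 ∣ c)
    (h4 : m ≡ 1 [MOD 3]) : m = 4 ∧ c = 3 := by
  have hcd : c ∣ 24 := Dvd.intro _ h2
  have hc24 : c ≤ 24 := Nat.le_of_dvd (by norm_num) hcd
  unfold Nat.ModEq at h4
  rcases hr with rfl | rfl
  · interval_cases c <;> omega
  · interval_cases c <;> omega

theorem result {G : Type*} [Group G] [Finite G] (h : Nat.card G = 24) (h6 : ∀ g : G, orderOf g ≠ 6) : Nonempty (G ≃* Equiv.Perm (Fin 4)) := by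
  classical
  have : Fact (Nat.Prime 3) := ⟨Nat.prime_three⟩
  have : Fact (Nat.Prime 2) := ⟨Nat.prime_two⟩
  let P : Sylow 3 G := default
  have hcP : Nat.card ↥(P : Subgroup G) = 3 := by
    obtain ⟨k, hk⟩ := IsPGroup.iff_card.mp P.2
    have h1 : 3 ∣ Nat.card ↥(P : Subgroup G) := P.dvd_card_of_dvd_card (by rw [h]; decide)
    have h2 : Nat.card ↥(P : Subgroup G) ∣ 24 := h ▸ Subgroup.card_subgroup_dvd_card _
    rw [hk] at h1 h2 ⊢
    have hk1 : k ≠ 0 := by
      rintro rfl
      norm_num at h1
    have hk2 : k < 2 := by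
      by_contra hk2
      push Not at hk2
      have := (pow_dvd_pow 3 hk2).trans h2
      norm_num at this
    have : k = 1 := by omega
    rw [this]
    rfl
  obtain ⟨x, hx⟩ := exists_prime_orderOf_dvd_card' (G := ↥(P : Subgroup G)) 3 (by rw [hcP])
  have hx3 : orderOf (x : G) = 3 := by rw [Subgroup.orderOf_coe]; exact hx
  set N := Subgroup.normalizer ((P : Subgroup G) : Set G) with hN
  set C := Subgroup.centralizer ((P : Subgroup G) : Set G) with hC
  have hnoinv : ∀ y ∈ C, orderOf y ≠ 2 := by
    intro y hy hy2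
    have hcomm : Commute (x : G) y := (Subgroup.mem_centralizer_iff.mp hy) x x.2
    have := hcomm.orderOf_mul_eq_mul_orderOf_of_coprime (by rw [hx3, hy2]; decide)
    rw [hx3, hy2] at this
    exact h6 _ this
  have hCodd : ¬ 2 ∣ Nat.card ↥C := by
    intro hd
    obtain ⟨y, hy⟩ := exists_prime_orderOf_dvd_card' (G := ↥C) 2 hd
    exact hnoinv y y.2 (by rw [Subgroup.orderOf_coe]; exact hy)
  have hcyc : IsCyclic ↥(P : Subgroup G) := isCyclic_of_prime_card hcP
  have key := Subgroup.card_dvd_of_injective _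
    (QuotientGroup.kerLift_injective (P : Subgroup G).normalizerMonoidHom)
  rw [Subgroup.normalizerMonoidHom_ker, ← Subgroup.index, ← Subgroup.relIndex,
    IsCyclic.card_mulAut, hcP] at key
  have hr : C.relIndex N ∣ 2 := key
  have hCN : C ≤ N := Subgroup.centralizer_le_normalizer _
  have h1 : C.relIndex N * N.index = C.index := Subgroup.relIndex_mul_index hCN
  have h2 : Nat.card ↥C * C.index = 24 := h ▸ Subgroup.card_mul_index C
  have h3 : Nat.card (Sylow 3 G) = N.index := Sylow.card_eq_index_normalizer P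
  have h4 : Nat.card (Sylow 3 G) ≡ 1 [MOD 3] := card_sylow_modEq_one 3 G
  have hn3 : N.index = 4 ∧ Nat.card ↥C = 3 := by
    rw [h3] at h4
    rw [← h1] at h2
    have hr' : C.relIndex N = 1 ∨ C.relIndex N = 2 := by
      have := Nat.le_of_dvd (by norm_num) hr
      have h0 : C.relIndex N ≠ 0 := fun h0 => by rw [h0] at hr; norm_num at hr
      omega
    exact arith _ _ _ h2 hr' hCodd h4
  obtain ⟨hn4, hC3⟩ := hn3
  have hcN : Nat.card ↥N = 6 := by
    have := Subgroup.card_mul_index N
    rw [hn4, h] at this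
    omega
  rw [hn4] at h3
  set φ := MulAction.toPermHom G (Sylow 3 G) with hφ
  set K := φ.ker with hK
  have hKmem : ∀ g ∈ K, ∀ Q : Sylow 3 G, g ∈ Subgroup.normalizer ((Q : Subgroup G) : Set G) := by
    intro g hg Q
    rw [hK, MonoidHom.mem_ker] at hg
    have : g • Q = Q := by
      have := congrArg (fun f => f Q) hg
      exact this
    exact Sylow.smul_eq_iff_mem_normalizer.mp this
  have hKN : K ≤ N := fun g hg => hKmem g hg P
  have hK3 : ∀ g ∈ K, orderOf g ≠ 3 := by
    intro g hg hg3
    have hzp : IsPGroup 3 (Subgroup.zpowers g) :=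
      IsPGroup.of_card (n := 1) (by rw [Nat.card_zpowers, hg3, pow_one])
    have hall : ∀ Q : Sylow 3 G, (Q : Subgroup G) = Subgroup.zpowers g := by
      intro Q
      have h5 := hzp.inf_normalizer_sylow Q
      have h6' : g ∈ Subgroup.zpowers g ⊓ (Q : Subgroup G) := by
        rw [← h5]
        exact ⟨Subgroup.mem_zpowers g, hKmem g hg Q⟩
      have h7 : Subgroup.zpowers g ≤ (Q : Subgroup G) := by
        rw [Subgroup.zpowers_le]
        exact h6'.2
      have hcQ : Nat.card ↥(Q : Subgroup G) = 3 := by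
        rw [Sylow.card_eq_multiplicity Q, ← Sylow.card_eq_multiplicity P, hcP]
      exact (Subgroup.eq_of_le_of_card_ge h7 (by rw [hcQ, Nat.card_zpowers, hg3])).symm
    have hsub : Subsingleton (Sylow 3 G) := ⟨fun Q₁ Q₂ => Sylow.ext (by rw [hall Q₁, hall Q₂])⟩
    have := Finite.card_le_one_iff_subsingleton.mpr hsub
    omega
  have hK3' : ¬ 3 ∣ Nat.card ↥K := by
    intro hd
    obtain ⟨y, hy⟩ := exists_prime_orderOf_dvd_card' (G := ↥K) 3 hd
    exact hK3 y y.2 (by rw [Subgroup.orderOf_coe]; exact hy)
  have hKd : Nat.card ↥K ∣ 6 := hcN ▸ Subgroup.card_dvd_of_le hKN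
  have hK12 : Nat.card ↥K = 1 ∨ Nat.card ↥K = 2 := by
    have := Nat.le_of_dvd (by norm_num) hKd
    generalize Nat.card ↥K = c at *
    interval_cases c <;> simp_all
  have hKbot : K = ⊥ := by
    rcases hK12 with h1' | h2'
    · exact Subgroup.card_eq_one.mp h1'
    · exfalso
      obtain ⟨z, hz⟩ := exists_prime_orderOf_dvd_card' (G := ↥K) 2 (by rw [h2'])
      have hz2 : orderOf (z : G) = 2 := by rw [Subgroup.orderOf_coe]; exact hz
      have hKn : K.Normal := MonoidHom.normal_ker φ
      have hzc : ∀ g : G, g * (z : G) * g⁻¹ = z := by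
        intro g
        have hm : g * (z : G) * g⁻¹ ∈ K := hKn.conj_mem _ z.2 g
        have hcard2 : ∀ w ∈ K, w = 1 ∨ w = (z : G) := by
          intro w hw
          have hzp : Subgroup.zpowers (z : G) = K := by
            apply Subgroup.eq_of_le_of_card_ge
            · rw [Subgroup.zpowers_le]; exact z.2
            · rw [Nat.card_zpowers, hz2, h2']
          rw [← hzp] at hw
          obtain ⟨k, rfl⟩ := Subgroup.mem_zpowers_iff.mp hw
          have hz2' : (z : G) ^ 2 = 1 := by rw [← hz2]; exact pow_orderOf_eq_one _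
          rcases Int.emod_two_eq_zero_or_one k with hk | hk
          · left
            obtain ⟨m, rfl⟩ := Int.dvd_of_emod_eq_zero hk
            rw [zpow_mul, zpow_ofNat, hz2', one_zpow]
          · right
            have : k = 2 * (k / 2) + 1 := by omega
            rw [this, zpow_add, zpow_mul, zpow_ofNat, hz2', one_zpow, one_mul, zpow_one]
        rcases hcard2 _ hm with h0 | h0
        · exfalso
          have : (z : G) = 1 := by
            have := congrArg (fun t => g⁻¹ * t * g) h0
            simpa [mul_assoc] using this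
          rw [this, orderOf_one] at hz2
          norm_num at hz2
        · exact h0
      apply hnoinv (z : G) _ hz2
      rw [hC, Subgroup.mem_centralizer_iff]
      intro w _
      have := hzc w
      rw [mul_inv_eq_iff_eq_mul] at this
      exact this
  have hinj : Function.Injective φ := (MonoidHom.ker_eq_bot_iff φ).mp hKbot
  have hbij : Function.Bijective φ := by
    apply hinj.bijective_of_nat_card_le
    rw [Nat.card_perm, h3, h]
    decide
  exact ⟨(MulEquiv.ofBijective φ hbij).trans (Finite.equivFinOfCardEq h3).permCongrHom⟩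

end Cfsg.Agent.S1012
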