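import Cfsg.Statements.S0292
import Cfsg.Agent.Lib.Helper15.CenterOmega
import Cfsg.Agent.S0286

set_option autoImplicit false
open Cfsg

namespace Cfsg.Agent.S0292

open Cfsg.Agent.Lib.Helper15.Spinor3 Cfsg.Agent.Lib.Helper15.CenterOmega
  Cfsg.Agent.Lib.Helper15.StdForms in
theorem aux {F : Type*} [Field F] [Fintype F] (h2 : (2 : F) ≠ 0) (m : ℕ) (hm : 3 ≤ m) (X : ℕ)
    (hO : Nat.card (Cfsg.isometryGroup F (Cfsg.quadFormOdd m F)) = 2 * X) :
    2 * Nat.card (Cfsg.POmega F (Cfsg.quadFormOdd m F)) = X := by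
  classical
  have hcard : Fintype.card (Unit ⊕ (Fin m ⊕ Fin m)) = 2 * m + 1 := by
    rw [Fintype.card_sum, Fintype.card_sum, Fintype.card_fin, Fintype.card_unit]; omega
  have hn : 5 ≤ Fintype.card (Unit ⊕ (Fin m ⊕ Fin m)) := by
    rw [hcard]; omega
  have hQ : (QuadraticMap.polarBilin (oddQF m F)).Nondegenerate :=
    nondeg_of_sep _ (fun x hx => Cfsg.Agent.Lib.Helper15.OrthOrder.odd_sep h2 m x
      (by rw [← coe_oddQF]; exact hx))
  obtain ⟨u, hu0, hQu⟩ : ∃ u : Unit ⊕ (Fin m ⊕ Fin m) → F, u ≠ 0 ∧ oddQF m F u = 0 := by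
    refine ⟨Pi.single (Sum.inr (Sum.inl ⟨0, by omega⟩)) 1, ?_, ?_⟩
    · intro h
      have h' := congrFun h (Sum.inr (Sum.inl ⟨0, by omega⟩))
      rw [Pi.single_eq_same] at h'
      exact one_ne_zero h'
    · rw [coe_oddQF]
      unfold Cfsg.quadFormOdd
      have h0 : ∑ i : Fin m,
          (Pi.single (Sum.inr (Sum.inl ⟨0, by omega⟩)) 1 :
            Unit ⊕ (Fin m ⊕ Fin m) → F) (Sum.inr (Sum.inl i))
          * (Pi.single (Sum.inr (Sum.inl ⟨0, by omega⟩)) 1 :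
            Unit ⊕ (Fin m ⊕ Fin m) → F) (Sum.inr (Sum.inr i)) = 0 := by
        apply Finset.sum_eq_zero
        intro i _
        simp [Pi.single_apply]
      rw [h0]
      simp [Pi.single_apply]
  have hneg : ¬ ∃ g : ↥(Cfsg.isometryGroup F ⇑(oddQF m F)), g ∈ Cfsg.Omega F ⇑(oddQF m F) ∧
      ((g : Matrix.GeneralLinearGroup (Unit ⊕ (Fin m ⊕ Fin m)) F) :
        Matrix (Unit ⊕ (Fin m ⊕ Fin m)) (Unit ⊕ (Fin m ⊕ Fin m)) F) = -1 := by
    rintro ⟨g, hg, hmat⟩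
    have h1 : g ∈ Cfsg.specialIsometryGroup F ⇑(oddQF m F) :=
      Abelianization.commutator_subset_ker _ hg
    rw [Cfsg.Agent.Lib.Helper15.CartanD.mem_special, hmat, Matrix.det_neg, Matrix.det_one,
      mul_one, hcard, pow_succ, pow_mul] at h1
    simp at h1
    apply h2
    have : (2 : F) = 1 - (-1) := by ring
    rw [this, h1, sub_self]
  have hP := card_pomega_odd h2 (oddQF m F) hQ hn
  have hZ := card_center_out h2 (oddQF m F) hQ hn u hu0 hQu hneg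
  rw [hZ, coe_oddQF] at hP
  omega

/-- 2 |PΩ_{2m+1}(q)| = q^(m^2) prod_{i=1}^{m} (q^(2i) - 1), for q odd and m at least 3 (type B_m). -/
theorem result {F : Type*} [Field F] [Fintype F] {q : ℕ} (hF : Fintype.card F = q) (hodd : Odd q) (m : ℕ) (hm : 3 ≤ m) : 2 * Nat.card (Cfsg.POmega F (Cfsg.quadFormOdd m F)) = q ^ (m ^ 2) * ∏ i ∈ Finset.range m, (q ^ (2 * (i + 1)) - 1) := by
  have h2 : (2 : F) ≠ 0 := Cfsg.Agent.Lib.Helper15.Spinor2.two_ne_zero_of_odd_card hF hodd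
  have hO := Cfsg.Agent.S0286.result hF hodd m
  exact aux h2 m hm _ (by rw [hO]; ring)

end Cfsg.Agent.S0292
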