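import Cfsg.Statements.S0768
import Cfsg.Agent.Lib.Helper5.Symp2

set_option autoImplicit false
open Cfsg
open scoped Matrix LinearAlgebra.Projectivization Pointwise

namespace Cfsg.Agent.S0768

open Cfsg.Agent.Lib.Helper5 Cfsg.Agent.Lib.Helper5.Symp Cfsg.Agent.Lib.Helper5.Symp2

def toGL {F : Type*} [Field F] (m : ℕ) (A : Matrix.symplecticGroup (Fin m) F) :
    Matrix.GeneralLinearGroup (Fin m ⊕ Fin m) F :=
  ⟨(A : Matrix (Fin m ⊕ Fin m) (Fin m ⊕ Fin m) F),
    ((A⁻¹ : Matrix.symplecticGroup (Fin m) F) : Matrix (Fin m ⊕ Fin m) (Fin m ⊕ Fin m) F),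
    by rw [← Submonoid.coe_mul, mul_inv_cancel, Submonoid.coe_one],
    by rw [← Submonoid.coe_mul, inv_mul_cancel, Submonoid.coe_one]⟩

theorem toGL_mem {F : Type*} [Field F] (m : ℕ) (A : Matrix.symplecticGroup (Fin m) F) :
    toGL m A ∈ Cfsg.spGL m F := by
  intro u v
  exact sympForm_mulVec_of_mem m A.2 u v

def toG {F : Type*} [Field F] (m : ℕ) (A : Matrix.symplecticGroup (Fin m) F) :
    ↥(Cfsg.spGL m F) := ⟨toGL m A, toGL_mem m A⟩

theorem mulVec_ne_zero {F : Type*} [Field F] (m : ℕ) (A : Matrix.symplecticGroup (Fin m) F)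
    {y : Fin m ⊕ Fin m → F} (hy : y ≠ 0) :
    (A : Matrix (Fin m ⊕ Fin m) (Fin m ⊕ Fin m) F) *ᵥ y ≠ 0 := by
  intro h
  apply hy
  have h1 := congrArg (fun z => ((A⁻¹ : Matrix.symplecticGroup (Fin m) F) :
    Matrix (Fin m ⊕ Fin m) (Fin m ⊕ Fin m) F) *ᵥ z) h
  simp only [Matrix.mulVec_mulVec, ← Submonoid.coe_mul, inv_mul_cancel, Submonoid.coe_one,
    Matrix.one_mulVec, Matrix.mulVec_zero] at h1
  exact h1

theorem toG_smul_mk {F : Type*} [Field F] (m : ℕ) (A : Matrix.symplecticGroup (Fin m) F)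
    (x : Fin m ⊕ Fin m → F) (hx : x ≠ 0) :
    toG m A • Projectivization.mk F x hx =
      Projectivization.mk F ((A : Matrix (Fin m ⊕ Fin m) (Fin m ⊕ Fin m) F) *ᵥ x)
        (mulVec_ne_zero m A hx) := rfl

theorem exists_partner {F : Type*} [Field F] (m : ℕ) {x : Fin m ⊕ Fin m → F} (hx : x ≠ 0) :
    ∃ v, Cfsg.sympForm m F x v = 1 := by
  by_contra hcon
  push Not at hcon
  apply hx
  apply eq_zero_of_sympForm_eq_zero m x
  intro b
  by_contra hb
  apply hcon ((Cfsg.sympForm m F x b)⁻¹ • b)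
  rw [sympForm_smul_right, inv_mul_cancel₀ hb]

def S {F : Type*} [Field F] (m : ℕ) (B : Set (ℙ F (Fin m ⊕ Fin m → F))) :
    Set (Fin m ⊕ Fin m → F) :=
  {x | ∃ hx : x ≠ 0, Projectivization.mk F x hx ∈ B}

theorem S_smul {F : Type*} [Field F] (m : ℕ) {B : Set (ℙ F (Fin m ⊕ Fin m → F))}
    {x : Fin m ⊕ Fin m → F} (hx : x ∈ S m B) {c : F} (hc : c ≠ 0) : c • x ∈ S m B := by
  obtain ⟨hx0, hxB⟩ := hx
  refine ⟨smul_ne_zero hc hx0, ?_⟩
  have h1 : Projectivization.mk F (c • x) (smul_ne_zero hc hx0) = Projectivization.mk F x hx0 := by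
    rw [Projectivization.mk_eq_mk_iff']
    exact ⟨c, rfl⟩
  rw [h1]
  exact hxB

theorem S_move {F : Type*} [Field F] (m : ℕ) {B : Set (ℙ F (Fin m ⊕ Fin m → F))}
    (hB : MulAction.IsBlock (↥(Cfsg.spGL m F)) B) {x y : Fin m ⊕ Fin m → F}
    (hx : x ∈ S m B) (hy : y ∈ S m B) (A : Matrix.symplecticGroup (Fin m) F)
    (hA : (A : Matrix (Fin m ⊕ Fin m) (Fin m ⊕ Fin m) F) *ᵥ x = x) :
    (A : Matrix (Fin m ⊕ Fin m) (Fin m ⊕ Fin m) F) *ᵥ y ∈ S m B := by
  obtain ⟨hx0, hxB⟩ := hx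
  obtain ⟨hy0, hyB⟩ := hy
  have h1 : toG m A • Projectivization.mk F x hx0 ∈ B := by
    rw [toG_smul_mk]
    have h0 : Projectivization.mk F ((A : Matrix (Fin m ⊕ Fin m) (Fin m ⊕ Fin m) F) *ᵥ x)
        (mulVec_ne_zero m A hx0) = Projectivization.mk F x hx0 := by
      rw [Projectivization.mk_eq_mk_iff']
      exact ⟨1, by rw [one_smul, hA]⟩
    rw [h0]
    exact hxB
  have h2 : toG m A • B = B := hB.smul_eq_of_mem hxB h1
  refine ⟨mulVec_ne_zero m A hy0, ?_⟩
  rw [← toG_smul_mk m A y hy0, ← h2]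
  exact Set.smul_mem_smul_set hyB

theorem claimA0 {F : Type*} [Field F] (m : ℕ) {B : Set (ℙ F (Fin m ⊕ Fin m → F))}
    (hB : MulAction.IsBlock (↥(Cfsg.spGL m F)) B) {x y z : Fin m ⊕ Fin m → F}
    (hx : x ∈ S m B) (hy : y ∈ S m B)
    (h1 : Cfsg.sympForm m F x z = Cfsg.sympForm m F x y) (h2 : Cfsg.sympForm m F y z ≠ 0) :
    z ∈ S m B := by
  have h3 := S_move m hB hx hy (tv m (y - z) (Cfsg.sympForm m F y z)⁻¹)
    (step_fix m y z x _ h1.symm)
  rwa [step m y z h2] at h3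

theorem claimA {F : Type*} [Field F] (m : ℕ) {B : Set (ℙ F (Fin m ⊕ Fin m → F))}
    (hB : MulAction.IsBlock (↥(Cfsg.spGL m F)) B) {x y z : Fin m ⊕ Fin m → F}
    (hx : x ∈ S m B) (hy : y ∈ S m B)
    (hxy : Cfsg.sympForm m F x y ≠ 0) (hxz : Cfsg.sympForm m F x z ≠ 0) : z ∈ S m B := by
  have hc0 : Cfsg.sympForm m F x y / Cfsg.sympForm m F x z ≠ 0 := div_ne_zero hxy hxz
  have hz' : Cfsg.sympForm m F x ((Cfsg.sympForm m F x y / Cfsg.sympForm m F x z) • z) =
      Cfsg.sympForm m F x y := by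
    rw [sympForm_smul_right, div_mul_cancel₀ _ hxz]
  suffices h : (Cfsg.sympForm m F x y / Cfsg.sympForm m F x z) • z ∈ S m B by
    have h3 := S_smul m h (inv_ne_zero hc0)
    rwa [smul_smul, inv_mul_cancel₀ hc0, one_smul] at h3
  by_cases h2 : Cfsg.sympForm m F y ((Cfsg.sympForm m F x y / Cfsg.sympForm m F x z) • z) = 0
  · have hz1 : x + y ∈ S m B := by
      apply claimA0 m hB hx hy
      · rw [sympForm_add_right, sympForm_self, zero_add]
      · rw [sympForm_add_right, sympForm_self, add_zero, sympForm_swap]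
        exact neg_ne_zero.mpr hxy
    apply claimA0 m hB hx hz1
    · rw [hz', sympForm_add_right, sympForm_self, zero_add]
    · rw [sympForm_add_left, hz', h2, add_zero]
      exact hxy
  · exact claimA0 m hB hx hy hz' h2

theorem claimB {F : Type*} [Field F] (m : ℕ) {B : Set (ℙ F (Fin m ⊕ Fin m → F))}
    (hB : MulAction.IsBlock (↥(Cfsg.spGL m F)) B) {x y : Fin m ⊕ Fin m → F}
    (hx : x ∈ S m B) (hy : y ∈ S m B)
    (hxy : Cfsg.sympForm m F x y ≠ 0) {t : Fin m ⊕ Fin m → F} (ht : t ≠ 0) : t ∈ S m B := by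
  have hyx : Cfsg.sympForm m F y x ≠ 0 := by
    rw [sympForm_swap]
    exact neg_ne_zero.mpr hxy
  by_cases h1 : Cfsg.sympForm m F x t = 0
  · by_cases h2 : Cfsg.sympForm m F y t = 0
    · obtain ⟨a, ha⟩ := exists_partner m ht
      obtain ⟨z, hz1, hz2⟩ : ∃ z, Cfsg.sympForm m F x z ≠ 0 ∧ Cfsg.sympForm m F z t ≠ 0 := by
        by_cases h3 : Cfsg.sympForm m F x a = 0
        · refine ⟨a + y, ?_, ?_⟩
          · rw [sympForm_add_right, h3, zero_add]
            exact hxy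
          · rw [sympForm_add_left, h2, add_zero, sympForm_swap, ha]
            simp
        · refine ⟨a, h3, ?_⟩
          rw [sympForm_swap, ha]
          simp
      have hz : z ∈ S m B := claimA m hB hx hy hxy hz1
      have hzx : Cfsg.sympForm m F z x ≠ 0 := by
        rw [sympForm_swap]
        exact neg_ne_zero.mpr hz1
      exact claimA m hB hz hx hzx hz2
    · exact claimA m hB hy hx hyx h2
  · exact claimA m hB hx hy hxy h1

theorem claimC {F : Type*} [Field F] (m : ℕ) {B : Set (ℙ F (Fin m ⊕ Fin m → F))}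
    (hB : MulAction.IsBlock (↥(Cfsg.spGL m F)) B) {x y : Fin m ⊕ Fin m → F}
    (hx : x ∈ S m B) (hy : y ∈ S m B)
    (hxy : Cfsg.sympForm m F x y = 0) (hnp : ∀ c : F, c • x ≠ y) :
    ∃ y' ∈ S m B, Cfsg.sympForm m F y y' ≠ 0 := by
  obtain ⟨w, hw1, hw2⟩ : ∃ w, Cfsg.sympForm m F x w = 0 ∧ Cfsg.sympForm m F y w ≠ 0 := by
    by_contra hcon
    push Not at hcon
    obtain ⟨a, ha⟩ := exists_partner m hx.1
    apply hnp (Cfsg.sympForm m F y a)
    have h0 : y - Cfsg.sympForm m F y a • x = 0 := by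
      apply eq_zero_of_sympForm_eq_zero m
      intro b
      have h1 := hcon (b - Cfsg.sympForm m F x b • a)
        (by rw [sympForm_sub_right, sympForm_smul_right, ha, mul_one, sub_self])
      rw [sympForm_sub_right, sympForm_smul_right] at h1
      rw [sympForm_sub_left, sympForm_smul_left]
      linear_combination h1
    exact (sub_eq_zero.mp h0).symm
  refine ⟨((tv m w 1 : Matrix.symplecticGroup (Fin m) F) :
      Matrix (Fin m ⊕ Fin m) (Fin m ⊕ Fin m) F) *ᵥ y, S_move m hB hx hy (tv m w 1) ?_, ?_⟩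
  · rw [tv_mulVec, hw1, mul_zero, zero_smul, add_zero]
  · rw [tv_mulVec, sympForm_add_right, sympForm_self, zero_add, sympForm_smul_right, one_mul]
    exact mul_ne_zero hw2 hw2

/-- Primitivity: for m ≥ 1 and F finite, the symplectic group of the form sympForm (as a subgroup of the general linear group) acts primitively on the projective space of F^(2m). -/
theorem result {F : Type*} [Field F] [Finite F] (m : ℕ) (hm : 1 ≤ m) : MulAction.IsPreprimitive ↥(Cfsg.spGL m F) (ℙ F (Fin m ⊕ Fin m → F)) := by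
  have htrans : MulAction.IsPretransitive ↥(Cfsg.spGL m F) (ℙ F (Fin m ⊕ Fin m → F)) := by
    refine ⟨fun p q => ?_⟩
    induction p with | h x hx => ?_
    induction q with | h y hy => ?_
    obtain ⟨v, hv⟩ := exists_partner m hx
    obtain ⟨v', hv'⟩ := exists_partner m hy
    obtain ⟨A, -, hA⟩ := exists_move m (⊤ : Submodule F (Fin m ⊕ Fin m → F)) (u := x) (v := v)
      (u' := y) (v' := v') Submodule.mem_top Submodule.mem_top Submodule.mem_top Submodule.mem_top
      hv hv'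
    refine ⟨toG m A, ?_⟩
    rw [toG_smul_mk]
    simp only [hA]
  refine { toIsPretransitive := htrans, isTrivialBlock_of_isBlock := ?_ }
  intro B hB
  by_cases hsub : B.Subsingleton
  · exact Or.inl hsub
  · right
    rw [Set.not_subsingleton_iff] at hsub
    obtain ⟨p, hp, q, hq, hpq⟩ := hsub
    induction p with | h x hx => ?_
    induction q with | h y hy => ?_
    have hxS : x ∈ S m B := ⟨hx, hp⟩
    have hyS : y ∈ S m B := ⟨hy, hq⟩
    have hnp : ∀ c : F, c • x ≠ y := by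
      intro c hc
      exact hpq.symm ((Projectivization.mk_eq_mk_iff' F y x hy hx).mpr ⟨c, hc⟩)
    rw [Set.eq_univ_iff_forall]
    intro r
    induction r with | h t ht => ?_
    by_cases hxy : Cfsg.sympForm m F x y = 0
    · obtain ⟨y', hy', hyy'⟩ := claimC m hB hxS hyS hxy hnp
      exact (claimB m hB hyS hy' hyy' ht).2
    · exact (claimB m hB hxS hyS hxy ht).2

end Cfsg.Agent.S0768
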