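import Mathlib
import Cfsg.Statements.S0269
import Cfsg.Agent.Lib.Helper2.SympPerf

set_option autoImplicit false
open Cfsg

namespace Cfsg.Agent.S0269

open Cfsg.Agent.Lib.Helper2.SympPerf in
theorem exists_sq_ne_one {F : Type*} [Field F] [Fintype F] (h : 4 ≤ Fintype.card F) :
    ∃ a : F, a ≠ 0 ∧ a * a ≠ 1 := by
  classical
  by_contra hcon
  push Not at hcon
  have hsub : (Finset.univ : Finset F) ⊆ {0, 1, -1} := by
    intro a _
    by_cases ha : a = 0
    · simp [ha]
    · have h1 := hcon a ha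
      have h2 : (a - 1) * (a + 1) = 0 := by linear_combination h1
      rcases mul_eq_zero.mp h2 with h | h
      · simp [sub_eq_zero.mp h]
      · simp [eq_neg_of_add_eq_zero_left h]
  have h5 := Finset.card_le_card hsub
  have h3 : ({0, 1, -1} : Finset F).card ≤ 3 := Finset.card_le_three
  rw [Finset.card_univ] at h5
  omega

/-- Sp_{2m}(q) is perfect except for Sp_2(2), Sp_2(3) and Sp_4(2): stated as m at least 3, or m = 2 and q at least 3, or q at least 4. -/
theorem result {F : Type*} [Field F] [Fintype F] (m : ℕ) (h : 3 ≤ m ∨ (m = 2 ∧ 3 ≤ Fintype.card F) ∨ 4 ≤ Fintype.card F) : commutator (Matrix.symplecticGroup (Fin m) F) = ⊤ := by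
  by_cases h4 : 4 ≤ Fintype.card F
  · obtain ⟨a, ha0, ha2⟩ := exists_sq_ne_one h4
    exact Cfsg.Agent.Lib.Helper2.SympPerf.caseA m ha0 ha2
  rcases h with h | ⟨hm, h3⟩ | h
  · exact Cfsg.Agent.Lib.Helper2.SympPerf.caseC m (i := ⟨0, by omega⟩) (j := ⟨1, by omega⟩)
      (k := ⟨2, by omega⟩) (by simp) (by simp) (by simp)
  · have hc : Fintype.card F = 3 := by omega
    have h3' : (3 : F) = 0 := by
      have h6 := Nat.cast_card_eq_zero F
      rw [hc] at h6
      exact_mod_cast h6
    have h2 : (2 : F) ≠ 0 := by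
      intro h2
      have h7 : (1 : F) = 0 := by linear_combination h3' - h2
      exact one_ne_zero h7
    exact Cfsg.Agent.Lib.Helper2.SympPerf.caseB m (i := ⟨0, by omega⟩) (j := ⟨1, by omega⟩)
      (by simp) h2
  · exact absurd h h4

end Cfsg.Agent.S0269
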