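import Mathlib
import Cfsg.Statements.S0502
import Cfsg.Agent.Lib.Helper4.Card
import Cfsg.Agent.Lib.Helper4.Replace

set_option autoImplicit false
open Cfsg

namespace Cfsg.Agent.S0502

universe u

variable {P : Type u} [Group P]

/-- the four-group generated by two commuting involutions -/
def four (a b : P) (ha : a ^ 2 = 1) (hb : b ^ 2 = 1) (hab : a * b = b * a) : Subgroup P where
  carrier := {1, a, b, a * b}
  one_mem' := by simp
  mul_mem' := by
    have haa : a * a = 1 := by rw [← pow_two]; exact ha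
    have hbb : b * b = 1 := by rw [← pow_two]; exact hb
    have h1 : ∀ c : P, a * (a * c) = c := fun c => by rw [← mul_assoc, haa, one_mul]
    have h2 : ∀ c : P, b * (b * c) = c := fun c => by rw [← mul_assoc, hbb, one_mul]
    have h3 : ∀ c : P, b * (a * c) = a * (b * c) := fun c => by
      rw [← mul_assoc, ← hab, mul_assoc]
    rintro x y (rfl | rfl | rfl | rfl) (rfl | rfl | rfl | rfl)
    all_goals simp [mul_assoc, haa, hbb, h1, h3, ← hab]
  inv_mem' := by
    have haa : a * a = 1 := by rw [← pow_two]; exact ha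
    have hbb : b * b = 1 := by rw [← pow_two]; exact hb
    have hai : a⁻¹ = a := inv_eq_of_mul_eq_one_right haa
    have hbi : b⁻¹ = b := inv_eq_of_mul_eq_one_right hbb
    rintro x (rfl | rfl | rfl | rfl)
    all_goals simp [hai, hbi, ← hab]

theorem mem_four {a b : P} {ha : a ^ 2 = 1} {hb : b ^ 2 = 1} {hab : a * b = b * a} {x : P} :
    x ∈ four a b ha hb hab ↔ x = 1 ∨ x = a ∨ x = b ∨ x = a * b := Iff.rfl

theorem four_le {a b : P} (ha : a ^ 2 = 1) (hb : b ^ 2 = 1) (hab : a * b = b * a)
    (K : Subgroup P) (ha' : a ∈ K) (hb' : b ∈ K) : four a b ha hb hab ≤ K := by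
  intro x hx
  rcases mem_four.mp hx with rfl | rfl | rfl | rfl
  exacts [K.one_mem, ha', hb', K.mul_mem ha' hb']

theorem card_four_eq {a b : P} (ha : a ^ 2 = 1) (hb : b ^ 2 = 1) (hab : a * b = b * a)
    (ha1 : a ≠ 1) (hb1 : b ≠ 1) (hne : a ≠ b) : Nat.card (four a b ha hb hab) = 4 := by
  have haa : a * a = 1 := by rw [← pow_two]; exact ha
  have hbb : b * b = 1 := by rw [← pow_two]; exact hb
  change Nat.card ↥({1, a, b, a * b} : Set P) = 4
  rw [Nat.card_coe_set_eq]
  have h3 : b ∉ ({a * b} : Set P) := by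
    rw [Set.mem_singleton_iff]
    intro h
    apply ha1
    have : a * b = 1 * b := by rw [one_mul]; exact h.symm
    exact mul_right_cancel this
  have h2 : a ∉ ({b, a * b} : Set P) := by
    rw [Set.mem_insert_iff, Set.mem_singleton_iff]
    rintro (h | h)
    · exact hne h
    · apply hb1
      have : a * b = a * 1 := by rw [mul_one]; exact h.symm
      exact mul_left_cancel this
  have h1 : (1 : P) ∉ ({a, b, a * b} : Set P) := by
    rw [Set.mem_insert_iff, Set.mem_insert_iff, Set.mem_singleton_iff]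
    rintro (h | h | h)
    · exact ha1 h.symm
    · exact hb1 h.symm
    · apply hne
      have : a * b = a * a := by rw [haa]; exact h.symm
      exact (mul_left_cancel this).symm
  rw [Set.ncard_insert_of_notMem h1 (Set.toFinite _), Set.ncard_insert_of_notMem h2 (Set.toFinite _),
    Set.ncard_insert_of_notMem h3 (Set.toFinite _), Set.ncard_singleton]

theorem four_isKleinFour {a b : P} (ha : a ^ 2 = 1) (hb : b ^ 2 = 1) (hab : a * b = b * a)
    (ha1 : a ≠ 1) (hb1 : b ≠ 1) (hne : a ≠ b) : IsKleinFour (four a b ha hb hab) where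
  card_four := card_four_eq ha hb hab ha1 hb1 hne
  exponent_two := by
    have hdvd : Monoid.exponent (four a b ha hb hab) ∣ 2 := by
      apply Monoid.exponent_dvd_of_forall_pow_eq_one
      intro g
      have hg : (g : P) ^ 2 = 1 := by
        have haa : a * a = 1 := by rw [← pow_two]; exact ha
        have hbb : b * b = 1 := by rw [← pow_two]; exact hb
        rcases mem_four.mp g.2 with h | h | h | h
        · rw [h]; simp
        · rw [h]; exact ha
        · rw [h]; exact hb
        · rw [h, pow_two]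
          calc a * b * (a * b) = a * (b * a) * b := by simp only [mul_assoc]
            _ = a * (a * b) * b := by rw [hab]
            _ = (a * a) * (b * b) := by simp only [mul_assoc]
            _ = 1 := by rw [haa, hbb, one_mul]
      exact Subtype.ext hg
    have hne1 : Monoid.exponent (four a b ha hb hab) ≠ 1 := by
      intro h
      rw [Monoid.exp_eq_one_iff] at h
      have := card_four_eq ha hb hab ha1 hb1 hne
      rw [Nat.card_of_subsingleton (1 : four a b ha hb hab)] at this
      omega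
    rcases (Nat.dvd_prime Nat.prime_two).mp hdvd with h | h
    · exact absurd h hne1
    · exact h

theorem four_commute {a b c d : P} (ha : a ^ 2 = 1) (hb : b ^ 2 = 1) (hab : a * b = b * a)
    (hc : c ^ 2 = 1) (hd : d ^ 2 = 1) (hcd : c * d = d * c)
    (hac : a * c = c * a) (had : a * d = d * a) (hbc : b * c = c * b) (hbd : b * d = d * b) :
    ∀ x ∈ four a b ha hb hab, ∀ y ∈ four c d hc hd hcd, x * y = y * x := by
  intro x hx y hy
  have hmem : ∀ t : P, a * t = t * a → b * t = t * b →
      t ∈ Subgroup.centralizer ((four a b ha hb hab : Subgroup P) : Set P) := by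
    intro t hat hbt
    rw [Cfsg.Agent.Lib.Helper4.Replace.mem_centralizer_iff_le]
    apply four_le
    · rw [Subgroup.mem_centralizer_iff]
      intro h hh
      rw [Set.mem_singleton_iff.mp hh]
      exact hat.symm
    · rw [Subgroup.mem_centralizer_iff]
      intro h hh
      rw [Set.mem_singleton_iff.mp hh]
      exact hbt.symm
  have := four_le hc hd hcd _ (hmem c hac hbc) (hmem d had hbd) hy
  rw [Subgroup.mem_centralizer_iff] at this
  exact this x hx

theorem exists_ne [Finite P] (F : Subgroup P) (h3 : 3 ≤ Nat.card F) (z : P) :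
    ∃ w ∈ F, w ≠ 1 ∧ w ≠ z := by
  by_contra hcon
  push Not at hcon
  have hsub : (F : Set P) ⊆ {1, z} := by
    intro w hw
    by_cases h1 : w = 1
    · simp [h1]
    · simp [hcon w hw h1]
  have h1 := Set.ncard_le_ncard hsub (Set.toFinite _)
  have h2 : ({1, z} : Set P).ncard ≤ 2 :=
    (Set.ncard_insert_le 1 {z}).trans (by rw [Set.ncard_singleton])
  have h4 : Nat.card F = (F : Set P).ncard := Nat.card_coe_set_eq _
  omega

theorem card_le_sq [Finite P] (F : Subgroup P) (hF : ∀ a ∈ F, ∀ b ∈ F, a * b = b * a)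
    (hF2 : ∀ a ∈ F, a ^ 2 = 1) (v : P) (hv : v ^ 2 = 1) (hvF : ∀ f ∈ F, v * f * v⁻¹ ∈ F) :
    Nat.card F ≤ Nat.card (F ⊓ Subgroup.centralizer {v} : Subgroup P) ^ 2 := by
  classical
  have hvv : v * v = 1 := by rw [← pow_two]; exact hv
  have hvinv : v⁻¹ = v := inv_eq_of_mul_eq_one_right hvv
  let φ : F →* F :=
    { toFun := fun f => ⟨f * (v * f * v⁻¹), F.mul_mem f.2 (hvF f f.2)⟩
      map_one' := by ext; simp
      map_mul' := by
        intro x y
        ext
        simp only [Subgroup.coe_mul]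
        have h1 : v * ((x : P) * (y : P)) * v⁻¹ = (v * x * v⁻¹) * (v * y * v⁻¹) := by group
        rw [h1]
        have h2 := hF _ y.2 _ (hvF x x.2)
        calc (x : P) * y * (v * x * v⁻¹ * (v * y * v⁻¹))
            = x * (y * (v * x * v⁻¹)) * (v * y * v⁻¹) := by simp only [mul_assoc]
          _ = x * ((v * x * v⁻¹) * y) * (v * y * v⁻¹) := by rw [h2]
          _ = _ := by simp only [mul_assoc] }
  have hφ : ∀ f : F, ((φ f : F) : P) = f * (v * f * v⁻¹) := fun f => rfl
  have hker : φ.ker ≤ (F ⊓ Subgroup.centralizer {v}).subgroupOf F := by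
    intro f hf
    rw [MonoidHom.mem_ker] at hf
    have hf' : (f : P) * (v * f * v⁻¹) = 1 := by
      rw [← hφ, hf]; rfl
    rw [Subgroup.mem_subgroupOf, Subgroup.mem_inf]
    refine ⟨f.2, ?_⟩
    rw [Subgroup.mem_centralizer_iff]
    intro h hh
    rw [Set.mem_singleton_iff.mp hh]
    have hff : (f : P) * f = 1 := by rw [← pow_two]; exact hF2 _ f.2
    have h3 : v * f * v⁻¹ = (f : P) := by
      have h4 : v * f * v⁻¹ = (f : P)⁻¹ := (inv_eq_of_mul_eq_one_right hf').symm
      rw [h4]; exact inv_eq_of_mul_eq_one_right hff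
    calc v * (f : P) = (v * f * v⁻¹) * v := by group
      _ = f * v := by rw [h3]
  have hrange : φ.range ≤ (F ⊓ Subgroup.centralizer {v}).subgroupOf F := by
    rintro _ ⟨f, rfl⟩
    rw [Subgroup.mem_subgroupOf, Subgroup.mem_inf]
    refine ⟨(φ f).2, ?_⟩
    rw [Subgroup.mem_centralizer_iff]
    intro h hh
    rw [Set.mem_singleton_iff.mp hh, hφ]
    have hcomm := hF _ f.2 _ (hvF f f.2)
    rw [hvinv] at hcomm ⊢
    calc v * ((f : P) * (v * f * v)) = (v * f * v) * f * v := by simp only [mul_assoc]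
      _ = f * (v * f * v) * v := by rw [hcomm]
  have hcard : Nat.card F = Nat.card φ.ker * Nat.card φ.range := by
    rw [← Subgroup.index_ker φ]; exact (Subgroup.card_mul_index φ.ker).symm
  have hC : Nat.card ((F ⊓ Subgroup.centralizer {v}).subgroupOf F)
      = Nat.card (F ⊓ Subgroup.centralizer {v} : Subgroup P) := by
    rw [Cfsg.Agent.Lib.Helper4.Card.card_subgroupOf_eq, inf_eq_left.mpr inf_le_left]
  rw [hcard, pow_two, ← hC]
  exact Nat.mul_le_mul (Subgroup.card_le_of_le hker) (Subgroup.card_le_of_le hrange)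

/-- If a finite 2-group has a normal elementary abelian subgroup of order at least 8, then any two of its Klein
four-subgroups are joined by a chain of Klein four-subgroups with consecutive members commuting elementwise. -/
theorem result {P : Type*} [Group P] [Finite P] (hP : IsPGroup 2 P)
    (E : Subgroup P) [E.Normal] (hE : IsMulCommutative E) (hE2 : ∀ e ∈ E, e ^ 2 = 1) (hE8 : 8 ≤ Nat.card E) :
    Cfsg.IsFourConnected P := by
  classical
  haveI : Fact (Nat.Prime 2) := ⟨Nat.prime_two⟩
  have hEc : ∀ a ∈ E, ∀ b ∈ E, a * b = b * a := by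
    intro a ha b hb
    have := hE.is_comm.comm (⟨a, ha⟩ : E) ⟨b, hb⟩
    exact congrArg Subtype.val this
  have hK2 : ∀ U : Subgroup P, IsKleinFour U → ∀ x ∈ U, x ^ 2 = 1 := by
    intro U hU x hx
    have := IsKleinFour.mul_self (⟨x, hx⟩ : U)
    rw [pow_two]; exact congrArg Subtype.val this
  have hKc : ∀ U : Subgroup P, IsKleinFour U → ∀ x ∈ U, ∀ y ∈ U, x * y = y * x := by
    intro U hU x hx y hy
    have := (IsKleinFour.isMulCommutative (G := U)).is_comm.comm ⟨x, hx⟩ ⟨y, hy⟩
    exact congrArg Subtype.val this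
  have hCE : ∀ u : P, u ^ 2 = 1 → 4 ≤ Nat.card (E ⊓ Subgroup.centralizer {u} : Subgroup P) := by
    intro u hu
    have h1 := card_le_sq E hEc hE2 u hu (fun f hf => ‹E.Normal›.conj_mem f hf u)
    obtain ⟨k, hk⟩ := IsPGroup.iff_card.mp (hP.to_subgroup (E ⊓ Subgroup.centralizer {u}))
    rw [hk] at h1 ⊢
    have h8 := hE8.trans h1
    rcases k with _ | _ | k
    · norm_num at h8
    · norm_num at h8
    · calc 4 = 2 ^ 2 := by norm_num
        _ ≤ 2 ^ (k + 1 + 1) := Nat.pow_le_pow_right (by norm_num) (by omega)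
  have stepA : ∀ U : Subgroup P, IsKleinFour U → ∀ z ∈ U, z ∈ E → z ≠ 1 →
      ∃ W : Subgroup P, IsKleinFour W ∧ W ≤ E ∧ ∀ a ∈ U, ∀ b ∈ W, a * b = b * a := by
    intro U hU z hzU hzE hz1
    have hU4 : Nat.card U = 4 := hU.card_four
    obtain ⟨u, huU, hu1, huz⟩ := exists_ne U (by omega) z
    have hz2 := hK2 U hU z hzU
    have hu2 := hK2 U hU u huU
    have hzu := hKc U hU z hzU u huU
    have hUeq : four z u hz2 hu2 hzu = U := by
      apply Subgroup.eq_of_le_of_card_ge (four_le _ _ _ U hzU huU)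
      rw [card_four_eq hz2 hu2 hzu hz1 hu1 (Ne.symm huz), hU4]
    have hF4 := hCE u hu2
    obtain ⟨w, hwF, hw1, hwz⟩ := exists_ne (E ⊓ Subgroup.centralizer {u}) (by omega) z
    have hwE : w ∈ E := (Subgroup.mem_inf.mp hwF).1
    have hwu : u * w = w * u := by
      have := (Subgroup.mem_inf.mp hwF).2
      rw [Subgroup.mem_centralizer_iff] at this
      exact this u (Set.mem_singleton u)
    have hw2 := hE2 w hwE
    have hzw := hEc z hzE w hwE
    refine ⟨four z w hz2 hw2 hzw, four_isKleinFour hz2 hw2 hzw hz1 hw1 (Ne.symm hwz),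
      four_le _ _ _ E hzE hwE, ?_⟩
    rw [← hUeq]
    exact four_commute hz2 hu2 hzu hz2 hw2 hzw rfl hzw hzu.symm hwu
  let R : Subgroup P → Subgroup P → Prop := fun A B =>
    IsKleinFour A ∧ IsKleinFour B ∧ ∀ a ∈ A, ∀ b ∈ B, a * b = b * a
  have hsymm : ∀ A B : Subgroup P, R A B → R B A :=
    fun A B ⟨hA, hB, h⟩ => ⟨hB, hA, fun a ha b hb => (h b hb a ha).symm⟩
  have hsymm' : ∀ A B : Subgroup P, Relation.ReflTransGen R A B → Relation.ReflTransGen R B A := by
    intro A B h
    induction h with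
    | refl => exact Relation.ReflTransGen.refl
    | tail _ hbc ih => exact Relation.ReflTransGen.head (hsymm _ _ hbc) ih
  have stepB : ∀ U : Subgroup P, IsKleinFour U →
      ∃ W : Subgroup P, IsKleinFour W ∧ W ≤ E ∧ Relation.ReflTransGen R U W := by
    intro U hU
    by_cases hex : ∃ z ∈ U, z ∈ E ∧ z ≠ 1
    · obtain ⟨z, hzU, hzE, hz1⟩ := hex
      obtain ⟨W, hW, hWE, hc⟩ := stepA U hU z hzU hzE hz1
      exact ⟨W, hW, hWE, Relation.ReflTransGen.single ⟨hU, hW, hc⟩⟩
    · push Not at hex
      have hU4 : Nat.card U = 4 := hU.card_four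
      obtain ⟨u, huU, hu1, -⟩ := exists_ne U (by omega) 1
      obtain ⟨v, hvU, hv1, hvu⟩ := exists_ne U (by omega) u
      have hu2 := hK2 U hU u huU
      have hv2 := hK2 U hU v hvU
      have huv := hKc U hU u huU v hvU
      have hUeq : four u v hu2 hv2 huv = U := by
        apply Subgroup.eq_of_le_of_card_ge (four_le _ _ _ U huU hvU)
        rw [card_four_eq hu2 hv2 huv hu1 hv1 (Ne.symm hvu), hU4]
      have hF4 := hCE u hu2
      have hFc : ∀ a ∈ E ⊓ Subgroup.centralizer {u}, ∀ b ∈ E ⊓ Subgroup.centralizer {u},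
          a * b = b * a :=
        fun a ha b hb => hEc a (Subgroup.mem_inf.mp ha).1 b (Subgroup.mem_inf.mp hb).1
      have hF2 : ∀ a ∈ E ⊓ Subgroup.centralizer {u}, a ^ 2 = 1 :=
        fun a ha => hE2 a (Subgroup.mem_inf.mp ha).1
      have hvv : v * v = 1 := by rw [← pow_two]; exact hv2
      have hvinv : v⁻¹ = v := inv_eq_of_mul_eq_one_right hvv
      have hvF : ∀ f ∈ E ⊓ Subgroup.centralizer {u}, v * f * v⁻¹ ∈ E ⊓ Subgroup.centralizer {u} := by
        intro f hf
        obtain ⟨hfE, hfC⟩ := Subgroup.mem_inf.mp hf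
        refine Subgroup.mem_inf.mpr ⟨‹E.Normal›.conj_mem f hfE v, ?_⟩
        rw [Subgroup.mem_centralizer_iff] at hfC ⊢
        intro h hh
        rw [Set.mem_singleton_iff.mp hh]
        have hfu : u * f = f * u := hfC u (Set.mem_singleton u)
        rw [hvinv]
        calc u * (v * f * v) = (u * v) * f * v := by simp only [mul_assoc]
          _ = (v * u) * f * v := by rw [huv]
          _ = v * (u * f) * v := by simp only [mul_assoc]
          _ = v * (f * u) * v := by rw [hfu]
          _ = v * f * (u * v) := by simp only [mul_assoc]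
          _ = v * f * (v * u) := by rw [huv]
          _ = v * f * v * u := by simp only [mul_assoc]
      have h1 := card_le_sq (E ⊓ Subgroup.centralizer {u}) hFc hF2 v hv2 hvF
      have h2 : 2 ≤ Nat.card ((E ⊓ Subgroup.centralizer {u}) ⊓ Subgroup.centralizer {v} : Subgroup P) := by
        by_contra hlt
        push Not at hlt
        have h5 : Nat.card ((E ⊓ Subgroup.centralizer {u}) ⊓ Subgroup.centralizer {v} : Subgroup P) ≤ 1 := by
          omega
        have h3 : Nat.card ((E ⊓ Subgroup.centralizer {u}) ⊓ Subgroup.centralizer {v} : Subgroup P) ^ 2 ≤ 1 := by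
          calc _ ≤ 1 ^ 2 := Nat.pow_le_pow_left h5 2
            _ = 1 := by norm_num
        omega
      obtain ⟨z, hzF, hz1⟩ : ∃ z ∈ (E ⊓ Subgroup.centralizer {u}) ⊓ Subgroup.centralizer {v}, z ≠ 1 := by
        by_contra hcon
        push Not at hcon
        have hbot : (E ⊓ Subgroup.centralizer {u}) ⊓ Subgroup.centralizer {v} = ⊥ :=
          (Subgroup.eq_bot_iff_forall _).mpr hcon
        rw [hbot, Subgroup.card_bot] at h2
        omega
      obtain ⟨hzEu, hzv'⟩ := Subgroup.mem_inf.mp hzF
      obtain ⟨hzE, hzu'⟩ := Subgroup.mem_inf.mp hzEu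
      have huz : u * z = z * u := by
        rw [Subgroup.mem_centralizer_iff] at hzu'
        exact hzu' u (Set.mem_singleton u)
      have hvz : v * z = z * v := by
        rw [Subgroup.mem_centralizer_iff] at hzv'
        exact hzv' v (Set.mem_singleton v)
      have hzU : z ∉ U := fun h => hz1 (hex z h hzE)
      have hne : u ≠ z := fun h => hzU (h ▸ huU)
      have hz2 := hE2 z hzE
      have hU1 : IsKleinFour (four u z hu2 hz2 huz) := four_isKleinFour hu2 hz2 huz hu1 hz1 hne
      have hUU1 : ∀ a ∈ U, ∀ b ∈ four u z hu2 hz2 huz, a * b = b * a := by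
        rw [← hUeq]
        exact four_commute hu2 hv2 huv hu2 hz2 huz rfl huz huv.symm hvz
      obtain ⟨W, hW, hWE, hc⟩ := stepA (four u z hu2 hz2 huz) hU1 z
        (mem_four.mpr (Or.inr (Or.inr (Or.inl rfl)))) hzE hz1
      exact ⟨W, hW, hWE, Relation.ReflTransGen.head ⟨hU, hU1, hUU1⟩
        (Relation.ReflTransGen.single ⟨hU1, hW, hc⟩)⟩
  intro U V hU hV
  obtain ⟨W₁, hW₁, hW₁E, h1⟩ := stepB U hU
  obtain ⟨W₂, hW₂, hW₂E, h2⟩ := stepB V hV
  have h12 : R W₁ W₂ := ⟨hW₁, hW₂, fun a ha b hb => hEc a (hW₁E ha) b (hW₂E hb)⟩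
  have h2' : Relation.ReflTransGen R W₂ V := hsymm' _ _ h2
  exact (h1.tail h12).trans h2'

end Cfsg.Agent.S0502
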