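import Mathlib
import Cfsg.Statements.S0246
import Cfsg.Agent.Lib.Helper5.Symp2

set_option autoImplicit false
open Cfsg

namespace Cfsg.Agent.S0246

open Cfsg.Agent.Lib.Helper5.Symp Cfsg.Agent.Lib.Helper5.Symp2
open scoped Matrix

theorem exists_pairing {F : Type*} [Field F] (m : ℕ) (v : Fin m ⊕ Fin m → F) (hv : v ≠ 0) :
    ∃ u, Cfsg.sympForm m F v u = 1 := by
  by_contra hcon
  push Not at hcon
  apply hv
  apply eq_zero_of_sympForm_eq_zero m v
  intro b
  by_contra hb
  apply hcon ((Cfsg.sympForm m F v b)⁻¹ • b)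
  rw [sympForm_smul_right, inv_mul_cancel₀ hb]

theorem smul_one_mem {F : Type*} [Field F] (m : ℕ) (c : F) (hc : c ^ 2 = 1) :
    (c • (1 : Matrix (Fin m ⊕ Fin m) (Fin m ⊕ Fin m) F)) ∈ Matrix.symplecticGroup (Fin m) F := by
  rw [SymplecticGroup.mem_iff]
  simp [Matrix.transpose_smul, Matrix.smul_mul, Matrix.mul_smul, smul_smul, ← pow_two, hc]

theorem scalar_of_center {F : Type*} [Field F] (m : ℕ) (z : Matrix.symplecticGroup (Fin m) F)
    (hz : z ∈ Subgroup.center (Matrix.symplecticGroup (Fin m) F)) :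
    ∃ c : F, (z : Matrix (Fin m ⊕ Fin m) (Fin m ⊕ Fin m) F) = c • 1 := by
  set f : (Fin m ⊕ Fin m → F) →ₗ[F] (Fin m ⊕ Fin m → F) := Matrix.toLin' z.1 with hf
  have key : ∀ w, ¬ LinearIndependent F ![w, f w] := by
    intro w
    by_cases hw : w = 0
    · subst hw
      intro hli
      exact hli.ne_zero 0 rfl
    · obtain ⟨x, hx⟩ := exists_pairing m w hw
      have hcomm : z * tv m w 1 = tv m w 1 * z := (Subgroup.mem_center_iff.mp hz (tv m w 1)).symm
      have h1 : (z * tv m w 1).1 *ᵥ x = (tv m w 1 * z).1 *ᵥ x := by rw [hcomm]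
      rw [Submonoid.coe_mul, Submonoid.coe_mul, ← Matrix.mulVec_mulVec, ← Matrix.mulVec_mulVec,
        tv_mulVec, tv_mulVec, Matrix.mulVec_add, Matrix.mulVec_smul, one_mul, one_mul,
        sympForm_swap m x w, hx] at h1
      have h2 : z.1 *ᵥ w = (- Cfsg.sympForm m F (z.1 *ᵥ x) w) • w := by
        have h3 := add_left_cancel h1
        rw [neg_smul, one_smul] at h3
        rw [neg_smul, ← h3, neg_neg]
      rw [LinearIndependent.pair_iff]
      intro hli
      have := hli (Cfsg.sympForm m F (z.1 *ᵥ x) w) 1 (by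
        rw [hf, Matrix.toLin'_apply, h2, one_smul, neg_smul, add_neg_cancel])
      exact one_ne_zero this.2
  obtain ⟨a, ha⟩ := LinearMap.exists_eq_smul_id_of_forall_notLinearIndependent key
  refine ⟨a, ?_⟩
  apply Matrix.toLin'.injective
  rw [← hf, ha, map_smul, Matrix.toLin'_one]
  rfl

/-- The centre of Sp_{2m}(q), m at least 1, is {1, -1}: it has order gcd(2, q-1). -/
theorem result {F : Type*} [Field F] [Fintype F] {q : ℕ} (hF : Fintype.card F = q) (m : ℕ) (hm : 1 ≤ m) : Nat.card (Subgroup.center (Matrix.symplecticGroup (Fin m) F)) = Nat.gcd 2 (q - 1) := by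
  classical
  have hcardF : Nat.card (rootsOfUnity 2 F) = Nat.gcd 2 (q - 1) := by
    rw [rootsOfUnity_eq_ker, IsCyclic.card_powMonoidHom_ker, Nat.card_units,
      Nat.card_eq_fintype_card, hF, Nat.gcd_comm]
  rw [← hcardF]
  have hm0 : 0 < m := hm
  symm
  let φ : rootsOfUnity 2 F → Subgroup.center (Matrix.symplecticGroup (Fin m) F) := fun u =>
    ⟨⟨((u : Fˣ) : F) • 1, smul_one_mem m _ (by
      have := (mem_rootsOfUnity 2 (u : Fˣ)).mp u.2
      have h2 := congrArg Units.val this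
      simpa using h2)⟩, by
      rw [Subgroup.mem_center_iff]
      intro g
      apply Subtype.ext
      simp [Submonoid.coe_mul]⟩
  apply Nat.card_eq_of_bijective φ
  constructor
  · intro u v huv
    have h1 := congrArg (fun z : Subgroup.center (Matrix.symplecticGroup (Fin m) F) =>
      (z.1.1 : Matrix (Fin m ⊕ Fin m) (Fin m ⊕ Fin m) F) (Sum.inl ⟨0, hm0⟩) (Sum.inl ⟨0, hm0⟩)) huv
    simp only [φ, Matrix.smul_apply, Matrix.one_apply_eq, smul_eq_mul, mul_one] at h1
    exact Subtype.ext (Units.ext h1)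
  · rintro ⟨z, hz⟩
    obtain ⟨c, hc⟩ := scalar_of_center m z hz
    have hz2 := z.2
    rw [SymplecticGroup.mem_iff, hc] at hz2
    have hc2 : c ^ 2 = 1 := by
      have h1 := congrFun (congrFun hz2 (Sum.inl ⟨0, hm0⟩)) (Sum.inr ⟨0, hm0⟩)
      simp [Matrix.transpose_smul, Matrix.smul_mul, Matrix.mul_smul, smul_smul, Matrix.J] at h1
      rw [pow_two]; exact h1
    have hc0 : c ≠ 0 := by
      rintro rfl
      simp at hc2
    refine ⟨⟨Units.mk0 c hc0, ?_⟩, ?_⟩
    · rw [mem_rootsOfUnity]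
      apply Units.ext
      simpa using hc2
    · apply Subtype.ext
      apply Subtype.ext
      simp [φ, hc]

end Cfsg.Agent.S0246
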