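import Mathlib
import Cfsg.Statements.S0059
import Cfsg.Agent.Lib.Helper10.SZ

set_option autoImplicit false
open Cfsg
open Pointwise

namespace Cfsg.Agent.S0059

theorem card_subgroupOf_dvd {G : Type*} [Group G] [Finite G] (K S : Subgroup G) :
    Nat.card (K.subgroupOf S) ∣ Nat.card K := by
  rw [← Subgroup.inf_subgroupOf_right,
    Nat.card_congr (Subgroup.subgroupOfEquivOfLe (inf_le_right : K ⊓ S ≤ S)).toEquiv]
  exact Subgroup.card_dvd_of_le inf_le_left

theorem card_subgroupOf_of_le {G : Type*} [Group G] {H S : Subgroup G} (h : H ≤ S) :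
    Nat.card (H.subgroupOf S) = Nat.card H :=
  Nat.card_congr (Subgroup.subgroupOfEquivOfLe h).toEquiv

/-- relative Schur–Zassenhaus conjugacy inside a subgroup `S`. -/
theorem sz_rel {G : Type*} [Group G] [Finite G] (K S H₁ H₂ : Subgroup G) [K.Normal]
    (h1 : H₁ ≤ S) (h2 : H₂ ≤ S)
    (hc1 : Nat.card H₁ = K.relIndex S) (hc2 : Nat.card H₂ = K.relIndex S)
    (hcop : (Nat.card K).Coprime (K.relIndex S))
    (hs : Group.IsSolvable K ∨ Group.IsSolvable H₁) :
    ∃ c ∈ K ⊓ S, ∀ h ∈ H₁, c * h * c⁻¹ ∈ H₂ := by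
  have hN : (Nat.card (K.subgroupOf S)).Coprime (K.subgroupOf S).index :=
    Nat.Coprime.coprime_dvd_left (card_subgroupOf_dvd K S) hcop
  have hH1 : Nat.card (H₁.subgroupOf S) = (K.subgroupOf S).index :=
    (card_subgroupOf_of_le h1).trans hc1
  have hH2 : Nat.card (H₂.subgroupOf S) = (K.subgroupOf S).index :=
    (card_subgroupOf_of_le h2).trans hc2
  have hs' : Group.IsSolvable (K.subgroupOf S) ∨ Group.IsSolvable (H₁.subgroupOf S) := by
    rcases hs with hs | hs
    · left
      refine Group.isSolvable_of_isSolvable_injective (f := (S.subtype).subgroupComap K) ?_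
      intro a b hab
      have h3 : ((a : S) : G) = ((b : S) : G) := congrArg (fun z : K => (z : G)) hab
      exact Subtype.ext (Subtype.ext h3)
    · right
      exact Group.isSolvable_of_isSolvable_injective
        (f := (Subgroup.subgroupOfEquivOfLe h1).toMonoidHom)
        (Subgroup.subgroupOfEquivOfLe h1).injective
  obtain ⟨g, hg⟩ := Cfsg.Agent.Lib.Helper10.SZ.conj_aux _ S rfl (K.subgroupOf S) hN
    (H₁.subgroupOf S) (H₂.subgroupOf S) hH1 hH2 hs'
  have hcompl : Subgroup.IsComplement' (K.subgroupOf S) (H₁.subgroupOf S) :=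
    Cfsg.Agent.Lib.Helper10.SZ.isComplement'_of_card _ hN _ hH1
  obtain ⟨⟨c, h⟩, hch, -⟩ := hcompl.existsUnique g
  simp only at hch
  refine ⟨((c : S) : G), Subgroup.mem_inf.2 ⟨c.2, (c : S).2⟩, ?_⟩
  intro x hx
  have hy : (h : S)⁻¹ * ⟨x, h1 hx⟩ * (h : S) ∈ H₁.subgroupOf S := by
    rw [Subgroup.mem_subgroupOf]
    simp only [Subgroup.coe_mul, Subgroup.coe_inv]
    exact H₁.mul_mem (H₁.mul_mem (H₁.inv_mem h.2) hx) h.2
  have hz : g * ((h : S)⁻¹ * ⟨x, h1 hx⟩ * (h : S)) * g⁻¹ ∈ H₂.subgroupOf S := by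
    rw [← hg]
    exact ⟨_, hy, rfl⟩
  rw [Subgroup.mem_subgroupOf, ← hch] at hz
  simp only [Subgroup.coe_mul, Subgroup.coe_inv, mul_inv_rev] at hz
  have he : ((c : S) : G) * x * ((c : S) : G)⁻¹
      = ↑↑c * ↑↑h * ((↑↑h)⁻¹ * x * ↑↑h) * ((↑↑h)⁻¹ * (↑↑c)⁻¹) := by group
  rw [he]
  exact hz

theorem relIndex_eq_index {G : Type*} [Group G] (K S : Subgroup G) [K.Normal]
    (h : S ⊔ K = ⊤) : K.relIndex S = K.index := by
  rw [← Subgroup.relIndex_sup_right, h, Subgroup.relIndex_top_right]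

/-- Let a finite group act on a set on which a normal subgroup K of coprime order and index is transitive, with K or the quotient solvable. Then any complement H of K has a fixed point, and any two H-fixed points are interchanged by an element of K centralising H. -/
theorem result {G : Type*} [Group G] [Finite G] {X : Type*} [Nonempty X] [MulAction G X]
    (K H : Subgroup G) [K.Normal] (hc : Subgroup.IsComplement' K H) (hcop : (Nat.card K).Coprime K.index)
    (hsolv : Group.IsSolvable K ∨ Group.IsSolvable (G ⧸ K)) (htrans : MulAction.IsPretransitive K X) :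
    (∃ x : X, ∀ h ∈ H, h • x = x) ∧
    ∀ x y : X, (∀ h ∈ H, h • x = x) → (∀ h ∈ H, h • y = y) → ∃ k ∈ K ⊓ Subgroup.centralizer (H : Set G), k • x = y := by
  have hH : Nat.card H = K.index := hc.symm.index_eq_card.symm
  have hs : Group.IsSolvable K ∨ Group.IsSolvable H := by
    rcases hsolv with h | h
    · exact Or.inl h
    · right
      exact Group.isSolvable_of_surjective (f := hc.symm.QuotientMulEquiv.toMonoidHom)
        hc.symm.QuotientMulEquiv.surjective
  constructor
  · obtain ⟨x₀⟩ := ‹Nonempty X›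
    have hSK : MulAction.stabilizer G x₀ ⊔ K = ⊤ := by
      rw [eq_top_iff]
      intro g _
      obtain ⟨k, hk⟩ := MulAction.exists_smul_eq K x₀ (g • x₀)
      have h1 : (k : G)⁻¹ * g ∈ MulAction.stabilizer G x₀ := by
        rw [MulAction.mem_stabilizer_iff, mul_smul, inv_smul_eq_iff]
        exact hk.symm
      have h2 : g = (k : G) * ((k : G)⁻¹ * g) := by group
      rw [h2]
      exact Subgroup.mul_mem _ (Subgroup.mem_sup_right k.2) (Subgroup.mem_sup_left h1)
    have hrel := relIndex_eq_index K (MulAction.stabilizer G x₀) hSK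
    have hN : (Nat.card (K.subgroupOf (MulAction.stabilizer G x₀))).Coprime
        (K.subgroupOf (MulAction.stabilizer G x₀)).index := by
      refine Nat.Coprime.coprime_dvd_left (card_subgroupOf_dvd K _) ?_
      change (Nat.card K).Coprime (K.relIndex _)
      rw [hrel]
      exact hcop
    obtain ⟨H₁', hH₁'⟩ := Subgroup.exists_right_complement'_of_coprime hN
    have hH₁ : Nat.card (H₁'.map (MulAction.stabilizer G x₀).subtype) = K.index := by
      rw [Nat.card_congr (H₁'.equivMapOfInjective _ (Subgroup.subtype_injective _)).toEquiv.symm,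
        ← hH₁'.symm.index_eq_card, ← hrel]
      rfl
    obtain ⟨g, hg⟩ := Cfsg.Agent.Lib.Helper10.SZ.conj_aux _ G rfl K hcop H
      (H₁'.map (MulAction.stabilizer G x₀).subtype) hH hH₁ hs
    refine ⟨g⁻¹ • x₀, ?_⟩
    intro h hh
    have h3 : g * h * g⁻¹ ∈ H₁'.map (MulAction.stabilizer G x₀).subtype := by
      rw [← hg]
      exact ⟨h, hh, rfl⟩
    obtain ⟨s, -, hs'⟩ := h3
    have h4 : (g * h * g⁻¹) • x₀ = x₀ := by
      rw [← hs']
      exact s.2
    rw [mul_smul, mul_smul] at h4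
    exact eq_inv_smul_iff.2 h4
  · intro x y hx hy
    obtain ⟨k, hk⟩ := MulAction.exists_smul_eq K x y
    have hk' : (k : G) • x = y := hk
    have hHS : H ≤ MulAction.stabilizer G y := fun h hh => hy h hh
    have hH2S : MulAut.conj (k : G) • H ≤ MulAction.stabilizer G y := by
      rintro _ ⟨h, hh, rfl⟩
      rw [MulAction.mem_stabilizer_iff]
      change ((k : G) * h * (k : G)⁻¹) • y = y
      rw [← hk', mul_smul, mul_smul, inv_smul_smul, hx h hh]
    have hSK : MulAction.stabilizer G y ⊔ K = ⊤ := by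
      rw [eq_top_iff, ← hc.sup_eq_top, sup_comm]
      exact sup_le_sup_right hHS K
    have hrel := relIndex_eq_index K (MulAction.stabilizer G y) hSK
    obtain ⟨c, hcm, hcH⟩ := sz_rel K (MulAction.stabilizer G y) H (MulAut.conj (k : G) • H)
      hHS hH2S (hH.trans hrel.symm)
      ((Cfsg.Agent.Lib.Helper10.SZ.card_conj_smul _ _).trans (hH.trans hrel.symm))
      (hrel ▸ hcop) hs
    have hcK : c ∈ K := (Subgroup.mem_inf.1 hcm).1
    have hcS : c • y = y := (Subgroup.mem_inf.1 hcm).2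
    refine ⟨c⁻¹ * (k : G), Subgroup.mem_inf.2 ⟨K.mul_mem (K.inv_mem hcK) k.2, ?_⟩, ?_⟩
    · rw [Subgroup.mem_centralizer_iff]
      intro h hh
      have h5 : (c⁻¹ * (k : G))⁻¹ * h * (c⁻¹ * (k : G)) ∈ H := by
        obtain ⟨h', hh', he⟩ := hcH h hh
        have he' : (k : G) * h' * (k : G)⁻¹ = c * h * c⁻¹ := he
        have h6 : (c⁻¹ * (k : G))⁻¹ * h * (c⁻¹ * (k : G)) = h' := by
          have : h = c⁻¹ * ((k : G) * h' * (k : G)⁻¹) * c := by rw [he']; group
          rw [this]; group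
        rw [h6]
        exact hh'
      have h7 : (c⁻¹ * (k : G))⁻¹ * h * (c⁻¹ * (k : G)) * h⁻¹ ∈ K ⊓ H := by
        refine Subgroup.mem_inf.2 ⟨?_, H.mul_mem h5 (H.inv_mem hh)⟩
        have hkK : c⁻¹ * (k : G) ∈ K := K.mul_mem (K.inv_mem hcK) k.2
        have h8 : (c⁻¹ * (k : G))⁻¹ * h * (c⁻¹ * (k : G)) * h⁻¹
            = (c⁻¹ * (k : G))⁻¹ * (h * (c⁻¹ * (k : G)) * h⁻¹) := by group
        rw [h8]
        exact K.mul_mem (K.inv_mem hkK) (‹K.Normal›.conj_mem _ hkK h)
      rw [hc.disjoint.eq_bot, Subgroup.mem_bot] at h7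
      have h9 : h * (c⁻¹ * (k : G)) = (c⁻¹ * (k : G)) * ((c⁻¹ * (k : G))⁻¹ * h * (c⁻¹ * (k : G)) * h⁻¹) * h := by
        group
      rw [h9, h7, mul_one]
    · rw [mul_smul, hk', inv_smul_eq_iff, hcS]

end Cfsg.Agent.S0059
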