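import Mathlib
import Cfsg.Statements.S0567

set_option autoImplicit false
open Cfsg

open scoped commutatorElement

namespace Cfsg.Agent.S0567

universe u

theorem le_normalizer_of_conj_mem {G : Type u} [Group G] (A L : Subgroup G)
    (h : ∀ a ∈ A, ∀ x ∈ L, a * x * a⁻¹ ∈ L) : A ≤ Subgroup.normalizer (L : Set G) := by
  intro a ha
  rw [Subgroup.mem_normalizer_iff]
  intro x
  refine ⟨h a ha x, fun hx => ?_⟩
  have := h a⁻¹ (inv_mem ha) _ hx
  simpa [mul_assoc] using this

/-- A subgroup H of a group G is subnormal exactly when, for some m, the subgroup obtained from G by taking the commutator with H m times in succession is contained in H. -/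
theorem result {G : Type*} [Group G] (H : Subgroup G) : H.IsSubnormal ↔ ∃ m : ℕ, (fun K : Subgroup G => ⁅K, H⁆)^[m] ⊤ ≤ H := by
  constructor
  · intro hH
    induction hH with
    | top => exact ⟨0, le_top⟩
    | step H K hle hK hN ih =>
      obtain ⟨m, hm⟩ := ih
      refine ⟨m + 1, ?_⟩
      rw [Function.iterate_succ_apply']
      have h1 : (fun L : Subgroup G => ⁅L, H⁆)^[m] ⊤ ≤ (fun L : Subgroup G => ⁅L, K⁆)^[m] ⊤ := by
        clear hm
        induction m with
        | zero => exact le_rfl
        | succ m ihm =>
          rw [Function.iterate_succ_apply', Function.iterate_succ_apply']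
          exact Subgroup.commutator_mono ihm hle
      have h2 := h1.trans hm
      refine (Subgroup.commutator_mono h2 le_rfl).trans ?_
      rw [Subgroup.commutator_le]
      intro k hk h hh
      have hn : K ≤ Subgroup.normalizer (H : Set G) :=
        (Subgroup.normal_subgroupOf_iff_le_normalizer hle).mp hN
      have : k * h * k⁻¹ ∈ H := (Subgroup.mem_normalizer_iff.mp (hn hk) h).mp hh
      rw [commutatorElement_def]
      exact mul_mem this (inv_mem hh)
  · rintro ⟨m, hm⟩
    set K : ℕ → Subgroup G := fun i => (fun K : Subgroup G => ⁅K, H⁆)^[i] ⊤ with hK
    have hK0 : K 0 = ⊤ := rfl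
    have hKs : ∀ i, K (i+1) = ⁅K i, H⁆ := fun i => Function.iterate_succ_apply' _ _ _
    have hKanti : ∀ i, K (i+1) ≤ K i := by
      intro i
      induction i with
      | zero => rw [hK0]; exact le_top
      | succ i ih =>
        calc K (i+1+1) = ⁅K (i+1), H⁆ := hKs _
          _ ≤ ⁅K i, H⁆ := Subgroup.commutator_mono ih le_rfl
          _ = K (i+1) := (hKs i).symm
    have hsub : ∀ i, (H ⊔ K i).IsSubnormal := by
      intro i
      induction i with
      | zero => rw [hK0, sup_top_eq]; exact Subgroup.IsSubnormal.top
      | succ i ih =>
        refine Subgroup.IsSubnormal.step _ _ (sup_le_sup_left (hKanti i) H) ih ?_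
        apply Subgroup.normal_subgroupOf_of_le_normalizer
        apply sup_le
        · refine le_trans ?_ (Subgroup.normalizer_inf_normalizer_le_normalizer_sup H (K (i+1)))
          refine le_inf Subgroup.le_normalizer ?_
          rw [hKs i]
          exact Subgroup.normalizer_commutator_ge_right (K i) H
        · apply le_normalizer_of_conj_mem
          intro k hk x hx
          have key : H ⊔ K (i+1) ≤ (H ⊔ K (i+1)).comap (MulAut.conj k).toMonoidHom := by
            apply sup_le
            · intro h hh
              rw [Subgroup.mem_comap]
              have e : (MulAut.conj k).toMonoidHom h = ⁅k, h⁆ * h := by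
                simp [commutatorElement_def, mul_assoc]
              rw [e]
              refine mul_mem (Subgroup.mem_sup_right ?_) (Subgroup.mem_sup_left hh)
              rw [hKs i]
              exact Subgroup.commutator_mem_commutator hk hh
            · intro y hy
              rw [Subgroup.mem_comap]
              apply Subgroup.mem_sup_right
              have hn : K i ≤ Subgroup.normalizer ((K (i+1) : Subgroup G) : Set G) := by
                rw [hKs i]; exact Subgroup.normalizer_commutator_ge_left (K i) H
              have := (Subgroup.mem_normalizer_iff.mp (hn hk) y).mp hy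
              simpa using this
          have := key hx
          simpa using this
    have := hsub m
    rwa [sup_eq_left.mpr hm] at this

end Cfsg.Agent.S0567
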