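import Mathlib
import Cfsg.Statements.S0582
import Cfsg.Agent.S0567
import Cfsg.Agent.Lib.Helper4.Conj
import Cfsg.Agent.Lib.Helper4.Card
import Cfsg.Agent.Lib.Helper4.SSTower
import Cfsg.Agent.Lib.Lead.Hall

set_option autoImplicit false
open Pointwise
open Cfsg

open scoped Pointwise

namespace Cfsg.Agent.S0582

universe u

open Cfsg.Agent.Lib.Helper4.Supersolvable Cfsg.Agent.Lib.Helper4.SSTower
open Cfsg.Agent.Lib.Helper4.Conj Cfsg.Agent.Lib.Helper4.Card

theorem conj_of_subgroupOf {G : Type u} [Group G] (N H K : Subgroup G) (hH : H ≤ N) (hK : K ≤ N)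
    (x : N) (h : MulAut.conj x • H.subgroupOf N = K.subgroupOf N) :
    MulAut.conj (x : G) • H = K := by
  ext y
  rw [mem_conj_smul]
  constructor
  · intro hy
    have hyN : y ∈ N := by
      have e : y = (x : G) * ((x : G)⁻¹ * y * x) * (x : G)⁻¹ := by group
      rw [e]; exact N.mul_mem (N.mul_mem x.2 (hH hy)) (N.inv_mem x.2)
    have h1 : (⟨y, hyN⟩ : N) ∈ MulAut.conj x • H.subgroupOf N := by
      rw [mem_conj_smul, Subgroup.mem_subgroupOf]
      exact hy
    rw [h, Subgroup.mem_subgroupOf] at h1
    exact h1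
  · intro hy
    have hyN : y ∈ N := hK hy
    have h1 : (⟨y, hyN⟩ : N) ∈ K.subgroupOf N := by rw [Subgroup.mem_subgroupOf]; exact hy
    rw [← h, mem_conj_smul, Subgroup.mem_subgroupOf] at h1
    exact h1

theorem hall_conj (n : ℕ) : ∀ {G : Type u} [Group G] [Finite G] (H K : Subgroup G),
    Nat.card H = n → Cfsg.IsSupersolvable H → Cfsg.IsSupersolvable K → Nat.card H = Nat.card K →
    (Nat.card H).Coprime H.index → ∃ x : G, MulAut.conj x • H = K := by
  induction n using Nat.strong_induction_on with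
  | _ n ih =>
  intro G _ _ H K hn hH hK hcard hHall
  by_cases hH1 : Nat.card H = 1
  · refine ⟨1, ?_⟩
    have h1 : H = ⊥ := Subgroup.card_eq_one.mp hH1
    have h2 : K = ⊥ := Subgroup.card_eq_one.mp (hcard ▸ hH1)
    rw [h1, h2, conj_one_smul]
  haveI : Nontrivial H := by
    apply Finite.one_lt_card_iff_nontrivial.mp
    have h0 : 0 < Nat.card H := Nat.card_pos
    omega
  obtain ⟨p, hp, hpd, hmax⟩ := exists_max_prime (G := H)
  haveI : Fact p.Prime := ⟨hp⟩
  obtain ⟨P⟩ : Nonempty (Sylow p H) := inferInstance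
  obtain ⟨Q⟩ : Nonempty (Sylow p K) := inferInstance
  have hPn : (P : Subgroup H).Normal := sylow_normal_of_max_prime hH p hmax P
  have hQn : (Q : Subgroup K).Normal :=
    sylow_normal_of_max_prime hK p (by rw [← hcard]; exact hmax) Q
  set PG := (P : Subgroup H).map H.subtype with hPG
  set QG := (Q : Subgroup K).map K.subtype with hQG
  have hfac : (Nat.card G).factorization p = (Nat.card H).factorization p := by
    have h1 : H.index * Nat.card H = Nat.card G := Subgroup.index_mul_card H
    have hnd : ¬ p ∣ H.index := by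
      intro hd
      exact hp.one_lt.ne' (Nat.Coprime.eq_one_of_dvd (Nat.Coprime.coprime_dvd_left hpd hHall) hd)
    rw [← h1, Nat.factorization_mul (Subgroup.index_ne_zero_of_finite) Nat.card_pos.ne']
    simp [Nat.factorization_eq_zero_of_not_dvd hnd]
  have hPGcard : Nat.card PG = p ^ (Nat.card G).factorization p := by
    rw [hPG, Subgroup.card_map_of_injective H.subtype_injective, Sylow.card_eq_multiplicity, hfac]
  have hQGcard : Nat.card QG = p ^ (Nat.card G).factorization p := by
    rw [hQG, Subgroup.card_map_of_injective K.subtype_injective, Sylow.card_eq_multiplicity,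
      hfac, hcard]
  obtain ⟨g, hg⟩ := MulAction.exists_smul_eq G (Sylow.ofCard PG hPGcard) (Sylow.ofCard QG hQGcard)
  have hg' : MulAut.conj g • PG = QG := by
    have h1 := congrArg (fun S : Sylow p G => (S : Subgroup G)) hg
    simpa [Sylow.coe_subgroup_smul] using h1
  set H' := MulAut.conj g • H with hH'
  have hH'ss : Cfsg.IsSupersolvable H' :=
    isSupersolvable_of_equiv (Subgroup.equivSMul (MulAut.conj g) H) hH
  have hH'card : Nat.card H' = Nat.card H := card_conj_smul g H
  have hQGH' : QG ≤ H' := by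
    rw [← hg']
    intro y hy
    rw [mem_conj_smul] at hy
    rw [hH', mem_conj_smul]
    exact (Subgroup.map_subtype_le _) hy
  have hQGK : QG ≤ K := Subgroup.map_subtype_le _
  set N := Subgroup.normalizer (QG : Set G) with hN
  have hKN : K ≤ N := by
    apply Cfsg.Agent.S0567.le_normalizer_of_conj_mem
    rintro a ha _ ⟨y, hy, rfl⟩
    exact ⟨⟨a, ha⟩ * y * ⟨a, ha⟩⁻¹, hQn.conj_mem y hy ⟨a, ha⟩, rfl⟩
  have hH'N : H' ≤ N := by
    apply Cfsg.Agent.S0567.le_normalizer_of_conj_mem
    intro a ha x hx
    rw [hH', mem_conj_smul] at ha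
    rw [← hg', mem_conj_smul] at hx ⊢
    obtain ⟨y, hy, hye⟩ := hx
    have e : g⁻¹ * (a * x * a⁻¹) * g = (g⁻¹ * a * g) * (g⁻¹ * x * g) * (g⁻¹ * a * g)⁻¹ := by
      group
    rw [e, ← hye]
    exact ⟨⟨_, ha⟩ * y * ⟨_, ha⟩⁻¹, hPn.conj_mem y hy ⟨_, ha⟩, rfl⟩
  have hQGN : QG ≤ N := Subgroup.le_normalizer
  set R : Subgroup N := QG.subgroupOf N with hR
  haveI hRn : R.Normal := Subgroup.normal_in_normalizer
  set HN : Subgroup N := H'.subgroupOf N with hHN
  set KN : Subgroup N := K.subgroupOf N with hKN'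
  have hRH : R ≤ HN := fun y hy => hQGH' hy
  have hRK : R ≤ KN := fun y hy => hQGK hy
  set Hb := HN.map (QuotientGroup.mk' R) with hHb
  set Kb := KN.map (QuotientGroup.mk' R) with hKb
  have hHNcard : Nat.card HN = Nat.card H := by
    rw [hHN, card_subgroupOf_eq, inf_eq_left.mpr hH'N, hH'card]
  have hKNcard : Nat.card KN = Nat.card K := by
    rw [hKN', card_subgroupOf_eq, inf_eq_left.mpr hKN]
  have hRcard : Nat.card R = Nat.card QG := by
    rw [hR, card_subgroupOf_eq, inf_eq_left.mpr hQGN]
  have hcomapH : Hb.comap (QuotientGroup.mk' R) = HN :=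
    Subgroup.comap_map_eq_self (by rw [QuotientGroup.ker_mk']; exact hRH)
  have hcomapK : Kb.comap (QuotientGroup.mk' R) = KN :=
    Subgroup.comap_map_eq_self (by rw [QuotientGroup.ker_mk']; exact hRK)
  have hHbcard : Nat.card R * Nat.card Hb = Nat.card H := by
    have h1 := Cfsg.Agent.Lib.Lead.Hall.card_comap_mk R Hb
    rw [hcomapH, hHNcard] at h1
    exact h1.symm
  have hKbcard : Nat.card R * Nat.card Kb = Nat.card K := by
    have h1 := Cfsg.Agent.Lib.Lead.Hall.card_comap_mk R Kb
    rw [hcomapK, hKNcard] at h1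
    exact h1.symm
  have hRgt : 1 < Nat.card R := by
    rw [hRcard, hQGcard, hfac]
    have hk : 0 < (Nat.card H).factorization p :=
      hp.factorization_pos_of_dvd Nat.card_pos.ne' hpd
    exact Nat.one_lt_pow hk.ne' hp.one_lt
  have hlt : Nat.card Hb < n := by
    rw [← hn, ← hHbcard]
    have h0 : 0 < Nat.card Hb := Nat.card_pos
    nlinarith
  have hbcard : Nat.card Hb = Nat.card Kb := by
    have hpos : 0 < Nat.card R := Nat.card_pos
    apply Nat.eq_of_mul_eq_mul_left hpos
    rw [hHbcard, hKbcard, hcard]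
  have hHbss : Cfsg.IsSupersolvable Hb := by
    have h1 : Cfsg.IsSupersolvable HN :=
      isSupersolvable_of_equiv (Subgroup.subgroupOfEquivOfLe hH'N).symm hH'ss
    exact isSupersolvable_of_surjective ((QuotientGroup.mk' R).subgroupMap HN)
      (MonoidHom.subgroupMap_surjective _ HN) h1
  have hKbss : Cfsg.IsSupersolvable Kb := by
    have h1 : Cfsg.IsSupersolvable KN :=
      isSupersolvable_of_equiv (Subgroup.subgroupOfEquivOfLe hKN).symm hK
    exact isSupersolvable_of_surjective ((QuotientGroup.mk' R).subgroupMap KN)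
      (MonoidHom.subgroupMap_surjective _ KN) h1
  have hbHall : (Nat.card Hb).Coprime Hb.index := by
    have h1 : Hb.index = HN.index := by
      rw [← hcomapH, Subgroup.index_comap_of_surjective Hb (QuotientGroup.mk'_surjective R)]
    have h2 : HN.index ∣ H.index := by
      have h3 : H'.index = H.index := by
        have e1 : H'.index * Nat.card H' = Nat.card G := Subgroup.index_mul_card H'
        have e2 : H.index * Nat.card H = Nat.card G := Subgroup.index_mul_card H
        rw [hH'card, ← e2] at e1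
        exact Nat.eq_of_mul_eq_mul_right Nat.card_pos e1
      rw [← h3]
      exact Dvd.intro _ (Subgroup.relIndex_mul_index hH'N)
    have h3 : Nat.card Hb ∣ Nat.card H := Dvd.intro_left _ hHbcard
    rw [h1]
    exact Nat.Coprime.coprime_dvd_left h3 (Nat.Coprime.coprime_dvd_right h2 hHall)
  obtain ⟨xb, hxb⟩ := ih (Nat.card Hb) hlt Hb Kb rfl hHbss hKbss hbcard hbHall
  obtain ⟨x, rfl⟩ := QuotientGroup.mk'_surjective R xb
  have h4 : MulAut.conj x • HN = KN :=
    Cfsg.Agent.Lib.Lead.Hall.conj_lift R HN KN hRH hRK x hxb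
  have h5 : MulAut.conj (x : G) • H' = K := conj_of_subgroupOf N H' K hH'N hKN x h4
  refine ⟨(x : G) * g, ?_⟩
  rw [← h5, hH', conj_smul_smul]

/-- Let H and K be supersolvable subgroups of a finite group G of the same order, that order being coprime to their index. Then H and K are conjugate in G. -/
theorem result {G : Type*} [Group G] [Finite G] (H K : Subgroup G) (hH : Cfsg.IsSupersolvable H) (hK : Cfsg.IsSupersolvable K) (hcard : Nat.card H = Nat.card K) (hHall : (Nat.card H).Coprime H.index) : ∃ x : G, MulAut.conj x • H = K := by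
  exact hall_conj _ H K rfl hH hK hcard hHall

end Cfsg.Agent.S0582
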