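import Mathlib
import Cfsg.Statements.S0545
import Cfsg.Agent.Lib.Helper4.HallSys

set_option autoImplicit false
open Cfsg

open scoped Pointwise

namespace Cfsg.Agent.S0545

universe u v

open Cfsg.Agent.Lib.Helper4.HallSys Cfsg.Agent.Lib.Helper4.Conj

theorem not_dvd_card {G : Type u} [Group G] [Finite G] {K : Nat.Primes → Subgroup G}
    (hK : Cfsg.IsComplementSystem K) (p : Nat.Primes) : ¬ (p : ℕ) ∣ Nat.card (K p) := by
  intro hdvd
  have h1 := Subgroup.index_mul_card (K p)
  rw [hK p] at h1
  have h2 : (p : ℕ) ^ ((Nat.card G).factorization p + 1) ∣ Nat.card G := by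
    rw [pow_succ]
    exact (Nat.mul_dvd_mul_left _ hdvd).trans (dvd_of_eq h1)
  exact Nat.pow_succ_factorization_not_dvd Nat.card_pos.ne' p.2 h2

theorem map_conj_smul {G : Type u} {G' : Type v} [Group G] [Group G'] (π : G →* G') (x : G)
    (H : Subgroup G) : (MulAut.conj x • H).map π = MulAut.conj (π x) • H.map π := by
  ext y
  constructor
  · rintro ⟨z, hz, rfl⟩
    have hz' : z ∈ MulAut.conj x • H := hz
    rw [mem_conj_smul] at hz' ⊢
    exact ⟨_, hz', by simp⟩
  · intro hy
    rw [mem_conj_smul] at hy
    obtain ⟨k, hk, hke⟩ := hy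
    refine ⟨x * k * x⁻¹, conj_mem_conj_smul hk, ?_⟩
    rw [map_mul, map_mul, hke, map_inv]; group

theorem map_complementSystem {G : Type u} [Group G] [Finite G] (K : Nat.Primes → Subgroup G)
    (hK : Cfsg.IsComplementSystem K) (N : Subgroup G) [N.Normal] :
    Cfsg.IsComplementSystem (fun p => (K p).map (QuotientGroup.mk' N)) := by
  intro p
  have hs : Function.Surjective (QuotientGroup.mk' N) := QuotientGroup.mk'_surjective N
  have hdvd : ((K p).map (QuotientGroup.mk' N)).index ∣ (K p).index :=
    Subgroup.index_map_dvd (K p) hs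
  rw [hK p] at hdvd
  obtain ⟨b, hb, hidx⟩ := (Nat.dvd_prime_pow p.2).mp hdvd
  show ((K p).map (QuotientGroup.mk' N)).index = _
  have h1 := Subgroup.index_mul_card ((K p).map (QuotientGroup.mk' N))
  rw [hidx] at h1
  have hnd : ¬ (p : ℕ) ∣ Nat.card ((K p).map (QuotientGroup.mk' N)) := by
    intro hd
    have h2 : Nat.card ((K p).map (QuotientGroup.mk' N)) ∣ Nat.card (K p) :=
      Subgroup.card_map_dvd (K p) _
    exact not_dvd_card hK p (hd.trans h2)
  have hfac : (Nat.card (G ⧸ N)).factorization p = b := by
    rw [← h1, Nat.factorization_mul (pow_ne_zero _ p.2.ne_zero) Nat.card_pos.ne',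
      Finsupp.add_apply, Nat.Prime.factorization_pow p.2, Finsupp.single_eq_same,
      Nat.factorization_eq_zero_of_not_dvd hnd, add_zero]
  rw [hidx, hfac]

theorem systemNormalizer_map {G : Type u} [Group G] [Finite G] [Group.IsSolvable G]
    (K : Nat.Primes → Subgroup G) (hK : Cfsg.IsComplementSystem K) (N : Subgroup G) [N.Normal] :
    Cfsg.systemNormalizer (fun p => (K p).map (QuotientGroup.mk' N)) =
      (Cfsg.systemNormalizer K).map (QuotientGroup.mk' N) := by
  apply le_antisymm
  · intro xb hxb
    obtain ⟨x, rfl⟩ := QuotientGroup.mk'_surjective N xb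
    simp only [Cfsg.systemNormalizer, Subgroup.mem_iInf] at hxb
    have hL : Cfsg.IsComplementSystem (fun p => MulAut.conj x • K p) := fun p => by
      show (MulAut.conj x • K p).index = _
      rw [index_conj_smul]; exact hK p
    have hKL : ∀ p, K p ⊔ N = MulAut.conj x • K p ⊔ N := by
      intro p
      have h1 : MulAut.conj (QuotientGroup.mk' N x) • (K p).map (QuotientGroup.mk' N) =
          (K p).map (QuotientGroup.mk' N) := mem_normalizer_iff_conj_smul_eq.mp (hxb p)
      have h2 := map_conj_smul (QuotientGroup.mk' N) x (K p)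
      have h3 : ((K p).map (QuotientGroup.mk' N)).comap (QuotientGroup.mk' N) = K p ⊔ N := by
        rw [Subgroup.comap_map_eq, QuotientGroup.ker_mk']
      have h4 : ((MulAut.conj x • K p).map (QuotientGroup.mk' N)).comap (QuotientGroup.mk' N) =
          MulAut.conj x • K p ⊔ N := by
        rw [Subgroup.comap_map_eq, QuotientGroup.ker_mk']
      rw [← h3, ← h4, h2, h1]
    obtain ⟨n, hn, hnc⟩ := rel_conj N K (fun p => MulAut.conj x • K p) hK hL hKL
    refine ⟨n⁻¹ * x, ?_, ?_⟩
    · show n⁻¹ * x ∈ Cfsg.systemNormalizer K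
      rw [Cfsg.systemNormalizer, Subgroup.mem_iInf]
      intro p
      rw [mem_normalizer_iff_conj_smul_eq, ← conj_smul_smul, ← hnc p, conj_smul_smul,
        inv_mul_cancel, conj_one_smul]
    · have h1 : (QuotientGroup.mk' N) n = 1 := (QuotientGroup.eq_one_iff n).mpr hn
      rw [map_mul, map_inv, h1, inv_one, one_mul]
  · rintro _ ⟨x, hx0, rfl⟩
    have hx : x ∈ Cfsg.systemNormalizer K := hx0
    rw [Cfsg.systemNormalizer, Subgroup.mem_iInf] at hx ⊢
    intro p
    rw [mem_normalizer_iff_conj_smul_eq, ← map_conj_smul,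
      mem_normalizer_iff_conj_smul_eq.mp (hx p)]

/-- Let K be a Hall complement system of a finite solvable group G and N a normal subgroup. Then the images of the K p in G modulo N form a Hall complement system of the quotient, and its system normalizer is the image of the system normalizer of K. -/
theorem result {G : Type*} [Group G] [Finite G] [Group.IsSolvable G] (K : Nat.Primes → Subgroup G) (hK : Cfsg.IsComplementSystem K) (N : Subgroup G) [N.Normal] : Cfsg.IsComplementSystem (fun p => (K p).map (QuotientGroup.mk' N)) ∧ Cfsg.systemNormalizer (fun p => (K p).map (QuotientGroup.mk' N)) = (Cfsg.systemNormalizer K).map (QuotientGroup.mk' N) := by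
  exact ⟨map_complementSystem K hK N, systemNormalizer_map K hK N⟩

end Cfsg.Agent.S0545
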