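import Mathlib
import Cfsg.Statements.S0544

set_option autoImplicit false
open Cfsg

namespace Cfsg.Agent.S0544

/-- In a finite solvable group the intersection of the normalizers of the members of a Hall complement system is a nilpotent subgroup. -/
theorem result {G : Type*} [Group G] [Finite G] [Group.IsSolvable G] (K : Nat.Primes → Subgroup G) (hK : Cfsg.IsComplementSystem K) : Group.IsNilpotent (Cfsg.systemNormalizer K) := by
  classical
  set D := Cfsg.systemNormalizer K with hD
  have hDN : ∀ r, D ≤ Subgroup.normalizer (K r : Set G) := fun r => iInf_le _ r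
  have hLn : ∀ r, ((K r).subgroupOf D).Normal := fun r =>
    Subgroup.normal_subgroupOf_iff_le_normalizer_inf.mpr
      ((le_inf (hDN r) Subgroup.le_normalizer).trans Subgroup.inf_normalizer_le_normalizer_inf)
  have hrel : ∀ r, (K r).relIndex D ∣ (K r).index := by
    intro r
    have h1 : ((K r).subgroupOf (Subgroup.normalizer (K r : Set G))).relIndex
        (D.subgroupOf (Subgroup.normalizer (K r : Set G))) = (K r).relIndex D :=
      Subgroup.relIndex_subgroupOf (hDN r)
    have h2 : ((K r).subgroupOf (Subgroup.normalizer (K r : Set G))).relIndex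
        (D.subgroupOf (Subgroup.normalizer (K r : Set G))) ∣
        ((K r).subgroupOf (Subgroup.normalizer (K r : Set G))).index :=
      Subgroup.relIndex_dvd_index_of_normal _ _
    have h3 : ((K r).subgroupOf (Subgroup.normalizer (K r : Set G))).index ∣ (K r).index :=
      Subgroup.relIndex_dvd_index_of_le Subgroup.le_normalizer
    exact h1 ▸ h2.trans h3
  let ι := {r : Nat.Primes // (r : ℕ) ∣ Nat.card G}
  have hfin : Finite ι := by
    refine Finite.of_injective (fun r : ι => (⟨(r.1 : ℕ), Nat.lt_succ_of_le (Nat.le_of_dvd Nat.card_pos r.2)⟩ : Fin (Nat.card G + 1))) ?_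
    intro a b hab
    have : (a.1 : ℕ) = (b.1 : ℕ) := by simpa using congrArg Fin.val hab
    exact Subtype.ext (Subtype.ext this)
  have hLn' : ∀ r : ι, ((K r.1).subgroupOf D).Normal := fun r => hLn r.1
  let f : D →* ((r : ι) → D ⧸ (K r.1).subgroupOf D) :=
    MonoidHom.pi (fun r => QuotientGroup.mk' ((K r.1).subgroupOf D))
  have hnil : ∀ r : ι, Group.IsNilpotent (D ⧸ (K r.1).subgroupOf D) := by
    intro r
    have : Fact (r.1 : ℕ).Prime := ⟨r.1.2⟩
    apply IsPGroup.isNilpotent (p := (r.1 : ℕ))
    have hc : Nat.card (D ⧸ (K r.1).subgroupOf D) = (K r.1).relIndex D :=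
      (Subgroup.index_eq_card _).symm
    have hdiv := hrel r.1
    rw [hK r.1] at hdiv
    obtain ⟨b, _, hb⟩ := (Nat.dvd_prime_pow r.1.2).mp hdiv
    exact IsPGroup.of_card (hc.trans hb)
  have hker : f.ker ≤ Subgroup.center D := by
    intro x hx
    have hx1 : x = 1 := by
      by_contra hne
      have hord : orderOf x ≠ 1 := fun h => hne (orderOf_eq_one_iff.mp h)
      obtain ⟨s, hs, hsd⟩ := Nat.exists_prime_and_dvd hord
      have hsG : s ∣ Nat.card G :=
        hsd.trans ((orderOf_dvd_natCard x).trans (Subgroup.card_subgroup_dvd_card D))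
      let r : ι := ⟨⟨s, hs⟩, hsG⟩
      have hxr : x ∈ (K r.1).subgroupOf D := by
        have h1 : f x r = 1 := by
          have := MonoidHom.mem_ker.mp hx
          rw [this]; rfl
        exact (QuotientGroup.eq_one_iff x).mp h1
      have hxK : (x : G) ∈ K r.1 := Subgroup.mem_subgroupOf.mp hxr
      have h1 : orderOf (x : G) ∣ Nat.card (K r.1) := by
        have := orderOf_dvd_natCard (⟨(x : G), hxK⟩ : K r.1)
        rwa [Subgroup.orderOf_mk] at this
      have h2 : s ∣ Nat.card (K r.1) := by
        rw [Subgroup.orderOf_coe] at h1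
        exact hsd.trans h1
      have hcop : ¬ s ∣ Nat.card (K r.1) := by
        intro hdvd
        have hmul := (K r.1).index_mul_card
        rw [hK r.1] at hmul
        have : s ^ ((Nat.card G).factorization s + 1) ∣ Nat.card G := by
          have h3 : s ^ ((Nat.card G).factorization s + 1) ∣
              s ^ (Nat.card G).factorization s * Nat.card (K r.1) := by
            rw [pow_succ]; exact mul_dvd_mul_left _ hdvd
          have hmul' : (s : ℕ) ^ (Nat.card G).factorization s * Nat.card (K r.1) = Nat.card G := hmul
          rw [hmul'] at h3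
          exact h3
        exact Nat.pow_succ_factorization_not_dvd Nat.card_pos.ne' hs this
      exact hcop h2
    rw [hx1]; exact Subgroup.one_mem _
  exact Subgroup.isNilpotent_of_ker_le_center f hker

end Cfsg.Agent.S0544
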