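import Mathlib
import Cfsg.Statements.S0549

set_option autoImplicit false
open Cfsg

namespace Cfsg.Agent.S0549

theorem sup_eq_top_of_normal {G : Type*} [Group G] (U : Subgroup G) (hU : IsCoatom U)
    (hcore : U.normalCore = ⊥) (K : Subgroup G) [K.Normal] (hK : K ≠ ⊥) : K ⊔ U = ⊤ := by
  by_contra hne
  have hKU : ¬ K ≤ U := by
    intro hle
    have : K ≤ U.normalCore := Subgroup.normal_le_normalCore.mpr hle
    rw [hcore] at this
    exact hK (le_bot_iff.mp this)
  have hlt : U < K ⊔ U := lt_of_le_of_ne le_sup_right (fun heq => hKU (heq ▸ le_sup_left))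
  exact hne (hU.2 _ hlt)

/-- Let U be a maximal subgroup of a finite group G whose normal core is trivial, and N a nontrivial normal subgroup with centralizer C. Then C ∩ U = 1, and either C = 1 or C is a minimal normal subgroup of G. -/
theorem result {G : Type*} [Group G] [Finite G] (U : Subgroup G) (hU : IsCoatom U) (hcore : U.normalCore = ⊥) (N : Subgroup G) [N.Normal] (hN : N ≠ ⊥) : Subgroup.centralizer (N : Set G) ⊓ U = ⊥ ∧ (Subgroup.centralizer (N : Set G) = ⊥ ∨ (Subgroup.centralizer (N : Set G) ≠ ⊥ ∧ ∀ K : Subgroup G, K.Normal → K ≤ Subgroup.centralizer (N : Set G) → K = ⊥ ∨ K = Subgroup.centralizer (N : Set G))) := by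
  have hNU : N ⊔ U = ⊤ := sup_eq_top_of_normal U hU hcore N hN
  have hCn : (Subgroup.centralizer (N : Set G)).Normal := Subgroup.normal_centralizer
  have hCU : Subgroup.centralizer (N : Set G) ⊓ U = ⊥ := by
    have hnorm : (Subgroup.centralizer (N : Set G) ⊓ U).Normal := by
      constructor
      intro x hx g
      have hg : g ∈ (N ⊔ U : Subgroup G) := by rw [hNU]; trivial
      rw [← SetLike.mem_coe, Subgroup.normal_mul] at hg
      obtain ⟨n, hn, u, hu, rfl⟩ := hg
      have hy : u * x * u⁻¹ ∈ Subgroup.centralizer (N : Set G) ⊓ U :=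
        ⟨hCn.conj_mem x hx.1 u, U.mul_mem (U.mul_mem hu hx.2) (U.inv_mem hu)⟩
      have hcomm : n * (u * x * u⁻¹) = (u * x * u⁻¹) * n :=
        (Subgroup.mem_centralizer_iff.mp hy.1) n hn
      have : n * u * x * (n * u)⁻¹ = u * x * u⁻¹ := by
        calc n * u * x * (n * u)⁻¹ = n * (u * x * u⁻¹) * n⁻¹ := by group
          _ = (u * x * u⁻¹) * n * n⁻¹ := by rw [hcomm]
          _ = u * x * u⁻¹ := by group
      rw [this]; exact hy
    have hle : Subgroup.centralizer (N : Set G) ⊓ U ≤ U.normalCore :=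
      Subgroup.normal_le_normalCore.mpr inf_le_right
    rw [hcore] at hle
    exact le_bot_iff.mp hle
  refine ⟨hCU, ?_⟩
  by_cases hC : Subgroup.centralizer (N : Set G) = ⊥
  · exact Or.inl hC
  · refine Or.inr ⟨hC, ?_⟩
    intro K hKn hKC
    by_cases hK : K = ⊥
    · exact Or.inl hK
    · right
      have hKU : K ⊔ U = ⊤ := sup_eq_top_of_normal U hU hcore K hK
      apply le_antisymm hKC
      intro c hc
      have hg : c ∈ (K ⊔ U : Subgroup G) := by rw [hKU]; trivial
      rw [← SetLike.mem_coe, Subgroup.normal_mul] at hg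
      obtain ⟨k, hk, u, hu, rfl⟩ := hg
      have huC : u ∈ Subgroup.centralizer (N : Set G) := by
        have : u = k⁻¹ * (k * u) := by group
        rw [this]
        exact Subgroup.mul_mem _ (Subgroup.inv_mem _ (hKC hk)) hc
      have hu1 : u ∈ Subgroup.centralizer (N : Set G) ⊓ U := ⟨huC, hu⟩
      rw [hCU, Subgroup.mem_bot] at hu1
      subst hu1
      simpa using hk

end Cfsg.Agent.S0549
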