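import Mathlib
import Cfsg.Statements.S0551
import Cfsg.Agent.Lib.Helper4.MaxSub
import Cfsg.Agent.Lib.Helper4.Conj
import Cfsg.Agent.S0043
import Cfsg.Agent.S0549
import Cfsg.Agent.S0567

set_option autoImplicit false
open Pointwise
open Cfsg

open scoped Pointwise

namespace Cfsg.Agent.S0551

universe u

open Cfsg.Agent.Lib.Helper4.MaxSub Cfsg.Agent.Lib.Helper4.MinNormal Cfsg.Agent.Lib.Helper4.Conj
open Cfsg.Agent.Lib.Helper4.Card

/-- a nontrivial normal subgroup of a finite `p`-group contains a nontrivial central element -/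
theorem exists_central_mem_of_normal {P : Type u} [Group P] [Finite P] {p : ℕ} [Fact p.Prime]
    (hP : IsPGroup p P) (N : Subgroup P) [N.Normal] (hN : N ≠ ⊥) :
    ∃ z ∈ N, z ≠ 1 ∧ ∀ g : P, g * z = z * g := by
  have hdvd : p ∣ Nat.card N := by
    have hNp : IsPGroup p N := hP.to_subgroup N
    obtain ⟨k, hk⟩ := IsPGroup.iff_card.mp hNp
    have h1 : 1 < Nat.card N := by rwa [Subgroup.one_lt_card_iff_ne_bot]
    rw [hk] at h1 ⊢
    have hk0 : k ≠ 0 := by rintro rfl; simp at h1
    exact dvd_pow_self p hk0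
  have h1fix : (1 : N) ∈ MulAction.fixedPoints (ConjAct P) N := by
    intro g
    exact smul_one g
  obtain ⟨b, hb, hb1⟩ :=
    (hP.of_equiv ConjAct.toConjAct).exists_fixed_point_of_prime_dvd_card_of_fixed_point N hdvd h1fix
  refine ⟨(b : P), b.2, ?_, fun g => ?_⟩
  · intro h
    apply hb1
    exact Subtype.ext h.symm
  · have := hb (ConjAct.toConjAct g)
    have h2 := congrArg Subtype.val this
    rw [ConjAct.Subgroup.val_conj_smul, ConjAct.smul_def, ConjAct.ofConjAct_toConjAct] at h2
    calc g * (b : P) = (g * (b : P) * g⁻¹) * g := by group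
      _ = (b : P) * g := by rw [h2]

theorem aux_conj {G : Type u} [Group G] [Finite G] [Group.IsSolvable G] (U V : Subgroup G)
    (hU : IsCoatom U) (hV : IsCoatom V) (hUc : U.normalCore = ⊥) (hVc : V.normalCore = ⊥) :
    ∃ g : G, MulAut.conj g • U = V := by
  haveI : Nontrivial G := by
    by_contra h
    rw [not_nontrivial_iff_subsingleton] at h
    exact hU.1 (Subsingleton.elim _ _)
  obtain ⟨N, hNmin⟩ := exists_minNormal (G := G)
  haveI hNn : N.Normal := hNmin.1
  obtain ⟨hNc, p, hp, hNp⟩ := Cfsg.Agent.S0043.result N hNmin.2.1 hNmin.2.2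
  haveI := hNc
  haveI : Fact p.Prime := ⟨hp⟩
  have hNU : ¬ N ≤ U := fun hle =>
    hNmin.2.1 (le_bot_iff.mp (hUc ▸ Subgroup.normal_le_normalCore.mpr hle))
  have hNV : ¬ N ≤ V := fun hle =>
    hNmin.2.1 (le_bot_iff.mp (hVc ▸ Subgroup.normal_le_normalCore.mpr hle))
  have hUinf := inf_eq_bot_of_minNormal_abelian hU hNmin hNU
  have hVinf := inf_eq_bot_of_minNormal_abelian hV hNmin hNV
  have hUtop := sup_eq_top_of_not_le hU hNU
  have hVtop := sup_eq_top_of_not_le hV hNV
  have hCN : Subgroup.centralizer (N : Set G) = N := by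
    obtain ⟨h1, h2⟩ := Cfsg.Agent.S0549.result U hU hUc N hNmin.2.1
    have hNC : N ≤ Subgroup.centralizer (N : Set G) := by
      intro x hx
      rw [Subgroup.mem_centralizer_iff]
      intro y hy
      exact setLike_mul_comm hy hx
    rcases h2 with h2 | ⟨h2, h3⟩
    · exact absurd (le_bot_iff.mp (h2 ▸ hNC)) hNmin.2.1
    · rcases h3 N hNn hNC with h4 | h4
      · exact absurd h4 hNmin.2.1
      · exact h4.symm
  by_cases hNtop : N = ⊤
  · refine ⟨1, ?_⟩
    rw [hNtop, inf_top_eq] at hUinf hVinf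
    rw [hUinf, hVinf, conj_one_smul]
  · haveI : Nontrivial (G ⧸ N) := by
      by_contra h
      rw [not_nontrivial_iff_subsingleton] at h
      apply hNtop
      rw [eq_top_iff]
      intro x _
      have : (QuotientGroup.mk x : G ⧸ N) = 1 := Subsingleton.elim _ _
      exact (QuotientGroup.eq_one_iff x).mp this
    obtain ⟨Lb, hLb⟩ := exists_minNormal (G := G ⧸ N)
    haveI := hLb.1
    obtain ⟨hLc, q, hq, hLq⟩ := Cfsg.Agent.S0043.result Lb hLb.2.1 hLb.2.2
    haveI : Fact q.Prime := ⟨hq⟩
    set π := QuotientGroup.mk' N with hπ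
    set L := Lb.comap π with hL
    haveI hLn : L.Normal := hLb.1.comap π
    have hNL : N ≤ L := by
      intro x hx
      rw [hL, Subgroup.mem_comap]
      have : π x = 1 := (QuotientGroup.eq_one_iff x).mpr hx
      rw [this]; exact one_mem _
    have hNneL : N ≠ L := by
      intro h
      apply hLb.2.1
      rw [← Subgroup.map_comap_eq_self_of_surjective (QuotientGroup.mk'_surjective N) Lb]
      change L.map π = ⊥
      rw [← h, eq_bot_iff]
      rintro _ ⟨x, hx, rfl⟩
      rw [Subgroup.mem_bot]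
      exact (QuotientGroup.eq_one_iff x).mpr hx
    have hpowN : ∀ x ∈ L, x ^ q ∈ N := by
      intro x hx
      have h1 : (π x) ^ q = 1 := hLq _ hx
      rw [← map_pow] at h1
      exact (QuotientGroup.eq_one_iff _).mp h1
    have hqp : q ≠ p := by
      intro hqp
      subst hqp
      have hLp : IsPGroup q L := by
        intro ⟨x, hx⟩
        refine ⟨2, ?_⟩
        have h3 := hNp _ (hpowN x hx)
        apply Subtype.ext
        simp only [Subgroup.coe_pow, Subgroup.coe_one]
        rw [pow_two, pow_mul]; exact h3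
      haveI : (N.subgroupOf L).Normal := Subgroup.normal_subgroupOf
      have hne : N.subgroupOf L ≠ ⊥ := by
        intro h
        rw [Subgroup.subgroupOf_eq_bot, disjoint_iff, inf_eq_left.mpr hNL] at h
        exact hNmin.2.1 h
      obtain ⟨z, hzN, hz1, hzc⟩ := exists_central_mem_of_normal hLp (N.subgroupOf L) hne
      have hK : (N ⊓ Subgroup.centralizer (L : Set G)).Normal := inferInstance
      have hzK : (z : G) ∈ N ⊓ Subgroup.centralizer (L : Set G) := by
        refine Subgroup.mem_inf.mpr ⟨hzN, ?_⟩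
        rw [Subgroup.mem_centralizer_iff]
        intro y hy
        exact congrArg Subtype.val (hzc ⟨y, hy⟩)
      rcases hNmin.2.2 _ hK inf_le_left with h | h
      · rw [h, Subgroup.mem_bot] at hzK
        exact hz1 (Subtype.ext hzK)
      · have h5 : N ≤ Subgroup.centralizer (L : Set G) := h ▸ inf_le_right
        have h6 : L ≤ Subgroup.centralizer (N : Set G) := by
          intro x hx
          rw [Subgroup.mem_centralizer_iff]
          intro y hy
          exact (Subgroup.mem_centralizer_iff.mp (h5 hy) x hx).symm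
        rw [hCN] at h6
        exact hNneL (le_antisymm hNL h6)
    have key : ∀ W : Subgroup G, W ⊓ N = ⊥ → W ⊔ N = ⊤ →
        IsPGroup q (W.subgroupOf L) ∧ ¬ q ∣ (W.subgroupOf L).index ∧ L ⊓ W ≠ ⊥ := by
      intro W hWinf hWtop
      haveI : (N.subgroupOf L).Normal := Subgroup.normal_subgroupOf
      have hinf' : W.subgroupOf L ⊓ N.subgroupOf L = ⊥ := by
        rw [eq_bot_iff]
        intro x hx
        have hx' := Subgroup.mem_inf.mp hx
        have h3 : (x : G) ∈ W ⊓ N :=
          Subgroup.mem_inf.mpr ⟨Subgroup.mem_subgroupOf.mp hx'.1, Subgroup.mem_subgroupOf.mp hx'.2⟩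
        rw [hWinf, Subgroup.mem_bot] at h3
        rw [Subgroup.mem_bot]
        exact Subtype.ext h3
      have htop' : W.subgroupOf L ⊔ N.subgroupOf L = ⊤ := by
        rw [eq_top_iff]
        rintro ⟨l, hl⟩ -
        have hg : l ∈ N ⊔ W := by rw [sup_comm, hWtop]; exact Subgroup.mem_top l
        rw [← SetLike.mem_coe, Subgroup.normal_mul] at hg
        obtain ⟨n, hn, w, hw, rfl⟩ := Set.mem_mul.mp hg
        have hwL : w ∈ L := by
          have : w = n⁻¹ * (n * w) := by group
          rw [this]; exact L.mul_mem (L.inv_mem (hNL hn)) hl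
        have e : (⟨n * w, hl⟩ : L) = ⟨n, hNL hn⟩ * ⟨w, hwL⟩ := rfl
        rw [e]
        exact (W.subgroupOf L ⊔ N.subgroupOf L).mul_mem
          (Subgroup.mem_sup_right (Subgroup.mem_subgroupOf.mpr hn))
          (Subgroup.mem_sup_left (Subgroup.mem_subgroupOf.mpr hw))
      refine ⟨?_, ?_, ?_⟩
      · rintro ⟨⟨x, hxL⟩, hxW⟩
        refine ⟨1, ?_⟩
        rw [Subgroup.mem_subgroupOf] at hxW
        have h3 : x ^ q ∈ W ⊓ N := Subgroup.mem_inf.mpr ⟨W.pow_mem hxW q, hpowN x hxL⟩
        rw [hWinf, Subgroup.mem_bot] at h3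
        apply Subtype.ext
        apply Subtype.ext
        simpa using h3
      · rw [index_eq_card_of_complement _ _ hinf' htop', card_subgroupOf_eq, inf_eq_left.mpr hNL]
        obtain ⟨k, hk⟩ := IsPGroup.iff_card.mp (isPGroup_of_pow_eq_one hNp)
        rw [hk]
        intro hdvd
        exact hqp ((Nat.prime_dvd_prime_iff_eq hq hp).mp (hq.dvd_of_dvd_pow hdvd))
      · intro hbot
        have h1 : W.subgroupOf L = ⊥ := by
          rw [Subgroup.subgroupOf_eq_bot, disjoint_iff, inf_comm]; exact hbot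
        rw [h1, bot_sup_eq, Subgroup.subgroupOf_eq_top] at htop'
        exact hNneL (le_antisymm hNL htop')
    obtain ⟨hU1, hU2, -⟩ := key U hUinf hUtop
    obtain ⟨hV1, hV2, hV3⟩ := key V hVinf hVtop
    obtain ⟨l, hl⟩ := MulAction.exists_smul_eq L (hU1.toSylow hU2) (hV1.toSylow hV2)
    have hl' : MulAut.conj l • U.subgroupOf L = V.subgroupOf L :=
      congrArg (fun S : Sylow q L => (S : Subgroup L)) hl
    refine ⟨(l : G), ?_⟩
    set U' := MulAut.conj (l : G) • U with hU'
    have hU'co : IsCoatom U' := by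
      have := (OrderIso.isCoatom_iff (MulEquiv.mapSubgroup (MulAut.conj (l : G))) U).mpr hU
      exact this
    have hQeq : L ⊓ V = L ⊓ U' := by
      ext x
      simp only [Subgroup.mem_inf]
      constructor
      · rintro ⟨hxL, hxV⟩
        refine ⟨hxL, ?_⟩
        have h1 : (⟨x, hxL⟩ : L) ∈ V.subgroupOf L := Subgroup.mem_subgroupOf.mpr hxV
        rw [← hl', mem_conj_smul, Subgroup.mem_subgroupOf] at h1
        rw [hU', mem_conj_smul]
        simpa using h1
      · rintro ⟨hxL, hxU⟩
        refine ⟨hxL, ?_⟩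
        rw [hU', mem_conj_smul] at hxU
        have h1 : (⟨x, hxL⟩ : L) ∈ MulAut.conj l • U.subgroupOf L := by
          rw [mem_conj_smul, Subgroup.mem_subgroupOf]
          simpa using hxU
        rw [hl', Subgroup.mem_subgroupOf] at h1
        exact h1
    have hnorm : ∀ W : Subgroup G, W ≤ Subgroup.normalizer ((L ⊓ W : Subgroup G) : Set G) := by
      intro W
      apply Cfsg.Agent.S0567.le_normalizer_of_conj_mem
      intro v hv x hx
      have hx' := Subgroup.mem_inf.mp hx
      exact Subgroup.mem_inf.mpr ⟨hLn.conj_mem x hx'.1 v, W.mul_mem (W.mul_mem hv hx'.2) (W.inv_mem hv)⟩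
    have hQnn : Subgroup.normalizer ((L ⊓ V : Subgroup G) : Set G) ≠ ⊤ := by
      intro htop
      haveI hQn : (L ⊓ V).Normal := Subgroup.normalizer_eq_top_iff.mp htop
      have : L ⊓ V ≤ V.normalCore := Subgroup.normal_le_normalCore.mpr inf_le_right
      rw [hVc] at this
      exact hV3 (le_bot_iff.mp this)
    have hVQ : V ≤ Subgroup.normalizer ((L ⊓ V : Subgroup G) : Set G) := hnorm V
    have hU'Q : U' ≤ Subgroup.normalizer ((L ⊓ V : Subgroup G) : Set G) := by
      rw [hQeq]; exact hnorm U'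
    have e1 : V = Subgroup.normalizer ((L ⊓ V : Subgroup G) : Set G) := by
      by_contra hne
      exact hQnn (hV.2 _ (lt_of_le_of_ne hVQ hne))
    have e2 : U' = Subgroup.normalizer ((L ⊓ V : Subgroup G) : Set G) := by
      by_contra hne
      exact hQnn (hU'co.2 _ (lt_of_le_of_ne hU'Q hne))
    rw [e2, ← e1]

/-- In a finite solvable group all core-free maximal subgroups are conjugate. -/
theorem result {G : Type*} [Group G] [Finite G] [Group.IsSolvable G] (U V : Subgroup G) (hU : IsCoatom U) (hV : IsCoatom V) (hUc : U.normalCore = ⊥) (hVc : V.normalCore = ⊥) : ∃ g : G, MulAut.conj g • U = V := by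
  exact aux_conj U V hU hV hUc hVc

end Cfsg.Agent.S0551
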