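import Mathlib
import Cfsg.Statements.S0568
import Cfsg.Agent.S0043
import Cfsg.Agent.S0545
import Cfsg.Agent.S0551
import Cfsg.Agent.Lib.Helper4.MinNormal
import Cfsg.Agent.Lib.Helper4.MaxSub

set_option autoImplicit false
open Cfsg

open scoped Pointwise commutatorElement

namespace Cfsg.Agent.S0568

universe u

open Cfsg.Agent.Lib.Helper4.HallSys Cfsg.Agent.Lib.Helper4.Conj Cfsg.Agent.Lib.Helper4.MinNormal
open Cfsg.Agent.Lib.Helper4.MaxSub

/-- a normal subgroup of order coprime to the index of `H` lies in `H` -/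
theorem normal_le_of_coprime {G : Type u} [Group G] [Finite G] (N H : Subgroup G) [N.Normal]
    (h : (Nat.card N).Coprime H.index) : N ≤ H := by
  rw [← Subgroup.relIndex_eq_one]
  have h1 : H.relIndex N ∣ H.index := Cfsg.Agent.S0542.relIndex_dvd_index_of_normal_right H N
  have h2 : H.relIndex N ∣ Nat.card N := Subgroup.relIndex_dvd_card H N
  exact Nat.eq_one_of_dvd_coprimes h h2 h1

/-- the system normalizer avoids a non-central minimal normal subgroup -/
theorem avoid_min_normal {G : Type u} [Group G] [Finite G] [Group.IsSolvable G]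
    (K : Nat.Primes → Subgroup G) (hK : Cfsg.IsComplementSystem K) (B : Subgroup G)
    [hBn : B.Normal] (hBne : B ≠ ⊥)
    (hmin : ∀ M : Subgroup G, M.Normal → M ≤ B → M = ⊥ ∨ M = B)
    (hnc : ¬ B ≤ Subgroup.center G) : B ⊓ Cfsg.systemNormalizer K = ⊥ := by
  classical
  obtain ⟨hBab, r, hr, hBexp⟩ := Cfsg.Agent.S0043.result B hBne hmin
  haveI : Fact r.Prime := ⟨hr⟩
  have hBp : IsPGroup r B := isPGroup_of_pow_eq_one hBexp
  obtain ⟨C, hC⟩ : ∃ C, C = Subgroup.centralizer (B : Set G) := ⟨_, rfl⟩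
  haveI hCn : C.Normal := by rw [hC]; infer_instance
  have hCtop : C ≠ ⊤ := by
    intro h
    apply hnc
    intro b hb
    rw [Subgroup.mem_center_iff]
    intro g
    have hg : g ∈ C := by rw [h]; exact Subgroup.mem_top g
    rw [hC] at hg
    exact (Subgroup.mem_centralizer_iff.mp hg b hb).symm
  haveI : Nontrivial (G ⧸ C) := by
    rw [← Finite.one_lt_card_iff_nontrivial]
    have h1 : C.index ≠ 1 := fun h => hCtop (Subgroup.index_eq_one.mp h)
    have hpos : 0 < C.index := Nat.pos_of_ne_zero Subgroup.index_ne_zero_of_finite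
    show 1 < C.index
    omega
  obtain ⟨Rb, hRb⟩ := exists_minNormal (G := G ⧸ C)
  obtain ⟨hRbn, hRbne, hRbmin⟩ := hRb
  haveI := hRbn
  obtain ⟨-, q, hq, hRbexp⟩ := Cfsg.Agent.S0043.result Rb hRbne hRbmin
  haveI : Fact q.Prime := ⟨hq⟩
  have hRbp : IsPGroup q Rb := isPGroup_of_pow_eq_one hRbexp
  have hπs : Function.Surjective (QuotientGroup.mk' C) := QuotientGroup.mk'_surjective C
  obtain ⟨R, hR⟩ : ∃ R, R = Rb.comap (QuotientGroup.mk' C) := ⟨_, rfl⟩
  haveI hRn : R.Normal := by rw [hR]; exact hRbn.comap _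
  have hRC : ¬ R ≤ C := by
    intro h
    apply hRbne
    rw [eq_bot_iff]
    intro y hy
    obtain ⟨x, rfl⟩ := hπs y
    have hx : x ∈ R := by rw [hR]; exact hy
    rw [Subgroup.mem_bot]
    exact (QuotientGroup.eq_one_iff x).mpr (h hx)
  obtain ⟨E, hE⟩ : ∃ E, E = B ⊓ Subgroup.centralizer (R : Set G) := ⟨_, rfl⟩
  have hEn : E.Normal := by rw [hE]; infer_instance
  have hEB : E ≠ B := by
    intro h
    apply hRC
    intro x hx
    rw [hC, Subgroup.mem_centralizer_iff]
    intro b hb
    have hb' : b ∈ E := by rw [h]; exact hb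
    rw [hE] at hb'
    exact (Subgroup.mem_centralizer_iff.mp (Subgroup.mem_inf.mp hb').2 x hx).symm
  have hEbot : E = ⊥ := by
    rcases hmin E hEn (by rw [hE]; exact inf_le_left) with h | h
    · exact h
    · exact absurd h hEB
  have hqr : q ≠ r := by
    intro hqr
    rw [hqr] at hRbp
    obtain ⟨S⟩ : Nonempty (Sylow r R) := inferInstance
    obtain ⟨SG, hSG⟩ : ∃ SG, SG = (S : Subgroup R).map R.subtype := ⟨_, rfl⟩
    have hSGp : IsPGroup r SG := by rw [hSG]; exact S.isPGroup'.map _
    have hTp : IsPGroup r ↥(SG ⊔ B) := hSGp.to_sup_of_normal_right hBp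
    obtain ⟨T, hT⟩ : ∃ T, T = SG ⊔ B := ⟨_, rfl⟩
    rw [← hT] at hTp
    have hBT : B ≤ T := hT ▸ le_sup_right
    have hST : SG ≤ T := hT ▸ le_sup_left
    haveI : (B.subgroupOf T).Normal := hBn.subgroupOf T
    have hBTne : B.subgroupOf T ≠ ⊥ := by
      intro h
      apply hBne
      rw [eq_bot_iff]
      intro b hb
      have h1 : (⟨b, hBT hb⟩ : T) ∈ B.subgroupOf T := Subgroup.mem_subgroupOf.mpr hb
      rw [h, Subgroup.mem_bot] at h1
      rw [Subgroup.mem_bot]
      exact congrArg Subtype.val h1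
    obtain ⟨z, hz, hz1, hzc⟩ :=
      Cfsg.Agent.S0551.exists_central_mem_of_normal hTp (B.subgroupOf T) hBTne
    have hzB : (z : G) ∈ B := Subgroup.mem_subgroupOf.mp hz
    have hzS : ∀ s ∈ SG, s * (z : G) = (z : G) * s := by
      intro s hs
      exact congrArg Subtype.val (hzc ⟨s, hST hs⟩)
    have hcop : (SG.relIndex R).Coprime (C.relIndex R) := by
      have h1 : SG.relIndex R = (S : Subgroup R).index := by
        have h0 : SG.subgroupOf R = (S : Subgroup R) := by
          rw [hSG]; exact Subgroup.comap_map_eq_self_of_injective R.subtype_injective _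
        rw [Subgroup.relIndex, h0]
      have h2 : C.relIndex R = Nat.card Rb := by
        have e1 : (⊥ : Subgroup (G ⧸ C)).comap (QuotientGroup.mk' C) = C := by
          rw [MonoidHom.comap_bot, QuotientGroup.ker_mk']
        have e2 : R.map (QuotientGroup.mk' C) = Rb := by
          rw [hR]; exact Subgroup.map_comap_eq_self_of_surjective hπs Rb
        have e3 : ((⊥ : Subgroup (G ⧸ C)).comap (QuotientGroup.mk' C)).relIndex R =
            Nat.card Rb := by
          rw [Subgroup.relIndex_comap, e2, Subgroup.relIndex_bot_left]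
        rw [e1] at e3
        exact e3
      rw [h1, h2]
      obtain ⟨k, hk⟩ := IsPGroup.iff_card.mp hRbp
      rw [hk]
      exact Nat.Coprime.pow_right _ ((Nat.Prime.coprime_iff_not_dvd hr).mpr S.not_dvd_index).symm
    have hzR : (z : G) ∈ Subgroup.centralizer (R : Set G) := by
      rw [Subgroup.mem_centralizer_iff]
      intro x hx
      obtain ⟨s, hs, c, hc, rfl⟩ := exists_mul_of_coprime_relIndex R SG C hcop hx
      have h1 := hzS s hs
      have h2 : (z : G) * c = c * (z : G) := by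
        rw [hC] at hc
        exact Subgroup.mem_centralizer_iff.mp hc _ hzB
      calc s * c * (z : G) = s * ((z : G) * c) := by rw [h2]; group
        _ = (s * (z : G)) * c := by group
        _ = (z : G) * (s * c) := by rw [h1]; group
    have hzE : (z : G) ∈ E := by rw [hE]; exact Subgroup.mem_inf.mpr ⟨hzB, hzR⟩
    rw [hEbot, Subgroup.mem_bot] at hzE
    exact hz1 (Subtype.ext hzE)
  obtain ⟨r', hr'⟩ : ∃ r' : Nat.Primes, (r' : ℕ) = r := ⟨⟨r, hr⟩, rfl⟩
  have hKb := Cfsg.Agent.S0545.map_complementSystem K hK C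
  have hRbK : Rb ≤ (K r').map (QuotientGroup.mk' C) := by
    apply normal_le_of_coprime
    have h1 : ((K r').map (QuotientGroup.mk' C)).index = _ := hKb r'
    rw [h1, hr']
    obtain ⟨k, hk⟩ := IsPGroup.iff_card.mp hRbp
    rw [hk]
    exact Nat.Coprime.pow _ _ ((Nat.coprime_primes hq hr).mpr hqr)
  have hRK : R ≤ K r' ⊔ C := by
    intro x hx
    rw [hR] at hx
    have h1 : (QuotientGroup.mk' C) x ∈ (K r').map (QuotientGroup.mk' C) := hRbK hx
    have h2 : x ∈ ((K r').map (QuotientGroup.mk' C)).comap (QuotientGroup.mk' C) := h1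
    rw [Subgroup.comap_map_eq, QuotientGroup.ker_mk'] at h2
    exact h2
  rw [eq_bot_iff, ← hEbot]
  intro b hb
  obtain ⟨hbB, hbD⟩ := Subgroup.mem_inf.mp hb
  rw [hE]
  refine Subgroup.mem_inf.mpr ⟨hbB, ?_⟩
  have hbN : b ∈ Subgroup.normalizer ((K r' : Subgroup G) : Set G) := by
    rw [Cfsg.systemNormalizer, Subgroup.mem_iInf] at hbD
    exact hbD r'
  have hBK : B ⊓ K r' = ⊥ := by
    apply disjoint_iff.mp
    apply Subgroup.disjoint_of_coprime_natCard
    obtain ⟨k, hk⟩ := IsPGroup.iff_card.mp hBp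
    rw [hk]
    apply Nat.Coprime.pow_left
    rw [Nat.Prime.coprime_iff_not_dvd hr, ← hr']
    exact Cfsg.Agent.S0545.not_dvd_card hK r'
  have hbK : ∀ k ∈ K r', k * b = b * k := by
    intro k hk
    have h1 : b * k * b⁻¹ ∈ K r' := (Subgroup.mem_normalizer_iff.mp hbN k).mp hk
    have h2 : b * k * b⁻¹ * k⁻¹ ∈ K r' := Subgroup.mul_mem _ h1 (Subgroup.inv_mem _ hk)
    have h3 : b * k * b⁻¹ * k⁻¹ ∈ B := by
      have e : b * k * b⁻¹ * k⁻¹ = b * (k * b⁻¹ * k⁻¹) := by group
      rw [e]; exact B.mul_mem hbB (hBn.conj_mem _ (B.inv_mem hbB) k)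
    have h4 : b * k * b⁻¹ * k⁻¹ ∈ B ⊓ K r' := Subgroup.mem_inf.mpr ⟨h3, h2⟩
    rw [hBK, Subgroup.mem_bot] at h4
    calc k * b = (b * k * b⁻¹ * k⁻¹)⁻¹ * (b * k) := by group
      _ = b * k := by rw [h4, inv_one, one_mul]
  rw [Subgroup.mem_centralizer_iff]
  intro x hx
  have hx' := hRK hx
  rw [← SetLike.mem_coe, Subgroup.mul_normal] at hx'
  obtain ⟨k, hk, c, hc, rfl⟩ := Set.mem_mul.mp hx'
  have h1 := hbK k hk
  have h2 : b * c = c * b := by
    rw [hC] at hc
    exact Subgroup.mem_centralizer_iff.mp hc b hbB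
  calc k * c * b = k * (b * c) := by rw [h2]; group
    _ = (k * b) * c := by group
    _ = b * (k * c) := by rw [h1]; group

theorem main {G : Type u} [Group G] [Finite G] [Group.IsSolvable G] (K : Nat.Primes → Subgroup G)
    (hK : Cfsg.IsComplementSystem K) (A B : Subgroup G) [hAn : A.Normal] [hBn : B.Normal]
    (hAB : A < B) (hchief : ∀ N : Subgroup G, N.Normal → A ≤ N → N ≤ B → N = A ∨ N = B) :
    (⁅B, (⊤ : Subgroup G)⁆ ≤ A → B ≤ A ⊔ Cfsg.systemNormalizer K) ∧
    (¬ ⁅B, (⊤ : Subgroup G)⁆ ≤ A → B ⊓ Cfsg.systemNormalizer K ≤ A) := by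
  have hs : Function.Surjective (QuotientGroup.mk' A) := QuotientGroup.mk'_surjective A
  have hsys := Cfsg.Agent.S0545.systemNormalizer_map K hK A
  have hKb := Cfsg.Agent.S0545.map_complementSystem K hK A
  have hker : ∀ x y : G, (QuotientGroup.mk' A) x = (QuotientGroup.mk' A) y → x⁻¹ * y ∈ A := by
    intro x y hxy
    rw [← QuotientGroup.eq_one_iff]
    show (QuotientGroup.mk' A) (x⁻¹ * y) = 1
    rw [map_mul, map_inv, hxy, inv_mul_cancel]
  constructor
  · intro hcent x hx
    have h1 : (QuotientGroup.mk' A) x ∈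
        Cfsg.systemNormalizer (fun p => (K p).map (QuotientGroup.mk' A)) := by
      rw [Cfsg.systemNormalizer, Subgroup.mem_iInf]
      intro p
      rw [Subgroup.mem_normalizer_iff]
      intro h
      obtain ⟨g, rfl⟩ := hs h
      have hc : ⁅x, g⁆ ∈ A := hcent (Subgroup.commutator_mem_commutator hx (Subgroup.mem_top g))
      have h2 : (QuotientGroup.mk' A) ⁅x, g⁆ = 1 := (QuotientGroup.eq_one_iff _).mpr hc
      rw [map_commutatorElement, commutatorElement_eq_one_iff_mul_comm] at h2
      have e : (QuotientGroup.mk' A) x * (QuotientGroup.mk' A) g * ((QuotientGroup.mk' A) x)⁻¹ =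
          (QuotientGroup.mk' A) g := by rw [h2]; group
      rw [e]
    rw [hsys] at h1
    obtain ⟨d, hd, hde⟩ := h1
    have h3 : d⁻¹ * x ∈ A := hker d x hde
    have e : x = d * (d⁻¹ * x) := by group
    rw [e]
    exact Subgroup.mul_mem _ (Subgroup.mem_sup_right hd) (Subgroup.mem_sup_left h3)
  · intro hecc
    obtain ⟨Bb, hBb⟩ : ∃ Bb, Bb = B.map (QuotientGroup.mk' A) := ⟨_, rfl⟩
    haveI hBbn : Bb.Normal := by rw [hBb]; exact Subgroup.Normal.map hBn _ hs
    have hBbne : Bb ≠ ⊥ := by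
      intro h
      rw [hBb] at h
      have h1 := (Subgroup.map_eq_bot_iff B).mp h
      rw [QuotientGroup.ker_mk'] at h1
      exact (not_le_of_gt hAB) h1
    have hBbmin : ∀ M : Subgroup (G ⧸ A), M.Normal → M ≤ Bb → M = ⊥ ∨ M = Bb := by
      intro M hM hMB
      have hcomap : (M.comap (QuotientGroup.mk' A)).Normal := hM.comap _
      have hA_le : A ≤ M.comap (QuotientGroup.mk' A) := by
        intro a ha
        rw [Subgroup.mem_comap]
        have h1 : (QuotientGroup.mk' A) a = 1 := (QuotientGroup.eq_one_iff a).mpr ha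
        rw [h1]; exact M.one_mem
      have hle : M.comap (QuotientGroup.mk' A) ≤ B := by
        intro x hx
        have h1 : (QuotientGroup.mk' A) x ∈ Bb := hMB hx
        rw [hBb] at h1
        obtain ⟨b, hb, hbe⟩ := h1
        have h3 : b⁻¹ * x ∈ A := hker b x hbe
        have e : x = b * (b⁻¹ * x) := by group
        rw [e]; exact B.mul_mem hb (hAB.le h3)
      have hmap : (M.comap (QuotientGroup.mk' A)).map (QuotientGroup.mk' A) = M :=
        Subgroup.map_comap_eq_self_of_surjective hs M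
      rcases hchief _ hcomap hA_le hle with h | h
      · left
        rw [← hmap, h, Subgroup.map_eq_bot_iff, QuotientGroup.ker_mk']
      · right
        rw [← hmap, h, hBb]
    have hBbnc : ¬ Bb ≤ Subgroup.center (G ⧸ A) := by
      intro hcen
      apply hecc
      rw [Subgroup.commutator_le]
      intro b hb g _
      rw [← QuotientGroup.eq_one_iff]
      show (QuotientGroup.mk' A) ⁅b, g⁆ = 1
      rw [map_commutatorElement, commutatorElement_eq_one_iff_mul_comm]
      have hb' : (QuotientGroup.mk' A) b ∈ Bb := by rw [hBb]; exact Subgroup.mem_map_of_mem _ hb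
      exact (Subgroup.mem_center_iff.mp (hcen hb') ((QuotientGroup.mk' A) g)).symm
    have hav := avoid_min_normal (fun p => (K p).map (QuotientGroup.mk' A)) hKb Bb hBbne
      hBbmin hBbnc
    rw [hsys] at hav
    intro x hx
    obtain ⟨hxB, hxD⟩ := Subgroup.mem_inf.mp hx
    have h1 : (QuotientGroup.mk' A) x ∈ Bb ⊓ (Cfsg.systemNormalizer K).map (QuotientGroup.mk' A) :=
      Subgroup.mem_inf.mpr ⟨by rw [hBb]; exact Subgroup.mem_map_of_mem _ hxB,
        Subgroup.mem_map_of_mem _ hxD⟩
    rw [hav, Subgroup.mem_bot] at h1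
    exact (QuotientGroup.eq_one_iff x).mp h1

/-- Let D be the system normalizer of a Hall complement system of a finite solvable group G, and let A < B be normal subgroups with no normal subgroup of G strictly between them (a chief factor). If G centralizes B modulo A then B ≤ A ⊔ D (D covers the factor); otherwise B ∩ D ≤ A (D avoids it). -/
theorem result {G : Type*} [Group G] [Finite G] [Group.IsSolvable G] (K : Nat.Primes → Subgroup G) (hK : Cfsg.IsComplementSystem K) (A B : Subgroup G) [A.Normal] [B.Normal] (hAB : A < B) (hchief : ∀ N : Subgroup G, N.Normal → A ≤ N → N ≤ B → N = A ∨ N = B) : (⁅B, (⊤ : Subgroup G)⁆ ≤ A → B ≤ A ⊔ Cfsg.systemNormalizer K) ∧ (¬ ⁅B, (⊤ : Subgroup G)⁆ ≤ A → B ⊓ Cfsg.systemNormalizer K ≤ A) := by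
  exact main K hK A B hAB hchief

end Cfsg.Agent.S0568
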