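import Cfsg.Statements.S0711
import Mathlib

set_option autoImplicit false
open Cfsg

namespace Cfsg.Agent.S0711

open Equiv MulAction

/-- Points fixed by the commutator `g⁻¹ * (x * g * x⁻¹)`. -/
theorem comm_fix {α : Type*} [Fintype α] [DecidableEq α] (g x : Perm α) (R : Finset α)
    (hx : ∀ u ∈ g.support \ R, x u = u)
    (y : α) (hy1 : y ∉ R) (hy2 : y ∉ R.image x) (hy3 : g y ∉ R) :
    (g⁻¹ * (x * g * x⁻¹)) y = y := by
  simp only [Perm.mul_apply]
  by_cases hyS : y ∈ g.support
  · have hyU : y ∈ g.support \ R := Finset.mem_sdiff.2 ⟨hyS, hy1⟩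
    have h1 : x⁻¹ y = y := by
      rw [Perm.inv_eq_iff_eq]
      exact (hx y hyU).symm
    have hgy : g y ∈ g.support \ R :=
      Finset.mem_sdiff.2 ⟨Perm.apply_mem_support.2 hyS, hy3⟩
    rw [h1, hx _ hgy]
    simp
  · have h1 : x⁻¹ y ∉ g.support := by
      intro h
      by_cases h2 : x⁻¹ y ∈ R
      · exact hy2 (Finset.mem_image.2 ⟨x⁻¹ y, h2, by simp⟩)
      · have h3 := hx _ (Finset.mem_sdiff.2 ⟨h, h2⟩)
        have h4 : x (x⁻¹ y) = y := by simp
        rw [h4] at h3
        rw [← h3] at h
        exact hyS h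
    have h2 : g (x⁻¹ y) = x⁻¹ y := by
      simpa using h1
    have h4 : x (x⁻¹ y) = y := by simp
    rw [h2, h4, Perm.inv_eq_iff_eq]
    have h3 : g y = y := by simpa using hyS
    exact h3.symm

/-- The support bound. -/
theorem comm_card {α : Type*} [Fintype α] [DecidableEq α] (g x : Perm α) (R : Finset α)
    (hR : R ⊆ g.support) (hx : ∀ u ∈ g.support \ R, x u = u) :
    (g⁻¹ * (x * g * x⁻¹)).support.card ≤ (R ∪ R.image x).card + ((R.image g) \ R).card := by
  classical
  have hsub : (g⁻¹ * (x * g * x⁻¹)).support ⊆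
      (R ∪ R.image x) ∪ (g.support \ R).filter (fun y => g y ∈ R) := by
    intro y hy
    rw [Perm.mem_support] at hy
    by_contra hcon
    rw [Finset.mem_union, Finset.mem_union, Finset.mem_filter] at hcon
    push Not at hcon
    obtain ⟨⟨hy1, hy2⟩, hy3⟩ := hcon
    by_cases hy4 : g y ∈ R
    · have hyS : y ∈ g.support := by
        by_contra h
        have h3 : g y = y := by simpa using h
        rw [h3] at hy4
        exact hy1 hy4
      exact hy3 (Finset.mem_sdiff.2 ⟨hyS, hy1⟩) hy4
    · exact hy (comm_fix g x R hx y hy1 hy2 hy4)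
  have hD : ((g.support \ R).filter (fun y => g y ∈ R)).card ≤ (R \ R.image g).card := by
    apply Finset.card_le_card_of_injOn g
    · intro y hy
      have hy' := Finset.mem_filter.1 (Finset.mem_coe.1 hy)
      have hy'' := Finset.mem_sdiff.1 hy'.1
      apply Finset.mem_coe.2
      rw [Finset.mem_sdiff]
      refine ⟨hy'.2, ?_⟩
      intro h
      obtain ⟨u, hu, hgu⟩ := Finset.mem_image.1 h
      have : u = y := g.injective hgu
      rw [this] at hu
      exact hy''.2 hu
    · intro a _ b _ hab
      exact g.injective hab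
  have h1 : (R \ R.image g).card = ((R.image g) \ R).card := by
    have e1 := Finset.card_sdiff_add_card_inter R (R.image g)
    have e2 := Finset.card_sdiff_add_card_inter (R.image g) R
    rw [Finset.card_image_of_injective _ g.injective, Finset.inter_comm] at e2
    omega
  calc (g⁻¹ * (x * g * x⁻¹)).support.card
      ≤ ((R ∪ R.image x) ∪ (g.support \ R).filter (fun y => g y ∈ R)).card :=
        Finset.card_le_card hsub
    _ ≤ (R ∪ R.image x).card + ((g.support \ R).filter (fun y => g y ∈ R)).card :=
        Finset.card_union_le _ _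
    _ ≤ (R ∪ R.image x).card + ((R.image g) \ R).card := by omega

/-- Nearly invariant subsets of the support of every size. -/
theorem exists_seg {α : Type*} [Fintype α] [DecidableEq α] (g : Perm α) (r : ℕ)
    (hr : r ≤ g.support.card) :
    ∃ R : Finset α, R ⊆ g.support ∧ R.card = r ∧ ((R.image g) \ R).card ≤ 1 := by
  induction r with
  | zero => exact ⟨∅, by simp, by simp, by simp⟩
  | succ r ih =>
    obtain ⟨R, hRS, hRc, hR1⟩ := ih (by omega)
    have hw : ∃ w, w ∈ g.support ∧ w ∉ R ∧ ∀ u ∈ R, g u ∉ R → g u = w := by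
      by_cases hinv : (R.image g) \ R = ∅
      · have hne : (g.support \ R).Nonempty := by
          rw [← Finset.card_pos, Finset.card_sdiff_of_subset hRS]
          omega
        obtain ⟨w, hw⟩ := hne
        rw [Finset.mem_sdiff] at hw
        refine ⟨w, hw.1, hw.2, ?_⟩
        intro u hu hgu
        exfalso
        have : g u ∈ (R.image g) \ R :=
          Finset.mem_sdiff.2 ⟨Finset.mem_image_of_mem g hu, hgu⟩
        rw [hinv] at this
        simp at this
      · obtain ⟨w, hw⟩ := Finset.nonempty_iff_ne_empty.2 hinv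
        have hw' := Finset.mem_sdiff.1 hw
        obtain ⟨u₀, hu₀, hgu₀⟩ := Finset.mem_image.1 hw'.1
        refine ⟨w, ?_, hw'.2, ?_⟩
        · rw [← hgu₀]
          exact Perm.apply_mem_support.2 (hRS hu₀)
        · intro u hu hgu
          have : g u ∈ (R.image g) \ R :=
            Finset.mem_sdiff.2 ⟨Finset.mem_image_of_mem g hu, hgu⟩
          exact Finset.card_le_one.1 hR1 _ this _ hw
    obtain ⟨w, hwS, hwR, hwu⟩ := hw
    refine ⟨insert w R, ?_, ?_, ?_⟩
    · exact Finset.insert_subset hwS hRS
    · rw [Finset.card_insert_of_notMem hwR, hRc]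
    · apply (Finset.card_le_card
        (?_ : (insert w R).image g \ insert w R ⊆ ({g w} : Finset α))).trans (by simp)
      intro y hy
      rw [Finset.mem_sdiff, Finset.mem_image] at hy
      obtain ⟨⟨u, hu, rfl⟩, hy2⟩ := hy
      rw [Finset.mem_insert] at hu
      rcases hu with rfl | hu
      · simp
      · exfalso
        apply hy2
        by_cases hgu : g u ∈ R
        · exact Finset.mem_insert_of_mem hgu
        · rw [hwu u hu hgu]
          exact Finset.mem_insert_self _ _

/-- Transitivity of pointwise stabilisers. -/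
theorem exists_fix {α : Type*} [Fintype α] [DecidableEq α] (G : Subgroup (Perm α)) {k : ℕ}
    (hkn : k ≤ Fintype.card α) (hG : IsMultiplyPretransitive G α k) (U : Finset α)
    (hU : U.card + 1 ≤ k) (b₀ b₁ : α) (h0 : b₀ ∉ U) (h1 : b₁ ∉ U) :
    ∃ x ∈ G, (∀ u ∈ U, x u = u) ∧ x b₀ = b₁ := by
  have h1' : IsMultiplyPretransitive G α (U.card + 1) :=
    isMultiplyPretransitive_of_le hU (by simpa using hkn)
  have h2 : IsMultiplyPretransitive (fixingSubgroup G (U : Set α))
      (SubMulAction.ofFixingSubgroup G (U : Set α)) 1 :=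
    SubMulAction.ofFixingSubgroup.isMultiplyPretransitive G (U : Set α)
      (by rw [Set.ncard_coe_finset])
  rw [is_one_pretransitive_iff] at h2
  obtain ⟨x, hx⟩ := h2.exists_smul_eq
    (⟨b₀, by rw [SubMulAction.mem_ofFixingSubgroup_iff]; simpa using h0⟩ :
      SubMulAction.ofFixingSubgroup G (U : Set α))
    ⟨b₁, by rw [SubMulAction.mem_ofFixingSubgroup_iff]; simpa using h1⟩
  refine ⟨x.1.1, x.1.2, ?_, ?_⟩
  · intro u hu
    have h3 := x.2
    rw [mem_fixingSubgroup_iff] at h3
    exact h3 u (by simpa using hu)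
  · exact congrArg Subtype.val hx

/-- A `k`-transitive permutation group (`k ≥ 3`) with a non-identity element of support smaller than `2k - 2` contains a non-identity element of support at most 3, and therefore contains the alternating group. -/
theorem result {α : Type*} [Fintype α] [DecidableEq α] (G : Subgroup (Equiv.Perm α)) {k : ℕ} (hk : 3 ≤ k) (hkn : k ≤ Fintype.card α) (hG : MulAction.IsMultiplyPretransitive G α k) (g : Equiv.Perm α) (hg : g ∈ G) (hg1 : g ≠ 1) (hsupp : g.support.card < 2 * k - 2) : (∃ h : Equiv.Perm α, h ∈ G ∧ h ≠ 1 ∧ h.support.card ≤ 3) ∧ alternatingGroup α ≤ G := by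
  classical
  have hprim : IsPreprimitive G α :=
    isPreprimitive_of_is_two_pretransitive
      (isMultiplyPretransitive_of_le (n := k) (by omega) (by simpa using hkn))
  -- a non-identity element of minimal support
  obtain ⟨g₀, hg₀, hmin⟩ := Finset.exists_min_image
    (Finset.univ.filter (fun h : Perm α => h ∈ G ∧ h ≠ 1)) (fun h => h.support.card)
    ⟨g, by simp [hg, hg1]⟩
  rw [Finset.mem_filter] at hg₀
  obtain ⟨-, hg₀G, hg₀1⟩ := hg₀
  have hmin' : ∀ h ∈ G, h ≠ 1 → g₀.support.card ≤ h.support.card := by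
    intro h hh hh1
    exact hmin h (by simp [hh, hh1])
  have hm : g₀.support.card < 2 * k - 2 := lt_of_le_of_lt (hmin' g hg hg1) hsupp
  have h3 : g₀.support.card ≤ 3 := by
    by_contra hcon
    push Not at hcon
    -- the support is not everything
    have hmn : g₀.support.card < Fintype.card α := by
      obtain ⟨U₀, -, hU₀⟩ := Finset.exists_subset_card_eq
        (s := (Finset.univ : Finset α)) (n := k - 2) (by rw [Finset.card_univ]; omega)
      have hc : 1 < U₀ᶜ.card := by
        rw [Finset.card_compl, hU₀]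
        omega
      obtain ⟨a, ha, b, hb, hab⟩ := Finset.one_lt_card.1 hc
      rw [Finset.mem_compl] at ha hb
      obtain ⟨x, hxG, hxU, hxa⟩ := exists_fix G hkn hG U₀ (by omega) a b ha hb
      have hx1 : x ≠ 1 := by
        intro h
        rw [h] at hxa
        exact hab hxa
      have h4 : x.support ⊆ U₀ᶜ := by
        intro y hy
        rw [Finset.mem_compl]
        intro hyU
        rw [Perm.mem_support] at hy
        exact hy (hxU y hyU)
      have h5 := Finset.card_le_card h4
      rw [Finset.card_compl, hU₀] at h5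
      have h6 := hmin' x hxG hx1
      omega
    obtain ⟨z, hz⟩ : ∃ z, z ∉ g₀.support := by
      by_contra h
      push Not at h
      have : g₀.support = Finset.univ := Finset.eq_univ_iff_forall.2 h
      rw [this, Finset.card_univ] at hmn
      exact lt_irrefl _ hmn
    suffices hc : ∃ c ∈ G, c ≠ 1 ∧ c.support.card < g₀.support.card by
      obtain ⟨c, hcG, hc1, hclt⟩ := hc
      have := hmin' c hcG hc1
      omega
    -- the size of the moving part
    obtain ⟨r, hr1, hrm, hrk, hr2⟩ : ∃ r : ℕ, 1 ≤ r ∧ r ≤ g₀.support.card ∧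
        g₀.support.card - r + 1 ≤ k ∧ 2 * r < g₀.support.card := by
      by_cases hmk : g₀.support.card ≤ k
      · exact ⟨1, le_refl _, by omega, by omega, by omega⟩
      · exact ⟨g₀.support.card - k + 1, by omega, by omega, by omega, by omega⟩
    obtain ⟨R, hRS, hRc, hR1⟩ := exists_seg g₀ r hrm
    have hUc : (g₀.support \ R).card + 1 ≤ k := by
      rw [Finset.card_sdiff_of_subset hRS, hRc]
      exact hrk
    have hcG : ∀ x ∈ G, g₀⁻¹ * (x * g₀ * x⁻¹) ∈ G := fun x hx =>
      G.mul_mem (G.inv_mem hg₀G) (G.mul_mem (G.mul_mem hx hg₀G) (G.inv_mem hx))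
    have hximg : ∀ x : Perm α, (R.image x).card = r := by
      intro x
      rw [Finset.card_image_of_injective _ x.injective, hRc]
    by_cases hcase : (R.image g₀) \ R = ∅ ∨ 2 * r + 1 < g₀.support.card
    · -- move a point of `R` outside the support
      obtain ⟨b₀, hb₀⟩ : R.Nonempty := by
        rw [← Finset.card_pos]
        omega
      have hb₀U : b₀ ∉ g₀.support \ R := by
        rw [Finset.mem_sdiff]
        exact fun h => h.2 hb₀
      have hzU : z ∉ g₀.support \ R := by
        rw [Finset.mem_sdiff]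
        exact fun h => hz h.1
      obtain ⟨x, hxG, hxU, hxb⟩ := exists_fix G hkn hG (g₀.support \ R) hUc b₀ z hb₀U hzU
      refine ⟨g₀⁻¹ * (x * g₀ * x⁻¹), hcG x hxG, ?_, ?_⟩
      · intro h1
        have h2 : (g₀⁻¹ * (x * g₀ * x⁻¹)) z = z := by rw [h1]; rfl
        simp only [Perm.mul_apply] at h2
        rw [Perm.inv_eq_iff_eq] at h2
        have h3 : x⁻¹ z = b₀ := by
          rw [Perm.inv_eq_iff_eq]
          exact hxb.symm
        rw [h3] at h2
        have h4 : g₀ z = z := by simpa using hz
        rw [h4, ← hxb] at h2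
        have h5 : g₀ b₀ = b₀ := x.injective h2
        have h6 : b₀ ∈ g₀.support := hRS hb₀
        rw [Perm.mem_support] at h6
        exact h6 h5
      · have h1 := comm_card g₀ x R hRS hxU
        have h2 : (R ∪ R.image x).card ≤ 2 * r := by
          have := Finset.card_union_le R (R.image x)
          rw [hximg x, hRc] at this
          omega
        rcases hcase with h | h
        · rw [h, Finset.card_empty] at h1
          omega
        · omega
    · -- move a point of `R` inside `R`
      push Not at hcase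
      obtain ⟨hne, hr3⟩ := hcase
      obtain ⟨w, hw⟩ := hne
      obtain ⟨hw1, hw2⟩ := Finset.mem_sdiff.1 hw
      obtain ⟨b₀, hb₀, hgb₀⟩ := Finset.mem_image.1 hw1
      have hr4 : 1 < R.card := by omega
      obtain ⟨b₁, hb₁, hb₁₀⟩ := Finset.exists_mem_ne hr4 b₀
      have hb₀U : b₀ ∉ g₀.support \ R := by
        rw [Finset.mem_sdiff]
        exact fun h => h.2 hb₀
      have hb₁U : b₁ ∉ g₀.support \ R := by
        rw [Finset.mem_sdiff]
        exact fun h => h.2 hb₁
      obtain ⟨x, hxG, hxU, hxb⟩ := exists_fix G hkn hG (g₀.support \ R) hUc b₀ b₁ hb₀U hb₁U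
      refine ⟨g₀⁻¹ * (x * g₀ * x⁻¹), hcG x hxG, ?_, ?_⟩
      · intro h1
        have h2 : (g₀⁻¹ * (x * g₀ * x⁻¹)) b₁ = b₁ := by rw [h1]; rfl
        simp only [Perm.mul_apply] at h2
        have h3 : x⁻¹ b₁ = b₀ := by
          rw [Perm.inv_eq_iff_eq]
          exact hxb.symm
        have h4 : g₀ b₀ ∈ g₀.support \ R := by
          rw [hgb₀]
          refine Finset.mem_sdiff.2 ⟨?_, hw2⟩
          rw [← hgb₀]
          exact Perm.apply_mem_support.2 (hRS hb₀)
        rw [h3, hxU _ h4] at h2
        simp at h2
        exact hb₁₀ h2.symm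
      · have h1 := comm_card g₀ x R hRS hxU
        have h2 : (R ∪ R.image x).card + 1 ≤ 2 * r := by
          have e := Finset.card_union_add_card_inter R (R.image x)
          rw [hximg x, hRc] at e
          have h5 : 0 < (R ∩ R.image x).card := by
            rw [Finset.card_pos]
            refine ⟨b₁, Finset.mem_inter.2 ⟨hb₁, ?_⟩⟩
            rw [← hxb]
            exact Finset.mem_image_of_mem x hb₀
          omega
        omega
  refine ⟨⟨g₀, hg₀G, hg₀1, h3⟩, ?_⟩
  have h0 : g₀.support.card ≠ 0 := by
    rw [Ne, Finset.card_eq_zero, Perm.support_eq_empty_iff]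
    exact hg₀1
  have h1 := Perm.card_support_ne_one g₀
  have h23 : g₀.support.card = 2 ∨ g₀.support.card = 3 := by omega
  rcases h23 with h2 | h3'
  · have hswap := Perm.card_support_eq_two.1 h2
    rw [Equiv.Perm.subgroup_eq_top_of_isPreprimitive_of_isSwap_mem hprim g₀ hswap hg₀G]
    exact le_top
  · have h3c := card_support_eq_three_iff.1 h3'
    exact Equiv.Perm.alternatingGroup_le_of_isPreprimitive_of_isThreeCycle_mem hprim h3c hg₀G

end Cfsg.Agent.S0711
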