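import Cfsg.Statements.S0698
import Mathlib
import Cfsg.Agent.Lib.Helper5.Jordan
import Cfsg.Agent.S0711

set_option autoImplicit false
open Cfsg

namespace Cfsg.Agent.S0698

open Cfsg.Agent.Lib.Helper5.Jordan

/-- Jordan's Theorem on normal subgroups of multiply transitive groups: if `G` is `k`-transitive (`k > 1`) of degree greater than `k`, a non-trivial normal subgroup is `(k-1)`-transitive, except possibly for `k = 3` when it may be an elementary abelian 2-group. -/
theorem result {α : Type*} [Fintype α] [DecidableEq α] (G : Subgroup (Equiv.Perm α)) {k : ℕ} (hk : 1 < k) (hdeg : k < Fintype.card α) (hG : MulAction.IsMultiplyPretransitive G α k) (N : Subgroup G) [N.Normal] (hN : N ≠ ⊥) : MulAction.IsMultiplyPretransitive N α (k - 1) ∨ (k = 3 ∧ IsMulCommutative N ∧ ∀ n ∈ N, n ^ 2 = 1) := by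
  classical
  obtain ⟨j, rfl⟩ : ∃ j, k = j + 1 := ⟨k - 1, by omega⟩
  have hE : E G ∅ (j + 1) := by
    intro U _ hc b₀ b₁ _ hb₀ _ hb₁
    exact S0711.exists_fix G hdeg.le hG U (by omega) b₀ b₁ hb₀ hb₁
  have hN' : N.map G.subtype ≠ ⊥ := by
    rw [Ne, Subgroup.map_eq_bot_iff_of_injective _ G.subtype_injective]
    exact hN
  have hle : N.map G.subtype ≤ G := by
    rintro _ ⟨n, -, rfl⟩
    exact n.2
  have hnorm : ∀ g ∈ G, ∀ n ∈ N.map G.subtype, g * n * g⁻¹ ∈ N.map G.subtype := by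
    rintro g hg _ ⟨n, hn, rfl⟩
    exact ⟨⟨g, hg⟩ * n * ⟨g, hg⟩⁻¹, ‹N.Normal›.conj_mem n hn ⟨g, hg⟩, rfl⟩
  rcases jordan_aux j (by omega) ∅ G (N.map G.subtype) (by simp) hle hnorm hN'
    (by simpa using hdeg) hE with h | ⟨hj2, hsq, -⟩
  · left
    rw [Nat.add_sub_cancel, MulAction.isMultiplyPretransitive_iff]
    intro x y
    obtain ⟨g, ⟨n, hn, rfl⟩, hg⟩ := h.tuple j le_rfl x y x.injective y.injective
    refine ⟨⟨n, hn⟩, ?_⟩
    ext i
    exact hg i
  · right
    have hsq' : ∀ z : G, z ∈ N → z ^ 2 = 1 := by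
      intro z hz
      apply Subtype.ext
      have := hsq z.1 ⟨z, hz, rfl⟩
      simpa using this
    have hinv : ∀ z : G, z ∈ N → z⁻¹ = z := by
      intro z hz
      have := hsq' z hz
      rw [pow_two] at this
      exact inv_eq_of_mul_eq_one_left this
    refine ⟨by omega, ⟨⟨fun x y => ?_⟩⟩, hsq'⟩
    apply Subtype.ext
    have h1 := hinv _ (N.mul_mem x.2 y.2)
    rw [mul_inv_rev, hinv _ x.2, hinv _ y.2] at h1
    exact h1.symm

end Cfsg.Agent.S0698
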