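import Mathlib
import Cfsg.Statements.S0613
import Cfsg.Agent.S0611
import Cfsg.Agent.Lib.Helper4.Offender
import Cfsg.Agent.Lib.Helper4.SL2Rep
import Cfsg.Agent.Lib.Lead.QuadBridge

set_option autoImplicit false
open Cfsg

open scoped commutatorElement

namespace Cfsg.Agent.S0613

universe u

open Cfsg.Agent.Lib.Lead.QuadBridge in
theorem core613 {G : Type u} [Group G] [Finite G] {p : ℕ} [Fact p.Prime] (V N : Subgroup G)
    (hVc : IsMulCommutative V) (hVp : ∀ v ∈ V, v ^ p = 1) (a x : G)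
    (haV : a ∈ Subgroup.normalizer (V : Set G)) (hxV : x ∈ Subgroup.normalizer (V : Set G))
    (hf : Subgroup.closure ({a, x * a * x⁻¹} : Set G) ⊓ Subgroup.centralizer (V : Set G) = ⊥)
    (ha : a ^ p = 1) (hax : x * a ≠ a * x)
    (hcW : Nat.card ↥(⁅V, Subgroup.zpowers a⁆) = p)
    (hxN : x ∈ N) (hNa : ∀ q ∈ N, a * q * a⁻¹ ∈ N) (hNc : (Nat.card N).Coprime p) :
    (p = 2 ∨ p = 3) ∧
    Nat.card ↥(⁅V, Subgroup.closure ({a, x * a * x⁻¹} : Set G)⁆) = p ^ 2 ∧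
    Subgroup.closure ({a, x * a * x⁻¹} : Set G) ⊓ Subgroup.centralizer
      ((⁅V, Subgroup.closure ({a, x * a * x⁻¹} : Set G)⁆ : Subgroup G) : Set G) = ⊥ ∧
    Nonempty (↥(Subgroup.closure ({a, x * a * x⁻¹} : Set G)) ≃*
      Matrix.SpecialLinearGroup (Fin 2) (ZMod p)) := by
  have hp : p.Prime := Fact.out
  obtain ⟨b, hbdef⟩ : ∃ b : G, b = x * a * x⁻¹ := ⟨_, rfl⟩
  rw [← hbdef] at hf ⊢
  obtain ⟨E, hEdef⟩ : ∃ E : Subgroup G, E = Subgroup.closure ({a, b} : Set G) := ⟨_, rfl⟩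
  rw [← hEdef] at hf ⊢
  have hbV : b ∈ Subgroup.normalizer (V : Set G) := by
    rw [hbdef]
    exact Subgroup.mul_mem _ (Subgroup.mul_mem _ hxV haV) (Subgroup.inv_mem _ hxV)
  have haE : a ∈ E := by rw [hEdef]; exact Subgroup.subset_closure (by simp)
  have hbE : b ∈ E := by rw [hEdef]; exact Subgroup.subset_closure (by simp)
  have hEN : E ≤ Subgroup.normalizer (V : Set G) := by
    rw [hEdef, Subgroup.closure_le]
    intro y hy
    rcases hy with h | h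
    · rw [SetLike.mem_coe, h]; exact haV
    · have h' : y = b := h
      rw [SetLike.mem_coe, h']; exact hbV
  have hb : b ^ p = 1 := by rw [hbdef, conj_pow, ha, mul_one, mul_inv_cancel]
  have hab : a ≠ b := by
    intro h
    apply hax
    rw [hbdef] at h
    calc x * a = x * a * x⁻¹ * x := by group
      _ = a * x := by rw [← h]
  have ha1 : a ≠ 1 := by
    intro h
    apply hax
    rw [h, mul_one, one_mul]
  have haC : a ∉ Subgroup.centralizer (V : Set G) := by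
    intro h
    have h1 : a ∈ E ⊓ Subgroup.centralizer (V : Set G) := ⟨haE, h⟩
    rw [hf, Subgroup.mem_bot] at h1
    exact ha1 h1
  obtain ⟨v₀, hv₀, hv₀a⟩ : ∃ v₀ ∈ V, v₀ * a ≠ a * v₀ := by
    by_contra hcon
    push_neg at hcon
    exact haC (Subgroup.mem_centralizer_iff.mpr hcon)
  obtain ⟨u₁, hu₁def⟩ : ∃ u₁ : G, u₁ = a * v₀ * a⁻¹ * v₀⁻¹ := ⟨_, rfl⟩
  have hconjV : ∀ (g : G), g ∈ Subgroup.normalizer (V : Set G) → ∀ v ∈ V, g * v * g⁻¹ ∈ V :=
    fun g hg v hv => (Subgroup.mem_normalizer_iff.mp hg v).mp hv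
  have hconjV' : ∀ (g : G), g ∈ Subgroup.normalizer (V : Set G) → ∀ v ∈ V, g⁻¹ * v * g ∈ V := by
    intro g hg v hv
    have h := hconjV g⁻¹ (Subgroup.inv_mem _ hg) v hv
    rwa [inv_inv] at h
  have hu₁V : u₁ ∈ V := by
    rw [hu₁def]; exact V.mul_mem (hconjV a haV v₀ hv₀) (V.inv_mem hv₀)
  have hu₁1 : u₁ ≠ 1 := by
    intro h
    apply hv₀a
    rw [hu₁def] at h
    have h1 : a * v₀ * a⁻¹ = v₀ := mul_inv_eq_one.mp h
    have h2 : a * v₀ = v₀ * a := mul_inv_eq_iff_eq_mul.mp h1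
    exact h2.symm
  have hcommA : ∀ v ∈ V, a * v * a⁻¹ * v⁻¹ ∈ ⁅V, Subgroup.zpowers a⁆ := by
    intro v hv
    have h1 : ⁅v, a⁆ ∈ ⁅V, Subgroup.zpowers a⁆ :=
      Subgroup.commutator_mem_commutator hv (Subgroup.mem_zpowers a)
    have h2 : a * v * a⁻¹ * v⁻¹ = ⁅v, a⁆⁻¹ := by rw [commutatorElement_inv]; rfl
    rw [h2]; exact Subgroup.inv_mem _ h1
  have hu₁W : u₁ ∈ ⁅V, Subgroup.zpowers a⁆ := by rw [hu₁def]; exact hcommA v₀ hv₀
  have hu₁p : u₁ ^ p = 1 := hVp u₁ hu₁V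
  have hord : orderOf u₁ = p := orderOf_eq_prime hu₁p hu₁1
  have hzp : Subgroup.zpowers u₁ = ⁅V, Subgroup.zpowers a⁆ := by
    apply Subgroup.eq_of_le_of_card_ge
    · rw [Subgroup.zpowers_le]; exact hu₁W
    · exact le_of_eq (by rw [hcW, Nat.card_zpowers, hord])
  have hCaG : ∀ v ∈ V, ∃ k : ℕ, a * v * a⁻¹ * v⁻¹ = u₁ ^ k := by
    intro v hv
    have h1 : a * v * a⁻¹ * v⁻¹ ∈ Subgroup.zpowers u₁ := by rw [hzp]; exact hcommA v hv
    have h2 : a * v * a⁻¹ * v⁻¹ ∈ Submonoid.powers u₁ := mem_powers_iff_mem_zpowers.mpr h1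
    obtain ⟨k, hk⟩ := (Submonoid.mem_powers_iff _ _).mp h2
    exact ⟨k, hk.symm⟩
  obtain ⟨u₂, hu₂def⟩ : ∃ u₂ : G, u₂ = x * u₁ * x⁻¹ := ⟨_, rfl⟩
  have hu₂V : u₂ ∈ V := by rw [hu₂def]; exact hconjV x hxV u₁ hu₁V
  have hu₂1 : u₂ ≠ 1 := by
    intro h
    apply hu₁1
    rw [hu₂def] at h
    have h1 : u₁ = x⁻¹ * (x * u₁ * x⁻¹) * x := by group
    rw [h1, h]; group
  have hCbG : ∀ v ∈ V, ∃ k : ℕ, b * v * b⁻¹ * v⁻¹ = u₂ ^ k := by
    intro v hv
    obtain ⟨k, hk⟩ := hCaG (x⁻¹ * v * x) (hconjV' x hxV v hv)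
    refine ⟨k, ?_⟩
    rw [hu₂def, conj_pow, ← hk, hbdef]
    group
  have hu₁E : u₁ ∈ ⁅V, E⁆ := by
    have h1 : ⁅v₀, a⁆ ∈ ⁅V, E⁆ := Subgroup.commutator_mem_commutator hv₀ haE
    have h2 : u₁ = ⁅v₀, a⁆⁻¹ := by rw [hu₁def, commutatorElement_inv]; rfl
    rw [h2]; exact Subgroup.inv_mem _ h1
  have hu₂E : u₂ ∈ ⁅V, E⁆ := by
    have h1 : ⁅x * v₀ * x⁻¹, b⁆ ∈ ⁅V, E⁆ :=
      Subgroup.commutator_mem_commutator (hconjV x hxV v₀ hv₀) hbE
    have h2 : u₂ = ⁅x * v₀ * x⁻¹, b⁆⁻¹ := by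
      rw [hu₂def, hu₁def, commutatorElement_inv, commutatorElement_def, hbdef]; group
    rw [h2]; exact Subgroup.inv_mem _ h1
  -- the additive picture
  have hW : ∀ w : AV V hVc, p • w = 0 := by
    intro w
    refine AV_ext V hVc _ _ ?_
    rw [ofAV_nsmul_coe, hVp _ (ofAV V hVc w).2]; rfl
  haveI : Module (ZMod p) (AV V hVc) := AddCommGroup.zmodModule hW
  obtain ⟨T, hT⟩ : ∃ T : ↥E →* Module.End (ZMod p) (AV V hVc), ∀ (e : ↥E) (m : AV V hVc),
      (ofAV V hVc (T e m) : G) = (e : G) * (ofAV V hVc m : G) * (e : G)⁻¹ := by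
    refine ⟨{ toFun := fun e => (conjEnd V hVc ⟨e.1, hEN e.2⟩).toZModLinearMap p
              map_one' := ?_
              map_mul' := ?_ }, fun e m => rfl⟩
    · apply LinearMap.ext
      intro m
      refine AV_ext V hVc _ _ ?_
      show (1 : G) * (ofAV V hVc m : G) * (1 : G)⁻¹ = (ofAV V hVc m : G)
      group
    · intro y z
      apply LinearMap.ext
      intro m
      refine AV_ext V hVc _ _ ?_
      show ((y : G) * (z : G)) * (ofAV V hVc m : G) * ((y : G) * (z : G))⁻¹ =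
        (y : G) * ((z : G) * (ofAV V hVc m : G) * (z : G)⁻¹) * (y : G)⁻¹
      group
  have hTinj : ∀ e : ↥E, T e = 1 → e = 1 := by
    intro e he
    have h0 : (e : G) ∈ Subgroup.centralizer (V : Set G) := by
      rw [Subgroup.mem_centralizer_iff]
      intro v hv
      have h2 := hT e (toAV V hVc ⟨v, hv⟩)
      rw [he, Module.End.one_apply] at h2
      have h3 : v = (e : G) * v * (e : G)⁻¹ := h2
      calc v * (e : G) = ((e : G) * v * (e : G)⁻¹) * (e : G) := by rw [← h3]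
        _ = (e : G) * v := by group
    have h1 : (e : G) ∈ E ⊓ Subgroup.centralizer (V : Set G) := Subgroup.mem_inf.mpr ⟨e.2, h0⟩
    rw [hf, Subgroup.mem_bot] at h1
    exact Subtype.ext h1
  obtain ⟨a', ha'⟩ : ∃ a' : ↥E, (a' : G) = a := ⟨⟨a, haE⟩, rfl⟩
  obtain ⟨b', hb'⟩ : ∃ b' : ↥E, (b' : G) = b := ⟨⟨b, hbE⟩, rfl⟩
  have hgen : Subgroup.closure ({a', b'} : Set ↥E) = ⊤ := by
    apply Subgroup.map_injective E.subtype_injective
    rw [MonoidHom.map_closure, Set.image_pair, ← MonoidHom.range_eq_map, Subgroup.range_subtype]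
    show Subgroup.closure {(a' : G), (b' : G)} = E
    rw [ha', hb']
    exact hEdef.symm
  have hap' : a' ^ p = 1 := by
    apply Subtype.ext
    show (a' : G) ^ p = 1
    rw [ha', ha]
  have hbp' : b' ^ p = 1 := by
    apply Subtype.ext
    show (b' : G) ^ p = 1
    rw [hb', hb]
  have hab' : a' ≠ b' := by
    intro h
    apply hab
    rw [← ha', ← hb', h]
  obtain ⟨w₁, hw₁def⟩ : ∃ w₁ : AV V hVc, (ofAV V hVc w₁ : G) = u₁ :=
    ⟨toAV V hVc ⟨u₁, hu₁V⟩, rfl⟩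
  obtain ⟨w₂, hw₂def⟩ : ∃ w₂ : AV V hVc, (ofAV V hVc w₂ : G) = u₂ :=
    ⟨toAV V hVc ⟨u₂, hu₂V⟩, rfl⟩
  have hw₁0 : w₁ ≠ 0 := by
    intro h
    apply hu₁1
    exact hw₁def.symm.trans (congrArg (fun w : AV V hVc => (ofAV V hVc w : G)) h)
  have hw₂0 : w₂ ≠ 0 := by
    intro h
    apply hu₂1
    exact hw₂def.symm.trans (congrArg (fun w : AV V hVc => (ofAV V hVc w : G)) h)
  have hCa : ∀ m : AV V hVc, ∃ k : ZMod p, T a' m - m = k • w₁ := by
    intro m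
    obtain ⟨k, hk⟩ := hCaG (ofAV V hVc m : G) (ofAV V hVc m).2
    refine ⟨(k : ZMod p), AV_ext V hVc _ _ ?_⟩
    rw [Nat.cast_smul_eq_nsmul, ofAV_sub_coe, ofAV_nsmul_coe, hT, ha', hw₁def]
    exact hk
  have hCb : ∀ m : AV V hVc, ∃ k : ZMod p, T b' m - m = k • w₂ := by
    intro m
    obtain ⟨k, hk⟩ := hCbG (ofAV V hVc m : G) (ofAV V hVc m).2
    refine ⟨(k : ZMod p), AV_ext V hVc _ _ ?_⟩
    rw [Nat.cast_smul_eq_nsmul, ofAV_sub_coe, ofAV_nsmul_coe, hT, hb', hw₂def]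
    exact hk
  have hNr : ∀ q ∈ N.subgroupOf E, q ^ Nat.card N = 1 := by
    intro q hq
    apply Subtype.ext
    show (q : G) ^ Nat.card N = 1
    have h1 : (⟨(q : G), Subgroup.mem_subgroupOf.mp hq⟩ : ↥N) ^ Nat.card N = 1 :=
      pow_card_eq_one'
    exact congrArg Subtype.val h1
  have hNa' : ∀ q ∈ N.subgroupOf E, a' * q * a'⁻¹ ∈ N.subgroupOf E := by
    intro q hq
    rw [Subgroup.mem_subgroupOf] at hq ⊢
    show (a' : G) * (q : G) * (a' : G)⁻¹ ∈ N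
    rw [ha']
    exact hNa _ hq
  have hd' : b' * a'⁻¹ ∈ N.subgroupOf E := by
    rw [Subgroup.mem_subgroupOf]
    show (b' : G) * (a' : G)⁻¹ ∈ N
    rw [hb', ha', hbdef]
    have h1 : x * a * x⁻¹ * a⁻¹ = x * (a * x⁻¹ * a⁻¹) := by group
    rw [h1]
    exact N.mul_mem hxN (hNa _ (N.inv_mem hxN))
  obtain ⟨hp23, hiso, hind, hsp, hfaith⟩ :=
    Cfsg.Agent.Lib.Helper4.SL2Rep.lin_main T hTinj a' b' hgen hap' hbp' hab' w₁ w₂ hw₁0 hw₂0
      hCa hCb (N.subgroupOf E) (Nat.card N) hNc hNr hNa' hd'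
  -- faithfulness on `[V, E]`
  have hiii : E ⊓ Subgroup.centralizer ((⁅V, E⁆ : Subgroup G) : Set G) = ⊥ := by
    rw [eq_bot_iff]
    rintro g ⟨hgE, hgC⟩
    rw [Subgroup.mem_bot]
    have hfix : ∀ (w : AV V hVc), (ofAV V hVc w : G) ∈ ⁅V, E⁆ → T ⟨g, hgE⟩ w = w := by
      intro w hw
      refine AV_ext V hVc _ _ ?_
      rw [hT]
      show g * (ofAV V hVc w : G) * g⁻¹ = (ofAV V hVc w : G)
      have h1 := Subgroup.mem_centralizer_iff.mp hgC _ hw
      rw [← h1, mul_inv_cancel_right]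
    have h2 := hfaith ⟨g, hgE⟩ (hfix w₁ (by rw [hw₁def]; exact hu₁E))
      (hfix w₂ (by rw [hw₂def]; exact hu₂E))
    exact congrArg Subtype.val h2
  -- the order of `[V, E]`
  have hii : Nat.card ↥(⁅V, E⁆) = p ^ 2 := by
    haveI : NeZero p := ⟨hp.ne_zero⟩
    obtain ⟨f, hfdef⟩ : ∃ f : ZMod p × ZMod p → G,
        ∀ c, f c = (ofAV V hVc (c.1 • w₁ + c.2 • w₂) : G) := ⟨_, fun _ => rfl⟩
    have hfinj : Function.Injective f := by
      intro c d hcd
      rw [hfdef, hfdef] at hcd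
      have h1 : c.1 • w₁ + c.2 • w₂ = d.1 • w₁ + d.2 • w₂ := AV_ext V hVc _ _ hcd
      have h2 : (c.1 - d.1) • w₁ + (c.2 - d.2) • w₂ = 0 := by
        rw [sub_smul, sub_smul]
        have h3 : c.1 • w₁ - d.1 • w₁ + (c.2 • w₂ - d.2 • w₂) =
            (c.1 • w₁ + c.2 • w₂) - (d.1 • w₁ + d.2 • w₂) := by abel
        rw [h3, h1, sub_self]
      obtain ⟨h3, h4⟩ := hind _ _ h2
      exact Prod.ext (sub_eq_zero.mp h3) (sub_eq_zero.mp h4)
    have hadd : ∀ y z : AV V hVc,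
        (ofAV V hVc (y + z) : G) = (ofAV V hVc y : G) * (ofAV V hVc z : G) := fun _ _ => rfl
    have hneg : ∀ y : AV V hVc, (ofAV V hVc (-y) : G) = (ofAV V hVc y : G)⁻¹ := fun _ => rfl
    have hzero : (ofAV V hVc (0 : AV V hVc) : G) = 1 := rfl
    have hsm : ∀ (c : ZMod p) (w : AV V hVc),
        (ofAV V hVc (c • w) : G) = (ofAV V hVc w : G) ^ c.val := by
      intro c w
      have h1 : c • w = c.val • w := by
        rw [← Nat.cast_smul_eq_nsmul (ZMod p), ZMod.natCast_zmod_val]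
      rw [h1, ofAV_nsmul_coe]
    obtain ⟨Wf, hWf⟩ : ∃ Wf : Subgroup G, (Wf : Set G) = Set.range f := by
      refine ⟨{ carrier := Set.range f
                mul_mem' := ?_
                one_mem' := ?_
                inv_mem' := ?_ }, rfl⟩
      · rintro _ _ ⟨c, rfl⟩ ⟨d, rfl⟩
        refine ⟨(c.1 + d.1, c.2 + d.2), ?_⟩
        have h1 : (c.1 + d.1) • w₁ + (c.2 + d.2) • w₂ =
            (c.1 • w₁ + c.2 • w₂) + (d.1 • w₁ + d.2 • w₂) := by
          rw [add_smul, add_smul]; abel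
        rw [hfdef, hfdef, hfdef]
        show (ofAV V hVc ((c.1 + d.1) • w₁ + (c.2 + d.2) • w₂) : G) =
          (ofAV V hVc (c.1 • w₁ + c.2 • w₂) : G) * (ofAV V hVc (d.1 • w₁ + d.2 • w₂) : G)
        rw [h1, hadd]
      · have h0 : (0 : ZMod p) • w₁ + (0 : ZMod p) • w₂ = 0 := by
          rw [zero_smul, zero_smul, add_zero]
        exact ⟨(0, 0), (hfdef _).trans
          ((congrArg (fun y : AV V hVc => (ofAV V hVc y : G)) h0).trans hzero)⟩
      · rintro _ ⟨c, rfl⟩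
        refine ⟨(-c.1, -c.2), ?_⟩
        have h1 : (-c.1) • w₁ + (-c.2) • w₂ = -(c.1 • w₁ + c.2 • w₂) := by
          rw [neg_smul, neg_smul, neg_add]
        rw [hfdef, hfdef]
        show (ofAV V hVc ((-c.1) • w₁ + (-c.2) • w₂) : G) =
          (ofAV V hVc (c.1 • w₁ + c.2 • w₂) : G)⁻¹
        rw [h1, hneg]
    have hrange : Set.range f = ((⁅V, E⁆ : Subgroup G) : Set G) := by
      apply Set.Subset.antisymm
      · rintro _ ⟨c, rfl⟩
        rw [hfdef, hadd, hsm, hsm, hw₁def, hw₂def]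
        exact Subgroup.mul_mem _ (Subgroup.pow_mem _ hu₁E _) (Subgroup.pow_mem _ hu₂E _)
      · have hle : ⁅V, E⁆ ≤ Wf := by
          rw [Subgroup.commutator_le]
          intro v hv e he
          obtain ⟨c₀, c₁, hc⟩ := hsp ⟨e, he⟩ (toAV V hVc ⟨v, hv⟩)
          have h1 : e * v * e⁻¹ * v⁻¹ ∈ Wf := by
            rw [← SetLike.mem_coe, hWf]
            refine ⟨(c₀, c₁), ?_⟩
            rw [hfdef]
            show (ofAV V hVc (c₀ • w₁ + c₁ • w₂) : G) = e * v * e⁻¹ * v⁻¹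
            rw [← hc, ofAV_sub_coe, hT]
            rfl
          have h2 : ⁅v, e⁆ = (e * v * e⁻¹ * v⁻¹)⁻¹ := by
            rw [commutatorElement_def]; group
          rw [h2]
          exact Wf.inv_mem h1
        intro g hg
        have h3 := hle hg
        rw [← SetLike.mem_coe, hWf] at h3
        exact h3
    have h1 : Nat.card ↥(Set.range f) = Nat.card ↥(⁅V, E⁆) :=
      congrArg (fun S : Set G => Nat.card ↥S) hrange
    rw [← h1, ← Nat.card_congr (Equiv.ofInjective f hfinj), Nat.card_prod, Nat.card_zmod, sq]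
  exact ⟨hp23, hii, hiii, hiso⟩

/-- A minimal nontrivially-acting best offender and a conjugate of it under a non-centralizing element of the p'-core generate SL(2, p) acting naturally on a plane, and p is 2 or 3. -/
theorem result {G : Type*} [Group G] [Finite G] {p : ℕ} [Fact p.Prime] (V H : Subgroup G) (hV : Cfsg.IsElementaryAbelian p V) (hHV : H ≤ Subgroup.normalizer (V : Set G)) (hf : H ⊓ Subgroup.centralizer (V : Set G) = ⊥) (hS1 : Subgroup.centralizer (Cfsg.pPrimeCore p ↥H : Set ↥H) ≤ Cfsg.pPrimeCore p ↥H) (hS3 : H = ⨆ A : {A : Subgroup G // A ≤ H ∧ Cfsg.IsBestOffenderOn p V A}, (A : Subgroup G)) (hH1 : H ≠ ⊥) (A : Subgroup G) (hAH : A ≤ H) (hA : Cfsg.IsBestOffenderOn p V A) (hAV : ⁅V, A⁆ ≠ ⊥) (hmin : ∀ B : Subgroup G, B ≤ A → Cfsg.IsBestOffenderOn p V B → ⁅V, B⁆ ≠ ⊥ → B = A) (x : G) (hx : x ∈ ((Cfsg.pPrimeCore p ↥H).map H.subtype)) (hxA : x ∉ Subgroup.centralizer (A : Set G)) : (p = 2 ∨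 p = 3) ∧ Nat.card ↥(⁅V, A ⊔ A.map (MulAut.conj x).toMonoidHom⁆) = p ^ 2 ∧ (A ⊔ A.map (MulAut.conj x).toMonoidHom) ⊓ Subgroup.centralizer ((⁅V, A ⊔ A.map (MulAut.conj x).toMonoidHom⁆ : Subgroup G) : Set G) = ⊥ ∧ Nonempty (↥(A ⊔ A.map (MulAut.conj x).toMonoidHom) ≃* Matrix.SpecialLinearGroup (Fin 2) (ZMod p)) := by
  obtain ⟨hcA, hcW, -⟩ := Cfsg.Agent.S0611.result V H hV hHV hf hS1 hS3 hH1 A hAH hA hAV hmin
  obtain ⟨hVc, hVp⟩ := hV
  have hp : p.Prime := Fact.out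
  have hA1 : A ≠ ⊥ := by
    intro h
    rw [h] at hAV
    exact hAV (Subgroup.commutator_bot_right V)
  obtain ⟨a, haA, ha1⟩ := Cfsg.Agent.Lib.Helper4.Offender.exists_ne_one hA1
  have hap : a ^ p = 1 := Cfsg.Agent.Lib.Helper4.Offender.bo_pow hf hAH hA a haA
  have hAz : A = Subgroup.zpowers a := by
    symm
    apply Subgroup.eq_of_le_of_card_ge
    · rw [Subgroup.zpowers_le]; exact haA
    · exact le_of_eq (by rw [hcA, Nat.card_zpowers, orderOf_eq_prime hap ha1])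
  have hb0 : (MulAut.conj x).toMonoidHom a = x * a * x⁻¹ := rfl
  have hEq : A ⊔ A.map (MulAut.conj x).toMonoidHom =
      Subgroup.closure ({a, x * a * x⁻¹} : Set G) := by
    rw [hAz, MonoidHom.map_zpowers, hb0, Subgroup.zpowers_eq_closure, Subgroup.zpowers_eq_closure,
      ← Subgroup.closure_union, Set.singleton_union]
  rw [hEq]
  have hxQ : x ∈ Cfsg.Agent.Lib.Helper4.Offender.Qc p H := hx
  have hxH : x ∈ H := Cfsg.Agent.Lib.Helper4.Offender.Qc_le p H hxQ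
  have haH : a ∈ H := hAH haA
  have hEH : Subgroup.closure ({a, x * a * x⁻¹} : Set G) ≤ H := by
    rw [Subgroup.closure_le]
    intro y hy
    rcases hy with h | h
    · rw [SetLike.mem_coe, h]; exact haH
    · have h' : y = x * a * x⁻¹ := h
      rw [SetLike.mem_coe, h']
      exact H.mul_mem (H.mul_mem hxH haH) (H.inv_mem hxH)
  have hf' : Subgroup.closure ({a, x * a * x⁻¹} : Set G) ⊓
      Subgroup.centralizer (V : Set G) = ⊥ := by
    rw [eq_bot_iff, ← hf]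
    exact inf_le_inf_right _ hEH
  have hax : x * a ≠ a * x := by
    intro h
    apply hxA
    rw [Subgroup.mem_centralizer_iff]
    intro g hg
    have hg' : g ∈ Subgroup.zpowers a := by rw [← hAz]; exact hg
    obtain ⟨i, rfl⟩ := Subgroup.mem_zpowers_iff.mp hg'
    exact ((Commute.zpow_right (show Commute x a from h) i).eq).symm
  exact core613 V (Cfsg.Agent.Lib.Helper4.Offender.Qc p H) hVc hVp a x (hHV haH) (hHV hxH) hf' hap hax
    (by rw [← hAz]; exact hcW) hxQ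
    (fun q hq => Cfsg.Agent.Lib.Helper4.Offender.Qc_conj p H haH hq)
    (Cfsg.Agent.Lib.Helper4.Offender.Qc_coprime p H)

end Cfsg.Agent.S0613
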