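import Mathlib
import Cfsg.Statements.S0614
import Cfsg.Agent.S0611
import Cfsg.Agent.S0613
import Cfsg.Agent.S2301
import Cfsg.Agent.Lib.Helper4.Offender
import Cfsg.Agent.Lib.Helper4.SL2Rep
import Cfsg.Agent.Lib.Helper4.SL2Conj
import Cfsg.Agent.Lib.Helper9.Cores
import Cfsg.Agent.Lib.Lead.QuadBridge

set_option autoImplicit false
open Cfsg

open scoped commutatorElement

namespace Cfsg.Agent.S0614

universe u

open Cfsg.Agent.Lib.Lead.QuadBridge in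
theorem core614 {G : Type u} [Group G] [Finite G] {p : ℕ} [Fact p.Prime] (V H : Subgroup G)
    (hVc : IsMulCommutative V) (hVp : ∀ v ∈ V, v ^ p = 1)
    (hHV : H ≤ Subgroup.normalizer (V : Set G)) (hf : H ⊓ Subgroup.centralizer (V : Set G) = ⊥)
    (a : G) (haH : a ∈ H) (ha : a ^ p = 1) (ha1 : a ≠ 1)
    (hcW : Nat.card ↥(⁅V, Subgroup.zpowers a⁆) = p)
    (x : G) (hx : x ∈ (Cfsg.pPrimeCore p ↥H).map H.subtype) (hxa : x * a * x⁻¹ ≠ a)
    (hp23 : p = 2 ∨ p = 3) :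
    (∀ y ∈ (Cfsg.pPrimeCore p ↥H).map H.subtype, y * a * y⁻¹ = a ∨ y * a * y⁻¹ = x * a * x⁻¹ ∨
        y * a * y⁻¹ = (x * a * x⁻¹) * a * (x * a * x⁻¹)⁻¹ ∨
        y * a * y⁻¹ = (x * a * x⁻¹)⁻¹ * a * (x * a * x⁻¹)) ∧
    (p = 3 → (a * (x * a * x⁻¹)) ^ 3 ≠ 1) := by
  have hp : p.Prime := Fact.out
  have haV : a ∈ Subgroup.normalizer (V : Set G) := hHV haH
  have haC : a ∉ Subgroup.centralizer (V : Set G) := by
    intro h
    have h1 : a ∈ H ⊓ Subgroup.centralizer (V : Set G) := Subgroup.mem_inf.mpr ⟨haH, h⟩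
    rw [hf, Subgroup.mem_bot] at h1
    exact ha1 h1
  obtain ⟨v₀, hv₀, hv₀a⟩ : ∃ v₀ ∈ V, v₀ * a ≠ a * v₀ := by
    by_contra hcon
    push_neg at hcon
    exact haC (Subgroup.mem_centralizer_iff.mpr hcon)
  obtain ⟨u₁, hu₁def⟩ : ∃ u₁ : G, u₁ = a * v₀ * a⁻¹ * v₀⁻¹ := ⟨_, rfl⟩
  have hconjV : ∀ (g : G), g ∈ Subgroup.normalizer (V : Set G) → ∀ v ∈ V, g * v * g⁻¹ ∈ V :=
    fun g hg v hv => (Subgroup.mem_normalizer_iff.mp hg v).mp hv
  have hu₁V : u₁ ∈ V := by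
    rw [hu₁def]; exact V.mul_mem (hconjV a haV v₀ hv₀) (V.inv_mem hv₀)
  have hu₁1 : u₁ ≠ 1 := by
    intro h
    apply hv₀a
    rw [hu₁def] at h
    have h1 : a * v₀ * a⁻¹ = v₀ := mul_inv_eq_one.mp h
    have h2 : a * v₀ = v₀ * a := mul_inv_eq_iff_eq_mul.mp h1
    exact h2.symm
  have hcommA : ∀ v ∈ V, a * v * a⁻¹ * v⁻¹ ∈ ⁅V, Subgroup.zpowers a⁆ := by
    intro v hv
    have h1 : ⁅v, a⁆ ∈ ⁅V, Subgroup.zpowers a⁆ :=
      Subgroup.commutator_mem_commutator hv (Subgroup.mem_zpowers a)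
    have h2 : a * v * a⁻¹ * v⁻¹ = ⁅v, a⁆⁻¹ := by rw [commutatorElement_inv]; rfl
    rw [h2]; exact Subgroup.inv_mem _ h1
  have hu₁W : u₁ ∈ ⁅V, Subgroup.zpowers a⁆ := by rw [hu₁def]; exact hcommA v₀ hv₀
  have hu₁p : u₁ ^ p = 1 := hVp u₁ hu₁V
  have hord : orderOf u₁ = p := orderOf_eq_prime hu₁p hu₁1
  have hzp : Subgroup.zpowers u₁ = ⁅V, Subgroup.zpowers a⁆ := by
    apply Subgroup.eq_of_le_of_card_ge
    · rw [Subgroup.zpowers_le]; exact hu₁W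
    · exact le_of_eq (by rw [hcW, Nat.card_zpowers, hord])
  have hCaG : ∀ v ∈ V, ∃ k : ℕ, a * v * a⁻¹ * v⁻¹ = u₁ ^ k := by
    intro v hv
    have h1 : a * v * a⁻¹ * v⁻¹ ∈ Subgroup.zpowers u₁ := by rw [hzp]; exact hcommA v hv
    have h2 : a * v * a⁻¹ * v⁻¹ ∈ Submonoid.powers u₁ := mem_powers_iff_mem_zpowers.mpr h1
    obtain ⟨k, hk⟩ := (Submonoid.mem_powers_iff _ _).mp h2
    exact ⟨k, hk.symm⟩
  have hW : ∀ w : AV V hVc, p • w = 0 := by
    intro w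
    refine AV_ext V hVc _ _ ?_
    rw [ofAV_nsmul_coe, hVp _ (ofAV V hVc w).2]; rfl
  haveI : Module (ZMod p) (AV V hVc) := AddCommGroup.zmodModule hW
  obtain ⟨T, hT⟩ : ∃ T : ↥H →* Module.End (ZMod p) (AV V hVc), ∀ (e : ↥H) (m : AV V hVc),
      (ofAV V hVc (T e m) : G) = (e : G) * (ofAV V hVc m : G) * (e : G)⁻¹ := by
    refine ⟨{ toFun := fun e => (conjEnd V hVc ⟨e.1, hHV e.2⟩).toZModLinearMap p
              map_one' := ?_
              map_mul' := ?_ }, fun e m => rfl⟩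
    · apply LinearMap.ext
      intro m
      refine AV_ext V hVc _ _ ?_
      show (1 : G) * (ofAV V hVc m : G) * (1 : G)⁻¹ = (ofAV V hVc m : G)
      group
    · intro y z
      apply LinearMap.ext
      intro m
      refine AV_ext V hVc _ _ ?_
      show ((y : G) * (z : G)) * (ofAV V hVc m : G) * ((y : G) * (z : G))⁻¹ =
        (y : G) * ((z : G) * (ofAV V hVc m : G) * (z : G)⁻¹) * (y : G)⁻¹
      group
  have hTinj : ∀ e : ↥H, T e = 1 → e = 1 := by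
    intro e he
    have h0 : (e : G) ∈ Subgroup.centralizer (V : Set G) := by
      rw [Subgroup.mem_centralizer_iff]
      intro v hv
      have h2 := hT e (toAV V hVc ⟨v, hv⟩)
      rw [he, Module.End.one_apply] at h2
      have h3 : v = (e : G) * v * (e : G)⁻¹ := h2
      calc v * (e : G) = ((e : G) * v * (e : G)⁻¹) * (e : G) := by rw [← h3]
        _ = (e : G) * v := by group
    have h1 : (e : G) ∈ H ⊓ Subgroup.centralizer (V : Set G) := Subgroup.mem_inf.mpr ⟨e.2, h0⟩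
    rw [hf, Subgroup.mem_bot] at h1
    exact Subtype.ext h1
  obtain ⟨a', ha'⟩ : ∃ a' : ↥H, (a' : G) = a := ⟨⟨a, haH⟩, rfl⟩
  have hap' : a' ^ p = 1 := by
    apply Subtype.ext
    show (a' : G) ^ p = 1
    rw [ha', ha]
  obtain ⟨w₁, hw₁def⟩ : ∃ w₁ : AV V hVc, (ofAV V hVc w₁ : G) = u₁ :=
    ⟨toAV V hVc ⟨u₁, hu₁V⟩, rfl⟩
  have hw₁0 : w₁ ≠ 0 := by
    intro h
    apply hu₁1
    exact hw₁def.symm.trans (congrArg (fun w : AV V hVc => (ofAV V hVc w : G)) h)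
  have hCa : ∀ m : AV V hVc, ∃ k : ZMod p, T a' m - m = k • w₁ := by
    intro m
    obtain ⟨k, hk⟩ := hCaG (ofAV V hVc m : G) (ofAV V hVc m).2
    refine ⟨(k : ZMod p), AV_ext V hVc _ _ ?_⟩
    rw [Nat.cast_smul_eq_nsmul, ofAV_sub_coe, ofAV_nsmul_coe, hT, ha', hw₁def]
    exact hk
  obtain ⟨x', hx'N, hx'⟩ := hx
  have hx'c : (x' : G) = x := hx'
  haveI hchar : (Cfsg.pPrimeCore p ↥H).Characteristic :=
    Cfsg.Agent.Lib.Helper9.pPrimeCore_characteristic p ↥H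
  have hn : (Cfsg.pPrimeCore p ↥H).Normal := inferInstance
  have hNr : ∀ q ∈ Cfsg.pPrimeCore p ↥H, q ^ Nat.card ↥(Cfsg.pPrimeCore p ↥H) = 1 := by
    intro q hq
    have h1 : (⟨q, hq⟩ : ↥(Cfsg.pPrimeCore p ↥H)) ^ Nat.card ↥(Cfsg.pPrimeCore p ↥H) = 1 :=
      pow_card_eq_one'
    exact congrArg Subtype.val h1
  have hNa : ∀ q ∈ Cfsg.pPrimeCore p ↥H, a' * q * a'⁻¹ ∈ Cfsg.pPrimeCore p ↥H :=
    fun q hq => hn.conj_mem q hq a'
  have hxa' : x' * a' * x'⁻¹ ≠ a' := by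
    intro h
    apply hxa
    have h2 : (x' : G) * (a' : G) * (x' : G)⁻¹ = (a' : G) := congrArg Subtype.val h
    rw [hx'c, ha'] at h2
    exact h2
  obtain ⟨hC1, hC2⟩ := Cfsg.Agent.Lib.Helper4.SL2Conj.conj_main T hTinj a' hap'
    (Cfsg.pPrimeCore p ↥H) (Nat.card ↥(Cfsg.pPrimeCore p ↥H))
    (Cfsg.Agent.Lib.Helper9.pPrimeCore_coprime p ↥H) hNr hNa w₁ hw₁0 hCa x' hx'N hxa' hp23
  constructor
  · rintro y ⟨y', hy'N, rfl⟩
    rcases hC1 y' hy'N with h | h | h | h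
    · left
      have h3 : (y' : G) * (a' : G) * (y' : G)⁻¹ = (a' : G) := congrArg Subtype.val h
      rw [ha'] at h3
      exact h3
    · right; left
      have h3 : (y' : G) * (a' : G) * (y' : G)⁻¹ = (x' : G) * (a' : G) * (x' : G)⁻¹ :=
        congrArg Subtype.val h
      rw [ha', hx'c] at h3
      exact h3
    · right; right; left
      have h3 : (y' : G) * (a' : G) * (y' : G)⁻¹ = ((x' : G) * (a' : G) * (x' : G)⁻¹) * (a' : G) *
          ((x' : G) * (a' : G) * (x' : G)⁻¹)⁻¹ := congrArg Subtype.val h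
      rw [ha', hx'c] at h3
      exact h3
    · right; right; right
      have h3 : (y' : G) * (a' : G) * (y' : G)⁻¹ = ((x' : G) * (a' : G) * (x' : G)⁻¹)⁻¹ * (a' : G) *
          ((x' : G) * (a' : G) * (x' : G)⁻¹) := congrArg Subtype.val h
      rw [ha', hx'c] at h3
      exact h3
  · intro hp3 h
    apply hC2 hp3
    apply Subtype.ext
    show ((a' : G) * ((x' : G) * (a' : G) * (x' : G)⁻¹)) ^ 3 = 1
    rw [ha', hx'c]
    exact h

/-- The commutator of the p'-core with a minimal nontrivially-acting best offender is a 3-group (when p = 2) or a non-abelian 2-group (when p = 3). -/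
theorem result {G : Type*} [Group G] [Finite G] {p : ℕ} [Fact p.Prime] (V H : Subgroup G) (hV : Cfsg.IsElementaryAbelian p V) (hHV : H ≤ Subgroup.normalizer (V : Set G)) (hf : H ⊓ Subgroup.centralizer (V : Set G) = ⊥) (hS1 : Subgroup.centralizer (Cfsg.pPrimeCore p ↥H : Set ↥H) ≤ Cfsg.pPrimeCore p ↥H) (hS3 : H = ⨆ A : {A : Subgroup G // A ≤ H ∧ Cfsg.IsBestOffenderOn p V A}, (A : Subgroup G)) (hH1 : H ≠ ⊥) (A : Subgroup G) (hAH : A ≤ H) (hA : Cfsg.IsBestOffenderOn p V A) (hAV : ⁅V, A⁆ ≠ ⊥) (hmin : ∀ B : Subgroup G, B ≤ A → Cfsg.IsBestOffenderOn p V B → ⁅V, B⁆ ≠ ⊥ → B = A) : (p = 2 ∧ IsPGroup 3 ↥(⁅((Cfsg.pPrimeCore p ↥H).map H.subtype), A⁆)) ∨ (p = 3 ∧ IsPGroup 2 ↥(⁅((Cfsg.pPrimeCore p ↥H).map H.subtype), A⁆) ∧ ¬ IsMulCommutative ↥(⁅((Cfsg.pPrimeCore p ↥H).map H.subtype), A⁆)) := by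
  have h611 := Cfsg.Agent.S0611.result V H hV hHV hf hS1 hS3 hH1 A hAH hA hAV hmin
  obtain ⟨hcA, hcW, -⟩ := h611
  have hV' := hV
  obtain ⟨hVc, hVp⟩ := hV
  have hp : p.Prime := Fact.out
  haveI : NeZero p := ⟨hp.ne_zero⟩
  have hA1 : A ≠ ⊥ := by
    intro h
    rw [h] at hAV
    exact hAV (Subgroup.commutator_bot_right V)
  obtain ⟨a, haA, ha1⟩ := Cfsg.Agent.Lib.Helper4.Offender.exists_ne_one hA1
  have hap : a ^ p = 1 := Cfsg.Agent.Lib.Helper4.Offender.bo_pow hf hAH hA a haA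
  have hAz : A = Subgroup.zpowers a := by
    symm
    apply Subgroup.eq_of_le_of_card_ge
    · rw [Subgroup.zpowers_le]; exact haA
    · exact le_of_eq (by rw [hcA, Nat.card_zpowers, orderOf_eq_prime hap ha1])
  have haH : a ∈ H := hAH haA
  obtain ⟨Q, hQdef⟩ : ∃ Q : Subgroup G, Q = Cfsg.Agent.Lib.Helper4.Offender.Qc p H := ⟨_, rfl⟩
  have hQmap : (Cfsg.pPrimeCore p ↥H).map H.subtype = Q := by rw [hQdef]; rfl
  rw [hQmap]
  have hQcop : (Nat.card ↥Q).Coprime p := by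
    rw [hQdef]; exact Cfsg.Agent.Lib.Helper4.Offender.Qc_coprime p H
  have hQconj : ∀ {h q : G}, h ∈ H → q ∈ Q → h * q * h⁻¹ ∈ Q := by
    intro h q hh hq
    rw [hQdef] at hq ⊢
    exact Cfsg.Agent.Lib.Helper4.Offender.Qc_conj p H hh hq
  have hQpow : ∀ q ∈ Q, q ^ Nat.card ↥Q = 1 := by
    intro q hq
    have h2 : (⟨q, hq⟩ : ↥Q) ^ Nat.card ↥Q = 1 := pow_card_eq_one'
    exact congrArg Subtype.val h2
  obtain ⟨x, hxQ, hxa⟩ : ∃ x ∈ Q, x * a * x⁻¹ ≠ a := by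
    by_contra hcon
    push_neg at hcon
    have hc : a ∈ Subgroup.centralizer (Cfsg.Agent.Lib.Helper4.Offender.Qc p H : Set G) := by
      rw [Subgroup.mem_centralizer_iff]
      intro q hq
      have hq' : q ∈ Q := by rw [hQdef]; exact hq
      exact mul_inv_eq_iff_eq_mul.mp (hcon q hq')
    have haQ : a ∈ Q := by
      rw [hQdef]
      exact Cfsg.Agent.Lib.Helper4.Offender.mem_Qc_of_centralizes hS1 haH hc
    exact ha1 (Cfsg.Agent.Lib.Helper4.SL2Rep.eq_one_of_pow_coprime hQcop (hQpow a haQ) hap)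
  have hxA : x ∉ Subgroup.centralizer (A : Set G) := by
    intro h
    apply hxa
    have h1 := Subgroup.mem_centralizer_iff.mp h a haA
    rw [← h1, mul_inv_cancel_right]
  have hxmap : x ∈ (Cfsg.pPrimeCore p ↥H).map H.subtype := by rw [hQmap]; exact hxQ
  have h613 := Cfsg.Agent.S0613.result V H hV' hHV hf hS1 hS3 hH1 A hAH hA hAV hmin x hxmap hxA
  obtain ⟨E, hEdef⟩ : ∃ E : Subgroup G, E = A ⊔ A.map (MulAut.conj x).toMonoidHom := ⟨_, rfl⟩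
  rw [← hEdef] at h613
  obtain ⟨hp23, -, -, ⟨φ⟩⟩ := h613
  obtain ⟨hC1, hC2⟩ := core614 V H hVc hVp hHV hf a haH hap ha1 (by rw [← hAz]; exact hcW) x hxmap
    hxa hp23
  rw [hQmap] at hC1
  have haE : a ∈ E := by rw [hEdef]; exact Subgroup.mem_sup_left haA
  have hbE : x * a * x⁻¹ ∈ E := by rw [hEdef]; exact Subgroup.mem_sup_right ⟨a, haA, rfl⟩
  have hconjE : ∀ y ∈ Q, y * a * y⁻¹ ∈ E := by
    intro y hy
    rcases hC1 y hy with h | h | h | h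
    · rw [h]; exact haE
    · rw [h]; exact hbE
    · rw [h]; exact E.mul_mem (E.mul_mem hbE haE) (E.inv_mem hbE)
    · rw [h]; exact E.mul_mem (E.mul_mem (E.inv_mem hbE) haE) hbE
  have hcomE : ⁅Q, A⁆ ≤ E := by
    rw [Subgroup.commutator_le]
    intro y hy g hg
    have hg' : g ∈ Subgroup.zpowers a := by rw [← hAz]; exact hg
    obtain ⟨i, rfl⟩ := Subgroup.mem_zpowers_iff.mp hg'
    have h1 : ⁅y, a ^ i⁆ = (y * a * y⁻¹) ^ i * (a ^ i)⁻¹ := by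
      rw [commutatorElement_def, conj_zpow]
    rw [h1]
    exact E.mul_mem (E.zpow_mem (hconjE y hy) i) (E.inv_mem (E.zpow_mem haE i))
  have hcomQ : ⁅Q, A⁆ ≤ Q := by
    rw [Subgroup.commutator_le]
    intro y hy g hg
    have h1 : ⁅y, g⁆ = y * (g * y⁻¹ * g⁻¹) := by rw [commutatorElement_def]; group
    rw [h1]
    exact Q.mul_mem hy (hQconj (hAH hg) (Q.inv_mem hy))
  have hcardE : Nat.card ↥E = (p ^ 2 - 1) * p := by
    rw [Nat.card_congr φ.toEquiv, Cfsg.Agent.S2301.card_SL2, ZMod.card]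
  have hEpow : ∀ g ∈ E, g ^ ((p ^ 2 - 1) * p) = 1 := by
    intro g hg
    have h2 : (⟨g, hg⟩ : ↥E) ^ Nat.card ↥E = 1 := pow_card_eq_one'
    rw [hcardE] at h2
    exact congrArg Subtype.val h2
  rcases hp23 with h2 | h3
  · left
    refine ⟨h2, ?_⟩
    rintro ⟨g, hg⟩
    refine ⟨1, Subtype.ext ?_⟩
    show g ^ 3 ^ 1 = 1
    rw [pow_one]
    have h6 : g ^ ((p ^ 2 - 1) * p) = 1 := hEpow g (hcomE hg)
    have hr : g ^ Nat.card ↥Q = 1 := hQpow g (hcomQ hg)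
    have h7 : (p ^ 2 - 1) * p = 3 * p := by rw [h2]; norm_num
    rw [h7, pow_mul] at h6
    exact Cfsg.Agent.Lib.Helper4.SL2Rep.eq_one_of_pow_coprime hQcop.symm h6
      (by rw [← pow_mul, mul_comm, pow_mul, hr, one_pow])
  · right
    refine ⟨h3, ?_, ?_⟩
    · rintro ⟨g, hg⟩
      refine ⟨3, Subtype.ext ?_⟩
      show g ^ 2 ^ 3 = 1
      have h6 : g ^ ((p ^ 2 - 1) * p) = 1 := hEpow g (hcomE hg)
      have hr : g ^ Nat.card ↥Q = 1 := hQpow g (hcomQ hg)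
      have h7 : (p ^ 2 - 1) * p = 2 ^ 3 * p := by rw [h3]; norm_num
      rw [h7, pow_mul] at h6
      exact Cfsg.Agent.Lib.Helper4.SL2Rep.eq_one_of_pow_coprime hQcop.symm h6
        (by rw [← pow_mul, mul_comm, pow_mul, hr, one_pow])
    · intro hcomm
      have hq₁ : ⁅x, a⁆ ∈ ⁅Q, A⁆ := Subgroup.commutator_mem_commutator hxQ haA
      have hq₂ : ⁅a * x * a⁻¹, a⁆ ∈ ⁅Q, A⁆ :=
        Subgroup.commutator_mem_commutator (hQconj haH hxQ) haA
      have h1 := hcomm.is_comm.comm ⟨_, hq₁⟩ ⟨_, hq₂⟩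
      have h2 : ⁅x, a⁆ * ⁅a * x * a⁻¹, a⁆ = ⁅a * x * a⁻¹, a⁆ * ⁅x, a⁆ := congrArg Subtype.val h1
      apply hC2 h3
      obtain ⟨b, hb⟩ : ∃ b : G, b = x * a * x⁻¹ := ⟨_, rfl⟩
      rw [← hb]
      have hq1 : ⁅x, a⁆ = b * a⁻¹ := by rw [commutatorElement_def, hb]
      have hq2 : ⁅a * x * a⁻¹, a⁆ = a * b * a⁻¹ * a⁻¹ := by
        rw [commutatorElement_def, hb]; group
      rw [hq1, hq2] at h2
      have ha3 : a ^ 3 = 1 := by rw [← h3]; exact hap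
      have hb3 : b ^ 3 = 1 := by rw [hb, conj_pow, ha3, mul_one, mul_inv_cancel]
      have haaa : a * a * a = 1 := by rw [← ha3, pow_succ, pow_succ, pow_one]
      have hbbb : b * b * b = 1 := by rw [← hb3, pow_succ, pow_succ, pow_one]
      have ha2 : a⁻¹ * a⁻¹ = a := by
        calc a⁻¹ * a⁻¹ = a⁻¹ * a⁻¹ * (a * a * a) := by rw [haaa, mul_one]
          _ = a := by group
      have hb2 : b * b = b⁻¹ := by
        calc b * b = b⁻¹ * (b * b * b) := by group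
          _ = b⁻¹ := by rw [hbbb, mul_one]
      have e1 : b⁻¹ * a = a * b * a * b * a⁻¹ := by
        calc b⁻¹ * a = b * b * (a⁻¹ * a⁻¹) := by rw [hb2, ha2]
          _ = b * a⁻¹ * (a * b * a⁻¹ * a⁻¹) := by group
          _ = a * b * a⁻¹ * a⁻¹ * (b * a⁻¹) := h2
          _ = a * b * (a⁻¹ * a⁻¹) * b * a⁻¹ := by group
          _ = a * b * a * b * a⁻¹ := by rw [ha2]
      calc (a * b) ^ 3 = (a * b * a * b * a⁻¹) * (a * a * b) := by
            rw [pow_succ, pow_succ, pow_one]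
            simp only [mul_assoc, inv_mul_cancel_left]
        _ = b⁻¹ * a * (a * a * b) := by rw [← e1]
        _ = b⁻¹ * (a * a * a) * b := by group
        _ = 1 := by rw [haaa, mul_one, inv_mul_cancel]

end Cfsg.Agent.S0614
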