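import Mathlib
import Cfsg.Statements.S0616
import Cfsg.Agent.S0611
import Cfsg.Agent.S0612
import Cfsg.Agent.S0613
import Cfsg.Agent.S0614
import Cfsg.Agent.Lib.Helper4.Offender
import Cfsg.Agent.Lib.Helper4.SL2Rep
import Cfsg.Agent.Lib.Helper4.SL2Conj
import Cfsg.Agent.Lib.Helper4.SL2Fac
import Cfsg.Agent.Lib.Helper9.Cores
import Cfsg.Agent.Lib.Lead.QuadBridge

set_option autoImplicit false
open Cfsg

open scoped commutatorElement
open Cfsg.Agent.Lib.Lead.QuadBridge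

namespace Cfsg.Agent.S0616

universe u

/-- a minimal nontrivially-acting best offender is generated by a transvection -/
theorem tv_of_min {G : Type u} [Group G] [Finite G] {p : ℕ} [Fact p.Prime] (V H : Subgroup G)
    (hV : IsElementaryAbelian p V) (hHV : H ≤ Subgroup.normalizer (V : Set G))
    (hf : H ⊓ Subgroup.centralizer (V : Set G) = ⊥)
    (hS1 : Subgroup.centralizer (pPrimeCore p ↥H : Set ↥H) ≤ pPrimeCore p ↥H)
    (hS3 : H = ⨆ A : {A : Subgroup G // A ≤ H ∧ IsBestOffenderOn p V A}, (A : Subgroup G))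
    (hH1 : H ≠ ⊥) (A : Subgroup G) (hAH : A ≤ H) (hA : IsBestOffenderOn p V A)
    (hAV : ⁅V, A⁆ ≠ ⊥)
    (hmin : ∀ B : Subgroup G, B ≤ A → IsBestOffenderOn p V B → ⁅V, B⁆ ≠ ⊥ → B = A) :
    ∃ g ∈ A, g ≠ 1 ∧ g ^ p = 1 ∧ A = Subgroup.zpowers g ∧ ∃ v₀ ∈ V,
      g * v₀ * g⁻¹ * v₀⁻¹ ≠ 1 ∧
      ∀ v ∈ V, ∃ k : ℕ, g * v * g⁻¹ * v⁻¹ = (g * v₀ * g⁻¹ * v₀⁻¹) ^ k := by
  obtain ⟨hcA, hcW, -⟩ := Cfsg.Agent.S0611.result V H hV hHV hf hS1 hS3 hH1 A hAH hA hAV hmin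
  obtain ⟨hVc, hVp⟩ := hV
  have hp : p.Prime := Fact.out
  have hA1 : A ≠ ⊥ := by
    intro h
    rw [h] at hAV
    exact hAV (Subgroup.commutator_bot_right V)
  obtain ⟨a, haA, ha1⟩ := Cfsg.Agent.Lib.Helper4.Offender.exists_ne_one hA1
  have hap : a ^ p = 1 := Cfsg.Agent.Lib.Helper4.Offender.bo_pow hf hAH hA a haA
  have hAz : A = Subgroup.zpowers a := by
    symm
    apply Subgroup.eq_of_le_of_card_ge
    · rw [Subgroup.zpowers_le]; exact haA
    · exact le_of_eq (by rw [hcA, Nat.card_zpowers, orderOf_eq_prime hap ha1])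
  have haH : a ∈ H := hAH haA
  have haV : a ∈ Subgroup.normalizer (V : Set G) := hHV haH
  have haC : a ∉ Subgroup.centralizer (V : Set G) := by
    intro h
    have h1 : a ∈ H ⊓ Subgroup.centralizer (V : Set G) := Subgroup.mem_inf.mpr ⟨haH, h⟩
    rw [hf, Subgroup.mem_bot] at h1
    exact ha1 h1
  obtain ⟨v₀, hv₀, hv₀a⟩ : ∃ v₀ ∈ V, v₀ * a ≠ a * v₀ := by
    by_contra hcon
    push Not at hcon
    exact haC (Subgroup.mem_centralizer_iff.mpr hcon)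
  obtain ⟨u₁, hu₁def⟩ : ∃ u₁ : G, u₁ = a * v₀ * a⁻¹ * v₀⁻¹ := ⟨_, rfl⟩
  have hconjV : ∀ (g : G), g ∈ Subgroup.normalizer (V : Set G) → ∀ v ∈ V, g * v * g⁻¹ ∈ V :=
    fun g hg v hv => (Subgroup.mem_normalizer_iff.mp hg v).mp hv
  have hu₁V : u₁ ∈ V := by
    rw [hu₁def]; exact V.mul_mem (hconjV a haV v₀ hv₀) (V.inv_mem hv₀)
  have hu₁1 : u₁ ≠ 1 := by
    intro h
    apply hv₀a
    rw [hu₁def] at h
    have h1 : a * v₀ * a⁻¹ = v₀ := mul_inv_eq_one.mp h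
    have h2 : a * v₀ = v₀ * a := mul_inv_eq_iff_eq_mul.mp h1
    exact h2.symm
  have hcommA : ∀ v ∈ V, a * v * a⁻¹ * v⁻¹ ∈ ⁅V, Subgroup.zpowers a⁆ := by
    intro v hv
    have h1 : ⁅v, a⁆ ∈ ⁅V, Subgroup.zpowers a⁆ :=
      Subgroup.commutator_mem_commutator hv (Subgroup.mem_zpowers a)
    have h2 : a * v * a⁻¹ * v⁻¹ = ⁅v, a⁆⁻¹ := by rw [commutatorElement_inv]; rfl
    rw [h2]; exact Subgroup.inv_mem _ h1
  have hu₁W : u₁ ∈ ⁅V, Subgroup.zpowers a⁆ := by rw [hu₁def]; exact hcommA v₀ hv₀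
  have hu₁p : u₁ ^ p = 1 := hVp u₁ hu₁V
  have hord : orderOf u₁ = p := orderOf_eq_prime hu₁p hu₁1
  have hcW' : Nat.card ↥(⁅V, Subgroup.zpowers a⁆) = p := by rw [← hAz]; exact hcW
  have hzp : Subgroup.zpowers u₁ = ⁅V, Subgroup.zpowers a⁆ := by
    apply Subgroup.eq_of_le_of_card_ge
    · rw [Subgroup.zpowers_le]; exact hu₁W
    · exact le_of_eq (by rw [hcW', Nat.card_zpowers, hord])
  refine ⟨a, haA, ha1, hap, hAz, v₀, hv₀, ?_, ?_⟩
  · rw [← hu₁def]; exact hu₁1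
  · intro v hv
    rw [← hu₁def]
    have h1 : a * v * a⁻¹ * v⁻¹ ∈ Subgroup.zpowers u₁ := by rw [hzp]; exact hcommA v hv
    have h2 : a * v * a⁻¹ * v⁻¹ ∈ Submonoid.powers u₁ := mem_powers_iff_mem_zpowers.mpr h1
    obtain ⟨k, hk⟩ := (Submonoid.mem_powers_iff _ _).mp h2
    exact ⟨k, hk.symm⟩

/-- Each minimal nontrivially-acting best offender spans, with its commutator on the p'-core, a direct factor E of H isomorphic to SL(2, p) with a 2-dimensional commutator module complementing C_V(E). -/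
theorem result {G : Type*} [Group G] [Finite G] {p : ℕ} [Fact p.Prime] (V H : Subgroup G) (hV : Cfsg.IsElementaryAbelian p V) (hHV : H ≤ Subgroup.normalizer (V : Set G)) (hf : H ⊓ Subgroup.centralizer (V : Set G) = ⊥) (hS1 : Subgroup.centralizer (Cfsg.pPrimeCore p ↥H : Set ↥H) ≤ Cfsg.pPrimeCore p ↥H) (hS3 : H = ⨆ A : {A : Subgroup G // A ≤ H ∧ Cfsg.IsBestOffenderOn p V A}, (A : Subgroup G)) (hH1 : H ≠ ⊥) (A : Subgroup G) (hAH : A ≤ H) (hA : Cfsg.IsBestOffenderOn p V A) (hAV : ⁅V, A⁆ ≠ ⊥) (hmin : ∀ B : Subgroup G, B ≤ A → Cfsg.IsBestOffenderOn p V B → ⁅V, B⁆ ≠ ⊥ → B = A) : (p = 2 ∨ p = 3) ∧ Nonempty (↥(⁅((Cfsg.pPrimeCore p ↥H).map H.subtype), A⁆ ⊔ A) ≃* Matrix.SpecialLinearGroup (Fin 2) (ZMod p)) ∧ Nat.card ↥(⁅V, ⁅((Cfsg.pPrimeCore p ↥H).map H.subtype), A⁆ ⊔ A⁆) = p ^ 2 ∧ ⁅V, ⁅((Cfsg.pPrimeCore p ↥H).map H.subtype), A⁆ ⊔ A⁆ ⊓ (V ⊓ Subgroup.centralizer ((⁅((Cfsg.pPrimeCore p ↥H).map H.subtype),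 A⁆ ⊔ A : Subgroup G) : Set G)) = ⊥ ∧ ⁅V, ⁅((Cfsg.pPrimeCore p ↥H).map H.subtype), A⁆ ⊔ A⁆ ⊔ (V ⊓ Subgroup.centralizer ((⁅((Cfsg.pPrimeCore p ↥H).map H.subtype), A⁆ ⊔ A : Subgroup G) : Set G)) = V ∧ ⁅⁅((Cfsg.pPrimeCore p ↥H).map H.subtype), A⁆ ⊔ A, H ⊓ Subgroup.centralizer ((⁅V, ⁅((Cfsg.pPrimeCore p ↥H).map H.subtype), A⁆ ⊔ A⁆ : Subgroup G) : Set G)⁆ = ⊥ ∧ (⁅((Cfsg.pPrimeCore p ↥H).map H.subtype), A⁆ ⊔ A) ⊓ (H ⊓ Subgroup.centralizer ((⁅V, ⁅((Cfsg.pPrimeCore p ↥H).map H.subtype), A⁆ ⊔ A⁆ : Subgroup G) : Set G)) = ⊥ ∧ (⁅((Cfsg.pPrimeCore p ↥H).map H.subtype), A⁆ ⊔ A) ⊔ (H ⊓ Subgroup.centralizer ((⁅V, ⁅((Cfsg.pPrimeCore p ↥H).map H.subtype), A⁆ ⊔ A⁆ : Subgroup G) : Set G)) = H ∧ ⁅V, H ⊓ Subgroup.centralizer ((⁅V, ⁅((Cfsg.pPrimeCore p ↥H).map H.subtype), A⁆ ⊔ A⁆ : Subgroup G) : Set G)⁆ ≤ V ⊓ Subgroup.centralizer ((⁅((Cfsg.pPrimeCore p ↥H).map H.subtype), A⁆ ⊔ A : Subgroup G) : Set G) := by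
  have hV' := hV
  obtain ⟨hVc, hVp⟩ := hV
  have hp : p.Prime := Fact.out
  haveI : NeZero p := ⟨hp.ne_zero⟩
  obtain ⟨-, hcW, -⟩ := Cfsg.Agent.S0611.result V H hV' hHV hf hS1 hS3 hH1 A hAH hA hAV hmin
  obtain ⟨a, haA, ha1, hap, hAz, v₀, hv₀, hu₁1, hCaG⟩ :=
    tv_of_min V H hV' hHV hf hS1 hS3 hH1 A hAH hA hAV hmin
  have haH : a ∈ H := hAH haA
  obtain ⟨Q, hQdef⟩ : ∃ Q : Subgroup G, Q = Cfsg.Agent.Lib.Helper4.Offender.Qc p H := ⟨_, rfl⟩
  have hQmap : (Cfsg.pPrimeCore p ↥H).map H.subtype = Q := by rw [hQdef]; rfl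
  rw [hQmap]
  have hQcop : (Nat.card ↥Q).Coprime p := by
    rw [hQdef]; exact Cfsg.Agent.Lib.Helper4.Offender.Qc_coprime p H
  have hQpow : ∀ q ∈ Q, q ^ Nat.card ↥Q = 1 := by
    intro q hq
    have h2 : (⟨q, hq⟩ : ↥Q) ^ Nat.card ↥Q = 1 := pow_card_eq_one'
    exact congrArg Subtype.val h2
  obtain ⟨x, hxQ, hxa⟩ : ∃ x ∈ Q, x * a * x⁻¹ ≠ a := by
    by_contra hcon
    push Not at hcon
    have hc : a ∈ Subgroup.centralizer (Cfsg.Agent.Lib.Helper4.Offender.Qc p H : Set G) := by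
      rw [Subgroup.mem_centralizer_iff]
      intro q hq
      have hq' : q ∈ Q := by rw [hQdef]; exact hq
      exact mul_inv_eq_iff_eq_mul.mp (hcon q hq')
    have haQ : a ∈ Q := by
      rw [hQdef]
      exact Cfsg.Agent.Lib.Helper4.Offender.mem_Qc_of_centralizes hS1 haH hc
    exact ha1 (Cfsg.Agent.Lib.Helper4.SL2Rep.eq_one_of_pow_coprime hQcop (hQpow a haQ) hap)
  have hxA : x ∉ Subgroup.centralizer (A : Set G) := by
    intro h
    apply hxa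
    have h1 := Subgroup.mem_centralizer_iff.mp h a haA
    rw [← h1, mul_inv_cancel_right]
  have hxmap : x ∈ (Cfsg.pPrimeCore p ↥H).map H.subtype := by rw [hQmap]; exact hxQ
  have hxH : x ∈ H := Cfsg.Agent.Lib.Helper4.Offender.Qc_le p H hxmap
  have h613 := Cfsg.Agent.S0613.result V H hV' hHV hf hS1 hS3 hH1 A hAH hA hAV hmin x hxmap hxA
  obtain ⟨L, hLdef⟩ : ∃ L : Subgroup G, L = A ⊔ A.map (MulAut.conj x).toMonoidHom := ⟨_, rfl⟩
  rw [← hLdef] at h613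
  obtain ⟨hp23, hcardW, hLW, hiso⟩ := h613
  obtain ⟨hC1, -⟩ := Cfsg.Agent.S0614.core614 V H hVc hVp hHV hf a haH hap ha1
    (by rw [← hAz]; exact hcW) x hxmap hxa hp23
  rw [hQmap] at hC1
  have haL : a ∈ L := by rw [hLdef]; exact Subgroup.mem_sup_left haA
  have hbL : x * a * x⁻¹ ∈ L := by rw [hLdef]; exact Subgroup.mem_sup_right ⟨a, haA, rfl⟩
  have hconjE : ∀ y ∈ Q, y * a * y⁻¹ ∈ L := by
    intro y hy
    rcases hC1 y hy with h | h | h | h
    · rw [h]; exact haL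
    · rw [h]; exact hbL
    · rw [h]; exact L.mul_mem (L.mul_mem hbL haL) (L.inv_mem hbL)
    · rw [h]; exact L.mul_mem (L.mul_mem (L.inv_mem hbL) haL) hbL
  have hcomE : ⁅Q, A⁆ ≤ L := by
    rw [Subgroup.commutator_le]
    intro y hy g hg
    have hg' : g ∈ Subgroup.zpowers a := by rw [← hAz]; exact hg
    obtain ⟨i, rfl⟩ := Subgroup.mem_zpowers_iff.mp hg'
    have h1 : ⁅y, a ^ i⁆ = (y * a * y⁻¹) ^ i * (a ^ i)⁻¹ := by
      rw [commutatorElement_def, conj_zpow]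
    rw [h1]
    exact L.mul_mem (L.zpow_mem (hconjE y hy) i) (L.inv_mem (L.zpow_mem haL i))
  have hE : ⁅Q, A⁆ ⊔ A = L := by
    apply le_antisymm
    · exact sup_le hcomE (by rw [hLdef]; exact le_sup_left)
    · rw [hLdef]
      refine sup_le le_sup_right ?_
      rintro _ ⟨g, hg, rfl⟩
      have e : (MulAut.conj x).toMonoidHom g = ⁅x, g⁆ * g := by
        show x * g * x⁻¹ = ⁅x, g⁆ * g
        rw [commutatorElement_def]; group
      rw [e]
      exact Subgroup.mul_mem_sup (Subgroup.commutator_mem_commutator hxQ hg) hg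
  rw [hE]
  have hLcl : L = Subgroup.closure ({a, x * a * x⁻¹} : Set G) := by
    have hb0 : (MulAut.conj x).toMonoidHom a = x * a * x⁻¹ := rfl
    rw [hLdef, hAz, MonoidHom.map_zpowers, hb0, Subgroup.zpowers_eq_closure,
      Subgroup.zpowers_eq_closure, ← Subgroup.closure_union, Set.singleton_union]
  obtain ⟨b, hbdef⟩ : ∃ b : G, b = x * a * x⁻¹ := ⟨_, rfl⟩
  rw [← hbdef] at hLcl hbL
  have hbH : b ∈ H := by rw [hbdef]; exact H.mul_mem (H.mul_mem hxH haH) (H.inv_mem hxH)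
  have hLH : L ≤ H := by
    rw [hLcl, Subgroup.closure_le]
    intro y hy
    rcases hy with h | h
    · rw [SetLike.mem_coe, h]; exact haH
    · have h' : y = b := h
      rw [SetLike.mem_coe, h']; exact hbH
  obtain ⟨W, hWdef⟩ : ∃ W : Subgroup G, W = ⁅V, L⁆ := ⟨_, rfl⟩
  rw [← hWdef] at hcardW hLW ⊢
  -- the additive picture
  have hconjV : ∀ (g : G), g ∈ Subgroup.normalizer (V : Set G) → ∀ v ∈ V, g * v * g⁻¹ ∈ V :=
    fun g hg v hv => (Subgroup.mem_normalizer_iff.mp hg v).mp hv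
  have hMW : ∀ w : AV V hVc, p • w = 0 := by
    intro w
    refine AV_ext V hVc _ _ ?_
    rw [ofAV_nsmul_coe, hVp _ (ofAV V hVc w).2]; rfl
  haveI : Module (ZMod p) (AV V hVc) := AddCommGroup.zmodModule hMW
  obtain ⟨T, hT⟩ : ∃ T : ↥H →* Module.End (ZMod p) (AV V hVc), ∀ (e : ↥H) (m : AV V hVc),
      (ofAV V hVc (T e m) : G) = (e : G) * (ofAV V hVc m : G) * (e : G)⁻¹ := by
    refine ⟨{ toFun := fun e => (conjEnd V hVc ⟨e.1, hHV e.2⟩).toZModLinearMap p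
              map_one' := ?_
              map_mul' := ?_ }, fun e m => rfl⟩
    · apply LinearMap.ext
      intro m
      refine AV_ext V hVc _ _ ?_
      show (1 : G) * (ofAV V hVc m : G) * (1 : G)⁻¹ = (ofAV V hVc m : G)
      group
    · intro y z
      apply LinearMap.ext
      intro m
      refine AV_ext V hVc _ _ ?_
      show ((y : G) * (z : G)) * (ofAV V hVc m : G) * ((y : G) * (z : G))⁻¹ =
        (y : G) * ((z : G) * (ofAV V hVc m : G) * (z : G)⁻¹) * (y : G)⁻¹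
      group
  have hTinj : ∀ e : ↥H, T e = 1 → e = 1 := by
    intro e he
    have h0 : (e : G) ∈ Subgroup.centralizer (V : Set G) := by
      rw [Subgroup.mem_centralizer_iff]
      intro v hv
      have h2 := hT e (toAV V hVc ⟨v, hv⟩)
      rw [he, Module.End.one_apply] at h2
      have h3 : v = (e : G) * v * (e : G)⁻¹ := h2
      calc v * (e : G) = ((e : G) * v * (e : G)⁻¹) * (e : G) := by rw [← h3]
        _ = (e : G) * v := by group
    have h1 : (e : G) ∈ H ⊓ Subgroup.centralizer (V : Set G) := Subgroup.mem_inf.mpr ⟨e.2, h0⟩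
    rw [hf, Subgroup.mem_bot] at h1
    exact Subtype.ext h1
  obtain ⟨a', ha'⟩ : ∃ a' : ↥H, (a' : G) = a := ⟨⟨a, haH⟩, rfl⟩
  obtain ⟨x', hx'⟩ : ∃ x' : ↥H, (x' : G) = x := ⟨⟨x, hxH⟩, rfl⟩
  obtain ⟨u₁, hu₁def⟩ : ∃ u₁ : G, u₁ = a * v₀ * a⁻¹ * v₀⁻¹ := ⟨_, rfl⟩
  rw [← hu₁def] at hu₁1 hCaG
  have haV : a ∈ Subgroup.normalizer (V : Set G) := hHV haH
  have hxV : x ∈ Subgroup.normalizer (V : Set G) := hHV hxH
  have hu₁V : u₁ ∈ V := by
    rw [hu₁def]; exact V.mul_mem (hconjV a haV v₀ hv₀) (V.inv_mem hv₀)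
  obtain ⟨w₁, hw₁def⟩ : ∃ w₁ : AV V hVc, (ofAV V hVc w₁ : G) = u₁ :=
    ⟨toAV V hVc ⟨u₁, hu₁V⟩, rfl⟩
  have hw₁0 : w₁ ≠ 0 := by
    intro h
    apply hu₁1
    exact hw₁def.symm.trans (congrArg (fun w : AV V hVc => (ofAV V hVc w : G)) h)
  have hCa : ∀ m : AV V hVc, ∃ k : ZMod p, T a' m - m = k • w₁ := by
    intro m
    obtain ⟨k, hk⟩ := hCaG (ofAV V hVc m : G) (ofAV V hVc m).2
    refine ⟨(k : ZMod p), AV_ext V hVc _ _ ?_⟩
    rw [Nat.cast_smul_eq_nsmul, ofAV_sub_coe, ofAV_nsmul_coe, hT, ha', hw₁def]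
    exact hk
  have hNc : (Nat.card (pPrimeCore p ↥H)).Coprime p :=
    Cfsg.Agent.Lib.Helper9.pPrimeCore_coprime p ↥H
  have hx'N : x' ∈ pPrimeCore p ↥H := by
    obtain ⟨y, hy, hyx⟩ := hxmap
    have hyx' : y = x' := Subtype.ext (hyx.trans hx'.symm)
    rw [← hyx']; exact hy
  have hxa' : x' * a' * x'⁻¹ ≠ a' := by
    intro h
    apply hxa
    have h0 : (x' : G) * (a' : G) * (x' : G)⁻¹ = (a' : G) := congrArg Subtype.val h
    rw [hx', ha'] at h0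
    exact h0
  have ha'p : a' ^ p = 1 := by
    apply Subtype.ext
    show (a' : G) ^ p = 1
    rw [ha', hap]
  obtain ⟨hind, hsp, h4, h5, h6, h8⟩ := Cfsg.Agent.Lib.Helper4.SL2Fac.fac_main T hTinj
    (pPrimeCore p ↥H) hNc hS1 a' ha'p w₁ hw₁0 hCa x' hx'N hxa'
  have hCb0 : ∀ m : AV V hVc, ∃ k : ZMod p, T (x' * a' * x'⁻¹) m - m = k • T x' w₁ :=
    fun m => Cfsg.Agent.Lib.Helper4.SL2Fac.tv_conj T a' w₁ hCa x' m
  obtain ⟨b', hb'def⟩ : ∃ b' : ↥H, b' = x' * a' * x'⁻¹ := ⟨_, rfl⟩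
  obtain ⟨w₂, hw₂def⟩ : ∃ w₂ : AV V hVc, w₂ = T x' w₁ := ⟨_, rfl⟩
  rw [← hw₂def] at hind hsp h4 h5 h6 h8 hCb0
  rw [← hb'def] at hsp h4 h5 h6 h8 hCb0
  have hb' : (b' : G) = b := by
    rw [hb'def, hbdef]
    show (x' : G) * (a' : G) * (x' : G)⁻¹ = x * a * x⁻¹
    rw [hx', ha']
  have hu₂def : (ofAV V hVc w₂ : G) = x * u₁ * x⁻¹ := by rw [hw₂def, hT, hx', hw₁def]
  obtain ⟨L', hL'def⟩ : ∃ L' : Subgroup ↥H, L' = Subgroup.closure ({a', b'} : Set ↥H) :=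
    ⟨_, rfl⟩
  rw [← hL'def] at hsp h8
  have hL'map : L'.map H.subtype = L := by
    rw [hL'def, MonoidHom.map_closure, Set.image_pair, hLcl]
    show Subgroup.closure {(a' : G), (b' : G)} = _
    rw [ha', hb']
  have hL'L : ∀ e : ↥H, e ∈ L' → (e : G) ∈ L := by
    intro e he
    rw [← hL'map]
    exact ⟨e, he, rfl⟩
  have hadd : ∀ y z : AV V hVc,
      (ofAV V hVc (y + z) : G) = (ofAV V hVc y : G) * (ofAV V hVc z : G) := fun _ _ => rfl
  have hzero : (ofAV V hVc (0 : AV V hVc) : G) = 1 := rfl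
  have hsm : ∀ (c : ZMod p) (w : AV V hVc),
      (ofAV V hVc (c • w) : G) = (ofAV V hVc w : G) ^ c.val := by
    intro c w
    have h1 : c • w = c.val • w := by
      rw [← Nat.cast_smul_eq_nsmul (ZMod p), ZMod.natCast_zmod_val]
    rw [h1, ofAV_nsmul_coe]
  have hu₁W : u₁ ∈ W := by
    have h1 : ⁅v₀, a⁆ ∈ ⁅V, L⁆ := Subgroup.commutator_mem_commutator hv₀ haL
    have h2 : u₁ = ⁅v₀, a⁆⁻¹ := by rw [hu₁def, commutatorElement_inv]; rfl
    rw [hWdef, h2]; exact Subgroup.inv_mem _ h1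
  have hu₂W : (ofAV V hVc w₂ : G) ∈ W := by
    have h1 : ⁅x * v₀ * x⁻¹, b⁆ ∈ ⁅V, L⁆ :=
      Subgroup.commutator_mem_commutator (hconjV x hxV v₀ hv₀) hbL
    have h2 : (ofAV V hVc w₂ : G) = ⁅x * v₀ * x⁻¹, b⁆⁻¹ := by
      rw [hu₂def, hu₁def, commutatorElement_inv, commutatorElement_def, hbdef]; group
    rw [hWdef, h2]; exact Subgroup.inv_mem _ h1
  have hWmem : ∀ c₀ c₁ : ZMod p, (ofAV V hVc (c₀ • w₁ + c₁ • w₂) : G) ∈ W := by
    intro c₀ c₁
    rw [hadd, hsm, hsm, hw₁def]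
    exact W.mul_mem (W.pow_mem hu₁W _) (W.pow_mem hu₂W _)
  have hWspan : ∀ g ∈ W, ∃ c₀ c₁ : ZMod p, g = (ofAV V hVc (c₀ • w₁ + c₁ • w₂) : G) := by
    obtain ⟨f, hfdef⟩ : ∃ f : ZMod p × ZMod p → ↥W,
        ∀ c, (f c : G) = (ofAV V hVc (c.1 • w₁ + c.2 • w₂) : G) :=
      ⟨fun c => ⟨_, hWmem c.1 c.2⟩, fun _ => rfl⟩
    have hfinj : Function.Injective f := by
      intro c d hcd
      have hcd' : (f c : G) = (f d : G) := congrArg Subtype.val hcd
      rw [hfdef, hfdef] at hcd'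
      have h1 : c.1 • w₁ + c.2 • w₂ = d.1 • w₁ + d.2 • w₂ := AV_ext V hVc _ _ hcd'
      have h2 : (c.1 - d.1) • w₁ + (c.2 - d.2) • w₂ = 0 := by
        rw [sub_smul, sub_smul]
        have h3 : c.1 • w₁ - d.1 • w₁ + (c.2 • w₂ - d.2 • w₂) =
            (c.1 • w₁ + c.2 • w₂) - (d.1 • w₁ + d.2 • w₂) := by abel
        rw [h3, h1, sub_self]
      obtain ⟨h3, h4'⟩ := hind _ _ h2
      exact Prod.ext (sub_eq_zero.mp h3) (sub_eq_zero.mp h4')
    have hc2 : Nat.card (ZMod p × ZMod p) = p ^ 2 := by rw [Nat.card_prod, Nat.card_zmod, sq]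
    have hbij : Function.Bijective f :=
      Function.Injective.bijective_of_nat_card_le hfinj (le_of_eq (hcardW.trans hc2.symm))
    intro g hg
    obtain ⟨c, hc⟩ := hbij.2 ⟨g, hg⟩
    refine ⟨c.1, c.2, ?_⟩
    rw [← hfdef, hc]
  have hfixW : ∀ h : ↥H, T h w₁ = w₁ → T h w₂ = w₂ →
      (h : G) ∈ Subgroup.centralizer (W : Set G) := by
    intro h h1 h2
    rw [Subgroup.mem_centralizer_iff]
    intro g hg
    obtain ⟨c₀, c₁, rfl⟩ := hWspan g hg
    have h3 : T h (c₀ • w₁ + c₁ • w₂) = c₀ • w₁ + c₁ • w₂ := by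
      rw [map_add, map_smul, map_smul, h1, h2]
    have h4' := hT h (c₀ • w₁ + c₁ • w₂)
    rw [h3] at h4'
    calc (ofAV V hVc (c₀ • w₁ + c₁ • w₂) : G) * (h : G)
        = ((h : G) * (ofAV V hVc (c₀ • w₁ + c₁ • w₂) : G) * (h : G)⁻¹) * (h : G) := by
          rw [← h4']
      _ = (h : G) * (ofAV V hVc (c₀ • w₁ + c₁ • w₂) : G) := by group
  have hfixW' : ∀ h : ↥H, (h : G) ∈ Subgroup.centralizer (W : Set G) →
      T h w₁ = w₁ ∧ T h w₂ = w₂ := by
    intro h hh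
    rw [Subgroup.mem_centralizer_iff] at hh
    constructor
    · refine AV_ext V hVc _ _ ?_
      rw [hT, hw₁def]
      have h0 := hh u₁ hu₁W
      rw [← h0, mul_inv_cancel_right]
    · refine AV_ext V hVc _ _ ?_
      rw [hT]
      have h0 := hh _ hu₂W
      rw [← h0, mul_inv_cancel_right]
  have hcentL : ∀ v : G, a * v = v * a → b * v = v * b →
      v ∈ Subgroup.centralizer (L : Set G) := by
    intro v hav hbv
    have h1 : L ≤ Subgroup.centralizer ({v} : Set G) := by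
      rw [hLcl, Subgroup.closure_le]
      intro y hy
      rw [SetLike.mem_coe, Subgroup.mem_centralizer_iff]
      intro z hz
      rw [Set.mem_singleton_iff] at hz
      rw [hz]
      rcases hy with h | h
      · rw [h]; exact hav.symm
      · have h' : y = b := h
        rw [h']; exact hbv.symm
    rw [Subgroup.mem_centralizer_iff]
    intro g hg
    have h2 := Subgroup.mem_centralizer_iff.mp (h1 hg) v (Set.mem_singleton v)
    exact h2.symm
  have hfixL : ∀ m : AV V hVc, T a' m = m → T b' m = m →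
      (ofAV V hVc m : G) ∈ Subgroup.centralizer (L : Set G) := by
    intro m h1 h2
    apply hcentL
    · have h3 := hT a' m
      rw [h1, ha'] at h3
      calc a * (ofAV V hVc m : G) = (a * (ofAV V hVc m : G) * a⁻¹) * a := by group
        _ = (ofAV V hVc m : G) * a := by rw [← h3]
    · have h3 := hT b' m
      rw [h2, hb'] at h3
      calc b * (ofAV V hVc m : G) = (b * (ofAV V hVc m : G) * b⁻¹) * b := by group
        _ = (ofAV V hVc m : G) * b := by rw [← h3]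
  have hfixL' : ∀ m : AV V hVc, (ofAV V hVc m : G) ∈ Subgroup.centralizer (L : Set G) →
      T a' m = m ∧ T b' m = m := by
    intro m hm
    rw [Subgroup.mem_centralizer_iff] at hm
    constructor
    · refine AV_ext V hVc _ _ ?_
      rw [hT, ha']
      have h0 := hm a haL
      rw [h0, mul_inv_cancel_right]
    · refine AV_ext V hVc _ _ ?_
      rw [hT, hb']
      have h0 := hm b hbL
      rw [h0, mul_inv_cancel_right]
  have hDL : ∀ d ∈ H ⊓ Subgroup.centralizer (W : Set G), ∀ e ∈ L, d * e = e * d := by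
    intro d hd e he
    obtain ⟨hdH, hdC⟩ := Subgroup.mem_inf.mp hd
    obtain ⟨d1, d2⟩ := hfixW' ⟨d, hdH⟩ hdC
    obtain ⟨k1, k2⟩ := h6 ⟨d, hdH⟩ d1 d2
    have ka : d * a = a * d := by
      have h0 : d * (a' : G) = (a' : G) * d := congrArg Subtype.val k1
      rw [ha'] at h0
      exact h0
    have kb : d * b = b * d := by
      have h0 : d * (b' : G) = (b' : G) * d := congrArg Subtype.val k2
      rw [hb'] at h0
      exact h0
    have h1 : L ≤ Subgroup.centralizer ({d} : Set G) := by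
      rw [hLcl, Subgroup.closure_le]
      intro y hy
      rw [SetLike.mem_coe, Subgroup.mem_centralizer_iff]
      intro z hz
      rw [Set.mem_singleton_iff] at hz
      rw [hz]
      rcases hy with h | h
      · rw [h]; exact ka
      · have h' : y = b := h
        rw [h']; exact kb
    exact Subgroup.mem_centralizer_iff.mp (h1 he) d (Set.mem_singleton d)
  refine ⟨hp23, hiso, hcardW, ?_, ?_, ?_, ?_, ?_, ?_⟩
  · rw [eq_bot_iff]
    intro g hg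
    obtain ⟨hgW, hgU⟩ := Subgroup.mem_inf.mp hg
    obtain ⟨c₀, c₁, rfl⟩ := hWspan g hgW
    obtain ⟨k1, k2⟩ := hfixL' _ (Subgroup.mem_inf.mp hgU).2
    obtain ⟨hc₀, hc₁⟩ := h4 c₀ c₁ k1 k2
    rw [Subgroup.mem_bot, hc₀, hc₁, zero_smul, zero_smul, add_zero]
    exact hzero
  · apply le_antisymm
    · refine sup_le ?_ inf_le_left
      intro g hg
      obtain ⟨c₀, c₁, rfl⟩ := hWspan g hg
      exact (ofAV V hVc _).2
    · intro v hv
      obtain ⟨c₀, c₁, k1, k2⟩ := h5 (toAV V hVc ⟨v, hv⟩)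
      have e1 : (c₀ • w₁ + c₁ • w₂) + (toAV V hVc ⟨v, hv⟩ - (c₀ • w₁ + c₁ • w₂)) =
          toAV V hVc ⟨v, hv⟩ := by abel
      have e : (ofAV V hVc (c₀ • w₁ + c₁ • w₂) : G) *
          (ofAV V hVc (toAV V hVc ⟨v, hv⟩ - (c₀ • w₁ + c₁ • w₂)) : G) = v := by
        calc (ofAV V hVc (c₀ • w₁ + c₁ • w₂) : G) *
              (ofAV V hVc (toAV V hVc ⟨v, hv⟩ - (c₀ • w₁ + c₁ • w₂)) : G)
            = (ofAV V hVc ((c₀ • w₁ + c₁ • w₂) +
                (toAV V hVc ⟨v, hv⟩ - (c₀ • w₁ + c₁ • w₂))) : G) := (hadd _ _).symm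
          _ = (ofAV V hVc (toAV V hVc ⟨v, hv⟩) : G) := by rw [e1]
          _ = v := rfl
      have h0 := Subgroup.mul_mem_sup (hWmem c₀ c₁)
        (Subgroup.mem_inf.mpr ⟨(ofAV V hVc _).2, hfixL _ k1 k2⟩ :
          (ofAV V hVc (toAV V hVc ⟨v, hv⟩ - (c₀ • w₁ + c₁ • w₂)) : G) ∈
            V ⊓ Subgroup.centralizer (L : Set G))
      rw [e] at h0
      exact h0
  · rw [Subgroup.commutator_eq_bot_iff_le_centralizer]
    intro e he
    rw [Subgroup.mem_centralizer_iff]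
    intro d hd
    exact hDL d hd e he
  · rw [eq_bot_iff, ← hLW]
    exact inf_le_inf_left L inf_le_right
  · apply le_antisymm
    · exact sup_le hLH inf_le_left
    · have hgen : ∀ B : {B : Subgroup G // B ≤ H ∧ IsBestOffenderOn p V B},
          (B : Subgroup G) ≤ L ⊔ (H ⊓ Subgroup.centralizer (W : Set G)) := by
        rintro ⟨B, hBH, hBbo⟩
        show B ≤ _
        by_cases hB1 : B = ⊥
        · rw [hB1]; exact bot_le
        · obtain ⟨k, Bi, hBi, -, hsup⟩ :=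
            Cfsg.Agent.S0612.result V H hV' hHV hf hS1 hS3 hH1 B hBH hBbo hB1
          rw [← hsup]
          apply iSup_le
          intro i
          obtain ⟨hBiB, hBibo, hBiV, hBimin⟩ := hBi i
          obtain ⟨g, hgB, hg1, hgp, hBz, v₁, hv₁, hun, hCgG⟩ :=
            tv_of_min V H hV' hHV hf hS1 hS3 hH1 (Bi i) (hBiB.trans hBH) hBibo hBiV hBimin
          have hgH : g ∈ H := hBH (hBiB hgB)
          obtain ⟨us, husdef⟩ : ∃ us : G, us = g * v₁ * g⁻¹ * v₁⁻¹ := ⟨_, rfl⟩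
          rw [← husdef] at hun hCgG
          have husV : us ∈ V := by
            rw [husdef]; exact V.mul_mem (hconjV g (hHV hgH) v₁ hv₁) (V.inv_mem hv₁)
          obtain ⟨ws, hwsdef⟩ : ∃ ws : AV V hVc, (ofAV V hVc ws : G) = us :=
            ⟨toAV V hVc ⟨us, husV⟩, rfl⟩
          have hws0 : ws ≠ 0 := by
            intro h
            apply hun
            exact hwsdef.symm.trans (congrArg (fun w : AV V hVc => (ofAV V hVc w : G)) h)
          obtain ⟨g', hg'⟩ : ∃ g' : ↥H, (g' : G) = g := ⟨⟨g, hgH⟩, rfl⟩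
          have hCg : ∀ m : AV V hVc, ∃ k : ZMod p, T g' m - m = k • ws := by
            intro m
            obtain ⟨k, hk⟩ := hCgG (ofAV V hVc m : G) (ofAV V hVc m).2
            refine ⟨(k : ZMod p), AV_ext V hVc _ _ ?_⟩
            rw [Nat.cast_smul_eq_nsmul, ofAV_sub_coe, ofAV_nsmul_coe, hT, hg', hwsdef]
            exact hk
          have hg'p : g' ^ p = 1 := by
            apply Subtype.ext
            show (g' : G) ^ p = 1
            rw [hg', hgp]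
          obtain ⟨e, heL', k1, k2⟩ := h8 g' ws hg'p hws0 hCg
          have hmem : (e : G)⁻¹ * g ∈ H ⊓ Subgroup.centralizer (W : Set G) := by
            refine Subgroup.mem_inf.mpr ⟨H.mul_mem (H.inv_mem e.2) hgH, ?_⟩
            have h0 : (e : G)⁻¹ * (g' : G) ∈ Subgroup.centralizer (W : Set G) :=
              hfixW (e⁻¹ * g') k1 k2
            rw [hg'] at h0
            exact h0
          have hgmem : g ∈ L ⊔ (H ⊓ Subgroup.centralizer (W : Set G)) := by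
            have h0 := Subgroup.mul_mem_sup (hL'L e heL') hmem
            rwa [mul_inv_cancel_left] at h0
          rw [hBz, Subgroup.zpowers_le]
          exact hgmem
      calc H = ⨆ B : {B : Subgroup G // B ≤ H ∧ IsBestOffenderOn p V B}, (B : Subgroup G) := hS3
        _ ≤ L ⊔ (H ⊓ Subgroup.centralizer (W : Set G)) := iSup_le hgen
  · rw [Subgroup.commutator_le]
    intro v hv d hd
    obtain ⟨hdH, hdC⟩ := Subgroup.mem_inf.mp hd
    obtain ⟨d1, d2⟩ := hfixW' ⟨d, hdH⟩ hdC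
    obtain ⟨k1, k2⟩ := h6 ⟨d, hdH⟩ d1 d2
    obtain ⟨m, hm⟩ : ∃ m : AV V hVc, (ofAV V hVc m : G) = v := ⟨toAV V hVc ⟨v, hv⟩, rfl⟩
    have e : ⁅v, d⁆ = (ofAV V hVc (m - T ⟨d, hdH⟩ m) : G) := by
      rw [ofAV_sub_coe, hT, hm, commutatorElement_def]
      show v * d * v⁻¹ * d⁻¹ = v * (d * v * d⁻¹)⁻¹
      group
    rw [e]
    refine Subgroup.mem_inf.mpr ⟨(ofAV V hVc _).2, hfixL _ ?_ ?_⟩
    · obtain ⟨k, hk⟩ := hCa m
      have hTa : T a' m = m + k • w₁ := by rw [← hk]; abel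
      have hcm : T a' (T ⟨d, hdH⟩ m) = T ⟨d, hdH⟩ (T a' m) := by
        have h1 : T (⟨d, hdH⟩ * a') m = T (a' * ⟨d, hdH⟩) m := by rw [k1]
        rw [map_mul, map_mul, Module.End.mul_apply, Module.End.mul_apply] at h1
        exact h1.symm
      rw [map_sub, hcm, hTa, map_add, map_smul, d1]
      abel
    · obtain ⟨k, hk⟩ := hCb0 m
      have hTb : T b' m = m + k • w₂ := by rw [← hk]; abel
      have hcm : T b' (T ⟨d, hdH⟩ m) = T ⟨d, hdH⟩ (T b' m) := by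
        have h1 : T (⟨d, hdH⟩ * b') m = T (b' * ⟨d, hdH⟩) m := by rw [k2]
        rw [map_mul, map_mul, Module.End.mul_apply, Module.End.mul_apply] at h1
        exact h1.symm
      rw [map_sub, hcm, hTb, map_add, map_smul, d2]
      abel

end Cfsg.Agent.S0616
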