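import Mathlib
import Cfsg.Statements.S0617
import Cfsg.Agent.S0611
import Cfsg.Agent.S0612
import Cfsg.Agent.S0616
import Cfsg.Agent.Lib.Helper4.Offender
import Cfsg.Agent.Lib.Helper9.Cores

set_option autoImplicit false
open Cfsg

open scoped commutatorElement

namespace Cfsg.Agent.S0617

universe u v

theorem mem_sup_of_comm {G : Type u} [Group G] {X Y : Subgroup G}
    (h : ∀ x ∈ X, ∀ y ∈ Y, x * y = y * x) {g : G} (hg : g ∈ X ⊔ Y) :
    ∃ x ∈ X, ∃ y ∈ Y, g = x * y := by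
  rw [Subgroup.sup_eq_closure] at hg
  induction hg using Subgroup.closure_induction with
  | mem z hz =>
    rcases hz with hz | hz
    · exact ⟨z, hz, 1, Y.one_mem, (mul_one z).symm⟩
    · exact ⟨1, X.one_mem, z, hz, (one_mul z).symm⟩
  | one => exact ⟨1, X.one_mem, 1, Y.one_mem, (mul_one 1).symm⟩
  | mul a b _ _ iha ihb =>
    obtain ⟨x, hx, y, hy, rfl⟩ := iha
    obtain ⟨x', hx', y', hy', rfl⟩ := ihb
    refine ⟨x * x', X.mul_mem hx hx', y * y', Y.mul_mem hy hy', ?_⟩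
    have hc := h x' hx' y hy
    calc x * y * (x' * y') = x * (y * x') * y' := by group
      _ = x * (x' * y) * y' := by rw [hc]
      _ = x * x' * (y * y') := by group
  | inv a _ iha =>
    obtain ⟨x, hx, y, hy, rfl⟩ := iha
    refine ⟨x⁻¹, X.inv_mem hx, y⁻¹, Y.inv_mem hy, ?_⟩
    have hc := h x⁻¹ (X.inv_mem hx) y⁻¹ (Y.inv_mem hy)
    rw [hc]; group

theorem mem_of_pow_mem {G : Type u} [Group G] {p : ℕ} [Fact p.Prime] {x : G} (hx : x ^ p = 1)
    (k : ℕ) (hk : x ^ k ≠ 1) (S : Subgroup G) (hS : x ^ k ∈ S) : x ∈ S := by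
  have hp : p.Prime := Fact.out
  have hx1 : x ≠ 1 := fun h => hk (by rw [h, one_pow])
  have ho : orderOf x = p := orderOf_eq_prime hx hx1
  have hkp : Nat.Coprime k p := by
    rw [Nat.coprime_comm, hp.coprime_iff_not_dvd]
    intro hdvd
    apply hk
    rw [← ho] at hdvd
    exact orderOf_dvd_iff_pow_eq_one.mp hdvd
  obtain ⟨m, -, hm⟩ := Nat.exists_mul_mod_eq_one_of_coprime hkp hp.one_lt
  have : (x ^ k) ^ m = x := by
    rw [← pow_mul, ← pow_mod_orderOf, ho, hm, pow_one]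
  rw [← this]
  exact S.pow_mem hS m

theorem struct_core {G : Type u} [Group G] (V H : Subgroup G)
    (hVc : ∀ v ∈ V, ∀ w ∈ V, v * w = w * v) {ι : Type v} [Finite ι] (E : ι → Subgroup G)
    (h4 : ∀ i, ⁅V, E i⁆ ⊓ (V ⊓ Subgroup.centralizer (E i : Set G)) = ⊥)
    (h5 : ∀ i, ⁅V, E i⁆ ⊔ (V ⊓ Subgroup.centralizer (E i : Set G)) = V)
    (hcross : ∀ i j, i ≠ j → ⁅V, E j⁆ ≤ V ⊓ Subgroup.centralizer (E i : Set G))
    (hsup : ⨆ i, E i = H) :
    iSupIndep (fun o : Option ι =>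
        o.elim (V ⊓ Subgroup.centralizer (H : Set G)) (fun i => ⁅V, E i⁆)) ∧
      (V ⊓ Subgroup.centralizer (H : Set G)) ⊔ (⨆ i, ⁅V, E i⁆) = V := by
  classical
  haveI := Fintype.ofFinite ι
  have hEH : ∀ i, E i ≤ H := fun i => by rw [← hsup]; exact le_iSup E i
  have hWV : ∀ i, ⁅V, E i⁆ ≤ V := fun i => le_sup_left.trans (le_of_eq (h5 i))
  have hpeel : ∀ (S : Finset ι) (x : G), x ∈ V ⊓ Subgroup.centralizer (H : Set G) →
      x ∈ ⨆ i ∈ S, ⁅V, E i⁆ → x = 1 := by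
    intro S
    induction S using Finset.induction_on with
    | empty =>
      intro x _ hx
      simpa using hx
    | insert a S' ha ih =>
      intro x hxU hx
      rw [Finset.iSup_insert] at hx
      have hRle : (⨆ i ∈ S', ⁅V, E i⁆) ≤ V ⊓ Subgroup.centralizer (E a : Set G) :=
        iSup₂_le fun i hi => hcross a i (fun h => ha (by rw [h]; exact hi))
      obtain ⟨w, hw, r, hr, rfl⟩ := mem_sup_of_comm
        (fun x hx y hy => hVc x (hWV a hx) y ((hRle.trans inf_le_left) hy)) hx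
      have hxU' := Subgroup.mem_inf.mp hxU
      have hrU := Subgroup.mem_inf.mp (hRle hr)
      have hwV : w ∈ V := hWV a hw
      have hxCa : w * r ∈ Subgroup.centralizer (E a : Set G) :=
        Subgroup.centralizer_le (SetLike.coe_subset_coe.mpr (hEH a)) hxU'.2
      have hwCa : w ∈ Subgroup.centralizer (E a : Set G) := by
        have := (Subgroup.centralizer (E a : Set G)).mul_mem hxCa
          ((Subgroup.centralizer (E a : Set G)).inv_mem hrU.2)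
        simpa using this
      have hw1 : w = 1 := by
        have : w ∈ ⁅V, E a⁆ ⊓ (V ⊓ Subgroup.centralizer (E a : Set G)) :=
          Subgroup.mem_inf.mpr ⟨hw, Subgroup.mem_inf.mpr ⟨hwV, hwCa⟩⟩
        rw [h4 a] at this
        exact Subgroup.mem_bot.mp this
      subst hw1
      rw [one_mul] at hxU ⊢
      exact ih r hxU hr
  have hdec : ∀ (S : Finset ι), ∀ v ∈ V, ∃ u ∈ V,
      (∀ i ∈ S, u ∈ Subgroup.centralizer (E i : Set G)) ∧
      ∃ r ∈ ⨆ i ∈ S, ⁅V, E i⁆, v = u * r := by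
    intro S
    induction S using Finset.induction_on with
    | empty =>
      intro v hv
      exact ⟨v, hv, fun i hi => absurd hi (Finset.notMem_empty i), 1, Subgroup.one_mem _,
        (mul_one v).symm⟩
    | insert a S' ha ih =>
      intro v hv
      obtain ⟨u', hu'V, hu'C, r, hr, rfl⟩ := ih v hv
      have hu'mem : u' ∈ ⁅V, E a⁆ ⊔ (V ⊓ Subgroup.centralizer (E a : Set G)) := by
        rw [h5 a]; exact hu'V
      obtain ⟨w, hw, u, hu, rfl⟩ := mem_sup_of_comm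
        (fun x hx y hy => hVc x (hWV a hx) y ((inf_le_left : V ⊓ Subgroup.centralizer (E a : Set G) ≤ V) hy))
        hu'mem
      have huV := (Subgroup.mem_inf.mp hu).1
      have huC := (Subgroup.mem_inf.mp hu).2
      have hwV : w ∈ V := hWV a hw
      refine ⟨u, huV, ?_, w * r, ?_, ?_⟩
      · intro i hi
        rcases Finset.mem_insert.mp hi with hia | hi
        · rw [hia]; exact huC
        · have hia : i ≠ a := fun h => ha (by rw [← h]; exact hi)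
          have hwCi : w ∈ Subgroup.centralizer (E i : Set G) :=
            (Subgroup.mem_inf.mp (hcross i a hia hw)).2
          have := (Subgroup.centralizer (E i : Set G)).mul_mem
            ((Subgroup.centralizer (E i : Set G)).inv_mem hwCi) (hu'C i hi)
          simpa using this
      · rw [Finset.iSup_insert]
        exact Subgroup.mul_mem_sup hw hr
      · rw [hVc w hwV u huV]; group
  have hfull : ∀ x, x ∈ V ⊓ Subgroup.centralizer (H : Set G) → x ∈ ⨆ i, ⁅V, E i⁆ → x = 1 := by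
    intro x hxU hx
    refine hpeel Finset.univ x hxU ?_
    simpa using hx
  constructor
  · intro o
    cases o with
    | none =>
      rw [Subgroup.disjoint_def]
      intro x hxU hx
      have key : ∀ j : Option ι, j ≠ none →
          (fun o : Option ι =>
            o.elim (V ⊓ Subgroup.centralizer (H : Set G)) (fun i => ⁅V, E i⁆)) j
            ≤ ⨆ i, ⁅V, E i⁆ := by
        intro j hj
        cases j with
        | none => exact absurd rfl hj
        | some i => exact le_iSup (fun i => ⁅V, E i⁆) i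
      exact hfull x hxU (iSup₂_le key hx)
    | some i =>
      have key : ∀ j : Option ι, j ≠ some i →
          (fun o : Option ι =>
            o.elim (V ⊓ Subgroup.centralizer (H : Set G)) (fun i => ⁅V, E i⁆)) j
            ≤ V ⊓ Subgroup.centralizer (E i : Set G) := by
        intro j hj
        cases j with
        | none =>
          exact inf_le_inf_left V
            (Subgroup.centralizer_le (SetLike.coe_subset_coe.mpr (hEH i)))
        | some j =>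
          exact hcross i j (fun h => hj (congrArg some h.symm))
      exact (disjoint_iff.mpr (h4 i)).mono_right (iSup₂_le key)
  · apply le_antisymm
    · exact sup_le inf_le_left (iSup_le hWV)
    · intro v hv
      obtain ⟨u, huV, huC, r, hr, rfl⟩ := hdec Finset.univ v hv
      have huH : u ∈ Subgroup.centralizer (H : Set G) := by
        have hle : H ≤ Subgroup.centralizer (Subgroup.zpowers u : Set G) := by
          rw [← hsup]
          refine iSup_le fun i => ?_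
          rw [Subgroup.le_centralizer_iff, Subgroup.zpowers_le]
          exact huC i (Finset.mem_univ i)
        have := Subgroup.le_centralizer_iff.mp hle
        exact this (Subgroup.mem_zpowers u)
      have hr' : r ∈ ⨆ i, ⁅V, E i⁆ := by simpa using hr
      exact Subgroup.mul_mem_sup (Subgroup.mem_inf.mpr ⟨huV, huH⟩) hr'

theorem cross_core {G : Type u} [Group G] [Finite G] {p : ℕ} [Fact p.Prime] (V H E D : Subgroup G)
    (hVcomm : ∀ v ∈ V, ∀ w ∈ V, v * w = w * v)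
    (hf : H ⊓ Subgroup.centralizer (V : Set G) = ⊥)
    (h4 : ⁅V, E⁆ ⊓ (V ⊓ Subgroup.centralizer (E : Set G)) = ⊥)
    (h5 : ⁅V, E⁆ ⊔ (V ⊓ Subgroup.centralizer (E : Set G)) = V)
    (hED : ⁅E, D⁆ = ⊥) (hEDi : E ⊓ D = ⊥) (hEDs : E ⊔ D = H)
    (hVD : ⁅V, D⁆ ≤ V ⊓ Subgroup.centralizer (E : Set G))
    (hD : D = H ⊓ Subgroup.centralizer ((⁅V, E⁆ : Subgroup G) : Set G))
    (g : G) (hgH : g ∈ H) (v₀ : G)
    (hus_p : (g * v₀ * g⁻¹ * v₀⁻¹) ^ p = 1)
    (hus1 : g * v₀ * g⁻¹ * v₀⁻¹ ≠ 1)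
    (hgen : ∀ v ∈ V, ∃ k : ℕ, g * v * g⁻¹ * v⁻¹ = (g * v₀ * g⁻¹ * v₀⁻¹) ^ k) :
    g ∈ E ∨ g ∈ D := by
  have hEC : E ≤ Subgroup.centralizer (D : Set G) :=
    Subgroup.commutator_eq_bot_iff_le_centralizer.mp hED
  have hcomm : ∀ e ∈ E, ∀ d ∈ D, e * d = d * e := fun e he d hd =>
    (Subgroup.mem_centralizer_iff.mp (hEC he) d hd).symm
  have hgED : g ∈ E ⊔ D := by rw [hEDs]; exact hgH
  obtain ⟨e, he, d, hd, hged⟩ := mem_sup_of_comm hcomm hgED
  have hW_V : ⁅V, E⁆ ≤ V := le_sup_left.trans (le_of_eq h5)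
  have hU_V : V ⊓ Subgroup.centralizer (E : Set G) ≤ V := inf_le_left
  have hEH : E ≤ H := le_sup_left.trans (le_of_eq hEDs)
  have hDW : D ≤ Subgroup.centralizer ((⁅V, E⁆ : Subgroup G) : Set G) := by
    rw [hD]; exact inf_le_right
  have hDH : D ≤ H := by rw [hD]; exact inf_le_left
  have hclaim : e = 1 ∨ d = 1 := by
    by_contra hcon
    push Not at hcon
    obtain ⟨he1, hd1⟩ := hcon
    have h1 : ∃ w ∈ ⁅V, E⁆, w * e ≠ e * w := by
      by_contra hno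
      push Not at hno
      apply he1
      have heD : e ∈ D := by
        rw [hD]
        exact Subgroup.mem_inf.mpr ⟨hEH he, Subgroup.mem_centralizer_iff.mpr (fun w hw => hno w hw)⟩
      have : e ∈ E ⊓ D := Subgroup.mem_inf.mpr ⟨he, heD⟩
      rw [hEDi] at this
      exact Subgroup.mem_bot.mp this
    have h2 : ∃ u ∈ V ⊓ Subgroup.centralizer (E : Set G), u * d ≠ d * u := by
      by_contra hno
      push Not at hno
      apply hd1
      have hdCV : d ∈ Subgroup.centralizer (V : Set G) := by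
        rw [Subgroup.mem_centralizer_iff]
        intro v hv
        have hv' : v ∈ ⁅V, E⁆ ⊔ (V ⊓ Subgroup.centralizer (E : Set G)) := by rw [h5]; exact hv
        obtain ⟨w, hw, u, hu, rfl⟩ := mem_sup_of_comm
          (fun x hx y hy => hVcomm x (hW_V hx) y (hU_V hy)) hv'
        have e1 : w * d = d * w := Subgroup.mem_centralizer_iff.mp (hDW hd) w hw
        have e2 : u * d = d * u := hno u hu
        calc w * u * d = w * (u * d) := by group
          _ = w * (d * u) := by rw [e2]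
          _ = (w * d) * u := by group
          _ = d * w * u := by rw [e1]
          _ = d * (w * u) := by group
      have : d ∈ H ⊓ Subgroup.centralizer (V : Set G) := Subgroup.mem_inf.mpr ⟨hDH hd, hdCV⟩
      rw [hf] at this
      exact Subgroup.mem_bot.mp this
    obtain ⟨w, hw, hwe⟩ := h1
    obtain ⟨u, hu, hud⟩ := h2
    have hwV : w ∈ V := hW_V hw
    have huV : u ∈ V := hU_V hu
    have huC : u ∈ Subgroup.centralizer (E : Set G) := (Subgroup.mem_inf.mp hu).2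
    have hdw : w * d = d * w := Subgroup.mem_centralizer_iff.mp (hDW hd) w hw
    have hz1 : g * w * g⁻¹ * w⁻¹ = e * w * e⁻¹ * w⁻¹ := by
      rw [hged]
      calc e * d * w * (e * d)⁻¹ * w⁻¹ = e * (d * w) * d⁻¹ * e⁻¹ * w⁻¹ := by group
        _ = e * (w * d) * d⁻¹ * e⁻¹ * w⁻¹ := by rw [hdw]
        _ = e * w * e⁻¹ * w⁻¹ := by group
    have hz1W : e * w * e⁻¹ * w⁻¹ ∈ ⁅V, E⁆ := by
      rw [Subgroup.commutator_comm, ← commutatorElement_def]
      exact Subgroup.commutator_mem_commutator he hwV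
    have hz1ne : e * w * e⁻¹ * w⁻¹ ≠ 1 := by
      intro h
      apply hwe
      have : e * w = w * e := by
        calc e * w = (e * w * e⁻¹ * w⁻¹) * (w * e) := by group
          _ = w * e := by rw [h, one_mul]
      exact this.symm
    have hdu_mem : d * u * d⁻¹ * u⁻¹ ∈ V ⊓ Subgroup.centralizer (E : Set G) := by
      refine hVD ?_
      rw [Subgroup.commutator_comm, ← commutatorElement_def]
      exact Subgroup.commutator_mem_commutator hd huV
    have hduC : d * u * d⁻¹ ∈ Subgroup.centralizer (E : Set G) := by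
      have := (Subgroup.centralizer (E : Set G)).mul_mem (Subgroup.mem_inf.mp hdu_mem).2 huC
      simpa using this
    have hedu : e * (d * u * d⁻¹) = (d * u * d⁻¹) * e :=
      Subgroup.mem_centralizer_iff.mp hduC e he
    have hz2 : g * u * g⁻¹ * u⁻¹ = d * u * d⁻¹ * u⁻¹ := by
      rw [hged]
      calc e * d * u * (e * d)⁻¹ * u⁻¹ = (e * (d * u * d⁻¹)) * e⁻¹ * u⁻¹ := by group
        _ = ((d * u * d⁻¹) * e) * e⁻¹ * u⁻¹ := by rw [hedu]
        _ = d * u * d⁻¹ * u⁻¹ := by group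
    have hz2ne : d * u * d⁻¹ * u⁻¹ ≠ 1 := by
      intro h
      apply hud
      have : d * u = u * d := by
        calc d * u = (d * u * d⁻¹ * u⁻¹) * (u * d) := by group
          _ = u * d := by rw [h, one_mul]
      exact this.symm
    obtain ⟨k₁, hk₁⟩ := hgen w hwV
    obtain ⟨k₂, hk₂⟩ := hgen u huV
    rw [hz1] at hk₁
    rw [hz2] at hk₂
    have husW : g * v₀ * g⁻¹ * v₀⁻¹ ∈ ⁅V, E⁆ :=
      mem_of_pow_mem hus_p k₁ (by rw [← hk₁]; exact hz1ne) _ (by rw [← hk₁]; exact hz1W)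
    have husU : g * v₀ * g⁻¹ * v₀⁻¹ ∈ V ⊓ Subgroup.centralizer (E : Set G) :=
      mem_of_pow_mem hus_p k₂ (by rw [← hk₂]; exact hz2ne) _ (by rw [← hk₂]; exact hdu_mem)
    have : g * v₀ * g⁻¹ * v₀⁻¹ ∈ ⁅V, E⁆ ⊓ (V ⊓ Subgroup.centralizer (E : Set G)) :=
      Subgroup.mem_inf.mpr ⟨husW, husU⟩
    rw [h4] at this
    exact hus1 (Subgroup.mem_bot.mp this)
  rcases hclaim with h | h
  · right; rw [hged, h, one_mul]; exact hd
  · left; rw [hged, h, mul_one]; exact he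

theorem cross_fin {G : Type u} [Group G] [Finite G] (H Q A' E D : Subgroup G) (hQH : Q ≤ H)
    (hED : ⁅E, D⁆ = ⊥) (hEDs : E ⊔ D = H) (g : G) (hA'z : A' = Subgroup.zpowers g)
    (hcard : Nat.card ↥E ≤ Nat.card ↥(⁅Q, A'⁆ ⊔ A')) (hg : g ∈ E ∨ g ∈ D) :
    ⁅Q, A'⁆ ⊔ A' = E ∨ ⁅Q, A'⁆ ⊔ A' ≤ D := by
  have hEC : E ≤ Subgroup.centralizer (D : Set G) :=
    Subgroup.commutator_eq_bot_iff_le_centralizer.mp hED
  have hDC : D ≤ Subgroup.centralizer (E : Set G) := Subgroup.le_centralizer_iff.mp hEC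
  have hHNE : H ≤ Subgroup.normalizer (E : Set G) := by
    rw [← hEDs]
    exact sup_le Subgroup.le_normalizer (hDC.trans (Subgroup.centralizer_le_normalizer _))
  have hHND : H ≤ Subgroup.normalizer (D : Set G) := by
    rw [← hEDs]
    exact sup_le (hEC.trans (Subgroup.centralizer_le_normalizer _)) Subgroup.le_normalizer
  have hle : ∀ X : Subgroup G, H ≤ Subgroup.normalizer (X : Set G) → g ∈ X →
      ⁅Q, A'⁆ ⊔ A' ≤ X := by
    intro X hX hgX
    have hA'X : A' ≤ X := by rw [hA'z, Subgroup.zpowers_le]; exact hgX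
    refine sup_le ?_ hA'X
    rw [Subgroup.commutator_le]
    intro q hq y hy
    rw [commutatorElement_def]
    have hyX : y ∈ X := hA'X hy
    have hqN := hX (hQH hq)
    have : q * y * q⁻¹ ∈ X := (Subgroup.mem_normalizer_iff.mp hqN y).mp hyX
    exact X.mul_mem this (X.inv_mem hyX)
  rcases hg with hg | hg
  · left
    exact Subgroup.eq_of_le_of_card_ge (hle E hHNE hg) hcard
  · right
    exact hle D hHND hg

theorem cross_aux {G : Type u} [Group G] [Finite G] {p : ℕ} [Fact p.Prime] (V H : Subgroup G)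
    (hV : IsElementaryAbelian p V) (hHV : H ≤ Subgroup.normalizer (V : Set G))
    (hf : H ⊓ Subgroup.centralizer (V : Set G) = ⊥)
    (hS1 : Subgroup.centralizer (pPrimeCore p ↥H : Set ↥H) ≤ pPrimeCore p ↥H)
    (hS3 : H = ⨆ A : {A : Subgroup G // A ≤ H ∧ IsBestOffenderOn p V A}, (A : Subgroup G))
    (hH1 : H ≠ ⊥)
    (A : Subgroup G) (hAH : A ≤ H) (hA : IsBestOffenderOn p V A) (hAV : ⁅V, A⁆ ≠ ⊥)
    (hmin : ∀ B : Subgroup G, B ≤ A → IsBestOffenderOn p V B → ⁅V, B⁆ ≠ ⊥ → B = A)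
    (A' : Subgroup G) (hAH' : A' ≤ H) (hA' : IsBestOffenderOn p V A') (hAV' : ⁅V, A'⁆ ≠ ⊥)
    (hmin' : ∀ B : Subgroup G, B ≤ A' → IsBestOffenderOn p V B → ⁅V, B⁆ ≠ ⊥ → B = A') :
    ⁅((pPrimeCore p ↥H).map H.subtype), A'⁆ ⊔ A' = ⁅((pPrimeCore p ↥H).map H.subtype), A⁆ ⊔ A ∨
      ⁅((pPrimeCore p ↥H).map H.subtype), A'⁆ ⊔ A' ≤
        H ⊓ Subgroup.centralizer
          ((⁅V, ⁅((pPrimeCore p ↥H).map H.subtype), A⁆ ⊔ A⁆ : Subgroup G) : Set G) := by
  have hVcomm : ∀ v ∈ V, ∀ w ∈ V, v * w = w * v := fun v hv w hw =>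
    congrArg Subtype.val (hV.1.is_comm.comm ⟨v, hv⟩ ⟨w, hw⟩)
  obtain ⟨-, ⟨φ⟩, -, h4, h5, hED, hEDi, hEDs, hVD⟩ :=
    Cfsg.Agent.S0616.result V H hV hHV hf hS1 hS3 hH1 A hAH hA hAV hmin
  obtain ⟨-, ⟨φ'⟩, -⟩ :=
    Cfsg.Agent.S0616.result V H hV hHV hf hS1 hS3 hH1 A' hAH' hA' hAV' hmin'
  obtain ⟨g, hgA', hg1, hgp, hA'z, v₀, hv₀, hus1, hgen⟩ :=
    Cfsg.Agent.S0616.tv_of_min V H hV hHV hf hS1 hS3 hH1 A' hAH' hA' hAV' hmin'
  have hgH : g ∈ H := hAH' hgA'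
  have husV : g * v₀ * g⁻¹ * v₀⁻¹ ∈ V :=
    V.mul_mem ((Subgroup.mem_normalizer_iff.mp (hHV hgH) v₀).mp hv₀) (V.inv_mem hv₀)
  have hus_p : (g * v₀ * g⁻¹ * v₀⁻¹) ^ p = 1 := hV.2 _ husV
  have hQH : (pPrimeCore p ↥H).map H.subtype ≤ H := Subgroup.map_subtype_le _
  have hcore := cross_core V H _ _ hVcomm hf h4 h5 hED hEDi hEDs hVD rfl g hgH v₀ hus_p hus1 hgen
  exact cross_fin H _ A' _ _ hQH hED hEDs g hA'z
    (le_of_eq (Nat.card_congr (φ.toEquiv.trans φ'.symm.toEquiv))) hcore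

theorem main_aux {G : Type u} [Group G] [Finite G] {p : ℕ} (V H : Subgroup G)
    (hVc : ∀ v ∈ V, ∀ w ∈ V, v * w = w * v) {P : Subgroup G → Prop}
    (hP : ∀ E, P E →
      Nonempty (↥E ≃* Matrix.SpecialLinearGroup (Fin 2) (ZMod p)) ∧
      Nat.card ↥(⁅V, E⁆) = p ^ 2 ∧
      ⁅V, E⁆ ⊓ (V ⊓ Subgroup.centralizer (E : Set G)) = ⊥ ∧
      ⁅V, E⁆ ⊔ (V ⊓ Subgroup.centralizer (E : Set G)) = V ∧
      ⁅E, H ⊓ Subgroup.centralizer ((⁅V, E⁆ : Subgroup G) : Set G)⁆ = ⊥ ∧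
      E ⊓ (H ⊓ Subgroup.centralizer ((⁅V, E⁆ : Subgroup G) : Set G)) = ⊥ ∧
      E ⊔ (H ⊓ Subgroup.centralizer ((⁅V, E⁆ : Subgroup G) : Set G)) = H ∧
      ⁅V, H ⊓ Subgroup.centralizer ((⁅V, E⁆ : Subgroup G) : Set G)⁆ ≤
        V ⊓ Subgroup.centralizer (E : Set G))
    (hcross : ∀ E E', P E → P E' → E' ≠ E →
      E' ≤ H ⊓ Subgroup.centralizer ((⁅V, E⁆ : Subgroup G) : Set G))
    (hcover : H ≤ ⨆ E : {E : Subgroup G // P E}, (E : Subgroup G))
    (hp23 : p = 2 ∨ p = 3) :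
    (p = 2 ∨ p = 3) ∧
    (∀ E : {E : Subgroup G // P E}, H ≤ Subgroup.normalizer ((E : Subgroup G) : Set G) ∧
      Nonempty (↥(E : Subgroup G) ≃* Matrix.SpecialLinearGroup (Fin 2) (ZMod p)) ∧
      Nat.card ↥(⁅V, (E : Subgroup G)⁆) = p ^ 2) ∧
    iSupIndep (fun E : {E : Subgroup G // P E} => (E : Subgroup G)) ∧
    (⨆ E : {E : Subgroup G // P E}, (E : Subgroup G)) = H ∧
    iSupIndep (fun o : Option {E : Subgroup G // P E} =>
      o.elim (V ⊓ Subgroup.centralizer (H : Set G)) (fun E => ⁅V, (E : Subgroup G)⁆)) ∧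
    (V ⊓ Subgroup.centralizer (H : Set G)) ⊔
      (⨆ E : {E : Subgroup G // P E}, ⁅V, (E : Subgroup G)⁆) = V := by
  have hEH : ∀ E, P E → E ≤ H := fun E hE =>
    le_sup_left.trans (le_of_eq (hP E hE).2.2.2.2.2.2.1)
  have hsup : (⨆ E : {E : Subgroup G // P E}, (E : Subgroup G)) = H :=
    le_antisymm (iSup_le fun E => hEH E.1 E.2) hcover
  refine ⟨hp23, ?_, ?_, hsup, ?_⟩
  · rintro ⟨E, hE⟩
    obtain ⟨hiso, hcard, -, -, hED, -, hEDs, -⟩ := hP E hE
    refine ⟨?_, hiso, hcard⟩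
    have hEC := Subgroup.commutator_eq_bot_iff_le_centralizer.mp hED
    have hDC := Subgroup.le_centralizer_iff.mp hEC
    calc H = E ⊔ (H ⊓ Subgroup.centralizer ((⁅V, E⁆ : Subgroup G) : Set G)) := hEDs.symm
      _ ≤ Subgroup.normalizer (E : Set G) :=
        sup_le Subgroup.le_normalizer (hDC.trans (Subgroup.centralizer_le_normalizer _))
  · rintro ⟨E, hE⟩
    obtain ⟨-, -, -, -, -, hEDi, -, -⟩ := hP E hE
    have key : ∀ (E' : {E : Subgroup G // P E}), E' ≠ ⟨E, hE⟩ →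
        (fun E : {E : Subgroup G // P E} => (E : Subgroup G)) E' ≤
          H ⊓ Subgroup.centralizer ((⁅V, E⁆ : Subgroup G) : Set G) := by
      rintro ⟨E', hE'⟩ hne
      exact hcross E E' hE hE' (fun h => hne (Subtype.ext h))
    exact (disjoint_iff.mpr hEDi).mono_right (iSup₂_le key)
  · have hcr : ∀ (i j : {E : Subgroup G // P E}), i ≠ j →
        ⁅V, (j : Subgroup G)⁆ ≤ V ⊓ Subgroup.centralizer ((i : Subgroup G) : Set G) := by
      rintro ⟨E, hE⟩ ⟨E', hE'⟩ hne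
      exact (Subgroup.commutator_mono le_rfl
        (hcross E E' hE hE' (fun h => hne (Subtype.ext h.symm)))).trans
          (hP E hE).2.2.2.2.2.2.2
    exact struct_core V H hVc (fun E : {E : Subgroup G // P E} => (E : Subgroup G))
      (fun E => (hP E.1 E.2).2.2.1) (fun E => (hP E.1 E.2).2.2.2.1) hcr hsup

/-- Structure Theorem for failure of factorization: a faithful group generated by best offenders, with self-centralizing p'-core, is a direct product of copies of SL(2, p) (p = 2 or 3), each acting on its own plane in V, which is the direct product of these planes and C_V(H). -/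
theorem result {G : Type*} [Group G] [Finite G] {p : ℕ} [Fact p.Prime] (V H : Subgroup G) (hV : Cfsg.IsElementaryAbelian p V) (hHV : H ≤ Subgroup.normalizer (V : Set G)) (hf : H ⊓ Subgroup.centralizer (V : Set G) = ⊥) (hS1 : Subgroup.centralizer (Cfsg.pPrimeCore p ↥H : Set ↥H) ≤ Cfsg.pPrimeCore p ↥H) (hS3 : H = ⨆ A : {A : Subgroup G // A ≤ H ∧ Cfsg.IsBestOffenderOn p V A}, (A : Subgroup G)) (hH1 : H ≠ ⊥) : (p = 2 ∨ p = 3) ∧ (∀ E : {E : Subgroup G // ∃ A : Subgroup G, A ≤ H ∧ Cfsg.IsBestOffenderOn p V A ∧ ⁅V, A⁆ ≠ ⊥ ∧ (∀ B : Subgroup G, B ≤ A → Cfsg.IsBestOffenderOn p V B → ⁅V, B⁆ ≠ ⊥ → B = A) ∧ E = ⁅((Cfsg.pPrimeCore p ↥H).map H.subtype), A⁆ ⊔ A}, H ≤ Subgroup.normalizer ((E : Subgroup G) : Set G) ∧ Nonempty (↥(E : Subgroup G) ≃* Matrix.SpecialLinearGroup (Fin 2) (ZMod p)) ∧ Nat.card ↥(⁅V, (E : Subgroup G)⁆) = p ^ 2) ∧ iSupIndep (fun E : {E : Subgroup G // ∃ A : Subgroup G, A ≤ H ∧ Cfsg.IsBestOffenderOn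 p V A ∧ ⁅V, A⁆ ≠ ⊥ ∧ (∀ B : Subgroup G, B ≤ A → Cfsg.IsBestOffenderOn p V B → ⁅V, B⁆ ≠ ⊥ → B = A) ∧ E = ⁅((Cfsg.pPrimeCore p ↥H).map H.subtype), A⁆ ⊔ A} => (E : Subgroup G)) ∧ (⨆ E : {E : Subgroup G // ∃ A : Subgroup G, A ≤ H ∧ Cfsg.IsBestOffenderOn p V A ∧ ⁅V, A⁆ ≠ ⊥ ∧ (∀ B : Subgroup G, B ≤ A → Cfsg.IsBestOffenderOn p V B → ⁅V, B⁆ ≠ ⊥ → B = A) ∧ E = ⁅((Cfsg.pPrimeCore p ↥H).map H.subtype), A⁆ ⊔ A}, (E : Subgroup G)) = H ∧ iSupIndep (fun o : Option {E : Subgroup G // ∃ A : Subgroup G, A ≤ H ∧ Cfsg.IsBestOffenderOn p V A ∧ ⁅V, A⁆ ≠ ⊥ ∧ (∀ B : Subgroup G, B ≤ A → Cfsg.IsBestOffenderOn p V B → ⁅V, B⁆ ≠ ⊥ → B = A) ∧ E = ⁅((Cfsg.pPrimeCore p ↥H).map H.subtype), A⁆ ⊔ A} => o.elim (V ⊓ Subgroup.centralizer (H : Set G)) (fun E => ⁅V, (E : Subgroup G)⁆)) ∧ (V ⊓ Subgroup.centralizer (H : Set G)) ⊔ (⨆ E : {E : Subgroup G // ∃ A : Subgroup G, A ≤ H ∧ Cfsg.IsBestOffenderOn p V A ∧ ⁅V, A⁆ ≠ ⊥ ∧ (∀ B : Subgroup G, B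 ≤ A → Cfsg.IsBestOffenderOn p V B → ⁅V, B⁆ ≠ ⊥ → B = A) ∧ E = ⁅((Cfsg.pPrimeCore p ↥H).map H.subtype), A⁆ ⊔ A}, ⁅V, (E : Subgroup G)⁆) = V := by
  have hVcomm : ∀ v ∈ V, ∀ w ∈ V, v * w = w * v := fun v hv w hw =>
    congrArg Subtype.val (hV.1.is_comm.comm ⟨v, hv⟩ ⟨w, hw⟩)
  refine main_aux V H hVcomm (P := fun E => ∃ A : Subgroup G, A ≤ H ∧ Cfsg.IsBestOffenderOn p V A ∧ ⁅V, A⁆ ≠ ⊥ ∧ (∀ B : Subgroup G, B ≤ A → Cfsg.IsBestOffenderOn p V B → ⁅V, B⁆ ≠ ⊥ → B = A) ∧ E = ⁅((Cfsg.pPrimeCore p ↥H).map H.subtype), A⁆ ⊔ A) ?_ ?_ ?_ ?_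
  · rintro E ⟨A, hAH, hAbo, hAV, hAmin, rfl⟩
    exact (Cfsg.Agent.S0616.result V H hV hHV hf hS1 hS3 hH1 A hAH hAbo hAV hAmin).2
  · rintro E E' ⟨A, hAH, hAbo, hAV, hAmin, rfl⟩ ⟨A', hAH', hAbo', hAV', hAmin', rfl⟩ hne
    exact (cross_aux V H hV hHV hf hS1 hS3 hH1 A hAH hAbo hAV hAmin A' hAH' hAbo' hAV' hAmin').resolve_left hne
  · refine le_trans (le_of_eq hS3) (iSup_le ?_)
    rintro ⟨B, hBH, hBbo⟩
    show B ≤ _
    by_cases hB1 : B = ⊥
    · rw [hB1]; exact bot_le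
    obtain ⟨k, Bi, hBi, -, hsup⟩ := Cfsg.Agent.S0612.result V H hV hHV hf hS1 hS3 hH1 B hBH hBbo hB1
    rw [← hsup]
    refine iSup_le fun i => ?_
    obtain ⟨hBiB, hBibo, hBiV, hBimin⟩ := hBi i
    exact le_iSup_of_le ⟨_, Bi i, hBiB.trans hBH, hBibo, hBiV, hBimin, rfl⟩ le_sup_right
  · by_contra hn
    apply hH1
    refine hS3.trans ?_
    rw [iSup_eq_bot]
    rintro ⟨B, hBH, hBbo⟩
    show B = ⊥
    by_contra hB1
    obtain ⟨k, Bi, hBi, -, hsup⟩ := Cfsg.Agent.S0612.result V H hV hHV hf hS1 hS3 hH1 B hBH hBbo hB1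
    cases k with
    | zero => apply hB1; rw [← hsup]; simp
    | succ k =>
      obtain ⟨hBiB, hBibo, hBiV, hBimin⟩ := hBi 0
      exact hn (Cfsg.Agent.S0616.result V H hV hHV hf hS1 hS3 hH1 (Bi 0) (hBiB.trans hBH) hBibo hBiV hBimin).1

end Cfsg.Agent.S0617
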