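import Mathlib
import Cfsg.Statements.S0606
import Cfsg.Agent.Lib.Helper4.Thompson
import Cfsg.Agent.Lib.Helper4.Card

set_option autoImplicit false
open Cfsg

open Cfsg.Agent.Lib.Helper4.Thompson Cfsg.Agent.Lib.Helper4.Card

namespace Cfsg.Agent.S0606

/-- Elementary abelian p-subgroups of maximal order are best offenders on any normal elementary abelian p-subgroup. -/
theorem result {G : Type*} [Group G] [Finite G] {p : ℕ} [Fact p.Prime] (V : Subgroup G) [V.Normal] (hV : Cfsg.IsElementaryAbelian p V) (A : Subgroup G) (hA : A ∈ Cfsg.maxElementaryAbelianSubgroups p G) : Cfsg.IsBestOffenderOn p V A := by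
  have hAc : IsMulCommutative A := hA.1.1
  refine ⟨?_, ?_, ?_⟩
  · intro B hBA
    have hB : IsElementaryAbelian p B := elab_mono hBA hA.1
    have hD : IsElementaryAbelian p (V ⊓ Subgroup.centralizer (B : Set G)) := elab_mono inf_le_left hV
    have hcomm : ∀ b ∈ B, ∀ d ∈ V ⊓ Subgroup.centralizer (B : Set G), b * d = d * b :=
      fun b hb d hd => (Subgroup.mem_centralizer_iff.mp hd.2) b hb
    have hT := elab_sup hB hD hcomm
    have hcardT : Nat.card ↥(B ⊔ (V ⊓ Subgroup.centralizer (B : Set G))) ≤ Nat.card A := hA.2 _ hT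
    have hprod := card_mul_card_le B (V ⊓ Subgroup.centralizer (B : Set G))
    have hle : B ⊓ (V ⊓ Subgroup.centralizer (B : Set G)) ≤ V ⊓ Subgroup.centralizer (A : Set G) := by
      intro y hy
      refine ⟨hy.2.1, ?_⟩
      refine Subgroup.mem_centralizer_iff.mpr ?_
      intro a ha
      exact setLike_mul_comm ha (hBA hy.1)
    have hcard2 := Subgroup.card_le_of_le hle
    exact hprod.trans (Nat.mul_le_mul hcardT hcard2)
  · rw [Subgroup.commutator_self_eq_bot_iff.mpr hAc]
    exact bot_le
  · intro a ha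
    rw [hA.1.2 a ha]; exact Subgroup.one_mem _

end Cfsg.Agent.S0606
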