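import Mathlib
import Cfsg.Statements.S0608
import Cfsg.Agent.Lib.Helper4.Thompson2
import Cfsg.Agent.Lib.Helper4.Conj
import Cfsg.Agent.S0542
import Cfsg.Agent.S0600
import Cfsg.Agent.S0601

set_option autoImplicit false
open Cfsg

open scoped Pointwise

namespace Cfsg.Agent.S0608

universe u

open Cfsg.Agent.Lib.Helper4.Conj Cfsg.Agent.Lib.Helper4.Thompson2
open Cfsg.Agent.S0601 (E map_conj_E_le W_normal)

theorem E_le_centralizer {G : Type u} [Group G] (p : ℕ) (S : Subgroup G) :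
    E p S ≤ Subgroup.centralizer (S : Set G) := by
  unfold E Cfsg.omegaOne
  rw [Subgroup.closure_le]
  rintro x ⟨hx, -⟩
  exact (Subgroup.mem_inf.mp hx).2

theorem forward {G : Type u} [Group G] [Finite G] {p : ℕ} [Fact p.Prime]
    (hO : Cfsg.pPrimeCore p G = ⊥) (hF : Cfsg.IsThompsonFactorizable p G) :
    Cfsg.thompsonSubgroup p G ≤
      Subgroup.centralizer ((⨆ S : Sylow p G, E p (S : Subgroup G) : Subgroup G) : Set G) := by
  rw [Cfsg.Agent.S0604.result (G := G) (p := p)]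
  apply iSup_le
  intro S y hy
  apply Cfsg.Agent.S0600.mem_centralizer_iSup
  intro T v hv
  obtain ⟨g, rfl⟩ := MulAction.exists_smul_eq G S T
  -- u = g⁻¹ v g ∈ E p S
  have hu : g⁻¹ * v * g ∈ E p (S : Subgroup G) := by
    have h1 := map_conj_E_le p g⁻¹ ((g • S : Sylow p G) : Subgroup G)
    rw [Sylow.coe_subgroup_smul, conj_smul_smul, inv_mul_cancel, conj_one_smul] at h1
    have h2 := h1 (Subgroup.mem_map_of_mem _ hv)
    simpa using h2
  obtain ⟨x, hx, c, hc, n, hn, hg⟩ := hF S g⁻¹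
  rw [hO, Subgroup.mem_bot] at hx
  subst hx
  rw [one_mul] at hg
  change c ∈ Subgroup.centralizer ((E p (S : Subgroup G) : Subgroup G) : Set G) at hc
  -- y' = n y n⁻¹ ∈ J(S) ≤ S
  have hy' : n * y * n⁻¹ ∈ Cfsg.thompsonSubgroupOf p (S : Subgroup G) :=
    (Subgroup.mem_normalizer_iff.mp hn y).mp hy
  have hy'S : n * y * n⁻¹ ∈ (S : Subgroup G) := thompsonSubgroupOf_le _ hy'
  have e1 : (n * y * n⁻¹) * (g⁻¹ * v * g) = (g⁻¹ * v * g) * (n * y * n⁻¹) :=
    Subgroup.mem_centralizer_iff.mp (E_le_centralizer p _ hu) _ hy'S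
  have e2 : (g⁻¹ * v * g) * c = c * (g⁻¹ * v * g) :=
    Subgroup.mem_centralizer_iff.mp hc _ hu
  have hg' : g = n⁻¹ * c⁻¹ := by
    rw [← inv_inv g, hg]; group
  rw [hg'] at e1 e2
  -- e1 : (n y n⁻¹) * (c n v n⁻¹ c⁻¹) = ..., e2 : (c n v n⁻¹ c⁻¹) * c = c * (c n v n⁻¹ c⁻¹)
  have e2' : (n * v * n⁻¹) * c = c * (n * v * n⁻¹) := by
    have : (n⁻¹ * c⁻¹)⁻¹ * v * (n⁻¹ * c⁻¹) = c * (n * v * n⁻¹) * c⁻¹ := by group
    rw [this] at e2
    calc (n * v * n⁻¹) * c = c⁻¹ * (c * (n * v * n⁻¹) * c⁻¹ * c) * c := by group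
      _ = c⁻¹ * (c * (c * (n * v * n⁻¹) * c⁻¹)) * c := by rw [e2]
      _ = c * (n * v * n⁻¹) := by group
  have e1' : (n * y * n⁻¹) * (n * v * n⁻¹) = (n * v * n⁻¹) * (n * y * n⁻¹) := by
    have h3 : (n⁻¹ * c⁻¹)⁻¹ * v * (n⁻¹ * c⁻¹) = n * v * n⁻¹ := by
      have : (n⁻¹ * c⁻¹)⁻¹ * v * (n⁻¹ * c⁻¹) = (c * (n * v * n⁻¹)) * c⁻¹ := by group
      rw [this, ← e2']; group
    rw [h3] at e1
    exact e1
  calc v * y = n⁻¹ * ((n * v * n⁻¹) * (n * y * n⁻¹)) * n := by group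
    _ = n⁻¹ * ((n * y * n⁻¹) * (n * v * n⁻¹)) * n := by rw [e1']
    _ = y * v := by group

theorem backward {G : Type u} [Group G] [Finite G] {p : ℕ} [Fact p.Prime]
    (hJ : Cfsg.thompsonSubgroup p G ≤
      Subgroup.centralizer ((⨆ S : Sylow p G, E p (S : Subgroup G) : Subgroup G) : Set G)) :
    Cfsg.IsThompsonFactorizable p G := by
  intro S g
  haveI hWn : (⨆ S : Sylow p G, E p (S : Subgroup G)).Normal := W_normal p
  set K := Subgroup.centralizer ((⨆ S : Sylow p G, E p (S : Subgroup G) : Subgroup G) : Set G)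
    with hK
  haveI hKn : K.Normal := by rw [hK]; infer_instance
  obtain ⟨Q, hQ⟩ := Cfsg.Agent.S0542.exists_sylow_eq p K hKn.isSubnormal S
  have hP : (Q : Subgroup K).map K.subtype = (S : Subgroup G) ⊓ K := by
    rw [hQ, Subgroup.subgroupOf_map_subtype]
  have hfr : Subgroup.normalizer (((Q : Subgroup K).map K.subtype : Subgroup G) : Set G) ⊔ K = ⊤ :=
    Sylow.normalizer_sup_eq_top Q
  rw [hP, sup_comm] at hfr
  have hg : g ∈ K ⊔ Subgroup.normalizer ((((S : Subgroup G) ⊓ K : Subgroup G)) : Set G) := by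
    rw [hfr]; exact Subgroup.mem_top g
  rw [← SetLike.mem_coe, Subgroup.normal_mul] at hg
  obtain ⟨k, hk, n, hn, rfl⟩ := Set.mem_mul.mp hg
  have hJS : Cfsg.thompsonSubgroupOf p (S : Subgroup G) ≤ (S : Subgroup G) ⊓ K :=
    le_inf (thompsonSubgroupOf_le _) ((thompsonSubgroupOf_sylow_le S).trans hJ)
  have hJeq := thompsonSubgroupOf_eq_of_le (p := p) (inf_le_left : (S : Subgroup G) ⊓ K ≤ S) hJS
  refine ⟨1, one_mem _, k, ?_, n, ?_, by rw [one_mul]⟩
  · have hle : E p (S : Subgroup G) ≤ ⨆ S : Sylow p G, E p (S : Subgroup G) :=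
      le_iSup (fun S : Sylow p G => E p (S : Subgroup G)) S
    exact Subgroup.centralizer_le hle hk
  · rw [← hJeq]
    exact normalizer_le_normalizer_thompsonSubgroupOf _ hn

/-- With trivial p'-core, Thompson factorizability is equivalent to J(G) centralizing the subgroup generated by all Ω₁(Z(S)), S Sylow. -/
theorem result {G : Type*} [Group G] [Finite G] {p : ℕ} [Fact p.Prime] (hO : Cfsg.pPrimeCore p G = ⊥) : Cfsg.IsThompsonFactorizable p G ↔ Cfsg.thompsonSubgroup p G ≤ Subgroup.centralizer ((⨆ S : Sylow p G, Cfsg.omegaOne p (((S : Subgroup G)) ⊓ Subgroup.centralizer ((S : Subgroup G) : Set G)) : Subgroup G) : Set G) := by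
  exact ⟨forward hO, backward⟩

end Cfsg.Agent.S0608
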