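import Mathlib
import Cfsg.Statements.S0620
import Cfsg.Agent.S0542
import Cfsg.Agent.S0600
import Cfsg.Agent.S0601
import Cfsg.Agent.S0606
import Cfsg.Agent.S0608
import Cfsg.Agent.S0617
import Cfsg.Agent.S3754
import Cfsg.Agent.Lib.Helper4.Hol
import Cfsg.Agent.Lib.Helper4.Conj
import Cfsg.Agent.Lib.Helper4.Thompson
import Cfsg.Agent.Lib.Helper4.Thompson2
import Cfsg.Agent.Lib.Helper4.PSolv
import Cfsg.Agent.Lib.Helper4.FFCore
import Cfsg.Agent.Lib.Helper12.PSolvable
import Cfsg.Agent.Lib.Helper9.Cores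

set_option autoImplicit false
open Cfsg

open scoped commutatorElement Pointwise

namespace Cfsg.Agent.S0620

universe u

open Cfsg.Agent.Lib.Helper4.Hol Cfsg.Agent.Lib.Helper4.FFCore Cfsg.Agent.Lib.Helper4.Conj
open Cfsg.Agent.Lib.Helper4.Thompson2

/-- the structure-theorem hypotheses for the image of `J(X)` in the holomorph -/
theorem hol_hyps {X : Type u} [Group X] [Finite X] {p : ℕ} [Fact p.Prime]
    (hsep : IsPSolvable p X) (V : Subgroup X) [V.Normal] (hV : IsElementaryAbelian p V)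
    (hD : ∀ D : Subgroup X, D.Normal → Subgroup.centralizer (V : Set X) ≤ D →
      (∃ k : ℕ, (Subgroup.centralizer (V : Set X)).relIndex D = p ^ k) →
      D = Subgroup.centralizer (V : Set X))
    (hJ : ¬ thompsonSubgroup p X ≤ Subgroup.centralizer (V : Set X)) :
    Hyp p (VV V) ((thompsonSubgroup p X).map (rho V)) := by
  haveI := finite_HolG V
  obtain ⟨J, hJdef⟩ : ∃ J : Subgroup X, J = thompsonSubgroup p X := ⟨_, rfl⟩
  rw [← hJdef] at hJ ⊢
  have hJn : J.Normal := by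
    rw [hJdef]
    haveI := Cfsg.Agent.Lib.Helper4.Thompson.thompson_characteristic (G := X) (p := p)
    exact Subgroup.normal_of_characteristic _
  obtain ⟨H, hHdef⟩ : ∃ H : Subgroup (HolG V), H = J.map (rho V) := ⟨_, rfl⟩
  obtain ⟨R, hRdef⟩ : ∃ R : Subgroup (HolG V), R = (rho V).range := ⟨_, rfl⟩
  have hHR : H ≤ R := by
    rw [hHdef, hRdef]
    rintro _ ⟨a, -, rfl⟩
    exact ⟨a, rfl⟩
  have hVV := VV_elab V hV
  have hHV : H ≤ Subgroup.normalizer ((VV V : Subgroup (HolG V)) : Set (HolG V)) :=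
    VV_le_normalizer V H
  have hf : H ⊓ Subgroup.centralizer ((VV V : Subgroup (HolG V)) : Set (HolG V)) = ⊥ := by
    rw [eq_bot_iff]
    have h1 := rho_range_inf_centralizer V
    rw [← hRdef] at h1
    exact (inf_le_inf_right _ hHR).trans (le_of_eq h1)
  have hbo : ∀ A ∈ maxElementaryAbelianSubgroups p X,
      A.map (rho V) ≤ H ∧ IsBestOffenderOn p (VV V) (A.map (rho V)) := by
    intro A hA
    have h := Cfsg.Agent.S0606.result V hV A hA
    refine ⟨?_, bo_map V A h.2.1 h.2.2 h.1⟩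
    rw [hHdef]
    apply Subgroup.map_mono
    rw [hJdef]
    exact Cfsg.Agent.Lib.Helper4.Thompson.le_thompson hA
  have hS3 : H = ⨆ A : {A : Subgroup (HolG V) // A ≤ H ∧ IsBestOffenderOn p (VV V) A},
      (A : Subgroup (HolG V)) := by
    apply le_antisymm
    · have h1 : J ≤ (⨆ A : {A : Subgroup (HolG V) // A ≤ H ∧ IsBestOffenderOn p (VV V) A},
          (A : Subgroup (HolG V))).comap (rho V) := by
        rw [hJdef]
        apply sSup_le
        intro A hA
        rw [← Subgroup.map_le_iff_le_comap]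
        exact le_iSup_of_le ⟨A.map (rho V), hbo A hA⟩ le_rfl
      calc H = J.map (rho V) := hHdef
        _ ≤ _ := Subgroup.map_le_iff_le_comap.mpr h1
    · exact iSup_le fun A => A.2.1
  have hJsol : IsPSolvable p ↥J :=
    Cfsg.Agent.Lib.Helper12.PSolvable.isPSolvable_subgroup hsep J
  have hHsol : IsPSolvable p ↥H := by
    subst hHdef
    exact Cfsg.Agent.Lib.Helper4.PSolv.isPSolvable_of_surjective ((rho V).subgroupMap J)
      ((rho V).subgroupMap_surjective J) hJsol
  have hRcore : pCore p ↥R = ⊥ := by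
    subst hRdef
    exact pCore_range_eq_bot V hD
  have hNn : (H.subgroupOf R).Normal := by
    constructor
    rintro ⟨n, hnR⟩ hn ⟨r, hrR⟩
    rw [Subgroup.mem_subgroupOf] at hn ⊢
    show r * n * r⁻¹ ∈ H
    have hn' : n ∈ H := hn
    rw [hHdef] at hn' ⊢
    rw [hRdef] at hrR
    obtain ⟨j, hj, rfl⟩ := hn'
    obtain ⟨g, rfl⟩ := hrR
    refine ⟨g * j * g⁻¹, hJn.conj_mem j hj g, ?_⟩
    rw [map_mul, map_mul, map_inv]
  haveI := hNn
  have hNcore : pCore p ↥(H.subgroupOf R) = ⊥ := by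
    have h1 := Cfsg.Agent.Lib.Helper9.pCore_subtype_eq_inf (G := ↥R) p (H.subgroupOf R)
    rw [hRcore, bot_inf_eq] at h1
    exact (Subgroup.map_eq_bot_iff_of_injective _ (Subgroup.subtype_injective _)).mp h1
  have hHcore : pCore p ↥H = ⊥ := by
    have h2 := Cfsg.Agent.Lib.Helper9.pCore_map_equiv p (Subgroup.subgroupOfEquivOfLe hHR)
    rw [hNcore, Subgroup.map_bot] at h2
    exact h2.symm
  have hS1 : Subgroup.centralizer (pPrimeCore p ↥H : Set ↥H) ≤ pPrimeCore p ↥H :=
    Cfsg.Agent.S3754.dual_hall_higman hHsol hHcore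
  have hH1 : H ≠ ⊥ := by
    intro h
    apply hJ
    rw [hHdef, Subgroup.map_eq_bot_iff, rho_ker] at h
    exact h
  rw [← hHdef]
  exact ⟨hVV, hHV, hf, hS1, hS3, hH1⟩

/-- conjugation by elements normalizing `K`, as automorphisms of `K` -/
def conjN {G : Type u} [Group G] (K : Subgroup G) :
    ↥(Subgroup.normalizer (K : Set G)) →* MulAut ↥K where
  toFun n :=
    { toFun := fun k => ⟨(n : G) * k * (n : G)⁻¹,
        (Subgroup.mem_normalizer_iff.mp n.2 k).mp k.2⟩
      invFun := fun k => ⟨(n : G)⁻¹ * k * (n : G),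
        (Subgroup.mem_normalizer_iff''.mp n.2 k).mp k.2⟩
      left_inv := fun k => Subtype.ext (by
        show (n : G)⁻¹ * ((n : G) * (k : G) * (n : G)⁻¹) * (n : G) = k
        group)
      right_inv := fun k => Subtype.ext (by
        show (n : G) * ((n : G)⁻¹ * (k : G) * (n : G)) * (n : G)⁻¹ = k
        group)
      map_mul' := fun a b => Subtype.ext (by
        show (n : G) * ((a : G) * b) * (n : G)⁻¹ =
          ((n : G) * a * (n : G)⁻¹) * ((n : G) * b * (n : G)⁻¹)
        group) }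
  map_one' := by
    apply MulEquiv.ext
    intro k
    apply Subtype.ext
    show (1 : G) * (k : G) * (1 : G)⁻¹ = k
    group
  map_mul' m n := by
    apply MulEquiv.ext
    intro k
    apply Subtype.ext
    show ((m : G) * n) * (k : G) * ((m : G) * n)⁻¹ =
      (m : G) * ((n : G) * k * (n : G)⁻¹) * (m : G)⁻¹
    group

/-- restriction of automorphisms to a characteristic subgroup -/
def charRestrict {Y : Type u} [Group Y] (W : Subgroup Y) (hW : W.Characteristic) :
    MulAut Y →* MulAut ↥W where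
  toFun α :=
    { toFun := fun w => ⟨α w, by
        have h : (w : Y) ∈ W.comap α.toMonoidHom := by rw [hW.fixed α]; exact w.2
        exact h⟩
      invFun := fun w => ⟨α.symm w, by
        have h : (w : Y) ∈ W.comap α.symm.toMonoidHom := by rw [hW.fixed α.symm]; exact w.2
        exact h⟩
      left_inv := fun w => Subtype.ext (α.symm_apply_apply w)
      right_inv := fun w => Subtype.ext (α.apply_symm_apply w)
      map_mul' := fun a b => Subtype.ext (map_mul α (a : Y) b) }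
  map_one' := by
    apply MulEquiv.ext
    intro w
    apply Subtype.ext
    rfl
  map_mul' α β := by
    apply MulEquiv.ext
    intro w
    apply Subtype.ext
    rfl

theorem W_char {Y : Type u} [Group Y] [Finite Y] (p : ℕ) [Fact p.Prime] :
    (⨆ S : Sylow p Y, omegaOne p ((S : Subgroup Y) ⊓
      Subgroup.centralizer ((S : Subgroup Y) : Set Y))).Characteristic := by
  rw [Subgroup.characteristic_iff_map_le]
  intro φ
  rw [Subgroup.map_iSup]
  apply iSup_le
  intro S
  obtain ⟨S', hS'⟩ : ∃ S' : Sylow p Y, (S' : Subgroup Y) = (S : Subgroup Y).map φ.toMonoidHom :=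
    ⟨S.mapSurjective (f := φ.toMonoidHom) φ.surjective, Sylow.coe_mapSurjective _ S⟩
  refine le_trans ?_ (le_iSup (fun S : Sylow p Y => omegaOne p ((S : Subgroup Y) ⊓
      Subgroup.centralizer ((S : Subgroup Y) : Set Y))) S')
  show Subgroup.map φ.toMonoidHom (omegaOne p ((S : Subgroup Y) ⊓
      Subgroup.centralizer ((S : Subgroup Y) : Set Y))) ≤
    omegaOne p ((S' : Subgroup Y) ⊓ Subgroup.centralizer ((S' : Subgroup Y) : Set Y))
  rw [hS', Subgroup.map_le_iff_le_comap]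
  unfold omegaOne
  rw [Subgroup.closure_le]
  rintro x ⟨hx, hxp⟩
  have hx' := Subgroup.mem_inf.mp hx
  rw [SetLike.mem_coe, Subgroup.mem_comap]
  apply Subgroup.subset_closure
  refine ⟨Subgroup.mem_inf.mpr ⟨Subgroup.mem_map_of_mem _ hx'.1, ?_⟩, ?_⟩
  · rw [Subgroup.mem_centralizer_iff]
    rintro _ ⟨s, hs, rfl⟩
    have h1 := Subgroup.mem_centralizer_iff.mp hx'.2 s hs
    show φ s * φ x = φ x * φ s
    rw [← map_mul, ← map_mul, h1]
  · show (φ x) ^ p = 1
    rw [← map_pow, hxp, map_one]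

/-- lifting fixed points along a homomorphism with kernel of order prime to `q` -/
theorem lift_fixed {Y : Type u} [Group Y] [Finite Y] {Z : Type u} [Group Z] {q : ℕ}
    [Fact q.Prime] (hZ : IsPGroup q Z) (hq : ¬ q ∣ Nat.card Y) {Hol : Type u} [Group Hol]
    (r : Y →* Hol) (ξ : Z →* Hol) (α : Z →* MulAut Y)
    (hrel : ∀ (x : Z) (k : Y), ξ x * r k * (ξ x)⁻¹ = r (α x k))
    (h : Hol) (hr : h ∈ r.range) (hfix : ∀ x : Z, ξ x * h = h * ξ x) :
    ∃ k : Y, r k = h ∧ ∀ x : Z, α x k = k := by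
  obtain ⟨k₀, hk₀⟩ := hr
  letI : MulAction Z {k : Y // r k = h} :=
    { smul := fun x k => ⟨α x k.1, by
        rw [← hrel x k.1, k.2, hfix x, mul_inv_cancel_right]⟩
      one_smul := fun k => Subtype.ext (by
        show α 1 k.1 = k.1
        rw [map_one]; rfl)
      mul_smul := fun x y k => Subtype.ext (by
        show α (x * y) k.1 = α x (α y k.1)
        rw [map_mul]; rfl) }
  have hcard : Nat.card {k : Y // r k = h} = Nat.card ↥r.ker := by
    apply Nat.card_congr
    refine ⟨fun k => ⟨k₀⁻¹ * k.1, ?_⟩, fun c => ⟨k₀ * c.1, ?_⟩,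
      fun k => Subtype.ext ?_, fun c => Subtype.ext ?_⟩
    · rw [MonoidHom.mem_ker, map_mul, map_inv, k.2, hk₀, inv_mul_cancel]
    · rw [map_mul, hk₀, MonoidHom.mem_ker.mp c.2, mul_one]
    · show k₀ * (k₀⁻¹ * k.1) = k.1
      rw [mul_inv_cancel_left]
    · show k₀⁻¹ * (k₀ * (c.1 : Y)) = c.1
      rw [inv_mul_cancel_left]
  have hnd : ¬ q ∣ Nat.card {k : Y // r k = h} := by
    rw [hcard]
    intro hd
    exact hq (hd.trans (Subgroup.card_subgroup_dvd_card _))
  obtain ⟨k, hk⟩ := hZ.nonempty_fixed_point_of_prime_not_dvd_card _ hnd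
  refine ⟨k.1, k.2, fun x => ?_⟩
  exact congrArg Subtype.val (MulAction.mem_fixedPoints.mp hk x)

theorem main {G : Type u} [Group G] [Finite G] {p : ℕ} [Fact p.Prime] {q : ℕ} [Fact q.Prime]
    (K X : Subgroup G) (hXK : X ≤ Subgroup.normalizer (K : Set G))
    (hX : IsElementaryAbelian q X) (hq : ¬ q ∣ Nat.card K) (hsep : IsPSolvable p ↥K)
    (hO : pPrimeCore p ↥K = ⊥) (S : Sylow p ↥K)
    (hnf : ¬ IsThompsonFactorizable p ↥K) :
    (Subgroup.normalizer (thompsonSubgroupOf p (S : Subgroup ↥K) : Set ↥K) ⊔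
      Subgroup.centralizer (omegaOne p ((S : Subgroup ↥K) ⊓
        Subgroup.centralizer ((S : Subgroup ↥K) : Set ↥K)) : Set ↥K) ⊔
      (Subgroup.centralizer (X : Set G)).subgroupOf K) = ⊤ := by
  have hc := Cfsg.Agent.Lib.Helper12.PSolvable.hall_higman hsep hO
  obtain ⟨hVn, hVe, hD⟩ := Cfsg.Agent.S0601.result hc
  have hJ : ¬ thompsonSubgroup p ↥K ≤ Subgroup.centralizer ((⨆ S : Sylow p ↥K,
      omegaOne p ((S : Subgroup ↥K) ⊓ Subgroup.centralizer ((S : Subgroup ↥K) : Set ↥K)) :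
        Subgroup ↥K) : Set ↥K) :=
    fun h => hnf ((Cfsg.Agent.S0608.result hO).mpr h)
  obtain ⟨V, hVdef⟩ : ∃ V : Subgroup ↥K, V = ⨆ S : Sylow p ↥K,
      omegaOne p ((S : Subgroup ↥K) ⊓ Subgroup.centralizer ((S : Subgroup ↥K) : Set ↥K)) :=
    ⟨_, rfl⟩
  rw [← hVdef] at hVn hVe hD hJ
  haveI := hVn
  have hVchar : V.Characteristic := by rw [hVdef]; exact W_char p
  have hh := hol_hyps hsep V hVe hD hJ
  haveI := finite_HolG V
  obtain ⟨M, hMdef⟩ : ∃ M : Subgroup ↥K, M =
      (Subgroup.normalizer (thompsonSubgroupOf p (S : Subgroup ↥K) : Set ↥K) ⊔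
      Subgroup.centralizer (omegaOne p ((S : Subgroup ↥K) ⊓
        Subgroup.centralizer ((S : Subgroup ↥K) : Set ↥K)) : Set ↥K) ⊔
      (Subgroup.centralizer (X : Set G)).subgroupOf K) := ⟨_, rfl⟩
  rw [← hMdef]
  obtain ⟨J, hJdef⟩ : ∃ J : Subgroup ↥K, J = thompsonSubgroup p ↥K := ⟨_, rfl⟩
  rw [← hJdef] at hh hJ
  have hJchar : J.Characteristic := by
    rw [hJdef]; exact Cfsg.Agent.Lib.Helper4.Thompson.thompson_characteristic
  haveI hJn : J.Normal := Subgroup.normal_of_characteristic _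
  -- the action of X
  obtain ⟨α, hα⟩ : ∃ α : ↥X →* MulAut ↥K, ∀ (x : ↥X) (k : ↥K),
      ((α x k : ↥K) : G) = (x : G) * k * (x : G)⁻¹ :=
    ⟨(conjN K).comp (Subgroup.inclusion hXK), fun _ _ => rfl⟩
  obtain ⟨ξ, hξ⟩ : ∃ ξ : ↥X →* HolG V, ∀ x : ↥X,
      ξ x = (SemidirectProduct.inr (charRestrict V hVchar (α x)) : HolG V) :=
    ⟨(SemidirectProduct.inr : MulAut ↥V →* HolG V).comp ((charRestrict V hVchar).comp α),
      fun _ => rfl⟩
  have hr : ∀ k : ↥K, rho V k = (SemidirectProduct.inr (MulAut.conjNormal k) : HolG V) :=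
    fun _ => rfl
  have hrel : ∀ (x : ↥X) (k : ↥K), ξ x * rho V k * (ξ x)⁻¹ = rho V (α x k) := by
    intro x k
    have hM : charRestrict V hVchar (α x) * MulAut.conjNormal k =
        MulAut.conjNormal (α x k) * charRestrict V hVchar (α x) := by
      apply MulEquiv.ext
      intro v
      apply Subtype.ext
      apply Subtype.ext
      show ((α x (MulAut.conjNormal k v : ↥K) : ↥K) : G) =
        ((α x k : ↥K) : G) * ((α x (v : ↥K) : ↥K) : G) * ((α x k : ↥K) : G)⁻¹
      rw [hα, hα, hα]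
      show (x : G) * ((k : G) * ((v : ↥K) : G) * (k : G)⁻¹) * (x : G)⁻¹ = _
      group
    rw [hξ, hr, hr, ← map_inv, ← map_mul, ← map_mul, hM, mul_inv_cancel_right]
  have hXp : IsPGroup q ↥X := by
    intro x
    refine ⟨1, Subtype.ext ?_⟩
    have := hX.2 (x : G) x.2
    simpa using this
  obtain ⟨Xb, hXbdef⟩ : ∃ Xb : Subgroup (HolG V), Xb = ξ.range := ⟨_, rfl⟩
  have hXV : Xb ≤ Subgroup.normalizer ((VV V : Subgroup (HolG V)) : Set (HolG V)) :=
    VV_le_normalizer V Xb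
  have hJα : ∀ (x : ↥X) (j : ↥K), j ∈ J → α x j ∈ J := by
    intro x j hj
    have h : j ∈ J.comap (α x).toMonoidHom := by rw [hJchar.fixed]; exact hj
    exact h
  have hXH : Xb ≤ Subgroup.normalizer ((J.map (rho V) : Subgroup (HolG V)) : Set (HolG V)) := by
    rw [hXbdef]
    rintro _ ⟨x, rfl⟩
    rw [mem_normalizer_iff_conj_smul_eq]
    apply conj_smul_eq_of_le
    intro z hz
    rw [mem_conj_smul] at hz
    obtain ⟨j, hj, hjz⟩ := hz
    refine ⟨α x j, hJα x j hj, ?_⟩
    rw [← hrel, hjz]; group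
  have hXq : ∀ y ∈ Xb, ∃ k : ℕ, y ^ q ^ k = 1 := by
    rw [hXbdef]
    rintro _ ⟨x, rfl⟩
    refine ⟨1, ?_⟩
    have hx : x ^ q = 1 := Subtype.ext (by simpa using hX.2 (x : G) x.2)
    rw [pow_one, ← map_pow, hx, map_one]
  have h6 : 6 ∣ Nat.card ↥K := by
    have hex : ∃ E, Comp p (VV V) (J.map (rho V)) E := by
      by_contra hno
      apply hh.2.2.2.2.2
      rw [← comp_sup hh, iSup_eq_bot]
      rintro ⟨E, hE⟩
      exact absurd ⟨E, hE⟩ hno
    obtain ⟨E, hE⟩ := hex
    have h1 := comp_card hh hE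
    have h2 : Nat.card E ∣ Nat.card ↥(J.map (rho V)) := Subgroup.card_dvd_of_le (comp_le hh hE)
    have h3 : Nat.card ↥(J.map (rho V)) ∣ Nat.card ↥J := Subgroup.card_map_dvd J (rho V)
    have h4 : Nat.card ↥J ∣ Nat.card ↥K := Subgroup.card_subgroup_dvd_card J
    exact h1.trans (h2.trans (h3.trans h4))
  have hq2 : q ≠ 2 := by
    intro h2
    apply hq
    rw [h2]
    exact dvd_trans (by norm_num) h6
  have hq3 : q ≠ 3 := by
    intro h3
    apply hq
    rw [h3]
    exact dvd_trans (by norm_num) h6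
  have hM1 : (J.map (rho V)) ⊓ Subgroup.centralizer (Xb : Set (HolG V)) ≤ M.map (rho V) := by
    intro h hh'
    obtain ⟨hhH, hhC⟩ := Subgroup.mem_inf.mp hh'
    have hrange : h ∈ (rho V).range := by
      obtain ⟨j, -, rfl⟩ := hhH
      exact ⟨j, rfl⟩
    have hfix : ∀ x : ↥X, ξ x * h = h * ξ x := fun x =>
      Subgroup.mem_centralizer_iff.mp hhC (ξ x) (by rw [hXbdef]; exact ⟨x, rfl⟩)
    obtain ⟨k, hk, hkfix⟩ := lift_fixed hXp hq (rho V) ξ α hrel h hrange hfix
    refine ⟨k, ?_, hk⟩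
    show k ∈ M
    rw [hMdef]
    apply Subgroup.mem_sup_right
    rw [Subgroup.mem_subgroupOf, Subgroup.mem_centralizer_iff]
    intro x hx
    have h1 := hkfix ⟨x, hx⟩
    have h2 : x * (k : G) * x⁻¹ = (k : G) := by
      rw [← hα ⟨x, hx⟩ k, h1]
    exact mul_inv_eq_iff_eq_mul.mp h2
  have hSM : (S : Subgroup ↥K) ≤ M := by
    rw [hMdef]
    refine le_trans ?_ (le_sup_left.trans le_sup_left)
    exact Subgroup.le_normalizer.trans (normalizer_le_normalizer_thompsonSubgroupOf _)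
  have hLn : ((J.map (rho V)).comap (rho V)).Normal := by
    constructor
    intro l hl g
    rw [Subgroup.mem_comap] at hl ⊢
    obtain ⟨j, hj, hjl⟩ := hl
    refine ⟨g * j * g⁻¹, hJn.conj_mem j hj g, ?_⟩
    simp only [map_mul, map_inv, hjl]
  have hM2 : ∀ E : Subgroup (HolG V), Comp p (VV V) (J.map (rho V)) E →
      ∃ Q : Sylow p ↥E, ∀ y ∈ (Q : Subgroup ↥E), (y : HolG V) ∈ M.map (rho V) := by
    intro E hE
    have hEH := comp_le hh hE
    have hNE := comp_norm hh hE
    have hle : E.comap (rho V) ≤ (J.map (rho V)).comap (rho V) := Subgroup.comap_mono hEH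
    have hN : ((E.comap (rho V)).subgroupOf ((J.map (rho V)).comap (rho V))).Normal := by
      constructor
      rintro ⟨n, hn⟩ hnE ⟨l, hl⟩
      rw [Subgroup.mem_subgroupOf] at hnE ⊢
      show rho V (l * n * l⁻¹) ∈ E
      rw [map_mul, map_mul, map_inv]
      exact (norm_conj_mem' (hNE hl)).mpr hnE
    have hsub : (E.comap (rho V)).IsSubnormal :=
      Subgroup.IsSubnormal.step _ _ hle hLn.isSubnormal hN
    obtain ⟨Q₀, hQ₀⟩ := Cfsg.Agent.S0542.exists_sylow_eq p (E.comap (rho V)) hsub S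
    have hφs : Function.Surjective ((rho V).subgroupComap E) := by
      rintro ⟨y, hy⟩
      obtain ⟨j, -, rfl⟩ := hEH hy
      exact ⟨⟨j, hy⟩, rfl⟩
    refine ⟨Q₀.mapSurjective hφs, ?_⟩
    intro y hy
    rw [Sylow.coe_mapSurjective] at hy
    obtain ⟨s, hs, rfl⟩ := hy
    rw [SetLike.mem_coe, hQ₀, Subgroup.mem_subgroupOf] at hs
    exact ⟨(s : ↥K), hSM hs, rfl⟩
  have hcore : J.map (rho V) ≤ M.map (rho V) := core hh hq2 hq3 hXV hXH hXq hM1 hM2
  have hCM : Subgroup.centralizer (V : Set ↥K) ≤ M := by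
    rw [hMdef]
    refine le_trans ?_ (le_sup_right.trans le_sup_left)
    apply Subgroup.centralizer_le
    rw [hVdef]
    exact SetLike.coe_subset_coe.mpr (le_iSup (fun S : Sylow p ↥K =>
      omegaOne p ((S : Subgroup ↥K) ⊓ Subgroup.centralizer ((S : Subgroup ↥K) : Set ↥K))) S)
  have hJM : J ≤ M := by
    intro j hj
    obtain ⟨m, hm, hmj⟩ := hcore (Subgroup.mem_map_of_mem (rho V) hj)
    have hc : m⁻¹ * j ∈ Subgroup.centralizer (V : Set ↥K) := by
      rw [← rho_eq_one_iff, map_mul, map_inv, hmj, inv_mul_cancel]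
    have e : j = m * (m⁻¹ * j) := by group
    rw [e]
    exact M.mul_mem hm (hCM hc)
  -- Frattini
  haveI hCn : (Subgroup.centralizer (V : Set ↥K)).Normal := Subgroup.normal_centralizer
  obtain ⟨L, hLdef⟩ : ∃ L : Subgroup ↥K, L = J ⊔ Subgroup.centralizer (V : Set ↥K) := ⟨_, rfl⟩
  haveI hLn' : L.Normal := by rw [hLdef]; infer_instance
  obtain ⟨Q, hQ⟩ := Cfsg.Agent.S0542.exists_sylow_eq p L hLn'.isSubnormal S
  have hP : (Q : Subgroup L).map L.subtype = (S : Subgroup ↥K) ⊓ L := by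
    rw [hQ, Subgroup.subgroupOf_map_subtype]
  have hfr : Subgroup.normalizer (((Q : Subgroup L).map L.subtype : Subgroup ↥K) : Set ↥K) ⊔ L
      = ⊤ := Sylow.normalizer_sup_eq_top Q
  rw [hP] at hfr
  have hJS : thompsonSubgroupOf p (S : Subgroup ↥K) ≤ (S : Subgroup ↥K) ⊓ L :=
    le_inf (thompsonSubgroupOf_le _)
      ((thompsonSubgroupOf_sylow_le S).trans (by rw [hLdef, hJdef]; exact le_sup_left))
  have hJeq := thompsonSubgroupOf_eq_of_le (p := p)
    (inf_le_left : (S : Subgroup ↥K) ⊓ L ≤ S) hJS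
  have hNle : Subgroup.normalizer ((((S : Subgroup ↥K) ⊓ L : Subgroup ↥K)) : Set ↥K) ≤ M := by
    have h1 := normalizer_le_normalizer_thompsonSubgroupOf (p := p) ((S : Subgroup ↥K) ⊓ L)
    rw [hJeq] at h1
    rw [hMdef]
    exact h1.trans (le_sup_left.trans le_sup_left)
  have hLM : L ≤ M := by rw [hLdef]; exact sup_le hJM hCM
  rw [eq_top_iff, ← hfr]
  exact sup_le hNle hLM

/-- Under coprime action of an elementary abelian q-group X on a p-separable group K with trivial p'-core, K is generated by the normalizer of J(S), the centralizer of Ω₁(Z(S)) and the fixed points of X. -/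
theorem result {G : Type*} [Group G] [Finite G] {p : ℕ} [Fact p.Prime] {q : ℕ} [Fact q.Prime] (K X : Subgroup G) (hXK : X ≤ Subgroup.normalizer (K : Set G)) (hX : Cfsg.IsElementaryAbelian q X) (hq : ¬ q ∣ Nat.card K) (hsep : Cfsg.IsPSolvable p ↥K) (hO : Cfsg.pPrimeCore p ↥K = ⊥) (S : Sylow p ↥K) : (Subgroup.normalizer (Cfsg.thompsonSubgroupOf p (S : Subgroup ↥K) : Set ↥K) ⊔ Subgroup.centralizer (Cfsg.omegaOne p ((S : Subgroup ↥K) ⊓ Subgroup.centralizer ((S : Subgroup ↥K) : Set ↥K)) : Set ↥K) ⊔ (Subgroup.centralizer (X : Set G)).subgroupOf K) = ⊤ := by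
  by_cases hTF : Cfsg.IsThompsonFactorizable p ↥K
  · rw [eq_top_iff]
    intro g _
    obtain ⟨x, hx, c, hc, n, hn, rfl⟩ := hTF S g
    rw [hO, Subgroup.mem_bot] at hx
    rw [hx, one_mul]
    apply Subgroup.mem_sup_left
    exact Subgroup.mul_mem _ (Subgroup.mem_sup_right hc) (Subgroup.mem_sup_left hn)
  · exact main K X hXK hX hq hsep hO S hTF

end Cfsg.Agent.S0620
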