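import Mathlib
import Cfsg.Statements.S0561
import Cfsg.Agent.Lib.Helper4.Conj
import Cfsg.Agent.Lib.Helper4.Card
import Cfsg.Agent.Lib.Lead.Hall

set_option autoImplicit false
open Pointwise
open Cfsg

open scoped Pointwise

namespace Cfsg.Agent.S0561

universe u

open Cfsg.Agent.Lib.Helper4.Conj Cfsg.Agent.Lib.Helper4.Card

theorem conj_smul_mono' {G : Type u} [Group G] (a : G) {A B : Subgroup G} (h : A ≤ B) :
    MulAut.conj a • A ≤ MulAut.conj a • B := by
  intro x hx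
  rw [mem_conj_smul] at hx ⊢
  exact h hx

/-- core: two Hall subgroups whose normalizers factorize the group have a product that is a
subgroup -/
theorem core {G : Type u} [Group G] [Finite G] [Group.IsSolvable G] (A B : Subgroup G)
    (hAh : (Nat.card A).Coprime A.index) (hBh : (Nat.card B).Coprime B.index)
    (hN : ∀ g : G, ∃ u v : G, MulAut.conj u • B = B ∧ MulAut.conj v • A = A ∧ u * g = v) :
    ∃ S : Subgroup G, (S : Set G) = (A : Set G) * (B : Set G) := by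
  classical
  obtain ⟨m, hm⟩ : ∃ m, m = Nat.lcm (Nat.card A) (Nat.card B) := ⟨_, rfl⟩
  have hAm : Nat.card A ∣ m := hm ▸ Nat.dvd_lcm_left _ _
  have hBm : Nat.card B ∣ m := hm ▸ Nat.dvd_lcm_right _ _
  have hmG : m ∣ Nat.card G := by
    rw [hm]
    exact Nat.lcm_dvd (Subgroup.card_subgroup_dvd_card A) (Subgroup.card_subgroup_dvd_card B)
  obtain ⟨n, hn⟩ := hmG
  have hm0 : 0 < m := by
    rw [hm]; exact Nat.lcm_pos Nat.card_pos Nat.card_pos
  have hcop : m.Coprime n := by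
    apply Nat.coprime_of_dvd
    intro p hp hpm hpn
    have key : ∀ X : Subgroup G, (Nat.card X).Coprime X.index → Nat.card X ∣ m →
        p ∣ Nat.card X → False := by
      intro X hX hXm hpX
      obtain ⟨t, ht⟩ := hXm
      have h1 : X.index * Nat.card X = Nat.card G := Subgroup.index_mul_card X
      have h2 : X.index = t * n := by
        have h3 : X.index * Nat.card X = (t * n) * Nat.card X := by
          rw [h1, hn, ht]; ring
        exact Nat.eq_of_mul_eq_mul_right Nat.card_pos h3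
      have h4 : p ∣ X.index := by rw [h2]; exact Dvd.dvd.mul_left hpn t
      exact hp.one_lt.ne' (Nat.Coprime.eq_one_of_dvd (Nat.Coprime.coprime_dvd_left hpX hX) h4)
    have h5 : p ∣ Nat.card A * Nat.card B := by
      rw [hm] at hpm
      exact hpm.trans (Nat.lcm_dvd_mul _ _)
    rcases (Nat.Prime.dvd_mul hp).mp h5 with h | h
    · exact key A hAh hAm h
    · exact key B hBh hBm h
  obtain ⟨M₁, hM₁, hAM⟩ := Cfsg.Agent.Lib.Lead.Hall.hall_le m n hn hcop A
    (Nat.Coprime.coprime_dvd_left hAm hcop)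
  obtain ⟨M₂, hM₂, hBM⟩ := Cfsg.Agent.Lib.Lead.Hall.hall_le m n hn hcop B
    (Nat.Coprime.coprime_dvd_left hBm hcop)
  obtain ⟨c, hc⟩ := Cfsg.Agent.Lib.Lead.Hall.hall_conj m n hn hcop M₁ M₂ hM₁ hM₂
  obtain ⟨u, v, hu, hv, huv⟩ := hN c
  obtain ⟨M, hM⟩ : ∃ M, M = MulAut.conj v • M₁ := ⟨_, rfl⟩
  have hMcard : Nat.card M = m := by rw [hM, card_conj_smul, hM₁]
  have hA' : A ≤ M := by
    rw [hM, ← hv]; exact conj_smul_mono' v hAM
  have hB' : B ≤ M := by
    have h1 : MulAut.conj u • B ≤ MulAut.conj u • M₂ := conj_smul_mono' u hBM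
    rw [hu, ← hc, conj_smul_smul, huv] at h1
    rw [hM]; exact h1
  refine ⟨M, ?_⟩
  symm
  apply Set.eq_of_subset_of_ncard_le _ _ (Set.toFinite _)
  · rintro _ ⟨a, ha, b, hb, rfl⟩
    exact M.mul_mem (hA' ha) (hB' hb)
  · have h1 := card_mul_set A B
    have h2 : Nat.card ↥(A ⊓ B) ∣ Nat.gcd (Nat.card A) (Nat.card B) :=
      Nat.dvd_gcd (Subgroup.card_dvd_of_le inf_le_left) (Subgroup.card_dvd_of_le inf_le_right)
    have h3 : Nat.card ↥(A ⊓ B) ≤ Nat.gcd (Nat.card A) (Nat.card B) :=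
      Nat.le_of_dvd (Nat.gcd_pos_of_pos_left _ Nat.card_pos) h2
    have h4 : Nat.gcd (Nat.card A) (Nat.card B) * m = Nat.card A * Nat.card B := by
      rw [hm]; exact Nat.gcd_mul_lcm _ _
    have h5 : (M : Set G).ncard = m := by
      rw [← Nat.card_coe_set_eq]; exact hMcard
    rw [h5, ← Nat.card_coe_set_eq]
    by_contra hlt
    have hlt' : Nat.card ((A : Set G) * (B : Set G) : Set G) < m := not_le.mp hlt
    have h6 : Nat.card ((A : Set G) * (B : Set G) : Set G) * Nat.card ↥(A ⊓ B) <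
        m * Nat.gcd (Nat.card A) (Nat.card B) :=
      Nat.mul_lt_mul_of_lt_of_le hlt' h3 (Nat.gcd_pos_of_pos_left _ Nat.card_pos)
    rw [h1, ← h4, mul_comm] at h6
    exact lt_irrefl _ h6

theorem main {G : Type u} [Group G] [Finite G] [Group.IsSolvable G] (H K A B : Subgroup G)
    (hHK : ∀ g : G, ∃ h ∈ H, ∃ k ∈ K, g = h * k) (hA : A ≤ H)
    (hAn : (A.subgroupOf H).Normal) (hB : B ≤ K) (hBn : (B.subgroupOf K).Normal)
    (hAh : (Nat.card A).Coprime A.index) (hBh : (Nat.card B).Coprime B.index) (x y : G) :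
    ∃ S : Subgroup G, (S : Set G) =
      ((MulAut.conj x • A : Subgroup G) : Set G) * ((MulAut.conj y • B : Subgroup G) : Set G) := by
  have hKH : ∀ g : G, ∃ k ∈ K, ∃ h ∈ H, g = k * h := by
    intro g
    obtain ⟨h, hh, k, hk, e⟩ := hHK g⁻¹
    refine ⟨k⁻¹, K.inv_mem hk, h⁻¹, H.inv_mem hh, ?_⟩
    rw [← mul_inv_rev, ← e, inv_inv]
  have hAH : ∀ h ∈ H, MulAut.conj h • A = A := by
    intro h hh
    apply conj_smul_eq_of_le
    intro a ha
    rw [mem_conj_smul] at ha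
    have h1 := hAn.conj_mem (⟨h⁻¹ * a * h, hA ha⟩ : H) (Subgroup.mem_subgroupOf.mpr ha) ⟨h, hh⟩
    rw [Subgroup.mem_subgroupOf] at h1
    have e : ((⟨h, hh⟩ * ⟨h⁻¹ * a * h, hA ha⟩ * ⟨h, hh⟩⁻¹ : H) : G) = a := by
      simp only [Subgroup.coe_mul, Subgroup.coe_inv]; group
    rw [e] at h1
    exact h1
  have hBK : ∀ k ∈ K, MulAut.conj k • B = B := by
    intro k hk
    apply conj_smul_eq_of_le
    intro b hb
    rw [mem_conj_smul] at hb
    have h1 := hBn.conj_mem (⟨k⁻¹ * b * k, hB hb⟩ : K) (Subgroup.mem_subgroupOf.mpr hb) ⟨k, hk⟩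
    rw [Subgroup.mem_subgroupOf] at h1
    have e : ((⟨k, hk⟩ * ⟨k⁻¹ * b * k, hB hb⟩ * ⟨k, hk⟩⁻¹ : K) : G) = b := by
      simp only [Subgroup.coe_mul, Subgroup.coe_inv]; group
    rw [e] at h1
    exact h1
  have hidx : ∀ (g : G) (X : Subgroup G), (MulAut.conj g • X).index = X.index := by
    intro g X
    have h1 := Subgroup.index_mul_card (MulAut.conj g • X)
    have h2 := Subgroup.index_mul_card X
    rw [card_conj_smul] at h1
    exact Nat.eq_of_mul_eq_mul_right Nat.card_pos (h1.trans h2.symm)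
  apply core
  · rw [card_conj_smul, hidx]; exact hAh
  · rw [card_conj_smul, hidx]; exact hBh
  · intro g
    obtain ⟨k₀, hk₀, h₀, hh₀, e₀⟩ := hKH (y⁻¹ * x)
    obtain ⟨k₁, hk₁, h₁, hh₁, e₁⟩ := hKH (y⁻¹ * g * x)
    refine ⟨y * (k₁ * k₀⁻¹)⁻¹ * y⁻¹, x * (h₀⁻¹ * h₁) * x⁻¹, ?_, ?_, ?_⟩
    · have hk : (k₁ * k₀⁻¹)⁻¹ ∈ K := K.inv_mem (K.mul_mem hk₁ (K.inv_mem hk₀))
      have e : y * (k₁ * k₀⁻¹)⁻¹ * y⁻¹ * y = y * (k₁ * k₀⁻¹)⁻¹ := by group
      rw [conj_smul_smul, e, ← conj_smul_smul, hBK _ hk]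
    · have hh : h₀⁻¹ * h₁ ∈ H := H.mul_mem (H.inv_mem hh₀) hh₁
      have e : x * (h₀⁻¹ * h₁) * x⁻¹ * x = x * (h₀⁻¹ * h₁) := by group
      rw [conj_smul_smul, e, ← conj_smul_smul, hAH _ hh]
    · have e2 : g = y * (k₁ * h₁) * x⁻¹ := by rw [← e₁]; group
      have e3 : x = y * (k₀ * h₀) := by rw [← e₀]; group
      calc y * (k₁ * k₀⁻¹)⁻¹ * y⁻¹ * g
          = y * (k₁ * k₀⁻¹)⁻¹ * y⁻¹ * (y * (k₁ * h₁) * x⁻¹) := by rw [← e2]
        _ = y * (k₀ * h₀) * (h₀⁻¹ * h₁) * x⁻¹ := by group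
        _ = x * (h₀⁻¹ * h₁) * x⁻¹ := by rw [← e3]

/-- Let the finite solvable group G be the product HK of subgroups, and let A be normal in H and B normal in K, where A and B are Hall subgroups of G (order coprime to index). Then for all x, y the product set of xAx⁻¹ and yBy⁻¹ is a subgroup of G. -/
theorem result {G : Type*} [Group G] [Finite G] [Group.IsSolvable G] (H K A B : Subgroup G) (hHK : ∀ g : G, ∃ h ∈ H, ∃ k ∈ K, g = h * k) (hA : A ≤ H) (hAn : (A.subgroupOf H).Normal) (hB : B ≤ K) (hBn : (B.subgroupOf K).Normal) (hAh : (Nat.card A).Coprime A.index) (hBh : (Nat.card B).Coprime B.index) (x y : G) : ∃ S : Subgroup G, (S : Set G) = ((MulAut.conj x • A : Subgroup G) : Set G) * ((MulAut.conj y • B : Subgroup G) : Set G) := by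
  exact main H K A B hHK hA hAn hB hBn hAh hBh x y

end Cfsg.Agent.S0561
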