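import Mathlib
import Cfsg.Statements.S0562

set_option autoImplicit false
open Cfsg

namespace Cfsg.Agent.S0562

/-- Let the finite group G be the product HK of subgroups, A normal in H, B normal in K, and L the normalizer of the subgroup generated by A and B. Then every element of L is a product of an element of L ∩ H and an element of L ∩ K. -/
theorem result {G : Type*} [Group G] [Finite G] (H K A B : Subgroup G) (hHK : ∀ g : G, ∃ h ∈ H, ∃ k ∈ K, g = h * k) (hA : A ≤ H) (hAn : (A.subgroupOf H).Normal) (hB : B ≤ K) (hBn : (B.subgroupOf K).Normal) : ∀ g ∈ Subgroup.normalizer ((A ⊔ B : Subgroup G) : Set G), ∃ h ∈ Subgroup.normalizer ((A ⊔ B : Subgroup G) : Set G) ⊓ H, ∃ k ∈ Subgroup.normalizer ((A ⊔ B : Subgroup G) : Set G) ⊓ K, g = h * k := by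
  intro g hg
  obtain ⟨h, hh, k, hk, rfl⟩ := hHK g
  have hHA : H ≤ Subgroup.normalizer (A : Set G) := (Subgroup.normal_subgroupOf_iff_le_normalizer hA).mp hAn
  have hKB : K ≤ Subgroup.normalizer (B : Set G) := (Subgroup.normal_subgroupOf_iff_le_normalizer hB).mp hBn
  set D : Subgroup G := A ⊔ B with hD
  rw [Subgroup.mem_normalizer_iff_map_conj_eq] at hg
  have hconj : (MulAut.conj (h * k) : G ≃* G) = (MulAut.conj h) * (MulAut.conj k) := map_mul _ _ _
  have e1 : D.map (MulAut.conj k).toMonoidHom = D.map (MulAut.conj h⁻¹).toMonoidHom := by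
    ext x
    simp only [Subgroup.mem_map, MulEquiv.coe_toMonoidHom, MulAut.conj_apply, inv_inv]
    constructor
    · rintro ⟨d, hd, rfl⟩
      refine ⟨h * (k * d * k⁻¹) * h⁻¹, ?_, by group⟩
      rw [← hg]
      refine ⟨d, hd, ?_⟩
      simp [hconj, MulAut.conj_apply, mul_assoc]
    · rintro ⟨d, hd, rfl⟩
      rw [← hg] at hd
      obtain ⟨d', hd', rfl⟩ := hd
      refine ⟨d', hd', ?_⟩
      simp [hconj, MulAut.conj_apply, mul_assoc]
  have hAle : A ≤ D.map (MulAut.conj h⁻¹).toMonoidHom := by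
    intro a ha
    refine ⟨h * a * h⁻¹, ?_, by simp [MulAut.conj_apply, mul_assoc]⟩
    exact Subgroup.mem_sup_left (((Subgroup.mem_normalizer_iff.mp (hHA hh)) a).mp ha)
  have hBle : B ≤ D.map (MulAut.conj k).toMonoidHom := by
    intro b hb
    refine ⟨k⁻¹ * b * k, ?_, by simp [MulAut.conj_apply, mul_assoc]⟩
    have := ((Subgroup.mem_normalizer_iff.mp (hKB (K.inv_mem hk))) b).mp hb
    exact Subgroup.mem_sup_right (by simpa using this)
  have hDle : D ≤ D.map (MulAut.conj k).toMonoidHom := by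
    rw [hD]
    exact sup_le (e1 ▸ hAle) hBle
  have hcard : Nat.card (D.map (MulAut.conj k).toMonoidHom) ≤ Nat.card D := by
    rw [Subgroup.card_map_of_injective (MulAut.conj k).injective]
  have e2 : D = D.map (MulAut.conj k).toMonoidHom := Subgroup.eq_of_le_of_card_ge hDle hcard
  have hkN : k ∈ Subgroup.normalizer (D : Set G) := by
    rw [Subgroup.mem_normalizer_iff_map_conj_eq]; exact e2.symm
  have hhN : h ∈ Subgroup.normalizer (D : Set G) := by
    have : h⁻¹ ∈ Subgroup.normalizer (D : Set G) := by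
      rw [Subgroup.mem_normalizer_iff_map_conj_eq]
      exact (e2.trans e1).symm
    simpa using Subgroup.inv_mem _ this
  exact ⟨h, ⟨hhN, hh⟩, k, ⟨hkN, hk⟩, rfl⟩

end Cfsg.Agent.S0562
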