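import Mathlib
import Cfsg.Statements.S0566
import Cfsg.Agent.Lib.Helper4.Conj
import Cfsg.Agent.S0559

set_option autoImplicit false
open Pointwise
open Cfsg

open Cfsg.Agent.Lib.Helper4.Conj

namespace Cfsg.Agent.S0566

theorem perm_of_isSub {G : Type*} [Group G] {H C S : Subgroup G}
    (hS : (S : Set G) = (H : Set G) * (C : Set G)) :
    ∀ c ∈ C, ∀ x ∈ H, ∃ h ∈ H, ∃ c' ∈ C, c * x = h * c' := by
  intro c hc x hx
  have h1 : x⁻¹ * c⁻¹ ∈ S := by
    rw [← SetLike.mem_coe, hS]; exact Set.mul_mem_mul (H.inv_mem hx) (C.inv_mem hc)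
  have h2 : c * x ∈ S := by
    have := S.inv_mem h1
    simpa [mul_inv_rev] using this
  rw [← SetLike.mem_coe, hS] at h2
  obtain ⟨h, hh, c', hc', he⟩ := h2
  exact ⟨h, hh, c', hc', he.symm⟩

theorem perm_sup {G : Type*} [Group G] {H K C : Subgroup G}
    (hH : ∀ c ∈ C, ∀ x ∈ H, ∃ h ∈ H, ∃ c' ∈ C, c * x = h * c')
    (hK : ∀ c ∈ C, ∀ x ∈ K, ∃ h ∈ K, ∃ c' ∈ C, c * x = h * c') :
    ∀ c ∈ C, ∀ x ∈ H ⊔ K, ∃ h ∈ H ⊔ K, ∃ c' ∈ C, c * x = h * c' := by
  have hgen : ∀ c ∈ C, ∀ x ∈ ((H : Set G) ∪ (K : Set G)), ∃ h ∈ H ⊔ K, ∃ c' ∈ C, c * x = h * c' := by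
    rintro c hc x (hx | hx)
    · obtain ⟨h, hh, c', hc', he⟩ := hH c hc x hx
      exact ⟨h, Subgroup.mem_sup_left hh, c', hc', he⟩
    · obtain ⟨h, hh, c', hc', he⟩ := hK c hc x hx
      exact ⟨h, Subgroup.mem_sup_right hh, c', hc', he⟩
  have hinv : ∀ x ∈ ((H : Set G) ∪ (K : Set G)), x⁻¹ ∈ ((H : Set G) ∪ (K : Set G)) := by
    rintro x (hx | hx)
    · exact Or.inl (H.inv_mem hx)
    · exact Or.inr (K.inv_mem hx)
  intro c hc x hx
  rw [Subgroup.sup_eq_closure] at hx
  induction hx using Subgroup.closure_induction_left generalizing c with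
  | one => exact ⟨1, one_mem _, c, hc, by simp⟩
  | mul_left x hx y hy ih =>
    obtain ⟨h, hh, c1, hc1, he⟩ := hgen c hc x hx
    obtain ⟨h2, hh2, c2, hc2, he2⟩ := ih c1 hc1
    refine ⟨h * h2, Subgroup.mul_mem _ hh hh2, c2, hc2, ?_⟩
    rw [← mul_assoc, he, mul_assoc, he2, mul_assoc]
  | inv_mul_cancel x hx y hy ih =>
    obtain ⟨h, hh, c1, hc1, he⟩ := hgen c hc x⁻¹ (hinv x hx)
    obtain ⟨h2, hh2, c2, hc2, he2⟩ := ih c1 hc1
    refine ⟨h * h2, Subgroup.mul_mem _ hh hh2, c2, hc2, ?_⟩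
    rw [← mul_assoc, he, mul_assoc, he2, mul_assoc]

theorem isSub_of_perm {G : Type*} [Group G] {H C : Subgroup G}
    (hH : ∀ c ∈ C, ∀ x ∈ H, ∃ h ∈ H, ∃ c' ∈ C, c * x = h * c') :
    ((H ⊔ C : Subgroup G) : Set G) = (H : Set G) * (C : Set G) := by
  apply Set.Subset.antisymm
  · intro g hg
    have hg' : g ∈ H ⊔ C := hg
    rw [Subgroup.sup_eq_closure] at hg'
    induction hg' using Subgroup.closure_induction_left with
    | one => exact ⟨1, H.one_mem, 1, C.one_mem, by simp⟩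
    | mul_left x hx y hy ih =>
      obtain ⟨h, hh, c, hc, rfl⟩ := ih (by rw [Subgroup.sup_eq_closure]; exact hy)
      rcases hx with hx | hx
      · exact ⟨x * h, H.mul_mem hx hh, c, hc, by simp [mul_assoc]⟩
      · obtain ⟨h', hh', c', hc', he⟩ := hH x hx h hh
        refine ⟨h', hh', c' * c, C.mul_mem hc' hc, ?_⟩
        show h' * (c' * c) = x * (h * c)
        rw [← mul_assoc, ← he, mul_assoc]
    | inv_mul_cancel x hx y hy ih =>
      obtain ⟨h, hh, c, hc, rfl⟩ := ih (by rw [Subgroup.sup_eq_closure]; exact hy)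
      rcases hx with hx | hx
      · exact ⟨x⁻¹ * h, H.mul_mem (H.inv_mem hx) hh, c, hc, by simp [mul_assoc]⟩
      · obtain ⟨h', hh', c', hc', he⟩ := hH x⁻¹ (C.inv_mem hx) h hh
        refine ⟨h', hh', c' * c, C.mul_mem hc' hc, ?_⟩
        show h' * (c' * c) = x⁻¹ * (h * c)
        rw [← mul_assoc, ← he, mul_assoc]
  · rintro _ ⟨h, hh, c, hc, rfl⟩
    exact Subgroup.mul_mem _ (Subgroup.mem_sup_left hh) (Subgroup.mem_sup_right hc)

theorem key {G : Type*} [Group G] [Finite G] (B : Subgroup G)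
    (hnoB : ∀ N : Subgroup G, N.Normal → B ≤ N → N = ⊤) (n : ℕ) :
    ∀ A : Subgroup G, Nat.card G - Nat.card A = n →
      (∀ N : Subgroup G, N.Normal → A ≤ N → N = ⊤) →
      (∀ x : G, ∃ S : Subgroup G, S ≠ ⊤ ∧
        (S : Set G) = (A : Set G) * ((MulAut.conj x • B : Subgroup G) : Set G)) → False := by
  induction n using Nat.strong_induction_on with
  | _ n ih =>
    intro A hn hnoA h
    have hAS : ∀ x : G, ∀ S : Subgroup G,
        (S : Set G) = (A : Set G) * ((MulAut.conj x • B : Subgroup G) : Set G) → A ≤ S := by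
      intro x S hS a ha
      rw [← SetLike.mem_coe, hS]
      exact ⟨a, ha, 1, Subgroup.one_mem _, by simp⟩
    have hBS : ∀ x : G, ∀ S : Subgroup G,
        (S : Set G) = (A : Set G) * ((MulAut.conj x • B : Subgroup G) : Set G) →
        MulAut.conj x • B ≤ S := by
      intro x S hS b hb
      rw [← SetLike.mem_coe, hS]
      exact ⟨1, A.one_mem, b, hb, by simp⟩
    have hAnn : ¬ A.Normal := by
      intro hAn
      have h1 := hnoA A hAn le_rfl
      obtain ⟨S, hSne, hS⟩ := h 1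
      have := hAS 1 S hS
      rw [h1] at this
      exact hSne (top_le_iff.mp this)
    obtain ⟨y, b, hby, hbN⟩ : ∃ y b : G, b ∈ MulAut.conj y • B ∧
        b ∉ Subgroup.normalizer (A : Set G) := by
      by_contra hcon
      push Not at hcon
      have hBcore : B ≤ (Subgroup.normalizer (A : Set G)).normalCore := by
        intro b hb g
        exact hcon g _ (conj_mem_conj_smul hb)
      have h1 := hnoB _ inferInstance hBcore
      have h2 : Subgroup.normalizer (A : Set G) = ⊤ :=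
        top_le_iff.mp (h1 ▸ Subgroup.normalCore_le _)
      exact hAnn (Subgroup.normalizer_eq_top_iff.mp h2)
    have hlt : A < A ⊔ MulAut.conj b • A := by
      refine lt_of_le_of_ne le_sup_left ?_
      intro heq
      have h1 : MulAut.conj b • A ≤ A := by
        conv_rhs => rw [heq]
        exact le_sup_right
      exact hbN (mem_normalizer_iff_conj_smul_eq.mpr (conj_smul_eq_of_le h1))
    obtain ⟨Sy, hSyne, hSy⟩ := h y
    have hbSy : b ∈ Sy := hBS y Sy hSy hby
    have hA1Sy : A ⊔ MulAut.conj b • A ≤ Sy :=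
      sup_le (hAS y Sy hSy) (conj_smul_le_of_mem hbSy (hAS y Sy hSy))
    have hperm : ∀ z : G, ∀ c ∈ MulAut.conj z • B, ∀ x ∈ A ⊔ MulAut.conj b • A,
        ∃ h ∈ A ⊔ MulAut.conj b • A, ∃ c' ∈ MulAut.conj z • B, c * x = h * c' := by
      intro z
      apply perm_sup
      · obtain ⟨S, _, hS⟩ := h z
        exact perm_of_isSub hS
      · intro c hc x hx
        obtain ⟨S, _, hS⟩ := h (b⁻¹ * z)
        have hp := perm_of_isSub hS
        have hc' : b⁻¹ * c * b ∈ MulAut.conj (b⁻¹ * z) • B := by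
          rw [mem_conj_smul] at hc ⊢
          have : (b⁻¹ * z)⁻¹ * (b⁻¹ * c * b) * (b⁻¹ * z) = z⁻¹ * c * z := by group
          rw [this]; exact hc
        have hx' : b⁻¹ * x * b ∈ A := mem_conj_smul.mp hx
        obtain ⟨a', ha', c'', hc'', he⟩ := hp _ hc' _ hx'
        refine ⟨b * a' * b⁻¹, conj_mem_conj_smul ha', b * c'' * b⁻¹, ?_, ?_⟩
        · rw [mem_conj_smul] at hc'' ⊢
          have : z⁻¹ * (b * c'' * b⁻¹) * z = (b⁻¹ * z)⁻¹ * c'' * (b⁻¹ * z) := by group
          rw [this]; exact hc''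
        · have h1 : c * x = b * ((b⁻¹ * c * b) * (b⁻¹ * x * b)) * b⁻¹ := by group
          rw [h1, he]; group
    by_cases hall : ∀ z : G, ((A ⊔ MulAut.conj b • A) ⊔ MulAut.conj z • B : Subgroup G) ≠ ⊤
    · have hcard1 : Nat.card A < Nat.card ↥(A ⊔ MulAut.conj b • A) := by
        apply lt_of_le_of_ne (Subgroup.card_le_of_le hlt.le)
        intro hce
        exact hlt.ne (Subgroup.eq_of_le_of_card_ge hlt.le hce.ge)
      have hcard2 : Nat.card ↥(A ⊔ MulAut.conj b • A) ≤ Nat.card G := Subgroup.card_le_card_group _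
      refine ih (Nat.card G - Nat.card ↥(A ⊔ MulAut.conj b • A)) (by omega) _ rfl ?_ ?_
      · intro N hN hle
        exact hnoA N hN (le_sup_left.trans hle)
      · intro z
        exact ⟨_, hall z, isSub_of_perm (hperm z)⟩
    · push Not at hall
      obtain ⟨z, hz⟩ := hall
      have hset := isSub_of_perm (hperm z)
      have hHK : ∀ g : G, ∃ s ∈ Sy, ∃ k ∈ MulAut.conj z • B, g = s * k := by
        intro g
        have hg : g ∈ ((A ⊔ MulAut.conj b • A) ⊔ MulAut.conj z • B : Subgroup G) := by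
          rw [hz]; trivial
        rw [← SetLike.mem_coe, hset] at hg
        obtain ⟨s, hs, k, hk, rfl⟩ := hg
        exact ⟨s, hA1Sy hs, k, hk, rfl⟩
      have h559 := Cfsg.Agent.S0559.result Sy (MulAut.conj z • B) Sy (MulAut.conj y • B) hHK
        ⟨1, (conj_one_smul Sy).symm⟩
        ⟨y * z⁻¹, by rw [conj_smul_smul]; congr 2; group⟩
      apply hSyne
      rw [eq_top_iff]
      intro g _
      obtain ⟨a, ha, b', hb', rfl⟩ := h559.1 g
      exact Sy.mul_mem ha (hBS y Sy hSy hb')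

/-- Let A and B be nontrivial subgroups of a finite group G such that for every x the product set of A and xBx⁻¹ is a proper subgroup of G. Then there is a proper normal subgroup of G containing A or containing B. -/
theorem result {G : Type*} [Group G] [Finite G] (A B : Subgroup G) (hA : A ≠ ⊥) (hB : B ≠ ⊥) (h : ∀ x : G, ∃ S : Subgroup G, S ≠ ⊤ ∧ (S : Set G) = (A : Set G) * ((MulAut.conj x • B : Subgroup G) : Set G)) : ∃ N : Subgroup G, N.Normal ∧ N ≠ ⊤ ∧ (A ≤ N ∨ B ≤ N) := by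
  by_contra hcon
  push Not at hcon
  have hnoA : ∀ N : Subgroup G, N.Normal → A ≤ N → N = ⊤ := by
    intro N hN hle
    by_contra hne
    exact (hcon N hN hne).1 hle
  have hnoB : ∀ N : Subgroup G, N.Normal → B ≤ N → N = ⊤ := by
    intro N hN hle
    by_contra hne
    exact (hcon N hN hne).2 hle
  exact key B hnoB _ A rfl hnoA h

end Cfsg.Agent.S0566
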