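import Mathlib
import Cfsg.Statements.S0557
import Cfsg.Agent.Lib.Helper4.Card

set_option autoImplicit false
open Cfsg

open scoped commutatorElement

namespace Cfsg.Agent.S0557

universe u

open Cfsg.Agent.Lib.Helper4.Card

theorem focal_mono {G : Type u} [Group G] {K L : Subgroup G} (h : K ≤ L) :
    K.focalSubgroup ≤ L.focalSubgroup := by
  rw [Subgroup.focalSubgroup_def, Subgroup.focalSubgroup_def]
  apply Subgroup.closure_mono
  rintro g ⟨hg, x, hx, u, rfl⟩
  exact ⟨h hg, x, h hx, u, rfl⟩

theorem focal_iter_mono {G : Type u} [Group G] (n : ℕ) {K L : Subgroup G} (h : K ≤ L) :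
    (fun K : Subgroup G => Subgroup.focalSubgroup K)^[n] K ≤
      (fun K : Subgroup G => Subgroup.focalSubgroup K)^[n] L := by
  induction n generalizing K L with
  | zero => exact h
  | succ n ih =>
    rw [Function.iterate_succ_apply, Function.iterate_succ_apply]
    exact ih (focal_mono h)

theorem map_focal_le {G : Type u} [Group G] (M : Subgroup G) (K : Subgroup M) :
    (K.focalSubgroup).map M.subtype ≤ (K.map M.subtype).focalSubgroup := by
  rw [Subgroup.focalSubgroup_def, Subgroup.focalSubgroup_def, MonoidHom.map_closure]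
  apply Subgroup.closure_mono
  rintro _ ⟨g, ⟨hg, x, hx, u, rfl⟩, rfl⟩
  refine ⟨Subgroup.mem_map_of_mem _ hg, (x : G), Subgroup.mem_map_of_mem _ hx, (u : G), ?_⟩
  simp [commutatorElement_def]

theorem focal_iter_map {G : Type u} [Group G] (M : Subgroup G) (n : ℕ) (K : Subgroup M) :
    ((fun K : Subgroup M => Subgroup.focalSubgroup K)^[n] K).map M.subtype ≤
      (fun K : Subgroup G => Subgroup.focalSubgroup K)^[n] (K.map M.subtype) := by
  induction n generalizing K with
  | zero => exact le_rfl
  | succ n ih =>
    rw [Function.iterate_succ_apply, Function.iterate_succ_apply]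
    exact (ih _).trans (focal_iter_mono n (map_focal_le M K))

theorem le_of_coprime_index {G : Type u} [Group G] [Finite G] (N K : Subgroup G) [N.Normal]
    (h : (Nat.card K).Coprime N.index) : K ≤ N := by
  have h1 : Nat.card (K.map (QuotientGroup.mk' N)) ∣ Nat.card K := Subgroup.card_map_dvd K _
  have h2 : Nat.card (K.map (QuotientGroup.mk' N)) ∣ N.index := by
    rw [Subgroup.index_eq_card]
    exact Subgroup.card_subgroup_dvd_card _
  have h3 : Nat.card (K.map (QuotientGroup.mk' N)) = 1 :=
    Nat.eq_one_of_dvd_coprimes h h1 h2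
  have h4 : K.map (QuotientGroup.mk' N) = ⊥ := Subgroup.card_eq_one.mp h3
  intro x hx
  have h5 : (QuotientGroup.mk' N) x ∈ K.map (QuotientGroup.mk' N) := Subgroup.mem_map_of_mem _ hx
  rw [h4, Subgroup.mem_bot] at h5
  exact (QuotientGroup.eq_one_iff x).mp h5

theorem focal_complement (n : ℕ) : ∀ {G : Type u} [Group G] [Finite G] (H : Subgroup G)
    (hHall : (Nat.card H).Coprime H.index)
    (hfoc : (fun K : Subgroup G => Subgroup.focalSubgroup K)^[n] H = ⊥),
    ∃ N : Subgroup G, N.Normal ∧ Subgroup.IsComplement' N H := by
  induction n with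
  | zero =>
    intro G _ _ H hHall hfoc
    have hH : H = ⊥ := hfoc
    refine ⟨⊤, inferInstance, ?_⟩
    rw [hH]
    exact Subgroup.isComplement'_top_bot
  | succ n ih =>
    intro G _ _ H hHall hfoc
    rw [Function.iterate_succ_apply] at hfoc
    set T := H.transferFocal with hT
    set G₁ : Subgroup G := T.ker with hG₁
    have hQcard : Nat.card (H ⧸ H.focalSubgroupOf) * Nat.card H.focalSubgroupOf = Nat.card H :=
      (Subgroup.card_eq_card_quotient_mul_card_subgroup _).symm
    have hQcop : (Nat.card (H ⧸ H.focalSubgroupOf)).Coprime H.index :=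
      Nat.Coprime.coprime_dvd_left (Dvd.intro _ hQcard) hHall
    have hTsurj : Function.Surjective T := by
      intro y
      obtain ⟨z, rfl⟩ := (powCoprime hQcop).surjective y
      obtain ⟨x, rfl⟩ := QuotientGroup.mk_surjective z
      refine ⟨(x : G), ?_⟩
      rw [hT, Subgroup.transferFocal_eq_pow]
      rfl
    have hfle : H.focalSubgroup ≤ G₁ := by
      intro x hx
      have hxH : x ∈ H := H.focalSubgroup_le hx
      rw [hG₁, MonoidHom.mem_ker]
      have h1 := Subgroup.transferFocal_eq_pow H ⟨x, hxH⟩
      have h2 : ((⟨x, hxH⟩ : H) : H ⧸ H.focalSubgroupOf) = 1 := by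
        rw [QuotientGroup.eq_one_iff, Subgroup.focalSubgroupOf_def, Subgroup.mem_subgroupOf]
        exact hx
      rw [h2, one_pow] at h1
      exact h1
    have hidx : G₁.index = Nat.card (H ⧸ H.focalSubgroupOf) := by
      rw [hG₁, Subgroup.index_ker, MonoidHom.range_eq_top.mpr hTsurj, Subgroup.card_top]
    have hfcard : Nat.card H.focalSubgroupOf = Nat.card H.focalSubgroup := by
      rw [Subgroup.focalSubgroupOf_def, card_subgroupOf_eq, inf_eq_left.mpr H.focalSubgroup_le]
    have hG₁card : Nat.card G₁ = H.index * Nat.card H.focalSubgroup := by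
      have h1 : G₁.index * Nat.card G₁ = Nat.card G := Subgroup.index_mul_card G₁
      have h2 : H.index * Nat.card H = Nat.card G := Subgroup.index_mul_card H
      rw [hidx] at h1
      rw [← hQcard, hfcard] at h2
      have hpos : 0 < Nat.card (H ⧸ H.focalSubgroupOf) := Nat.card_pos
      have h3 : Nat.card (H ⧸ H.focalSubgroupOf) * Nat.card G₁ =
          Nat.card (H ⧸ H.focalSubgroupOf) * (H.index * Nat.card H.focalSubgroup) := by
        rw [h1, ← h2]; ring
      exact Nat.eq_of_mul_eq_mul_left hpos h3
    set K' : Subgroup G₁ := H.focalSubgroup.subgroupOf G₁ with hK'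
    have hK'card : Nat.card K' = Nat.card H.focalSubgroup := by
      rw [hK', card_subgroupOf_eq, inf_eq_left.mpr hfle]
    have hK'map : K'.map G₁.subtype = H.focalSubgroup := Subgroup.map_subgroupOf_eq_of_le hfle
    have hK'idx : K'.index = H.index := by
      have h1 : K'.index * Nat.card K' = Nat.card G₁ := Subgroup.index_mul_card K'
      rw [hK'card, hG₁card] at h1
      have hpos : 0 < Nat.card H.focalSubgroup := Nat.card_pos
      exact Nat.eq_of_mul_eq_mul_right hpos h1
    have hfdvd : Nat.card H.focalSubgroup ∣ Nat.card H :=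
      Subgroup.card_dvd_of_le H.focalSubgroup_le
    have hK'Hall : (Nat.card K').Coprime K'.index := by
      rw [hK'card, hK'idx]
      exact Nat.Coprime.coprime_dvd_left hfdvd hHall
    have hK'foc : (fun K : Subgroup G₁ => Subgroup.focalSubgroup K)^[n] K' = ⊥ := by
      have h1 := focal_iter_map G₁ n K'
      rw [hK'map, hfoc] at h1
      exact (Subgroup.map_eq_bot_iff_of_injective _ G₁.subtype_injective).mp (le_bot_iff.mp h1)
    obtain ⟨N', hN'n, hN'c⟩ := ih K' hK'Hall hK'foc
    have hN'card : Nat.card N' = H.index := by
      have h1 := hN'c.card_mul_card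
      rw [hK'card, hG₁card] at h1
      have hpos : 0 < Nat.card H.focalSubgroup := Nat.card_pos
      exact Nat.eq_of_mul_eq_mul_right hpos h1
    have hN'idx : N'.index = Nat.card H.focalSubgroup := by
      have h1 : N'.index * Nat.card N' = Nat.card G₁ := Subgroup.index_mul_card N'
      rw [hN'card, hG₁card, mul_comm] at h1
      have hpos : 0 < H.index := Nat.pos_of_ne_zero (Subgroup.index_ne_zero_of_finite)
      exact Nat.eq_of_mul_eq_mul_left hpos h1
    have hchar : N'.Characteristic := by
      rw [Subgroup.characteristic_iff_map_le]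
      intro φ
      apply le_of_coprime_index
      rw [Subgroup.card_map_of_injective φ.injective, hN'card, hN'idx]
      exact (Nat.Coprime.coprime_dvd_left hfdvd hHall).symm
    refine ⟨N'.map G₁.subtype, inferInstance, ?_⟩
    have hNcard : Nat.card (N'.map G₁.subtype) = H.index := by
      rw [Subgroup.card_map_of_injective G₁.subtype_injective, hN'card]
    apply Subgroup.isComplement'_of_coprime
    · rw [hNcard]; exact Subgroup.index_mul_card H
    · rw [hNcard]; exact hHall.symm

/-- Let H be a subgroup of a finite group G with order coprime to its index. If iterating the focal-subgroup construction starting from H reaches the trivial subgroup after finitely many steps, then H has a normal complement in G. -/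
theorem result {G : Type*} [Group G] [Finite G] (H : Subgroup G) (hHall : (Nat.card H).Coprime H.index) (n : ℕ) (hfoc : (fun K : Subgroup G => Subgroup.focalSubgroup K)^[n] H = ⊥) : ∃ N : Subgroup G, N.Normal ∧ Subgroup.IsComplement' N H := by
  exact focal_complement n H hHall hfoc

end Cfsg.Agent.S0557
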