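import Mathlib
import Cfsg.Statements.S0558
import Cfsg.Agent.S0557
import Cfsg.Agent.Lib.Helper4.Card
import Cfsg.Agent.Lib.Helper16.Basic
import Cfsg.Agent.Lib.Helper10.Coprime

set_option autoImplicit false
open Cfsg

open scoped commutatorElement

namespace Cfsg.Agent.S0558

universe u

/-- a Sylow subgroup of H whose G-normalizer lies in H is Sylow in G -/
theorem sylow_of_normalizer_le {G : Type u} [Group G] [Finite G] (H : Subgroup G) (p : ℕ)
    [Fact p.Prime] (P : Sylow p H)
    (hN : Subgroup.normalizer (((P : Subgroup H).map H.subtype : Subgroup G) : Set G) ≤ H) :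
    ∃ S : Sylow p G, (S : Subgroup G) = (P : Subgroup H).map H.subtype := by
  have hPG : IsPGroup p ((P : Subgroup H).map H.subtype) := P.isPGroup'.map _
  obtain ⟨S, hS⟩ := hPG.exists_le_sylow
  refine ⟨S, ?_⟩
  by_contra hne
  have hlt : (P : Subgroup H).map H.subtype < (S : Subgroup G) := lt_of_le_of_ne hS (Ne.symm hne)
  obtain ⟨x, hxS, hxN, hxP⟩ :=
    Cfsg.Agent.Lib.Helper16.Basic.exists_mem_normalizer_not_mem S.isPGroup' hlt
  have hxH : x ∈ H := hN hxN
  have hT : IsPGroup p ((S : Subgroup G).subgroupOf H) := S.isPGroup'.comap_subtype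
  have hPT : (P : Subgroup H) ≤ (S : Subgroup G).subgroupOf H := by
    intro y hy
    rw [Subgroup.mem_subgroupOf]
    exact hS (Subgroup.mem_map_of_mem _ hy)
  have hTP := P.3 hT hPT
  apply hxP
  have h1 : (⟨x, hxH⟩ : H) ∈ (S : Subgroup G).subgroupOf H := by
    rw [Subgroup.mem_subgroupOf]; exact hxS
  rw [hTP] at h1
  exact ⟨⟨x, hxH⟩, h1, rfl⟩

theorem fusion {G : Type u} [Group G] [Finite G] (H : Subgroup G) (r : ℕ) [Fact r.Prime]
    (R : Sylow r G) (hRN : Subgroup.normalizer ((R : Subgroup G) : Set G) ≤ H)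
    (x u : G) (hx : ∀ z ∈ (R : Subgroup G), z * x = x * z)
    (hy : ∀ z ∈ (R : Subgroup G), z * (u * x * u⁻¹) = (u * x * u⁻¹) * z) :
    ∃ h ∈ H, u * x * u⁻¹ = h * x * h⁻¹ := by
  set y := u * x * u⁻¹ with hydef
  set C : Subgroup G := Subgroup.centralizer {y} with hC
  have hRC : (R : Subgroup G) ≤ C := by
    intro z hz
    rw [hC, Subgroup.mem_centralizer_iff]
    intro w hw
    rw [Set.mem_singleton_iff] at hw
    rw [hw]; exact (hy z hz).symm
  let S : Sylow r C := R.subtype hRC
  set A : Subgroup G := (R : Subgroup G).map (MulAut.conj u).toMonoidHom with hA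
  have hAC : A ≤ C := by
    rintro _ ⟨z, hz, rfl⟩
    rw [hC, Subgroup.mem_centralizer_iff]
    intro w hw
    rw [Set.mem_singleton_iff] at hw
    rw [hw]
    show y * (u * z * u⁻¹) = (u * z * u⁻¹) * y
    have h1 := hx z hz
    calc y * (u * z * u⁻¹) = u * (x * z) * u⁻¹ := by rw [hydef]; group
      _ = u * (z * x) * u⁻¹ := by rw [h1]
      _ = (u * z * u⁻¹) * y := by rw [hydef]; group
  have hAp : IsPGroup r A := R.isPGroup'.map _
  obtain ⟨c, hcC, hcle⟩ := Cfsg.Agent.Lib.Helper16.Basic.exists_conj_le_sylow_sub S hAC hAp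
  have hSR : (S : Subgroup C).map C.subtype = (R : Subgroup G) := by
    rw [Sylow.coe_subtype]; exact Subgroup.map_subgroupOf_eq_of_le hRC
  rw [hSR] at hcle
  refine ⟨c * u, hRN (Cfsg.Agent.Lib.Helper10.Coprime.mem_normalizer_of_conj_mem ?_), ?_⟩
  · intro s hs
    have h1 : u * s * u⁻¹ ∈ A := ⟨s, hs, rfl⟩
    have h2 : c * (u * s * u⁻¹) * c⁻¹ ∈ A.map (MulAut.conj c).toMonoidHom := ⟨_, h1, rfl⟩
    have h3 := hcle h2
    have e : c * u * s * (c * u)⁻¹ = c * (u * s * u⁻¹) * c⁻¹ := by group
    rw [e]; exact h3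
  · have hc : y * c = c * y := Subgroup.mem_centralizer_iff.mp hcC y (Set.mem_singleton y)
    calc y = y * c * c⁻¹ := by group
      _ = c * y * c⁻¹ := by rw [hc]
      _ = c * u * x * (c * u)⁻¹ := by rw [hydef]; group

theorem main {G : Type u} [Group G] [Finite G] (H : Subgroup G)
    (hnot : ∀ p : ℕ, p.Prime → ∀ P : Sylow p G, (P : Subgroup G) ≠ H)
    (hnorm : ∀ p : ℕ, p.Prime → p ∣ Nat.card H → ∀ P : Sylow p H,
      Subgroup.normalizer (((P : Subgroup H).map H.subtype : Subgroup G) : Set G) = H) :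
    ∃ N : Subgroup G, N.Normal ∧ Subgroup.IsComplement' N H := by
  classical
  have hSn : ∀ (p : ℕ) [Fact p.Prime] (P : Sylow p H), (P : Subgroup H).Normal := by
    intro p _ P
    by_cases hp : p ∣ Nat.card H
    · have h1 := hnorm p Fact.out hp P
      constructor
      intro y hy x
      have hx : (x : G) ∈ Subgroup.normalizer
          (((P : Subgroup H).map H.subtype : Subgroup G) : Set G) := by
        rw [h1]; exact x.2
      have h2 := (Subgroup.mem_normalizer_iff.mp hx (y : G)).mp (Subgroup.mem_map_of_mem _ hy)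
      obtain ⟨w, hw, hwe⟩ := h2
      have h3 : w = x * y * x⁻¹ := Subtype.ext (by simpa using hwe)
      rw [← h3]; exact hw
    · have h1 : Nat.card P = 1 := by
        rw [Sylow.card_eq_multiplicity, Nat.factorization_eq_zero_of_not_dvd hp, pow_zero]
      have h2 : (P : Subgroup H) = ⊥ := Subgroup.card_eq_one.mp h1
      rw [h2]
      infer_instance
  have hnil : Group.IsNilpotent H := by
    have q := (Group.isNilpotent_of_finite_tfae (G := H)).out 0 3
    exact q.mpr (fun p hp P => hSn p P)
  obtain ⟨n, hn⟩ := (Subgroup.isNilpotent_iff_lowerCentralSeries H).mp hnil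
  have key : ∀ p : ℕ, p.Prime → p ∣ Nat.card H → ∃ K : Subgroup G, K.Normal ∧
      (Nat.card K).Coprime p ∧ K.index = p ^ (Nat.card H).factorization p := by
    intro p hp hpd
    haveI : Fact p.Prime := ⟨hp⟩
    obtain ⟨P⟩ : Nonempty (Sylow p H) := inferInstance
    set PG : Subgroup G := (P : Subgroup H).map H.subtype with hPG
    have hPN := hnorm p hp hpd P
    obtain ⟨SP, hSP⟩ := sylow_of_normalizer_le H p P hPN.le
    have hr : ∃ r : ℕ, r.Prime ∧ r ∣ Nat.card H ∧ r ≠ p := by
      by_contra hcon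
      have hall : ∀ {d : ℕ}, d.Prime → d ∣ Nat.card H → d = p := by
        intro d hd hdd
        by_contra hdp
        exact hcon ⟨d, hd, hdd, hdp⟩
      have hcard := Nat.eq_prime_pow_of_unique_prime_dvd (Nat.card_pos.ne') hall
      have hHp : IsPGroup p H := IsPGroup.of_card hcard
      have hPtop : (⊤ : Subgroup H) = (P : Subgroup H) := P.3 (hHp.to_subgroup ⊤) le_top
      apply hnot p hp SP
      rw [hSP, ← hPtop, ← MonoidHom.range_eq_map, Subgroup.range_subtype]
    obtain ⟨r, hrp, hrd, hrne⟩ := hr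
    haveI : Fact r.Prime := ⟨hrp⟩
    obtain ⟨R⟩ : Nonempty (Sylow r H) := inferInstance
    have hRN := hnorm r hrp hrd R
    obtain ⟨SR, hSR⟩ := sylow_of_normalizer_le H r R hRN.le
    have hcomm : ∀ z ∈ (SR : Subgroup G), ∀ x ∈ PG, z * x = x * z := by
      intro z hz x hx
      rw [hSR] at hz
      obtain ⟨z', hz', rfl⟩ := hz
      obtain ⟨x', hx', rfl⟩ := hx
      have hdisj : Disjoint (R : Subgroup H) (P : Subgroup H) :=
        IsPGroup.disjoint_of_ne r p hrne _ _ R.isPGroup' P.isPGroup'
      have h1 := Subgroup.commute_of_normal_of_disjoint _ _ (hSn r R) (hSn p P) hdisj z' x' hz' hx'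
      exact congrArg Subtype.val h1.eq
    have hfus : ∀ x ∈ PG, ∀ u : G, u * x * u⁻¹ ∈ PG → ∃ h ∈ H, u * x * u⁻¹ = h * x * h⁻¹ := by
      intro x hx u hux
      exact fusion H r SR (by rw [hSR]; exact hRN.le) x u (fun z hz => hcomm z hz x hx)
        (fun z hz => hcomm z hz _ hux)
    have hstep : ∀ i : ℕ, (H.lowerCentralSeries i ⊓ PG).focalSubgroup ≤
        H.lowerCentralSeries (i+1) ⊓ PG := by
      intro i
      rw [Subgroup.focalSubgroup_def, Subgroup.closure_le]
      rintro g ⟨hg, x, hx, u, rfl⟩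
      have hgP : ⁅x, u⁆ ∈ PG := (Subgroup.mem_inf.mp hg).2
      have hxP : x ∈ PG := (Subgroup.mem_inf.mp hx).2
      have hux : u * x * u⁻¹ ∈ PG := by
        have e : u * x * u⁻¹ = (⁅x, u⁆)⁻¹ * x := by rw [commutatorElement_def]; group
        rw [e]; exact PG.mul_mem (PG.inv_mem hgP) hxP
      obtain ⟨h, hh, he⟩ := hfus x hxP u hux
      refine Subgroup.mem_inf.mpr ⟨?_, hgP⟩
      have e : ⁅x, u⁆ = ⁅x, h⁆ := by
        have e1 : ⁅x, u⁆ = x * (u * x * u⁻¹)⁻¹ := by rw [commutatorElement_def]; group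
        rw [e1, he, commutatorElement_def]; group
      rw [e, Subgroup.lowerCentralSeries_succ]
      exact Subgroup.commutator_mem_commutator (Subgroup.mem_inf.mp hx).1 hh
    have hle : ∀ i : ℕ, (fun K : Subgroup G => Subgroup.focalSubgroup K)^[i] PG ≤
        H.lowerCentralSeries i ⊓ PG := by
      intro i
      induction i with
      | zero =>
        show PG ≤ _
        refine le_inf ?_ le_rfl
        rw [Subgroup.lowerCentralSeries_zero]
        exact Subgroup.map_subtype_le _
      | succ i ih =>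
        rw [Function.iterate_succ_apply']
        exact (Cfsg.Agent.S0557.focal_mono ih).trans (hstep i)
    have hfoc : (fun K : Subgroup G => Subgroup.focalSubgroup K)^[n] PG = ⊥ := by
      have h1 := hle n
      rw [hn, bot_inf_eq] at h1
      exact le_bot_iff.mp h1
    have hHall : (Nat.card PG).Coprime PG.index := by
      rw [hPG, ← hSP]; exact SP.card_coprime_index
    obtain ⟨K, hKn, hKc⟩ := Cfsg.Agent.S0557.result PG hHall n hfoc
    have hcard := hKc.card_mul_card
    have hPGcard : Nat.card PG = p ^ (Nat.card H).factorization p := by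
      rw [hPG, Subgroup.card_map_of_injective H.subtype_injective, Sylow.card_eq_multiplicity]
    refine ⟨K, hKn, ?_, ?_⟩
    · have h1 : PG.index * Nat.card PG = Nat.card G := Subgroup.index_mul_card PG
      have h2 : Nat.card K = PG.index := by
        have hpos : 0 < Nat.card PG := Nat.card_pos
        exact Nat.eq_of_mul_eq_mul_right hpos (hcard.trans h1.symm)
      rw [h2, hPG, ← hSP]
      exact ((Nat.Prime.coprime_iff_not_dvd hp).mpr SP.not_dvd_index).symm
    · have h1 : K.index * Nat.card K = Nat.card G := Subgroup.index_mul_card K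
      have hpos : 0 < Nat.card K := Nat.card_pos
      rw [← hPGcard]
      apply Nat.eq_of_mul_eq_mul_right hpos
      rw [h1, ← hcard, mul_comm]
  choose! f hf using key
  set s := (Nat.card H).primeFactors with hs
  set N : Subgroup G := ⨅ p ∈ s, f p with hN
  have hmem : ∀ p ∈ s, p.Prime ∧ p ∣ Nat.card H := fun p hp =>
    ⟨Nat.prime_of_mem_primeFactors hp, Nat.dvd_of_mem_primeFactors hp⟩
  have hNn : N.Normal := by
    rw [hN]
    exact Subgroup.normal_iInf_normal fun p => Subgroup.normal_iInf_normal fun hp =>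
      (hf p (hmem p hp).1 (hmem p hp).2).1
  have hidx : N.index ≤ Nat.card H := by
    have h1 : ∀ t : Finset ℕ, (⨅ p ∈ t, f p).index ≤ ∏ p ∈ t, (f p).index := by
      intro t
      induction t using Finset.induction_on with
      | empty => simp
      | insert a t ha ih =>
        rw [Finset.iInf_insert, Finset.prod_insert ha]
        exact Subgroup.index_inf_le.trans (Nat.mul_le_mul_left _ ih)
    have h2 : ∏ p ∈ s, (f p).index = Nat.card H := by
      rw [Finset.prod_congr rfl (fun p hp => (hf p (hmem p hp).1 (hmem p hp).2).2.2)]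
      have h3 := Nat.prod_factorization_pow_eq_self (n := Nat.card H) Nat.card_pos.ne'
      rw [Nat.prod_factorization_eq_prod_primeFactors] at h3
      exact h3
    rw [← h2]; exact h1 s
  have hdisj : N ⊓ H = ⊥ := by
    rw [eq_bot_iff]
    intro h hh
    rw [Subgroup.mem_bot]
    obtain ⟨hhN, hhH⟩ := Subgroup.mem_inf.mp hh
    by_contra hne
    have hord : orderOf h ≠ 1 := fun h1 => hne (orderOf_eq_one_iff.mp h1)
    obtain ⟨q, hq, hqd⟩ := Nat.exists_prime_and_dvd hord
    have hqH : q ∣ Nat.card H := hqd.trans (Subgroup.orderOf_dvd_natCard H hhH)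
    have hqs : q ∈ s := Nat.mem_primeFactors.mpr ⟨hq, hqH, Nat.card_pos.ne'⟩
    have hhf : h ∈ f q := (Subgroup.mem_iInf.mp ((Subgroup.mem_iInf.mp hhN) q)) hqs
    have h3 : q ∣ Nat.card (f q) := hqd.trans (Subgroup.orderOf_dvd_natCard (f q) hhf)
    have h4 := (hf q hq hqH).2.1
    exact hq.one_lt.ne' (h4.symm.eq_one_of_dvd h3)
  refine ⟨N, hNn, ?_⟩
  apply Subgroup.isComplement'_of_card_mul_and_disjoint
  · have h1 : N.index * Nat.card N = Nat.card G := Subgroup.index_mul_card N
    have h2 := Cfsg.Agent.Lib.Helper4.Card.card_mul_card_le N H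
    rw [hdisj, Subgroup.card_bot, mul_one] at h2
    have h3 : Nat.card ↥(N ⊔ H) ≤ Nat.card G := Subgroup.card_le_card_group _
    have h4 : Nat.card G ≤ Nat.card N * Nat.card H := by
      rw [← h1, mul_comm]; exact Nat.mul_le_mul_left _ hidx
    exact le_antisymm (h2.trans h3) h4
  · exact disjoint_iff.mpr hdisj

/-- Let H be a subgroup of a finite group G that is not a Sylow subgroup of G for any prime, and suppose that for every prime p dividing the order of H and every Sylow p-subgroup P of H the normalizer of P in G is exactly H. Then some normal subgroup of G is a complement to H. -/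
theorem result {G : Type*} [Group G] [Finite G] (H : Subgroup G) (hnot : ∀ p : ℕ, p.Prime → ∀ P : Sylow p G, (P : Subgroup G) ≠ H) (hnorm : ∀ p : ℕ, p.Prime → p ∣ Nat.card H → ∀ P : Sylow p H, Subgroup.normalizer (((P : Subgroup H).map H.subtype : Subgroup G) : Set G) = H) : ∃ N : Subgroup G, N.Normal ∧ Subgroup.IsComplement' N H := by
  exact main H hnot hnorm

end Cfsg.Agent.S0558
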