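import Mathlib
import Cfsg.Statements.S0046
import Cfsg.Agent.S0034
import Cfsg.Agent.Lib.Helper10.Coprime

set_option autoImplicit false
set_option linter.style.haveILetI false
open Cfsg
open scoped Pointwise

namespace Cfsg.Agent.S0046

universe u

theorem isCoatom_conj {G : Type*} [Group G] (g : G) (M : Subgroup G) (hM : IsCoatom M) :
    IsCoatom (MulAut.conj g • M) := by
  have e : MulAut.conj g • M = (MulEquiv.mapSubgroup (MulAut.conj g)) M := rfl
  rw [e]
  exact (OrderIso.isCoatom_iff (MulEquiv.mapSubgroup (MulAut.conj g)) M).2 hM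

theorem exists_normalizer_of_nilpotent {G : Type*} [Group G] (M D : Subgroup G)
    (hM : Group.IsNilpotent M) (hDM : D < M) :
    ∃ x ∈ M, x ∉ D ∧ x ∈ Subgroup.normalizer (D : Set G) := by
  have hnc : NormalizerCondition M := Group.normalizerCondition_of_isNilpotent
  have hlt : D.subgroupOf M < ⊤ := by
    rw [lt_top_iff_ne_top]
    intro h
    rw [Subgroup.subgroupOf_eq_top] at h
    exact absurd h (not_le_of_gt hDM)
  have h2 := hnc _ hlt
  obtain ⟨x, hxN, hxD⟩ := SetLike.exists_of_lt h2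
  refine ⟨x, x.2, ?_, ?_⟩
  · intro h
    exact hxD (Subgroup.mem_subgroupOf.2 h)
  · rw [Subgroup.mem_normalizer_iff] at hxN ⊢
    intro y
    constructor
    · intro hy
      have := (hxN ⟨y, hDM.le hy⟩).1 (Subgroup.mem_subgroupOf.2 hy)
      exact Subgroup.mem_subgroupOf.1 this
    · intro hy
      have hyM : y ∈ M := by
        have h3 : (x : G) * y * (x : G)⁻¹ ∈ M := hDM.le hy
        have h4 : y = (x : G)⁻¹ * ((x : G) * y * (x : G)⁻¹) * (x : G) := by group
        rw [h4]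
        exact M.mul_mem (M.mul_mem (M.inv_mem x.2) h3) x.2
      have := (hxN ⟨y, hyM⟩).2 (Subgroup.mem_subgroupOf.2 hy)
      exact Subgroup.mem_subgroupOf.1 this

/-- distinct maximal subgroups meet trivially. -/
theorem inf_eq_bot_of_simple {G : Type*} [Group G] [Finite G]
    (hs : ∀ N : Subgroup G, N.Normal → N = ⊥ ∨ N = ⊤)
    (h : ∀ M : Subgroup G, IsCoatom M → Group.IsNilpotent M) :
    ∀ M₁ M₂ : Subgroup G, IsCoatom M₁ → IsCoatom M₂ → M₁ ≠ M₂ → M₁ ⊓ M₂ = ⊥ := by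
  by_contra hcon
  push Not at hcon
  obtain ⟨A₁, A₂, hA₁, hA₂, hA, hAD⟩ := hcon
  haveI : Nonempty {x : Subgroup G × Subgroup G // IsCoatom x.1 ∧ IsCoatom x.2 ∧ x.1 ≠ x.2} :=
    ⟨⟨(A₁, A₂), hA₁, hA₂, hA⟩⟩
  obtain ⟨⟨⟨M₁, M₂⟩, hM₁, hM₂, hne⟩, hmax⟩ := Finite.exists_max
    (fun x : {x : Subgroup G × Subgroup G // IsCoatom x.1 ∧ IsCoatom x.2 ∧ x.1 ≠ x.2} =>
      Nat.card (x.1.1 ⊓ x.1.2 : Subgroup G))
  have hmax' : ∀ X Y : Subgroup G, IsCoatom X → IsCoatom Y → X ≠ Y →
      Nat.card (X ⊓ Y : Subgroup G) ≤ Nat.card (M₁ ⊓ M₂ : Subgroup G) :=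
    fun X Y hX hY hXY => hmax ⟨(X, Y), hX, hY, hXY⟩
  have hM₁' : IsCoatom M₁ := hM₁
  have hM₂' : IsCoatom M₂ := hM₂
  have hne' : M₁ ≠ M₂ := hne
  have hDbot : M₁ ⊓ M₂ ≠ ⊥ := by
    intro hb
    have := hmax' A₁ A₂ hA₁ hA₂ hA
    rw [hb, Subgroup.card_bot] at this
    exact hAD ((Subgroup.card_le_one_iff_eq_bot _).1 this)
  have hle_eq : ∀ X Y : Subgroup G, IsCoatom X → IsCoatom Y → X ≤ Y → X = Y := by
    intro X Y hX hY hXY
    by_contra hne2
    exact hY.1 (hX.2 _ (lt_of_le_of_ne hXY hne2))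
  have hlt₁ : M₁ ⊓ M₂ < M₁ :=
    lt_of_le_of_ne inf_le_left (fun e => hne' (hle_eq _ _ hM₁' hM₂' (inf_eq_left.1 e)))
  have hlt₂ : M₁ ⊓ M₂ < M₂ :=
    lt_of_le_of_ne inf_le_right
      (fun e => hne' (hle_eq _ _ hM₂' hM₁' (inf_eq_right.1 e)).symm)
  have hNtop : Subgroup.normalizer ((M₁ ⊓ M₂ : Subgroup G) : Set G) ≠ ⊤ := by
    intro htop
    have hn : (M₁ ⊓ M₂).Normal := Subgroup.normalizer_eq_top_iff.1 htop
    rcases hs _ hn with hb | ht
    · exact hDbot hb
    · exact hM₁'.1 (top_le_iff.1 (ht ▸ inf_le_left))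
  obtain ⟨M, hM, hNM⟩ := (eq_top_or_exists_le_coatom _).resolve_left hNtop
  have hMM₁ : M = M₁ := by
    by_contra hne1
    obtain ⟨x, hxM, hxD, hxN⟩ :=
      exists_normalizer_of_nilpotent M₁ (M₁ ⊓ M₂) (h M₁ hM₁') hlt₁
    have hlt : M₁ ⊓ M₂ < M ⊓ M₁ := by
      refine lt_of_le_of_ne (le_inf ((Subgroup.le_normalizer).trans hNM) inf_le_left) ?_
      intro e
      apply hxD
      rw [e]
      exact Subgroup.mem_inf.2 ⟨hNM hxN, hxM⟩
    exact hlt.ne (Subgroup.eq_of_le_of_card_ge hlt.le (hmax' M M₁ hM hM₁' hne1))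
  have hMM₂ : M = M₂ := by
    by_contra hne1
    obtain ⟨x, hxM, hxD, hxN⟩ :=
      exists_normalizer_of_nilpotent M₂ (M₁ ⊓ M₂) (h M₂ hM₂') hlt₂
    have hlt : M₁ ⊓ M₂ < M ⊓ M₂ := by
      refine lt_of_le_of_ne (le_inf ((Subgroup.le_normalizer).trans hNM) inf_le_right) ?_
      intro e
      apply hxD
      rw [e]
      exact Subgroup.mem_inf.2 ⟨hNM hxN, hxM⟩
    exact hlt.ne (Subgroup.eq_of_le_of_card_ge hlt.le (hmax' M M₂ hM hM₂' hne1))
  exact hne' (hMM₁.symm.trans hMM₂)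

theorem frob_of_simple {G : Type*} [Group G] [Finite G]
    (hs : ∀ N : Subgroup G, N.Normal → N = ⊥ ∨ N = ⊤)
    (hinf : ∀ M₁ M₂ : Subgroup G, IsCoatom M₁ → IsCoatom M₂ → M₁ ≠ M₂ → M₁ ⊓ M₂ = ⊥)
    (M : Subgroup G) (hM : IsCoatom M) (hMbot : M ≠ ⊥) : Cfsg.IsFrobeniusComplement M := by
  refine ⟨hMbot, hM.1, ?_⟩
  intro g hg
  apply hinf M _ hM (isCoatom_conj g M hM)
  intro e
  have hgN : g ∈ Subgroup.normalizer (M : Set G) :=
    Cfsg.Agent.Lib.Helper10.Coprime.mem_normalizer_iff_conj_smul.2 e.symm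
  have hNM : Subgroup.normalizer (M : Set G) = M := by
    by_contra hne
    have hlt : M < Subgroup.normalizer (M : Set G) :=
      lt_of_le_of_ne Subgroup.le_normalizer (Ne.symm hne)
    have htop := hM.2 _ hlt
    have hn : M.Normal := Subgroup.normalizer_eq_top_iff.1 htop
    rcases hs M hn with hb | ht
    · exact hMbot hb
    · exact hM.1 ht
  rw [hNM] at hgN
  exact hg hgN

theorem simple_case {G : Type*} [Group G] [Finite G]
    (hs : ∀ N : Subgroup G, N.Normal → N = ⊥ ∨ N = ⊤)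
    (h : ∀ M : Subgroup G, IsCoatom M → Group.IsNilpotent M) : Group.IsSolvable G := by
  by_cases hcomm : ∀ a b : G, a * b = b * a
  · exact Group.isSolvable_of_comm hcomm
  exfalso
  have hncyc : ∀ x : G, Subgroup.zpowers x ≠ ⊤ := by
    intro x hx
    apply hcomm
    intro a b
    have ha : a ∈ Subgroup.zpowers x := hx ▸ Subgroup.mem_top a
    have hb : b ∈ Subgroup.zpowers x := hx ▸ Subgroup.mem_top b
    obtain ⟨i, rfl⟩ := Subgroup.mem_zpowers_iff.1 ha
    obtain ⟨j, rfl⟩ := Subgroup.mem_zpowers_iff.1 hb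
    exact (Commute.refl x).zpow_zpow i j
  have hinf := inf_eq_bot_of_simple hs h
  have hG : (⊥ : Subgroup G) ≠ ⊤ := by
    intro e
    apply hcomm
    intro a b
    have ha : a ∈ (⊥ : Subgroup G) := e ▸ Subgroup.mem_top a
    have hb : b ∈ (⊥ : Subgroup G) := e ▸ Subgroup.mem_top b
    rw [Subgroup.mem_bot] at ha hb
    rw [ha, hb]
  obtain ⟨M, hM, -⟩ := (eq_top_or_exists_le_coatom (⊥ : Subgroup G)).resolve_left hG
  have hbotcoatom : ∀ X : Subgroup G, IsCoatom X → X ≠ ⊥ := by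
    intro X hX e
    obtain ⟨x, hx⟩ : ∃ x : G, x ≠ 1 := by
      by_contra hall
      push Not at hall
      apply hG
      ext y
      simp [hall y]
    have hlt : X < Subgroup.zpowers x := by
      rw [e, bot_lt_iff_ne_bot, Ne, Subgroup.zpowers_eq_bot]
      exact hx
    exact hncyc x (hX.2 _ hlt)
  have hMf := frob_of_simple hs hinf M hM (hbotcoatom M hM)
  obtain ⟨hkM, -⟩ := Cfsg.Agent.S0034.result M hMf
  have hidx : 2 ≤ M.index := by
    have h1 : M.index ≠ 1 := fun e => hM.1 (Subgroup.index_eq_one.1 e)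
    have h0 : M.index ≠ 0 := Subgroup.index_ne_zero_of_finite
    omega
  obtain ⟨x, hxk, hx1⟩ : ∃ x ∈ Cfsg.frobeniusKernel M, x ≠ 1 := by
    by_contra hall
    push Not at hall
    have hsub : Subsingleton (Cfsg.frobeniusKernel M) :=
      ⟨fun a b => Subtype.ext ((hall a a.2).trans (hall b b.2).symm)⟩
    have : Nat.card (Cfsg.frobeniusKernel M) ≤ 1 := Finite.card_le_one_iff_subsingleton.2 hsub
    omega
  have hxconj : ∀ g : G, x ∉ MulAut.conj g • M := by
    rcases hxk with h1 | h1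
    · exact absurd h1 hx1
    · exact h1
  obtain ⟨L, hL, hxL⟩ :=
    (eq_top_or_exists_le_coatom (Subgroup.zpowers x)).resolve_left (hncyc x)
  have hxL' : x ∈ L := hxL (Subgroup.mem_zpowers x)
  have hLf := frob_of_simple hs hinf L hL (hbotcoatom L hL)
  obtain ⟨hkL, -⟩ := Cfsg.Agent.S0034.result L hLf
  have hcover : ∀ y : G, y ∈ Cfsg.frobeniusKernel M ∨ y ∈ Cfsg.frobeniusKernel L := by
    intro y
    by_contra hcon
    push Not at hcon
    obtain ⟨hyM, hyL⟩ := hcon
    have hyM' : ¬ (y = 1 ∨ ∀ g : G, y ∉ MulAut.conj g • M) := hyM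
    have hyL' : ¬ (y = 1 ∨ ∀ g : G, y ∉ MulAut.conj g • L) := hyL
    push Not at hyM' hyL'
    obtain ⟨hy1, g, hg⟩ := hyM'
    obtain ⟨-, g', hg'⟩ := hyL'
    have hne : MulAut.conj g • M ≠ MulAut.conj g' • L := by
      intro e
      apply hxconj (g'⁻¹ * g)
      have e2 : MulAut.conj (g'⁻¹ * g) • M = L := by
        rw [map_mul, mul_smul, e, ← mul_smul, ← map_mul, inv_mul_cancel, map_one, one_smul]
      rw [e2]
      exact hxL'
    have h3 := hinf _ _ (isCoatom_conj g M hM) (isCoatom_conj g' L hL) hne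
    have hy : y ∈ (MulAut.conj g • M) ⊓ (MulAut.conj g' • L) := Subgroup.mem_inf.2 ⟨hg, hg'⟩
    rw [h3, Subgroup.mem_bot] at hy
    exact hy1 hy
  have hunion : (Cfsg.frobeniusKernel M ∪ Cfsg.frobeniusKernel L) = Set.univ :=
    Set.eq_univ_of_forall hcover
  have h1M : (1 : G) ∈ Cfsg.frobeniusKernel M := Or.inl rfl
  have h1L : (1 : G) ∈ Cfsg.frobeniusKernel L := Or.inl rfl
  have hcount := Set.ncard_union_add_ncard_inter (Cfsg.frobeniusKernel M) (Cfsg.frobeniusKernel L)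
  rw [hunion, Set.ncard_univ] at hcount
  have hinter : 1 ≤ (Cfsg.frobeniusKernel M ∩ Cfsg.frobeniusKernel L).ncard :=
    (Set.ncard_pos (Set.toFinite _)).2 ⟨1, h1M, h1L⟩
  rw [← Nat.card_coe_set_eq (Cfsg.frobeniusKernel M),
    ← Nat.card_coe_set_eq (Cfsg.frobeniusKernel L), hkM, hkL] at hcount
  have hcM : 2 ≤ Nat.card M := (Subgroup.one_lt_card_iff_ne_bot _).2 (hbotcoatom M hM)
  have hcL : 2 ≤ Nat.card L := (Subgroup.one_lt_card_iff_ne_bot _).2 (hbotcoatom L hL)
  have eM := M.card_mul_index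
  have eL := L.card_mul_index
  nlinarith

/-- the inductive statement. -/
def SProp (n : ℕ) : Prop :=
  ∀ (G : Type u) [Group G] [Finite G], Nat.card G = n →
    (∀ M : Subgroup G, IsCoatom M → Group.IsNilpotent M) → Group.IsSolvable G

theorem main (n : ℕ) : SProp.{u} n := by
  induction n using Nat.strong_induction_on with
  | _ n ih =>
  intro G _ _ hn h
  by_cases hs : ∀ N : Subgroup G, N.Normal → N = ⊥ ∨ N = ⊤
  · exact simple_case hs h
  · push Not at hs
    obtain ⟨N, hNn, hNbot, hNtop⟩ := hs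
    haveI := hNn
    obtain ⟨M, hM, hNM⟩ := (eq_top_or_exists_le_coatom N).resolve_left hNtop
    haveI hMnil := h M hM
    haveI : Group.IsSolvable N :=
      Group.isSolvable_of_isSolvable_injective (Subgroup.inclusion_injective hNM)
    have hlt : Nat.card (G ⧸ N) < n := by
      rw [← hn, ← Subgroup.index_eq_card, ← Subgroup.card_mul_index N]
      have h1 : 1 < Nat.card N := (Subgroup.one_lt_card_iff_ne_bot _).2 hNbot
      have h2 : 0 < N.index := Nat.pos_of_ne_zero Subgroup.index_ne_zero_of_finite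
      nlinarith
    have hQ : Group.IsSolvable (G ⧸ N) := by
      apply ih _ hlt (G ⧸ N) rfl
      intro M' hM'
      have hco : IsCoatom (M'.comap (QuotientGroup.mk' N)) :=
        Subgroup.isCoatom_comap_of_surjective (QuotientGroup.mk'_surjective N) hM'
      haveI := h _ hco
      have e : (M'.comap (QuotientGroup.mk' N)).map (QuotientGroup.mk' N) = M' :=
        Subgroup.map_comap_eq_self_of_surjective (QuotientGroup.mk'_surjective N) M'
      rw [← e]
      exact Group.nilpotent_of_surjective _ ((QuotientGroup.mk' N).subgroupMap_surjective _)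
    exact Group.isSolvable_of_ker_le_range N.subtype (QuotientGroup.mk' N) (by
      rw [QuotientGroup.ker_mk', Subgroup.range_subtype])

/-- Schmidt's Theorem on minimal non-nilpotent groups: a finite group in which every maximal subgroup is nilpotent is solvable. -/
theorem result {G : Type*} [Group G] [Finite G]
    (h : ∀ M : Subgroup G, IsCoatom M → Group.IsNilpotent M) : Group.IsSolvable G :=
  main _ G rfl h

end Cfsg.Agent.S0046
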