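import Mathlib
import Cfsg.Statements.S0534
import Cfsg.Agent.S0003
import Cfsg.Agent.Lib.Helper4.SSMore
import Cfsg.Agent.Lib.Helper4.MaxSub

set_option autoImplicit false
open Cfsg

namespace Cfsg.Agent.S0534

universe u v

open Cfsg.Agent.Lib.Helper4.Supersolvable

/-- finite abelian groups are supersolvable -/
theorem comm_supersolvable (n : ℕ) : ∀ (A : Type u) [CommGroup A] [Finite A], Nat.card A = n →
    Cfsg.IsSupersolvable A := by
  induction n using Nat.strong_induction_on with
  | _ n ih =>
  intro A _ _ hn
  rcases subsingleton_or_nontrivial A with hs | hnt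
  · exact isSupersolvable_of_subsingleton
  · obtain ⟨g, hg⟩ := exists_ne (1 : A)
    set N := Subgroup.zpowers g with hN
    haveI : N.Normal := inferInstance
    haveI : IsCyclic N := by rw [hN]; infer_instance
    have hNne : N ≠ ⊥ := by
      intro h
      apply hg
      have h1 : g ∈ N := Subgroup.mem_zpowers g
      rw [h, Subgroup.mem_bot] at h1
      exact h1
    have hlt : Nat.card (A ⧸ N) < n := by
      rw [← hn]
      exact Cfsg.Agent.Lib.Helper4.MaxSub.card_quotient_lt N hNne
    exact isSupersolvable_of_cyclic_normal N (ih _ hlt (A ⧸ N) rfl)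

theorem comm_clt (A : Type u) [CommGroup A] [Finite A] (d : ℕ) (hd : d ∣ Nat.card A) :
    ∃ B : Subgroup A, Nat.card B = d :=
  Cfsg.Agent.Lib.Helper4.SSMore.exists_subgroup_card_eq _ A rfl (comm_supersolvable _ A rfl) d hd

theorem main {G : Type u} {A : Type v} [Group G] [CommGroup A] [Finite G] [Finite A]
    [Group.IsSolvable G] (hA : ∀ p : ℕ, p.Prime → p ∣ Nat.card A → p ∣ Nat.card G)
    (hexp : ∀ p : ℕ, p.Prime → p ∣ Nat.card G →
      (Nat.card A).factorization p + 1 = (Nat.card G).factorization p) :
    Cfsg.HasSubgroupOfEveryOrder (G × A) := by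
  classical
  intro d hd
  rw [Nat.card_prod] at hd
  have hg0 : Nat.card G ≠ 0 := Nat.card_pos.ne'
  have ha0 : Nat.card A ≠ 0 := Nat.card_pos.ne'
  have hd0 : d ≠ 0 := by
    rintro rfl
    rw [zero_dvd_iff] at hd
    exact (mul_ne_zero hg0 ha0) hd
  set f : ℕ →₀ ℕ := (Nat.card G).factorization.filter
    (fun p => (Nat.card G).factorization p ≤ d.factorization p) with hf
  have hfprime : ∀ p ∈ f.support, p.Prime := by
    intro p hp
    rw [hf, Finsupp.support_filter, Finset.mem_filter] at hp
    exact Nat.prime_of_mem_primeFactors (by simpa using hp.1)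
  set m := f.prod (· ^ ·) with hm
  have hmfac : m.factorization = f := Nat.prod_pow_factorization_eq_self hfprime
  have hm0 : m ≠ 0 := by
    rw [hm, Finsupp.prod]
    exact Finset.prod_ne_zero_iff.mpr (fun p hp => pow_ne_zero _ (hfprime p hp).ne_zero)
  have hfle : ∀ p, f p ≤ (Nat.card G).factorization p := by
    intro p
    rw [hf, Finsupp.filter_apply]
    split_ifs <;> simp
  have hfle' : ∀ p, f p ≤ d.factorization p := by
    intro p
    rw [hf, Finsupp.filter_apply]
    split_ifs with h
    · exact h
    · exact Nat.zero_le _
  have hmg : m ∣ Nat.card G := by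
    rw [← Nat.factorization_le_iff_dvd hm0 hg0, hmfac]
    exact fun p => hfle p
  have hmd : m ∣ d := by
    rw [← Nat.factorization_le_iff_dvd hm0 hd0, hmfac]
    exact fun p => hfle' p
  obtain ⟨n, hn⟩ := hmg
  have hn0 : n ≠ 0 := by
    rintro rfl
    rw [mul_zero] at hn
    exact hg0 hn
  have hcop : m.Coprime n := by
    apply Nat.coprime_of_dvd
    intro p hp hpm hpn
    have h1 : 0 < m.factorization p := hp.factorization_pos_of_dvd hm0 hpm
    have h2 : 0 < n.factorization p := hp.factorization_pos_of_dvd hn0 hpn
    have h3 : (Nat.card G).factorization p = m.factorization p + n.factorization p := by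
      rw [hn, Nat.factorization_mul hm0 hn0]; rfl
    have h4 : m.factorization p = (Nat.card G).factorization p := by
      rw [hmfac, hf, Finsupp.filter_apply] at h1 ⊢
      split_ifs at h1 ⊢ with h
      · rfl
      · exact absurd h1 (lt_irrefl 0)
    omega
  obtain ⟨H, hH⟩ := Cfsg.Agent.S0003.result m n hn hcop
  obtain ⟨e, he⟩ := hmd
  have he0 : e ≠ 0 := by
    rintro rfl
    rw [mul_zero] at he
    exact hd0 he
  have hea : e ∣ Nat.card A := by
    rw [← Nat.factorization_le_iff_dvd he0 ha0]
    intro p
    have hdfac : d.factorization p = m.factorization p + e.factorization p := by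
      rw [he, Nat.factorization_mul hm0 he0]; rfl
    have hdle : d.factorization p ≤
        (Nat.card G).factorization p + (Nat.card A).factorization p := by
      have h1 := (Nat.factorization_le_iff_dvd hd0 (mul_ne_zero hg0 ha0)).mpr hd p
      rw [Nat.factorization_mul hg0 ha0] at h1
      exact h1
    by_cases hp : p.Prime
    · by_cases hpg : p ∣ Nat.card G
      · have h1 := hexp p hp hpg
        have h2 : m.factorization p = f p := by rw [hmfac]
        rw [hf, Finsupp.filter_apply] at h2
        split_ifs at h2 with h
        · omega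
        · omega
      · have hpa : ¬ p ∣ Nat.card A := fun h => hpg (hA p hp h)
        have h1 : (Nat.card G).factorization p = 0 := Nat.factorization_eq_zero_of_not_dvd hpg
        have h2 : (Nat.card A).factorization p = 0 := Nat.factorization_eq_zero_of_not_dvd hpa
        omega
    · have h1 : e.factorization p = 0 := Nat.factorization_eq_zero_of_not_prime e hp
      rw [h1]; exact Nat.zero_le _
  obtain ⟨B, hB⟩ := comm_clt A e hea
  refine ⟨H.prod B, ?_⟩
  rw [Nat.card_congr (Subgroup.prodEquiv H B).toEquiv, Nat.card_prod, hH, hB, he]

/-- Let G be a finite solvable group and A a finite abelian group such that every prime dividing the order of A divides the order of G and, for each prime p dividing the order of G, the exponent of p in the order of A is one less than its exponent in the order of G. Then G × A has a subgroup of every order dividing its order. -/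
theorem result {G A : Type*} [Group G] [CommGroup A] [Finite G] [Finite A] [Group.IsSolvable G] (hA : ∀ p : ℕ, p.Prime → p ∣ Nat.card A → p ∣ Nat.card G) (hexp : ∀ p : ℕ, p.Prime → p ∣ Nat.card G → (Nat.card A).factorization p + 1 = (Nat.card G).factorization p) : Cfsg.HasSubgroupOfEveryOrder (G × A) := by
  exact main hA hexp

end Cfsg.Agent.S0534
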