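import Cfsg.Statements.S1463
import Mathlib
import Cfsg.Agent.Lib.Helper5.GL2Odd

set_option autoImplicit false
open Cfsg

namespace Cfsg.Agent.S1463

open Cfsg.Agent.Lib.Helper5.GL2Odd

/-- The matrix of an element of a subgroup of `GL₂`. -/
def toM {F : Type*} [Field F] (H : Subgroup (GL (Fin 2) F)) :
    ↥H →* Matrix (Fin 2) (Fin 2) F :=
  (Units.coeHom (Matrix (Fin 2) (Fin 2) F)).comp H.subtype

lemma toM_injective {F : Type*} [Field F] (H : Subgroup (GL (Fin 2) F)) :
    Function.Injective (toM H) := by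
  intro x y hxy
  apply Subtype.ext
  apply Units.ext
  exact hxy

lemma two_ne_zero' {F : Type*} [Field F] (p : ℕ) [Fact p.Prime] [CharP F p] (hp : p ≠ 2) :
    (2 : F) ≠ 0 := by
  intro h
  have h2 : ((2 : ℕ) : F) = 0 := by exact_mod_cast h
  rw [CharP.cast_eq_zero_iff F p 2] at h2
  exact hp ((Nat.prime_dvd_prime_iff_eq (Fact.out : p.Prime) Nat.prime_two).mp h2)

/-- The commutation lemma inside an odd-order subgroup of `GL₂`. -/
lemma commute_in {F : Type*} [Field F] (p : ℕ) [Fact p.Prime] [CharP F p] (hp : p ≠ 2)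
    (H : Subgroup (GL (Fin 2) F)) [Finite H] (hodd : Odd (Nat.card H)) (g h : H)
    (hg : (orderOf g).Coprime p) (hc : Commute (h * g * h⁻¹) g) : Commute h g := by
  have h2 := two_ne_zero' (F := F) p hp
  have hn : ((orderOf g : ℕ) : F) ≠ 0 := by
    rw [Ne, CharP.cast_eq_zero_iff F p]
    intro hdvd
    have : p ∣ Nat.gcd (orderOf g) p := Nat.dvd_gcd hdvd dvd_rfl
    rw [hg] at this
    exact (Fact.out : p.Prime).one_lt.ne' (Nat.dvd_one.mp this)
  have key := commute_of_conj_commute h2 (g : GL (Fin 2) F) (h : GL (Fin 2) F) (Nat.card H)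
    (orderOf g) hodd
    (by
      have h1 : h ^ Nat.card H = 1 := pow_card_eq_one'
      rw [← Subgroup.coe_pow, h1, Subgroup.coe_one])
    (by
      have h1 : g ^ orderOf g = 1 := pow_orderOf_eq_one g
      rw [← Subgroup.coe_pow, h1, Subgroup.coe_one]) hn
    (by
      have := congrArg (Subtype.val) hc.eq
      have e : (h : GL (Fin 2) F) * g * (h : GL (Fin 2) F)⁻¹ * g
          = g * ((h : GL (Fin 2) F) * g * (h : GL (Fin 2) F)⁻¹) := by simpa using this
      exact e)
  exact Subtype.ext key.eq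

/-- Burnside step: for every prime `r ≠ p` there is a normal subgroup of order prime to `r`
containing all elements of order dividing `p`. -/
lemma step1 {F : Type*} [Field F] (p : ℕ) [Fact p.Prime] [CharP F p] (hp : p ≠ 2)
    (H : Subgroup (GL (Fin 2) F)) [Finite H] (hodd : Odd (Nat.card H))
    (r : ℕ) (hr : r.Prime) (hrp : r ≠ p) :
    ∃ N : Subgroup H, N.Normal ∧ ¬ r ∣ Nat.card N ∧ ∀ x : H, x ^ p = 1 → x ∈ N := by
  haveI : Fact r.Prime := ⟨hr⟩
  obtain ⟨R⟩ : Nonempty (Sylow r H) := inferInstance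
  have hRp : IsPGroup r (R : Subgroup H) := R.isPGroup'
  have hcopr : Nat.Coprime r p := (Nat.coprime_primes hr (Fact.out : p.Prime)).mpr hrp
  have hcop : ∀ g : H, g ∈ (R : Subgroup H) → (orderOf g).Coprime p := by
    intro g hg
    obtain ⟨k, hk⟩ := hRp ⟨g, hg⟩
    have hk' : g ^ r ^ k = 1 := by
      have := congrArg Subtype.val hk
      simpa using this
    exact Nat.Coprime.coprime_dvd_left (orderOf_dvd_of_pow_eq_one hk') (hcopr.pow_left k)
  have hab : ∀ x y : (R : Subgroup H), Commute x y := by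
    apply comm_of_pgroup hRp
    intro t ht s
    have h1 : Commute ((s : H) * (t : H) * (s : H)⁻¹) (t : H) := by
      have := congrArg Subtype.val (ht s).eq
      have e : (s : H) * (t : H) * (s : H)⁻¹ * (t : H) = (t : H) * ((s : H) * (t : H) * (s : H)⁻¹) := by
        simpa using this
      exact e
    have := commute_in p hp H hodd (t : H) (s : H) (hcop _ t.2) h1
    exact Subtype.ext this.eq
  have hNC : Subgroup.normalizer (R : Set H) ≤ Subgroup.centralizer (R : Set H) := by
    intro h hh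
    rw [Subgroup.mem_centralizer_iff]
    intro g hg
    have hconj : h * g * h⁻¹ ∈ (R : Subgroup H) := (Subgroup.mem_normalizer_iff.mp hh g).mp hg
    have h1 : Commute (h * g * h⁻¹) g := by
      have := hab ⟨h * g * h⁻¹, hconj⟩ ⟨g, hg⟩
      have := congrArg Subtype.val this.eq
      have e : h * g * h⁻¹ * g = g * (h * g * h⁻¹) := by simpa using this
      exact e
    exact (commute_in p hp H hodd g h (hcop g hg) h1).eq.symm
  refine ⟨(MonoidHom.transferSylow R hNC).ker, inferInstance,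
    MonoidHom.not_dvd_card_ker_transferSylow R hNC, ?_⟩
  intro x hx
  rw [MonoidHom.mem_ker]
  have h1 : (MonoidHom.transferSylow R hNC x) ^ p = 1 := by rw [← map_pow, hx, map_one]
  obtain ⟨k, hk⟩ := hRp (MonoidHom.transferSylow R hNC x)
  have hd1 := orderOf_dvd_of_pow_eq_one h1
  have hd2 := orderOf_dvd_of_pow_eq_one hk
  have hd3 : orderOf (MonoidHom.transferSylow R hNC x) ∣ Nat.gcd p (r ^ k) := Nat.dvd_gcd hd1 hd2
  have hg1 : Nat.gcd p (r ^ k) = 1 := (hcopr.pow_left k).symm
  rw [hg1, Nat.dvd_one, orderOf_eq_one_iff] at hd3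
  exact hd3

/-- Let F be a field of odd characteristic p and H a finite subgroup of odd order of GL(2, F) that leaves no 1-dimensional subspace of F² invariant. Then p does not divide the order of H. -/
theorem result {F : Type*} [Field F] (p : ℕ) [Fact p.Prime] [CharP F p] (hp : p ≠ 2)
    (H : Subgroup (GL (Fin 2) F)) [Finite H] (hodd : Odd (Nat.card H))
    (hirr : ∀ v : Fin 2 → F, v ≠ 0 → ∃ g ∈ H, (g : Matrix (Fin 2) (Fin 2) F).mulVec v ∉ Submodule.span F {v}) :
    ¬ p ∣ Nat.card H := by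
  intro hdvd
  classical
  have hpp : p.Prime := Fact.out
  -- the normal closure of the elements of order dividing `p`
  obtain ⟨K, hKdef⟩ : ∃ K : Subgroup H, K = Subgroup.normalClosure {x : H | x ^ p = 1} := ⟨_, rfl⟩
  haveI hKn : K.Normal := by rw [hKdef]; infer_instance
  have hKp : IsPGroup p K := by
    have hcard : ∀ r : ℕ, r.Prime → r ∣ Nat.card K → r = p := by
      intro r hr hrd
      by_contra hrp
      obtain ⟨N, hN, hrN, hxN⟩ := step1 p hp H hodd r hr hrp
      have hKN : K ≤ N := by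
        rw [hKdef]
        exact Subgroup.normalClosure_le_normal (fun x hx => hxN x hx)
      exact hrN (hrd.trans (Subgroup.card_dvd_of_le hKN))
    have := Nat.eq_prime_pow_of_unique_prime_dvd (n := Nat.card K) (p := p) Nat.card_pos.ne'
      (fun {d} hd hdd => hcard d hd hdd)
    exact IsPGroup.of_card this
  obtain ⟨x₀, hx₀⟩ := exists_prime_orderOf_dvd_card' p hdvd
  have hx₀K : x₀ ∈ K := by
    rw [hKdef]
    apply Subgroup.subset_normalClosure
    show x₀ ^ p = 1
    rw [← hx₀]; exact pow_orderOf_eq_one x₀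
  have hx₀1 : x₀ ≠ 1 := by
    intro h; rw [h, orderOf_one] at hx₀; exact hpp.one_lt.ne hx₀
  haveI : Nontrivial K := nontrivial_of_ne ⟨x₀, hx₀K⟩ 1 (by
    intro h; exact hx₀1 (congrArg Subtype.val h))
  haveI := hKp.center_nontrivial
  obtain ⟨⟨z, hz⟩, hz1⟩ := exists_ne (1 : Subgroup.center K)
  have hz1' : z ≠ 1 := fun h => hz1 (Subtype.ext h)
  -- the nilpotent matrix
  obtain ⟨N, hNdef⟩ : ∃ N : Matrix (Fin 2) (Fin 2) F, N = toM H (z : H) - 1 := ⟨_, rfl⟩
  have hN0 : N ≠ 0 := by
    intro h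
    rw [hNdef, sub_eq_zero] at h
    have : (z : H) = 1 := toM_injective H (by rw [h, map_one])
    exact hz1' (Subtype.ext this)
  have hunip : ∀ k : K, ∃ j : ℕ, (toM H (k : H) - 1) ^ p ^ j = 0 := by
    intro k
    obtain ⟨j, hj⟩ := hKp k
    refine ⟨j, ?_⟩
    rw [sub_pow_char_pow_of_commute p j (Commute.one_right _), one_pow, ← map_pow]
    have : (k : H) ^ p ^ j = 1 := by
      have := congrArg Subtype.val hj
      simpa using this
    rw [this, map_one, sub_self]
  have hN2 : N * N = 0 := by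
    obtain ⟨j, hj⟩ := hunip z
    rw [hNdef]
    exact sq_zero_of_pow _ _ hj
  obtain ⟨v₀, hv₀⟩ : ∃ v₀ : Fin 2 → F, N.mulVec v₀ ≠ 0 := by
    by_contra hall
    push_neg at hall
    apply hN0
    apply Matrix.mulVec_injective
    funext v
    rw [hall v, Matrix.zero_mulVec]
  obtain ⟨w, hwdef⟩ : ∃ w, w = N.mulVec v₀ := ⟨_, rfl⟩
  have hw0 : w ≠ 0 := by rw [hwdef]; exact hv₀
  have hNw : N.mulVec w = 0 := by rw [hwdef, Matrix.mulVec_mulVec, hN2, Matrix.zero_mulVec]
  -- `K` fixes `w`
  have hKw : ∀ k : K, (toM H (k : H)).mulVec w = w := by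
    intro k
    have hcomm : toM H (k : H) * N = N * toM H (k : H) := by
      have h1 : k * z = z * k := Subgroup.mem_center_iff.mp hz k
      have h2 : (k : H) * (z : H) = (z : H) * (k : H) := by
        have := congrArg Subtype.val h1
        simpa using this
      have h3 := congrArg (toM H) h2
      rw [map_mul, map_mul] at h3
      rw [hNdef, mul_sub, sub_mul, h3, mul_one, one_mul]
    have hker : N.mulVec ((toM H (k : H)).mulVec w) = 0 := by
      rw [Matrix.mulVec_mulVec, ← hcomm, ← Matrix.mulVec_mulVec, hNw, Matrix.mulVec_zero]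
    have hspan := ker_le_span N v₀ hN2 hv₀ _ hker
    rw [← hwdef, Submodule.mem_span_singleton] at hspan
    obtain ⟨c, hc⟩ := hspan
    have hpow : ∀ n : ℕ, ((toM H (k : H)) ^ n).mulVec w = c ^ n • w := by
      intro n
      induction n with
      | zero => simp
      | succ n ih =>
        rw [pow_succ, ← Matrix.mulVec_mulVec, ← hc, Matrix.mulVec_smul, ih, smul_smul, pow_succ,
          mul_comm]
    obtain ⟨j, hj⟩ := hKp k
    have hkj : (toM H (k : H)) ^ p ^ j = 1 := by
      rw [← map_pow]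
      have : (k : H) ^ p ^ j = 1 := by
        have := congrArg Subtype.val hj
        simpa using this
      rw [this, map_one]
    have h1 := hpow (p ^ j)
    rw [hkj, Matrix.one_mulVec] at h1
    have h2 : (c ^ p ^ j - 1) • w = 0 := by rw [sub_smul, one_smul, ← h1, sub_self]
    have h3 : c ^ p ^ j - 1 = 0 := by
      rcases smul_eq_zero.mp h2 with e | e
      · exact e
      · exact absurd e hw0
    have h4 : (c - 1) ^ p ^ j = 0 := by
      rw [sub_pow_char_pow_of_commute p j (Commute.one_right _), one_pow]; exact h3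
    have h5 : c = 1 := sub_eq_zero.mp (eq_zero_of_pow_eq_zero h4)
    rw [← hc, h5, one_smul]
  -- `H` preserves the line through `w`
  obtain ⟨g, hgH, hg⟩ := hirr w hw0
  apply hg
  have hconj : (⟨g, hgH⟩ : H)⁻¹ * (z : H) * ⟨g, hgH⟩ ∈ K := by
    have := hKn.conj_mem (z : H) z.2 (⟨g, hgH⟩ : H)⁻¹
    simpa using this
  have h1 := hKw ⟨_, hconj⟩
  have h2 : toM H ((⟨g, hgH⟩ : H)⁻¹ * (z : H) * ⟨g, hgH⟩)
      = toM H ((⟨g, hgH⟩ : H)⁻¹) * toM H (z : H) * toM H ⟨g, hgH⟩ := by
    rw [map_mul, map_mul]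
  have h3 : toM H ⟨g, hgH⟩ * toM H ((⟨g, hgH⟩ : H)⁻¹) = 1 := by
    rw [← map_mul, mul_inv_cancel, map_one]
  have h4 : (toM H (z : H)).mulVec ((toM H ⟨g, hgH⟩).mulVec w) = (toM H ⟨g, hgH⟩).mulVec w := by
    have h5 : (toM H ⟨g, hgH⟩).mulVec ((toM H ((⟨g, hgH⟩ : H)⁻¹ * (z : H) * ⟨g, hgH⟩)).mulVec w)
        = (toM H ⟨g, hgH⟩).mulVec w := by rw [h1]
    rw [h2, Matrix.mulVec_mulVec, ← mul_assoc, ← mul_assoc, h3, one_mul,
      ← Matrix.mulVec_mulVec] at h5
    exact h5
  have h6 : N.mulVec ((toM H ⟨g, hgH⟩).mulVec w) = 0 := by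
    rw [hNdef, Matrix.sub_mulVec, h4, Matrix.one_mulVec, sub_self]
  have := ker_le_span N v₀ hN2 hv₀ _ h6
  rw [← hwdef] at this
  exact this

end Cfsg.Agent.S1463
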