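import Cfsg.Statements.S1035
import Cfsg.Agent.Lib.Helper7.ChevTorusCard

set_option autoImplicit false
set_option maxRecDepth 100000
open Cfsg

namespace Cfsg.Agent.S1035

open Cfsg.Lie Cfsg.Agent.Lib.Helper7.ChevTorusCard

def pG2 : Matrix (Fin 2) (Fin 2) ℤ := !![0, -1; 1, 2]

def qG2 : Matrix (Fin 2) (Fin 2) ℤ := !![1, 2; 0, 1]

def piG2 : Matrix (Fin 2) (Fin 2) ℤ := !![2, 1; -1, 0]

def qiG2 : Matrix (Fin 2) (Fin 2) ℤ := !![1, -2; 0, 1]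

def cmG2 : Matrix (Fin 2) (Fin 2) ℤ := Cm chevG2

def dlG2 : Fin 2 → ℕ := ![1, 1]

theorem smG2 : pG2 * cmG2 * qG2 = Matrix.diagonal fun i => ((dlG2 i : ℕ) : ℤ) := by decide +kernel

theorem ipG2 : pG2 * piG2 = 1 := by decide +kernel

theorem iqG2 : qG2 * qiG2 = 1 := by decide +kernel

def pF4 : Matrix (Fin 4) (Fin 4) ℤ := !![-1, 0, 0, 0; 1, 0, -1, 0; -2, -1, 0, 0; -2, -2, -2, -1]

def qF4 : Matrix (Fin 4) (Fin 4) ℤ := !![0, 0, 1, -2; 1, 0, 2, -4; 0, 0, 2, -3; 0, 1, 2, -2]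

def piF4 : Matrix (Fin 4) (Fin 4) ℤ := !![-1, 0, 0, 0; 2, 0, -1, 0; -1, -1, 0, 0; 0, 2, 2, -1]

def qiF4 : Matrix (Fin 4) (Fin 4) ℤ := !![-2, 1, 0, 0; 2, 0, -2, 1; -3, 0, 2, 0; -2, 0, 1, 0]

def cmF4 : Matrix (Fin 4) (Fin 4) ℤ := Cm chevF4

def dlF4 : Fin 4 → ℕ := ![1, 1, 1, 1]

theorem smF4 : pF4 * cmF4 * qF4 = Matrix.diagonal fun i => ((dlF4 i : ℕ) : ℤ) := by decide +kernel

theorem ipF4 : pF4 * piF4 = 1 := by decide +kernel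

theorem iqF4 : qF4 * qiF4 = 1 := by decide +kernel

def pE8 : Matrix (Fin 8) (Fin 8) ℤ := !![-1, 0, 0, 0, 0, 0, 0, 0; 0, -1, 0, 0, 0, 0, 0, 0; 1, -2, 0, -1, 0, 0, 0, 0; 2, -3, 0, -2, -1, 0, 0, 0; 3, -4, 0, -3, -2, -1, 0, 0; 4, -5, 0, -4, -3, -2, -1, 0; -2, 1, -1, 0, 0, 0, 0, 0; -3, -2, -4, -5, -4, -3, -2, -1]

def qE8 : Matrix (Fin 8) (Fin 8) ℤ := !![0, 0, 0, 0, 0, 0, 1, -2; 0, 0, 0, 0, 0, 0, 2, -3; 1, 0, 0, 0, 0, 0, 2, -4; 0, 1, 0, 0, 0, 0, 4, -6; 0, 0, 1, 0, 0, 0, 4, -5; 0, 0, 0, 1, 0, 0, 4, -4; 0, 0, 0, 0, 1, 0, 4, -3; 0, 0, 0, 0, 0, 1, 4, -2]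

def piE8 : Matrix (Fin 8) (Fin 8) ℤ := !![-1, 0, 0, 0, 0, 0, 0, 0; 0, -1, 0, 0, 0, 0, 0, 0; 2, -1, 0, 0, 0, 0, -1, 0; -1, 2, -1, 0, 0, 0, 0, 0; 0, -1, 2, -1, 0, 0, 0, 0; 0, 0, -1, 2, -1, 0, 0, 0; 0, 0, 0, -1, 2, -1, 0, 0; 0, 0, 0, 0, -1, 2, 4, -1]

def qiE8 : Matrix (Fin 8) (Fin 8) ℤ := !![-2, 0, 1, 0, 0, 0, 0, 0; 0, -2, 0, 1, 0, 0, 0, 0; 2, -3, 0, 0, 1, 0, 0, 0; 4, -4, 0, 0, 0, 1, 0, 0; 6, -5, 0, 0, 0, 0, 1, 0; 8, -6, 0, 0, 0, 0, 0, 1; -3, 2, 0, 0, 0, 0, 0, 0; -2, 1, 0, 0, 0, 0, 0, 0]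

def cmE8 : Matrix (Fin 8) (Fin 8) ℤ := Cm chevE8

def dlE8 : Fin 8 → ℕ := ![1, 1, 1, 1, 1, 1, 1, 1]

theorem smE8 : pE8 * cmE8 * qE8 = Matrix.diagonal fun i => ((dlE8 i : ℕ) : ℤ) := by decide +kernel

theorem ipE8 : pE8 * piE8 = 1 := by decide +kernel

theorem iqE8 : qE8 * qiE8 = 1 := by decide +kernel

def pE6 : Matrix (Fin 6) (Fin 6) ℤ := !![-1, 0, 0, 0, 0, 0; 0, -1, 0, 0, 0, 0; 1, -2, 0, -1, 0, 0; 2, -3, 0, -2, -1, 0; -2, 1, -1, 0, 0, 0; -5, 0, -4, -3, -2, -1]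

def qE6 : Matrix (Fin 6) (Fin 6) ℤ := !![0, 0, 0, 0, 1, -2; 0, 0, 0, 0, 2, -3; 1, 0, 0, 0, 2, -4; 0, 1, 0, 0, 4, -6; 0, 0, 1, 0, 4, -5; 0, 0, 0, 1, 4, -4]

def piE6 : Matrix (Fin 6) (Fin 6) ℤ := !![-1, 0, 0, 0, 0, 0; 0, -1, 0, 0, 0, 0; 2, -1, 0, 0, -1, 0; -1, 2, -1, 0, 0, 0; 0, -1, 2, -1, 0, 0; 0, 0, -1, 2, 4, -1]

def qiE6 : Matrix (Fin 6) (Fin 6) ℤ := !![-2, 0, 1, 0, 0, 0; 0, -2, 0, 1, 0, 0; 2, -3, 0, 0, 1, 0; 4, -4, 0, 0, 0, 1; -3, 2, 0, 0, 0, 0; -2, 1, 0, 0, 0, 0]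

def cmE6 : Matrix (Fin 6) (Fin 6) ℤ := Cm chevE6

def dlE6 : Fin 6 → ℕ := ![1, 1, 1, 1, 1, 3]

theorem smE6 : pE6 * cmE6 * qE6 = Matrix.diagonal fun i => ((dlE6 i : ℕ) : ℤ) := by decide +kernel

theorem ipE6 : pE6 * piE6 = 1 := by decide +kernel

theorem iqE6 : qE6 * qiE6 = 1 := by decide +kernel

def pE7 : Matrix (Fin 7) (Fin 7) ℤ := !![-1, 0, 0, 0, 0, 0, 0; 0, -1, 0, 0, 0, 0, 0; 1, -2, 0, -1, 0, 0, 0; 2, -3, 0, -2, -1, 0, 0; 3, -4, 0, -3, -2, -1, 0; -2, 1, -1, 0, 0, 0, 0; -4, -1, -4, -4, -3, -2, -1]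

def qE7 : Matrix (Fin 7) (Fin 7) ℤ := !![0, 0, 0, 0, 0, 1, -2; 0, 0, 0, 0, 0, 2, -3; 1, 0, 0, 0, 0, 2, -4; 0, 1, 0, 0, 0, 4, -6; 0, 0, 1, 0, 0, 4, -5; 0, 0, 0, 1, 0, 4, -4; 0, 0, 0, 0, 1, 4, -3]

def piE7 : Matrix (Fin 7) (Fin 7) ℤ := !![-1, 0, 0, 0, 0, 0, 0; 0, -1, 0, 0, 0, 0, 0; 2, -1, 0, 0, 0, -1, 0; -1, 2, -1, 0, 0, 0, 0; 0, -1, 2, -1, 0, 0, 0; 0, 0, -1, 2, -1, 0, 0; 0, 0, 0, -1, 2, 4, -1]

def qiE7 : Matrix (Fin 7) (Fin 7) ℤ := !![-2, 0, 1, 0, 0, 0, 0; 0, -2, 0, 1, 0, 0, 0; 2, -3, 0, 0, 1, 0, 0; 4, -4, 0, 0, 0, 1, 0; 6, -5, 0, 0, 0, 0, 1; -3, 2, 0, 0, 0, 0, 0; -2, 1, 0, 0, 0, 0, 0]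

def cmE7 : Matrix (Fin 7) (Fin 7) ℤ := Cm chevE7

def dlE7 : Fin 7 → ℕ := ![1, 1, 1, 1, 1, 1, 2]

theorem smE7 : pE7 * cmE7 * qE7 = Matrix.diagonal fun i => ((dlE7 i : ℕ) : ℤ) := by decide +kernel

theorem ipE7 : pE7 * piE7 = 1 := by decide +kernel

theorem iqE7 : qE7 * qiE7 = 1 := by decide +kernel

def pB2 : Matrix (Fin 2) (Fin 2) ℤ := !![0, -1; 1, 2]

def qB2 : Matrix (Fin 2) (Fin 2) ℤ := !![1, 2; 0, 1]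

def piB2 : Matrix (Fin 2) (Fin 2) ℤ := !![2, 1; -1, 0]

def qiB2 : Matrix (Fin 2) (Fin 2) ℤ := !![1, -2; 0, 1]

def cmB2 : Matrix (Fin 2) (Fin 2) ℤ := Cm chevB2

def dlB2 : Fin 2 → ℕ := ![1, 2]

theorem smB2 : pB2 * cmB2 * qB2 = Matrix.diagonal fun i => ((dlB2 i : ℕ) : ℤ) := by decide +kernel

theorem ipB2 : pB2 * piB2 = 1 := by decide +kernel

theorem iqB2 : qB2 * qiB2 = 1 := by decide +kernel

def pD4 : Matrix (Fin 4) (Fin 4) ℤ := !![-1, 0, 0, 0; -2, -1, 0, 0; -3, -2, -1, 0; 2, 2, 1, 1]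

def qD4 : Matrix (Fin 4) (Fin 4) ℤ := !![0, 0, 0, 1; 1, 0, 0, 2; 0, 1, -1, 1; 0, 0, 1, 2]

def piD4 : Matrix (Fin 4) (Fin 4) ℤ := !![-1, 0, 0, 0; 2, -1, 0, 0; -1, 2, -1, 0; -1, 0, 1, 1]

def qiD4 : Matrix (Fin 4) (Fin 4) ℤ := !![-2, 1, 0, 0; -3, 0, 1, 1; -2, 0, 0, 1; 1, 0, 0, 0]

def cmD4 : Matrix (Fin 4) (Fin 4) ℤ := Cm chevD4

def dlD4 : Fin 4 → ℕ := ![1, 1, 2, 2]

theorem smD4 : pD4 * cmD4 * qD4 = Matrix.diagonal fun i => ((dlD4 i : ℕ) : ℤ) := by decide +kernel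

theorem ipD4 : pD4 * piD4 = 1 := by decide +kernel

theorem iqD4 : qD4 * qiD4 = 1 := by decide +kernel

theorem cdG2 {F : Type*} [Field F] [Fintype F] :
    1 * Nat.card (chevG2.diagonalSubgroup F) = (Fintype.card F - 1) ^ chevG2.rank := by
  have h : (∏ i : Fin 2, (Fintype.card F - 1).gcd (dlG2 i)) * Nat.card (chevG2.diagonalSubgroup F) =
      (Fintype.card F - 1) ^ 2 :=
    card_diag (F := F) chevG2 (by simp) pG2 qG2 piG2 qiG2 dlG2 smG2 ipG2 iqG2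
  rw [Fin.prod_univ_two] at h
  have e0 : dlG2 0 = 1 := rfl
  have e1 : dlG2 1 = 1 := rfl
  rw [e0, e1] at h
  show 1 * Nat.card (chevG2.diagonalSubgroup F) = (Fintype.card F - 1) ^ 2
  simpa using h

theorem cdF4 {F : Type*} [Field F] [Fintype F] :
    1 * Nat.card (chevF4.diagonalSubgroup F) = (Fintype.card F - 1) ^ chevF4.rank := by
  have h : (∏ i : Fin 4, (Fintype.card F - 1).gcd (dlF4 i)) * Nat.card (chevF4.diagonalSubgroup F) =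
      (Fintype.card F - 1) ^ 4 :=
    card_diag (F := F) chevF4 (by simp) pF4 qF4 piF4 qiF4 dlF4 smF4 ipF4 iqF4
  rw [Fin.prod_univ_four] at h
  have e0 : dlF4 0 = 1 := rfl
  have e1 : dlF4 1 = 1 := rfl
  have e2 : dlF4 2 = 1 := rfl
  have e3 : dlF4 3 = 1 := rfl
  rw [e0, e1, e2, e3] at h
  show 1 * Nat.card (chevF4.diagonalSubgroup F) = (Fintype.card F - 1) ^ 4
  simpa using h

theorem cdE8 {F : Type*} [Field F] [Fintype F] :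
    1 * Nat.card (chevE8.diagonalSubgroup F) = (Fintype.card F - 1) ^ chevE8.rank := by
  have h : (∏ i : Fin 8, (Fintype.card F - 1).gcd (dlE8 i)) * Nat.card (chevE8.diagonalSubgroup F) =
      (Fintype.card F - 1) ^ 8 :=
    card_diag (F := F) chevE8 (by simp) pE8 qE8 piE8 qiE8 dlE8 smE8 ipE8 iqE8
  rw [Fin.prod_univ_eight] at h
  have e0 : dlE8 0 = 1 := rfl
  have e1 : dlE8 1 = 1 := rfl
  have e2 : dlE8 2 = 1 := rfl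
  have e3 : dlE8 3 = 1 := rfl
  have e4 : dlE8 4 = 1 := rfl
  have e5 : dlE8 5 = 1 := rfl
  have e6 : dlE8 6 = 1 := rfl
  have e7 : dlE8 7 = 1 := rfl
  rw [e0, e1, e2, e3, e4, e5, e6, e7] at h
  show 1 * Nat.card (chevE8.diagonalSubgroup F) = (Fintype.card F - 1) ^ 8
  simpa using h

theorem cdE6 {F : Type*} [Field F] [Fintype F] :
    Nat.gcd 3 (Fintype.card F - 1) * Nat.card (chevE6.diagonalSubgroup F) = (Fintype.card F - 1) ^ chevE6.rank := by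
  have h : (∏ i : Fin 6, (Fintype.card F - 1).gcd (dlE6 i)) * Nat.card (chevE6.diagonalSubgroup F) =
      (Fintype.card F - 1) ^ 6 :=
    card_diag (F := F) chevE6 (by simp) pE6 qE6 piE6 qiE6 dlE6 smE6 ipE6 iqE6
  rw [Fin.prod_univ_six] at h
  have e0 : dlE6 0 = 1 := rfl
  have e1 : dlE6 1 = 1 := rfl
  have e2 : dlE6 2 = 1 := rfl
  have e3 : dlE6 3 = 1 := rfl
  have e4 : dlE6 4 = 1 := rfl
  have e5 : dlE6 5 = 3 := rfl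
  rw [e0, e1, e2, e3, e4, e5] at h
  show Nat.gcd 3 (Fintype.card F - 1) * Nat.card (chevE6.diagonalSubgroup F) = (Fintype.card F - 1) ^ 6
  rw [Nat.gcd_comm 3]
  simpa using h

theorem cdE7 {F : Type*} [Field F] [Fintype F] :
    Nat.gcd 2 (Fintype.card F - 1) * Nat.card (chevE7.diagonalSubgroup F) = (Fintype.card F - 1) ^ chevE7.rank := by
  have h : (∏ i : Fin 7, (Fintype.card F - 1).gcd (dlE7 i)) * Nat.card (chevE7.diagonalSubgroup F) =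
      (Fintype.card F - 1) ^ 7 :=
    card_diag (F := F) chevE7 (by simp) pE7 qE7 piE7 qiE7 dlE7 smE7 ipE7 iqE7
  rw [Fin.prod_univ_seven] at h
  have e0 : dlE7 0 = 1 := rfl
  have e1 : dlE7 1 = 1 := rfl
  have e2 : dlE7 2 = 1 := rfl
  have e3 : dlE7 3 = 1 := rfl
  have e4 : dlE7 4 = 1 := rfl
  have e5 : dlE7 5 = 1 := rfl
  have e6 : dlE7 6 = 2 := rfl
  rw [e0, e1, e2, e3, e4, e5, e6] at h
  show Nat.gcd 2 (Fintype.card F - 1) * Nat.card (chevE7.diagonalSubgroup F) = (Fintype.card F - 1) ^ 7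
  rw [Nat.gcd_comm 2]
  simpa using h

theorem cdB2 {F : Type*} [Field F] [Fintype F] :
    Nat.gcd 2 (Fintype.card F - 1) * Nat.card (chevB2.diagonalSubgroup F) = (Fintype.card F - 1) ^ chevB2.rank := by
  have h : (∏ i : Fin 2, (Fintype.card F - 1).gcd (dlB2 i)) * Nat.card (chevB2.diagonalSubgroup F) =
      (Fintype.card F - 1) ^ 2 :=
    card_diag (F := F) chevB2 (by simp) pB2 qB2 piB2 qiB2 dlB2 smB2 ipB2 iqB2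
  rw [Fin.prod_univ_two] at h
  have e0 : dlB2 0 = 1 := rfl
  have e1 : dlB2 1 = 2 := rfl
  rw [e0, e1] at h
  show Nat.gcd 2 (Fintype.card F - 1) * Nat.card (chevB2.diagonalSubgroup F) = (Fintype.card F - 1) ^ 2
  rw [Nat.gcd_comm 2]
  simpa using h

theorem cdD4 {F : Type*} [Field F] [Fintype F] :
    Nat.gcd 2 (Fintype.card F - 1) ^ 2 * Nat.card (chevD4.diagonalSubgroup F) = (Fintype.card F - 1) ^ chevD4.rank := by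
  have h : (∏ i : Fin 4, (Fintype.card F - 1).gcd (dlD4 i)) * Nat.card (chevD4.diagonalSubgroup F) =
      (Fintype.card F - 1) ^ 4 :=
    card_diag (F := F) chevD4 (by simp) pD4 qD4 piD4 qiD4 dlD4 smD4 ipD4 iqD4
  rw [Fin.prod_univ_four] at h
  have e0 : dlD4 0 = 1 := rfl
  have e1 : dlD4 1 = 1 := rfl
  have e2 : dlD4 2 = 2 := rfl
  have e3 : dlD4 3 = 2 := rfl
  rw [e0, e1, e2, e3] at h
  show Nat.gcd 2 (Fintype.card F - 1) ^ 2 * Nat.card (chevD4.diagonalSubgroup F) = (Fintype.card F - 1) ^ 4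
  rw [pow_two, Nat.gcd_comm 2]
  simpa using h

theorem result {F : Type*} [Field F] [Fintype F] {q : ℕ} (hq : Fintype.card F = q)
    (p : Cfsg.Lie.ChevalleyDatum × ℕ)
    (hp : p ∈ [(Cfsg.Lie.chevG2, 1), (Cfsg.Lie.chevF4, 1), (Cfsg.Lie.chevE8, 1), (Cfsg.Lie.chevE6, Nat.gcd 3 (q - 1)),
      (Cfsg.Lie.chevE7, Nat.gcd 2 (q - 1)), (Cfsg.Lie.chevB2, Nat.gcd 2 (q - 1)), (Cfsg.Lie.chevD4, Nat.gcd 2 (q - 1) ^ 2)]) :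
    p.2 * Nat.card (p.1.diagonalSubgroup F) = (q - 1) ^ p.1.rank := by
  subst hq
  simp only [List.mem_cons, List.not_mem_nil, or_false] at hp
  rcases hp with rfl | rfl | rfl | rfl | rfl | rfl | rfl
  · exact cdG2
  · exact cdF4
  · exact cdE8
  · exact cdE6
  · exact cdE7
  · exact cdB2
  · exact cdD4

end Cfsg.Agent.S1035
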