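import Cfsg.Statements.S1225
import Cfsg.Agent.Lib.Helper8.SE

set_option autoImplicit false
open Cfsg

namespace Cfsg.Agent.S1225

open Cfsg.Agent.Lib.Helper8.IsoInv Cfsg.Agent.Lib.Helper8.SE Cfsg.Agent.Lib.Helper8.Dih
  Cfsg.Agent.Lib.Helper8.Conj

theorem conj_u {G : Type*} [Group G] [Finite G] (H : Subgroup G) (hH : Cfsg.IsStronglyEmbedded H)
    (u : G) (hu : orderOf u = 2) (huH : u ∉ H) (s : G) (hs : orderOf s = 2) (hsH : s ∈ H)
    (a : G) (ha : orderOf a = 2) : ∃ g : G, g * a * g⁻¹ = u := by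
  have huu := mul_self_of_orderOf_two hu
  have hss := mul_self_of_orderOf_two hs
  have haa := mul_self_of_orderOf_two ha
  by_cases haH : a ∈ H
  · exact conj_of_odd haa huu (odd_mul_of_mem hH ha hu haH huH)
  · obtain ⟨g₁, hg₁⟩ := conj_of_odd hss haa (odd_mul_of_mem hH hs ha hsH haH)
    obtain ⟨g₂, hg₂⟩ := conj_of_odd hss huu (odd_mul_of_mem hH hs hu hsH huH)
    refine ⟨g₂ * g₁⁻¹, ?_⟩
    rw [← hg₁, ← hg₂]; group

/-- Let H be a strongly embedded subgroup of the finite group G, u an involution outside H and D = H ∩ uHu⁻¹. Then any two involutions of H are conjugate by an element of D, and any two involutions of G are conjugate in G. -/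
theorem result {G : Type*} [Group G] [Finite G] (H : Subgroup G) (hH : Cfsg.IsStronglyEmbedded H) (u : G) (hu : orderOf u = 2) (huH : u ∉ H) (s t : G) (hs : orderOf s = 2) (hsH : s ∈ H) (ht : orderOf t = 2) (htH : t ∈ H) : (∃ d ∈ (H ⊓ H.map (MulAut.conj u).toMonoidHom), d * s * d⁻¹ = t) ∧ ∀ a b : G, orderOf a = 2 → orderOf b = 2 → IsConj a b := by
  have huu := mul_self_of_orderOf_two hu
  have hui : u⁻¹ = u := inv_eq_self_of_mul_self huu
  constructor
  · have hz' : orderOf (u * t * u⁻¹) = 2 := by rw [orderOf_conj_eq]; exact ht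
    have h1 : (1 : G)⁻¹ * s * 1 ∈ H := by simpa using hsH
    have h2 : u⁻¹ * (u * t * u⁻¹) * u ∈ H := by
      have : u⁻¹ * (u * t * u⁻¹) * u = t := by group
      rw [this]; exact htH
    have hne : (1 : G)⁻¹ * u ∉ H := by simpa using huH
    obtain ⟨w, hw, hwx, hwz⟩ := exists_swap hH hs hz' h1 h2 hne
    have hww := mul_self_of_orderOf_two hw
    have hwi : w⁻¹ = w := inv_eq_self_of_mul_self hww
    have hd : u⁻¹ * w ∈ H := by simpa using hwx
    refine ⟨u⁻¹ * w, Subgroup.mem_inf.mpr ⟨hd, ?_⟩, ?_⟩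
    · rw [mem_map_conj]
      have e : u⁻¹ * (u⁻¹ * w) * u = (u⁻¹ * w)⁻¹ := by
        rw [mul_inv_rev, inv_inv, hwi, hui]
        calc u * (u * w) * u = (u * u) * w * u := by group
          _ = w * u := by rw [huu, one_mul]
      rw [e]
      exact H.inv_mem hd
    · calc u⁻¹ * w * s * (u⁻¹ * w)⁻¹ = u⁻¹ * (w * s * w⁻¹) * u := by group
        _ = t := by rw [hwz]; group
  · intro a b ha hb
    obtain ⟨g₁, hg₁⟩ := conj_u H hH u hu huH s hs hsH a ha
    obtain ⟨g₂, hg₂⟩ := conj_u H hH u hu huH s hs hsH b hb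
    rw [isConj_iff]
    refine ⟨g₂⁻¹ * g₁, ?_⟩
    have : b = g₂⁻¹ * u * g₂ := by rw [← hg₂]; group
    rw [this, ← hg₁]; group

end Cfsg.Agent.S1225
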