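import Mathlib
import Cfsg.Statements.S0636
import Cfsg.Agent.Lib.Helper4.Card
import Cfsg.Agent.S0100

set_option autoImplicit false
open Cfsg

open scoped commutatorElement

namespace Cfsg.Agent.S0636

universe u

section
variable {R : Type u} [Group R]

theorem mul_pow_of_central {p : ℕ} [Fact p.Prime] (hp : p ≠ 2) (Z : Subgroup R)
    (hZc : ∀ z ∈ Z, ∀ g : R, g * z = z * g) (hZp : ∀ z ∈ Z, z ^ p = 1) (a b : R)
    (hab : ⁅b⁻¹, a⁻¹⁆ ∈ Z) : (a * b) ^ p = a ^ p * b ^ p := by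
  have hpp : p.Prime := Fact.out
  obtain ⟨c, hcdef⟩ : ∃ c, c = ⁅b⁻¹, a⁻¹⁆ := ⟨_, rfl⟩
  rw [← hcdef] at hab
  have hc : b * a = a * b * c := by rw [hcdef, commutatorElement_def]; group
  have hca : Commute c a := (hZc c hab a).symm
  have hcb : Commute c b := (hZc c hab b).symm
  obtain ⟨-, e2⟩ :=
    Cfsg.Agent.Lib.Helper18.UniqueInvolution.pow_mul_comm_of_central a b c hc hca hcb p
  have hdvd : p ∣ p.choose 2 := by
    apply hpp.dvd_choose_self (by norm_num)
    have := hpp.two_le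
    omega
  obtain ⟨m, hm⟩ := hdvd
  rw [e2, hm, pow_mul, hZp c hab, one_pow, mul_one]

/-- elements of order dividing `p` in a subgroup of class two modulo a central subgroup of exponent `p` -/
def omegaSub (p : ℕ) [Fact p.Prime] (hp : p ≠ 2) (K Z : Subgroup R)
    (hZc : ∀ z ∈ Z, ∀ g : R, g * z = z * g) (hZp : ∀ z ∈ Z, z ^ p = 1)
    (hKZ : ∀ a ∈ K, ∀ b ∈ K, ⁅a, b⁆ ∈ Z) : Subgroup R where
  carrier := {x | x ∈ K ∧ x ^ p = 1}
  one_mem' := ⟨K.one_mem, one_pow p⟩
  mul_mem' := by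
    rintro a b ⟨ha, hap⟩ ⟨hb, hbp⟩
    refine ⟨K.mul_mem ha hb, ?_⟩
    rw [mul_pow_of_central hp Z hZc hZp a b (hKZ _ (K.inv_mem hb) _ (K.inv_mem ha)), hap, hbp,
      one_mul]
  inv_mem' := by
    rintro a ⟨ha, hap⟩
    exact ⟨K.inv_mem ha, by rw [inv_pow, hap, inv_one]⟩

theorem omegaSub_normal {p : ℕ} [Fact p.Prime] (hp : p ≠ 2) (K Z : Subgroup R) [hK : K.Normal]
    (hZc : ∀ z ∈ Z, ∀ g : R, g * z = z * g) (hZp : ∀ z ∈ Z, z ^ p = 1)
    (hKZ : ∀ a ∈ K, ∀ b ∈ K, ⁅a, b⁆ ∈ Z) : (omegaSub p hp K Z hZc hZp hKZ).Normal := by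
  constructor
  rintro x ⟨hx, hxp⟩ g
  exact ⟨hK.conj_mem x hx g, by rw [conj_pow, hxp, mul_one, mul_inv_cancel]⟩

theorem card_le_omega [Finite R] {p : ℕ} [Fact p.Prime] (hp : p ≠ 2) (K Z : Subgroup R)
    (hZc : ∀ z ∈ Z, ∀ g : R, g * z = z * g) (hZp : ∀ z ∈ Z, z ^ p = 1)
    (hKZ : ∀ a ∈ K, ∀ b ∈ K, ⁅a, b⁆ ∈ Z) (hKp : ∀ a ∈ K, a ^ p ∈ Z) :
    Nat.card K ≤ Nat.card (omegaSub p hp K Z hZc hZp hKZ) * Nat.card Z := by
  let φ : K →* Z :=
    { toFun := fun a => ⟨(a : R) ^ p, hKp a a.2⟩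
      map_one' := by ext; simp
      map_mul' := by
        intro a b
        ext
        simp only [Subgroup.coe_mul]
        exact mul_pow_of_central hp Z hZc hZp a b (hKZ _ (K.inv_mem b.2) _ (K.inv_mem a.2)) }
  have hφ : ∀ a : K, ((φ a : Z) : R) = (a : R) ^ p := fun a => rfl
  have hker : φ.ker ≤ (omegaSub p hp K Z hZc hZp hKZ).subgroupOf K := by
    intro a ha
    rw [MonoidHom.mem_ker] at ha
    rw [Subgroup.mem_subgroupOf]
    refine ⟨a.2, ?_⟩
    rw [← hφ, ha]; rfl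
  have hcard : Nat.card K = Nat.card φ.ker * Nat.card φ.range := by
    rw [← Subgroup.index_ker φ]; exact (Subgroup.card_mul_index φ.ker).symm
  have hΩ : Nat.card ((omegaSub p hp K Z hZc hZp hKZ).subgroupOf K)
      = Nat.card (omegaSub p hp K Z hZc hZp hKZ) := by
    rw [Cfsg.Agent.Lib.Helper4.Card.card_subgroupOf_eq, inf_eq_left.mpr (fun x hx => hx.1)]
  rw [hcard, ← hΩ]
  exact Nat.mul_le_mul (Subgroup.card_le_of_le hker) (Subgroup.card_le_card_group _)

theorem finish [Finite R] {p : ℕ} [Fact p.Prime] (hR : IsPGroup p R) (S Ω : Subgroup R) [Ω.Normal]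
    (hΩS : Ω ≤ S) (hΩp : ∀ x ∈ Ω, x ^ p = 1) (hcard : p ^ 2 ≤ Nat.card Ω) :
    ∃ A : Subgroup R, A ≤ S ∧ A.Normal ∧ Cfsg.IsElementaryAbelian p A ∧ Nat.card A = p ^ 2 := by
  obtain ⟨A, hAn, hAΩ, hAc⟩ := Cfsg.Agent.S0100.exists_normal_le_card hR Ω 2 hcard
  exact ⟨A, hAΩ.trans hΩS, hAn,
    ⟨IsPGroup.isMulCommutative_of_card_eq_prime_sq hAc, fun a ha => hΩp a (hAΩ ha)⟩,
    hAc⟩

end

theorem aux {p : ℕ} [Fact p.Prime] (hp : p ≠ 2) : ∀ (n : ℕ) (R : Type u) [Group R] [Finite R],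
    Nat.card R = n → IsPGroup p R → ∀ (S : Subgroup R) [S.Normal], ¬ IsCyclic S →
    ∃ A : Subgroup R, A ≤ S ∧ A.Normal ∧ Cfsg.IsElementaryAbelian p A ∧ Nat.card A = p ^ 2 := by
  intro n
  induction n using Nat.strong_induction_on with
  | _ n ih =>
  intro R _ _ hn hR S _ hS
  have hpp : p.Prime := Fact.out
  have hSne : ¬ S ≤ ⊥ := by
    intro h
    apply hS
    rw [le_bot_iff] at h
    rw [Subgroup.isCyclic_iff_exists_zpowers_eq_top]
    exact ⟨1, by rw [h]; simp⟩
  obtain ⟨x, hxS, hx1, hxp, hxc⟩ := Cfsg.Agent.S0093.exists_central_mod hR ⊥ S hSne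
  rw [Subgroup.mem_bot] at hx1 hxp
  have hxc' : ∀ g : R, g * x = x * g := by
    intro g
    have := hxc g
    rw [Subgroup.mem_bot, commutatorElement_eq_one_iff_mul_comm] at this
    exact this.symm
  obtain ⟨Z, hZdef⟩ : ∃ Z, Z = Subgroup.zpowers x := ⟨_, rfl⟩
  have hZc : ∀ z ∈ Z, ∀ g : R, g * z = z * g := by
    intro z hz g
    rw [hZdef] at hz
    obtain ⟨i, rfl⟩ := Subgroup.mem_zpowers_iff.mp hz
    exact ((show Commute g x from hxc' g).zpow_right i)
  have hZp : ∀ z ∈ Z, z ^ p = 1 := by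
    intro z hz
    rw [hZdef] at hz
    obtain ⟨i, rfl⟩ := Subgroup.mem_zpowers_iff.mp hz
    rw [← zpow_natCast, ← zpow_mul, mul_comm, zpow_mul, zpow_natCast, hxp, one_zpow]
  have hZS : Z ≤ S := by rw [hZdef, Subgroup.zpowers_le]; exact hxS
  have hZcard : Nat.card Z = p := by rw [hZdef, Nat.card_zpowers]; exact orderOf_eq_prime hxp hx1
  haveI hZn : Z.Normal := ⟨fun z hz g => by
    have : g * z * g⁻¹ = z := by rw [hZc z hz g, mul_assoc, mul_inv_cancel, mul_one]
    rw [this]; exact hz⟩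
  by_cases hcyc : IsCyclic ↥(S.map (QuotientGroup.mk' Z))
  · -- `S / Z` cyclic: `S` is abelian
    have hScomm : ∀ a ∈ S, ∀ b ∈ S, a * b = b * a := by
      have hker : ((QuotientGroup.mk' Z).subgroupMap S).ker ≤ Subgroup.center S := by
        intro a ha
        rw [MonoidHom.mem_ker] at ha
        have h1 : QuotientGroup.mk' Z (a : R) = 1 := congrArg Subtype.val ha
        have h2 : (a : R) ∈ Z := (QuotientGroup.eq_one_iff _).mp h1
        rw [Subgroup.mem_center_iff]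
        intro g
        exact Subtype.ext (hZc _ h2 g)
      have := ((QuotientGroup.mk' Z).subgroupMap S).isMulCommutative_of_isCyclic_of_ker_le_center hker
      intro a ha b hb
      exact congrArg Subtype.val (this.is_comm.comm ⟨a, ha⟩ ⟨b, hb⟩)
    have hKZ : ∀ a ∈ S, ∀ b ∈ S, ⁅a, b⁆ ∈ Z := by
      intro a ha b hb
      rw [commutatorElement_eq_one_iff_mul_comm.mpr (hScomm a ha b hb)]
      exact Z.one_mem
    haveI := omegaSub_normal hp S Z hZc hZp hKZ
    by_cases h5 : p ^ 2 ≤ Nat.card (omegaSub p hp S Z hZc hZp hKZ)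
    · exact finish hR S (omegaSub p hp S Z hZc hZp hKZ) (fun x hx => hx.1) (fun x hx => hx.2) h5
    · exfalso
      apply hS
      push Not at h5
      have hZΩ : Z ≤ omegaSub p hp S Z hZc hZp hKZ := fun z hz => ⟨hZS hz, hZp z hz⟩
      have hΩZ : Z = omegaSub p hp S Z hZc hZp hKZ := by
        apply Subgroup.eq_of_le_of_card_ge hZΩ
        rw [hZcard]
        obtain ⟨j, hj⟩ := IsPGroup.iff_card.mp (hR.to_subgroup (omegaSub p hp S Z hZc hZp hKZ))
        rw [hj] at h5 ⊢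
        have hj2 : j < 2 := (Nat.pow_lt_pow_iff_right hpp.one_lt).mp h5
        calc p ^ j ≤ p ^ 1 := Nat.pow_le_pow_right hpp.pos (by omega)
          _ = p := pow_one p
      have hall : ∀ w ∈ S, w ^ p = 1 → w ∈ Z := fun w hw hwp => by
        rw [hΩZ]; exact ⟨hw, hwp⟩
      obtain ⟨⟨ybar, hybar⟩, hgen⟩ := IsCyclic.exists_generator (α := ↥(S.map (QuotientGroup.mk' Z)))
      obtain ⟨y, hyS, rfl⟩ := hybar
      have hSle : S ≤ Subgroup.zpowers y ⊔ Z := by
        intro s hs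
        have h1 := hgen ⟨QuotientGroup.mk' Z s, Subgroup.mem_map_of_mem _ hs⟩
        obtain ⟨i, hi⟩ := Subgroup.mem_zpowers_iff.mp h1
        have h2 : (QuotientGroup.mk' Z y) ^ i = QuotientGroup.mk' Z s := by
          have := congrArg Subtype.val hi
          simpa using this
        have h3 : (y ^ i)⁻¹ * s ∈ Z := by
          apply QuotientGroup.eq.mp
          rw [← QuotientGroup.mk'_apply, ← QuotientGroup.mk'_apply, ← h2, map_zpow]
        have h4 : s = y ^ i * ((y ^ i)⁻¹ * s) := by group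
        rw [h4]
        exact Subgroup.mul_mem _ (Subgroup.mem_sup_left (Subgroup.zpow_mem_zpowers y i))
          (Subgroup.mem_sup_right h3)
      rw [Subgroup.isCyclic_iff_exists_zpowers_eq_top]
      by_cases hy1 : y = 1
      · refine ⟨x, ?_⟩
        rw [← hZdef]
        apply le_antisymm hZS
        rw [hy1, Subgroup.zpowers_one_eq_bot, bot_sup_eq] at hSle
        exact hSle
      · refine ⟨y, ?_⟩
        apply le_antisymm (by rw [Subgroup.zpowers_le]; exact hyS)
        obtain ⟨m, hm⟩ := (IsPGroup.iff_orderOf.mp hR) y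
        have hm1 : m ≠ 0 := by
          rintro rfl
          rw [pow_zero, orderOf_eq_one_iff] at hm
          exact hy1 hm
        obtain ⟨m', rfl⟩ := Nat.exists_eq_succ_of_ne_zero hm1
        obtain ⟨w, hwdef⟩ : ∃ w, w = y ^ (p ^ m') := ⟨_, rfl⟩
        have hwp : w ^ p = 1 := by
          rw [hwdef, ← pow_mul, ← pow_succ, ← hm]; exact pow_orderOf_eq_one y
        have hw1 : w ≠ 1 := by
          rw [hwdef]
          apply pow_ne_one_of_lt_orderOf (pow_ne_zero _ hpp.ne_zero)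
          rw [hm]; exact Nat.pow_lt_pow_right hpp.one_lt (Nat.lt_succ_self m')
        have hwS : w ∈ S := by rw [hwdef]; exact S.pow_mem hyS _
        have hwZ : w ∈ Z := hall w hwS hwp
        have hZw : Z ≤ Subgroup.zpowers y := by
          have h6 : Subgroup.zpowers w = Z := by
            apply Subgroup.eq_of_le_of_card_ge (by rw [Subgroup.zpowers_le]; exact hwZ)
            rw [hZcard, Nat.card_zpowers, orderOf_eq_prime hwp hw1]
          rw [← h6, Subgroup.zpowers_le, hwdef]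
          exact Subgroup.pow_mem _ (Subgroup.mem_zpowers y) _
        exact hSle.trans (sup_le le_rfl hZw)
  · -- `S / Z` noncyclic: induction
    have hcardR : Nat.card R = Nat.card (R ⧸ Z) * Nat.card Z :=
      Subgroup.card_eq_card_quotient_mul_card_subgroup Z
    have hlt : Nat.card (R ⧸ Z) < n := by
      rw [← hn, hcardR, hZcard]
      have hpos : 0 < Nat.card (R ⧸ Z) := Nat.card_pos
      have := hpp.two_le
      nlinarith
    haveI : (S.map (QuotientGroup.mk' Z)).Normal :=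
      Subgroup.Normal.map inferInstance _ (QuotientGroup.mk'_surjective Z)
    obtain ⟨A', hA'S, hA'n, ⟨hA'c, hA'p⟩, hA'card⟩ :=
      ih _ hlt (R ⧸ Z) rfl (hR.to_quotient Z) (S.map (QuotientGroup.mk' Z)) hcyc
    obtain ⟨K, hKdef⟩ : ∃ K, K = A'.comap (QuotientGroup.mk' Z) := ⟨_, rfl⟩
    have hKmem : ∀ k : R, k ∈ K ↔ QuotientGroup.mk' Z k ∈ A' := fun k => by
      rw [hKdef, Subgroup.mem_comap]
    haveI : K.Normal := by rw [hKdef]; exact hA'n.comap _
    have hKS : K ≤ S := by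
      intro k hk
      have h1 : QuotientGroup.mk' Z k ∈ S.map (QuotientGroup.mk' Z) := hA'S ((hKmem k).mp hk)
      obtain ⟨s, hs, hsk⟩ := h1
      have h2 : s⁻¹ * k ∈ Z := QuotientGroup.eq.mp hsk
      have h3 : k = s * (s⁻¹ * k) := by group
      rw [h3]; exact S.mul_mem hs (hZS h2)
    have hKZ : ∀ a ∈ K, ∀ b ∈ K, ⁅a, b⁆ ∈ Z := by
      intro a ha b hb
      rw [← QuotientGroup.eq_one_iff (N := Z), ← QuotientGroup.mk'_apply, map_commutatorElement,
        commutatorElement_eq_one_iff_mul_comm]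
      have := hA'c.is_comm.comm (⟨_, (hKmem a).mp ha⟩ : A') ⟨_, (hKmem b).mp hb⟩
      exact congrArg Subtype.val this
    have hKp : ∀ a ∈ K, a ^ p ∈ Z := by
      intro a ha
      rw [← QuotientGroup.eq_one_iff (N := Z), ← QuotientGroup.mk'_apply, map_pow]
      exact hA'p _ ((hKmem a).mp ha)
    have hKcard : Nat.card K = p ^ 2 * p := by
      have h1 : K.index = A'.index := by
        rw [hKdef]; exact Subgroup.index_comap_of_surjective A' (QuotientGroup.mk'_surjective Z)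
      have h2 := Subgroup.index_mul_card K
      have h3 := Subgroup.index_mul_card A'
      have hpos : 0 < K.index := Nat.pos_of_ne_zero Subgroup.index_ne_zero_of_finite
      apply Nat.eq_of_mul_eq_mul_left hpos
      rw [h2, hcardR, ← h3, hA'card, hZcard, h1, mul_assoc]
    have h4 := card_le_omega hp K Z hZc hZp hKZ hKp
    rw [hKcard, hZcard] at h4
    have h5 : p ^ 2 ≤ Nat.card (omegaSub p hp K Z hZc hZp hKZ) :=
      Nat.le_of_mul_le_mul_right h4 hpp.pos
    haveI := omegaSub_normal hp K Z hZc hZp hKZ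
    exact finish hR S (omegaSub p hp K Z hZc hZp hKZ) (fun x hx => hKS hx.1) (fun x hx => hx.2) h5

/-- For odd p, every non-cyclic normal subgroup of a p-group contains a normal elementary abelian subgroup of the whole group of order p². -/
theorem result {R : Type*} [Group R] [Finite R] {p : ℕ} [Fact p.Prime] (hp : p ≠ 2) (hR : IsPGroup p R) (S : Subgroup R) [S.Normal] (hS : ¬ IsCyclic S) : ∃ A : Subgroup R, A ≤ S ∧ A.Normal ∧ Cfsg.IsElementaryAbelian p A ∧ Nat.card A = p ^ 2 := by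
  exact aux hp _ R rfl hR S hS

end Cfsg.Agent.S0636
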