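import Mathlib
import Cfsg.Statements.S0638
import Cfsg.Agent.Lib.Helper4.Card
import Cfsg.Agent.S0636

set_option autoImplicit false
open Cfsg

open scoped commutatorElement

namespace Cfsg.Agent.S0638

universe u

section
variable {R : Type u} [Group R]

theorem cyc_card_le [Finite R] {p : ℕ} (hp0 : 0 < p) (H : Subgroup R) (hH : IsCyclic H)
    (hexp : ∀ x ∈ H, x ^ p = 1) : Nat.card H ≤ p := by
  obtain ⟨g, hg⟩ := (Subgroup.isCyclic_iff_exists_zpowers_eq_top H).mp hH
  have hgH : g ∈ H := hg ▸ Subgroup.mem_zpowers g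
  rw [← hg, Nat.card_zpowers]
  exact Nat.le_of_dvd hp0 (orderOf_dvd_of_pow_eq_one (hexp g hgH))

theorem card_le_of_exponent [Finite R] {p : ℕ} (hp0 : 0 < p) (N : Subgroup R) [N.Normal]
    (hNc : IsCyclic N) (hQc : IsCyclic (R ⧸ N)) (Ω : Subgroup R) (hΩ : ∀ x ∈ Ω, x ^ p = 1) :
    Nat.card Ω ≤ p * p := by
  have h1 := Cfsg.Agent.Lib.Helper4.Card.card_eq_relIndex_mul_card_inf N Ω
  have h2 : N.relIndex Ω ≤ p := by
    have h3 := Subgroup.relIndex_ker (K := Ω) (QuotientGroup.mk' N)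
    rw [QuotientGroup.ker_mk'] at h3
    rw [h3]
    exact cyc_card_le hp0 (Ω.map (QuotientGroup.mk' N)) inferInstance (by
      rintro _ ⟨x, hx, rfl⟩; rw [← map_pow, hΩ x hx, map_one])
  have h4 : Nat.card (N ⊓ Ω : Subgroup R) ≤ p := by
    apply cyc_card_le hp0 _ ?_ (fun x hx => hΩ x (Subgroup.mem_inf.mp hx).2)
    exact isCyclic_of_surjective
      (Subgroup.subgroupOfEquivOfLe (inf_le_left : N ⊓ Ω ≤ N)).toMonoidHom
      (Subgroup.subgroupOfEquivOfLe (inf_le_left : N ⊓ Ω ≤ N)).surjective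
  rw [h1]; exact Nat.mul_le_mul h2 h4

theorem comm_of_card_le [Finite R] {p : ℕ} [Fact p.Prime] (hR : IsPGroup p R) (Ω : Subgroup R)
    (h : Nat.card Ω ≤ p * p) : IsMulCommutative Ω := by
  obtain ⟨j, hj⟩ := IsPGroup.iff_card.mp (hR.to_subgroup Ω)
  have hj2 : j ≤ 2 := by
    rw [hj, ← pow_two] at h
    exact (Nat.pow_le_pow_iff_right (Fact.out : p.Prime).one_lt).mp h
  interval_cases j
  · rw [pow_zero] at hj
    haveI : Subsingleton Ω := (Nat.card_eq_one_iff_unique.mp hj).1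
    exact ⟨⟨fun a b => Subsingleton.elim _ _⟩⟩
  · rw [pow_one] at hj
    haveI := isCyclic_of_prime_card hj
    exact IsCyclic.isMulCommutative
  · exact IsPGroup.isMulCommutative_of_card_eq_prime_sq hj

end

theorem claimE {p : ℕ} [Fact p.Prime] (hp : p ≠ 2) : ∀ (n : ℕ) (R : Type u) [Group R] [Finite R],
    Nat.card R = n → IsPGroup p R → Cfsg.IsMetacyclic R →
    ∀ x y : R, x ^ p = 1 → y ^ p = 1 → (x * y) ^ p = 1 := by
  intro n
  induction n using Nat.strong_induction_on with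
  | _ n ih =>
  intro R _ _ hn hR hm x y hx hy
  have hpp : p.Prime := Fact.out
  obtain ⟨N, hNn, hNc, hQc⟩ := hm
  by_cases hNbot : N ≤ ⊥
  · have hker : (QuotientGroup.mk' N).ker ≤ Subgroup.center R := by
      rw [QuotientGroup.ker_mk']; exact hNbot.trans bot_le
    have hc := (QuotientGroup.mk' N).isMulCommutative_of_isCyclic_of_ker_le_center hker
    have hxy : Commute x y := hc.is_comm.comm x y
    rw [hxy.mul_pow, hx, hy, one_mul]
  · obtain ⟨z, hzN, hz1, hzp, hzc⟩ := Cfsg.Agent.S0093.exists_central_mod hR ⊥ N hNbot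
    rw [Subgroup.mem_bot] at hz1 hzp
    have hzc' : ∀ g : R, g * z = z * g := by
      intro g
      have := hzc g
      rw [Subgroup.mem_bot, commutatorElement_eq_one_iff_mul_comm] at this
      exact this.symm
    obtain ⟨Z, hZdef⟩ : ∃ Z, Z = Subgroup.zpowers z := ⟨_, rfl⟩
    have hZc : ∀ w ∈ Z, ∀ g : R, g * w = w * g := by
      intro w hw g
      rw [hZdef] at hw
      obtain ⟨i, rfl⟩ := Subgroup.mem_zpowers_iff.mp hw
      exact ((show Commute g z from hzc' g).zpow_right i)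
    have hZp : ∀ w ∈ Z, w ^ p = 1 := by
      intro w hw
      rw [hZdef] at hw
      obtain ⟨i, rfl⟩ := Subgroup.mem_zpowers_iff.mp hw
      rw [← zpow_natCast, ← zpow_mul, mul_comm, zpow_mul, zpow_natCast, hzp, one_zpow]
    have hZN : Z ≤ N := by rw [hZdef, Subgroup.zpowers_le]; exact hzN
    have hZcard : Nat.card Z = p := by rw [hZdef, Nat.card_zpowers]; exact orderOf_eq_prime hzp hz1
    haveI hZn : Z.Normal := ⟨fun w hw g => by
      have : g * w * g⁻¹ = w := by rw [hZc w hw g, mul_assoc, mul_inv_cancel, mul_one]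
      rw [this]; exact hw⟩
    have hcardR : Nat.card R = Nat.card (R ⧸ Z) * Nat.card Z :=
      Subgroup.card_eq_card_quotient_mul_card_subgroup Z
    have hlt : Nat.card (R ⧸ Z) < n := by
      rw [← hn, hcardR, hZcard]
      have hpos : 0 < Nat.card (R ⧸ Z) := Nat.card_pos
      have := hpp.two_le
      nlinarith
    haveI hN'n : (N.map (QuotientGroup.mk' Z)).Normal :=
      Subgroup.Normal.map hNn _ (QuotientGroup.mk'_surjective Z)
    have hN'c : IsCyclic ↥(N.map (QuotientGroup.mk' Z)) :=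
      isCyclic_of_surjective ((QuotientGroup.mk' Z).subgroupMap N)
        ((QuotientGroup.mk' Z).subgroupMap_surjective N)
    have hQ'c : IsCyclic ((R ⧸ Z) ⧸ (N.map (QuotientGroup.mk' Z))) := by
      let f : R ⧸ N →* (R ⧸ Z) ⧸ (N.map (QuotientGroup.mk' Z)) :=
        QuotientGroup.lift N ((QuotientGroup.mk' (N.map (QuotientGroup.mk' Z))).comp
          (QuotientGroup.mk' Z)) (by
            intro a ha
            rw [MonoidHom.mem_ker, MonoidHom.comp_apply, QuotientGroup.mk'_apply,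
              QuotientGroup.eq_one_iff]
            exact Subgroup.mem_map_of_mem _ ha)
      apply isCyclic_of_surjective f
      intro q
      obtain ⟨r', rfl⟩ := QuotientGroup.mk_surjective q
      obtain ⟨r, rfl⟩ := QuotientGroup.mk_surjective r'
      exact ⟨(r : R ⧸ N), rfl⟩
    have hmQ : Cfsg.IsMetacyclic (R ⧸ Z) := ⟨_, hN'n, hN'c, hQ'c⟩
    have IH := ih _ hlt (R ⧸ Z) rfl (hR.to_quotient Z) hmQ
    let Ωb : Subgroup (R ⧸ Z) :=
      { carrier := {q | q ^ p = 1}
        one_mem' := one_pow p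
        mul_mem' := fun {a b} ha hb => IH a b ha hb
        inv_mem' := fun {a} ha => by
          show a⁻¹ ^ p = 1
          rw [inv_pow, show a ^ p = 1 from ha, inv_one] }
    have hΩb : ∀ q : R ⧸ Z, q ∈ Ωb ↔ q ^ p = 1 := fun q => Iff.rfl
    have hcardΩ : Nat.card Ωb ≤ p * p :=
      card_le_of_exponent hpp.pos (N.map (QuotientGroup.mk' Z)) hN'c hQ'c Ωb (fun q hq => hq)
    have hΩc := comm_of_card_le (hR.to_quotient Z) Ωb hcardΩ
    have hmem : ∀ r : R, r ^ p = 1 → QuotientGroup.mk' Z r ∈ Ωb := by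
      intro r hr
      rw [hΩb, ← map_pow, hr, map_one]
    have hcomm : ⁅y⁻¹, x⁻¹⁆ ∈ Z := by
      rw [← QuotientGroup.eq_one_iff (N := Z), ← QuotientGroup.mk'_apply, map_commutatorElement,
        commutatorElement_eq_one_iff_mul_comm]
      have h1 := hmem y⁻¹ (by rw [inv_pow, hy, inv_one])
      have h2 := hmem x⁻¹ (by rw [inv_pow, hx, inv_one])
      have := hΩc.is_comm.comm (⟨_, h1⟩ : Ωb) ⟨_, h2⟩
      exact congrArg Subtype.val this
    rw [Cfsg.Agent.S0636.mul_pow_of_central hp Z hZc hZp x y hcomm, hx, hy, one_mul]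

/-- For odd p, in a non-cyclic metacyclic p-group the elements of order dividing p generate an elementary abelian subgroup of order p². -/
theorem result {R : Type*} [Group R] [Finite R] {p : ℕ} [Fact p.Prime] (hp : p ≠ 2) (hR : IsPGroup p R) (hm : Cfsg.IsMetacyclic R) (hnc : ¬ IsCyclic R) : Cfsg.IsElementaryAbelian p (Cfsg.omegaOne p (⊤ : Subgroup R)) ∧ Nat.card ↥(Cfsg.omegaOne p (⊤ : Subgroup R)) = p ^ 2 := by
  classical
  have hpp : p.Prime := Fact.out
  have hE := claimE hp _ R rfl hR hm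
  let Ω : Subgroup R :=
    { carrier := {x | x ^ p = 1}
      one_mem' := one_pow p
      mul_mem' := fun {a b} ha hb => hE a b ha hb
      inv_mem' := fun {a} ha => by
        show a⁻¹ ^ p = 1
        rw [inv_pow, show a ^ p = 1 from ha, inv_one] }
  have hΩmem : ∀ x : R, x ∈ Ω ↔ x ^ p = 1 := fun x => Iff.rfl
  have hΩeq : Cfsg.omegaOne p (⊤ : Subgroup R) = Ω := by
    apply le_antisymm
    · unfold Cfsg.omegaOne
      rw [Subgroup.closure_le]
      intro x hx
      exact hx.2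
    · intro x hx
      exact Subgroup.subset_closure ⟨Subgroup.mem_top x, hx⟩
  rw [hΩeq]
  obtain ⟨N, hNn, hNc, hQc⟩ := hm
  have hle : Nat.card Ω ≤ p * p := card_le_of_exponent hpp.pos N hNc hQc Ω (fun x hx => hx)
  have hnc' : ¬ IsCyclic ↥(⊤ : Subgroup R) := by
    intro h
    apply hnc
    obtain ⟨g, hg⟩ := (Subgroup.isCyclic_iff_exists_zpowers_eq_top ⊤).mp h
    exact isCyclic_iff_exists_zpowers_eq_top.mpr ⟨g, hg⟩
  obtain ⟨A, -, -, ⟨-, hAp⟩, hAcard⟩ := Cfsg.Agent.S0636.result hp hR ⊤ hnc'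
  have hAΩ : A ≤ Ω := fun a ha => hAp a ha
  have hge : p ^ 2 ≤ Nat.card Ω := by
    rw [← hAcard]; exact Subgroup.card_le_of_le hAΩ
  have hcard : Nat.card Ω = p ^ 2 := by
    rw [pow_two] at hge ⊢
    omega
  exact ⟨⟨IsPGroup.isMulCommutative_of_card_eq_prime_sq hcard, fun a ha => ha⟩, hcard⟩

end Cfsg.Agent.S0638
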