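import Cfsg.Statements.S0007
import Mathlib

set_option autoImplicit false
open Cfsg

namespace Cfsg.Agent.S0007

/-- Subgroups of coprime index: the intersection has index equal to the product of the indices, and every element is a product of an element of the first subgroup and an element of the second. -/
theorem result {G : Type*} [Group G] [Finite G] (H K : Subgroup G)
    (h : H.index.Coprime K.index) :
    (H ⊓ K).index = H.index * K.index ∧ ∀ g : G, ∃ x ∈ H, ∃ y ∈ K, g = x * y := by
  have h1 : (H ⊓ K).index = H.index * K.index := by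
    apply le_antisymm Subgroup.index_inf_le
    apply Nat.le_of_dvd (Nat.pos_of_ne_zero Subgroup.index_ne_zero_of_finite)
    exact Nat.Coprime.mul_dvd_of_dvd_of_dvd h (Subgroup.index_dvd_of_le inf_le_left)
      (Subgroup.index_dvd_of_le inf_le_right)
  refine ⟨h1, ?_⟩
  have h2 : K.relIndex H = K.index := by
    have h3 := Subgroup.relIndex_mul_index (inf_le_left : H ⊓ K ≤ H)
    rw [h1, Subgroup.inf_relIndex_left, mul_comm] at h3
    exact Nat.eq_of_mul_eq_mul_left (Nat.pos_of_ne_zero Subgroup.index_ne_zero_of_finite) h3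
  let e := Subgroup.quotientSubgroupOfEmbeddingOfLE K (le_top : H ≤ ⊤)
  have hc : Nat.card (↥(⊤ : Subgroup G) ⧸ K.subgroupOf ⊤) ≤ Nat.card (↥H ⧸ K.subgroupOf H) := by
    have e1 : Nat.card (↥H ⧸ K.subgroupOf H) = K.relIndex H := rfl
    have e2 : Nat.card (↥(⊤ : Subgroup G) ⧸ K.subgroupOf ⊤) = K.relIndex ⊤ := rfl
    rw [e1, e2, h2, Subgroup.relIndex_top_right]
  have hb : Function.Bijective e := e.injective.bijective_of_nat_card_le hc
  intro g
  obtain ⟨q, hq⟩ := hb.2 (QuotientGroup.mk (⟨g, Subgroup.mem_top g⟩ : (⊤ : Subgroup G)))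
  obtain ⟨x, rfl⟩ := QuotientGroup.mk_surjective q
  rw [Subgroup.quotientSubgroupOfEmbeddingOfLE_apply_mk, QuotientGroup.eq, Subgroup.mem_subgroupOf] at hq
  refine ⟨x, x.2, (x : G)⁻¹ * g, ?_, by group⟩
  simpa using hq

end Cfsg.Agent.S0007
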