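import Mathlib
import Cfsg.Statements.S0019
import Cfsg.Agent.Lib.Lead.Hall
import Cfsg.Agent.Lib.Helper12.SylowBasic

set_option autoImplicit false
set_option linter.style.haveILetI false
open Cfsg

namespace Cfsg.Agent.S0019

universe u

/-- If `G = H₁ H₂`, `N ≤ H₁` is a `p`-subgroup normalised by `H₁` and `p ∤ |G : H₂|`, then the
normal closure of `N` lies in `H₂`. -/
theorem closure_le {G : Type*} [Group G] [Finite G] (H₁ H₂ N : Subgroup G)
    (h12 : ∀ g : G, ∃ x ∈ H₁, ∃ y ∈ H₂, g = x * y)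
    (hN : H₁ ≤ Subgroup.normalizer (N : Set G)) (p : ℕ) [Fact p.Prime] (hNp : IsPGroup p N)
    (hp : ¬ p ∣ H₂.index) : Subgroup.normalClosure (N : Set G) ≤ H₂ := by
  -- a Sylow `p`-subgroup of `H₂` is Sylow in `G`
  obtain ⟨P⟩ : Nonempty (Sylow p H₂) := inferInstance
  have hT : IsPGroup p ((P : Subgroup H₂).map H₂.subtype) := P.isPGroup'.map _
  have hTidx : ¬ p ∣ ((P : Subgroup H₂).map H₂.subtype).relIndex ⊤ := by
    rw [Subgroup.relIndex_top_right, Subgroup.index_map_subtype]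
    intro h
    rcases (Nat.Prime.dvd_mul Fact.out).1 h with h | h
    · exact P.not_dvd_index h
    · exact hp h
  obtain ⟨c, -, hc⟩ := Cfsg.Agent.Lib.Helper12.SylowBasic.exists_conj_le_of_relIndex
    ((P : Subgroup H₂).map H₂.subtype) ⊤ le_top hT hTidx N le_top hNp
  have hNH₂ : N ≤ H₂ := by
    intro n hn
    obtain ⟨x, hx, y, hy, hxy⟩ := h12 c⁻¹
    have hc' : c = y⁻¹ * x⁻¹ := by
      rw [← mul_inv_rev, ← hxy, inv_inv]
    have hn' : x * n * x⁻¹ ∈ N := (Subgroup.mem_normalizer_iff.1 (hN hx) n).1 hn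
    have h1 := hc _ hn'
    have h2 : c * (x * n * x⁻¹) * c⁻¹ ∈ H₂ := Subgroup.map_subtype_le _ h1
    have h3 : n = y * (c * (x * n * x⁻¹) * c⁻¹) * y⁻¹ := by
      rw [hc']; group
    rw [h3]
    exact H₂.mul_mem (H₂.mul_mem hy h2) (H₂.inv_mem hy)
  unfold Subgroup.normalClosure
  rw [Subgroup.closure_le]
  intro a ha
  obtain ⟨n, hn, hconj⟩ := Group.mem_conjugatesOfSet_iff.1 ha
  obtain ⟨g, hg⟩ := isConj_iff.1 hconj
  obtain ⟨x, hx, y, hy, hxy⟩ := h12 g⁻¹
  have hg' : g = y⁻¹ * x⁻¹ := by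
    rw [← mul_inv_rev, ← hxy, inv_inv]
  have hn' : x⁻¹ * n * x⁻¹⁻¹ ∈ N :=
    (Subgroup.mem_normalizer_iff.1 (hN (H₁.inv_mem hx)) n).1 hn
  have h4 : a = y⁻¹ * (x⁻¹ * n * x⁻¹⁻¹) * y := by
    rw [← hg, hg']; group
  rw [h4]
  exact H₂.mul_mem (H₂.mul_mem (H₂.inv_mem hy) (hNH₂ hn')) hy

/-- the inductive statement. -/
def WProp (n : ℕ) : Prop :=
  ∀ (G : Type u) [Group G] [Finite G], Nat.card G = n →
    ∀ H₁ H₂ H₃ : Subgroup G, Group.IsSolvable H₁ → Group.IsSolvable H₂ → Group.IsSolvable H₃ →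
      (∀ g : G, ∃ x ∈ H₁, ∃ y ∈ H₂, g = x * y) → (∀ g : G, ∃ x ∈ H₁, ∃ y ∈ H₃, g = x * y) →
      H₂.index.Coprime H₃.index → Group.IsSolvable G

/-- the step, when the prime does not divide the index of `H₂`. -/
theorem step {n : ℕ} (ih : ∀ m < n, WProp.{u} m) (G : Type u) [Group G] [Finite G]
    (hn : Nat.card G = n) (H₁ H₂ H₃ : Subgroup G)
    (h₁ : Group.IsSolvable H₁) (h₂ : Group.IsSolvable H₂) (h₃ : Group.IsSolvable H₃)
    (h12 : ∀ g : G, ∃ x ∈ H₁, ∃ y ∈ H₂, g = x * y) (h13 : ∀ g : G, ∃ x ∈ H₁, ∃ y ∈ H₃, g = x * y)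
    (hcop : H₂.index.Coprime H₃.index)
    (N : Subgroup G) (hNbot : N ≠ ⊥)
    (hN : H₁ ≤ Subgroup.normalizer (N : Set G)) (p : ℕ) [Fact p.Prime] (hNp : IsPGroup p N)
    (hp : ¬ p ∣ H₂.index) : Group.IsSolvable G := by
  have hM := closure_le H₁ H₂ N h12 hN p hNp hp
  obtain ⟨M, hMdef⟩ : ∃ M : Subgroup G, M = Subgroup.normalClosure (N : Set G) := ⟨_, rfl⟩
  rw [← hMdef] at hM
  haveI hMn : M.Normal := by rw [hMdef]; exact Subgroup.normalClosure_normal
  have hMbot : M ≠ ⊥ := by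
    intro h
    apply hNbot
    rw [eq_bot_iff, ← h, hMdef]
    exact Subgroup.le_normalClosure
  haveI hMs : Group.IsSolvable M := by
    have := h₂
    exact Group.isSolvable_of_isSolvable_injective (Subgroup.inclusion_injective hM)
  -- the quotient
  have hlt : Nat.card (G ⧸ M) < n := by
    rw [← hn, ← Subgroup.index_eq_card, ← Subgroup.card_mul_index M]
    have h1 : 1 < Nat.card M := by
      rw [Subgroup.one_lt_card_iff_ne_bot]
      exact hMbot
    have h2 : 0 < M.index := Nat.pos_of_ne_zero Subgroup.index_ne_zero_of_finite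
    nlinarith
  have hsurj : Function.Surjective (QuotientGroup.mk' M) := QuotientGroup.mk'_surjective M
  have hsolv : ∀ H : Subgroup G, Group.IsSolvable H →
      Group.IsSolvable (H.map (QuotientGroup.mk' M)) := by
    intro H hH
    have := hH
    exact Group.isSolvable_of_surjective ((QuotientGroup.mk' M).subgroupMap_surjective H)
  have hfac : ∀ H : Subgroup G, (∀ g : G, ∃ x ∈ H₁, ∃ y ∈ H, g = x * y) →
      ∀ g : G ⧸ M, ∃ x ∈ H₁.map (QuotientGroup.mk' M), ∃ y ∈ H.map (QuotientGroup.mk' M),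
        g = x * y := by
    intro H hH g
    obtain ⟨g, rfl⟩ := hsurj g
    obtain ⟨x, hx, y, hy, rfl⟩ := hH g
    exact ⟨_, Subgroup.mem_map_of_mem _ hx, _, Subgroup.mem_map_of_mem _ hy, map_mul _ x y⟩
  have hQ : Group.IsSolvable (G ⧸ M) :=
    ih _ hlt (G ⧸ M) rfl _ _ _ (hsolv H₁ h₁) (hsolv H₂ h₂) (hsolv H₃ h₃) (hfac H₂ h12) (hfac H₃ h13)
      (Nat.Coprime.coprime_dvd_left (Subgroup.index_map_dvd H₂ hsurj)
        (Nat.Coprime.coprime_dvd_right (Subgroup.index_map_dvd H₃ hsurj) hcop))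
  exact Group.isSolvable_of_ker_le_range M.subtype (QuotientGroup.mk' M) (by
    rw [QuotientGroup.ker_mk', Subgroup.range_subtype])

theorem main (n : ℕ) : WProp.{u} n := by
  induction n using Nat.strong_induction_on with
  | _ n ih =>
  intro G _ _ hn H₁ H₂ H₃ h₁ h₂ h₃ h12 h13 hcop
  by_cases hbot : H₁ = ⊥
  · have htop : H₂ = ⊤ := by
      rw [eq_top_iff]
      intro g _
      obtain ⟨x, hx, y, hy, rfl⟩ := h12 g
      rw [hbot, Subgroup.mem_bot] at hx
      rw [hx, one_mul]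
      exact hy
    have := h₂
    rw [htop] at this
    exact Group.isSolvable_of_surjective (f := (Subgroup.topEquiv : (⊤ : Subgroup G) ≃* G).toMonoidHom)
      (Subgroup.topEquiv : (⊤ : Subgroup G) ≃* G).surjective
  · haveI : Nontrivial H₁ := (Subgroup.nontrivial_iff_ne_bot H₁).2 hbot
    haveI := h₁
    obtain ⟨N₁, hN₁n, -, p, k, hp, hk, hcard⟩ := Cfsg.Agent.Lib.Lead.Hall.exists_minimal_normal H₁
    haveI : Fact p.Prime := ⟨hp⟩
    have hNp : IsPGroup p (N₁.map H₁.subtype) := (IsPGroup.of_card hcard).map _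
    have hNbot : N₁.map H₁.subtype ≠ ⊥ := by
      intro h
      have h1 : N₁ = ⊥ := by
        rw [eq_bot_iff]
        intro x hx
        have : (x : G) ∈ N₁.map H₁.subtype := ⟨x, hx, rfl⟩
        rw [h, Subgroup.mem_bot] at this
        exact Subgroup.mem_bot.2 (Subtype.ext this)
      rw [h1, Subgroup.card_bot] at hcard
      have : 1 < p ^ k := Nat.one_lt_pow hk.ne' hp.one_lt
      omega
    have hN : H₁ ≤ Subgroup.normalizer ((N₁.map H₁.subtype : Subgroup G) : Set G) := by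
      intro x hx
      rw [Subgroup.mem_normalizer_iff]
      intro y
      constructor
      · rintro ⟨z, hz, rfl⟩
        exact ⟨⟨x, hx⟩ * z * ⟨x, hx⟩⁻¹, hN₁n.conj_mem z hz ⟨x, hx⟩, rfl⟩
      · rintro ⟨z, hz, hzy⟩
        refine ⟨⟨x, hx⟩⁻¹ * z * ⟨x, hx⟩, ?_, ?_⟩
        · have := hN₁n.conj_mem z hz ⟨x, hx⟩⁻¹
          rwa [inv_inv] at this
        · simp only [Subgroup.subtype_apply, Subgroup.coe_mul, Subgroup.coe_inv] at hzy ⊢
          rw [hzy]
          group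
    by_cases hp2 : p ∣ H₂.index
    · have hp3 : ¬ p ∣ H₃.index := by
        intro h
        have := Nat.dvd_gcd hp2 h
        rw [hcop.gcd_eq_one, Nat.dvd_one] at this
        exact hp.one_lt.ne' this
      exact step ih G hn H₁ H₃ H₂ h₁ h₃ h₂ h13 h12 hcop.symm _ hNbot hN p hNp hp3
    · exact step ih G hn H₁ H₂ H₃ h₁ h₂ h₃ h12 h13 hcop _ hNbot hN p hNp hp2

/-- A finite group that factorises as H₁H₂ and as H₁H₃ with all three subgroups solvable and the indices of H₂ and H₃ coprime is solvable. -/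
theorem result {G : Type*} [Group G] [Finite G] (H₁ H₂ H₃ : Subgroup G)
    (h₁ : Group.IsSolvable H₁) (h₂ : Group.IsSolvable H₂) (h₃ : Group.IsSolvable H₃)
    (h12 : ∀ g : G, ∃ x ∈ H₁, ∃ y ∈ H₂, g = x * y) (h13 : ∀ g : G, ∃ x ∈ H₁, ∃ y ∈ H₃, g = x * y)
    (hcop : H₂.index.Coprime H₃.index) : Group.IsSolvable G :=
  main _ G rfl H₁ H₂ H₃ h₁ h₂ h₃ h12 h13 hcop

end Cfsg.Agent.S0019
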