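import Mathlib
import Cfsg.Statements.S0006
import Cfsg.Agent.S0007
import Cfsg.Agent.S0019
import Cfsg.Agent.Lib.Helper1.CharGalois

set_option autoImplicit false
set_option linter.style.haveILetI false
open Cfsg

namespace Cfsg.Agent.S0006

universe u

/-- the inductive statement. -/
def HProp (n : ℕ) : Prop :=
  ∀ (G : Type u) [Group G] [Finite G], Nat.card G = n →
    (∀ p : ℕ, p.Prime → ∃ H : Subgroup G, H.index = p ^ (Nat.card G).factorization p) →
    Group.IsSolvable G

/-- A Hall `q`-complement is solvable by induction. -/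
theorem complement_solvable {n : ℕ} (ih : ∀ m < n, HProp.{u} m) (G : Type u) [Group G] [Finite G]
    (hn : Nat.card G = n)
    (h : ∀ p : ℕ, p.Prime → ∃ H : Subgroup G, H.index = p ^ (Nat.card G).factorization p)
    (q : ℕ) (hq : q.Prime) (hqd : q ∣ Nat.card G) (H : Subgroup G)
    (hH : H.index = q ^ (Nat.card G).factorization q) : Group.IsSolvable H := by
  have hcard : Nat.card H * q ^ (Nat.card G).factorization q = Nat.card G := by
    rw [← hH]
    exact H.card_mul_index
  have hpos : 0 < (Nat.card G).factorization q :=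
    hq.factorization_pos_of_dvd Nat.card_pos.ne' hqd
  have hlt : Nat.card H < n := by
    rw [← hn, ← hcard]
    have h1 : 1 < q ^ (Nat.card G).factorization q := Nat.one_lt_pow hpos.ne' hq.one_lt
    have h2 : 0 < Nat.card H := Nat.card_pos
    nlinarith
  apply ih _ hlt H rfl
  intro p hp
  have hfac : (Nat.card G).factorization p = (Nat.card H).factorization p
      + (q ^ (Nat.card G).factorization q).factorization p := by
    conv_lhs => rw [← hcard]
    rw [Nat.factorization_mul Nat.card_pos.ne' (pow_ne_zero _ hq.ne_zero)]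
    rfl
  by_cases hpq : p = q
  · subst hpq
    refine ⟨⊤, ?_⟩
    rw [Subgroup.index_top]
    have h3 : (Nat.card H).factorization p = 0 := by
      rw [Nat.factorization_pow, hp.factorization] at hfac
      simp at hfac
      omega
    rw [h3, pow_zero]
  · obtain ⟨K, hK⟩ := h p hp
    refine ⟨K.subgroupOf H, ?_⟩
    have h0 : (q ^ (Nat.card G).factorization q).factorization p = 0 := by
      rw [Nat.factorization_pow, hq.factorization]
      simp [Ne.symm hpq]
    rw [h0, add_zero] at hfac
    rw [← hfac, ← hK]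
    have hcop : H.index.Coprime K.index := by
      rw [hH, hK]
      exact Nat.Coprime.pow _ _ ((Nat.coprime_primes hq hp).2 (Ne.symm hpq))
    have h1 := (Cfsg.Agent.S0007.result H K hcop).1
    have h2 : (H ⊓ K).relIndex H * H.index = (H ⊓ K).index :=
      Subgroup.relIndex_mul_index inf_le_left
    rw [h1, Subgroup.inf_relIndex_left, mul_comm] at h2
    exact Nat.eq_of_mul_eq_mul_left (Nat.pos_of_ne_zero Subgroup.index_ne_zero_of_finite) h2

theorem main (n : ℕ) : HProp.{u} n := by
  induction n using Nat.strong_induction_on with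
  | _ n ih =>
  intro G _ _ hn h
  by_cases h2 : ∃ p q : ℕ, p.Prime ∧ q.Prime ∧
      ∀ r : ℕ, r.Prime → r ∣ Nat.card G → r = p ∨ r = q
  · obtain ⟨p, q, hp, hq, hr⟩ := h2
    exact Cfsg.Agent.Lib.Helper1.solvable_of_two_primes_aux p q hp hq _ G rfl hr
  · push Not at h2
    obtain ⟨p₁, hp₁, hd₁, -, -⟩ := h2 2 2 Nat.prime_two Nat.prime_two
    obtain ⟨p₂, hp₂, hd₂, h21, -⟩ := h2 p₁ p₁ hp₁ hp₁
    obtain ⟨p₃, hp₃, hd₃, h31, h32⟩ := h2 p₁ p₂ hp₁ hp₂
    obtain ⟨H₁, hH₁⟩ := h p₁ hp₁
    obtain ⟨H₂, hH₂⟩ := h p₂ hp₂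
    obtain ⟨H₃, hH₃⟩ := h p₃ hp₃
    have hs₁ := complement_solvable ih G hn h p₁ hp₁ hd₁ H₁ hH₁
    have hs₂ := complement_solvable ih G hn h p₂ hp₂ hd₂ H₂ hH₂
    have hs₃ := complement_solvable ih G hn h p₃ hp₃ hd₃ H₃ hH₃
    have c12 : H₁.index.Coprime H₂.index := by
      rw [hH₁, hH₂]
      exact Nat.Coprime.pow _ _ ((Nat.coprime_primes hp₁ hp₂).2 (Ne.symm h21))
    have c13 : H₁.index.Coprime H₃.index := by
      rw [hH₁, hH₃]
      exact Nat.Coprime.pow _ _ ((Nat.coprime_primes hp₁ hp₃).2 (Ne.symm h31))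
    have c23 : H₂.index.Coprime H₃.index := by
      rw [hH₂, hH₃]
      exact Nat.Coprime.pow _ _ ((Nat.coprime_primes hp₂ hp₃).2 (Ne.symm h32))
    exact Cfsg.Agent.S0019.result H₁ H₂ H₃ hs₁ hs₂ hs₃ (Cfsg.Agent.S0007.result H₁ H₂ c12).2
      (Cfsg.Agent.S0007.result H₁ H₃ c13).2 c23

/-- Converse of Hall's Theorem: if for every prime p a finite group has a subgroup of index equal to the p-part of the group order (a Hall p-complement), then the group is solvable. -/
theorem result {G : Type*} [Group G] [Finite G]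
    (h : ∀ p : ℕ, p.Prime → ∃ H : Subgroup G, H.index = p ^ (Nat.card G).factorization p) :
    Group.IsSolvable G :=
  main _ G rfl h

end Cfsg.Agent.S0006
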