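import Cfsg.Statements.S0011
import Mathlib

set_option autoImplicit false
open Cfsg

namespace Cfsg.Agent.S0011

/-- If the Frattini quotient of a finite group is nilpotent then the group is nilpotent. -/
theorem result {G : Type*} [Group G] [Finite G]
    (h : Group.IsNilpotent (G ⧸ frattini G)) : Group.IsNilpotent G := by
  rw [(Group.isNilpotent_of_finite_tfae (G := G)).out 0 2 rfl rfl]
  intro M hM
  have hle : frattini G ≤ M := frattini_le_coatom hM
  have hsurj : Function.Surjective (QuotientGroup.mk' (frattini G)) := QuotientGroup.mk'_surjective _
  have hcomap : (M.map (QuotientGroup.mk' (frattini G))).comap (QuotientGroup.mk' (frattini G)) = M := by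
    rw [Subgroup.comap_map_eq, QuotientGroup.ker_mk', sup_eq_left.2 hle]
  have hM' : IsCoatom (M.map (QuotientGroup.mk' (frattini G))) := by
    constructor
    · intro htop
      apply hM.1
      rw [← hcomap, htop, Subgroup.comap_top]
    · intro K hK
      have h1 : M < K.comap (QuotientGroup.mk' (frattini G)) := by
        have := (Subgroup.comap_lt_comap_of_surjective hsurj).2 hK
        rwa [hcomap] at this
      have h2 := hM.2 _ h1
      apply Subgroup.comap_injective hsurj
      rw [h2, Subgroup.comap_top]
  have hnorm : (M.map (QuotientGroup.mk' (frattini G))).Normal :=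
    ((Group.isNilpotent_of_finite_tfae (G := G ⧸ frattini G)).out 0 2 rfl rfl).1 h _ hM'
  rw [← hcomap]
  exact hnorm.comap _

end Cfsg.Agent.S0011
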