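import Cfsg.Statements.S0015
import Mathlib

set_option autoImplicit false
open Cfsg
open scoped commutatorElement

namespace Cfsg.Agent.S0015

def chain {G : Type*} [Group G] (C : Subgroup G) : ℕ → Subgroup G
  | 0 => C
  | n + 1 => ⁅chain C n, (⊤ : Subgroup G)⁆

theorem chain_le_lcs {G : Type*} [Group G] (C : Subgroup G) (n : ℕ) :
    chain C n ≤ (⊤ : Subgroup G).lowerCentralSeries n := by
  induction n with
  | zero => exact le_top
  | succ n ih => exact Subgroup.commutator_mono ih le_rfl

theorem chain_normal {G : Type*} [Group G] (C : Subgroup G) [hC : C.Normal] (n : ℕ) :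
    (chain C n).Normal := by
  induction n with
  | zero => exact hC
  | succ n ih =>
    have : (chain C (n + 1)) = ⁅chain C n, (⊤ : Subgroup G)⁆ := rfl
    rw [this]
    infer_instance

theorem chain_le {G : Type*} [Group G] (C : Subgroup G) [hC : C.Normal] (n : ℕ) :
    chain C n ≤ C := by
  induction n with
  | zero => exact le_rfl
  | succ n ih =>
    have := chain_normal C n
    exact (Subgroup.commutator_le_left (chain C n) ⊤).trans ih

/-- In a finite nilpotent group, an abelian normal subgroup that is maximal among abelian normal subgroups equals its own centralizer. -/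
theorem result {G : Type*} [Group G] [Finite G] [Group.IsNilpotent G]
    (N : Subgroup G) [N.Normal] [IsMulCommutative N]
    (hmax : ∀ M : Subgroup G, M.Normal → IsMulCommutative M → N ≤ M → M = N) :
    Subgroup.centralizer (N : Set G) = N := by
  classical
  by_contra hne
  have hNC : N ≤ Subgroup.centralizer (N : Set G) :=
    Subgroup.le_centralizer_iff_isMulCommutative.2 inferInstance
  have hCN : ¬ Subgroup.centralizer (N : Set G) ≤ N := fun h => hne (le_antisymm h hNC)
  obtain ⟨k, hk⟩ := Subgroup.nilpotent_iff_lowerCentralSeries.1 (inferInstance : Group.IsNilpotent G)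
  have hex : ∃ n, chain (Subgroup.centralizer (N : Set G)) n ≤ N :=
    ⟨k, (chain_le_lcs _ k).trans (hk ▸ bot_le)⟩
  have hn := Nat.find_spec hex
  have hn0 : Nat.find hex ≠ 0 := by
    intro h0
    rw [h0] at hn
    exact hCN hn
  obtain ⟨m, hm⟩ := Nat.exists_eq_succ_of_ne_zero hn0
  have hm' : ¬ chain (Subgroup.centralizer (N : Set G)) m ≤ N :=
    Nat.find_min hex (by omega)
  obtain ⟨x, hxD, hxN⟩ := SetLike.not_le_iff_exists.1 hm'
  have hxC : x ∈ Subgroup.centralizer (N : Set G) := chain_le _ m hxD
  have hcomm : ∀ g : G, ⁅x, g⁆ ∈ N := by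
    intro g
    apply hn
    rw [hm]
    exact Subgroup.commutator_mem_commutator hxD (Subgroup.mem_top g)
  have hzC : Subgroup.zpowers x ≤ Subgroup.centralizer (N : Set G) := by
    rw [Subgroup.zpowers_le]; exact hxC
  have hMn : (N ⊔ Subgroup.zpowers x).Normal := by
    constructor
    intro n hn g
    have h1 : g * n * g⁻¹ ∈ (N ⊔ Subgroup.zpowers x).map (MulAut.conj g).toMonoidHom :=
      ⟨n, hn, rfl⟩
    rw [Subgroup.map_sup, MonoidHom.map_zpowers] at h1
    refine (sup_le ?_ ?_ : _ ≤ N ⊔ Subgroup.zpowers x) h1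
    · rintro _ ⟨y, hy, rfl⟩
      exact (le_sup_left : N ≤ N ⊔ Subgroup.zpowers x) (‹N.Normal›.conj_mem y hy g)
    · rw [Subgroup.zpowers_le]
      have h2 : (MulAut.conj g).toMonoidHom x = ⁅x, g⁆⁻¹ * x := by
        simp only [commutatorElement_def, MulEquiv.coe_toMonoidHom, MulAut.conj_apply]
        group
      rw [h2]
      exact Subgroup.mul_mem _ ((le_sup_left : N ≤ N ⊔ Subgroup.zpowers x) (N.inv_mem (hcomm g)))
        ((le_sup_right : Subgroup.zpowers x ≤ N ⊔ Subgroup.zpowers x) (Subgroup.mem_zpowers x))
  have hMc : IsMulCommutative (N ⊔ Subgroup.zpowers x : Subgroup G) := by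
    rw [← Subgroup.le_centralizer_iff_isMulCommutative]
    apply sup_le
    · rw [Subgroup.le_centralizer_iff]
      exact sup_le hNC hzC
    · rw [Subgroup.le_centralizer_iff]
      apply sup_le
      · rw [Subgroup.le_centralizer_iff]; exact hzC
      · exact Subgroup.le_centralizer_iff_isMulCommutative.2 inferInstance
  have := hmax _ hMn hMc le_sup_left
  apply hxN
  rw [← this]
  exact (le_sup_right : Subgroup.zpowers x ≤ N ⊔ Subgroup.zpowers x) (Subgroup.mem_zpowers x)

end Cfsg.Agent.S0015
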