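import Cfsg.Statements.S0018
import Cfsg.Agent.S0017

set_option autoImplicit false
open Cfsg

namespace Cfsg.Agent.S0018

/-- A finite solvable group whose Sylow p-subgroups are abelian has p-length one: a Sylow p-subgroup together with the largest normal subgroup of order prime to p generates a normal subgroup. -/
theorem result {G : Type*} [Group G] [Finite G] [Group.IsSolvable G]
    (p : ℕ) [Fact p.Prime] (P : Sylow p G) (hP : IsMulCommutative P) :
    ((P : Subgroup G) ⊔ Cfsg.pPrimeCore p G).Normal := by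
  have hN : (Cfsg.pPrimeCore p G).Normal := Cfsg.Agent.Lib.Lead.Cores.pPrimeCore_normal p
  have hsurj : Function.Surjective (QuotientGroup.mk' (Cfsg.pPrimeCore p G)) :=
    QuotientGroup.mk'_surjective _
  have hbot : Cfsg.pPrimeCore p (G ⧸ Cfsg.pPrimeCore p G) = ⊥ :=
    Cfsg.Agent.Lib.Helper9.pPrimeCore_quotient_eq_bot p G
  have hcent := Cfsg.Agent.S0017.result (G := G ⧸ Cfsg.pPrimeCore p G) p hbot
  have hOn : (Cfsg.pCore p (G ⧸ Cfsg.pPrimeCore p G)).Normal :=
    Cfsg.Agent.Lib.Lead.Cores.pCore_normal p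
  have hOp : IsPGroup p (Cfsg.pCore p (G ⧸ Cfsg.pPrimeCore p G)) :=
    Cfsg.Agent.Lib.Lead.Cores.pCore_isPGroup p
  have hOle : Cfsg.pCore p (G ⧸ Cfsg.pPrimeCore p G) ≤
      (P : Subgroup G).map (QuotientGroup.mk' (Cfsg.pPrimeCore p G)) := by
    have := hOp.le_sylow_of_normal (P.mapSurjective hsurj)
    rwa [Sylow.coe_mapSurjective] at this
  have hPle : (P : Subgroup G).map (QuotientGroup.mk' (Cfsg.pPrimeCore p G)) ≤
      Cfsg.pCore p (G ⧸ Cfsg.pPrimeCore p G) := by
    refine le_trans ?_ hcent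
    rintro _ ⟨a, ha, rfl⟩
    rw [Subgroup.mem_centralizer_iff]
    intro y hy
    obtain ⟨b, hb, rfl⟩ := hOle hy
    have hab : a * b = b * a := congrArg Subtype.val (hP.is_comm.comm (⟨a, ha⟩ : P) ⟨b, hb⟩)
    rw [← map_mul, ← map_mul, hab]
  have heq : (P : Subgroup G).map (QuotientGroup.mk' (Cfsg.pPrimeCore p G)) =
      Cfsg.pCore p (G ⧸ Cfsg.pPrimeCore p G) := le_antisymm hPle hOle
  have hcomap : ((P : Subgroup G).map (QuotientGroup.mk' (Cfsg.pPrimeCore p G))).comap
      (QuotientGroup.mk' (Cfsg.pPrimeCore p G)) = (P : Subgroup G) ⊔ Cfsg.pPrimeCore p G := by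
    rw [Subgroup.comap_map_eq, QuotientGroup.ker_mk']
  rw [← hcomap, heq]
  exact hOn.comap _

end Cfsg.Agent.S0018
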