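import Cfsg.Statements.S0020
import Cfsg.Agent.S0007
import Cfsg.Agent.Lib.Lead.Hall

set_option autoImplicit false
open Pointwise
open Cfsg

namespace Cfsg.Agent.S0020

open Cfsg.Agent.Lib.Lead.Hall

theorem prod_eq (n : ℕ) (hn : n ≠ 0) : ∏ q ∈ n.primeFactors, q ^ n.factorization q = n := by
  have h := Nat.prod_factorization_pow_eq_self hn
  rwa [Finsupp.prod, Nat.support_factorization] at h

theorem exists_complement {G : Type*} [Group G] [Finite G] [Group.IsSolvable G] (p : ℕ) :
    ∃ H : Subgroup G, p.Prime → H.index = p ^ (Nat.card G).factorization p := by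
  by_cases hp : p.Prime
  · have hn : Nat.card G ≠ 0 := Nat.card_pos.ne'
    have h1 : Nat.card G = (Nat.card G / p ^ (Nat.card G).factorization p) *
        p ^ (Nat.card G).factorization p := by
      rw [mul_comm]; exact (Nat.ordProj_mul_ordCompl_eq_self (Nat.card G) p).symm
    have h2 : (Nat.card G / p ^ (Nat.card G).factorization p).Coprime
        (p ^ (Nat.card G).factorization p) :=
      (Nat.Coprime.pow_left _ (Nat.coprime_ordCompl hp hn)).symm
    obtain ⟨H, hH⟩ := hall_exists _ _ h1 h2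
    refine ⟨H, fun _ => ?_⟩
    have h3 := Subgroup.card_mul_index H
    rw [hH] at h3
    have h4 : (Nat.card G / p ^ (Nat.card G).factorization p) * H.index =
        (Nat.card G / p ^ (Nat.card G).factorization p) * p ^ (Nat.card G).factorization p := by
      rw [h3, ← h1]
    exact Nat.eq_of_mul_eq_mul_left (Nat.ordCompl_pos p hn) h4
  · exact ⟨⊤, fun h => absurd h hp⟩

theorem index_iInf {G : Type*} [Group G] [Finite G] (Hc : ℕ → Subgroup G) (a : ℕ → ℕ)
    (h : ∀ p, p.Prime → (Hc p).index = p ^ a p) (T : Finset ℕ) (hT : ∀ q ∈ T, q.Prime) :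
    (⨅ q ∈ T, Hc q).index = ∏ q ∈ T, q ^ a q := by
  classical
  induction T using Finset.induction_on with
  | empty => simp
  | insert q T hq ih =>
    rw [Finset.iInf_insert, Finset.prod_insert hq]
    have ih' := ih (fun r hr => hT r (Finset.mem_insert_of_mem hr))
    have hqp := hT q (Finset.mem_insert_self q T)
    have hcop : (Hc q).index.Coprime (⨅ r ∈ T, Hc r).index := by
      rw [ih', h q hqp]
      apply Nat.Coprime.prod_right
      intro r hr
      apply Nat.coprime_pow_primes _ _ hqp (hT r (Finset.mem_insert_of_mem hr))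
      intro e
      exact hq (e ▸ hr)
    rw [(Cfsg.Agent.S0007.result _ _ hcop).1, ih', h q hqp]

theorem exists_mul_of_card {G : Type*} [Group G] [Finite G] (A B D : Subgroup G) (hA : A ≤ D)
    (hB : B ≤ D) (hcard : Nat.card A * Nat.card B = Nat.card D)
    (hcop : (Nat.card A).Coprime (Nat.card B)) :
    ∀ d ∈ D, ∃ a ∈ A, ∃ b ∈ B, d = a * b := by
  intro d hd
  have hA' : Nat.card (A.subgroupOf D) = Nat.card A :=
    Nat.card_congr (Subgroup.subgroupOfEquivOfLe hA).toEquiv
  have hB' : Nat.card (B.subgroupOf D) = Nat.card B :=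
    Nat.card_congr (Subgroup.subgroupOfEquivOfLe hB).toEquiv
  have hc : Subgroup.IsComplement' (A.subgroupOf D) (B.subgroupOf D) :=
    Subgroup.isComplement'_of_coprime (by rw [hA', hB', hcard]) (by rw [hA', hB']; exact hcop)
  obtain ⟨⟨x, y⟩, hxy⟩ := hc.2 ⟨d, hd⟩
  refine ⟨x.1, Subgroup.mem_subgroupOf.1 x.2, y.1, Subgroup.mem_subgroupOf.1 y.2, ?_⟩
  have h1 := congrArg Subtype.val hxy
  simpa using h1.symm

/-- A finite solvable group admits a Sylow system: Sylow subgroups, one for each prime, that pairwise permute as sets. -/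
theorem result {G : Type*} [Group G] [Finite G] [Group.IsSolvable G] :
    ∃ S : (p : Nat.Primes) → Sylow (p : ℕ) G,
      ∀ p q : Nat.Primes, (S p : Set G) * (S q : Set G) = (S q : Set G) * (S p : Set G) := by
  classical
  obtain ⟨n, hn⟩ : ∃ n, n = Nat.card G := ⟨_, rfl⟩
  have hn0 : n ≠ 0 := hn ▸ Nat.card_pos.ne'
  choose Hc hHc using (fun p : ℕ => exists_complement (G := G) p)
  rw [← hn] at hHc
  have hD : ∀ T : Finset ℕ, T ⊆ n.primeFactors →
      (⨅ q ∈ T, Hc q).index = ∏ q ∈ T, q ^ n.factorization q := fun T hT =>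
    index_iInf Hc _ hHc T (fun q hq => Nat.prime_of_mem_primeFactors (hT hq))
  have hcardD : ∀ (T X : Finset ℕ), T ⊆ n.primeFactors → n.primeFactors \ T ⊆ X →
      (∀ r ∈ X, r ∉ T) → Nat.card (⨅ q ∈ T, Hc q : Subgroup G) = ∏ r ∈ X, r ^ n.factorization r := by
    intro T X hT hX hXT
    have h1 := Subgroup.card_mul_index (⨅ q ∈ T, Hc q : Subgroup G)
    rw [hD T hT, ← hn] at h1
    have h2 := Finset.prod_sdiff (f := fun q => q ^ n.factorization q) hT
    rw [prod_eq n hn0] at h2
    have h3 : ∏ r ∈ n.primeFactors \ T, r ^ n.factorization r = ∏ r ∈ X, r ^ n.factorization r := by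
      apply Finset.prod_subset hX
      intro r hrX hr
      have hr' : r ∉ n.primeFactors := fun h => hr (Finset.mem_sdiff.2 ⟨h, hXT r hrX⟩)
      have h0 : n.factorization r = 0 := by
        rw [← Nat.support_factorization] at hr'
        exact Finsupp.notMem_support_iff.1 hr'
      rw [h0, pow_zero]
    rw [← h3]
    have hpos : 0 < ∏ q ∈ T, q ^ n.factorization q :=
      Finset.prod_pos (fun q hq => pow_pos (Nat.prime_of_mem_primeFactors (hT hq)).pos _)
    exact Nat.eq_of_mul_eq_mul_right hpos (h1.trans h2.symm)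
  have hP : ∀ p : ℕ, Nat.card (⨅ q ∈ n.primeFactors.erase p, Hc q : Subgroup G) = p ^ n.factorization p := by
    intro p
    rw [hcardD (n.primeFactors.erase p) {p} (Finset.erase_subset _ _) (by
      intro r hr
      rw [Finset.mem_sdiff, Finset.mem_erase] at hr
      rw [Finset.mem_singleton]
      by_contra hne
      exact hr.2 ⟨hne, hr.1⟩) (by
      intro r hr
      rw [Finset.mem_singleton] at hr
      rw [hr]
      exact Finset.notMem_erase p _), Finset.prod_singleton]
  refine ⟨fun p => haveI : Fact (p : ℕ).Prime := ⟨p.2⟩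
    Sylow.ofCard (⨅ q ∈ n.primeFactors.erase (p : ℕ), Hc q) (by rw [← hn]; exact hP p), ?_⟩
  intro p q
  change ((⨅ r ∈ n.primeFactors.erase (p : ℕ), Hc r : Subgroup G) : Set G) *
      ((⨅ r ∈ n.primeFactors.erase (q : ℕ), Hc r : Subgroup G) : Set G) =
    ((⨅ r ∈ n.primeFactors.erase (q : ℕ), Hc r : Subgroup G) : Set G) *
      ((⨅ r ∈ n.primeFactors.erase (p : ℕ), Hc r : Subgroup G) : Set G)
  by_cases hpq : (p : ℕ) = q
  · rw [hpq]
  have hle1 : (⨅ r ∈ n.primeFactors.erase (p : ℕ), Hc r : Subgroup G) ≤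
      ⨅ r ∈ (n.primeFactors.erase (p : ℕ)).erase (q : ℕ), Hc r :=
    biInf_mono (fun r hr => Finset.mem_of_mem_erase hr)
  have hle2 : (⨅ r ∈ n.primeFactors.erase (q : ℕ), Hc r : Subgroup G) ≤
      ⨅ r ∈ (n.primeFactors.erase (p : ℕ)).erase (q : ℕ), Hc r :=
    biInf_mono (fun r hr => by
      rw [Finset.mem_erase, Finset.mem_erase] at hr
      exact Finset.mem_erase.2 ⟨hr.1, hr.2.2⟩)
  have hcard : Nat.card (⨅ r ∈ n.primeFactors.erase (p : ℕ), Hc r : Subgroup G) *
      Nat.card (⨅ r ∈ n.primeFactors.erase (q : ℕ), Hc r : Subgroup G) =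
      Nat.card (⨅ r ∈ (n.primeFactors.erase (p : ℕ)).erase (q : ℕ), Hc r : Subgroup G) := by
    rw [hP, hP, hcardD ((n.primeFactors.erase (p : ℕ)).erase (q : ℕ)) {(p : ℕ), (q : ℕ)}
      ((Finset.erase_subset _ _).trans (Finset.erase_subset _ _)) (by
        intro r hr
        rw [Finset.mem_sdiff, Finset.mem_erase, Finset.mem_erase] at hr
        rw [Finset.mem_insert, Finset.mem_singleton]
        by_contra hne
        push Not at hne
        exact hr.2 ⟨hne.2, hne.1, hr.1⟩) (by
        intro r hr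
        rw [Finset.mem_insert, Finset.mem_singleton] at hr
        rw [Finset.mem_erase, Finset.mem_erase]
        rintro ⟨h1, h2, -⟩
        rcases hr with h | h
        · exact h2 h
        · exact h1 h), Finset.prod_pair hpq]
  have hcop : (Nat.card (⨅ r ∈ n.primeFactors.erase (p : ℕ), Hc r : Subgroup G)).Coprime
      (Nat.card (⨅ r ∈ n.primeFactors.erase (q : ℕ), Hc r : Subgroup G)) := by
    rw [hP, hP]
    exact Nat.coprime_pow_primes _ _ p.2 q.2 hpq
  ext x
  constructor
  · intro hx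
    obtain ⟨a, ha, b, hb, rfl⟩ := Set.mem_mul.1 hx
    obtain ⟨b', hb', a', ha', h⟩ := exists_mul_of_card _ _ _ hle2 hle1
      (by rw [mul_comm]; exact hcard) hcop.symm (a * b) (mul_mem (hle1 ha) (hle2 hb))
    rw [h]
    exact Set.mul_mem_mul hb' ha'
  · intro hx
    obtain ⟨b, hb, a, ha, rfl⟩ := Set.mem_mul.1 hx
    obtain ⟨a', ha', b', hb', h⟩ := exists_mul_of_card _ _ _ hle1 hle2 hcard hcop (b * a)
      (mul_mem (hle2 hb) (hle1 ha))
    rw [h]
    exact Set.mul_mem_mul ha' hb'

end Cfsg.Agent.S0020
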