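import Mathlib
import Cfsg.Statements.S0021
import Cfsg.Agent.S0006

set_option autoImplicit false
set_option linter.style.haveILetI false
open Cfsg
open scoped Pointwise

namespace Cfsg.Agent.S0021

/-- If `H * K = K * H` as sets then `H ⊔ K = H * K`. -/
theorem coe_sup_of_comm {G : Type*} [Group G] (H K : Subgroup G)
    (h : (H : Set G) * (K : Set G) = (K : Set G) * (H : Set G)) :
    ((H ⊔ K : Subgroup G) : Set G) = (H : Set G) * (K : Set G) := by
  apply Set.Subset.antisymm
  · let M : Subgroup G :=
      { carrier := (H : Set G) * (K : Set G)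
        mul_mem' := by
          rintro _ _ ⟨x, hx, y, hy, rfl⟩ ⟨x', hx', y', hy', rfl⟩
          have h1 : y * x' ∈ (K : Set G) * (H : Set G) := Set.mul_mem_mul hy hx'
          rw [← h] at h1
          obtain ⟨x'', hx'', y'', hy'', h2'⟩ := h1
          have h2 : x'' * y'' = y * x' := h2'
          refine ⟨x * x'', H.mul_mem hx hx'', y'' * y', K.mul_mem hy'' hy', ?_⟩
          calc x * x'' * (y'' * y') = x * (x'' * y'') * y' := by group
            _ = x * (y * x') * y' := by rw [h2]
            _ = x * y * (x' * y') := by group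
        one_mem' := ⟨1, H.one_mem, 1, K.one_mem, mul_one 1⟩
        inv_mem' := by
          rintro _ ⟨x, hx, y, hy, rfl⟩
          rw [h, mul_inv_rev]
          exact Set.mul_mem_mul (K.inv_mem hy) (H.inv_mem hx) }
    have hH : H ≤ M := fun x hx => ⟨x, hx, 1, K.one_mem, mul_one x⟩
    have hK : K ≤ M := fun y hy => ⟨1, H.one_mem, y, hy, one_mul y⟩
    exact sup_le hH hK
  · rintro _ ⟨x, hx, y, hy, rfl⟩
    exact Subgroup.mul_mem _ (Subgroup.mem_sup_left hx) (Subgroup.mem_sup_right hy)

theorem exists_prod {G : Type*} [Group G] [Finite G] (S : (p : Nat.Primes) → Sylow (p : ℕ) G)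
    (hS : ∀ p q : Nat.Primes, (S p : Set G) * (S q : Set G) = (S q : Set G) * (S p : Set G))
    (T : Finset ℕ) (hT : ∀ q ∈ T, q.Prime) :
    ∃ U : Subgroup G, (∀ q (hq : q.Prime), q ∈ T → (S ⟨q, hq⟩ : Subgroup G) ≤ U) ∧
      Nat.card U ≤ ∏ q ∈ T, q ^ (Nat.card G).factorization q ∧
      ∀ r : Nat.Primes, (U : Set G) * (S r : Set G) = (S r : Set G) * (U : Set G) := by
  classical
  induction T using Finset.induction_on with
  | empty =>
    refine ⟨⊥, by simp, by simp, ?_⟩
    intro r
    simp
  | insert q T hqT ih =>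
    obtain ⟨U, hU1, hU2, hU3⟩ := ih (fun x hx => hT x (Finset.mem_insert_of_mem hx))
    have hq : q.Prime := hT q (Finset.mem_insert_self q T)
    have hcoe := coe_sup_of_comm U (S ⟨q, hq⟩ : Subgroup G) (hU3 ⟨q, hq⟩)
    refine ⟨U ⊔ (S ⟨q, hq⟩ : Subgroup G), ?_, ?_, ?_⟩
    · intro x hx hxT
      rcases Finset.mem_insert.1 hxT with rfl | h
      · exact le_sup_right
      · exact (hU1 x hx h).trans le_sup_left
    · rw [Finset.prod_insert hqT]
      have h1 : Nat.card (U ⊔ (S ⟨q, hq⟩ : Subgroup G) : Subgroup G)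
          = Nat.card ((U : Set G) * ((S ⟨q, hq⟩ : Subgroup G) : Set G) : Set G) := by
        rw [← hcoe]
        rfl
      rw [h1]
      refine (Set.natCard_mul_le).trans ?_
      have h2 : Nat.card ((S ⟨q, hq⟩ : Subgroup G) : Set G) = q ^ (Nat.card G).factorization q :=
        haveI : Fact q.Prime := ⟨hq⟩
        Sylow.card_eq_multiplicity (S ⟨q, hq⟩)
      rw [mul_comm]
      exact Nat.mul_le_mul h2.le hU2
    · intro r
      have hcoe' : ((U ⊔ (S ⟨q, hq⟩ : Subgroup G) : Subgroup G) : Set G)
          = (U : Set G) * (S (⟨q, hq⟩ : Nat.Primes) : Set G) := hcoe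
      rw [hcoe', mul_assoc, hS ⟨q, hq⟩ r, ← mul_assoc, hU3 r, mul_assoc]

/-- A finite group with a family of pairwise permuting Sylow subgroups, one for each prime, is solvable (this direction rests on Burnside's two-prime Theorem). -/
theorem result {G : Type*} [Group G] [Finite G]
    (S : (p : Nat.Primes) → Sylow (p : ℕ) G)
    (hS : ∀ p q : Nat.Primes, (S p : Set G) * (S q : Set G) = (S q : Set G) * (S p : Set G)) :
    Group.IsSolvable G := by
  classical
  apply Cfsg.Agent.S0006.result
  intro p hp
  obtain ⟨U, hU1, hU2, -⟩ := exists_prod S hS ((Nat.card G).primeFactors.erase p)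
    (fun q hq => Nat.prime_of_mem_primeFactors (Finset.mem_of_mem_erase hq))
  refine ⟨U, ?_⟩
  have hcG : Nat.card G ≠ 0 := Nat.card_pos.ne'
  have hidx0 : U.index ≠ 0 := Subgroup.index_ne_zero_of_finite
  have honly : ∀ {d : ℕ}, d.Prime → d ∣ U.index → d = p := by
    intro d hd hdi
    by_contra hne
    have hdG : d ∣ Nat.card G := hdi.trans (Subgroup.index_dvd_card U)
    have hmem : d ∈ (Nat.card G).primeFactors.erase p :=
      Finset.mem_erase.2 ⟨hne, Nat.mem_primeFactors.2 ⟨hd, hdG, hcG⟩⟩
    have hle := hU1 d hd hmem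
    haveI : Fact d.Prime := ⟨hd⟩
    exact (S ⟨d, hd⟩).not_dvd_index (hdi.trans (Subgroup.index_dvd_of_le hle))
  have hpow := Nat.eq_prime_pow_of_unique_prime_dvd hidx0 honly
  obtain ⟨k, hk⟩ : ∃ k, k = U.index.primeFactorsList.length := ⟨_, rfl⟩
  rw [← hk] at hpow
  have hk1 : k ≤ (Nat.card G).factorization p := by
    rw [← hp.pow_dvd_iff_le_factorization hcG, ← hpow]
    exact Subgroup.index_dvd_card U
  have hall : ∏ q ∈ (Nat.card G).primeFactors, q ^ (Nat.card G).factorization q = Nat.card G := by
    rw [← Nat.support_factorization]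
    exact Nat.prod_factorization_pow_eq_self hcG
  have hprod : (∏ q ∈ (Nat.card G).primeFactors.erase p, q ^ (Nat.card G).factorization q)
      * p ^ (Nat.card G).factorization p = Nat.card G := by
    by_cases hpm : p ∈ (Nat.card G).primeFactors
    · rw [mul_comm, Finset.mul_prod_erase _ (fun q => q ^ (Nat.card G).factorization q) hpm]
      exact hall
    · have h0 : (Nat.card G).factorization p = 0 := by
        rw [← Nat.support_factorization] at hpm
        exact Finsupp.notMem_support_iff.1 hpm
      rw [Finset.erase_eq_of_notMem hpm, h0, pow_zero, mul_one]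
      exact hall
  have hk2 : (Nat.card G).factorization p ≤ k := by
    have h1 : Nat.card U * p ^ k = Nat.card G := by
      rw [← hpow]
      exact U.card_mul_index
    have h2 : p ^ (Nat.card G).factorization p ≤ p ^ k := by
      by_contra hlt
      push Not at hlt
      have hUpos : 0 < Nat.card U := Nat.card_pos
      have h3 : Nat.card U * p ^ k < (∏ q ∈ (Nat.card G).primeFactors.erase p,
          q ^ (Nat.card G).factorization q) * p ^ (Nat.card G).factorization p :=
        calc Nat.card U * p ^ k < Nat.card U * p ^ (Nat.card G).factorization p :=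
              Nat.mul_lt_mul_of_pos_left hlt hUpos
          _ ≤ _ := Nat.mul_le_mul_right _ hU2
      rw [h1, hprod] at h3
      exact lt_irrefl _ h3
    exact (Nat.pow_le_pow_iff_right hp.one_lt).1 h2
  rw [hpow, le_antisymm hk1 hk2]

end Cfsg.Agent.S0021
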