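import Cfsg.Statements.S0031
import Mathlib

set_option autoImplicit false
open Pointwise
open Cfsg

namespace Cfsg.Agent.S0031

theorem inj {G : Type*} [Group G] (φ : G ≃* G)
    (hφ : MonoidHom.FixedPointFree (φ : G →* G)) (x y : G) (h : (φ x)⁻¹ * x = (φ y)⁻¹ * y) : x = y := by
  have h1 : MonoidHom.commutatorMap (φ : G →* G) x⁻¹ = MonoidHom.commutatorMap (φ : G →* G) y⁻¹ := by
    simp only [MonoidHom.commutatorMap_apply, div_eq_mul_inv, map_inv, inv_inv, MonoidHom.coe_coe]
    have := congrArg (·⁻¹) h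
    simpa [mul_inv_rev] using this
  exact inv_injective (hφ.commutatorMap_injective h1)

/-- A fixed-point-free automorphism of a finite group maps some Sylow p-subgroup to itself. -/
theorem result {G : Type*} [Group G] [Finite G] (φ : G ≃* G)
    (hφ : MonoidHom.FixedPointFree (φ : G →* G)) (p : ℕ) [Fact p.Prime] :
    ∃ P : Sylow p G, (P : Subgroup G).map (φ : G →* G) = P := by
  obtain ⟨P⟩ : Nonempty (Sylow p G) := inferInstance
  obtain ⟨g, hg⟩ := MulAction.exists_smul_eq G P ((φ : MulAut G) • P)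
  have hinj : Function.Injective (fun x : G => (φ x)⁻¹ * x) := fun x y h => inj φ hφ x y h
  obtain ⟨x, hx⟩ := Finite.surjective_of_injective hinj g
  have hxg : g = (φ x)⁻¹ * x := hx.symm
  have hmem : ∀ z : G, φ.symm z ∈ (P : Subgroup G) ↔ g⁻¹ * z * g ∈ (P : Subgroup G) := by
    intro z
    have h1 : z ∈ (((φ : MulAut G) • P : Sylow p G) : Subgroup G) ↔ φ.symm z ∈ (P : Subgroup G) := by
      rw [Sylow.pointwise_smul_def, Subgroup.mem_pointwise_smul_iff_inv_smul_mem]
      rfl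
    have h2 : z ∈ ((g • P : Sylow p G) : Subgroup G) ↔ g⁻¹ * z * g ∈ (P : Subgroup G) := by
      rw [Sylow.coe_subgroup_smul, Subgroup.mem_pointwise_smul_iff_inv_smul_mem]
      simp only [MulAut.smul_def, MulAut.conj_inv_apply]
    rw [← h1, ← hg, h2]
  refine ⟨x • P, ?_⟩
  ext y
  rw [Sylow.coe_subgroup_smul]
  constructor
  · rintro ⟨w, hw, rfl⟩
    rw [SetLike.mem_coe] at hw
    rw [Subgroup.mem_pointwise_smul_iff_inv_smul_mem] at hw ⊢
    simp only [MulAut.smul_def, MulAut.conj_inv_apply] at hw ⊢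
    have h3 := (hmem ((φ x)⁻¹ * φ w * φ x)).1 (by simpa using hw)
    have e : g⁻¹ * ((φ x)⁻¹ * φ w * φ x) * g = x⁻¹ * φ w * x := by rw [hxg]; group
    rw [e] at h3
    exact h3
  · intro hy
    refine ⟨φ.symm y, ?_, by simp⟩
    rw [SetLike.mem_coe]
    rw [Subgroup.mem_pointwise_smul_iff_inv_smul_mem] at hy ⊢
    simp only [MulAut.smul_def, MulAut.conj_inv_apply] at hy ⊢
    have e : g⁻¹ * ((φ x)⁻¹ * y * φ x) * g = x⁻¹ * y * x := by rw [hxg]; group
    have h3 := (hmem ((φ x)⁻¹ * y * φ x)).2 (by rw [e]; exact hy)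
    simpa using h3

end Cfsg.Agent.S0031
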