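import Cfsg.Statements.S0032
import Mathlib

set_option autoImplicit false
open Cfsg

namespace Cfsg.Agent.S0032

theorem inj {G : Type*} [Group G] (φ : G ≃* G)
    (hφ : MonoidHom.FixedPointFree (φ : G →* G)) (x y : G) (h : (φ x)⁻¹ * x = (φ y)⁻¹ * y) : x = y := by
  have h1 : MonoidHom.commutatorMap (φ : G →* G) x⁻¹ = MonoidHom.commutatorMap (φ : G →* G) y⁻¹ := by
    simp only [MonoidHom.commutatorMap_apply, div_eq_mul_inv, map_inv, inv_inv, MonoidHom.coe_coe]
    have := congrArg (·⁻¹) h
    simpa [mul_inv_rev] using this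
  exact inv_injective (hφ.commutatorMap_injective h1)

/-- If an automorphism of a finite group fixes only the identity and maps a normal subgroup N into itself, then the only cosets of N it fixes are those in N: a fixed coset xN forces x ∈ N. -/
theorem result {G : Type*} [Group G] [Finite G] (φ : G ≃* G)
    (hφ : MonoidHom.FixedPointFree (φ : G →* G)) (N : Subgroup G) [N.Normal] (hN : ∀ n ∈ N, φ n ∈ N)
    (x : G) (hx : (φ x)⁻¹ * x ∈ N) : x ∈ N := by
  let f : N → N := fun n => ⟨(φ n)⁻¹ * n, N.mul_mem (N.inv_mem (hN n n.2)) n.2⟩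
  have hf : Function.Injective f := by
    intro a b hab
    apply Subtype.ext
    exact inj φ hφ a b (congrArg Subtype.val hab)
  obtain ⟨n, hn⟩ := Finite.surjective_of_injective hf ⟨(φ x)⁻¹ * x, hx⟩
  have := inj φ hφ n x (congrArg Subtype.val hn)
  rw [← this]
  exact n.2

end Cfsg.Agent.S0032
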