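import Cfsg.Statements.S0037
import Cfsg.Agent.S0034
import Cfsg.Agent.S0035

set_option autoImplicit false
open Pointwise
open Cfsg

namespace Cfsg.Agent.S0037

theorem union_two {X : Type*} [Group X] (A B : Subgroup X) (h : ∀ x : X, x ∈ A ∨ x ∈ B) :
    A = ⊤ ∨ B = ⊤ := by
  by_contra hcon
  push Not at hcon
  obtain ⟨hA, hB⟩ := hcon
  obtain ⟨a, ha⟩ : ∃ a, a ∉ A := by
    by_contra h'
    push Not at h'
    exact hA (eq_top_iff.2 fun x _ => h' x)
  obtain ⟨b, hb⟩ : ∃ b, b ∉ B := by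
    by_contra h'
    push Not at h'
    exact hB (eq_top_iff.2 fun x _ => h' x)
  have haB : a ∈ B := (h a).resolve_left ha
  have hbA : b ∈ A := (h b).resolve_right hb
  rcases h (a * b) with h1 | h1
  · apply ha
    have := A.mul_mem h1 (A.inv_mem hbA)
    rwa [mul_inv_cancel_right] at this
  · apply hb
    have := B.mul_mem (B.inv_mem haB) h1
    rwa [inv_mul_cancel_left] at this

theorem smul_mk_eq_iff {G : Type*} [Group G] (H H₀ : Subgroup G) (k : H₀) (g : G) :
    k • (g : G ⧸ H) = (g : G ⧸ H) ↔ g⁻¹ * (k : G) * g ∈ H := by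
  show ((((k : G) * g : G)) : G ⧸ H) = (g : G ⧸ H) ↔ _
  rw [QuotientGroup.eq]
  constructor
  · intro h
    have := H.inv_mem h
    simpa [smul_eq_mul, mul_assoc] using this
  · intro h
    have := H.inv_mem h
    simpa [smul_eq_mul, mul_assoc] using this

/-- If `N` is a normal complement of `H` and `H₀` is a Frobenius complement of order at most
`|H|`, then `H₀` meets `N` trivially. -/
theorem inf_kernel_eq_bot {G : Type*} [Group G] [Finite G] (H H₀ N : Subgroup G) [hN : N.Normal]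
    (hH₀ : Cfsg.IsFrobeniusComplement H₀) (hNH : Subgroup.IsComplement' N H)
    (hle : Nat.card H₀ ≤ Nat.card H) : N ⊓ H₀ = ⊥ := by
  classical
  by_contra hne
  have hK : 1 < Nat.card (N ⊓ H₀ : Subgroup G) := (Subgroup.one_lt_card_iff_ne_bot _).2 hne
  let f : (G ⧸ H₀) × {x : (N ⊓ H₀ : Subgroup G) // x ≠ 1} → {y : N // y ≠ 1} := fun z =>
    ⟨⟨z.1.out * (z.2.1 : G) * (z.1.out)⁻¹, hN.conj_mem _ z.2.1.2.1 _⟩, by
      intro e
      apply z.2.2
      apply Subtype.ext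
      have e' : z.1.out * (z.2.1 : G) * (z.1.out)⁻¹ = 1 := congrArg Subtype.val e
      have : (z.2.1 : G) = (z.1.out)⁻¹ * (z.1.out * (z.2.1 : G) * (z.1.out)⁻¹) * z.1.out := by
        group
      rw [this, e']
      simp⟩
  have hf : Function.Injective f := by
    rintro ⟨q, x, hx⟩ ⟨q', x', hx'⟩ heq
    have h1 : q.out * (x : G) * (q.out)⁻¹ = q'.out * (x' : G) * (q'.out)⁻¹ :=
      congrArg (fun y : {y : N // y ≠ 1} => ((y.1 : N) : G)) heq
    have h2 : Cfsg.Agent.S0034.phi H₀ (q, ⟨⟨(x : G), x.2.2⟩, fun e => hx (Subtype.ext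
        (show (x : G) = 1 from congrArg (Subtype.val : ↥H₀ → G) e))⟩) =
        Cfsg.Agent.S0034.phi H₀ (q', ⟨⟨(x' : G), x'.2.2⟩, fun e => hx' (Subtype.ext
        (show (x' : G) = 1 from congrArg (Subtype.val : ↥H₀ → G) e))⟩) := h1
    have h3 := Cfsg.Agent.S0034.phi_injective H₀ hH₀ h2
    have h4 : q = q' := congrArg Prod.fst h3
    have h5 : (x : G) = (x' : G) := congrArg (fun z => ((z.2.1 : H₀) : G)) h3
    subst h4
    have h6 : x = x' := Subtype.ext h5
    subst h6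
    rfl
  have hcard := Nat.card_le_card_of_injective f hf
  rw [Nat.card_prod, Cfsg.Agent.S0034.card_ne, Cfsg.Agent.S0034.card_ne,
    ← Subgroup.index_eq_card] at hcard
  have h1 : H₀.index * Nat.card H₀ = Nat.card N * Nat.card H := by
    rw [Subgroup.index_mul_card, hNH.card_mul_card]
  have hNpos : 0 < Nat.card N := Nat.card_pos
  have hHpos : 0 < Nat.card H := Nat.card_pos
  have h2 : H₀.index ≤ H₀.index * (Nat.card (N ⊓ H₀ : Subgroup G) - 1) :=
    Nat.le_mul_of_pos_right _ (by omega)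
  have h3 : H₀.index < Nat.card N := by omega
  have h4 : H₀.index * Nat.card H₀ ≤ H₀.index * Nat.card H := Nat.mul_le_mul_left _ hle
  have h5 : H₀.index * Nat.card H < Nat.card N * Nat.card H :=
    Nat.mul_lt_mul_of_pos_right h3 hHpos
  omega

/-- A subgroup of `H₀` stabilising a coset, if neither trivial nor everything, is a Frobenius
complement in `H₀`, provided each nonidentity element of `H₀` fixes at most one coset. -/
theorem stab_frob {G : Type*} [Group G] (H H₀ : Subgroup G)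
    (hP2 : ∀ k : H₀, k ≠ 1 → ∀ q q' : G ⧸ H, k • q = q → k • q' = q' → q = q')
    (q : G ⧸ H) (h1 : MulAction.stabilizer H₀ q ≠ ⊥) (h2 : MulAction.stabilizer H₀ q ≠ ⊤) :
    Cfsg.IsFrobeniusComplement (MulAction.stabilizer H₀ q) := by
  refine ⟨h1, h2, fun k hk => ?_⟩
  rw [eq_bot_iff]
  intro x hx
  rw [Subgroup.mem_bot]
  obtain ⟨hx1, hx2⟩ := Subgroup.mem_inf.1 hx
  rw [Cfsg.Agent.S0034.mem_conj, MulAction.mem_stabilizer_iff] at hx2
  rw [MulAction.mem_stabilizer_iff] at hx1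
  by_contra hx0
  apply hk
  rw [MulAction.mem_stabilizer_iff]
  apply hP2 x hx0 (k • q) q _ hx1
  have : x • k • q = k • ((k⁻¹ * x * k) • q) := by
    rw [← mul_smul, ← mul_smul]
    congr 1
    group
  rw [this, hx2]

/-- Of two Frobenius complements in one finite group, the one of smaller (or equal) order is conjugate to a subgroup of the other. -/
theorem result {G : Type*} [Group G] [Finite G] (H H₀ : Subgroup G)
    (hH : Cfsg.IsFrobeniusComplement H) (hH₀ : Cfsg.IsFrobeniusComplement H₀) (hle : Nat.card H₀ ≤ Nat.card H) :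
    ∃ g : G, MulAut.conj g • H₀ ≤ H := by
  classical
  obtain ⟨N, hNset, hNn, hNc⟩ := Cfsg.Agent.S0035.result H hH
  have hNH₀ : N ⊓ H₀ = ⊥ := inf_kernel_eq_bot H H₀ N hH₀ hNc hle
  have hP1 : ∀ k : H₀, k ≠ 1 → ∃ q : G ⧸ H, k • q = q := by
    intro k hk
    have hkN : (k : G) ∉ N := fun h => hk (Subtype.ext (Subgroup.mem_bot.1
      (hNH₀ ▸ Subgroup.mem_inf.2 ⟨h, k.2⟩)))
    have hk' : (k : G) ∉ Cfsg.frobeniusKernel H := by rw [← hNset]; exact hkN
    simp only [Cfsg.frobeniusKernel, Set.mem_ofPred_eq, not_or, not_forall, not_not] at hk'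
    obtain ⟨-, g, hg⟩ := hk'
    refine ⟨(g : G ⧸ H), ?_⟩
    rw [smul_mk_eq_iff]
    exact (Cfsg.Agent.S0034.mem_conj H g _).1 hg
  have hP2 : ∀ k : H₀, k ≠ 1 → ∀ q q' : G ⧸ H, k • q = q → k • q' = q' → q = q' := by
    intro k hk q q' hq hq'
    obtain ⟨g, rfl⟩ := QuotientGroup.mk_surjective q
    obtain ⟨g', rfl⟩ := QuotientGroup.mk_surjective q'
    rw [smul_mk_eq_iff] at hq hq'
    have hne : g⁻¹ * (k : G) * g ≠ 1 := by
      intro e
      apply hk
      apply Subtype.ext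
      have : (k : G) = g * (g⁻¹ * (k : G) * g) * g⁻¹ := by group
      rw [this, e]; simp
    have h1 : g'⁻¹ * g ∈ H := by
      apply Cfsg.Agent.S0034.key H hH _ _ hq _ hne
      have : g'⁻¹ * g * (g⁻¹ * (k : G) * g) * (g'⁻¹ * g)⁻¹ = g'⁻¹ * (k : G) * g' := by group
      rw [this]; exact hq'
    exact (QuotientGroup.eq.2 h1).symm
  by_contra hno
  push Not at hno
  have htop : ∀ q : G ⧸ H, MulAction.stabilizer H₀ q ≠ ⊤ := by
    intro q hq
    obtain ⟨g, rfl⟩ := QuotientGroup.mk_surjective q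
    apply hno g⁻¹
    intro x hx
    rw [Cfsg.Agent.S0034.mem_conj, inv_inv] at hx
    have h1 : (⟨g * x * g⁻¹, hx⟩ : H₀) ∈ MulAction.stabilizer H₀ ((g : G) : G ⧸ H) := by
      rw [hq]; exact Subgroup.mem_top _
    rw [MulAction.mem_stabilizer_iff, smul_mk_eq_iff] at h1
    have e : g⁻¹ * ((⟨g * x * g⁻¹, hx⟩ : H₀) : G) * g = x := by
      show g⁻¹ * (g * x * g⁻¹) * g = x
      group
    rwa [e] at h1
  -- first point
  obtain ⟨k₁, hk₁⟩ : ∃ k : H₀, k ≠ 1 := by
    by_contra hcon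
    push Not at hcon
    apply hH₀.1
    rw [eq_bot_iff]
    intro x hx
    have := hcon ⟨x, hx⟩
    exact Subgroup.mem_bot.2 (congrArg Subtype.val this)
  obtain ⟨q₁, hq₁⟩ := hP1 k₁ hk₁
  have hS₁ : MulAction.stabilizer H₀ q₁ ≠ ⊥ := by
    intro h
    have : k₁ ∈ MulAction.stabilizer H₀ q₁ := hq₁
    rw [h] at this
    exact hk₁ (Subgroup.mem_bot.1 this)
  have hF₁ := stab_frob H H₀ hP2 q₁ hS₁ (htop q₁)
  obtain ⟨N₁, hN₁set, hN₁n, hN₁c⟩ := Cfsg.Agent.S0035.result _ hF₁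
  have hN₁bot : N₁ ≠ ⊥ := by
    intro h
    rw [h, Subgroup.isComplement'_bot_left] at hN₁c
    exact htop q₁ hN₁c
  have hN₁top : N₁ ≠ ⊤ := by
    intro h
    rw [h, Subgroup.isComplement'_top_left] at hN₁c
    exact hS₁ hN₁c
  obtain ⟨k₂, hk₂N, hk₂⟩ : ∃ k ∈ N₁, k ≠ 1 := by
    by_contra hcon
    push Not at hcon
    exact hN₁bot ((Subgroup.eq_bot_iff_forall _).2 hcon)
  obtain ⟨q₂, hq₂⟩ := hP1 k₂ hk₂
  have hS₂ : MulAction.stabilizer H₀ q₂ ≠ ⊥ := by
    intro h
    have : k₂ ∈ MulAction.stabilizer H₀ q₂ := hq₂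
    rw [h] at this
    exact hk₂ (Subgroup.mem_bot.1 this)
  have hF₂ := stab_frob H H₀ hP2 q₂ hS₂ (htop q₂)
  obtain ⟨N₂, hN₂set, hN₂n, hN₂c⟩ := Cfsg.Agent.S0035.result _ hF₂
  have hN₂top : N₂ ≠ ⊤ := by
    intro h
    rw [h, Subgroup.isComplement'_top_left] at hN₂c
    exact hS₂ hN₂c
  have hk₂ker : k₂ ∈ Cfsg.frobeniusKernel (MulAction.stabilizer H₀ q₁) := by
    rw [← hN₁set]; exact hk₂N
  have hunion : ∀ x : H₀, x ∈ N₁ ∨ x ∈ N₂ := by
    intro x
    by_cases hx : x ∈ N₁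
    · exact Or.inl hx
    right
    have hx' : x ∉ Cfsg.frobeniusKernel (MulAction.stabilizer H₀ q₁) := by
      rw [← hN₁set]; exact hx
    simp only [Cfsg.frobeniusKernel, Set.mem_ofPred_eq, not_or, not_forall, not_not] at hx'
    obtain ⟨hx1, k, hk⟩ := hx'
    rw [Cfsg.Agent.S0034.mem_conj, MulAction.mem_stabilizer_iff] at hk
    have hxk : x • (k • q₁) = k • q₁ := by
      have : x • k • q₁ = k • ((k⁻¹ * x * k) • q₁) := by
        rw [← mul_smul, ← mul_smul]
        congr 1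
        group
      rw [this, hk]
    have hxN₂ : x ∈ Cfsg.frobeniusKernel (MulAction.stabilizer H₀ q₂) := by
      right
      intro k' hk'
      rw [Cfsg.Agent.S0034.mem_conj, MulAction.mem_stabilizer_iff] at hk'
      have hxk' : x • (k' • q₂) = k' • q₂ := by
        have : x • k' • q₂ = k' • ((k'⁻¹ * x * k') • q₂) := by
          rw [← mul_smul, ← mul_smul]
          congr 1
          group
        rw [this, hk']
      have heq := hP2 x hx1 _ _ hxk hxk'
      have hq₂' : q₂ = (k'⁻¹ * k) • q₁ := by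
        rw [mul_smul, heq, inv_smul_smul]
      rcases hk₂ker with h | h
      · exact hk₂ h
      · apply h (k'⁻¹ * k)
        rw [Cfsg.Agent.S0034.mem_conj, MulAction.mem_stabilizer_iff]
        have h3 : k₂ • ((k'⁻¹ * k) • q₁) = (k'⁻¹ * k) • q₁ := by rw [← hq₂']; exact hq₂
        have : ((k'⁻¹ * k)⁻¹ * k₂ * (k'⁻¹ * k)) • q₁ = (k'⁻¹ * k)⁻¹ • (k₂ • ((k'⁻¹ * k) • q₁)) := by
          rw [← mul_smul, ← mul_smul]
        rw [this, h3, inv_smul_smul]
    have : x ∈ (N₂ : Set H₀) := by rw [hN₂set]; exact hxN₂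
    exact this
  rcases union_two N₁ N₂ hunion with h | h
  · exact hN₁top h
  · exact hN₂top h

end Cfsg.Agent.S0037
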