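import Cfsg.Statements.S0068
import Mathlib

set_option autoImplicit false
open Cfsg

namespace Cfsg.Agent.S0068

/-- A fixed-point-free involution inverts. -/
theorem inverts_of_fpf {G : Type*} [Group G] [Finite G] (K : Subgroup G) [hKn : K.Normal]
    (t : G) (ht : t * t = 1) (hfpf : K ⊓ Subgroup.centralizer {t} = ⊥) :
    ∀ k ∈ K, t * k * t⁻¹ = k⁻¹ := by
  have htinv : t⁻¹ = t := inv_eq_of_mul_eq_one_left ht
  let φ : K → K := fun k => ⟨(k : G)⁻¹ * (t * k * t⁻¹), K.mul_mem (K.inv_mem k.2) (hKn.conj_mem _ k.2 t)⟩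
  have hinj : Function.Injective φ := by
    intro a b hab
    have h1 : (a : G)⁻¹ * (t * a * t⁻¹) = (b : G)⁻¹ * (t * b * t⁻¹) := congrArg Subtype.val hab
    have h2 : (b : G) * (a : G)⁻¹ ∈ K ⊓ Subgroup.centralizer {t} := by
      refine ⟨K.mul_mem b.2 (K.inv_mem a.2), ?_⟩
      show (b : G) * (a : G)⁻¹ ∈ Subgroup.centralizer {t}
      rw [Subgroup.mem_centralizer_iff]
      intro h hh
      rw [Set.mem_singleton_iff] at hh
      subst hh
      have e1 : h * ((b : G) * (a : G)⁻¹) = (b : G) * ((b : G)⁻¹ * (h * b * h⁻¹)) * (h * (a : G)⁻¹) := by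
        group
      have e2 : (b : G) * (a : G)⁻¹ * h = (b : G) * ((a : G)⁻¹ * (h * a * h⁻¹)) * (h * (a : G)⁻¹) := by
        group
      rw [e1, e2, h1]
    rw [hfpf, Subgroup.mem_bot] at h2
    apply Subtype.ext
    have : (b : G) = (b : G) * (a : G)⁻¹ * a := by group
    rw [this, h2, one_mul]
  have hsurj : Function.Surjective φ := Finite.injective_iff_surjective.mp hinj
  intro k hk
  obtain ⟨a, ha⟩ := hsurj ⟨k, hk⟩
  have ha' : (a : G)⁻¹ * (t * a * t⁻¹) = k := congrArg Subtype.val ha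
  have e1 : t * ((a : G)⁻¹ * (t * a * t⁻¹)) * t⁻¹ = t * (a : G)⁻¹ * t * a * (t⁻¹ * t⁻¹) := by group
  have e2 : ((a : G)⁻¹ * (t * a * t⁻¹))⁻¹ = t * (a : G)⁻¹ * t⁻¹ * a := by group
  rw [← ha', e1, e2, htinv, ht, mul_one]

/-- Frobenius complements of even order: if H complements a nontrivial normal subgroup K, each nonidentity element of H has trivial centraliser in K, and H has even order, then H contains a unique involution s, K is abelian, and s inverts every element of K. -/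
theorem result {G : Type*} [Group G] [Finite G] (K H : Subgroup G) [K.Normal]
    (hc : Subgroup.IsComplement' K H) (hK : K ≠ ⊥) (hfpf : ∀ h ∈ H, h ≠ 1 → K ⊓ Subgroup.centralizer {h} = ⊥)
    (heven : 2 ∣ Nat.card H) :
    (∃ s ∈ H, orderOf s = 2 ∧ (∀ t ∈ H, orderOf t = 2 → t = s) ∧ ∀ k ∈ K, s * k * s⁻¹ = k⁻¹) ∧ IsMulCommutative K := by
  have : Fact (Nat.Prime 2) := ⟨Nat.prime_two⟩
  obtain ⟨s', hs'⟩ := exists_prime_orderOf_dvd_card' (G := H) 2 heven
  have hs2 : orderOf (s' : G) = 2 := by rw [Subgroup.orderOf_coe]; exact hs'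
  have key : ∀ t ∈ H, orderOf t = 2 → ∀ k ∈ K, t * k * t⁻¹ = k⁻¹ := by
    intro t htH ht2
    have htt : t * t = 1 := by
      have := pow_orderOf_eq_one t
      rw [ht2, pow_two] at this
      exact this
    have ht1 : t ≠ 1 := by
      intro h
      rw [h, orderOf_one] at ht2
      omega
    exact inverts_of_fpf K t htt (hfpf t htH ht1)
  have hsinv := key s' s'.2 hs2
  have hss : (s' : G) * (s' : G) = 1 := by
    have := pow_orderOf_eq_one (s' : G)
    rw [hs2, pow_two] at this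
    exact this
  refine ⟨⟨s', s'.2, hs2, ?_, hsinv⟩, ?_⟩
  · intro t htH ht2
    have htinv := key t htH ht2
    by_contra hne
    have hu1 : (s' : G) * t ≠ 1 := by
      intro h
      apply hne
      have : t = (s' : G)⁻¹ := (inv_eq_of_mul_eq_one_right h).symm
      rw [this]
      exact inv_eq_of_mul_eq_one_left hss
    have hu := hfpf _ (H.mul_mem s'.2 htH) hu1
    apply hK
    rw [eq_bot_iff, ← hu]
    intro k hk
    refine ⟨hk, ?_⟩
    show k ∈ Subgroup.centralizer {(s' : G) * t}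
    rw [Subgroup.mem_centralizer_iff]
    intro h hh
    rw [Set.mem_singleton_iff] at hh
    subst hh
    have e1 := htinv k hk
    have e2 := hsinv k⁻¹ (K.inv_mem hk)
    rw [inv_inv] at e2
    have e3 : (s' : G) * t * k = ((s' : G) * (t * k * t⁻¹) * (s' : G)⁻¹) * ((s' : G) * t) := by group
    rw [e3, e1, e2]
  · refine ⟨⟨fun a b => ?_⟩⟩
    apply Subtype.ext
    have e1 := hsinv (a * b) (K.mul_mem a.2 b.2)
    have e2 := hsinv a a.2
    have e3 := hsinv b b.2
    have e4 : (s' : G) * ((a : G) * b) * (s' : G)⁻¹ =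
        ((s' : G) * a * (s' : G)⁻¹) * ((s' : G) * b * (s' : G)⁻¹) := by group
    rw [e4, e2, e3] at e1
    -- a⁻¹ b⁻¹ = (a b)⁻¹ = b⁻¹ a⁻¹
    have e5 : (b : G) * a = ((a : G)⁻¹ * (b : G)⁻¹)⁻¹ := by group
    show (a : G) * b = b * a
    rw [e5, e1, inv_inv]

end Cfsg.Agent.S0068
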