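import Cfsg.Statements.S0074
import Mathlib

set_option autoImplicit false
open Cfsg

namespace Cfsg.Agent.S0074

open scoped commutatorElement

/-- For an abelian Sylow subgroup the focal subgroup is `[P, N(P)]`. -/
theorem focal_eq_commutator_normalizer {G : Type*} [Group G] [Finite G] {p : ℕ} [Fact p.Prime]
    (P : Sylow p G) (hP : IsMulCommutative P) :
    Subgroup.focalSubgroup (P : Subgroup G) =
      ⁅(P : Subgroup G), Subgroup.normalizer (P : Set G)⁆ := by
  apply le_antisymm
  · rw [Subgroup.focalSubgroup_def, Subgroup.closure_le]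
    rintro g ⟨hgP, x, hx, u, rfl⟩
    have hy : u⁻¹⁻¹ * x⁻¹ * u⁻¹ ∈ P := by
      have : u⁻¹⁻¹ * x⁻¹ * u⁻¹ = x⁻¹ * ⁅x, u⁆ := by
        rw [commutatorElement_def]; group
      rw [this]; exact (P : Subgroup G).mul_mem ((P : Subgroup G).inv_mem hx) hgP
    obtain ⟨n, hn, hnx⟩ := P.conj_eq_normalizer_conj_of_mem x⁻¹ u⁻¹ ((P : Subgroup G).inv_mem hx) hy
    have : ⁅x, u⁆ = ⁅x, n⁻¹⁆ := by
      rw [commutatorElement_def, commutatorElement_def]
      have e1 : x * u * x⁻¹ * u⁻¹ = x * (u⁻¹⁻¹ * x⁻¹ * u⁻¹) := by group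
      have e2 : x * n⁻¹ * x⁻¹ * n⁻¹⁻¹ = x * (n⁻¹ * x⁻¹ * n) := by group
      rw [e1, e2, hnx]
    rw [this]
    exact Subgroup.commutator_mem_commutator hx (Subgroup.inv_mem _ hn)
  · rw [Subgroup.commutator_le]
    intro x hx n hn
    apply Subgroup.subset_closure
    refine ⟨?_, x, hx, n, rfl⟩
    have h1 : n * x⁻¹ * n⁻¹ ∈ (P : Subgroup G) :=
      (Subgroup.mem_normalizer_iff.mp hn x⁻¹).mp ((P : Subgroup G).inv_mem hx)
    have : ⁅x, n⁆ = x * (n * x⁻¹ * n⁻¹) := by rw [commutatorElement_def]; group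
    rw [this]
    exact (P : Subgroup G).mul_mem hx h1

/-- For an abelian Sylow p-subgroup P, the intersection of P with the derived subgroup of G equals its intersection with the derived subgroup of the normalizer of P. -/
theorem result {G : Type*} [Group G] [Finite G] {p : ℕ} [Fact p.Prime] (P : Sylow p G) (hP : IsMulCommutative P) : commutator G ⊓ (P : Subgroup G) = ⁅Subgroup.normalizer (P : Set G), Subgroup.normalizer (P : Set G)⁆ ⊓ (P : Subgroup G) := by
  apply le_antisymm
  · have h1 : commutator G ⊓ (P : Subgroup G) = Subgroup.focalSubgroup (P : Subgroup G) :=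
      Subgroup.commutator_inf_eq_focalSubgroup P
    rw [h1, focal_eq_commutator_normalizer P hP]
    refine le_inf (Subgroup.commutator_mono Subgroup.le_normalizer le_rfl) ?_
    rw [← focal_eq_commutator_normalizer P hP]
    exact Subgroup.focalSubgroup_le _
  · refine inf_le_inf_right _ ?_
    rw [commutator_def]
    exact Subgroup.commutator_mono le_top le_top

end Cfsg.Agent.S0074
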