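import Cfsg.Statements.S0075
import Cfsg.Agent.S0074
import Cfsg.Agent.Lib.Helper16.Residual
import Mathlib

set_option autoImplicit false
open Cfsg

namespace Cfsg.Agent.S0075

open scoped commutatorElement

/-- In a commutative group the elements of order prime to `p` form a subgroup. -/
def pPrimeSub (A : Type*) [CommGroup A] (p : ℕ) : Subgroup A where
  carrier := {a | Nat.Coprime (orderOf a) p}
  one_mem' := by simp
  mul_mem' := by
    intro a b ha hb
    exact Nat.Coprime.coprime_dvd_left
      ((Commute.all a b).orderOf_mul_dvd_lcm.trans (Nat.lcm_dvd_mul _ _))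
      (Nat.Coprime.mul_left ha hb)
  inv_mem' := by
    intro a ha
    show Nat.Coprime (orderOf a⁻¹) p
    rw [orderOf_inv]; exact ha

/-- A `p`-element of `O^p(G)` lies in the derived subgroup. -/
theorem mem_commutator_of_mem_pResidual {G : Type*} [Group G] [Finite G] {p : ℕ} [Fact p.Prime]
    (x : G) (k : ℕ) (hxk : x ^ p ^ k = 1) (hx : x ∈ Cfsg.pResidual p G) : x ∈ commutator G := by
  have h1 : Cfsg.pResidual p G ≤ (pPrimeSub (Abelianization G) p).comap Abelianization.of := by
    unfold Cfsg.pResidual
    rw [Subgroup.closure_le]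
    intro g hg
    have hg' : Nat.Coprime (orderOf g) p := hg
    show Nat.Coprime (orderOf (Abelianization.of g)) p
    exact Nat.Coprime.coprime_dvd_left (orderOf_map_dvd _ g) hg'
  have h2 : Nat.Coprime (orderOf (Abelianization.of x)) p := h1 hx
  have h3 : (Abelianization.of x) ^ p ^ k = 1 := by rw [← map_pow, hxk, map_one]
  have h4 : orderOf (Abelianization.of x) ∣ p ^ k := orderOf_dvd_of_pow_eq_one h3
  have h5 : orderOf (Abelianization.of x) = 1 :=
    Nat.Coprime.eq_one_of_dvd (Nat.Coprime.pow_right k h2) h4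
  rw [orderOf_eq_one_iff] at h5
  rw [← Abelianization.ker_of]
  exact h5

/-- With an abelian Sylow `p`-subgroup, the derived subgroup lies in `O^p(G)`. -/
theorem commutator_le_pResidual {G : Type*} [Group G] [Finite G] {p : ℕ} [Fact p.Prime]
    (T : Sylow p G) (hT : IsMulCommutative T) : commutator G ≤ Cfsg.pResidual p G := by
  have hn : (Cfsg.pResidual p G).Normal := Cfsg.Agent.Lib.Helper16.Residual.pResidual_normal G p
  have hsup := Cfsg.Agent.Lib.Helper16.Residual.sylow_sup_pResidual_eq_top T
  have key : ∀ a : G, ∃ t ∈ (T : Subgroup G), (QuotientGroup.mk' (Cfsg.pResidual p G)) a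
      = (QuotientGroup.mk' (Cfsg.pResidual p G)) t := by
    intro a
    have ha : a ∈ ((T : Subgroup G) ⊔ Cfsg.pResidual p G : Subgroup G) := by rw [hsup]; trivial
    have ha' : a ∈ (((T : Subgroup G) ⊔ Cfsg.pResidual p G : Subgroup G) : Set G) := ha
    rw [Subgroup.mul_normal] at ha'
    obtain ⟨t, ht, r, hr, htr⟩ := Set.mem_mul.mp ha'
    refine ⟨t, ht, ?_⟩
    have htr' : t * r = a := htr
    rw [← htr', map_mul]
    have : (QuotientGroup.mk' (Cfsg.pResidual p G)) r = 1 := by
      rw [QuotientGroup.mk'_apply, QuotientGroup.eq_one_iff]; exact hr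
    rw [this, mul_one]
  rw [commutator_def, Subgroup.commutator_le]
  intro a _ b _
  obtain ⟨t, ht, hta⟩ := key a
  obtain ⟨s, hs, hsb⟩ := key b
  have hcomm : t * s = s * t := by
    have := hT.is_comm.comm ⟨t, ht⟩ ⟨s, hs⟩
    exact congrArg Subtype.val this
  have h1 : (QuotientGroup.mk' (Cfsg.pResidual p G)) ⁅a, b⁆ = 1 := by
    rw [map_commutatorElement, hta, hsb, ← map_commutatorElement]
    have : ⁅t, s⁆ = 1 := by rw [commutatorElement_eq_one_iff_mul_comm]; exact hcomm
    rw [this, map_one]
  rw [QuotientGroup.mk'_apply, QuotientGroup.eq_one_iff] at h1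
  exact h1

/-- For an abelian Sylow p-subgroup T, its intersection with the subgroup generated by the elements of order prime to p is the commutator of T with its normalizer. -/
theorem result {G : Type*} [Group G] [Finite G] {p : ℕ} [Fact p.Prime] (T : Sylow p G) (hT : IsMulCommutative T) : (T : Subgroup G) ⊓ Cfsg.pResidual p G = ⁅(T : Subgroup G), Subgroup.normalizer (T : Set G)⁆ := by
  have h1 : commutator G ⊓ (T : Subgroup G) = Subgroup.focalSubgroup (T : Subgroup G) :=
    Subgroup.commutator_inf_eq_focalSubgroup T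
  rw [← Cfsg.Agent.S0074.focal_eq_commutator_normalizer T hT, ← h1]
  apply le_antisymm
  · rintro x ⟨hxT, hxR⟩
    refine ⟨?_, hxT⟩
    obtain ⟨k, hk⟩ := (T.isPGroup') ⟨x, hxT⟩
    have hk' : x ^ p ^ k = 1 := by
      have := congrArg Subtype.val hk
      simpa using this
    exact mem_commutator_of_mem_pResidual x k hk' hxR
  · rintro x ⟨hxC, hxT⟩
    exact ⟨hxT, commutator_le_pResidual T hT hxC⟩

end Cfsg.Agent.S0075
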