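import Cfsg.Statements.S0082
import Cfsg.Agent.S0084
import Cfsg.Agent.S0075
import Cfsg.Agent.S0029
import Cfsg.Agent.Lib.Helper16.Residual
import Cfsg.Agent.Lib.Helper18.UniqueInvolution
import Mathlib

set_option autoImplicit false
open Cfsg

namespace Cfsg.Agent.S0082

/-- In a cyclic `p`-group an element outside the Frattini subgroup is a generator. -/
theorem zpowers_eq_top_of_not_mem_frattini {P : Type*} [Group P] [Finite P] {p : ℕ}
    [Fact p.Prime] (hP : IsPGroup p P) (hc : IsCyclic P) (d : P) (hd : d ∉ frattini P) :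
    Subgroup.zpowers d = ⊤ := by
  have hex : ∃ M : Subgroup P, IsCoatom M ∧ d ∉ M := by
    by_contra hcon
    push_neg at hcon
    apply hd
    show d ∈ ⨅ a ∈ {H : Subgroup P | IsCoatom H}, a
    simp only [Subgroup.mem_iInf]
    intro M hM
    exact hcon M hM
  obtain ⟨M, hM, hdM⟩ := hex
  obtain ⟨x, hx⟩ := hc.exists_generator
  have hMle : M ≤ Subgroup.zpowers d := by
    intro h hh
    obtain ⟨i, hi⟩ := exists_orderOf_eq_prime_pow_iff.mpr (hP h)
    obtain ⟨j, hj⟩ := exists_orderOf_eq_prime_pow_iff.mpr (hP d)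
    rcases le_or_gt i j with hij | hij
    · apply Cfsg.Agent.Lib.Helper18.UniqueInvolution.mem_zpowers_of_pow_orderOf x h d (hx h) (hx d)
      rw [hj, ← Nat.sub_add_cancel hij, pow_add, mul_comm, pow_mul, ← hi, pow_orderOf_eq_one,
        one_pow]
    · exfalso
      apply hdM
      have : d ∈ Subgroup.zpowers h := by
        apply Cfsg.Agent.Lib.Helper18.UniqueInvolution.mem_zpowers_of_pow_orderOf x d h (hx d) (hx h)
        rw [hi, ← Nat.sub_add_cancel hij.le, pow_add, mul_comm, pow_mul, ← hj, pow_orderOf_eq_one,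
          one_pow]
      exact (Subgroup.zpowers_le.mpr hh) this
  have hlt : M < Subgroup.zpowers d :=
    lt_of_le_of_ne hMle (fun h => hdM (h ▸ Subgroup.mem_zpowers d))
  exact hM.2 _ hlt

/-- With a cyclic Sylow p-subgroup, either there is a normal p-complement or the elements of order prime to p generate the whole group. -/
theorem result {G : Type*} [Group G] [Finite G] {p : ℕ} [Fact p.Prime] (P : Sylow p G) (hP : IsCyclic P) : Cfsg.HasNormalPComplement p G ∨ Cfsg.pResidual p G = ⊤ := by
  have hp : p.Prime := Fact.out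
  have hc : IsMulCommutative P := by
    refine ⟨⟨fun a b => ?_⟩⟩
    obtain ⟨x, hx⟩ := hP.exists_generator
    obtain ⟨i, rfl⟩ := Subgroup.mem_zpowers_iff.mp (hx a)
    obtain ⟨j, rfl⟩ := Subgroup.mem_zpowers_iff.mp (hx b)
    rw [← zpow_add, ← zpow_add, add_comm]
  by_cases hNC : Subgroup.normalizer (P : Set G) ≤ Subgroup.centralizer (P : Set G)
  · left
    exact Cfsg.Agent.S0084.hasNormalPComplement_of_le P hNC
  · right
    obtain ⟨x, hxN, hxC⟩ := SetLike.not_le_iff_exists.mp hNC
    obtain ⟨y, hy1, hy2, q, k, hq, hy3⟩ :=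
      Cfsg.Agent.S0084.exists_prime_pow_not_mem (Subgroup.centralizer (P : Set G)) _ x rfl hxC
    have hyN : y ∈ Subgroup.normalizer (P : Set G) := (Subgroup.zpowers_le.mpr hxN) hy1
    have hTC : (P : Subgroup G) ≤ Subgroup.centralizer (P : Set G) :=
      Subgroup.le_centralizer (P : Subgroup G)
    have hqp : q ≠ p := by
      intro hqp
      subst hqp
      have hPz : IsPGroup q (Subgroup.zpowers y) := by
        apply IsPGroup.of_card (n := k)
        rw [Nat.card_zpowers, hy3]
      have h1 := hPz.inf_normalizer_sylow P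
      have h2 : y ∈ Subgroup.zpowers y ⊓ Subgroup.normalizer (P : Set G) :=
        ⟨Subgroup.mem_zpowers y, hyN⟩
      rw [h1] at h2
      exact hy2 (hTC h2.2)
    have hcop : (Nat.card (Subgroup.zpowers y)).Coprime (Nat.card (frattini (P : Subgroup G))) := by
      rw [Nat.card_zpowers, hy3]
      obtain ⟨m, hm⟩ := IsPGroup.iff_card.mp P.isPGroup'
      have h1 : Nat.card (frattini (P : Subgroup G)) ∣ p ^ m := by
        rw [← hm]; exact Subgroup.card_subgroup_dvd_card _
      exact Nat.Coprime.coprime_dvd_right h1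
        (Nat.Coprime.pow k m ((Nat.coprime_primes hq hp).mpr hqp))
    have key : ¬ (∀ a ∈ Subgroup.zpowers y, ∀ t ∈ (P : Subgroup G),
        a * t * a⁻¹ * t⁻¹ ∈ (frattini (P : Subgroup G)).map (P : Subgroup G).subtype) := by
      intro htriv
      have := Cfsg.Agent.S0029.result (Subgroup.zpowers y) (P : Subgroup G)
        (Subgroup.zpowers_le.mpr hyN) hcop htriv
      exact hy2 (this (Subgroup.mem_zpowers y))
    push_neg at key
    obtain ⟨a, ha, t, ht, hat⟩ := key
    have haN : a ∈ Subgroup.normalizer (P : Set G) := (Subgroup.zpowers_le.mpr hyN) ha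
    have hdP : a * t * a⁻¹ * t⁻¹ ∈ (P : Subgroup G) :=
      (P : Subgroup G).mul_mem ((Subgroup.mem_normalizer_iff.mp haN t).mp ht)
        ((P : Subgroup G).inv_mem ht)
    have hd : (⟨a * t * a⁻¹ * t⁻¹, hdP⟩ : (P : Subgroup G)) ∉ frattini (P : Subgroup G) :=
      fun h => hat ⟨_, h, rfl⟩
    have htop := zpowers_eq_top_of_not_mem_frattini P.isPGroup' hP _ hd
    have hdR : a * t * a⁻¹ * t⁻¹ ∈ Cfsg.pResidual p G := by
      have h1 := Cfsg.Agent.S0075.result P hc
      have h2 : a * t * a⁻¹ * t⁻¹ ∈ ⁅(P : Subgroup G), Subgroup.normalizer (P : Set G)⁆ := by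
        rw [Subgroup.commutator_comm]
        exact Subgroup.commutator_mem_commutator haN ht
      rw [← h1] at h2
      exact h2.2
    have hPR : (P : Subgroup G) ≤ Cfsg.pResidual p G := by
      intro u hu
      have hmem : (⟨u, hu⟩ : (P : Subgroup G)) ∈
          Subgroup.zpowers (⟨a * t * a⁻¹ * t⁻¹, hdP⟩ : (P : Subgroup G)) := by
        rw [htop]; trivial
      obtain ⟨n, hn⟩ := Subgroup.mem_zpowers_iff.mp hmem
      have hu' : u = (a * t * a⁻¹ * t⁻¹) ^ n := by
        have h := congrArg Subtype.val hn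
        rw [Subgroup.coe_zpow] at h
        exact h.symm
      rw [hu']
      exact Subgroup.zpow_mem _ hdR n
    have hsup := Cfsg.Agent.Lib.Helper16.Residual.sylow_sup_pResidual_eq_top P
    rw [sup_eq_right.mpr hPR] at hsup
    exact hsup

end Cfsg.Agent.S0082
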