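import Cfsg.Statements.S0069
import Cfsg.Agent.S0068
import Cfsg.Agent.S0040
import Cfsg.Agent.S0041
import Cfsg.Agent.S0023
import Cfsg.Agent.S0029
import Cfsg.Agent.S0082
import Cfsg.Agent.S0084
import Cfsg.Agent.Lib.Helper9.Signalizer
import Cfsg.Agent.Lib.Helper16.Generation
import Cfsg.Agent.Lib.Helper16.Residual
import Cfsg.Agent.Lib.Helper10.Coprime
import Cfsg.Agent.Lib.Helper18.UniqueInvolution
import Mathlib

set_option autoImplicit false
set_option linter.style.haveILetI false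
open Cfsg

namespace Cfsg.Agent.S0069

/-- From an invariant Sylow subgroup of `K` we get an invariant abelian subgroup on which the
action is fixed-point-free. -/
theorem exists_fpf_abelian {G : Type*} [Group G] [Finite G] (K H : Subgroup G)
    (hfpf : ∀ h ∈ H, h ≠ 1 → K ⊓ Subgroup.centralizer {h} = ⊥)
    (A : Subgroup G) (hAH : A ≤ H) (q : ℕ) [Fact q.Prime] (hqK : q ∣ Nat.card K)
    (Q : Sylow q K)
    (hQ : A ≤ Subgroup.normalizer (((Q : Subgroup K).map K.subtype : Subgroup G) : Set G)) :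
    ∃ V : Subgroup G, IsMulCommutative V ∧ V ≠ ⊥ ∧ A ≤ Subgroup.normalizer (V : Set G) ∧
      ∀ a ∈ A, a ≠ 1 → V ⊓ Subgroup.centralizer {a} = ⊥ := by
  set Q' : Subgroup G := (Q : Subgroup K).map K.subtype with hQ'
  have hQ'K : Q' ≤ K := by
    rintro _ ⟨x, -, rfl⟩
    exact x.2
  refine ⟨Q' ⊓ Subgroup.centralizer (Q' : Set G), ?_, ?_, ?_, ?_⟩
  · refine ⟨⟨fun x y => Subtype.ext ?_⟩⟩
    exact (Subgroup.mem_centralizer_iff.mp y.2.2 x x.2.1)
  · have hQne : (Q : Subgroup K) ≠ ⊥ := Q.ne_bot_of_dvd_card hqK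
    have : Nontrivial (Q : Subgroup K) := (Subgroup.nontrivial_iff_ne_bot _).mpr hQne
    have hcn : Nontrivial (Subgroup.center (Q : Subgroup K)) := Q.isPGroup'.center_nontrivial
    obtain ⟨z, hz⟩ := exists_ne (1 : Subgroup.center (Q : Subgroup K))
    intro hbot
    have hzV : (((z : (Q : Subgroup K)) : K) : G) ∈ Q' ⊓ Subgroup.centralizer (Q' : Set G) := by
      refine ⟨⟨_, (z : (Q : Subgroup K)).2, rfl⟩, ?_⟩
      show (((z : (Q : Subgroup K)) : K) : G) ∈ Subgroup.centralizer (Q' : Set G)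
      rw [Subgroup.mem_centralizer_iff]
      rintro _ ⟨x, hx, rfl⟩
      have h1 := Subgroup.mem_center_iff.mp z.2 ⟨x, hx⟩
      have h2 := congrArg (fun t : (Q : Subgroup K) => ((t : K) : G)) h1
      simpa using h2
    rw [hbot, Subgroup.mem_bot] at hzV
    apply hz
    apply Subtype.ext
    apply Subtype.ext
    apply Subtype.ext
    simpa using hzV
  · intro a ha
    have haQ := hQ ha
    apply Cfsg.Agent.Lib.Helper10.Coprime.mem_normalizer_of_conj_mem
    rintro s ⟨hs1, hs2⟩
    have hs2' : s ∈ Subgroup.centralizer (Q' : Set G) := hs2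
    refine ⟨(Subgroup.mem_normalizer_iff.mp haQ s).mp hs1, ?_⟩
    show a * s * a⁻¹ ∈ Subgroup.centralizer (Q' : Set G)
    rw [Subgroup.mem_centralizer_iff]
    intro y hy
    have hy' : a⁻¹ * y * a⁻¹⁻¹ ∈ Q' :=
      (Subgroup.mem_normalizer_iff.mp (Subgroup.inv_mem _ haQ) y).mp hy
    have h1 := Subgroup.mem_centralizer_iff.mp hs2' _ hy'
    have e1 : y * (a * s * a⁻¹) = a * ((a⁻¹ * y * a⁻¹⁻¹) * s) * a⁻¹ := by group
    have e2 : a * s * a⁻¹ * y = a * (s * (a⁻¹ * y * a⁻¹⁻¹)) * a⁻¹ := by group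
    rw [e1, e2, h1]
  · intro a ha ha1
    rw [eq_bot_iff, ← hfpf a (hAH ha) ha1]
    exact inf_le_inf_right _ (inf_le_left.trans hQ'K)

/-- A fixed-point-free element of prime order forces `|K| ≡ 1`. -/
theorem coprime_card_of_fpf {G : Type*} [Group G] [Finite G] (K H : Subgroup G) [hKn : K.Normal]
    (hfpf : ∀ h ∈ H, h ≠ 1 → K ⊓ Subgroup.centralizer {h} = ⊥) (p : ℕ) [hp : Fact p.Prime]
    (a : G) (haH : a ∈ H) (ha : orderOf a = p) : Nat.Coprime p (Nat.card K) := by
  have ha1 : a ≠ 1 := by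
    intro h
    rw [h, orderOf_one] at ha
    exact hp.out.one_lt.ne ha
  have hNtop : Subgroup.normalizer (K : Set G) = ⊤ := Subgroup.normalizer_eq_top_iff.mpr hKn
  have haN : a ∈ Subgroup.normalizer (K : Set G) := by rw [hNtop]; trivial
  have hap : a ^ p ^ 1 = 1 := by rw [pow_one, ← ha]; exact pow_orderOf_eq_one a
  have hmod := Cfsg.Agent.S0084.card_modEq_centralizer K a haN p 1 hap
  rw [hfpf a haH ha1, Subgroup.card_bot] at hmod
  rw [Nat.Prime.coprime_iff_not_dvd hp.out]
  intro hd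
  have h0 : Nat.card K ≡ 0 [MOD p] := (Nat.modEq_zero_iff_dvd).mpr hd
  have h1 : 1 ≡ 0 [MOD p] := hmod.symm.trans h0
  have h2 : p ∣ 1 := (Nat.modEq_zero_iff_dvd).mp h1
  exact hp.out.one_lt.ne' (Nat.dvd_one.mp h2)

/-- Two elements of distinct prime orders in a fixed-point-free group commute as soon as one
normalizes the subgroup generated by the other. -/
theorem comm_of_order_pq {G : Type*} [Group G] [Finite G] (K H : Subgroup G) [hKn : K.Normal]
    (hK : K ≠ ⊥) (hfpf : ∀ h ∈ H, h ≠ 1 → K ⊓ Subgroup.centralizer {h} = ⊥)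
    (p q : ℕ) [hp : Fact p.Prime] [hq : Fact q.Prime] (hpq : p ≠ q) (a b : G) (haH : a ∈ H)
    (hbH : b ∈ H) (ha : orderOf a = p) (hb : orderOf b = q)
    (hab : a * b * a⁻¹ ∈ Subgroup.zpowers b) : a * b = b * a := by
  have hn : Subgroup.zpowers a ≤ Subgroup.normalizer (Subgroup.zpowers b : Set G) := by
    rw [Subgroup.zpowers_le]
    apply Cfsg.Agent.Lib.Helper10.Coprime.mem_normalizer_of_conj_mem
    intro s hs
    obtain ⟨i, rfl⟩ := Subgroup.mem_zpowers_iff.mp hs
    have : a * b ^ i * a⁻¹ = (a * b * a⁻¹) ^ i := by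
      rw [conj_zpow]
    rw [this]
    exact Subgroup.zpow_mem _ hab i
  set A : Subgroup G := Subgroup.zpowers b ⊔ Subgroup.zpowers a with hA
  have haA : a ∈ A := Subgroup.mem_sup_right (Subgroup.mem_zpowers a)
  have hbA : b ∈ A := Subgroup.mem_sup_left (Subgroup.mem_zpowers b)
  have hAH : A ≤ H := sup_le (Subgroup.zpowers_le.mpr hbH) (Subgroup.zpowers_le.mpr haH)
  have hcard : Nat.card A = p * q := by
    apply Nat.dvd_antisymm
    · have h1 := Cfsg.Agent.Lib.Helper9.card_sup_dvd_of_le_normalizer hn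
      rw [Nat.card_zpowers, Nat.card_zpowers, ha, hb, mul_comm] at h1
      exact h1
    · have h1 : p ∣ Nat.card A := by
        have := Subgroup.card_dvd_of_le (le_sup_right : Subgroup.zpowers a ≤ A)
        rwa [Nat.card_zpowers, ha] at this
      have h2 : q ∣ Nat.card A := by
        have := Subgroup.card_dvd_of_le (le_sup_left : Subgroup.zpowers b ≤ A)
        rwa [Nat.card_zpowers, hb] at this
      exact Nat.Coprime.mul_dvd_of_dvd_of_dvd ((Nat.coprime_primes hp.out hq.out).mpr hpq) h1 h2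
  have hsolv : Group.IsSolvable A := by
    apply Cfsg.Agent.Lib.Helper9.isSolvable_sup_of_le_normalizer hn
    · apply Group.isSolvable_of_comm
      intro x y
      obtain ⟨i, hi⟩ := Subgroup.mem_zpowers_iff.mp x.2
      obtain ⟨j, hj⟩ := Subgroup.mem_zpowers_iff.mp y.2
      apply Subtype.ext
      show (x : G) * y = y * x
      rw [← hi, ← hj, ← zpow_add, ← zpow_add, add_comm]
    · apply Group.isSolvable_of_comm
      intro x y
      obtain ⟨i, hi⟩ := Subgroup.mem_zpowers_iff.mp x.2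
      obtain ⟨j, hj⟩ := Subgroup.mem_zpowers_iff.mp y.2
      apply Subtype.ext
      show (x : G) * y = y * x
      rw [← hi, ← hj, ← zpow_add, ← zpow_add, add_comm]
  have hcop : (Nat.card A).Coprime (Nat.card K) := by
    rw [hcard]
    exact Nat.Coprime.mul_left (coprime_card_of_fpf K H hfpf p a haH ha)
      (coprime_card_of_fpf K H hfpf q b hbH hb)
  have hK1 : Nat.card K ≠ 1 := fun h => hK ((Subgroup.card_eq_one).mp h)
  obtain ⟨r, hr, hrK⟩ := Nat.exists_prime_and_dvd hK1
  haveI : Fact r.Prime := ⟨hr⟩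
  have hAK : A ≤ Subgroup.normalizer (K : Set G) := by
    rw [Subgroup.normalizer_eq_top_iff.mpr hKn]; exact le_top
  obtain ⟨R, hR⟩ := Cfsg.Agent.S0023.result A K hAK hcop (Or.inl hsolv) r
  obtain ⟨V, hVc, hV, hAV, hfpfV⟩ := exists_fpf_abelian K H hfpf A hAH r hrK R hR
  have hcyc := Cfsg.Agent.S0041.result A V hV hAV hfpfV (Or.inr ⟨p, q, hp.out, hq.out, hcard⟩)
  obtain ⟨g, hg⟩ := hcyc.exists_generator
  obtain ⟨i, hi⟩ := Subgroup.mem_zpowers_iff.mp (hg ⟨a, haA⟩)
  obtain ⟨j, hj⟩ := Subgroup.mem_zpowers_iff.mp (hg ⟨b, hbA⟩)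
  have hi' : (g : G) ^ i = a := by
    have := congrArg Subtype.val hi
    simpa using this
  have hj' : (g : G) ^ j = b := by
    have := congrArg Subtype.val hj
    simpa using this
  rw [← hi', ← hj', ← zpow_add, ← zpow_add, add_comm]

/-- A coprime group of automorphisms of a cyclic `q`-group fixing a nontrivial element is
trivial. -/
theorem le_centralizer_of_cyclic {X : Type*} [Group X] [Finite X] (q : ℕ) [hq : Fact q.Prime]
    (Q : Subgroup X) (hQ : IsPGroup q Q) (hcyc : IsCyclic Q) (A₀ : Subgroup X)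
    (hAQ : A₀ ≤ Subgroup.normalizer (Q : Set X)) (hcop : (Nat.card A₀).Coprime q)
    (w : X) (hwQ : w ∈ Q) (hw1 : w ≠ 1) (hw : ∀ a ∈ A₀, a * w = w * a) :
    A₀ ≤ Subgroup.centralizer (Q : Set X) := by
  have hcop' : (Nat.card A₀).Coprime (Nat.card (frattini Q)) := by
    obtain ⟨m, hm⟩ := IsPGroup.iff_card.mp hQ
    have h1 : Nat.card (frattini Q) ∣ q ^ m := by
      rw [← hm]; exact Subgroup.card_subgroup_dvd_card _
    exact Nat.Coprime.coprime_dvd_right h1 (Nat.Coprime.pow_right m hcop)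
  apply Cfsg.Agent.S0029.result A₀ Q hAQ hcop'
  intro a ha k hk
  have haN := hAQ ha
  have hd : ∀ t ∈ Q, a * t * a⁻¹ * t⁻¹ ∈ Q := fun t ht =>
    Q.mul_mem ((Subgroup.mem_normalizer_iff.mp haN t).mp ht) (Q.inv_mem ht)
  have hQcomm : ∀ s t : Q, s * t = t * s := by
    intro s t
    obtain ⟨g, hg⟩ := hcyc.exists_generator
    obtain ⟨i, rfl⟩ := Subgroup.mem_zpowers_iff.mp (hg s)
    obtain ⟨j, rfl⟩ := Subgroup.mem_zpowers_iff.mp (hg t)
    rw [← zpow_add, ← zpow_add, add_comm]
  by_contra hnot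
  have hnot' : (⟨a * k * a⁻¹ * k⁻¹, hd k hk⟩ : Q) ∉ frattini Q := fun h => hnot ⟨_, h, rfl⟩
  have htop := Cfsg.Agent.S0082.zpowers_eq_top_of_not_mem_frattini hQ hcyc _ hnot'
  let ψ : Q →* Q := MonoidHom.mk' (fun t => ⟨a * t * a⁻¹ * (t : X)⁻¹, hd t t.2⟩) (by
    intro s t
    apply Subtype.ext
    have hc : ((⟨a * t * a⁻¹ * (t : X)⁻¹, hd t t.2⟩ : Q) : X) * (s : X)⁻¹ =
        (s : X)⁻¹ * ((⟨a * t * a⁻¹ * (t : X)⁻¹, hd t t.2⟩ : Q) : X) := by
      have := hQcomm ⟨a * t * a⁻¹ * (t : X)⁻¹, hd t t.2⟩ s⁻¹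
      exact congrArg Subtype.val this
    show a * ((s : X) * t) * a⁻¹ * ((s : X) * t)⁻¹ =
      (a * s * a⁻¹ * (s : X)⁻¹) * (a * t * a⁻¹ * (t : X)⁻¹)
    have hc' : a * t * a⁻¹ * (t : X)⁻¹ * (s : X)⁻¹ = (s : X)⁻¹ * (a * t * a⁻¹ * (t : X)⁻¹) := hc
    calc a * ((s : X) * t) * a⁻¹ * ((s : X) * t)⁻¹
        = (a * s * a⁻¹) * (a * t * a⁻¹ * (t : X)⁻¹ * (s : X)⁻¹) := by group
      _ = (a * s * a⁻¹) * ((s : X)⁻¹ * (a * t * a⁻¹ * (t : X)⁻¹)) := by rw [hc']
      _ = (a * s * a⁻¹ * (s : X)⁻¹) * (a * t * a⁻¹ * (t : X)⁻¹) := by group)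
  have hψk : ψ ⟨k, hk⟩ = ⟨a * k * a⁻¹ * k⁻¹, hd k hk⟩ := rfl
  have hsurj : Function.Surjective ψ := by
    intro y
    have hy : y ∈ Subgroup.zpowers (⟨a * k * a⁻¹ * k⁻¹, hd k hk⟩ : Q) := by rw [htop]; trivial
    obtain ⟨i, hi⟩ := Subgroup.mem_zpowers_iff.mp hy
    refine ⟨(⟨k, hk⟩ : Q) ^ i, ?_⟩
    rw [map_zpow, hψk, hi]
  have hinj : Function.Injective ψ := Finite.injective_iff_surjective.mpr hsurj
  have hψw : ψ ⟨w, hwQ⟩ = 1 := by
    apply Subtype.ext
    show a * w * a⁻¹ * w⁻¹ = 1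
    rw [hw a ha]; group
  have : (⟨w, hwQ⟩ : Q) = 1 := hinj (by rw [hψw, map_one])
  exact hw1 (congrArg Subtype.val this)

/-- A Frobenius complement has nontrivial centre: if H ≠ 1 complements a nontrivial normal subgroup K and every nonidentity element of H has trivial centraliser in K, then the centre of H is nontrivial. -/
theorem result {G : Type*} [Group G] [Finite G] (K H : Subgroup G) [K.Normal]
    (hc : Subgroup.IsComplement' K H) (hK : K ≠ ⊥) (hH : H ≠ ⊥) (hfpf : ∀ h ∈ H, h ≠ 1 → K ⊓ Subgroup.centralizer {h} = ⊥) :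
    Subgroup.center H ≠ ⊥ := by
  by_cases h2 : 2 ∣ Nat.card H
  · obtain ⟨⟨s, hsH, hs2, huniq, -⟩, -⟩ := Cfsg.Agent.S0068.result K H hc hK hfpf h2
    intro hbot
    have hmem : (⟨s, hsH⟩ : H) ∈ Subgroup.center H := by
      rw [Subgroup.mem_center_iff]
      intro g
      have h1 : (g : G) * s * (g : G)⁻¹ = s :=
        huniq _ (H.mul_mem (H.mul_mem g.2 hsH) (H.inv_mem g.2))
          (by rw [Cfsg.Agent.Lib.Helper16.Residual.orderOf_conj']; exact hs2)
      apply Subtype.ext
      show (g : G) * s = s * (g : G)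
      calc (g : G) * s = ((g : G) * s * (g : G)⁻¹) * g := by group
        _ = s * g := by rw [h1]
    rw [hbot, Subgroup.mem_bot] at hmem
    have hs1 : s = 1 := congrArg Subtype.val hmem
    rw [hs1, orderOf_one] at hs2
    omega
  · have hcard1 : Nat.card H ≠ 1 := fun h => hH ((Subgroup.card_eq_one).mp h)
    obtain ⟨p, hpdef⟩ : ∃ p, (Nat.card H).minFac = p := ⟨_, rfl⟩
    have hp : p.Prime := hpdef ▸ Nat.minFac_prime hcard1
    haveI : Fact p.Prime := ⟨hp⟩
    have hpH : p ∣ Nat.card H := hpdef ▸ Nat.minFac_dvd _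
    obtain ⟨P⟩ : Nonempty (Sylow p H) := inferInstance
    have hodd : ∀ (q : ℕ) [Fact q.Prime] (S : Sylow q H), IsCyclic S := by
      intro q _ S
      rcases Cfsg.Agent.S0040.result K H hc hK hfpf q S with h | ⟨n, ⟨e⟩⟩
      · exact h
      · exfalso
        apply h2
        have hcardS : Nat.card S = 4 * 2 ^ n := by
          rw [Nat.card_congr e.toEquiv, Nat.card_eq_fintype_card, QuaternionGroup.card]
        have h4 : 2 ∣ Nat.card S := by rw [hcardS]; exact ⟨2 * 2 ^ n, by ring⟩
        exact h4.trans (Subgroup.card_subgroup_dvd_card _)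
    have hPc : IsCyclic P := hodd p P
    have hNC := hPc.normalizer_le_centralizer (G := H) hpdef
    have hcompl : (MonoidHom.transferSylow P hNC).ker.IsComplement' (P : Subgroup H) :=
      MonoidHom.ker_transferSylow_isComplement' P hNC
    obtain ⟨M, hMdef⟩ : ∃ M : Subgroup H, M = (MonoidHom.transferSylow P hNC).ker := ⟨_, rfl⟩
    rw [← hMdef] at hcompl
    have hMn : M.Normal := hMdef ▸ MonoidHom.normal_ker _
    have hPne : (P : Subgroup H) ≠ ⊥ := P.ne_bot_of_dvd_card hpH
    have hpP : p ∣ Nat.card P := by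
      obtain ⟨n, hn⟩ := IsPGroup.iff_card.mp P.isPGroup'
      have hn0 : n ≠ 0 := by
        rintro rfl
        rw [pow_zero] at hn
        exact hPne ((Subgroup.card_eq_one).mp hn)
      rw [hn]; exact dvd_pow_self p hn0
    obtain ⟨x₀, hx₀⟩ := exists_prime_orderOf_dvd_card' (G := P) p hpP
    obtain ⟨x, hxdef⟩ : ∃ x : H, x = (x₀ : H) := ⟨_, rfl⟩
    have hx : orderOf x = p := by
      rw [hxdef]
      have e2 : orderOf (x₀ : H) = orderOf x₀ :=
        orderOf_injective (P : Subgroup H).subtype Subtype.coe_injective x₀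
      rw [e2, hx₀]
    have hxP : x ∈ (P : Subgroup H) := hxdef ▸ x₀.2
    have hxG : orderOf (x : G) = p := by rw [Subgroup.orderOf_coe]; exact hx
    have hx1 : x ≠ 1 := by
      intro h
      rw [h, orderOf_one] at hx
      exact hp.one_lt.ne hx
    -- P ≤ C
    have hPC : (P : Subgroup H) ≤ Subgroup.centralizer ({x} : Set H) := by
      intro y hy
      rw [Subgroup.mem_centralizer_iff]
      intro h hh
      rw [Set.mem_singleton_iff] at hh
      subst hh
      obtain ⟨g, hg⟩ := hPc.exists_generator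
      obtain ⟨i, hi⟩ := Subgroup.mem_zpowers_iff.mp (hg ⟨h, hxP⟩)
      obtain ⟨j, hj⟩ := Subgroup.mem_zpowers_iff.mp (hg ⟨y, hy⟩)
      have hi' : (g : H) ^ i = h := by
        have := congrArg Subtype.val hi
        simpa using this
      have hj' : (g : H) ^ j = y := by
        have := congrArg Subtype.val hj
        simpa using this
      rw [← hi', ← hj', ← zpow_add, ← zpow_add, add_comm]
    have hcopM : (Nat.card M).Coprime p := by
      rw [← hcompl.index_eq_card, Nat.coprime_comm, hp.coprime_iff_not_dvd]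
      exact P.not_dvd_index
    have hB : IsPGroup p (Subgroup.zpowers x) :=
      IsPGroup.of_card (n := 1) (by rw [Nat.card_zpowers, hx, pow_one])
    have hBK : Subgroup.zpowers x ≤ Subgroup.normalizer (M : Set H) := by
      rw [Subgroup.normalizer_eq_top_iff.mpr hMn]; exact le_top
    have key : ∀ (q : ℕ) [Fact q.Prime], q ≠ p → ∃ Q' : Subgroup H,
        Nat.card Q' = q ^ (Nat.card M).factorization q ∧
        Q' ≤ Subgroup.centralizer ({x} : Set H) := by
      intro q hqF hqp
      have hq : q.Prime := hqF.out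
      obtain ⟨Q, hQ⟩ := Cfsg.Agent.Lib.Helper16.Generation.exists_invariant_sylow q hcopM hB hBK
      obtain ⟨Q', hQ'def⟩ : ∃ Q' : Subgroup H, Q' = (Q : Subgroup M).map M.subtype := ⟨_, rfl⟩
      rw [← hQ'def] at hQ
      have hQ'card : Nat.card Q' = q ^ (Nat.card M).factorization q := by
        rw [hQ'def, ← Sylow.card_eq_multiplicity Q]
        exact (Nat.card_congr (Subgroup.equivMapOfInjective (Q : Subgroup M) M.subtype
          M.subtype_injective).toEquiv).symm
      refine ⟨Q', hQ'card, ?_⟩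
      by_cases hQbot : Q' = ⊥
      · rw [hQbot]; exact bot_le
      have hQ'p : IsPGroup q Q' := hQ'def ▸ Q.isPGroup'.map M.subtype
      -- Q' is cyclic
      obtain ⟨S, hS⟩ := hQ'p.exists_le_sylow
      have hSc : IsCyclic S := hodd q S
      have hQ'cyc : IsCyclic Q' := by
        have h1 : IsCyclic (Q'.subgroupOf (S : Subgroup H)) := inferInstance
        exact isCyclic_of_surjective (Subgroup.subgroupOfEquivOfLe hS).toMonoidHom
          (Subgroup.subgroupOfEquivOfLe hS).surjective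
      -- element of order q
      have hqQ' : q ∣ Nat.card Q' := by
        obtain ⟨n, hn⟩ := IsPGroup.iff_card.mp hQ'p
        have hn0 : n ≠ 0 := by
          rintro rfl
          rw [pow_zero] at hn
          exact hQbot ((Subgroup.card_eq_one).mp hn)
        rw [hn]; exact dvd_pow_self q hn0
      obtain ⟨w₀, hw₀⟩ := exists_prime_orderOf_dvd_card' (G := Q') q hqQ'
      obtain ⟨w, hwdef⟩ : ∃ w : H, w = (w₀ : H) := ⟨_, rfl⟩
      have hw : orderOf w = q := by rw [hwdef, Subgroup.orderOf_coe]; exact hw₀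
      have hwQ' : w ∈ Q' := hwdef ▸ w₀.2
      have hwG : orderOf (w : G) = q := by rw [Subgroup.orderOf_coe]; exact hw
      have hw1 : w ≠ 1 := by
        intro h
        rw [h, orderOf_one] at hw
        exact hq.one_lt.ne hw
      have hxN : x ∈ Subgroup.normalizer (Q' : Set H) := hQ (Subgroup.mem_zpowers x)
      -- x w x⁻¹ ∈ zpowers w
      have hconj : x * w * x⁻¹ ∈ Subgroup.zpowers w := by
        obtain ⟨g, hg⟩ := hQ'cyc.exists_generator
        have hmemQ : ∀ y ∈ Q', y ∈ Subgroup.zpowers (g : H) := by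
          intro y hy
          obtain ⟨i, hi⟩ := Subgroup.mem_zpowers_iff.mp (hg ⟨y, hy⟩)
          refine Subgroup.mem_zpowers_iff.mpr ⟨i, ?_⟩
          have := congrArg Subtype.val hi
          simpa using this
        apply Cfsg.Agent.Lib.Helper18.UniqueInvolution.mem_zpowers_of_pow_orderOf (g : H)
          (x * w * x⁻¹) w (hmemQ _ ((Subgroup.mem_normalizer_iff.mp hxN w).mp hwQ')) (hmemQ w hwQ')
        rw [conj_pow, pow_orderOf_eq_one, mul_one, mul_inv_cancel]
      -- commute in G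
      have hcomm : x * w = w * x := by
        have hconjG : (x : G) * (w : G) * (x : G)⁻¹ ∈ Subgroup.zpowers (w : G) := by
          obtain ⟨i, hi⟩ := Subgroup.mem_zpowers_iff.mp hconj
          refine Subgroup.mem_zpowers_iff.mpr ⟨i, ?_⟩
          have := congrArg Subtype.val hi
          simpa using this
        have := comm_of_order_pq K H hK hfpf p q (Ne.symm hqp) (x : G) (w : G) x.2 w.2 hxG hwG
          hconjG
        exact Subtype.ext this
      have hle := le_centralizer_of_cyclic q Q' hQ'p hQ'cyc (Subgroup.zpowers x) hQ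
        (by rw [Nat.card_zpowers, hx]; exact (Nat.coprime_primes hp hq).mpr (Ne.symm hqp))
        w hwQ' hw1 (by
          intro a ha
          obtain ⟨i, rfl⟩ := Subgroup.mem_zpowers_iff.mp ha
          exact ((Commute.zpow_left (show Commute x w from hcomm) i)).eq)
      intro y hy
      rw [Subgroup.mem_centralizer_iff]
      intro h hh
      rw [Set.mem_singleton_iff] at hh
      subst hh
      exact (Subgroup.mem_centralizer_iff.mp (hle (Subgroup.mem_zpowers h)) y hy).symm
    -- card H ∣ card C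
    have hcardHM : Nat.card M * Nat.card (P : Subgroup H) = Nat.card H := hcompl.card_mul_card
    have hdvd : Nat.card H ∣ Nat.card (Subgroup.centralizer ({x} : Set H)) := by
      rw [← Nat.factorization_prime_le_iff_dvd Nat.card_pos.ne' Nat.card_pos.ne']
      intro r hr
      haveI : Fact r.Prime := ⟨hr⟩
      rw [← hr.pow_dvd_iff_le_factorization Nat.card_pos.ne']
      by_cases hrp : r = p
      · subst hrp
        have h1 : Nat.card (P : Subgroup H) = r ^ (Nat.card H).factorization r :=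
          Sylow.card_eq_multiplicity P
        rw [← h1]
        exact Subgroup.card_dvd_of_le hPC
      · obtain ⟨Q', hQ'card, hQ'C⟩ := key r hrp
        have h1 : r ^ (Nat.card H).factorization r ∣ Nat.card M * Nat.card (P : Subgroup H) := by
          rw [hcardHM]; exact Nat.ordProj_dvd _ _
        have h2 : Nat.Coprime (r ^ (Nat.card H).factorization r) (Nat.card (P : Subgroup H)) := by
          obtain ⟨n, hn⟩ := IsPGroup.iff_card.mp P.isPGroup'
          rw [hn]
          exact Nat.Coprime.pow _ _ ((Nat.coprime_primes hr hp).mpr hrp)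
        have h3 : r ^ (Nat.card H).factorization r ∣ Nat.card M := h2.dvd_of_dvd_mul_right h1
        have h4 : (Nat.card H).factorization r ≤ (Nat.card M).factorization r :=
          (hr.pow_dvd_iff_le_factorization Nat.card_pos.ne').mp h3
        exact (pow_dvd_pow r h4).trans (hQ'card ▸ Subgroup.card_dvd_of_le hQ'C)
    have hCtop : Subgroup.centralizer ({x} : Set H) = ⊤ :=
      Subgroup.eq_top_of_le_card _ (Nat.le_of_dvd Nat.card_pos hdvd)
    intro hbot
    have hmem : x ∈ Subgroup.center H := by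
      rw [Subgroup.mem_center_iff]
      intro g
      have hg : g ∈ Subgroup.centralizer ({x} : Set H) := by rw [hCtop]; trivial
      exact (Subgroup.mem_centralizer_iff.mp hg x (Set.mem_singleton x)).symm
    rw [hbot, Subgroup.mem_bot] at hmem
    exact hx1 hmem

end Cfsg.Agent.S0069
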