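import Cfsg.Statements.S0038
import Cfsg.Agent.S0037
import Cfsg.Agent.S0039
import Cfsg.Agent.S0069
import Cfsg.Agent.Lib.Helper23.FrobSemi

set_option autoImplicit false
open Pointwise
open Cfsg

namespace Cfsg.Agent.S0038

open Cfsg.Agent.Lib.Helper23.FrobSemi

theorem frob_conj {G : Type*} [Group G] (H₀ : Subgroup G) (hH₀ : Cfsg.IsFrobeniusComplement H₀)
    (g : G) : Cfsg.IsFrobeniusComplement (MulAut.conj g • H₀) := by
  rw [isFrobeniusComplement_iff] at hH₀ ⊢
  obtain ⟨h1, h2, h3⟩ := hH₀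
  refine ⟨?_, ?_, ?_⟩
  · intro hbot
    apply h1
    rw [eq_bot_iff]
    intro x hx
    have hmem : g * x * g⁻¹ ∈ MulAut.conj g • H₀ := by
      rw [mem_conj_smul]
      have e : g⁻¹ * (g * x * g⁻¹) * g = x := by group
      rw [e]; exact hx
    rw [hbot, Subgroup.mem_bot] at hmem
    rw [Subgroup.mem_bot]
    have e : x = g⁻¹ * (g * x * g⁻¹) * g := by group
    rw [e, hmem]; simp
  · intro htop
    apply h2
    rw [eq_top_iff]
    intro x _
    have hmem : g * x * g⁻¹ ∈ MulAut.conj g • H₀ := by rw [htop]; exact Subgroup.mem_top _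
    rw [mem_conj_smul] at hmem
    have e : g⁻¹ * (g * x * g⁻¹) * g = x := by group
    rwa [e] at hmem
  · intro x hx y hy hc
    rw [mem_conj_smul] at hx hy hc
    have hc' : (g⁻¹ * x * g)⁻¹ * (g⁻¹ * y * g) * (g⁻¹ * x * g) ∈ H₀ := by
      have e : (g⁻¹ * x * g)⁻¹ * (g⁻¹ * y * g) * (g⁻¹ * x * g) = g⁻¹ * (x⁻¹ * y * x) * g := by
        group
      rw [e]; exact hc
    have h4 := h3 (g⁻¹ * x * g) hx (g⁻¹ * y * g) hy hc'
    have e : y = g * (g⁻¹ * y * g) * g⁻¹ := by group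
    rw [e, h4]; simp

/-- A Frobenius complement contained in another Frobenius complement equals it. -/
theorem eq_of_le {G : Type*} [Group G] [Finite G] (H H₁ : Subgroup G)
    (hH : Cfsg.IsFrobeniusComplement H) (hH₁ : Cfsg.IsFrobeniusComplement H₁) (hle : H₁ ≤ H) :
    H₁ = H := by
  by_contra hne
  obtain ⟨N, hNset, hNn, hNc⟩ := Cfsg.Agent.S0035.result H hH
  have hNbot : N ≠ ⊥ := by
    intro h
    rw [h, Subgroup.isComplement'_bot_left] at hNc
    exact hH.2.1 hNc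
  have hfpf := (Cfsg.Agent.S0039.result N H hNc hNbot hH.1).1 hH
  have hcen := Cfsg.Agent.S0069.result N H hNc hNbot hH.1 hfpf
  apply hcen
  rw [eq_bot_iff]
  intro z hz
  rw [Subgroup.mem_bot]
  rw [isFrobeniusComplement_iff] at hH₁
  obtain ⟨h1, h2, h3⟩ := hH₁
  have hzc : ∀ k : H, k * z = z * k := fun k => Subgroup.mem_center_iff.1 hz k
  have hzH₁ : (z : G) ∈ H₁ := by
    by_contra hzn
    apply h1
    rw [eq_bot_iff]
    intro x hx
    rw [Subgroup.mem_bot]
    apply h3 (z : G) hzn x hx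
    have h' : x * (z : G) = (z : G) * x := congrArg Subtype.val (hzc ⟨x, hle hx⟩)
    have e : (z : G)⁻¹ * x * z = x := by
      rw [mul_assoc, h', ← mul_assoc, inv_mul_cancel, one_mul]
    rw [e]; exact hx
  obtain ⟨g, hgH, hgH₁⟩ : ∃ g ∈ H, g ∉ H₁ := by
    by_contra hcon
    push Not at hcon
    exact hne (le_antisymm hle hcon)
  have h4 := h3 g hgH₁ (z : G) hzH₁ (by
    have h' : g * (z : G) = (z : G) * g := congrArg Subtype.val (hzc ⟨g, hgH⟩)
    rw [mul_assoc, ← h', ← mul_assoc, inv_mul_cancel, one_mul]; exact hzH₁)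
  exact Subtype.ext h4

/-- All Frobenius complements of a finite group are conjugate to one another. -/
theorem result {G : Type*} [Group G] [Finite G] (H H₀ : Subgroup G)
    (hH : Cfsg.IsFrobeniusComplement H) (hH₀ : Cfsg.IsFrobeniusComplement H₀) :
    ∃ g : G, MulAut.conj g • H₀ = H := by
  rcases le_total (Nat.card H₀) (Nat.card H) with hle | hle
  · obtain ⟨g, hg⟩ := Cfsg.Agent.S0037.result H H₀ hH hH₀ hle
    exact ⟨g, eq_of_le H _ hH (frob_conj H₀ hH₀ g) hg⟩
  · obtain ⟨g, hg⟩ := Cfsg.Agent.S0037.result H₀ H hH₀ hH hle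
    have h1 := eq_of_le H₀ _ hH₀ (frob_conj H hH g) hg
    refine ⟨g⁻¹, ?_⟩
    rw [← h1, map_inv, inv_smul_smul]

end Cfsg.Agent.S0038
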