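import Cfsg.Statements.S0047
import Mathlib

set_option autoImplicit false
open Cfsg
open scoped commutatorElement

namespace Cfsg.Agent.S0047

section
variable {G : Type*} [Group G] (A B : Subgroup G)

def gens : Set G := {x | ∃ a ∈ A, ∃ b ∈ B, ⁅a, b⁆ = x}

variable {A B}

theorem comm_A [hA : IsMulCommutative A] {a a' : G} (ha : a ∈ A) (ha' : a' ∈ A) : a * a' = a' * a :=
  congrArg Subtype.val (hA.is_comm.comm (⟨a, ha⟩ : A) ⟨a', ha'⟩)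

theorem exists_BA (hAB : ∀ g : G, ∃ a ∈ A, ∃ b ∈ B, g = a * b) (g : G) :
    ∃ b ∈ B, ∃ a ∈ A, g = b * a := by
  obtain ⟨a, ha, b, hb, h⟩ := hAB g⁻¹
  refine ⟨b⁻¹, B.inv_mem hb, a⁻¹, A.inv_mem ha, ?_⟩
  rw [← mul_inv_rev, ← h, inv_inv]

theorem comm_right [IsMulCommutative A] {a a₂ : G} (ha : a ∈ A) (ha₂ : a₂ ∈ A) (b₂ : G) :
    ⁅a, b₂ * a₂⁆ = ⁅a, b₂⁆ := by
  have h : a₂ * a⁻¹ = a⁻¹ * a₂ := comm_A ha₂ (A.inv_mem ha)
  simp only [commutatorElement_def, mul_inv_rev]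
  calc a * (b₂ * a₂) * a⁻¹ * (a₂⁻¹ * b₂⁻¹) = a * b₂ * (a₂ * a⁻¹) * a₂⁻¹ * b₂⁻¹ := by group
    _ = a * b₂ * (a⁻¹ * a₂) * a₂⁻¹ * b₂⁻¹ := by rw [h]
    _ = a * b₂ * a⁻¹ * b₂⁻¹ := by group

theorem comm_left [IsMulCommutative B] {b b₃ : G} (hb : b ∈ B) (hb₃ : b₃ ∈ B) (a₃ : G) :
    ⁅a₃ * b₃, b⁆ = ⁅a₃, b⁆ := by
  have h : b₃ * b = b * b₃ := comm_A hb₃ hb
  simp only [commutatorElement_def, mul_inv_rev]
  calc a₃ * b₃ * b * (b₃⁻¹ * a₃⁻¹) * b⁻¹ = a₃ * (b₃ * b) * b₃⁻¹ * a₃⁻¹ * b⁻¹ := by group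
    _ = a₃ * (b * b₃) * b₃⁻¹ * a₃⁻¹ * b⁻¹ := by rw [h]
    _ = a₃ * b * a₃⁻¹ * b⁻¹ := by group

theorem conj_comm (g x y : G) : g * ⁅x, y⁆ * g⁻¹ = ⁅g * x * g⁻¹, g * y * g⁻¹⁆ := by
  simp only [commutatorElement_def]; group

theorem key [IsMulCommutative A] [IsMulCommutative B]
    (hAB : ∀ g : G, ∃ a ∈ A, ∃ b ∈ B, g = a * b) {a a₁ b b₁ : G} (ha : a ∈ A) (ha₁ : a₁ ∈ A)
    (hb : b ∈ B) (hb₁ : b₁ ∈ B) :
    (b₁ * a₁) * ⁅a, b⁆ * (b₁ * a₁)⁻¹ = (a₁ * b₁) * ⁅a, b⁆ * (a₁ * b₁)⁻¹ := by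
  obtain ⟨b₂, hb₂, a₂, ha₂, h2⟩ := exists_BA hAB (a₁ * b * a₁⁻¹)
  obtain ⟨a₃, ha₃, b₃, hb₃, h3⟩ := hAB (b₁ * a * b₁⁻¹)
  have e1 : a₁ * a * a₁⁻¹ = a := by rw [comm_A ha₁ ha, mul_inv_cancel_right]
  have e2 : b₁ * b * b₁⁻¹ = b := by rw [comm_A hb₁ hb, mul_inv_cancel_right]
  have e3 : b₁ * b₂ * b₁⁻¹ = b₂ := by rw [comm_A hb₁ hb₂, mul_inv_cancel_right]
  have e4 : a₁ * a₃ * a₁⁻¹ = a₃ := by rw [comm_A ha₁ ha₃, mul_inv_cancel_right]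
  have hX : (b₁ * a₁) * ⁅a, b⁆ * (b₁ * a₁)⁻¹ = ⁅a₃, b₂⁆ := by
    calc (b₁ * a₁) * ⁅a, b⁆ * (b₁ * a₁)⁻¹ = b₁ * (a₁ * ⁅a, b⁆ * a₁⁻¹) * b₁⁻¹ := by group
      _ = b₁ * ⁅a, b₂ * a₂⁆ * b₁⁻¹ := by rw [conj_comm, e1, h2]
      _ = b₁ * ⁅a, b₂⁆ * b₁⁻¹ := by rw [comm_right ha ha₂]
      _ = ⁅a₃ * b₃, b₂⁆ := by rw [conj_comm, h3, e3]
      _ = ⁅a₃, b₂⁆ := comm_left hb₂ hb₃ a₃
  have hY : (a₁ * b₁) * ⁅a, b⁆ * (a₁ * b₁)⁻¹ = ⁅a₃, b₂⁆ := by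
    calc (a₁ * b₁) * ⁅a, b⁆ * (a₁ * b₁)⁻¹ = a₁ * (b₁ * ⁅a, b⁆ * b₁⁻¹) * a₁⁻¹ := by group
      _ = a₁ * ⁅a₃ * b₃, b⁆ * a₁⁻¹ := by rw [conj_comm, e2, h3]
      _ = a₁ * ⁅a₃, b⁆ * a₁⁻¹ := by rw [comm_left hb hb₃]
      _ = ⁅a₃, b₂ * a₂⁆ := by rw [conj_comm, e4, h2]
      _ = ⁅a₃, b₂⁆ := comm_right ha₃ ha₂ b₂
  rw [hX, hY]

theorem gens_commute [IsMulCommutative A] [IsMulCommutative B]
    (hAB : ∀ g : G, ∃ a ∈ A, ∃ b ∈ B, g = a * b) {x y : G} (hx : x ∈ gens A B) (hy : y ∈ gens A B) :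
    x * y = y * x := by
  obtain ⟨a, ha, b, hb, rfl⟩ := hx
  obtain ⟨a₁, ha₁, b₁, hb₁, rfl⟩ := hy
  have h := key hAB ha (A.inv_mem ha₁) hb (B.inv_mem hb₁)
  have hz : ⁅b₁, a₁⁆ * ⁅a, b⁆ = ⁅a, b⁆ * ⁅b₁, a₁⁆ := by
    have h2 : ⁅b₁, a₁⁆ = (a₁⁻¹ * b₁⁻¹)⁻¹ * (b₁⁻¹ * a₁⁻¹) := by
      simp only [commutatorElement_def]; group
    rw [h2]
    have h3 : (a₁⁻¹ * b₁⁻¹)⁻¹ * (b₁⁻¹ * a₁⁻¹) * ⁅a, b⁆ =
        (a₁⁻¹ * b₁⁻¹)⁻¹ * ((b₁⁻¹ * a₁⁻¹) * ⁅a, b⁆ * (b₁⁻¹ * a₁⁻¹)⁻¹) * (b₁⁻¹ * a₁⁻¹) := by group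
    rw [h3, h]
    group
  have hy : ⁅a₁, b₁⁆ = ⁅b₁, a₁⁆⁻¹ := by simp only [commutatorElement_def]; group
  rw [hy]
  calc ⁅a, b⁆ * ⁅b₁, a₁⁆⁻¹ = ⁅b₁, a₁⁆⁻¹ * (⁅b₁, a₁⁆ * ⁅a, b⁆) * ⁅b₁, a₁⁆⁻¹ := by group
    _ = ⁅b₁, a₁⁆⁻¹ * (⁅a, b⁆ * ⁅b₁, a₁⁆) * ⁅b₁, a₁⁆⁻¹ := by rw [hz]
    _ = ⁅b₁, a₁⁆⁻¹ * ⁅a, b⁆ := by group

theorem gens_conj [IsMulCommutative A] [IsMulCommutative B]
    (hAB : ∀ g : G, ∃ a ∈ A, ∃ b ∈ B, g = a * b) (g : G) {x : G} (hx : x ∈ gens A B) :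
    g * x * g⁻¹ ∈ gens A B := by
  have hA : ∀ a₁ ∈ A, ∀ x ∈ gens A B, a₁ * x * a₁⁻¹ ∈ gens A B := by
    rintro a₁ ha₁ _ ⟨a, ha, b, hb, rfl⟩
    obtain ⟨b₂, hb₂, a₂, ha₂, h2⟩ := exists_BA hAB (a₁ * b * a₁⁻¹)
    have e1 : a₁ * a * a₁⁻¹ = a := by rw [comm_A ha₁ ha, mul_inv_cancel_right]
    refine ⟨a, ha, b₂, hb₂, ?_⟩
    rw [conj_comm, e1, h2, comm_right ha ha₂]
  have hB : ∀ b₁ ∈ B, ∀ x ∈ gens A B, b₁ * x * b₁⁻¹ ∈ gens A B := by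
    rintro b₁ hb₁ _ ⟨a, ha, b, hb, rfl⟩
    obtain ⟨a₃, ha₃, b₃, hb₃, h3⟩ := hAB (b₁ * a * b₁⁻¹)
    have e2 : b₁ * b * b₁⁻¹ = b := by rw [comm_A hb₁ hb, mul_inv_cancel_right]
    refine ⟨a₃, ha₃, b, hb, ?_⟩
    rw [conj_comm, e2, h3, comm_left hb hb₃]
  obtain ⟨a, ha, b, hb, rfl⟩ := hAB g
  have := hA a ha _ (hB b hb x hx)
  have e : a * b * x * (a * b)⁻¹ = a * (b * x * b⁻¹) * a⁻¹ := by group
  rw [e]; exact this

end

/-- A finite group which is the product AB of two abelian subgroups A and B is solvable. -/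
theorem result {G : Type*} [Group G] [Finite G] (A B : Subgroup G)
    [IsMulCommutative A] [IsMulCommutative B] (hAB : ∀ g : G, ∃ a ∈ A, ∃ b ∈ B, g = a * b) :
    Group.IsSolvable G := by
  have hDn : (Subgroup.closure (gens A B)).Normal := by
    constructor
    intro n hn g
    have h1 : g * n * g⁻¹ ∈ (Subgroup.closure (gens A B)).map (MulAut.conj g).toMonoidHom :=
      ⟨n, hn, rfl⟩
    rw [MonoidHom.map_closure] at h1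
    refine (Subgroup.closure_mono ?_) h1
    rintro _ ⟨x, hx, rfl⟩
    exact gens_conj hAB g hx
  have hDc : Subgroup.closure (gens A B) ≤ Subgroup.centralizer (Subgroup.closure (gens A B) : Set G) := by
    rw [Subgroup.closure_le]
    intro x hx
    rw [SetLike.mem_coe, Subgroup.mem_centralizer_iff]
    intro y hy
    have h1 : Subgroup.closure (gens A B) ≤ Subgroup.centralizer {x} := by
      rw [Subgroup.closure_le]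
      intro z hz
      rw [SetLike.mem_coe, Subgroup.mem_centralizer_iff]
      intro w hw
      rw [Set.mem_singleton_iff] at hw
      rw [hw]
      exact gens_commute hAB hx hz
    have h2 := Subgroup.mem_centralizer_iff.1 (h1 hy) x (Set.mem_singleton x)
    exact h2.symm
  have hcomm : IsMulCommutative (G ⧸ Subgroup.closure (gens A B)) := by
    have hAB' : ∀ a ∈ A, ∀ b ∈ B,
        (QuotientGroup.mk a : G ⧸ Subgroup.closure (gens A B)) * QuotientGroup.mk b =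
          QuotientGroup.mk b * QuotientGroup.mk a := by
      intro a ha b hb
      rw [← QuotientGroup.mk_mul, ← QuotientGroup.mk_mul, QuotientGroup.eq]
      have : (a * b)⁻¹ * (b * a) = ⁅b⁻¹, a⁻¹⁆ := by simp only [commutatorElement_def]; group
      rw [this]
      have h3 : ⁅b⁻¹, a⁻¹⁆ = ⁅a⁻¹, b⁻¹⁆⁻¹ := by simp only [commutatorElement_def]; group
      rw [h3]
      exact Subgroup.inv_mem _ (Subgroup.subset_closure ⟨a⁻¹, A.inv_mem ha, b⁻¹, B.inv_mem hb, rfl⟩)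
    refine ⟨⟨fun x y => ?_⟩⟩
    obtain ⟨x, rfl⟩ := QuotientGroup.mk_surjective x
    obtain ⟨y, rfl⟩ := QuotientGroup.mk_surjective y
    obtain ⟨a, ha, b, hb, rfl⟩ := hAB x
    obtain ⟨a', ha', b', hb', rfl⟩ := hAB y
    simp only [QuotientGroup.mk_mul]
    have e1 := hAB' a' ha' b hb
    have e2 := hAB' a ha b' hb'
    have e3 : (QuotientGroup.mk a : G ⧸ Subgroup.closure (gens A B)) * QuotientGroup.mk a' =
        QuotientGroup.mk a' * QuotientGroup.mk a := by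
      rw [← QuotientGroup.mk_mul, ← QuotientGroup.mk_mul, comm_A ha ha']
    have e4 : (QuotientGroup.mk b : G ⧸ Subgroup.closure (gens A B)) * QuotientGroup.mk b' =
        QuotientGroup.mk b' * QuotientGroup.mk b := by
      rw [← QuotientGroup.mk_mul, ← QuotientGroup.mk_mul, comm_A hb hb']
    calc (QuotientGroup.mk a : G ⧸ Subgroup.closure (gens A B)) * QuotientGroup.mk b *
          (QuotientGroup.mk a' * QuotientGroup.mk b')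
        = QuotientGroup.mk a * (QuotientGroup.mk b * QuotientGroup.mk a') * QuotientGroup.mk b' := by
          group
      _ = QuotientGroup.mk a * (QuotientGroup.mk a' * QuotientGroup.mk b) * QuotientGroup.mk b' := by
          rw [e1]
      _ = (QuotientGroup.mk a * QuotientGroup.mk a') * (QuotientGroup.mk b * QuotientGroup.mk b') := by
          group
      _ = (QuotientGroup.mk a' * QuotientGroup.mk a) * (QuotientGroup.mk b' * QuotientGroup.mk b) := by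
          rw [e3, e4]
      _ = QuotientGroup.mk a' * (QuotientGroup.mk a * QuotientGroup.mk b') * QuotientGroup.mk b := by
          group
      _ = QuotientGroup.mk a' * (QuotientGroup.mk b' * QuotientGroup.mk a) * QuotientGroup.mk b := by
          rw [e2]
      _ = QuotientGroup.mk a' * QuotientGroup.mk b' * (QuotientGroup.mk a * QuotientGroup.mk b) := by
          group
  have hle : commutator G ≤ Subgroup.closure (gens A B) :=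
    Subgroup.Normal.quotient_commutative_iff_commutator_le.1 hcomm
  rw [Group.isSolvable_def]
  refine ⟨2, ?_⟩
  rw [derivedSeries_succ, derivedSeries_one, eq_bot_iff]
  calc ⁅commutator G, commutator G⁆ ≤ ⁅Subgroup.closure (gens A B), Subgroup.closure (gens A B)⁆ :=
        Subgroup.commutator_mono hle hle
    _ = ⊥ := Subgroup.commutator_eq_bot_iff_le_centralizer.2 hDc

end Cfsg.Agent.S0047
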