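import Cfsg.Statements.S0049
import Mathlib

set_option autoImplicit false
open Cfsg

namespace Cfsg.Agent.S0049

/-- A prime divisor of the order of a finite group also divides the index of the Frattini subgroup. -/
theorem result {G : Type*} [Group G] [Finite G] (p : ℕ) (hp : p.Prime) (hdvd : p ∣ Nat.card G) :
    p ∣ (frattini G).index := by
  by_contra hnd
  have : Fact p.Prime := ⟨hp⟩
  have hnil : Group.IsNilpotent (frattini G) := frattini_nilpotent
  obtain ⟨P⟩ : Nonempty (Sylow p (frattini G)) := inferInstance
  have hPn : (P : Subgroup (frattini G)).Normal := inferInstance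
  have hPc : (P : Subgroup (frattini G)).Characteristic := Sylow.characteristic_of_normal P hPn
  have hQn : ((P : Subgroup (frattini G)).map (frattini G).subtype).Normal := inferInstance
  have hQp : IsPGroup p ((P : Subgroup (frattini G)).map (frattini G).subtype) := P.isPGroup'.map _
  have hfac : (Nat.card (frattini G)).factorization p = (Nat.card G).factorization p := by
    rw [← Subgroup.card_mul_index (frattini G), Nat.factorization_mul Nat.card_pos.ne'
      Subgroup.index_ne_zero_of_finite, Finsupp.add_apply, Nat.factorization_eq_zero_of_not_dvd hnd,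
      add_zero]
  have hQcard : Nat.card ((P : Subgroup (frattini G)).map (frattini G).subtype) =
      p ^ (Nat.card G).factorization p := by
    rw [Subgroup.card_map_of_injective (frattini G).subtype_injective, Sylow.card_eq_multiplicity, hfac]
  obtain ⟨S, hS⟩ := hQp.exists_le_sylow
  have hSQ : (P : Subgroup (frattini G)).map (frattini G).subtype = (S : Subgroup G) := by
    apply Subgroup.eq_of_le_of_card_ge hS
    rw [hQcard, Sylow.card_eq_multiplicity]
  have hSn : (S : Subgroup G).Normal := hSQ ▸ hQn
  obtain ⟨H, hH⟩ := Subgroup.exists_right_complement'_of_coprime S.card_coprime_index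
  have hle : (S : Subgroup G) ≤ frattini G := by
    rw [← hSQ]; exact Subgroup.map_subtype_le _
  have hsup : H ⊔ frattini G = ⊤ := by
    rw [eq_top_iff, ← hH.sup_eq_top, sup_comm]
    exact sup_le_sup_left hle H
  have hHtop : H = ⊤ := frattini_nongenerating hsup
  rw [hHtop, Subgroup.isComplement'_top_right] at hH
  have hcard1 : Nat.card (S : Subgroup G) = 1 := by rw [hH]; exact Subgroup.card_bot
  rw [Sylow.card_eq_multiplicity] at hcard1
  have hzero : (Nat.card G).factorization p = 0 := by
    by_contra h0
    have := Nat.one_lt_pow h0 hp.one_lt
    omega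
  have := (hp.dvd_iff_one_le_factorization Nat.card_pos.ne').1 hdvd
  omega

end Cfsg.Agent.S0049
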