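import Cfsg.Statements.S0050
import Cfsg.Agent.Lib.Lead.Hall

set_option autoImplicit false
open Pointwise
open Cfsg

namespace Cfsg.Agent.S0050

open Cfsg.Agent.Lib.Lead.Cores Cfsg.Agent.Lib.Lead.Hall in
/-- Frattini argument for Hall subgroups: if L is a solvable normal subgroup and H a subgroup of L of order coprime to its index in L, then L together with the normaliser of H generates the whole group. -/
theorem result {G : Type*} [Group G] [Finite G] (L : Subgroup G) [L.Normal] (hL : Group.IsSolvable L)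
    (H : Subgroup G) (hHL : H ≤ L) (hHall : (Nat.card H).Coprime (H.relIndex L)) :
    L ⊔ Subgroup.normalizer (H : Set G) = ⊤ := by
  rw [eq_top_iff]
  intro g _
  have hKL : MulAut.conj g • H ≤ L := by
    intro x hx
    rw [Subgroup.mem_pointwise_smul_iff_inv_smul_mem] at hx
    have hx' : g⁻¹ * x * g ∈ H := by simpa [MulAut.smul_def] using hx
    have h1 := ‹L.Normal›.conj_mem _ (hHL hx') g
    have h2 : g * (g⁻¹ * x * g) * g⁻¹ = x := by group
    rwa [h2] at h1
  have hcardH : Nat.card (H.subgroupOf L) = Nat.card H :=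
    Nat.card_congr (Subgroup.subgroupOfEquivOfLe hHL).toEquiv
  have hcardK : Nat.card ((MulAut.conj g • H).subgroupOf L) = Nat.card H := by
    rw [Nat.card_congr (Subgroup.subgroupOfEquivOfLe hKL).toEquiv, card_smul_conj]
  have hLc : Nat.card L = Nat.card H * H.relIndex L := (card_mul_relIndex_of_le hHL).symm
  obtain ⟨l, hl⟩ := hall_conj (G := L) (Nat.card H) (H.relIndex L) hLc hHall _ _ hcardK hcardH
  have hn : (l : G) * g ∈ Subgroup.normalizer (H : Set G) := by
    apply Subgroup.mem_normalizer_fintype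
    intro h hh
    have h1 : g * h * g⁻¹ ∈ MulAut.conj g • H := by
      rw [Subgroup.mem_pointwise_smul_iff_inv_smul_mem]
      simpa [MulAut.smul_def, mul_assoc] using hh
    have h2 : (⟨g * h * g⁻¹, hKL h1⟩ : L) ∈ (MulAut.conj g • H).subgroupOf L :=
      Subgroup.mem_subgroupOf.2 h1
    have h3 := Subgroup.smul_mem_pointwise_smul _ (MulAut.conj l) _ h2
    rw [hl] at h3
    have h4 := Subgroup.mem_subgroupOf.1 h3
    have h5 : ((MulAut.conj l • (⟨g * h * g⁻¹, hKL h1⟩ : L) : L) : G) = (l : G) * g * h * ((l : G) * g)⁻¹ := by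
      simp only [MulAut.smul_def, MulAut.conj_apply, Subgroup.coe_mul, Subgroup.coe_inv]
      group
    rw [h5] at h4
    exact h4
  have hg : g = (l : G)⁻¹ * ((l : G) * g) := by group
  rw [hg]
  exact Subgroup.mul_mem _ ((le_sup_left : L ≤ L ⊔ Subgroup.normalizer (H : Set G)) (L.inv_mem l.2))
    ((le_sup_right : Subgroup.normalizer (H : Set G) ≤ L ⊔ Subgroup.normalizer (H : Set G)) hn)

end Cfsg.Agent.S0050
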