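import Mathlib
import Cfsg.Statements.S0052
import Cfsg.Agent.Lib.Lead.Gaschutz

set_option autoImplicit false
set_option linter.style.haveILetI false
open Cfsg
open scoped IsMulCommutative
open scoped Pointwise

namespace Cfsg.Agent.S0052

open Cfsg.Agent.Lib.Lead.Gaschutz in
/-- Gaschütz's Theorem, conjugacy: for an abelian normal subgroup K ≤ U with the order of K coprime to the index of U, two complements of K in G having the same intersection with U are conjugate. -/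
theorem result {G : Type*} [Group G] [Finite G] (K U : Subgroup G) [K.Normal] [IsMulCommutative K]
    (hKU : K ≤ U) (hcop : (Nat.card K).Coprime U.index)
    (H₀ H₁ : Subgroup G) (h₀ : Subgroup.IsComplement' K H₀) (h₁ : Subgroup.IsComplement' K H₁) (hU : H₀ ⊓ U = H₁ ⊓ U) :
    ∃ g : G, MulAut.conj g • H₀ = H₁ := by
  obtain ⟨F₀, hF₀, hF₀K, hF₀H⟩ := exists_crossed_of_complement K H₀ h₀
  obtain ⟨F₁, hF₁, hF₁K, hF₁H⟩ := exists_crossed_of_complement K H₁ h₁
  have hd : IsCrossed K (fun g => F₁ g * (F₀ g)⁻¹) := by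
    intro g h
    change F₁ (g * h) * (F₀ (g * h))⁻¹
      = F₁ g * (F₀ g)⁻¹ * MulAut.conjNormal g (F₁ h * (F₀ h)⁻¹)
    rw [hF₁, hF₀, map_mul, map_inv, mul_inv]
    exact mul_mul_mul_comm _ _ _ _
  have hdU : ∀ u ∈ U, F₁ u * (F₀ u)⁻¹ = 1 := by
    intro u hu
    have hx0 : F₀ (((F₀ u)⁻¹ : K) * u) = 1 := by
      rw [hF₀, hF₀K, conjNormal_self, inv_mul_cancel]
    have hx : (((F₀ u)⁻¹ : K) : G) * u ∈ H₀ ⊓ U :=
      Subgroup.mem_inf.2 ⟨(hF₀H _).1 hx0, U.mul_mem (hKU ((F₀ u)⁻¹ : K).2) hu⟩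
    rw [hU] at hx
    have hx1 : F₁ (((F₀ u)⁻¹ : K) * u) = 1 := (hF₁H _).2 (Subgroup.mem_inf.1 hx).1
    have hu' : u = ((F₀ u : K) : G) * ((((F₀ u)⁻¹ : K) : G) * u) := by
      rw [Subgroup.coe_inv, mul_inv_cancel_left]
    have h2 : F₁ u = F₀ u := by
      conv_lhs => rw [hu']
      rw [hF₁, hF₁K, hx1, map_one, mul_one]
    rw [h2, mul_inv_cancel]
  obtain ⟨c, hc⟩ := exists_coboundary K U hcop _ hd hdU
  have key : ∀ h ∈ H₀, F₁ (((c⁻¹ : K) : G) * h * (c : G)) = 1 := by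
    intro h hh
    have h3 : F₁ h = c * MulAut.conjNormal h c⁻¹ := by
      have := hc h
      rw [(hF₀H h).2 hh, inv_one, mul_one] at this
      exact this
    rw [mul_assoc, hF₁, hF₁K, conjNormal_self, hF₁, hF₁K, h3, mul_assoc, ← map_mul,
      inv_mul_cancel, map_one, mul_one, inv_mul_cancel]
  refine ⟨((c⁻¹ : K) : G), ?_⟩
  apply Subgroup.eq_of_le_of_card_ge
  · rintro _ ⟨h, hh, rfl⟩
    apply (hF₁H _).1
    have e : (MulAut.conj ((c⁻¹ : K) : G)) h = ((c⁻¹ : K) : G) * h * (c : G) := by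
      rw [MulAut.conj_apply, Subgroup.coe_inv, inv_inv]
    change F₁ ((MulAut.conj ((c⁻¹ : K) : G)) h) = 1
    rw [e]
    exact key h hh
  · have e1 : Nat.card H₁ = K.index := h₁.symm.index_eq_card.symm
    have e0 : Nat.card H₀ = K.index := h₀.symm.index_eq_card.symm
    have e2 : Nat.card (MulAut.conj ((c⁻¹ : K) : G) • H₀ : Subgroup G) = Nat.card H₀ :=
      (Nat.card_congr (Subgroup.equivSMul (MulAut.conj ((c⁻¹ : K) : G)) H₀).toEquiv).symm
    rw [e1, e2, e0]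

end Cfsg.Agent.S0052
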