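import Mathlib
import Cfsg.Statements.S0053

set_option autoImplicit false
open Cfsg
open scoped Pointwise

namespace Cfsg.Agent.S0053

/-- An abelian minimal normal subgroup N of a finite group is complemented exactly when N is not inside the Frattini subgroup. -/
theorem result {G : Type*} [Group G] [Finite G]
    (N : Subgroup G) [N.Normal] [IsMulCommutative N] (hN : N ≠ ⊥)
    (hmin : ∀ M : Subgroup G, M.Normal → M ≤ N → M = ⊥ ∨ M = N) :
    (∃ H : Subgroup G, Subgroup.IsComplement' N H) ↔ ¬ N ≤ frattini G := by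
  constructor
  · rintro ⟨H, hH⟩ hle
    have hHtop : H ≠ ⊤ := by
      rintro rfl
      have := hH.disjoint.eq_bot
      rw [inf_top_eq] at this
      exact hN this
    obtain ⟨M, hM, hHM⟩ := (eq_top_or_exists_le_coatom H).resolve_left hHtop
    have h1 : N ⊔ H ≤ M := sup_le (hle.trans (frattini_le_coatom hM)) hHM
    rw [hH.sup_eq_top, top_le_iff] at h1
    exact hM.1 h1
  · intro hle
    have h1 : ∃ M : Subgroup G, IsCoatom M ∧ ¬ N ≤ M := by
      by_contra hcon
      push Not at hcon
      apply hle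
      change N ≤ Order.radical (Subgroup G)
      unfold Order.radical
      exact le_iInf₂ (fun M hM => hcon M hM)
    obtain ⟨M, hM, hNM⟩ := h1
    have hsup : N ⊔ M = ⊤ := by
      by_contra hcon
      have h2 : M < N ⊔ M := lt_of_le_of_ne le_sup_right (fun h => hNM (h ▸ le_sup_left))
      exact hcon (hM.2 _ h2)
    have hmul : ∀ g : G, ∃ n ∈ N, ∃ m ∈ M, g = n * m := by
      intro g
      have h3 : g ∈ ((N ⊔ M : Subgroup G) : Set G) := by rw [hsup]; trivial
      rw [Subgroup.normal_mul] at h3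
      obtain ⟨n, hn, m, hm, rfl⟩ := Set.mem_mul.1 h3
      exact ⟨n, hn, m, hm, rfl⟩
    have hDnormal : (N ⊓ M).Normal := by
      constructor
      intro d hd g
      obtain ⟨hdN, hdM⟩ := Subgroup.mem_inf.1 hd
      obtain ⟨n, hn, m, hm, rfl⟩ := hmul g
      have h4 : m * d * m⁻¹ ∈ N := ‹N.Normal›.conj_mem d hdN m
      have h5 : m * d * m⁻¹ ∈ M := M.mul_mem (M.mul_mem hm hdM) (M.inv_mem hm)
      have h6 : n * (m * d * m⁻¹) = (m * d * m⁻¹) * n :=
        congrArg (fun z : N => (z : G))
          (‹IsMulCommutative N›.is_comm.comm ⟨n, hn⟩ ⟨m * d * m⁻¹, h4⟩)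
      have h7 : n * m * d * (n * m)⁻¹ = m * d * m⁻¹ := by
        have : n * m * d * (n * m)⁻¹ = n * (m * d * m⁻¹) * n⁻¹ := by group
        rw [this, h6, mul_inv_cancel_right]
      rw [h7]
      exact Subgroup.mem_inf.2 ⟨h4, h5⟩
    have hD : N ⊓ M = ⊥ := by
      rcases hmin _ hDnormal inf_le_left with h | h
      · exact h
      · exact absurd (h ▸ inf_le_right) hNM
    refine ⟨M, Subgroup.isComplement'_of_disjoint_and_mul_eq_univ (disjoint_iff.2 hD) ?_⟩
    rw [← Subgroup.normal_mul, hsup]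
    rfl

end Cfsg.Agent.S0053
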