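import Mathlib
import Cfsg.Statements.S0054

set_option autoImplicit false
set_option linter.style.haveILetI false
open Cfsg

namespace Cfsg.Agent.S0054

/-- A regular normal subgroup of a finite 2-transitive group is elementary abelian: it is commutative and all its elements have order dividing one prime. -/
theorem result {G : Type*} [Group G] [Finite G]
    {X : Type*} [Nonempty X] [MulAction G X] (h2 : MulAction.IsMultiplyPretransitive G X 2)
    (N : Subgroup G) [N.Normal] (htrans : MulAction.IsPretransitive N X) (hreg : ∀ x : X, MulAction.stabilizer N x = ⊥) :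
    IsMulCommutative N ∧ ∃ p : ℕ, p.Prime ∧ ∀ n ∈ N, n ^ p = 1 := by
  obtain ⟨x₀⟩ := ‹Nonempty X›
  have hfree : ∀ n ∈ N, n • x₀ = x₀ → n = 1 := by
    intro n hn h
    have h1 : (⟨n, hn⟩ : N) ∈ MulAction.stabilizer N x₀ := h
    rw [hreg x₀, Subgroup.mem_bot] at h1
    exact congrArg (fun z : N => (z : G)) h1
  -- any two nonidentity elements of `N` are conjugate in `G`
  have hconj : ∀ n₁ ∈ N, ∀ n₂ ∈ N, n₁ ≠ 1 → n₂ ≠ 1 → ∃ g : G, g * n₁ * g⁻¹ = n₂ := by
    intro n₁ hn₁ n₂ hn₂ h1 h2'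
    have ha : x₀ ≠ n₁ • x₀ := fun h => h1 (hfree n₁ hn₁ h.symm)
    have hb : x₀ ≠ n₂ • x₀ := fun h => h2' (hfree n₂ hn₂ h.symm)
    obtain ⟨g, hg1, hg2⟩ := MulAction.is_two_pretransitive_iff.1 h2 ha hb
    refine ⟨g, ?_⟩
    have h3 : (n₂⁻¹ * (g * n₁ * g⁻¹)) • x₀ = x₀ := by
      have hg1' : g⁻¹ • x₀ = x₀ := by rw [inv_smul_eq_iff, hg1]
      rw [mul_smul, mul_smul, mul_smul, hg1', hg2, inv_smul_smul]
    have h4 := hfree _ (N.mul_mem (N.inv_mem hn₂) (‹N.Normal›.conj_mem n₁ hn₁ g)) h3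
    rw [inv_mul_eq_one] at h4
    exact h4.symm
  by_cases hbot : N = ⊥
  · subst hbot
    refine ⟨⟨⟨fun a b => ?_⟩⟩, 2, Nat.prime_two, ?_⟩
    · have ha : a = 1 := Subsingleton.elim _ _
      have hb : b = 1 := Subsingleton.elim _ _
      rw [ha, hb]
    · intro n hn
      rw [Subgroup.mem_bot] at hn
      rw [hn, one_pow]
  · have hcard : Nat.card N ≠ 1 := fun h => hbot (Subgroup.card_eq_one.1 h)
    obtain ⟨p, hp, hpd⟩ := Nat.exists_prime_and_dvd hcard
    haveI : Fact p.Prime := ⟨hp⟩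
    obtain ⟨n₀, hn₀⟩ := exists_prime_orderOf_dvd_card' p hpd
    have hn₀o : orderOf (n₀ : G) = p := by rw [Subgroup.orderOf_coe, hn₀]
    have hn₀1 : (n₀ : G) ≠ 1 := by
      intro h
      rw [h, orderOf_one] at hn₀o
      exact hp.one_lt.ne hn₀o
    have hpow : ∀ n ∈ N, n ^ p = 1 := by
      intro n hn
      by_cases h1 : n = 1
      · rw [h1, one_pow]
      · obtain ⟨g, rfl⟩ := hconj n₀ n₀.2 n hn hn₀1 h1
        rw [conj_pow, ← hn₀o, pow_orderOf_eq_one, mul_one, mul_inv_cancel]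
    refine ⟨?_, p, hp, hpow⟩
    have hPG : IsPGroup p N := by
      intro n
      refine ⟨1, ?_⟩
      rw [pow_one]
      exact Subtype.ext (by simpa using hpow n n.2)
    haveI : Nontrivial N := (Subgroup.nontrivial_iff_ne_bot N).2 hbot
    haveI := hPG.center_nontrivial
    obtain ⟨z, hz⟩ := exists_ne (1 : Subgroup.center N)
    have hz1 : ((z : N) : G) ≠ 1 := by
      intro h
      apply hz
      exact Subtype.ext (Subtype.ext h)
    have hzc : ∀ m ∈ N, m * ((z : N) : G) = ((z : N) : G) * m := by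
      intro m hm
      have := Subgroup.mem_center_iff.1 z.2 ⟨m, hm⟩
      exact congrArg (fun y : N => (y : G)) this
    refine ⟨⟨fun a b => ?_⟩⟩
    by_cases ha : (a : G) = 1
    · have : a = 1 := Subtype.ext ha
      rw [this, one_mul, mul_one]
    · obtain ⟨g, hg⟩ := hconj _ (z : N).2 _ a.2 hz1 ha
      apply Subtype.ext
      change (a : G) * (b : G) = (b : G) * (a : G)
      have hb' : g⁻¹ * (b : G) * g ∈ N := by
        have := ‹N.Normal›.conj_mem (b : G) b.2 g⁻¹
        rwa [inv_inv] at this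
      have h5 := hzc _ hb'
      rw [← hg]
      calc g * ((z : N) : G) * g⁻¹ * (b : G)
          = g * (((z : N) : G) * (g⁻¹ * (b : G) * g)) * g⁻¹ := by group
        _ = g * ((g⁻¹ * (b : G) * g) * ((z : N) : G)) * g⁻¹ := by rw [h5]
        _ = (b : G) * (g * ((z : N) : G) * g⁻¹) := by group

end Cfsg.Agent.S0054
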