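import Mathlib
import Cfsg.Statements.S0056
import Cfsg.Agent.S0055

set_option autoImplicit false
open Cfsg

namespace Cfsg.Agent.S0056

/-- A coprime action on an abelian group that fixes all elements of prime order is trivial. -/
theorem result {G : Type*} [Group G] [Finite G] (A V : Subgroup G) [IsMulCommutative V]
    (hAV : A ≤ Subgroup.normalizer (V : Set G)) (hcop : (Nat.card A).Coprime (Nat.card V))
    (hΩ : ∀ v ∈ V, (orderOf v).Prime → ∀ a ∈ A, a * v = v * a) : A ≤ Subgroup.centralizer (V : Set G) := by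
  obtain ⟨h1, -⟩ := Cfsg.Agent.S0055.result A V hAV hcop
  rw [← Subgroup.commutator_eq_bot_iff_le_centralizer, Subgroup.commutator_comm]
  by_contra hne
  have hcard : Nat.card (⁅V, A⁆ : Subgroup G) ≠ 1 := by
    intro h
    exact hne (Subgroup.card_eq_one.1 h)
  obtain ⟨p, hp, hpd⟩ := Nat.exists_prime_and_dvd hcard
  haveI : Fact p.Prime := ⟨hp⟩
  obtain ⟨x, hx⟩ := exists_prime_orderOf_dvd_card' p hpd
  have hxo : orderOf (x : G) = p := by rw [Subgroup.orderOf_coe, hx]
  have hxV : (x : G) ∈ V := Cfsg.Agent.S0055.comm_le A V hAV x.2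
  have hxC : (x : G) ∈ Subgroup.centralizer (A : Set G) := by
    rw [Subgroup.mem_centralizer_iff]
    intro a ha
    exact hΩ _ hxV (hxo ▸ hp) a ha
  have hmem : (x : G) ∈ (V ⊓ Subgroup.centralizer (A : Set G)) ⊓ ⁅V, A⁆ :=
    Subgroup.mem_inf.2 ⟨Subgroup.mem_inf.2 ⟨hxV, hxC⟩, x.2⟩
  rw [h1, Subgroup.mem_bot] at hmem
  rw [hmem, orderOf_one] at hxo
  exact hp.one_lt.ne hxo

end Cfsg.Agent.S0056
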