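import Mathlib
import Cfsg.Statements.S0057
import Cfsg.Agent.S0023
import Cfsg.Agent.S0026
import Cfsg.Agent.S0027
import Cfsg.Agent.S0055
import Cfsg.Agent.Lib.Helper10.Coprime

set_option autoImplicit false
set_option linter.style.haveILetI false
open Cfsg
open scoped commutatorElement

namespace Cfsg.Agent.S0057

/-- the `p`-group case: if `[Q, A] = Q` and `C_Q(A)` has index `p` in the `p`-group `Q`,
then `Q` has order `p` and `C_Q(A) = 1`. -/
theorem pgroup_case {G : Type*} [Group G] [Finite G] (A Q : Subgroup G) (p : ℕ) [Fact p.Prime]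
    (hQ : IsPGroup p Q) (hAQ : A ≤ Subgroup.normalizer (Q : Set G))
    (hcop : (Nat.card A).Coprime (Nat.card Q)) (hcomm : ⁅Q, A⁆ = Q)
    (hidx : (Subgroup.centralizer (A : Set G)).relIndex Q = p) :
    Nat.card Q = p ∧ Q ⊓ Subgroup.centralizer (A : Set G) = ⊥ := by
  have hp : p.Prime := Fact.out
  -- `D'` is normal in `Q`
  have hD'idx : ((Subgroup.centralizer (A : Set G)).subgroupOf Q).index = p := hidx
  obtain ⟨n, hn⟩ := hQ.exists_card_eq
  have hn0 : n ≠ 0 := by
    rintro rfl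
    have h1 : ((Subgroup.centralizer (A : Set G)).subgroupOf Q).index ∣ Nat.card Q :=
      Subgroup.index_dvd_card _
    rw [hD'idx, hn, pow_zero, Nat.dvd_one] at h1
    exact hp.one_lt.ne' h1
  have hnormal : ((Subgroup.centralizer (A : Set G)).subgroupOf Q).Normal := by
    apply Subgroup.normal_of_index_eq_minFac_card
    rw [hD'idx, hn, hp.pow_minFac hn0]
  -- `⁅Q, D⁆ ≤ D`
  have hQD : ⁅Q, Q ⊓ Subgroup.centralizer (A : Set G)⁆ ≤ Q ⊓ Subgroup.centralizer (A : Set G) := by
    rw [Subgroup.commutator_le]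
    intro q hq d hd
    obtain ⟨hdQ, hdC⟩ := Subgroup.mem_inf.1 hd
    have h1 : (⟨d, hdQ⟩ : Q) ∈ (Subgroup.centralizer (A : Set G)).subgroupOf Q := by
      rw [Subgroup.mem_subgroupOf]; exact hdC
    have h2 := hnormal.conj_mem _ h1 ⟨q, hq⟩
    rw [Subgroup.mem_subgroupOf] at h2
    have h3 : q * d * q⁻¹ ∈ Q ⊓ Subgroup.centralizer (A : Set G) :=
      Subgroup.mem_inf.2 ⟨Q.mul_mem (Q.mul_mem hq hdQ) (Q.inv_mem hq), h2⟩
    rw [commutatorElement_def]
    exact Subgroup.mul_mem _ h3 (Subgroup.inv_mem _ hd)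
  have hDA : ⁅Q ⊓ Subgroup.centralizer (A : Set G), A⁆ = ⊥ :=
    Subgroup.commutator_eq_bot_iff_le_centralizer.2 inf_le_right
  have h1 : ⁅⁅Q, Q ⊓ Subgroup.centralizer (A : Set G)⁆, A⁆ = ⊥ := by
    rw [eq_bot_iff, ← hDA]
    exact Subgroup.commutator_mono hQD le_rfl
  have h2 : ⁅⁅Q ⊓ Subgroup.centralizer (A : Set G), A⁆, Q⁆ = ⊥ := by
    rw [hDA, Subgroup.commutator_bot_left]
  have h3 := Subgroup.commutator_commutator_eq_bot_of_rotate h1 h2
  rw [Subgroup.commutator_comm A Q, hcomm] at h3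
  have hQcent : Q ≤ Subgroup.centralizer ((Q ⊓ Subgroup.centralizer (A : Set G) : Subgroup G) : Set G) :=
    Subgroup.commutator_eq_bot_iff_le_centralizer.1 h3
  -- `Q` is commutative
  haveI : IsCyclic (Q ⧸ (Subgroup.centralizer (A : Set G)).subgroupOf Q) := by
    apply isCyclic_of_prime_card (p := p)
    rw [← Subgroup.index_eq_card, hD'idx]
  have hker : (QuotientGroup.mk' ((Subgroup.centralizer (A : Set G)).subgroupOf Q)).ker
      ≤ Subgroup.center Q := by
    rw [QuotientGroup.ker_mk']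
    intro x hx
    rw [Subgroup.mem_subgroupOf] at hx
    rw [Subgroup.mem_center_iff]
    intro g
    have h4 := hQcent g.2
    rw [Subgroup.mem_centralizer_iff] at h4
    have h5 := h4 (x : G) (Subgroup.mem_inf.2 ⟨x.2, hx⟩)
    exact Subtype.ext h5.symm
  haveI : IsMulCommutative Q := MonoidHom.isMulCommutative_of_isCyclic_of_ker_le_center _ hker
  obtain ⟨h6, -⟩ := Cfsg.Agent.S0055.result A Q hAQ hcop
  rw [hcomm, inf_comm, ← inf_assoc, inf_idem] at h6
  refine ⟨?_, h6⟩
  rw [← hidx, ← Subgroup.inf_relIndex_right, inf_comm, h6, Subgroup.relIndex_bot_left]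

/-- Under coprime action, if the centraliser of A in K has prime index p in K then the commutator subgroup [K, A] has order exactly p. -/
theorem result {G : Type*} [Group G] [Finite G] (A K : Subgroup G) (hAK : A ≤ Subgroup.normalizer (K : Set G))
    (hcop : (Nat.card A).Coprime (Nat.card K)) (hsolv : Group.IsSolvable A ∨ Group.IsSolvable K)
    (p : ℕ) (hp : p.Prime) (hidx : (K ⊓ Subgroup.centralizer (A : Set G)).relIndex K = p) :
    Nat.card (⁅K, A⁆ : Subgroup G) = p := by
  haveI : Fact p.Prime := ⟨hp⟩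
  have hidx' : (Subgroup.centralizer (A : Set G)).relIndex K = p := by
    rw [← hidx, Subgroup.inf_relIndex_left]
  obtain ⟨P, hPA⟩ := Cfsg.Agent.S0023.result A K hAK hcop hsolv p
  obtain ⟨P', hP'⟩ : ∃ P' : Subgroup G, P' = (P : Subgroup K).map K.subtype := ⟨_, rfl⟩
  rw [← hP'] at hPA
  have hP'K : P' ≤ K := by
    rw [hP']
    exact Subgroup.map_subtype_le _
  have hP'p : IsPGroup p P' := by
    rw [hP']
    exact P.isPGroup'.map _
  have hP'sub : P'.subgroupOf K = (P : Subgroup K) := by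
    rw [hP']
    exact Subgroup.comap_map_eq_self_of_injective (Subgroup.subtype_injective K) _
  obtain ⟨n, hn⟩ := hP'p.exists_card_eq
  -- the centraliser has index `p` in `P'`
  have hrelP : (Subgroup.centralizer (A : Set G)).relIndex P' = p := by
    have hle : (Subgroup.centralizer (A : Set G)).relIndex P' ≤ p := by
      rw [← hidx']
      exact Subgroup.relIndex_le_of_le_right hP'K (by rw [hidx']; exact hp.ne_zero)
    have hdvd : (Subgroup.centralizer (A : Set G)).relIndex P' ∣ p ^ n := by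
      rw [← hn]
      exact Subgroup.relIndex_dvd_card _ _
    obtain ⟨j, -, hj⟩ := (Nat.dvd_prime_pow hp).1 hdvd
    have hne : (Subgroup.centralizer (A : Set G)).relIndex P' ≠ 1 := by
      intro h1
      rw [Subgroup.relIndex_eq_one] at h1
      have h2 : P' ≤ K ⊓ Subgroup.centralizer (A : Set G) := le_inf hP'K h1
      have h3 := Subgroup.relIndex_mul_relIndex P' (K ⊓ Subgroup.centralizer (A : Set G)) K h2
        inf_le_left
      rw [hidx] at h3
      have h4 : p ∣ (P : Subgroup K).index := by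
        rw [← hP'sub]
        exact Dvd.intro_left _ h3
      exact P.not_dvd_index h4
    rw [hj] at hle hne ⊢
    rcases j with _ | _ | j
    · exact absurd (pow_zero p) hne
    · exact pow_one p
    · exfalso
      have : p ^ 1 < p ^ (j + 1 + 1) := Nat.pow_lt_pow_right hp.one_lt (by omega)
      rw [pow_one] at this
      omega
  have hcopP : (Nat.card A).Coprime (Nat.card P') :=
    Nat.Coprime.coprime_dvd_right (Subgroup.card_dvd_of_le hP'K) hcop
  have hsolvP : Group.IsSolvable A ∨ Group.IsSolvable P' := by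
    right
    haveI := hP'p.isNilpotent
    infer_instance
  have h26 := Cfsg.Agent.S0026.result A P' hPA hcopP hsolvP
  have h27 := Cfsg.Agent.S0027.result A P' hPA hcopP hsolvP
  have hQP : ⁅P', A⁆ ≤ P' :=
    Cfsg.Agent.Lib.Helper10.Coprime.commutator_le_of_le_normalizer P' A hPA
  have hAQ : A ≤ Subgroup.normalizer ((⁅P', A⁆ : Subgroup G) : Set G) :=
    Cfsg.Agent.Lib.Helper10.Coprime.le_normalizer_commutator_right P' A
  have hQp : IsPGroup p (⁅P', A⁆ : Subgroup G) := hP'p.to_le hQP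
  have hrelQ : (Subgroup.centralizer (A : Set G)).relIndex (⁅P', A⁆ : Subgroup G) = p := by
    have hle : (Subgroup.centralizer (A : Set G)).relIndex (⁅P', A⁆ : Subgroup G) ≤ p := by
      rw [← hrelP]
      exact Subgroup.relIndex_le_of_le_right hQP (by rw [hrelP]; exact hp.ne_zero)
    have hdvd : (Subgroup.centralizer (A : Set G)).relIndex (⁅P', A⁆ : Subgroup G) ∣ p ^ n := by
      rw [← hn]
      exact (Subgroup.relIndex_dvd_card _ _).trans (Subgroup.card_dvd_of_le hQP)
    obtain ⟨j, -, hj⟩ := (Nat.dvd_prime_pow hp).1 hdvd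
    have hne : (Subgroup.centralizer (A : Set G)).relIndex (⁅P', A⁆ : Subgroup G) ≠ 1 := by
      intro h1
      rw [Subgroup.relIndex_eq_one] at h1
      have h2 : ⁅⁅P', A⁆, A⁆ = ⊥ := Subgroup.commutator_eq_bot_iff_le_centralizer.2 h1
      rw [h27] at h2
      rw [h2, bot_sup_eq] at h26
      have h3 : P' ≤ Subgroup.centralizer (A : Set G) := by
        rw [← h26]; exact inf_le_right
      rw [← Subgroup.relIndex_eq_one, hrelP] at h3
      exact hp.one_lt.ne' h3
    rw [hj] at hle hne ⊢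
    rcases j with _ | _ | j
    · exact absurd (pow_zero p) hne
    · exact pow_one p
    · exfalso
      have : p ^ 1 < p ^ (j + 1 + 1) := Nat.pow_lt_pow_right hp.one_lt (by omega)
      rw [pow_one] at this
      omega
  have hcopQ : (Nat.card A).Coprime (Nat.card (⁅P', A⁆ : Subgroup G)) :=
    Nat.Coprime.coprime_dvd_right (Subgroup.card_dvd_of_le hQP) hcopP
  obtain ⟨hQcard, hQC⟩ := pgroup_case A ⁅P', A⁆ p hQp hAQ hcopQ h27 hrelQ
  -- `K = Q * C`
  have hQK : ⁅P', A⁆ ≤ K := hQP.trans hP'K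
  have hcardK : Nat.card (K ⊓ Subgroup.centralizer (A : Set G) : Subgroup G) * p = Nat.card K := by
    rw [← hidx]
    exact Cfsg.Agent.Lib.Helper10.SZ.card_mul_relIndex' inf_le_left
  have hfact : ∀ k ∈ K, ∃ z ∈ (⁅P', A⁆ : Subgroup G),
      ∃ c ∈ K ⊓ Subgroup.centralizer (A : Set G), k = z * c := by
    have hinj : Function.Injective
        (fun x : (⁅P', A⁆ : Subgroup G) × (K ⊓ Subgroup.centralizer (A : Set G) : Subgroup G) =>
          (⟨(x.1 : G) * (x.2 : G), K.mul_mem (hQK x.1.2) (Subgroup.mem_inf.1 x.2.2).1⟩ : K)) := by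
      rintro ⟨z, c⟩ ⟨z', c'⟩ h
      have h1 : (z : G) * (c : G) = (z' : G) * (c' : G) := congrArg (fun y : K => (y : G)) h
      have h2 : (z' : G)⁻¹ * (z : G) = (c' : G) * (c : G)⁻¹ := by
        rw [inv_mul_eq_iff_eq_mul, ← mul_assoc, ← h1, mul_inv_cancel_right]
      have h3 : (z' : G)⁻¹ * (z : G) ∈ (⁅P', A⁆ : Subgroup G) ⊓ Subgroup.centralizer (A : Set G) := by
        refine Subgroup.mem_inf.2 ⟨Subgroup.mul_mem _ (Subgroup.inv_mem _ z'.2) z.2, ?_⟩
        rw [h2]
        exact Subgroup.mul_mem _ (Subgroup.mem_inf.1 c'.2).2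
          (Subgroup.inv_mem _ (Subgroup.mem_inf.1 c.2).2)
      rw [hQC, Subgroup.mem_bot, inv_mul_eq_one] at h3
      have h4 : (c : G) = (c' : G) := by
        rw [← h3] at h1
        exact mul_left_cancel h1
      exact Prod.ext (Subtype.ext h3.symm) (Subtype.ext h4)
    have hbij := hinj.bijective_of_nat_card_le (by
      rw [Nat.card_prod, hQcard, ← hcardK, mul_comm])
    intro k hk
    obtain ⟨⟨z, c⟩, hzc⟩ := hbij.2 ⟨k, hk⟩
    exact ⟨z, z.2, c, c.2, (congrArg (fun y : K => (y : G)) hzc).symm⟩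
  have hle : ⁅K, A⁆ ≤ ⁅P', A⁆ := by
    rw [Subgroup.commutator_le]
    intro k hk a ha
    obtain ⟨z, hz, c, hc, rfl⟩ := hfact k hk
    have hca : a * c = c * a := by
      have := (Subgroup.mem_inf.1 hc).2
      rw [Subgroup.mem_centralizer_iff] at this
      exact this a ha
    have h1 : ⁅z * c, a⁆ = z * (a * z⁻¹ * a⁻¹) := by
      rw [commutatorElement_def]
      have : z * c * a * (z * c)⁻¹ * a⁻¹ = z * (c * a) * c⁻¹ * z⁻¹ * a⁻¹ := by group
      rw [this, ← hca]
      group
    rw [h1]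
    exact Subgroup.mul_mem _ hz
      ((Subgroup.mem_normalizer_iff.1 (hAQ ha) _).1 (Subgroup.inv_mem _ hz))
  have heq : (⁅K, A⁆ : Subgroup G) = ⁅P', A⁆ :=
    le_antisymm hle (Subgroup.commutator_mono hP'K le_rfl)
  rw [heq, hQcard]

end Cfsg.Agent.S0057
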