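import Mathlib
import Cfsg.Statements.S0060
import Cfsg.Agent.Lib.Helper12.SylowBasic
import Cfsg.Agent.Lib.Lead.Cores

set_option autoImplicit false
open Cfsg
open scoped Pointwise

namespace Cfsg.Agent.S0060

open Cfsg.Agent.Lib.Helper12.SylowBasic in
/-- Brodkey's Theorem: in a finite group with abelian Sylow p-subgroups and no nontrivial normal p-subgroup, some conjugate of a Sylow p-subgroup meets it trivially. -/
theorem result {G : Type*} [Group G] [Finite G] (p : ℕ) [Fact p.Prime]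
    (S : Sylow p G) (hS : IsMulCommutative S) (hOp : Cfsg.pCore p G = ⊥) :
    ∃ g : G, (S : Subgroup G) ⊓ MulAut.conj g • (S : Subgroup G) = ⊥ := by
  -- all Sylow subgroups are commutative
  have hcomm : ∀ P : Sylow p G, ∀ a ∈ (P : Subgroup G), ∀ b ∈ (P : Subgroup G), a * b = b * a := by
    intro P a ha b hb
    obtain ⟨g, rfl⟩ := MulAction.exists_smul_eq G S P
    rw [mem_smul_sylow_iff] at ha hb
    have h1 : (⟨g⁻¹ * a * g, ha⟩ : S) * ⟨g⁻¹ * b * g, hb⟩ = ⟨g⁻¹ * b * g, hb⟩ * ⟨g⁻¹ * a * g, ha⟩ :=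
      hS.is_comm.comm _ _
    have h2 : (g⁻¹ * a * g) * (g⁻¹ * b * g) = (g⁻¹ * b * g) * (g⁻¹ * a * g) :=
      congrArg (fun z : S => (z : G)) h1
    have h3 : a * b = g * ((g⁻¹ * a * g) * (g⁻¹ * b * g)) * g⁻¹ := by group
    rw [h3, h2]
    group
  -- a pair of Sylow subgroups with minimal intersection
  obtain ⟨⟨S₁, T₁⟩, hmin⟩ := Finite.exists_min
    (fun x : Sylow p G × Sylow p G => Nat.card ((x.1 : Subgroup G) ⊓ (x.2 : Subgroup G) : Subgroup G))
  have hmin' : ∀ P Q : Sylow p G, Nat.card ((S₁ : Subgroup G) ⊓ (T₁ : Subgroup G) : Subgroup G)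
      ≤ Nat.card ((P : Subgroup G) ⊓ (Q : Subgroup G) : Subgroup G) := fun P Q => hmin (P, Q)
  have hS₁N : (S₁ : Subgroup G) ≤
      Subgroup.normalizer (((S₁ : Subgroup G) ⊓ (T₁ : Subgroup G) : Subgroup G) : Set G) := by
    refine le_trans ?_ (Subgroup.centralizer_le_normalizer _)
    intro s hs
    rw [Subgroup.mem_centralizer_iff]
    intro d hd
    exact hcomm S₁ d (Subgroup.mem_inf.1 hd).1 s hs
  have hT₁N : (T₁ : Subgroup G) ≤
      Subgroup.normalizer (((S₁ : Subgroup G) ⊓ (T₁ : Subgroup G) : Subgroup G) : Set G) := by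
    refine le_trans ?_ (Subgroup.centralizer_le_normalizer _)
    intro s hs
    rw [Subgroup.mem_centralizer_iff]
    intro d hd
    exact hcomm T₁ d (Subgroup.mem_inf.1 hd).2 s hs
  -- `D` lies in every Sylow subgroup
  have hD : ∀ P : Sylow p G, (S₁ : Subgroup G) ⊓ (T₁ : Subgroup G) ≤ (P : Subgroup G) := by
    intro P
    obtain ⟨c, hcN, hc⟩ := exists_conj_le_of_le S₁ _ hS₁N
      ((P : Subgroup G) ⊓ Subgroup.normalizer (((S₁ : Subgroup G) ⊓ (T₁ : Subgroup G) : Subgroup G) : Set G))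
      inf_le_right (P.isPGroup'.to_le inf_le_left)
    have hle : ((c • P : Sylow p G) : Subgroup G) ⊓ (T₁ : Subgroup G)
        ≤ (S₁ : Subgroup G) ⊓ (T₁ : Subgroup G) := by
      intro y hy
      obtain ⟨hy1, hy2⟩ := Subgroup.mem_inf.1 hy
      rw [mem_smul_sylow_iff] at hy1
      have h1 : c⁻¹ * y * c ∈ Subgroup.normalizer
          (((S₁ : Subgroup G) ⊓ (T₁ : Subgroup G) : Subgroup G) : Set G) :=
        Subgroup.mul_mem _ (Subgroup.mul_mem _ (Subgroup.inv_mem _ hcN) (hT₁N hy2)) hcN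
      have h2 := hc _ (Subgroup.mem_inf.2 ⟨hy1, h1⟩)
      have e : c * (c⁻¹ * y * c) * c⁻¹ = y := by group
      rw [e] at h2
      exact Subgroup.mem_inf.2 ⟨h2, hy2⟩
    have heq := Subgroup.eq_of_le_of_card_ge hle (hmin' (c • P) T₁)
    intro d hd
    have h3 : c * d * c⁻¹ ∈ (S₁ : Subgroup G) ⊓ (T₁ : Subgroup G) :=
      (Subgroup.mem_normalizer_iff.1 hcN d).1 hd
    rw [← heq] at h3
    have h4 := (Subgroup.mem_inf.1 h3).1
    rw [mem_smul_sylow_iff] at h4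
    have e : c⁻¹ * (c * d * c⁻¹) * c = d := by group
    rw [e] at h4
    exact h4
  -- hence `D` is trivial
  have hDbot : (S₁ : Subgroup G) ⊓ (T₁ : Subgroup G) = ⊥ := by
    rw [eq_bot_iff, ← hOp]
    have h1 : (S₁ : Subgroup G) ⊓ (T₁ : Subgroup G) ≤ Subgroup.normalCore (S₁ : Subgroup G) := by
      intro d hd b
      have h2 := hD (b⁻¹ • S₁) hd
      rw [mem_smul_sylow_iff, inv_inv] at h2
      exact h2
    refine h1.trans (Cfsg.Agent.Lib.Lead.Cores.le_pCore (Subgroup.normalCore_normal _) ?_)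
    exact S₁.isPGroup'.to_le (Subgroup.normalCore_le _)
  obtain ⟨x, hx⟩ := MulAction.exists_smul_eq G S S₁
  obtain ⟨y, hy⟩ := MulAction.exists_smul_eq G S T₁
  refine ⟨x⁻¹ * y, ?_⟩
  rw [eq_bot_iff]
  intro z hz
  obtain ⟨hz1, hz2⟩ := Subgroup.mem_inf.1 hz
  rw [Subgroup.mem_pointwise_smul_iff_inv_smul_mem] at hz2
  simp only [MulAut.smul_def, MulAut.conj_inv_apply] at hz2
  have h1 : x * z * x⁻¹ ∈ (S₁ : Subgroup G) := by
    rw [← hx, mem_smul_sylow_iff]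
    have e : x⁻¹ * (x * z * x⁻¹) * x = z := by group
    rw [e]; exact hz1
  have h2 : x * z * x⁻¹ ∈ (T₁ : Subgroup G) := by
    rw [← hy, mem_smul_sylow_iff]
    have e : y⁻¹ * (x * z * x⁻¹) * y = (x⁻¹ * y)⁻¹ * z * (x⁻¹ * y) := by group
    rw [e]; exact hz2
  have h3 : x * z * x⁻¹ ∈ (S₁ : Subgroup G) ⊓ (T₁ : Subgroup G) := Subgroup.mem_inf.2 ⟨h1, h2⟩
  rw [hDbot, Subgroup.mem_bot] at h3
  rw [Subgroup.mem_bot]
  have e : z = x⁻¹ * (x * z * x⁻¹) * x := by group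
  rw [e, h3]
  group

end Cfsg.Agent.S0060
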