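import Cfsg.Statements.S0063
import Mathlib

set_option autoImplicit false
open Cfsg

namespace Cfsg.Agent.S0063

universe u

theorem aux (p : ℕ) [Fact p.Prime] (m : ℕ) : ∀ (G : Type u) [Group G] [Finite G],
    Nat.card G = p ^ m → 1 < m → Group.nilpotencyClass G ≤ m - 1 := by
  induction m using Nat.strong_induction_on with
  | _ m ih =>
    intro G _ _ hG hm
    have hp : p.Prime := Fact.out
    have hpG : IsPGroup p G := IsPGroup.of_card hG
    have hnil : Group.IsNilpotent G := hpG.isNilpotent
    have hnt : Nontrivial G := by
      rw [← Finite.one_lt_card_iff_nontrivial, hG]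
      exact Nat.one_lt_pow (by omega) hp.one_lt
    rw [Group.nilpotencyClass_eq_quotient_center_plus_one]
    have hZ : Nat.card (Subgroup.center G) ∣ p ^ m := hG ▸ Subgroup.card_subgroup_dvd_card _
    obtain ⟨j, hjm, hj⟩ := (Nat.dvd_prime_pow hp).1 hZ
    have hj0 : j ≠ 0 := by
      rintro rfl
      rw [pow_zero, Subgroup.card_eq_one] at hj
      exact (ne_of_gt hpG.bot_lt_center) hj
    have hQ : Nat.card (G ⧸ Subgroup.center G) = p ^ (m - j) := by
      have h1 := Subgroup.card_eq_card_quotient_mul_card_subgroup (Subgroup.center G)
      rw [hG, hj] at h1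
      have h2 : p ^ m = p ^ (m - j) * p ^ j := by rw [← pow_add]; congr 1; omega
      rw [h2] at h1
      exact (Nat.eq_of_mul_eq_mul_right (pow_pos hp.pos j) h1).symm
    by_cases hk : 1 < m - j
    · have := ih (m - j) (by omega) (G ⧸ Subgroup.center G) hQ hk
      omega
    · have hcyc : IsCyclic (G ⧸ Subgroup.center G) := by
        have hk' : m - j = 0 ∨ m - j = 1 := by omega
        rcases hk' with h0 | h1
        · rw [h0, pow_zero] at hQ
          have : Subsingleton (G ⧸ Subgroup.center G) := (Nat.card_eq_one_iff_unique.1 hQ).1
          infer_instance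
        · rw [h1, pow_one] at hQ
          exact isCyclic_of_prime_card hQ
      have hcomm := MonoidHom.isMulCommutative_of_isCyclic_of_ker_le_center
        (QuotientGroup.mk' (Subgroup.center G)) (by rw [QuotientGroup.ker_mk'])
      have hZtop : Subgroup.center G = ⊤ := by
        rw [eq_top_iff]
        intro x _
        rw [Subgroup.mem_center_iff]
        intro g
        exact hcomm.is_comm.comm g x
      have hQ1 : Nat.card (G ⧸ Subgroup.center G) = 1 := by
        rw [← Subgroup.index_eq_card, hZtop, Subgroup.index_top]
      have hsub : Subsingleton (G ⧸ Subgroup.center G) := (Nat.card_eq_one_iff_unique.1 hQ1).1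
      have h0 : Group.nilpotencyClass (G ⧸ Subgroup.center G) = 0 :=
        Group.nilpotencyClass_zero_iff_subsingleton.2 hsub
      omega

/-- A finite group of prime-power order p ^ m with m > 1 is nilpotent of class at most m - 1. -/
theorem result {G : Type*} [Group G] [Finite G] (p m : ℕ) [Fact p.Prime]
    (hG : Nat.card G = p ^ m) (hm : 1 < m) : Group.nilpotencyClass G ≤ m - 1 := by
  exact aux p m G hG hm

end Cfsg.Agent.S0063
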