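import Cfsg.Statements.S0067
import Cfsg.Agent.S0199
import Cfsg.Agent.S0064
import Cfsg.Agent.S0084
import Cfsg.Agent.Lib.Lead.Cores
import Cfsg.Agent.Lib.Helper12.SylowBasic
import Mathlib

set_option autoImplicit false
open Cfsg

namespace Cfsg.Agent.S0067

open scoped Pointwise

/-- In a finite nilpotent group, the join of two `p`-subgroups is a `p`-group. -/
theorem isPGroup_sup_of_nilpotent {J : Type*} [Group J] [Finite J] (hJ : Group.IsNilpotent J)
    {p : ℕ} [Fact p.Prime] (X Y : Subgroup J) (hX : IsPGroup p X) (hY : IsPGroup p Y) :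
    IsPGroup p (X ⊔ Y : Subgroup J) := by
  obtain ⟨P⟩ : Nonempty (Sylow p J) := inferInstance
  have hPn : (P : Subgroup J).Normal :=
    ((Group.isNilpotent_of_finite_tfae (G := J)).out 0 3 rfl rfl).1 hJ p inferInstance P
  have hle : ∀ Q : Subgroup J, IsPGroup p Q → Q ≤ (P : Subgroup J) := by
    intro Q hQ x hx
    obtain ⟨g, hg⟩ := Cfsg.Agent.Lib.Helper12.SylowBasic.exists_conj_le_sylow P Q hQ
    have h1 := hPn.conj_mem _ (hg x hx) g⁻¹
    have e : g⁻¹ * (g * x * g⁻¹) * g⁻¹⁻¹ = x := by group
    rw [e] at h1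
    exact h1
  exact P.isPGroup'.to_le (sup_le (hle X hX) (hle Y hY))

/-- If the join of a subgroup A with each of its conjugates is nilpotent, then A is subnormal in the finite group and contained in the Fitting subgroup. -/
theorem result {G : Type*} [Group G] [Finite G] (A : Subgroup G)
    (h : ∀ g : G, Group.IsNilpotent (A ⊔ MulAut.conj g • A : Subgroup G)) : A.IsSubnormal ∧ A ≤ Cfsg.fittingSubgroup G := by
  have hF : A ≤ Cfsg.fittingSubgroup G := by
    intro a ha
    by_contra haF
    obtain ⟨y, hy1, hy2, q, k, hq, hy3⟩ :=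
      Cfsg.Agent.S0084.exists_prime_pow_not_mem (Cfsg.fittingSubgroup G) _ a rfl haF
    have : Fact q.Prime := ⟨hq⟩
    have hXA : Subgroup.zpowers y ≤ A :=
      Subgroup.zpowers_le.mpr ((Subgroup.zpowers_le.mpr ha) hy1)
    have hXp : IsPGroup q (Subgroup.zpowers y) :=
      IsPGroup.of_card (n := k) (by rw [Nat.card_zpowers, hy3])
    have hX : ∀ g : G, IsPGroup q
        ↥(Subgroup.zpowers y ⊔ (Subgroup.zpowers y).map (MulAut.conj g).toMonoidHom) := by
      intro g
      have hconj : MulAut.conj g • A = A.map (MulAut.conj g).toMonoidHom := rfl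
      have hXJ : Subgroup.zpowers y ≤ A ⊔ MulAut.conj g • A := hXA.trans le_sup_left
      have hXgJ : (Subgroup.zpowers y).map (MulAut.conj g).toMonoidHom ≤ A ⊔ MulAut.conj g • A := by
        refine le_trans ?_ le_sup_right
        rw [hconj]
        exact Subgroup.map_mono hXA
      have h1 := isPGroup_sup_of_nilpotent (h g)
        ((Subgroup.zpowers y).subgroupOf (A ⊔ MulAut.conj g • A))
        (((Subgroup.zpowers y).map (MulAut.conj g).toMonoidHom).subgroupOf (A ⊔ MulAut.conj g • A))
        hXp.comap_subtype (hXp.map _).comap_subtype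
      have h2 := h1.map (A ⊔ MulAut.conj g • A).subtype
      have e : (((Subgroup.zpowers y).subgroupOf (A ⊔ MulAut.conj g • A)) ⊔
          (((Subgroup.zpowers y).map (MulAut.conj g).toMonoidHom).subgroupOf
            (A ⊔ MulAut.conj g • A))).map (A ⊔ MulAut.conj g • A).subtype =
          Subgroup.zpowers y ⊔ (Subgroup.zpowers y).map (MulAut.conj g).toMonoidHom := by
        rw [Subgroup.map_sup, Subgroup.subgroupOf_map_subtype, Subgroup.subgroupOf_map_subtype,
          inf_of_le_left hXJ, inf_of_le_left hXgJ]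
      rw [e] at h2
      exact h2
    obtain ⟨N, hN, hNp, hXN⟩ := Cfsg.Agent.S0199.result (Subgroup.zpowers y) hXp hX
    exact hy2 (Cfsg.Agent.Lib.Lead.Cores.le_fittingSubgroup hN hNp.isNilpotent
      (hXN (Subgroup.mem_zpowers y)))
  refine ⟨?_, hF⟩
  have hFn : (Cfsg.fittingSubgroup G).Normal := Cfsg.Agent.Lib.Lead.Cores.fittingSubgroup_normal
  have hFnil : Group.IsNilpotent (Cfsg.fittingSubgroup G) :=
    Cfsg.Agent.Lib.Lead.Cores.fittingSubgroup_isNilpotent
  have h1 : (A.subgroupOf (Cfsg.fittingSubgroup G)).IsSubnormal :=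
    (Cfsg.Agent.S0064.result.mp hFnil) _
  exact Subgroup.IsSubnormal.trans hF h1 hFn.isSubnormal

end Cfsg.Agent.S0067
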