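import Cfsg.Statements.S0073
import Cfsg.Agent.S0084
import Mathlib

set_option autoImplicit false
set_option linter.style.haveILetI false
open Cfsg

namespace Cfsg.Agent.S0073

/-- For a finite non-abelian simple group, either the cube of the least prime divisor of the order divides the order, or 12 does. -/
theorem result {G : Type*} [Group G] [Finite G] [IsSimpleGroup G] (hG : ∃ x y : G, x * y ≠ y * x) : (Nat.card G).minFac ^ 3 ∣ Nat.card G ∨ 12 ∣ Nat.card G := by
  by_cases h12 : 12 ∣ Nat.card G
  · exact Or.inr h12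
  left
  by_contra h3
  have hcard1 : Nat.card G ≠ 1 := by
    intro h
    obtain ⟨x, y, hxy⟩ := hG
    haveI : Subsingleton G := (Nat.card_eq_one_iff_unique.mp h).1
    exact hxy (Subsingleton.elim _ _)
  obtain ⟨p, hpdef⟩ : ∃ p, (Nat.card G).minFac = p := ⟨_, rfl⟩
  rw [hpdef] at h3
  have hp : p.Prime := hpdef ▸ Nat.minFac_prime hcard1
  haveI : Fact p.Prime := ⟨hp⟩
  have hpG : p ∣ Nat.card G := hpdef ▸ Nat.minFac_dvd _
  obtain ⟨P⟩ : Nonempty (Sylow p G) := inferInstance
  have hPcard : Nat.card P = p ^ (Nat.card G).factorization p := Sylow.card_eq_multiplicity P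
  have hk2 : (Nat.card G).factorization p ≤ 2 := by
    by_contra hcon
    apply h3
    have : p ^ 3 ∣ p ^ (Nat.card G).factorization p := pow_dvd_pow p (by omega)
    exact this.trans (Nat.ordProj_dvd _ _)
  have hk0 : (Nat.card G).factorization p ≠ 0 := by
    intro h0
    have := (hp.factorization_pos_of_dvd Nat.card_pos.ne' hpG)
    omega
  obtain ⟨k, hkdef⟩ : ∃ k, (Nat.card G).factorization p = k := ⟨_, rfl⟩
  rw [hkdef] at hPcard hk2 hk0
  have hPc : IsMulCommutative P := by
    have hk : k = 1 ∨ k = 2 := by omega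
    rcases hk with hk | hk
    · rw [hk, pow_one] at hPcard
      have hcyc : IsCyclic P := isCyclic_of_prime_card hPcard
      refine ⟨⟨fun a b => ?_⟩⟩
      obtain ⟨g, hg⟩ := hcyc.exists_generator
      obtain ⟨i, rfl⟩ := Subgroup.mem_zpowers_iff.mp (hg a)
      obtain ⟨j, rfl⟩ := Subgroup.mem_zpowers_iff.mp (hg b)
      rw [← zpow_add, ← zpow_add, add_comm]
    · rw [hk] at hPcard
      exact IsPGroup.isMulCommutative_of_card_eq_prime_sq hPcard
  have hNC : Subgroup.normalizer (P : Set G) ≤ Subgroup.centralizer (P : Set G) := by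
    apply Cfsg.Agent.S0084.normalizer_le_centralizer_of_card P hPc
    intro q hq hqp hqG c hc hmod
    rw [hPcard] at hc hmod ⊢
    obtain ⟨i, hik, rfl⟩ := (Nat.dvd_prime_pow hp).mp hc
    by_contra hne
    have hik' : i < k := lt_of_le_of_ne hik (fun h => hne (by rw [h]))
    have hqgt : p < q := by
      have h1 : p ≤ q := hpdef ▸ Nat.minFac_le_of_dvd hq.two_le hqG
      exact lt_of_le_of_ne h1 (Ne.symm hqp)
    have hdvd : q ∣ p ^ k - p ^ i :=
      (Nat.modEq_iff_dvd' (Nat.pow_le_pow_right hp.pos hik)).mp hmod.symm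
    have hfac : p ^ k - p ^ i = p ^ i * (p ^ (k - i) - 1) := by
      rw [Nat.mul_sub, mul_one, ← pow_add, Nat.add_sub_cancel' hik]
    rw [hfac] at hdvd
    have hq2 : q ∣ p ^ (k - i) - 1 := by
      rcases (Nat.Prime.dvd_mul hq).mp hdvd with h | h
      · exact absurd ((Nat.prime_dvd_prime_iff_eq hq hp).mp (hq.dvd_of_dvd_pow h)) hqp
      · exact h
    have hp2 := hp.two_le
    have hcase : k - i = 1 ∨ k - i = 2 := by omega
    rcases hcase with hc1 | hc2
    · rw [hc1, pow_one] at hq2
      have := Nat.le_of_dvd (by omega) hq2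
      omega
    · rw [hc2] at hq2
      have hfac2 : p ^ 2 - 1 = (p - 1) * (p + 1) := by
        obtain ⟨m, rfl⟩ : ∃ m, p = m + 1 := ⟨p - 1, by omega⟩
        simp only [Nat.add_sub_cancel]
        ring_nf
        omega
      rw [hfac2] at hq2
      rcases (Nat.Prime.dvd_mul hq).mp hq2 with h | h
      · have := Nat.le_of_dvd (by omega) h
        omega
      · have hle := Nat.le_of_dvd (by omega) h
        have hq_eq : q = p + 1 := by omega
        -- p = 2, q = 3
        have hp_eq : p = 2 := by
          rcases hp.eq_two_or_odd with h2 | hodd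
          · exact h2
          · exfalso
            have hqeven : 2 ∣ q := by omega
            have : q = 2 := ((Nat.prime_dvd_prime_iff_eq Nat.prime_two hq).mp hqeven).symm
            omega
        apply h12
        have hk2' : k = 2 := by omega
        have h4 : 4 ∣ Nat.card G := by
          have : p ^ k ∣ Nat.card G := hkdef ▸ Nat.ordProj_dvd _ _
          rw [hp_eq, hk2'] at this
          exact this
        have h3' : 3 ∣ Nat.card G := by
          have : q = 3 := by omega
          exact this ▸ hqG
        exact Nat.Coprime.mul_dvd_of_dvd_of_dvd (by norm_num : Nat.Coprime 4 3) h4 h3'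
  have hcompl := MonoidHom.ker_transferSylow_isComplement' P hNC
  have hn : (MonoidHom.transferSylow P hNC).ker.Normal := MonoidHom.normal_ker _
  rcases hn.eq_bot_or_eq_top with h | h
  · rw [h, Subgroup.isComplement'_bot_left] at hcompl
    obtain ⟨x, y, hxy⟩ := hG
    apply hxy
    have hx : x ∈ (P : Subgroup G) := by rw [hcompl]; trivial
    have hy : y ∈ (P : Subgroup G) := by rw [hcompl]; trivial
    exact congrArg Subtype.val (hPc.is_comm.comm ⟨x, hx⟩ ⟨y, hy⟩)
  · rw [h, Subgroup.isComplement'_top_left] at hcompl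
    exact P.ne_bot_of_dvd_card hpG hcompl

end Cfsg.Agent.S0073
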