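import Cfsg.Statements.S0079
import Cfsg.Agent.Lib.Helper1.TransNil

set_option autoImplicit false
open Cfsg

namespace Cfsg.Agent.S0079

/-- A nilpotent Hall subgroup has a normal complement exactly when elements of it that are conjugate in the whole group are already conjugate inside it. -/
theorem result {G : Type*} [Group G] [Finite G] (H : Subgroup G) (hH : Group.IsNilpotent H) (hHall : Nat.Coprime (Nat.card H) H.index) : (∃ N : Subgroup G, N.Normal ∧ N.IsComplement' H) ↔ ∀ x ∈ H, ∀ y ∈ H, (∃ g : G, g * x * g⁻¹ = y) → ∃ h ∈ H, h * x * h⁻¹ = y := by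
  constructor
  · rintro ⟨N, hN, hc⟩ x hx y hy ⟨g, hg⟩
    have hg' : g ∈ N ⊔ H := hc.sup_eq_top ▸ Subgroup.mem_top g
    rw [← SetLike.mem_coe, Subgroup.normal_mul] at hg'
    obtain ⟨n, hn, h, hh, rfl⟩ := hg'
    refine ⟨h, hh, ?_⟩
    have h1 : y * (h * x * h⁻¹)⁻¹ ∈ N := by
      have e : y * (h * x * h⁻¹)⁻¹ = n * ((h * x * h⁻¹) * n⁻¹ * (h * x * h⁻¹)⁻¹) := by
        rw [← hg]; group
      rw [e]
      exact N.mul_mem hn (hN.conj_mem _ (N.inv_mem hn) _)
    have h2 : y * (h * x * h⁻¹)⁻¹ ∈ H :=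
      H.mul_mem hy (H.inv_mem (H.mul_mem (H.mul_mem hh hx) (H.inv_mem hh)))
    have h3 := Subgroup.disjoint_def.1 hc.disjoint h1 h2
    exact (mul_inv_eq_one.1 h3).symm
  · intro h
    haveI := hH
    exact Cfsg.Agent.Lib.Helper1.Tr.hall_nilpotent_complement H hHall h

end Cfsg.Agent.S0079
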