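import Cfsg.Statements.S0085
import Cfsg.Agent.S0084
import Mathlib

set_option autoImplicit false
open Cfsg

namespace Cfsg.Agent.S0085

/-- A group whose Sylow 2-subgroups are elementary abelian of order 8 and whose order is prime to 3 and to 7 has a normal 2-complement. -/
theorem result {G : Type*} [Group G] [Finite G] (T : Sylow 2 G) (h8 : Nat.card T = 8) (he : ∀ x : T, x * x = 1) (h3 : ¬ 3 ∣ Nat.card G) (h7 : ¬ 7 ∣ Nat.card G) : Cfsg.HasNormalPComplement 2 G := by
  have hc : IsMulCommutative T := by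
    refine ⟨⟨fun a b => ?_⟩⟩
    have h1 : (a * b) * (a * b) = 1 := he (a * b)
    have h2 : a * b = (a * a) * (b * a) * (b * b) := by
      rw [he a, he b, one_mul, mul_one]
      have : b * a = (a * b)⁻¹ := by
        rw [mul_inv_rev]
        have ha : a⁻¹ = a := inv_eq_of_mul_eq_one_left (he a)
        have hb : b⁻¹ = b := inv_eq_of_mul_eq_one_left (he b)
        rw [ha, hb]
      rw [this]
      exact (inv_eq_of_mul_eq_one_left h1).symm
    rw [h2, he a, he b, one_mul, mul_one]
  apply Cfsg.Agent.S0084.hasNormalPComplement_of_le T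
  apply Cfsg.Agent.S0084.normalizer_le_centralizer_of_card T hc
  intro q hq hq2 hqG c hc8 hmod
  rw [h8] at hc8 hmod ⊢
  have hq3 : q ≠ 3 := fun h => h3 (h ▸ hqG)
  have hq7 : q ≠ 7 := fun h => h7 (h ▸ hqG)
  have hcle : c ≤ 8 := Nat.le_of_dvd (by norm_num) hc8
  have hdvd : q ∣ 8 - c := (Nat.modEq_iff_dvd' hcle).mp hmod.symm
  by_contra hne
  have hc0 : c ≠ 0 := by
    intro h0; rw [h0] at hc8; omega
  have hcases : c = 1 ∨ c = 2 ∨ c = 4 := by
    have : c ∈ Nat.divisors 8 := Nat.mem_divisors.mpr ⟨hc8, by norm_num⟩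
    have h8d : Nat.divisors 8 = {1, 2, 4, 8} := by decide
    rw [h8d] at this
    simp only [Finset.mem_insert, Finset.mem_singleton] at this
    omega
  rcases hcases with h | h | h
  · rw [h] at hdvd
    have : q = 7 := (Nat.prime_dvd_prime_iff_eq hq (by norm_num)).mp hdvd
    exact hq7 this
  · rw [h] at hdvd
    have h6 : q ∣ 2 * 3 := hdvd
    rcases (Nat.Prime.dvd_mul hq).mp h6 with h' | h'
    · exact hq2 ((Nat.prime_dvd_prime_iff_eq hq (by norm_num)).mp h')
    · exact hq3 ((Nat.prime_dvd_prime_iff_eq hq (by norm_num)).mp h')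
  · rw [h] at hdvd
    have h4 : q ∣ 2 * 2 := hdvd
    rcases (Nat.Prime.dvd_mul hq).mp h4 with h' | h'
    · exact hq2 ((Nat.prime_dvd_prime_iff_eq hq (by norm_num)).mp h')
    · exact hq2 ((Nat.prime_dvd_prime_iff_eq hq (by norm_num)).mp h')

end Cfsg.Agent.S0085
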