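import Cfsg.Statements.S0087
import Cfsg.Agent.Lib.Helper10.Coprime
import Mathlib

set_option autoImplicit false
open Cfsg

namespace Cfsg.Agent.S0087

open scoped Pointwise
open scoped IsMulCommutative
open Cfsg.Agent.Lib.Helper10.SZ Cfsg.Agent.Lib.Helper10.Coprime

universe u

/-- If an abelian Hall subgroup has no fusion at all, the kernel of the transfer is a normal
complement. -/
theorem isComplement'_ker_transfer {G : Type*} [Group G] [Finite G] (H : Subgroup G)
    [hc : IsMulCommutative H] (hHall : Nat.Coprime (Nat.card H) H.index)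
    (key : ∀ y ∈ H, ∀ g : G, g⁻¹ * y * g ∈ H → g⁻¹ * y * g = y) :
    (MonoidHom.transfer (MonoidHom.id H)).ker.IsComplement' H := by
  have hpow : ∀ x : H, MonoidHom.transfer (MonoidHom.id H) (x : G) = x ^ H.index := by
    intro x
    have h1 := MonoidHom.transfer_eq_pow (MonoidHom.id H) (x : G)
      (fun k g₀ hk => key _ (H.pow_mem x.2 k) g₀ hk)
    rw [h1]
    apply Subtype.ext
    simp
  have hbij : Function.Bijective (fun x : H => x ^ H.index) := (powCoprime hHall).bijective
  apply Subgroup.isComplement'_of_disjoint_and_mul_eq_univ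
  · rw [disjoint_iff, eq_bot_iff]
    rintro x ⟨hx1, hx2⟩
    have h1 : MonoidHom.transfer (MonoidHom.id H) x = 1 := hx1
    have h2 := hpow ⟨x, hx2⟩
    rw [h1] at h2
    have h3 : (⟨x, hx2⟩ : H) = 1 := hbij.1 (by simpa using h2.symm)
    have := congrArg Subtype.val h3
    simpa using this
  · rw [Set.eq_univ_iff_forall]
    intro g
    obtain ⟨h, hh⟩ := hbij.2 (MonoidHom.transfer (MonoidHom.id H) g)
    have hh' : h ^ H.index = MonoidHom.transfer (MonoidHom.id H) g := hh
    refine Set.mem_mul.mpr ⟨g * (h : G)⁻¹, ?_, (h : G), h.2, by group⟩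
    show MonoidHom.transfer (MonoidHom.id H) (g * (h : G)⁻¹) = 1
    rw [map_mul, map_inv, hpow h, hh', mul_inv_cancel]

def HallProp (n : ℕ) : Prop :=
  ∀ (G : Type u) [Group G] [Finite G], Nat.card G = n →
    ∀ H : Subgroup G, Nat.Coprime (Nat.card H) H.index →
      Subgroup.normalizer (H : Set G) ≤ Subgroup.centralizer (H : Set G) →
      ∃ N : Subgroup G, N.Normal ∧ N.IsComplement' H

theorem hallProp : ∀ n : ℕ, HallProp.{u} n := by
  intro n
  induction n using Nat.strong_induction_on with
  | _ n ih =>
    intro G _ _ hn H hHall hNC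
    have hHC : H ≤ Subgroup.centralizer (H : Set G) := Subgroup.le_normalizer.trans hNC
    have hcomm : ∀ a ∈ H, ∀ b ∈ H, a * b = b * a := fun a ha b hb =>
      (Subgroup.mem_centralizer_iff.mp (hHC ha) b hb).symm
    have hc : IsMulCommutative H := ⟨⟨fun a b => Subtype.ext (hcomm a a.2 b b.2)⟩⟩
    refine ⟨(MonoidHom.transfer (MonoidHom.id H)).ker, MonoidHom.normal_ker _,
      isComplement'_ker_transfer H hHall ?_⟩
    intro y hy g hz
    set z := g⁻¹ * y * g with hzdef
    set C := Subgroup.centralizer ({z} : Set G) with hCdef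
    have hHleC : H ≤ C := by
      intro x hx
      rw [hCdef, Subgroup.mem_centralizer_iff]
      intro w hw
      rw [Set.mem_singleton_iff] at hw
      subst hw
      exact hcomm _ hz x hx
    set H' : Subgroup G := MulAut.conj g⁻¹ • H with hH'
    have hH'mem : ∀ x : G, x ∈ H' ↔ g * x * g⁻¹ ∈ H := by
      intro x
      rw [hH', mem_conj_smul_iff, inv_inv]
    have hH'leC : H' ≤ C := by
      intro x hx
      rw [hH'mem] at hx
      rw [hCdef, Subgroup.mem_centralizer_iff]
      intro w hw
      rw [Set.mem_singleton_iff] at hw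
      subst hw
      have h1 := hcomm _ hy _ hx
      -- y * (g x g⁻¹) = (g x g⁻¹) * y
      have h2 : g⁻¹ * y * g * x = g⁻¹ * (y * (g * x * g⁻¹)) * g := by group
      have h3 : x * (g⁻¹ * y * g) = g⁻¹ * ((g * x * g⁻¹) * y) * g := by group
      rw [h2, h3, h1]
    by_cases hCtop : C = ⊤
    · -- z is central
      have hzc : ∀ w : G, z * w = w * z := by
        intro w
        have : w ∈ C := by rw [hCtop]; trivial
        rw [hCdef, Subgroup.mem_centralizer_iff] at this
        exact this z (Set.mem_singleton z)
      have h1 := hzc g⁻¹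
      have h2 : y = g * z * g⁻¹ := by rw [hzdef]; group
      rw [h2, mul_assoc, h1, ← mul_assoc, mul_inv_cancel, one_mul]
    · -- induction inside C
      have hlt : Nat.card C < n := by
        rw [← hn]
        refine lt_of_le_of_ne (Subgroup.card_le_card_group C) ?_
        intro h
        exact hCtop ((Subgroup.card_eq_iff_eq_top C).mp h)
      have hHallC : Nat.Coprime (Nat.card (H.subgroupOf C)) (H.subgroupOf C).index := by
        rw [card_subgroupOf_of_le hHleC]
        exact Nat.Coprime.coprime_dvd_right (Subgroup.relIndex_dvd_index_of_le hHleC) hHall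
      have hNCC : Subgroup.normalizer ((H.subgroupOf C : Subgroup C) : Set C) ≤
          Subgroup.centralizer ((H.subgroupOf C : Subgroup C) : Set C) := by
        intro c hcN
        have h1 : (c : G) ∈ Subgroup.normalizer (H : Set G) := by
          apply mem_normalizer_of_conj_mem
          intro s hs
          have h2 : (⟨s, hHleC hs⟩ : C) ∈ H.subgroupOf C := Subgroup.mem_subgroupOf.mpr hs
          have h3 := (Subgroup.mem_normalizer_iff.mp hcN _).mp h2
          exact Subgroup.mem_subgroupOf.mp h3
        have h2 := hNC h1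
        rw [Subgroup.mem_centralizer_iff]
        intro s hs
        apply Subtype.ext
        exact Subgroup.mem_centralizer_iff.mp h2 s (Subgroup.mem_subgroupOf.mp hs)
      obtain ⟨K, hKn, hKc⟩ := ih (Nat.card C) hlt C rfl (H.subgroupOf C) hHallC hNCC
      have hKidx : K.index = Nat.card (H.subgroupOf C) := hKc.symm.index_eq_card
      have hKcard : Nat.card K = (H.subgroupOf C).index := hKc.index_eq_card.symm
      have hcop : (Nat.card K).Coprime K.index := by
        rw [hKidx, hKcard]; exact hHallC.symm
      have hH'card : Nat.card (H'.subgroupOf C) = K.index := by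
        rw [hKidx, card_subgroupOf_of_le hH'leC, card_subgroupOf_of_le hHleC, hH', card_conj_smul]
      have hsolv : Group.IsSolvable (H.subgroupOf C) := by
        apply Group.isSolvable_of_comm
        intro a b
        apply Subtype.ext
        apply Subtype.ext
        exact hcomm _ (Subgroup.mem_subgroupOf.mp a.2) _ (Subgroup.mem_subgroupOf.mp b.2)
      obtain ⟨c, hc⟩ := conj_aux _ C rfl K hcop (H.subgroupOf C) (H'.subgroupOf C) hKidx.symm
        hH'card (Or.inr hsolv)
      -- g * c normalizes H
      have hgc : g * (c : G) ∈ Subgroup.normalizer (H : Set G) := by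
        apply mem_normalizer_of_conj_mem
        intro s hs
        have h2 : (⟨s, hHleC hs⟩ : C) ∈ H.subgroupOf C := Subgroup.mem_subgroupOf.mpr hs
        have h3 : c * (⟨s, hHleC hs⟩ : C) * c⁻¹ ∈ MulAut.conj c • (H.subgroupOf C) := by
          rw [mem_conj_smul_iff]
          have : c⁻¹ * (c * (⟨s, hHleC hs⟩ : C) * c⁻¹) * c = ⟨s, hHleC hs⟩ := by group
          rw [this]; exact h2
        rw [hc] at h3
        have h4 : (c : G) * s * (c : G)⁻¹ ∈ H' := Subgroup.mem_subgroupOf.mp h3
        rw [hH'mem] at h4
        have : g * (c : G) * s * (g * (c : G))⁻¹ = g * ((c : G) * s * (c : G)⁻¹) * g⁻¹ := by group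
        rw [this]; exact h4
      have hgcC := hNC hgc
      have h5 : y * (g * (c : G)) = g * (c : G) * y :=
        Subgroup.mem_centralizer_iff.mp hgcC y hy
      have h6 : z * (c : G) = (c : G) * z := by
        have hcC : (c : G) ∈ Subgroup.centralizer ({z} : Set G) := c.2
        rw [Subgroup.mem_centralizer_iff] at hcC
        exact hcC z (Set.mem_singleton z)
      -- z = g⁻¹ y g = c y c⁻¹, and c commutes with z
      have h7 : z = (c : G) * y * (c : G)⁻¹ := by
        have : g⁻¹ * y * g = g⁻¹ * (y * (g * (c : G))) * (c : G)⁻¹ := by group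
        rw [hzdef, this, h5]; group
      have h8 : y = (c : G)⁻¹ * z * (c : G) := by rw [h7]; group
      rw [h8, mul_assoc, h6, ← mul_assoc, inv_mul_cancel, one_mul]

/-- A Hall subgroup that is central in its normalizer has a normal complement. -/
theorem result {G : Type*} [Group G] [Finite G] (H : Subgroup G) (hHall : Nat.Coprime (Nat.card H) H.index) (h : Subgroup.normalizer (H : Set G) ≤ Subgroup.centralizer (H : Set G)) : ∃ N : Subgroup G, N.Normal ∧ N.IsComplement' H := by
  exact hallProp _ G rfl H hHall h

end Cfsg.Agent.S0087
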