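import Cfsg.Statements.S0088
import Cfsg.Agent.Lib.Helper1.TransBasic

set_option autoImplicit false
open Cfsg

namespace Cfsg.Agent.S0088

/-- An abelian Hall subgroup meets G' ∩ Z(G) trivially. -/
theorem result {G : Type*} [Group G] [Finite G] (H : Subgroup G) (hc : IsMulCommutative H) (hHall : Nat.Coprime (Nat.card H) H.index) : H ⊓ commutator G ⊓ Subgroup.center G = ⊥ := by
  exact Cfsg.Agent.Lib.Helper1.Tr.hall_abelian_inf H hc hHall

end Cfsg.Agent.S0088
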