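import Cfsg.Statements.S0090
import Cfsg.Agent.S0088
import Cfsg.Agent.S0026
import Mathlib

set_option autoImplicit false
open Cfsg

namespace Cfsg.Agent.S0090

open scoped Pointwise

/-- An abelian normal Hall subgroup A splits as the internal direct product of G' ∩ A and Z(G) ∩ A, and [A, G] = G' ∩ A. -/
theorem result {G : Type*} [Group G] [Finite G] (A : Subgroup G) [A.Normal] (hc : IsMulCommutative A) (hHall : Nat.Coprime (Nat.card A) A.index) : ⁅A, (⊤ : Subgroup G)⁆ = commutator G ⊓ A ∧ (commutator G ⊓ A) ⊓ (Subgroup.center G ⊓ A) = ⊥ ∧ (commutator G ⊓ A) ⊔ (Subgroup.center G ⊓ A) = A := by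
  have hbot : A ⊓ commutator G ⊓ Subgroup.center G = ⊥ := Cfsg.Agent.S0088.result A hc hHall
  have hcomm : ∀ a ∈ A, ∀ b ∈ A, a * b = b * a := fun a ha b hb =>
    congrArg Subtype.val (hc.is_comm.comm ⟨a, ha⟩ ⟨b, hb⟩)
  have h1 : ⁅A, (⊤ : Subgroup G)⁆ ≤ commutator G ⊓ A := by
    refine le_inf ?_ (Subgroup.commutator_le_left A ⊤)
    rw [commutator_def]
    exact Subgroup.commutator_mono le_top le_rfl
  obtain ⟨H, hH⟩ := Subgroup.exists_right_complement'_of_coprime hHall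
  have hHcard : Nat.card H = A.index := hH.symm.index_eq_card.symm
  have hAH : H ≤ Subgroup.normalizer (A : Set G) := by
    rw [Subgroup.normalizer_eq_top_iff.mpr inferInstance]; exact le_top
  have hsolv : Group.IsSolvable A := by
    apply Group.isSolvable_of_comm
    intro a b
    exact hc.is_comm.comm a b
  have h2 : ⁅A, H⁆ ⊔ (A ⊓ Subgroup.centralizer (H : Set G)) = A :=
    Cfsg.Agent.S0026.result H A hAH (by rw [hHcard]; exact hHall.symm) (Or.inr hsolv)
  have h3 : A ⊓ Subgroup.centralizer (H : Set G) ≤ Subgroup.center G ⊓ A := by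
    rintro a ⟨haA, haH⟩
    have haA : a ∈ A := haA
    have haH : a ∈ Subgroup.centralizer (H : Set G) := haH
    refine ⟨?_, haA⟩
    show a ∈ Subgroup.center G
    rw [Subgroup.mem_center_iff]
    intro g
    obtain ⟨⟨⟨x, hx⟩, ⟨h, hh⟩⟩, hxh⟩ := hH.2 g
    have hxh' : x * h = g := hxh
    have e1 : x * a = a * x := hcomm x hx a haA
    have e2 : h * a = a * h := Subgroup.mem_centralizer_iff.mp haH h hh
    rw [← hxh', mul_assoc, e2, ← mul_assoc, e1, mul_assoc]
  have h4 : A ≤ ⁅A, (⊤ : Subgroup G)⁆ ⊔ (Subgroup.center G ⊓ A) := by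
    conv_lhs => rw [← h2]
    exact sup_le_sup (Subgroup.commutator_mono le_rfl le_top) h3
  refine ⟨?_, ?_, ?_⟩
  · apply le_antisymm h1
    rintro x ⟨hxC, hxA⟩
    have hx : x ∈ ((⁅A, (⊤ : Subgroup G)⁆ ⊔ (Subgroup.center G ⊓ A) : Subgroup G) : Set G) :=
      h4 hxA
    rw [Subgroup.normal_mul] at hx
    obtain ⟨c, hcm, z, hz, hcz⟩ := Set.mem_mul.mp hx
    have hcz' : c * z = x := hcz
    have hcm' : c ∈ ⁅A, (⊤ : Subgroup G)⁆ := hcm
    have hz' : z ∈ Subgroup.center G ⊓ A := hz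
    have hzC : z ∈ commutator G := by
      have : z = c⁻¹ * x := by rw [← hcz']; group
      rw [this]
      exact Subgroup.mul_mem _ (Subgroup.inv_mem _ (h1 hcm').1) hxC
    have hz1 : z ∈ A ⊓ commutator G ⊓ Subgroup.center G := ⟨⟨hz'.2, hzC⟩, hz'.1⟩
    rw [hbot, Subgroup.mem_bot] at hz1
    rw [← hcz', hz1, mul_one]
    exact hcm'
  · rw [eq_bot_iff, ← hbot]
    rintro x ⟨⟨hx1, hx2⟩, hx3, -⟩
    exact ⟨⟨hx2, hx1⟩, hx3⟩
  · apply le_antisymm (sup_le inf_le_right inf_le_right)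
    exact h4.trans (sup_le_sup h1 le_rfl)

end Cfsg.Agent.S0090
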