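import Cfsg.Statements.S0091
import Mathlib

set_option autoImplicit false
open Cfsg

namespace Cfsg.Agent.S0091

open scoped commutatorElement

/-- If `H` controls its own fusion then its focal subgroup is its derived subgroup. -/
theorem focal_le_of_control {G : Type*} [Group G] (H : Subgroup G)
    (h : ∀ x ∈ H, ∀ y ∈ H, (∃ g : G, g * x * g⁻¹ = y) → ∃ z ∈ H, z * x * z⁻¹ = y) :
    Subgroup.focalSubgroup H ≤ ⁅H, H⁆ := by
  rw [Subgroup.focalSubgroup_def, Subgroup.closure_le]
  rintro g ⟨hgH, x, hx, u, rfl⟩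
  have hy : u * x⁻¹ * u⁻¹ ∈ H := by
    have : u * x⁻¹ * u⁻¹ = x⁻¹ * ⁅x, u⁆ := by
      rw [commutatorElement_def]; group
    rw [this]; exact H.mul_mem (H.inv_mem hx) hgH
  obtain ⟨z, hz, hzx⟩ := h x⁻¹ (H.inv_mem hx) _ hy ⟨u, rfl⟩
  have : ⁅x, u⁆ = ⁅x, z⁆ := by
    rw [commutatorElement_def, commutatorElement_def]
    have e1 : x * u * x⁻¹ * u⁻¹ = x * (u * x⁻¹ * u⁻¹) := by group
    have e2 : x * z * x⁻¹ * z⁻¹ = x * (z * x⁻¹ * z⁻¹) := by group
    rw [e1, e2, hzx]
  rw [this]
  exact Subgroup.commutator_mem_commutator hx hz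

theorem commutator_self_lt {G : Type*} [Group G] (H : Subgroup G) (hH : H ≠ ⊥)
    [hs : Group.IsSolvable H] : ⁅H, H⁆ < H := by
  have hle : ⁅H, H⁆ ≤ H := by
    rw [Subgroup.commutator_le]
    intro a ha b hb
    exact H.mul_mem (H.mul_mem (H.mul_mem ha hb) (H.inv_mem ha)) (H.inv_mem hb)
  refine lt_of_le_of_ne hle ?_
  intro heq
  have : Nontrivial H := (Subgroup.nontrivial_iff_ne_bot H).mpr hH
  have h1 := Group.IsSolvable.commutator_lt_top_of_nontrivial H
  have h2 : (commutator H).map H.subtype = (⊤ : Subgroup H).map H.subtype := by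
    rw [Subgroup.map_subtype_commutator, heq, ← MonoidHom.range_eq_map,
      Subgroup.range_subtype]
  have h3 := Subgroup.map_injective H.subtype_injective h2
  exact (ne_of_lt h1) h3

/-- If a nontrivial Sylow p-subgroup controls its own fusion then it is not contained in the derived subgroup. -/
theorem result {G : Type*} [Group G] [Finite G] {p : ℕ} [Fact p.Prime] (P : Sylow p G) (hp : p ∣ Nat.card G) (h : ∀ x ∈ P, ∀ y ∈ P, (∃ g : G, g * x * g⁻¹ = y) → ∃ z ∈ P, z * x * z⁻¹ = y) : ¬ (P : Subgroup G) ≤ commutator G := by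
  intro hle
  have h1 : commutator G ⊓ (P : Subgroup G) = Subgroup.focalSubgroup (P : Subgroup G) :=
    Subgroup.commutator_inf_eq_focalSubgroup P
  have h2 : commutator G ⊓ (P : Subgroup G) = (P : Subgroup G) := inf_eq_right.mpr hle
  have h3 : (P : Subgroup G) ≤ ⁅(P : Subgroup G), (P : Subgroup G)⁆ := by
    have := focal_le_of_control (P : Subgroup G) h
    rw [← h1, h2] at this
    exact this
  have hne : (P : Subgroup G) ≠ ⊥ := P.ne_bot_of_dvd_card hp
  have hs : Group.IsSolvable (P : Subgroup G) := by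
    have : Group.IsNilpotent (P : Subgroup G) := P.isPGroup'.isNilpotent
    infer_instance
  exact absurd (commutator_self_lt (P : Subgroup G) hne) (not_lt_of_ge h3)

end Cfsg.Agent.S0091
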