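import Cfsg.Statements.S0092
import Cfsg.Agent.S0075
import Cfsg.Agent.S0055
import Cfsg.Agent.Lib.Helper16.Residual
import Cfsg.Agent.Lib.Helper10.Coprime
import Mathlib

set_option autoImplicit false
open Cfsg

namespace Cfsg.Agent.S0092

open scoped Pointwise
open scoped commutatorElement
open Cfsg.Agent.Lib.Helper10.SZ Cfsg.Agent.Lib.Helper10.Coprime

/-- Relative Schur–Zassenhaus existence for a normal Hall subgroup `Q` of `L`. -/
theorem exists_rel_complement {G : Type*} [Group G] [Finite G] (Q L : Subgroup G) (hQL : Q ≤ L)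
    (hLN : L ≤ Subgroup.normalizer (Q : Set G)) (hcop : (Nat.card Q).Coprime (Q.relIndex L)) :
    ∃ H₁ : Subgroup G, H₁ ≤ L ∧ Q ⊓ H₁ = ⊥ ∧ (∀ l ∈ L, ∃ q ∈ Q, ∃ h ∈ H₁, l = q * h) ∧
      Nat.card H₁ = Q.relIndex L := by
  have hn : (Q.subgroupOf L).Normal := Subgroup.normal_subgroupOf_of_le_normalizer hLN
  have hcop' : (Nat.card (Q.subgroupOf L)).Coprime (Q.subgroupOf L).index := by
    rw [card_subgroupOf_of_le hQL]; exact hcop
  obtain ⟨H', hH'⟩ := Subgroup.exists_right_complement'_of_coprime hcop'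
  refine ⟨H'.map L.subtype, ?_, ?_, ?_, ?_⟩
  · rintro _ ⟨y, -, rfl⟩
    exact y.2
  · rw [eq_bot_iff]
    rintro x ⟨hxQ, y, hy, rfl⟩
    have h1 : y ∈ Q.subgroupOf L ⊓ H' := ⟨Subgroup.mem_subgroupOf.mpr hxQ, hy⟩
    rw [hH'.disjoint.eq_bot, Subgroup.mem_bot] at h1
    rw [h1]; exact Subgroup.one_mem _
  · intro l hl
    obtain ⟨⟨⟨q, hq⟩, ⟨h, hh⟩⟩, hqh⟩ := hH'.2 ⟨l, hl⟩
    have hqh' : q * h = ⟨l, hl⟩ := hqh
    refine ⟨q, Subgroup.mem_subgroupOf.mp hq, h, ⟨h, hh, rfl⟩, ?_⟩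
    have := congrArg Subtype.val hqh'
    simpa using this.symm
  · have h1 : Nat.card (H'.map L.subtype) = Nat.card H' :=
      (Nat.card_congr (Subgroup.equivMapOfInjective H' L.subtype L.subtype_injective).toEquiv).symm
    rw [h1, ← hH'.symm.index_eq_card]
    rfl

/-- `O^p(O^p(G)) = O^p(G)`. -/
theorem pResidual_pResidual {G : Type*} [Group G] (p : ℕ) :
    Cfsg.pResidual p (Cfsg.pResidual p G) = ⊤ := by
  apply Subgroup.map_injective (Cfsg.pResidual p G).subtype_injective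
  rw [Cfsg.Agent.Lib.Helper16.Residual.pResidualOf_eq_closure, ← MonoidHom.range_eq_map,
    Subgroup.range_subtype]
  apply le_antisymm
  · rw [Subgroup.closure_le]
    rintro x ⟨hx, -⟩
    exact hx
  · conv_lhs => unfold Cfsg.pResidual
    apply Subgroup.closure_mono
    intro x hx
    exact ⟨Subgroup.subset_closure hx, hx⟩

/-- If the Sylow p-subgroups of O^p(G) are abelian then G splits over O^p(G). -/
theorem result {G : Type*} [Group G] [Finite G] {p : ℕ} [Fact p.Prime] (h : ∀ Q : Sylow p (Cfsg.pResidual p G), IsMulCommutative Q) : ∃ K : Subgroup G, K.IsComplement' (Cfsg.pResidual p G) := by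
  have hp : p.Prime := Fact.out
  set R := Cfsg.pResidual p G with hR
  have hRn : R.Normal := Cfsg.Agent.Lib.Helper16.Residual.pResidual_normal G p
  obtain ⟨Q₀⟩ : Nonempty (Sylow p R) := inferInstance
  have hQ₀c := h Q₀
  set Q : Subgroup G := (Q₀ : Subgroup R).map R.subtype with hQ
  have hQR : Q ≤ R := by
    rintro _ ⟨y, -, rfl⟩
    exact y.2
  have hQp : IsPGroup p Q := Q₀.isPGroup'.map R.subtype
  have hQcomm : ∀ a ∈ Q, ∀ b ∈ Q, a * b = b * a := by
    rintro _ ⟨a, ha, rfl⟩ _ ⟨b, hb, rfl⟩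
    have := hQ₀c.is_comm.comm ⟨a, ha⟩ ⟨b, hb⟩
    have h2 := congrArg (fun t : Q₀ => ((t : R) : G)) this
    simpa using h2
  have hQc : IsMulCommutative Q := ⟨⟨fun a b => Subtype.ext (hQcomm a a.2 b b.2)⟩⟩
  set N := Subgroup.normalizer (Q : Set G) with hN
  have hNR : N ⊔ R = ⊤ := Sylow.normalizer_sup_eq_top Q₀
  set L := N ⊓ R with hL
  have hQL : Q ≤ L := le_inf Subgroup.le_normalizer hQR
  have hLN : L ≤ Subgroup.normalizer (Q : Set G) := inf_le_left
  -- (F4) Q = ⁅Q, L⁆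
  have hF4 : Q ≤ ⁅Q, L⁆ := by
    have h1 := Cfsg.Agent.S0075.result Q₀ hQ₀c
    rw [pResidual_pResidual, inf_top_eq] at h1
    have h2 : Q ≤ (⁅(Q₀ : Subgroup R), Subgroup.normalizer (Q₀ : Set R)⁆).map R.subtype := by
      rw [← h1]
    refine h2.trans ?_
    rw [Subgroup.map_commutator]
    apply Subgroup.commutator_mono le_rfl
    refine le_inf ?_ ?_
    · exact Subgroup.le_normalizer_map R.subtype
    · rintro _ ⟨y, -, rfl⟩
      exact y.2
  -- (F5) complement H₁ of Q in L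
  have hcopQL : (Nat.card Q).Coprime (Q.relIndex L) := by
    obtain ⟨a, ha⟩ := IsPGroup.iff_card.mp hQp
    rw [ha]
    apply Nat.Coprime.pow_left
    rw [hp.coprime_iff_not_dvd]
    intro hd
    have h1 : Q.relIndex L ∣ Q.relIndex R :=
      Dvd.intro _ (Subgroup.relIndex_mul_relIndex Q L R hQL inf_le_right)
    have h2 : Q.relIndex R = (Q₀ : Subgroup R).index := by
      rw [Subgroup.relIndex, hQ]
      congr 1
      ext x
      simp [Subgroup.mem_subgroupOf]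
    rw [h2] at h1
    exact Q₀.not_dvd_index (hd.trans h1)
  obtain ⟨H₁, hH₁L, hQH₁, hLdec, hH₁card⟩ := exists_rel_complement Q L hQL hLN hcopQL
  have hH₁N : H₁ ≤ Subgroup.normalizer (Q : Set G) := hH₁L.trans hLN
  have hcopH₁Q : (Nat.card H₁).Coprime (Nat.card Q) := by
    rw [hH₁card]; exact hcopQL.symm
  -- (F6) Q = ⁅Q, H₁⁆
  have hF6 : Q ≤ ⁅Q, H₁⁆ := by
    refine hF4.trans ?_
    rw [Subgroup.commutator_le]
    intro q hq l hl
    obtain ⟨q', hq', h, hh, rfl⟩ := hLdec l hl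
    have hc : ⁅q, h⁆ ∈ Q := by
      have : ⁅q, h⁆ = q * (h * q⁻¹ * h⁻¹) := by rw [commutatorElement_def]; group
      rw [this]
      exact Q.mul_mem hq ((Subgroup.mem_normalizer_iff.mp (hH₁N hh) q⁻¹).mp (Q.inv_mem hq))
    have e1 : ⁅q, q' * h⁆ = q' * ⁅q, h⁆ * q'⁻¹ := by
      have e2 : q * q' = q' * q := hQcomm q hq q' hq'
      rw [commutatorElement_def, commutatorElement_def]
      calc q * (q' * h) * q⁻¹ * (q' * h)⁻¹ = (q * q') * h * q⁻¹ * h⁻¹ * q'⁻¹ := by group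
        _ = (q' * q) * h * q⁻¹ * h⁻¹ * q'⁻¹ := by rw [e2]
        _ = q' * (q * h * q⁻¹ * h⁻¹) * q'⁻¹ := by group
    have e3 : q' * ⁅q, h⁆ * q'⁻¹ = ⁅q, h⁆ := by
      rw [hQcomm q' hq' _ hc, mul_inv_cancel_right]
    rw [e1, e3]
    exact Subgroup.commutator_mem_commutator hq hh
  -- (F7) C_Q(H₁) = 1
  have hF7 : Q ⊓ Subgroup.centralizer (H₁ : Set G) = ⊥ := by
    have h1 := (Cfsg.Agent.S0055.result H₁ Q hH₁N hcopH₁Q).1
    rw [eq_bot_iff, ← h1]
    intro x hx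
    exact ⟨hx, hF6 hx.1⟩
  -- (F8) M
  set M := N ⊓ Subgroup.normalizer (H₁ : Set G) with hM
  have hH₁M : H₁ ≤ M := le_inf hH₁N Subgroup.le_normalizer
  have hF8 : M ⊓ Q = ⊥ := by
    rw [eq_bot_iff, ← hF7]
    rintro x ⟨⟨-, hxH⟩, hxQ⟩
    have hxH' : x ∈ Subgroup.normalizer (H₁ : Set G) := hxH
    have hxQ' : x ∈ Q := hxQ
    refine ⟨hxQ', ?_⟩
    show x ∈ Subgroup.centralizer (H₁ : Set G)
    rw [Subgroup.mem_centralizer_iff]
    intro k hk
    have h1 : x * k * x⁻¹ * k⁻¹ ∈ Q ⊓ H₁ := by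
      constructor
      · have : x * k * x⁻¹ * k⁻¹ = x * (k * x⁻¹ * k⁻¹) := by group
        rw [this]
        exact Q.mul_mem hxQ' ((Subgroup.mem_normalizer_iff.mp (hH₁N hk) x⁻¹).mp (Q.inv_mem hxQ'))
      · exact H₁.mul_mem ((Subgroup.mem_normalizer_iff.mp hxH' k).mp hk) (H₁.inv_mem hk)
    rw [hQH₁, Subgroup.mem_bot] at h1
    have : x * k = (x * k * x⁻¹ * k⁻¹) * (k * x) := by group
    rw [this, h1, one_mul]
  -- (F9) N ≤ Q * M
  have hLnorm : ∀ n ∈ N, ∀ l ∈ L, n * l * n⁻¹ ∈ L := by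
    intro n hn l hl
    exact ⟨Subgroup.mul_mem _ (Subgroup.mul_mem _ hn hl.1) (Subgroup.inv_mem _ hn),
      hRn.conj_mem l hl.2 n⟩
  have hQsolv : Group.IsSolvable Q := by
    apply Group.isSolvable_of_comm
    intro a b
    exact Subtype.ext (hQcomm a a.2 b b.2)
  have hQsupH₁ : L ≤ Q ⊔ H₁ := by
    intro l hl
    obtain ⟨q, hq, k, hk, rfl⟩ := hLdec l hl
    exact Subgroup.mul_mem _ (Subgroup.mem_sup_left hq) (Subgroup.mem_sup_right hk)
  have hF9 : ∀ n ∈ N, ∃ q ∈ Q, ∃ m ∈ M, n = q * m := by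
    intro n hn
    have hB : MulAut.conj n • H₁ ≤ Q ⊔ H₁ := by
      refine le_trans ?_ hQsupH₁
      intro x hx
      rw [mem_conj_smul_iff] at hx
      have := hLnorm n hn _ (hH₁L hx)
      have e : n * (n⁻¹ * x * n) * n⁻¹ = x := by group
      rw [e] at this
      exact this
    obtain ⟨q, hq, hconj⟩ := rel_conj Q H₁ (MulAut.conj n • H₁) hH₁N hB (card_conj_smul _ _)
      hcopH₁Q.symm (Or.inl hQsolv)
    refine ⟨q, hq, q⁻¹ * n, ?_, by group⟩
    refine ⟨Subgroup.mul_mem _ (Subgroup.inv_mem _ (Subgroup.le_normalizer hq)) hn, ?_⟩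
    show q⁻¹ * n ∈ Subgroup.normalizer (H₁ : Set G)
    rw [mem_normalizer_iff_conj_smul, conj_mul_smul, ← hconj, ← conj_mul_smul, inv_mul_cancel,
      map_one, one_smul]
  -- (F10) M ⊓ R = H₁
  have hMR : M ⊓ R ≤ H₁ := by
    rintro x ⟨hxM, hxR⟩
    have hxL : x ∈ L := ⟨hxM.1, hxR⟩
    obtain ⟨q, hq, k, hk, rfl⟩ := hLdec x hxL
    have hqM : q ∈ M ⊓ Q := by
      refine ⟨?_, hq⟩
      have : q = q * k * k⁻¹ := by group
      rw [this]
      exact Subgroup.mul_mem _ hxM (Subgroup.inv_mem _ (hH₁M hk))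
    rw [hF8, Subgroup.mem_bot] at hqM
    rw [hqM, one_mul]
    exact hk
  have hMN₁ : M ≤ Subgroup.normalizer (H₁ : Set G) := inf_le_right
  have hcopH₁M : (Nat.card H₁).Coprime (H₁.relIndex M) := by
    have h1 : H₁.relIndex M ∣ R.relIndex M := by
      have e : (M ⊓ R).relIndex M = R.relIndex M := Subgroup.inf_relIndex_left M R
      rw [← e]
      exact Subgroup.relIndex_dvd_of_le_left M hMR
    have h2 : R.relIndex M ∣ R.index := Subgroup.relIndex_dvd_index_of_normal R M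
    obtain ⟨k, hk⟩ := IsPGroup.iff_card.mp
      (Cfsg.Agent.Lib.Helper16.Residual.quotient_pResidual_isPGroup hRn)
    have h3 : R.index = p ^ k := by rw [← hk]; rfl
    rw [h3] at h2
    apply Nat.Coprime.coprime_dvd_right (h1.trans h2)
    apply Nat.Coprime.pow_right
    rw [hH₁card]
    -- Q.relIndex L is coprime to p
    have hQ1 : Q ≠ ⊥ ∨ Q = ⊥ := (ne_or_eq Q ⊥)
    rcases hQ1 with hQ1 | hQ1
    · obtain ⟨a, ha⟩ := IsPGroup.iff_card.mp hQp
      have ha0 : a ≠ 0 := by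
        rintro rfl
        rw [pow_zero] at ha
        exact hQ1 (Subgroup.card_eq_one.mp ha)
      rw [ha] at hcopQL
      exact ((Nat.coprime_pow_left_iff (Nat.pos_of_ne_zero ha0) _ _).mp hcopQL).symm
    · -- Q trivial: then p does not divide |R|, hence not |L|
      rw [Nat.coprime_comm, hp.coprime_iff_not_dvd]
      intro hd
      have h4 : Q.relIndex L ∣ Nat.card R :=
        (Subgroup.relIndex_dvd_card Q L).trans (Subgroup.card_dvd_of_le inf_le_right)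
      have h5 : p ∣ Nat.card R := hd.trans h4
      have h6 : (Q₀ : Subgroup R) ≠ ⊥ := Q₀.ne_bot_of_dvd_card h5
      apply h6
      rw [eq_bot_iff]
      intro y hy
      have : (y : G) ∈ Q := ⟨y, hy, rfl⟩
      rw [hQ1, Subgroup.mem_bot] at this
      rw [Subgroup.mem_bot]
      exact Subtype.ext this
  obtain ⟨K, hKM, hH₁K, hMdec, -⟩ := exists_rel_complement H₁ M hH₁M hMN₁ hcopH₁M
  refine ⟨K, ?_⟩
  apply Subgroup.isComplement'_of_disjoint_and_mul_eq_univ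
  · rw [disjoint_iff, eq_bot_iff, ← hH₁K]
    rintro x ⟨hxK, hxR⟩
    exact ⟨hMR ⟨hKM hxK, hxR⟩, hxK⟩
  · rw [Set.eq_univ_iff_forall]
    intro g
    have hg : g ∈ ((N ⊔ R : Subgroup G) : Set G) := by rw [hNR]; trivial
    rw [Subgroup.mul_normal] at hg
    obtain ⟨n, hn, r, hr, hnr⟩ := Set.mem_mul.mp hg
    have hnr' : n * r = g := hnr
    obtain ⟨q, hq, m, hm, rfl⟩ := hF9 n hn
    obtain ⟨k₁, hk₁, k, hk, rfl⟩ := hMdec m hm
    refine Set.mem_mul.mpr ⟨k, hk, k⁻¹ * (q * k₁) * k * r, ?_, ?_⟩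
    · have h1 : q * k₁ ∈ R := R.mul_mem (hQR hq) (hH₁L hk₁).2
      have h2 : k⁻¹ * (q * k₁) * k ∈ R := by
        have := hRn.conj_mem _ h1 k⁻¹
        simpa using this
      exact R.mul_mem h2 hr
    · show k * (k⁻¹ * (q * k₁) * k * r) = g
      rw [← hnr']; group

end Cfsg.Agent.S0092
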