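import Cfsg.Statements.S0094
import Cfsg.Agent.S0012
import Mathlib

set_option autoImplicit false
open Cfsg

namespace Cfsg.Agent.S0094

open scoped commutatorElement

/-- If `⁅a, b⁆` is central then `⁅a ^ n, b⁆ = ⁅a, b⁆ ^ n`. -/
theorem commutator_pow_left {P : Type*} [Group P] (a b : P)
    (hc : ⁅a, b⁆ ∈ Subgroup.center P) (n : ℕ) : ⁅a ^ n, b⁆ = ⁅a, b⁆ ^ n := by
  induction n with
  | zero => simp
  | succ n ih =>
    have h1 : ⁅a ^ (n + 1), b⁆ = a * ⁅a ^ n, b⁆ * a⁻¹ * ⁅a, b⁆ := by
      simp only [commutatorElement_def, pow_succ']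
      group
    have h2 : a * ⁅a, b⁆ ^ n = ⁅a, b⁆ ^ n * a :=
      (Subgroup.mem_center_iff.mp (Subgroup.pow_mem _ hc n) a)
    rw [h1, ih, h2, mul_inv_cancel_right, pow_succ]

/-- In a special p-group every central element has order dividing p. -/
theorem result {P : Type*} [Group P] [Finite P] {p : ℕ} [Fact p.Prime] (h : Cfsg.IsSpecial p P) (z : P) (hz : z ∈ Subgroup.center P) : z ^ p = 1 := by
  obtain ⟨hP, hfr, hcm⟩ := h
  have hz' : z ∈ commutator P := by rw [hcm]; exact hz
  rw [commutator_eq_closure] at hz'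
  have key : ∀ w ∈ Subgroup.closure (commutatorSet P), w ∈ Subgroup.center P ∧ w ^ p = 1 := by
    intro w hw
    induction hw using Subgroup.closure_induction with
    | mem x hx =>
      obtain ⟨a, b, rfl⟩ := hx
      have hc : ⁅a, b⁆ ∈ Subgroup.center P := by
        rw [← hcm]
        exact Subgroup.commutator_mem_commutator (Subgroup.mem_top a) (Subgroup.mem_top b)
      refine ⟨hc, ?_⟩
      rw [← commutator_pow_left a b hc p]
      have hap : a ^ p ∈ Subgroup.center P := by
        rw [← hfr]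
        exact (Cfsg.Agent.S0012.result p hP).2 a
      rw [commutatorElement_eq_one_iff_mul_comm]
      exact (Subgroup.mem_center_iff.mp hap b).symm
    | one => exact ⟨Subgroup.one_mem _, one_pow p⟩
    | mul x y _ _ hx hy =>
      refine ⟨Subgroup.mul_mem _ hx.1 hy.1, ?_⟩
      have hcomm : Commute x y := (Subgroup.mem_center_iff.mp hx.1 y).symm
      rw [hcomm.mul_pow, hx.2, hy.2, one_mul]
    | inv x _ hx =>
      exact ⟨Subgroup.inv_mem _ hx.1, by rw [inv_pow, hx.2, inv_one]⟩
  exact (key z hz').2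

end Cfsg.Agent.S0094
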