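import Cfsg.Statements.S0098
import Cfsg.Agent.Lib.Lead.Extraspecial
import Mathlib

set_option autoImplicit false
open Cfsg

namespace Cfsg.Agent.S0098

open scoped commutatorElement
open Cfsg.Agent.Lib.Lead.Extraspecial

universe u v

theorem main {p : ℕ} [Fact p.Prime] : ∀ (n : ℕ) (Q₁ : Type u) (Q₂ : Type v) [Group Q₁] [Group Q₂]
    [Finite Q₁] [Finite Q₂] (z₁ : Q₁) (z₂ : Q₂),
    Nat.card Q₁ ≤ n → Nat.card Q₁ = Nat.card Q₂ → Good p Q₁ z₁ → Good p Q₂ z₂ →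
    (∀ g : Q₁, g ^ p = 1) → (∀ g : Q₂, g ^ p = 1) → ∃ F : Q₁ ≃* Q₂, F z₁ = z₂ := by
  intro n
  induction n with
  | zero =>
    intro Q₁ Q₂ _ _ _ _ z₁ z₂ hn
    have : 0 < Nat.card Q₁ := Nat.card_pos
    omega
  | succ n ih =>
    intro Q₁ Q₂ _ _ _ _ z₁ z₂ hn hcard hG₁ hG₂ he₁ he₂
    have hpp : p.Prime := Fact.out
    by_cases hab : ∀ g h : Q₁, g * h = h * g
    · have hc₁ := card_of_abelian hG₁ hab
      exact cyclic_iso hG₁ hG₂ hc₁ (hcard ▸ hc₁)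
    · have hab₂ : ¬ ∀ g h : Q₂, g * h = h * g := by
        intro hab₂
        have hc₂ := card_of_abelian hG₂ hab₂
        exact hab (abelian_of_card hG₁ (hcard.trans hc₂))
      obtain ⟨x₁, y₁, hxy₁⟩ := exists_pair hG₁ hab
      obtain ⟨x₂, y₂, hxy₂⟩ := exists_pair hG₂ hab₂
      have hc₁ := card_eq hG₁ hxy₁ (he₁ x₁) (he₁ y₁)
      have hc₂ := card_eq hG₂ hxy₂ (he₂ x₂) (he₂ y₂)
      have hcc : Nat.card (cen x₁ y₁) = Nat.card (cen x₂ y₂) := by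
        have h1 : p * p * Nat.card (cen x₁ y₁) = p * p * Nat.card (cen x₂ y₂) := by
          rw [← hc₁, ← hc₂, hcard]
        exact Nat.eq_of_mul_eq_mul_left (Nat.mul_pos hpp.pos hpp.pos) h1
      have hcn : Nat.card (cen x₁ y₁) ≤ n := by
        have h2 := hpp.two_le
        have h3 : 0 < Nat.card (cen x₁ y₁) := Nat.card_pos
        have h4 : 4 ≤ p * p := Nat.mul_le_mul h2 h2
        have h5 : 4 * Nat.card (cen x₁ y₁) ≤ p * p * Nat.card (cen x₁ y₁) :=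
          Nat.mul_le_mul_right _ h4
        omega
      obtain ⟨f, hf⟩ := ih (cen x₁ y₁) (cen x₂ y₂) ⟨z₁, z_mem_cen hG₁⟩ ⟨z₂, z_mem_cen hG₂⟩
        hcn hcc (good_cen hG₁ hxy₁) (good_cen hG₂ hxy₂)
        (fun g => Subtype.ext (by simpa using he₁ g.1))
        (fun g => Subtype.ext (by simpa using he₂ g.1))
      exact step_iso hG₁ hG₂ hcard hxy₁ hxy₂ (he₁ x₁) (he₁ y₁) (he₂ x₂) (he₂ y₂) f (by rw [hf])

/-- For odd p, extraspecial p-groups of exponent p are determined up to isomorphism by their order. -/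
theorem result {E₁ : Type*} {E₂ : Type*} [Group E₁] [Group E₂] [Finite E₁] [Finite E₂] {p : ℕ} [Fact p.Prime] (hp : p ≠ 2) (h₁ : Cfsg.IsExtraspecial p E₁) (h₂ : Cfsg.IsExtraspecial p E₂) (he₁ : Monoid.exponent E₁ = p) (he₂ : Monoid.exponent E₂ = p) (hc : Nat.card E₁ = Nat.card E₂) : Nonempty (E₁ ≃* E₂) := by
  obtain ⟨z₁, hG₁⟩ := good_of_extraspecial h₁
  obtain ⟨z₂, hG₂⟩ := good_of_extraspecial h₂
  obtain ⟨F, -⟩ := main _ E₁ E₂ z₁ z₂ le_rfl hc hG₁ hG₂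
    (fun g => by rw [← he₁]; exact Monoid.pow_exponent_eq_one g)
    (fun g => by rw [← he₂]; exact Monoid.pow_exponent_eq_one g)
  exact ⟨F⟩

end Cfsg.Agent.S0098
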