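import Cfsg.Statements.S0221
import Mathlib
import Cfsg.Agent.S1337
import Cfsg.Agent.Lib.Helper1.TransThompson

set_option autoImplicit false
open Cfsg
open scoped commutatorElement

namespace Cfsg.Agent.S0221

theorem comm_of_exp_two {S : Type*} [Group S] (a b : S) (ha : a ^ 2 = 1) (hb : b ^ 2 = 1)
    (hab : (a * b) ^ 2 = 1) : a * b = b * a := by
  have h1 : a⁻¹ = a := inv_eq_of_mul_eq_one_left (by rw [← pow_two]; exact ha)
  have h2 : b⁻¹ = b := inv_eq_of_mul_eq_one_left (by rw [← pow_two]; exact hb)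
  have h3 : (a * b)⁻¹ = a * b := inv_eq_of_mul_eq_one_left (by rw [← pow_two]; exact hab)
  calc a * b = (a * b)⁻¹ := h3.symm
    _ = b⁻¹ * a⁻¹ := mul_inv_rev a b
    _ = b * a := by rw [h1, h2]

theorem elem_of_exp_two {S : Type*} [Group S] (E : Subgroup S) (hE : ∀ e ∈ E, e ^ 2 = 1) :
    Cfsg.IsElementaryAbelian 2 E :=
  ⟨⟨⟨fun a b => Subtype.ext (comm_of_exp_two a.1 b.1 (hE _ a.2) (hE _ b.2)
    (hE _ (E.mul_mem a.2 b.2)))⟩⟩, hE⟩

theorem zpowers_elem {S : Type*} [Group S] (x : S) (hx : x ^ 2 = 1) :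
    Cfsg.IsElementaryAbelian 2 (Subgroup.zpowers x) := by
  apply elem_of_exp_two
  intro u hu
  obtain ⟨i, rfl⟩ := Subgroup.mem_zpowers_iff.1 hu
  rw [← zpow_natCast, ← zpow_mul, mul_comm, zpow_mul, zpow_natCast, hx, one_zpow]

/-- In a `2`-group of rank at least three there is a subgroup `T` of index at most two all of
whose elements of order at most two centralize an elementary abelian subgroup of order `8`. -/
theorem two_group_lemma {S : Type*} [Group S] [Finite S] (hS : IsPGroup 2 S)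
    (hrk : ¬ Cfsg.PRankLE 2 2 S) :
    ∃ T : Subgroup S, T.index ≤ 2 ∧ ∀ x ∈ T, x ^ 2 = 1 →
      ∃ E : Subgroup S, E ≤ Subgroup.centralizer ({x} : Set S) ∧ Nat.card E = 8 ∧
        ∀ e ∈ E, e ^ 2 = 1 := by
  classical
  haveI : Fact (Nat.Prime 2) := ⟨Nat.prime_two⟩
  obtain ⟨U, hUn, hUe, hUcard, hconn⟩ := Cfsg.Agent.S1337.result 2 hS hrk
  haveI := hUn
  have hC : ¬ Cfsg.PRankLE 2 2 ↥(Subgroup.centralizer (U : Set S)) :=
    (hconn U hUe (le_of_eq hUcard.symm)).1 Relation.ReflTransGen.refl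
  obtain ⟨B', hB'c, hB'e, hB'card⟩ : ∃ B' : Subgroup ↥(Subgroup.centralizer (U : Set S)),
      IsMulCommutative B' ∧ (∀ x ∈ B', x ^ 2 = 1) ∧ 2 ^ 2 < Nat.card B' := by
    by_contra hno
    apply hC
    intro Y hYc hYe
    by_contra hlt
    exact hno ⟨Y, hYc, hYe, not_le.1 hlt⟩
  obtain ⟨B, hB⟩ : ∃ B : Subgroup S,
      B = B'.map (Subgroup.centralizer (U : Set S)).subtype := ⟨_, rfl⟩
  have hBC : B ≤ Subgroup.centralizer (U : Set S) := by
    rw [hB]; rintro _ ⟨y, -, rfl⟩; exact y.2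
  have hBe : ∀ b ∈ B, b ^ 2 = 1 := by
    intro b hb
    rw [hB] at hb
    obtain ⟨b', hb', rfl⟩ := hb
    have h := hB'e b' hb'
    have h2 := congrArg Subtype.val h
    simpa using h2
  have hBcard : 2 ^ 2 < Nat.card B := by
    rw [hB, Subgroup.card_map_of_injective (Subgroup.subtype_injective _)]
    exact hB'card
  obtain ⟨K, hKB, hKcard⟩ : ∃ K : Subgroup S, K ≤ B ∧ Nat.card K = 8 := by
    obtain ⟨j, hj⟩ := IsPGroup.iff_card.1 (hS.to_subgroup B)
    have h3 : 3 ≤ j := by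
      by_contra h
      rw [not_le] at h
      have h2 := Nat.pow_le_pow_right (by norm_num : 0 < 2) (show j ≤ 2 by omega)
      rw [hj] at hBcard
      omega
    have hdvd : 2 ^ 3 ∣ Nat.card B := by rw [hj]; exact pow_dvd_pow 2 h3
    obtain ⟨K', hK'⟩ := Sylow.exists_subgroup_card_pow_prime 2 hdvd
    refine ⟨K'.map B.subtype, ?_, ?_⟩
    · rintro _ ⟨y, -, rfl⟩; exact y.2
    · rw [Subgroup.card_map_of_injective (Subgroup.subtype_injective _), hK']; norm_num
  refine ⟨Subgroup.centralizer (U : Set S), ?_, ?_⟩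
  · obtain ⟨M, hMn, hMU, hMc, hMi⟩ :=
      Cfsg.Agent.S0129.index_centralizer_le hS U 2 (le_of_eq hUcard.symm)
    have hMeq : M = U := Subgroup.eq_of_le_of_card_ge hMU (by rw [hMc, hUcard])
    rw [hMeq] at hMi
    simpa using hMi
  · intro x hxT hx2
    by_cases hxU : x ∈ U
    · refine ⟨K, ?_, hKcard, fun e he => hBe e (hKB he)⟩
      intro b hb
      rw [Subgroup.mem_centralizer_iff]
      intro h hh
      rw [Set.mem_singleton_iff.1 hh]
      exact Subgroup.mem_centralizer_iff.1 (hBC (hKB hb)) x hxU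
    · have hs := Cfsg.Agent.S1337.sup_elem U (Subgroup.zpowers x) hUe (zpowers_elem x hx2) (by
        intro u hu v hv
        obtain ⟨i, rfl⟩ := Subgroup.mem_zpowers_iff.1 hv
        have hc : Commute u x := Subgroup.mem_centralizer_iff.1 hxT u hu
        exact (hc.zpow_right i).eq)
      refine ⟨U ⊔ Subgroup.zpowers x, ?_, ?_, hs.2⟩
      · intro y hy
        rw [Subgroup.mem_centralizer_iff]
        intro h hh
        rw [Set.mem_singleton_iff.1 hh]
        exact hs.1 x (Subgroup.mem_sup_right (Subgroup.mem_zpowers x)) y hy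
      · have h1 := Cfsg.Agent.S0100.card_sup_zpowers (p := 2) U x
          (by rw [hx2]; exact one_mem _) hxU
        rw [h1, hUcard]; norm_num

theorem result {G : Type*} [Group G] [Finite G] (hno : ∀ H : Subgroup G, H.index ≠ 2) (hrank : ∃ E : Subgroup G, Nat.card E = 8 ∧ ∀ e ∈ E, e ^ 2 = 1) (x : G) (hx : orderOf x = 2) : ∃ E : Subgroup G, E ≤ Subgroup.centralizer ({x} : Set G) ∧ Nat.card E = 8 ∧ ∀ e ∈ E, e ^ 2 = 1 := by
  classical
  haveI : Fact (Nat.Prime 2) := ⟨Nat.prime_two⟩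
  obtain ⟨E, hEcard, hEe⟩ := hrank
  have hx2 : x ^ 2 = 1 := by rw [← hx]; exact pow_orderOf_eq_one x
  have hzp : IsPGroup 2 (Subgroup.zpowers x) :=
    IsPGroup.of_card (n := 1) (by rw [Nat.card_zpowers, hx, pow_one])
  obtain ⟨P, hP⟩ := hzp.exists_le_sylow
  have hxP : x ∈ (P : Subgroup G) := hP (Subgroup.mem_zpowers x)
  have hEp : IsPGroup 2 E := IsPGroup.of_card (n := 3) (by rw [hEcard]; norm_num)
  obtain ⟨Q, hQ⟩ := hEp.exists_le_sylow
  have hrk : ¬ Cfsg.PRankLE 2 2 ↥(P : Subgroup G) := by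
    intro h
    obtain ⟨F, hF⟩ : ∃ F : Subgroup ↥(P : Subgroup G),
        F = (E.subgroupOf (Q : Subgroup G)).map (Sylow.equiv Q P).toMonoidHom := ⟨_, rfl⟩
    have hFe : ∀ f ∈ F, f ^ 2 = 1 := by
      intro f hf
      rw [hF] at hf
      obtain ⟨y, hy, rfl⟩ := hf
      have hy' : (y : G) ∈ E := hy
      have h1 : y ^ 2 = 1 := Subtype.ext (by simpa using hEe _ hy')
      rw [← map_pow, h1, map_one]
    have hFcard : Nat.card F = 8 := by
      rw [hF, Subgroup.card_map_of_injective (Sylow.equiv Q P).injective,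
        Nat.card_congr (Subgroup.subgroupOfEquivOfLe hQ).toEquiv, hEcard]
    have h1 := h F (elem_of_exp_two F hFe).1 hFe
    rw [hFcard] at h1
    norm_num at h1
  obtain ⟨T, hTi, hT⟩ := two_group_lemma (P.isPGroup') hrk
  -- transport from `↥P` to `G`
  have hmain : ∀ t : ↥(P : Subgroup G), t ∈ T → t ^ 2 = 1 →
      ∃ E : Subgroup G, E ≤ Subgroup.centralizer ({(t : G)} : Set G) ∧ Nat.card E = 8 ∧
        ∀ e ∈ E, e ^ 2 = 1 := by
    intro t htT ht2
    obtain ⟨E', hE'c, hE'card, hE'e⟩ := hT t htT ht2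
    refine ⟨E'.map (P : Subgroup G).subtype, ?_, ?_, ?_⟩
    · rintro _ ⟨y, hy, rfl⟩
      rw [Subgroup.mem_centralizer_iff]
      intro h hh
      rw [Set.mem_singleton_iff.1 hh]
      have h1 := Subgroup.mem_centralizer_iff.1 (hE'c hy) t rfl
      exact congrArg Subtype.val h1
    · rw [Subgroup.card_map_of_injective (Subgroup.subtype_injective _), hE'card]
    · rintro _ ⟨y, hy, rfl⟩
      have h1 := hE'e y hy
      have h2 := congrArg Subtype.val h1
      simpa using h2
  by_cases hxT : (⟨x, hxP⟩ : ↥(P : Subgroup G)) ∈ T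
  · exact hmain ⟨x, hxP⟩ hxT (Subtype.ext (by simpa using hx2))
  · have hTi2 : T.index = 2 := by
      have h1 : T.index ≠ 1 := by
        intro h
        rw [Subgroup.index_eq_one] at h
        exact hxT (by rw [h]; trivial)
      have h0 : T.index ≠ 0 := Subgroup.index_ne_zero_of_finite
      omega
    have hQi : (T.map (P : Subgroup G).subtype).relIndex (P : Subgroup G) = 2 := by
      have h := Subgroup.relIndex_map_map_of_injective T ⊤
        (Subgroup.subtype_injective (P : Subgroup G))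
      rw [Subgroup.relIndex_top_right, ← MonoidHom.range_eq_map, Subgroup.range_subtype] at h
      rw [h]; exact hTi2
    have hQP : T.map (P : Subgroup G).subtype ≤ (P : Subgroup G) := by
      rintro _ ⟨y, -, rfl⟩; exact y.2
    obtain ⟨g, hg⟩ : ∃ g : G, g * x * g⁻¹ ∈ T.map (P : Subgroup G).subtype := by
      by_contra hnc
      push Not at hnc
      obtain ⟨M, -, hMi, -⟩ := Cfsg.Agent.Lib.Helper1.Tr.thompson_transfer P
        (T.map (P : Subgroup G).subtype) hQP hQi x hx hxP hnc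
      exact hno M hMi
    obtain ⟨t, htT, ht⟩ := hg
    have ht2 : t ^ 2 = 1 := by
      apply Subtype.ext
      have h1 : ((t ^ 2 : ↥(P : Subgroup G)) : G) = (g * x * g⁻¹) ^ 2 := by
        rw [← ht]; rfl
      rw [h1, conj_pow, hx2, mul_one, mul_inv_cancel]; rfl
    obtain ⟨E₁, hE₁c, hE₁card, hE₁e⟩ := hmain t htT ht2
    have ht' : (t : G) = g * x * g⁻¹ := ht
    refine ⟨E₁.map (MulAut.conj g⁻¹).toMonoidHom, ?_, ?_, ?_⟩
    · rintro _ ⟨y, hy, rfl⟩
      rw [Subgroup.mem_centralizer_iff]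
      intro h hh
      rw [Set.mem_singleton_iff.1 hh]
      have h1 : (t : G) * y = y * t := Subgroup.mem_centralizer_iff.1 (hE₁c hy) t rfl
      rw [ht'] at h1
      simp only [MulEquiv.coe_toMonoidHom, MulAut.conj_apply, inv_inv]
      calc x * (g⁻¹ * y * g) = g⁻¹ * (g * x * g⁻¹ * y) * g := by group
        _ = g⁻¹ * (y * (g * x * g⁻¹)) * g := by rw [h1]
        _ = g⁻¹ * y * g * x := by group
    · rw [Subgroup.card_map_of_injective (MulAut.conj g⁻¹).injective, hE₁card]
    · rintro _ ⟨y, hy, rfl⟩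
      rw [← map_pow, hE₁e y hy, map_one]

end Cfsg.Agent.S0221
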