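import Cfsg.Statements.S0099
import Cfsg.Agent.Lib.Lead.Extraspecial
import Cfsg.Agent.S0221
import Mathlib

set_option autoImplicit false
open Cfsg

namespace Cfsg.Agent.S0099

open scoped commutatorElement
open Cfsg.Agent.Lib.Lead.Extraspecial

universe u v

section Two

variable {Q : Type*} [Group Q] {z : Q}

theorem z_inv (hG : Good 2 Q z) : z⁻¹ = z := by
  have h := hG.inv_eq
  simpa using h

theorem sq_central (hG : Good 2 Q z) (g h : Q) : g ^ 2 * h = h * g ^ 2 := by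
  have h1 : ⁅g ^ 2, h⁆ = 1 := by
    rw [comm_pow_left hG.central]
    obtain ⟨k, hk⟩ := hG.2.2.2.2 g h
    rw [hk, ← pow_mul, mul_comm, pow_mul, hG.2.1, one_pow]
  exact (commutatorElement_eq_one_iff_mul_comm.1 h1)

theorem sq_cases (hG : Good 2 Q z) (g : Q) : g ^ 2 = 1 ∨ g ^ 2 = z := by
  obtain ⟨k, hk⟩ := hG.2.2.2.1 (g ^ 2) (sq_central hG g)
  rcases Nat.even_or_odd' k with ⟨m, rfl | rfl⟩
  · left; rw [hk, pow_mul, hG.2.1, one_pow]
  · right; rw [hk, pow_succ, pow_mul, hG.2.1, one_pow, one_mul]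

theorem mul_sq (hG : Good 2 Q z) {x y : Q} (hxy : ⁅x, y⁆ = z) :
    (x * y) ^ 2 = z * x ^ 2 * y ^ 2 := by
  have hyx : y * x = z * x * y := by
    rw [Cfsg.Agent.S0124.comm_rel y x, ← commutatorElement_inv x y, hxy, z_inv hG]
  calc (x * y) ^ 2 = x * (y * x) * y := by rw [pow_two]; simp only [mul_assoc]
    _ = x * (z * x * y) * y := by rw [hyx]
    _ = (x * z) * x * y * y := by simp only [mul_assoc]
    _ = (z * x) * x * y * y := by rw [hG.2.2.1 x]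
    _ = z * x ^ 2 * y ^ 2 := by rw [pow_two, pow_two]; simp only [mul_assoc]

/-- A pair of type `D` (two involutions) or of type `Q` (two elements of square `z`). -/
theorem pair_types (hG : Good 2 Q z) (hnab : ¬ ∀ g h : Q, g * h = h * g) :
    ∃ x y : Q, ⁅x, y⁆ = z ∧ ((x ^ 2 = 1 ∧ y ^ 2 = 1) ∨ (x ^ 2 = z ∧ y ^ 2 = z)) := by
  haveI : Fact (Nat.Prime 2) := ⟨Nat.prime_two⟩
  obtain ⟨x, y, hxy⟩ := exists_pair hG hnab
  have hcen := hG.central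
  have hzz : z * z = 1 := by rw [← pow_two]; exact hG.2.1
  rcases sq_cases hG x with hx | hx <;> rcases sq_cases hG y with hy | hy
  · exact ⟨x, y, hxy, Or.inl ⟨hx, hy⟩⟩
  · refine ⟨x, x * y, ?_, Or.inl ⟨hx, ?_⟩⟩
    · rw [comm_mul_right hcen, commutatorElement_self, one_mul, hxy]
    · rw [mul_sq hG hxy, hx, hy, mul_one, hzz]
  · refine ⟨x * y, y, ?_, Or.inl ⟨?_, hy⟩⟩
    · rw [comm_mul_left hcen, commutatorElement_self, mul_one, hxy]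
    · rw [mul_sq hG hxy, hx, hy, mul_one, hzz]
  · exact ⟨x, y, hxy, Or.inr ⟨hx, hy⟩⟩

variable {x y : Q}

theorem sq_mem_cen (hG : Good 2 Q z) (g : Q) : g ^ 2 ∈ cen x y := by
  rw [mem_cen]
  exact ⟨(sq_central hG g x).symm, (sq_central hG g y).symm⟩

/-- The decomposition is a bijection. -/
theorem bij2 (hG : Good 2 Q z) (hxy : ⁅x, y⁆ = z) : Function.Bijective
    (fun m : Fin 2 × Fin 2 × cen x y => x ^ (m.1 : ℕ) * y ^ (m.2.1 : ℕ) * m.2.2.1) := by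
  haveI : Fact (Nat.Prime 2) := ⟨Nat.prime_two⟩
  have hzo := hG.orderOf
  constructor
  · rintro ⟨a, b, c⟩ ⟨a', b', c'⟩ h
    have h' : x ^ (a : ℕ) * y ^ (b : ℕ) * c.1 = x ^ (a' : ℕ) * y ^ (b' : ℕ) * c'.1 := h
    obtain ⟨h1, h2⟩ := decomp_inj hG hxy a b a' b' c.1 c'.1 c.2 c'.2 h'
    rw [pow_eq_pow_iff_modEq, hzo] at h1 h2
    have ha : (a : ℕ) = a' := Nat.ModEq.eq_of_lt_of_lt h1 a.2 a'.2
    have hb : (b : ℕ) = b' := Nat.ModEq.eq_of_lt_of_lt h2 b.2 b'.2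
    rw [ha, hb] at h'
    have hc : c.1 = c'.1 := mul_left_cancel h'
    exact Prod.ext (Fin.ext ha) (Prod.ext (Fin.ext hb) (Subtype.ext hc))
  · intro g
    obtain ⟨a, b, c, hc, rfl⟩ := decomp_surj hG hxy g
    have hs : (x ^ 2) ^ (a / 2) * (y ^ 2) ^ (b / 2) * c ∈ cen x y :=
      (cen x y).mul_mem ((cen x y).mul_mem ((cen x y).pow_mem (sq_mem_cen hG x) _)
        ((cen x y).pow_mem (sq_mem_cen hG y) _)) hc
    refine ⟨(⟨a % 2, Nat.mod_lt _ (by norm_num)⟩, ⟨b % 2, Nat.mod_lt _ (by norm_num)⟩,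
      ⟨_, hs⟩), ?_⟩
    show x ^ (a % 2) * y ^ (b % 2) * ((x ^ 2) ^ (a / 2) * (y ^ 2) ^ (b / 2) * c) =
      x ^ a * y ^ b * c
    have e1 : x ^ a = x ^ (a % 2) * (x ^ 2) ^ (a / 2) := by
      conv_lhs => rw [← Nat.mod_add_div a 2, pow_add, pow_mul]
    have e2 : y ^ b = y ^ (b % 2) * (y ^ 2) ^ (b / 2) := by
      conv_lhs => rw [← Nat.mod_add_div b 2, pow_add, pow_mul]
    have hc2 : ∀ g : Q, (x ^ 2) ^ (a / 2) * g = g * (x ^ 2) ^ (a / 2) :=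
      fun g => ((Commute.pow_left (show Commute (x ^ 2) g from sq_central hG x g) _)).eq
    rw [e1, e2]
    calc x ^ (a % 2) * y ^ (b % 2) * ((x ^ 2) ^ (a / 2) * (y ^ 2) ^ (b / 2) * c)
        = x ^ (a % 2) * (y ^ (b % 2) * (x ^ 2) ^ (a / 2)) * (y ^ 2) ^ (b / 2) * c := by group
      _ = x ^ (a % 2) * ((x ^ 2) ^ (a / 2) * y ^ (b % 2)) * (y ^ 2) ^ (b / 2) * c := by
        rw [hc2 (y ^ (b % 2))]
      _ = x ^ (a % 2) * (x ^ 2) ^ (a / 2) * (y ^ (b % 2) * (y ^ 2) ^ (b / 2)) * c := by group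

theorem card_eq2 [Finite Q] (hG : Good 2 Q z) (hxy : ⁅x, y⁆ = z) :
    Nat.card Q = 4 * Nat.card (cen x y) := by
  rw [← Nat.card_congr (Equiv.ofBijective _ (bij2 hG hxy)), Nat.card_prod, Nat.card_prod,
    Nat.card_fin, ← mul_assoc]
  norm_num

/-- Counting a predicate through the decomposition. -/
theorem count4 [Finite Q] (hG : Good 2 Q z) (hxy : ⁅x, y⁆ = z) (P : Q → Prop) :
    Nat.card {g : Q // P g} =
      Nat.card {c : cen x y // P (x ^ 0 * y ^ 0 * c.1)} +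
      Nat.card {c : cen x y // P (x ^ 0 * y ^ 1 * c.1)} +
      (Nat.card {c : cen x y // P (x ^ 1 * y ^ 0 * c.1)} +
      Nat.card {c : cen x y // P (x ^ 1 * y ^ 1 * c.1)}) := by
  have e1 : {g : Q // P g} ≃ {m : Fin 2 × Fin 2 × cen x y //
      P (x ^ (m.1 : ℕ) * y ^ (m.2.1 : ℕ) * m.2.2.1)} :=
    (Equiv.subtypeEquiv (Equiv.ofBijective _ (bij2 hG hxy)) (fun m => Iff.rfl)).symm
  have e2 := Equiv.subtypeProdEquivSigmaSubtype
    (fun (a : Fin 2) (m : Fin 2 × cen x y) => P (x ^ (a : ℕ) * y ^ (m.1 : ℕ) * m.2.1))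
  have e3 : ∀ a : Fin 2, {m : Fin 2 × cen x y // P (x ^ (a : ℕ) * y ^ (m.1 : ℕ) * m.2.1)} ≃
      Σ b : Fin 2, {c : cen x y // P (x ^ (a : ℕ) * y ^ (b : ℕ) * c.1)} := fun a =>
    Equiv.subtypeProdEquivSigmaSubtype
      (fun (b : Fin 2) (c : cen x y) => P (x ^ (a : ℕ) * y ^ (b : ℕ) * c.1))
  rw [Nat.card_congr e1, Nat.card_congr e2, Nat.card_sigma, Fin.sum_univ_two,
    Nat.card_congr (e3 0), Nat.card_congr (e3 1), Nat.card_sigma, Nat.card_sigma,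
    Fin.sum_univ_two, Fin.sum_univ_two]
  rfl

theorem coe_sq_iff (c : cen x y) : (c ^ 2 = 1 ↔ c.1 ^ 2 = 1) := by
  rw [Subtype.ext_iff]; simp

theorem coe_sq_iff' (hG : Good 2 Q z) (c : cen x y) :
    (c ^ 2 = (⟨z, z_mem_cen hG⟩ : cen x y) ↔ c.1 ^ 2 = z) := by
  rw [Subtype.ext_iff]; simp

/-- Squares are `1` or `z`: the two counts add up. -/
theorem card_sq_split [Finite Q] (hG : Good 2 Q z) :
    Nat.card {g : Q // g ^ 2 = 1} + Nat.card {g : Q // g ^ 2 = z} = Nat.card Q := by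
  classical
  have e : {g : Q // g ^ 2 = z} ≃ {g : Q // ¬ g ^ 2 = 1} :=
    Equiv.subtypeEquivRight (fun g => by
      constructor
      · intro h h1
        rw [h] at h1; exact hG.1 h1
      · intro h
        rcases sq_cases hG g with h1 | h1
        · exact absurd h1 h
        · exact h1)
  rw [Nat.card_congr e, ← Nat.card_sum]
  exact Nat.card_congr (Equiv.sumCompl _)

theorem mul_sq_of_mem (w c : Q) (hw : w * c = c * w) : (w * c) ^ 2 = w ^ 2 * c ^ 2 :=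
  Commute.mul_pow hw 2

theorem comm_of_mem_cen {c : Q} (hc : c ∈ cen x y) :
    x * c = c * x ∧ y * c = c * y ∧ (x * y) * c = c * (x * y) := by
  have h := (mem_cen c).1 hc
  refine ⟨h.1, h.2, ?_⟩
  rw [mul_assoc, h.2, ← mul_assoc, h.1, mul_assoc]

/-- Count of square roots of `1` for a pair of involutions. -/
theorem count_D [Finite Q] (hG : Good 2 Q z) (hxy : ⁅x, y⁆ = z) (hx : x ^ 2 = 1)
    (hy : y ^ 2 = 1) :
    Nat.card {g : Q // g ^ 2 = 1} =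
      2 * Nat.card {c : cen x y // c ^ 2 = 1} + Nat.card (cen x y) := by
  haveI : Fact (Nat.Prime 2) := ⟨Nat.prime_two⟩
  have hzz : z * z = 1 := by rw [← pow_two]; exact hG.2.1
  have h4 := count4 hG hxy (fun g => g ^ 2 = 1)
  have hsplit := card_sq_split (good_cen hG hxy)
  have t00 : Nat.card {c : cen x y // (x ^ 0 * y ^ 0 * c.1) ^ 2 = 1} =
      Nat.card {c : cen x y // c ^ 2 = 1} :=
    Nat.card_congr (Equiv.subtypeEquivRight (fun c => by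
      rw [pow_zero, pow_zero, one_mul, one_mul, coe_sq_iff]))
  have t01 : Nat.card {c : cen x y // (x ^ 0 * y ^ 1 * c.1) ^ 2 = 1} =
      Nat.card {c : cen x y // c ^ 2 = 1} :=
    Nat.card_congr (Equiv.subtypeEquivRight (fun c => by
      rw [pow_zero, pow_one, one_mul, mul_sq_of_mem y c.1 (comm_of_mem_cen c.2).2.1, hy, one_mul,
        coe_sq_iff]))
  have t10 : Nat.card {c : cen x y // (x ^ 1 * y ^ 0 * c.1) ^ 2 = 1} =
      Nat.card {c : cen x y // c ^ 2 = 1} :=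
    Nat.card_congr (Equiv.subtypeEquivRight (fun c => by
      rw [pow_zero, pow_one, mul_one, mul_sq_of_mem x c.1 (comm_of_mem_cen c.2).1, hx, one_mul,
        coe_sq_iff]))
  have t11 : Nat.card {c : cen x y // (x ^ 1 * y ^ 1 * c.1) ^ 2 = 1} =
      Nat.card {c : cen x y // c ^ 2 = (⟨z, z_mem_cen hG⟩ : cen x y)} :=
    Nat.card_congr (Equiv.subtypeEquivRight (fun c => by
      rw [pow_one, pow_one, mul_sq_of_mem (x * y) c.1 (comm_of_mem_cen c.2).2.2, mul_sq hG hxy,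
        hx, hy, mul_one, mul_one, coe_sq_iff' hG]
      constructor
      · intro h
        have h1 : z * (z * c.1 ^ 2) = z * 1 := by rw [h]
        rw [← mul_assoc, hzz, one_mul, mul_one] at h1
        exact h1
      · intro h
        rw [h, hzz]))
  rw [h4, t00, t01, t10, t11]
  omega

/-- Count of square roots of `1` for a pair of elements of square `z`. -/
theorem count_Q [Finite Q] (hG : Good 2 Q z) (hxy : ⁅x, y⁆ = z) (hx : x ^ 2 = z)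
    (hy : y ^ 2 = z) :
    Nat.card {g : Q // g ^ 2 = 1} + 2 * Nat.card {c : cen x y // c ^ 2 = 1} =
      3 * Nat.card (cen x y) := by
  haveI : Fact (Nat.Prime 2) := ⟨Nat.prime_two⟩
  have hzz : z * z = 1 := by rw [← pow_two]; exact hG.2.1
  have h4 := count4 hG hxy (fun g => g ^ 2 = 1)
  have hsplit := card_sq_split (good_cen hG hxy)
  have key : ∀ c : Q, (z * c ^ 2 = 1 ↔ c ^ 2 = z) := by
    intro c
    constructor
    · intro h
      have h1 : z * (z * c ^ 2) = z * 1 := by rw [h]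
      rw [← mul_assoc, hzz, one_mul, mul_one] at h1
      exact h1
    · intro h
      rw [h, hzz]
  have t00 : Nat.card {c : cen x y // (x ^ 0 * y ^ 0 * c.1) ^ 2 = 1} =
      Nat.card {c : cen x y // c ^ 2 = 1} :=
    Nat.card_congr (Equiv.subtypeEquivRight (fun c => by
      rw [pow_zero, pow_zero, one_mul, one_mul, coe_sq_iff]))
  have t01 : Nat.card {c : cen x y // (x ^ 0 * y ^ 1 * c.1) ^ 2 = 1} =
      Nat.card {c : cen x y // c ^ 2 = (⟨z, z_mem_cen hG⟩ : cen x y)} :=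
    Nat.card_congr (Equiv.subtypeEquivRight (fun c => by
      rw [pow_zero, pow_one, one_mul, mul_sq_of_mem y c.1 (comm_of_mem_cen c.2).2.1, hy,
        coe_sq_iff' hG, key]))
  have t10 : Nat.card {c : cen x y // (x ^ 1 * y ^ 0 * c.1) ^ 2 = 1} =
      Nat.card {c : cen x y // c ^ 2 = (⟨z, z_mem_cen hG⟩ : cen x y)} :=
    Nat.card_congr (Equiv.subtypeEquivRight (fun c => by
      rw [pow_zero, pow_one, mul_one, mul_sq_of_mem x c.1 (comm_of_mem_cen c.2).1, hx,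
        coe_sq_iff' hG, key]))
  have t11 : Nat.card {c : cen x y // (x ^ 1 * y ^ 1 * c.1) ^ 2 = 1} =
      Nat.card {c : cen x y // c ^ 2 = (⟨z, z_mem_cen hG⟩ : cen x y)} :=
    Nat.card_congr (Equiv.subtypeEquivRight (fun c => by
      rw [pow_one, pow_one, mul_sq_of_mem (x * y) c.1 (comm_of_mem_cen c.2).2.2, mul_sq hG hxy,
        hx, hy, hzz, one_mul, coe_sq_iff' hG, key]))
  rw [h4, t00, t01, t10, t11]
  omega

/-- In a group of order `2` every square is trivial. -/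
theorem N_of_card_two [Finite Q] (hG : Good 2 Q z) (hc : Nat.card Q = 2) :
    Nat.card {g : Q // g ^ 2 = 1} = 2 := by
  haveI : Fact (Nat.Prime 2) := ⟨Nat.prime_two⟩
  have h1 : ∀ g : Q, g ^ 2 = 1 := by
    intro g
    obtain ⟨k, hk⟩ := hG.2.2.2.1 g (fun h => abelian_of_card hG hc g h)
    rw [hk, ← pow_mul, mul_comm, pow_mul, hG.2.1, one_pow]
  have h2 := Nat.card_congr (Equiv.subtypeUnivEquiv h1)
  rw [h2, hc]

/-- Away from order `8`, a nonabelian `Good` 2-group has a pair of involutions with commutator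
`z`. -/
theorem inv_pair [Finite Q] (hG : Good 2 Q z) (hnab : ¬ ∀ g h : Q, g * h = h * g)
    (h8 : Nat.card Q ≠ 8) : ∃ x y : Q, ⁅x, y⁆ = z ∧ x ^ 2 = 1 ∧ y ^ 2 = 1 := by
  haveI : Fact (Nat.Prime 2) := ⟨Nat.prime_two⟩
  have hzz : z * z = 1 := by rw [← pow_two]; exact hG.2.1
  have hcen := hG.central
  obtain ⟨x, y, hxy, h | h⟩ := pair_types hG hnab
  · exact ⟨x, y, hxy, h.1, h.2⟩
  · obtain ⟨hx, hy⟩ := h
    have hex : ∃ u ∈ cen x y, u ^ 2 = z := by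
      by_contra hcon
      push Not at hcon
      have hall : ∀ u : cen x y, u ^ 2 = 1 := by
        intro u
        rcases sq_cases hG u.1 with h1 | h1
        · exact (coe_sq_iff u).2 h1
        · exact absurd h1 (hcon u.1 u.2)
      have hab : ∀ a b : cen x y, a * b = b * a := fun a b =>
        Cfsg.Agent.S0221.comm_of_exp_two a b (hall a) (hall b) (hall (a * b))
      have hc2 := card_of_abelian (good_cen hG hxy) hab
      have hc := card_eq2 hG hxy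
      rw [hc2] at hc
      exact h8 hc
    obtain ⟨u, hu, hu2⟩ := hex
    have hux : ⁅u, x⁆ = 1 := ((mem_cen_iff_comm u).1 hu).1
    have huy : ⁅u, y⁆ = 1 := ((mem_cen_iff_comm u).1 hu).2
    have hxu : ⁅x, u⁆ = 1 := by rw [← commutatorElement_inv, hux, inv_one]
    refine ⟨x * u, y * u, ?_, ?_, ?_⟩
    · rw [comm_mul_left hcen, comm_mul_right hcen, comm_mul_right hcen, hxy, hxu, huy,
        commutatorElement_self, mul_one, mul_one, mul_one]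
    · rw [mul_sq_of_mem x u (comm_of_mem_cen hu).1, hx, hu2, hzz]
    · rw [mul_sq_of_mem y u (comm_of_mem_cen hu).2.1, hy, hu2, hzz]

end Two


section Iso

/-- Normal form in a group with `x ^ 2 = y ^ 2 = z` central of order two. -/
theorem nf_Q {Q : Type*} [Group Q] {z x y : Q} (hG : Good 2 Q z) (hx : x ^ 2 = z)
    (hy : y ^ 2 = z) (a b k : ℕ) :
    x ^ a * y ^ b * z ^ k = x ^ (a % 2) * y ^ (b % 2) * z ^ (a / 2 + b / 2 + k) := by
  have e1 : x ^ a = x ^ (a % 2) * z ^ (a / 2) := by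
    conv_lhs => rw [← Nat.mod_add_div a 2, pow_add, pow_mul, hx]
  have e2 : y ^ b = y ^ (b % 2) * z ^ (b / 2) := by
    conv_lhs => rw [← Nat.mod_add_div b 2, pow_add, pow_mul, hy]
  have hz : ∀ (j : ℕ) (g : Q), z ^ j * g = g * z ^ j :=
    fun j g => ((Commute.pow_left (hG.2.2.1 g) j)).eq
  rw [e1, e2, pow_add, pow_add]
  calc x ^ (a % 2) * z ^ (a / 2) * (y ^ (b % 2) * z ^ (b / 2)) * z ^ k
      = x ^ (a % 2) * (z ^ (a / 2) * y ^ (b % 2)) * z ^ (b / 2) * z ^ k := by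
        simp only [mul_assoc]
    _ = x ^ (a % 2) * (y ^ (b % 2) * z ^ (a / 2)) * z ^ (b / 2) * z ^ k := by
        rw [hz (a / 2) (y ^ (b % 2))]
    _ = x ^ (a % 2) * y ^ (b % 2) * (z ^ (a / 2) * z ^ (b / 2) * z ^ k) := by
        simp only [mul_assoc]

theorem cen_pow_of_card {Q : Type*} [Group Q] [Finite Q] {z x y : Q} (hG : Good 2 Q z)
    (hxy : ⁅x, y⁆ = z) (hc : Nat.card Q = 8) (c : Q) (hcm : c ∈ cen x y) :
    ∃ k : ℕ, c = z ^ k := by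
  haveI : Fact (Nat.Prime 2) := ⟨Nat.prime_two⟩
  have h1 := card_eq2 hG hxy
  rw [hc] at h1
  have h2 : Nat.card (cen x y) = 2 := by omega
  obtain ⟨k, hk⟩ := (good_cen hG hxy).2.2.2.1 ⟨c, hcm⟩
    (fun h => abelian_of_card (good_cen hG hxy) h2 _ h)
  exact ⟨k, by simpa using congrArg Subtype.val hk⟩

theorem zpow_mem_cen {Q : Type*} [Group Q] {z x y : Q} (hG : Good 2 Q z) (k : ℕ) :
    z ^ k ∈ cen x y :=
  haveI : Fact (Nat.Prime 2) := ⟨Nat.prime_two⟩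
  (cen x y).pow_mem (z_mem_cen hG) k

/-- Two `Good` groups of order `8` with pairs of type `Q` are isomorphic. -/
theorem q8_iso {Q₁ : Type*} {Q₂ : Type*} [Group Q₁] [Group Q₂] [Finite Q₁] [Finite Q₂]
    {z₁ : Q₁} {z₂ : Q₂} (hG₁ : Good 2 Q₁ z₁) (hG₂ : Good 2 Q₂ z₂)
    (hc₁ : Nat.card Q₁ = 8) (hc₂ : Nat.card Q₂ = 8) {x₁ y₁ : Q₁} {x₂ y₂ : Q₂}
    (hxy₁ : ⁅x₁, y₁⁆ = z₁) (hxy₂ : ⁅x₂, y₂⁆ = z₂)
    (hx₁ : x₁ ^ 2 = z₁) (hy₁ : y₁ ^ 2 = z₁) (hx₂ : x₂ ^ 2 = z₂) (hy₂ : y₂ ^ 2 = z₂) :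
    ∃ F : Q₁ ≃* Q₂, F z₁ = z₂ := by
  haveI : Fact (Nat.Prime 2) := ⟨Nat.prime_two⟩
  let ψ₁ : ℕ × ℕ × ℕ → Q₁ := fun m => x₁ ^ m.1 * y₁ ^ m.2.1 * z₁ ^ m.2.2
  let ψ₂ : ℕ × ℕ × ℕ → Q₂ := fun m => x₂ ^ m.1 * y₂ ^ m.2.1 * z₂ ^ m.2.2
  let op : ℕ × ℕ × ℕ → ℕ × ℕ × ℕ → ℕ × ℕ × ℕ := fun m m' =>
    (m.1 + m'.1, m.2.1 + m'.2.1, (2 - 1) * (m.2.1 * m'.1) + m.2.2 + m'.2.2)
  have hs : Function.Surjective ψ₁ := by
    intro g
    obtain ⟨a, b, c, hc, rfl⟩ := decomp_surj hG₁ hxy₁ g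
    obtain ⟨k, rfl⟩ := cen_pow_of_card hG₁ hxy₁ hc₁ c hc
    exact ⟨(a, b, k), rfl⟩
  have hs₂ : Function.Surjective ψ₂ := by
    intro g
    obtain ⟨a, b, c, hc, rfl⟩ := decomp_surj hG₂ hxy₂ g
    obtain ⟨k, rfl⟩ := cen_pow_of_card hG₂ hxy₂ hc₂ c hc
    exact ⟨(a, b, k), rfl⟩
  have hwd : ∀ m m', ψ₁ m = ψ₁ m' → ψ₂ m = ψ₂ m' := by
    rintro ⟨a, b, k⟩ ⟨a', b', k'⟩ h
    have h' : x₁ ^ a * y₁ ^ b * z₁ ^ k = x₁ ^ a' * y₁ ^ b' * z₁ ^ k' := h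
    rw [nf_Q hG₁ hx₁ hy₁ a b k, nf_Q hG₁ hx₁ hy₁ a' b' k'] at h'
    obtain ⟨h1, h2⟩ := decomp_inj hG₁ hxy₁ _ _ _ _ _ _ (zpow_mem_cen hG₁ _) (zpow_mem_cen hG₁ _) h'
    rw [pow_eq_pow_iff_modEq, hG₁.orderOf] at h1 h2
    have ha : a % 2 = a' % 2 :=
      Nat.ModEq.eq_of_lt_of_lt h1 (Nat.mod_lt _ (by norm_num)) (Nat.mod_lt _ (by norm_num))
    have hb : b % 2 = b' % 2 :=
      Nat.ModEq.eq_of_lt_of_lt h2 (Nat.mod_lt _ (by norm_num)) (Nat.mod_lt _ (by norm_num))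
    rw [ha, hb] at h'
    have h3 : z₁ ^ (a / 2 + b / 2 + k) = z₁ ^ (a' / 2 + b' / 2 + k') := mul_left_cancel h'
    rw [pow_eq_pow_iff_modEq, hG₁.orderOf] at h3
    show x₂ ^ a * y₂ ^ b * z₂ ^ k = x₂ ^ a' * y₂ ^ b' * z₂ ^ k'
    rw [nf_Q hG₂ hx₂ hy₂ a b k, nf_Q hG₂ hx₂ hy₂ a' b' k', ha, hb]
    congr 1
    rw [pow_eq_pow_iff_modEq, hG₂.orderOf]
    exact h3
  have h₁ : ∀ m m', ψ₁ (op m m') = ψ₁ m * ψ₁ m' := by
    rintro ⟨a, b, k⟩ ⟨a', b', k'⟩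
    show x₁ ^ (a + a') * y₁ ^ (b + b') * z₁ ^ ((2 - 1) * (b * a') + k + k') =
      (x₁ ^ a * y₁ ^ b * z₁ ^ k) * (x₁ ^ a' * y₁ ^ b' * z₁ ^ k')
    rw [decomp_mul hG₁ hxy₁ a b a' b' (z₁ ^ k) (z₁ ^ k') (zpow_mem_cen hG₁ k)]
    congr 1
    rw [pow_add, pow_add]
  have h₂ : ∀ m m', ψ₂ (op m m') = ψ₂ m * ψ₂ m' := by
    rintro ⟨a, b, k⟩ ⟨a', b', k'⟩
    show x₂ ^ (a + a') * y₂ ^ (b + b') * z₂ ^ ((2 - 1) * (b * a') + k + k') =
      (x₂ ^ a * y₂ ^ b * z₂ ^ k) * (x₂ ^ a' * y₂ ^ b' * z₂ ^ k')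
    rw [decomp_mul hG₂ hxy₂ a b a' b' (z₂ ^ k) (z₂ ^ k') (zpow_mem_cen hG₂ k)]
    congr 1
    rw [pow_add, pow_add]
  obtain ⟨F, hF⟩ := hom_of_param op ψ₁ ψ₂ hs hwd h₁ h₂
  have hFs : Function.Surjective F := by
    intro g
    obtain ⟨m, rfl⟩ := hs₂ g
    exact ⟨ψ₁ m, hF m⟩
  have hFb : Function.Bijective F :=
    (Nat.bijective_iff_surjective_and_card F).2 ⟨hFs, hc₁.trans hc₂.symm⟩
  refine ⟨MulEquiv.ofBijective F hFb, ?_⟩
  show F z₁ = z₂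
  have e : z₁ = ψ₁ (0, 0, 1) := by simp [ψ₁]
  rw [e, hF]
  simp [ψ₂]

/-- The number of square roots of `1` in a `Good` 2-group takes one of two values. -/
theorem N_values : ∀ (n : ℕ) (Q : Type u) [Group Q] [Finite Q] (z : Q), Nat.card Q ≤ n →
    Good 2 Q z → ∃ m : ℕ, Nat.card Q = 2 ^ (2 * m + 1) ∧
      (Nat.card {g : Q // g ^ 2 = 1} = 2 ^ (2 * m) + 2 ^ m ∨
        Nat.card {g : Q // g ^ 2 = 1} + 2 ^ m = 2 ^ (2 * m)) := by
  haveI : Fact (Nat.Prime 2) := ⟨Nat.prime_two⟩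
  intro n
  induction n with
  | zero =>
    intro Q _ _ z hn
    have : 0 < Nat.card Q := Nat.card_pos
    omega
  | succ n ih =>
    intro Q _ _ z hn hG
    by_cases hab : ∀ g h : Q, g * h = h * g
    · have hc := card_of_abelian hG hab
      refine ⟨0, by rw [hc]; norm_num, Or.inl ?_⟩
      rw [N_of_card_two hG hc]; norm_num
    · obtain ⟨x, y, hxy, htype⟩ := pair_types hG hab
      have hc := card_eq2 hG hxy
      have hcn : Nat.card (cen x y) ≤ n := by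
        have h3 : 0 < Nat.card (cen x y) := Nat.card_pos
        omega
      obtain ⟨m, hm, halt⟩ := ih (cen x y) ⟨z, z_mem_cen hG⟩ hcn (good_cen hG hxy)
      refine ⟨m + 1, ?_, ?_⟩
      · rw [hc, hm]; ring
      · have e1 : 2 ^ (2 * (m + 1)) = 4 * 2 ^ (2 * m) := by ring
        have e2 : 2 ^ (m + 1) = 2 * 2 ^ m := by ring
        have e3 : 2 ^ (2 * m + 1) = 2 * 2 ^ (2 * m) := by ring
        rw [e1, e2]
        rw [e3] at hm
        rcases htype with ⟨hx, hy⟩ | ⟨hx, hy⟩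
        · have hD := count_D hG hxy hx hy
          rcases halt with h | h
          · left; omega
          · right; omega
        · have hQ := count_Q hG hxy hx hy
          rcases halt with h | h
          · right; omega
          · left; omega

theorem main2 : ∀ (n : ℕ) (Q₁ : Type u) (Q₂ : Type v) [Group Q₁] [Group Q₂] [Finite Q₁]
    [Finite Q₂] (z₁ : Q₁) (z₂ : Q₂), Nat.card Q₁ ≤ n → Nat.card Q₁ = Nat.card Q₂ →
    Good 2 Q₁ z₁ → Good 2 Q₂ z₂ →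
    Nat.card {g : Q₁ // g ^ 2 = 1} = Nat.card {g : Q₂ // g ^ 2 = 1} →
    ∃ F : Q₁ ≃* Q₂, F z₁ = z₂ := by
  haveI : Fact (Nat.Prime 2) := ⟨Nat.prime_two⟩
  intro n
  induction n with
  | zero =>
    intro Q₁ Q₂ _ _ _ _ z₁ z₂ hn
    have : 0 < Nat.card Q₁ := Nat.card_pos
    omega
  | succ n ih =>
    intro Q₁ Q₂ _ _ _ _ z₁ z₂ hn hcard hG₁ hG₂ hN
    by_cases hab : ∀ g h : Q₁, g * h = h * g
    · have hc₁ := card_of_abelian hG₁ hab
      exact cyclic_iso hG₁ hG₂ hc₁ (hcard ▸ hc₁)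
    · have hab₂ : ¬ ∀ g h : Q₂, g * h = h * g := by
        intro hab₂
        have hc₂ := card_of_abelian hG₂ hab₂
        exact hab (abelian_of_card hG₁ (hcard.trans hc₂))
      -- the step for two pairs of involutions
      have stepD : ∀ (x₁ y₁ : Q₁) (x₂ y₂ : Q₂), ⁅x₁, y₁⁆ = z₁ → ⁅x₂, y₂⁆ = z₂ →
          x₁ ^ 2 = 1 → y₁ ^ 2 = 1 → x₂ ^ 2 = 1 → y₂ ^ 2 = 1 → ∃ F : Q₁ ≃* Q₂, F z₁ = z₂ := by
        intro x₁ y₁ x₂ y₂ hxy₁ hxy₂ hx₁ hy₁ hx₂ hy₂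
        have hc₁ := card_eq2 hG₁ hxy₁
        have hc₂ := card_eq2 hG₂ hxy₂
        have hcc : Nat.card (cen x₁ y₁) = Nat.card (cen x₂ y₂) := by omega
        have hcn : Nat.card (cen x₁ y₁) ≤ n := by
          have h3 : 0 < Nat.card (cen x₁ y₁) := Nat.card_pos
          omega
        have hD₁ := count_D hG₁ hxy₁ hx₁ hy₁
        have hD₂ := count_D hG₂ hxy₂ hx₂ hy₂
        have hNc : Nat.card {c : cen x₁ y₁ // c ^ 2 = 1} =
            Nat.card {c : cen x₂ y₂ // c ^ 2 = 1} := by omega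
        obtain ⟨f, hf⟩ := ih (cen x₁ y₁) (cen x₂ y₂) ⟨z₁, z_mem_cen hG₁⟩ ⟨z₂, z_mem_cen hG₂⟩
          hcn hcc (good_cen hG₁ hxy₁) (good_cen hG₂ hxy₂) hNc
        exact step_iso hG₁ hG₂ hcard hxy₁ hxy₂ hx₁ hy₁ hx₂ hy₂ f (by rw [hf])
      by_cases h8 : Nat.card Q₁ = 8
      · obtain ⟨x₁, y₁, hxy₁, ht₁⟩ := pair_types hG₁ hab
        obtain ⟨x₂, y₂, hxy₂, ht₂⟩ := pair_types hG₂ hab₂
        have hc₁ := card_eq2 hG₁ hxy₁
        have hc₂ := card_eq2 hG₂ hxy₂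
        have hcc₁ : Nat.card (cen x₁ y₁) = 2 := by omega
        have hcc₂ : Nat.card (cen x₂ y₂) = 2 := by omega
        have hN₁ := N_of_card_two (good_cen hG₁ hxy₁) hcc₁
        have hN₂ := N_of_card_two (good_cen hG₂ hxy₂) hcc₂
        rcases ht₁ with ⟨hx₁, hy₁⟩ | ⟨hx₁, hy₁⟩ <;> rcases ht₂ with ⟨hx₂, hy₂⟩ | ⟨hx₂, hy₂⟩
        · exact stepD x₁ y₁ x₂ y₂ hxy₁ hxy₂ hx₁ hy₁ hx₂ hy₂
        · exfalso
          have hD₁ := count_D hG₁ hxy₁ hx₁ hy₁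
          have hQ₂ := count_Q hG₂ hxy₂ hx₂ hy₂
          omega
        · exfalso
          have hQ₁ := count_Q hG₁ hxy₁ hx₁ hy₁
          have hD₂ := count_D hG₂ hxy₂ hx₂ hy₂
          omega
        · exact q8_iso hG₁ hG₂ h8 (hcard ▸ h8) hxy₁ hxy₂ hx₁ hy₁ hx₂ hy₂
      · obtain ⟨x₁, y₁, hxy₁, hx₁, hy₁⟩ := inv_pair hG₁ hab h8
        obtain ⟨x₂, y₂, hxy₂, hx₂, hy₂⟩ := inv_pair hG₂ hab₂ (by rw [← hcard]; exact h8)
        exact stepD x₁ y₁ x₂ y₂ hxy₁ hxy₂ hx₁ hy₁ hx₂ hy₂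

end Iso

/-- Among three extraspecial 2-groups of equal order, some two are isomorphic. -/
theorem result {E₁ : Type*} {E₂ : Type*} {E₃ : Type*} [Group E₁] [Group E₂] [Group E₃] [Finite E₁] [Finite E₂] [Finite E₃] (h₁ : Cfsg.IsExtraspecial 2 E₁) (h₂ : Cfsg.IsExtraspecial 2 E₂) (h₃ : Cfsg.IsExtraspecial 2 E₃) (h12 : Nat.card E₁ = Nat.card E₂) (h23 : Nat.card E₂ = Nat.card E₃) : Nonempty (E₁ ≃* E₂) ∨ Nonempty (E₂ ≃* E₃) ∨ Nonempty (E₁ ≃* E₃) := by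
  haveI : Fact (Nat.Prime 2) := ⟨Nat.prime_two⟩
  obtain ⟨z₁, hG₁⟩ := good_of_extraspecial h₁
  obtain ⟨z₂, hG₂⟩ := good_of_extraspecial h₂
  obtain ⟨z₃, hG₃⟩ := good_of_extraspecial h₃
  obtain ⟨m₁, hm₁, ha₁⟩ := N_values _ E₁ z₁ le_rfl hG₁
  obtain ⟨m₂, hm₂, ha₂⟩ := N_values _ E₂ z₂ le_rfl hG₂
  obtain ⟨m₃, hm₃, ha₃⟩ := N_values _ E₃ z₃ le_rfl hG₃
  have e12 : m₁ = m₂ := by
    have h : 2 ^ (2 * m₁ + 1) = 2 ^ (2 * m₂ + 1) := by rw [← hm₁, ← hm₂, h12]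
    have := Nat.pow_right_injective (le_refl 2) h
    omega
  have e23 : m₂ = m₃ := by
    have h : 2 ^ (2 * m₂ + 1) = 2 ^ (2 * m₃ + 1) := by rw [← hm₂, ← hm₃, h23]
    have := Nat.pow_right_injective (le_refl 2) h
    omega
  subst e12
  subst e23
  have iso12 : Nat.card {g : E₁ // g ^ 2 = 1} = Nat.card {g : E₂ // g ^ 2 = 1} →
      Nonempty (E₁ ≃* E₂) := fun h => by
    obtain ⟨F, -⟩ := main2 _ E₁ E₂ z₁ z₂ le_rfl h12 hG₁ hG₂ h
    exact ⟨F⟩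
  have iso23 : Nat.card {g : E₂ // g ^ 2 = 1} = Nat.card {g : E₃ // g ^ 2 = 1} →
      Nonempty (E₂ ≃* E₃) := fun h => by
    obtain ⟨F, -⟩ := main2 _ E₂ E₃ z₂ z₃ le_rfl h23 hG₂ hG₃ h
    exact ⟨F⟩
  have iso13 : Nat.card {g : E₁ // g ^ 2 = 1} = Nat.card {g : E₃ // g ^ 2 = 1} →
      Nonempty (E₁ ≃* E₃) := fun h => by
    obtain ⟨F, -⟩ := main2 _ E₁ E₃ z₁ z₃ le_rfl (h12.trans h23) hG₁ hG₃ h
    exact ⟨F⟩
  rcases ha₁ with a1 | a1 <;> rcases ha₂ with a2 | a2 <;> rcases ha₃ with a3 | a3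
  · exact Or.inl (iso12 (by omega))
  · exact Or.inl (iso12 (by omega))
  · exact Or.inr (Or.inr (iso13 (by omega)))
  · exact Or.inr (Or.inl (iso23 (by omega)))
  · exact Or.inr (Or.inl (iso23 (by omega)))
  · exact Or.inr (Or.inr (iso13 (by omega)))
  · exact Or.inl (iso12 (by omega))
  · exact Or.inl (iso12 (by omega))

end Cfsg.Agent.S0099
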