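import Cfsg.Statements.S0101
import Cfsg.Agent.Lib.Helper1.TransBasic
import Cfsg.Agent.S3772

set_option autoImplicit false
open Cfsg

namespace Cfsg.Agent.S0101

theorem mem_of_pow_mem_of_coprime_aux {G : Type*} [Group G] (F : Subgroup G) (z : G) (m k : ℕ)
    (h1 : z ^ m ∈ F) (h2 : z ^ k = 1) (hmk : m.Coprime k) : z ∈ F := by
  have hb := Nat.gcd_eq_gcd_ab m k
  rw [hmk] at hb
  have h3 : z = (z ^ m) ^ (Nat.gcdA m k) * (z ^ k) ^ (Nat.gcdB m k) := by
    rw [← zpow_natCast z m, ← zpow_natCast z k, ← zpow_mul, ← zpow_mul, ← zpow_add, ← hb]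
    simp
  rw [h3, h2, one_zpow, mul_one]
  exact F.zpow_mem h1 _


/-- In a perfect central extension, the kernel meets each Sylow p-subgroup P inside the Frattini subgroup of P. -/
theorem result {H : Type*} {G : Type*} [Group H] [Group G] [Finite H] (σ : H →* G) (hσ : Function.Surjective σ) (hc : σ.ker ≤ Subgroup.center H) (hH : commutator H = ⊤) {p : ℕ} [Fact p.Prime] (P : Sylow p H) : σ.ker ⊓ (P : Subgroup H) ≤ (frattini P).map (P : Subgroup H).subtype := by
  classical
  rintro z ⟨hzk, hzP⟩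
  have hzZ : z ∈ Subgroup.center H := hc hzk
  have hzG : z ∈ commutator H := hH ▸ Subgroup.mem_top z
  have hsub : ⁅(P : Subgroup H), (P : Subgroup H)⁆.subgroupOf (P : Subgroup H) =
      commutator ↥(P : Subgroup H) := by
    rw [← Subgroup.map_subtype_commutator (P : Subgroup H)]
    exact Subgroup.comap_map_eq_self_of_injective (P : Subgroup H).subtype_injective _
  have hKH : ⁅(P : Subgroup H), (P : Subgroup H)⁆ ≤ (P : Subgroup H) := by
    rw [← Subgroup.map_subtype_commutator (P : Subgroup H)]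
    exact Subgroup.map_subtype_le _
  have hKn : (P : Subgroup H) ≤
      Subgroup.normalizer ((⁅(P : Subgroup H), (P : Subgroup H)⁆ : Subgroup H) : Set H) := by
    rw [← Subgroup.normal_subgroupOf_iff_le_normalizer hKH, hsub]
    infer_instance
  have h1 := Cfsg.Agent.Lib.Helper1.Tr.central_transfer (P : Subgroup H)
    ⁅(P : Subgroup H), (P : Subgroup H)⁆ hKH hKn le_rfl z hzP hzZ hzG
  have hle : ⁅(P : Subgroup H), (P : Subgroup H)⁆ ≤
      (frattini ↥(P : Subgroup H)).map (P : Subgroup H).subtype := by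
    rw [← Subgroup.map_subtype_commutator (P : Subgroup H)]
    apply Subgroup.map_mono
    rw [commutator_def, Subgroup.commutator_le]
    intro a _ b _
    apply Cfsg.Agent.S3772.mem_frattini_of_forall
    intro M hM
    have := (Cfsg.Agent.S3772.pgroup_coatom P.isPGroup' M hM).2 a b
    rwa [commutatorElement_def]
  obtain ⟨k, hk⟩ := Cfsg.Agent.Lib.Helper16.Basic.exists_pow_eq_one_of_mem P.isPGroup' hzP
  refine mem_of_pow_mem_of_coprime_aux _ z (P : Subgroup H).index (p ^ k) (hle h1) hk ?_
  exact Nat.Coprime.pow_right k ((Nat.Prime.coprime_iff_not_dvd Fact.out).2 P.not_dvd_index).symm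

end Cfsg.Agent.S0101
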