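import Cfsg.Statements.S0102
import Cfsg.Agent.Lib.Helper1.TransBasic

set_option autoImplicit false
open Cfsg

namespace Cfsg.Agent.S0102

/-- A finite perfect group with cyclic Sylow p-subgroups has no perfect central extension whose kernel has order divisible by p. -/
theorem result {G : Type*} {H : Type*} [Group G] [Group H] [Finite G] [Finite H] (hG : commutator G = ⊤) {p : ℕ} [Fact p.Prime] (hcyc : ∀ P : Sylow p G, IsCyclic P) (σ : H →* G) (hσ : Function.Surjective σ) (hz : σ.ker ≤ Subgroup.center H) (hH : commutator H = ⊤) : ¬ p ∣ Nat.card σ.ker := by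
  classical
  intro hdvd
  obtain ⟨z, hzord⟩ := exists_prime_orderOf_dvd_card' (G := σ.ker) p hdvd
  have hzo : orderOf (z : H) = p := by rw [Subgroup.orderOf_coe]; exact hzord
  have hzp : IsPGroup p ↥(Subgroup.zpowers (z : H)) := by
    apply IsPGroup.of_card (n := 1)
    rw [Nat.card_zpowers, hzo, pow_one]
  obtain ⟨P, hP⟩ := hzp.exists_le_sylow
  obtain ⟨Q, hQ⟩ := (P.isPGroup'.map σ).exists_le_sylow
  haveI := hcyc Q
  have hmem : ∀ x : ↥(P : Subgroup H), (σ.comp (P : Subgroup H).subtype) x ∈ (Q : Subgroup G) :=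
    fun x => hQ ⟨x, x.2, rfl⟩
  have hker : ((σ.comp (P : Subgroup H).subtype).codRestrict (Q : Subgroup G) hmem).ker ≤
      Subgroup.center ↥(P : Subgroup H) := by
    intro x hx
    rw [MonoidHom.mem_ker] at hx
    have hx1 : σ (x : H) = 1 := by
      have := congrArg Subtype.val hx
      simpa using this
    have hx2 : (x : H) ∈ Subgroup.center H := hz (MonoidHom.mem_ker.2 hx1)
    rw [Subgroup.mem_center_iff] at hx2 ⊢
    intro g
    exact Subtype.ext (hx2 (g : H))
  have hcomm : IsMulCommutative ↥(P : Subgroup H) :=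
    MonoidHom.isMulCommutative_of_isCyclic_of_ker_le_center _ hker
  have h1 := Cfsg.Agent.Lib.Helper1.Tr.hall_abelian_inf (P : Subgroup H) hcomm
    (Cfsg.Agent.Lib.Helper1.Tr.sylow_hall P)
  have h2 : (z : H) ∈ (P : Subgroup H) ⊓ commutator H ⊓ Subgroup.center H :=
    ⟨⟨hP (Subgroup.mem_zpowers _), hH ▸ Subgroup.mem_top _⟩, hz z.2⟩
  rw [h1, Subgroup.mem_bot] at h2
  rw [h2, orderOf_one] at hzo
  exact (Fact.out : p.Prime).one_lt.ne hzo

end Cfsg.Agent.S0102
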