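import Cfsg.Statements.S0105
import Cfsg.Agent.Lib.Helper1.TransBasic
import Cfsg.Agent.Lib.Helper27.Coprime
open scoped commutatorElement

set_option autoImplicit false
open Cfsg

namespace Cfsg.Agent.S0105

/-- With an abelian Sylow p-subgroup P, some quotient of G is isomorphic to the part of P central in N_G(P). -/
theorem result {G : Type*} [Group G] [Finite G] {p : ℕ} [Fact p.Prime] (P : Sylow p G) (hP : IsMulCommutative P) : ∃ (N : Subgroup G) (hN : N.Normal), Nonempty (G ⧸ N ≃* ((P : Subgroup G) ⊓ Subgroup.centralizer (Subgroup.normalizer (P : Set G) : Set G) : Subgroup G)) := by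
  classical
  have hcomm : ∀ a b : ↥(P : Subgroup G), a * b = b * a := fun a b => hP.is_comm.comm a b
  have hPC : (P : Subgroup G) ≤ Subgroup.centralizer ((P : Subgroup G) : Set G) := by
    intro x hx
    rw [Subgroup.mem_centralizer_iff]
    intro y hy
    have := hP.is_comm.comm (⟨y, hy⟩ : ↥(P : Subgroup G)) ⟨x, hx⟩
    exact congrArg Subtype.val this
  have hcop : (Nat.card (P : Subgroup G).normalizerMonoidHom.range).Coprime
      (Nat.card ↥(P : Subgroup G)) := by
    have h1 : Nat.card (P : Subgroup G).normalizerMonoidHom.range =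
        ((Subgroup.centralizer ((P : Subgroup G) : Set G)).subgroupOf
          (Subgroup.normalizer ((P : Subgroup G) : Set G))).index := by
      rw [← Subgroup.normalizerMonoidHom_ker, Subgroup.index_ker]
    have h2 : Nat.card (P : Subgroup G).normalizerMonoidHom.range ∣ (P : Subgroup G).index := by
      rw [h1]
      exact (Subgroup.relIndex_dvd_of_le_left _ hPC).trans
        (Subgroup.relIndex_dvd_index_of_le Subgroup.le_normalizer)
    obtain ⟨k, hk⟩ := IsPGroup.iff_card.mp P.isPGroup'
    rw [hk]
    exact Nat.Coprime.pow_right k (Nat.Coprime.coprime_dvd_left h2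
      ((Nat.Prime.coprime_iff_not_dvd Fact.out).2 P.not_dvd_index).symm)
  obtain ⟨hbot, htop⟩ := Cfsg.Agent.Lib.Helper27.coprime_fitting hcomm _ hcop
  have hfix : ∀ x : ↥(P : Subgroup G),
      x ∈ Cfsg.Agent.Lib.Helper27.fixedSub (P : Subgroup G).normalizerMonoidHom.range ↔
      (x : G) ∈ Subgroup.centralizer
        ((Subgroup.normalizer ((P : Subgroup G) : Set G) : Subgroup G) : Set G) := by
    intro x
    rw [Cfsg.Agent.Lib.Helper27.mem_fixedSub, Subgroup.mem_centralizer_iff]
    constructor
    · intro h n hn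
      have h2 := congrArg Subtype.val (h _ ⟨⟨n, hn⟩, rfl⟩)
      have h3 : n * (x : G) * n⁻¹ = (x : G) := h2
      calc n * (x : G) = (n * (x : G) * n⁻¹) * n := by group
        _ = (x : G) * n := by rw [h3]
    · rintro h _ ⟨n, rfl⟩
      apply Subtype.ext
      show (n : G) * x * (n : G)⁻¹ = x
      rw [h n n.2]; group
  have hK : Cfsg.Agent.Lib.Helper27.commSub (P : Subgroup G).normalizerMonoidHom.range =
      (P : Subgroup G).focalSubgroupOf := by
    apply le_antisymm
    · unfold Cfsg.Agent.Lib.Helper27.commSub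
      rw [Subgroup.closure_le]
      rintro _ ⟨x, α, ⟨n, rfl⟩, rfl⟩
      rw [SetLike.mem_coe, Subgroup.focalSubgroupOf_def, Subgroup.mem_subgroupOf]
      apply Subgroup.subset_closure
      refine ⟨(x⁻¹ * ((P : Subgroup G).normalizerMonoidHom n) x).2, (x : G)⁻¹,
        Subgroup.inv_mem _ x.2, (n : G), ?_⟩
      show (x : G)⁻¹ * ((n : G) * x * (n : G)⁻¹) = ⁅(x : G)⁻¹, (n : G)⁆
      rw [commutatorElement_def]; group
    · rw [Subgroup.focalSubgroupOf_def]
      intro y hy
      rw [Subgroup.mem_subgroupOf, Cfsg.Agent.Lib.Helper1.Tr.abelian_sylow_focal P hP] at hy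
      have hle : ⁅(P : Subgroup G), Subgroup.normalizer ((P : Subgroup G) : Set G)⁆ ≤
          (Cfsg.Agent.Lib.Helper27.commSub (P : Subgroup G).normalizerMonoidHom.range).map
            (P : Subgroup G).subtype := by
        rw [Subgroup.commutator_le]
        intro a ha n hn
        refine ⟨(⟨a, ha⟩ : ↥(P : Subgroup G))⁻¹⁻¹ *
          ((P : Subgroup G).normalizerMonoidHom ⟨n, hn⟩) (⟨a, ha⟩⁻¹),
          Subgroup.subset_closure ⟨⟨a, ha⟩⁻¹, _, ⟨⟨n, hn⟩, rfl⟩, rfl⟩, ?_⟩
        show a⁻¹⁻¹ * (n * a⁻¹ * n⁻¹) = ⁅a, n⁆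
        rw [commutatorElement_def]; group
      obtain ⟨y', hy', hyy⟩ := hle hy
      rw [← Subtype.ext hyy]; exact hy'
  have hinj : Function.Injective ((QuotientGroup.mk' (P : Subgroup G).focalSubgroupOf).comp
      (Subgroup.inclusion (inf_le_left : (P : Subgroup G) ⊓ Subgroup.centralizer
        ((Subgroup.normalizer ((P : Subgroup G) : Set G) : Subgroup G) : Set G) ≤
          (P : Subgroup G)))) := by
    rw [injective_iff_map_eq_one]
    intro z hz
    rw [MonoidHom.comp_apply, QuotientGroup.mk'_apply, QuotientGroup.eq_one_iff, ← hK] at hz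
    have h1 : Subgroup.inclusion (inf_le_left : (P : Subgroup G) ⊓ Subgroup.centralizer
        ((Subgroup.normalizer ((P : Subgroup G) : Set G) : Subgroup G) : Set G) ≤
          (P : Subgroup G)) z ∈
        Cfsg.Agent.Lib.Helper27.fixedSub (P : Subgroup G).normalizerMonoidHom.range ⊓
          Cfsg.Agent.Lib.Helper27.commSub (P : Subgroup G).normalizerMonoidHom.range :=
      ⟨(hfix _).2 z.2.2, hz⟩
    rw [hbot, Subgroup.mem_bot] at h1
    apply Subtype.ext
    have h2 := congrArg Subtype.val h1
    simpa using h2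
  have hsurj : Function.Surjective ((QuotientGroup.mk' (P : Subgroup G).focalSubgroupOf).comp
      (Subgroup.inclusion (inf_le_left : (P : Subgroup G) ⊓ Subgroup.centralizer
        ((Subgroup.normalizer ((P : Subgroup G) : Set G) : Subgroup G) : Set G) ≤
          (P : Subgroup G)))) := by
    intro q
    induction q using QuotientGroup.induction_on with
    | H x =>
      have hx : x ∈ Cfsg.Agent.Lib.Helper27.fixedSub (P : Subgroup G).normalizerMonoidHom.range ⊔
          Cfsg.Agent.Lib.Helper27.commSub (P : Subgroup G).normalizerMonoidHom.range :=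
        htop ▸ Subgroup.mem_top x
      have hdec : ∃ f ∈ Cfsg.Agent.Lib.Helper27.fixedSub (P : Subgroup G).normalizerMonoidHom.range,
          ∃ k ∈ Cfsg.Agent.Lib.Helper27.commSub (P : Subgroup G).normalizerMonoidHom.range,
          f * k = x := by
        letI : CommGroup ↥(P : Subgroup G) :=
          { (inferInstance : Group ↥(P : Subgroup G)) with mul_comm := hcomm }
        exact Subgroup.mem_sup.1 hx
      obtain ⟨f, hf, k, hk, rfl⟩ := hdec
      refine ⟨⟨(f : G), f.2, (hfix f).1 hf⟩, ?_⟩
      rw [MonoidHom.comp_apply, QuotientGroup.mk'_apply, QuotientGroup.eq]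
      rw [hK] at hk
      have e : (Subgroup.inclusion (inf_le_left : (P : Subgroup G) ⊓ Subgroup.centralizer
        ((Subgroup.normalizer ((P : Subgroup G) : Set G) : Subgroup G) : Set G) ≤
          (P : Subgroup G)) ⟨(f : G), f.2, (hfix f).1 hf⟩)⁻¹ * (f * k) = k := by
        apply Subtype.ext
        simp
      rw [e]; exact hk
  exact ⟨(P : Subgroup G).transferFocal.ker, MonoidHom.normal_ker _,
    ⟨(Subgroup.transferFocal.quotientKerMulEquivQuotientFocalSubroupOf P).trans
      (MulEquiv.ofBijective _ ⟨hinj, hsurj⟩).symm⟩⟩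

end Cfsg.Agent.S0105
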