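import Cfsg.Statements.S0119
import Mathlib
import Cfsg.Agent.S3772
import Cfsg.Agent.Lib.Helper16.Basic

set_option autoImplicit false
open Cfsg
open scoped commutatorElement

namespace Cfsg.Agent.S0119

/-- A normal subgroup fixed pointwise by `A` is central when `G = [G, A]`. -/
theorem le_center {G : Type*} [Group G] (A : Subgroup (MulAut G))
    (hGA : Subgroup.closure {x : G | ∃ g : G, ∃ a ∈ A, x = g⁻¹ * a g} = ⊤)
    (H : Subgroup G) [hn : H.Normal] (hfix : ∀ a ∈ A, ∀ h ∈ H, a h = h) :
    H ≤ Subgroup.center G := by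
  intro h hh
  rw [Subgroup.mem_center_iff]
  intro y
  have hy : y ∈ Subgroup.closure {x : G | ∃ g : G, ∃ a ∈ A, x = g⁻¹ * a g} := by
    rw [hGA]; trivial
  have hsub : {x : G | ∃ g : G, ∃ a ∈ A, x = g⁻¹ * a g} ⊆
      (Subgroup.centralizer {h} : Subgroup G) := by
    rintro _ ⟨g, a, ha, rfl⟩
    rw [SetLike.mem_coe, Subgroup.mem_centralizer_iff]
    intro k hk
    rw [Set.mem_singleton_iff] at hk
    subst hk
    have h1 : a (g * k * g⁻¹) = g * k * g⁻¹ := hfix a ha _ (hn.conj_mem k hh g)
    have h2 : a k = k := hfix a ha k hh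
    rw [map_mul, map_mul, h2, map_inv] at h1
    have h3 : k = g⁻¹ * (a g * k * (a g)⁻¹) * g := by rw [h1]; group
    calc k * (g⁻¹ * a g) = (g⁻¹ * (a g * k * (a g)⁻¹) * g) * (g⁻¹ * a g) := by rw [← h3]
      _ = g⁻¹ * a g * k := by group
  have h4 := (Subgroup.closure_le _).2 hsub hy
  rw [Subgroup.mem_centralizer_iff] at h4
  exact (h4 h rfl).symm

theorem commutator_le_center {G : Type*} [Group G] [Finite G] {p : ℕ} [Fact p.Prime]
    (hG : IsPGroup p G)
    (hZ : ∀ H : Subgroup G, H.Characteristic → IsMulCommutative H → H ≤ Subgroup.center G) :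
    commutator G ≤ Subgroup.center G := by
  classical
  haveI : Group.IsNilpotent G := hG.isNilpotent
  let T : Subgroup G :=
    { carrier := {x | x ∈ commutator G ∧ ∀ y, ⁅x, y⁆ ∈ Subgroup.center G}
      one_mem' := ⟨one_mem _, fun y => by simp⟩
      mul_mem' := by
        rintro a b ⟨ha, ha'⟩ ⟨hb, hb'⟩
        refine ⟨mul_mem ha hb, fun y => ?_⟩
        have h : ⁅a * b, y⁆ = a * ⁅b, y⁆ * a⁻¹ * ⁅a, y⁆ := by
          simp only [commutatorElement_def]; group
        rw [h]
        exact mul_mem (Subgroup.Normal.conj_mem inferInstance _ (hb' y) a) (ha' y)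
      inv_mem' := by
        rintro a ⟨ha, ha'⟩
        refine ⟨inv_mem ha, fun y => ?_⟩
        have h : ⁅a⁻¹, y⁆ = a⁻¹ * (⁅a, y⁆)⁻¹ * a⁻¹⁻¹ := by
          simp only [commutatorElement_def]; group
        rw [h]
        exact Subgroup.Normal.conj_mem (inferInstance : (Subgroup.center G).Normal) _
          (inv_mem (ha' y)) a⁻¹ }
  have hTmem : ∀ x, x ∈ T ↔ (x ∈ commutator G ∧ ∀ y, ⁅x, y⁆ ∈ Subgroup.center G) :=
    fun x => Iff.rfl
  have hTchar : T.Characteristic := by
    rw [Subgroup.characteristic_iff_le_comap]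
    intro φ x hx
    obtain ⟨hx1, hx2⟩ := hx
    rw [Subgroup.mem_comap, hTmem]
    refine ⟨?_, fun y => ?_⟩
    · have hc : (commutator G).Characteristic := by rw [commutator_def]; infer_instance
      exact (Subgroup.characteristic_iff_le_comap.1 hc φ) hx1
    · have h : ⁅φ x, y⁆ = φ ⁅x, φ.symm y⁆ := by
        rw [map_commutatorElement]; simp
      show ⁅φ x, y⁆ ∈ Subgroup.center G
      rw [h]
      exact (Subgroup.characteristic_iff_le_comap.1
        (inferInstance : (Subgroup.center G).Characteristic) φ) (hx2 _)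
  have hTab : IsMulCommutative T := by
    have hc1 : ⁅(⊤ : Subgroup G), T⁆ ≤ Subgroup.center G := by
      rw [Subgroup.commutator_le]
      intro a _ b hb
      rw [← commutatorElement_inv]
      exact inv_mem (hb.2 a)
    have hc2 : ⁅T, (⊤ : Subgroup G)⁆ ≤ Subgroup.center G := by
      rw [Subgroup.commutator_le]
      intro a ha b _
      exact ha.2 b
    have h1 : ⁅⁅(⊤ : Subgroup G), T⁆, (⊤ : Subgroup G)⁆ = ⊥ := by
      rw [Subgroup.commutator_eq_bot_iff_le_centralizer, Subgroup.coe_top,
        Subgroup.centralizer_univ]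
      exact hc1
    have h2 : ⁅⁅T, (⊤ : Subgroup G)⁆, (⊤ : Subgroup G)⁆ = ⊥ := by
      rw [Subgroup.commutator_eq_bot_iff_le_centralizer, Subgroup.coe_top,
        Subgroup.centralizer_univ]
      exact hc2
    have h3 : ⁅⁅(⊤ : Subgroup G), (⊤ : Subgroup G)⁆, T⁆ = ⊥ :=
      Subgroup.commutator_commutator_eq_bot_of_rotate h1 h2
    refine ⟨⟨fun a b => Subtype.ext ?_⟩⟩
    have h4 : ⁅(a : G), (b : G)⁆ ∈ ⁅⁅(⊤ : Subgroup G), (⊤ : Subgroup G)⁆, T⁆ := by
      apply Subgroup.commutator_mem_commutator _ b.2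
      rw [← commutator_def]
      exact a.2.1
    rw [h3, Subgroup.mem_bot] at h4
    exact commutatorElement_eq_one_iff_commute.1 h4
  have hTZ : T ≤ Subgroup.center G := hZ T hTchar hTab
  have hex : ∃ n, (⊤ : Subgroup G).lowerCentralSeries n ≤ Subgroup.center G :=
    ⟨Group.nilpotencyClass G, by rw [Subgroup.lowerCentralSeries_nilpotencyClass]; exact bot_le⟩
  have hmin := @Nat.find_min _ _ hex
  have hspec := Nat.find_spec hex
  by_cases hn1 : Nat.find hex ≤ 1
  · calc commutator G = (⊤ : Subgroup G).lowerCentralSeries 1 := (Subgroup.top_lowerCentralSeries_one).symm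
      _ ≤ (⊤ : Subgroup G).lowerCentralSeries (Nat.find hex) := Subgroup.lowerCentralSeries_antitone _ hn1
      _ ≤ _ := hspec
  · exfalso
    rw [not_le] at hn1
    obtain ⟨m, hm⟩ : ∃ m, Nat.find hex = m + 2 := ⟨Nat.find hex - 2, by omega⟩
    apply hmin (m := m + 1) (by omega)
    refine le_trans ?_ hTZ
    intro x hx
    rw [hTmem]
    refine ⟨?_, fun y => ?_⟩
    · have h : (⊤ : Subgroup G).lowerCentralSeries (m + 1) ≤ (⊤ : Subgroup G).lowerCentralSeries 1 :=
        Subgroup.lowerCentralSeries_antitone _ (by omega)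
      rw [Subgroup.top_lowerCentralSeries_one] at h
      exact h hx
    · apply hspec
      rw [hm]
      show ⁅x, y⁆ ∈ ⁅(⊤ : Subgroup G).lowerCentralSeries (m + 1), (⊤ : Subgroup G)⁆
      exact Subgroup.commutator_mem_commutator hx (Subgroup.mem_top y)

theorem fixed_mem_commutator {G : Type*} [Group G] [Finite G] {p : ℕ} [Fact p.Prime]
    (hG : IsPGroup p G) (A : Subgroup (MulAut G)) (hA : Nat.Coprime (Nat.card A) p)
    (hGA : Subgroup.closure {x : G | ∃ g : G, ∃ a ∈ A, x = g⁻¹ * a g} = ⊤)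
    (x : G) (hx : ∀ a ∈ A, a x = x) : x ∈ commutator G := by
  classical
  haveI : Fintype A := Fintype.ofFinite A
  let N : G →* Abelianization G :=
    ∏ a : A, (Abelianization.of.comp (a : MulAut G).toMonoidHom)
  have hN : ∀ g, N g = ∏ a : A, Abelianization.of ((a : MulAut G) g) := by
    intro g
    simp [N]
  have hNinv : ∀ (b : A) g, N ((b : MulAut G) g) = N g := by
    intro b g
    rw [hN, hN]
    exact Fintype.prod_equiv (Equiv.mulRight b) _ _ (fun a => by simp [MulAut.mul_apply])
  have hker : N.ker = ⊤ := by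
    rw [eq_top_iff, ← hGA, Subgroup.closure_le]
    rintro _ ⟨g, a, ha, rfl⟩
    rw [SetLike.mem_coe, MonoidHom.mem_ker, map_mul, map_inv]
    have h := hNinv ⟨a, ha⟩ g
    simp only at h
    rw [h, inv_mul_cancel]
  have hx1 : N x = Abelianization.of x ^ Nat.card A := by
    rw [hN, Finset.prod_congr rfl (fun a _ => by rw [hx a a.2]), Finset.prod_const,
      Finset.card_univ, Nat.card_eq_fintype_card]
  have hx2 : x ^ Nat.card A ∈ commutator G := by
    have h1 : N x = 1 := by
      have h0 : x ∈ N.ker := by rw [hker]; trivial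
      exact h0
    rw [hx1, ← map_pow] at h1
    have h2 : x ^ Nat.card A ∈ (Abelianization.of (G := G)).ker := h1
    rwa [Abelianization.ker_of] at h2
  obtain ⟨k, hk⟩ := hG x
  have hcop : Nat.Coprime (Nat.card A) (p ^ k) := Nat.Coprime.pow_right k hA
  have ho : (Nat.card A).Coprime (orderOf x) :=
    Nat.Coprime.coprime_dvd_right (orderOf_dvd_of_pow_eq_one hk) hcop
  obtain ⟨m, hm⟩ := exists_pow_eq_self_of_coprime ho
  rw [← hm]
  exact pow_mem hx2 m

theorem pow_mem_center {G : Type*} [Group G] [Finite G] {p : ℕ} [Fact p.Prime]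
    (hG : IsPGroup p G)
    (hZ : ∀ H : Subgroup G, H.Characteristic → IsMulCommutative H → H ≤ Subgroup.center G)
    (hc : commutator G ≤ Subgroup.center G) (x : G) : x ^ p ∈ Subgroup.center G := by
  classical
  have hcomm : ∀ a b : G, ⁅a, b⁆ ∈ Subgroup.center G := fun a b =>
    hc (by rw [commutator_def]
           exact Subgroup.commutator_mem_commutator (Subgroup.mem_top a) (Subgroup.mem_top b))
  have hpowL : ∀ (a b : G) (n : ℕ), ⁅a ^ n, b⁆ = ⁅a, b⁆ ^ n := by
    intro a b n
    induction n with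
    | zero => simp
    | succ n ih =>
      have h1 : ⁅a ^ (n + 1), b⁆ = a ^ n * ⁅a, b⁆ * (a ^ n)⁻¹ * ⁅a ^ n, b⁆ := by
        simp only [commutatorElement_def, pow_succ]; group
      have h2 : a ^ n * ⁅a, b⁆ = ⁅a, b⁆ * a ^ n := (Subgroup.mem_center_iff.1 (hcomm a b) _)
      rw [h1, h2, mul_inv_cancel_right, ih, pow_succ']
  have hpowR : ∀ (a b : G) (n : ℕ), ⁅a, b ^ n⁆ = ⁅a, b⁆ ^ n := by
    intro a b n
    calc ⁅a, b ^ n⁆ = (⁅b ^ n, a⁆)⁻¹ := (commutatorElement_inv _ _).symm
      _ = (⁅b, a⁆ ^ n)⁻¹ := by rw [hpowL]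
      _ = ((⁅a, b⁆)⁻¹ ^ n)⁻¹ := by rw [commutatorElement_inv]
      _ = ⁅a, b⁆ ^ n := by rw [inv_pow, inv_inv]
  have hex : ∃ e, ∀ y : G, y ^ (p ^ e) ∈ Subgroup.center G := by
    obtain ⟨e, he⟩ := (IsPGroup.iff_card.1 hG)
    exact ⟨e, fun y => by rw [← he, pow_card_eq_one']; exact one_mem _⟩
  have hmin := @Nat.find_min _ _ hex
  have hspec := Nat.find_spec hex
  by_cases he1 : Nat.find hex ≤ 1
  · have h := hspec x
    rcases Nat.le_one_iff_eq_zero_or_eq_one.1 he1 with h0 | h0
    · rw [h0, pow_zero, pow_one] at h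
      exact pow_mem h p
    · rw [h0, pow_one] at h
      exact h
  · exfalso
    rw [not_le] at he1
    obtain ⟨d, hd⟩ : ∃ d, Nat.find hex = d + 2 := ⟨Nat.find hex - 2, by omega⟩
    apply hmin (m := d + 1) (by omega)
    intro y
    let K : Subgroup G := Subgroup.closure (Set.range (fun g : G => g ^ (p ^ (d + 1))))
    have hKchar : K.Characteristic := by
      rw [Subgroup.characteristic_iff_map_le]
      intro φ
      rw [MonoidHom.map_closure, Subgroup.closure_le]
      rintro _ ⟨_, ⟨g, rfl⟩, rfl⟩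
      apply Subgroup.subset_closure
      exact ⟨φ g, by simp⟩
    have hKab : IsMulCommutative K := by
      apply Subgroup.isMulCommutative_closure
      rintro _ ⟨u, rfl⟩ _ ⟨v, rfl⟩
      have h1 : ⁅u ^ (p ^ (d + 1)), v ^ (p ^ (d + 1))⁆ = 1 := by
        rw [hpowR, ← hpowL, ← pow_mul, ← pow_add]
        have h2 : u ^ (p ^ (d + 1 + (d + 1))) ∈ Subgroup.center G := by
          have h3 := hspec u
          rw [hd] at h3
          have e2 : p ^ (d + 1 + (d + 1)) = p ^ (d + 2) * p ^ d := by ring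
          rw [e2, pow_mul]
          exact pow_mem h3 _
        rw [commutatorElement_eq_one_iff_commute]
        exact (Subgroup.mem_center_iff.1 h2 v).symm
      exact commutatorElement_eq_one_iff_commute.1 h1
    exact hZ K hKchar hKab (Subgroup.subset_closure ⟨y, rfl⟩)

/-- If a p'-group A of automorphisms of a p-group G satisfies G = [G, A] and acts trivially on every characteristic abelian subgroup, then G is special with centre equal to the fixed points of A. -/
theorem result {G : Type*} [Group G] [Finite G] {p : ℕ} [Fact p.Prime] (hG : IsPGroup p G) (A : Subgroup (MulAut G)) (hA : Nat.Coprime (Nat.card A) p) (hGA : Subgroup.closure {x : G | ∃ g : G, ∃ a ∈ A, x = g⁻¹ * a g} = ⊤) (hchar : ∀ H : Subgroup G, H.Characteristic → IsMulCommutative H → ∀ a ∈ A, ∀ h ∈ H, a h = h) : Cfsg.IsSpecial p G ∧ (∀ g : G, (g ∈ Subgroup.center G ↔ ∀ a ∈ A, a g = g)) := by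
  classical
  have hZ : ∀ H : Subgroup G, H.Characteristic → IsMulCommutative H →
      H ≤ Subgroup.center G := by
    intro H hH hHc
    haveI : H.Normal := Subgroup.normal_of_characteristic H
    exact le_center A hGA H (hchar H hH hHc)
  have hc : commutator G ≤ Subgroup.center G := commutator_le_center hG hZ
  have hfixZ : ∀ g ∈ Subgroup.center G, ∀ a ∈ A, a g = g := fun g hg a ha =>
    hchar (Subgroup.center G) inferInstance inferInstance a ha g hg
  have hfixC : ∀ g : G, (∀ a ∈ A, a g = g) → g ∈ commutator G := fun g hg =>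
    fixed_mem_commutator hG A hA hGA g hg
  have hcz : commutator G = Subgroup.center G :=
    le_antisymm hc (fun g hg => hfixC g (hfixZ g hg))
  refine ⟨⟨hG, ?_, hcz⟩, fun g => ⟨fun hg => hfixZ g hg, fun hg => hc (hfixC g hg)⟩⟩
  apply le_antisymm
  · have h := Cfsg.Agent.Lib.Helper16.Basic.frattini_le_ker_of_elementary (p := p)
      (QuotientGroup.mk' (Subgroup.center G)) ?_ ?_
    · rwa [QuotientGroup.ker_mk'] at h
    · intro x y
      rw [← map_mul, ← map_mul, QuotientGroup.mk'_apply, QuotientGroup.mk'_apply,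
        QuotientGroup.eq]
      have h : (x * y)⁻¹ * (y * x) = ⁅y⁻¹, x⁻¹⁆ := by
        simp only [commutatorElement_def]; group
      rw [h]
      exact hc (by rw [commutator_def]
                   exact Subgroup.commutator_mem_commutator (Subgroup.mem_top _)
                     (Subgroup.mem_top _))
    · intro x
      rw [← map_pow, QuotientGroup.mk'_apply, QuotientGroup.eq_one_iff]
      exact pow_mem_center hG hZ hc x
  · rw [← hcz, commutator_eq_closure, Subgroup.closure_le]
    rintro _ ⟨a, b, rfl⟩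
    apply Cfsg.Agent.S3772.mem_frattini_of_forall
    intro M hM
    have h := (Cfsg.Agent.S3772.pgroup_coatom hG M hM).2 a b
    simpa [commutatorElement_def] using h

end Cfsg.Agent.S0119
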