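import Cfsg.Statements.S0123
import Cfsg.Agent.S0124
import Cfsg.Agent.S0096
import Mathlib

set_option autoImplicit false
open Cfsg

namespace Cfsg.Agent.S0123

open scoped commutatorElement

/-- For a p-group of small class relative to p (class ≤ 2 with p odd, or class ≤ 3 with p > 3) whose derived subgroup is generated by elements of order dividing p, the p-th power map is multiplicative. -/
theorem result {R : Type*} [Group R] [Finite R] {p : ℕ} [Fact p.Prime] (hR : IsPGroup p R) (hcl : (p ≠ 2 ∧ ⁅commutator R, (⊤ : Subgroup R)⁆ = ⊥) ∨ (3 < p ∧ ⁅⁅commutator R, (⊤ : Subgroup R)⁆, (⊤ : Subgroup R)⁆ = ⊥)) (hder : commutator R ≤ Subgroup.closure {x : R | x ^ p = 1}) (x y : R) : (x * y) ^ p = x ^ p * y ^ p := by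
  have hpp : p.Prime := Fact.out
  have hle : ⁅commutator R, (⊤ : Subgroup R)⁆ ≤ commutator R :=
    Subgroup.commutator_le_left _ _
  rcases hcl with ⟨hp2, h2⟩ | ⟨hp3, h3⟩
  · have h3 : ⁅⁅commutator R, (⊤ : Subgroup R)⁆, (⊤ : Subgroup R)⁆ = ⊥ := by
      rw [h2]; exact Subgroup.commutator_bot_left _
    have hc : ⁅y, x⁆ ^ p = 1 :=
      Cfsg.Agent.S0096.result hp2 hR h2 _ (hder (Cfsg.Agent.S0124.comm_mem x y))
    have hd : ⁅⁅y, x⁆, x⁆ = 1 := by
      have := Cfsg.Agent.S0124.comm_mem_d x y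
      rwa [h2, Subgroup.mem_bot] at this
    have he : ⁅y, ⁅y, x⁆⁆ = 1 := by
      have := Cfsg.Agent.S0124.comm_mem_e x y
      rwa [h2, Subgroup.mem_bot] at this
    rw [Cfsg.Agent.S0124.collect_comm h3 x y p, hd, he,
      Cfsg.Agent.S0124.pow_eq_one_of_dvd hc (Cfsg.Agent.S0124.dvd_choose_two hpp hp2)]
    simp
  · have hc : ⁅y, x⁆ ^ p = 1 :=
      Cfsg.Agent.S0124.result hp3 hR h3 _ (hder (Cfsg.Agent.S0124.comm_mem x y))
    have hd : ⁅⁅y, x⁆, x⁆ ^ p = 1 :=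
      Cfsg.Agent.S0124.result hp3 hR h3 _ (hder (hle (Cfsg.Agent.S0124.comm_mem_d x y)))
    have he : ⁅y, ⁅y, x⁆⁆ ^ p = 1 :=
      Cfsg.Agent.S0124.result hp3 hR h3 _ (hder (hle (Cfsg.Agent.S0124.comm_mem_e x y)))
    rw [Cfsg.Agent.S0124.collect_comm h3 x y p,
      Cfsg.Agent.S0124.pow_eq_one_of_dvd hc (Cfsg.Agent.S0124.dvd_choose_two hpp (by omega)),
      Cfsg.Agent.S0124.pow_eq_one_of_dvd hd (Cfsg.Agent.S0124.dvd_choose_succ_three hpp hp3),
      Cfsg.Agent.S0124.pow_eq_one_of_dvd he (Cfsg.Agent.S0124.dvd_choose_three hpp hp3)]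
    simp

end Cfsg.Agent.S0123
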