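import Cfsg.Statements.S0125
import Cfsg.Agent.Lib.Helper1.TransBasic

set_option autoImplicit false
open Cfsg

namespace Cfsg.Agent.S0125

/-- The centralizer of a self-centralizing normal subgroup A of a Sylow p-subgroup is the direct product of A with a normal p'-subgroup. -/
theorem result {G : Type*} [Group G] [Finite G] {p : ℕ} [Fact p.Prime] (R : Sylow p G) (A : Subgroup G) (hAR : A ≤ (R : Subgroup G)) (hAn : (R : Subgroup G) ≤ Subgroup.normalizer (A : Set G)) (hC : (R : Subgroup G) ⊓ Subgroup.centralizer (A : Set G) = A) : ∃ H : Subgroup G, H ≤ Subgroup.centralizer (A : Set G) ∧ Nat.Coprime (Nat.card H) p ∧ Subgroup.centralizer (A : Set G) ≤ Subgroup.normalizer (H : Set G) ∧ H ⊓ A = ⊥ ∧ H ⊔ A = Subgroup.centralizer (A : Set G) := by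
  classical
  have hAC : A ≤ Subgroup.centralizer (A : Set G) := by
    intro x hx
    have : x ∈ (R : Subgroup G) ⊓ Subgroup.centralizer (A : Set G) := by rw [hC]; exact hx
    exact this.2
  have hAp : IsPGroup p A := R.isPGroup'.to_le hAR
  obtain ⟨S, hS⟩ := (hAp.comap_subtype (K := Subgroup.centralizer (A : Set G))).exists_le_sylow
  have hS₀A : (S : Subgroup ↥(Subgroup.centralizer (A : Set G))).map
      (Subgroup.centralizer (A : Set G)).subtype = A := by
    apply le_antisymm
    · have hS₀N : (S : Subgroup ↥(Subgroup.centralizer (A : Set G))).map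
          (Subgroup.centralizer (A : Set G)).subtype ≤ Subgroup.normalizer (A : Set G) :=
        (Subgroup.map_subtype_le _).trans (Subgroup.centralizer_le_normalizer _)
      obtain ⟨n, hn, hle⟩ := Cfsg.Agent.Lib.Helper16.Basic.exists_conj_le_of_sylow_le R hAn hS₀N
        (S.isPGroup'.map _)
      intro x hx
      have hxC : x ∈ Subgroup.centralizer (A : Set G) := Subgroup.map_subtype_le _ hx
      have h1 : n * x * n⁻¹ ∈ (R : Subgroup G) :=
        hle (Cfsg.Agent.Lib.Helper16.Basic.conj_mem_conj _ n hx)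
      have h2 : n * x * n⁻¹ ∈ Subgroup.centralizer (A : Set G) := by
        rw [Subgroup.mem_centralizer_iff]
        intro a ha
        have ha' : n⁻¹ * a * n ∈ A := by
          have := (Subgroup.mem_normalizer_iff.1 (Subgroup.inv_mem _ hn) a).1 ha
          simpa using this
        have hx' := Subgroup.mem_centralizer_iff.1 hxC _ ha'
        calc a * (n * x * n⁻¹) = n * ((n⁻¹ * a * n) * x) * n⁻¹ := by group
          _ = n * (x * (n⁻¹ * a * n)) * n⁻¹ := by rw [hx']
          _ = n * x * n⁻¹ * a := by group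
      have h3 : n * x * n⁻¹ ∈ A := by rw [← hC]; exact ⟨h1, h2⟩
      exact ((Subgroup.mem_normalizer_iff.1 hn) x).2 h3
    · intro x hx
      exact ⟨⟨x, hAC hx⟩, hS (Subgroup.mem_subgroupOf.2 hx), rfl⟩
  have hcen : (S : Subgroup ↥(Subgroup.centralizer (A : Set G))) ≤
      Subgroup.center ↥(Subgroup.centralizer (A : Set G)) := by
    intro s hs
    have hsA : (s : G) ∈ A := hS₀A.le ⟨s, hs, rfl⟩
    rw [Subgroup.mem_center_iff]
    intro c
    exact Subtype.ext (Subgroup.mem_centralizer_iff.1 c.2 _ hsA).symm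
  obtain ⟨K, hKn, hKc, hKx⟩ :=
    Cfsg.Agent.Lib.Helper12.NPC.exists_normal_pprime_of_central_sylow S hcen
  refine ⟨K.map (Subgroup.centralizer (A : Set G)).subtype, Subgroup.map_subtype_le _, ?_, ?_, ?_, ?_⟩
  · rw [Subgroup.card_map_of_injective (Subgroup.subtype_injective _)]; exact hKc
  · have := Subgroup.le_normalizer_map (H := K) (Subgroup.centralizer (A : Set G)).subtype
    rw [Subgroup.normalizer_eq_top K, ← MonoidHom.range_eq_map, Subgroup.range_subtype] at this
    exact this
  · rw [eq_bot_iff]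
    rintro x ⟨⟨k, hk, rfl⟩, hxA⟩
    rw [Subgroup.mem_bot]
    obtain ⟨j, hj⟩ := Cfsg.Agent.Lib.Helper16.Basic.exists_pow_eq_one_of_mem hAp hxA
    refine Cfsg.Agent.Lib.Helper16.Basic.eq_one_of_pow_eq_one_of_coprime (m := Nat.card K) ?_ hj
      (Nat.Coprime.pow_right j hKc)
    have h4 : (⟨k, hk⟩ : ↥K) ^ Nat.card K = 1 := pow_card_eq_one'
    have h5 : k ^ Nat.card K = 1 := by
      have h := congrArg Subtype.val h4
      rw [Subgroup.coe_pow] at h
      exact h
    have h6 : (k : G) ^ Nat.card K = 1 := by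
      have h := congrArg Subtype.val h5
      rw [Subgroup.coe_pow] at h
      exact h
    exact h6
  · have hq : IsPGroup p (↥(Subgroup.centralizer (A : Set G)) ⧸ K) :=
      Cfsg.Agent.Lib.Helper12.NPC.isPGroup_quotient_of_pprime_mem K hKx
    have hsup := Cfsg.Agent.Lib.Helper16.Residual.sylow_sup_eq_top_of_isPGroup_quotient S K hq
    have := congrArg (Subgroup.map (Subgroup.centralizer (A : Set G)).subtype) hsup
    rw [Subgroup.map_sup, hS₀A, ← MonoidHom.range_eq_map, Subgroup.range_subtype] at this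
    rw [sup_comm]; exact this

end Cfsg.Agent.S0125
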