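import Cfsg.Statements.S0127
import Cfsg.Agent.S0126
import Cfsg.Agent.S0100
import Cfsg.Agent.S0065
import Cfsg.Agent.Lib.Helper17.OmegaAct

set_option autoImplicit false
open Cfsg

namespace Cfsg.Agent.S0127

open scoped commutatorElement

/-- In a `p`-group, commutators with elements of a normal subgroup of order `p ^ 2` are central. -/
theorem comm_mem_center_of_card_sq {R : Type*} [Group R] [Finite R] {p : ℕ} [hp : Fact p.Prime]
    (hR : IsPGroup p R) (N : Subgroup R) [hN : N.Normal] (hNc : Nat.card N = p ^ 2) (g n : R)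
    (hn : n ∈ N) : ⁅g, n⁆ ∈ Subgroup.center R := by
  haveI : Group.IsNilpotent R := hR.isNilpotent
  have hNne : N ≠ ⊥ := by
    intro h
    rw [h, Subgroup.card_bot] at hNc
    have := hp.out.one_lt
    have h2 : 1 < p ^ 2 := Nat.one_lt_pow (by norm_num) this
    omega
  have hN1 : N ⊓ Subgroup.center R ≠ ⊥ := S0065.normal_inf_center_ne_bot N hNne
  set N₁ := N ⊓ Subgroup.center R with hN₁
  haveI hN₁n : N₁.Normal := Subgroup.normal_inf_normal N (Subgroup.center R)
  -- image of N in R / N₁
  set M : Subgroup (R ⧸ N₁) := N.map (QuotientGroup.mk' N₁) with hM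
  haveI hMn : M.Normal := Subgroup.Normal.map hN _ (QuotientGroup.mk'_surjective N₁)
  have hMc : M ≤ Subgroup.center (R ⧸ N₁) := by
    by_cases hMb : M = ⊥
    · rw [hMb]; exact bot_le
    haveI : Group.IsNilpotent (R ⧸ N₁) := inferInstance
    have h1 : M ⊓ Subgroup.center (R ⧸ N₁) ≠ ⊥ := S0065.normal_inf_center_ne_bot M hMb
    have hcard : Nat.card M * Nat.card N₁ = p ^ 2 := by
      have h2 : M.index = N.index := by
        rw [hM, Subgroup.index_map, QuotientGroup.ker_mk', sup_of_le_left inf_le_left,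
          MonoidHom.range_eq_top_of_surjective _ (QuotientGroup.mk'_surjective N₁),
          Subgroup.index_top, mul_one]
      have h3 : Nat.card M * M.index = Nat.card (R ⧸ N₁) := Subgroup.card_mul_index M
      have h4 : Nat.card N₁ * N₁.index = Nat.card R := Subgroup.card_mul_index N₁
      have h5 : Nat.card N * N.index = Nat.card R := Subgroup.card_mul_index N
      rw [← Subgroup.index_eq_card, h2] at h3
      have h6 : Nat.card M * Nat.card N₁ * N.index = p ^ 2 * N.index := by
        rw [← hNc, h5, ← h4, ← h3]; ring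
      have h7 : N.index ≠ 0 := Subgroup.index_ne_zero_of_finite
      exact Nat.eq_of_mul_eq_mul_right (Nat.pos_of_ne_zero h7) h6
    have hN1c : Nat.card N₁ ≠ 1 := by
      rw [Ne, Subgroup.card_eq_one]; exact hN1
    have hMc1 : Nat.card M ≠ 1 := by
      rw [Ne, Subgroup.card_eq_one]; exact hMb
    have hMp : Nat.card M = p := by
      have hd : Nat.card M ∣ p ^ 2 := Dvd.intro _ hcard
      obtain ⟨j, hj, hj2⟩ := (Nat.dvd_prime_pow hp.out).1 hd
      have hd' : Nat.card N₁ ∣ p ^ 2 := Dvd.intro_left _ hcard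
      obtain ⟨k, hk, hk2⟩ := (Nat.dvd_prime_pow hp.out).1 hd'
      rw [hj2, hk2, ← pow_add] at hcard
      have hjk : j + k = 2 := Nat.pow_right_injective hp.out.two_le hcard
      have hk0 : k ≠ 0 := by
        intro h0; rw [h0, pow_zero] at hk2; exact hN1c hk2
      have hj0 : j ≠ 0 := by
        intro h0; rw [h0, pow_zero] at hj2; exact hMc1 hj2
      have hj1 : j = 1 := by omega
      rw [hj2, hj1, pow_one]
    have h8 : Nat.card (M ⊓ Subgroup.center (R ⧸ N₁) : Subgroup (R ⧸ N₁)) = p := by
      have hd : Nat.card (M ⊓ Subgroup.center (R ⧸ N₁) : Subgroup (R ⧸ N₁)) ∣ p := by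
        rw [← hMp]; exact Subgroup.card_dvd_of_le inf_le_left
      rcases (Nat.dvd_prime hp.out).1 hd with h | h
      · exact absurd (Subgroup.card_eq_one.1 h) h1
      · exact h
    have h9 : M ⊓ Subgroup.center (R ⧸ N₁) = M :=
      Subgroup.eq_of_le_of_card_ge inf_le_left (by rw [h8, hMp])
    rw [← h9]; exact inf_le_right
  have h3 : (QuotientGroup.mk' N₁) ⁅g, n⁆ = 1 := by
    rw [map_commutatorElement]
    have h4 : (QuotientGroup.mk' N₁) n ∈ Subgroup.center (R ⧸ N₁) :=
      hMc (Subgroup.mem_map_of_mem _ hn)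
    rw [commutatorElement_eq_one_iff_mul_comm]
    exact (Subgroup.mem_center_iff.1 h4 _)
  have h5 : ⁅g, n⁆ ∈ N₁ := by
    rw [← QuotientGroup.ker_mk' N₁]
    exact h3
  exact h5.2

/-- For odd p, in a non-cyclic p-group with a cyclic subgroup of index p, the elements of order dividing p generate an elementary abelian subgroup of order p^2. -/
theorem result {R : Type*} [Group R] [Finite R] {p : ℕ} [Fact p.Prime] (hp : p ≠ 2) (hR : IsPGroup p R) (hnc : ¬ IsCyclic R) (C : Subgroup R) (hC : IsCyclic C) (hCi : C.index = p) : Cfsg.IsElementaryAbelian p (Subgroup.closure {x : R | x ^ p = 1}) ∧ Nat.card (Subgroup.closure {x : R | x ^ p = 1}) = p ^ 2 := by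
  have hpp : p.Prime := Fact.out
  obtain ⟨N, hNn, hNe, hNc⟩ := S0126.result hp hR hnc
  haveI := hNn
  have hkey : ∀ x : R, x ^ p = 1 → x ∈ N := by
    intro x hx
    by_contra hxN
    -- H = N ⊔ ⟨x⟩ has order p ^ 3 and exponent p
    have hHc : Nat.card (N ⊔ Subgroup.zpowers x : Subgroup R) = p ^ 3 := by
      rw [S0100.card_sup_zpowers N x (by rw [hx]; exact N.one_mem) hxN, hNc]; ring
    have hHe : ∀ h ∈ (N ⊔ Subgroup.zpowers x : Subgroup R), h ^ p = 1 := by
      intro h hh
      have hh' : h ∈ ((N ⊔ Subgroup.zpowers x : Subgroup R) : Set R) := hh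
      rw [Subgroup.normal_mul] at hh'
      obtain ⟨n, hn, y, hy, rfl⟩ := Set.mem_mul.1 hh'
      have hn' : n ∈ N := hn
      have hy' : y ∈ Subgroup.zpowers x := hy
      have hc : ⁅y, n⁆ ∈ Subgroup.center R := comm_mem_center_of_card_sq hR N hNc y n hn'
      have hcN : ⁅y, n⁆ ∈ N := by
        rw [commutatorElement_def]
        exact N.mul_mem (hNn.conj_mem n hn' y) (N.inv_mem hn')
      have hyp : y ^ p = 1 := by
        obtain ⟨k, rfl⟩ := Subgroup.mem_zpowers_iff.1 hy'
        rw [← zpow_natCast, ← zpow_mul, mul_comm, zpow_mul, zpow_natCast, hx, one_zpow]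
      rw [Lib.Helper17.OmegaAct.mul_pow_prime_class2 hpp hp n y ⁅y, n⁆ ?_ ?_ ?_ (hNe.2 _ hcN),
        hNe.2 n hn', hyp, one_mul]
      · rw [commutatorElement_def]; group
      · exact (Subgroup.mem_center_iff.1 hc n).symm
      · exact (Subgroup.mem_center_iff.1 hc y).symm
    -- D = C ⊓ H is cyclic of order at least p ^ 2
    set H : Subgroup R := N ⊔ Subgroup.zpowers x with hH
    have hrel : C.relIndex H ≤ p := by
      have h1 := Subgroup.relIndex_le_of_le_right (H := C) (K := H) (L := ⊤) le_top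
        (by rw [Subgroup.relIndex_top_right, hCi]; exact hpp.ne_zero)
      rwa [Subgroup.relIndex_top_right, hCi] at h1
    have hDc : Nat.card (C ⊓ H : Subgroup R) * C.relIndex H = p ^ 3 := by
      have h1 := Subgroup.relIndex_mul_relIndex (⊥ : Subgroup R) (C ⊓ H) H bot_le inf_le_right
      rw [Subgroup.relIndex_bot_left, Subgroup.relIndex_bot_left, Subgroup.inf_relIndex_right,
        hHc] at h1
      exact h1
    haveI hDcyc : IsCyclic (C ⊓ H : Subgroup R) := by
      haveI : IsCyclic ((C ⊓ H).subgroupOf C) := inferInstance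
      exact isCyclic_of_surjective (Subgroup.subgroupOfEquivOfLe (inf_le_left : C ⊓ H ≤ C))
        (Subgroup.subgroupOfEquivOfLe (inf_le_left : C ⊓ H ≤ C)).surjective
    obtain ⟨g, hg⟩ := hDcyc.exists_generator
    have hgo : orderOf g = Nat.card (C ⊓ H : Subgroup R) :=
      orderOf_eq_card_of_forall_mem_zpowers hg
    have hgp : g ^ p = 1 := by
      apply Subtype.ext
      rw [Subgroup.coe_pow]
      exact hHe _ g.2.2
    have hle : Nat.card (C ⊓ H : Subgroup R) ≤ p := by
      rw [← hgo]
      exact Nat.le_of_dvd hpp.pos (orderOf_dvd_of_pow_eq_one hgp)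
    have hpos : 0 < p := hpp.pos
    have h3 : p ^ 3 ≤ p * p := by
      rw [← hDc]
      exact Nat.mul_le_mul hle hrel
    have h4 : p * p < p ^ 3 := by
      have : 1 < p := hpp.one_lt
      calc p * p = p * p * 1 := by ring
        _ < p * p * p := by
          apply Nat.mul_lt_mul_of_pos_left this (Nat.mul_pos hpos hpos)
        _ = p ^ 3 := by ring
    omega
  have heq : Subgroup.closure {x : R | x ^ p = 1} = N := by
    apply le_antisymm
    · rw [Subgroup.closure_le]
      intro x hx
      exact hkey x hx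
    · intro n hn
      exact Subgroup.subset_closure (hNe.2 n hn)
  rw [heq]
  exact ⟨hNe, hNc⟩

end Cfsg.Agent.S0127
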