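import Cfsg.Statements.S1453
import Mathlib
import Cfsg.Agent.S1452
import Cfsg.Agent.S0065
import Cfsg.Agent.Lib.Helper17.OmegaAct

set_option autoImplicit false
open Cfsg
open scoped commutatorElement

namespace Cfsg.Agent.S1453

/-- Power law for a commutator commuting with its left entry. -/
theorem comm_pow_left {G : Type*} [Group G] (a b : G) (h : ⁅a, b⁆ * a = a * ⁅a, b⁆) (n : ℕ) :
    ⁅a ^ n, b⁆ = ⁅a, b⁆ ^ n := by
  induction n with
  | zero => simp
  | succ n ih =>
    have h1 : ⁅a ^ (n + 1), b⁆ = a ^ n * ⁅a, b⁆ * (a ^ n)⁻¹ * ⁅a ^ n, b⁆ := by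
      simp only [commutatorElement_def, pow_succ]; group
    have h2 : a ^ n * ⁅a, b⁆ = ⁅a, b⁆ * a ^ n :=
      ((Commute.pow_right (show Commute ⁅a, b⁆ a from h) n)).eq.symm
    rw [h1, h2, mul_inv_cancel_right, ih, pow_succ']

/-- An element of order dividing `p` centralizing a maximal elementary abelian subgroup lies
in it. -/
theorem mem_of_max {R : Type*} [Group R] {p : ℕ} (E : Subgroup R)
    (hE : Cfsg.IsElementaryAbelian p E)
    (hEmax : ∀ B : Subgroup R, Cfsg.IsElementaryAbelian p B → E ≤ B → B = E)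
    (x : R) (hxp : x ^ p = 1) (hxc : ∀ e ∈ E, e * x = x * e) : x ∈ E := by
  have hEab : ∀ u ∈ E, ∀ v ∈ E, u * v = v * u := fun u hu v hv =>
    congrArg Subtype.val (hE.1.is_comm.comm ⟨u, hu⟩ ⟨v, hv⟩)
  have hgen : ∀ u ∈ ((E : Set R) ∪ {x}), ∀ v ∈ ((E : Set R) ∪ {x}), u * v = v * u := by
    rintro u (hu | hu) v (hv | hv)
    · exact hEab u hu v hv
    · rw [Set.mem_singleton_iff.1 hv]; exact hxc u hu
    · rw [Set.mem_singleton_iff.1 hu]; exact (hxc v hv).symm
    · rw [Set.mem_singleton_iff.1 hu, Set.mem_singleton_iff.1 hv]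
  have hBab : IsMulCommutative (Subgroup.closure ((E : Set R) ∪ {x})) :=
    Subgroup.isMulCommutative_closure hgen
  have key : ∀ y ∈ Subgroup.closure ((E : Set R) ∪ {x}), y ^ p = 1 := by
    intro y hy
    induction hy using Subgroup.closure_induction with
    | mem a ha =>
      rcases ha with ha | ha
      · exact hE.2 a ha
      · rw [Set.mem_singleton_iff.1 ha]; exact hxp
    | one => exact one_pow p
    | mul a b ha hb iha ihb =>
      have hc : a * b = b * a := congrArg Subtype.val (hBab.is_comm.comm ⟨a, ha⟩ ⟨b, hb⟩)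
      rw [Commute.mul_pow hc, iha, ihb, one_mul]
    | inv a ha iha => rw [inv_pow, iha, inv_one]
  have hEB : E ≤ Subgroup.closure ((E : Set R) ∪ {x}) := fun e he =>
    Subgroup.subset_closure (Or.inl he)
  have h := hEmax _ ⟨hBab, key⟩ hEB
  rw [← h]
  exact Subgroup.subset_closure (Or.inr rfl)

theorem result {R : Type*} [Group R] [Finite R] (p : ℕ) [Fact p.Prime] (hp : p ≠ 2) (hR : IsPGroup p R) (hr : ¬ Cfsg.PRankLE p 2 R)
    (E : Subgroup R) (hE : Cfsg.IsElementaryAbelian p E) (hE2 : Nat.card E = p ^ 2)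
    (hEmax : ∀ B : Subgroup R, Cfsg.IsElementaryAbelian p B → E ≤ B → B = E) :
    ¬ E ≤ Subgroup.centralizer ((Subgroup.closure {x : R | x ∈ Subgroup.upperCentralSeries R 2 ∧ x ^ p = 1} : Subgroup R) : Set R) ∧
      Nat.card ↥(Subgroup.closure {x : R | x ∈ Subgroup.center R ∧ x ^ p = 1}) = p ∧
      (Cfsg.IsElementaryAbelian p (Subgroup.closure {x : R | x ∈ Subgroup.upperCentralSeries R 2 ∧ x ^ p = 1}) ∧
        Nat.card ↥(Subgroup.closure {x : R | x ∈ Subgroup.upperCentralSeries R 2 ∧ x ^ p = 1}) = p ^ 2) ∧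
      (Subgroup.centralizer ((Subgroup.closure {x : R | x ∈ Subgroup.upperCentralSeries R 2 ∧ x ^ p = 1} : Subgroup R) : Set R)).Characteristic ∧
      (Subgroup.centralizer ((Subgroup.closure {x : R | x ∈ Subgroup.upperCentralSeries R 2 ∧ x ^ p = 1} : Subgroup R) : Set R)).index = p := by
  classical
  have hpp : p.Prime := Fact.out
  haveI : Group.IsNilpotent R := hR.isNilpotent
  obtain ⟨W, hW⟩ : ∃ W : Subgroup R, W = Subgroup.closure
      {x : R | x ∈ Subgroup.upperCentralSeries R 2 ∧ x ^ p = 1} := ⟨_, rfl⟩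
  obtain ⟨Z, hZ⟩ : ∃ Z : Subgroup R, Z = Subgroup.closure
      {x : R | x ∈ Subgroup.center R ∧ x ^ p = 1} := ⟨_, rfl⟩
  rw [← hW, ← hZ]
  have hmem := mem_of_max E hE hEmax
  have hZ2 : ∀ x ∈ Subgroup.upperCentralSeries R 2, ∀ g : R, ⁅x, g⁆ ∈ Subgroup.center R := by
    intro x hx g
    have h := (Subgroup.mem_upperCentralSeries_succ_iff (n := 1)).1 hx g
    rwa [Subgroup.upperCentralSeries_one] at h
  have hZ2' : ∀ x : R, (∀ g : R, ⁅x, g⁆ ∈ Subgroup.center R) →
      x ∈ Subgroup.upperCentralSeries R 2 := by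
    intro x hx
    refine (Subgroup.mem_upperCentralSeries_succ_iff (n := 1)).2 (fun g => ?_)
    rw [Subgroup.upperCentralSeries_one]; exact hx g
  have hWZ2 : W ≤ Subgroup.upperCentralSeries R 2 := by
    rw [hW, Subgroup.closure_le]; exact fun x hx => hx.1
  have hcen : ∀ c ∈ Subgroup.center R, ∀ g : R, c * g = g * c := fun c hc g =>
    (Subgroup.mem_center_iff.1 hc g).symm
  have hWexp : ∀ w ∈ W, w ^ p = 1 := by
    intro w hw
    have key : ∀ y ∈ Subgroup.closure
        {x : R | x ∈ Subgroup.upperCentralSeries R 2 ∧ x ^ p = 1}, y ^ p = 1 := by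
      intro y hy
      induction hy using Subgroup.closure_induction with
      | mem a ha => exact ha.2
      | one => exact one_pow p
      | mul a b ha hb iha ihb =>
        have hb2 : b ∈ Subgroup.upperCentralSeries R 2 := hWZ2 (by rw [hW]; exact hb)
        have hc := hZ2 b hb2 a
        have hcp : ⁅b, a⁆ ^ p = 1 := by
          rw [← comm_pow_left b a (hcen _ hc b) p, ihb]; simp
        rw [Cfsg.Agent.Lib.Helper17.OmegaAct.mul_pow_prime_class2 hpp hp a b ⁅b, a⁆
          (by rw [commutatorElement_def]; group) (hcen _ hc a) (hcen _ hc b) hcp, iha, ihb,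
          one_mul]
      | inv a ha iha => rw [inv_pow, iha, inv_one]
    exact key w (by rw [← hW]; exact hw)
  have hWchar : W.Characteristic := by
    rw [Subgroup.characteristic_iff_map_le]
    intro φ
    rw [hW, MonoidHom.map_closure, Subgroup.closure_le]
    rintro _ ⟨x, ⟨hx1, hx2⟩, rfl⟩
    apply Subgroup.subset_closure
    refine ⟨?_, ?_⟩
    · exact (Subgroup.characteristic_iff_le_comap.1
        (inferInstance : (Subgroup.upperCentralSeries R 2).Characteristic) φ) hx1
    · show (φ x) ^ p = 1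
      rw [← map_pow, hx2, map_one]
  haveI hWn : W.Normal := Subgroup.normal_of_characteristic W
  have hZcen : Z ≤ Subgroup.center R := by
    rw [hZ, Subgroup.closure_le]; exact fun x hx => hx.1
  have hZexp : ∀ z ∈ Z, z ^ p = 1 := by
    intro z hz
    have key : ∀ y ∈ Subgroup.closure {x : R | x ∈ Subgroup.center R ∧ x ^ p = 1},
        y ^ p = 1 := by
      intro y hy
      induction hy using Subgroup.closure_induction with
      | mem a ha => exact ha.2
      | one => exact one_pow p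
      | mul a b ha hb iha ihb =>
        have hc : a * b = b * a := hcen a (hZcen (by rw [hZ]; exact ha)) b
        rw [Commute.mul_pow hc, iha, ihb, one_mul]
      | inv a ha iha => rw [inv_pow, iha, inv_one]
    exact key z (by rw [← hZ]; exact hz)
  have hZmem : ∀ x ∈ Subgroup.center R, x ^ p = 1 → x ∈ Z := fun x h1 h2 => by
    rw [hZ]; exact Subgroup.subset_closure ⟨h1, h2⟩
  have hZE : Z ≤ E := fun z hz =>
    hmem z (hZexp z hz) (fun e he => (hcen z (hZcen hz) e).symm)
  have hZW : Z ≤ W := by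
    rw [hZ, hW]
    apply Subgroup.closure_mono
    rintro x ⟨hx1, hx2⟩
    refine ⟨hZ2' x (fun g => ?_), hx2⟩
    have h : ⁅x, g⁆ = 1 := by
      rw [commutatorElement_eq_one_iff_mul_comm]; exact hcen x hx1 g
    rw [h]; exact one_mem _
  obtain ⟨A₀, hA₀n, hA₀c, hA₀e, hA₀card⟩ : ∃ A₀ : Subgroup R, A₀.Normal ∧ IsMulCommutative A₀ ∧
      (∀ a ∈ A₀, a ^ p = 1) ∧ Nat.card A₀ = p ^ 3 := by
    by_contra hno
    apply hr
    intro X hXc hXe
    exact Cfsg.Agent.S0100.result hp hR
      (fun A hAn hAc hAe hcard => hno ⟨A, hAn, hAc, hAe, hcard⟩) X hXc hXe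
  haveI := hA₀n
  have hZne : Z ≠ ⊥ := by
    have hA₀ne : A₀ ≠ ⊥ := by
      intro h
      rw [h, Subgroup.card_bot] at hA₀card
      have h1 := Nat.one_lt_pow (n := 3) (by norm_num) hpp.one_lt
      omega
    have h1 := Cfsg.Agent.S0065.normal_inf_center_ne_bot A₀ hA₀ne
    intro hZb
    apply h1
    rw [Subgroup.eq_bot_iff_forall]
    intro x hx
    have h2 : x ∈ Z := hZmem x hx.2 (hA₀e x hx.1)
    rw [hZb, Subgroup.mem_bot] at h2
    exact h2
  have hEnc : ¬ E ≤ Subgroup.center R := by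
    intro hEc
    apply hr
    intro X hXc hXe
    have hXE : X ≤ E := fun x hx => hmem x (hXe x hx) (fun e he => hcen e (hEc he) x)
    rw [← hE2]; exact Subgroup.card_le_of_le hXE
  have hZcard : Nat.card Z = p := by
    have hd : Nat.card Z ∣ p ^ 2 := by rw [← hE2]; exact Subgroup.card_dvd_of_le hZE
    obtain ⟨k, hk, hkc⟩ := (Nat.dvd_prime_pow hpp).1 hd
    interval_cases k
    · exact absurd (Subgroup.card_eq_one.1 (by rw [hkc, pow_zero])) hZne
    · simpa using hkc
    · exfalso
      have h : Z = E := Subgroup.eq_of_le_of_card_ge hZE (by rw [hkc, hE2])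
      exact hEnc (by rw [← h]; exact hZcen)
  have hEZ2 : ¬ E ≤ Subgroup.upperCentralSeries R 2 := by
    intro hEZ
    have hEn : E.Normal := by
      constructor
      intro e he g
      have hc := hZ2 e (hEZ he) g
      have hcp : ⁅e, g⁆ ^ p = 1 := by
        rw [← comm_pow_left e g (hcen _ hc e) p, hE.2 e he]; simp
      have h1 : ⁅e, g⁆ ∈ E := hZE (hZmem _ hc hcp)
      have h2 : g * e * g⁻¹ = (⁅e, g⁆)⁻¹ * e := by rw [commutatorElement_def]; group
      rw [h2]
      exact E.mul_mem (E.inv_mem h1) he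
    obtain ⟨B, hBn, hBc, hBe, hEB, hBcard⟩ :=
      Cfsg.Agent.S1452.exists_big p hp hR hr E hE hE2
    have h := hEmax B ⟨hBc, hBe⟩ hEB
    rw [h, hE2] at hBcard
    exact lt_irrefl _ hBcard
  obtain ⟨e, heE, heZ⟩ : ∃ e ∈ E, e ∉ Z := by
    by_contra hno
    push Not at hno
    have h : Z = E := le_antisymm hZE hno
    rw [h, hE2] at hZcard
    have h1 := hpp.one_lt
    nlinarith
  have hcentE : ∀ w : R, w * e = e * w → ∀ x ∈ E, x * w = w * x := by
    intro w hw
    have hZC : Z ≤ E ⊓ Subgroup.centralizer {w} := le_inf hZE (fun z hz => by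
      rw [Subgroup.mem_centralizer_iff]
      intro h hh
      rw [Set.mem_singleton_iff.1 hh]
      exact (hcen z (hZcen hz) w).symm)
    have heC2 : e ∈ Subgroup.centralizer {w} := by
      rw [Subgroup.mem_centralizer_iff]
      intro h hh
      rw [Set.mem_singleton_iff.1 hh]
      exact hw
    have heC : e ∈ E ⊓ Subgroup.centralizer {w} := ⟨heE, heC2⟩
    have hCE : E ⊓ Subgroup.centralizer {w} = E := by
      have hd : Nat.card ↥(E ⊓ Subgroup.centralizer {w}) ∣ p ^ 2 := by
        rw [← hE2]; exact Subgroup.card_dvd_of_le inf_le_left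
      obtain ⟨k, hk, hkc⟩ := (Nat.dvd_prime_pow hpp).1 hd
      have hlt : p < Nat.card ↥(E ⊓ Subgroup.centralizer {w}) := by
        by_contra h
        rw [not_lt] at h
        have h' : Nat.card ↥(E ⊓ Subgroup.centralizer {w}) ≤ Nat.card Z := by
          rw [hZcard]; exact h
        have h2 := Subgroup.eq_of_le_of_card_ge hZC h'
        exact heZ (by rw [h2]; exact heC)
      have h1 := hpp.one_lt
      interval_cases k
      · rw [pow_zero] at hkc; omega
      · rw [pow_one] at hkc; omega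
      · exact Subgroup.eq_of_le_of_card_ge inf_le_left (by rw [hkc, hE2])
    intro x hx
    have h : x ∈ E ⊓ Subgroup.centralizer {w} := by rw [hCE]; exact hx
    exact (Subgroup.mem_centralizer_iff.1 h.2 w rfl).symm
  have hWE : W ⊓ E ≠ E := by
    intro h
    exact hEZ2 (fun x hx => hWZ2 ((by rw [h]; exact hx : x ∈ W ⊓ E)).1)
  have hWEcard : Nat.card ↥(W ⊓ E) ≤ p := by
    have hd : Nat.card ↥(W ⊓ E) ∣ p ^ 2 := by
      rw [← hE2]; exact Subgroup.card_dvd_of_le inf_le_right
    obtain ⟨k, hk, hkc⟩ := (Nat.dvd_prime_pow hpp).1 hd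
    interval_cases k
    · rw [hkc]; simpa using hpp.one_lt.le
    · rw [hkc]; simp
    · exact absurd (Subgroup.eq_of_le_of_card_ge inf_le_right (by rw [hkc, hE2])) hWE
  have hψmem : ∀ w ∈ W, ⁅w, e⁆ ∈ Z := by
    intro w hw
    have hc := hZ2 w (hWZ2 hw) e
    refine hZmem _ hc ?_
    rw [← comm_pow_left w e (hcen _ hc w) p, hWexp w hw]; simp
  let ψ : ↥W →* ↥Z :=
    { toFun := fun w => ⟨⁅(w : R), e⁆, hψmem w.1 w.2⟩
      map_one' := by ext; simp
      map_mul' := by
        intro a b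
        apply Subtype.ext
        show ⁅((a * b : ↥W) : R), e⁆ = ⁅(a : R), e⁆ * ⁅(b : R), e⁆
        rw [Subgroup.coe_mul]
        have hc := hZ2 b.1 (hWZ2 b.2) e
        have h1 : ⁅(a : R) * b, e⁆ = a * ⁅(b : R), e⁆ * (a : R)⁻¹ * ⁅(a : R), e⁆ := by
          simp only [commutatorElement_def]; group
        rw [h1, ← hcen _ hc a, mul_inv_cancel_right]
        exact hcen _ hc _ }
  have hker : Nat.card ψ.ker ≤ p := by
    have hinj : Function.Injective (fun w : ψ.ker => (⟨(w.1 : R), ⟨w.1.2, by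
        have hw : ψ w.1 = 1 := w.2
        have hw' : ⁅(w.1 : R), e⁆ = 1 := congrArg Subtype.val hw
        rw [commutatorElement_eq_one_iff_mul_comm] at hw'
        exact hmem _ (hWexp _ w.1.2) (hcentE _ hw')⟩⟩ : ↥(W ⊓ E))) := by
      intro a b hab
      have h : (a.1 : R) = b.1 := congrArg (fun x : ↥(W ⊓ E) => (x : R)) hab
      exact Subtype.ext (Subtype.ext h)
    exact le_trans (Nat.card_le_card_of_injective _ hinj) hWEcard
  have hWcard_le : Nat.card W ≤ p ^ 2 := by
    have h1 := Subgroup.card_mul_index ψ.ker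
    have h2 : ψ.ker.index = Nat.card ψ.range := Subgroup.index_ker ψ
    have h3 : Nat.card ψ.range ≤ p := by
      rw [← hZcard]; exact Subgroup.card_le_card_group ψ.range
    rw [← h1, h2, pow_two]
    exact Nat.mul_le_mul hker h3
  have hA₀nc : ¬ A₀ ≤ Subgroup.center R := by
    intro h
    have h1 : A₀ ≤ Z := fun a ha => hZmem a (h ha) (hA₀e a ha)
    have h2 := Subgroup.card_le_of_le h1
    rw [hA₀card, hZcard] at h2
    have h3 := hpp.one_lt
    nlinarith [pow_pos hpp.pos 2]
  obtain ⟨x, hxA, hxnc, -, hxc⟩ :=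
    Cfsg.Agent.S0093.exists_central_mod hR (Subgroup.center R) A₀ hA₀nc
  have hxW : x ∈ W := by
    rw [hW]; exact Subgroup.subset_closure ⟨hZ2' x hxc, hA₀e x hxA⟩
  have hWcard : Nat.card W = p ^ 2 := by
    apply le_antisymm hWcard_le
    obtain ⟨k, hk⟩ := (IsPGroup.iff_card.1 (hR.to_subgroup W))
    rw [hk]
    have hlt : p < p ^ k := by
      rw [← hk]
      by_contra h
      rw [not_lt] at h
      have h' : Nat.card W ≤ Nat.card Z := by rw [hZcard]; exact h
      have h2 := Subgroup.eq_of_le_of_card_ge hZW h'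
      exact hxnc (hZcen (by rw [h2]; exact hxW))
    have h1 : 1 < k := by
      by_contra hk1
      rw [not_lt] at hk1
      have h2 := Nat.pow_le_pow_right hpp.pos hk1
      rw [pow_one] at h2; omega
    exact Nat.pow_le_pow_right hpp.pos h1
  have hTE : ¬ E ≤ Subgroup.centralizer (W : Set R) := by
    intro h
    have hWE' : W ≤ E := fun w hw => hmem w (hWexp w hw) (fun e' he' =>
      (Subgroup.mem_centralizer_iff.1 (h he') w hw).symm)
    have h1 : W = E := Subgroup.eq_of_le_of_card_ge hWE' (by rw [hWcard, hE2])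
    exact hEZ2 (by rw [← h1]; exact hWZ2)
  refine ⟨hTE, hZcard, ⟨⟨?_, hWexp⟩, hWcard⟩, inferInstance, ?_⟩
  · exact IsPGroup.isMulCommutative_of_card_eq_prime_sq hWcard
  · obtain ⟨M, hMn, hMW, hMc, hMi⟩ :=
      Cfsg.Agent.S0129.index_centralizer_le hR W 2 (le_of_eq hWcard.symm)
    have hMeq : M = W := Subgroup.eq_of_le_of_card_ge hMW (by rw [hMc, hWcard])
    rw [hMeq] at hMi
    have hidx : (Subgroup.centralizer (W : Set R)).index ≤ p := by simpa using hMi
    obtain ⟨n, hn⟩ := IsPGroup.iff_card.1 hR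
    have hd : (Subgroup.centralizer (W : Set R)).index ∣ p ^ n := by
      rw [← hn]; exact Subgroup.index_dvd_card _
    obtain ⟨j, hj, hjc⟩ := (Nat.dvd_prime_pow hpp).1 hd
    have hne1 : (Subgroup.centralizer (W : Set R)).index ≠ 1 := by
      intro h
      rw [Subgroup.index_eq_one] at h
      exact hTE (by rw [h]; exact le_top)
    rw [hjc] at hidx hne1 ⊢
    have hj1 : j ≠ 0 := by
      intro h; rw [h] at hne1; exact hne1 (pow_zero p)
    have hj2 : j ≤ 1 := by
      by_contra h
      rw [not_le] at h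
      have h2 : p ^ 2 ≤ p ^ j := Nat.pow_le_pow_right hpp.pos h
      have h3 := hpp.one_lt
      nlinarith
    have hj3 : j = 1 := by omega
    rw [hj3, pow_one]

end Cfsg.Agent.S1453
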