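import Cfsg.Statements.S0128
import Cfsg.Agent.S0124
import Cfsg.Agent.S0129
import Cfsg.Agent.S0100
import Cfsg.Agent.S1453
import Mathlib

set_option autoImplicit false
open Cfsg

namespace Cfsg.Agent.S0128

open scoped commutatorElement

section Small

variable {G : Type*} [Group G] [Finite G] {p : ℕ} [Fact p.Prime]

theorem card_quot_center_le (hG : IsPGroup p G) (n : ℕ) (h : Nat.card G ≤ p ^ (n + 1)) :
    Nat.card (G ⧸ Subgroup.center G) ≤ p ^ n := by
  have hpp : p.Prime := Fact.out
  rcases subsingleton_or_nontrivial G with hs | hn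
  · have hc := Subgroup.card_eq_card_quotient_mul_card_subgroup (Subgroup.center G)
    have h1 : Nat.card G = 1 := Nat.card_of_subsingleton (1 : G)
    rw [h1] at hc
    have h2 : Nat.card (G ⧸ Subgroup.center G) ≤ 1 :=
      Nat.le_of_dvd one_pos (Dvd.intro _ hc.symm)
    exact h2.trans (Nat.one_le_pow _ _ hpp.pos)
  · have hZ : Nontrivial (Subgroup.center G) := hG.center_nontrivial
    have hpZ : p ≤ Nat.card (Subgroup.center G) := by
      obtain ⟨k, hk⟩ := (IsPGroup.iff_card.1 (hG.to_subgroup (Subgroup.center G)))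
      have h1 : 1 < Nat.card (Subgroup.center G) := Finite.one_lt_card
      rw [hk] at h1 ⊢
      have hk0 : k ≠ 0 := by rintro rfl; simp at h1
      calc p = p ^ 1 := (pow_one p).symm
        _ ≤ p ^ k := Nat.pow_le_pow_right hpp.pos (Nat.one_le_iff_ne_zero.2 hk0)
    have hc := Subgroup.card_eq_card_quotient_mul_card_subgroup (Subgroup.center G)
    have h2 : Nat.card (G ⧸ Subgroup.center G) * p ≤ p ^ n * p := by
      calc Nat.card (G ⧸ Subgroup.center G) * p
          ≤ Nat.card (G ⧸ Subgroup.center G) * Nat.card (Subgroup.center G) :=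
            Nat.mul_le_mul_left _ hpZ
        _ = Nat.card G := hc.symm
        _ ≤ p ^ (n + 1) := h
        _ = p ^ n * p := pow_succ p n
    exact Nat.le_of_mul_le_mul_right h2 hpp.pos

theorem comm_of_card_le_sq (hG : IsPGroup p G) (h : Nat.card G ≤ p ^ 2) (a b : G) :
    a * b = b * a := by
  have hpp : p.Prime := Fact.out
  obtain ⟨k, hk⟩ := IsPGroup.iff_card.1 hG
  have hk2 : k ≤ 2 := by
    rw [hk] at h
    exact (Nat.pow_le_pow_iff_right hpp.one_lt).1 h
  interval_cases k
  · rw [pow_zero] at hk
    haveI : Subsingleton G := (Nat.card_eq_one_iff_unique.1 hk).1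
    exact Subsingleton.elim _ _
  · rw [pow_one] at hk
    haveI : IsCyclic G := isCyclic_of_prime_card hk
    letI := IsCyclic.commGroup (α := G)
    exact mul_comm a b
  · haveI := IsPGroup.isMulCommutative_of_card_eq_prime_sq hk
    exact IsMulCommutative.is_comm.comm a b

/-- A `p`-group of order at most `p ^ 4` has class at most three. -/
theorem class_three_of_card (hG : IsPGroup p G) (hc : Nat.card G ≤ p ^ 4) :
    ⁅⁅commutator G, (⊤ : Subgroup G)⁆, (⊤ : Subgroup G)⁆ = ⊥ := by
  have h1 := card_quot_center_le hG 3 hc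
  have hG1 : IsPGroup p (G ⧸ Subgroup.center G) := hG.to_quotient _
  have h2 := card_quot_center_le hG1 2 h1
  have hG2 : IsPGroup p ((G ⧸ Subgroup.center G) ⧸ Subgroup.center (G ⧸ Subgroup.center G)) :=
    hG1.to_quotient _
  have hQ := comm_of_card_le_sq hG2 h2
  have hA : ∀ g h : G, (QuotientGroup.mk' (Subgroup.center G)) ⁅g, h⁆ ∈
      Subgroup.center (G ⧸ Subgroup.center G) := by
    intro g h
    rw [← QuotientGroup.eq_one_iff, ← QuotientGroup.mk'_apply, map_commutatorElement,
      map_commutatorElement, commutatorElement_eq_one_iff_mul_comm]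
    exact hQ _ _
  have hB : commutator G ≤ (Subgroup.center (G ⧸ Subgroup.center G)).comap
      (QuotientGroup.mk' (Subgroup.center G)) := by
    rw [commutator_def, Subgroup.commutator_le]
    intro g _ h _
    exact hA g h
  have hC : ⁅commutator G, (⊤ : Subgroup G)⁆ ≤ Subgroup.center G := by
    rw [Subgroup.commutator_le]
    intro c hc k _
    have h3 : (QuotientGroup.mk' (Subgroup.center G)) c ∈
        Subgroup.center (G ⧸ Subgroup.center G) := hB hc
    rw [← QuotientGroup.eq_one_iff, ← QuotientGroup.mk'_apply, map_commutatorElement,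
      commutatorElement_eq_one_iff_mul_comm]
    exact ((Subgroup.mem_center_iff.1 h3) _).symm
  rw [eq_bot_iff, Subgroup.commutator_le]
  intro u hu k _
  rw [Subgroup.mem_bot, commutatorElement_eq_one_iff_mul_comm]
  exact ((Subgroup.mem_center_iff.1 (hC hu)) k).symm

theorem card_lt_of_ne_top (K : Subgroup G) (h : K ≠ ⊤) : Nat.card K < Nat.card G :=
  lt_of_le_of_ne (Subgroup.card_le_card_group K) (fun e => h (Subgroup.eq_top_of_card_eq K e))

/-- Rank at most two passes to subgroups. -/
theorem rank_sub (hrk : ∀ E : Subgroup G, Cfsg.IsElementaryAbelian p E → Nat.card E ≤ p ^ 2)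
    (H : Subgroup G) :
    ∀ E : Subgroup H, Cfsg.IsElementaryAbelian p E → Nat.card E ≤ p ^ 2 := by
  intro E hE
  have h1 : Cfsg.IsElementaryAbelian p (E.map H.subtype) := by
    haveI := hE.1
    refine ⟨inferInstance, ?_⟩
    rintro _ ⟨e, he, rfl⟩
    have := hE.2 e he
    rw [← map_pow, this, map_one]
  have h2 := hrk _ h1
  rwa [Subgroup.card_map_of_injective H.subtype_injective] at h2

/-- A group of exponent `p` and rank at most two has order at most `p ^ 3`. -/
theorem card_le_cube_of_exp (hG : IsPGroup p G)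
    (hrk : ∀ E : Subgroup G, Cfsg.IsElementaryAbelian p E → Nat.card E ≤ p ^ 2)
    (hexp : ∀ g : G, g ^ p = 1) : Nat.card G ≤ p ^ 3 := by
  have hpp : p.Prime := Fact.out
  by_cases h : p ^ 2 ≤ Nat.card G
  · obtain ⟨M, hMn, -, hMc, hMi⟩ := Cfsg.Agent.S0129.index_centralizer_le hG ⊤ 2
      (by rw [Subgroup.card_top]; exact h)
    have hE : Cfsg.IsElementaryAbelian p M :=
      ⟨IsPGroup.isMulCommutative_of_card_eq_prime_sq hMc, fun a _ => hexp a⟩
    have hmax : ∀ B : Subgroup G, Cfsg.IsElementaryAbelian p B → M ≤ B → B = M := by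
      intro B hB hMB
      exact (Subgroup.eq_of_le_of_card_ge hMB (by rw [hMc]; exact hrk B hB)).symm
    have hcen : Subgroup.centralizer (M : Set G) ≤ M := by
      intro c hc
      exact Cfsg.Agent.S1453.mem_of_max M hE hmax c (hexp c)
        (fun e he => (Subgroup.mem_centralizer_iff.1 hc) e he)
    have h3 := Subgroup.card_mul_index (Subgroup.centralizer (M : Set G))
    have h4 : Nat.card (Subgroup.centralizer (M : Set G)) ≤ p ^ 2 := by
      rw [← hMc]; exact Subgroup.card_le_of_le hcen
    have h5 : (Subgroup.centralizer (M : Set G)).index ≤ p := by simpa using hMi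
    calc Nat.card G = Nat.card (Subgroup.centralizer (M : Set G)) *
          (Subgroup.centralizer (M : Set G)).index := h3.symm
      _ ≤ p ^ 2 * p := Nat.mul_le_mul h4 h5
      _ = p ^ 3 := by ring
  · push Not at h
    exact le_of_lt (lt_of_lt_of_le h (Nat.pow_le_pow_right hpp.pos (by norm_num)))

/-- The inductive step. -/
theorem step (hp : 3 < p) (hG : IsPGroup p G)
    (hrk : ∀ E : Subgroup G, Cfsg.IsElementaryAbelian p E → Nat.card E ≤ p ^ 2)
    (x y : G) (hx : x ^ p = 1) (hy : y ^ p = 1) (hgen : Subgroup.closure {x, y} = ⊤)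
    (IH : ∀ u v : G, u ^ p = 1 → v ^ p = 1 → Subgroup.closure {u, v} ≠ ⊤ → (u * v) ^ p = 1) :
    (x * y) ^ p = 1 := by
  have hpp : p.Prime := Fact.out
  by_cases hcomm : x * y = y * x
  · rw [Commute.mul_pow hcomm, hx, hy, one_mul]
  have hK0 : Subgroup.zpowers x ≠ ⊤ := by
    intro h
    have hy' : y ∈ Subgroup.zpowers x := by rw [h]; exact Subgroup.mem_top y
    obtain ⟨k, rfl⟩ := Subgroup.mem_zpowers_iff.1 hy'
    exact hcomm ((Commute.zpow_right (Commute.refl x) k).eq)
  obtain ⟨M, hM, hxM⟩ := (eq_top_or_exists_le_coatom (Subgroup.zpowers x)).resolve_left hK0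
  haveI hnil : Group.IsNilpotent G := hG.isNilpotent
  haveI hMn : M.Normal :=
    Subgroup.NormalizerCondition.normal_of_coatom M Group.normalizerCondition_of_isNilpotent hM
  set W : Subgroup G := Subgroup.closure {u : G | u ∈ M ∧ u ^ p = 1} with hW
  have hWM : ∀ g ∈ W, g ∈ M ∧ g ^ p = 1 := by
    intro g hg
    induction hg using Subgroup.closure_induction with
    | mem u hu => exact hu
    | one => exact ⟨one_mem M, one_pow p⟩
    | mul a b _ _ ha hb =>
      refine ⟨mul_mem ha.1 hb.1, IH a b ha.2 hb.2 ?_⟩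
      intro h
      have hle : Subgroup.closure {a, b} ≤ M := by
        rw [Subgroup.closure_le]
        rintro u (rfl | rfl)
        · exact ha.1
        · exact hb.1
      rw [h] at hle
      exact hM.1 (top_le_iff.1 hle)
    | inv a _ ha => exact ⟨inv_mem ha.1, by rw [inv_pow, ha.2, inv_one]⟩
  haveI hWn : W.Normal := by
    constructor
    intro n hn g
    have h1 : W.map (MulAut.conj g).toMonoidHom ≤ W := by
      rw [hW, MonoidHom.map_closure, Subgroup.closure_le]
      rintro _ ⟨u, ⟨huM, hup⟩, rfl⟩
      apply Subgroup.subset_closure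
      refine ⟨hMn.conj_mem u huM g, ?_⟩
      simp only [MulEquiv.coe_toMonoidHom, MulAut.conj_apply]
      rw [conj_pow, hup, mul_one, mul_inv_cancel]
    exact h1 ⟨n, hn, rfl⟩
  have hWc : Nat.card W ≤ p ^ 3 :=
    card_le_cube_of_exp (hG.to_subgroup W) (rank_sub hrk W)
      (fun g => Subtype.ext (by simpa using (hWM g.1 g.2).2))
  have hxW : x ∈ W := Subgroup.subset_closure ⟨hxM (Subgroup.mem_zpowers x), hx⟩
  have hsup : W ⊔ Subgroup.zpowers y = ⊤ := by
    rw [eq_top_iff, ← hgen, Subgroup.closure_le]
    rintro u (rfl | rfl)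
    · exact (le_sup_left : W ≤ _) hxW
    · exact (le_sup_right : Subgroup.zpowers u ≤ _) (Subgroup.mem_zpowers u)
  have hcard : Nat.card G ≤ p ^ 4 := by
    by_cases hyW : y ∈ W
    · have : W = ⊤ := by
        rw [← hsup]; exact (sup_eq_left.2 ((Subgroup.zpowers_le).2 hyW)).symm
      have h1 : Nat.card G = Nat.card W := by rw [this, Subgroup.card_top]
      rw [h1]
      exact hWc.trans (Nat.pow_le_pow_right hpp.pos (by norm_num))
    · have h1 := Cfsg.Agent.S0100.card_sup_zpowers W y (by rw [hy]; exact one_mem W) hyW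
      rw [hsup, Subgroup.card_top] at h1
      rw [h1]
      calc p * Nat.card W ≤ p * p ^ 3 := Nat.mul_le_mul_left p hWc
        _ = p ^ 4 := by ring
  exact Cfsg.Agent.S0124.mul_pow_eq_one hp (class_three_of_card hG hcard) x y hx hy

end Small

theorem key {R : Type*} [Group R] [Finite R] {p : ℕ} [Fact p.Prime] (hp : 3 < p)
    (hR : IsPGroup p R)
    (hrk : ∀ E : Subgroup R, Cfsg.IsElementaryAbelian p E → Nat.card E ≤ p ^ 2) :
    ∀ n : ℕ, ∀ x y : R, x ^ p = 1 → y ^ p = 1 → Nat.card (Subgroup.closure {x, y}) ≤ n →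
      (x * y) ^ p = 1 := by
  intro n
  induction n using Nat.strong_induction_on with
  | _ n ih =>
    intro x y hx hy hn
    set H : Subgroup R := Subgroup.closure {x, y} with hH
    have hxH : x ∈ H := Subgroup.subset_closure (by simp)
    have hyH : y ∈ H := Subgroup.subset_closure (by simp)
    have hgen : Subgroup.closure {(⟨x, hxH⟩ : H), ⟨y, hyH⟩} = ⊤ := by
      have h1 := Subgroup.closure_closure_coe_preimage (k := ({x, y} : Set R))
      have h2 : ((↑) : Subgroup.closure ({x, y} : Set R) → R) ⁻¹' {x, y} =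
          {(⟨x, hxH⟩ : H), ⟨y, hyH⟩} := by
        ext ⟨u, hu⟩
        simp [Subtype.ext_iff]
      rw [h2] at h1
      exact h1
    have hstep := step hp (hR.to_subgroup H) (rank_sub hrk H) ⟨x, hxH⟩ ⟨y, hyH⟩
      (Subtype.ext (by simpa using hx)) (Subtype.ext (by simpa using hy)) hgen ?_
    · have := congrArg Subtype.val hstep
      simpa using this
    · intro u v hu hv hne
      have hlt := card_lt_of_ne_top _ hne
      have hmap : Subgroup.closure {(u : R), (v : R)} =
          (Subgroup.closure {u, v}).map H.subtype := by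
        rw [MonoidHom.map_closure, Set.image_pair]; rfl
      have hc : Nat.card (Subgroup.closure {(u : R), (v : R)}) < n := by
        rw [hmap, Subgroup.card_map_of_injective H.subtype_injective]
        exact lt_of_lt_of_le hlt hn
      have := ih _ hc (u : R) (v : R) (by simpa using congrArg Subtype.val hu)
        (by simpa using congrArg Subtype.val hv) le_rfl
      exact Subtype.ext (by simpa using this)

/-- For p > 3, in a p-group of p-rank at most 2 the elements of order dividing p generate a subgroup of exponent dividing p. -/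
theorem result {R : Type*} [Group R] [Finite R] {p : ℕ} [Fact p.Prime] (hp : 3 < p) (hR : IsPGroup p R) (hrk : ∀ E : Subgroup R, Cfsg.IsElementaryAbelian p E → Nat.card E ≤ p ^ 2) (g : R) (hg : g ∈ Subgroup.closure {x : R | x ^ p = 1}) : g ^ p = 1 := by
  induction hg using Subgroup.closure_induction with
  | mem x hx => exact hx
  | one => exact one_pow p
  | mul x y _ _ hx hy => exact key hp hR hrk _ x y hx hy le_rfl
  | inv x _ hx => rw [inv_pow, hx, inv_one]

end Cfsg.Agent.S0128
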