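import Cfsg.Statements.S0130
import Cfsg.Agent.S0100

set_option autoImplicit false
open Cfsg

namespace Cfsg.Agent.S0130

open scoped commutatorElement
open Cfsg.Agent.S0100

/-- Exponent of a subgroup generated by elements of order dividing `q` whose commutators are
central and killed by `m ∣ q.choose 2`. -/
theorem exp_of_gens {P : Type*} [Group P] (A : Subgroup P) (D : Subgroup P)
    (hDC : D ≤ Subgroup.centralizer (A : Set P)) (hDD : ∀ d ∈ D, ∀ d' ∈ D, ⁅d, d'⁆ ∈ A)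
    (V : Set P) (hVD : V ⊆ D) (q m : ℕ) (hm : m ∣ q.choose 2)
    (hVq : ∀ v ∈ V, v ^ q = 1) (hVm : ∀ v ∈ V, ∀ e ∈ D, ⁅v, e⁆ ^ m = 1) :
    ∀ d ∈ Subgroup.closure V, d ^ q = 1 := by
  have hle : Subgroup.closure V ≤ D := (Subgroup.closure_le D).2 hVD
  have hcen : ∀ a ∈ A, ∀ d ∈ D, a * d = d * a := fun a ha d hd =>
    (Subgroup.mem_centralizer_iff.1 (hDC hd)) a ha
  have step1 : ∀ d ∈ Subgroup.closure V, ∀ e ∈ D, ⁅d, e⁆ ^ m = 1 := by
    intro d hd e he
    induction hd using Subgroup.closure_induction with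
    | mem v hv => exact hVm v hv e he
    | one => rw [commutatorElement_one_left, one_pow]
    | mul a b ha hb iha ihb =>
      have hbe : ⁅b, e⁆ ∈ A := hDD b (hle hb) e he
      have hae : ⁅a, e⁆ ∈ A := hDD a (hle ha) e he
      have e1 : ⁅a * b, e⁆ = a * ⁅b, e⁆ * a⁻¹ * ⁅a, e⁆ := by
        simp only [commutatorElement_def]; group
      have e2 : a * ⁅b, e⁆ * a⁻¹ = ⁅b, e⁆ := by
        rw [← hcen _ hbe a (hle ha), mul_assoc, mul_inv_cancel, mul_one]
      have hc : Commute ⁅b, e⁆ ⁅a, e⁆ := by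
        have h1 : ⁅a, e⁆ ∈ D := by
          rw [commutatorElement_def]
          exact D.mul_mem (D.mul_mem (D.mul_mem (hle ha) he) (D.inv_mem (hle ha))) (D.inv_mem he)
        exact hcen _ hbe _ h1
      rw [e1, e2, hc.mul_pow, iha, ihb, one_mul]
    | inv a ha iha =>
      have hae : ⁅a, e⁆ ∈ A := hDD a (hle ha) e he
      have e1 : ⁅a⁻¹, e⁆ = a⁻¹ * (⁅a, e⁆)⁻¹ * a := by
        simp only [commutatorElement_def]; group
      have e2 : a⁻¹ * (⁅a, e⁆)⁻¹ * a = (⁅a, e⁆)⁻¹ := by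
        rw [mul_assoc, hcen _ (A.inv_mem hae) a (hle ha), ← mul_assoc, inv_mul_cancel, one_mul]
      rw [e1, e2, inv_pow, iha, inv_one]
  intro d hd
  induction hd using Subgroup.closure_induction with
  | mem v hv => exact hVq v hv
  | one => exact one_pow q
  | mul a b ha hb iha ihb =>
    have hcA : ⁅b⁻¹, a⁻¹⁆ ∈ A := hDD _ (D.inv_mem (hle hb)) _ (D.inv_mem (hle ha))
    have hc : b * a = a * b * ⁅b⁻¹, a⁻¹⁆ := by rw [commutatorElement_def]; group
    obtain ⟨-, e2⟩ := Cfsg.Agent.Lib.Helper18.UniqueInvolution.pow_mul_comm_of_central a b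
      ⁅b⁻¹, a⁻¹⁆ hc (hcen _ hcA a (hle ha)) (hcen _ hcA b (hle hb)) q
    have hcm : ⁅b⁻¹, a⁻¹⁆ ^ m = 1 :=
      step1 _ (Subgroup.inv_mem _ hb) _ (D.inv_mem (hle ha))
    obtain ⟨k, hk⟩ := hm
    rw [e2, iha, ihb, one_mul, one_mul, hk, pow_mul, hcm, one_pow]
  | inv a _ iha => rw [inv_pow, iha, inv_one]

theorem key_core {P : Type*} [Group P] [Finite P] {p : ℕ} [Fact p.Prime]
    (hP : IsPGroup p P) (A : Subgroup P) [hA : A.Normal] (q : ℕ)
    (hexp : ∀ (y : P) (N₁ : Subgroup P), y ∈ Subgroup.centralizer (A : Set P) → y ∉ A →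
      y ^ q = 1 → y ∈ N₁ → (∀ n ∈ N₁, ∀ m ∈ N₁, ⁅n * y * n⁻¹, m * y * m⁻¹⁆ ∈ A) →
      ∃ D : Subgroup P, D ≤ Subgroup.centralizer (A : Set P) ∧ D ≤ N₁ ∧
        N₁ ≤ Subgroup.normalizer (D : Set P) ∧ ¬ D ≤ A ∧ ∀ d ∈ D, d ^ q = 1)
    (x : P) (hxC : x ∈ Subgroup.centralizer (A : Set P)) (hxA : x ∉ A) (hxp : x ^ q = 1) :
    ∃ y : P, y ∈ Subgroup.centralizer (A : Set P) ∧ y ∉ A ∧ y ^ q = 1 ∧ ∀ g : P, ⁅g, y⁆ ∈ A := by
  classical
  obtain ⟨y, ⟨hyC, hyA, hyp⟩, hymax⟩ := Set.exists_max_image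
    {y : P | y ∈ Subgroup.centralizer (A : Set P) ∧ y ∉ A ∧ y ^ q = 1}
    (fun y => Nat.card (stab A y)) (Set.toFinite _) ⟨x, hxC, hxA, hxp⟩
  by_cases hS : stab A y = ⊤
  · refine ⟨y, hyC, hyA, hyp, fun g => ?_⟩
    have : g ∈ stab A y := by rw [hS]; exact Subgroup.mem_top g
    exact this
  exfalso
  have hnil : Group.IsNilpotent P := hP.isNilpotent
  have hlt : stab A y < Subgroup.normalizer (stab A y : Set P) :=
    Group.normalizerCondition_of_isNilpotent (stab A y) (lt_top_iff_ne_top.2 hS)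
  have hyS : y ∈ stab A y := by
    show ⁅y, y⁆ ∈ A
    rw [commutatorElement_self]; exact A.one_mem
  have hU4 : ∀ n ∈ Subgroup.normalizer (stab A y : Set P), stab A (n * y * n⁻¹) = stab A y := by
    intro n hn
    ext g
    have e : ⁅g, n * y * n⁻¹⁆ = n * ⁅n⁻¹ * g * n, y⁆ * n⁻¹ := by
      simp only [commutatorElement_def]; group
    have e2 : n * (n⁻¹ * g * n) * n⁻¹ = g := by group
    have hiff : n⁻¹ * g * n ∈ stab A y ↔ g ∈ stab A y := by
      have := Subgroup.mem_normalizer_iff.1 hn (n⁻¹ * g * n)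
      rw [e2] at this; exact this
    rw [← hiff, mem_stab, mem_stab, e]
    constructor
    · intro h
      have h3 := hA.conj_mem _ h n⁻¹
      have e3 : n⁻¹ * (n * ⁅n⁻¹ * g * n, y⁆ * n⁻¹) * n⁻¹⁻¹ = ⁅n⁻¹ * g * n, y⁆ := by group
      rwa [e3] at h3
    · intro h
      exact hA.conj_mem _ h n
  have hU5 : ∀ n ∈ Subgroup.normalizer (stab A y : Set P), n * y * n⁻¹ ∈ stab A y :=
    fun n hn => (Subgroup.mem_normalizer_iff.1 hn y).1 hyS
  have hcomm : ∀ n ∈ Subgroup.normalizer (stab A y : Set P),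
      ∀ m ∈ Subgroup.normalizer (stab A y : Set P), ⁅n * y * n⁻¹, m * y * m⁻¹⁆ ∈ A := by
    intro n hn m hm
    have : n * y * n⁻¹ ∈ stab A (m * y * m⁻¹) := by rw [hU4 m hm]; exact hU5 n hn
    exact this
  obtain ⟨D, hD1, hDle, hDN, hDA, hD4⟩ := hexp y _ hyC hyA hyp (hlt.le hyS) hcomm
  have hPN : IsPGroup p ↥(Subgroup.normalizer (stab A y : Set P)) := hP.to_subgroup _
  have hDn : (D.subgroupOf (Subgroup.normalizer (stab A y : Set P))).Normal :=
    Subgroup.normal_subgroupOf_of_le_normalizer hDN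
  have hne : ¬ D.subgroupOf (Subgroup.normalizer (stab A y : Set P)) ≤
      A.subgroupOf (Subgroup.normalizer (stab A y : Set P)) := by
    intro hle
    apply hDA
    intro d hd
    have h1 : (⟨d, hDle hd⟩ : ↥(Subgroup.normalizer (stab A y : Set P))) ∈
        D.subgroupOf (Subgroup.normalizer (stab A y : Set P)) := Subgroup.mem_subgroupOf.2 hd
    exact Subgroup.mem_subgroupOf.1 (hle h1)
  obtain ⟨w, hwD, hwA, -, hwc⟩ := Cfsg.Agent.S0093.exists_central_mod hPN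
    (A.subgroupOf (Subgroup.normalizer (stab A y : Set P)))
    (D.subgroupOf (Subgroup.normalizer (stab A y : Set P))) hne
  have hwD' : (w : P) ∈ D := Subgroup.mem_subgroupOf.1 hwD
  have hwA' : (w : P) ∉ A := fun h => hwA (Subgroup.mem_subgroupOf.2 h)
  have hle : Subgroup.normalizer (stab A y : Set P) ≤ stab A (w : P) := by
    intro n hn
    have h1 := hwc ⟨n, hn⟩
    have h2 : ⁅(w : P), n⁆ ∈ A := Subgroup.mem_subgroupOf.1 h1
    show ⁅n, (w : P)⁆ ∈ A
    rw [← commutatorElement_inv]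
    exact A.inv_mem h2
  have h1 := hymax (w : P) ⟨hD1 hwD', hwA', hD4 _ hwD'⟩
  have h2 : Nat.card (stab A y) < Nat.card (Subgroup.normalizer (stab A y : Set P)) := by
    by_contra hcon
    push Not at hcon
    exact hlt.ne (Subgroup.eq_of_le_of_card_ge hlt.le hcon)
  have h3 := Subgroup.card_le_of_le hle
  have h1' : Nat.card (stab A (w : P)) ≤ Nat.card (stab A y) := h1
  omega

theorem choose_dvd_odd {p n : ℕ} (hp : p.Prime) (hp2 : p ≠ 2) : p ^ n ∣ (p ^ n).choose 2 := by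
  have hodd : Odd (p ^ n) := (hp.odd_of_ne_two hp2).pow
  obtain ⟨k, hk⟩ := hodd
  rw [Nat.choose_two_right]
  have h1 : p ^ n * (p ^ n - 1) = 2 * (p ^ n * k) := by
    have : p ^ n - 1 = 2 * k := by omega
    rw [this]; ring
  rw [h1, Nat.mul_div_cancel_left _ (by norm_num : 0 < 2)]
  exact Dvd.intro k rfl

theorem choose_dvd_two {n : ℕ} (hn : 2 ≤ n) : 2 ^ (n - 1) ∣ (2 ^ n).choose 2 := by
  rw [Nat.choose_two_right]
  have h0 : 2 ^ n = 2 * 2 ^ (n - 1) := by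
    rw [← pow_succ']; congr 1; omega
  have h1 : 2 ^ n * (2 ^ n - 1) = 2 * (2 ^ (n - 1) * (2 ^ n - 1)) := by
    calc 2 ^ n * (2 ^ n - 1) = (2 * 2 ^ (n - 1)) * (2 ^ n - 1) := by rw [← h0]
      _ = 2 * (2 ^ (n - 1) * (2 ^ n - 1)) := by ring
  rw [h1, Nat.mul_div_cancel_left _ (by norm_num : 0 < 2)]
  exact Dvd.intro _ rfl

theorem hexp_holds {P : Type*} [Group P] [Finite P] {p : ℕ} [hp : Fact p.Prime] (n : ℕ)
    (hn : p ^ n ≠ 2) (A : Subgroup P) [hA : A.Normal] (hAe : ∀ a ∈ A, a ^ p ^ n = 1)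
    (y : P) (N₁ : Subgroup P) (hyC : y ∈ Subgroup.centralizer (A : Set P)) (hyA : y ∉ A)
    (hyq : y ^ p ^ n = 1) (hyN : y ∈ N₁)
    (hcomm : ∀ n ∈ N₁, ∀ m ∈ N₁, ⁅n * y * n⁻¹, m * y * m⁻¹⁆ ∈ A) :
    ∃ D : Subgroup P, D ≤ Subgroup.centralizer (A : Set P) ∧ D ≤ N₁ ∧
        N₁ ≤ Subgroup.normalizer (D : Set P) ∧ ¬ D ≤ A ∧ ∀ d ∈ D, d ^ p ^ n = 1 := by
  classical
  have hCn : (Subgroup.centralizer (A : Set P)).Normal := inferInstance
  have hfam : ∀ z : P, z ∈ Subgroup.centralizer (A : Set P) → z ∈ N₁ →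
      Subgroup.closure {u | ∃ n ∈ N₁, u = n * z * n⁻¹} ≤ Subgroup.centralizer (A : Set P) ∧
      Subgroup.closure {u | ∃ n ∈ N₁, u = n * z * n⁻¹} ≤ N₁ ∧
      N₁ ≤ Subgroup.normalizer (Subgroup.closure {u | ∃ n ∈ N₁, u = n * z * n⁻¹} : Set P) ∧
      z ∈ Subgroup.closure {u | ∃ n ∈ N₁, u = n * z * n⁻¹} := by
    intro z hzC hzN
    refine ⟨?_, ?_, ?_, ?_⟩
    · rw [Subgroup.closure_le]; rintro _ ⟨n, hn, rfl⟩; exact hCn.conj_mem z hzC n
    · rw [Subgroup.closure_le]; rintro _ ⟨n, hn, rfl⟩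
      exact N₁.mul_mem (N₁.mul_mem hn hzN) (N₁.inv_mem hn)
    · intro n hn
      apply Cfsg.Agent.Lib.Helper10.Coprime.mem_normalizer_of_conj_mem
      intro s hs
      have h1 : (Subgroup.closure {u | ∃ n ∈ N₁, u = n * z * n⁻¹}).map
          (MulAut.conj n).toMonoidHom ≤ Subgroup.closure {u | ∃ n ∈ N₁, u = n * z * n⁻¹} := by
        rw [MonoidHom.map_closure, Subgroup.closure_le]
        rintro _ ⟨_, ⟨m, hm, rfl⟩, rfl⟩
        apply Subgroup.subset_closure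
        refine ⟨n * m, N₁.mul_mem hn hm, ?_⟩
        simp only [MulEquiv.coe_toMonoidHom, MulAut.conj_apply]; group
      exact h1 ⟨s, hs, rfl⟩
    · exact Subgroup.subset_closure ⟨1, N₁.one_mem, by group⟩
  obtain ⟨hD1, hDle, hDN, hyD⟩ := hfam y hyC hyN
  set U : Set P := {u | ∃ n ∈ N₁, u = n * y * n⁻¹} with hU
  have hD2 : ∀ h ∈ Subgroup.closure U, ∀ v ∈ U, ⁅h, v⁆ ∈ A := by
    rintro h hh _ ⟨m, hm, rfl⟩
    have : Subgroup.closure U ≤ stab A (m * y * m⁻¹) := by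
      rw [Subgroup.closure_le]
      rintro _ ⟨n, hn, rfl⟩
      exact hcomm n hn m hm
    exact this hh
  have hDD : ∀ d ∈ Subgroup.closure U, ∀ d' ∈ Subgroup.closure U, ⁅d, d'⁆ ∈ A := by
    intro d hd d' hd'
    have : Subgroup.closure U ≤ stab A d' := by
      rw [Subgroup.closure_le]
      intro v hv
      show ⁅v, d'⁆ ∈ A
      rw [← commutatorElement_inv]
      exact A.inv_mem (hD2 d' hd' v hv)
    exact this hd
  have hUq : ∀ v ∈ U, v ^ p ^ n = 1 := by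
    rintro _ ⟨m, hm, rfl⟩
    rw [conj_pow, hyq, mul_one, mul_inv_cancel]
  have hcen : ∀ a ∈ A, ∀ d ∈ Subgroup.closure U, a * d = d * a := fun a ha d hd =>
    (Subgroup.mem_centralizer_iff.1 (hD1 hd)) a ha
  have hsq : ∀ v ∈ Subgroup.closure U, ∀ e ∈ Subgroup.closure U, ⁅v ^ 2, e⁆ = ⁅v, e⁆ ^ 2 := by
    intro v hv e he
    have e1 : ⁅v ^ 2, e⁆ = v * ⁅v, e⁆ * v⁻¹ * ⁅v, e⁆ := by
      simp only [commutatorElement_def, pow_two]; group
    have e2 : v * ⁅v, e⁆ * v⁻¹ = ⁅v, e⁆ := by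
      rw [← hcen _ (hDD v hv e he) v hv, mul_assoc, mul_inv_cancel, mul_one]
    rw [e1, e2, pow_two]
  by_cases hp2 : p = 2
  · subst hp2
    have hn2 : 2 ≤ n := by
      rcases n with _ | _ | n
      · exfalso; apply hyA; rw [pow_zero, pow_one] at hyq; rw [hyq]; exact A.one_mem
      · exact absurd (pow_one 2) hn
      · omega
    by_cases hy2 : y ^ 2 ∈ A
    · refine ⟨Subgroup.closure U, hD1, hDle, hDN, fun h => hyA (h hyD), ?_⟩
      apply exp_of_gens A (Subgroup.closure U) hD1 hDD U Subgroup.subset_closure (2 ^ n) 2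
        ((dvd_pow_self 2 (by omega : n - 1 ≠ 0)).trans (choose_dvd_two hn2)) hUq
      intro v hv e he
      rw [← hsq v (Subgroup.subset_closure hv) e he]
      obtain ⟨m, hm, rfl⟩ := hv
      have hv2 : (m * y * m⁻¹) ^ 2 ∈ A := by
        rw [conj_pow]; exact hA.conj_mem _ hy2 m
      exact commutatorElement_eq_one_iff_mul_comm.2 (hcen _ hv2 e he)
    · obtain ⟨hE1, hEle, hEN, hyE⟩ := hfam (y ^ 2) (Subgroup.pow_mem _ hyC 2) (N₁.pow_mem hyN 2)
      have hVD : {u | ∃ n ∈ N₁, u = n * y ^ 2 * n⁻¹} ⊆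
          ((Subgroup.closure U : Subgroup P) : Set P) := by
        rintro _ ⟨m, hm, rfl⟩
        rw [← conj_pow]
        exact Subgroup.pow_mem _ (Subgroup.subset_closure (show m * y * m⁻¹ ∈ U from ⟨m, hm, rfl⟩)) 2
      refine ⟨_, hE1, hEle, hEN, fun h => hy2 (h hyE), ?_⟩
      apply exp_of_gens A (Subgroup.closure U) hD1 hDD _ hVD (2 ^ n) (2 ^ (n - 1))
        (choose_dvd_two hn2)
      · rintro _ ⟨m, hm, rfl⟩
        rw [conj_pow, ← pow_mul, mul_comm, pow_mul, hyq, one_pow, mul_one, mul_inv_cancel]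
      · rintro _ ⟨m, hm, rfl⟩ e he
        have hmU : m * y * m⁻¹ ∈ U := ⟨m, hm, rfl⟩
        rw [← conj_pow, hsq _ (Subgroup.subset_closure hmU) e he, ← pow_mul,
          ← pow_succ', show n - 1 + 1 = n by omega]
        exact hAe _ (hDD _ (Subgroup.subset_closure hmU) e he)
  · refine ⟨Subgroup.closure U, hD1, hDle, hDN, fun h => hyA (h hyD), ?_⟩
    apply exp_of_gens A (Subgroup.closure U) hD1 hDD U Subgroup.subset_closure (p ^ n) (p ^ n)
      (choose_dvd_odd hp.out hp2) hUq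
    intro v hv e he
    exact hAe _ (hDD v (Subgroup.subset_closure hv) e he)

/-- If A is maximal among the normal abelian subgroups of exponent dividing p^n of a p-group (p^n ≠ 2), then A contains every element of order dividing p^n in its centralizer. -/
theorem result {G : Type*} [Group G] [Finite G] {p : ℕ} [Fact p.Prime] (hG : IsPGroup p G) (n : ℕ) (hn : p ^ n ≠ 2) (A : Subgroup G) [A.Normal] (hA : IsMulCommutative A) (hAe : ∀ a ∈ A, a ^ p ^ n = 1) (hmax : ∀ B : Subgroup G, B.Normal → IsMulCommutative B → (∀ b ∈ B, b ^ p ^ n = 1) → A ≤ B → B = A) (x : G) (hx : x ∈ Subgroup.centralizer (A : Set G)) (hxn : x ^ p ^ n = 1) : x ∈ A := by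
  by_contra hxA
  have hAab : A ≤ Subgroup.centralizer (A : Set G) :=
    Subgroup.le_centralizer_iff_isMulCommutative.2 hA
  obtain ⟨y, hyC, hyA, hyp, hyc⟩ := key_core hG A (p ^ n)
    (fun y N₁ h1 h2 h3 h4 h5 => hexp_holds n hn A hAe y N₁ h1 h2 h3 h4 h5) x hx hxA hxn
  have hyy : Subgroup.zpowers y ≤ Subgroup.centralizer (Subgroup.zpowers y : Set G) := by
    rw [Subgroup.zpowers_le, Subgroup.mem_centralizer_iff]
    intro h hh
    obtain ⟨k, rfl⟩ := Subgroup.mem_zpowers_iff.1 hh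
    exact ((Commute.refl y).zpow_left k).eq
  have hyA' : Subgroup.zpowers y ≤ Subgroup.centralizer (A : Set G) := by
    rwa [Subgroup.zpowers_le]
  have hB := hmax (A ⊔ Subgroup.zpowers y) (normal_sup_zpowers A y (fun g => by
      rw [← commutatorElement_inv]; exact A.inv_mem (hyc g))) ?_ ?_ le_sup_left
  · exact hyA (hB ▸ (le_sup_right : Subgroup.zpowers y ≤ A ⊔ Subgroup.zpowers y)
      (Subgroup.mem_zpowers y))
  · rw [← Subgroup.le_centralizer_iff_isMulCommutative]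
    apply sup_le
    · rw [Subgroup.le_centralizer_iff]
      exact sup_le hAab hyA'
    · rw [Subgroup.le_centralizer_iff]
      exact sup_le (Subgroup.le_centralizer_iff.1 hyA') hyy
  · intro b hb
    have hb' : b ∈ ((A ⊔ Subgroup.zpowers y : Subgroup G) : Set G) := hb
    rw [Subgroup.normal_mul] at hb'
    obtain ⟨a, ha, c, hc, rfl⟩ := Set.mem_mul.1 hb'
    have hcomm : Commute a c := ((Subgroup.mem_centralizer_iff.1 (hyA' hc)) a ha)
    obtain ⟨k, rfl⟩ := Subgroup.mem_zpowers_iff.1 hc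
    rw [hcomm.mul_pow, hAe a ha, one_mul, ← zpow_natCast, ← zpow_mul, mul_comm, zpow_mul,
      zpow_natCast, hyp, one_zpow]

end Cfsg.Agent.S0130
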