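import Cfsg.Statements.S0154
import Cfsg.Agent.Lib.Helper1.CharReg

set_option autoImplicit false
open Cfsg

namespace Cfsg.Agent.S0154

/-- A finite group has exactly as many irreducible complex characters of degree 1 as the index of its commutator subgroup. -/
theorem result {G : Type*} [Group G] [Finite G] : Nat.card {χ : Cfsg.IrrCharacter G // (χ : G → ℂ) 1 = 1} = (commutator G).index := by
  classical
  have hex : Monoid.exponent (Abelianization G) ≠ 0 := Monoid.exponent_ne_zero_of_finite
  have : NeZero ((Monoid.exponent (Abelianization G) : ℕ) : ℂ) := ⟨by exact_mod_cast hex⟩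
  have h1 : Nat.card (Abelianization G →* ℂˣ) = Nat.card (Abelianization G) :=
    CommGroup.card_monoidHom_of_hasEnoughRootsOfUnity (Abelianization G) ℂ
  have h2 : Nat.card (G →* ℂˣ) = Nat.card (Abelianization G →* ℂˣ) :=
    Nat.card_congr Abelianization.lift
  have h3 : Nat.card (Abelianization G) = (commutator G).index := rfl
  rw [← h3, ← h1, ← h2]
  symm
  let F : (G →* ℂˣ) → {χ : Cfsg.IrrCharacter G // (χ : G → ℂ) 1 = 1} := fun lam =>
    ⟨⟨fun g => ((lam g : ℂˣ) : ℂ), Cfsg.Agent.Lib.Helper1.isIrrCharacter_of_monoidHom lam⟩, by simp⟩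
  apply Nat.card_congr (Equiv.ofBijective F ⟨?_, ?_⟩)
  · intro a b hab
    ext g
    have := congrFun (congrArg (fun x : {χ : Cfsg.IrrCharacter G // (χ : G → ℂ) 1 = 1} =>
      ((x : Cfsg.IrrCharacter G) : G → ℂ)) hab) g
    exact this
  · rintro ⟨⟨χ, hχ⟩, h1⟩
    obtain ⟨lam, hlam⟩ := Cfsg.Agent.Lib.Helper1.IsIrrCharacter.exists_monoidHom hχ h1
    refine ⟨lam, ?_⟩
    apply Subtype.ext
    apply Subtype.ext
    funext g
    exact (hlam g).symm

end Cfsg.Agent.S0154
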