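import Cfsg.Statements.S0158
import Cfsg.Agent.Lib.Helper1.CharSchur

set_option autoImplicit false
open Cfsg

namespace Cfsg.Agent.S0158

open scoped ComplexConjugate
open Cfsg.Agent.Lib.Helper1

section aux

variable {G : Type*} [Group G] [Fintype G] {ι : Type*} [Fintype ι] [DecidableEq ι]

/-- averaging operator on bilinear forms (as matrices). -/
noncomputable def avg (M : G → Matrix ι ι ℂ) (X : Matrix ι ι ℂ) : Matrix ι ι ℂ :=
  (Nat.card G : ℂ)⁻¹ • ∑ g : G, M g * X * (M g).transpose

theorem avg_inv (M : G → Matrix ι ι ℂ) (hM : ∀ g h, M (g * h) = M g * M h) (X : Matrix ι ι ℂ)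
    (h : G) : M h * avg M X * (M h).transpose = avg M X := by
  unfold avg
  rw [Matrix.mul_smul, Matrix.smul_mul, Matrix.mul_sum, Matrix.sum_mul]
  congr 1
  rw [← Equiv.sum_comp (Equiv.mulLeft h) (fun g => M g * X * (M g).transpose)]
  refine Finset.sum_congr rfl fun g _ => ?_
  simp only [Equiv.coe_mulLeft, hM, Matrix.transpose_mul, Matrix.mul_assoc]

theorem avg_transpose (M : G → Matrix ι ι ℂ) (X : Matrix ι ι ℂ) :
    (avg M X).transpose = avg M X.transpose := by
  unfold avg
  rw [Matrix.transpose_smul, Matrix.transpose_sum]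
  congr 1
  refine Finset.sum_congr rfl fun g _ => ?_
  simp only [Matrix.transpose_mul, Matrix.transpose_transpose, Matrix.mul_assoc]

theorem avg_single_apply (M : G → Matrix ι ι ℂ) (k l i j : ι) :
    avg M (Matrix.single k l 1) i j = (Nat.card G : ℂ)⁻¹ * ∑ g : G, M g i k * M g j l := by
  unfold avg
  rw [Matrix.smul_apply, Matrix.sum_apply, smul_eq_mul]
  congr 1
  refine Finset.sum_congr rfl fun g _ => ?_
  rw [Matrix.mul_apply]
  simp only [Matrix.mul_apply, Matrix.single_apply, Matrix.transpose_apply, ite_and, mul_ite, mul_one, mul_zero,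
    Finset.sum_ite_eq, Finset.mem_univ, if_true, ite_mul, zero_mul]


end aux

theorem main {G : Type*} [Group G] [Fintype G] {V : Type*} [AddCommGroup V] [Module ℂ V]
    [FiniteDimensional ℂ V] (ρ : Representation ℂ G V) [ρ.IsIrreducible] :
    ((Nat.card G : ℂ)⁻¹ * ∑ s : G, ρ.character (s * s) = 0 ∨
      (Nat.card G : ℂ)⁻¹ * ∑ s : G, ρ.character (s * s) = 1 ∨
      (Nat.card G : ℂ)⁻¹ * ∑ s : G, ρ.character (s * s) = -1) ∧
    ((Nat.card G : ℂ)⁻¹ * ∑ s : G, ρ.character (s * s) = 0 ↔ ∃ s : G, (ρ.character s).im ≠ 0) := by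
  classical
  set ν := (Nat.card G : ℂ)⁻¹ * ∑ s : G, ρ.character (s * s) with hν
  let b := Module.finBasis ℂ V
  let M : G → Matrix (Fin (Module.finrank ℂ V)) (Fin (Module.finrank ℂ V)) ℂ :=
    fun g => LinearMap.toMatrix b b (ρ g)
  have hM : ∀ g h, M (g * h) = M g * M h := by
    intro g h
    show LinearMap.toMatrix b b (ρ (g * h)) = _
    rw [map_mul, LinearMap.toMatrix_mul]
  have hM1 : M 1 = 1 := by
    show LinearMap.toMatrix b b (ρ 1) = 1
    rw [map_one, LinearMap.toMatrix_one]
  have hρM : ∀ g, ρ g = Matrix.toLin b b (M g) := fun g => (Matrix.toLin_toMatrix b b (ρ g)).symm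
  have hχ : ∀ g, ρ.character g = (M g).trace := by
    intro g
    rw [character_apply]
    exact LinearMap.trace_eq_matrix_trace ℂ b (ρ g)
  -- the two sums
  have hνsum : ν = ∑ i, ∑ j, avg M (Matrix.single j i 1) i j := by
    simp only [avg_single_apply]
    rw [hν]
    simp only [← Finset.mul_sum]
    congr 1
    rw [Finset.sum_comm]
    conv_rhs => enter [2, j]; rw [Finset.sum_comm]
    rw [Finset.sum_comm]
    refine Finset.sum_congr rfl fun g _ => ?_
    rw [hχ, hM, Matrix.trace]
    simp only [Matrix.diag_apply, Matrix.mul_apply]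
    rw [Finset.sum_comm]
  set r := ∑ i, ∑ j, avg M (Matrix.single i j 1) i j with hr
  have hrsum : r = (Nat.card G : ℂ)⁻¹ * ∑ g : G, ρ.character g * ρ.character g := by
    rw [hr]
    simp only [avg_single_apply]
    simp only [← Finset.mul_sum]
    congr 1
    rw [Finset.sum_comm]
    conv_lhs => enter [2, j]; rw [Finset.sum_comm]
    rw [Finset.sum_comm]
    refine Finset.sum_congr rfl fun g _ => ?_
    rw [hχ, Matrix.trace]
    simp only [Matrix.diag_apply]
    rw [Finset.sum_mul_sum]
    rw [Finset.sum_comm]
  have hreal : (∀ s : G, (ρ.character s).im = 0) → r = 1 := by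
    intro hre
    rw [hrsum]
    have h1 := classInner_irr_rep ρ ρ
    rw [if_pos rfl] at h1
    rw [← h1]
    unfold Cfsg.classInner
    congr 1
    refine Finset.sum_congr rfl fun g _ => ?_
    congr 1
    exact (Complex.conj_eq_iff_im.mpr (hre g)).symm
  by_cases hall : ∀ k l, avg M (Matrix.single k l 1) = 0
  · -- no invariant form
    have hν0 : ν = 0 := by
      rw [hνsum]
      simp [hall]
    have hr0 : r = 0 := by
      rw [hr]
      simp [hall]
    refine ⟨Or.inl hν0, fun _ => ?_, fun _ => hν0⟩
    by_contra hcon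
    push_neg at hcon
    have := hreal hcon
    rw [hr0] at this
    exact zero_ne_one this
  · push_neg at hall
    obtain ⟨k, l, hX0⟩ := hall
    set X0 := avg M (Matrix.single k l 1) with hX0def
    have hinv0 : ∀ h, M h * X0 * (M h).transpose = X0 := fun h => avg_inv M hM _ h
    -- reformulation of invariance
    have hMinv : ∀ h, (M h).transpose * (M h⁻¹).transpose = 1 := by
      intro h
      rw [← Matrix.transpose_mul, ← hM, inv_mul_cancel, hM1, Matrix.transpose_one]
    have hMinv' : ∀ h, (M h⁻¹).transpose * (M h).transpose = 1 := by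
      intro h
      rw [← Matrix.transpose_mul, ← hM, mul_inv_cancel, hM1, Matrix.transpose_one]
    have hsw : ∀ Y : Matrix _ _ ℂ, (∀ h, M h * Y * (M h).transpose = Y) →
        ∀ h, M h * Y = Y * (M h⁻¹).transpose := by
      intro Y hY h
      calc M h * Y = M h * Y * ((M h).transpose * (M h⁻¹).transpose) := by
            rw [hMinv, Matrix.mul_one]
        _ = (M h * Y * (M h).transpose) * (M h⁻¹).transpose := by
            simp only [Matrix.mul_assoc]
        _ = Y * (M h⁻¹).transpose := by rw [hY]
    -- X0 is invertible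
    have hunit : IsUnit X0 := by
      let W0 : Subrepresentation ρ :=
        { toSubmodule := LinearMap.range (Matrix.toLin b b X0)
          apply_mem_toSubmodule := by
            rintro g v ⟨w, rfl⟩
            refine ⟨Matrix.toLin b b (M g⁻¹).transpose w, ?_⟩
            rw [hρM g, ← LinearMap.comp_apply, ← LinearMap.comp_apply, ← Matrix.toLin_mul,
              ← Matrix.toLin_mul, hsw X0 hinv0 g] }
      rcases eq_bot_or_eq_top W0 with h | h
      · exfalso
        apply hX0
        have h1 : LinearMap.range (Matrix.toLin b b X0) = ⊥ := by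
          have := congrArg Subrepresentation.toSubmodule h
          exact this
        rw [LinearMap.range_eq_bot] at h1
        have h2 := congrArg (LinearMap.toMatrix b b) h1
        rw [LinearMap.toMatrix_toLin, map_zero] at h2
        exact h2
      · have h1 : LinearMap.range (Matrix.toLin b b X0) = ⊤ := by
          have := congrArg Subrepresentation.toSubmodule h
          exact this
        rw [LinearMap.range_eq_top] at h1
        have h2 : Function.Injective (Matrix.toLin b b X0) :=
          LinearMap.injective_iff_surjective.mpr h1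
        let e := LinearEquiv.ofBijective (Matrix.toLin b b X0) ⟨h2, h1⟩
        have he : (e : V →ₗ[ℂ] V) = Matrix.toLin b b X0 := rfl
        refine IsUnit.of_mul_eq_one (LinearMap.toMatrix b b (e.symm : V →ₗ[ℂ] V)) ?_
        have h3 : X0 = LinearMap.toMatrix b b (e : V →ₗ[ℂ] V) := by
          rw [he, LinearMap.toMatrix_toLin]
        rw [h3, ← LinearMap.toMatrix_mul]
        have : (e : V →ₗ[ℂ] V) * (e.symm : V →ₗ[ℂ] V) = 1 := by
          ext v
          simp
        rw [this, LinearMap.toMatrix_one]
    obtain ⟨u, hu⟩ := hunit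
    set Xi : Matrix _ _ ℂ := Units.val u⁻¹ with hXi
    have hXi1 : X0 * Xi = 1 := by rw [← hu]; exact u.mul_inv
    have hXi2 : Xi * X0 = 1 := by rw [← hu]; exact u.inv_mul
    -- every invariant form is a multiple of X0
    have hmult : ∀ Y : Matrix _ _ ℂ, (∀ h, M h * Y * (M h).transpose = Y) →
        ∃ c : ℂ, Y = c • X0 := by
      intro Y hY
      have hcomm : ∀ h, (Y * Xi) * M h = M h * (Y * Xi) := by
        intro h
        have e1 : Xi * M h = (M h⁻¹).transpose * Xi := by
          calc Xi * M h = Xi * M h * (X0 * Xi) := by rw [hXi1, Matrix.mul_one]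
            _ = Xi * (M h * X0) * Xi := by simp only [Matrix.mul_assoc]
            _ = Xi * (X0 * (M h⁻¹).transpose) * Xi := by rw [hsw X0 hinv0 h]
            _ = (Xi * X0) * (M h⁻¹).transpose * Xi := by simp only [Matrix.mul_assoc]
            _ = (M h⁻¹).transpose * Xi := by rw [hXi2, Matrix.one_mul]
        calc (Y * Xi) * M h = Y * (Xi * M h) := by rw [Matrix.mul_assoc]
          _ = Y * ((M h⁻¹).transpose * Xi) := by rw [e1]
          _ = (Y * (M h⁻¹).transpose) * Xi := by rw [Matrix.mul_assoc]
          _ = (M h * Y) * Xi := by rw [hsw Y hY h]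
          _ = M h * (Y * Xi) := by rw [Matrix.mul_assoc]
      have hs := schur_scalar ρ (Matrix.toLin b b (Y * Xi)) (by
        intro h
        rw [hρM h, ← Matrix.toLin_mul, ← Matrix.toLin_mul, hcomm h])
      set c := LinearMap.trace ℂ V (Matrix.toLin b b (Y * Xi)) / (Module.finrank ℂ V : ℂ) with hc
      refine ⟨c, ?_⟩
      have h2 := congrArg (LinearMap.toMatrix b b) hs
      rw [LinearMap.toMatrix_toLin, map_smul, LinearMap.toMatrix_id] at h2
      calc Y = Y * (Xi * X0) := by rw [hXi2, Matrix.mul_one]
        _ = (Y * Xi) * X0 := by rw [Matrix.mul_assoc]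
        _ = (c • (1 : Matrix _ _ ℂ)) * X0 := by rw [h2]
        _ = c • X0 := by rw [Matrix.smul_mul, Matrix.one_mul]
    -- transposition acts by a sign
    have hinvT : ∀ Y : Matrix _ _ ℂ, (∀ h, M h * Y * (M h).transpose = Y) →
        ∀ h, M h * Y.transpose * (M h).transpose = Y.transpose := by
      intro Y hY h
      have := congrArg Matrix.transpose (hY h)
      rw [Matrix.transpose_mul, Matrix.transpose_mul, Matrix.transpose_transpose,
        ← Matrix.mul_assoc] at this
      exact this
    obtain ⟨ε, hε⟩ := hmult X0.transpose (hinvT X0 hinv0)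
    have hε2 : ε * ε = 1 := by
      have h1 : X0 = (ε * ε) • X0 := by
        have := congrArg Matrix.transpose hε
        rw [Matrix.transpose_transpose, Matrix.transpose_smul, hε, smul_smul] at this
        exact this
      by_contra hne
      apply hX0
      have h2 : (1 - ε * ε) • X0 = 0 := by
        rw [sub_smul, one_smul, ← h1, sub_self]
      rcases smul_eq_zero.mp h2 with h3 | h3
      · exact absurd (sub_eq_zero.mp h3).symm hne
      · exact h3
    have hεpm : ε = 1 ∨ ε = -1 := by
      have : (ε - 1) * (ε + 1) = 0 := by ring_nf; rw [sq, hε2]; ring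
      rcases mul_eq_zero.mp this with h | h
      · exact Or.inl (sub_eq_zero.mp h)
      · exact Or.inr (eq_neg_of_add_eq_zero_left h)
    have hTall : ∀ Y : Matrix _ _ ℂ, (∀ h, M h * Y * (M h).transpose = Y) →
        Y.transpose = ε • Y := by
      intro Y hY
      obtain ⟨c, rfl⟩ := hmult Y hY
      rw [Matrix.transpose_smul, hε, smul_smul, smul_smul, mul_comm]
    have hνr : ν = ε * r := by
      rw [hνsum, hr, Finset.mul_sum]
      refine Finset.sum_congr rfl fun i _ => ?_
      rw [Finset.mul_sum]
      refine Finset.sum_congr rfl fun j _ => ?_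
      have h1 := hTall (avg M (Matrix.single i j 1)) (fun h => avg_inv M hM _ h)
      rw [avg_transpose, Matrix.transpose_single] at h1
      rw [h1, Matrix.smul_apply, smul_eq_mul]
    -- χ is real
    have hre : ∀ s : G, (ρ.character s).im = 0 := by
      intro s
      have h1 : ρ.character s⁻¹ = ρ.character s := by
        rw [hχ, hχ]
        have e1 : (M s⁻¹).transpose = Xi * M s * X0 := by
          calc (M s⁻¹).transpose = (Xi * X0) * (M s⁻¹).transpose := by
                rw [hXi2, Matrix.one_mul]
            _ = Xi * (X0 * (M s⁻¹).transpose) := by rw [Matrix.mul_assoc]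
            _ = Xi * (M s * X0) := by rw [hsw X0 hinv0 s]
            _ = Xi * M s * X0 := by rw [Matrix.mul_assoc]
        rw [← Matrix.trace_transpose, e1, Matrix.trace_mul_cycle, hXi1, Matrix.one_mul]
      rw [char_inv] at h1
      exact Complex.conj_eq_iff_im.mp h1
    have hr1 := hreal hre
    rw [hr1, mul_one] at hνr
    have hν0 : ν ≠ 0 := by
      rw [hνr]
      rcases hεpm with h | h <;> rw [h] <;> norm_num
    refine ⟨?_, fun h => absurd h hν0, fun ⟨s, hs⟩ => absurd (hre s) hs⟩
    rcases hεpm with h | h
    · exact Or.inr (Or.inl (by rw [hνr, h]))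
    · exact Or.inr (Or.inr (by rw [hνr, h]))

/-- The Frobenius–Schur indicator of an irreducible complex representation of a finite group — the average over s of the character at s * s — is 0, 1 or −1, and it vanishes exactly when some character value is not real. -/
theorem result {G : Type*} [Group G] [Fintype G] {V : Type*} [AddCommGroup V] [Module ℂ V] [FiniteDimensional ℂ V] (ρ : Representation ℂ G V) [ρ.IsIrreducible] : ((Nat.card G : ℂ)⁻¹ * ∑ s : G, ρ.character (s * s) = 0 ∨ (Nat.card G : ℂ)⁻¹ * ∑ s : G, ρ.character (s * s) = 1 ∨ (Nat.card G : ℂ)⁻¹ * ∑ s : G, ρ.character (s * s) = -1) ∧ ((Nat.card G : ℂ)⁻¹ * ∑ s : G, ρ.character (s * s) = 0 ↔ ∃ s : G, (ρ.character s).im ≠ 0) := by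
  exact main ρ

end Cfsg.Agent.S0158
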