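import Cfsg.Statements.S0159
import Cfsg.Agent.Lib.Helper1.CharReal

set_option autoImplicit false
open Cfsg

namespace Cfsg.Agent.S0159

/-- The number of solutions of s * s = 1 in a finite group equals the sum, over the irreducible characters χ, of (the average over s of χ (s * s)) times χ 1. -/
theorem result {G : Type*} [Group G] [Fintype G] : (Nat.card {s : G // s * s = 1} : ℂ) = ∑ᶠ χ : Cfsg.IrrCharacter G, ((Nat.card G : ℂ)⁻¹ * ∑ s : G, (χ : G → ℂ) (s * s)) * (χ : G → ℂ) 1 := by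
  classical
  have hirr : Fintype (Cfsg.IrrCharacter G) := Cfsg.Agent.Lib.Helper1.irrFintype
  rw [finsum_eq_sum_of_fintype]
  have hne : (Nat.card G : ℂ) ≠ 0 := by
    have := Nat.card_pos (α := G)
    exact_mod_cast this.ne'
  have hreg : ∀ g : G, ∑ χ : Cfsg.IrrCharacter G, (χ : G → ℂ) g * (χ : G → ℂ) 1 =
      if g = 1 then (Nat.card G : ℂ) else 0 := by
    intro g
    have h := congrFun (Cfsg.Agent.Lib.Helper1.leftRegular_char_eq (G := G)) g
    rw [Cfsg.Agent.Lib.Helper1.char_leftRegular] at h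
    rw [h, Finset.sum_apply]
    refine Finset.sum_congr rfl (fun χ _ => ?_)
    simp [mul_comm]
  have h1 : ∑ χ : Cfsg.IrrCharacter G, ((Nat.card G : ℂ)⁻¹ * ∑ s : G, (χ : G → ℂ) (s * s)) * (χ : G → ℂ) 1 =
      (Nat.card G : ℂ)⁻¹ * ∑ s : G, ∑ χ : Cfsg.IrrCharacter G, (χ : G → ℂ) (s * s) * (χ : G → ℂ) 1 := by
    rw [Finset.sum_comm, Finset.mul_sum]
    refine Finset.sum_congr rfl (fun χ _ => ?_)
    rw [mul_assoc, Finset.sum_mul]
  rw [h1]
  simp only [hreg]
  rw [Finset.sum_ite, Finset.sum_const_zero, add_zero, Finset.sum_const, nsmul_eq_mul,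
    Nat.card_eq_fintype_card (α := {s : G // s * s = 1}), Fintype.card_subtype]
  field_simp

end Cfsg.Agent.S0159
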