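import Cfsg.Statements.S0162
import Cfsg.Agent.Lib.Helper1.CharReal

set_option autoImplicit false
open Cfsg

namespace Cfsg.Agent.S0162

/-- If a finite group has odd order, its order is congruent to its number of conjugacy classes modulo 16. -/
theorem result {G : Type*} [Group G] [Finite G] (hodd : Odd (Nat.card G)) : Nat.card G ≡ Nat.card (ConjClasses G) [MOD 16] := by
  have := Fintype.ofFinite G
  exact Cfsg.Agent.Lib.Helper1.card_modEq_card_conjClasses_of_odd hodd

end Cfsg.Agent.S0162
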