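import Mathlib
import Cfsg.Statements.S0198
import Cfsg.Agent.Lib.Helper10.Virt
import Cfsg.Agent.Lib.Helper1.CharDecomp
import Cfsg.Agent.Lib.Helper1.CharReg

set_option autoImplicit false
open Cfsg

namespace Cfsg.Agent.S0198

open Cfsg.Agent.Lib.Helper1 Cfsg.Agent.Lib.Helper10.Virt

theorem dich {G : Type*} [Group G] [Fintype G] {a b c d : G → ℂ}
    (ha : Cfsg.IsIrrCharacter G a) (hb : Cfsg.IsIrrCharacter G b)
    (hc : Cfsg.IsIrrCharacter G c) (hd : Cfsg.IsIrrCharacter G d)
    (hab : a ≠ b) (hcd : c ≠ d)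
    (h : Cfsg.classInner (a - b) (c - d) = 1) : (a = c ∧ b ≠ d) ∨ (b = d ∧ a ≠ c) := by
  classical
  rw [classInner_sub_left, classInner_sub_right, classInner_sub_right, classInner_irr ha hc,
    classInner_irr ha hd, classInner_irr hb hc, classInner_irr hb hd] at h
  by_cases h1 : a = c <;> by_cases h2 : b = d
  · exfalso
    subst h1 h2
    simp [hab, Ne.symm hab] at h
  · exact Or.inl ⟨h1, h2⟩
  · exact Or.inr ⟨h2, h1⟩
  · exfalso
    by_cases h3 : a = d <;> by_cases h4 : b = c <;> simp [h1, h2, h3, h4, hcd, Ne.symm hcd] at h <;> norm_num at h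

/-- The isometry lemma behind exceptional characters. Let τ be a family of generalized characters of a finite group G indexed by Fin n, with τ i₀ = 0, every τ i vanishing at the identity, and inner products ⟨τ i, τ j⟩ = 2 if i = j and 1 otherwise for i, j ≠ i₀. Then there are a sign ε and pairwise distinct irreducible characters μ i with τ i = ε (μ i − μ i₀) for all i. -/
theorem result {G : Type*} [Group G] [Fintype G] (n : ℕ) (i₀ : Fin n) (τ : Fin n → (G → ℂ)) (h0 : τ i₀ = 0) (hgen : ∀ i, Cfsg.IsGeneralizedCharacter G (τ i)) (hone : ∀ i, τ i 1 = 0) (hgram : ∀ i j, i ≠ i₀ → j ≠ i₀ → Cfsg.classInner (τ i) (τ j) = if i = j then 2 else 1) : ∃ ε : ℂ, (ε = 1 ∨ ε = -1) ∧ ∃ μ : Fin n → (G → ℂ), (∀ i, Cfsg.IsIrrCharacter G (μ i)) ∧ Function.Injective μ ∧ ∀ i, τ i = ε • (μ i - μ i₀) := by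
  classical
  have hdec : ∀ i, i ≠ i₀ → ∃ p : (G → ℂ) × (G → ℂ), Cfsg.IsIrrCharacter G p.1 ∧
      Cfsg.IsIrrCharacter G p.2 ∧ p.1 ≠ p.2 ∧ τ i = p.1 - p.2 := by
    intro i hi
    obtain ⟨ψ₁, ψ₂, h1, h2, h3, h4⟩ := norm_two_vanish (hgen i)
      (by rw [hgram i i hi hi, if_pos rfl]) (hone i)
    exact ⟨(ψ₁, ψ₂), h1, h2, h3, h4⟩
  choose! pn hP hN hPN hτ using hdec
  have hd : ∀ i j, i ≠ i₀ → j ≠ i₀ → i ≠ j →
      ((pn i).1 = (pn j).1 ∧ (pn i).2 ≠ (pn j).2) ∨
        ((pn i).2 = (pn j).2 ∧ (pn i).1 ≠ (pn j).1) := by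
    intro i j hi hj hij
    apply dich (hP i hi) (hN i hi) (hP j hj) (hN j hj) (hPN i hi) (hPN j hj)
    rw [← hτ i hi, ← hτ j hj, hgram i j hi hj, if_neg hij]
  have shape : ∃ (ε : ℂ) (c : G → ℂ) (M : Fin n → G → ℂ), (ε = 1 ∨ ε = -1) ∧
      Cfsg.IsIrrCharacter G c ∧
      (∀ i, i ≠ i₀ → Cfsg.IsIrrCharacter G (M i) ∧ M i ≠ c ∧ τ i = ε • (M i - c)) ∧
      (∀ i j, i ≠ i₀ → j ≠ i₀ → i ≠ j → M i ≠ M j) := by
    by_cases hall : ∀ i j, i ≠ i₀ → j ≠ i₀ → (pn i).2 = (pn j).2
    · by_cases hex : ∃ i₁, i₁ ≠ i₀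
      · obtain ⟨i₁, hi₁⟩ := hex
        refine ⟨1, (pn i₁).2, fun i => (pn i).1, Or.inl rfl, hN i₁ hi₁, ?_, ?_⟩
        · intro i hi
          refine ⟨hP i hi, ?_, ?_⟩
          · rw [← hall i i₁ hi hi₁]
            exact hPN i hi
          · rw [one_smul, ← hall i i₁ hi hi₁]
            exact hτ i hi
        · intro i j hi hj hij
          rcases hd i j hi hj hij with ⟨_, h2⟩ | ⟨_, h2⟩
          · exact absurd (hall i j hi hj) h2
          · exact h2
      · push Not at hex
        refine ⟨1, fun _ => 1, fun _ => 0, Or.inl rfl, isIrrCharacter_one, ?_, ?_⟩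
        · intro i hi
          exact absurd (hex i) hi
        · intro i j hi
          exact absurd (hex i) hi
    · push Not at hall
      obtain ⟨i, j, hi, hj, hNij⟩ := hall
      have hij : i ≠ j := by
        rintro rfl
        exact hNij rfl
      have hPij : (pn i).1 = (pn j).1 := by
        rcases hd i j hi hj hij with ⟨h1, _⟩ | ⟨h1, _⟩
        · exact h1
        · exact absurd h1 hNij
      have hPk : ∀ k, k ≠ i₀ → (pn k).1 = (pn i).1 := by
        intro k hk
        by_cases hki : k = i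
        · rw [hki]
        by_cases hkj : k = j
        · rw [hkj, hPij]
        rcases hd k i hk hi hki with ⟨h1, _⟩ | ⟨h1, _⟩
        · exact h1
        · rcases hd k j hk hj hkj with ⟨h2, _⟩ | ⟨h2, _⟩
          · rw [h2, hPij]
          · exact absurd (h1.symm.trans h2) hNij
      refine ⟨-1, (pn i).1, fun k => (pn k).2, Or.inr rfl, hP i hi, ?_, ?_⟩
      · intro k hk
        refine ⟨hN k hk, ?_, ?_⟩
        · rw [← hPk k hk]
          exact (hPN k hk).symm
        · rw [← hPk k hk, hτ k hk]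
          simp
      · intro k l hk hl hkl
        rcases hd k l hk hl hkl with ⟨_, h2⟩ | ⟨_, h2⟩
        · exact h2
        · exact absurd ((hPk k hk).trans (hPk l hl).symm) h2
  obtain ⟨ε, c, M, hε, hc, hM, hMinj⟩ := shape
  refine ⟨ε, hε, fun i => if i = i₀ then c else M i, ?_, ?_, ?_⟩
  · intro i
    by_cases hi : i = i₀
    · simp only [hi, if_true]
      exact hc
    · simp only [hi, if_false]
      exact (hM i hi).1
  · intro i j hij
    by_contra hne
    by_cases hi : i = i₀ <;> by_cases hj : j = i₀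
    · exact hne (hi.trans hj.symm)
    · simp only [hi, hj, if_true, if_false] at hij
      exact (hM j hj).2.1 hij.symm
    · simp only [hi, hj, if_true, if_false] at hij
      exact (hM i hi).2.1 hij
    · simp only [hi, hj, if_false] at hij
      exact hMinj i j hi hj hne hij
  · intro i
    by_cases hi : i = i₀
    · subst hi
      simp [h0]
    · simp only [hi, if_false, if_true]
      exact (hM i hi).2.2

end Cfsg.Agent.S0198
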