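import Cfsg.Statements.S0170
import Cfsg.Agent.S0198
import Cfsg.Agent.Lib.Helper1.CharInduction
open Cfsg.Agent.Lib.Helper1

set_option autoImplicit false
open Cfsg

namespace Cfsg.Agent.S0170

/-- Exceptional characters. Let S be a subset of a finite group contained in its normalizer N and meeting its conjugates by elements outside N only in the identity. Given n ≥ 2 distinct irreducible characters of N of equal degree that vanish on N away from S, there exist a sign ε and n distinct irreducible characters θ_i of G such that inducing χ_i − χ_j to G gives ε (θ_i − θ_j) for all i, j. -/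
theorem result {G : Type*} [Group G] [Fintype G] (S : Set G) (hSN : S ⊆ Subgroup.normalizer S) (hTI : ∀ g : G, g ∉ Subgroup.normalizer S → ∀ s ∈ S, g * s * g⁻¹ ∈ S → s = 1) (n : ℕ) (hn : 2 ≤ n) (χ : Fin n → (Subgroup.normalizer S → ℂ)) (hirr : ∀ i, Cfsg.IsIrrCharacter (Subgroup.normalizer S) (χ i)) (hinj : Function.Injective χ) (hvan : ∀ i, ∀ x : Subgroup.normalizer S, (x : G) ∉ S → χ i x = 0) (hdeg : ∀ i j, χ i 1 = χ j 1) : ∃ ε : ℂ, (ε = 1 ∨ ε = -1) ∧ ∃ θ : Fin n → (G → ℂ), (∀ i, Cfsg.IsIrrCharacter G (θ i)) ∧ Function.Injective θ ∧ ∀ i j, Cfsg.indFun (Subgroup.normalizer S) (χ i) - Cfsg.indFun (Subgroup.normalizer S) (χ j) = ε • (θ i - θ j) := by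
  classical
  haveI : Fintype (Subgroup.normalizer S) := Fintype.ofFinite _
  have hn0 : 0 < n := by omega
  obtain ⟨i₀, hi₀⟩ : ∃ i₀ : Fin n, i₀ = ⟨0, hn0⟩ := ⟨_, rfl⟩
  have hsub : ∀ i, Cfsg.indFun (Subgroup.normalizer S) (χ i - χ i₀) =
      Cfsg.indFun (Subgroup.normalizer S) (χ i) - Cfsg.indFun (Subgroup.normalizer S) (χ i₀) := by
    intro i
    have e : χ i - χ i₀ = χ i + (-1 : ℂ) • χ i₀ := by
      ext x; simp [sub_eq_add_neg]
    rw [e, indFun_add, indFun_smul]
    ext x
    simp [sub_eq_add_neg]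
  have hcl : ∀ i, Cfsg.IsClassFunction (Subgroup.normalizer S) (χ i - χ i₀) := fun i =>
    isClassFunction_sub (IsIrrCharacter.isClassFunction (hirr i))
      (IsIrrCharacter.isClassFunction (hirr i₀))
  have hv : ∀ i, ∀ x : Subgroup.normalizer S, (x : G) ∉ S → (χ i - χ i₀) x = 0 := by
    intro i x hx
    rw [Pi.sub_apply, hvan i x hx, hvan i₀ x hx, sub_self]
  have h1 : ∀ i, (χ i - χ i₀) 1 = 0 := by
    intro i
    rw [Pi.sub_apply, hdeg i i₀, sub_self]
  obtain ⟨ε, hε, μ, hμirr, hμinj, hμ⟩ := Cfsg.Agent.S0198.result n i₀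
    (fun i => Cfsg.indFun (Subgroup.normalizer S) (χ i - χ i₀)) (by
      simp only [sub_self]
      exact indFun_zero _) (by
      intro i
      exact ⟨Cfsg.indFun _ (χ i), Cfsg.indFun _ (χ i₀),
        indFun_isCharacter _ (IsIrrCharacter.isCharacter (hirr i)),
        indFun_isCharacter _ (IsIrrCharacter.isCharacter (hirr i₀)), hsub i⟩) (by
      intro i
      show Cfsg.indFun _ (χ i - χ i₀) 1 = 0
      rw [indFun_apply]
      have h2 : Cfsg.extendByZero (Subgroup.normalizer S) (χ i - χ i₀) 1 = 0 := by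
        rw [extendByZero_of_mem _ _ (Subgroup.one_mem _)]
        exact h1 i
      simp [h2]) (by
      intro i j hi hj
      show Cfsg.classInner (Cfsg.indFun _ (χ i - χ i₀)) (Cfsg.indFun _ (χ j - χ i₀)) = _
      rw [indFun_TI_inner S hTI (χ i - χ i₀) (χ j - χ i₀) (hcl j) (hv i) (hv j) (h1 i)]
      rw [classInner_sub_left, classInner_sub_right, classInner_sub_right,
        classInner_irr (hirr i) (hirr j),
        classInner_irr_ne (hirr i) (hirr i₀) (fun h => hi (hinj h)),
        classInner_irr_ne (hirr i₀) (hirr j) (fun h => hj (hinj h).symm),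
        classInner_irr_self (hirr i₀)]
      by_cases hij : i = j
      · rw [if_pos hij, if_pos (by rw [hij])]; norm_num
      · rw [if_neg hij, if_neg (fun h => hij (hinj h))]; norm_num)
  refine ⟨ε, hε, μ, hμirr, hμinj, ?_⟩
  intro i j
  have hi : Cfsg.indFun (Subgroup.normalizer S) (χ i - χ i₀) = ε • (μ i - μ i₀) := hμ i
  have hj : Cfsg.indFun (Subgroup.normalizer S) (χ j - χ i₀) = ε • (μ j - μ i₀) := hμ j
  rw [hsub] at hi hj
  have e : Cfsg.indFun (Subgroup.normalizer S) (χ i) - Cfsg.indFun (Subgroup.normalizer S) (χ j)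
      = (Cfsg.indFun (Subgroup.normalizer S) (χ i) - Cfsg.indFun (Subgroup.normalizer S) (χ i₀))
        - (Cfsg.indFun (Subgroup.normalizer S) (χ j) -
          Cfsg.indFun (Subgroup.normalizer S) (χ i₀)) := by abel
  rw [e, hi, hj]
  ext x
  simp only [Pi.sub_apply, Pi.smul_apply, smul_eq_mul]
  ring

end Cfsg.Agent.S0170
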