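import Cfsg.Statements.S0178
import Cfsg.Agent.Lib.Helper1.CharInt

set_option autoImplicit false
open Cfsg

namespace Cfsg.Agent.S0178

/-- The degree of an irreducible complex representation of a finite group is at most the index of any abelian subgroup. -/
theorem result {G : Type*} [Group G] [Finite G] {V : Type*} [AddCommGroup V] [Module ℂ V] [FiniteDimensional ℂ V] (ρ : Representation ℂ G V) [ρ.IsIrreducible] (A : Subgroup G) (hA : ∀ a ∈ A, ∀ b ∈ A, a * b = b * a) : Module.finrank ℂ V ≤ A.index := by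
  classical
  have := Fintype.ofFinite G
  have hAf : Fintype A := Fintype.ofFinite A
  have hirrA : Fintype (Cfsg.IrrCharacter A) := Cfsg.Agent.Lib.Helper1.irrFintype
  have hV := Cfsg.Agent.Lib.Helper1.nontrivial_of_isIrreducible ρ
  have hχ : Cfsg.IsIrrCharacter G ρ.character := Cfsg.Agent.Lib.Helper1.isIrrCharacter_character ρ
  have hres := Cfsg.Agent.Lib.Helper1.IsCharacter.restrict
    (Cfsg.Agent.Lib.Helper1.IsIrrCharacter.isCharacter hχ) A
  obtain ⟨m, hm1, hm2⟩ := Cfsg.Agent.Lib.Helper1.IsCharacter.eq_sum_irr hres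
  have hex : ∃ lam : Cfsg.IrrCharacter A, m lam ≠ 0 := by
    by_contra hcon
    have hcon' : ∀ lam, m lam = 0 := fun lam => by
      by_contra h; exact hcon ⟨lam, h⟩
    have h0 := congrFun hm2 1
    simp only [hcon', Nat.cast_zero, zero_smul, Finset.sum_const_zero, Pi.zero_apply] at h0
    have h1 : ρ.character ((1 : A) : G) = (Module.finrank ℂ V : ℂ) := by
      rw [OneMemClass.coe_one, Representation.char_one]
    rw [h1] at h0
    have : 0 < Module.finrank ℂ V := Module.finrank_pos
    have h2 : (Module.finrank ℂ V : ℂ) ≠ 0 := by exact_mod_cast this.ne'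
    exact h2 h0
  obtain ⟨lam, hlam⟩ := hex
  have hlam1 : (lam : A → ℂ) 1 = ((1 : ℕ) : ℂ) := by
    obtain ⟨n, σ, hσ, hσc⟩ := lam.2
    have : IsMulCommutative A := ⟨⟨fun a b => Subtype.ext (hA a a.2 b b.2)⟩⟩
    have h1 := Representation.IsIrreducible.finrank_eq_one_of_isMulCommutative σ
    rw [← hσc, Representation.char_one, h1]
  have hind := Cfsg.Agent.Lib.Helper1.indFun_isCharacter A
    (Cfsg.Agent.Lib.Helper1.IsIrrCharacter.isCharacter lam.2)
  have hne : Cfsg.classInner (Cfsg.indFun A (lam : A → ℂ)) ρ.character ≠ 0 := by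
    rw [Cfsg.Agent.Lib.Helper1.frobenius_reciprocity A _
      (Cfsg.Agent.Lib.Helper1.IsIrrCharacter.isClassFunction hχ),
      ← Cfsg.Agent.Lib.Helper1.classInner_conj_symm, hm1 lam, Complex.conj_natCast]
    exact_mod_cast hlam
  have hone : Cfsg.indFun A (lam : A → ℂ) 1 = ((A.index : ℕ) : ℂ) := by
    rw [Cfsg.Agent.Lib.Helper1.indFun_one, hlam1]
    simp
  exact Cfsg.Agent.Lib.Helper1.degree_le_of_classInner_ne_zero hind hχ hne
    (Representation.char_one ρ) hone

end Cfsg.Agent.S0178
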