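import Cfsg.Statements.S0187
import Cfsg.Agent.Lib.Helper1.CharReg

set_option autoImplicit false
open Cfsg

namespace Cfsg.Agent.S0187

/-- A finite group is commutative if and only if every irreducible complex character has degree 1. -/
theorem result {G : Type*} [Group G] [Finite G] : (∀ a b : G, a * b = b * a) ↔ ∀ χ : Cfsg.IrrCharacter G, (χ : G → ℂ) 1 = 1 := by
  classical
  have := Fintype.ofFinite G
  have hfin : Fintype (Cfsg.IrrCharacter G) := Cfsg.Agent.Lib.Helper1.irrFintype
  constructor
  · intro hcomm χ
    obtain ⟨n, ρ, hρ, hχ⟩ := χ.2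
    have : IsMulCommutative G := ⟨⟨hcomm⟩⟩
    have h1 := Representation.IsIrreducible.finrank_eq_one_of_isMulCommutative ρ
    rw [← hχ, Representation.char_one, h1]
    simp
  · intro hall a b
    have h1 := Cfsg.Agent.Lib.Helper1.sum_sq_degrees (G := G)
    have h2 : ∑ χ : Cfsg.IrrCharacter G, (χ : G → ℂ) 1 ^ 2 = (Fintype.card (Cfsg.IrrCharacter G) : ℂ) := by
      simp [hall]
    rw [h2] at h1
    have h3 : Fintype.card (Cfsg.IrrCharacter G) = Nat.card G := by exact_mod_cast h1
    have h4 := Cfsg.Agent.Lib.Helper1.card_irr (G := G)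
    rw [Nat.card_eq_fintype_card, h3] at h4
    have hfc : Fintype (ConjClasses G) := Fintype.ofFinite _
    have h5 : Function.Injective (ConjClasses.mk : G → ConjClasses G) := by
      have hb : Function.Bijective (ConjClasses.mk : G → ConjClasses G) := by
        rw [Fintype.bijective_iff_surjective_and_card]
        refine ⟨ConjClasses.mk_surjective, ?_⟩
        rw [← Nat.card_eq_fintype_card, ← Nat.card_eq_fintype_card]
        exact h4
      exact hb.1
    have h6 : ConjClasses.mk (a * b * a⁻¹) = ConjClasses.mk b := by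
      rw [ConjClasses.mk_eq_mk_iff_isConj, isConj_comm, isConj_iff]
      exact ⟨a, rfl⟩
    have h7 := h5 h6
    calc a * b = a * b * a⁻¹ * a := by group
      _ = b * a := by rw [h7]

end Cfsg.Agent.S0187
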