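import Cfsg.Statements.S0189
import Cfsg.Agent.Lib.Helper1.CharInd

set_option autoImplicit false
open Cfsg

namespace Cfsg.Agent.S0189

/-- If a complex character of a finite group vanishes at every non-identity element of a Sylow p-subgroup P, then |P| divides its degree. -/
theorem result {G : Type*} [Group G] [Finite G] (p : ℕ) [Fact p.Prime] (P : Sylow p G) (χ : G → ℂ) (hχ : Cfsg.IsCharacter G χ) (hvan : ∀ g : G, g ∈ P → g ≠ 1 → χ g = 0) : ∃ k : ℕ, χ 1 = (Nat.card P : ℂ) * k := by
  classical
  have := Fintype.ofFinite G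
  have hP : Fintype P := Fintype.ofFinite P
  have hres := Cfsg.Agent.Lib.Helper1.IsCharacter.restrict hχ (P : Subgroup G)
  obtain ⟨n, hn⟩ := Cfsg.Agent.Lib.Helper1.IsCharacter.classInner_nat hres
    (Cfsg.Agent.Lib.Helper1.isCharacter_one (G := (P : Subgroup G)))
  refine ⟨n, ?_⟩
  have hPne : (Nat.card P : ℂ) ≠ 0 := by
    have := Nat.card_pos (α := P)
    exact_mod_cast this.ne'
  have h1 : Cfsg.classInner (fun x : (P : Subgroup G) => χ x) (fun _ => (1 : ℂ)) =
      (Nat.card P : ℂ)⁻¹ * χ 1 := by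
    unfold Cfsg.classInner
    congr 1
    rw [Finset.sum_eq_single (1 : (P : Subgroup G))]
    · simp
    · intro b _ hb
      have : χ (b : G) = 0 := hvan b b.2 (fun h => hb (Subtype.ext h))
      simp [this]
    · intro h; exact absurd (Finset.mem_univ _) h
  rw [h1] at hn
  rw [← hn, ← mul_assoc, mul_inv_cancel₀ hPne, one_mul]

end Cfsg.Agent.S0189
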