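import Cfsg.Statements.S0190
import Cfsg.Agent.Lib.Helper1.CharInd

set_option autoImplicit false
open Cfsg

namespace Cfsg.Agent.S0190

/-- For a transitive action of a finite group on X, the permutation character g ↦ (number of fixed points of g) is the function induced from the principal character of the stabilizer of any point. -/
theorem result {G : Type*} [Group G] [Fintype G] (X : Type*) [MulAction G X] [Finite X] [MulAction.IsPretransitive G X] (x : X) : (fun g : G => (Nat.card (MulAction.fixedBy X g) : ℂ)) = Cfsg.indFun (MulAction.stabilizer G x) (fun _ => 1) := by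
  classical
  have := Fintype.ofFinite X
  funext g
  rw [Cfsg.Agent.Lib.Helper1.indFun_apply]
  have hSne : (Nat.card (MulAction.stabilizer G x) : ℂ) ≠ 0 := by
    have := Nat.card_pos (α := MulAction.stabilizer G x)
    exact_mod_cast this.ne'
  have h1 : ∀ y : G, Cfsg.extendByZero (MulAction.stabilizer G x) (fun _ => (1 : ℂ)) (y⁻¹ * g * y) =
      if g • (y • x) = y • x then 1 else 0 := by
    intro y
    have hiff : y⁻¹ * g * y ∈ MulAction.stabilizer G x ↔ g • (y • x) = y • x := by
      rw [MulAction.mem_stabilizer_iff, mul_smul, mul_smul, inv_smul_eq_iff]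
    by_cases hy : g • (y • x) = y • x
    · rw [if_pos hy, Cfsg.Agent.Lib.Helper1.extendByZero_of_mem _ _ (hiff.mpr hy)]
    · rw [if_neg hy, Cfsg.Agent.Lib.Helper1.extendByZero_of_not_mem _ _ (fun h => hy (hiff.mp h))]
  simp only [h1]
  rw [← Finset.sum_fiberwise (Finset.univ : Finset G) (fun y : G => y • x)
    (fun y => if g • (y • x) = y • x then (1 : ℂ) else 0)]
  have h2 : ∀ z : X, ∑ y ∈ Finset.univ.filter (fun y : G => y • x = z),
      (if g • (y • x) = y • x then (1 : ℂ) else 0) =
      if g • z = z then (Nat.card (MulAction.stabilizer G x) : ℂ) else 0 := by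
    intro z
    have h3 : ∀ y ∈ Finset.univ.filter (fun y : G => y • x = z),
        (if g • (y • x) = y • x then (1 : ℂ) else 0) = if g • z = z then 1 else 0 := by
      intro y hy
      rw [(Finset.mem_filter.mp hy).2]
    rw [Finset.sum_congr rfl h3, Finset.sum_const, nsmul_eq_mul]
    have h4 : (Finset.univ.filter (fun y : G => y • x = z)).card =
        Nat.card (MulAction.stabilizer G x) := by
      rw [← Cfsg.Agent.Lib.Helper1.card_fiber_smul x z, Nat.card_eq_fintype_card,
        Fintype.card_subtype]
    rw [h4]
    split_ifs <;> simp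
  simp only [h2]
  rw [Finset.sum_ite, Finset.sum_const_zero, add_zero, Finset.sum_const, nsmul_eq_mul,
    ← mul_assoc, mul_comm _ ((Finset.univ.filter (fun z : X => g • z = z)).card : ℂ), mul_assoc,
    inv_mul_cancel₀ hSne, mul_one]
  congr 1
  rw [Nat.card_eq_fintype_card, Fintype.card_subtype]
  rfl

end Cfsg.Agent.S0190
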