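import Mathlib
import Cfsg.Statements.S0194
import Cfsg.Agent.Lib.Helper1.CharReal

set_option autoImplicit false
open scoped ComplexConjugate
open Cfsg

namespace Cfsg.Agent.S0194

open Cfsg.Agent.Lib.Helper1 in
theorem conj_indFun {G : Type*} [Group G] [Fintype G] (H : Subgroup G) (θ : H → ℂ) (g : G) :
    conj (Cfsg.indFun H θ g) = Cfsg.indFun H (fun h => conj (θ h)) g := by
  rw [indFun_apply, indFun_apply]
  simp only [map_mul, map_inv₀, Complex.conj_natCast, map_sum]
  congr 1
  refine Finset.sum_congr rfl (fun x _ => ?_)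
  by_cases hy : x⁻¹ * g * x ∈ H
  · rw [extendByZero_of_mem H θ hy, extendByZero_of_mem H _ hy]
  · rw [extendByZero_of_not_mem H θ hy, extendByZero_of_not_mem H _ hy, map_zero]

noncomputable def tw {G : Type*} [Group G] (H : Subgroup G) [H.Normal] (θ : H → ℂ) (x : G) : H → ℂ :=
  θ ∘ (MulAut.conjNormal (x⁻¹) : MulAut H)

open Cfsg.Agent.Lib.Helper1 in
theorem indFun_restrict {G : Type*} [Group G] [Fintype G] (H : Subgroup G) [H.Normal] (θ : H → ℂ) :
    (fun h : H => Cfsg.indFun H θ h) = (Nat.card H : ℂ)⁻¹ • ∑ x : G, tw H θ x := by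
  funext h
  rw [indFun_apply]
  simp only [Pi.smul_apply, Finset.sum_apply, smul_eq_mul]
  congr 1
  refine Finset.sum_congr rfl (fun x _ => ?_)
  have hm : x⁻¹ * (h : G) * x ∈ H := by
    have := Subgroup.Normal.conj_mem ‹H.Normal› h h.2 x⁻¹
    simpa using this
  rw [extendByZero_of_mem H θ hm]
  unfold tw
  simp only [Function.comp_apply]
  congr 1
  apply Subtype.ext
  simp [MulAut.conjNormal_apply]

open Cfsg.Agent.Lib.Helper1 in
theorem tw_ne {G : Type*} [Group G] [Fintype G] (hodd : Odd (Nat.card G)) (H : Subgroup G) [H.Normal]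
    (θ : H → ℂ) (hθ : Cfsg.IsIrrCharacter H θ) (hθ1 : θ ≠ fun _ => 1) (x : G) :
    (fun h => conj (θ h)) ≠ tw H θ x := by
  classical
  intro heq
  haveI : Fintype H := Fintype.ofFinite H
  set c : MulAut H := MulAut.conjNormal (x⁻¹) with hc
  have h1 : ∀ h : H, conj (θ h) = θ (c h) := fun h => congrFun heq h
  have h2 : ∀ h : H, θ ((c ^ 2) h) = θ h := by
    intro h
    have : (c ^ 2) h = c (c h) := by rw [pow_two]; rfl
    rw [this, ← h1 (c h), ← h1 h, Complex.conj_conj]
  have h3 : ∀ k : ℕ, ∀ h : H, θ (((c ^ 2) ^ k) h) = θ h := by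
    intro k
    induction k with
    | zero => intro h; simp
    | succ k ih =>
      intro h
      have : ((c ^ 2) ^ (k + 1)) h = ((c ^ 2) ^ k) ((c ^ 2) h) := by rw [pow_succ]; rfl
      rw [this, ih, h2]
  have hox : Odd (orderOf x) := Odd.of_dvd_nat hodd (orderOf_dvd_natCard x)
  obtain ⟨k, hk⟩ := hox
  have hc1 : c ^ (2 * k + 1) = 1 := by
    rw [hc, ← map_pow, inv_pow, ← hk, pow_orderOf_eq_one, inv_one, map_one]
  have hc2 : (c ^ 2) ^ (k + 1) = c := by
    rw [← pow_mul, show 2 * (k + 1) = (2 * k + 1) + 1 by ring, pow_succ, hc1, one_mul]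
  have h4 : ∀ h : H, θ (c h) = θ h := by
    intro h
    have := h3 (k + 1) h
    rwa [hc2] at this
  have hreal : ∀ h : H, (θ h).im = 0 := by
    intro h
    have : conj (θ h) = θ h := by rw [h1, h4]
    exact Complex.conj_eq_iff_im.mp this
  have hoddH : Odd (Nat.card H) := Odd.of_dvd_nat hodd (Subgroup.card_subgroup_dvd_card H)
  exact hθ1 (real_irr_eq_one_of_odd hoddH hθ hreal)

/-- Let G have odd order, H be a normal subgroup and θ a non-principal irreducible character of H. Then the function induced from θ is orthogonal to its complex conjugate. -/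
theorem result {G : Type*} [Group G] [Fintype G] (hodd : Odd (Nat.card G)) (H : Subgroup G) [H.Normal] (θ : H → ℂ) (hθ : Cfsg.IsIrrCharacter H θ) (hθ1 : θ ≠ fun _ => 1) : Cfsg.classInner (fun g => conj (Cfsg.indFun H θ g)) (Cfsg.indFun H θ) = 0 := by
  classical
  haveI : Fintype H := Fintype.ofFinite H
  have h1 : (fun g => conj (Cfsg.indFun H θ g)) = Cfsg.indFun H (fun h => conj (θ h)) := by
    funext g; exact conj_indFun H θ g
  rw [h1, Cfsg.Agent.Lib.Helper1.frobenius_reciprocity H _ (Cfsg.Agent.Lib.Helper1.indFun_isClassFunction H θ),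
    indFun_restrict H θ, Cfsg.Agent.Lib.Helper1.classInner_smul_right,
    Cfsg.Agent.Lib.Helper1.classInner_sum_right]
  rw [Finset.sum_eq_zero, mul_zero]
  intro x _
  apply Cfsg.Agent.Lib.Helper1.classInner_irr_ne (Cfsg.Agent.Lib.Helper1.IsIrrCharacter.conj hθ)
  · exact Cfsg.Agent.Lib.Helper1.IsIrrCharacter.comp_mulEquiv hθ _
  · exact tw_ne hodd H θ hθ hθ1 x

end Cfsg.Agent.S0194
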