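import Mathlib
import Cfsg.Statements.S0196

set_option autoImplicit false
open Cfsg

namespace Cfsg.Agent.S0196

theorem index_dvd_card_of_stabilizer_eq {N X : Type*} [Group N] [Finite N] [MulAction N X] [Finite X]
    (K : Subgroup N) (h : ∀ a : X, MulAction.stabilizer N a = K) : K.index ∣ Nat.card X := by
  classical
  have e := MulAction.selfEquivSigmaOrbitsQuotientStabilizer N X
  have := Fintype.ofFinite (Quotient (MulAction.orbitRel N X))
  rw [Nat.card_congr e, Nat.card_sigma]
  apply Finset.dvd_sum
  intro ω _
  rw [h]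
  exact dvd_rfl

variable {G : Type*} [Group G]

def X (A : Subgroup G) : Type _ := {a : G // a ∈ A ∧ a ≠ 1}

instance instMulActionX (A : Subgroup G) : MulAction (Subgroup.normalizer (A : Set G)) (X A) where
  smul n a := ⟨(n : G) * a.1 * (n : G)⁻¹, (n.2 a.1).mp a.2.1, fun h => a.2.2 (by
    have : a.1 = (n : G)⁻¹ * ((n : G) * a.1 * (n : G)⁻¹) * (n : G) := by group
    rw [this, h]; group)⟩
  one_smul a := by
    apply Subtype.ext
    show ((1 : Subgroup.normalizer (A : Set G)) : G) * a.1 * ((1 : Subgroup.normalizer (A : Set G)) : G)⁻¹ = a.1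
    simp
  mul_smul m n a := by
    apply Subtype.ext
    show ((m * n : Subgroup.normalizer (A : Set G)) : G) * a.1 * ((m * n : Subgroup.normalizer (A : Set G)) : G)⁻¹ = (m : G) * ((n : G) * a.1 * (n : G)⁻¹) * (m : G)⁻¹
    simp [mul_assoc]

theorem smul_val (A : Subgroup G) (n : Subgroup.normalizer (A : Set G)) (a : X A) :
    (n • a).1 = (n : G) * a.1 * (n : G)⁻¹ := rfl

theorem card_X [Finite G] (A : Subgroup G) : Nat.card (X A) = Nat.card A - 1 := by
  classical
  have e : X A ≃ {a : A // a ≠ 1} :=
    { toFun := fun a => ⟨⟨a.1, a.2.1⟩, fun h => a.2.2 (by simpa using congrArg Subtype.val h)⟩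
      invFun := fun a => ⟨a.1.1, a.1.2, fun h => a.2 (Subtype.ext h)⟩
      left_inv := fun a => rfl
      right_inv := fun a => rfl }
  rw [Nat.card_congr e]
  have := Fintype.ofFinite A
  rw [Nat.card_eq_fintype_card, Nat.card_eq_fintype_card, Fintype.card_subtype_compl, Fintype.card_subtype_eq]

/-- Let A be a subgroup of a finite group G that equals the centralizer of each of its non-identity elements, and let N be its normalizer. Then the index of A in N divides |A| − 1 (N/A permutes the non-identity elements of A in orbits of full length). -/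
theorem result {G : Type*} [Group G] [Finite G] (A : Subgroup G) (hA : ∀ x ∈ A, x ≠ 1 → Subgroup.centralizer ({x} : Set G) = A) : (A.subgroupOf (Subgroup.normalizer (A : Set G))).index ∣ Nat.card A - 1 := by
  rw [← card_X]
  have : Finite (X A) := Finite.of_injective (fun a : X A => a.1) (fun a b h => Subtype.ext h)
  apply index_dvd_card_of_stabilizer_eq
  intro a
  ext n
  have hc := hA a.1 a.2.1 a.2.2
  have hmem : ∀ g : G, g ∈ A ↔ a.1 * g = g * a.1 := by
    intro g
    have : g ∈ Subgroup.centralizer ({a.1} : Set G) ↔ g ∈ A := by rw [hc]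
    rw [← this, Subgroup.mem_centralizer_iff]
    simp
  rw [MulAction.mem_stabilizer_iff, Subgroup.mem_subgroupOf, hmem]
  constructor
  · intro h
    have h1 := congrArg Subtype.val h
    rw [smul_val] at h1
    calc a.1 * (n : G) = ((n : G) * a.1 * (n : G)⁻¹) * (n : G) := by rw [h1]
      _ = (n : G) * a.1 := by group
  · intro h
    apply Subtype.ext
    rw [smul_val, ← h]
    group

end Cfsg.Agent.S0196
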