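import Mathlib
import Cfsg.Statements.S0200
import Cfsg.Agent.Lib.Helper2.Dih
import Cfsg.Agent.Lib.Helper21.BaerSuzuki

set_option autoImplicit false
open Cfsg

namespace Cfsg.Agent.S0200

open Cfsg.Agent.Lib.Helper2 in
theorem isPGroup_closure_pair {G : Type*} [Group G] {t s : G} (htt : t * t = 1) (hss : s * s = 1)
    (a : ℕ) (hx : (t * s) ^ (2 ^ a) = 1) : IsPGroup 2 (Subgroup.closure ({t, s} : Set G)) := by
  rintro ⟨d, hd⟩
  obtain ⟨k, hk | hk⟩ := (Dih.mem_closure_pair_iff htt hss d).mp hd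
  · refine ⟨a, ?_⟩
    apply Subtype.ext
    simp only [Subgroup.coe_pow, Subgroup.coe_one]
    rw [hk, ← zpow_natCast, ← zpow_mul, mul_comm, zpow_mul, zpow_natCast, hx, one_zpow]
  · refine ⟨1, ?_⟩
    apply Subtype.ext
    simp only [Subgroup.coe_pow, Subgroup.coe_one]
    rw [hk, pow_one, pow_two]
    have h1 := Dih.conj_zpow' htt hss k
    calc t * (t * s) ^ k * (t * (t * s) ^ k) = (t * (t * s) ^ k * t) * (t * s) ^ k := by
          simp only [mul_assoc]
      _ = 1 := by rw [h1, ← zpow_add]; simp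

/-- An involution lying in no normal 2-subgroup of a finite group inverts a nontrivial element of odd order (a consequence of the Baer–Suzuki Theorem). -/
theorem result {G : Type*} [Group G] [Finite G] (t : G) (ht : orderOf t = 2) (hO : ∀ N : Subgroup G, N.Normal → IsPGroup 2 N → t ∉ N) : ∃ h : G, h ≠ 1 ∧ Odd (orderOf h) ∧ t * h * t⁻¹ = h⁻¹ := by
  classical
  have htt : t * t = 1 := Cfsg.Agent.Lib.Helper2.Dih.mul_self_of_orderOf ht
  have hti : t⁻¹ = t := Cfsg.Agent.Lib.Helper2.Dih.inv_eq_self htt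
  have hX : IsPGroup 2 (Subgroup.zpowers t) := by
    apply IsPGroup.of_card (n := 1)
    rw [Nat.card_zpowers, ht]; rfl
  by_contra hcon
  push Not at hcon
  have key : ∀ g : G, IsPGroup 2 ↥(Subgroup.zpowers t ⊔ (Subgroup.zpowers t).map (MulAut.conj g).toMonoidHom) := by
    intro g
    have hss : (g * t * g⁻¹) * (g * t * g⁻¹) = 1 := by
      calc (g * t * g⁻¹) * (g * t * g⁻¹) = g * (t * t) * g⁻¹ := by group
        _ = 1 := by rw [htt]; group
    have hsi : (g * t * g⁻¹)⁻¹ = g * t * g⁻¹ := Cfsg.Agent.Lib.Helper2.Dih.inv_eq_self hss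
    have hmap : (Subgroup.zpowers t).map (MulAut.conj g).toMonoidHom = Subgroup.zpowers (g * t * g⁻¹) := by
      rw [MonoidHom.map_zpowers]; rfl
    rw [hmap]
    have hsup : Subgroup.zpowers t ⊔ Subgroup.zpowers (g * t * g⁻¹) = Subgroup.closure {t, g * t * g⁻¹} := by
      rw [Subgroup.zpowers_eq_closure, Subgroup.zpowers_eq_closure, ← Subgroup.closure_union]; rfl
    rw [hsup]
    obtain ⟨a, m, hm, hx⟩ := Nat.exists_eq_two_pow_mul_odd (orderOf_pos (t * (g * t * g⁻¹))).ne'
    have hm1 : m = 1 := by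
      by_contra hm1
      have hord : orderOf ((t * (g * t * g⁻¹)) ^ (2 ^ a)) = m := by
        rw [orderOf_pow_of_dvd (by positivity) (by rw [hx]; exact dvd_mul_right _ _), hx]
        exact Nat.mul_div_cancel_left m (by positivity)
      apply hcon ((t * (g * t * g⁻¹)) ^ (2 ^ a))
      · intro h1
        rw [h1, orderOf_one] at hord
        exact hm1 hord.symm
      · rw [hord]; exact hm
      · rw [← conj_pow, ← inv_pow]
        congr 1
        rw [mul_inv_rev, hsi, hti]
        calc t * (t * (g * t * g⁻¹)) * t = (t * t) * (g * t * g⁻¹) * t := by group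
          _ = g * t * g⁻¹ * t := by rw [htt, one_mul]
    apply isPGroup_closure_pair htt hss a
    rw [hm1, mul_one] at hx
    rw [← hx, pow_orderOf_eq_one]
  obtain ⟨N, hN, hpN, hle⟩ := Cfsg.Agent.Lib.Helper21.BaerSuzuki.baer_suzuki (Subgroup.zpowers t) hX key
  exact hO N hN hpN (hle (Subgroup.mem_zpowers t))

end Cfsg.Agent.S0200
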