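import Mathlib
import Cfsg.Statements.S0203
import Cfsg.Agent.Lib.Helper2.Klein

set_option autoImplicit false
open Cfsg

namespace Cfsg.Agent.S0203

theorem nofusion {G : Type*} [Group G] (N P : Subgroup G) (hN : N.Normal)
    (hcomp : Subgroup.IsComplement' N P) (hcomm : ∀ x ∈ P, ∀ y ∈ P, x * y = y * x)
    (a b : G) (ha : a ∈ P) (hb : b ∈ P) (hc : IsConj a b) : a = b := by
  obtain ⟨g, hg⟩ := isConj_iff.mp hc
  obtain ⟨⟨n, p⟩, hnp⟩ := hcomp.2 g
  simp only at hnp
  have hpa : (p : G) * a * (p : G)⁻¹ = a := by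
    rw [hcomm _ p.2 a ha, mul_inv_cancel_right]
  have hb' : b = (n : G) * a * (n : G)⁻¹ := by
    rw [← hg, ← hnp]
    calc (n : G) * (p : G) * a * ((n : G) * (p : G))⁻¹ = (n : G) * ((p : G) * a * (p : G)⁻¹) * (n : G)⁻¹ := by group
      _ = (n : G) * a * (n : G)⁻¹ := by rw [hpa]
  have h1 : a⁻¹ * b ∈ N := by
    have e : a⁻¹ * b = (a⁻¹ * (n : G) * a⁻¹⁻¹) * (n : G)⁻¹ := by rw [hb']; group
    rw [e]
    exact N.mul_mem (hN.conj_mem _ n.2 a⁻¹) (N.inv_mem n.2)
  have h2 : a⁻¹ * b ∈ P := P.mul_mem (P.inv_mem ha) hb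
  have h3 := Subgroup.disjoint_def.mp hcomp.disjoint h1 h2
  exact inv_mul_eq_one.mp h3

/-- If a Sylow 2-subgroup P of a finite group G is a Klein four-group, then G has three classes of involutions if and only if P has a normal complement in G. -/
theorem result {G : Type*} [Group G] [Finite G] (P : Sylow 2 G) (hP : IsKleinFour (P : Subgroup G)) : Nat.card {C : ConjClasses G // ∃ t : G, orderOf t = 2 ∧ ConjClasses.mk t = C} = 3 ↔ ∃ N : Subgroup G, N.Normal ∧ Subgroup.IsComplement' N (P : Subgroup G) := by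
  classical
  have : Fact (Nat.Prime 2) := ⟨Nat.prime_two⟩
  have hcomm := Cfsg.Agent.Lib.Helper2.Klein.comm (P : Subgroup G) hP
  obtain ⟨a, b, ha, hb, hab, h | h⟩ := Cfsg.Agent.Lib.Helper2.Klein.card_classes P hP
  · constructor
    · intro h3
      rw [h.2] at h3
      omega
    · rintro ⟨N, hN, hcomp⟩
      exact absurd (nofusion N (P : Subgroup G) hN hcomp (fun x hx y hy => hcomm x y hx hy) a b ha hb h.1) hab
  · constructor
    · intro _
      have hNC : Subgroup.normalizer ((P : Subgroup G) : Set G) ≤ Subgroup.centralizer ((P : Subgroup G) : Set G) := by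
        intro n hn
        rw [Subgroup.mem_centralizer_iff]
        intro x hx
        have h1 : n * x * n⁻¹ ∈ (P : Subgroup G) := (Subgroup.mem_normalizer_iff.mp hn x).mp hx
        have h2 := h.1 x hx _ h1 (isConj_iff.mpr ⟨n, rfl⟩)
        calc x * n = (n * x * n⁻¹) * n := by rw [← h2]
          _ = n * x := by group
      exact ⟨(MonoidHom.transferSylow P hNC).ker, inferInstance, MonoidHom.ker_transferSylow_isComplement' P hNC⟩
    · intro _
      exact h.2

end Cfsg.Agent.S0203
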