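import Mathlib
import Cfsg.Statements.S0206
import Cfsg.Agent.Lib.Helper2.Dih

set_option autoImplicit false
open Cfsg

namespace Cfsg.Agent.S0206

open Cfsg.Agent.Lib.Helper2.Dih

variable {G : Type*} [Group G]

noncomputable def toFun (x y : G) : DihedralGroup (orderOf (x * y)) → G
  | DihedralGroup.r i => (x * y) ^ i.val
  | DihedralGroup.sr i => x * (x * y) ^ i.val

theorem pw_add (u : G) (i j : ZMod (orderOf u)) [NeZero (orderOf u)] :
    u ^ (i + j).val = u ^ i.val * u ^ j.val := by
  rw [ZMod.val_add, pow_mod_orderOf, pow_add]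

theorem pw_sub (u : G) (i j : ZMod (orderOf u)) [NeZero (orderOf u)] :
    u ^ (j - i).val = (u ^ i.val)⁻¹ * u ^ j.val := by
  have h := pw_add u (j - i) i
  rw [sub_add_cancel] at h
  rw [h]
  have hc : Commute (u ^ (j - i).val) (u ^ i.val) := (Commute.refl u).pow_pow _ _
  rw [hc.eq, inv_mul_cancel_left]

theorem x_conj_pow {x y : G} (hx : x * x = 1) (hy : y * y = 1) (k : ℕ) :
    x * (x * y) ^ k * x = ((x * y) ^ k)⁻¹ := by
  have := conj_zpow' hx hy (k : ℤ)
  rw [zpow_neg, zpow_natCast] at this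
  exact this

theorem pow_mul_x' {x y : G} (hx : x * x = 1) (hy : y * y = 1) (k : ℕ) :
    (x * y) ^ k * x = x * ((x * y) ^ k)⁻¹ := by
  have := zpow_mul_x hx hy (k : ℤ)
  rw [zpow_neg, zpow_natCast] at this
  exact this

theorem toFun_mul {x y : G} [NeZero (orderOf (x * y))] (hx : x * x = 1) (hy : y * y = 1)
    (a b : DihedralGroup (orderOf (x * y))) :
    toFun x y (a * b) = toFun x y a * toFun x y b := by
  rcases a with i | i <;> rcases b with j | j
  · show (x * y) ^ (i + j).val = (x * y) ^ i.val * (x * y) ^ j.val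
    exact pw_add _ i j
  · show x * (x * y) ^ (j - i).val = (x * y) ^ i.val * (x * (x * y) ^ j.val)
    rw [pw_sub, ← mul_assoc, ← mul_assoc, pow_mul_x' hx hy]
  · show x * (x * y) ^ (i + j).val = x * (x * y) ^ i.val * (x * y) ^ j.val
    rw [pw_add, mul_assoc]
  · show (x * y) ^ (j - i).val = x * (x * y) ^ i.val * (x * (x * y) ^ j.val)
    rw [pw_sub, ← mul_assoc, x_conj_pow hx hy]

noncomputable def hom (x y : G) [NeZero (orderOf (x * y))] (hx : x * x = 1) (hy : y * y = 1) :
    DihedralGroup (orderOf (x * y)) →* G :=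
  MonoidHom.mk' (toFun x y) (toFun_mul hx hy)

theorem hom_injective (x y : G) [NeZero (orderOf (x * y))] (hx : x * x = 1) (hy : y * y = 1)
    (hx1 : x ≠ 1) (hy1 : y ≠ 1) : Function.Injective (hom x y hx hy) := by
  rw [injective_iff_map_eq_one]
  intro a ha
  rcases a with i | i
  · have h1 : (x * y) ^ i.val = 1 := ha
    have h2 := orderOf_dvd_of_pow_eq_one h1
    have h3 : i.val < orderOf (x * y) := ZMod.val_lt i
    have h4 : i.val = 0 := Nat.eq_zero_of_dvd_of_lt h2 h3
    have h5 : i = 0 := (ZMod.val_eq_zero i).mp h4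
    rw [h5]
    rfl
  · exfalso
    have h1 : x * (x * y) ^ i.val = 1 := ha
    apply x_not_mem_zpowers hx hy hx1 hy1
    have h2 : x = ((x * y) ^ i.val)⁻¹ := eq_inv_of_mul_eq_one_left h1
    have h3 : ((x * y) ^ i.val)⁻¹ ∈ Subgroup.zpowers (x * y) :=
      Subgroup.inv_mem _ (Subgroup.pow_mem _ (Subgroup.mem_zpowers _) _)
    rw [← h2] at h3
    exact h3

theorem hom_range (x y : G) [NeZero (orderOf (x * y))] (hx : x * x = 1) (hy : y * y = 1) :
    (hom x y hx hy).range = Subgroup.closure ({x, y} : Set G) := by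
  have hxm : x ∈ Subgroup.closure ({x, y} : Set G) := Subgroup.subset_closure (by simp)
  have hym : y ∈ Subgroup.closure ({x, y} : Set G) := Subgroup.subset_closure (by simp)
  apply le_antisymm
  · rintro _ ⟨a, rfl⟩
    rcases a with i | i
    · exact Subgroup.pow_mem _ (Subgroup.mul_mem _ hxm hym) _
    · exact Subgroup.mul_mem _ hxm (Subgroup.pow_mem _ (Subgroup.mul_mem _ hxm hym) _)
  · rw [Subgroup.closure_le]
    intro z hz
    rcases hz with hz | hz
    · rw [hz]
      refine ⟨DihedralGroup.sr 0, ?_⟩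
      show x * (x * y) ^ (0 : ZMod (orderOf (x * y))).val = x
      rw [ZMod.val_zero, pow_zero, mul_one]
    · rw [Set.mem_singleton_iff] at hz
      rw [hz]
      refine ⟨DihedralGroup.sr 1, ?_⟩
      show x * (x * y) ^ (1 : ZMod (orderOf (x * y))).val = y
      have h1 : (x * y) ^ (1 : ZMod (orderOf (x * y))).val = x * y := by
        have := pow_mod_orderOf (x * y) 1
        rw [ZMod.val_one_eq_one_mod, this, pow_one]
      rw [h1, ← mul_assoc, hx, one_mul]

/-- Two distinct involutions x, y of a finite group generate a subgroup isomorphic to the dihedral group of order 2·|xy|. -/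
theorem result {G : Type*} [Group G] [Finite G] (x y : G) (hx : orderOf x = 2) (hy : orderOf y = 2) (hxy : x ≠ y) : Nonempty (↥(Subgroup.closure ({x, y} : Set G)) ≃* DihedralGroup (orderOf (x * y))) := by
  have hx2 := mul_self_of_orderOf hx
  have hy2 := mul_self_of_orderOf hy
  have : NeZero (orderOf (x * y)) := ⟨(orderOf_pos (x * y)).ne'⟩
  have e1 := MonoidHom.ofInjective (hom_injective x y hx2 hy2 (ne_one_of_orderOf hx) (ne_one_of_orderOf hy))
  have e2 := MulEquiv.subgroupCongr (hom_range x y hx2 hy2)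
  exact ⟨(e1.trans e2).symm⟩

end Cfsg.Agent.S0206
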