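import Mathlib
import Cfsg.Statements.S0210
import Cfsg.Agent.Lib.Helper2.Dih

set_option autoImplicit false
open Cfsg

namespace Cfsg.Agent.S0210

open Cfsg.Agent.Lib.Helper2.Dih

theorem aux {G : Type*} [Group G] (x y : G) (hx2 : x * x = 1) (heven : Even (orderOf (x * y))) (j : ℤ)
    (h : x * (x * y) ^ (2 * j) = y) : False := by
  have hy' : y = x * (x * y) := by rw [← mul_assoc, hx2, one_mul]
  rw [hy'] at h
  have h1 : (x * y) ^ (2 * j) = (x * y) := by
    have := mul_left_cancel h
    rw [← hy'] at this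
    exact this
  have h2 : (x * y) ^ (2 * j - 1) = 1 := by
    rw [zpow_sub, h1, zpow_one, mul_inv_cancel]
  have h3 := orderOf_dvd_iff_zpow_eq_one.mpr h2
  obtain ⟨m, hm⟩ := heven
  rw [hm] at h3
  have h4 : (2 : ℤ) ∣ 2 * j - 1 := dvd_trans ⟨(m : ℤ), by push_cast; ring⟩ h3
  omega

/-- If x, y are involutions whose product has even order, no element of the subgroup generated by x and y conjugates x to y. -/
theorem result {G : Type*} [Group G] [Finite G] (x y : G) (hx : orderOf x = 2) (hy : orderOf y = 2) (heven : Even (orderOf (x * y))) (d : G) (hd : d ∈ Subgroup.closure ({x, y} : Set G)) : d * x * d⁻¹ ≠ y := by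
  have hx2 := mul_self_of_orderOf hx
  have hy2 := mul_self_of_orderOf hy
  obtain ⟨k, rfl | rfl⟩ := (mem_closure_pair_iff hx2 hy2 d).mp hd
  · rw [zpow_conj_x hx2 hy2]
    intro h
    have : -(2 * k) = 2 * (-k) := by ring
    rw [this] at h
    exact aux x y hx2 heven _ h
  · rw [x_zpow_conj_x hx2 hy2]
    intro h
    exact aux x y hx2 heven _ h

end Cfsg.Agent.S0210
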