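import Mathlib
import Cfsg.Statements.S0211
import Cfsg.Agent.Lib.Helper2.Dih

set_option autoImplicit false
open Cfsg

namespace Cfsg.Agent.S0211

open Cfsg.Agent.Lib.Helper2.Dih

theorem aux {G : Type*} [Group G] (x y : G) (m : ℕ) (hm : orderOf (x * y) = m + m) (j : ℤ)
    (h : x * (x * y) ^ (2 * j) = x * (x * y) ^ m) : 4 ∣ orderOf (x * y) := by
  have h1 : (x * y) ^ (2 * j) = (x * y) ^ (m : ℤ) := by
    rw [zpow_natCast]
    exact mul_left_cancel h
  have h2 : (x * y) ^ (2 * j - m) = 1 := by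
    rw [zpow_sub, h1, mul_inv_cancel]
  have h3 := orderOf_dvd_iff_zpow_eq_one.mpr h2
  rw [hm] at h3
  have h4 : (2 : ℤ) ∣ 2 * j - m := dvd_trans ⟨(m : ℤ), by push_cast; ring⟩ h3
  rw [hm]
  omega

/-- Let x, y be involutions with xy of even order n and z = (xy)^(n/2). Then xz is conjugate to x by an element of the subgroup generated by x, y if and only if 4 divides n. -/
theorem result {G : Type*} [Group G] [Finite G] (x y : G) (hx : orderOf x = 2) (hy : orderOf y = 2) (heven : Even (orderOf (x * y))) : (∃ d ∈ Subgroup.closure ({x, y} : Set G), d * x * d⁻¹ = x * (x * y) ^ (orderOf (x * y) / 2)) ↔ 4 ∣ orderOf (x * y) := by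
  have hx2 := mul_self_of_orderOf hx
  have hy2 := mul_self_of_orderOf hy
  obtain ⟨m, hm⟩ := heven
  have hm' : orderOf (x * y) / 2 = m := by omega
  rw [hm']
  constructor
  · rintro ⟨d, hd, h⟩
    obtain ⟨k, rfl | rfl⟩ := (mem_closure_pair_iff hx2 hy2 d).mp hd
    · rw [zpow_conj_x hx2 hy2] at h
      have : -(2 * k) = 2 * (-k) := by ring
      rw [this] at h
      exact aux x y m hm _ h
    · rw [x_zpow_conj_x hx2 hy2] at h
      exact aux x y m hm _ h
  · rintro ⟨c, hc⟩
    refine ⟨(x * y) ^ (-(c : ℤ)), (mem_closure_pair_iff hx2 hy2 _).mpr ⟨_, Or.inl rfl⟩, ?_⟩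
    rw [zpow_conj_x hx2 hy2]
    have h1 : -(2 * (-(c : ℤ))) = (m : ℤ) := by
      have : m = 2 * c := by omega
      rw [this]
      push_cast
      ring
    rw [h1, zpow_natCast]

end Cfsg.Agent.S0211
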