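import Mathlib
import Cfsg.Statements.S0212
import Cfsg.Agent.Lib.Helper2.BrauerFowler
import Cfsg.Agent.Lib.Helper2.Simple60

set_option autoImplicit false
open Cfsg

namespace Cfsg.Agent.S0212

/-- The Brauer–Fowler bound: if G is a finite simple group and t an involution of G whose centralizer has order n, then |G| ≤ (2n^2)!. -/
theorem result {G : Type*} [Group G] [Finite G] [IsSimpleGroup G] (t : G) (ht : orderOf t = 2) : Nat.card G ≤ Nat.factorial (2 * (Nat.card (Subgroup.centralizer ({t} : Set G))) ^ 2) := by
  classical
  have hcpos : 0 < Nat.card (Subgroup.centralizer ({t} : Set G)) := Nat.card_pos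
  by_cases hCtop : Subgroup.centralizer ({t} : Set G) = ⊤
  · have h1 : Nat.card (Subgroup.centralizer ({t} : Set G)) = Nat.card G := by
      rw [hCtop, Subgroup.card_top]
    rw [h1]
    have hN : 0 < Nat.card G := Nat.card_pos
    calc Nat.card G ≤ 2 * Nat.card G ^ 2 := by nlinarith
      _ ≤ Nat.factorial (2 * Nat.card G ^ 2) := Nat.self_le_factorial _
  · have hcen : Subgroup.center G = ⊥ := by
      rcases (Subgroup.Normal.eq_bot_or_eq_top (H := Subgroup.center G) inferInstance) with h | h
      · exact h
      · exfalso
        apply hCtop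
        rw [eq_top_iff]
        intro g _
        rw [Subgroup.mem_centralizer_iff]
        intro h' hh
        have hg : g ∈ Subgroup.center G := by rw [h]; exact Subgroup.mem_top g
        rw [Subgroup.mem_center_iff] at hg
        exact hg h'
    have hZ : Odd (Nat.card (Subgroup.center G)) := by
      rw [hcen, Subgroup.card_bot]
      exact odd_one
    have heven : Even (Nat.card G) := by
      rw [even_iff_two_dvd, ← ht]
      exact orderOf_dvd_natCard t
    obtain ⟨H, hH, hcase⟩ := Cfsg.Agent.Lib.Helper2.BrauerFowler.main heven hZ
    have hle := Cfsg.Agent.Lib.Helper2.Simple60.card_le_factorial_index H hH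
    refine le_trans hle (Nat.factorial_le ?_)
    rcases hcase with h2 | hlt
    · rw [h2]
      nlinarith
    · have hn := Cfsg.Agent.Lib.Helper2.BrauerFowler.card_le_invs_mul_centralizer t ht
      have hn1 : 0 < Nat.card {u : G // orderOf u = 2} := (Cfsg.Agent.S0226.result heven).pos
      generalize Nat.card {u : G // orderOf u = 2} = n at hlt hn hn1
      generalize Nat.card (Subgroup.centralizer ({t} : Set G)) = c at hn hcpos ⊢
      generalize Nat.card G = N at hlt hn
      have h3 : N * (N + n) ≤ (n * c) * (n * c + n) := Nat.mul_le_mul hn (by omega)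
      have h4 : n ^ 2 * (2 * H.index) < n ^ 2 * (c * (c + 1)) := by nlinarith
      have h5 : 2 * H.index < c * (c + 1) := Nat.lt_of_mul_lt_mul_left h4
      nlinarith

end Cfsg.Agent.S0212
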