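import Mathlib
import Cfsg.Statements.S0229
import Cfsg.Agent.Lib.Helper2.Dih
import Cfsg.Agent.Lib.Helper21.BaerSuzuki
import Cfsg.Agent.S0200
import Cfsg.Agent.S0208
import Cfsg.Agent.S0209
import Cfsg.Agent.S0211
import Cfsg.Agent.S0213

set_option autoImplicit false
open Cfsg

namespace Cfsg.Agent.S0229

/-- Two distinct commuting involutions which are conjugate cannot both be conjugated into a Sylow
2-subgroup in which one of them is isolated. -/
theorem no_fusion {G : Type*} [Group G] [Finite G] (S : Sylow 2 G) (t : G)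
    (hiso : ∀ g : G, g * t * g⁻¹ ∈ S → g * t * g⁻¹ = t) (htt : t * t = 1)
    (z : G) (hzz : z * z = 1) (hc : Commute t z) (d : G) (hd : d * t * d⁻¹ = t * z) : z = 1 := by
  have hp : IsPGroup 2 (Subgroup.closure ({t, z} : Set G)) := by
    apply Cfsg.Agent.S0200.isPGroup_closure_pair htt hzz 1
    rw [pow_one, pow_two]
    calc t * z * (t * z) = t * (z * t) * z := by group
      _ = t * (t * z) * z := by rw [hc.eq]
      _ = (t * t) * (z * z) := by group
      _ = 1 := by rw [htt, hzz, one_mul]
  obtain ⟨R, hR⟩ := hp.exists_le_sylow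
  obtain ⟨g, hg⟩ := MulAction.exists_smul_eq G R S
  have htR : t ∈ R := hR (Subgroup.subset_closure (by simp))
  have hzR : z ∈ R := hR (Subgroup.subset_closure (by simp))
  have h1 : g * t * g⁻¹ ∈ S := by
    rw [← hg, Cfsg.Agent.Lib.Helper21.BaerSuzuki.mem_smul_sylow]
    have : g⁻¹ * (g * t * g⁻¹) * g = t := by group
    rw [this]; exact htR
  have h2 : (g * d) * t * (g * d)⁻¹ ∈ S := by
    rw [← hg, Cfsg.Agent.Lib.Helper21.BaerSuzuki.mem_smul_sylow]
    have : g⁻¹ * ((g * d) * t * (g * d)⁻¹) * g = d * t * d⁻¹ := by group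
    rw [this, hd]; exact R.mul_mem htR hzR
  have e1 := hiso g h1
  have e2 := hiso (g * d) h2
  have e3 : g * (t * z) * g⁻¹ = g * t * g⁻¹ := by
    calc g * (t * z) * g⁻¹ = g * (d * t * d⁻¹) * g⁻¹ := by rw [hd]
      _ = (g * d) * t * (g * d)⁻¹ := by group
      _ = t := e2
      _ = g * t * g⁻¹ := e1.symm
  have e4 : t * z = t := mul_left_cancel (mul_right_cancel e3)
  exact mul_left_cancel (e4.trans (mul_one t).symm)

/-- Let t be an involution of a Sylow 2-subgroup S of a finite group G, conjugate in G to no other element of S, and let s be an involution of G not conjugate to t. Then the order of st is twice an odd number. -/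
theorem result {G : Type*} [Group G] [Finite G] (S : Sylow 2 G) (t : G) (ht : orderOf t = 2) (htS : t ∈ S) (hiso : ∀ g : G, g * t * g⁻¹ ∈ S → g * t * g⁻¹ = t) (s : G) (hs : orderOf s = 2) (hns : ¬ IsConj s t) : orderOf (s * t) % 4 = 2 := by
  have htt : t * t = 1 := Cfsg.Agent.Lib.Helper2.Dih.mul_self_of_orderOf ht
  have hord : orderOf (s * t) = orderOf (t * s) := by
    have : IsConj (s * t) (t * s) := isConj_iff.mpr ⟨t, by group⟩
    exact (Cfsg.Agent.S0213.orderOf_of_isConj this).symm
  have heven : Even (orderOf (s * t)) := by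
    by_contra hne
    have hodd : Odd (orderOf (s * t)) := Nat.not_even_iff_odd.mp hne
    obtain ⟨d, -, hd⟩ := Cfsg.Agent.S0208.result s t hs ht hodd
    exact hns (isConj_iff.mpr ⟨d, hd⟩)
  have heven' : Even (orderOf (t * s)) := hord ▸ heven
  have h4 : ¬ 4 ∣ orderOf (t * s) := by
    intro h4
    obtain ⟨d, -, hd⟩ := (Cfsg.Agent.S0211.result t s ht hs heven').mpr h4
    obtain ⟨hz2, hzt, -⟩ := Cfsg.Agent.S0209.result t s ht hs heven'
    have hz1 := no_fusion S t hiso htt _ (Cfsg.Agent.Lib.Helper2.Dih.mul_self_of_orderOf hz2) hzt.symm d hd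
    rw [hz1, orderOf_one] at hz2
    omega
  rw [hord]
  obtain ⟨k, hk⟩ := heven'
  omega

end Cfsg.Agent.S0229
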