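import Mathlib
import Cfsg.Statements.S0216
import Cfsg.Agent.Lib.Helper2.Dih
import Cfsg.Agent.S0229
import Cfsg.Agent.S0209
import Cfsg.Agent.S0211
import Cfsg.Agent.S0213

set_option autoImplicit false
open Cfsg

namespace Cfsg.Agent.S0216

open Cfsg.Agent.Lib.Helper2 in
theorem conj_v {G : Type*} [Group G] {u v : G} (huu : u * u = 1) (hvv : v * v = 1) (k : ℤ) :
    (u * v) ^ k * v * ((u * v) ^ k)⁻¹ = u * (u * v) ^ (1 - 2 * k) := by
  have hv : v = u * (u * v) := by rw [← mul_assoc, huu, one_mul]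
  have h1 := Dih.zpow_conj_x huu hvv k
  calc (u * v) ^ k * v * ((u * v) ^ k)⁻¹
      = (u * v) ^ k * (u * (u * v)) * ((u * v) ^ k)⁻¹ := by rw [← hv]
    _ = ((u * v) ^ k * u * ((u * v) ^ k)⁻¹) * ((u * v) ^ k * (u * v) * ((u * v) ^ k)⁻¹) := by group
    _ = (u * (u * v) ^ (-(2 * k))) * (u * v) := by
        rw [h1]
        congr 1
        have : Commute ((u * v) ^ k) (u * v) := (Commute.refl (u * v)).zpow_left k
        rw [this.eq, mul_assoc, mul_inv_cancel, mul_one]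
    _ = u * (u * v) ^ (1 - 2 * k) := by
        rw [mul_assoc, ← zpow_add_one]
        congr 2
        ring

/-- For an involution u in a Sylow 2-subgroup P of a finite group G, the following are equivalent: no G-conjugate of u other than u lies in P; every commutator of u with an element of G has odd order. -/
theorem result {G : Type*} [Group G] [Finite G] (P : Sylow 2 G) (u : G) (hu : orderOf u = 2) (huP : u ∈ P) : (∀ g : G, g * u * g⁻¹ ∈ P → g * u * g⁻¹ = u) ↔ (∀ g : G, Odd (orderOf (u * g * u⁻¹ * g⁻¹))) := by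
  have huu : u * u = 1 := Cfsg.Agent.Lib.Helper2.Dih.mul_self_of_orderOf hu
  have hui : u⁻¹ = u := Cfsg.Agent.Lib.Helper2.Dih.inv_eq_self huu
  constructor
  · intro hiso g
    have e : u * g * u⁻¹ * g⁻¹ = u * (g * u * g⁻¹) := by rw [hui]; group
    rw [e]
    by_cases hv : g * u * g⁻¹ = u
    · rw [hv, huu, orderOf_one]; exact odd_one
    have hvo : orderOf (g * u * g⁻¹) = 2 :=
      (Cfsg.Agent.S0213.orderOf_of_isConj (isConj_iff.mpr ⟨g, rfl⟩)).trans hu
    have hvv : (g * u * g⁻¹) * (g * u * g⁻¹) = 1 := Cfsg.Agent.Lib.Helper2.Dih.mul_self_of_orderOf hvo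
    by_contra hne
    have heven : Even (orderOf (u * (g * u * g⁻¹))) := Nat.not_odd_iff_even.mp hne
    obtain ⟨hz2, hzu, -⟩ := Cfsg.Agent.S0209.result u (g * u * g⁻¹) hu hvo heven
    have hd : ∃ d : G, d * u * d⁻¹ = u * (u * (g * u * g⁻¹)) ^ (orderOf (u * (g * u * g⁻¹)) / 2) := by
      by_cases h4 : 4 ∣ orderOf (u * (g * u * g⁻¹))
      · obtain ⟨d, -, hd⟩ := (Cfsg.Agent.S0211.result u (g * u * g⁻¹) hu hvo heven).mpr h4
        exact ⟨d, hd⟩
      · obtain ⟨m, hm⟩ := heven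
        have hm2 : orderOf (u * (g * u * g⁻¹)) / 2 = m := by omega
        have hmodd : Odd m := by
          by_contra hme
          have : Even m := Nat.not_odd_iff_even.mp hme
          obtain ⟨j, hj⟩ := this
          exact h4 ⟨j, by omega⟩
        obtain ⟨j, hj⟩ := hmodd
        refine ⟨(u * (g * u * g⁻¹)) ^ (-(j : ℤ)) * g, ?_⟩
        have h1 := conj_v huu hvv (-(j : ℤ))
        have h2 : (u * (g * u * g⁻¹)) ^ (-(j : ℤ)) * g * u * ((u * (g * u * g⁻¹)) ^ (-(j : ℤ)) * g)⁻¹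
            = (u * (g * u * g⁻¹)) ^ (-(j : ℤ)) * (g * u * g⁻¹) * ((u * (g * u * g⁻¹)) ^ (-(j : ℤ)))⁻¹ := by
          group
        rw [h2, h1, hm2, ← zpow_natCast]
        congr 2
        rw [hj]; push_cast; ring
    obtain ⟨d, hd⟩ := hd
    have hz1 := Cfsg.Agent.S0229.no_fusion P u hiso huu _ (Cfsg.Agent.Lib.Helper2.Dih.mul_self_of_orderOf hz2) hzu.symm d hd
    rw [hz1, orderOf_one] at hz2
    omega
  · intro hodd g hg
    have e : u * g * u⁻¹ * g⁻¹ = u * (g * u * g⁻¹)⁻¹ := by group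
    have hmem : u * (g * u * g⁻¹)⁻¹ ∈ (P : Subgroup G) := P.mul_mem huP (P.inv_mem hg)
    have h1 := hodd g
    rw [e] at h1
    obtain ⟨k, hk⟩ := P.isPGroup' ⟨_, hmem⟩
    have hk' : (u * (g * u * g⁻¹)⁻¹) ^ (2 ^ k) = 1 := by
      have := congrArg Subtype.val hk
      simpa using this
    have hdvd : orderOf (u * (g * u * g⁻¹)⁻¹) ∣ 2 ^ k := orderOf_dvd_of_pow_eq_one hk'
    have hcop : Nat.Coprime (orderOf (u * (g * u * g⁻¹)⁻¹)) (2 ^ k) :=
      Nat.Coprime.pow_right k (Nat.coprime_two_right.mpr h1)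
    have hone : orderOf (u * (g * u * g⁻¹)⁻¹) = 1 := Nat.Coprime.eq_one_of_dvd hcop hdvd
    rw [orderOf_eq_one_iff] at hone
    exact (mul_inv_eq_one.mp hone).symm

end Cfsg.Agent.S0216
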