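import Mathlib
import Cfsg.Statements.S0218

set_option autoImplicit false
open Cfsg

namespace Cfsg.Agent.S0218

theorem key (N : ℕ) [NeZero N] (x : QuaternionGroup N) :
    orderOf x = 2 ↔ x = QuaternionGroup.a (N : ZMod (2 * N)) := by
  haveI : Fact (Nat.Prime 2) := ⟨Nat.prime_two⟩
  have hN : 0 < N := NeZero.pos N
  haveI : NeZero (2 * N) := ⟨by omega⟩
  have hN0 : ((N : ℕ) : ZMod (2 * N)) ≠ 0 := by
    rw [Ne, ZMod.natCast_eq_zero_iff]
    intro h
    have := Nat.le_of_dvd hN h
    omega
  rw [orderOf_eq_prime_iff]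
  cases x with
  | a i =>
    rw [pow_two, QuaternionGroup.a_mul_a, QuaternionGroup.one_def]
    simp only [QuaternionGroup.a.injEq]
    constructor
    · rintro ⟨h1, h2⟩
      have h3 : ((i.val + i.val : ℕ) : ZMod (2 * N)) = 0 := by
        push_cast
        rw [ZMod.natCast_zmod_val]
        exact h1
      rw [ZMod.natCast_eq_zero_iff] at h3
      have h4 : i.val < 2 * N := ZMod.val_lt i
      have h5 : i.val ≠ 0 := fun h => h2 (by rw [(ZMod.val_eq_zero i).mp h])
      have h6 : i.val + i.val = 2 * N :=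
        Nat.eq_of_dvd_of_lt_two_mul (by omega) h3 (by omega)
      have h7 : i.val = N := by omega
      rw [← ZMod.natCast_zmod_val i, h7]
    · rintro rfl
      refine ⟨?_, fun h => hN0 (QuaternionGroup.a.inj h)⟩
      rw [← Nat.cast_add, ZMod.natCast_eq_zero_iff]
      exact ⟨1, by ring⟩
  | xa i =>
    constructor
    · rintro ⟨h1, -⟩
      rw [QuaternionGroup.xa_sq, QuaternionGroup.one_def] at h1
      simp only [QuaternionGroup.a.injEq] at h1
      exact absurd h1 hN0
    · intro h
      cases h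

/-- The generalized quaternion group of order 2^(n+3) contains exactly one element of order 2. -/
theorem result (n : ℕ) : Nat.card {x : QuaternionGroup (2 ^ (n + 1)) // orderOf x = 2} = 1 := by
  haveI : NeZero (2 ^ (n + 1)) := ⟨by positivity⟩
  haveI : Unique {x : QuaternionGroup (2 ^ (n + 1)) // orderOf x = 2} :=
    ⟨⟨⟨QuaternionGroup.a ((2 ^ (n + 1) : ℕ) : ZMod (2 * 2 ^ (n + 1))), (key _ _).mpr rfl⟩⟩,
      fun y => Subtype.ext ((key _ _).mp y.2)⟩
  exact Nat.card_unique

end Cfsg.Agent.S0218
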