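import Mathlib
import Cfsg.Statements.S0230
import Cfsg.Agent.S0208
import Cfsg.Agent.S0209
import Cfsg.Agent.S0213
import Cfsg.Agent.S0238
import Cfsg.Agent.Lib.Helper14.ClassSize

set_option autoImplicit false
open Cfsg

namespace Cfsg.Agent.S0230

/-- Let G be a finite group with two non-conjugate involutions, and let t be an involution whose centralizer has maximal order among centralizers of involutions. Then |G| < |C_G(t)|^3. -/
theorem result {G : Type*} [Group G] [Finite G] (s t : G) (hs : orderOf s = 2) (ht : orderOf t = 2) (hnc : ¬ IsConj s t) (hmax : ∀ u : G, orderOf u = 2 → Nat.card (Subgroup.centralizer ({u} : Set G)) ≤ Nat.card (Subgroup.centralizer ({t} : Set G))) : Nat.card G < Nat.card (Subgroup.centralizer ({t} : Set G)) ^ 3 := by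
  classical
  have : Fintype G := Fintype.ofFinite G
  set K : Finset G := Finset.univ.filter (fun v => IsConj t v) with hKdef
  set J : Finset G := Finset.univ.filter (fun z => orderOf z = 2 ∧ Commute z s) with hJdef
  set f : G → G := fun v => (s * v) ^ (orderOf (s * v) / 2) with hfdef
  have hf : ∀ v ∈ K, orderOf (f v) = 2 ∧ Commute (f v) s ∧ Commute (f v) v := by
    intro v hv
    simp only [hKdef, Finset.mem_filter, Finset.mem_univ, true_and] at hv
    have hov : orderOf v = 2 := (Cfsg.Agent.S0213.orderOf_of_isConj hv).trans ht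
    have heven : Even (orderOf (s * v)) := by
      by_contra hne
      have hodd : Odd (orderOf (s * v)) := Nat.not_even_iff_odd.mp hne
      obtain ⟨d, -, hd⟩ := Cfsg.Agent.S0208.result s v hs hov hodd
      exact hnc ((isConj_iff.mpr ⟨d, hd⟩).trans hv.symm)
    exact Cfsg.Agent.S0209.result s v hs hov heven
  have hmaps : (K : Set G).MapsTo f J := by
    intro v hv
    have := hf v (Finset.mem_coe.mp hv)
    simp only [hJdef, Finset.coe_filter, Finset.mem_univ, true_and, Set.mem_ofPred_eq]
    exact ⟨this.1, this.2.1⟩
  have hsum := Finset.card_eq_sum_card_fiberwise hmaps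
  have hfib : ∀ z₀ ∈ J, (K.filter (fun v => f v = z₀)).card ≤
      Nat.card (Subgroup.centralizer ({t} : Set G)) := by
    intro z₀ hz₀
    simp only [hJdef, Finset.mem_filter, Finset.mem_univ, true_and] at hz₀
    refine le_trans ?_ (hmax z₀ hz₀.1)
    rw [Nat.card_eq_fintype_card, Fintype.card_subtype]
    apply Finset.card_le_card
    intro v hv
    rw [Finset.mem_filter] at hv
    simp only [Finset.mem_filter, Finset.mem_univ, true_and]
    rw [Subgroup.mem_centralizer_iff]
    intro h hh
    rw [Set.mem_singleton_iff] at hh
    rw [hh, ← hv.2]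
    exact ((hf v hv.1).2.2).eq
  have hle : K.card ≤ J.card * Nat.card (Subgroup.centralizer ({t} : Set G)) := by
    rw [hsum]
    calc ∑ b ∈ J, (K.filter (fun v => f v = b)).card
        ≤ ∑ _b ∈ J, Nat.card (Subgroup.centralizer ({t} : Set G)) := Finset.sum_le_sum hfib
      _ = J.card * Nat.card (Subgroup.centralizer ({t} : Set G)) := by
          rw [Finset.sum_const, smul_eq_mul]
  have hJ : J.card + 1 ≤ Nat.card (Subgroup.centralizer ({s} : Set G)) := by
    have := Cfsg.Agent.S0238.invs_le s
    rw [Nat.card_eq_fintype_card (α := {t : G // orderOf t = 2 ∧ Commute t s}),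
      Fintype.card_subtype] at this
    exact this
  have hk : Nat.card (Subgroup.centralizer ({t} : Set G)) * K.card = Nat.card G := by
    have h := Cfsg.Agent.Lib.Helper14.ClassSize.index_centralizer_eq_ncard t
    have h' := Subgroup.card_mul_index (Subgroup.centralizer ({t} : Set G))
    rw [h] at h'
    have : {h : G | IsConj t h} = (K : Set G) := by ext; simp [hKdef]
    rw [this, Set.ncard_coe_finset] at h'
    exact h'
  have hst := hmax s hs
  have hcpos : 0 < Nat.card (Subgroup.centralizer ({t} : Set G)) := Nat.card_pos
  rw [← hk]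
  generalize Nat.card (Subgroup.centralizer ({t} : Set G)) = c at *
  generalize Nat.card (Subgroup.centralizer ({s} : Set G)) = d at *
  generalize K.card = k at *
  generalize J.card = j at *
  have h1 : c * k ≤ c * (j * c) := Nat.mul_le_mul_left _ hle
  have h2 : c * (j * c) < c * (d * c) := by
    apply Nat.mul_lt_mul_of_pos_left _ hcpos
    exact Nat.mul_lt_mul_of_pos_right (by omega) hcpos
  have h3 : c * (d * c) ≤ c * (c * c) := Nat.mul_le_mul_left _ (Nat.mul_le_mul_right _ hst)
  have h4 : c * (c * c) = c ^ 3 := by ring
  omega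

end Cfsg.Agent.S0230
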