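import Mathlib
import Cfsg.Statements.S0231
import Cfsg.Agent.Lib.Helper2.Dih
import Cfsg.Agent.Lib.Helper21.BaerSuzuki
import Cfsg.Agent.S0200
import Cfsg.Agent.S0208
import Cfsg.Agent.S0209
import Cfsg.Agent.S0213

set_option autoImplicit false
open scoped Pointwise
open Cfsg

namespace Cfsg.Agent.S0231

open Cfsg.Agent.Lib.Helper21.BaerSuzuki in
theorem sylow_eq_of_mem {G : Type*} [Group G] [Finite G] (T : Sylow 2 G)
    (hTI : ∀ g : G, MulAut.conj g • (T : Subgroup G) ≠ T → MulAut.conj g • (T : Subgroup G) ⊓ T = ⊥)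
    (Q1 Q2 : Sylow 2 G) (x : G) (hx1 : x ≠ 1) (h1 : x ∈ Q1) (h2 : x ∈ Q2) : Q1 = Q2 := by
  obtain ⟨a, ha⟩ := MulAction.exists_smul_eq G T Q1
  obtain ⟨b, hb⟩ := MulAction.exists_smul_eq G T Q2
  rw [← ha, mem_smul_sylow] at h1
  rw [← hb, mem_smul_sylow] at h2
  have key : MulAut.conj (a⁻¹ * b) • (T : Subgroup G) = T := by
    by_contra hne
    have hbot := hTI _ hne
    have hmem : a⁻¹ * x * a ∈ MulAut.conj (a⁻¹ * b) • (T : Subgroup G) ⊓ T := by
      refine ⟨?_, h1⟩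
      have := (mem_smul_sylow (a⁻¹ * b) (a⁻¹ * x * a) T).mpr (by
        have e : (a⁻¹ * b)⁻¹ * (a⁻¹ * x * a) * (a⁻¹ * b) = b⁻¹ * x * b := by group
        rw [e]; exact h2)
      exact this
    rw [hbot, Subgroup.mem_bot] at hmem
    apply hx1
    calc x = a * (a⁻¹ * x * a) * a⁻¹ := by group
      _ = 1 := by rw [hmem]; group
  have key2 : (a⁻¹ * b) • T = T := Sylow.ext (by rw [Sylow.coe_subgroup_smul]; exact key)
  rw [← ha, ← hb]
  calc a • T = a • ((a⁻¹ * b) • T) := by rw [key2]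
    _ = b • T := by rw [smul_smul]; simp

theorem exists_sylow_pair {G : Type*} [Group G] [Finite G] {x z : G} (hxx : x * x = 1) (hzz : z * z = 1)
    (hc : Commute x z) : ∃ R : Sylow 2 G, x ∈ R ∧ z ∈ R := by
  have hp : IsPGroup 2 (Subgroup.closure ({x, z} : Set G)) := by
    apply Cfsg.Agent.S0200.isPGroup_closure_pair hxx hzz 1
    rw [pow_one, pow_two]
    calc x * z * (x * z) = x * (z * x) * z := by group
      _ = x * (x * z) * z := by rw [hc.eq]
      _ = (x * x) * (z * z) := by group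
      _ = 1 := by rw [hxx, hzz, one_mul]
  obtain ⟨R, hR⟩ := hp.exists_le_sylow
  exact ⟨R, hR (Subgroup.subset_closure (by simp)), hR (Subgroup.subset_closure (by simp))⟩

open Cfsg.Agent.Lib.Helper2 in
theorem same_sylow {G : Type*} [Group G] [Finite G] (T : Sylow 2 G)
    (hTI : ∀ g : G, MulAut.conj g • (T : Subgroup G) ≠ T → MulAut.conj g • (T : Subgroup G) ⊓ T = ⊥)
    (a b : G) (ha : orderOf a = 2) (hb : orderOf b = 2) (hnc : ¬ IsConj a b)
    (Qa Qb : Sylow 2 G) (haQ : a ∈ Qa) (hbQ : b ∈ Qb) : Qa = Qb := by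
  have heven : Even (orderOf (a * b)) := by
    by_contra hne
    have hodd : Odd (orderOf (a * b)) := Nat.not_even_iff_odd.mp hne
    obtain ⟨d, -, hd⟩ := Cfsg.Agent.S0208.result a b ha hb hodd
    exact hnc (isConj_iff.mpr ⟨d, hd⟩)
  obtain ⟨hz2, hza, hzb⟩ := Cfsg.Agent.S0209.result a b ha hb heven
  have hzz := Dih.mul_self_of_orderOf hz2
  have hz1 := Dih.ne_one_of_orderOf hz2
  obtain ⟨R1, h11, h12⟩ := exists_sylow_pair (Dih.mul_self_of_orderOf ha) hzz hza.symm
  obtain ⟨R2, h21, h22⟩ := exists_sylow_pair (Dih.mul_self_of_orderOf hb) hzz hzb.symm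
  have e1 : R1 = R2 := sylow_eq_of_mem T hTI R1 R2 _ hz1 h12 h22
  have e2 : Qa = R1 := sylow_eq_of_mem T hTI Qa R1 a (Dih.ne_one_of_orderOf ha) haQ h11
  have e3 : Qb = R2 := sylow_eq_of_mem T hTI Qb R2 b (Dih.ne_one_of_orderOf hb) hbQ h21
  rw [e2, e3, e1]

/-- Let T be a Sylow 2-subgroup of the finite group G which is not normal and which intersects every other Sylow 2-subgroup trivially. Then G has a single conjugacy class of involutions. -/
theorem result {G : Type*} [Group G] [Finite G] (T : Sylow 2 G) (hnn : ¬ (T : Subgroup G).Normal) (hTI : ∀ g : G, MulAut.conj g • (T : Subgroup G) ≠ T → MulAut.conj g • (T : Subgroup G) ⊓ T = ⊥) (s t : G) (hs : orderOf s = 2) (ht : orderOf t = 2) : IsConj s t := by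
  by_contra hns
  have hss := Cfsg.Agent.Lib.Helper2.Dih.mul_self_of_orderOf hs
  have htt := Cfsg.Agent.Lib.Helper2.Dih.mul_self_of_orderOf ht
  obtain ⟨Q, hsQ, -⟩ := exists_sylow_pair hss hss (Commute.refl s)
  obtain ⟨Qt, htQ, -⟩ := exists_sylow_pair htt htt (Commute.refl t)
  have hQ : Q = Qt := same_sylow T hTI s t hs ht hns Q Qt hsQ htQ
  have hex : ∃ Q' : Sylow 2 G, Q' ≠ Q := by
    by_contra hall
    push Not at hall
    apply hnn
    rw [← Subgroup.normalizer_eq_top_iff]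
    rw [eq_top_iff]
    intro g _
    apply Sylow.smul_eq_iff_mem_normalizer.mp
    rw [hall (g • T), hall T]
  obtain ⟨Q', hQ'⟩ := hex
  obtain ⟨c, hc⟩ := MulAction.exists_smul_eq G Q Q'
  have hrQ : c * s * c⁻¹ ∈ Q' := by
    rw [← hc, Cfsg.Agent.Lib.Helper21.BaerSuzuki.mem_smul_sylow]
    have : c⁻¹ * (c * s * c⁻¹) * c = s := by group
    rw [this]; exact hsQ
  have hsr : IsConj s (c * s * c⁻¹) := isConj_iff.mpr ⟨c, rfl⟩
  have hr : orderOf (c * s * c⁻¹) = 2 := (Cfsg.Agent.S0213.orderOf_of_isConj hsr).trans hs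
  by_cases hrt : IsConj (c * s * c⁻¹) t
  · exact hns (hsr.trans hrt)
  · have := same_sylow T hTI _ t hr ht hrt Q' Qt hrQ htQ
    exact hQ' (this.trans hQ.symm)

end Cfsg.Agent.S0231
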