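import Mathlib
import Cfsg.Statements.S0232
import Cfsg.Agent.Lib.Helper2.BrauerFowler
import Cfsg.Agent.S0219

set_option autoImplicit false
open Cfsg

namespace Cfsg.Agent.S0232

universe u

theorem lt_cube_of_index_two {G : Type*} [Group G] [Finite G] (H : Subgroup G) (h2 : H.index = 2)
    (hgt : 2 < Nat.card G) : Nat.card G < (Nat.card H) ^ 3 := by
  have h := Subgroup.card_mul_index H
  rw [h2] at h
  have h3 : 2 ≤ Nat.card H := by omega
  have h4 : 2 ^ 2 * Nat.card H ≤ Nat.card H ^ 2 * Nat.card H :=
    Nat.mul_le_mul_right _ (Nat.pow_le_pow_left h3 2)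
  have h5 : Nat.card H ^ 2 * Nat.card H = Nat.card H ^ 3 := by ring
  omega

theorem invs_lt_card {G : Type*} [Group G] [Finite G] :
    Nat.card {t : G // orderOf t = 2} < Nat.card G := by
  classical
  have : Fintype G := Fintype.ofFinite G
  rw [Nat.card_eq_fintype_card, Fintype.card_subtype, Nat.card_eq_fintype_card, ← Finset.card_univ]
  apply Finset.card_lt_card
  rw [Finset.filter_ssubset]
  exact ⟨1, Finset.mem_univ _, by simp⟩

theorem arith (N n c h i : ℕ) (hNpos : 0 < N) (h1 : h * i = N) (h2 : 2 * i * n ^ 2 < N * (N + n))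
    (h3 : n < N) (h4 : c ^ 3 ≤ N) (h5 : N ≤ n * c) : N < h ^ 3 := by
  have hA : N ^ 2 ≤ n ^ 3 := by
    have e1 : N ^ 3 ≤ (n * c) ^ 3 := Nat.pow_le_pow_left h5 3
    have e2 : (n * c) ^ 3 = n ^ 3 * c ^ 3 := by ring
    have e3 : n ^ 3 * c ^ 3 ≤ n ^ 3 * N := Nat.mul_le_mul_left _ h4
    have e4 : N * N ^ 2 ≤ N * n ^ 3 := by
      calc N * N ^ 2 = N ^ 3 := by ring
        _ ≤ n ^ 3 * c ^ 3 := by rw [← e2]; exact e1
        _ ≤ n ^ 3 * N := e3
        _ = N * n ^ 3 := by ring
    exact Nat.le_of_mul_le_mul_left e4 hNpos
  have hB : i * n ^ 2 < N ^ 2 := by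
    have e1 : N * (N + n) ≤ N * (2 * N) := Nat.mul_le_mul_left _ (by omega)
    nlinarith
  have hC : i ^ 3 < N ^ 2 := by
    have e1 : (i * n ^ 2) ^ 3 < (N ^ 2) ^ 3 := Nat.pow_lt_pow_left hB (by norm_num)
    have e2 : i ^ 3 * (N ^ 2) ^ 2 ≤ i ^ 3 * (n ^ 3) ^ 2 :=
      Nat.mul_le_mul_left _ (Nat.pow_le_pow_left hA 2)
    have e3 : i ^ 3 * (N ^ 2) ^ 2 < (N ^ 2) * (N ^ 2) ^ 2 := by
      calc i ^ 3 * (N ^ 2) ^ 2 ≤ i ^ 3 * (n ^ 3) ^ 2 := e2
        _ = (i * n ^ 2) ^ 3 := by ring
        _ < (N ^ 2) ^ 3 := e1
        _ = N ^ 2 * (N ^ 2) ^ 2 := by ring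
    exact Nat.lt_of_mul_lt_mul_right e3
  by_contra hle
  push Not at hle
  have : N ^ 3 < N ^ 3 := by
    calc N ^ 3 = (h * i) ^ 3 := by rw [h1]
      _ = h ^ 3 * i ^ 3 := by ring
      _ ≤ N * i ^ 3 := Nat.mul_le_mul_right _ hle
      _ < N * N ^ 2 := Nat.mul_lt_mul_of_pos_left hC hNpos
      _ = N ^ 3 := by ring
  exact lt_irrefl _ this

theorem aux : ∀ (N : ℕ) (G : Type u) [Group G] [Finite G], Nat.card G = N → Even N → 2 < N →
    ∃ H : Subgroup G, H ≠ ⊤ ∧ Nat.card G < (Nat.card H) ^ 3 := by
  intro N
  induction N using Nat.strong_induction_on with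
  | _ N ih =>
    intro G _ _ hN heven hgt
    classical
    haveI : Fact (Nat.Prime 2) := ⟨Nat.prime_two⟩
    have hNpos : 0 < Nat.card G := Nat.card_pos
    by_cases hZ : Odd (Nat.card (Subgroup.center G))
    · obtain ⟨H, hH, hcase⟩ := Cfsg.Agent.Lib.Helper2.BrauerFowler.main (hN ▸ heven) hZ
      rcases hcase with h2 | hlt
      · exact ⟨H, hH, lt_cube_of_index_two H h2 (by omega)⟩
      · by_cases hex : ∃ t : G, orderOf t = 2 ∧
            Nat.card G < (Nat.card (Subgroup.centralizer ({t} : Set G))) ^ 3
        · obtain ⟨t, ht, hlt'⟩ := hex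
          refine ⟨Subgroup.centralizer ({t} : Set G), ?_, hlt'⟩
          intro htop
          have htc : t ∈ Subgroup.center G := by
            rw [Subgroup.mem_center_iff]
            intro g
            have hg : g ∈ Subgroup.centralizer ({t} : Set G) := by
              rw [htop]; exact Subgroup.mem_top g
            rw [Subgroup.mem_centralizer_iff] at hg
            exact (hg t rfl).symm
          have h2 : orderOf (⟨t, htc⟩ : Subgroup.center G) = 2 := by
            rw [Subgroup.orderOf_mk]; exact ht
          have h3 := orderOf_dvd_natCard (⟨t, htc⟩ : Subgroup.center G)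
          rw [h2] at h3
          obtain ⟨k, hk⟩ := hZ
          omega
        · push Not at hex
          have hn1 : 0 < Nat.card {t : G // orderOf t = 2} :=
            (Cfsg.Agent.S0226.result (hN ▸ heven)).pos
          obtain ⟨⟨t, ht⟩⟩ : Nonempty {t : G // orderOf t = 2} := (Nat.card_pos_iff.mp hn1).1
          have h1 := hex t ht
          have h2 := Cfsg.Agent.Lib.Helper2.BrauerFowler.card_le_invs_mul_centralizer t ht
          exact ⟨H, hH, arith _ _ _ _ _ hNpos (Subgroup.card_mul_index H) hlt invs_lt_card h1 h2⟩
    · -- the centre has even order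
      have hZeven : 2 ∣ Nat.card (Subgroup.center G) := by
        rcases Nat.even_or_odd (Nat.card (Subgroup.center G)) with h | h
        · exact even_iff_two_dvd.mp h
        · exact absurd h hZ
      obtain ⟨z', hz'⟩ := exists_prime_orderOf_dvd_card' (G := Subgroup.center G) 2 hZeven
      have hz : orderOf (z' : G) = 2 := by rw [Subgroup.orderOf_coe]; exact hz'
      have hzc : ∀ g : G, g * (z' : G) = (z' : G) * g := Subgroup.mem_center_iff.mp z'.2
      haveI hnorm : (Subgroup.zpowers (z' : G)).Normal := by
        constructor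
        intro n hn g
        obtain ⟨k, rfl⟩ := Subgroup.mem_zpowers_iff.mp hn
        have h1 : Commute g (z' : G) := hzc g
        rw [(h1.zpow_right k).eq, mul_inv_cancel_right]
        exact hn
      have hcardZ : Nat.card (Subgroup.zpowers (z' : G)) = 2 := by
        rw [Nat.card_zpowers, hz]
      have hQ := Subgroup.card_eq_card_quotient_mul_card_subgroup (Subgroup.zpowers (z' : G))
      rw [hcardZ] at hQ
      by_cases hMeven : Even (Nat.card (G ⧸ Subgroup.zpowers (z' : G)))
      · by_cases hM2 : 2 < Nat.card (G ⧸ Subgroup.zpowers (z' : G))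
        · obtain ⟨K, hK, hlt⟩ := ih (Nat.card (G ⧸ Subgroup.zpowers (z' : G))) (by omega)
            (G ⧸ Subgroup.zpowers (z' : G)) rfl hMeven hM2
          have hsurj : Function.Surjective (QuotientGroup.mk' (Subgroup.zpowers (z' : G))) :=
            QuotientGroup.mk'_surjective _
          refine ⟨K.comap (QuotientGroup.mk' (Subgroup.zpowers (z' : G))), ?_, ?_⟩
          · intro htop
            apply hK
            rw [← Subgroup.map_comap_eq_self_of_surjective hsurj K, htop]
            exact Subgroup.map_top_of_surjective _ hsurj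
          · have hidx := Subgroup.index_comap_of_surjective K hsurj
            have e1 := Subgroup.card_mul_index (K.comap (QuotientGroup.mk' (Subgroup.zpowers (z' : G))))
            have e2 := Subgroup.card_mul_index K
            rw [hidx] at e1
            have hipos : 0 < K.index := by
              rcases Nat.eq_zero_or_pos K.index with h0 | h0
              · rw [h0, mul_zero] at e2; omega
              · exact h0
            have e3 : Nat.card (K.comap (QuotientGroup.mk' (Subgroup.zpowers (z' : G)))) =
                2 * Nat.card K := by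
              have : Nat.card (K.comap (QuotientGroup.mk' (Subgroup.zpowers (z' : G)))) * K.index =
                  (2 * Nat.card K) * K.index := by
                rw [e1, hQ, ← e2]; ring
              exact Nat.eq_of_mul_eq_mul_right hipos this
            rw [e3, hQ]
            have : (2 * Nat.card K) ^ 3 = 8 * Nat.card K ^ 3 := by ring
            omega
        · -- |G| = 4
          have hM : Nat.card (G ⧸ Subgroup.zpowers (z' : G)) = 2 := by
            obtain ⟨k, hk⟩ := hMeven
            have : 0 < Nat.card (G ⧸ Subgroup.zpowers (z' : G)) := Nat.card_pos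
            omega
          refine ⟨Subgroup.zpowers (z' : G), ?_, ?_⟩
          · intro htop
            rw [htop, Subgroup.card_top] at hcardZ
            omega
          · rw [hcardZ, hQ, hM]
            norm_num
      · -- |G| = 2 * odd : Sylow 2-subgroups have order 2
        obtain ⟨P⟩ : Nonempty (Sylow 2 G) := inferInstance
        have hPcard : Nat.card (P : Subgroup G) = 2 := by
          obtain ⟨k, hk⟩ := IsPGroup.iff_card.mp P.2
          have e1 := Subgroup.card_mul_index (P : Subgroup G)
          have e2 := P.not_dvd_index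
          have hodd : ¬ 2 ∣ Nat.card (G ⧸ Subgroup.zpowers (z' : G)) := by
            rw [← even_iff_two_dvd]; exact hMeven
          rw [hQ] at e1
          have hk' : Nat.card (P : Subgroup G) = 2 ^ k := hk
          rw [hk'] at e1 ⊢
          rcases k with _ | _ | k
          · exfalso
            apply e2
            rw [pow_zero, one_mul] at e1
            rw [e1]
            exact Dvd.intro_left _ rfl
          · norm_num
          · exfalso
            apply hodd
            have e3 : 2 ^ (k + 1 + 1) = 2 * (2 * 2 ^ k) := by ring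
            rw [e3] at e1
            have e4 : Nat.card (G ⧸ Subgroup.zpowers (z' : G)) = 2 * (2 ^ k * (P : Subgroup G).index) := by
              have : 2 * (2 * 2 ^ k * (P : Subgroup G).index) = 2 * Nat.card (G ⧸ Subgroup.zpowers (z' : G)) := by
                rw [mul_comm 2 (Nat.card _), ← e1]; ring
              have := Nat.eq_of_mul_eq_mul_left (by norm_num : 0 < 2) this
              rw [← this]; ring
            rw [e4]
            exact Dvd.intro _ rfl
        have hcyc : IsCyclic (P : Subgroup G) := isCyclic_of_prime_card hPcard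
        obtain ⟨H, hH⟩ := Cfsg.Agent.S0219.result (hN ▸ heven) P hcyc
        refine ⟨H, ?_, lt_cube_of_index_two H hH (by omega)⟩
        intro htop
        rw [htop, Subgroup.index_top] at hH
        omega

/-- A finite group G of even order greater than 2 has a proper subgroup H with |G| < |H|^3. -/
theorem result {G : Type*} [Group G] [Finite G] (heven : Even (Nat.card G)) (hgt : 2 < Nat.card G) : ∃ H : Subgroup G, H ≠ ⊤ ∧ Nat.card G < (Nat.card H) ^ 3 := by
  exact aux _ G rfl heven hgt

end Cfsg.Agent.S0232
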