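import Mathlib
import Cfsg.Statements.S0234
import Cfsg.Agent.Lib.Helper2.BrauerFowler
import Cfsg.Agent.Lib.Helper2.SimpleIndex

set_option autoImplicit false
open Cfsg

namespace Cfsg.Agent.S0234

open Cfsg.Agent.Lib.Helper2.SimpleIndex Cfsg.Agent.Lib.Helper2.Simple60 in
theorem invs_le_fifteen {G : Type*} [Group G] [Finite G] [IsSimpleGroup G]
    (hN : Nat.card G = 60) : Nat.card {t : G // orderOf t = 2} ≤ 15 := by
  classical
  haveI : Fact (Nat.Prime 5) := ⟨by norm_num⟩
  haveI : Fact (Nat.Prime 3) := ⟨by norm_num⟩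
  have : Fintype G := Fintype.ofFinite G
  have hc5 : ∀ P : Sylow 5 G, Nat.card P = 5 := fun P => by
    have := sylow_card_of (p := 5) 1 12 (by rw [hN]; norm_num) (by norm_num) P
    simpa using this
  have hc3 : ∀ P : Sylow 3 G, Nat.card P = 3 := fun P => by
    have := sylow_card_of (p := 3) 1 20 (by rw [hN]; norm_num) (by norm_num) P
    simpa using this
  have hn5 : Nat.card (Sylow 5 G) = 6 := by
    obtain ⟨P⟩ : Nonempty (Sylow 5 G) := inferInstance
    have h1 := card_sylow_modEq_one 5 G
    have h2 := P.card_dvd_index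
    have h3 := card_sylow_ne_one P (by rw [hc5]; norm_num) (by rw [hc5, hN]; norm_num)
    have hidx : (P : Subgroup G).index = 12 := by
      have := Subgroup.card_mul_index (P : Subgroup G)
      rw [hc5 P, hN] at this
      omega
    rw [hidx] at h2
    have hle : Nat.card (Sylow 5 G) ≤ 12 := Nat.le_of_dvd (by norm_num) h2
    unfold Nat.ModEq at h1
    generalize Nat.card (Sylow 5 G) = k at h1 h2 h3 hle ⊢
    interval_cases k <;> omega
  have hn3 : Nat.card (Sylow 3 G) = 10 := by
    obtain ⟨P⟩ : Nonempty (Sylow 3 G) := inferInstance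
    have h1 := card_sylow_modEq_one 3 G
    have h2 := P.card_dvd_index
    have h3 := card_sylow_ne_one P (by rw [hc3]; norm_num) (by rw [hc3, hN]; norm_num)
    have h4 := card_le_factorial_card_sylow P (by rw [hc3]; norm_num) (by rw [hc3, hN]; norm_num)
    have hidx : (P : Subgroup G).index = 20 := by
      have := Subgroup.card_mul_index (P : Subgroup G)
      rw [hc3 P, hN] at this
      omega
    rw [hidx] at h2
    rw [hN] at h4
    have hle : Nat.card (Sylow 3 G) ≤ 20 := Nat.le_of_dvd (by norm_num) h2
    unfold Nat.ModEq at h1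
    generalize Nat.card (Sylow 3 G) = k at h1 h2 h3 h4 hle ⊢
    interval_cases k <;> first | omega | (norm_num [Nat.factorial] at h4)
  have : Fintype (Sylow 5 G) := Fintype.ofFinite _
  have : Fintype (Sylow 3 G) := Fintype.ofFinite _
  have hA := card_ti_union (fun P : Sylow 5 G => (P : Subgroup G)) 5 hc5
    (fun P Q hPQ => sylow_prime_ti hc5 P Q hPQ)
  have hB := card_ti_union (fun P : Sylow 3 G => (P : Subgroup G)) 3 hc3
    (fun P Q hPQ => sylow_prime_ti hc3 P Q hPQ)
  set A := Finset.univ.biUnion (fun P : Sylow 5 G =>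
    (Finset.univ.filter (fun g : G => g ∈ (P : Subgroup G) ∧ g ≠ 1))) with hAdef
  set B := Finset.univ.biUnion (fun P : Sylow 3 G =>
    (Finset.univ.filter (fun g : G => g ∈ (P : Subgroup G) ∧ g ≠ 1))) with hBdef
  set I := Finset.univ.filter (fun g : G => orderOf g = 2) with hIdef
  have hI : I.card = Nat.card {t : G // orderOf t = 2} := by
    rw [Nat.card_eq_fintype_card, Fintype.card_subtype]
  have hAmem : ∀ g ∈ A, g ^ 5 = 1 ∧ g ≠ 1 := by
    intro g hg
    simp only [hAdef, Finset.mem_biUnion, Finset.mem_filter, Finset.mem_univ, true_and] at hg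
    obtain ⟨P, hgP, hg1⟩ := hg
    refine ⟨?_, hg1⟩
    have := pow_card_eq_one' (G := (P : Subgroup G)) (x := ⟨g, hgP⟩)
    rw [hc5 P] at this
    exact congrArg Subtype.val this
  have hBmem : ∀ g ∈ B, g ^ 3 = 1 ∧ g ≠ 1 := by
    intro g hg
    simp only [hBdef, Finset.mem_biUnion, Finset.mem_filter, Finset.mem_univ, true_and] at hg
    obtain ⟨P, hgP, hg1⟩ := hg
    refine ⟨?_, hg1⟩
    have := pow_card_eq_one' (G := (P : Subgroup G)) (x := ⟨g, hgP⟩)
    rw [hc3 P] at this
    exact congrArg Subtype.val this
  have hImem : ∀ g ∈ I, g ^ 2 = 1 ∧ g ≠ 1 := by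
    intro g hg
    simp only [hIdef, Finset.mem_filter, Finset.mem_univ, true_and] at hg
    refine ⟨?_, ?_⟩
    · rw [← hg]; exact pow_orderOf_eq_one g
    · rintro rfl; simp at hg
  have hAB : Disjoint A B := by
    rw [Finset.disjoint_left]
    intro g h1 h2
    obtain ⟨a1, a2⟩ := hAmem g h1
    obtain ⟨b1, -⟩ := hBmem g h2
    apply a2
    have h6 : g ^ 6 = 1 := by rw [show 6 = 3 * 2 from rfl, pow_mul, b1, one_pow]
    have : g ^ 6 = g ^ 5 * g := pow_succ g 5
    rw [h6, a1, one_mul] at this
    exact this.symm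
  have hAI : Disjoint A I := by
    rw [Finset.disjoint_left]
    intro g h1 h2
    obtain ⟨a1, a2⟩ := hAmem g h1
    obtain ⟨b1, -⟩ := hImem g h2
    apply a2
    have h4 : g ^ 4 = 1 := by rw [show 4 = 2 * 2 from rfl, pow_mul, b1, one_pow]
    have : g ^ 5 = g ^ 4 * g := pow_succ g 4
    rw [h4, a1, one_mul] at this
    exact this.symm
  have hBI : Disjoint B I := by
    rw [Finset.disjoint_left]
    intro g h1 h2
    obtain ⟨a1, a2⟩ := hBmem g h1
    obtain ⟨b1, -⟩ := hImem g h2
    apply a2
    have : g ^ 3 = g ^ 2 * g := pow_succ g 2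
    rw [b1, a1, one_mul] at this
    exact this.symm
  have hsub : A ∪ B ∪ I ⊆ Finset.univ.erase 1 := by
    intro g hg
    rw [Finset.mem_erase]
    refine ⟨?_, Finset.mem_univ _⟩
    simp only [Finset.mem_union] at hg
    rcases hg with (h | h) | h
    · exact (hAmem g h).2
    · exact (hBmem g h).2
    · exact (hImem g h).2
  have hcard := Finset.card_le_card hsub
  rw [Finset.card_union_of_disjoint (Finset.disjoint_union_left.mpr ⟨hAI, hBI⟩),
    Finset.card_union_of_disjoint hAB, hA, hB, hI, Finset.card_erase_of_mem (Finset.mem_univ _),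
    Finset.card_univ, ← Nat.card_eq_fintype_card (α := G), ← Nat.card_eq_fintype_card,
    ← Nat.card_eq_fintype_card, hn5, hn3, hN] at hcard
  omega

/-- In a finite simple group G of even order greater than 2, the number n of involutions satisfies 3n < |G|. -/
theorem result {G : Type*} [Group G] [Finite G] [IsSimpleGroup G] (heven : Even (Nat.card G)) (hgt : 2 < Nat.card G) : 3 * Nat.card {t : G // orderOf t = 2} < Nat.card G := by
  classical
  haveI : Fact (Nat.Prime 5) := ⟨by norm_num⟩
  by_contra h3n
  push Not at h3n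
  have hcen : Subgroup.center G = ⊥ := by
    rcases (Subgroup.Normal.eq_bot_or_eq_top (H := Subgroup.center G) inferInstance) with h | h
    · exact h
    · exfalso
      obtain ⟨t, ht⟩ := exists_prime_orderOf_dvd_card' (G := G) 2 (even_iff_two_dvd.mp heven)
      have hnorm : (Subgroup.zpowers t).Normal := by
        constructor
        intro n hn g
        have hg : g ∈ Subgroup.center G := by rw [h]; exact Subgroup.mem_top g
        rw [Subgroup.mem_center_iff] at hg
        rw [← hg n, mul_inv_cancel_right]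
        exact hn
      rcases hnorm.eq_bot_or_eq_top with h1 | h1
      · have : t = 1 := Subgroup.zpowers_eq_bot.mp h1
        rw [this] at ht
        simp at ht
      · have : Nat.card (Subgroup.zpowers t) = Nat.card G := by rw [h1, Subgroup.card_top]
        rw [Nat.card_zpowers, ht] at this
        omega
  have hZ : Odd (Nat.card (Subgroup.center G)) := by
    rw [hcen, Subgroup.card_bot]
    exact odd_one
  obtain ⟨H, hH, hcase⟩ := Cfsg.Agent.Lib.Helper2.BrauerFowler.main heven hZ
  have h5 := Cfsg.Agent.Lib.Helper2.SimpleIndex.five_le_index heven hgt H hH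
  rcases hcase with h2 | hlt
  · omega
  have hi5 : H.index = 5 := by
    by_contra hne
    have h6 : 6 ≤ H.index := by omega
    have e1 : Nat.card G * (Nat.card G + Nat.card {t : G // orderOf t = 2}) ≤
        (3 * Nat.card {t : G // orderOf t = 2}) *
          (3 * Nat.card {t : G // orderOf t = 2} + Nat.card {t : G // orderOf t = 2}) :=
      Nat.mul_le_mul h3n (by omega)
    nlinarith
  have hd60 := Cfsg.Agent.Lib.Helper2.SimpleIndex.card_dvd_sixty hgt H hi5
  have h4 := Cfsg.Agent.Lib.Helper2.SimpleIndex.four_dvd_card heven hgt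
  have hd5 : 5 ∣ Nat.card G := by
    rw [← Subgroup.card_mul_index H, hi5]
    exact Dvd.intro_left _ rfl
  have hcases : Nat.card G = 20 ∨ Nat.card G = 60 := by
    have hle : Nat.card G ≤ 60 := Nat.le_of_dvd (by norm_num) hd60
    generalize Nat.card G = N at hd60 h4 hd5 hle ⊢
    interval_cases N <;> omega
  rcases hcases with h20 | h60
  · obtain ⟨P⟩ : Nonempty (Sylow 5 G) := inferInstance
    have hc5 : Nat.card P = 5 := by
      have := Cfsg.Agent.Lib.Helper2.SimpleIndex.sylow_card_of (p := 5) 1 4 (by rw [h20]; norm_num)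
        (by norm_num) P
      simpa using this
    have h1 := card_sylow_modEq_one 5 G
    have h2 := P.card_dvd_index
    have h3 := Cfsg.Agent.Lib.Helper2.SimpleIndex.card_sylow_ne_one P (by rw [hc5]; norm_num)
      (by rw [hc5, h20]; norm_num)
    have hidx : (P : Subgroup G).index = 4 := by
      have := Subgroup.card_mul_index (P : Subgroup G)
      rw [hc5, h20] at this
      omega
    rw [hidx] at h2
    have hle : Nat.card (Sylow 5 G) ≤ 4 := Nat.le_of_dvd (by norm_num) h2
    unfold Nat.ModEq at h1
    generalize Nat.card (Sylow 5 G) = k at h1 h2 h3 hle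
    interval_cases k <;> omega
  · have := invs_le_fifteen h60
    omega

end Cfsg.Agent.S0234
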