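import Mathlib
import Cfsg.Statements.S0239
import Cfsg.Agent.Lib.Helper2.Dih

set_option autoImplicit false
open Cfsg

namespace Cfsg.Agent.S0239

open Cfsg.Agent.Lib.Helper2.Dih

theorem conj_pow_inv {G : Type*} [Group G] {g x : G} (h : g * x * g⁻¹ = x⁻¹) (n : ℕ) :
    g ^ n * x * (g ^ n)⁻¹ = if Even n then x else x⁻¹ := by
  induction n with
  | zero => simp
  | succ n ih =>
    have h1 : g ^ (n + 1) * x * (g ^ (n + 1))⁻¹ = g * (g ^ n * x * (g ^ n)⁻¹) * g⁻¹ := by
      rw [pow_succ']
      group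
    rw [h1, ih]
    by_cases hn : Even n
    · have hn1 : ¬ Even (n + 1) := by
        rw [Nat.even_add_one]
        exact not_not.mpr hn
      rw [if_pos hn, if_neg hn1, h]
    · have hn1 : Even (n + 1) := by
        rw [Nat.even_add_one]
        exact hn
      rw [if_neg hn, if_pos hn1]
      have : g * x⁻¹ * g⁻¹ = (g * x * g⁻¹)⁻¹ := by group
      rw [this, h, inv_inv]

theorem odd_card_of_real {G : Type*} [Group G] [Finite G] (x : G) (hx : x ≠ 1) (hodd : Odd (Nat.card G)) :
    x * x ≠ 1 := by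
  intro h
  have h2 : orderOf x = 2 := orderOf_eq_two h hx
  have h3 : orderOf x ∣ Nat.card G := orderOf_dvd_natCard x
  rw [h2] at h3
  rw [Nat.odd_iff] at hodd
  omega

/-- If some nontrivial element x of a finite group G is conjugate to x⁻¹, then |G| is even. -/
theorem result {G : Type*} [Group G] [Finite G] (x : G) (hx : x ≠ 1) (hreal : IsConj x x⁻¹) : Even (Nat.card G) := by
  by_contra hne
  have hodd : Odd (Nat.card G) := Nat.not_even_iff_odd.mp hne
  obtain ⟨g, hg⟩ := isConj_iff.mp hreal
  have hgo : Odd (orderOf g) := by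
    have h3 : orderOf g ∣ Nat.card G := orderOf_dvd_natCard g
    exact Odd.of_dvd_nat hodd h3
  have h1 := conj_pow_inv hg (orderOf g)
  rw [pow_orderOf_eq_one, if_neg (Nat.not_even_iff_odd.mpr hgo)] at h1
  simp only [one_mul, inv_one, mul_one] at h1
  apply odd_card_of_real x hx hodd
  nth_rewrite 1 [h1]
  exact inv_mul_cancel x

end Cfsg.Agent.S0239
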