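import Mathlib
import Cfsg.Statements.S0240
import Cfsg.Agent.Lib.Helper2.Dih

set_option autoImplicit false
open Cfsg

namespace Cfsg.Agent.S0240

open Cfsg.Agent.Lib.Helper2.Dih

theorem card_sq {G : Type*} [Group G] [Finite G] :
    Nat.card {t : G // t * t = 1} = Nat.card {t : G // orderOf t = 2} + 1 := by
  have hset : {t : G | t * t = 1} = insert 1 {t : G | orderOf t = 2} := by
    ext g
    simp only [Set.mem_insert_iff, Set.mem_ofPred_eq]
    constructor
    · intro hg
      by_cases h1 : g = 1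
      · exact Or.inl h1
      · exact Or.inr (orderOf_eq_two hg h1)
    · rintro (rfl | hg)
      · simp
      · exact mul_self_of_orderOf hg
  have h1 : Nat.card {t : G // t * t = 1} = Nat.card ↥{t : G | t * t = 1} := rfl
  rw [h1, hset, Nat.card_coe_set_eq, Set.ncard_insert_of_notMem, ← Nat.card_coe_set_eq]
  · rfl
  · simp

/-- Let G be a finite group with n involutions and H a subgroup with |H|·(n+1) > |G|. Then some nontrivial h ∈ H is strongly real in G: an involution t of G satisfies t h t⁻¹ = h⁻¹. -/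
theorem result {G : Type*} [Group G] [Finite G] (H : Subgroup G) (hH : Nat.card G < Nat.card H * (Nat.card {t : G // orderOf t = 2} + 1)) : ∃ h : G, h ∈ H ∧ h ≠ 1 ∧ ∃ t : G, orderOf t = 2 ∧ t * h * t⁻¹ = h⁻¹ := by
  rw [← card_sq] at hH
  have hninj : ¬ Function.Injective (fun p : {t : G // t * t = 1} × H => p.1.1 * p.2.1) := by
    intro hinj
    have := Nat.card_le_card_of_injective _ hinj
    rw [Nat.card_prod] at this
    rw [mul_comm] at hH
    omega
  rw [Function.not_injective_iff] at hninj
  obtain ⟨⟨⟨t, ht⟩, ⟨h, hh⟩⟩, ⟨⟨t', ht'⟩, ⟨h', hh'⟩⟩, heq, hne⟩ := hninj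
  have heq' : t * h = t' * h' := heq
  have htt : t ≠ t' := by
    intro h1
    subst h1
    apply hne
    have : h = h' := mul_left_cancel heq'
    subst this
    rfl
  have hk : t' * t = h' * h⁻¹ := by
    calc t' * t = t' * (t * h) * h⁻¹ := by group
      _ = t' * (t' * h') * h⁻¹ := by rw [heq']
      _ = (t' * t') * h' * h⁻¹ := by group
      _ = h' * h⁻¹ := by rw [ht', one_mul]
  have hkH : t' * t ∈ H := by
    rw [hk]
    exact H.mul_mem hh' (H.inv_mem hh)
  have hk1 : t' * t ≠ 1 := by
    intro h1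
    apply htt
    have : t = t'⁻¹ := eq_inv_of_mul_eq_one_right h1
    rw [this, inv_eq_self ht']
  have hkinv : (t' * t)⁻¹ = t * t' := by
    rw [mul_inv_rev, inv_eq_self ht, inv_eq_self ht']
  refine ⟨t' * t, hkH, hk1, ?_⟩
  by_cases ht1 : t = 1
  · have ht'1 : t' ≠ 1 := fun h => htt (by rw [ht1, h])
    refine ⟨t', orderOf_eq_two ht' ht'1, ?_⟩
    rw [hkinv, inv_eq_self ht']
    calc t' * (t' * t) * t' = (t' * t') * t * t' := by group
      _ = t * t' := by rw [ht', one_mul]
  · refine ⟨t, orderOf_eq_two ht ht1, ?_⟩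
    rw [hkinv, inv_eq_self ht]
    calc t * (t' * t) * t = t * t' * (t * t) := by group
      _ = t * t' := by rw [ht, mul_one]

end Cfsg.Agent.S0240
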