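import Mathlib
import Cfsg.Statements.S0241
import Cfsg.Agent.Lib.Helper2.Dih
import Cfsg.Agent.S0239

set_option autoImplicit false
open Cfsg

namespace Cfsg.Agent.S0241

open Cfsg.Agent.Lib.Helper2.Dih

/-- If x ≠ 1 is conjugate to x⁻¹ in a finite group G and |C_G(x)| is odd, then some involution t satisfies t x t⁻¹ = x⁻¹. -/
theorem result {G : Type*} [Group G] [Finite G] (x : G) (hx : x ≠ 1) (hreal : IsConj x x⁻¹) (hodd : Odd (Nat.card (Subgroup.centralizer ({x} : Set G)))) : ∃ t : G, orderOf t = 2 ∧ t * x * t⁻¹ = x⁻¹ := by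
  obtain ⟨g, hg⟩ := isConj_iff.mp hreal
  have hg2 : g ^ 2 ∈ Subgroup.centralizer ({x} : Set G) := by
    rw [Subgroup.mem_centralizer_iff]
    intro h hh
    rw [Set.mem_singleton_iff] at hh
    subst hh
    have h1 := Cfsg.Agent.S0239.conj_pow_inv hg 2
    rw [if_pos (by decide)] at h1
    calc h * g ^ 2 = (g ^ 2 * h * (g ^ 2)⁻¹) * g ^ 2 := by rw [h1]
      _ = g ^ 2 * h := by group
  have hxx : x * x ≠ 1 := by
    intro h
    have hxm : x ∈ Subgroup.centralizer ({x} : Set G) := by
      rw [Subgroup.mem_centralizer_iff]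
      intro h hh
      rw [Set.mem_singleton_iff] at hh
      rw [hh]
    have h2 : orderOf (⟨x, hxm⟩ : Subgroup.centralizer ({x} : Set G)) = 2 := by
      apply orderOf_eq_two
      · exact Subtype.ext h
      · intro h1
        exact hx (congrArg Subtype.val h1)
    have h3 := orderOf_dvd_natCard (⟨x, hxm⟩ : Subgroup.centralizer ({x} : Set G))
    rw [h2] at h3
    rw [Nat.odd_iff] at hodd
    omega
  have hr : Odd (orderOf (⟨g ^ 2, hg2⟩ : Subgroup.centralizer ({x} : Set G))) :=
    Odd.of_dvd_nat hodd (orderOf_dvd_natCard _)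
  have hr1 : (g ^ 2) ^ (orderOf (⟨g ^ 2, hg2⟩ : Subgroup.centralizer ({x} : Set G))) = 1 := by
    have := pow_orderOf_eq_one (⟨g ^ 2, hg2⟩ : Subgroup.centralizer ({x} : Set G))
    exact congrArg Subtype.val this
  set r := orderOf (⟨g ^ 2, hg2⟩ : Subgroup.centralizer ({x} : Set G)) with hrdef
  have hconj := Cfsg.Agent.S0239.conj_pow_inv hg r
  rw [if_neg (Nat.not_even_iff_odd.mpr hr)] at hconj
  refine ⟨g ^ r, ?_, hconj⟩
  apply orderOf_eq_two
  · rw [← pow_add, ← two_mul, pow_mul]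
    exact hr1
  · intro h1
    rw [h1] at hconj
    simp only [one_mul, inv_one, mul_one] at hconj
    apply hxx
    nth_rewrite 1 [hconj]
    exact inv_mul_cancel x

end Cfsg.Agent.S0241
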