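import Mathlib
import Cfsg.Statements.S0244

set_option autoImplicit false
open Cfsg

namespace Cfsg.Agent.S0244

theorem det_sum_one {R : Type*} [CommRing R] (A : Matrix (Fin 1 ⊕ Fin 1) (Fin 1 ⊕ Fin 1) R) :
    A.det = A (Sum.inl 0) (Sum.inl 0) * A (Sum.inr 0) (Sum.inr 0) - A (Sum.inl 0) (Sum.inr 0) * A (Sum.inr 0) (Sum.inl 0) := by
  rw [← Matrix.det_reindex_self finSumFinEquiv A, Matrix.det_fin_two]
  have h0 : (finSumFinEquiv.symm (0 : Fin (1+1))) = Sum.inl (0 : Fin 1) := by decide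
  have h1 : (finSumFinEquiv.symm (1 : Fin (1+1))) = Sum.inr (0 : Fin 1) := by decide
  simp only [Matrix.reindex_apply, Matrix.submatrix_apply]
  rw [h0, h1]

/-- Sp_2 = SL_2: a matrix on Fin 1 ⊕ Fin 1 lies in Mathlib's symplectic group iff its determinant is 1. -/
theorem result {R : Type*} [CommRing R] (A : Matrix (Fin 1 ⊕ Fin 1) (Fin 1 ⊕ Fin 1) R) : A ∈ Matrix.symplecticGroup (Fin 1) R ↔ A.det = 1 := by
  constructor
  · exact SymplecticGroup.det_eq_one
  · intro h
    rw [det_sum_one] at h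
    rw [← Matrix.fromBlocks_toBlocks A, SymplecticGroup.fromBlocks_mem_iff]
    refine ⟨?_, ?_, ?_⟩
    · ext i j
      fin_cases i; fin_cases j
      simp [Matrix.mul_apply, Matrix.toBlocks₁₁, Matrix.toBlocks₂₁, mul_comm]
    · ext i j
      fin_cases i; fin_cases j
      simp [Matrix.mul_apply, Matrix.toBlocks₁₂, Matrix.toBlocks₂₂, mul_comm]
    · ext i j
      fin_cases i; fin_cases j
      simp [Matrix.mul_apply, Matrix.toBlocks₁₁, Matrix.toBlocks₂₁, Matrix.toBlocks₁₂, Matrix.toBlocks₂₂]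
      linear_combination h


end Cfsg.Agent.S0244
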