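import Mathlib
import Cfsg.Statements.S0247
import Cfsg.Agent.S0245

set_option autoImplicit false
open Cfsg

namespace Cfsg.Agent.S0247

open scoped Matrix

/-- The images of the symplectic basis vectors `e₁, e₂` in the even-weight quotient of `𝔽₂⁶`. -/
def xv : Fin 2 → Fin 6 → ZMod 2 := ![![1,1,0,0,0,0], ![0,0,1,1,0,0]]
/-- The images of the symplectic basis vectors `f₁, f₂`. -/
def yv : Fin 2 → Fin 6 → ZMod 2 := ![![0,1,1,1,1,0], ![0,0,0,1,1,0]]
/-- The `6 × 4` matrix whose columns are the basis vectors. -/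
def Bm : Matrix (Fin 6) (Fin 2 ⊕ Fin 2) (ZMod 2) :=
  Matrix.of fun i j => Sum.elim (fun a => xv a i) (fun a => yv a i) j
/-- The `4 × 6` matrix of dual coordinates. -/
def Cm : Matrix (Fin 2 ⊕ Fin 2) (Fin 6) (ZMod 2) :=
  Matrix.of fun j i => Sum.elim (fun a => yv a i) (fun a => xv a i) j
/-- Auxiliary vector. -/
def lv : Fin 6 → ZMod 2 := ![0,0,0,0,0,1]
/-- Auxiliary vector. -/
def uv : Fin 6 → ZMod 2 := ![1,1,1,1,1,0]

theorem CB : Cm * Bm = 1 := by decide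
theorem BC : Bm * Cm = 1 + Matrix.vecMulVec 1 lv + Matrix.vecMulVec uv 1 := by decide
theorem C1 : Cm *ᵥ 1 = 0 := by decide
theorem oneB : 1 ᵥ* Bm = 0 := by decide
theorem BJB : Bm * Matrix.J (Fin 2) (ZMod 2) * Bmᵀ =
    1 + Matrix.vecMulVec lv 1 + Matrix.vecMulVec 1 uv := by decide
theorem CC : Cm * Cmᵀ = Matrix.J (Fin 2) (ZMod 2) := by decide

/-- The permutation matrix of `σ`, covariantly. -/
def Pm (σ : Equiv.Perm (Fin 6)) : Matrix (Fin 6) (Fin 6) (ZMod 2) := (σ⁻¹).permMatrix (ZMod 2)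

theorem Pm_one : Pm 1 = 1 := by
  unfold Pm
  rw [inv_one, Matrix.permMatrix_one]

theorem Pm_mul (σ τ : Equiv.Perm (Fin 6)) : Pm (σ * τ) = Pm σ * Pm τ := by
  unfold Pm
  rw [mul_inv_rev, Matrix.permMatrix_mul]

theorem Pm_mulVec_one (σ : Equiv.Perm (Fin 6)) : Pm σ *ᵥ 1 = 1 := by
  unfold Pm
  rw [Matrix.permMatrix_mulVec]
  rfl

theorem one_vecMul_Pm (σ : Equiv.Perm (Fin 6)) : 1 ᵥ* Pm σ = 1 := by
  unfold Pm
  rw [Matrix.vecMul_permMatrix]
  rfl

theorem Pm_transpose (σ : Equiv.Perm (Fin 6)) : Pm σ * (Pm σ)ᵀ = 1 := by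
  unfold Pm
  rw [Matrix.transpose_permMatrix, ← Matrix.permMatrix_mul, inv_inv, mul_inv_cancel,
    Matrix.permMatrix_one]

theorem key (X : Matrix (Fin 2 ⊕ Fin 2) (Fin 6) (ZMod 2))
    (Y : Matrix (Fin 6) (Fin 2 ⊕ Fin 2) (ZMod 2)) (hX : X *ᵥ 1 = 0) (hY : 1 ᵥ* Y = 0) :
    X * (Bm * Cm) * Y = X * Y := by
  rw [BC, Matrix.mul_add, Matrix.mul_add, Matrix.mul_one, Matrix.mul_vecMulVec, hX,
    Matrix.add_mul, Matrix.add_mul, Matrix.mul_assoc X (Matrix.vecMulVec uv 1) Y,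
    Matrix.vecMulVec_mul uv 1 Y, hY]
  have h1 : Matrix.vecMulVec (0 : Fin 2 ⊕ Fin 2 → ZMod 2) lv = 0 := by
    ext i j; simp [Matrix.vecMulVec_apply]
  have h2 : Matrix.vecMulVec uv (0 : Fin 2 ⊕ Fin 2 → ZMod 2) = 0 := by
    ext i j; simp [Matrix.vecMulVec_apply]
  rw [h1, h2, Matrix.zero_mul, Matrix.mul_zero, add_zero, add_zero]

theorem mem2 (σ : Equiv.Perm (Fin 6)) :
    Cm * Pm σ * Bm ∈ Matrix.symplecticGroup (Fin 2) (ZMod 2) := by
  rw [SymplecticGroup.mem_iff]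
  have h0 : (Cm * Pm σ) *ᵥ 1 = 0 := by
    rw [← Matrix.mulVec_mulVec, Pm_mulVec_one, C1]
  have e1 : Cm * Pm σ * Bm * Matrix.J (Fin 2) (ZMod 2) * (Cm * Pm σ * Bm)ᵀ =
      (Cm * Pm σ) * (Bm * Matrix.J (Fin 2) (ZMod 2) * Bmᵀ) * (Cm * Pm σ)ᵀ := by
    rw [Matrix.transpose_mul (Cm * Pm σ) Bm]
    simp only [Matrix.mul_assoc]
  rw [e1, BJB, Matrix.mul_add, Matrix.mul_add, Matrix.mul_one, Matrix.mul_vecMulVec,
    Matrix.mul_vecMulVec, h0, Matrix.add_mul, Matrix.add_mul, Matrix.vecMulVec_mul,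
    Matrix.vecMul_transpose, h0]
  have h1 : Matrix.vecMulVec (0 : Fin 2 ⊕ Fin 2 → ZMod 2) uv = 0 := by
    ext i j; simp [Matrix.vecMulVec_apply]
  have h2 : Matrix.vecMulVec ((Cm * Pm σ) *ᵥ lv) (0 : Fin 2 ⊕ Fin 2 → ZMod 2) = 0 := by
    ext i j; simp [Matrix.vecMulVec_apply]
  rw [h1, h2, Matrix.zero_mul, add_zero, add_zero, Matrix.transpose_mul,
    ← Matrix.mul_assoc, Matrix.mul_assoc Cm, Pm_transpose, Matrix.mul_one, CC]

/-- The embedding of `S₆` into `Sp₄(2)`. -/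
def M2 : Equiv.Perm (Fin 6) →* Matrix.symplecticGroup (Fin 2) (ZMod 2) where
  toFun σ := ⟨Cm * Pm σ * Bm, mem2 σ⟩
  map_one' := Subtype.ext (by
    show Cm * Pm 1 * Bm = 1
    rw [Pm_one, Matrix.mul_one, CB])
  map_mul' σ τ := Subtype.ext (by
    show Cm * Pm (σ * τ) * Bm = (Cm * Pm σ * Bm) * (Cm * Pm τ * Bm)
    have h0 : (Cm * Pm σ) *ᵥ 1 = 0 := by
      rw [← Matrix.mulVec_mulVec, Pm_mulVec_one, C1]
    have h1 : 1 ᵥ* (Pm τ * Bm) = 0 := by
      rw [← Matrix.vecMul_vecMul, one_vecMul_Pm, oneB]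
    have h2 := key (Cm * Pm σ) (Pm τ * Bm) h0 h1
    rw [Pm_mul]
    simp only [Matrix.mul_assoc] at h2 ⊢
    exact h2.symm)

theorem ne1 : Cm * Pm (Equiv.swap (0 : Fin 6) 1 * Equiv.swap 1 2) * Bm ≠ 1 := by decide

theorem M2_injective : Function.Injective M2 := by
  rw [← MonoidHom.ker_eq_bot_iff]
  by_contra h
  have hnt : Nontrivial (M2.ker) := (Subgroup.nontrivial_iff_ne_bot _).mpr h
  have hle := Equiv.Perm.alternatingGroup_le_of_normal (by simp) hnt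
  have hc : (Equiv.swap (0 : Fin 6) 1 * Equiv.swap 1 2) ∈ alternatingGroup (Fin 6) := by
    rw [Equiv.Perm.mem_alternatingGroup]
    decide
  have h3 := hle hc
  rw [MonoidHom.mem_ker] at h3
  exact ne1 (congrArg Subtype.val h3)

/-- Base change of symplectic matrices. -/
def mapSp {F : Type*} [Field F] (φ : ZMod 2 →+* F) :
    Matrix.symplecticGroup (Fin 2) (ZMod 2) →* Matrix.symplecticGroup (Fin 2) F where
  toFun A := ⟨A.1.map φ, SymplecticGroup.map_mem A.2 φ⟩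
  map_one' := Subtype.ext (Matrix.map_one φ (map_zero φ) (map_one φ))
  map_mul' A B := Subtype.ext (Matrix.map_mul)

theorem mapSp_injective {F : Type*} [Field F] (φ : ZMod 2 →+* F) :
    Function.Injective (mapSp φ) := by
  intro A B h
  apply Subtype.ext
  have h1 : A.1.map φ = B.1.map φ := congrArg Subtype.val h
  exact Matrix.map_injective φ.injective h1

/-- Sp_4(2) is isomorphic to the symmetric group S_6. -/
theorem result {F : Type*} [Field F] [Fintype F] (hF : Fintype.card F = 2) : Nonempty (Matrix.symplecticGroup (Fin 2) F ≃* Equiv.Perm (Fin 6)) := by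
  have e := ZMod.ringEquivOfPrime F Nat.prime_two hF
  have hinj : Function.Injective ((mapSp (e : ZMod 2 →+* F)).comp M2) :=
    (mapSp_injective _).comp M2_injective
  have hcard : Nat.card (Matrix.symplecticGroup (Fin 2) F) = 720 := by
    rw [Cfsg.Agent.S0245.result hF 2]
    decide
  have hbij : Function.Bijective ((mapSp (e : ZMod 2 →+* F)).comp M2) := by
    rw [Nat.bijective_iff_injective_and_card]
    refine ⟨hinj, ?_⟩
    rw [hcard, Nat.card_perm, Nat.card_eq_fintype_card, Fintype.card_fin]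
    decide
  exact ⟨(MulEquiv.ofBijective _ hbij).symm⟩

end Cfsg.Agent.S0247
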