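import Mathlib
import Cfsg.Statements.S0250
import Cfsg.Agent.S0243
import Cfsg.Agent.S0242
import Cfsg.Agent.Lib.Helper2.PermEmb

set_option autoImplicit false
open Cfsg

namespace Cfsg.Agent.S0250

/-- SL_2(2) is isomorphic to S_3. -/
theorem result {F : Type*} [Field F] [Fintype F] (hF : Fintype.card F = 2) : Nonempty (Matrix.SpecialLinearGroup (Fin 2) F ≃* Equiv.Perm (Fin 3)) := by
  classical
  have hc := Cfsg.Agent.S0242.result (F := F) hF 2 (by norm_num)
  have hz := Cfsg.Agent.S0243.card_center_SL (F := F) 2 (by norm_num)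
  have hP : Nat.card (Projectivization F (Fin 2 → F)) = 3 := by
    rw [Projectivization.card_of_finrank_two F _ (by simp), Nat.card_eq_fintype_card, hF]
  apply Cfsg.Agent.Lib.Helper2.PermEmb.nonempty_mulEquiv_perm 3 hP
    (MulAction.toPermHom (Matrix.SpecialLinearGroup (Fin 2) F) (Projectivization F (Fin 2 → F)))
  · rw [← MonoidHom.ker_eq_bot_iff, Projectivization.SL_mulAction_ker]
    apply Subgroup.eq_bot_of_card_eq
    rw [hz, hF]; decide
  · have h4 : Nat.factorial 3 = 6 := by decide
    rw [Fin.prod_univ_two] at hc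
    rw [h4]
    norm_num [-Nat.card_eq_fintype_card] at hc
    omega

end Cfsg.Agent.S0250
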