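import Mathlib
import Cfsg.Statements.S0252
import Cfsg.Agent.S0243
import Cfsg.Agent.Lib.Helper2.PermEmb

set_option autoImplicit false
open Cfsg

namespace Cfsg.Agent.S0252

/-- PSL_2(4) is isomorphic to A_5. -/
theorem result {F : Type*} [Field F] [Fintype F] (hF : Fintype.card F = 4) : Nonempty (Matrix.ProjectiveSpecialLinearGroup (Fin 2) F ≃* alternatingGroup (Fin 5)) := by
  classical
  have hc := Cfsg.Agent.S0243.result (F := F) hF 2 le_rfl
  have hP : Nat.card (Projectivization F (Fin 2 → F)) = 5 := by
    rw [Projectivization.card_of_finrank_two F _ (by simp), Nat.card_eq_fintype_card, hF]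
  apply Cfsg.Agent.Lib.Helper2.PermEmb.nonempty_mulEquiv_alternatingGroup 5 hP
    Projectivization.PSLAction.toPermHom Matrix.ProjectiveSpecialLinearGroup.toPermHom_injective
  have h2 : Nat.gcd 2 (4 - 1) = 1 := by decide
  have h4 : Nat.factorial 5 = 120 := by decide
  rw [h2, Fin.prod_univ_two] at hc
  rw [h4]
  norm_num [-Nat.card_eq_fintype_card] at hc
  omega

end Cfsg.Agent.S0252
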