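import Cfsg.Statements.S0257
import Mathlib
import Cfsg.Agent.S0243
import Cfsg.Agent.S2301
import Cfsg.Agent.Lib.Helper13.SL2Ind
import Cfsg.Agent.Lib.Helper2.SLGen

set_option autoImplicit false
open Cfsg

namespace Cfsg.Agent.S0257

open Cfsg.Agent.S2301 Cfsg.Agent.Lib.Helper13.SL2Ind

section

variable {F : Type*} [Field F]

theorem sl2_induction (P : Matrix.SpecialLinearGroup (Fin 2) F → Prop)
    (hu : ∀ c : F, P (uMat c)) (hl : ∀ c : F, P (lS c))
    (hmul : ∀ A B, P A → P B → P (A * B)) (A : Matrix.SpecialLinearGroup (Fin 2) F) : P A := by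
  refine Cfsg.Agent.Lib.Helper2.SLGen.transvection_induction P ?_ hmul A
  intro i j hij c
  have h01 : ∀ (h : (0 : Fin 2) ≠ 1), Matrix.SpecialLinearGroup.transvection h c = uMat c := by
    intro h
    apply Subtype.ext
    rw [Matrix.SpecialLinearGroup.transvection_coe, uMat_val]
    ext i j
    fin_cases i <;> fin_cases j <;> simp [Matrix.single_apply]
  have h10 : ∀ (h : (1 : Fin 2) ≠ 0), Matrix.SpecialLinearGroup.transvection h c = lS c := by
    intro h
    apply Subtype.ext
    rw [Matrix.SpecialLinearGroup.transvection_coe, lS_val]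
    ext i j
    fin_cases i <;> fin_cases j <;> simp [Matrix.single_apply]
  fin_cases i <;> fin_cases j
  · exact absurd rfl hij
  · show P (Matrix.SpecialLinearGroup.transvection _ c)
    rw [h01]; exact hu c
  · show P (Matrix.SpecialLinearGroup.transvection _ c)
    rw [h10]; exact hl c
  · exact absurd rfl hij

variable (h3 : (3 : F) = 0)

/-- the element `i` -/
def iE (F : Type*) [Field F] : Matrix.SpecialLinearGroup (Fin 2) F :=
  ⟨!![0, 1; -1, 0], by simp [Matrix.det_fin_two]⟩

/-- the element `j` (in characteristic 3) -/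
def jE {F : Type*} [Field F] (h3 : (3 : F) = 0) : Matrix.SpecialLinearGroup (Fin 2) F :=
  ⟨!![1, 1; 1, -1], by rw [Matrix.det_fin_two_of]; linear_combination -h3⟩

theorem iE_val : (iE F).1 = !![0, 1; -1, 0] := rfl

theorem jE_val : (jE h3).1 = !![1, 1; 1, -1] := rfl

theorem sl_ext {A B : Matrix.SpecialLinearGroup (Fin 2) F} (h00 : A.1 0 0 = B.1 0 0)
    (h01 : A.1 0 1 = B.1 0 1) (h10 : A.1 1 0 = B.1 1 0) (h11 : A.1 1 1 = B.1 1 1) : A = B := by
  apply Subtype.ext
  ext i j
  fin_cases i <;> fin_cases j
  · exact h00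
  · exact h01
  · exact h10
  · exact h11

theorem iE4 : iE F * iE F * iE F * iE F = 1 := by
  apply sl_ext <;>
    simp [Matrix.SpecialLinearGroup.coe_mul, iE_val, Matrix.mul_apply, Fin.sum_univ_two]

theorem jEjE : jE h3 * jE h3 = iE F * iE F := by
  apply sl_ext <;>
    simp [Matrix.SpecialLinearGroup.coe_mul, iE_val, jE_val, Matrix.mul_apply, Fin.sum_univ_two] <;>
    first
      | linear_combination h3
      | linear_combination -h3
      | linear_combination (0 : F) * h3

theorem iEjEiE : iE F * jE h3 * iE F = jE h3 := by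
  apply sl_ext <;>
    simp [Matrix.SpecialLinearGroup.coe_mul, iE_val, jE_val, Matrix.mul_apply, Fin.sum_univ_two]

theorem E1 : uMat 1 * iE F = jE h3 * (iE F * iE F) * uMat 1 := by
  apply sl_ext <;>
    simp [Matrix.SpecialLinearGroup.coe_mul, iE_val, jE_val, uMat_val, Matrix.mul_apply, Fin.sum_univ_two] <;>
    first
      | linear_combination h3
      | linear_combination -h3
      | linear_combination (0 : F) * h3

theorem E2 : uMat 1 * jE h3 = jE h3 * iE F * uMat 1 := by
  apply sl_ext <;>
    simp [Matrix.SpecialLinearGroup.coe_mul, iE_val, jE_val, uMat_val, Matrix.mul_apply, Fin.sum_univ_two] <;>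
    first
      | linear_combination h3
      | linear_combination -h3
      | linear_combination (0 : F) * h3

theorem E3 : uMat (-1) * iE F = jE h3 * (iE F * iE F * iE F) * uMat (-1) := by
  apply sl_ext <;>
    simp [Matrix.SpecialLinearGroup.coe_mul, iE_val, jE_val, uMat_val, Matrix.mul_apply, Fin.sum_univ_two] <;>
    first
      | linear_combination h3
      | linear_combination -h3
      | linear_combination (0 : F) * h3

theorem E4 : uMat (-1) * jE h3 = iE F * iE F * iE F * uMat (-1) := by
  apply sl_ext <;>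
    simp [Matrix.SpecialLinearGroup.coe_mul, iE_val, jE_val, uMat_val, Matrix.mul_apply, Fin.sum_univ_two] <;>
    first
      | linear_combination h3
      | linear_combination -h3
      | linear_combination (0 : F) * h3

theorem E5 : lS 1 * iE F = jE h3 * iE F * lS 1 := by
  apply sl_ext <;>
    simp [Matrix.SpecialLinearGroup.coe_mul, iE_val, jE_val, lS_val, Matrix.mul_apply, Fin.sum_univ_two] <;>
    first
      | linear_combination h3
      | linear_combination -h3
      | linear_combination (0 : F) * h3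

theorem E6 : lS 1 * jE h3 = iE F * lS 1 := by
  apply sl_ext <;>
    simp [Matrix.SpecialLinearGroup.coe_mul, iE_val, jE_val, lS_val, Matrix.mul_apply, Fin.sum_univ_two] <;>
    first
      | linear_combination h3
      | linear_combination -h3
      | linear_combination (0 : F) * h3

theorem E7 : lS (-1) * iE F = jE h3 * lS (-1) := by
  apply sl_ext <;>
    simp [Matrix.SpecialLinearGroup.coe_mul, iE_val, jE_val, lS_val, Matrix.mul_apply, Fin.sum_univ_two] <;>
    first
      | linear_combination h3
      | linear_combination -h3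
      | linear_combination (0 : F) * h3

theorem E8 : lS (-1) * jE h3 = jE h3 * iE F * lS (-1) := by
  apply sl_ext <;>
    simp [Matrix.SpecialLinearGroup.coe_mul, iE_val, jE_val, lS_val, Matrix.mul_apply, Fin.sum_univ_two] <;>
    first
      | linear_combination h3
      | linear_combination -h3
      | linear_combination (0 : F) * h3

end

section main

variable {F : Type*} [Field F] (h3 : (3 : F) = 0)

theorem iE_pow4 : iE F ^ 4 = 1 := by
  rw [pow_succ, pow_succ, pow_succ, pow_one]
  exact iE4

/-- powers of `i` indexed by `ZMod 4` -/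
def pw (F : Type*) [Field F] (i : ZMod (2 * 2)) : Matrix.SpecialLinearGroup (Fin 2) F := iE F ^ i.val

theorem pw_add (i j : ZMod (2 * 2)) : pw F (i + j) = pw F i * pw F j := by
  have : NeZero (2 * 2) := ⟨by norm_num⟩
  unfold pw
  have h : (i + j).val = (i.val + j.val) % 4 := ZMod.val_add i j
  rw [h, ← pow_add]
  exact (pow_eq_pow_mod _ iE_pow4).symm

theorem pw_zero : pw F 0 = 1 := by
  unfold pw
  rw [ZMod.val_zero, pow_zero]

theorem pw_neg (i : ZMod (2 * 2)) : pw F (-i) = (pw F i)⁻¹ := by
  apply eq_inv_of_mul_eq_one_left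
  rw [← pw_add, neg_add_cancel, pw_zero]

theorem pw_one : pw F 1 = iE F := by
  unfold pw
  have : (1 : ZMod (2 * 2)).val = 1 := rfl
  rw [this, pow_one]

theorem pw_two : pw F 2 = iE F * iE F := by
  unfold pw
  have : (2 : ZMod (2 * 2)).val = 2 := rfl
  rw [this, pow_two]

theorem comm_pow (k : ℕ) : iE F ^ k * jE h3 = jE h3 * (iE F ^ k)⁻¹ := by
  induction k with
  | zero => simp
  | succ k ih =>
    have h1 : iE F * jE h3 = jE h3 * (iE F)⁻¹ := by
      rw [eq_mul_inv_iff_mul_eq]
      exact iEjEiE h3
    rw [pow_succ, mul_assoc, h1, ← mul_assoc, ih, mul_assoc, ← mul_inv_rev, ← pow_succ', ← pow_succ]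

theorem comm_pw (i : ZMod (2 * 2)) : pw F i * jE h3 = jE h3 * pw F (-i) := by
  rw [pw_neg]
  exact comm_pow h3 _

theorem pw_entries (i : ZMod (2 * 2)) : (pw F i).1 0 0 * (pw F i).1 0 1 = 0 := by
  have : NeZero (2 * 2) := ⟨by norm_num⟩
  unfold pw
  have hk : i.val < 4 := ZMod.val_lt i
  generalize i.val = k at hk
  interval_cases k <;>
    simp [pow_succ, iE_val, Matrix.mul_apply, Fin.sum_univ_two, Matrix.SpecialLinearGroup.coe_mul]

include h3 in
theorem pw_eq_one {i : ZMod (2 * 2)} (h : pw F i = 1) : i = 0 := by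
  have : NeZero (2 * 2) := ⟨by norm_num⟩
  unfold pw at h
  have hk : i.val < 4 := ZMod.val_lt i
  rw [← ZMod.val_eq_zero]
  generalize i.val = k at hk h
  have h00 := congrArg (fun A : Matrix.SpecialLinearGroup (Fin 2) F => A.1 0 0) h
  have h01 := congrArg (fun A : Matrix.SpecialLinearGroup (Fin 2) F => A.1 0 1) h
  interval_cases k
  · rfl
  · exfalso
    simp [iE_val] at h01
  · exfalso
    simp [pow_succ, iE_val, Matrix.mul_apply, Fin.sum_univ_two, Matrix.SpecialLinearGroup.coe_mul] at h00
    have h1 : (1 : F) = 0 := by linear_combination h3 + h00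
    exact one_ne_zero h1
  · exfalso
    simp [pow_succ, iE_val, Matrix.mul_apply, Fin.sum_univ_two, Matrix.SpecialLinearGroup.coe_mul] at h01

/-- the embedding of the quaternion group -/
def fQ : QuaternionGroup 2 → Matrix.SpecialLinearGroup (Fin 2) F
  | QuaternionGroup.a i => pw F i
  | QuaternionGroup.xa i => jE h3 * pw F i

theorem fQ_mul (x y : QuaternionGroup 2) : fQ h3 (x * y) = fQ h3 x * fQ h3 y := by
  rcases x with i | i <;> rcases y with j | j
  · show pw F (i + j) = pw F i * pw F j
    exact pw_add i j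
  · show jE h3 * pw F (j - i) = pw F i * (jE h3 * pw F j)
    rw [← mul_assoc, comm_pw, mul_assoc, ← pw_add]
    congr 2
    ring
  · show jE h3 * pw F (i + j) = jE h3 * pw F i * pw F j
    rw [pw_add, mul_assoc]
  · show pw F ((2 : ℕ) + j - i) = jE h3 * pw F i * (jE h3 * pw F j)
    have e1 : jE h3 * pw F i * (jE h3 * pw F j) = jE h3 * (pw F i * jE h3) * pw F j := by group
    rw [e1, comm_pw, ← mul_assoc, jEjE, ← pw_two, ← pw_add, ← pw_add]
    congr 1
    push_cast
    ring

/-- the embedding as a homomorphism -/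
def fHom : QuaternionGroup 2 →* Matrix.SpecialLinearGroup (Fin 2) F :=
  MonoidHom.mk' (fQ h3) (fQ_mul h3)

theorem fHom_inj : Function.Injective (fHom h3) := by
  rw [injective_iff_map_eq_one]
  intro x hx
  rcases x with i | i
  · have h : pw F i = 1 := hx
    rw [pw_eq_one h3 h]
    rfl
  · exfalso
    have h : jE h3 * pw F i = 1 := hx
    have h1 : jE h3 = pw F (-i) := by
      rw [pw_neg]
      exact eq_inv_of_mul_eq_one_left h
    have h2 := pw_entries (F := F) (-i)
    rw [← h1, jE_val] at h2
    simp at h2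

theorem iE_mem : iE F ∈ (fHom h3).range := ⟨QuaternionGroup.a 1, pw_one⟩

theorem jE_mem : jE h3 ∈ (fHom h3).range :=
  ⟨QuaternionGroup.xa 0, by show jE h3 * pw F 0 = jE h3; rw [pw_zero, mul_one]⟩

theorem conj_gen (s : Matrix.SpecialLinearGroup (Fin 2) F)
    (hI : s * iE F * s⁻¹ ∈ (fHom h3).range) (hJ : s * jE h3 * s⁻¹ ∈ (fHom h3).range) :
    ∀ x ∈ (fHom h3).range, s * x * s⁻¹ ∈ (fHom h3).range := by
  have hp : ∀ k : ℕ, s * iE F ^ k * s⁻¹ ∈ (fHom h3).range := by
    intro k
    rw [← conj_pow]
    exact pow_mem hI k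
  rintro _ ⟨q, rfl⟩
  rcases q with i | i
  · exact hp _
  · show s * (jE h3 * iE F ^ i.val) * s⁻¹ ∈ _
    have : s * (jE h3 * iE F ^ i.val) * s⁻¹ = (s * jE h3 * s⁻¹) * (s * iE F ^ i.val * s⁻¹) := by group
    rw [this]
    exact mul_mem hJ (hp _)

theorem conj_eq {G : Type*} [Group G] {s x y : G} (h : s * x = y * s) : s * x * s⁻¹ = y := by
  rw [mul_inv_eq_iff_eq_mul]
  exact h

theorem normal_range (hcard : ∀ c : F, c ^ 3 = c) : ((fHom h3).range).Normal := by
  have hF3 : ∀ c : F, c = 0 ∨ c = 1 ∨ c = -1 := by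
    intro c
    have hc := hcard c
    have : c * ((c - 1) * (c + 1)) = 0 := by linear_combination hc
    rcases mul_eq_zero.mp this with h | h
    · exact Or.inl h
    · rcases mul_eq_zero.mp h with h | h
      · exact Or.inr (Or.inl (sub_eq_zero.mp h))
      · exact Or.inr (Or.inr (eq_neg_of_add_eq_zero_left h))
  have hI := iE_mem (F := F) h3
  have hJ := jE_mem (F := F) h3
  have key : ∀ s : Matrix.SpecialLinearGroup (Fin 2) F,
      ∀ x ∈ (fHom h3).range, s * x * s⁻¹ ∈ (fHom h3).range := by
    intro s
    refine sl2_induction (fun s => ∀ x ∈ (fHom h3).range, s * x * s⁻¹ ∈ (fHom h3).range) ?_ ?_ ?_ s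
    · intro c
      rcases hF3 c with rfl | rfl | rfl
      · intro x hx
        rw [uMat_zero]
        simpa using hx
      · apply conj_gen
        · rw [conj_eq (E1 h3)]
          exact mul_mem hJ (mul_mem hI hI)
        · rw [conj_eq (E2 h3)]
          exact mul_mem hJ hI
      · apply conj_gen
        · rw [conj_eq (E3 h3)]
          exact mul_mem hJ (mul_mem (mul_mem hI hI) hI)
        · rw [conj_eq (E4 h3)]
          exact mul_mem (mul_mem hI hI) hI
    · intro c
      rcases hF3 c with rfl | rfl | rfl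
      · intro x hx
        have : lS (0 : F) = 1 := by
          apply sl_ext <;> simp [lS_val]
        rw [this]
        simpa using hx
      · apply conj_gen
        · rw [conj_eq (E5 h3)]
          exact mul_mem hJ hI
        · rw [conj_eq (E6 h3)]
          exact hI
      · apply conj_gen
        · rw [conj_eq (E7 h3)]
          exact hJ
        · rw [conj_eq (E8 h3)]
          exact mul_mem hJ hI
    · intro A B hA hB x hx
      have : A * B * x * (A * B)⁻¹ = A * (B * x * B⁻¹) * A⁻¹ := by group
      rw [this]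
      exact hA _ (hB _ hx)
  exact ⟨fun x hx s => key s x hx⟩

end main

/-- SL_2(3) has a normal subgroup of index 3 isomorphic to the quaternion group of order 8, and its centre has order 2. -/
theorem result {F : Type*} [Field F] [Fintype F] (hF : Fintype.card F = 3) : (∃ Q : Subgroup (Matrix.SpecialLinearGroup (Fin 2) F), Q.Normal ∧ Q.index = 3 ∧ Nonempty (Q ≃* QuaternionGroup 2)) ∧ Nat.card (Subgroup.center (Matrix.SpecialLinearGroup (Fin 2) F)) = 2 := by
  classical
  have h3 : (3 : F) = 0 := by
    have := Nat.cast_card_eq_zero F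
    rw [hF] at this
    exact_mod_cast this
  have hcard : ∀ c : F, c ^ 3 = c := by
    intro c
    have := FiniteField.pow_card c
    rwa [hF] at this
  refine ⟨⟨(fHom h3).range, normal_range h3 hcard, ?_, ⟨(MonoidHom.ofInjective (fHom_inj h3)).symm⟩⟩, ?_⟩
  · have h1 := ((fHom h3).range).card_mul_index
    have h2 : Nat.card ((fHom h3).range) = 8 := by
      rw [← Nat.card_congr (MonoidHom.ofInjective (fHom_inj h3)).toEquiv, Nat.card_eq_fintype_card,
        QuaternionGroup.card]
    rw [h2, Cfsg.Agent.S2301.card_SL2, hF] at h1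
    omega
  · rw [Cfsg.Agent.S0243.card_center_SL 2 (by norm_num), hF]
    rfl

end Cfsg.Agent.S0257
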