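import Mathlib
import Cfsg.Statements.S0263

set_option autoImplicit false
open Cfsg

namespace Cfsg.Agent.S0263

theorem prod_eq (q n : ℕ) (hq : 1 ≤ q) :
    ∏ i : Fin n, (q ^ n - q ^ (i : ℕ)) = q ^ (n * (n - 1) / 2) * ∏ i : Fin n, (q ^ (n - (i : ℕ)) - 1) := by
  have h1 : ∀ i : Fin n, q ^ n - q ^ (i : ℕ) = q ^ (i : ℕ) * (q ^ (n - (i : ℕ)) - 1) := by
    intro i
    have hi : (i : ℕ) ≤ n := i.2.le
    rw [Nat.mul_sub, mul_one, ← pow_add, Nat.add_sub_cancel' hi]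
  rw [Finset.prod_congr rfl (fun i _ => h1 i), Finset.prod_mul_distrib]
  congr 1
  rw [Finset.prod_pow_eq_pow_sum, Fin.sum_univ_eq_sum_range (fun i => i) n, Finset.sum_range_id]

theorem not_dvd_prod (p q n : ℕ) (hp : p.Prime) (hpq : p ∣ q) (hq : 1 ≤ q) :
    ¬ p ∣ ∏ i : Fin n, (q ^ (n - (i : ℕ)) - 1) := by
  intro h
  rw [Prime.dvd_finsetProd_iff (Nat.prime_iff.mp hp)] at h
  obtain ⟨i, _, hi⟩ := h
  have h1 : p ∣ q ^ (n - (i : ℕ)) := dvd_pow hpq (by have := i.2; omega)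
  have h2 : 1 ≤ q ^ (n - (i : ℕ)) := Nat.one_le_pow _ _ hq
  have h3 : p ∣ 1 := by
    have := (Nat.dvd_sub_iff_right h2 h1).mp hi
    exact this
  exact hp.one_lt.ne' (Nat.dvd_one.mp h3)

/-- A Sylow p-subgroup of GL_n(q), p the characteristic, has order q^(n(n-1)/2). -/
theorem result {F : Type*} [Field F] [Fintype F] {q : ℕ} (hF : Fintype.card F = q) (p : ℕ) [Fact p.Prime] [CharP F p] (n : ℕ) (P : Sylow p (Matrix.GeneralLinearGroup (Fin n) F)) : Nat.card P = q ^ (n * (n - 1) / 2) := by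
  subst hF
  obtain ⟨f, hp, hq⟩ := FiniteField.card F p
  have hq1 : 1 ≤ Fintype.card F := Fintype.card_pos
  have hpq : p ∣ Fintype.card F := by
    rw [hq]
    exact dvd_pow_self p f.pos.ne'
  have hnd := not_dvd_prod p (Fintype.card F) n hp hpq hq1
  rw [Sylow.card_eq_multiplicity, Matrix.card_GL_field, prod_eq _ _ hq1]
  have hm0 : ∏ i : Fin n, (Fintype.card F ^ (n - (i : ℕ)) - 1) ≠ 0 := by
    intro h0
    apply hnd
    rw [h0]
    exact dvd_zero p
  have hpow0 : Fintype.card F ^ (n * (n - 1) / 2) ≠ 0 := pow_ne_zero _ (by omega)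
  rw [Nat.factorization_mul hpow0 hm0, Finsupp.add_apply, Nat.factorization_eq_zero_of_not_dvd hnd,
    add_zero]
  conv_lhs => rw [hq]
  rw [← pow_mul, Nat.Prime.factorization_pow hp, Finsupp.single_eq_same, hq, ← pow_mul]

end Cfsg.Agent.S0263
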