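import Mathlib
import Cfsg.Statements.S0265
import Cfsg.Agent.S0242

set_option autoImplicit false
open Cfsg

namespace Cfsg.Agent.S0265

theorem scalar_injective {F : Type*} [Field F] (n : ℕ) (hn : 1 ≤ n) :
    Function.Injective (Matrix.GeneralLinearGroup.scalar (Fin n) : Fˣ →* Matrix.GeneralLinearGroup (Fin n) F) := by
  intro a b hab
  apply Units.ext
  have h1 : (Matrix.GeneralLinearGroup.scalar (Fin n) a : Matrix (Fin n) (Fin n) F) ⟨0, hn⟩ ⟨0, hn⟩
      = (Matrix.GeneralLinearGroup.scalar (Fin n) b : Matrix (Fin n) (Fin n) F) ⟨0, hn⟩ ⟨0, hn⟩ := by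
    rw [hab]
  simpa using h1

/-- |PGL_n(q)| = |SL_n(q)|: GL_n modulo its centre (the q-1 non-zero scalars) has the same order as the kernel of det. -/
theorem result {F : Type*} [Field F] [Fintype F] (n : ℕ) : Nat.card (Matrix.ProjGenLinGroup (Fin n) F) = Nat.card (Matrix.SpecialLinearGroup (Fin n) F) := by
  rcases Nat.eq_zero_or_pos n with rfl | hn
  · have h1 : Subsingleton (Matrix.SpecialLinearGroup (Fin 0) F) :=
      ⟨fun a b => Subtype.ext (Subsingleton.elim _ _)⟩
    have h2 : Subsingleton (Matrix.GeneralLinearGroup (Fin 0) F) :=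
      ⟨fun a b => Units.ext (Subsingleton.elim _ _)⟩
    have h3 : Subsingleton (Matrix.ProjGenLinGroup (Fin 0) F) := by
      unfold Matrix.ProjGenLinGroup
      infer_instance
    rw [Nat.card_of_subsingleton (1 : Matrix.SpecialLinearGroup (Fin 0) F),
      Nat.card_of_subsingleton (1 : Matrix.ProjGenLinGroup (Fin 0) F)]
  · have h1 := Cfsg.Agent.S0242.card_SL_mul (F := F) n hn
    have h2 : Nat.card (Matrix.GeneralLinearGroup (Fin n) F)
        = Nat.card (Matrix.ProjGenLinGroup (Fin n) F)
          * Nat.card (Subgroup.center (Matrix.GeneralLinearGroup (Fin n) F)) :=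
      Subgroup.card_eq_card_quotient_mul_card_subgroup _
    have h3 : Nat.card (Subgroup.center (Matrix.GeneralLinearGroup (Fin n) F)) = Fintype.card F - 1 := by
      rw [Matrix.GeneralLinearGroup.center_eq_range_scalar]
      have h4 : Nat.card (Set.range (Matrix.GeneralLinearGroup.scalar (Fin n) : Fˣ →* Matrix.GeneralLinearGroup (Fin n) F)) = Nat.card Fˣ :=
        Nat.card_range_of_injective (scalar_injective (F := F) n hn)
      rw [Nat.card_units, Nat.card_eq_fintype_card (α := F)] at h4
      exact h4
    rw [h2, h3] at h1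
    have hq : 0 < Fintype.card F - 1 := by
      have := Fintype.one_lt_card (α := F)
      omega
    rw [mul_comm] at h1
    exact (Nat.eq_of_mul_eq_mul_right hq h1).symm

end Cfsg.Agent.S0265
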