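import Cfsg.Statements.S0266
import Mathlib

set_option autoImplicit false
open Cfsg

namespace Cfsg.Agent.S0266

open Matrix

variable {F : Type*} [Field F]

/-- the cross product of two plane vectors -/
def cr (u v : Fin 2 → F) : F := u 0 * v 1 - u 1 * v 0

theorem vec_ne_zero {u : Fin 2 → F} : u ≠ 0 ↔ u 0 ≠ 0 ∨ u 1 ≠ 0 := by
  constructor
  · intro h
    by_contra h'
    push Not at h'
    apply h
    ext i
    fin_cases i
    · exact h'.1
    · exact h'.2
  · rintro h rfl
    simp at h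

theorem mk_eq_iff_cr (u v : Fin 2 → F) (hu : u ≠ 0) (hv : v ≠ 0) :
    Projectivization.mk F u hu = Projectivization.mk F v hv ↔ cr u v = 0 := by
  rw [Projectivization.mk_eq_mk_iff']
  constructor
  · rintro ⟨a, rfl⟩
    simp only [cr, Pi.smul_apply, smul_eq_mul]
    ring
  · intro h
    unfold cr at h
    by_cases hv0 : v 0 = 0
    · have hv1 : v 1 ≠ 0 := by
        rcases vec_ne_zero.mp hv with h' | h'
        · exact absurd hv0 h'
        · exact h'
      have hu0 : u 0 = 0 := by
        rw [hv0, mul_zero, sub_zero] at h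
        rcases mul_eq_zero.mp h with h' | h'
        · exact h'
        · exact absurd h' hv1
      refine ⟨u 1 / v 1, ?_⟩
      ext i
      fin_cases i
      · simp [hv0, hu0]
      · simp only [Pi.smul_apply, smul_eq_mul]
        show u 1 / v 1 * v 1 = u 1
        field_simp
    · refine ⟨u 0 / v 0, ?_⟩
      ext i
      fin_cases i
      · simp only [Pi.smul_apply, smul_eq_mul]
        show u 0 / v 0 * v 0 = u 0
        field_simp
      · simp only [Pi.smul_apply, smul_eq_mul]
        show u 0 / v 0 * v 1 = u 1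
        field_simp
        linear_combination h

theorem e0_ne : (![1, 0] : Fin 2 → F) ≠ 0 := vec_ne_zero.mpr (Or.inl (by simp))
theorem e1_ne : (![0, 1] : Fin 2 → F) ≠ 0 := vec_ne_zero.mpr (Or.inr (by simp))
theorem e2_ne : (![1, 1] : Fin 2 → F) ≠ 0 := vec_ne_zero.mpr (Or.inl (by simp))

/-- the standard triple of points -/
def std (F : Type*) [Field F] : Fin 3 → Projectivization F (Fin 2 → F) :=
  ![Projectivization.mk F ![1, 0] e0_ne, Projectivization.mk F ![0, 1] e1_ne,
    Projectivization.mk F ![1, 1] e2_ne]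

theorem smul_mk_eq (A : GL (Fin 2) F) (v w : Fin 2 → F) (hv : v ≠ 0) (hw : w ≠ 0) :
    (Matrix.ProjGenLinGroup.mk A : Matrix.ProjGenLinGroup (Fin 2) F) • Projectivization.mk F v hv
      = Projectivization.mk F w hw ↔ cr (A.1 *ᵥ v) w = 0 := by
  rw [Projectivization.PGL.mk_smul_mk, mk_eq_iff_cr]
  rfl

theorem exists_std (x : Fin 3 → Projectivization F (Fin 2 → F)) (h01 : x 0 ≠ x 1)
    (h02 : x 0 ≠ x 2) (h12 : x 1 ≠ x 2) :
    ∃ g : Matrix.ProjGenLinGroup (Fin 2) F, ∀ i, g • std F i = x i := by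
  obtain ⟨v0, hv0⟩ : ∃ v, v = (x 0).rep := ⟨_, rfl⟩
  obtain ⟨v1, hv1⟩ : ∃ v, v = (x 1).rep := ⟨_, rfl⟩
  obtain ⟨v2, hv2⟩ : ∃ v, v = (x 2).rep := ⟨_, rfl⟩
  have n0 : v0 ≠ 0 := hv0 ▸ (x 0).rep_nonzero
  have n1 : v1 ≠ 0 := hv1 ▸ (x 1).rep_nonzero
  have n2 : v2 ≠ 0 := hv2 ▸ (x 2).rep_nonzero
  have x0 : x 0 = Projectivization.mk F v0 n0 := by subst hv0; exact (Projectivization.mk_rep _).symm
  have x1 : x 1 = Projectivization.mk F v1 n1 := by subst hv1; exact (Projectivization.mk_rep _).symm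
  have x2 : x 2 = Projectivization.mk F v2 n2 := by subst hv2; exact (Projectivization.mk_rep _).symm
  rw [x0, x1] at h01
  rw [x0, x2] at h02
  rw [x1, x2] at h12
  have hD : cr v0 v1 ≠ 0 := fun h => h01 ((mk_eq_iff_cr _ _ _ _).mpr h)
  have hb : cr v0 v2 ≠ 0 := fun h => h02 ((mk_eq_iff_cr _ _ _ _).mpr h)
  have ha : cr v2 v1 ≠ 0 := by
    intro h
    apply h12
    rw [mk_eq_iff_cr]
    unfold cr at h ⊢
    linear_combination -h
  let A : GL (Fin 2) F := Matrix.GeneralLinearGroup.mkOfDetNeZero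
    !![cr v2 v1 * v0 0, cr v0 v2 * v1 0; cr v2 v1 * v0 1, cr v0 v2 * v1 1] (by
      rw [Matrix.det_fin_two_of]
      have : cr v2 v1 * v0 0 * (cr v0 v2 * v1 1) - cr v0 v2 * v1 0 * (cr v2 v1 * v0 1)
          = cr v2 v1 * cr v0 v2 * cr v0 v1 := by unfold cr; ring
      rw [this]
      exact mul_ne_zero (mul_ne_zero ha hb) hD)
  have hA : A.1 = !![cr v2 v1 * v0 0, cr v0 v2 * v1 0; cr v2 v1 * v0 1, cr v0 v2 * v1 1] := rfl
  refine ⟨Matrix.ProjGenLinGroup.mk A, ?_⟩
  intro i
  fin_cases i
  · show Matrix.ProjGenLinGroup.mk A • Projectivization.mk F ![1, 0] e0_ne = x 0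
    rw [x0, smul_mk_eq, hA]
    simp only [cr, Matrix.mulVec, dotProduct, Fin.sum_univ_two, Matrix.of_apply, Matrix.cons_val_zero,
      Matrix.cons_val_one, Matrix.cons_val', Matrix.cons_val_fin_one]
    ring
  · show Matrix.ProjGenLinGroup.mk A • Projectivization.mk F ![0, 1] e1_ne = x 1
    rw [x1, smul_mk_eq, hA]
    simp only [cr, Matrix.mulVec, dotProduct, Fin.sum_univ_two, Matrix.of_apply, Matrix.cons_val_zero,
      Matrix.cons_val_one, Matrix.cons_val', Matrix.cons_val_fin_one]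
    ring
  · show Matrix.ProjGenLinGroup.mk A • Projectivization.mk F ![1, 1] e2_ne = x 2
    rw [x2, smul_mk_eq, hA]
    simp only [cr, Matrix.mulVec, dotProduct, Fin.sum_univ_two, Matrix.of_apply, Matrix.cons_val_zero,
      Matrix.cons_val_one, Matrix.cons_val', Matrix.cons_val_fin_one]
    ring

theorem fix_std (g : Matrix.ProjGenLinGroup (Fin 2) F) (h : ∀ i, g • std F i = std F i) : g = 1 := by
  induction g using Matrix.ProjGenLinGroup.induction_on with | mk B =>
  have h0 := h 0
  have h1 := h 1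
  have h2 := h 2
  change Matrix.ProjGenLinGroup.mk B • Projectivization.mk F ![1, 0] e0_ne = Projectivization.mk F ![1, 0] e0_ne at h0
  change Matrix.ProjGenLinGroup.mk B • Projectivization.mk F ![0, 1] e1_ne = Projectivization.mk F ![0, 1] e1_ne at h1
  change Matrix.ProjGenLinGroup.mk B • Projectivization.mk F ![1, 1] e2_ne = Projectivization.mk F ![1, 1] e2_ne at h2
  rw [smul_mk_eq] at h0 h1 h2
  simp [cr, Matrix.mulVec, dotProduct, Fin.sum_univ_two] at h0 h1 h2
  have hdet : B.1.det ≠ 0 := by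
    rw [← Matrix.GeneralLinearGroup.val_det_apply]
    exact Units.ne_zero _
  rw [Matrix.det_fin_two, h0, h1] at hdet
  have h00 : B.1 0 0 ≠ 0 := by
    intro h'
    apply hdet
    rw [h']
    ring
  rw [← Matrix.ProjGenLinGroup.mk_one, Matrix.ProjGenLinGroup.mk_eq_mk_iff]
  refine ⟨(Units.mk0 _ h00)⁻¹, Units.ext ?_⟩
  simp only [Units.val_mul, Matrix.GeneralLinearGroup.coe_scalar, Units.val_one]
  have h11 : B.1 1 1 = B.1 0 0 := by linear_combination -h2 + h1 - h0
  ext i j
  rw [Matrix.scalar_apply, Matrix.mul_diagonal]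
  fin_cases i <;> fin_cases j <;> simp [h0, h1, h00, h11]

/-- PGL_2(F) is sharply 3-transitive on the projective line: it is 3-transitive and the stabiliser of three distinct points is trivial. -/
theorem result {F : Type*} [Field F] : MulAction.IsMultiplyPretransitive (Matrix.ProjGenLinGroup (Fin 2) F) (Projectivization F (Fin 2 → F)) 3 ∧ ∀ (g : Matrix.ProjGenLinGroup (Fin 2) F) (a b c : Projectivization F (Fin 2 → F)), a ≠ b → a ≠ c → b ≠ c → g • a = a → g • b = b → g • c = c → g = 1 := by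
  constructor
  · refine ⟨fun x y => ?_⟩
    have hx : ∀ i j, i ≠ j → x i ≠ x j := fun i j hij h => hij (x.injective h)
    have hy : ∀ i j, i ≠ j → y i ≠ y j := fun i j hij h => hij (y.injective h)
    obtain ⟨g, hg⟩ := exists_std (fun i => x i) (hx 0 1 (by decide)) (hx 0 2 (by decide)) (hx 1 2 (by decide))
    obtain ⟨k, hk⟩ := exists_std (fun i => y i) (hy 0 1 (by decide)) (hy 0 2 (by decide)) (hy 1 2 (by decide))
    refine ⟨k * g⁻¹, ?_⟩
    ext i
    show (k * g⁻¹) • x i = y i
    rw [← hg i, mul_smul, inv_smul_smul, hk i]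
  · intro g a b c hab hac hbc ha hb hc
    obtain ⟨k, hk⟩ := exists_std ![a, b, c] hab hac hbc
    have h1 : k⁻¹ * g * k = 1 := by
      apply fix_std
      intro i
      rw [mul_smul, mul_smul, hk i]
      have : g • ![a, b, c] i = ![a, b, c] i := by
        fin_cases i
        · exact ha
        · exact hb
        · exact hc
      rw [this, ← hk i, inv_smul_smul]
    have : g = k * (k⁻¹ * g * k) * k⁻¹ := by group
    rw [this, h1]
    group

end Cfsg.Agent.S0266
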