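import Cfsg.Statements.S0267
import Mathlib
import Cfsg.Agent.S0266

set_option autoImplicit false
open Cfsg

namespace Cfsg.Agent.S0267

open Matrix Cfsg.Agent.S0266

variable {F : Type*} [Field F]

theorem sl_smul_eq (S : Matrix.SpecialLinearGroup (Fin 2) F) (p : Projectivization F (Fin 2 → F)) :
    S • p = (Matrix.ProjGenLinGroup.mk (Matrix.SpecialLinearGroup.toGL S) : Matrix.ProjGenLinGroup (Fin 2) F) • p := by
  induction p using Projectivization.ind with | _ v hv =>
  rfl

theorem sl_smul_mk_eq (S : Matrix.SpecialLinearGroup (Fin 2) F) (v w : Fin 2 → F) (hv : v ≠ 0) (hw : w ≠ 0) :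
    S • Projectivization.mk F v hv = Projectivization.mk F w hw ↔ cr (S.1 *ᵥ v) w = 0 := by
  rw [sl_smul_eq, smul_mk_eq]
  rfl

/-- SL_2(q) is 3-transitive on the q+1 points of the projective line if and only if q is even. -/
theorem result {F : Type*} [Field F] [Fintype F] : MulAction.IsMultiplyPretransitive (Matrix.SpecialLinearGroup (Fin 2) F) (Projectivization F (Fin 2 → F)) 3 ↔ ringChar F = 2 := by
  classical
  constructor
  · intro h
    by_contra hchar
    obtain ⟨a, ha⟩ := FiniteField.exists_nonsquare hchar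
    have ha0 : a ≠ 0 := by
      rintro rfl
      exact ha ⟨0, by simp⟩
    have n3 : (![1, a] : Fin 2 → F) ≠ 0 := vec_ne_zero.mpr (Or.inl (by simp))
    have d01 : Projectivization.mk F (![1, 0] : Fin 2 → F) e0_ne ≠ Projectivization.mk F (![0, 1] : Fin 2 → F) e1_ne := by
      rw [Ne, mk_eq_iff_cr]; simp [cr]
    have d02 : Projectivization.mk F (![1, 0] : Fin 2 → F) e0_ne ≠ Projectivization.mk F (![1, 1] : Fin 2 → F) e2_ne := by
      rw [Ne, mk_eq_iff_cr]; simp [cr]
    have d12 : Projectivization.mk F (![0, 1] : Fin 2 → F) e1_ne ≠ Projectivization.mk F (![1, 1] : Fin 2 → F) e2_ne := by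
      rw [Ne, mk_eq_iff_cr]; simp [cr]
    have d03 : Projectivization.mk F (![1, 0] : Fin 2 → F) e0_ne ≠ Projectivization.mk F (![1, a] : Fin 2 → F) n3 := by
      rw [Ne, mk_eq_iff_cr]; simp [cr, ha0]
    have d13 : Projectivization.mk F (![0, 1] : Fin 2 → F) e1_ne ≠ Projectivization.mk F (![1, a] : Fin 2 → F) n3 := by
      rw [Ne, mk_eq_iff_cr]; simp [cr]
    have mkEmb : ∀ (f : Fin 3 → Projectivization F (Fin 2 → F)), f 0 ≠ f 1 → f 0 ≠ f 2 → f 1 ≠ f 2 →
        Function.Injective f := by
      intro f h01 h02 h12 i j hij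
      fin_cases i <;> fin_cases j <;> first
        | rfl
        | exact absurd hij h01
        | exact absurd hij h02
        | exact absurd hij h12
        | exact absurd hij.symm h01
        | exact absurd hij.symm h02
        | exact absurd hij.symm h12
    let x : Fin 3 ↪ Projectivization F (Fin 2 → F) :=
      ⟨![Projectivization.mk F (![1, 0] : Fin 2 → F) e0_ne, Projectivization.mk F (![0, 1] : Fin 2 → F) e1_ne,
        Projectivization.mk F (![1, 1] : Fin 2 → F) e2_ne], mkEmb _ d01 d02 d12⟩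
    let y : Fin 3 ↪ Projectivization F (Fin 2 → F) :=
      ⟨![Projectivization.mk F (![1, 0] : Fin 2 → F) e0_ne, Projectivization.mk F (![0, 1] : Fin 2 → F) e1_ne,
        Projectivization.mk F (![1, a] : Fin 2 → F) n3], mkEmb _ d01 d03 d13⟩
    obtain ⟨S, hS⟩ := h.exists_smul_eq x y
    have h0 : S • Projectivization.mk F (![1, 0] : Fin 2 → F) e0_ne = Projectivization.mk F (![1, 0] : Fin 2 → F) e0_ne :=
      congrArg (fun z : Fin 3 ↪ Projectivization F (Fin 2 → F) => z 0) hS
    have h1 : S • Projectivization.mk F (![0, 1] : Fin 2 → F) e1_ne = Projectivization.mk F (![0, 1] : Fin 2 → F) e1_ne :=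
      congrArg (fun z : Fin 3 ↪ Projectivization F (Fin 2 → F) => z 1) hS
    have h2 : S • Projectivization.mk F (![1, 1] : Fin 2 → F) e2_ne = Projectivization.mk F (![1, a] : Fin 2 → F) n3 :=
      congrArg (fun z : Fin 3 ↪ Projectivization F (Fin 2 → F) => z 2) hS
    rw [sl_smul_mk_eq] at h0 h1 h2
    simp [cr, Matrix.mulVec, dotProduct, Fin.sum_univ_two] at h0 h1 h2
    have hdet := S.det_coe
    rw [Matrix.det_fin_two, h0, h1] at hdet
    have h11 : S.1 1 1 = S.1 0 0 * a := by linear_combination -h2 + a * h1 - h0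
    rw [h11] at hdet
    have h00 : S.1 0 0 ≠ 0 := by
      intro h'
      rw [h'] at hdet
      simp at hdet
    apply ha
    refine ⟨(S.1 0 0)⁻¹, ?_⟩
    field_simp
    linear_combination hdet
  · intro hchar
    have h3 := (Cfsg.Agent.S0266.result (F := F)).1
    refine ⟨fun x y => ?_⟩
    obtain ⟨g, hg⟩ := h3.exists_smul_eq x y
    have hroots : ∀ r : Fˣ, ∃ k : Fˣ, k ^ Fintype.card (Fin 2) = r := by
      intro r
      obtain ⟨k, hk⟩ := FiniteField.isSquare_of_char_two hchar (r : F)
      have hk0 : k ≠ 0 := by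
        rintro rfl
        rw [mul_zero] at hk
        exact r.ne_zero hk
      refine ⟨Units.mk0 k hk0, ?_⟩
      apply Units.ext
      rw [Fintype.card_fin, Units.val_pow_eq_pow_val, Units.val_mk0, hk, sq]
    obtain ⟨X, hX⟩ := Matrix.ProjectiveSpecialLinearGroup.toPGL_surj_of_roots hroots g
    induction X using QuotientGroup.induction_on with | H S =>
    refine ⟨S, ?_⟩
    ext i
    show S • x i = y i
    rw [sl_smul_eq, ← hg]
    have : (Matrix.ProjGenLinGroup.mk (Matrix.SpecialLinearGroup.toGL S) : Matrix.ProjGenLinGroup (Fin 2) F) = g := hX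
    rw [this]
    rfl

end Cfsg.Agent.S0267
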