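import Mathlib
import Cfsg.Statements.S0268

set_option autoImplicit false
open Cfsg

namespace Cfsg.Agent.S0268

theorem two_ne_zero_of_odd {F : Type*} [Field F] [Fintype F] (hF : Odd (Fintype.card F)) : (2 : F) ≠ 0 := by
  apply Ring.two_ne_zero
  intro h
  have := FiniteField.even_card_of_char_two h
  rw [Nat.odd_iff] at hF
  omega

theorem aux {F : Type*} [Field F] (hne : (2 : F) ≠ 0) (a b c d : F) (hdet : a * d - b * c = 1)
    (e00 : a * a + b * c = 1) (e01 : a * b + b * d = 0) (e10 : c * a + d * c = 0)
    (e11 : c * b + d * d = 1) : (a = 1 ∧ b = 0 ∧ c = 0 ∧ d = 1) ∨ (a = -1 ∧ b = 0 ∧ c = 0 ∧ d = -1) := by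
  have hs : a + d ≠ 0 := by
    intro h
    apply hne
    linear_combination (-1) * e00 - hdet + a * h
  have hb : b = 0 := by
    have : b * (a + d) = 0 := by linear_combination e01
    rcases mul_eq_zero.mp this with h | h
    · exact h
    · exact absurd h hs
  have hc : c = 0 := by
    have : c * (a + d) = 0 := by linear_combination e10
    rcases mul_eq_zero.mp this with h | h
    · exact h
    · exact absurd h hs
  subst hb
  subst hc
  have had : a = d := by linear_combination (-a) * e11 + d * hdet
  subst had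
  have h1 : (a - 1) * (a + 1) = 0 := by linear_combination e00
  rcases mul_eq_zero.mp h1 with h | h
  · left
    have : a = 1 := by linear_combination h
    exact ⟨this, rfl, rfl, this⟩
  · right
    have : a = -1 := by linear_combination h
    exact ⟨this, rfl, rfl, this⟩

/-- For q odd, -1 is the unique involution of SL_2(q). -/
theorem result {F : Type*} [Field F] [Fintype F] (hF : Odd (Fintype.card F)) (g : Matrix.SpecialLinearGroup (Fin 2) F) (h1 : g ≠ 1) (h2 : g * g = 1) : (g : Matrix (Fin 2) (Fin 2) F) = -1 := by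
  have hne := two_ne_zero_of_odd hF
  have hdet := g.2
  rw [Matrix.det_fin_two] at hdet
  have hsq : (g : Matrix (Fin 2) (Fin 2) F) * (g : Matrix (Fin 2) (Fin 2) F) = 1 := congrArg Subtype.val h2
  have e00 := congrFun (congrFun hsq 0) 0
  have e01 := congrFun (congrFun hsq 0) 1
  have e10 := congrFun (congrFun hsq 1) 0
  have e11 := congrFun (congrFun hsq 1) 1
  simp only [Matrix.mul_apply, Fin.sum_univ_two, Matrix.one_apply_eq, Matrix.one_apply_ne,
    ne_eq, zero_ne_one, one_ne_zero, not_false_eq_true] at e00 e01 e10 e11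
  rcases aux hne _ _ _ _ hdet e00 e01 e10 e11 with ⟨ha, hb, hc, hd⟩ | ⟨ha, hb, hc, hd⟩
  · exfalso
    apply h1
    apply Subtype.ext
    ext i j
    fin_cases i <;> fin_cases j <;> simp [ha, hb, hc, hd]
  · ext i j
    fin_cases i <;> fin_cases j <;> simp [ha, hb, hc, hd]

end Cfsg.Agent.S0268
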