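import Mathlib
import Cfsg.Statements.S0271
import Cfsg.Agent.S0766
import Cfsg.Agent.Lib.Helper5.Symp

set_option autoImplicit false
open Cfsg

namespace Cfsg.Agent.S0271

theorem exists_pairing {F : Type*} [Field F] (m : ℕ) (v : Fin m ⊕ Fin m → F) (hv : v ≠ 0) :
    ∃ u, Cfsg.sympForm m F v u = 1 := by
  by_contra hcon
  push Not at hcon
  apply hv
  apply Cfsg.Agent.Lib.Helper5.Symp.eq_zero_of_sympForm_eq_zero m v
  intro b
  by_contra hb
  apply hcon ((Cfsg.sympForm m F v b)⁻¹ • b)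
  rw [Cfsg.Agent.Lib.Helper5.Symp.sympForm_smul_right, inv_mul_cancel₀ hb]

/-- Sp_{2m}(F) is transitive on non-zero vectors. -/
theorem result {F : Type*} [Field F] (m : ℕ) (v w : Fin m ⊕ Fin m → F) (hv : v ≠ 0) (hw : w ≠ 0) : ∃ g : Matrix.symplecticGroup (Fin m) F, (g : Matrix (Fin m ⊕ Fin m) (Fin m ⊕ Fin m) F).mulVec v = w := by
  obtain ⟨u, hu⟩ := exists_pairing m v hv
  obtain ⟨u', hu'⟩ := exists_pairing m w hw
  obtain ⟨A, -, hA, -⟩ := Cfsg.Agent.S0766.result m v u w u' hu hu'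
  exact ⟨A, hA⟩

end Cfsg.Agent.S0271
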