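import Mathlib
import Cfsg.Statements.S0274
import Cfsg.Agent.Lib.Helper9.Dickson

set_option autoImplicit false
open Cfsg
open scoped MatrixGroups

namespace Cfsg.Agent.S0274

open Cfsg.Agent.Lib.Lead.QuadCore Cfsg.Agent.Lib.Lead.QuadSyl Cfsg.Agent.Lib.Lead.QuadNS
open Cfsg.Agent.Lib.Helper9.Dickson

variable {F : Type*} [Field F]

theorem tV00 (x : F) : ((tV x : GL (Fin 2) F) : Matrix (Fin 2) (Fin 2) F) 0 0 = 1 := rfl
theorem tV01 (x : F) : ((tV x : GL (Fin 2) F) : Matrix (Fin 2) (Fin 2) F) 0 1 = 0 := rfl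
theorem tV10 (x : F) : ((tV x : GL (Fin 2) F) : Matrix (Fin 2) (Fin 2) F) 1 0 = x := rfl
theorem tV11 (x : F) : ((tV x : GL (Fin 2) F) : Matrix (Fin 2) (Fin 2) F) 1 1 = 1 := rfl

/-- conjugating two transvections into standard position, given a vector `y` on the axis of
`v` and off the axis of `u` -/
theorem std_of_vec (u v : GL (Fin 2) F) (n m k a b c τ y0 y1 : F)
    (hu00 : (u : Matrix (Fin 2) (Fin 2) F) 0 0 = 1 + n)
    (hu01 : (u : Matrix (Fin 2) (Fin 2) F) 0 1 = m)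
    (hu10 : (u : Matrix (Fin 2) (Fin 2) F) 1 0 = k)
    (hu11 : (u : Matrix (Fin 2) (Fin 2) F) 1 1 = 1 - n)
    (hv00 : (v : Matrix (Fin 2) (Fin 2) F) 0 0 = 1 + a)
    (hv01 : (v : Matrix (Fin 2) (Fin 2) F) 0 1 = b)
    (hv10 : (v : Matrix (Fin 2) (Fin 2) F) 1 0 = c)
    (hv11 : (v : Matrix (Fin 2) (Fin 2) F) 1 1 = 1 - a)
    (hR1 : n * n + m * k = 0) (hτ : τ = 2 * n * a + m * c + k * b)
    (hy1 : a * y0 + b * y1 = 0) (hy2 : c * y0 - a * y1 = 0)
    (hdet : (n * y0 + m * y1) * y1 - y0 * (k * y0 - n * y1) ≠ 0) :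
    ∃ P : GL (Fin 2) F, u * P = P * tU 1 ∧ v * P = P * tV τ := by
  have hdet' : (!![n * y0 + m * y1, y0; k * y0 - n * y1, y1] :
      Matrix (Fin 2) (Fin 2) F).det ≠ 0 := by
    rw [Matrix.det_fin_two_of]; exact hdet
  refine ⟨Matrix.GeneralLinearGroup.mkOfDetNeZero _ hdet', ?_, ?_⟩
  · apply gl_ext
    · rw [gl_mul_entry, gl_mul_entry, hu00, hu01, tU00, tU10]
      show (1 + n) * (n * y0 + m * y1) + m * (k * y0 - n * y1) = (n * y0 + m * y1) * 1 + y0 * 0
      linear_combination y0 * hR1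
    · rw [gl_mul_entry, gl_mul_entry, hu00, hu01, tU01, tU11]
      show (1 + n) * y0 + m * y1 = (n * y0 + m * y1) * 1 + y0 * 1
      ring
    · rw [gl_mul_entry, gl_mul_entry, hu10, hu11, tU00, tU10]
      show k * (n * y0 + m * y1) + (1 - n) * (k * y0 - n * y1) = (k * y0 - n * y1) * 1 + y1 * 0
      linear_combination y1 * hR1
    · rw [gl_mul_entry, gl_mul_entry, hu10, hu11, tU01, tU11]
      show k * y0 + (1 - n) * y1 = (k * y0 - n * y1) * 1 + y1 * 1
      ring
  · apply gl_ext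
    · rw [gl_mul_entry, gl_mul_entry, hv00, hv01, tV00, tV10]
      show (1 + a) * (n * y0 + m * y1) + b * (k * y0 - n * y1) = (n * y0 + m * y1) * 1 + y0 * τ
      rw [hτ]
      linear_combination (-n) * hy1 - m * hy2
    · rw [gl_mul_entry, gl_mul_entry, hv00, hv01, tV01, tV11]
      show (1 + a) * y0 + b * y1 = (n * y0 + m * y1) * 0 + y0 * 1
      linear_combination hy1
    · rw [gl_mul_entry, gl_mul_entry, hv10, hv11, tV00, tV10]
      show c * (n * y0 + m * y1) + (1 - a) * (k * y0 - n * y1) = (k * y0 - n * y1) * 1 + y1 * τ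
      rw [hτ]
      linear_combination n * hy2 - k * hy1
    · rw [gl_mul_entry, gl_mul_entry, hv10, hv11, tV01, tV11]
      show c * y0 + (1 - a) * y1 = (k * y0 - n * y1) * 0 + y1 * 1
      linear_combination hy2

/-- two transvections whose product has trace `≠ 2` are simultaneously conjugate to `tU 1`,
`tV γ` -/
theorem std_pair (u v : GL (Fin 2) F)
    (hu : (u : Matrix (Fin 2) (Fin 2) F).det = 1) (hv : (v : Matrix (Fin 2) (Fin 2) F).det = 1)
    (htu : (u : Matrix (Fin 2) (Fin 2) F) 0 0 + (u : Matrix (Fin 2) (Fin 2) F) 1 1 = 2)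
    (htv : (v : Matrix (Fin 2) (Fin 2) F) 0 0 + (v : Matrix (Fin 2) (Fin 2) F) 1 1 = 2)
    (huv : ((u * v : GL (Fin 2) F) : Matrix (Fin 2) (Fin 2) F) 0 0 +
      ((u * v : GL (Fin 2) F) : Matrix (Fin 2) (Fin 2) F) 1 1 ≠ 2) :
    ∃ (P : GL (Fin 2) F) (γ : F), γ ≠ 0 ∧ u * P = P * tU 1 ∧ v * P = P * tV γ := by
  rw [Matrix.det_fin_two] at hu hv
  rw [gl_mul_entry, gl_mul_entry] at huv
  obtain ⟨n, hn⟩ : ∃ n : F, n = (u : Matrix (Fin 2) (Fin 2) F) 0 0 - 1 := ⟨_, rfl⟩
  obtain ⟨m, hm⟩ : ∃ m : F, m = (u : Matrix (Fin 2) (Fin 2) F) 0 1 := ⟨_, rfl⟩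
  obtain ⟨k, hk⟩ : ∃ k : F, k = (u : Matrix (Fin 2) (Fin 2) F) 1 0 := ⟨_, rfl⟩
  obtain ⟨a, ha⟩ : ∃ a : F, a = (v : Matrix (Fin 2) (Fin 2) F) 0 0 - 1 := ⟨_, rfl⟩
  obtain ⟨b, hb⟩ : ∃ b : F, b = (v : Matrix (Fin 2) (Fin 2) F) 0 1 := ⟨_, rfl⟩
  obtain ⟨c, hc⟩ : ∃ c : F, c = (v : Matrix (Fin 2) (Fin 2) F) 1 0 := ⟨_, rfl⟩
  have hu00 : (u : Matrix (Fin 2) (Fin 2) F) 0 0 = 1 + n := by rw [hn]; ring
  have hu11 : (u : Matrix (Fin 2) (Fin 2) F) 1 1 = 1 - n := by rw [hn]; linear_combination htu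
  have hv00 : (v : Matrix (Fin 2) (Fin 2) F) 0 0 = 1 + a := by rw [ha]; ring
  have hv11 : (v : Matrix (Fin 2) (Fin 2) F) 1 1 = 1 - a := by rw [ha]; linear_combination htv
  rw [hu00, hu11, ← hm, ← hk] at hu
  rw [hv00, hv11, ← hb, ← hc] at hv
  rw [hu00, hu11, hv00, hv11, ← hm, ← hk, ← hb, ← hc] at huv
  have hR1 : n * n + m * k = 0 := by linear_combination (-1 : F) * hu
  have hR2 : a * a + b * c = 0 := by linear_combination (-1 : F) * hv
  obtain ⟨τ, hτ⟩ : ∃ τ : F, τ = 2 * n * a + m * c + k * b := ⟨_, rfl⟩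
  have hτ0 : τ ≠ 0 := by
    intro h0
    apply huv
    rw [hτ] at h0
    linear_combination h0
  by_cases hc0 : c = 0
  · have hb0 : b ≠ 0 := by
      intro hb0
      have ha0 : a = 0 := by
        have h1 : a * a = 0 := by rw [hb0, zero_mul, add_zero] at hR2; exact hR2
        exact mul_self_eq_zero.mp h1
      apply hτ0
      rw [hτ, ha0, hb0, hc0]
      ring
    obtain ⟨P, hP1, hP2⟩ := std_of_vec u v n m k a b c τ b (-a) hu00 hm.symm hk.symm hu11 hv00
      hb.symm hc.symm hv11 hR1 hτ (by ring) (by linear_combination hR2) (by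
        have h1 : (n * b + m * -a) * -a - b * (k * b - n * -a) = -(τ * b) := by
          rw [hτ]
          linear_combination m * hR2
        rw [h1, neg_ne_zero]
        exact mul_ne_zero hτ0 hb0)
    exact ⟨P, τ, hτ0, hP1, hP2⟩
  · obtain ⟨P, hP1, hP2⟩ := std_of_vec u v n m k a b c τ a c hu00 hm.symm hk.symm hu11 hv00
      hb.symm hc.symm hv11 hR1 hτ (by linear_combination hR2) (by ring) (by
        have h1 : (n * a + m * c) * c - a * (k * a - n * c) = τ * c := by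
          rw [hτ]
          linear_combination (-k) * hR2
        rw [h1]
        exact mul_ne_zero hτ0 hc0)
    exact ⟨P, τ, hτ0, hP1, hP2⟩

/-- a `p`-element of `SL₂` in characteristic `p` has trace `2` -/
theorem ptrace (p : ℕ) [Fact p.Prime] [CharP F p] (g : Matrix (Fin 2) (Fin 2) F)
    (hdet : g.det = 1) (j : ℕ) (hg : g ^ p ^ j = 1) : g 0 0 + g 1 1 = 2 := by
  rw [Matrix.det_fin_two] at hdet
  obtain ⟨t, ht⟩ : ∃ t : F, t = g 0 0 + g 1 1 - 2 := ⟨_, rfl⟩
  have hN : (g - 1) ^ p ^ j = 0 := by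
    rw [sub_pow_char_pow_of_commute p j (Commute.one_right g), hg, one_pow, sub_self]
  have hNN : (g - 1) * (g - 1) = t • g := by
    have e00 : ((g - 1) * (g - 1)) 0 0 = (t • g) 0 0 := by
      rw [mul_entry]
      simp only [Matrix.sub_apply, Matrix.one_apply_eq, Matrix.smul_apply, smul_eq_mul,
        Matrix.one_apply_ne (by decide : (0 : Fin 2) ≠ 1),
        Matrix.one_apply_ne (by decide : (1 : Fin 2) ≠ 0)]
      rw [ht]
      linear_combination (-1 : F) * hdet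
    have e01 : ((g - 1) * (g - 1)) 0 1 = (t • g) 0 1 := by
      rw [mul_entry]
      simp only [Matrix.sub_apply, Matrix.one_apply_eq, Matrix.smul_apply, smul_eq_mul,
        Matrix.one_apply_ne (by decide : (0 : Fin 2) ≠ 1),
        Matrix.one_apply_ne (by decide : (1 : Fin 2) ≠ 0)]
      rw [ht]
      ring
    have e10 : ((g - 1) * (g - 1)) 1 0 = (t • g) 1 0 := by
      rw [mul_entry]
      simp only [Matrix.sub_apply, Matrix.one_apply_eq, Matrix.smul_apply, smul_eq_mul,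
        Matrix.one_apply_ne (by decide : (0 : Fin 2) ≠ 1),
        Matrix.one_apply_ne (by decide : (1 : Fin 2) ≠ 0)]
      rw [ht]
      ring
    have e11 : ((g - 1) * (g - 1)) 1 1 = (t • g) 1 1 := by
      rw [mul_entry]
      simp only [Matrix.sub_apply, Matrix.one_apply_eq, Matrix.smul_apply, smul_eq_mul,
        Matrix.one_apply_ne (by decide : (0 : Fin 2) ≠ 1),
        Matrix.one_apply_ne (by decide : (1 : Fin 2) ≠ 0)]
      rw [ht]
      linear_combination (-1 : F) * hdet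
    ext i j
    revert i j
    rw [Fin.forall_fin_two]
    constructor
    · rw [Fin.forall_fin_two]
      exact ⟨e00, e01⟩
    · rw [Fin.forall_fin_two]
      exact ⟨e10, e11⟩
  have h1 : ((g - 1) * (g - 1)) ^ p ^ j = 0 := by
    rw [(Commute.refl (g - 1)).mul_pow, hN, zero_mul]
  rw [hNN, smul_pow, hg] at h1
  have h2 := congrFun (congrFun h1 0) 0
  rw [Matrix.smul_apply, Matrix.one_apply_eq, smul_eq_mul, mul_one, Matrix.zero_apply] at h2
  have h3 : t = 0 := pow_eq_zero_iff (pow_ne_zero _ (Fact.out : p.Prime).ne_zero) |>.mp h2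
  rw [ht] at h3
  linear_combination h3

/-- the trace of an element of `SL₂` as a `GL₂` element -/
theorem exists_pair [Finite F] (p : ℕ) [Fact p.Prime] [CharP F p]
    (H : Subgroup (Matrix.SpecialLinearGroup (Fin 2) F)) (hH : 1 < Nat.card (Sylow p H)) :
    ∃ u ∈ H, ∃ v ∈ H,
      (u : Matrix (Fin 2) (Fin 2) F) 0 0 + (u : Matrix (Fin 2) (Fin 2) F) 1 1 = 2 ∧
      (v : Matrix (Fin 2) (Fin 2) F) 0 0 + (v : Matrix (Fin 2) (Fin 2) F) 1 1 = 2 ∧
      ((u * v : Matrix.SpecialLinearGroup (Fin 2) F) : Matrix (Fin 2) (Fin 2) F) 0 0 +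
        ((u * v : Matrix.SpecialLinearGroup (Fin 2) F) : Matrix (Fin 2) (Fin 2) F) 1 1 ≠ 2 := by
  classical
  by_contra hcon
  push_neg at hcon
  have hpow : ∀ g : Matrix.SpecialLinearGroup (Fin 2) F,
      (g : Matrix (Fin 2) (Fin 2) F) 0 0 + (g : Matrix (Fin 2) (Fin 2) F) 1 1 = 2 → g ^ p = 1 := by
    intro g hg
    apply Matrix.SpecialLinearGroup.toGL_injective
    rw [map_pow, map_one]
    exact pow_trans p (Matrix.SpecialLinearGroup.toGL g) g.det_coe hg
  let T : Subgroup ↥H :=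
    { carrier := {g | ((g : Matrix.SpecialLinearGroup (Fin 2) F) : Matrix (Fin 2) (Fin 2) F) 0 0 +
        ((g : Matrix.SpecialLinearGroup (Fin 2) F) : Matrix (Fin 2) (Fin 2) F) 1 1 = 2}
      mul_mem' := by
        intro x y hx hy
        exact hcon x x.2 y y.2 hx hy
      one_mem' := by
        show ((1 : Matrix.SpecialLinearGroup (Fin 2) F) : Matrix (Fin 2) (Fin 2) F) 0 0 +
          ((1 : Matrix.SpecialLinearGroup (Fin 2) F) : Matrix (Fin 2) (Fin 2) F) 1 1 = 2
        rw [Matrix.SpecialLinearGroup.coe_one, Matrix.one_apply_eq, Matrix.one_apply_eq]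
        norm_num
      inv_mem' := by
        intro x hx
        show (((x : Matrix.SpecialLinearGroup (Fin 2) F)⁻¹ :
          Matrix.SpecialLinearGroup (Fin 2) F) : Matrix (Fin 2) (Fin 2) F) 0 0 +
          (((x : Matrix.SpecialLinearGroup (Fin 2) F)⁻¹ :
          Matrix.SpecialLinearGroup (Fin 2) F) : Matrix (Fin 2) (Fin 2) F) 1 1 = 2
        rw [Matrix.SpecialLinearGroup.coe_inv, Matrix.adjugate_fin_two, lit00, lit11]
        have hx' : ((x : Matrix.SpecialLinearGroup (Fin 2) F) : Matrix (Fin 2) (Fin 2) F) 0 0 +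
          ((x : Matrix.SpecialLinearGroup (Fin 2) F) : Matrix (Fin 2) (Fin 2) F) 1 1 = 2 := hx
        linear_combination hx' }
  have hT : IsPGroup p ↥T := by
    rintro ⟨g, hg⟩
    refine ⟨1, ?_⟩
    rw [pow_one]
    apply Subtype.ext
    apply Subtype.ext
    show (g : Matrix.SpecialLinearGroup (Fin 2) F) ^ p = 1
    exact hpow _ hg
  have hall : ∀ P : Sylow p ↥H, (P : Subgroup ↥H) = T := by
    intro P
    have hle : (P : Subgroup ↥H) ≤ T := by
      intro g hg
      obtain ⟨j, hj⟩ := P.2 ⟨g, hg⟩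
      have hj' : (g : Matrix.SpecialLinearGroup (Fin 2) F) ^ p ^ j = 1 := by
        have h1 := congrArg (fun z : ↥(P : Subgroup ↥H) =>
          (((z : ↥H) : Matrix.SpecialLinearGroup (Fin 2) F))) hj
        exact h1
      have hj'' : ((g : Matrix.SpecialLinearGroup (Fin 2) F) : Matrix (Fin 2) (Fin 2) F) ^ p ^ j
          = 1 := by
        rw [← Matrix.SpecialLinearGroup.coe_pow, hj', Matrix.SpecialLinearGroup.coe_one]
      exact ptrace p _ (g : Matrix.SpecialLinearGroup (Fin 2) F).det_coe j hj''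
    exact (P.is_maximal' hT hle).symm
  have hsub : Subsingleton (Sylow p ↥H) := by
    constructor
    intro P Q
    apply Sylow.ext
    rw [hall P, hall Q]
  have h1 : Nat.card (Sylow p ↥H) ≤ 1 := Finite.card_le_one_iff_subsingleton.mpr hsub
  omega

/-- Dickson's Theorem for SL_2: if p is odd and H is a subgroup of SL_2(q), q a power of p, with more than one Sylow p-subgroup, then H contains a copy of SL_2(p). -/
theorem result {F : Type*} [Field F] [Fintype F] (p : ℕ) [Fact p.Prime] [CharP F p] (hp : p ≠ 2) (H : Subgroup (Matrix.SpecialLinearGroup (Fin 2) F)) (hH : 1 < Nat.card (Sylow p H)) : ∃ K : Subgroup (Matrix.SpecialLinearGroup (Fin 2) F), K ≤ H ∧ Nonempty (K ≃* Matrix.SpecialLinearGroup (Fin 2) (ZMod p)) := by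
  classical
  obtain ⟨u, huH, v, hvH, htu, htv, huv⟩ := exists_pair p H hH
  obtain ⟨P, γ, hγ, hPu, hPv⟩ := std_pair (Matrix.SpecialLinearGroup.toGL u)
    (Matrix.SpecialLinearGroup.toGL v) u.det_coe v.det_coe htu htv (by
      rw [← map_mul]
      exact huv)
  obtain ⟨θ, hθ⟩ : ∃ θ : Matrix.SpecialLinearGroup (Fin 2) F →* GL (Fin 2) F,
      ∀ g, θ g = P⁻¹ * Matrix.SpecialLinearGroup.toGL g * P :=
    ⟨(MulAut.conj P⁻¹).toMonoidHom.comp Matrix.SpecialLinearGroup.toGL, fun g => by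
      show P⁻¹ * Matrix.SpecialLinearGroup.toGL g * P⁻¹⁻¹ = _
      rw [inv_inv]⟩
  have hθu : θ u = tU 1 := by rw [hθ, mul_assoc, hPu, inv_mul_cancel_left]
  have hθv : θ v = tV γ := by rw [hθ, mul_assoc, hPv, inv_mul_cancel_left]
  have hθinj : Function.Injective θ := by
    intro g g' h
    rw [hθ, hθ] at h
    apply Matrix.SpecialLinearGroup.toGL_injective
    exact mul_left_cancel (mul_right_cancel h)
  have hfin : Finite (GL (Fin 2) F) := inferInstance
  obtain ⟨K₁, ρ, hK₁, hρ⟩ := dickson_core p hp γ hγ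
    (Subgroup.closure {tU (1 : F), tV γ}) rfl
  have hL : Subgroup.closure {tU (1 : F), tV γ} = (Subgroup.closure {u, v}).map θ := by
    rw [MonoidHom.map_closure, Set.image_pair, hθu, hθv]
  have huvH : Subgroup.closure {u, v} ≤ H := by
    rw [Subgroup.closure_le]
    rintro x (rfl | rfl)
    · exact huH
    · exact hvH
  refine ⟨K₁.comap θ, ?_, ⟨MulEquiv.ofBijective (ρ.comp (θ.subgroupComap K₁)) ⟨?_, ?_⟩⟩⟩
  · intro g hg
    have h1 : θ g ∈ Subgroup.closure {tU (1 : F), tV γ} := hK₁ hg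
    rw [hL] at h1
    obtain ⟨g', hg', hgg'⟩ := h1
    have h2 : g' = g := hθinj hgg'
    rw [← h2]
    exact huvH hg'
  · refine hρ.1.comp ?_
    intro x y hxy
    apply Subtype.ext
    exact hθinj (congrArg Subtype.val hxy)
  · refine hρ.2.comp ?_
    rintro ⟨y, hy⟩
    have h1 := hK₁ hy
    rw [hL] at h1
    obtain ⟨g, _, rfl⟩ := h1
    exact ⟨⟨g, hy⟩, rfl⟩

end Cfsg.Agent.S0274
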