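import Cfsg.Statements.S0275
import Mathlib
import Cfsg.Agent.S0274
import Cfsg.Agent.Lib.Helper18.UniqueInvolution

set_option autoImplicit false
open Cfsg

namespace Cfsg.Agent.S0275

open scoped MatrixGroups

/-- In `SL₂` over a field of characteristic `≠ 2`, an element of square `1` is `1` or the matrix
`-1`. -/
theorem sl2_inv_cases {F : Type*} [Field F] (h2 : (2 : F) ≠ 0)
    (g : Matrix.SpecialLinearGroup (Fin 2) F) (hg : g ^ 2 = 1) :
    g = 1 ∨ (g : Matrix (Fin 2) (Fin 2) F) = -1 := by
  have hdet := g.det_coe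
  rw [Matrix.det_fin_two] at hdet
  have hsq : (g : Matrix (Fin 2) (Fin 2) F) * (g : Matrix (Fin 2) (Fin 2) F) = 1 := by
    have := congrArg (fun x : Matrix.SpecialLinearGroup (Fin 2) F =>
      (x : Matrix (Fin 2) (Fin 2) F)) hg
    simpa [pow_two] using this
  have e00 := congrFun (congrFun hsq 0) 0
  have e01 := congrFun (congrFun hsq 0) 1
  have e10 := congrFun (congrFun hsq 1) 0
  have e11 := congrFun (congrFun hsq 1) 1
  simp only [Matrix.mul_apply, Fin.sum_univ_two, Matrix.one_apply_eq] at e00 e11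
  simp only [Matrix.mul_apply, Fin.sum_univ_two] at e01 e10
  rw [Matrix.one_apply_ne (by decide)] at e01 e10
  obtain ⟨a, ha⟩ : ∃ a, (g : Matrix (Fin 2) (Fin 2) F) 0 0 = a := ⟨_, rfl⟩
  obtain ⟨b, hb⟩ : ∃ b, (g : Matrix (Fin 2) (Fin 2) F) 0 1 = b := ⟨_, rfl⟩
  obtain ⟨c, hc⟩ : ∃ c, (g : Matrix (Fin 2) (Fin 2) F) 1 0 = c := ⟨_, rfl⟩
  obtain ⟨d, hd⟩ : ∃ d, (g : Matrix (Fin 2) (Fin 2) F) 1 1 = d := ⟨_, rfl⟩
  simp only [ha, hb, hc, hd] at hdet e00 e01 e10 e11
  by_cases hs : a + d = 0
  · exfalso
    apply h2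
    have hd' : d = -a := by linear_combination hs
    rw [hd'] at hdet
    linear_combination -(e00 + hdet)
  · have hb0 : b = 0 := by
      have h : b * (a + d) = 0 := by linear_combination e01
      rcases mul_eq_zero.mp h with h | h
      · exact h
      · exact absurd h hs
    have hc0 : c = 0 := by
      have h : c * (a + d) = 0 := by linear_combination e10
      rcases mul_eq_zero.mp h with h | h
      · exact h
      · exact absurd h hs
    rw [hb0] at e00 hdet
    have haa : a * a = 1 := by linear_combination e00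
    have had : a * d = 1 := by linear_combination hdet
    have ha0 : a ≠ 0 := by
      rintro h
      rw [h] at haa
      simp at haa
    have hda : d = a := (mul_left_cancel₀ ha0 (haa.trans had.symm)).symm
    have hfac : (a - 1) * (a + 1) = 0 := by linear_combination haa
    rcases mul_eq_zero.mp hfac with h | h
    · left
      have ha1 : a = 1 := by linear_combination h
      apply Subtype.ext
      ext i j
      fin_cases i <;> fin_cases j
      · simpa using ha.trans ha1
      · simpa using hb.trans hb0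
      · simpa using hc.trans hc0
      · simpa using hd.trans (hda.trans ha1)
    · right
      have ha1 : a = -1 := by linear_combination h
      ext i j
      fin_cases i <;> fin_cases j
      · simpa using ha.trans ha1
      · simpa using hb.trans hb0
      · simpa using hc.trans hc0
      · simpa using hd.trans (hda.trans ha1)

/-- In `SL₂(𝔽_p)`, `p` odd, there are `x, y` whose commutator is an involution. -/
theorem exists_comm_pair (p : ℕ) [Fact p.Prime] (hp : p ≠ 2) :
    ∃ x y z : Matrix.SpecialLinearGroup (Fin 2) (ZMod p),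
      x * y = z * y * x ∧ z ≠ 1 ∧ z * z = 1 := by
  obtain ⟨a, b, hab⟩ := ZMod.sq_add_sq p (-1)
  have : Fact (2 < p) := ⟨lt_of_le_of_ne (Fact.out : p.Prime).two_le (Ne.symm hp)⟩
  refine ⟨⟨!![a, b; b, -a], by rw [Matrix.det_fin_two_of]; linear_combination -hab⟩,
    ⟨!![0, -1; 1, 0], by rw [Matrix.det_fin_two_of]; ring⟩,
    ⟨!![-1, 0; 0, -1], by rw [Matrix.det_fin_two_of]; ring⟩, ?_, ?_, ?_⟩
  · have key : (!![a, b; b, -a] : Matrix (Fin 2) (Fin 2) (ZMod p)) * !![0, -1; 1, 0] =
        !![-1, 0; 0, -1] * !![0, -1; 1, 0] * !![a, b; b, -a] := by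
      ext i j
      fin_cases i <;> fin_cases j <;>
        simp [Matrix.mul_apply, Fin.sum_univ_two]
    exact Subtype.ext key
  · intro h
    have h' := congrArg (fun x : Matrix.SpecialLinearGroup (Fin 2) (ZMod p) =>
      (x : Matrix (Fin 2) (Fin 2) (ZMod p)) 0 0) h
    simp at h'
    exact ZMod.neg_one_ne_one h'
  · have key : (!![-1, 0; 0, -1] : Matrix (Fin 2) (Fin 2) (ZMod p)) * !![-1, 0; 0, -1] = 1 := by
      ext i j
      fin_cases i <;> fin_cases j <;>
        simp [Matrix.mul_apply, Fin.sum_univ_two]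
    exact Subtype.ext key

/-- A finite group with a cyclic Sylow `2`-subgroup has no commutator of order `2`. -/
theorem no_comm_invol {G : Type*} [Group G] [Finite G] (S : Sylow 2 G) (hcyc : IsCyclic S)
    (x y z : G) (hrel : x * y = z * y * x) (hz1 : z ≠ 1) (hzz : z * z = 1) : False := by
  have hord : orderOf z = 2 := orderOf_eq_prime (by rw [pow_two]; exact hzz) hz1
  have h2dvd : 2 ∣ Nat.card G := by
    have := orderOf_dvd_natCard z
    rwa [hord] at this
  have hmin : (Nat.card G).minFac = 2 := (Nat.minFac_eq_two_iff _).mpr h2dvd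
  have hP := hcyc.normalizer_le_centralizer hmin
  have hnd := MonoidHom.not_dvd_card_ker_transferSylow S hP
  have hcomm : ∀ u v : S, u * v = v * u := by
    intro u v
    letI := hcyc
    exact (IsCyclic.commGroup (α := S)).mul_comm u v
  have hzeq : z = x * y * x⁻¹ * y⁻¹ := by
    rw [hrel]; group
  have hfz : MonoidHom.transferSylow S hP z = 1 := by
    rw [hzeq, map_mul, map_mul, map_mul, map_inv, map_inv,
      hcomm (MonoidHom.transferSylow S hP x) (MonoidHom.transferSylow S hP y)]
    group
  apply hnd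
  have hmem : z ∈ (MonoidHom.transferSylow S hP).ker := MonoidHom.mem_ker.mpr hfz
  have h1 : orderOf (⟨z, hmem⟩ : (MonoidHom.transferSylow S hP).ker) = 2 := by
    rw [Subgroup.orderOf_mk, hord]
  have h3 := orderOf_dvd_natCard (⟨z, hmem⟩ : (MonoidHom.transferSylow S hP).ker)
  rw [h1] at h3
  exact h3

/-- If p is odd and H is a subgroup of SL_2(q), q a power of p, with more than one Sylow p-subgroup, then the Sylow 2-subgroups of H are generalised quaternion. -/
theorem result {F : Type*} [Field F] [Fintype F] (p : ℕ) [Fact p.Prime] [CharP F p] (hp : p ≠ 2) (H : Subgroup (Matrix.SpecialLinearGroup (Fin 2) F)) (hH : 1 < Nat.card (Sylow p H)) (S : Sylow 2 H) : ∃ k : ℕ, 1 ≤ k ∧ Nonempty ((S : Subgroup H) ≃* QuaternionGroup (2 ^ k)) := by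
  classical
  have h2 : (2 : F) ≠ 0 := by
    intro h
    have h' : ((2 : ℕ) : F) = 0 := by exact_mod_cast h
    rw [CharP.cast_eq_zero_iff F p 2] at h'
    exact hp ((Nat.prime_dvd_prime_iff_eq (Fact.out : p.Prime) Nat.prime_two).mp h')
  have hunique : Set.ncard {g : ↥(S : Subgroup H) | g ^ 2 = 1} ≤ 2 := by
    have hZdet : (-1 : Matrix (Fin 2) (Fin 2) F).det = 1 := by
      rw [Matrix.det_neg, Matrix.det_one]; simp
    obtain ⟨Z, hZ⟩ : ∃ Z : Matrix.SpecialLinearGroup (Fin 2) F,
        (Z : Matrix (Fin 2) (Fin 2) F) = -1 := ⟨⟨-1, hZdet⟩, rfl⟩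
    have hsub : ∀ g ∈ {g : ↥(S : Subgroup H) | g ^ 2 = 1},
        (fun g : ↥(S : Subgroup H) => ((g : H) : Matrix.SpecialLinearGroup (Fin 2) F)) g ∈
          ({1, Z} : Set (Matrix.SpecialLinearGroup (Fin 2) F)) := by
      intro g hg
      have hg' : (((g : H) : Matrix.SpecialLinearGroup (Fin 2) F)) ^ 2 = 1 := by
        have := congrArg (fun x : ↥(S : Subgroup H) =>
          ((x : H) : Matrix.SpecialLinearGroup (Fin 2) F)) hg
        simpa using this
      rcases sl2_inv_cases h2 _ hg' with h | h
      · left; exact h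
      · right; exact Subtype.ext (h.trans hZ.symm)
    calc Set.ncard {g : ↥(S : Subgroup H) | g ^ 2 = 1}
        ≤ Set.ncard ({1, Z} : Set (Matrix.SpecialLinearGroup (Fin 2) F)) :=
          Set.ncard_le_ncard_of_injOn _ hsub
            (fun a _ b _ hab => Subtype.ext (Subtype.ext hab)) (Set.toFinite _)
      _ ≤ 2 := by
          have h1 := Set.ncard_insert_le (1 : Matrix.SpecialLinearGroup (Fin 2) F) {Z}
          have h2 := Set.ncard_singleton Z
          omega
  have hncyc : ¬ IsCyclic ↥(S : Subgroup H) := by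
    intro hcyc
    obtain ⟨K, hKH, ⟨e⟩⟩ := Cfsg.Agent.S0274.result p hp H hH
    obtain ⟨x, y, z, hrel, hz1, hzz⟩ := exists_comm_pair p hp
    have hinj : Function.Injective
        ((Subgroup.inclusion hKH).comp e.symm.toMonoidHom) :=
      (Subgroup.inclusion_injective hKH).comp e.symm.injective
    refine no_comm_invol S hcyc
      ((Subgroup.inclusion hKH).comp e.symm.toMonoidHom x)
      ((Subgroup.inclusion hKH).comp e.symm.toMonoidHom y)
      ((Subgroup.inclusion hKH).comp e.symm.toMonoidHom z) ?_ ?_ ?_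
    · rw [← map_mul, ← map_mul, ← map_mul, hrel]
    · intro h
      apply hz1
      apply hinj
      rw [h, map_one]
    · rw [← map_mul, hzz, map_one]
  rcases Cfsg.Agent.Lib.Helper18.UniqueInvolution.cyclic_or_quaternion_of_unique 2
    S.isPGroup' hunique with h | ⟨-, n, ⟨e⟩⟩
  · exact absurd h hncyc
  · refine ⟨n, ?_, ⟨e⟩⟩
    by_contra hn
    have hn0 : n = 0 := by omega
    subst hn0
    apply hncyc
    haveI : IsCyclic (QuaternionGroup (2 ^ 0)) := by
      simpa using QuaternionGroup.quaternionGroup_one_isCyclic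
    exact isCyclic_of_surjective e.symm e.symm.surjective

end Cfsg.Agent.S0275
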