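import Cfsg.Statements.S0283
import Mathlib
import Cfsg.Agent.S5631
import Cfsg.Agent.S5645
import Cfsg.Agent.S5642
import Cfsg.Agent.S0781
import Cfsg.Agent.S0780
import Cfsg.Agent.Lib.Helper28.SLGen
import Cfsg.Agent.Lib.Helper28.Herm
import Cfsg.Agent.Lib.Helper13.HermSub
import Cfsg.Agent.Lib.Helper13.HermSimple

set_option autoImplicit false
open Cfsg

namespace Cfsg.Agent.S0283

open Matrix
open Cfsg.Agent.S5631 Cfsg.Agent.S5645 Cfsg.Agent.S5642 Cfsg.Agent.Lib.Helper28.SLGen
open Cfsg.Agent.Lib.Helper28.Herm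
open Cfsg.Agent.Lib.Helper13.HermSimple
open Cfsg.Agent.S0780 (suToGL suToGL_coe suToGL_inj lift_su)
open Cfsg.Agent.S0781 (ut_mulVec)

/-- a normal subgroup of the special unitary group is central or everything -/
theorem key {F : Type*} [Field F] [Fintype F] {q : ℕ} (hF : Fintype.card F = q ^ 2) (n : ℕ)
    (hn : 3 ≤ n) (h : ¬ (n = 3 ∧ q = 2)) (hperf : commutator ↥(Cfsg.SU n F q) = ⊤)
    (N : Subgroup ↥(Cfsg.SU n F q)) [hNn : N.Normal] :
    N ≤ Subgroup.center ↥(Cfsg.SU n F q) ∨ N = ⊤ := by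
  have hf := hermForm_isHerm hF n
  have hne : Nonempty (Fin n) := ⟨⟨0, by omega⟩⟩
  have hgen := Cfsg.Agent.S0780.result hF n hn h
  by_cases hfix : ∀ g ∈ N, ∀ x : Fin n → F, Cfsg.hermForm n F q x x = 0 → x ≠ 0 →
      ∃ a : F, ((suToGL n q g : GL (Fin n) F) : Matrix (Fin n) (Fin n) F) *ᵥ x = a • x
  · left
    intro g hg
    have hgi : Isom (Cfsg.hermForm n F q) (suToGL n q g) := fun x y => g.2 x y
    have hle : (⊤ : Subgroup ↥(Cfsg.SU n F q)) ≤ Subgroup.centralizer {g} := by
      rw [← hgen, Subgroup.closure_le]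
      rintro A ⟨v, c, hv, hA⟩
      rw [SetLike.mem_coe, Subgroup.mem_centralizer_iff]
      intro g' hg'
      rw [Set.mem_singleton_iff] at hg'
      rw [hg']
      apply suToGL_inj n q
      rw [map_mul, map_mul]
      apply gl_ext
      intro y
      rw [Units.val_mul, Units.val_mul, ← Matrix.mulVec_mulVec, ← Matrix.mulVec_mulVec,
        suToGL_coe n q A, hA, ut_mulVec, ut_mulVec]
      by_cases hv0 : v = 0
      · rw [hv0]
        simp
      · obtain ⟨a, ha⟩ := hfix g hg v hv hv0
        have haa := eigen_norm hf _ hgi (hfix g hg) v hv hv0 a ha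
        have h1 : Cfsg.hermForm n F q
            (((suToGL n q g : GL (Fin n) F) : Matrix (Fin n) (Fin n) F) *ᵥ y) v =
            a * Cfsg.hermForm n F q y v := by
          have h2 := hgi y v
          rw [ha, hf.smul_right] at h2
          rw [← h2]
          linear_combination (-(Cfsg.hermForm n F q
            (((suToGL n q g : GL (Fin n) F) : Matrix (Fin n) (Fin n) F) *ᵥ y) v)) * haa
        rw [Matrix.mulVec_add, Matrix.mulVec_smul, ha, h1, smul_smul]
        congr 2
        ring
    rw [Subgroup.mem_center_iff]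
    intro B
    have h7 := hle (Subgroup.mem_top B)
    rw [Subgroup.mem_centralizer_iff] at h7
    exact (h7 g rfl).symm
  · right
    push Not at hfix
    obtain ⟨g₀, hg₀, x, hx, hx0, hmove⟩ := hfix
    obtain ⟨N', hN'⟩ : ∃ N' : Subgroup (GL (Fin n) F), N' = N.map (suToGL n q) := ⟨_, rfl⟩
    have hN'i : ∀ k ∈ N', Isom (Cfsg.hermForm n F q) k := by
      intro k hk
      rw [hN'] at hk
      obtain ⟨A, -, rfl⟩ := hk
      exact fun x y => A.2 x y
    have hN'norm : ∀ h : GL (Fin n) F, Isom (Cfsg.hermForm n F q) h →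
        (h : Matrix (Fin n) (Fin n) F).det = 1 → ∀ k ∈ N', h * k * h⁻¹ ∈ N' := by
      intro h hi hd k hk
      rw [hN'] at hk ⊢
      obtain ⟨A, hA, rfl⟩ := hk
      obtain ⟨H, hH, -⟩ := lift_su n q h hi hd
      refine ⟨H * A * H⁻¹, hNn.conj_mem A hA H, ?_⟩
      rw [map_mul, map_mul, map_inv, hH]
    have hall : ∀ r : Fin n → F, r ≠ 0 → Cfsg.hermForm n F q r r = 0 → Rel N' x r :=
      fun r hr0 hrr => orbit_all hf hN'i hN'norm (suToGL n q g₀)
        (by rw [hN']; exact ⟨g₀, hg₀, rfl⟩) x hx hmove r hr0 hrr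
    obtain ⟨T, hT⟩ : ∃ T : Subgroup ↥(Cfsg.SU n F q), T = Subgroup.closure
        {A : ↥(Cfsg.SU n F q) | ∃ c : F,
          ((A : Matrix.SpecialLinearGroup (Fin n) F) : Matrix (Fin n) (Fin n) F) =
            Cfsg.unitaryTransvection n q x c} := ⟨_, rfl⟩
    have hTcomm : IsMulCommutative T := by
      rw [hT]
      apply Subgroup.isMulCommutative_closure
      rintro A ⟨c, hA⟩ B ⟨d, hB⟩
      apply suToGL_inj n q
      rw [map_mul, map_mul]
      apply gl_ext
      intro y
      rw [Units.val_mul, Units.val_mul, ← Matrix.mulVec_mulVec, ← Matrix.mulVec_mulVec,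
        suToGL_coe, suToGL_coe, hA, hB, ut_mulVec, ut_mulVec, ut_mulVec, ut_mulVec]
      simp only [hf.add_left, hf.smul_left, hx, mul_zero, add_zero]
      module
    have hsup : N ⊔ T = ⊤ := by
      rw [eq_top_iff, ← hgen, Subgroup.closure_le]
      rintro A ⟨v, c, hv, hA⟩
      rw [SetLike.mem_coe]
      by_cases hv0 : v = 0
      · have hA1 : A = 1 := by
          apply Subtype.ext
          apply Subtype.ext
          rw [hA, Cfsg.unitaryTransvection, hv0]
          simp
        rw [hA1]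
        exact Subgroup.one_mem _
      · obtain ⟨k, hk, lam, hlam, e⟩ := hall v hv0 hv
        rw [hN'] at hk
        obtain ⟨g, hg, rfl⟩ := hk
        have hgi : Isom (Cfsg.hermForm n F q) (suToGL n q g) := fun x y => g.2 x y
        have hB : g⁻¹ * A * g ∈ T := by
          rw [hT]
          apply Subgroup.subset_closure
          refine ⟨c / (lam * sigq hF lam), ?_⟩
          rw [← suToGL_coe n q (g⁻¹ * A * g), Matrix.ext_iff_mulVec]
          intro y
          have hv' : v = lam⁻¹ • (((suToGL n q g : GL (Fin n) F) :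
              Matrix (Fin n) (Fin n) F) *ᵥ x) := by
            rw [e, smul_smul, inv_mul_cancel₀ hlam, one_smul]
          have h1 : Cfsg.hermForm n F q
              (((suToGL n q g : GL (Fin n) F) : Matrix (Fin n) (Fin n) F) *ᵥ y) v =
              sigq hF lam⁻¹ * Cfsg.hermForm n F q y x := by
            rw [hv', hf.smul_right, hgi]
          rw [map_mul, map_mul, map_inv, Units.val_mul, Units.val_mul, ← Matrix.mulVec_mulVec,
            ← Matrix.mulVec_mulVec, suToGL_coe n q A, hA, ut_mulVec, ut_mulVec, h1]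
          conv_lhs => rw [hv']
          rw [Matrix.mulVec_add, Matrix.mulVec_smul, Matrix.mulVec_smul, gl_inv_mulVec,
            gl_inv_mulVec, smul_smul, map_inv₀]
          have hσl : sigq hF lam ≠ 0 := sig_ne_zero hf hlam
          congr 2
          field_simp
        have e2 : A = g * (g⁻¹ * A * g) * g⁻¹ := by group
        rw [e2]
        exact Subgroup.mul_mem _ (Subgroup.mul_mem _ (Subgroup.mem_sup_left hg)
          (Subgroup.mem_sup_right hB)) (Subgroup.mem_sup_left (N.inv_mem hg))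
    have hcomm := Subgroup.Normal.commutator_le_of_self_sup_commutative_eq_top hsup hTcomm
    rw [hperf] at hcomm
    exact top_le_iff.mp hcomm

/-- PSU_n(q) is simple for n at least 3 and (n, q) other than (3, 2). -/
theorem result {F : Type*} [Field F] [Fintype F] {q : ℕ} (hF : Fintype.card F = q ^ 2) (n : ℕ) (hn : 3 ≤ n) (h : ¬ (n = 3 ∧ q = 2)) : IsSimpleGroup (Cfsg.PSU n F q) := by
  have hf := hermForm_isHerm hF n
  have hne : Nonempty (Fin n) := ⟨⟨0, by omega⟩⟩
  have hq3 : 4 ≤ n ∨ (n = 3 ∧ 3 ≤ q) := by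
    have := two_le_q hF
    by_cases h4 : 4 ≤ n
    · exact Or.inl h4
    · right
      refine ⟨by omega, ?_⟩
      by_contra hc
      exact h ⟨by omega, by omega⟩
  have hgen := Cfsg.Agent.S0780.result hF n hn h
  have hperf : commutator ↥(Cfsg.SU n F q) = ⊤ := by
    rw [eq_top_iff, ← hgen, commutator_eq_closure]
    apply Subgroup.closure_mono
    rintro A ⟨v, c, hv, hA⟩
    exact Cfsg.Agent.S0781.result hF n hq3 A v c hv hA
  haveI : Nontrivial (Cfsg.PSU n F q) := by
    rw [QuotientGroup.nontrivial_iff]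
    intro htop
    have h3 := (commutator_eq_bot_iff_center_eq_top _).mpr htop
    rw [hperf] at h3
    obtain ⟨x, hx, hx0⟩ : ∃ x : Fin n → F, Cfsg.hermForm n F q x x = 0 ∧ x ≠ 0 := by
      obtain ⟨v₁, v₂, h1, h2, e⟩ := Cfsg.Agent.Lib.Helper13.HermSub.sum_two_iso hf
        (by rw [Fintype.card_fin]; omega) (fun _ => (1 : F))
      by_cases hv1 : v₁ = 0
      · refine ⟨v₂, h2, ?_⟩
        rintro rfl
        rw [hv1, add_zero] at e
        have := congrFun e ⟨0, by omega⟩
        simp at this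
      · exact ⟨v₁, h1, hv1⟩
    obtain ⟨x', hx', hxx'⟩ := exists_partner hf x hx hx0
    have hx'x : Cfsg.hermForm n F q x' x = 1 := by rw [hf.herm, hxx', map_one]
    obtain ⟨ζ, hζ0, hζ⟩ := hf.exists_zeta
    have h0 := uT_dot hf x ζ hx
    obtain ⟨A, hA1, -⟩ := lift_su n q (tvG x (ζ • rep (Cfsg.hermForm n F q) x) h0)
      (uT_isom hf x ζ hx hζ h0) (det_eq_one_of_mem_SL _ (tvG_mem_SL _ _ h0))
    have hA : A ∈ (⊤ : Subgroup ↥(Cfsg.SU n F q)) := Subgroup.mem_top A
    rw [h3, Subgroup.mem_bot] at hA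
    rw [hA, map_one] at hA1
    have h4 := uT_mulVec hf x ζ x' h0
    rw [← hA1, Units.val_one, Matrix.one_mulVec, hx'x, mul_one] at h4
    have h5 : ζ • x = 0 := by
      have := congrArg (fun w => w - x') h4
      simp only [sub_self, add_sub_cancel_left] at this
      exact this.symm
    rcases smul_eq_zero.mp h5 with h6 | h6
    · exact hζ0 h6
    · exact hx0 h6
  refine ⟨fun N hN => ?_⟩
  haveI := hN
  rcases key hF n hn h hperf (N.comap (QuotientGroup.mk' _)) with h1 | h1
  · left
    rw [eq_bot_iff]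
    intro x hx
    obtain ⟨g, rfl⟩ := QuotientGroup.mk_surjective x
    have h5 : g ∈ Subgroup.center ↥(Cfsg.SU n F q) := h1 hx
    rw [Subgroup.mem_bot, QuotientGroup.eq_one_iff]
    exact h5
  · right
    rw [eq_top_iff]
    intro x _
    obtain ⟨g, rfl⟩ := QuotientGroup.mk_surjective x
    have h6 : g ∈ N.comap (QuotientGroup.mk' _) := h1 ▸ Subgroup.mem_top g
    exact h6

end Cfsg.Agent.S0283
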