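import Cfsg.Statements.S0293
import Cfsg.Agent.Lib.Helper15.CenterOmega
import Cfsg.Agent.S0287
import Cfsg.Agent.S0790

set_option autoImplicit false
open Cfsg

namespace Cfsg.Agent.S0293

/-- gcd(4, q^m - 1) |PΩ^+_{2m}(q)| = q^(m(m-1)) (q^m - 1) prod_{i=1}^{m-1} (q^(2i) - 1), m at least 4 (type D_m). -/
theorem result {F : Type*} [Field F] [Fintype F] {q : ℕ} (hF : Fintype.card F = q) (m : ℕ) (hm : 4 ≤ m) : Nat.gcd 4 (q ^ m - 1) * Nat.card (Cfsg.POmega F (Cfsg.quadFormPlus m F)) = q ^ (m * (m - 1)) * (q ^ m - 1) * ∏ i ∈ Finset.range (m - 1), (q ^ (2 * (i + 1)) - 1) := by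
  classical
  have hq1 : 1 ≤ q := by rw [← hF]; exact Fintype.card_pos
  have hqm : 1 ≤ q ^ m := Nat.one_le_pow m q hq1
  have hO := Cfsg.Agent.S0287.result hF m (by omega)
  have hn : 5 ≤ Fintype.card (Fin m ⊕ Fin m) := by
    rw [Fintype.card_sum, Fintype.card_fin]; omega
  obtain ⟨u, hu0, hQu⟩ : ∃ u : Fin m ⊕ Fin m → F, u ≠ 0 ∧
      Cfsg.Agent.Lib.Helper15.StdForms.plusQF m F u = 0 := by
    refine ⟨Pi.single (Sum.inl ⟨0, by omega⟩) 1, ?_, ?_⟩
    · intro h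
      have h' := congrFun h (Sum.inl ⟨0, by omega⟩)
      rw [Pi.single_eq_same] at h'
      exact one_ne_zero h'
    · rw [Cfsg.Agent.Lib.Helper15.StdForms.plusQF_apply]
      unfold Cfsg.quadFormPlus
      apply Finset.sum_eq_zero
      intro i _
      simp [Pi.single_apply]
  have h := Cfsg.Agent.Lib.Helper15.CenterOmega.card_pomega_gcd hF
    (Cfsg.Agent.Lib.Helper15.StdForms.plusQF m F)
    (Cfsg.Agent.Lib.Helper15.StdForms.plus_nondeg m) hn u hu0 hQu (q ^ m - 1)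
    (q ^ (m * (m - 1)) * (q ^ m - 1) * ∏ i ∈ Finset.range (m - 1), (q ^ (2 * (i + 1)) - 1))
    (by
      rw [Cfsg.Agent.Lib.Helper15.StdForms.coe_plusQF, hO]
      ring)
    (fun hq => by
      have hqm' : Even (q ^ m) := hq.pow_of_ne_zero (by omega)
      obtain ⟨t, ht⟩ := hqm'
      exact ⟨t - 1, by omega⟩)
    (fun hq => by
      have hqm' : Odd (q ^ m) := hq.pow
      obtain ⟨t, ht⟩ := hqm'
      exact ⟨t, by omega⟩)
    (fun hq => by
      rw [Cfsg.Agent.Lib.Helper15.StdForms.coe_plusQF, Cfsg.Agent.S0790.result hF hq m (by omega)]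
      omega)
  exact h

end Cfsg.Agent.S0293
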