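import Cfsg.Statements.S0294
import Cfsg.Agent.Lib.Helper15.CenterOmega
import Cfsg.Agent.S0288
import Cfsg.Agent.S0791

set_option autoImplicit false
open Cfsg

namespace Cfsg.Agent.S0294

/-- gcd(4, q^m + 1) |PΩ^-_{2m}(q)| = q^(m(m-1)) (q^m + 1) prod_{i=1}^{m-1} (q^(2i) - 1), m at least 4 (type ²D_m). -/
theorem result {F : Type*} [Field F] [Fintype F] {q : ℕ} (hF : Fintype.card F = q) (m : ℕ) (hm : 4 ≤ m) (a b : F) (hab : ∀ z₁ z₂ : F, z₁ ^ 2 + a * z₁ * z₂ + b * z₂ ^ 2 = 0 → z₁ = 0 ∧ z₂ = 0) : Nat.gcd 4 (q ^ m + 1) * Nat.card (Cfsg.POmega F (Cfsg.quadFormMinus (m - 1) F a b)) = q ^ (m * (m - 1)) * (q ^ m + 1) * ∏ i ∈ Finset.range (m - 1), (q ^ (2 * (i + 1)) - 1) := by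
  classical
  have hq1 : 1 ≤ q := by rw [← hF]; exact Fintype.card_pos
  have hqm : 1 ≤ q ^ m := Nat.one_le_pow m q hq1
  have hO := Cfsg.Agent.S0288.result hF m (by omega) a b hab
  have hn : 5 ≤ Fintype.card ((Fin (m - 1) ⊕ Fin (m - 1)) ⊕ Fin 2) := by
    rw [Fintype.card_sum, Fintype.card_sum, Fintype.card_fin, Fintype.card_fin]; omega
  obtain ⟨u, hu0, hQu⟩ : ∃ u : (Fin (m - 1) ⊕ Fin (m - 1)) ⊕ Fin 2 → F, u ≠ 0 ∧
      Cfsg.Agent.Lib.Helper15.StdForms.minusQF (m - 1) F a b u = 0 := by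
    refine ⟨Pi.single (Sum.inl (Sum.inl ⟨0, by omega⟩)) 1, ?_, ?_⟩
    · intro h
      have h' := congrFun h (Sum.inl (Sum.inl ⟨0, by omega⟩))
      rw [Pi.single_eq_same] at h'
      exact one_ne_zero h'
    · rw [Cfsg.Agent.Lib.Helper15.StdForms.minusQF_apply]
      unfold Cfsg.quadFormMinus
      have h0 : ∑ i : Fin (m - 1),
          (Pi.single (Sum.inl (Sum.inl ⟨0, by omega⟩)) 1 :
            (Fin (m - 1) ⊕ Fin (m - 1)) ⊕ Fin 2 → F) (Sum.inl (Sum.inl i))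
          * (Pi.single (Sum.inl (Sum.inl ⟨0, by omega⟩)) 1 :
            (Fin (m - 1) ⊕ Fin (m - 1)) ⊕ Fin 2 → F) (Sum.inl (Sum.inr i)) = 0 := by
        apply Finset.sum_eq_zero
        intro i _
        simp [Pi.single_apply]
      rw [h0]
      simp [Pi.single_apply]
  have h := Cfsg.Agent.Lib.Helper15.CenterOmega.card_pomega_gcd hF
    (Cfsg.Agent.Lib.Helper15.StdForms.minusQF (m - 1) F a b)
    (Cfsg.Agent.Lib.Helper15.StdForms.minus_nondeg (m - 1) a b hab) hn u hu0 hQu (q ^ m + 1)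
    (q ^ (m * (m - 1)) * (q ^ m + 1) * ∏ i ∈ Finset.range (m - 1), (q ^ (2 * (i + 1)) - 1))
    (by
      rw [Cfsg.Agent.Lib.Helper15.StdForms.coe_minusQF, hO]
      ring)
    (fun hq => by
      have hqm' : Even (q ^ m) := hq.pow_of_ne_zero (by omega)
      obtain ⟨t, ht⟩ := hqm'
      exact ⟨t, by omega⟩)
    (fun hq => by
      have hqm' : Odd (q ^ m) := hq.pow
      obtain ⟨t, ht⟩ := hqm'
      exact ⟨t + 1, by omega⟩)
    (fun hq => by
      rw [Cfsg.Agent.Lib.Helper15.StdForms.coe_minusQF,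
        Cfsg.Agent.S0791.result hF hq m (by omega) a b hab]
      omega)
  rw [Cfsg.Agent.Lib.Helper15.StdForms.coe_minusQF] at h
  exact h

end Cfsg.Agent.S0294
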