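import Cfsg.Statements.S0295
import Cfsg.Agent.Lib.Helper15.StdHyp
import Cfsg.Agent.Lib.Helper15.OrthOrder

set_option autoImplicit false
open Cfsg

namespace Cfsg.Agent.S0295

/-- PΩ_{2m+1}(q) is simple for q odd and m at least 3. -/
theorem result {F : Type*} [Field F] [Fintype F] (hodd : Odd (Fintype.card F)) (m : ℕ) (hm : 3 ≤ m) : IsSimpleGroup (Cfsg.POmega F (Cfsg.quadFormOdd m F)) := by
  have h2 : (2 : F) ≠ 0 := Cfsg.Agent.Lib.Helper15.Spinor2.two_ne_zero_of_odd_card rfl hodd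
  have hn : 5 ≤ Fintype.card (Unit ⊕ (Fin m ⊕ Fin m)) := by
    rw [Fintype.card_sum, Fintype.card_sum, Fintype.card_fin, Fintype.card_unit]; omega
  have hQ : (QuadraticMap.polarBilin (Cfsg.Agent.Lib.Helper15.Spinor3.oddQF m F)).Nondegenerate :=
    Cfsg.Agent.Lib.Helper15.StdForms.nondeg_of_sep _
      (fun x hx => Cfsg.Agent.Lib.Helper15.OrthOrder.odd_sep h2 m x
        (by rw [← Cfsg.Agent.Lib.Helper15.Spinor3.coe_oddQF]; exact hx))
  have h := Cfsg.Agent.Lib.Helper15.OmegaSimple.simple_pomega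
    (Cfsg.Agent.Lib.Helper15.Spinor3.oddQF m F) hQ hn
    (Cfsg.Agent.Lib.Helper15.StdHyp.hp2_odd m (by omega))
  rw [Cfsg.Agent.Lib.Helper15.Spinor3.coe_oddQF] at h
  exact h

end Cfsg.Agent.S0295
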