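import Mathlib
import Cfsg.Statements.S0304
import Cfsg.Agent.Lib.Helper5.Symp

set_option autoImplicit false
open Cfsg

namespace Cfsg.Agent.S0304

open Cfsg.Agent.Lib.Helper5.Symp
open scoped Matrix

/-- Embedding of the hyperbolic part. -/
def emb {F : Type*} [Field F] (m : ℕ) (w : Fin m ⊕ Fin m → F) : Unit ⊕ (Fin m ⊕ Fin m) → F :=
  Sum.elim (fun _ => 0) w

/-- The hyperbolic part of the form. -/
def qW {F : Type*} [Field F] (m : ℕ) (w : Fin m ⊕ Fin m → F) : F :=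
  ∑ i : Fin m, w (.inl i) * w (.inr i)

theorem Q_eq {F : Type*} [Field F] (m : ℕ) (v : Unit ⊕ (Fin m ⊕ Fin m) → F) :
    Cfsg.quadFormOdd m F v = v (.inl ()) ^ 2 + qW m (v ∘ Sum.inr) := rfl

theorem qW_add {F : Type*} [Field F] [CharP F 2] (m : ℕ) (u v : Fin m ⊕ Fin m → F) :
    qW m (u + v) = qW m u + qW m v + Cfsg.sympForm m F u v := by
  rw [sympForm_eq_sum]
  unfold qW
  simp only [Pi.add_apply]
  rw [← Finset.sum_add_distrib, ← Finset.sum_add_distrib]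
  apply Finset.sum_congr rfl
  intro i _
  rw [CharTwo.sub_eq_add]
  ring

theorem qW_smul {F : Type*} [Field F] (m : ℕ) (c : F) (w : Fin m ⊕ Fin m → F) :
    qW m (c • w) = c ^ 2 * qW m w := by
  unfold qW
  simp only [Pi.smul_apply, smul_eq_mul]
  rw [Finset.mul_sum]
  apply Finset.sum_congr rfl
  intro i _
  ring

theorem Q_add {F : Type*} [Field F] [CharP F 2] (m : ℕ) (u v : Unit ⊕ (Fin m ⊕ Fin m) → F) :
    Cfsg.quadFormOdd m F (u + v) = Cfsg.quadFormOdd m F u + Cfsg.quadFormOdd m F v +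
      Cfsg.sympForm m F (u ∘ Sum.inr) (v ∘ Sum.inr) := by
  rw [Q_eq, Q_eq, Q_eq]
  have h : (u + v) ∘ Sum.inr = u ∘ Sum.inr + v ∘ Sum.inr := rfl
  rw [h, qW_add]
  simp only [Pi.add_apply]
  rw [CharTwo.add_sq]
  ring

theorem mulVec_inl {F : Type*} [Field F] (m : ℕ)
    (M : Matrix (Unit ⊕ (Fin m ⊕ Fin m)) (Unit ⊕ (Fin m ⊕ Fin m)) F)
    (v : Unit ⊕ (Fin m ⊕ Fin m) → F) (x : Unit ⊕ (Fin m ⊕ Fin m)) :
    (M *ᵥ v) x = M x (.inl ()) * v (.inl ()) + ∑ j, M x (.inr j) * v (.inr j) := by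
  simp only [Matrix.mulVec, dotProduct, Fintype.sum_sum_type, Finset.univ_unique,
    Finset.sum_singleton]

theorem mulVec_emb_inr {F : Type*} [Field F] (m : ℕ)
    (M : Matrix (Unit ⊕ (Fin m ⊕ Fin m)) (Unit ⊕ (Fin m ⊕ Fin m)) F)
    (w : Fin m ⊕ Fin m → F) :
    (M *ᵥ emb m w) ∘ Sum.inr = M.toBlocks₂₂ *ᵥ w := by
  funext i
  simp only [Function.comp_apply, mulVec_inl, emb, Sum.elim_inl, Sum.elim_inr, mul_zero, zero_add]
  rfl

theorem mulVec_emb_inl {F : Type*} [Field F] (m : ℕ)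
    (M : Matrix (Unit ⊕ (Fin m ⊕ Fin m)) (Unit ⊕ (Fin m ⊕ Fin m)) F)
    (w : Fin m ⊕ Fin m → F) :
    (M *ᵥ emb m w) (.inl ()) = ∑ j, M (.inl ()) (.inr j) * w j := by
  simp only [mulVec_inl, emb, Sum.elim_inl, Sum.elim_inr, mul_zero, zero_add]

/-- Facts about an isometry. -/
theorem iso_facts {F : Type*} [Field F] [CharP F 2] (m : ℕ)
    (g : ↥(Cfsg.isometryGroup F (Cfsg.quadFormOdd m F))) :
    (∀ i, ((g : Matrix.GeneralLinearGroup (Unit ⊕ (Fin m ⊕ Fin m)) F) :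
        Matrix (Unit ⊕ (Fin m ⊕ Fin m)) (Unit ⊕ (Fin m ⊕ Fin m)) F) (.inr i) (.inl ()) = 0) ∧
    ((g : Matrix.GeneralLinearGroup (Unit ⊕ (Fin m ⊕ Fin m)) F) :
        Matrix (Unit ⊕ (Fin m ⊕ Fin m)) (Unit ⊕ (Fin m ⊕ Fin m)) F) (.inl ()) (.inl ()) = 1 ∧
    ((g : Matrix.GeneralLinearGroup (Unit ⊕ (Fin m ⊕ Fin m)) F) :
        Matrix (Unit ⊕ (Fin m ⊕ Fin m)) (Unit ⊕ (Fin m ⊕ Fin m)) F).toBlocks₂₂ ∈
      Matrix.symplecticGroup (Fin m) F ∧
    (∀ w : Fin m ⊕ Fin m → F,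
      (∑ j, ((g : Matrix.GeneralLinearGroup (Unit ⊕ (Fin m ⊕ Fin m)) F) :
        Matrix (Unit ⊕ (Fin m ⊕ Fin m)) (Unit ⊕ (Fin m ⊕ Fin m)) F) (.inl ()) (.inr j) * w j) ^ 2
        + qW m (((g : Matrix.GeneralLinearGroup (Unit ⊕ (Fin m ⊕ Fin m)) F) :
        Matrix (Unit ⊕ (Fin m ⊕ Fin m)) (Unit ⊕ (Fin m ⊕ Fin m)) F).toBlocks₂₂ *ᵥ w) = qW m w) := by
  have hQ : ∀ u : Unit ⊕ (Fin m ⊕ Fin m) → F,
      Cfsg.quadFormOdd m F (((g : Matrix.GeneralLinearGroup (Unit ⊕ (Fin m ⊕ Fin m)) F) :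
        Matrix (Unit ⊕ (Fin m ⊕ Fin m)) (Unit ⊕ (Fin m ⊕ Fin m)) F) *ᵥ u) =
        Cfsg.quadFormOdd m F u := fun u => g.2 u u
  have hinv : ((g : Matrix.GeneralLinearGroup (Unit ⊕ (Fin m ⊕ Fin m)) F) :
        Matrix (Unit ⊕ (Fin m ⊕ Fin m)) (Unit ⊕ (Fin m ⊕ Fin m)) F) *
      (((g : Matrix.GeneralLinearGroup (Unit ⊕ (Fin m ⊕ Fin m)) F)⁻¹ :
        Matrix.GeneralLinearGroup (Unit ⊕ (Fin m ⊕ Fin m)) F) :
        Matrix (Unit ⊕ (Fin m ⊕ Fin m)) (Unit ⊕ (Fin m ⊕ Fin m)) F) = 1 := by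
    rw [← Units.val_mul, mul_inv_cancel, Units.val_one]
  generalize ((g : Matrix.GeneralLinearGroup (Unit ⊕ (Fin m ⊕ Fin m)) F) :
        Matrix (Unit ⊕ (Fin m ⊕ Fin m)) (Unit ⊕ (Fin m ⊕ Fin m)) F) = M at hQ hinv
  generalize (((g : Matrix.GeneralLinearGroup (Unit ⊕ (Fin m ⊕ Fin m)) F)⁻¹ :
        Matrix.GeneralLinearGroup (Unit ⊕ (Fin m ⊕ Fin m)) F) :
        Matrix (Unit ⊕ (Fin m ⊕ Fin m)) (Unit ⊕ (Fin m ⊕ Fin m)) F) = M' at hinv
  -- polar form preserved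
  have hP : ∀ u v : Unit ⊕ (Fin m ⊕ Fin m) → F,
      Cfsg.sympForm m F ((M *ᵥ u) ∘ Sum.inr) ((M *ᵥ v) ∘ Sum.inr) =
        Cfsg.sympForm m F (u ∘ Sum.inr) (v ∘ Sum.inr) := by
    intro u v
    have h1 := hQ (u + v)
    rw [Matrix.mulVec_add, Q_add, Q_add, hQ, hQ] at h1
    exact add_left_cancel h1
  -- image of the radical vector
  have hrad : (M *ᵥ Pi.single (Sum.inl ()) 1) ∘ Sum.inr = (0 : Fin m ⊕ Fin m → F) := by
    apply eq_zero_of_sympForm_eq_zero m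
    intro b
    have h2 := hP (Pi.single (Sum.inl ()) 1) (M' *ᵥ emb m b)
    rw [Matrix.mulVec_mulVec, hinv, Matrix.one_mulVec] at h2
    have h3 : (emb m b) ∘ Sum.inr = b := rfl
    have h4 : (Pi.single (Sum.inl ()) (1 : F) : Unit ⊕ (Fin m ⊕ Fin m) → F) ∘ Sum.inr = 0 := by
      funext i
      simp
    rw [h3, h4, sympForm_zero_left] at h2
    exact h2
  have hC : ∀ i, M (.inr i) (.inl ()) = 0 := by
    intro i
    have h5 := congrFun hrad i
    simpa using h5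
  have hA : M (.inl ()) (.inl ()) = 1 := by
    have h6 := hQ (Pi.single (Sum.inl ()) 1)
    rw [Q_eq, Q_eq, hrad] at h6
    have h7 : (Pi.single (Sum.inl ()) (1 : F) : Unit ⊕ (Fin m ⊕ Fin m) → F) ∘ Sum.inr = 0 := by
      funext i
      simp
    rw [h7] at h6
    have h8 : qW m (0 : Fin m ⊕ Fin m → F) = 0 := by simp [qW]
    rw [h8, add_zero, add_zero] at h6
    have h9 : (M *ᵥ Pi.single (Sum.inl ()) 1) (Sum.inl ()) = M (.inl ()) (.inl ()) := by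
      simp [Matrix.mulVec_single_one]
    rw [h9] at h6
    simp only [Pi.single_eq_same] at h6
    have h10 : (M (.inl ()) (.inl ())) ^ 2 = (1 : F) ^ 2 := by rw [h6]
    exact CharTwo.sq_inj.mp h10
  refine ⟨hC, hA, ?_, ?_⟩
  · apply mem_of_sympForm_mulVec m
    intro u v
    have h11 := hP (emb m u) (emb m v)
    rw [mulVec_emb_inr, mulVec_emb_inr] at h11
    exact h11
  · intro w
    have h12 := hQ (emb m w)
    rw [Q_eq, Q_eq, mulVec_emb_inr, mulVec_emb_inl] at h12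
    have h13 : (emb m w) ∘ Sum.inr = w := rfl
    rw [h13] at h12
    simpa [emb] using h12

/-- The homomorphism onto the symplectic group: the lower right block. -/
noncomputable def Phi {F : Type*} [Field F] [CharP F 2] (m : ℕ) :
    ↥(Cfsg.isometryGroup F (Cfsg.quadFormOdd m F)) →* ↥(Matrix.symplecticGroup (Fin m) F) where
  toFun g := ⟨((g : Matrix.GeneralLinearGroup (Unit ⊕ (Fin m ⊕ Fin m)) F) :
        Matrix (Unit ⊕ (Fin m ⊕ Fin m)) (Unit ⊕ (Fin m ⊕ Fin m)) F).toBlocks₂₂,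
      (iso_facts m g).2.2.1⟩
  map_one' := by
    apply Subtype.ext
    show (1 : Matrix (Unit ⊕ (Fin m ⊕ Fin m)) (Unit ⊕ (Fin m ⊕ Fin m)) F).toBlocks₂₂ = 1
    ext i j
    simp [Matrix.toBlocks₂₂, Matrix.one_apply]
  map_mul' g h := by
    apply Subtype.ext
    show (((g : Matrix.GeneralLinearGroup (Unit ⊕ (Fin m ⊕ Fin m)) F) :
        Matrix (Unit ⊕ (Fin m ⊕ Fin m)) (Unit ⊕ (Fin m ⊕ Fin m)) F) *
      ((h : Matrix.GeneralLinearGroup (Unit ⊕ (Fin m ⊕ Fin m)) F) :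
        Matrix (Unit ⊕ (Fin m ⊕ Fin m)) (Unit ⊕ (Fin m ⊕ Fin m)) F)).toBlocks₂₂ =
      ((g : Matrix.GeneralLinearGroup (Unit ⊕ (Fin m ⊕ Fin m)) F) :
        Matrix (Unit ⊕ (Fin m ⊕ Fin m)) (Unit ⊕ (Fin m ⊕ Fin m)) F).toBlocks₂₂ *
      ((h : Matrix.GeneralLinearGroup (Unit ⊕ (Fin m ⊕ Fin m)) F) :
        Matrix (Unit ⊕ (Fin m ⊕ Fin m)) (Unit ⊕ (Fin m ⊕ Fin m)) F).toBlocks₂₂
    ext i j
    simp only [Matrix.toBlocks₂₂, Matrix.of_apply, Matrix.mul_apply, Fintype.sum_sum_type,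
      Finset.univ_unique, Finset.sum_singleton]
    rw [(iso_facts m g).1 i, zero_mul, zero_add]

theorem Phi_injective {F : Type*} [Field F] [CharP F 2] (m : ℕ) :
    Function.Injective (Phi (F := F) m) := by
  intro g h hgh
  have hD : ((g : Matrix.GeneralLinearGroup (Unit ⊕ (Fin m ⊕ Fin m)) F) :
        Matrix (Unit ⊕ (Fin m ⊕ Fin m)) (Unit ⊕ (Fin m ⊕ Fin m)) F).toBlocks₂₂ =
      ((h : Matrix.GeneralLinearGroup (Unit ⊕ (Fin m ⊕ Fin m)) F) :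
        Matrix (Unit ⊕ (Fin m ⊕ Fin m)) (Unit ⊕ (Fin m ⊕ Fin m)) F).toBlocks₂₂ :=
    congrArg Subtype.val hgh
  obtain ⟨gC, gA, -, gB⟩ := iso_facts m g
  obtain ⟨hC, hA, -, hB⟩ := iso_facts m h
  apply Subtype.ext
  apply Units.ext
  ext x y
  rcases x with ⟨⟩ | i <;> rcases y with ⟨⟩ | j
  · rw [gA, hA]
  · have h1 := gB (Pi.single j 1)
    have h2 := hB (Pi.single j 1)
    rw [hD] at h1
    have h3 := add_right_cancel (h1.trans h2.symm)
    have h4 := CharTwo.sq_inj.mp h3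
    simpa [Pi.single_apply] using h4
  · rw [gC, hC]
  · exact congrFun (congrFun hD i) j

theorem exists_lift {F : Type*} [Field F] [Fintype F] [CharP F 2] (m : ℕ)
    (D : Matrix (Fin m ⊕ Fin m) (Fin m ⊕ Fin m) F) (hD : D ∈ Matrix.symplecticGroup (Fin m) F) :
    ∃ b : Fin m ⊕ Fin m → F, ∀ w : Fin m ⊕ Fin m → F,
      (∑ j, b j * w j) ^ 2 + qW m (D *ᵥ w) = qW m w := by
  have hsurj : Function.Surjective (fun x : F => x ^ 2) :=
    Finite.injective_iff_surjective.mp CharTwo.sq_injective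
  choose sq hsq using hsurj
  have hNadd : ∀ u v : Fin m ⊕ Fin m → F,
      qW m (u + v) + qW m (D *ᵥ (u + v)) = (qW m u + qW m (D *ᵥ u)) + (qW m v + qW m (D *ᵥ v)) := by
    intro u v
    rw [Matrix.mulVec_add, qW_add, qW_add, sympForm_mulVec_of_mem m hD]
    have h1 := CharTwo.add_self_eq_zero (Cfsg.sympForm m F u v)
    linear_combination h1
  have hNsmul : ∀ (c : F) (w : Fin m ⊕ Fin m → F),
      qW m (c • w) + qW m (D *ᵥ (c • w)) = c ^ 2 * (qW m w + qW m (D *ᵥ w)) := by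
    intro c w
    rw [Matrix.mulVec_smul, qW_smul, qW_smul]
    ring
  let β : (Fin m ⊕ Fin m → F) →ₗ[F] F :=
    { toFun := fun w => sq (qW m w + qW m (D *ᵥ w))
      map_add' := fun u v => by
        apply CharTwo.sq_inj.mp
        have h1 := hsq (qW m (u + v) + qW m (D *ᵥ (u + v)))
        have h2 := hsq (qW m u + qW m (D *ᵥ u))
        have h3 := hsq (qW m v + qW m (D *ᵥ v))
        simp only at h1 h2 h3
        rw [CharTwo.add_sq, h1, h2, h3, hNadd]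
      map_smul' := fun c w => by
        apply CharTwo.sq_inj.mp
        have h1 := hsq (qW m (c • w) + qW m (D *ᵥ (c • w)))
        have h2 := hsq (qW m w + qW m (D *ᵥ w))
        simp only at h1 h2
        simp only [RingHom.id_apply, smul_eq_mul]
        rw [mul_pow, h1, h2, hNsmul] }
  refine ⟨fun j => β (Pi.single j 1), ?_⟩
  intro w
  have h1 : ∑ j, β (Pi.single j 1) * w j = β w := by
    rw [LinearMap.pi_apply_eq_sum_univ β w]
    apply Finset.sum_congr rfl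
    intro j _
    rw [smul_eq_mul, mul_comm]
    congr 2
    funext k
    simp [Pi.single_apply, eq_comm]
  rw [h1]
  show (sq (qW m w + qW m (D *ᵥ w))) ^ 2 + _ = _
  have h2 := hsq (qW m w + qW m (D *ᵥ w))
  simp only at h2
  rw [h2]
  have h3 := CharTwo.add_self_eq_zero (qW m (D *ᵥ w))
  linear_combination h3

theorem Phi_surjective {F : Type*} [Field F] [Fintype F] [CharP F 2] (m : ℕ) :
    Function.Surjective (Phi (F := F) m) := by
  intro D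
  obtain ⟨b, hb⟩ := exists_lift m D.1 D.2
  have hdet : IsUnit (Matrix.fromBlocks (1 : Matrix Unit Unit F) (Matrix.of fun _ j => b j) 0
      (D : Matrix (Fin m ⊕ Fin m) (Fin m ⊕ Fin m) F)).det := by
    rw [Matrix.det_fromBlocks_zero₂₁, Matrix.det_one, one_mul]
    exact SymplecticGroup.symplectic_det D.2
  have hunit := (Matrix.isUnit_iff_isUnit_det _).mpr hdet
  have hiso : hunit.unit ∈ Cfsg.isometryGroup F (Cfsg.quadFormOdd m F) := by
    intro u _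
    show Cfsg.quadFormOdd m F ((hunit.unit : Matrix (Unit ⊕ (Fin m ⊕ Fin m))
      (Unit ⊕ (Fin m ⊕ Fin m)) F) *ᵥ u) = Cfsg.quadFormOdd m F u
    rw [IsUnit.unit_spec, Q_eq, Q_eq]
    have h1 : ((Matrix.fromBlocks (1 : Matrix Unit Unit F) (Matrix.of fun _ j => b j) 0
        (D : Matrix (Fin m ⊕ Fin m) (Fin m ⊕ Fin m) F)) *ᵥ u) (Sum.inl ()) =
        u (Sum.inl ()) + ∑ j, b j * u (Sum.inr j) := by
      rw [mulVec_inl]
      simp
    have h2 : ((Matrix.fromBlocks (1 : Matrix Unit Unit F) (Matrix.of fun _ j => b j) 0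
        (D : Matrix (Fin m ⊕ Fin m) (Fin m ⊕ Fin m) F)) *ᵥ u) ∘ Sum.inr =
        (D : Matrix (Fin m ⊕ Fin m) (Fin m ⊕ Fin m) F) *ᵥ (u ∘ Sum.inr) := by
      funext i
      simp only [Function.comp_apply, mulVec_inl]
      simp [Matrix.mulVec, dotProduct]
    rw [h1, h2, CharTwo.add_sq, add_assoc]
    exact congrArg (fun t => u (Sum.inl ()) ^ 2 + t) (hb (u ∘ Sum.inr))
  refine ⟨⟨hunit.unit, hiso⟩, ?_⟩
  apply Subtype.ext
  show ((hunit.unit : Matrix (Unit ⊕ (Fin m ⊕ Fin m)) (Unit ⊕ (Fin m ⊕ Fin m)) F)).toBlocks₂₂ = _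
  rw [IsUnit.unit_spec, Matrix.toBlocks_fromBlocks₂₂]

/-- In characteristic 2, O_{2m+1}(q) is isomorphic to Sp_{2m}(q). -/
theorem result {F : Type*} [Field F] [Fintype F] [CharP F 2] (m : ℕ) : Nonempty (Cfsg.isometryGroup F (Cfsg.quadFormOdd m F) ≃* Matrix.symplecticGroup (Fin m) F) := by
  exact ⟨MulEquiv.ofBijective (Phi m) ⟨Phi_injective m, Phi_surjective m⟩⟩

end Cfsg.Agent.S0304
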