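import Cfsg.Statements.S0305
import Mathlib

set_option autoImplicit false
open Cfsg

namespace Cfsg.Agent.S0305

open Matrix

section

variable {F : Type*} [Field F]

/-- 2×2 matrices on the index type `Fin 1 ⊕ Fin 1` -/
def M (α β γ δ : F) : Matrix (Fin 1 ⊕ Fin 1) (Fin 1 ⊕ Fin 1) F :=
  Matrix.of fun i j => match i, j with
    | Sum.inl _, Sum.inl _ => α
    | Sum.inl _, Sum.inr _ => β
    | Sum.inr _, Sum.inl _ => γ
    | Sum.inr _, Sum.inr _ => δ

theorem M_mul (α β γ δ α' β' γ' δ' : F) : M α β γ δ * M α' β' γ' δ' =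
    M (α * α' + β * γ') (α * β' + β * δ') (γ * α' + δ * γ') (γ * β' + δ * δ') := by
  ext (i|i) (j|j) <;> simp [M, Matrix.mul_apply, Fintype.sum_sum_type]

theorem M_one : M (1 : F) 0 0 1 = 1 := by
  ext (i|i) (j|j) <;> simp [M, Matrix.one_apply, Subsingleton.elim i j]

theorem eq_M (g : Matrix (Fin 1 ⊕ Fin 1) (Fin 1 ⊕ Fin 1) F) :
    g = M (g (Sum.inl 0) (Sum.inl 0)) (g (Sum.inl 0) (Sum.inr 0)) (g (Sum.inr 0) (Sum.inl 0))
      (g (Sum.inr 0) (Sum.inr 0)) := by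
  ext (i|i) (j|j) <;> fin_cases i <;> fin_cases j <;> rfl

theorem Q_M (α β γ δ : F) (v : Fin 1 ⊕ Fin 1 → F) :
    Cfsg.quadFormPlus 1 F (M α β γ δ *ᵥ v) =
      (α * v (Sum.inl 0) + β * v (Sum.inr 0)) * (γ * v (Sum.inl 0) + δ * v (Sum.inr 0)) := by
  simp [Cfsg.quadFormPlus, M, Matrix.mulVec, dotProduct, Fintype.sum_sum_type]

theorem Q_apply (v : Fin 1 ⊕ Fin 1 → F) :
    Cfsg.quadFormPlus 1 F v = v (Sum.inl 0) * v (Sum.inr 0) := by
  simp [Cfsg.quadFormPlus]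

theorem mem_iso_iff (g : Matrix.GeneralLinearGroup (Fin 1 ⊕ Fin 1) F) :
    g ∈ Cfsg.isometryGroup F (Cfsg.quadFormPlus 1 F) ↔
      ∀ v : Fin 1 ⊕ Fin 1 → F, Cfsg.quadFormPlus 1 F (g.1 *ᵥ v) = Cfsg.quadFormPlus 1 F v := by
  constructor
  · intro h v
    exact h v v
  · intro h u v
    exact h u

/-- diagonal isometries -/
def dEl (a : Fˣ) : Matrix.GeneralLinearGroup (Fin 1 ⊕ Fin 1) F :=
  ⟨M (a : F) 0 0 ((a⁻¹ : Fˣ) : F), M ((a⁻¹ : Fˣ) : F) 0 0 (a : F),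
    by rw [M_mul]; simp [M_one], by rw [M_mul]; simp [M_one]⟩

/-- antidiagonal isometries -/
def aEl (a : Fˣ) : Matrix.GeneralLinearGroup (Fin 1 ⊕ Fin 1) F :=
  ⟨M 0 (a : F) ((a⁻¹ : Fˣ) : F) 0, M 0 (a : F) ((a⁻¹ : Fˣ) : F) 0,
    by rw [M_mul]; simp [M_one], by rw [M_mul]; simp [M_one]⟩

theorem dEl_val (a : Fˣ) : (dEl a).1 = M (a : F) 0 0 ((a⁻¹ : Fˣ) : F) := rfl

theorem aEl_val (a : Fˣ) : (aEl a).1 = M 0 (a : F) ((a⁻¹ : Fˣ) : F) 0 := rfl

theorem dEl_mul_dEl (a b : Fˣ) : dEl a * dEl b = dEl (a * b) := by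
  apply Units.ext
  show (dEl a).1 * (dEl b).1 = (dEl (a * b)).1
  rw [dEl_val, dEl_val, dEl_val, M_mul]
  congr 1 <;> simp [mul_comm]

theorem dEl_mul_aEl (a b : Fˣ) : dEl a * aEl b = aEl (a * b) := by
  apply Units.ext
  show (dEl a).1 * (aEl b).1 = (aEl (a * b)).1
  rw [dEl_val, aEl_val, aEl_val, M_mul]
  congr 1 <;> simp [mul_comm]

theorem aEl_mul_dEl (a b : Fˣ) : aEl a * dEl b = aEl (a * b⁻¹) := by
  apply Units.ext
  show (aEl a).1 * (dEl b).1 = (aEl (a * b⁻¹)).1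
  rw [dEl_val, aEl_val, aEl_val, M_mul]
  congr 1 <;> simp [mul_comm]

theorem aEl_mul_aEl (a b : Fˣ) : aEl a * aEl b = dEl (a * b⁻¹) := by
  apply Units.ext
  show (aEl a).1 * (aEl b).1 = (dEl (a * b⁻¹)).1
  rw [dEl_val, aEl_val, aEl_val, M_mul]
  congr 1 <;> simp [mul_comm]

theorem dEl_mem (a : Fˣ) : dEl a ∈ Cfsg.isometryGroup F (Cfsg.quadFormPlus 1 F) := by
  rw [mem_iso_iff]
  intro v
  rw [dEl_val, Q_M, Q_apply]
  have : (a : F) * ((a⁻¹ : Fˣ) : F) = 1 := by simp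
  linear_combination (v (Sum.inl 0) * v (Sum.inr 0)) * this

theorem aEl_mem (a : Fˣ) : aEl a ∈ Cfsg.isometryGroup F (Cfsg.quadFormPlus 1 F) := by
  rw [mem_iso_iff]
  intro v
  rw [aEl_val, Q_M, Q_apply]
  have : (a : F) * ((a⁻¹ : Fˣ) : F) = 1 := by simp
  linear_combination (v (Sum.inl 0) * v (Sum.inr 0)) * this

theorem cases_of_mem (g : Matrix.GeneralLinearGroup (Fin 1 ⊕ Fin 1) F)
    (hg : g ∈ Cfsg.isometryGroup F (Cfsg.quadFormPlus 1 F)) :
    (∃ a : Fˣ, g = dEl a) ∨ (∃ a : Fˣ, g = aEl a) := by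
  rw [mem_iso_iff] at hg
  obtain ⟨α, hα⟩ : ∃ α, α = g.1 (Sum.inl 0) (Sum.inl 0) := ⟨_, rfl⟩
  obtain ⟨β, hβ⟩ : ∃ β, β = g.1 (Sum.inl 0) (Sum.inr 0) := ⟨_, rfl⟩
  obtain ⟨γ, hγ⟩ : ∃ γ, γ = g.1 (Sum.inr 0) (Sum.inl 0) := ⟨_, rfl⟩
  obtain ⟨δ, hδ⟩ : ∃ δ, δ = g.1 (Sum.inr 0) (Sum.inr 0) := ⟨_, rfl⟩
  have hgM : g.1 = M α β γ δ := by rw [hα, hβ, hγ, hδ]; exact eq_M g.1
  rw [hgM] at hg
  have h1 := hg (Sum.elim (fun _ => 1) (fun _ => 0))
  have h2 := hg (Sum.elim (fun _ => 0) (fun _ => 1))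
  have h3 := hg (Sum.elim (fun _ => 1) (fun _ => 1))
  rw [Q_M, Q_apply] at h1 h2 h3
  simp only [Sum.elim_inl, Sum.elim_inr, mul_one, mul_zero, add_zero, zero_add] at h1 h2 h3
  have h4 : α * δ + β * γ = 1 := by linear_combination h3 - h1 - h2
  rcases mul_eq_zero.mp h1 with hα0 | hγ0
  · right
    rw [hα0, zero_mul, zero_add] at h4
    have hβ0 : β ≠ 0 := left_ne_zero_of_mul_eq_one h4
    have hδ0 : δ = 0 := by
      rcases mul_eq_zero.mp h2 with h | h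
      · exact absurd h hβ0
      · exact h
    refine ⟨Units.mk0 β hβ0, ?_⟩
    apply Units.ext
    rw [hgM, aEl_val, hα0, hδ0]
    congr 1
    rw [Units.val_inv_eq_inv_val, Units.val_mk0]
    exact eq_inv_of_mul_eq_one_right h4
  · left
    rw [hγ0, mul_zero, add_zero] at h4
    have hα0 : α ≠ 0 := left_ne_zero_of_mul_eq_one h4
    have hδ0 : δ ≠ 0 := right_ne_zero_of_mul_eq_one h4
    have hβ0 : β = 0 := by
      rcases mul_eq_zero.mp h2 with h | h
      · exact h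
      · exact absurd h hδ0
    refine ⟨Units.mk0 α hα0, ?_⟩
    apply Units.ext
    rw [hgM, dEl_val, hγ0, hβ0]
    congr 1
    rw [Units.val_inv_eq_inv_val, Units.val_mk0]
    exact eq_inv_of_mul_eq_one_right h4

theorem dEl_inj {a b : Fˣ} (h : dEl a = dEl b) : a = b := by
  have h1 : (dEl a).1 (Sum.inl 0) (Sum.inl 0) = (dEl b).1 (Sum.inl 0) (Sum.inl 0) := by rw [h]
  exact Units.ext h1

theorem aEl_inj {a b : Fˣ} (h : aEl a = aEl b) : a = b := by
  have h1 : (aEl a).1 (Sum.inl 0) (Sum.inr 0) = (aEl b).1 (Sum.inl 0) (Sum.inr 0) := by rw [h]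
  exact Units.ext h1

theorem dEl_ne_aEl (a b : Fˣ) : dEl a ≠ aEl b := by
  intro h
  have h1 : (dEl a).1 (Sum.inl 0) (Sum.inl 0) = (aEl b).1 (Sum.inl 0) (Sum.inl 0) := by rw [h]
  exact a.ne_zero h1

end

/-- GO^+_2(q) is dihedral of order 2(q-1). -/
theorem result {F : Type*} [Field F] [Fintype F] {q : ℕ} (hF : Fintype.card F = q) : Nonempty (Cfsg.isometryGroup F (Cfsg.quadFormPlus 1 F) ≃* DihedralGroup (q - 1)) := by
  classical
  have hcard : q - 1 = Nat.card Fˣ := by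
    rw [Nat.card_eq_fintype_card, Fintype.card_units, hF]
  rw [hcard]
  let e : Multiplicative (ZMod (Nat.card Fˣ)) ≃* Fˣ := zmodCyclicMulEquiv inferInstance
  let z : ZMod (Nat.card Fˣ) → Fˣ := fun i => e (Multiplicative.ofAdd i)
  have hz_add : ∀ i j, z (i + j) = z i * z j := fun i j => by
    show e (Multiplicative.ofAdd (i + j)) = _
    rw [ofAdd_add, map_mul]
  have hz_neg : ∀ i, z (-i) = (z i)⁻¹ := fun i => by
    show e (Multiplicative.ofAdd (-i)) = _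
    rw [ofAdd_neg, map_inv]
  have hz_inj : Function.Injective z := fun i j h => by
    have := e.injective h
    exact Multiplicative.ofAdd.injective this
  have hz_surj : Function.Surjective z := fun a => by
    obtain ⟨x, hx⟩ := e.surjective a
    exact ⟨Multiplicative.toAdd x, hx⟩
  let f : DihedralGroup (Nat.card Fˣ) → Cfsg.isometryGroup F (Cfsg.quadFormPlus 1 F) := fun x =>
    match x with
    | DihedralGroup.r i => ⟨dEl (z i), dEl_mem _⟩
    | DihedralGroup.sr i => ⟨aEl (z (-i)), aEl_mem _⟩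
  have hmul : ∀ x y, f (x * y) = f x * f y := by
    intro x y
    rcases x with i | i <;> rcases y with j | j
    · apply Subtype.ext
      show dEl (z (i + j)) = dEl (z i) * dEl (z j)
      rw [dEl_mul_dEl, hz_add]
    · apply Subtype.ext
      show aEl (z (-(j - i))) = dEl (z i) * aEl (z (-j))
      rw [dEl_mul_aEl, ← hz_add]
      congr 2
      ring
    · apply Subtype.ext
      show aEl (z (-(i + j))) = aEl (z (-i)) * dEl (z j)
      rw [aEl_mul_dEl, ← hz_neg, ← hz_add]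
      congr 2
      ring
    · apply Subtype.ext
      show dEl (z (j - i)) = aEl (z (-i)) * aEl (z (-j))
      rw [aEl_mul_aEl, ← hz_neg, ← hz_add]
      congr 2
      ring
  have hinj : Function.Injective f := by
    intro x y h
    have h' : (f x).1 = (f y).1 := by rw [h]
    rcases x with i | i <;> rcases y with j | j
    · have : dEl (z i) = dEl (z j) := h'
      rw [hz_inj (dEl_inj this)]
    · have : dEl (z i) = aEl (z (-j)) := h'
      exact absurd this (dEl_ne_aEl _ _)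
    · have : aEl (z (-i)) = dEl (z j) := h'
      exact absurd this.symm (dEl_ne_aEl _ _)
    · have : aEl (z (-i)) = aEl (z (-j)) := h'
      have h2 := hz_inj (aEl_inj this)
      rw [neg_inj] at h2
      rw [h2]
  have hsurj : Function.Surjective f := by
    rintro ⟨g, hg⟩
    rcases cases_of_mem g hg with ⟨a, rfl⟩ | ⟨a, rfl⟩
    · obtain ⟨i, rfl⟩ := hz_surj a
      exact ⟨DihedralGroup.r i, rfl⟩
    · obtain ⟨i, rfl⟩ := hz_surj a
      refine ⟨DihedralGroup.sr (-i), ?_⟩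
      apply Subtype.ext
      show aEl (z (- -i)) = aEl (z i)
      rw [neg_neg]
  exact ⟨(MulEquiv.mk' (Equiv.ofBijective f ⟨hinj, hsurj⟩) hmul).symm⟩

end Cfsg.Agent.S0305
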