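import Cfsg.Statements.S0307
import Mathlib

set_option autoImplicit false
open Cfsg

namespace Cfsg.Agent.S0307

section cyc

variable (C : Type*) [CommGroup C] [Finite C] [IsCyclic C] (n : ℕ)

/-- the `n`-th power residue map of a finite cyclic group -/
noncomputable def phi : C →* Multiplicative (ZMod (Nat.gcd n (Nat.card C))) :=
  (AddMonoidHom.toMultiplicative
    (ZMod.castHom (Nat.gcd_dvd_right n (Nat.card C)) (ZMod (Nat.gcd n (Nat.card C)))).toAddMonoidHom).comp
    (zmodCyclicMulEquiv (inferInstance : IsCyclic C)).symm.toMonoidHom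

theorem phi_apply (x : C) : phi C n x = Multiplicative.ofAdd
    (ZMod.castHom (Nat.gcd_dvd_right n (Nat.card C)) (ZMod (Nat.gcd n (Nat.card C)))
      (Multiplicative.toAdd ((zmodCyclicMulEquiv (inferInstance : IsCyclic C)).symm x))) := rfl

theorem phi_surj : Function.Surjective (phi C n) := by
  intro y
  obtain ⟨k, hk⟩ := ZMod.castHom_surjective (Nat.gcd_dvd_right n (Nat.card C)) (Multiplicative.toAdd y)
  refine ⟨zmodCyclicMulEquiv (inferInstance : IsCyclic C) (Multiplicative.ofAdd k), ?_⟩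
  rw [phi_apply, MulEquiv.symm_apply_apply]
  exact congrArg Multiplicative.ofAdd hk

theorem phi_pow (u : C) : phi C n (u ^ n) = 1 := by
  rw [map_pow]
  have h1 : orderOf (phi C n u) ∣ Nat.card (Multiplicative (ZMod (Nat.gcd n (Nat.card C)))) :=
    orderOf_dvd_natCard _
  have h2 : Nat.card (Multiplicative (ZMod (Nat.gcd n (Nat.card C)))) = Nat.gcd n (Nat.card C) := by
    rw [Nat.card_congr Multiplicative.toAdd, Nat.card_zmod]
  rw [h2] at h1
  exact orderOf_dvd_iff_pow_eq_one.mp (h1.trans (Nat.gcd_dvd_left n (Nat.card C)))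

theorem phi_eq_one {x : C} (h : phi C n x = 1) : ∃ u : C, u ^ n = x := by
  have hN : NeZero (Nat.card C) := ⟨Nat.card_pos.ne'⟩
  obtain ⟨k, hk⟩ : ∃ k, k = Multiplicative.toAdd ((zmodCyclicMulEquiv (inferInstance : IsCyclic C)).symm x) :=
    ⟨_, rfl⟩
  rw [phi_apply, ← hk] at h
  have h0 : ZMod.castHom (Nat.gcd_dvd_right n (Nat.card C)) (ZMod (Nat.gcd n (Nat.card C))) k = 0 := h
  rw [← ZMod.natCast_zmod_val k, map_natCast, ZMod.natCast_eq_zero_iff] at h0
  obtain ⟨m, hm⟩ := h0
  have hbez := Nat.gcd_eq_gcd_ab n (Nat.card C)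
  have hk2 : k = (n : ZMod (Nat.card C)) * (((Nat.gcdA n (Nat.card C) * m : ℤ)) : ZMod (Nat.card C)) := by
    have e1 : ((k.val : ℤ) : ZMod (Nat.card C)) = k := by
      rw [Int.cast_natCast, ZMod.natCast_zmod_val]
    have e2 : (k.val : ℤ) = (n : ℤ) * (Nat.gcdA n (Nat.card C) * m) + (Nat.card C : ℤ) * (Nat.gcdB n (Nat.card C) * m) := by
      rw [hm]; push_cast; rw [hbez]; ring
    rw [← e1, e2]
    push_cast
    rw [ZMod.natCast_self]
    ring
  refine ⟨zmodCyclicMulEquiv (inferInstance : IsCyclic C)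
    (Multiplicative.ofAdd (((Nat.gcdA n (Nat.card C) * m : ℤ)) : ZMod (Nat.card C))), ?_⟩
  rw [← map_pow, ← ofAdd_nsmul, nsmul_eq_mul, ← hk2, hk]
  simp

end cyc

theorem main (F : Type*) [Field F] [Fintype F] (n : ℕ) (hn : 1 ≤ n) :
    ∃ g : Matrix.ProjGenLinGroup (Fin n) F →* Multiplicative (ZMod (Nat.gcd n (Nat.card Fˣ))),
      Function.Surjective g ∧ g.ker = (Matrix.ProjectiveSpecialLinearGroup.toPGL : Matrix.ProjectiveSpecialLinearGroup (Fin n) F →* Matrix.ProjGenLinGroup (Fin n) F).range := by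
  classical
  have hne : Nonempty (Fin n) := ⟨⟨0, hn⟩⟩
  let ψ : Matrix.GeneralLinearGroup (Fin n) F →* Multiplicative (ZMod (Nat.gcd n (Nat.card Fˣ))) :=
    (phi Fˣ n).comp Matrix.GeneralLinearGroup.det
  have hle : Subgroup.center (Matrix.GeneralLinearGroup (Fin n) F) ≤ ψ.ker := by
    rw [Matrix.GeneralLinearGroup.center_eq_range_scalar]
    rintro _ ⟨u, rfl⟩
    rw [MonoidHom.mem_ker]
    show phi Fˣ n (Matrix.GeneralLinearGroup.det (Matrix.GeneralLinearGroup.scalar (Fin n) u)) = 1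
    have : Matrix.GeneralLinearGroup.det (Matrix.GeneralLinearGroup.scalar (Fin n) u) = u ^ n := by
      apply Units.ext
      simp
    rw [this, phi_pow]
  let g : Matrix.ProjGenLinGroup (Fin n) F →* Multiplicative (ZMod (Nat.gcd n (Nat.card Fˣ))) :=
    QuotientGroup.lift (Subgroup.center (Matrix.GeneralLinearGroup (Fin n) F)) ψ hle
  have hg : ∀ A : Matrix.GeneralLinearGroup (Fin n) F,
      g (Matrix.ProjGenLinGroup.mk A) = phi Fˣ n (Matrix.GeneralLinearGroup.det A) := fun A => rfl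
  refine ⟨g, ?_, ?_⟩
  · intro y
    obtain ⟨x, hx⟩ := phi_surj Fˣ n y
    obtain ⟨A, hA⟩ := Matrix.GeneralLinearGroup.det_surjective (n := Fin n) (R := F) x
    exact ⟨Matrix.ProjGenLinGroup.mk A, by rw [hg, hA, hx]⟩
  · ext Y
    rw [MonoidHom.mem_ker, MonoidHom.mem_range]
    constructor
    · intro hY
      induction Y using Matrix.ProjGenLinGroup.induction_on with | mk A =>
      rw [hg] at hY
      obtain ⟨u, hu⟩ := phi_eq_one Fˣ n hY
      obtain ⟨r, hr⟩ : ∃ r : Fˣ, r ^ Fintype.card (Fin n) * Matrix.GeneralLinearGroup.det A = 1 := by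
        refine ⟨u⁻¹, ?_⟩
        rw [Fintype.card_fin, ← hu, inv_pow, inv_mul_cancel]
      simp only [Units.ext_iff, Units.val_mul, Units.val_pow_eq_pow_val,
        Matrix.GeneralLinearGroup.val_det_apply, ← Matrix.det_smul A.1 r.1, Units.val_one] at hr
      use QuotientGroup.mk ⟨r.1 • A.1, hr⟩
      show Matrix.ProjGenLinGroup.mk (Matrix.SpecialLinearGroup.toGL ⟨r.1 • A.1, hr⟩) = Matrix.ProjGenLinGroup.mk A
      rw [Matrix.ProjGenLinGroup.mk_eq_mk_iff]
      refine ⟨r⁻¹, Units.ext ?_⟩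
      simp only [Units.val_mul, Matrix.GeneralLinearGroup.coe_scalar]
      show (r.1 • A.1) * Matrix.diagonal (fun _ => ((r⁻¹ : Fˣ) : F)) = A.1
      have hr0 : (r : F) ≠ 0 := r.ne_zero
      ext i j
      rw [Matrix.mul_diagonal]
      simp only [Matrix.smul_apply, smul_eq_mul, Units.val_inv_eq_inv_val]
      field_simp
    · rintro ⟨X, rfl⟩
      induction X using QuotientGroup.induction_on with | H S =>
      rw [Matrix.ProjectiveSpecialLinearGroup.toPGL_mk, hg]
      have : Matrix.GeneralLinearGroup.det (Matrix.SpecialLinearGroup.toGL S) = 1 := by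
        apply Units.ext
        simp
      rw [this, map_one]

/-- PSL_n(q) is normal in PGL_n(q) with cyclic quotient of order gcd(n, q-1): the image of the natural map PSL_n → PGL_n is the kernel of a surjective homomorphism onto the cyclic group of that order. -/
theorem result {F : Type*} [Field F] [Fintype F] {q : ℕ} (hF : Fintype.card F = q) (n : ℕ) (hn : 1 ≤ n) : ∃ g : Matrix.ProjGenLinGroup (Fin n) F →* Multiplicative (ZMod (Nat.gcd n (q - 1))), Function.Surjective g ∧ g.ker = (Matrix.ProjectiveSpecialLinearGroup.toPGL : Matrix.ProjectiveSpecialLinearGroup (Fin n) F →* Matrix.ProjGenLinGroup (Fin n) F).range := by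
  classical
  have hcard : q - 1 = Nat.card Fˣ := by
    rw [Nat.card_eq_fintype_card, Fintype.card_units, hF]
  rw [hcard]
  exact main F n hn

end Cfsg.Agent.S0307
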