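import Mathlib
import Cfsg.Statements.S0312
import Cfsg.Agent.Lib.Helper2.BNPar

set_option autoImplicit false
open Cfsg

namespace Cfsg.Agent.S0312

/-- Every standard parabolic subgroup of a group with a (B,N)-pair equals its own normaliser. -/
theorem result {G : Type*} [Group G] (P : Cfsg.BNPair G) {J : Set G}
    (hJ : J ⊆ P.S) : Subgroup.normalizer (P.parabolic J : Set G) = P.parabolic J := by
  apply le_antisymm
  · intro g hg
    obtain ⟨n, hn, hgn⟩ := Cfsg.Agent.Lib.Helper2.BN.bruhat P g
    obtain ⟨x, hx, y, hy, rfl⟩ := DoubleCoset.mem_doubleCoset.mp hgn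
    have hBP := Cfsg.Agent.Lib.Helper2.BN.B_le_parabolic P J
    have hBN : P.B ≤ Subgroup.normalizer (P.parabolic J : Set G) := hBP.trans Subgroup.le_normalizer
    have hnN : n ∈ Subgroup.normalizer (P.parabolic J : Set G) := by
      have : n = x⁻¹ * (x * n * y) * y⁻¹ := by group
      rw [this]
      exact Subgroup.mul_mem _ (Subgroup.mul_mem _ (Subgroup.inv_mem _ (hBN hx)) hg)
        (Subgroup.inv_mem _ (hBN hy))
    have hnP : n ∈ P.parabolic J := by
      apply Cfsg.Agent.Lib.Helper2.BN.mem_of_conj_mem P hn _ hBP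
      intro b hb
      exact (Subgroup.mem_normalizer_iff.mp hnN b).mp (hBP hb)
    exact Subgroup.mul_mem _ (Subgroup.mul_mem _ (hBP hx) hnP) (hBP hy)
  · exact Subgroup.le_normalizer

end Cfsg.Agent.S0312
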