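import Mathlib
import Cfsg.Statements.S0313
import Cfsg.Agent.Lib.Helper2.BNPar

set_option autoImplicit false
open Cfsg

namespace Cfsg.Agent.S0313

/-- Two standard parabolic subgroups of a group with a (B,N)-pair which are conjugate in `G` coincide. -/
theorem result {G : Type*} [Group G] (P : Cfsg.BNPair G) {J K : Set G}
    (hJ : J ⊆ P.S) (hK : K ⊆ P.S) (g : G)
    (h : (P.parabolic J).map (MulAut.conj g).toMonoidHom = P.parabolic K) :
    P.parabolic J = P.parabolic K := by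
  obtain ⟨n, hn, hgn⟩ := Cfsg.Agent.Lib.Helper2.BN.bruhat P g
  obtain ⟨x, hx, y, hy, rfl⟩ := DoubleCoset.mem_doubleCoset.mp hgn
  have hBJ := Cfsg.Agent.Lib.Helper2.BN.B_le_parabolic P J
  have hBK := Cfsg.Agent.Lib.Helper2.BN.B_le_parabolic P K
  have hconj : ∀ z ∈ P.parabolic J, (x * n * y) * z * (x * n * y)⁻¹ ∈ P.parabolic K := by
    intro z hz
    rw [← h]
    exact ⟨z, hz, rfl⟩
  have hnK : n ∈ P.parabolic K := by
    apply Cfsg.Agent.Lib.Helper2.BN.mem_of_conj_mem P hn _ hBK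
    intro b hb
    have h1 := hconj (y⁻¹ * b * y) (Subgroup.mul_mem _ (Subgroup.mul_mem _ (Subgroup.inv_mem _ (hBJ hy)) (hBJ hb)) (hBJ hy))
    have h2 : n * b * n⁻¹ = x⁻¹ * ((x * n * y) * (y⁻¹ * b * y) * (x * n * y)⁻¹) * x := by group
    rw [h2]
    exact Subgroup.mul_mem _ (Subgroup.mul_mem _ (Subgroup.inv_mem _ (hBK hx)) h1) (hBK hx)
  have hgK : x * n * y ∈ P.parabolic K :=
    Subgroup.mul_mem _ (Subgroup.mul_mem _ (hBK hx) hnK) (hBK hy)
  apply le_antisymm
  · intro z hz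
    have h1 := hconj z hz
    have h2 : z = (x * n * y)⁻¹ * ((x * n * y) * z * (x * n * y)⁻¹) * (x * n * y) := by group
    rw [h2]
    exact Subgroup.mul_mem _ (Subgroup.mul_mem _ (Subgroup.inv_mem _ hgK) h1) hgK
  · intro z hz
    have h1 : (x * n * y) * z * (x * n * y)⁻¹ ∈ P.parabolic K :=
      Subgroup.mul_mem _ (Subgroup.mul_mem _ hgK hz) (Subgroup.inv_mem _ hgK)
    rw [← h] at h1
    obtain ⟨z', hz', heq⟩ := h1
    have h3 : z' = z := by
      have h4 : (x * n * y) * z' * (x * n * y)⁻¹ = (x * n * y) * z * (x * n * y)⁻¹ := heq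
      have h5 := mul_right_cancel h4
      exact mul_left_cancel h5
    rw [← h3]
    exact hz'

end Cfsg.Agent.S0313
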