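import Mathlib
import Cfsg.Statements.S0316
import Cfsg.Agent.Lib.Helper2.BNPar

set_option autoImplicit false
open Cfsg

namespace Cfsg.Agent.S0316

open Cfsg.Agent.Lib.Helper2.BN in
theorem image_subset_S {G : Type*} [Group G] (P : Cfsg.BNPair G) (J : Set P.S) :
    (Subtype.val '' J : Set G) ⊆ P.S := by
  rintro _ ⟨s, _, rfl⟩
  exact s.2

/-- The map `J ↦ P_J` is a lattice isomorphism from the power set of the set of distinguished generators onto the
subgroups containing `B`. -/
theorem result {G : Type*} [Group G] (P : Cfsg.BNPair G) :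
    ∃ e : Set P.S ≃o {M : Subgroup G // P.B ≤ M},
      ∀ J : Set P.S, ((e J : {M : Subgroup G // P.B ≤ M}) : Subgroup G) = P.parabolic (Subtype.val '' J) := by
  let f : Set P.S → {M : Subgroup G // P.B ≤ M} := fun J =>
    ⟨P.parabolic (Subtype.val '' J), Cfsg.Agent.Lib.Helper2.BN.B_le_parabolic P _⟩
  have hle : ∀ J K : Set P.S, f J ≤ f K ↔ J ≤ K := by
    intro J K
    constructor
    · intro h
      have h1 := Cfsg.Agent.Lib.Helper2.BN.subset_of_parabolic_le P (image_subset_S P J)
        (image_subset_S P K) h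
      intro s hs
      obtain ⟨s', hs', heq⟩ := h1 ⟨s, hs, rfl⟩
      have : s' = s := Subtype.ext heq
      rw [← this]
      exact hs'
    · intro h
      exact Cfsg.Agent.Lib.Helper2.BN.parabolic_mono P (Set.image_mono h)
  have hinj : Function.Injective f := by
    intro J K h
    exact le_antisymm ((hle J K).mp h.le) ((hle K J).mp h.ge)
  have hsurj : Function.Surjective f := by
    rintro ⟨M, hM⟩
    refine ⟨{s : P.S | s.1 ∈ M}, ?_⟩
    apply Subtype.ext
    show P.parabolic (Subtype.val '' {s : P.S | s.1 ∈ M}) = M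
    have h1 : (Subtype.val '' {s : P.S | s.1 ∈ M} : Set G) = P.S ∩ M := by
      ext x
      constructor
      · rintro ⟨s, hs, rfl⟩
        exact ⟨s.2, hs⟩
      · rintro ⟨hx1, hx2⟩
        exact ⟨⟨x, hx1⟩, hx2, rfl⟩
    rw [h1]
    exact (Cfsg.Agent.Lib.Helper2.BN.eq_parabolic P M hM).symm
  refine ⟨{ toEquiv := Equiv.ofBijective f ⟨hinj, hsurj⟩, map_rel_iff' := ?_ }, ?_⟩
  · intro J K
    exact hle J K
  · intro J
    rfl

end Cfsg.Agent.S0316
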