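import Mathlib
import Cfsg.Statements.S0321
import Cfsg.Agent.Lib.Helper2.BNPar

set_option autoImplicit false
open Cfsg

namespace Cfsg.Agent.S0321

open Cfsg.Agent.Lib.Helper2.BN in
theorem zpowers_invol {W : Type*} [Group W] (r : W) (hr : r * r = 1) (w : W)
    (hw : w ∈ Subgroup.closure ({r} : Set W)) : w = 1 ∨ w = r := by
  rw [← Subgroup.zpowers_eq_closure] at hw
  obtain ⟨k, rfl⟩ := Subgroup.mem_zpowers_iff.mp hw
  rcases Int.even_or_odd' k with ⟨m, rfl | rfl⟩
  · left
    rw [zpow_mul, zpow_two, hr, one_zpow]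
  · right
    rw [zpow_add, zpow_mul, zpow_two, hr, one_zpow, one_mul, zpow_one]

open Cfsg.Agent.Lib.Helper2.BN in
theorem parabolic_singleton {G : Type*} [Group G] (P : Cfsg.BNPair G) (s : G) (hs : s ∈ P.S) :
    (P.parabolic {s} : Set G) = (P.B : Set G) ∪ DoubleCoset.doubleCoset s (P.B : Set G) P.B := by
  have hJ : ({s} : Set G) ⊆ P.S := Set.singleton_subset_iff.mpr hs
  have hJbar : Jbar P {s} = {σ P ⟨s, hs⟩} := by
    ext w
    constructor
    · rintro ⟨s', hs', rfl⟩
      rw [Set.mem_singleton_iff] at hs'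
      have : s' = ⟨s, hs⟩ := Subtype.ext hs'
      rw [this]
      rfl
    · intro hw
      rw [Set.mem_singleton_iff] at hw
      exact ⟨⟨s, hs⟩, rfl, hw.symm⟩
  ext g
  rw [SetLike.mem_coe, mem_parabolic_iff_C P hJ, hJbar]
  constructor
  · rintro ⟨w, hw, hg⟩
    rcases zpowers_invol _ (σ_mul_self P ⟨s, hs⟩) w hw with rfl | rfl
    · left
      rw [C_one] at hg
      exact hg
    · right
      exact (dc_iff P s (P.subset hs) g).mpr hg
  · rintro (hg | hg)
    · refine ⟨1, Subgroup.one_mem _, ?_⟩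
      rw [C_one]
      exact hg
    · exact ⟨σ P ⟨s, hs⟩, Subgroup.subset_closure rfl, (dc_iff P s (P.subset hs) g).mp hg⟩

/-- For `n ∈ N` not in `B`, the union `B ∪ B n B` is (the underlying set of) a subgroup exactly when `n` agrees
modulo `B ⊓ N` with one of the distinguished representatives; thus the distinguished involutions are
determined by `B` and `N`. -/
theorem result {G : Type*} [Group G] (P : Cfsg.BNPair G) {n : G}
    (hn : n ∈ P.N) (hnB : n ∉ P.B) :
    (∃ H : Subgroup G, (H : Set G) = (P.B : Set G) ∪ DoubleCoset.doubleCoset n (P.B : Set G) P.B) ↔ ∃ s ∈ P.S, s⁻¹ * n ∈ P.B := by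
  constructor
  · rintro ⟨H, hH⟩
    have hBH : P.B ≤ H := by
      intro b hb
      have : b ∈ (H : Set G) := by rw [hH]; exact Or.inl hb
      exact this
    have hnH : n ∈ H := by
      have : n ∈ (H : Set G) := by
        rw [hH]
        exact Or.inr (DoubleCoset.mem_doubleCoset_self _ _ _)
      exact this
    have hpar := Cfsg.Agent.Lib.Helper2.BN.eq_parabolic P H hBH
    have hne : (P.S ∩ (H : Set G)).Nonempty := by
      by_contra hempty
      rw [Set.not_nonempty_iff_eq_empty] at hempty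
      rw [hempty] at hpar
      have h1 : P.parabolic ∅ = P.B := by
        unfold Cfsg.BNPair.parabolic
        rw [Subgroup.closure_empty, sup_bot_eq]
      rw [h1] at hpar
      rw [hpar] at hnH
      exact hnB hnH
    obtain ⟨s, hsS, hsH⟩ := hne
    refine ⟨s, hsS, ?_⟩
    have hs' : s ∈ (P.B : Set G) ∪ DoubleCoset.doubleCoset n (P.B : Set G) P.B := by
      rw [← hH]
      exact hsH
    rcases hs' with hs' | hs'
    · exact absurd hs' (Cfsg.Agent.Lib.Helper2.BN.s_not_mem P ⟨s, hsS⟩)
    · have h2 := DoubleCoset.doubleCoset_eq_of_mem hs'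
      exact (Cfsg.Agent.Lib.Helper2.BN.dc_eq_iff P (P.subset hsS) hn).mp h2
  · rintro ⟨s, hsS, hsn⟩
    refine ⟨P.parabolic {s}, ?_⟩
    rw [parabolic_singleton P s hsS]
    rw [(Cfsg.Agent.Lib.Helper2.BN.dc_eq_iff P (P.subset hsS) hn).mpr hsn]

end Cfsg.Agent.S0321
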