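import Cfsg.Statements.S0322
import Mathlib

set_option autoImplicit false
open Cfsg

namespace Cfsg.Agent.S0322

theorem exists_singleton {G : Type*} [Group G] (P : Cfsg.BNPair G) (h : P.rank = 1) :
    ∃ s, P.S = {s} := by
  have : P.S.ncard = 1 := by
    rw [← Nat.card_coe_set_eq]; exact h
  exact Set.ncard_eq_one.mp this

theorem closure_eq_top {G : Type*} [Group G] (P : Cfsg.BNPair G) (s : G) (hs : P.S = {s}) :
    Subgroup.closure ((P.B : Set G) ∪ {s}) = ⊤ := by
  rw [Subgroup.closure_union, Subgroup.closure_eq, eq_top_iff, ← P.sup_eq_top]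
  apply sup_le le_sup_left
  rw [← P.closure_sup, hs]
  exact sup_le le_sup_right (le_trans inf_le_left le_sup_left)

theorem decomp {G : Type*} [Group G] (P : Cfsg.BNPair G) (s : G) (hs : P.S = {s}) (g : G) :
    g ∈ P.B ∨ ∃ b1 ∈ P.B, ∃ b2 ∈ P.B, g = b1 * s * b2 := by
  have hsS : s ∈ P.S := by rw [hs]; rfl
  have hsN : s ∈ P.N := P.subset hsS
  have hss : s * s ∈ P.B := P.sq_mem s hsS
  have hB : ∀ b ∈ P.B, ∀ y : G, (y ∈ P.B ∨ ∃ b1 ∈ P.B, ∃ b2 ∈ P.B, y = b1 * s * b2) →
      (b * y ∈ P.B ∨ ∃ b1 ∈ P.B, ∃ b2 ∈ P.B, b * y = b1 * s * b2) := by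
    intro b hb y hy
    rcases hy with hy | ⟨b1, hb1, b2, hb2, rfl⟩
    · left; exact P.B.mul_mem hb hy
    · right
      refine ⟨b * b1, P.B.mul_mem hb hb1, b2, hb2, ?_⟩
      group
  have hS : ∀ y : G, (y ∈ P.B ∨ ∃ b1 ∈ P.B, ∃ b2 ∈ P.B, y = b1 * s * b2) →
      (s * y ∈ P.B ∨ ∃ b1 ∈ P.B, ∃ b2 ∈ P.B, s * y = b1 * s * b2) := by
    intro y hy
    rcases hy with hy | ⟨b1, hb1, b2, hb2, rfl⟩
    · right
      exact ⟨1, P.B.one_mem, y, hy, by group⟩
    · have := P.mul_mem_union s hsS s hsN b1 hb1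
      rcases this with h | h
      · rw [DoubleCoset.mem_doubleCoset] at h
        obtain ⟨x, hx, y, hy, hxy⟩ := h
        left
        have : s * (b1 * s * b2) = (s * b1 * s) * b2 := by group
        rw [this, hxy]
        exact P.B.mul_mem (P.B.mul_mem (P.B.mul_mem hx hss) hy) hb2
      · rw [DoubleCoset.mem_doubleCoset] at h
        obtain ⟨x, hx, y, hy, hxy⟩ := h
        right
        refine ⟨x, hx, y * b2, P.B.mul_mem hy hb2, ?_⟩
        have : s * (b1 * s * b2) = (s * b1 * s) * b2 := by group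
        rw [this, hxy]
        group
  have hg : g ∈ Subgroup.closure ((P.B : Set G) ∪ {s}) := by
    rw [closure_eq_top P s hs]; trivial
  induction hg using Subgroup.closure_induction_left with
  | one => left; exact P.B.one_mem
  | mul_left x hx y hy ih =>
    rcases hx with hx | hx
    · exact hB x hx y ih
    · rw [Set.mem_singleton_iff] at hx
      subst hx
      exact hS y ih
  | inv_mul_cancel x hx y hy ih =>
    rcases hx with hx | hx
    · exact hB x⁻¹ (P.B.inv_mem hx) y ih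
    · rw [Set.mem_singleton_iff] at hx
      subst hx
      have h1 := hS y ih
      have h2 := hB (x * x)⁻¹ (P.B.inv_mem hss) _ h1
      have : (x * x)⁻¹ * (x * y) = x⁻¹ * y := by group
      rw [this] at h2
      exact h2

/-- A group with a (B,N)-pair of rank one acts doubly transitively on the left cosets of `B`. -/
theorem result {G : Type*} [Group G] (P : Cfsg.BNPair G) (h : P.rank = 1) : MulAction.IsMultiplyPretransitive G (G ⧸ P.B) 2 := by
  obtain ⟨s, hs⟩ := exists_singleton P h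
  rw [MulAction.is_two_pretransitive_iff]
  intro a b c d hab hcd
  induction a using QuotientGroup.induction_on with | H x => ?_
  induction b using QuotientGroup.induction_on with | H y => ?_
  induction c using QuotientGroup.induction_on with | H u => ?_
  induction d using QuotientGroup.induction_on with | H v => ?_
  have hxy : x⁻¹ * y ∉ P.B := fun hmem => hab (QuotientGroup.eq.mpr hmem)
  have huv : u⁻¹ * v ∉ P.B := fun hmem => hcd (QuotientGroup.eq.mpr hmem)
  rcases decomp P s hs (x⁻¹ * y) with h1 | ⟨b1, hb1, b2, hb2, h1⟩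
  · exact absurd h1 hxy
  rcases decomp P s hs (u⁻¹ * v) with h2 | ⟨b3, hb3, b4, hb4, h2⟩
  · exact absurd h2 huv
  have hy : y = x * (b1 * s * b2) := by rw [← h1]; group
  have hv : v = u * (b3 * s * b4) := by rw [← h2]; group
  refine ⟨u * b3 * b1⁻¹ * x⁻¹, ?_, ?_⟩
  · show ((u * b3 * b1⁻¹ * x⁻¹ * x : G) : G ⧸ P.B) = (u : G ⧸ P.B)
    rw [QuotientGroup.eq]
    have : (u * b3 * b1⁻¹ * x⁻¹ * x)⁻¹ * u = b1 * b3⁻¹ := by group
    rw [this]
    exact P.B.mul_mem hb1 (P.B.inv_mem hb3)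
  · show ((u * b3 * b1⁻¹ * x⁻¹ * y : G) : G ⧸ P.B) = (v : G ⧸ P.B)
    rw [QuotientGroup.eq]
    have : (u * b3 * b1⁻¹ * x⁻¹ * y)⁻¹ * v = b2⁻¹ * b4 := by rw [hy, hv]; group
    rw [this]
    exact P.B.mul_mem (P.B.inv_mem hb2) hb4

end Cfsg.Agent.S0322
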