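import Mathlib
import Cfsg.Statements.S0323

set_option autoImplicit false
open scoped Pointwise
open Cfsg

namespace Cfsg.Agent.S0323

theorem mem_N_iff {G Ω : Type*} [Group G] [MulAction G Ω] (x y : Ω) (g : G) :
    g ∈ MulAction.stabilizer G ({x, y} : Set Ω) ↔
      (g • x = x ∧ g • y = y) ∨ (g • x = y ∧ g • y = x) := by
  rw [MulAction.mem_stabilizer_iff, ← Set.image_smul, Set.image_pair, Set.pair_eq_pair_iff]

theorem mem_dc {G Ω : Type*} [Group G] [MulAction G Ω]
    (h2 : ∀ {a b c d : Ω}, a ≠ b → c ≠ d → ∃ g : G, g • a = c ∧ g • b = d) (x : Ω) (g h : G)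
    (hgh : g • x = x ↔ h • x = x) :
    h ∈ DoubleCoset.doubleCoset g (MulAction.stabilizer G x : Set G) (MulAction.stabilizer G x) := by
  rw [DoubleCoset.mem_doubleCoset]
  by_cases hg : g • x = x
  · have hh := hgh.mp hg
    refine ⟨h * g⁻¹, ?_, 1, Subgroup.one_mem _, by group⟩
    show h * g⁻¹ ∈ MulAction.stabilizer G x
    rw [MulAction.mem_stabilizer_iff, mul_smul]
    have : g⁻¹ • x = x := by rw [inv_smul_eq_iff, hg]
    rw [this, hh]
  · have hh : ¬ h • x = x := fun hh => hg (hgh.mpr hh)
    obtain ⟨b, hbx, hbg⟩ := h2 (a := x) (b := g • x) (c := x) (d := h • x) (Ne.symm hg) (Ne.symm hh)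
    refine ⟨b, hbx, (b * g)⁻¹ * h, ?_, by group⟩
    show (b * g)⁻¹ * h ∈ MulAction.stabilizer G x
    rw [MulAction.mem_stabilizer_iff, mul_smul, inv_smul_eq_iff, mul_smul, hbg]

/-- A doubly transitive action on a set with at least three points yields a (B,N)-pair of rank one:
`B` is the stabiliser of a point `x`, `N` the setwise stabiliser of a pair `{x, y}`. -/
theorem result {G Ω : Type*} [Group G] [MulAction G Ω]
    (h2 : MulAction.IsMultiplyPretransitive G Ω 2) {x y z : Ω} (hxy : x ≠ y) (hyz : y ≠ z) (hxz : x ≠ z) :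
    ∃ P : Cfsg.BNPair G, P.B = MulAction.stabilizer G x ∧
      P.N = MulAction.stabilizer G ({x, y} : Set Ω) ∧ P.rank = 1 := by
  rw [MulAction.is_two_pretransitive_iff] at h2
  obtain ⟨s, hsx, hsy⟩ := h2 hxy (Ne.symm hxy)
  have hsN : s ∈ MulAction.stabilizer G ({x, y} : Set Ω) := by
    rw [mem_N_iff]; right; exact ⟨hsx, hsy⟩
  refine ⟨{ B := MulAction.stabilizer G x
            N := MulAction.stabilizer G ({x, y} : Set Ω)
            S := {s}
            sup_eq_top := ?_
            conj_mem := ?_
            subset := ?_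
            sq_mem := ?_
            inj := ?_
            closure_sup := ?_
            mul_mem_union := ?_
            conj_ne := ?_ }, rfl, rfl, ?_⟩
  · rw [eq_top_iff]
    intro g _
    by_cases hg : g • x = x
    · exact Subgroup.mem_sup_left hg
    · obtain ⟨b, hbx, hbg⟩ := h2 (a := x) (b := g • x) (c := x) (d := y) (Ne.symm hg) hxy
      have h1 : s * b * g ∈ MulAction.stabilizer G x := by
        rw [MulAction.mem_stabilizer_iff, mul_smul, mul_smul, hbg, hsy]
      have h3 : g = b⁻¹ * (s⁻¹ * (s * b * g)) := by group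
      rw [h3]
      refine Subgroup.mul_mem _ (Subgroup.mem_sup_left (Subgroup.inv_mem _ hbx)) ?_
      exact Subgroup.mul_mem _ (Subgroup.mem_sup_right (Subgroup.inv_mem _ hsN))
        (Subgroup.mem_sup_left h1)
  · intro n hn t ht
    obtain ⟨htB, htN⟩ := ht
    have htx : t • x = x := htB
    have hty : t • y = y := by
      rcases (mem_N_iff x y t).mp htN with h | h
      · exact h.2
      · exact absurd (htx.symm.trans h.1) hxy
    have hn' := Subgroup.inv_mem _ hn
    show n * t * n⁻¹ ∈ MulAction.stabilizer G x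
    rw [MulAction.mem_stabilizer_iff, mul_smul, mul_smul]
    rcases (mem_N_iff x y n⁻¹).mp hn' with h | h
    · rw [h.1, htx]
      exact (inv_smul_eq_iff.mp h.1).symm
    · rw [h.1, hty]
      exact (inv_smul_eq_iff.mp h.1).symm
  · intro s' hs'
    rw [Set.mem_singleton_iff] at hs'
    subst hs'
    exact hsN
  · intro s' hs'
    rw [Set.mem_singleton_iff] at hs'
    subst hs'
    show s' * s' ∈ MulAction.stabilizer G x
    rw [MulAction.mem_stabilizer_iff, mul_smul, hsx, hsy]
  · intro s1 hs1 s2 hs2 _
    rw [Set.mem_singleton_iff] at hs1 hs2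
    rw [hs1, hs2]
  · apply le_antisymm
    · apply sup_le
      · rw [Subgroup.closure_le, Set.singleton_subset_iff]
        exact hsN
      · exact inf_le_right
    · intro n hn
      rcases (mem_N_iff x y n).mp hn with h | h
      · exact Subgroup.mem_sup_right ⟨h.1, hn⟩
      · have h3 : n = s⁻¹ * (s * n) := by group
        rw [h3]
        refine Subgroup.mul_mem _ (Subgroup.mem_sup_left
          (Subgroup.inv_mem _ (Subgroup.subset_closure rfl))) (Subgroup.mem_sup_right ⟨?_, ?_⟩)
        · show s * n ∈ MulAction.stabilizer G x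
          rw [MulAction.mem_stabilizer_iff, mul_smul, h.1, hsy]
        · exact Subgroup.mul_mem _ hsN hn
  · intro s' hs' n hn b hb
    rw [Set.mem_singleton_iff] at hs'
    subst hs'
    have hbx : b • x = x := hb
    rcases (mem_N_iff x y n).mp hn with h | h
    · left
      apply mem_dc h2
      rw [mul_smul, mul_smul, mul_smul, h.1, hbx, hsx]
    · by_cases hw : (s' * b * n) • x = x
      · left
        apply mem_dc h2
        rw [mul_smul, h.1, hsy]
        exact ⟨fun _ => hw, fun _ => rfl⟩
      · right
        apply mem_dc h2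
        rw [h.1]
        exact ⟨fun h' => absurd h'.symm hxy, fun h' => absurd h' hw⟩
  · intro s' hs'
    rw [Set.mem_singleton_iff] at hs'
    subst hs'
    intro heq
    obtain ⟨b, hbx, hby⟩ := h2 (a := x) (b := y) (c := x) (d := z) hxy hxz
    have hmem : s' * b * s' ∈ (MulAction.stabilizer G x : Set G) := by
      rw [← heq]
      exact ⟨b, hbx, rfl⟩
    have h1 : (s' * b * s') • x = x := hmem
    rw [mul_smul, mul_smul, hsx, hby] at h1
    have h3 : s' • z = s' • y := h1.trans hsy.symm
    exact hyz (smul_left_cancel s' h3).symm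
  · show Nat.card ({s} : Set G) = 1
    rw [Nat.card_coe_set_eq, Set.ncard_singleton]

end Cfsg.Agent.S0323
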