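import Cfsg.Statements.S0326
import Mathlib

set_option autoImplicit false
open Cfsg

namespace Cfsg.Agent.S0326

noncomputable def vec (F : Type*) [Field F] (m : ℕ) : Option (F × F) → (Fin 4 → F)
  | none => ![1, 0, 0, 0]
  | some (x, y) => ![x * y + x ^ (2 ^ (m + 1) + 2) + y ^ (2 ^ (m + 1)), y, x, 1]

theorem vec_ne_zero (F : Type*) [Field F] (m : ℕ) (o : Option (F × F)) : vec F m o ≠ 0 := by
  cases o with
  | none =>
    intro h
    have := congrFun h 0
    simp [vec] at this
  | some xy =>
    intro h
    have := congrFun h 3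
    simp [vec] at this

noncomputable def pt (F : Type*) [Field F] (m : ℕ) (o : Option (F × F)) :
    Projectivization F (Fin 4 → F) :=
  Projectivization.mk F (vec F m o) (vec_ne_zero F m o)

theorem pt_injective (F : Type*) [Field F] (m : ℕ) : Function.Injective (pt F m) := by
  intro o o' h
  rw [pt, pt, Projectivization.mk_eq_mk_iff] at h
  obtain ⟨a, ha⟩ := h
  cases o with
  | none =>
    cases o' with
    | none => rfl
    | some xy =>
      have := congrFun ha 3
      simp [vec, Units.smul_def] at this
  | some xy =>
    cases o' with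
    | none =>
      have := congrFun ha 3
      simp [vec] at this
    | some xy' =>
      obtain ⟨x, y⟩ := xy
      obtain ⟨x', y'⟩ := xy'
      have h3 := congrFun ha 3
      have h2 := congrFun ha 2
      have h1 := congrFun ha 1
      simp [vec, Units.smul_def] at h3 h2 h1
      rw [h3, Units.val_one, one_mul] at h2 h1
      rw [h1, h2]

theorem ovoid_eq_range (F : Type*) [Field F] (m : ℕ) :
    Cfsg.suzukiOvoid F m = Set.range (pt F m) := by
  ext p
  constructor
  · rintro ⟨v, hv, rfl, h | ⟨x, y, h⟩⟩
    · refine ⟨none, ?_⟩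
      subst h
      rfl
    · refine ⟨some (x, y), ?_⟩
      subst h
      rfl
  · rintro ⟨o, rfl⟩
    cases o with
    | none => exact ⟨_, vec_ne_zero F m none, rfl, Or.inl rfl⟩
    | some xy =>
      obtain ⟨x, y⟩ := xy
      exact ⟨_, vec_ne_zero F m (some (x, y)), rfl, Or.inr ⟨x, y, rfl⟩⟩

/-- The Suzuki–Tits ovoid over a finite field with `q` elements has `q² + 1` points. -/
theorem result {F : Type*} [Field F] [Fintype F] (m : ℕ) :
    Nat.card (Cfsg.suzukiOvoid F m) = Fintype.card F ^ 2 + 1 := by
  rw [ovoid_eq_range, Nat.card_range_of_injective (pt_injective F m), Nat.card_eq_fintype_card,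
    Fintype.card_option, Fintype.card_prod, pow_two]

end Cfsg.Agent.S0326
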