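import Cfsg.Statements.S0333
import Mathlib
import Cfsg.Agent.Lib.Helper14.SzTori8

set_option autoImplicit false
open Cfsg

namespace Cfsg.Agent.S0333

/-- With `q = 2^(2m+1)` and `r = 2^m`, the Suzuki group has cyclic subgroups of orders `q + 2r + 1` and
`q - 2r + 1`; each is the centraliser of each of its non-identity elements and has index `4` in its normaliser. -/
theorem result {F : Type*} [Field F] [Fintype F] {m : ℕ} (hm : 1 ≤ m)
    (hF : Fintype.card F = 2 ^ (2 * m + 1)) :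
    ∀ k ∈ ({2 ^ (2 * m + 1) + 2 ^ (m + 1) + 1, 2 ^ (2 * m + 1) - 2 ^ (m + 1) + 1} : Set ℕ),
      ∃ U : Subgroup (Cfsg.Sz F m), IsCyclic U ∧ Nat.card U = k ∧
        (∀ u ∈ U, u ≠ 1 → Subgroup.centralizer {u} = U) ∧ Nat.card (Subgroup.normalizer (U : Set (Cfsg.Sz F m))) = 4 * k := by
  have hfin : Finite (Matrix.SpecialLinearGroup (Fin 4) F) :=
    Cfsg.Agent.Lib.Helper3.Sz9.finite_SL
  obtain ⟨hall, ⟨g₁, hg₁, hc₁⟩, ⟨g₂, hg₂, hc₂⟩⟩ := Cfsg.Agent.Lib.Helper14.SzTori.main hm hF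
  have key : ∀ g : ↥(Cfsg.Sz F m), Cfsg.Agent.Lib.Helper14.SzTori.Fpf g →
      ∃ U : Subgroup (Cfsg.Sz F m), IsCyclic U ∧
        Nat.card U = Cfsg.Agent.Lib.Helper14.SzTori.cA g ∧
        (∀ u ∈ U, u ≠ 1 → Subgroup.centralizer {u} = U) ∧
        Nat.card (Subgroup.normalizer (U : Set (Cfsg.Sz F m))) =
          4 * Cfsg.Agent.Lib.Helper14.SzTori.cA g := by
    intro g hg
    refine ⟨Subgroup.centralizer ({g} : Set ↥(Cfsg.Sz F m)),
      Cfsg.Agent.Lib.Helper14.SzTori.cent_cyclic hm hF hg, rfl, ?_, (hall g hg).2⟩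
    intro u hu hu1
    exact Cfsg.Agent.Lib.Helper14.SzTori.cent_eq_of_mem hm hF hg hu hu1
  intro k hk
  rcases hk with rfl | hk
  · obtain ⟨U, h1, h2, h3, h4⟩ := key g₁ hg₁
    rw [hc₁] at h2 h4
    exact ⟨U, h1, h2, h3, h4⟩
  · rw [Set.mem_singleton_iff] at hk
    subst hk
    obtain ⟨U, h1, h2, h3, h4⟩ := key g₂ hg₂
    rw [hc₂] at h2 h4
    exact ⟨U, h1, h2, h3, h4⟩

end Cfsg.Agent.S0333
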