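import Cfsg.Statements.S0350
import Mathlib

set_option autoImplicit false
open Cfsg

namespace Cfsg.Agent.S0350

/-- Counting pairs (t-subset, block containing it) in two ways: the number of blocks of a Steiner system with parameters (t, k, v), multiplied by C(k, t), equals C(v, t). -/
theorem result {α : Type*} [Fintype α] [DecidableEq α] {t k : ℕ} {B : Set (Finset α)} (hB : Cfsg.IsSteinerSystem t k B) : B.ncard * Nat.choose k t = Nat.choose (Fintype.card α) t := by
  classical
  obtain ⟨hcard, huniq⟩ := hB
  have hfin : B.Finite := Set.toFinite B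
  have h1 : B.ncard = hfin.toFinset.card := Set.ncard_eq_toFinset_card B hfin
  rw [h1, ← Finset.card_univ (α := α), ← Finset.card_powersetCard]
  have key : (Finset.powersetCard t (Finset.univ : Finset α)).card =
      ∑ b ∈ hfin.toFinset, (Finset.powersetCard t b).card := by
    rw [← Finset.card_biUnion]
    · congr 1
      ext s
      simp only [Finset.mem_powersetCard, Finset.subset_univ, true_and, Finset.mem_biUnion]
      constructor
      · intro hs
        obtain ⟨b, ⟨hb, hsb⟩, _⟩ := huniq s hs
        exact ⟨b, hfin.mem_toFinset.mpr hb, hsb, hs⟩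
      · rintro ⟨b, _, _, hs⟩
        exact hs
    · intro b hb c hc hbc
      rw [Function.onFun, Finset.disjoint_left]
      intro s hs1 hs2
      rw [Finset.mem_powersetCard] at hs1 hs2
      obtain ⟨b0, _, hu⟩ := huniq s hs1.2
      have e1 := hu b ⟨hfin.mem_toFinset.mp hb, hs1.1⟩
      have e2 := hu c ⟨hfin.mem_toFinset.mp hc, hs2.1⟩
      exact hbc (e1.trans e2.symm)
  rw [key]
  rw [Finset.sum_congr rfl (fun b hb => by
    rw [Finset.card_powersetCard, hcard b (hfin.mem_toFinset.mp hb)])]
  simp

end Cfsg.Agent.S0350
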