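import Cfsg.Statements.S0353
import Cfsg.Agent.Lib.Helper3.Steiner
import Cfsg.Agent.S0352
import Mathlib

set_option autoImplicit false
open Cfsg

namespace Cfsg.Agent.S0353

open Cfsg.Agent.Lib.Helper3.Steiner

theorem card_symmDiff_add {α : Type*} [DecidableEq α] (X Y : Finset α) :
    (symmDiff X Y).card + 2 * (X ∩ Y).card = X.card + Y.card := by
  have h1 : symmDiff X Y = (X \ Y) ∪ (Y \ X) := rfl
  have hdisj : Disjoint (X \ Y) (Y \ X) := by
    rw [Finset.disjoint_left]
    intro a ha hb
    rw [Finset.mem_sdiff] at ha hb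
    exact ha.2 hb.1
  rw [h1, Finset.card_union_of_disjoint hdisj]
  have h2 := Finset.card_sdiff_add_card_inter X Y
  have h3 := Finset.card_sdiff_add_card_inter Y X
  rw [Finset.inter_comm Y X] at h3
  omega

theorem even_inter_symmDiff {α : Type*} [DecidableEq α] (X Y e : Finset α)
    (hX : Even (X ∩ e).card) (hY : Even (Y ∩ e).card) : Even ((symmDiff X Y) ∩ e).card := by
  have h1 : (symmDiff X Y) ∩ e = symmDiff (X ∩ e) (Y ∩ e) := by
    ext a
    simp only [Finset.mem_inter, Finset.mem_symmDiff]
    tauto
  rw [h1]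
  have h2 := card_symmDiff_add (X ∩ e) (Y ∩ e)
  rw [Nat.even_iff] at hX hY ⊢
  omega

theorem even_inter_block {α : Type*} [Fintype α] [DecidableEq α] (hα : Fintype.card α = 24)
    {B : Set (Finset α)} (hB : Cfsg.IsSteinerSystem 5 8 B) {b e : Finset α} (hb : b ∈ B)
    (he : e ∈ B) : Even (b ∩ e).card := by
  by_cases hbe : b = e
  · subst hbe
    rw [Finset.inter_self, hB.1 b hb]
    decide
  · rcases Cfsg.Agent.S0352.result hα hB hb he hbe with h | h | h <;> rw [h] <;> decide

theorem exists_block_inter_three {α : Type*} [Fintype α] [DecidableEq α] (hα : Fintype.card α = 24)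
    {B : Set (Finset α)} (hB : Cfsg.IsSteinerSystem 5 8 B) (u : Finset α) (hu : u.card = 4) :
    ∃ e ∈ B, (u ∩ e).card = 3 := by
  obtain ⟨T, hTu, hT⟩ := Finset.exists_subset_card_eq (show 3 ≤ u.card by omega)
  have h3 := card_through hB T (by omega)
  have h4 := card_through hB u (by omega)
  rw [hT, hα] at h3
  rw [hu, hα] at h4
  have e3 : Nat.choose (8 - 3) (5 - 3) = 10 := by decide
  have e3' : Nat.choose (24 - 3) (5 - 3) = 210 := by decide
  have e4 : Nat.choose (8 - 4) (5 - 4) = 4 := by decide
  have e4' : Nat.choose (24 - 4) (5 - 4) = 20 := by decide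
  rw [e3, e3'] at h3
  rw [e4, e4'] at h4
  have hlt : ((blocks B).filter (fun c => u ⊆ c)).card < ((blocks B).filter (fun c => T ⊆ c)).card := by
    omega
  have hex : ∃ e ∈ (blocks B).filter (fun c => T ⊆ c), e ∉ (blocks B).filter (fun c => u ⊆ c) := by
    by_contra hcon
    push Not at hcon
    exact absurd (Finset.card_le_card hcon) (not_le.mpr hlt)
  obtain ⟨e, he1, he2⟩ := hex
  rw [Finset.mem_filter, mem_blocks] at he1
  rw [Finset.mem_filter, mem_blocks] at he2
  refine ⟨e, he1.1, ?_⟩
  have hge : 3 ≤ (u ∩ e).card := by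
    rw [← hT]
    exact Finset.card_le_card (Finset.subset_inter hTu he1.2)
  have hle : (u ∩ e).card ≤ 4 := by
    rw [← hu]
    exact Finset.card_le_card Finset.inter_subset_left
  have hne : (u ∩ e).card ≠ 4 := by
    intro h
    apply he2
    refine ⟨he1.1, ?_⟩
    have : u ∩ e = u := Finset.eq_of_subset_of_card_le Finset.inter_subset_left (by rw [h, hu])
    rw [← this]
    exact Finset.inter_subset_right
  omega

/-- In an S(5, 8, 24), the symmetric difference of two blocks meeting in four points is a block. -/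
theorem result {α : Type*} [Fintype α] [DecidableEq α] (hα : Fintype.card α = 24) {B : Set (Finset α)} (hB : Cfsg.IsSteinerSystem 5 8 B) {b c : Finset α} (hb : b ∈ B) (hc : c ∈ B) (h4 : (b ∩ c).card = 4) : symmDiff b c ∈ B := by
  have hw : (symmDiff b c).card = 8 := by
    have := card_symmDiff_add b c
    rw [h4, hB.1 b hb, hB.1 c hc] at this
    omega
  have hweven : ∀ e ∈ B, Even ((symmDiff b c) ∩ e).card := fun e he =>
    even_inter_symmDiff b c e (even_inter_block hα hB hb he) (even_inter_block hα hB hc he)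
  obtain ⟨s, hsw, hs⟩ := Finset.exists_subset_card_eq (show 5 ≤ (symmDiff b c).card by omega)
  obtain ⟨d, ⟨hd, hsd⟩, _⟩ := hB.2 s hs
  have hge : 5 ≤ ((symmDiff b c) ∩ d).card := by
    rw [← hs]
    exact Finset.card_le_card (Finset.subset_inter hsw hsd)
  have hle : ((symmDiff b c) ∩ d).card ≤ 8 := by
    rw [← hw]
    exact Finset.card_le_card Finset.inter_subset_left
  have hev := hweven d hd
  rw [Nat.even_iff] at hev
  have hcases : ((symmDiff b c) ∩ d).card = 8 ∨ ((symmDiff b c) ∩ d).card = 6 := by omega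
  rcases hcases with h8 | h6
  · have h1 : (symmDiff b c) ∩ d = symmDiff b c :=
      Finset.eq_of_subset_of_card_le Finset.inter_subset_left (by rw [h8, hw])
    have h2 : symmDiff b c ⊆ d := by
      rw [← h1]
      exact Finset.inter_subset_right
    have h3 : symmDiff b c = d := Finset.eq_of_subset_of_card_le h2 (by rw [hw, hB.1 d hd])
    rw [h3]
    exact hd
  · exfalso
    have hu : (symmDiff (symmDiff b c) d).card = 4 := by
      have := card_symmDiff_add (symmDiff b c) d
      rw [h6, hw, hB.1 d hd] at this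
      omega
    obtain ⟨e, he, he3⟩ := exists_block_inter_three hα hB _ hu
    have hev2 := even_inter_symmDiff (symmDiff b c) d e (hweven e he) (even_inter_block hα hB hd he)
    rw [he3] at hev2
    exact absurd hev2 (by decide)

end Cfsg.Agent.S0353
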