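import Cfsg.Statements.S0354
import Cfsg.Agent.Lib.Helper3.Steiner
import Cfsg.Agent.S0352
import Mathlib

set_option autoImplicit false
open Cfsg

namespace Cfsg.Agent.S0354

open Cfsg.Agent.Lib.Helper3.Steiner

/-- In an S(5, 8, 24), each block is disjoint from exactly 30 blocks. -/
theorem result {α : Type*} [Fintype α] [DecidableEq α] (hα : Fintype.card α = 24) {B : Set (Finset α)} (hB : Cfsg.IsSteinerSystem 5 8 B) {b : Finset α} (hb : b ∈ B) : {c : Finset α | c ∈ B ∧ Disjoint b c}.ncard = 30 := by
  have N2 := sum_choose_inter hB hb 2 (by norm_num) 77 (by rw [hα]; decide) (by decide)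
  have N4 := sum_choose_inter hB hb 4 (by norm_num) 5 (by rw [hα]; decide) (by decide)
  have hcardB : (blocks B).card = 759 := by
    have h := card_blocks_mul hB
    rw [hα] at h
    have e1 : Nat.choose 8 5 = 56 := by decide
    have e2 : Nat.choose 24 5 = 42504 := by decide
    rw [e1, e2] at h
    omega
  have hcardE : ((blocks B).erase b).card = 758 := by
    rw [Finset.card_erase_of_mem (mem_blocks.mpr hb), hcardB]
  have hpt : ∀ c ∈ (blocks B).erase b, (if (b ∩ c).card = 0 then 1 else 0) + Nat.choose (b ∩ c).card 2 =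
      1 + 5 * Nat.choose (b ∩ c).card 4 := by
    intro c hc
    rw [Finset.mem_erase, mem_blocks] at hc
    have h := Cfsg.Agent.S0352.result hα hB hb hc.2 (Ne.symm hc.1)
    rcases h with h | h | h <;> rw [h] <;> decide
  have hsum := Finset.sum_congr (rfl : (blocks B).erase b = (blocks B).erase b) hpt
  simp only [Finset.sum_add_distrib, ← Finset.mul_sum] at hsum
  rw [N2, N4, ← Finset.card_filter, Finset.sum_const, hcardE] at hsum
  have e2 : Nat.choose 8 2 = 28 := by decide
  have e4 : Nat.choose 8 4 = 70 := by decide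
  rw [e2, e4] at hsum
  have hset : {c : Finset α | c ∈ B ∧ Disjoint b c} =
      ↑(((blocks B).erase b).filter (fun c => (b ∩ c).card = 0)) := by
    ext c
    simp only [Set.mem_setOf_eq, Finset.coe_filter, Finset.mem_erase, mem_blocks, Finset.card_eq_zero,
      Finset.disjoint_iff_inter_eq_empty]
    constructor
    · rintro ⟨hc, hd⟩
      refine ⟨⟨?_, hc⟩, hd⟩
      rintro rfl
      rw [Finset.inter_self] at hd
      have := hB.1 c hc
      rw [hd] at this
      simp at this
    · rintro ⟨⟨_, hc⟩, hd⟩
      exact ⟨hc, hd⟩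
  rw [hset, Set.ncard_coe_finset]
  simp only [smul_eq_mul] at hsum
  omega

end Cfsg.Agent.S0354
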