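import Cfsg.Statements.S0356
import Cfsg.Agent.Lib.Helper3.Steiner
import Mathlib

set_option autoImplicit false
open Cfsg

namespace Cfsg.Agent.S0356

open Cfsg.Agent.Lib.Helper3.Steiner

/-- In a Steiner system S(3, 6, 22), two distinct blocks intersect in 0 or 2 points. -/
theorem result {α : Type*} [Fintype α] [DecidableEq α] (hα : Fintype.card α = 22) {B : Set (Finset α)} (hB : Cfsg.IsSteinerSystem 3 6 B) {b c : Finset α} (hb : b ∈ B) (hc : c ∈ B) (hbc : b ≠ c) : (b ∩ c).card = 0 ∨ (b ∩ c).card = 2 := by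
  have N1 := sum_choose_inter hB hb 1 (by norm_num) 21 (by rw [hα]; decide) (by decide)
  have N2 := sum_choose_inter hB hb 2 (by norm_num) 5 (by rw [hα]; decide) (by decide)
  have hpt : ∀ c ∈ (blocks B).erase b, Nat.choose (b ∩ c).card 1 =
      2 * Nat.choose (b ∩ c).card 2 + (b ∩ c).card % 2 := by
    intro c hc
    rw [Finset.mem_erase, mem_blocks] at hc
    have hlt := inter_card_lt hB hb hc.2 (Ne.symm hc.1)
    generalize (b ∩ c).card = j at hlt
    interval_cases j <;> decide
  have hsum := Finset.sum_congr (rfl : (blocks B).erase b = (blocks B).erase b) hpt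
  simp only [Finset.sum_add_distrib, ← Finset.mul_sum] at hsum
  rw [N1, N2] at hsum
  have hzero : ∑ c ∈ (blocks B).erase b, (b ∩ c).card % 2 = 0 := by
    have e1 : Nat.choose 6 1 = 6 := by decide
    have e2 : Nat.choose 6 2 = 15 := by decide
    rw [e1, e2] at hsum
    omega
  have hmem : c ∈ (blocks B).erase b := by
    rw [Finset.mem_erase, mem_blocks]
    exact ⟨Ne.symm hbc, hc⟩
  have h0 := (Finset.sum_eq_zero_iff.mp hzero) c hmem
  have hlt := inter_card_lt hB hb hc hbc
  omega

end Cfsg.Agent.S0356
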