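import Cfsg.Statements.S0357
import Cfsg.Agent.Lib.Helper3.Steiner
import Mathlib

set_option autoImplicit false
open Cfsg

namespace Cfsg.Agent.S0357

open Cfsg.Agent.Lib.Helper3.Steiner

/-- In a Steiner system S(5, 6, 12), the complement of every block is again a block. -/
theorem result {α : Type*} [Fintype α] [DecidableEq α] (hα : Fintype.card α = 12) {B : Set (Finset α)} (hB : Cfsg.IsSteinerSystem 5 6 B) {b : Finset α} (hb : b ∈ B) : bᶜ ∈ B := by
  have N1 := sum_choose_inter hB hb 1 (by norm_num) 66 (by rw [hα]; decide) (by decide)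
  have N2 := sum_choose_inter hB hb 2 (by norm_num) 30 (by rw [hα]; decide) (by decide)
  have N3 := sum_choose_inter hB hb 3 (by norm_num) 12 (by rw [hα]; decide) (by decide)
  have N4 := sum_choose_inter hB hb 4 (by norm_num) 4 (by rw [hα]; decide) (by decide)
  have hcardB : (blocks B).card = 132 := by
    have h := card_blocks_mul hB
    rw [hα] at h
    have e1 : Nat.choose 6 5 = 6 := by decide
    have e2 : Nat.choose 12 5 = 792 := by decide
    rw [e1, e2] at h
    omega
  have hcardE : ((blocks B).erase b).card = 131 := by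
    rw [Finset.card_erase_of_mem (mem_blocks.mpr hb), hcardB]
  have hpt : ∀ c ∈ (blocks B).erase b, (if (b ∩ c).card = 0 then 1 else 0) + Nat.choose (b ∩ c).card 1 +
      Nat.choose (b ∩ c).card 3 = 1 + Nat.choose (b ∩ c).card 2 + Nat.choose (b ∩ c).card 4 := by
    intro c hc
    rw [Finset.mem_erase, mem_blocks] at hc
    have hlt := inter_card_lt hB hb hc.2 (Ne.symm hc.1)
    generalize (b ∩ c).card = j at hlt
    interval_cases j <;> decide
  have hsum := Finset.sum_congr (rfl : (blocks B).erase b = (blocks B).erase b) hpt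
  simp only [Finset.sum_add_distrib] at hsum
  rw [N1, N2, N3, N4, ← Finset.card_filter, Finset.sum_const, hcardE] at hsum
  have e1 : Nat.choose 6 1 = 6 := by decide
  have e2 : Nat.choose 6 2 = 15 := by decide
  have e3 : Nat.choose 6 3 = 20 := by decide
  have e4 : Nat.choose 6 4 = 15 := by decide
  rw [e1, e2, e3, e4] at hsum
  simp only [smul_eq_mul] at hsum
  have hpos : 0 < (((blocks B).erase b).filter (fun c => (b ∩ c).card = 0)).card := by omega
  obtain ⟨c, hc⟩ := Finset.card_pos.mp hpos
  rw [Finset.mem_filter, Finset.mem_erase, mem_blocks, Finset.card_eq_zero] at hc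
  have hsub : c ⊆ bᶜ := by
    intro a ha
    rw [Finset.mem_compl]
    intro hab
    have : a ∈ b ∩ c := Finset.mem_inter.mpr ⟨hab, ha⟩
    rw [hc.2] at this
    simp at this
  have hcard : bᶜ.card ≤ c.card := by
    rw [Finset.card_compl, hα, hB.1 b hb, hB.1 c hc.1.2]
  rw [← Finset.eq_of_subset_of_card_le hsub hcard]
  exact hc.1.2

end Cfsg.Agent.S0357
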