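import Cfsg.Statements.S0371
import Cfsg.Agent.Lib.Helper3.GolayM24
import Mathlib

set_option autoImplicit false
open Cfsg

namespace Cfsg.Agent.S0371

/-- Multiplication by a nonzero square residue modulo 23, fixing the extra point, lies in the group of the length-24 code. -/
theorem result (u : (ZMod 23)ˣ) (hu : IsSquare u) : Equiv.optionCongr (Units.mulLeft u) ∈ Cfsg.M24 := by
  obtain ⟨s, rfl⟩ := hu
  apply Cfsg.Agent.Lib.Helper3.GolayM24.mem_M24_of_gens
  intro t
  have h1 : Cfsg.qrWord t ∘ (Equiv.optionCongr (Units.mulLeft (s * s))).symm =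
      Cfsg.qrWord (((s * s : (ZMod 23)ˣ) : ZMod 23) * t) := by
    funext p
    cases p with
    | none => rfl
    | some x =>
      show Cfsg.qrWord t (some ((Units.mulLeft (s * s)).symm x)) = Cfsg.qrWord _ (some x)
      simp only [Cfsg.qrWord]
      apply if_congr _ rfl rfl
      have hsymm : (Units.mulLeft (s * s)).symm x = ((s * s : (ZMod 23)ˣ)⁻¹ : (ZMod 23)ˣ) * x := rfl
      rw [hsymm]
      constructor
      · rintro ⟨r, hr⟩
        refine ⟨s * r, ?_⟩
        have hx : x = ((s * s : (ZMod 23)ˣ) : ZMod 23) * (r ^ 2 + t) := by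
          rw [← hr, Units.mul_inv_cancel_left]
        rw [hx]
        push_cast
        ring
      · rintro ⟨r, hr⟩
        refine ⟨((s⁻¹ : (ZMod 23)ˣ) : ZMod 23) * r, ?_⟩
        rw [hr]
        have h2 : ((s⁻¹ : (ZMod 23)ˣ) : ZMod 23) * (s : ZMod 23) = 1 := Units.inv_mul s
        have h3 : (((s * s : (ZMod 23)ˣ)⁻¹ : (ZMod 23)ˣ) : ZMod 23) =
            ((s⁻¹ : (ZMod 23)ˣ) : ZMod 23) * ((s⁻¹ : (ZMod 23)ˣ) : ZMod 23) := by
          rw [mul_inv_rev, Units.val_mul]
        rw [h3]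
        push_cast
        linear_combination ((((s⁻¹ : (ZMod 23)ˣ) : ZMod 23) * (s : ZMod 23)) + 1) * t * h2
  rw [h1]
  exact Cfsg.Agent.Lib.Helper3.Golay.qrWord_mem _

end Cfsg.Agent.S0371
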