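import Cfsg.Statements.S0382
import Cfsg.Agent.Lib.Helper3.M24Dod

set_option autoImplicit false
open scoped Pointwise
open Cfsg

namespace Cfsg.Agent.S0382

/-- A dodecad stabiliser in the group of the length-24 code has order 95040 = 2^6·3^3·5·11. -/
theorem result (d : Finset Cfsg.GolayPt) (hd : d ∈ Cfsg.dodecads) : Nat.card (MulAction.stabilizer Cfsg.M24 d) = 95040 := by
  have h := Cfsg.Agent.Lib.Helper3.M24Cert.card_eq_ncard_mul (G := Cfsg.M24)
    (⊤ : Subgroup Cfsg.M24) (MulAction.stabilizer Cfsg.M24 d) d Cfsg.dodecads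
    (fun g => by simp [MulAction.mem_stabilizer_iff])
    (fun g _ => Cfsg.Agent.Lib.Helper3.M24Trans.smul_mem_dodecads g.2 hd)
    (fun s hs => by
      obtain ⟨g, hg, h⟩ := Cfsg.Agent.Lib.Helper3.M24Dod.dodecad_trans hd hs
      exact ⟨⟨g, hg⟩, Subgroup.mem_top _, h⟩)
  rw [Subgroup.card_top, Cfsg.Agent.Lib.Helper3.M24Order.card_M24,
    Cfsg.Agent.Lib.Helper3.Golay.ncard_dodecads] at h
  omega

end Cfsg.Agent.S0382
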