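import Cfsg.Statements.S0384
import Cfsg.Agent.Lib.Helper3.M24Dod

set_option autoImplicit false
open scoped Pointwise
open Cfsg

namespace Cfsg.Agent.S0384

/-- A dodecad stabiliser is sharply 5-transitive on the dodecad. -/
theorem result (d : Finset Cfsg.GolayPt) (hd : d ∈ Cfsg.dodecads) (x y : Fin 5 ↪ Cfsg.GolayPt) (hx : ∀ i, x i ∈ d) (hy : ∀ i, y i ∈ d) : ∃! g : MulAction.stabilizer Cfsg.M24 d, ∀ i, ((g : Cfsg.M24) : Equiv.Perm Cfsg.GolayPt) (x i) = y i := by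
  obtain ⟨g, hg, hgd, hgx⟩ := Cfsg.Agent.Lib.Helper3.M24Dod.m12_exists hd x y hx hy
  refine ⟨⟨⟨g, hg⟩, hgd⟩, hgx, ?_⟩
  rintro ⟨⟨g', hg'⟩, hgd'⟩ hgx'
  have hgd'' : g' • d = d := hgd'
  have hgx'' : ∀ i, g' (x i) = y i := hgx'
  have h1 : g⁻¹ * g' = 1 := by
    apply Cfsg.Agent.Lib.Helper3.M24Dod.m12_unique hd x hx
      (Cfsg.M24.mul_mem (Cfsg.M24.inv_mem hg) hg')
    · rw [mul_smul, hgd'', inv_smul_eq_iff, hgd]
    · intro i
      rw [Equiv.Perm.mul_apply, hgx'' i, ← hgx i]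
      simp
  apply Subtype.ext
  apply Subtype.ext
  exact (inv_mul_eq_one.mp h1).symm

end Cfsg.Agent.S0384
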