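import Cfsg.Statements.S0385
import Cfsg.Agent.Lib.Helper3.Golay3
import Mathlib

set_option autoImplicit false
open Cfsg

namespace Cfsg.Agent.S0385

/-- The 6-point intersections of octads with a fixed dodecad form a Steiner system S(5, 6, 12) on the dodecad. -/
theorem result (d : Finset Cfsg.GolayPt) (hd : d ∈ Cfsg.dodecads) : Cfsg.IsSteinerSystem 5 6 {h : Finset {p : Cfsg.GolayPt // p ∈ d} | ∃ o ∈ Cfsg.octads, (o ∩ d).card = 6 ∧ h = Finset.subtype (fun p => p ∈ d) o} := by
  classical
  refine ⟨?_, ?_⟩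
  · rintro h ⟨o, ho, h6, rfl⟩
    rw [Finset.card_subtype, Finset.filter_mem_eq_inter]
    exact h6
  · intro s hs
    have hScard : (s.map (Function.Embedding.subtype (fun p => p ∈ d))).card = 5 := by
      rw [Finset.card_map, hs]
    have hSd : s.map (Function.Embedding.subtype (fun p => p ∈ d)) ⊆ d := by
      intro x hx
      rw [Finset.mem_map] at hx
      obtain ⟨a, _, rfl⟩ := hx
      exact a.2
    obtain ⟨o, ⟨ho, hSo⟩, huniq⟩ := Cfsg.Agent.Lib.Helper3.Golay2.octads_steiner.2 _ hScard
    have h6 : (o ∩ d).card = 6 := by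
      have h1 : 5 ≤ (o ∩ d).card := by
        rw [← hScard]
        exact Finset.card_le_card (Finset.subset_inter hSo hSd)
      rcases Cfsg.Agent.Lib.Helper3.Golay3.dodecad_octad_inter_cases hd ho with h | h | h <;> omega
    refine ⟨Finset.subtype (fun p => p ∈ d) o, ⟨⟨o, ho, h6, rfl⟩, ?_⟩, ?_⟩
    · intro a ha
      rw [Finset.mem_subtype]
      apply hSo
      rw [Finset.mem_map]
      exact ⟨a, ha, rfl⟩
    · rintro h' ⟨⟨o', ho', _, rfl⟩, hsub⟩
      have : o' = o := by
        apply huniq o' ⟨ho', ?_⟩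
        intro x hx
        rw [Finset.mem_map] at hx
        obtain ⟨a, ha, rfl⟩ := hx
        have := hsub ha
        rw [Finset.mem_subtype] at this
        exact this
      rw [this]

end Cfsg.Agent.S0385
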