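import Cfsg.Statements.S0387
import Cfsg.Agent.Lib.Helper3.M24Dod
import Cfsg.Agent.S0382

set_option autoImplicit false
open scoped Pointwise
open Cfsg

namespace Cfsg.Agent.S0387

/-- The stabiliser of a dodecad and a point on it has order 7920 = 2^4·3^2·5·11. -/
theorem result (d : Finset Cfsg.GolayPt) (hd : d ∈ Cfsg.dodecads) (p : Cfsg.GolayPt) (hp : p ∈ d) : Nat.card ↥(MulAction.stabilizer Cfsg.M24 d ⊓ MulAction.stabilizer Cfsg.M24 p) = 7920 := by
  have h1 := Cfsg.Agent.S0382.result d hd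
  have h := Cfsg.Agent.Lib.Helper3.M24Cert.card_eq_ncard_mul (G := Cfsg.M24)
    (MulAction.stabilizer Cfsg.M24 d)
    (MulAction.stabilizer Cfsg.M24 d ⊓ MulAction.stabilizer Cfsg.M24 p) p (d : Set Cfsg.GolayPt)
    (fun g => by simp [Subgroup.mem_inf, MulAction.mem_stabilizer_iff])
    (fun g hg => by
      rw [MulAction.mem_stabilizer_iff] at hg
      rw [Finset.mem_coe, ← hg]
      exact Finset.smul_mem_smul_finset hp)
    (fun s hs => by
      obtain ⟨g, hg, hgd, hgp⟩ :=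
        Cfsg.Agent.Lib.Helper3.M24Dod.m12_trans1 hd hp (Finset.mem_coe.mp hs)
      exact ⟨⟨g, hg⟩, hgd, hgp⟩)
  rw [h1, Set.ncard_coe_finset, hd.2] at h
  omega

end Cfsg.Agent.S0387
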