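import Cfsg.Statements.S0427
import Mathlib
import Cfsg.Agent.Lib.Helper3.Steiner2

set_option autoImplicit false
open Cfsg

namespace Cfsg.Agent.S0427

open Finset Cfsg.Agent.Lib.Helper3.Steiner Cfsg.Agent.Lib.Helper3.Steiner2

theorem aux1 : ∀ x : ℕ, x ≤ 2 → 2 * Nat.choose x 2 ≤ x := by decide

theorem aux2 : ∀ x : ℕ, x ≤ 2 → 2 * Nat.choose x 2 = x → x = 0 ∨ x = 2 := by decide

theorem arithE : ∀ x y z j : ℕ, (x = 0 ∨ x = 2) → (y = 0 ∨ y = 2) → z ≤ x → z ≤ y → j + z = x + y →
    24 + 12 * Nat.choose j 2 =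
      18 * j + 6 * Nat.choose j 3 + 24 * (if x = 0 ∧ y = 0 then 1 else 0) := by
  intro x y z j hx hy hzx hzy hj
  rcases hx with rfl | rfl <;> rcases hy with rfl | rfl
  · have : j = 0 := by omega
    subst this; decide
  · have : j = 2 := by omega
    subst this; decide
  · have : j = 2 := by omega
    subst this; decide
  · interval_cases z
    · have : j = 4 := by omega
      subst this; decide
    · have : j = 3 := by omega
      subst this; decide
    · have : j = 2 := by omega
      subst this; decide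

theorem arithD : ∀ x y j : ℕ, (x = 0 ∨ x = 2) → (y = 0 ∨ y = 2) → j = x + y →
    48 + 18 * Nat.choose j 2 =
      33 * j + 6 * Nat.choose j 3 + 48 * (if x = 0 ∧ y = 0 then 1 else 0) := by
  intro x y j hx hy hj
  rcases hx with rfl | rfl <;> rcases hy with rfl | rfl <;> subst hj <;> decide

section
variable {α : Type*} [Fintype α] [DecidableEq α]

theorem T0 (hα : Fintype.card α = 22) {B : Set (Finset α)} (hB : Cfsg.IsSteinerSystem 3 6 B) :
    (blocks B).card = 77 := by
  have h := card_blocks_mul hB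
  rw [hα] at h
  have e1 : Nat.choose 6 3 = 20 := by decide
  have e2 : Nat.choose 22 3 = 1540 := by decide
  rw [e1, e2] at h
  omega

theorem T1 (hα : Fintype.card α = 22) {B : Set (Finset α)} (hB : Cfsg.IsSteinerSystem 3 6 B)
    (d : Finset α) : ∑ D ∈ blocks B, (d ∩ D).card = d.card * 21 := by
  have h := sum_choose_inter_set hB d 1 (by norm_num) 21 (by rw [hα]; decide) (by decide)
  simpa [Nat.choose_one_right] using h

theorem T2 (hα : Fintype.card α = 22) {B : Set (Finset α)} (hB : Cfsg.IsSteinerSystem 3 6 B)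
    (d : Finset α) : ∑ D ∈ blocks B, Nat.choose (d ∩ D).card 2 = Nat.choose d.card 2 * 5 :=
  sum_choose_inter_set hB d 2 (by norm_num) 5 (by rw [hα]; decide) (by decide)

theorem T3 (hα : Fintype.card α = 22) {B : Set (Finset α)} (hB : Cfsg.IsSteinerSystem 3 6 B)
    (d : Finset α) : ∑ D ∈ blocks B, Nat.choose (d ∩ D).card 3 = Nat.choose d.card 3 * 1 :=
  sum_choose_inter_set hB d 3 (by norm_num) 1 (by rw [hα]; decide) (by decide)

theorem inter_02 (hα : Fintype.card α = 22) {B : Set (Finset α)}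
    (hB : Cfsg.IsSteinerSystem 3 6 B) {b : Finset α} (hb : b ∈ B) :
    ∀ D ∈ blocks B, D ≠ b → (b ∩ D).card = 0 ∨ (b ∩ D).card = 2 := by
  have hb6 : b.card = 6 := hB.1 b hb
  have h1 := T1 hα hB b
  have h2 := T2 hα hB b
  rw [hb6] at h1 h2
  have hle : ∀ D ∈ blocks B,
      2 * Nat.choose (b ∩ D).card 2 ≤ (b ∩ D).card + (if D = b then 24 else 0) := by
    intro D hD
    by_cases hDb : D = b
    · rw [hDb, if_pos rfl, Finset.inter_self, hb6]; decide
    · have hlt := inter_card_lt hB hb (mem_blocks.1 hD) (Ne.symm hDb)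
      rw [if_neg hDb, add_zero]
      exact aux1 _ (by omega)
  have hsum : ∑ D ∈ blocks B, 2 * Nat.choose (b ∩ D).card 2 =
      ∑ D ∈ blocks B, ((b ∩ D).card + (if D = b then 24 else 0)) := by
    rw [← Finset.mul_sum, h2, Finset.sum_add_distrib, h1, Finset.sum_ite_eq',
      if_pos (mem_blocks.2 hb)]
    decide
  have heq := (Finset.sum_eq_sum_iff_of_le hle).1 hsum
  intro D hD hDb
  have h := heq D hD
  rw [if_neg hDb, add_zero] at h
  have hlt := inter_card_lt hB hb (mem_blocks.1 hD) (Ne.symm hDb)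
  exact aux2 _ (by omega) h

theorem disj_iff (b D : Finset α) : Disjoint b D ↔ (b ∩ D).card = 0 := by
  rw [Finset.disjoint_iff_inter_eq_empty, Finset.card_eq_zero]

theorem deg16 (hα : Fintype.card α = 22) {B : Set (Finset α)}
    (hB : Cfsg.IsSteinerSystem 3 6 B) {b : Finset α} (hb : b ∈ B) :
    ((blocks B).filter (fun D => D ≠ b ∧ Disjoint b D)).card = 16 := by
  have hb6 : b.card = 6 := hB.1 b hb
  have h0 := T0 hα hB
  have h2 := T2 hα hB b
  rw [hb6] at h2
  have hterm : ∀ D ∈ blocks B, 1 + (if D = b then 14 else 0) =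
      Nat.choose (b ∩ D).card 2 + (if D ≠ b ∧ Disjoint b D then 1 else 0) := by
    intro D hD
    by_cases hDb : D = b
    · have hP : ¬ (b ≠ b ∧ Disjoint b b) := by simp
      rw [hDb, if_pos rfl, Finset.inter_self, hb6, if_neg hP]; decide
    · rw [if_neg hDb]
      rcases inter_02 hα hB hb D hD hDb with h | h
      · have hdis : Disjoint b D := (disj_iff b D).2 h
        rw [h, if_pos ⟨hDb, hdis⟩]; decide
      · have hdis : ¬ Disjoint b D := by
          rw [disj_iff, h]; decide
        rw [h, if_neg (fun hh => hdis hh.2)]; decide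
  have hs := Finset.sum_congr (s₁ := blocks B) rfl hterm
  rw [Finset.sum_add_distrib, Finset.sum_add_distrib, Finset.sum_const, Finset.sum_ite_eq',
    if_pos (mem_blocks.2 hb), h2, ← Finset.card_filter, h0, smul_eq_mul] at hs
  have e : Nat.choose 6 2 = 15 := by decide
  rw [e] at hs
  omega

theorem union_inter_card (b c D : Finset α) :
    ((b ∪ c) ∩ D).card + ((b ∩ D) ∩ (c ∩ D)).card = (b ∩ D).card + (c ∩ D).card := by
  rw [Finset.union_inter_distrib_right]
  exact Finset.card_union_add_card_inter _ _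

theorem common_disj (hα : Fintype.card α = 22) {B : Set (Finset α)}
    (hB : Cfsg.IsSteinerSystem 3 6 B) {b c : Finset α} (hb : b ∈ B) (hc : c ∈ B) (hbc : b ≠ c)
    (hdis : Disjoint b c) :
    ((blocks B).filter
      (fun D => (D ≠ b ∧ Disjoint b D) ∧ (D ≠ c ∧ Disjoint c D))).card = 0 := by
  have hb6 : b.card = 6 := hB.1 b hb
  have hc6 : c.card = 6 := hB.1 c hc
  have hd : (b ∪ c).card = 12 := by
    rw [Finset.card_union_of_disjoint hdis, hb6, hc6]
  have h0 := T0 hα hB
  have h1 := T1 hα hB (b ∪ c)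
  have h2 := T2 hα hB (b ∪ c)
  have h3 := T3 hα hB (b ∪ c)
  rw [hd] at h1 h2 h3
  have hterm : ∀ D ∈ blocks B, 48 + 18 * Nat.choose ((b ∪ c) ∩ D).card 2 =
      33 * ((b ∪ c) ∩ D).card + 6 * Nat.choose ((b ∪ c) ∩ D).card 3 +
        48 * (if (D ≠ b ∧ Disjoint b D) ∧ (D ≠ c ∧ Disjoint c D) then 1 else 0) := by
    intro D hD
    by_cases hDb : D = b
    · have hP : ¬ ((b ≠ b ∧ Disjoint b b) ∧ (b ≠ c ∧ Disjoint c b)) := by simp
      rw [hDb, Finset.union_inter_cancel_left, hb6, if_neg hP]; decide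
    · by_cases hDc : D = c
      · have hP : ¬ ((c ≠ b ∧ Disjoint b c) ∧ (c ≠ c ∧ Disjoint c c)) := by simp
        rw [hDc, Finset.union_inter_cancel_right, hc6, if_neg hP]; decide
      · have hx := inter_02 hα hB hb D hD hDb
        have hy := inter_02 hα hB hc D hD hDc
        have hz : ((b ∩ D) ∩ (c ∩ D)).card = 0 := by
          rw [Finset.card_eq_zero, ← Finset.subset_empty, ← Finset.disjoint_iff_inter_eq_empty.1 hdis]
          exact Finset.inter_subset_inter Finset.inter_subset_left Finset.inter_subset_left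
        have hj := union_inter_card b c D
        rw [hz, add_zero] at hj
        have hiff : ((D ≠ b ∧ Disjoint b D) ∧ (D ≠ c ∧ Disjoint c D)) ↔
            ((b ∩ D).card = 0 ∧ (c ∩ D).card = 0) := by
          rw [disj_iff, disj_iff]
          constructor
          · rintro ⟨⟨_, h1⟩, _, h2⟩; exact ⟨h1, h2⟩
          · rintro ⟨h1, h2⟩; exact ⟨⟨hDb, h1⟩, hDc, h2⟩
        rw [if_congr hiff rfl rfl]
        exact arithD _ _ _ hx hy hj
  have hs := Finset.sum_congr (s₁ := blocks B) rfl hterm
  simp only [Finset.sum_add_distrib, ← Finset.mul_sum, Finset.sum_const, smul_eq_mul] at hs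
  rw [h1, h2, h3, h0, ← Finset.card_filter] at hs
  have e2 : Nat.choose 12 2 = 66 := by decide
  have e3 : Nat.choose 12 3 = 220 := by decide
  rw [e2, e3] at hs
  omega

theorem common_meet (hα : Fintype.card α = 22) {B : Set (Finset α)}
    (hB : Cfsg.IsSteinerSystem 3 6 B) {b c : Finset α} (hb : b ∈ B) (hc : c ∈ B) (hbc : b ≠ c)
    (hdis : ¬ Disjoint b c) :
    ((blocks B).filter
      (fun D => (D ≠ b ∧ Disjoint b D) ∧ (D ≠ c ∧ Disjoint c D))).card = 4 := by
  have hb6 : b.card = 6 := hB.1 b hb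
  have hc6 : c.card = 6 := hB.1 c hc
  have hbc2 : (b ∩ c).card = 2 := by
    rcases inter_02 hα hB hb c (mem_blocks.2 hc) (Ne.symm hbc) with h | h
    · exact absurd ((disj_iff b c).2 h) hdis
    · exact h
  have hd : (b ∪ c).card = 10 := by
    have := Finset.card_union_add_card_inter b c
    omega
  have h0 := T0 hα hB
  have h1 := T1 hα hB (b ∪ c)
  have h2 := T2 hα hB (b ∪ c)
  have h3 := T3 hα hB (b ∪ c)
  rw [hd] at h1 h2 h3
  have hterm : ∀ D ∈ blocks B, 24 + 12 * Nat.choose ((b ∪ c) ∩ D).card 2 +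
        (if D = b then 24 else 0) + (if D = c then 24 else 0) =
      18 * ((b ∪ c) ∩ D).card + 6 * Nat.choose ((b ∪ c) ∩ D).card 3 +
        24 * (if (D ≠ b ∧ Disjoint b D) ∧ (D ≠ c ∧ Disjoint c D) then 1 else 0) := by
    intro D hD
    by_cases hDb : D = b
    · have hP : ¬ ((b ≠ b ∧ Disjoint b b) ∧ (b ≠ c ∧ Disjoint c b)) := by simp
      rw [hDb, Finset.union_inter_cancel_left, hb6, if_neg hP, if_pos rfl, if_neg hbc]; decide
    · by_cases hDc : D = c
      · have hP : ¬ ((c ≠ b ∧ Disjoint b c) ∧ (c ≠ c ∧ Disjoint c c)) := by simp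
        rw [hDc, Finset.union_inter_cancel_right, hc6, if_neg hP, if_neg (Ne.symm hbc),
          if_pos rfl]; decide
      · have hx := inter_02 hα hB hb D hD hDb
        have hy := inter_02 hα hB hc D hD hDc
        have hzx : ((b ∩ D) ∩ (c ∩ D)).card ≤ (b ∩ D).card :=
          Finset.card_le_card Finset.inter_subset_left
        have hzy : ((b ∩ D) ∩ (c ∩ D)).card ≤ (c ∩ D).card :=
          Finset.card_le_card Finset.inter_subset_right
        have hj := union_inter_card b c D
        have hiff : ((D ≠ b ∧ Disjoint b D) ∧ (D ≠ c ∧ Disjoint c D)) ↔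
            ((b ∩ D).card = 0 ∧ (c ∩ D).card = 0) := by
          rw [disj_iff, disj_iff]
          constructor
          · rintro ⟨⟨_, h1⟩, _, h2⟩; exact ⟨h1, h2⟩
          · rintro ⟨h1, h2⟩; exact ⟨⟨hDb, h1⟩, hDc, h2⟩
        rw [if_congr hiff rfl rfl, if_neg hDb, if_neg hDc, add_zero, add_zero]
        exact arithE _ _ _ _ hx hy hzx hzy hj
  have hs := Finset.sum_congr (s₁ := blocks B) rfl hterm
  simp only [Finset.sum_add_distrib, ← Finset.mul_sum, Finset.sum_const, smul_eq_mul,
    Finset.sum_ite_eq', mem_blocks.2 hb, mem_blocks.2 hc, if_true] at hs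
  rw [h1, h2, h3, h0, ← Finset.card_filter] at hs
  have e2 : Nat.choose 10 2 = 45 := by decide
  have e3 : Nat.choose 10 3 = 120 := by decide
  rw [e2, e3] at hs
  omega

theorem card_conv (B : Set (Finset α)) (S : Set B) (P : Finset α → Prop) [DecidablePred P]
    (hS : ∀ w : B, w ∈ S ↔ P (w : Finset α)) : Nat.card S = ((blocks B).filter P).card := by
  rw [Nat.card_coe_set_eq, ← Set.ncard_image_of_injective S Subtype.val_injective,
    ← Set.ncard_coe_finset]
  congr 1
  ext D
  simp only [Set.mem_image, Finset.coe_filter, Set.mem_ofPred_eq, mem_blocks]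
  constructor
  · rintro ⟨w, hw, rfl⟩
    exact ⟨w.2, (hS w).1 hw⟩
  · rintro ⟨hD, hP⟩
    exact ⟨⟨D, hD⟩, (hS _).2 hP, rfl⟩

end

/-- The block graph (adjacent = disjoint) of an S(3, 6, 22) is strongly regular with parameters (77, 16, 0, 4). -/
theorem result {α : Type*} [Fintype α] (hα : Fintype.card α = 22) {B : Set (Finset α)} (hB : Cfsg.IsSteinerSystem 3 6 B) [Fintype B] [DecidableRel (Cfsg.blockGraph B).Adj] : (Cfsg.blockGraph B).IsSRGWith 77 16 0 4 := by
  classical
  have hadj : ∀ v w : B, (Cfsg.blockGraph B).Adj v w ↔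
      ((w : Finset α) ≠ v ∧ Disjoint (v : Finset α) w) := by
    intro v w
    unfold Cfsg.blockGraph
    rw [SimpleGraph.fromRel_adj]
    constructor
    · rintro ⟨hne, h | h⟩
      · exact ⟨fun e => hne (Subtype.ext e.symm), h⟩
      · exact ⟨fun e => hne (Subtype.ext e.symm), h.symm⟩
    · rintro ⟨hne, h⟩
      exact ⟨fun e => hne (congrArg Subtype.val e).symm, Or.inl h⟩
  refine ⟨?_, ?_, ?_, ?_⟩
  · rw [← Nat.card_eq_fintype_card, Nat.card_coe_set_eq, ← card_blocks]
    exact T0 hα hB
  · intro v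
    rw [← SimpleGraph.card_neighborSet_eq_degree, ← Nat.card_eq_fintype_card,
      card_conv B ((Cfsg.blockGraph B).neighborSet v)
        (fun D => D ≠ (v : Finset α) ∧ Disjoint (v : Finset α) D)
        (fun w => by rw [SimpleGraph.mem_neighborSet]; exact hadj v w)]
    exact deg16 hα hB v.2
  · intro v w hvw
    rw [← Nat.card_eq_fintype_card,
      card_conv B ((Cfsg.blockGraph B).commonNeighbors v w)
        (fun D => (D ≠ (v : Finset α) ∧ Disjoint (v : Finset α) D) ∧
          (D ≠ (w : Finset α) ∧ Disjoint (w : Finset α) D))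
        (fun u => by rw [SimpleGraph.mem_commonNeighbors, hadj, hadj])]
    have h := (hadj v w).1 hvw
    exact common_disj hα hB v.2 w.2 (Ne.symm h.1) h.2
  · intro v w hvw hnadj
    rw [← Nat.card_eq_fintype_card,
      card_conv B ((Cfsg.blockGraph B).commonNeighbors v w)
        (fun D => (D ≠ (v : Finset α) ∧ Disjoint (v : Finset α) D) ∧
          (D ≠ (w : Finset α) ∧ Disjoint (w : Finset α) D))
        (fun u => by rw [SimpleGraph.mem_commonNeighbors, hadj, hadj])]
    have hne : (v : Finset α) ≠ w := fun e => hvw (Subtype.ext e)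
    have hnd : ¬ Disjoint (v : Finset α) w := fun hd => hnadj ((hadj v w).2 ⟨Ne.symm hne, hd⟩)
    exact common_meet hα hB v.2 w.2 hne hnd

end Cfsg.Agent.S0427
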