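import Cfsg.Statements.S0428
import Mathlib
import Cfsg.Agent.Lib.Helper3.Steiner2
import Cfsg.Agent.S0427

set_option autoImplicit false
open Cfsg

namespace Cfsg.Agent.S0428

open Finset Cfsg.Agent.Lib.Helper3.Steiner Cfsg.Agent.Lib.Helper3.Steiner2 Cfsg.Agent.S0427

section adj
variable {α : Type*} (B : Set (Finset α))

theorem adj_iff (x y : Option (α ⊕ B)) : (Cfsg.pointBlockGraph B).Adj x y ↔
    x ≠ y ∧ (Cfsg.pointBlockRel B x y ∨ Cfsg.pointBlockRel B y x) := by
  unfold Cfsg.pointBlockGraph; rw [SimpleGraph.fromRel_adj]

theorem adj_nn : (Cfsg.pointBlockGraph B).Adj none none ↔ False := by simp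

theorem adj_np (a : α) : (Cfsg.pointBlockGraph B).Adj none (some (Sum.inl a)) ↔ True := by
  simp [adj_iff, Cfsg.pointBlockRel]

theorem adj_nb (w : B) : (Cfsg.pointBlockGraph B).Adj none (some (Sum.inr w)) ↔ False := by
  simp [adj_iff, Cfsg.pointBlockRel]

theorem adj_pn (a : α) : (Cfsg.pointBlockGraph B).Adj (some (Sum.inl a)) none ↔ True := by
  simp [adj_iff, Cfsg.pointBlockRel]

theorem adj_pp (a a' : α) :
    (Cfsg.pointBlockGraph B).Adj (some (Sum.inl a)) (some (Sum.inl a')) ↔ False := by
  simp [adj_iff, Cfsg.pointBlockRel]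

theorem adj_pb (a : α) (w : B) :
    (Cfsg.pointBlockGraph B).Adj (some (Sum.inl a)) (some (Sum.inr w)) ↔ a ∈ (w : Finset α) := by
  simp [adj_iff, Cfsg.pointBlockRel]

theorem adj_bn (w : B) : (Cfsg.pointBlockGraph B).Adj (some (Sum.inr w)) none ↔ False := by
  simp [adj_iff, Cfsg.pointBlockRel]

theorem adj_bp (w : B) (a : α) :
    (Cfsg.pointBlockGraph B).Adj (some (Sum.inr w)) (some (Sum.inl a)) ↔ a ∈ (w : Finset α) := by
  simp [adj_iff, Cfsg.pointBlockRel]

theorem adj_bb (b w : B) :
    (Cfsg.pointBlockGraph B).Adj (some (Sum.inr b)) (some (Sum.inr w)) ↔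
      ((w : Finset α) ≠ b ∧ Disjoint (b : Finset α) w) := by
  rw [adj_iff]
  simp only [Cfsg.pointBlockRel, ne_eq, Option.some.injEq, Sum.inr.injEq]
  constructor
  · rintro ⟨hne, h | h⟩
    · exact ⟨fun e => hne (Subtype.ext e.symm), h⟩
    · exact ⟨fun e => hne (Subtype.ext e.symm), h.symm⟩
  · rintro ⟨hne, h⟩
    exact ⟨fun e => hne (congrArg Subtype.val e).symm, Or.inl h⟩

end adj

section
variable {α : Type*} [Fintype α] [DecidableEq α]

theorem through1 (hα : Fintype.card α = 22) {B : Set (Finset α)}
    (hB : Cfsg.IsSteinerSystem 3 6 B) (a : α) :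
    ((blocks B).filter (fun D => a ∈ D)).card = 21 := by
  have h := card_through hB {a} (by simp)
  rw [Finset.card_singleton, hα] at h
  have e1 : Nat.choose (6 - 1) (3 - 1) = 10 := by decide
  have e2 : Nat.choose (22 - 1) (3 - 1) = 210 := by decide
  rw [e1, e2] at h
  have e3 : (blocks B).filter (fun c => {a} ⊆ c) = (blocks B).filter (fun D => a ∈ D) := by
    apply Finset.filter_congr
    intro D _
    exact Finset.singleton_subset_iff
  rw [e3] at h
  omega

theorem through2 (hα : Fintype.card α = 22) {B : Set (Finset α)}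
    (hB : Cfsg.IsSteinerSystem 3 6 B) {a a' : α} (haa : a ≠ a') :
    ((blocks B).filter (fun D => a ∈ D ∧ a' ∈ D)).card = 5 := by
  have hc : ({a, a'} : Finset α).card = 2 := Finset.card_pair haa
  have h := card_through hB {a, a'} (by rw [hc]; norm_num)
  rw [hc, hα] at h
  have e1 : Nat.choose (6 - 2) (3 - 2) = 4 := by decide
  have e2 : Nat.choose (22 - 2) (3 - 2) = 20 := by decide
  rw [e1, e2] at h
  have e3 : (blocks B).filter (fun c => {a, a'} ⊆ c) =
      (blocks B).filter (fun D => a ∈ D ∧ a' ∈ D) := by
    apply Finset.filter_congr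
    intro D _
    simp [Finset.insert_subset_iff]
  rw [e3] at h
  omega

theorem pt_blk6 (hα : Fintype.card α = 22) {B : Set (Finset α)}
    (hB : Cfsg.IsSteinerSystem 3 6 B) {b : Finset α} (hb : b ∈ B) {a : α} (ha : a ∉ b) :
    ((blocks B).filter (fun D => a ∈ D ∧ (D ≠ b ∧ Disjoint b D))).card = 6 := by
  have hb6 : b.card = 6 := hB.1 b hb
  have hd : (insert a b).card = 7 := by rw [Finset.card_insert_of_notMem ha, hb6]
  have h3 := T3 hα hB (insert a b)
  have h3' := T3 hα hB b
  have ht := through1 hα hB a
  rw [hd] at h3
  rw [hb6] at h3'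
  have hterm : ∀ D ∈ blocks B, Nat.choose (insert a b ∩ D).card 3 +
        (if a ∈ D ∧ (D ≠ b ∧ Disjoint b D) then 1 else 0) =
      Nat.choose (b ∩ D).card 3 + (if a ∈ D then 1 else 0) := by
    intro D hD
    by_cases haD : a ∈ D
    · have hDb : D ≠ b := fun e => ha (e ▸ haD)
      have hj : (insert a b ∩ D).card = (b ∩ D).card + 1 := by
        rw [Finset.insert_inter_of_mem haD, Finset.card_insert_of_notMem]
        intro h
        exact ha (Finset.mem_inter.1 h).1
      rw [hj, if_pos haD]
      rcases inter_02 hα hB hb D hD hDb with h | h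
      · have hdis : Disjoint b D := (disj_iff b D).2 h
        rw [h, if_pos ⟨haD, hDb, hdis⟩]; decide
      · have hdis : ¬ Disjoint b D := by rw [disj_iff, h]; decide
        rw [h, if_neg (fun hh => hdis hh.2.2)]; decide
    · rw [Finset.insert_inter_of_notMem haD, if_neg haD, if_neg (fun hh => haD hh.1)]
  have hs := Finset.sum_congr (s₁ := blocks B) rfl hterm
  rw [Finset.sum_add_distrib, Finset.sum_add_distrib, h3, h3', ← Finset.card_filter,
    ← Finset.card_filter, ht] at hs
  have e1 : Nat.choose 7 3 = 35 := by decide
  have e2 : Nat.choose 6 3 = 20 := by decide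
  rw [e1, e2] at hs
  omega

theorem card_univ_filter_B (B : Set (Finset α)) [Fintype B] (P2 : Finset α → Prop)
    [DecidablePred P2] :
    (Finset.univ.filter (fun w : B => P2 (w : Finset α))).card = ((blocks B).filter P2).card := by
  rw [← card_conv B {w : B | P2 (w : Finset α)} P2 (fun w => Iff.rfl), Nat.card_coe_set_eq,
    ← Set.ncard_coe_finset]
  congr 1
  ext w
  simp

theorem card_conv3 (B : Set (Finset α)) [Fintype B] (S : Set (Option (α ⊕ B))) (p0 : Prop)
    [Decidable p0] (P1 : α → Prop) [DecidablePred P1] (P2 : Finset α → Prop) [DecidablePred P2]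
    (h0 : none ∈ S ↔ p0) (h1 : ∀ a : α, some (Sum.inl a) ∈ S ↔ P1 a)
    (h2 : ∀ w : B, some (Sum.inr w) ∈ S ↔ P2 (w : Finset α)) :
    Nat.card S =
      (if p0 then 1 else 0) + (Finset.univ.filter P1).card + ((blocks B).filter P2).card := by
  classical
  have e1 : Nat.card S = (Finset.univ.filter (fun v => v ∈ S)).card := by
    rw [Nat.card_coe_set_eq, ← Set.ncard_coe_finset]
    congr 1
    ext v
    simp
  have s0 : ((if none ∈ S then 1 else 0 : ℕ)) = (if p0 then 1 else 0) := by
    by_cases h : p0
    · rw [if_pos (h0.2 h), if_pos h]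
    · rw [if_neg (fun h' => h (h0.1 h')), if_neg h]
  have s1 : ∑ a : α, (if some (Sum.inl a) ∈ S then 1 else 0) = (Finset.univ.filter P1).card := by
    rw [Finset.card_filter]
    apply Finset.sum_congr rfl
    intro a _
    by_cases h : P1 a
    · rw [if_pos ((h1 a).2 h), if_pos h]
    · rw [if_neg (fun h' => h ((h1 a).1 h')), if_neg h]
  have s2 : ∑ w : B, (if some (Sum.inr w) ∈ S then 1 else 0) = ((blocks B).filter P2).card := by
    rw [← card_univ_filter_B B P2, Finset.card_filter]
    apply Finset.sum_congr rfl
    intro w _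
    by_cases h : P2 (w : Finset α)
    · rw [if_pos ((h2 w).2 h), if_pos h]
    · rw [if_neg (fun h' => h ((h2 w).1 h')), if_neg h]
  rw [e1, Finset.card_filter, Fintype.sum_option, Fintype.sum_sum_type, s0, s1, s2, add_assoc]

end

/-- The point-block graph of an S(3, 6, 22) is strongly regular with parameters (100, 22, 0, 6). -/
theorem result {α : Type*} [Fintype α] (hα : Fintype.card α = 22) {B : Set (Finset α)} (hB : Cfsg.IsSteinerSystem 3 6 B) [Fintype B] [DecidableRel (Cfsg.pointBlockGraph B).Adj] : (Cfsg.pointBlockGraph B).IsSRGWith 100 22 0 6 := by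
  classical
  have hB77 : Fintype.card B = 77 := by
    rw [← Nat.card_eq_fintype_card, Nat.card_coe_set_eq, ← card_blocks]
    exact T0 hα hB
  have h6 : ∀ w : B, (w : Finset α).card = 6 := fun w => hB.1 w w.2
  refine ⟨?_, ?_, ?_, ?_⟩
  · simp [Fintype.card_option, Fintype.card_sum, hα, hB77]
  · intro v
    rw [← SimpleGraph.card_neighborSet_eq_degree, ← Nat.card_eq_fintype_card]
    rcases v with _ | a | b
    · rw [card_conv3 B ((Cfsg.pointBlockGraph B).neighborSet none) False (fun _ => True)
        (fun _ => False) (by simp) (fun a => by simp [adj_np]) (fun w => by simp [adj_nb])]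
      simp [hα]
    · rw [card_conv3 B ((Cfsg.pointBlockGraph B).neighborSet (some (Sum.inl a))) True
        (fun _ => False) (fun D => a ∈ D) (by simp [adj_pn]) (fun a' => by simp [adj_pp])
        (fun w => by simp [adj_pb])]
      rw [through1 hα hB a]
      simp
    · rw [card_conv3 B ((Cfsg.pointBlockGraph B).neighborSet (some (Sum.inr b))) False
        (fun a => a ∈ (b : Finset α))
        (fun D => D ≠ (b : Finset α) ∧ Disjoint (b : Finset α) D) (by simp [adj_bn])
        (fun a => by simp [adj_bp])
        (fun w => by rw [SimpleGraph.mem_neighborSet, adj_bb])]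
      rw [deg16 hα hB b.2]
      simp [h6 b]
  · intro v w hvw
    rw [← Nat.card_eq_fintype_card]
    rcases v with _ | a | b
    · rcases w with _ | a' | c
      · exact absurd hvw (by simp)
      · rw [card_conv3 B ((Cfsg.pointBlockGraph B).commonNeighbors none (some (Sum.inl a')))
          False (fun _ => False) (fun _ => False)
          (by simp [SimpleGraph.mem_commonNeighbors])
          (fun x => by simp [SimpleGraph.mem_commonNeighbors, adj_pp])
          (fun u => by simp [SimpleGraph.mem_commonNeighbors, adj_nb])]
        simp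
      · exact absurd hvw (by simp [adj_nb])
    · rcases w with _ | a' | c
      · rw [card_conv3 B ((Cfsg.pointBlockGraph B).commonNeighbors (some (Sum.inl a)) none)
          False (fun _ => False) (fun _ => False)
          (by simp [SimpleGraph.mem_commonNeighbors])
          (fun x => by simp [SimpleGraph.mem_commonNeighbors, adj_pp])
          (fun u => by simp [SimpleGraph.mem_commonNeighbors, adj_nb])]
        simp
      · exact absurd hvw (by simp [adj_pp])
      · have hac : a ∈ (c : Finset α) := (adj_pb B a c).1 hvw
        rw [card_conv3 B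
          ((Cfsg.pointBlockGraph B).commonNeighbors (some (Sum.inl a)) (some (Sum.inr c)))
          False (fun _ => False)
          (fun D => a ∈ D ∧ (D ≠ (c : Finset α) ∧ Disjoint (c : Finset α) D))
          (by simp [SimpleGraph.mem_commonNeighbors, adj_bn])
          (fun x => by simp [SimpleGraph.mem_commonNeighbors, adj_pp])
          (fun u => by rw [SimpleGraph.mem_commonNeighbors, adj_pb, adj_bb])]
        have he : (blocks B).filter
            (fun D => a ∈ D ∧ (D ≠ (c : Finset α) ∧ Disjoint (c : Finset α) D)) = ∅ := by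
          rw [Finset.filter_eq_empty_iff]
          rintro D _ ⟨h1, _, h3⟩
          exact Finset.disjoint_left.1 h3 hac h1
        rw [he]
        simp
    · rcases w with _ | a' | c
      · exact absurd hvw (by simp [adj_bn])
      · have hab : a' ∈ (b : Finset α) := (adj_bp B b a').1 hvw
        rw [card_conv3 B
          ((Cfsg.pointBlockGraph B).commonNeighbors (some (Sum.inr b)) (some (Sum.inl a')))
          False (fun _ => False)
          (fun D => (D ≠ (b : Finset α) ∧ Disjoint (b : Finset α) D) ∧ a' ∈ D)
          (by simp [SimpleGraph.mem_commonNeighbors, adj_bn])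
          (fun x => by simp [SimpleGraph.mem_commonNeighbors, adj_pp])
          (fun u => by rw [SimpleGraph.mem_commonNeighbors, adj_pb, adj_bb])]
        have he : (blocks B).filter
            (fun D => (D ≠ (b : Finset α) ∧ Disjoint (b : Finset α) D) ∧ a' ∈ D) = ∅ := by
          rw [Finset.filter_eq_empty_iff]
          rintro D _ ⟨⟨_, h3⟩, h1⟩
          exact Finset.disjoint_left.1 h3 hab h1
        rw [he]
        simp
      · have h := (adj_bb B b c).1 hvw
        rw [card_conv3 B
          ((Cfsg.pointBlockGraph B).commonNeighbors (some (Sum.inr b)) (some (Sum.inr c)))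
          False (fun x => x ∈ (b : Finset α) ∧ x ∈ (c : Finset α))
          (fun D => (D ≠ (b : Finset α) ∧ Disjoint (b : Finset α) D) ∧
            (D ≠ (c : Finset α) ∧ Disjoint (c : Finset α) D))
          (by simp [SimpleGraph.mem_commonNeighbors, adj_bn])
          (fun x => by rw [SimpleGraph.mem_commonNeighbors, adj_bp, adj_bp])
          (fun u => by rw [SimpleGraph.mem_commonNeighbors, adj_bb, adj_bb])]
        rw [common_disj hα hB b.2 c.2 (Ne.symm h.1) h.2]
        have he : Finset.univ.filter (fun x => x ∈ (b : Finset α) ∧ x ∈ (c : Finset α)) = ∅ := by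
          rw [Finset.filter_eq_empty_iff]
          rintro x _ ⟨h1, h2⟩
          exact Finset.disjoint_left.1 h.2 h1 h2
        rw [he]
        simp
  · intro v w hvw hnadj
    rw [← Nat.card_eq_fintype_card]
    rcases v with _ | a | b
    · rcases w with _ | a' | c
      · exact absurd rfl hvw
      · exact absurd ((adj_np B a').2 trivial) hnadj
      · rw [card_conv3 B ((Cfsg.pointBlockGraph B).commonNeighbors none (some (Sum.inr c)))
          False (fun x => x ∈ (c : Finset α)) (fun _ => False)
          (by simp [SimpleGraph.mem_commonNeighbors])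
          (fun x => by simp [SimpleGraph.mem_commonNeighbors, adj_np, adj_bp])
          (fun u => by simp [SimpleGraph.mem_commonNeighbors, adj_nb])]
        simp [h6 c]
    · rcases w with _ | a' | c
      · exact absurd ((adj_pn B a).2 trivial) hnadj
      · have haa : a ≠ a' := fun e => hvw (by rw [e])
        rw [card_conv3 B
          ((Cfsg.pointBlockGraph B).commonNeighbors (some (Sum.inl a)) (some (Sum.inl a')))
          True (fun _ => False) (fun D => a ∈ D ∧ a' ∈ D)
          (by simp [SimpleGraph.mem_commonNeighbors, adj_pn])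
          (fun x => by simp [SimpleGraph.mem_commonNeighbors, adj_pp])
          (fun u => by rw [SimpleGraph.mem_commonNeighbors, adj_pb, adj_pb])]
        rw [through2 hα hB haa]
        simp
      · have hac : a ∉ (c : Finset α) := fun h => hnadj ((adj_pb B a c).2 h)
        rw [card_conv3 B
          ((Cfsg.pointBlockGraph B).commonNeighbors (some (Sum.inl a)) (some (Sum.inr c)))
          False (fun _ => False)
          (fun D => a ∈ D ∧ (D ≠ (c : Finset α) ∧ Disjoint (c : Finset α) D))
          (by simp [SimpleGraph.mem_commonNeighbors, adj_bn])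
          (fun x => by simp [SimpleGraph.mem_commonNeighbors, adj_pp])
          (fun u => by rw [SimpleGraph.mem_commonNeighbors, adj_pb, adj_bb])]
        rw [pt_blk6 hα hB c.2 hac]
        simp
    · rcases w with _ | a' | c
      · rw [card_conv3 B ((Cfsg.pointBlockGraph B).commonNeighbors (some (Sum.inr b)) none)
          False (fun x => x ∈ (b : Finset α)) (fun _ => False)
          (by simp [SimpleGraph.mem_commonNeighbors])
          (fun x => by simp [SimpleGraph.mem_commonNeighbors, adj_np, adj_bp])
          (fun u => by simp [SimpleGraph.mem_commonNeighbors, adj_nb])]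
        simp [h6 b]
      · have hab : a' ∉ (b : Finset α) := fun h => hnadj ((adj_bp B b a').2 h)
        rw [card_conv3 B
          ((Cfsg.pointBlockGraph B).commonNeighbors (some (Sum.inr b)) (some (Sum.inl a')))
          False (fun _ => False)
          (fun D => a' ∈ D ∧ (D ≠ (b : Finset α) ∧ Disjoint (b : Finset α) D))
          (by simp [SimpleGraph.mem_commonNeighbors, adj_bn])
          (fun x => by simp [SimpleGraph.mem_commonNeighbors, adj_pp])
          (fun u => by rw [SimpleGraph.mem_commonNeighbors, adj_pb, adj_bb]; exact and_comm)]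
        rw [pt_blk6 hα hB b.2 hab]
        simp
      · have hne : (b : Finset α) ≠ c := fun e => hvw (by rw [Subtype.ext e])
        have hnd : ¬ Disjoint (b : Finset α) c :=
          fun hd => hnadj ((adj_bb B b c).2 ⟨Ne.symm hne, hd⟩)
        have hbc2 : ((b : Finset α) ∩ c).card = 2 := by
          rcases inter_02 hα hB b.2 c (mem_blocks.2 c.2) (Ne.symm hne) with h | h
          · exact absurd ((disj_iff _ _).2 h) hnd
          · exact h
        rw [card_conv3 B
          ((Cfsg.pointBlockGraph B).commonNeighbors (some (Sum.inr b)) (some (Sum.inr c)))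
          False (fun x => x ∈ (b : Finset α) ∧ x ∈ (c : Finset α))
          (fun D => (D ≠ (b : Finset α) ∧ Disjoint (b : Finset α) D) ∧
            (D ≠ (c : Finset α) ∧ Disjoint (c : Finset α) D))
          (by simp [SimpleGraph.mem_commonNeighbors, adj_bn])
          (fun x => by rw [SimpleGraph.mem_commonNeighbors, adj_bp, adj_bp])
          (fun u => by rw [SimpleGraph.mem_commonNeighbors, adj_bb, adj_bb])]
        rw [common_meet hα hB b.2 c.2 hne hnd]
        have he : Finset.univ.filter (fun x => x ∈ (b : Finset α) ∧ x ∈ (c : Finset α)) =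
            (b : Finset α) ∩ c := by
          ext x
          simp
        rw [he, hbc2]
        simp

end Cfsg.Agent.S0428
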