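import Cfsg.Statements.S0432
import Cfsg.Agent.Lib.Helper3.Leech

set_option autoImplicit false
open Cfsg

namespace Cfsg.Agent.S0432

/-- Coordinate permutations from the code's group preserve the lattice. -/
theorem result (σ : Equiv.Perm Cfsg.GolayPt) (hσ : σ ∈ Cfsg.M24) (x : Cfsg.GolayPt → ℤ) (hx : x ∈ Cfsg.leechLattice) : (fun i => x (σ i)) ∈ Cfsg.leechLattice := by
  rw [Cfsg.Agent.Lib.Helper3.Leech.mem_leechLattice_iff] at hx ⊢
  exact Cfsg.Agent.Lib.Helper3.Leech.perm_mem_leechSet hσ hx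

end Cfsg.Agent.S0432
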