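import Cfsg.Statements.S0439
import Mathlib

set_option autoImplicit false
open Cfsg

namespace Cfsg.Agent.S0439

open Equiv in
theorem swap_mul_swap_cases {α : Type*} [DecidableEq α] [Fintype α] (a b c d : α) (hab : a ≠ b) (hcd : c ≠ d) :
    (swap a b * swap c d) ^ 2 = 1 ∨ (swap a b * swap c d) ^ 3 = 1 := by
  have three : ∀ x y z : α, x ≠ y → x ≠ z → y ≠ z → (swap x y * swap x z) ^ 3 = 1 := by
    intro x y z hxy hxz hyz
    have h := (Equiv.Perm.isThreeCycle_swap_mul_swap_same hxy hxz hyz).orderOf
    rw [← h]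
    exact pow_orderOf_eq_one _
  by_cases hac : a = c
  · subst hac
    by_cases hbd : b = d
    · subst hbd
      left
      simp
    · right
      exact three a b d hab hcd hbd
  by_cases had : a = d
  · subst had
    by_cases hbc : b = c
    · subst hbc
      left
      rw [swap_comm b a]
      simp
    · right
      rw [swap_comm c a]
      exact three a b c hab (Ne.symm hcd) hbc
  by_cases hbc : b = c
  · subst hbc
    right
    rw [swap_comm a b]
    exact three b a d (Ne.symm hab) hcd had
  by_cases hbd : b = d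
  · subst hbd
    right
    rw [swap_comm a b, swap_comm c b]
    exact three b a c (Ne.symm hab) (Ne.symm hcd) hac
  left
  have hdis : Equiv.Perm.Disjoint (swap a b) (swap c d) := by
    apply Equiv.Perm.disjoint_swap_swap
    simp [hab, hac, had, hbc, hbd, hcd]
  have hc := hdis.commute
  rw [hc.mul_pow]
  simp [pow_two]

/-- In the symmetric group of degree n ≥ 2, the set of transpositions is a conjugacy class of 3-transpositions which generates the group. -/
theorem result (n : ℕ) (hn : 2 ≤ n) : Cfsg.IsThreeTranspositionClass {σ : Equiv.Perm (Fin n) | σ.IsSwap} := by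
  refine ⟨⟨?_, ?_⟩, ?_, ?_⟩
  · intro d hd
    exact Equiv.Perm.IsSwap.orderOf hd
  · rintro d ⟨a, b, hab, rfl⟩ e ⟨c, f, hcf, rfl⟩
    exact swap_mul_swap_cases a b c f hab hcf
  · have h01 : (⟨0, by omega⟩ : Fin n) ≠ ⟨1, by omega⟩ := by
      intro h
      have := congrArg Fin.val h
      simp at this
    refine ⟨Equiv.swap ⟨0, by omega⟩ ⟨1, by omega⟩, ⟨_, _, h01, rfl⟩, ?_⟩
    ext σ
    show σ.IsSwap ↔ IsConj _ σ
    constructor
    · rintro ⟨a, b, hab, rfl⟩
      exact Equiv.Perm.isConj_swap h01 hab
    · intro h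
      rw [isConj_iff] at h
      obtain ⟨c, rfl⟩ := h
      rw [← Equiv.swap_apply_apply]
      exact ⟨_, _, fun h => h01 (c.injective h), rfl⟩
  · exact Equiv.Perm.closure_isSwap

end Cfsg.Agent.S0439
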