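import Mathlib
import Cfsg.Statements.S0440
import Cfsg.Agent.Lib.Helper2.SympPerf

set_option autoImplicit false
open Cfsg

namespace Cfsg.Agent.S0440

open Cfsg.Agent.Lib.Helper5.Symp Cfsg.Agent.Lib.Helper5.Symp2 Cfsg.Agent.Lib.Helper2.SympPerf
open scoped Matrix

theorem zmod2 (c : ZMod 2) : c = 0 ∨ c = 1 := by
  fin_cases c
  · left; rfl
  · right; rfl

theorem neg2 (c : ZMod 2) : -c = c := by
  rcases zmod2 c with h | h <;> rw [h] <;> decide

theorem symm2 {n : ℕ} (u v : Fin n ⊕ Fin n → ZMod 2) :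
    Cfsg.sympForm n (ZMod 2) u v = Cfsg.sympForm n (ZMod 2) v u := by
  rw [sympForm_swap, neg2]

theorem tv_sq {n : ℕ} (w : Fin n ⊕ Fin n → ZMod 2) : tv n w (1 : ZMod 2) * tv n w 1 = 1 := by
  rw [tv_add]
  have h : (1 : ZMod 2) + 1 = 0 := by decide
  rw [h, tv_zero]

theorem tv_inv' {n : ℕ} (w : Fin n ⊕ Fin n → ZMod 2) : (tv n w (1 : ZMod 2))⁻¹ = tv n w 1 :=
  inv_eq_of_mul_eq_one_right (tv_sq w)

theorem tv_ne_one' {n : ℕ} {w : Fin n ⊕ Fin n → ZMod 2} (hw : w ≠ 0) :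
    tv n w (1 : ZMod 2) ≠ 1 := by
  intro h
  obtain ⟨v, hv⟩ := Cfsg.Agent.S0768.exists_partner n hw
  have h1 := congrArg (fun B : Matrix.symplecticGroup (Fin n) (ZMod 2) =>
    (B : Matrix (Fin n ⊕ Fin n) (Fin n ⊕ Fin n) (ZMod 2)) *ᵥ v) h
  simp only [tv_mulVec] at h1
  rw [symm2, hv, one_mul, one_smul] at h1
  have h2 : v + w = v := by
    rw [h1]
    exact Matrix.one_mulVec v
  exact hw (by simpa using h2)

theorem tv_sub_one_rank {n : ℕ} {w : Fin n ⊕ Fin n → ZMod 2} (hw : w ≠ 0) :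
    ((tv n w (1 : ZMod 2) : Matrix (Fin n ⊕ Fin n) (Fin n ⊕ Fin n) (ZMod 2)) - 1).rank = 1 := by
  have h1 : ((tv n w (1 : ZMod 2) : Matrix (Fin n ⊕ Fin n) (Fin n ⊕ Fin n) (ZMod 2)) - 1) =
      Matrix.vecMulVec w (Matrix.J (Fin n) (ZMod 2) *ᵥ w) := by
    show Cfsg.sympTransvection n w 1 - 1 = _
    unfold Cfsg.sympTransvection
    rw [one_smul, add_sub_cancel_left]
  rw [h1]
  apply le_antisymm (Matrix.rank_vecMulVec_le _ _)
  rw [Nat.one_le_iff_ne_zero]
  intro h0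
  have h2 : Matrix.vecMulVec w (Matrix.J (Fin n) (ZMod 2) *ᵥ w) = 0 := by
    have h3 : LinearMap.range (Matrix.vecMulVec w (Matrix.J (Fin n) (ZMod 2) *ᵥ w)).mulVecLin = ⊥ :=
      Submodule.finrank_eq_zero.mp h0
    rw [LinearMap.range_eq_bot] at h3
    apply Matrix.ext_iff_mulVec.mpr
    intro x
    have h4 := LinearMap.congr_fun h3 x
    rw [Matrix.mulVecLin_apply] at h4
    rw [h4, Matrix.zero_mulVec]
    rfl
  rw [← h1] at h2
  exact tv_ne_one' hw (Subtype.ext (sub_eq_zero.mp h2))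

theorem eq_tv_of_rank {n : ℕ} (g : Matrix.symplecticGroup (Fin n) (ZMod 2))
    (h : ((g : Matrix (Fin n ⊕ Fin n) (Fin n ⊕ Fin n) (ZMod 2)) - 1).rank = 1) :
    ∃ w : Fin n ⊕ Fin n → ZMod 2, w ≠ 0 ∧ g = tv n w 1 := by
  have h1 : Module.finrank (ZMod 2) (LinearMap.range
      ((g : Matrix (Fin n ⊕ Fin n) (Fin n ⊕ Fin n) (ZMod 2)) - 1).mulVecLin) = 1 := h
  obtain ⟨⟨a, ha_mem⟩, ha0, hspan⟩ := finrank_eq_one_iff'.mp h1
  have ha : a ≠ 0 := fun h => ha0 (Subtype.ext h)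
  have hlam : ∀ x, ∃ c : ZMod 2,
      ((g : Matrix (Fin n ⊕ Fin n) (Fin n ⊕ Fin n) (ZMod 2)) - 1) *ᵥ x = c • a := by
    intro x
    obtain ⟨c, hc⟩ := hspan ⟨((g : Matrix (Fin n ⊕ Fin n) (Fin n ⊕ Fin n) (ZMod 2)) - 1) *ᵥ x,
      ⟨x, rfl⟩⟩
    exact ⟨c, (congrArg Subtype.val hc).symm⟩
  choose lam hlam using hlam
  have hg : ∀ x, (g : Matrix (Fin n ⊕ Fin n) (Fin n ⊕ Fin n) (ZMod 2)) *ᵥ x = x + lam x • a := by
    intro x
    have h2 := hlam x
    rw [Matrix.sub_mulVec, Matrix.one_mulVec] at h2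
    rw [← h2]
    abel
  have hsym : ∀ x y, lam y * Cfsg.sympForm n (ZMod 2) x a =
      lam x * Cfsg.sympForm n (ZMod 2) y a := by
    intro x y
    have h3 := sympForm_mulVec_of_mem n g.2 x y
    rw [hg, hg] at h3
    simp only [sympForm_add_left, sympForm_add_right, sympForm_smul_left, sympForm_smul_right,
      sympForm_self, mul_zero, add_zero] at h3
    rw [symm2 a y] at h3
    have h4 : lam y * Cfsg.sympForm n (ZMod 2) x a + lam x * Cfsg.sympForm n (ZMod 2) y a = 0 := by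
      linear_combination h3
    have h5 := eq_neg_of_add_eq_zero_left h4
    rw [neg2] at h5
    exact h5
  obtain ⟨y0, hy0⟩ : ∃ y0, lam y0 = 1 := by
    by_contra hcon
    push Not at hcon
    have h6 : ∀ x, lam x = 0 := fun x => (zmod2 (lam x)).resolve_right (hcon x)
    obtain ⟨x₀, hx₀⟩ := ha_mem
    apply ha
    rw [← hx₀]
    show ((g : Matrix (Fin n ⊕ Fin n) (Fin n ⊕ Fin n) (ZMod 2)) - 1) *ᵥ x₀ = 0
    rw [hlam, h6, zero_smul]
  have hfa : Cfsg.sympForm n (ZMod 2) y0 a = 1 := by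
    rcases zmod2 (Cfsg.sympForm n (ZMod 2) y0 a) with h0 | h1
    · exfalso
      apply ha
      apply eq_zero_of_sympForm_eq_zero n a
      intro b
      have h7 := hsym b y0
      rw [hy0, h0, one_mul, mul_zero] at h7
      rw [symm2, h7]
    · exact h1
  have hlam' : ∀ x, lam x = Cfsg.sympForm n (ZMod 2) x a := by
    intro x
    have h8 := hsym x y0
    rw [hy0, hfa, one_mul, mul_one] at h8
    exact h8.symm
  refine ⟨a, ha, ?_⟩
  apply ext_mulVec
  intro x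
  rw [hg, tv_mulVec, one_mul, hlam']

theorem tv_comm {n : ℕ} {u v : Fin n ⊕ Fin n → ZMod 2}
    (huv : Cfsg.sympForm n (ZMod 2) u v = 0) :
    tv n u (1 : ZMod 2) * tv n v 1 = tv n v 1 * tv n u 1 := by
  have hvu : Cfsg.sympForm n (ZMod 2) v u = 0 := by rw [symm2, huv]
  apply ext_mulVec
  intro x
  simp only [coe_mul_mulVec, tv_mulVec, sympForm_add_left, sympForm_smul_left, huv, hvu]
  module

theorem tv_braid {n : ℕ} {u v : Fin n ⊕ Fin n → ZMod 2}
    (huv : Cfsg.sympForm n (ZMod 2) u v = 1) :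
    tv n u (1 : ZMod 2) * tv n v 1 * tv n u 1 = tv n (v + u) 1 := by
  have h := conj_tv n (tv n u (1 : ZMod 2)) v 1
  rw [tv_inv', tv_mulVec, symm2, huv, one_mul, one_smul] at h
  exact h

theorem three {n : ℕ} (u v : Fin n ⊕ Fin n → ZMod 2) :
    (tv n u (1 : ZMod 2) * tv n v 1) ^ 2 = 1 ∨ (tv n u (1 : ZMod 2) * tv n v 1) ^ 3 = 1 := by
  rcases zmod2 (Cfsg.sympForm n (ZMod 2) u v) with h0 | h1
  · left
    rw [pow_two]
    calc tv n u (1 : ZMod 2) * tv n v 1 * (tv n u 1 * tv n v 1)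
        = tv n u 1 * (tv n v 1 * tv n u 1) * tv n v 1 := by group
      _ = tv n u 1 * (tv n u 1 * tv n v 1) * tv n v 1 := by rw [tv_comm h0]
      _ = (tv n u 1 * tv n u 1) * (tv n v 1 * tv n v 1) := by group
      _ = 1 := by rw [tv_sq, tv_sq, one_mul]
  · right
    have h2 : Cfsg.sympForm n (ZMod 2) v u = 1 := by rw [symm2, h1]
    calc (tv n u (1 : ZMod 2) * tv n v 1) ^ 3
        = (tv n u 1 * tv n v 1 * tv n u 1) * (tv n v 1 * tv n u 1 * tv n v 1) := by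
          rw [pow_succ, pow_two]
          simp only [mul_assoc]
      _ = tv n (v + u) 1 * tv n (u + v) 1 := by rw [tv_braid h1, tv_braid h2]
      _ = 1 := by rw [add_comm v u, tv_sq]

/-- In the symplectic group in dimension 2n ≥ 2 over the field with two elements, the elements g for which g - 1 has rank one (the symplectic transvections) form a conjugacy class of 3-transpositions generating the group. -/
theorem result (n : ℕ) (hn : 1 ≤ n) : Cfsg.IsThreeTranspositionClass {g : Matrix.symplecticGroup (Fin n) (ZMod 2) | ((g : Matrix (Fin n ⊕ Fin n) (Fin n ⊕ Fin n) (ZMod 2)) - 1).rank = 1} := by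
  have hn' : 0 < n := hn
  have he : (Pi.single (Sum.inl ⟨0, hn'⟩) (1 : ZMod 2) : Fin n ⊕ Fin n → ZMod 2) ≠ 0 :=
    single_ne_zero n _
  refine ⟨⟨?_, ?_⟩, ⟨tv n (Pi.single (Sum.inl ⟨0, hn'⟩) 1) 1, tv_sub_one_rank he, ?_⟩, ?_⟩
  · intro d hd
    obtain ⟨w, hw, rfl⟩ := eq_tv_of_rank d hd
    exact orderOf_eq_prime (by rw [pow_two]; exact tv_sq w) (tv_ne_one' hw)
  · intro d hd e he'
    obtain ⟨u, hu, rfl⟩ := eq_tv_of_rank d hd
    obtain ⟨v, hv, rfl⟩ := eq_tv_of_rank e he'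
    exact three u v
  · ext g
    show _ ↔ IsConj _ g
    rw [isConj_iff]
    constructor
    · intro hg
      obtain ⟨w, hw, rfl⟩ := eq_tv_of_rank g hg
      obtain ⟨A, hA⟩ := exists_map n he hw
      exact ⟨A, by rw [conj_tv, hA]⟩
    · rintro ⟨c, rfl⟩
      rw [conj_tv]
      exact tv_sub_one_rank (Cfsg.Agent.S0768.mulVec_ne_zero n c he)
  · rw [eq_top_iff, ← Cfsg.Agent.S0765.result n, Subgroup.closure_le]
    rintro A ⟨w, c, hA⟩
    have hA' : A = tv n w c := Subtype.ext hA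
    rw [hA']
    by_cases hw : w = 0
    · rw [hw, tv_zero_left]
      exact one_mem _
    rcases zmod2 c with hc | hc
    · rw [hc, tv_zero]
      exact one_mem _
    · rw [hc]
      exact Subgroup.subset_closure (tv_sub_one_rank hw)

end Cfsg.Agent.S0440
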