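import Cfsg.Statements.S0442
import Mathlib

set_option autoImplicit false
open Cfsg

namespace Cfsg.Agent.S0442

theorem inv_conj {G : Type*} [Group G] {a c : G} (ha : a * a = 1) (hc : c * c = 1) :
    a * (a * c) * a⁻¹ = (a * c)⁻¹ := by
  have ha' : a⁻¹ = a := inv_eq_of_mul_eq_one_left ha
  have hc' : c⁻¹ = c := inv_eq_of_mul_eq_one_left hc
  rw [mul_inv_rev, ha', hc', ← mul_assoc, ha, one_mul]

theorem pow_conj {G : Type*} [Group G] {a c : G} (ha : a * a = 1) (hc : c * c = 1) (n : ℕ) :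
    a * (a * c) ^ n * a⁻¹ = ((a * c) ^ n)⁻¹ := by
  rw [← conj_pow, inv_conj ha hc, inv_pow]

theorem commute_pow_half {G : Type*} [Group G] {a c : G} (ha : a * a = 1) (hc : c * c = 1) (m : ℕ)
    (h : (a * c) ^ (2 * m) = 1) : Commute ((a * c) ^ m) a := by
  have ha' : a⁻¹ = a := inv_eq_of_mul_eq_one_left ha
  have h1 := pow_conj ha hc m
  have h2 : ((a * c) ^ m)⁻¹ = (a * c) ^ m := by
    apply inv_eq_of_mul_eq_one_left
    rw [← pow_add, ← two_mul]; exact h
  rw [h2, ha'] at h1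
  have h3 : a * (a * (a * c) ^ m * a) = a * (a * c) ^ m := by rw [h1]
  rw [mul_assoc, ← mul_assoc, ha, one_mul] at h3
  exact h3

/-- A standard trick for producing elements of an involution centraliser: for an involution a and an element g, let b be the conjugate g⁻¹ * a * g. If a * b has odd order 2m + 1 then g * (a * b) ^ m commutes with a; if a * b has even order 2m then (a * b) ^ m and (a * (g * a * g⁻¹)) ^ m commute with a. -/
theorem result {G : Type*} [Group G] (a g : G) (ha : orderOf a = 2) : (∀ m : ℕ, orderOf (a * (g⁻¹ * a * g)) = 2 * m + 1 → Commute (g * (a * (g⁻¹ * a * g)) ^ m) a) ∧ (∀ m : ℕ, orderOf (a * (g⁻¹ * a * g)) = 2 * m → Commute ((a * (g⁻¹ * a * g)) ^ m) a ∧ Commute ((a * (g * a * g⁻¹)) ^ m) a) := by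
  have ha2 : a * a = 1 := by
    have := pow_orderOf_eq_one a
    rwa [ha, pow_two] at this
  have ha' : a⁻¹ = a := inv_eq_of_mul_eq_one_left ha2
  have hb2 : (g⁻¹ * a * g) * (g⁻¹ * a * g) = 1 := by
    have : (g⁻¹ * a * g) * (g⁻¹ * a * g) = g⁻¹ * (a * a) * g := by group
    rw [this, ha2]; group
  have hc2 : (g * a * g⁻¹) * (g * a * g⁻¹) = 1 := by
    have : (g * a * g⁻¹) * (g * a * g⁻¹) = g * (a * a) * g⁻¹ := by group
    rw [this, ha2]; group
  refine ⟨fun m hm => ?_, fun m hm => ⟨?_, ?_⟩⟩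
  · have hw : (a * (g⁻¹ * a * g)) ^ (2 * m + 1) = 1 := by
      rw [← hm]; exact pow_orderOf_eq_one _
    have h1 := pow_conj ha2 hb2 m
    rw [ha'] at h1
    have hgw : g * (a * (a * (g⁻¹ * a * g))) = a * g := by
      rw [← mul_assoc a a, ha2, one_mul]; group
    generalize a * (g⁻¹ * a * g) = w at hw h1 hgw ⊢
    have h2 : (w ^ m)⁻¹ = w ^ (m + 1) := by
      apply inv_eq_of_mul_eq_one_left
      rw [← pow_add]
      have : m + 1 + m = 2 * m + 1 := by ring
      rw [this]; exact hw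
    rw [h2] at h1
    have h3 : w ^ m * a = a * w ^ (m + 1) := by
      rw [← h1, ← mul_assoc, ← mul_assoc, ha2, one_mul]
    show g * w ^ m * a = a * (g * w ^ m)
    rw [mul_assoc, h3, pow_succ', ← mul_assoc a w, ← mul_assoc g, hgw, mul_assoc]
  · apply commute_pow_half ha2 hb2
    rw [← hm]; exact pow_orderOf_eq_one _
  · apply commute_pow_half ha2 hc2
    have hw : (a * (g⁻¹ * a * g)) ^ (2 * m) = 1 := by
      rw [← hm]; exact pow_orderOf_eq_one _
    have e1 : a * (g * a * g⁻¹) = g * (a * (g⁻¹ * a * g))⁻¹ * g⁻¹ := by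
      rw [mul_inv_rev, mul_inv_rev, mul_inv_rev, ha', inv_inv]; group
    rw [e1, conj_pow, inv_pow, hw]; group

end Cfsg.Agent.S0442
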