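import Cfsg.Statements.S0443
import Mathlib

set_option autoImplicit false
open Cfsg

namespace Cfsg.Agent.S0443

theorem mem_sylow_of_le_centralizer {G : Type*} [Group G] (t : G) (ht : orderOf t = 2)
    (P : Sylow 2 G) (hP : (P : Subgroup G) ≤ Subgroup.centralizer ({t} : Set G)) : t ∈ P := by
  have hK : IsPGroup 2 (Subgroup.zpowers t) := by
    apply IsPGroup.of_card (n := 1)
    rw [Nat.card_zpowers, ht, pow_one]
  have hcomm : ∀ x ∈ (P : Subgroup G), t * x = x * t := by
    intro x hx
    have := hP hx
    rw [Subgroup.mem_centralizer_iff] at this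
    exact this t rfl
  have hnorm : Subgroup.zpowers t ≤ Subgroup.normalizer ((P : Subgroup G) : Set G) := by
    rw [Subgroup.zpowers_le]
    rw [Subgroup.mem_normalizer_iff]
    intro x
    constructor
    · intro hx
      rw [hcomm x hx, mul_inv_cancel_right]
      exact hx
    · intro hx
      have h2 := hcomm _ hx
      have h3 : x = t * x * t⁻¹ := by
        have : t * (t * x * t⁻¹) * t⁻¹ = t * x * t⁻¹ := by
          rw [h2, mul_inv_cancel_right]
        have h4 := mul_left_cancel (mul_right_cancel this)
        exact h4.symm
      rw [h3]; exact hx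
  have hQ := P.isPGroup'.to_sup_of_normal_left' hK hnorm
  have := P.is_maximal' hQ le_sup_left
  have h5 : Subgroup.zpowers t ≤ (P : Subgroup G) := by
    rw [← this]; exact le_sup_right
  exact h5 (Subgroup.mem_zpowers t)

/-- Two definitions of a 2-central involution agree: an element t of order 2 of a finite group lies in the centre of some Sylow 2-subgroup if and only if its centraliser contains some Sylow 2-subgroup. -/
theorem result {G : Type*} [Group G] [Finite G] (t : G) (ht : orderOf t = 2) : Cfsg.IsTwoCentralInvolution t ↔ ∃ P : Sylow 2 G, (P : Subgroup G) ≤ Subgroup.centralizer ({t} : Set G) := by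
  constructor
  · rintro ⟨-, P, htP, hc⟩
    refine ⟨P, fun x hx => ?_⟩
    rw [Subgroup.mem_centralizer_iff]
    intro y hy
    rw [Set.mem_singleton_iff] at hy
    rw [hy]
    exact (hc x hx).symm
  · rintro ⟨P, hP⟩
    refine ⟨ht, P, mem_sylow_of_le_centralizer t ht P hP, fun x hx => ?_⟩
    have := hP hx
    rw [Subgroup.mem_centralizer_iff] at this
    exact (this t rfl).symm

end Cfsg.Agent.S0443
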