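import Mathlib
import Cfsg.Statements.S0445
import Cfsg.Agent.Lib.Helper2.TvCent

set_option autoImplicit false
open Cfsg

namespace Cfsg.Agent.S0445

open Cfsg.Agent.Lib.Helper2.TvCent

theorem det_one_of_ne {n : ℕ} (M : Matrix (Fin n) (Fin n) (ZMod 2)) (h : M.det ≠ 0) : M.det = 1 := by
  generalize M.det = d at h
  revert d
  decide

/-- A matrix of determinant one as an element of `SL`. -/
def mkSL (M : Matrix (Fin (3 + 2)) (Fin (3 + 2)) (ZMod 2)) (h : M.det = 1) :
    Matrix.SpecialLinearGroup (Fin (3 + 2)) (ZMod 2) := ⟨M, h⟩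

theorem coe_mkSL (M : Matrix (Fin (3 + 2)) (Fin (3 + 2)) (ZMod 2)) (h : M.det = 1) :
    ((mkSL M h : Matrix.SpecialLinearGroup (Fin (3 + 2)) (ZMod 2)) :
      Matrix (Fin (3 + 2)) (Fin (3 + 2)) (ZMod 2)) = M := rfl

/-- Over the field of two elements, the centraliser in `SL` is the centraliser in `GL`. -/
noncomputable def slEquiv (s : Matrix.SpecialLinearGroup (Fin (3 + 2)) (ZMod 2))
    (hs : (s : Matrix (Fin (3 + 2)) (Fin (3 + 2)) (ZMod 2)) = Matrix.transvection 0 1 1) :
    ↥(Subgroup.centralizer ({s} : Set (Matrix.SpecialLinearGroup (Fin (3 + 2)) (ZMod 2)))) ≃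
    {g : GL (Fin (3 + 2)) (ZMod 2) // (g : Matrix (Fin (3 + 2)) (Fin (3 + 2)) (ZMod 2)) * E01 (ZMod 2) 3
      = E01 (ZMod 2) 3 * (g : Matrix (Fin (3 + 2)) (Fin (3 + 2)) (ZMod 2))} where
  toFun g := ⟨Matrix.SpecialLinearGroup.toGL g.1, by
    have h1 : g.1 * s = s * g.1 := Subgroup.mem_centralizer_singleton_iff.mp g.2
    have h2 := congrArg (fun x : Matrix.SpecialLinearGroup (Fin (3 + 2)) (ZMod 2) =>
      (x : Matrix (Fin (3 + 2)) (Fin (3 + 2)) (ZMod 2))) h1
    simp only [Matrix.SpecialLinearGroup.coe_mul, hs, Matrix.transvection, Matrix.mul_add,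
      Matrix.add_mul, Matrix.mul_one, Matrix.one_mul] at h2
    exact add_left_cancel h2⟩
  invFun g := ⟨mkSL (g.1 : Matrix (Fin (3 + 2)) (Fin (3 + 2)) (ZMod 2))
      (det_one_of_ne _ (gl_det_ne_zero g.1)), by
    rw [Subgroup.mem_centralizer_singleton_iff]
    apply Subtype.ext
    rw [Matrix.SpecialLinearGroup.coe_mul, Matrix.SpecialLinearGroup.coe_mul, coe_mkSL, hs,
      Matrix.transvection, Matrix.mul_add, Matrix.add_mul, Matrix.mul_one, Matrix.one_mul]
    have h3 : (g.1 : Matrix (Fin (3 + 2)) (Fin (3 + 2)) (ZMod 2)) * Matrix.single 0 1 1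
        = Matrix.single 0 1 1 * (g.1 : Matrix (Fin (3 + 2)) (Fin (3 + 2)) (ZMod 2)) := g.2
    rw [h3]⟩
  left_inv g := by
    apply Subtype.ext
    apply Subtype.ext
    rfl
  right_inv g := by
    apply Subtype.ext
    apply Units.ext
    exact (Matrix.SpecialLinearGroup.coe_GL_coe_matrix _).trans (coe_mkSL _ _)

theorem aux (s : Matrix.SpecialLinearGroup (Fin (3 + 2)) (ZMod 2))
    (hs : (s : Matrix (Fin (3 + 2)) (Fin (3 + 2)) (ZMod 2)) = Matrix.transvection 0 1 1) :
    Nat.card (Subgroup.centralizer ({s} : Set (Matrix.SpecialLinearGroup (Fin (3 + 2)) (ZMod 2))))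
      = 21504 := by
  rw [Nat.card_congr (slEquiv s hs), card_cent, Matrix.card_GL_field, ZMod.card]
  rw [Fin.prod_univ_three]
  rfl

/-- In the special linear group of dimension 5 over the field with two elements, the centraliser of a transvection has order 21504 = 2 ^ 7 · 168 (it is an extension of an extraspecial group of order 2 ^ 7 by the simple group of order 168). -/
theorem result (s : Matrix.SpecialLinearGroup (Fin 5) (ZMod 2)) (hs : (s : Matrix (Fin 5) (Fin 5) (ZMod 2)) = Matrix.transvection 0 1 1) : Nat.card (Subgroup.centralizer ({s} : Set (Matrix.SpecialLinearGroup (Fin 5) (ZMod 2)))) = 21504 := by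
  exact aux s hs

end Cfsg.Agent.S0445
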