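import Cfsg.Statements.S0446
import Mathlib

set_option autoImplicit false
open Cfsg

namespace Cfsg.Agent.S0446

/-- Every finite group of even order contains a 2-central involution, i.e. an element of order 2 in the centre of some Sylow 2-subgroup. -/
theorem result {G : Type*} [Group G] [Finite G] (h : Even (Nat.card G)) : ∃ t : G, Cfsg.IsTwoCentralInvolution t := by
  haveI : Fact (Nat.Prime 2) := ⟨Nat.prime_two⟩
  obtain ⟨P⟩ : Nonempty (Sylow 2 G) := inferInstance
  have hpos : 0 < (Nat.card G).factorization 2 :=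
    Nat.Prime.factorization_pos_of_dvd Nat.prime_two Nat.card_pos.ne' h.two_dvd
  have hPG : IsPGroup 2 (P : Subgroup G) := P.isPGroup'
  haveI hnt : Nontrivial (P : Subgroup G) := by
    rw [hPG.nontrivial_iff_card]
    exact ⟨_, hpos, P.card_eq_multiplicity⟩
  haveI hcnt : Nontrivial (Subgroup.center (P : Subgroup G)) := hPG.center_nontrivial
  have hcP : IsPGroup 2 (Subgroup.center (P : Subgroup G)) := hPG.to_subgroup _
  obtain ⟨n, hn, hcard⟩ := hcP.nontrivial_iff_card.mp hcnt
  have hdvd : 2 ∣ Nat.card (Subgroup.center (P : Subgroup G)) := by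
    rw [hcard]; exact dvd_pow_self 2 hn.ne'
  obtain ⟨z, hz⟩ := exists_prime_orderOf_dvd_card' 2 hdvd
  refine ⟨((z : (P : Subgroup G)) : G), ?_, P, (z : (P : Subgroup G)).2, fun x hx => ?_⟩
  · rw [Subgroup.orderOf_coe, Subgroup.orderOf_coe]; exact hz
  · have := Subgroup.mem_center_iff.mp z.2 ⟨x, hx⟩
    have h2 := congrArg (Subtype.val) this
    simpa using h2

end Cfsg.Agent.S0446
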