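import Cfsg.Statements.S0481
import Cfsg.Agent.S0443
import Mathlib

set_option autoImplicit false
open Cfsg

namespace Cfsg.Agent.S0481

theorem mem_smul_sylow {G : Type*} [Group G] {p : ℕ} (g : G) (S : Sylow p G) (x : G) :
    x ∈ g • S ↔ g⁻¹ * x * g ∈ S := by
  show x ∈ ((g • S : Sylow p G) : Subgroup G) ↔ _
  rw [Sylow.coe_subgroup_smul, Subgroup.mem_pointwise_smul_iff_inv_smul_mem]
  simp only [MulAut.smul_def, map_inv, MulAut.inv_apply, MulAut.conj_symm_apply]
  exact Iff.rfl

/-- Large extraspecial subgroups: let z be an involution of a finite group G whose centraliser C contains a normal 2-subgroup Q with centre of order 2 and all squares central, such that every element of G centralising Q lies in Q. Then C contains a Sylow 2-subgroup of G, and any involution of G whose centraliser contains a Sylow 2-subgroup of G is conjugate to z. -/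
theorem result {G : Type*} [Group G] [Finite G] (z : G) (hz : orderOf z = 2) (Q : Subgroup G) (hQC : Q ≤ Subgroup.centralizer ({z} : Set G)) (hQn : ∀ g ∈ Subgroup.centralizer ({z} : Set G), ∀ q ∈ Q, g * q * g⁻¹ ∈ Q) (hQ2 : IsPGroup 2 Q) (hZ : Nat.card (Subgroup.center Q) = 2) (hsq : ∀ x : Q, x ^ 2 ∈ Subgroup.center Q) (hlarge : Subgroup.centralizer (Q : Set G) ≤ Q) : (∃ P : Sylow 2 G, (P : Subgroup G) ≤ Subgroup.centralizer ({z} : Set G)) ∧ ∀ u : G, orderOf u = 2 → (∃ P : Sylow 2 G, (P : Subgroup G) ≤ Subgroup.centralizer ({u} : Set G)) → IsConj z u := by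
  haveI : Fact (Nat.Prime 2) := ⟨Nat.prime_two⟩
  have hz1 : z ≠ 1 := by
    rintro rfl
    simp at hz
  have hzQ : ∀ q ∈ Q, q * z = z * q := by
    intro q hq
    have := hQC hq
    rw [Subgroup.mem_centralizer_iff] at this
    exact (this z rfl).symm
  have hzmem : z ∈ Q := hlarge (by
    rw [Subgroup.mem_centralizer_iff]
    intro q hq
    exact hzQ q hq)
  have hzcen : (⟨z, hzmem⟩ : Q) ∈ Subgroup.center Q := by
    rw [Subgroup.mem_center_iff]
    intro q
    apply Subtype.ext
    exact hzQ q q.2
  have claimA : ∀ x : G, (∀ q ∈ Q, q * x = x * q) → x = 1 ∨ x = z := by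
    intro x hx
    have hxQ : x ∈ Q := hlarge (by rw [Subgroup.mem_centralizer_iff]; exact hx)
    have hxcen : (⟨x, hxQ⟩ : Q) ∈ Subgroup.center Q := by
      rw [Subgroup.mem_center_iff]
      intro q
      apply Subtype.ext
      exact hx q q.2
    by_cases h1 : x = 1
    · left; exact h1
    · right
      obtain ⟨y, hy, huniq⟩ := (Nat.card_eq_two_iff' (1 : Subgroup.center Q)).mp hZ
      have e1 : (⟨⟨x, hxQ⟩, hxcen⟩ : Subgroup.center Q) = y := huniq _ (by
        intro h
        apply h1
        have := congrArg (fun w : Subgroup.center Q => ((w : Q) : G)) h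
        simpa using this)
      have e2 : (⟨⟨z, hzmem⟩, hzcen⟩ : Subgroup.center Q) = y := huniq _ (by
        intro h
        apply hz1
        have := congrArg (fun w : Subgroup.center Q => ((w : Q) : G)) h
        simpa using this)
      have := e1.trans e2.symm
      have := congrArg (fun w : Subgroup.center Q => ((w : Q) : G)) this
      simpa using this
  obtain ⟨S, hQS⟩ := hQ2.exists_le_sylow
  have hzS : z ∈ (S : Subgroup G) := hQS hzmem
  haveI : Nontrivial (S : Subgroup G) :=
    ⟨⟨⟨z, hzS⟩, 1, by intro h; exact hz1 (congrArg Subtype.val h)⟩⟩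
  haveI := S.isPGroup'.center_nontrivial
  obtain ⟨c, hc⟩ := exists_ne (1 : Subgroup.center (S : Subgroup G))
  have claimS : ∀ x ∈ (S : Subgroup G), (∀ s ∈ (S : Subgroup G), s * x = x * s) → x = 1 ∨ x = z :=
    fun x _ hx => claimA x (fun q hq => hx q (hQS hq))
  have hcz : ((c : (S : Subgroup G)) : G) = z := by
    rcases claimS c c.1.2 (fun s hs => by
      have := Subgroup.mem_center_iff.mp c.2 ⟨s, hs⟩
      exact congrArg Subtype.val this) with h | h
    · exfalso
      apply hc
      apply Subtype.ext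
      apply Subtype.ext
      exact h
    · exact h
  have hzS' : ∀ s ∈ (S : Subgroup G), s * z = z * s := by
    intro s hs
    have := Subgroup.mem_center_iff.mp c.2 ⟨s, hs⟩
    have := congrArg Subtype.val this
    simp only [Subgroup.coe_mul] at this
    rw [hcz] at this
    exact this
  have hSC : (S : Subgroup G) ≤ Subgroup.centralizer ({z} : Set G) := by
    intro s hs
    rw [Subgroup.mem_centralizer_iff]
    intro y hy
    rw [Set.mem_singleton_iff] at hy
    subst hy
    exact (hzS' s hs).symm
  refine ⟨⟨S, hSC⟩, ?_⟩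
  rintro u hu ⟨T, hT⟩
  have huT := Cfsg.Agent.S0443.mem_sylow_of_le_centralizer u hu T hT
  obtain ⟨g, hg⟩ := MulAction.exists_smul_eq G S T
  have hu1 : u ≠ 1 := by
    rintro rfl
    simp at hu
  have hx : g⁻¹ * u * g ∈ S := by
    rw [← mem_smul_sylow, hg]; exact huT
  have hxc : ∀ s ∈ (S : Subgroup G), s * (g⁻¹ * u * g) = (g⁻¹ * u * g) * s := by
    intro s hs
    have hs' : g * s * g⁻¹ ∈ T := by
      rw [← hg, mem_smul_sylow]
      have : g⁻¹ * (g * s * g⁻¹) * g = s := by group
      rw [this]; exact hs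
    have := hT hs'
    rw [Subgroup.mem_centralizer_iff] at this
    have h2 := this u rfl
    have h3 : s * (g⁻¹ * u * g) = g⁻¹ * (g * s * g⁻¹ * u) * g := by group
    have h4 : (g⁻¹ * u * g) * s = g⁻¹ * (u * (g * s * g⁻¹)) * g := by group
    rw [h3, h4, h2]
  rcases claimS _ hx hxc with h | h
  · exfalso
    apply hu1
    have : u = g * (g⁻¹ * u * g) * g⁻¹ := by group
    rw [this, h]; group
  · rw [isConj_iff]
    refine ⟨g, ?_⟩
    rw [← h]; group

end Cfsg.Agent.S0481
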