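import Cfsg.Statements.S0493
import Mathlib
import Cfsg.Agent.Lib.Helper13.SylowCount

set_option autoImplicit false
open Cfsg

namespace Cfsg.Agent.S0493

open Cfsg.Agent.Lib.Helper13.SmallSimple Cfsg.Agent.Lib.Helper2.SimpleIndex
open Cfsg.Agent.Lib.Helper13.SylowCount

/-- No simple group of order 56. -/
theorem not_56 {G : Type*} [Group G] [Finite G] [IsSimpleGroup G] : Nat.card G ≠ 56 := by
  classical
  intro hN
  have : Fact (Nat.Prime 7) := ⟨by norm_num⟩
  have : Fact (Nat.Prime 2) := ⟨by norm_num⟩
  have hcard7 : ∀ P : Sylow 7 G, Nat.card (P : Subgroup G) = 7 := by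
    intro P
    have := sylow_card_of 1 8 (by rw [hN]; norm_num) (by norm_num) P
    simpa using this
  have hcard2 : ∀ P : Sylow 2 G, Nat.card (P : Subgroup G) = 8 := by
    intro P
    have := sylow_card_of 3 7 (by rw [hN]; norm_num) (by norm_num) P
    simpa using this
  obtain ⟨P⟩ : Nonempty (Sylow 7 G) := inferInstance
  have hP := hcard7 P
  have hidx : (P : Subgroup G).index = 8 :=
    sylow_index_of 1 8 (by rw [hN]; norm_num) (by norm_num) P
  have hdvd := P.card_dvd_index
  rw [hidx] at hdvd
  have hmod : Nat.card (Sylow 7 G) % 7 = 1 := card_sylow_modEq_one 7 G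
  have hne := card_sylow_ne_one P (by rw [hP]; norm_num) (by rw [hP, hN]; norm_num)
  have h8 : Nat.card (Sylow 7 G) = 8 := by
    obtain ⟨n, hn⟩ : ∃ n, n = Nat.card (Sylow 7 G) := ⟨_, rfl⟩
    rw [← hn] at hdvd hmod hne ⊢
    have hle : n ≤ 8 := Nat.le_of_dvd (by norm_num) hdvd
    have h0 : 8 % n = 0 := Nat.mod_eq_zero_of_dvd hdvd
    interval_cases n <;> omega
  have hcount := card_orderOf_eq_prime hcard7
  rw [h8] at hcount
  have hcompl : Nat.card {g : G // ¬ orderOf g = 7} = 8 := by
    have : Fintype G := Fintype.ofFinite _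
    have h := Fintype.card_subtype_compl (fun g : G => orderOf g = 7)
    simp only [Fintype.card_eq_nat_card] at h
    rw [hcount, hN] at h
    exact h
  have hnot7 : ∀ S : Sylow 2 G, ∀ g ∈ (S : Subgroup G), ¬ orderOf g = 7 := by
    intro S g hg h7
    have hd := orderOf_dvd_natCard (⟨g, hg⟩ : ↥(S : Subgroup G))
    rw [hcard2 S, ← Subgroup.orderOf_coe] at hd
    have h7' : orderOf g ∣ 8 := hd
    rw [h7] at h7'
    omega
  have hsub : ∀ S : Sylow 2 G, ∀ g : G, ¬ orderOf g = 7 → g ∈ (S : Subgroup G) := by
    intro S g hg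
    let φ : ↥(S : Subgroup G) → {g : G // ¬ orderOf g = 7} := fun s => ⟨s.1, hnot7 S s.1 s.2⟩
    have hinj : Function.Injective φ := fun a b hab =>
      Subtype.ext (congrArg (fun x : {g : G // ¬ orderOf g = 7} => (x : G)) hab)
    have hbij : Function.Bijective φ :=
      (Nat.bijective_iff_injective_and_card φ).mpr ⟨hinj, by rw [hcard2 S, hcompl]⟩
    obtain ⟨s, hs⟩ := hbij.2 ⟨g, hg⟩
    have hsg : (s : G) = g := congrArg Subtype.val hs
    rw [← hsg]; exact s.2
  obtain ⟨T⟩ : Nonempty (Sylow 2 G) := inferInstance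
  have hsing : Subsingleton (Sylow 2 G) := by
    constructor
    intro S1 S2
    apply Sylow.ext
    apply Subgroup.eq_of_le_of_card_ge
    · intro g hg
      exact hsub S2 g (hnot7 S1 g hg)
    · rw [hcard2 S1, hcard2 S2]
  have hne2 := card_sylow_ne_one T (by rw [hcard2 T]; norm_num) (by rw [hcard2 T, hN]; norm_num)
  exact hne2 (Nat.card_eq_one_iff_unique.mpr ⟨hsing, ⟨T⟩⟩)

/-- A finite simple group of order at most 100 that is not cyclic has order 60. -/
theorem result {G : Type*} [Group G] [Finite G] [IsSimpleGroup G]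
    (hG : ¬ IsCyclic G) (h : Nat.card G ≤ 100) : Nat.card G = 60 := by
  have hpos : 0 < Nat.card G := Nat.card_pos
  have h1 : Nat.card G ≠ 1 := by
    intro h1
    have := Finite.one_lt_card (α := G)
    omega
  have hprime : ¬ (Nat.card G).Prime := fun hpr => hG (isCyclic_of_prime_card (hp := ⟨hpr⟩) rfl)
  have h4 : Nat.card G % 4 ≠ 2 := by
    intro h42
    have h2 : 2 < Nat.card G := by
      by_contra hle
      have h3 : Nat.card G = 2 := by omega
      exact hprime (h3 ▸ Nat.prime_two)
    have := four_dvd_card (G := G) (Nat.even_iff.mpr (by omega)) h2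
    omega
  have hpg : ∀ p k : ℕ, p.Prime → 2 ≤ k → Nat.card G ≠ p ^ k :=
    fun p k hp hk hN => not_simple_pgroup (hp := ⟨hp⟩) p k hN hk
  have hs : ∀ p k m : ℕ, p.Prime → ¬ p ∣ m → 0 < k → 1 < m →
      (∀ d < m + 1, d ∣ m → d % p = 1 → d ≠ 1 → ¬ (p ^ k * m ∣ d.factorial)) →
      Nat.card G ≠ p ^ k * m :=
    fun p k m hp hm hk h1 ht hN => sylow_test (hp := ⟨hp⟩) p k m hN hm hk h1 ht
  have t56 : Nat.card G ≠ 56 := not_56
  have t4 : Nat.card G ≠ 4 := fun hN => hpg 2 2 (by norm_num) (by norm_num) (hN.trans (by norm_num))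
  have t8 : Nat.card G ≠ 8 := fun hN => hpg 2 3 (by norm_num) (by norm_num) (hN.trans (by norm_num))
  have t16 : Nat.card G ≠ 16 := fun hN => hpg 2 4 (by norm_num) (by norm_num) (hN.trans (by norm_num))
  have t32 : Nat.card G ≠ 32 := fun hN => hpg 2 5 (by norm_num) (by norm_num) (hN.trans (by norm_num))
  have t64 : Nat.card G ≠ 64 := fun hN => hpg 2 6 (by norm_num) (by norm_num) (hN.trans (by norm_num))
  have t9 : Nat.card G ≠ 9 := fun hN => hpg 3 2 (by norm_num) (by norm_num) (hN.trans (by norm_num))
  have t27 : Nat.card G ≠ 27 := fun hN => hpg 3 3 (by norm_num) (by norm_num) (hN.trans (by norm_num))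
  have t81 : Nat.card G ≠ 81 := fun hN => hpg 3 4 (by norm_num) (by norm_num) (hN.trans (by norm_num))
  have t25 : Nat.card G ≠ 25 := fun hN => hpg 5 2 (by norm_num) (by norm_num) (hN.trans (by norm_num))
  have t49 : Nat.card G ≠ 49 := fun hN => hpg 7 2 (by norm_num) (by norm_num) (hN.trans (by norm_num))
  have t12 : Nat.card G ≠ 12 := fun hN =>
    hs 2 2 3 (by norm_num) (by norm_num) (by norm_num) (by norm_num) (by decide) (hN.trans (by norm_num))
  have t15 : Nat.card G ≠ 15 := fun hN =>
    hs 3 1 5 (by norm_num) (by norm_num) (by norm_num) (by norm_num) (by decide) (hN.trans (by norm_num))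
  have t20 : Nat.card G ≠ 20 := fun hN =>
    hs 5 1 4 (by norm_num) (by norm_num) (by norm_num) (by norm_num) (by decide) (hN.trans (by norm_num))
  have t21 : Nat.card G ≠ 21 := fun hN =>
    hs 7 1 3 (by norm_num) (by norm_num) (by norm_num) (by norm_num) (by decide) (hN.trans (by norm_num))
  have t24 : Nat.card G ≠ 24 := fun hN =>
    hs 2 3 3 (by norm_num) (by norm_num) (by norm_num) (by norm_num) (by decide) (hN.trans (by norm_num))
  have t28 : Nat.card G ≠ 28 := fun hN =>
    hs 7 1 4 (by norm_num) (by norm_num) (by norm_num) (by norm_num) (by decide) (hN.trans (by norm_num))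
  have t33 : Nat.card G ≠ 33 := fun hN =>
    hs 3 1 11 (by norm_num) (by norm_num) (by norm_num) (by norm_num) (by decide) (hN.trans (by norm_num))
  have t35 : Nat.card G ≠ 35 := fun hN =>
    hs 5 1 7 (by norm_num) (by norm_num) (by norm_num) (by norm_num) (by decide) (hN.trans (by norm_num))
  have t36 : Nat.card G ≠ 36 := fun hN =>
    hs 3 2 4 (by norm_num) (by norm_num) (by norm_num) (by norm_num) (by decide) (hN.trans (by norm_num))
  have t39 : Nat.card G ≠ 39 := fun hN =>
    hs 13 1 3 (by norm_num) (by norm_num) (by norm_num) (by norm_num) (by decide) (hN.trans (by norm_num))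
  have t40 : Nat.card G ≠ 40 := fun hN =>
    hs 5 1 8 (by norm_num) (by norm_num) (by norm_num) (by norm_num) (by decide) (hN.trans (by norm_num))
  have t44 : Nat.card G ≠ 44 := fun hN =>
    hs 11 1 4 (by norm_num) (by norm_num) (by norm_num) (by norm_num) (by decide) (hN.trans (by norm_num))
  have t45 : Nat.card G ≠ 45 := fun hN =>
    hs 3 2 5 (by norm_num) (by norm_num) (by norm_num) (by norm_num) (by decide) (hN.trans (by norm_num))
  have t48 : Nat.card G ≠ 48 := fun hN =>
    hs 2 4 3 (by norm_num) (by norm_num) (by norm_num) (by norm_num) (by decide) (hN.trans (by norm_num))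
  have t51 : Nat.card G ≠ 51 := fun hN =>
    hs 3 1 17 (by norm_num) (by norm_num) (by norm_num) (by norm_num) (by decide) (hN.trans (by norm_num))
  have t52 : Nat.card G ≠ 52 := fun hN =>
    hs 13 1 4 (by norm_num) (by norm_num) (by norm_num) (by norm_num) (by decide) (hN.trans (by norm_num))
  have t55 : Nat.card G ≠ 55 := fun hN =>
    hs 11 1 5 (by norm_num) (by norm_num) (by norm_num) (by norm_num) (by decide) (hN.trans (by norm_num))
  have t57 : Nat.card G ≠ 57 := fun hN =>
    hs 19 1 3 (by norm_num) (by norm_num) (by norm_num) (by norm_num) (by decide) (hN.trans (by norm_num))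
  have t63 : Nat.card G ≠ 63 := fun hN =>
    hs 7 1 9 (by norm_num) (by norm_num) (by norm_num) (by norm_num) (by decide) (hN.trans (by norm_num))
  have t65 : Nat.card G ≠ 65 := fun hN =>
    hs 5 1 13 (by norm_num) (by norm_num) (by norm_num) (by norm_num) (by decide) (hN.trans (by norm_num))
  have t68 : Nat.card G ≠ 68 := fun hN =>
    hs 17 1 4 (by norm_num) (by norm_num) (by norm_num) (by norm_num) (by decide) (hN.trans (by norm_num))
  have t69 : Nat.card G ≠ 69 := fun hN =>
    hs 3 1 23 (by norm_num) (by norm_num) (by norm_num) (by norm_num) (by decide) (hN.trans (by norm_num))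
  have t72 : Nat.card G ≠ 72 := fun hN =>
    hs 3 2 8 (by norm_num) (by norm_num) (by norm_num) (by norm_num) (by decide) (hN.trans (by norm_num))
  have t75 : Nat.card G ≠ 75 := fun hN =>
    hs 5 2 3 (by norm_num) (by norm_num) (by norm_num) (by norm_num) (by decide) (hN.trans (by norm_num))
  have t76 : Nat.card G ≠ 76 := fun hN =>
    hs 19 1 4 (by norm_num) (by norm_num) (by norm_num) (by norm_num) (by decide) (hN.trans (by norm_num))
  have t77 : Nat.card G ≠ 77 := fun hN =>
    hs 7 1 11 (by norm_num) (by norm_num) (by norm_num) (by norm_num) (by decide) (hN.trans (by norm_num))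
  have t80 : Nat.card G ≠ 80 := fun hN =>
    hs 2 4 5 (by norm_num) (by norm_num) (by norm_num) (by norm_num) (by decide) (hN.trans (by norm_num))
  have t84 : Nat.card G ≠ 84 := fun hN =>
    hs 7 1 12 (by norm_num) (by norm_num) (by norm_num) (by norm_num) (by decide) (hN.trans (by norm_num))
  have t85 : Nat.card G ≠ 85 := fun hN =>
    hs 5 1 17 (by norm_num) (by norm_num) (by norm_num) (by norm_num) (by decide) (hN.trans (by norm_num))
  have t87 : Nat.card G ≠ 87 := fun hN =>
    hs 3 1 29 (by norm_num) (by norm_num) (by norm_num) (by norm_num) (by decide) (hN.trans (by norm_num))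
  have t88 : Nat.card G ≠ 88 := fun hN =>
    hs 11 1 8 (by norm_num) (by norm_num) (by norm_num) (by norm_num) (by decide) (hN.trans (by norm_num))
  have t91 : Nat.card G ≠ 91 := fun hN =>
    hs 7 1 13 (by norm_num) (by norm_num) (by norm_num) (by norm_num) (by decide) (hN.trans (by norm_num))
  have t92 : Nat.card G ≠ 92 := fun hN =>
    hs 23 1 4 (by norm_num) (by norm_num) (by norm_num) (by norm_num) (by decide) (hN.trans (by norm_num))
  have t93 : Nat.card G ≠ 93 := fun hN =>
    hs 31 1 3 (by norm_num) (by norm_num) (by norm_num) (by norm_num) (by decide) (hN.trans (by norm_num))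
  have t95 : Nat.card G ≠ 95 := fun hN =>
    hs 5 1 19 (by norm_num) (by norm_num) (by norm_num) (by norm_num) (by decide) (hN.trans (by norm_num))
  have t96 : Nat.card G ≠ 96 := fun hN =>
    hs 2 5 3 (by norm_num) (by norm_num) (by norm_num) (by norm_num) (by decide) (hN.trans (by norm_num))
  have t99 : Nat.card G ≠ 99 := fun hN =>
    hs 3 2 11 (by norm_num) (by norm_num) (by norm_num) (by norm_num) (by decide) (hN.trans (by norm_num))
  have t100 : Nat.card G ≠ 100 := fun hN =>
    hs 5 2 4 (by norm_num) (by norm_num) (by norm_num) (by norm_num) (by decide) (hN.trans (by norm_num))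
  generalize Nat.card G = n at *
  interval_cases n <;> first | omega | exact absurd (by norm_num) hprime

end Cfsg.Agent.S0493
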