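import Cfsg.Statements.S0494
import Cfsg.Agent.Lib.Helper2.Simple60

set_option autoImplicit false
open Cfsg

namespace Cfsg.Agent.S0494

/-- A simple group of order 60 is isomorphic to the alternating group of degree 5. -/
theorem result {G : Type*} [Group G] [Finite G] [IsSimpleGroup G]
    (h : Nat.card G = 60) : Nonempty (G ≃* alternatingGroup (Fin 5)) := by
  exact Cfsg.Agent.Lib.Helper2.Simple60.simple_order_sixty h

end Cfsg.Agent.S0494
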