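import Mathlib
import Cfsg.Statements.S0505
import Cfsg.Agent.Lib.Helper4.PPrimeQuot
import Cfsg.Agent.S0017
import Cfsg.Agent.S0028
import Cfsg.Agent.S0567

set_option autoImplicit false
open Cfsg

namespace Cfsg.Agent.S0505

universe u

section
variable {G : Type u} [Group G]

theorem conj_mem_map_subtype {K : Subgroup G} (M : Subgroup K) [hM : M.Normal] {g m : G}
    (hg : g ∈ K) (hm : m ∈ M.map K.subtype) : g * m * g⁻¹ ∈ M.map K.subtype := by
  obtain ⟨m', hm', rfl⟩ := hm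
  exact ⟨⟨g, hg⟩ * m' * ⟨g, hg⟩⁻¹, hM.conj_mem m' hm' ⟨g, hg⟩, rfl⟩

theorem exists_central_involution [Finite G] (Q : Subgroup G) (hQ : IsPGroup 2 Q) (hne : Q ≠ ⊥) :
    ∃ z ∈ Q, orderOf z = 2 ∧ ∀ q ∈ Q, q * z = z * q := by
  haveI : Fact (Nat.Prime 2) := ⟨Nat.prime_two⟩
  haveI : Nontrivial Q := (Subgroup.nontrivial_iff_ne_bot Q).mpr hne
  have hc : ⊥ < Subgroup.center Q := hQ.bot_lt_center
  have hZp : IsPGroup 2 (Subgroup.center Q) := hQ.to_subgroup _
  obtain ⟨k, hk⟩ := IsPGroup.iff_card.mp hZp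
  have hk1 : k ≠ 0 := by
    rintro rfl
    rw [pow_zero, Subgroup.card_eq_one] at hk
    exact (ne_of_gt hc) hk
  have hdvd : 2 ∣ Nat.card (Subgroup.center Q) := by rw [hk]; exact dvd_pow_self 2 hk1
  obtain ⟨x, hx⟩ := exists_prime_orderOf_dvd_card' 2 hdvd
  refine ⟨((x : Q) : G), (x : Q).2, ?_, ?_⟩
  · rw [Subgroup.orderOf_coe, Subgroup.orderOf_coe, hx]
  · intro q hq
    have := (Subgroup.mem_center_iff.mp x.2) ⟨q, hq⟩
    exact congrArg Subtype.val this

/-- solvable balance: in a solvable group `H` with trivial core, an odd order subgroup centralizing a `2`-subgroup `X`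
and normalized by `C_H(X)` is trivial -/
theorem lemmaA [Finite G] (H : Subgroup G) [hHs : Group.IsSolvable H] (hO : pPrimeCore 2 H = ⊥)
    (X D : Subgroup G) (hXH : X ≤ H) (hX : IsPGroup 2 X) (hDH : D ≤ H)
    (hDX : D ≤ Subgroup.centralizer (X : Set G)) (hD : (Nat.card D).Coprime 2)
    (hnorm : ∀ g ∈ H, g ∈ Subgroup.centralizer (X : Set G) → ∀ d ∈ D, g * d * g⁻¹ ∈ D) :
    D = ⊥ := by
  haveI : Fact (Nat.Prime 2) := ⟨Nat.prime_two⟩
  obtain ⟨U, hUdef⟩ : ∃ U, U = (pCore 2 H).map H.subtype := ⟨_, rfl⟩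
  have hU : IsPGroup 2 U := by
    rw [hUdef]; exact (Cfsg.Agent.Lib.Helper9.pCore_isPGroup 2 H).map _
  have hUn : ∀ g ∈ H, ∀ u ∈ U, g * u * g⁻¹ ∈ U := fun g hg u hu => by
    rw [hUdef] at hu ⊢
    exact conj_mem_map_subtype _ hg hu
  have hXU : X ≤ Subgroup.normalizer (U : Set G) :=
    Cfsg.Agent.S0567.le_normalizer_of_conj_mem X U (fun a ha x hx => hUn a (hXH ha) x hx)
  have hDU : D ≤ Subgroup.normalizer (U : Set G) :=
    Cfsg.Agent.S0567.le_normalizer_of_conj_mem D U (fun a ha x hx => hUn a (hDH ha) x hx)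
  have hXD : X ≤ Subgroup.centralizer (D : Set G) := by
    intro x hx
    rw [Subgroup.mem_centralizer_iff]
    intro d hd
    exact ((Subgroup.mem_centralizer_iff.mp (hDX hd)) x hx).symm
  have hC : U ⊓ Subgroup.centralizer (X : Set G) ≤ Subgroup.centralizer (D : Set G) := by
    intro u hu
    obtain ⟨huU, huX⟩ := Subgroup.mem_inf.mp hu
    have huH : u ∈ H := by
      rw [hUdef] at huU
      obtain ⟨u', -, rfl⟩ := huU
      exact u'.2
    rw [Subgroup.mem_centralizer_iff]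
    intro d hd
    have h1 : u * d * u⁻¹ * d⁻¹ ∈ D := D.mul_mem (hnorm u huH huX d hd) (D.inv_mem hd)
    have h2 : u * d * u⁻¹ * d⁻¹ ∈ U := by
      have h3 : d * u⁻¹ * d⁻¹ ∈ U := hUn d (hDH hd) u⁻¹ (U.inv_mem huU)
      have h4 : u * d * u⁻¹ * d⁻¹ = u * (d * u⁻¹ * d⁻¹) := by group
      rw [h4]; exact U.mul_mem huU h3
    have h5 := Cfsg.Agent.Lib.Helper4.PPrimeQuot.eq_one_of_mem hD hU h2 h1
    have h6 : d * u = (u * d * u⁻¹ * d⁻¹)⁻¹ * (u * d) := by group
    rw [h6, h5, inv_one, one_mul]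
  have hDcU := Cfsg.Agent.S0028.result 2 X D U hX hD hU hXD hXU hDU hC
  rw [eq_bot_iff]
  intro d hd
  rw [Subgroup.mem_bot]
  have hdc : (⟨d, hDH hd⟩ : H) ∈ Subgroup.centralizer (pCore 2 H : Set H) := by
    rw [Subgroup.mem_centralizer_iff]
    intro y hy
    apply Subtype.ext
    have hyU : (y : G) ∈ U := by rw [hUdef]; exact Subgroup.mem_map_of_mem _ hy
    exact (Subgroup.mem_centralizer_iff.mp (hDcU hd)) (y : G) hyU
  have hdU : d ∈ U := by
    rw [hUdef]
    exact ⟨⟨d, hDH hd⟩, Cfsg.Agent.S0017.result 2 hO hdc, rfl⟩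
  exact Cfsg.Agent.Lib.Helper4.PPrimeQuot.eq_one_of_mem hD hU hdU hd

theorem main [Finite G]
    (hs : ∀ t : G, orderOf t = 2 → Group.IsSolvable (Subgroup.centralizer ({t} : Set G)))
    (hc : ∀ t : G, orderOf t = 2 → pPrimeCore 2 (Subgroup.centralizer ({t} : Set G)) = ⊥)
    (N T : Subgroup G) (hT : IsPGroup 2 T) (hTne : T ≠ ⊥) (hTN : T ≤ N)
    (hTn : (T.subgroupOf N).Normal) (hCN : Subgroup.centralizer (T : Set G) ≤ N) :
    Subgroup.centralizer (pCore 2 N : Set N) ≤ pCore 2 N := by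
  haveI : Fact (Nat.Prime 2) := ⟨Nat.prime_two⟩
  obtain ⟨Q, hQdef⟩ : ∃ Q, Q = (pCore 2 N).map N.subtype := ⟨_, rfl⟩
  have hQ2 : IsPGroup 2 Q := by
    rw [hQdef]; exact (Cfsg.Agent.Lib.Helper9.pCore_isPGroup 2 N).map _
  have hTQ : T ≤ Q := by
    intro t ht
    have h1 : T.subgroupOf N ≤ pCore 2 N := Cfsg.Agent.Lib.Helper9.le_pCore hTn hT.comap_subtype
    rw [hQdef]
    exact ⟨⟨t, hTN ht⟩, h1 (Subgroup.mem_subgroupOf.mpr ht), rfl⟩
  have hQne : Q ≠ ⊥ := fun h => hTne (le_bot_iff.mp (h ▸ hTQ))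
  obtain ⟨z, hzQ, hz2, hzc⟩ := exists_central_involution Q hQ2 hQne
  haveI hHs : Group.IsSolvable (Subgroup.centralizer ({z} : Set G)) := hs z hz2
  have hHO : pPrimeCore 2 (Subgroup.centralizer ({z} : Set G)) = ⊥ := hc z hz2
  have hQH : Q ≤ Subgroup.centralizer ({z} : Set G) := by
    intro q hq
    rw [Subgroup.mem_centralizer_iff]
    intro h hh
    rw [Set.mem_singleton_iff.mp hh]
    exact (hzc q hq).symm
  have hCQN : Subgroup.centralizer (Q : Set G) ≤ N := (Subgroup.centralizer_le hTQ).trans hCN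
  have hCQH : Subgroup.centralizer (Q : Set G) ≤ Subgroup.centralizer ({z} : Set G) :=
    Subgroup.centralizer_le (Set.singleton_subset_iff.mpr hzQ)
  obtain ⟨Cn, hCndef⟩ : ∃ Cn : Subgroup N, Cn = Subgroup.centralizer (pCore 2 N : Set N) :=
    ⟨_, rfl⟩
  haveI hCnn : Cn.Normal := by rw [hCndef]; infer_instance
  have hCn_mem : ∀ c : N, c ∈ Cn ↔ (c : G) ∈ Subgroup.centralizer (Q : Set G) := by
    intro c
    rw [hCndef, Subgroup.mem_centralizer_iff, Subgroup.mem_centralizer_iff, hQdef]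
    constructor
    · rintro h _ ⟨q, hq, rfl⟩
      exact congrArg Subtype.val (h q hq)
    · intro h q hq
      exact Subtype.ext (h (q : G) (Subgroup.mem_map_of_mem _ hq))
  obtain ⟨D, hDdef⟩ : ∃ D : Subgroup G,
      D = ((pPrimeCore 2 Cn).map Cn.subtype).map N.subtype := ⟨_, rfl⟩
  have hDcard : (Nat.card D).Coprime 2 := by
    rw [hDdef, Subgroup.card_map_of_injective N.subtype_injective,
      Subgroup.card_map_of_injective Cn.subtype_injective]
    exact Cfsg.Agent.Lib.Helper9.pPrimeCore_coprime 2 Cn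
  have hDC : D ≤ Subgroup.centralizer (Q : Set G) := by
    rw [hDdef]
    rintro _ ⟨_, ⟨c, -, rfl⟩, rfl⟩
    exact (hCn_mem c).mp c.2
  have hDnorm : ∀ g ∈ Subgroup.centralizer ({z} : Set G), g ∈ Subgroup.centralizer (Q : Set G) →
      ∀ d ∈ D, g * d * g⁻¹ ∈ D := by
    intro g _ hgQ d hd
    rw [hDdef] at hd ⊢
    obtain ⟨_, ⟨c, hc, rfl⟩, rfl⟩ := hd
    have hgN : g ∈ N := hCQN hgQ
    have hgCn : (⟨g, hgN⟩ : N) ∈ Cn := (hCn_mem _).mpr hgQ
    have hconj := (Cfsg.pPrimeCore_normal 2 Cn).conj_mem c hc ⟨⟨g, hgN⟩, hgCn⟩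
    exact ⟨_, ⟨_, hconj, rfl⟩, rfl⟩
  have hDbot : D = ⊥ := lemmaA (Subgroup.centralizer ({z} : Set G)) hHO Q D hQH hQ2
    (hDC.trans hCQH) hDC hDcard hDnorm
  have hD0 : pPrimeCore 2 Cn = ⊥ := by
    rw [hDdef] at hDbot
    rw [Subgroup.map_eq_bot_iff_of_injective _ N.subtype_injective,
      Subgroup.map_eq_bot_iff_of_injective _ Cn.subtype_injective] at hDbot
    exact hDbot
  haveI hCns : Group.IsSolvable Cn := by
    let f : Cn →* Subgroup.centralizer ({z} : Set G) :=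
      { toFun := fun c => ⟨((c : N) : G), hCQH ((hCn_mem c).mp c.2)⟩
        map_one' := rfl
        map_mul' := fun a b => rfl }
    apply Group.isSolvable_of_isSolvable_injective (f := f)
    intro a b hab
    have h3 : ((a : N) : G) = ((b : N) : G) :=
      congrArg (Subtype.val : Subgroup.centralizer ({z} : Set G) → G) hab
    exact Subtype.ext (Subtype.ext h3)
  have hkey := Cfsg.Agent.S0017.result (G := Cn) 2 hD0
  have hsub := Cfsg.Agent.Lib.Helper9.pCore_subtype_le 2 Cn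
  intro c hc
  have hcCn : c ∈ Cn := by rw [hCndef]; exact hc
  have h1 : (⟨c, hcCn⟩ : Cn) ∈ Subgroup.centralizer (pCore 2 Cn : Set Cn) := by
    rw [Subgroup.mem_centralizer_iff]
    intro y hy
    apply Subtype.ext
    have hyQ : (y : N) ∈ pCore 2 N := hsub (Subgroup.mem_map_of_mem _ hy)
    exact (Subgroup.mem_centralizer_iff.mp hc) (y : N) hyQ
  exact hsub ⟨⟨c, hcCn⟩, hkey h1, rfl⟩

end

/-- Let G be a finite group of even order in which the centralizer of every involution is solvable and has trivial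
core (no nontrivial normal subgroup of odd order). Then G is of characteristic 2 type. -/
theorem result {G : Type*} [Group G] [Finite G]
    (h2 : Even (Nat.card G))
    (hs : ∀ t : G, orderOf t = 2 → Group.IsSolvable (Subgroup.centralizer ({t} : Set G)))
    (hc : ∀ t : G, orderOf t = 2 → Cfsg.oddCore (Subgroup.centralizer ({t} : Set G)) = ⊥) :
    Cfsg.IsCharacteristicTwoType G := by
  refine ⟨h2, ?_⟩
  intro T hT hTne
  exact main hs hc (Subgroup.normalizer (T : Set G)) T hT hTne Subgroup.le_normalizer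
    inferInstance (Subgroup.centralizer_le_normalizer _)

end Cfsg.Agent.S0505
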