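import Mathlib
import Cfsg.Statements.S0514
import Cfsg.Agent.S0111
import Cfsg.Agent.S0635
import Cfsg.Agent.S0638
import Cfsg.Agent.Lib.Helper4.Card
import Cfsg.Agent.Lib.Helper16.Basic

set_option autoImplicit false
open Cfsg

namespace Cfsg.Agent.S0514

universe u

/-- "dihedral-like": a cyclic subgroup `A` such that every element outside `A` is an involution
inverting `A`, and the product of two elements outside `A` lies in `A`. -/
def DL {C : Type*} [Group C] (T : Subgroup C) : Prop :=
  ∃ A : Subgroup C, A ≤ T ∧ IsCyclic A ∧ ∀ y ∈ T, y ∉ A →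
    (y ^ 2 = 1 ∧ (∀ a ∈ A, y * a * y⁻¹ = a⁻¹) ∧ ∀ y' ∈ T, y' ∉ A → y * y' ∈ A)

theorem DL_mono {C : Type*} [Group C] {T₁ T₂ : Subgroup C} (h : T₁ ≤ T₂) (hT : DL T₂) :
    DL T₁ := by
  obtain ⟨A, hAT, hAc, hA⟩ := hT
  refine ⟨A ⊓ T₁, inf_le_right, ?_, ?_⟩
  · haveI := hAc
    exact isCyclic_of_injective (Subgroup.inclusion (inf_le_left : A ⊓ T₁ ≤ A))
      (Subgroup.inclusion_injective _)
  · intro y hy hyA
    have hyA' : y ∉ A := fun h' => hyA (Subgroup.mem_inf.mpr ⟨h', hy⟩)
    obtain ⟨h1, h2, h3⟩ := hA y (h hy) hyA'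
    refine ⟨h1, fun a ha => h2 a (Subgroup.mem_inf.mp ha).1, ?_⟩
    intro y' hy' hy'A
    have hy'A' : y' ∉ A := fun h' => hy'A (Subgroup.mem_inf.mpr ⟨h', hy'⟩)
    exact Subgroup.mem_inf.mpr ⟨h3 y' (h hy') hy'A', T₁.mul_mem hy hy'⟩

theorem DL_map {C D : Type*} [Group C] [Group D] (f : C →* D) {T : Subgroup C} (hT : DL T) :
    DL (T.map f) := by
  obtain ⟨A, hAT, hAc, hA⟩ := hT
  refine ⟨A.map f, Subgroup.map_mono hAT, ?_, ?_⟩
  · haveI := hAc
    exact isCyclic_of_surjective (f.subgroupMap A) (f.subgroupMap_surjective A)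
  · intro y hy hyA
    obtain ⟨x, hx, rfl⟩ := Subgroup.mem_map.mp hy
    have hxA : x ∉ A := fun h' => hyA (Subgroup.mem_map_of_mem f h')
    obtain ⟨h1, h2, h3⟩ := hA x hx hxA
    refine ⟨by rw [← map_pow, h1, map_one], ?_, ?_⟩
    · intro a' ha'
      obtain ⟨a, ha, rfl⟩ := Subgroup.mem_map.mp ha'
      rw [← map_inv, ← map_mul, ← map_mul, h2 a ha, map_inv]
    · intro y' hy' hy'A
      obtain ⟨x', hx', rfl⟩ := Subgroup.mem_map.mp hy'
      have hx'A : x' ∉ A := fun h' => hy'A (Subgroup.mem_map_of_mem f h')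
      rw [← map_mul]
      exact Subgroup.mem_map_of_mem f (h3 x' hx' hx'A)

theorem DL_of_map {C D : Type*} [Group C] [Group D] (f : C →* D) (hf : Function.Injective f)
    {T : Subgroup C} (hT : DL (T.map f)) : DL T := by
  obtain ⟨A, hAT, hAc, hA⟩ := hT
  refine ⟨A.comap f, ?_, ?_, ?_⟩
  · intro x hx
    obtain ⟨x', hx', hxx⟩ := Subgroup.mem_map.mp (hAT (Subgroup.mem_comap.mp hx))
    rw [← hf hxx]; exact hx'
  · haveI := hAc
    let φ : ↥(A.comap f) →* ↥A := (f.comp (A.comap f).subtype).codRestrict A (fun x => x.2)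
    refine isCyclic_of_injective φ ?_
    intro x y hxy
    have := congrArg (Subtype.val : ↥A → D) hxy
    exact Subtype.ext (hf this)
  · intro y hy hyA
    have hyA' : f y ∉ A := fun h' => hyA (Subgroup.mem_comap.mpr h')
    obtain ⟨h1, h2, h3⟩ := hA (f y) (Subgroup.mem_map_of_mem f hy) hyA'
    refine ⟨?_, ?_, ?_⟩
    · apply hf; rw [map_pow, h1, map_one]
    · intro a ha
      apply hf
      rw [map_mul, map_mul, map_inv, map_inv]
      exact h2 (f a) (Subgroup.mem_comap.mp ha)
    · intro y' hy' hy'A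
      have hy'A' : f y' ∉ A := fun h' => hy'A (Subgroup.mem_comap.mpr h')
      have := h3 (f y') (Subgroup.mem_map_of_mem f hy') hy'A'
      rw [← map_mul] at this
      exact Subgroup.mem_comap.mpr this

theorem DL_dihedral (n : ℕ) : DL (⊤ : Subgroup (DihedralGroup n)) := by
  have hr : ∀ i : ZMod n, DihedralGroup.r i ∈
      Subgroup.zpowers (DihedralGroup.r (1 : ZMod n)) := by
    intro i
    refine ⟨(ZMod.cast i : ℤ), ?_⟩
    simp
  refine ⟨Subgroup.zpowers (DihedralGroup.r 1), le_top, inferInstance, ?_⟩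
  intro y _ hy
  cases y with
  | r i => exact absurd (hr i) hy
  | sr i =>
    refine ⟨?_, ?_, ?_⟩
    · rw [pow_two]; exact DihedralGroup.sr_mul_self i
    · rintro a ⟨k, rfl⟩
      simp
    · intro y' _ hy'
      cases y' with
      | r j => exact absurd (hr j) hy'
      | sr j => rw [DihedralGroup.sr_mul_sr]; exact hr _

theorem cyclic_case {C : Type*} [Group C] [Finite C] (T : Sylow 2 C)
    (hT : IsCyclic (T : Subgroup C)) :
    ∃ N : Subgroup C, N.Normal ∧ Odd (Nat.card N) ∧ ∃ k : ℕ, N.index = 2 ^ k := by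
  by_cases h2 : 2 ∣ Nat.card C
  · have hmin : (Nat.card C).minFac = 2 := (Nat.minFac_eq_two_iff _).mpr h2
    obtain ⟨K, hKn, hc⟩ : ∃ K : Subgroup C, K.Normal ∧ K.IsComplement' (T : Subgroup C) :=
      ⟨_, MonoidHom.normal_ker _, IsCyclic.isComplement' hmin hT⟩
    refine ⟨K, hKn, ?_, ?_⟩
    · rw [← hc.index_eq_card]
      exact Nat.odd_iff.mpr (Nat.two_dvd_ne_zero.mp T.not_dvd_index)
    · obtain ⟨k, hk⟩ := (IsPGroup.iff_card.mp T.isPGroup')
      exact ⟨k, by rw [hc.symm.index_eq_card]; exact hk⟩
  · refine ⟨⊤, inferInstance, ?_, 0, by simp⟩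
    rw [Subgroup.card_top]
    exact Nat.odd_iff.mpr (Nat.two_dvd_ne_zero.mp h2)

theorem mem_of_odd_order {M : Type*} [Group M] [Finite M] (N : Subgroup M) [N.Normal] {k : ℕ}
    (hk : N.index = 2 ^ k) (x : M) (hx : Odd (orderOf x)) : x ∈ N := by
  have h1 : orderOf (QuotientGroup.mk' N x) ∣ orderOf x := orderOf_map_dvd _ x
  have h2 : orderOf (QuotientGroup.mk' N x) ∣ 2 ^ k := by
    rw [← hk]; exact orderOf_dvd_natCard _
  have h3 : orderOf (QuotientGroup.mk' N x) = 1 := by
    obtain ⟨j, hj, hj2⟩ := (Nat.dvd_prime_pow Nat.prime_two).mp h2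
    rcases Nat.eq_zero_or_pos j with h0 | h0
    · rw [hj2, h0, pow_zero]
    · exfalso
      have : 2 ∣ orderOf x := dvd_trans (by rw [hj2]; exact dvd_pow_self 2 (by omega)) h1
      exact (Nat.not_even_iff_odd.mpr hx) (even_iff_two_dvd.mpr this)
  have h4 := orderOf_eq_one_iff.mp h3
  exact (QuotientGroup.eq_one_iff x).mp h4

theorem lift_normal {C : Type*} [Group C] [Finite C] (M : Subgroup C) [hMn : M.Normal]
    (hM : M.index = 2)
    (h : ∃ N : Subgroup M, N.Normal ∧ Odd (Nat.card N) ∧ ∃ k : ℕ, N.index = 2 ^ k) :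
    ∃ N : Subgroup C, N.Normal ∧ Odd (Nat.card N) ∧ ∃ k : ℕ, N.index = 2 ^ k := by
  obtain ⟨N, hN, hodd, k, hk⟩ := h
  haveI := hN
  refine ⟨N.map M.subtype, ?_, ?_, k + 1, ?_⟩
  · constructor
    intro n hn g
    obtain ⟨m, hm, rfl⟩ := Subgroup.mem_map.mp hn
    have hgm : g * (m : C) * g⁻¹ ∈ M := hMn.conj_mem _ m.2 g
    have hom : Odd (orderOf (m : C)) := by
      rw [Subgroup.orderOf_coe]
      have h1 : orderOf (⟨m, hm⟩ : N) ∣ Nat.card N := orderOf_dvd_natCard _
      have h2 : orderOf (⟨m, hm⟩ : N) = orderOf m := by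
        rw [← Subgroup.orderOf_coe]
      rw [h2] at h1
      exact Odd.of_dvd_nat hodd h1
    have hord : Odd (orderOf (⟨g * (m : C) * g⁻¹, hgm⟩ : M)) := by
      rw [← Subgroup.orderOf_coe]
      have h1 : orderOf (g * (m : C) * g⁻¹) = orderOf (m : C) :=
        orderOf_injective (MulAut.conj g).toMonoidHom (MulAut.conj g).injective (m : C)
      show Odd (orderOf (g * (m : C) * g⁻¹))
      rw [h1]; exact hom
    exact Subgroup.mem_map.mpr ⟨⟨_, hgm⟩, mem_of_odd_order N hk _ hord, rfl⟩
  · rw [Subgroup.card_map_of_injective M.subtype_injective]; exact hodd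
  · rw [Subgroup.index_map_subtype, hk, hM, pow_succ]

theorem cyc_unique_inv {C : Type*} [Group C] [Finite C] (A : Subgroup C) (hA : IsCyclic A)
    (a b : C) (ha : a ∈ A) (hb : b ∈ A) (hoa : orderOf a = 2) (hob : orderOf b = 2) : a = b := by
  classical
  by_contra hab
  haveI := Fintype.ofFinite A
  have h := IsCyclic.card_pow_eq_one_le (α := A) (n := 2) (by norm_num)
  have ha1 : a ≠ 1 := fun h1 => by rw [h1, orderOf_one] at hoa; omega
  have hb1 : b ≠ 1 := fun h1 => by rw [h1, orderOf_one] at hob; omega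
  have hsub : ({1, ⟨a, ha⟩, ⟨b, hb⟩} : Finset A) ⊆
      Finset.univ.filter (fun x : A => x ^ 2 = 1) := by
    intro x hx
    simp only [Finset.mem_insert, Finset.mem_singleton] at hx
    simp only [Finset.mem_filter, Finset.mem_univ, true_and]
    rcases hx with rfl | rfl | rfl
    · simp
    · apply Subtype.ext
      show a ^ 2 = 1
      rw [← hoa]; exact pow_orderOf_eq_one a
    · apply Subtype.ext
      show b ^ 2 = 1
      rw [← hob]; exact pow_orderOf_eq_one b
  have h3 : ({1, ⟨a, ha⟩, ⟨b, hb⟩} : Finset A).card = 3 := by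
    rw [Finset.card_insert_of_notMem, Finset.card_insert_of_notMem, Finset.card_singleton]
    · simp only [Finset.mem_singleton]
      intro h'; exact hab (congrArg Subtype.val h')
    · simp only [Finset.mem_insert, Finset.mem_singleton]
      rintro (h' | h')
      · exact ha1 (congrArg Subtype.val h').symm
      · exact hb1 (congrArg Subtype.val h').symm
  have := Finset.card_le_card hsub
  omega

theorem main (m : ℕ) : ∀ (C : Type u) [Group C] [Finite C], Nat.card C ≤ m → ∀ (T : Sylow 2 C),
    DL (T : Subgroup C) → ∀ t : C, orderOf t = 2 → t ∈ Subgroup.center C →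
    ∃ N : Subgroup C, N.Normal ∧ Odd (Nat.card N) ∧ ∃ k : ℕ, N.index = 2 ^ k := by
  induction m with
  | zero =>
    intro C _ _ hc
    exact absurd hc (by have := Nat.card_pos (α := C); omega)
  | succ m ih =>
    intro C _ _ hc T hDL t ht htc
    by_cases hcyc : IsCyclic (T : Subgroup C)
    · exact cyclic_case T hcyc
    obtain ⟨A, hAT, hAc, hA⟩ := hDL
    have hconj : ∀ g : C, g * t * g⁻¹ = t := by
      intro g
      have := Subgroup.mem_center_iff.mp htc g
      rw [this, mul_assoc, mul_inv_cancel, mul_one]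
    have htT : t ∈ (T : Subgroup C) := by
      have hzn : (Subgroup.zpowers t).Normal := by
        constructor
        intro x hx g
        have hxc : x ∈ Subgroup.center C :=
          (Subgroup.zpowers_le.mpr htc) hx
        have := Subgroup.mem_center_iff.mp hxc g
        rw [this, mul_assoc, mul_inv_cancel, mul_one]; exact hx
      have hzp : IsPGroup 2 (Subgroup.zpowers t) := by
        refine IsPGroup.of_card (n := 1) ?_
        rw [Nat.card_zpowers, ht, pow_one]
      exact Cfsg.Agent.S0635.le_sylow_of_normal (Subgroup.zpowers t) hzp T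
        (Subgroup.mem_zpowers t)
    have hne : ∃ y ∈ (T : Subgroup C), y ∉ A := by
      by_contra hcon
      push Not at hcon
      have : A = (T : Subgroup C) := le_antisymm hAT hcon
      exact hcyc (this ▸ hAc)
    obtain ⟨y, hyT, hyA⟩ := hne
    obtain ⟨hy2, hyinv, hymul⟩ := hA y hyT hyA
    have hidx : A.relIndex (T : Subgroup C) = 2 := by
      rw [Subgroup.relIndex, Subgroup.index_eq_two_iff]
      refine ⟨⟨y, hyT⟩, ?_⟩
      intro b
      by_cases hb : (b : C) ∈ A
      · refine Or.inr ⟨Subgroup.mem_subgroupOf.mpr hb, ?_⟩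
        intro hby
        have h1 : (b : C) * y ∈ A := Subgroup.mem_subgroupOf.mp hby
        exact hyA (by simpa using A.mul_mem (A.inv_mem hb) h1)
      · refine Or.inl ⟨?_, fun h' => hb (Subgroup.mem_subgroupOf.mp h')⟩
        exact Subgroup.mem_subgroupOf.mpr ((hA b b.2 hb).2.2 y hyT hyA)
    have hM : ∃ M : Subgroup C, M.Normal ∧ M.index = 2 := by
      by_cases htA : t ∈ A
      · have hoy : orderOf y = 2 := orderOf_eq_prime hy2 (fun h1 => hyA (h1 ▸ A.one_mem))
        rcases Cfsg.Agent.S0111.result T A hAT hidx y hoy hyT hyA with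
          ⟨M, hMn, hMi, _⟩ | ⟨g, hg⟩
        · exact ⟨M, hMn, hMi⟩
        · exfalso
          have hog : orderOf (g * y * g⁻¹) = 2 := by
            have h1 : orderOf (g * y * g⁻¹) = orderOf y :=
              orderOf_injective (MulAut.conj g).toMonoidHom (MulAut.conj g).injective y
            rw [h1, hoy]
          have h2 := cyc_unique_inv A hAc _ _ hg htA hog ht
          have hyt : y = t := by
            have h3 : g * y * g⁻¹ = g * t * g⁻¹ := by rw [h2, hconj g]
            simpa using h3
          exact hyA (hyt ▸ htA)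
      · rcases Cfsg.Agent.S0111.result T A hAT hidx t ht htT htA with
          ⟨M, hMn, hMi, _⟩ | ⟨g, hg⟩
        · exact ⟨M, hMn, hMi⟩
        · exfalso
          exact htA (hconj g ▸ hg)
    obtain ⟨M, hMn, hMi⟩ := hM
    haveI := hMn
    apply lift_normal M hMi
    have hTM : IsPGroup 2 ((T : Subgroup C).subgroupOf M) := T.isPGroup'.comap_subtype
    have hrel : M.relIndex (T : Subgroup C) = 2 := by
      have h2 : M.relIndex (T : Subgroup C) ∣ M.index :=
        Subgroup.relIndex_dvd_index_of_normal _ _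
      rw [hMi] at h2
      rcases (Nat.dvd_prime Nat.prime_two).mp h2 with h3 | h3
      · exfalso
        have h4 : (T : Subgroup C) ≤ M := Subgroup.relIndex_eq_one.mp h3
        have h5 := Subgroup.index_dvd_of_le h4
        rw [hMi] at h5
        exact T.not_dvd_index h5
      · exact h3
    have hTMi : ¬ 2 ∣ ((T : Subgroup C).subgroupOf M).index := by
      intro h2
      have h3 := Subgroup.relIndex_mul_index (inf_le_right : (T : Subgroup C) ⊓ M ≤ M)
      have h4 := Subgroup.relIndex_mul_index
        (inf_le_left : (T : Subgroup C) ⊓ M ≤ (T : Subgroup C))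
      rw [Subgroup.inf_relIndex_right] at h3
      rw [Subgroup.inf_relIndex_left] at h4
      rw [hMi] at h3
      rw [hrel] at h4
      have h5 : (T : Subgroup C).relIndex M = (T : Subgroup C).index := by omega
      rw [Subgroup.relIndex] at h5
      rw [h5] at h2
      exact T.not_dvd_index h2
    obtain ⟨TM, hTMe⟩ : ∃ TM : Sylow 2 M, (TM : Subgroup M) = (T : Subgroup C).subgroupOf M :=
      ⟨hTM.toSylow hTMi, IsPGroup.toSylow_coe _ _⟩
    have hcM : Nat.card M ≤ m := by
      have h1 := Subgroup.card_mul_index M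
      rw [hMi] at h1
      have hp := Nat.card_pos (α := M)
      omega
    by_cases hA2 : Nat.card A ≤ 2
    · apply cyclic_case TM
      rw [hTMe]
      have h1 : M.relIndex (T : Subgroup C) = 2 := hrel
      have h2 := Cfsg.Agent.Lib.Helper4.Card.card_eq_relIndex_mul_card_inf M (T : Subgroup C)
      have h3 := Cfsg.Agent.Lib.Helper4.Card.card_eq_relIndex_mul_card_inf A (T : Subgroup C)
      have h4 : Nat.card ↥(A ⊓ (T : Subgroup C)) ≤ Nat.card A :=
        Subgroup.card_le_of_le inf_le_left
      have h5 := Cfsg.Agent.Lib.Helper4.Card.card_subgroupOf_eq (T : Subgroup C) M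
      rw [h1] at h2
      rw [hidx] at h3
      have h6 : Nat.card ↥((T : Subgroup C) ⊓ M) = Nat.card ↥(M ⊓ (T : Subgroup C)) := by
        rw [inf_comm]
      have h7 : Nat.card ↥((T : Subgroup C).subgroupOf M) ≤ 2 := by omega
      have h8 : 0 < Nat.card ↥((T : Subgroup C).subgroupOf M) := Nat.card_pos
      have h9 : Nat.card ↥((T : Subgroup C).subgroupOf M) ∣ 2 := by
        interval_cases (Nat.card ↥((T : Subgroup C).subgroupOf M)) <;> simp
      exact isCyclic_of_card_dvd_prime (p := 2) h9
    · have htA : t ∈ A := by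
        by_contra htA
        apply hA2
        apply Cfsg.Agent.S0638.cyc_card_le (by norm_num) A hAc
        intro a ha
        have h1 := (hA t htT htA).2.1 a ha
        have h2 : t * a * t⁻¹ = a := by
          have := Subgroup.mem_center_iff.mp htc a
          rw [← this, mul_assoc, mul_inv_cancel, mul_one]
        rw [h2] at h1
        rw [pow_two]; nth_rewrite 2 [h1]; exact mul_inv_cancel a
      have htM : t ∈ M := by
        obtain ⟨g, hg⟩ := (Subgroup.isCyclic_iff_exists_zpowers_eq_top A).mp hAc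
        have hgA : g ∈ A := hg ▸ Subgroup.mem_zpowers g
        have hcardA : Nat.card A = orderOf g := by rw [← hg, Nat.card_zpowers]
        have hAp : IsPGroup 2 A := T.isPGroup'.to_le hAT
        obtain ⟨j, hj⟩ := IsPGroup.iff_card.mp hAp
        have hj2 : 2 ≤ j := by
          by_contra hlt
          push Not at hlt
          interval_cases j <;> omega
        have ho : orderOf (g ^ 2 ^ (j - 1)) = 2 := by
          apply orderOf_eq_prime
          · rw [← pow_mul, ← pow_succ]
            have : j - 1 + 1 = j := by omega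
            rw [this, ← hj, hcardA]; exact pow_orderOf_eq_one g
          · intro h1
            have h2 := orderOf_dvd_of_pow_eq_one h1
            rw [← hcardA, hj] at h2
            have h3 := Nat.le_of_dvd (by positivity) h2
            have h4 : 2 ^ (j - 1) < 2 ^ j := Nat.pow_lt_pow_right (by norm_num) (by omega)
            omega
        have h5 := cyc_unique_inv A hAc _ _ (A.pow_mem hgA _) htA ho ht
        rw [← h5]
        have h6 : g ^ 2 ^ (j - 1) = (g ^ 2 ^ (j - 2)) ^ 2 := by
          rw [← pow_mul, ← pow_succ]; congr 2; omega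
        rw [h6]; exact Subgroup.sq_mem_of_index_two hMi _
      refine ih M hcM TM ?_ ⟨t, htM⟩ ?_ ?_
      · rw [hTMe]
        apply DL_of_map M.subtype M.subtype_injective
        exact DL_mono (by rw [Subgroup.subgroupOf_map_subtype]; exact inf_le_left)
          ⟨A, hAT, hAc, hA⟩
      · rw [← Subgroup.orderOf_coe]; exact ht
      · rw [Subgroup.mem_center_iff]
        intro g
        apply Subtype.ext
        exact Subgroup.mem_center_iff.mp htc g

/-- In a finite group whose Sylow 2-subgroups are dihedral of order at least 4, the centralizer of any involution has a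
normal subgroup of odd order whose index in the centralizer is a power of 2. -/
theorem result {X : Type*} [Group X] [Finite X]
    (S : Sylow 2 X) (n : ℕ) (hn : 2 ≤ n) (hS : Nonempty ((S : Subgroup X) ≃* DihedralGroup n)) (t : X)
    (ht : orderOf t = 2) :
    ∃ N : Subgroup (Subgroup.centralizer ({t} : Set X)), N.Normal ∧ Odd (Nat.card N) ∧ ∃ k : ℕ, N.index = 2 ^ k := by
  classical
  obtain ⟨e⟩ := hS
  have htC : t ∈ Subgroup.centralizer ({t} : Set X) := by
    rw [Subgroup.mem_centralizer_iff]
    intro h hh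
    rw [Set.mem_singleton_iff] at hh
    rw [hh]
  have h1 : DL (⊤ : Subgroup (DihedralGroup n)) := DL_dihedral n
  have h2 : DL (⊤ : Subgroup (S : Subgroup X)) := by
    have := DL_map e.symm.toMonoidHom h1
    rwa [Subgroup.map_top_of_surjective _ e.symm.surjective] at this
  have h3 : DL (S : Subgroup X) := by
    have := DL_map (S : Subgroup X).subtype h2
    rwa [← MonoidHom.range_eq_map, Subgroup.range_subtype] at this
  obtain ⟨T⟩ : Nonempty (Sylow 2 (Subgroup.centralizer ({t} : Set X))) := inferInstance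
  obtain ⟨g, hg⟩ := Cfsg.Agent.Lib.Helper16.Basic.exists_conj_le_sylow
    (A := (T : Subgroup _).map (Subgroup.centralizer ({t} : Set X)).subtype)
    (T.isPGroup'.map _) S
  have h4 : DL (T : Subgroup (Subgroup.centralizer ({t} : Set X))) := by
    apply DL_of_map ((MulAut.conj g).toMonoidHom.comp (Subgroup.centralizer ({t} : Set X)).subtype)
    · exact (MulAut.conj g).injective.comp (Subgroup.subtype_injective _)
    · rw [← Subgroup.map_map]; exact DL_mono hg h3
  refine main _ _ le_rfl T h4 ⟨t, htC⟩ ?_ ?_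
  · rw [← Subgroup.orderOf_coe]; exact ht
  · rw [Subgroup.mem_center_iff]
    intro c
    apply Subtype.ext
    exact (Subgroup.mem_centralizer_iff.mp c.2 t rfl).symm

end Cfsg.Agent.S0514
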