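import Cfsg.Statements.S0646
import Cfsg.Agent.Lib.Lead.CyclicMax
import Cfsg.Agent.Lib.Lead.MaxClass2

set_option autoImplicit false
open Cfsg

namespace Cfsg.Agent.S0646

open Cfsg.Agent.Lib.Lead.CyclicMax Cfsg.Agent.Lib.Lead.MaxClass2

/-- Classification of non-abelian 2-groups with a cyclic maximal subgroup: dihedral, generalized quaternion, and for order at least 16 the modular group and the semidihedral group, each given by generators a (of index 2) and b with the stated relations. -/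
theorem result {G : Type*} [Group G] [Finite G] (n : ℕ) (hn : 3 ≤ n) (hG : Nat.card G = 2 ^ n) (C : Subgroup G) (hC : IsCyclic C) (hCi : C.index = 2) (hna : ∃ x y : G, x * y ≠ y * x) : ∃ a b : G, orderOf a = 2 ^ (n - 1) ∧ b ∉ Subgroup.zpowers a ∧ ((b ^ 2 = 1 ∧ b * a * b⁻¹ = a⁻¹) ∨ (b ^ 2 = a ^ (2 ^ (n - 2)) ∧ b * a * b⁻¹ = a⁻¹) ∨ (4 ≤ n ∧ b ^ 2 = 1 ∧ b * a * b⁻¹ = a ^ (1 + 2 ^ (n - 2))) ∨ (4 ≤ n ∧ b ^ 2 = 1 ∧ b * a * b⁻¹ = a ^ (2 ^ (n - 2) - 1))) := by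
  obtain ⟨e, rfl⟩ : ∃ e, n = e + 2 := ⟨n - 2, by omega⟩
  have he : 1 ≤ e := by omega
  show ∃ a b : G, orderOf a = 2 ^ (e + 1) ∧ b ∉ Subgroup.zpowers a ∧
    ((b ^ 2 = 1 ∧ b * a * b⁻¹ = a⁻¹) ∨ (b ^ 2 = a ^ (2 ^ e) ∧ b * a * b⁻¹ = a⁻¹) ∨
      (4 ≤ e + 2 ∧ b ^ 2 = 1 ∧ b * a * b⁻¹ = a ^ (1 + 2 ^ e)) ∨
      (4 ≤ e + 2 ∧ b ^ 2 = 1 ∧ b * a * b⁻¹ = a ^ (2 ^ e - 1)))
  obtain ⟨a, hCz, hoa'⟩ := exists_generator Nat.prime_two (e + 2) hG C hC hCi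
  have hoa : orderOf a = 2 ^ (e + 1) := by
    have h1 : orderOf a * 2 = 2 ^ (e + 1) * 2 := by rw [hoa', pow_succ]
    omega
  subst hCz
  haveI hCn : (Subgroup.zpowers a).Normal := Subgroup.normal_of_index_eq_two hCi
  obtain ⟨x, hx⟩ : ∃ x, x ∉ Subgroup.zpowers a := by
    by_contra hcon
    push Not at hcon
    have h1 : Subgroup.zpowers a = ⊤ := (Subgroup.eq_top_iff' _).2 hcon
    rw [h1, Subgroup.index_top] at hCi
    omega
  obtain ⟨k, hk⟩ := exists_nat_pow (hCn.conj_mem a (Subgroup.mem_zpowers a) x)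
  have hconj : ∀ m : ℕ, x * a ^ m * x⁻¹ = a ^ (k * m) := fun m => by
    rw [← conj_pow, hk, ← pow_mul]
  obtain ⟨j, hj⟩ := exists_nat_pow (Subgroup.sq_mem_of_index_two hCi x)
  have hkj : a ^ (k * j) = a ^ j := by
    rw [← hconj, ← hj]; group
  have hk2 : a ^ (k * k) = a ^ 1 := by
    have h1 : x ^ 2 * a * (x ^ 2)⁻¹ = a ^ (k * k) := by
      have h2 : x ^ 2 * a * (x ^ 2)⁻¹ = x * (x * a * x⁻¹) * x⁻¹ := by rw [pow_two]; group
      rw [h2, hk, hconj]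
    rw [hj, pow_mul_comm', mul_inv_cancel_right] at h1
    rw [← h1, pow_one]
  have hmod : k * k ≡ 1 [MOD 2 ^ (e + 1)] := by
    rw [← hoa]; exact pow_eq_pow_iff_modEq.1 hk2
  have hk1 : ¬ k ≡ 1 [MOD 2 ^ (e + 1)] := by
    intro h
    have h1 : x * a * x⁻¹ = a := by
      rw [hk]
      conv_rhs => rw [← pow_one a]
      exact pow_eq_pow_iff_modEq.2 (by rw [hoa]; exact h)
    obtain ⟨u, v, huv⟩ := hna
    exact huv (comm_of_conj_eq Nat.prime_two a x hCi hx h1 u v)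
  have hz2 : (a ^ 2 ^ e) ^ 2 = 1 := by
    rw [← pow_mul, ← pow_succ, ← hoa]; exact pow_orderOf_eq_one a
  have hz1 : a ^ 2 ^ e ≠ 1 := by
    intro h
    have h1 := orderOf_dvd_of_pow_eq_one h
    rw [hoa] at h1
    have h2 := Nat.le_of_dvd (by positivity) h1
    have h3 : 2 ^ e < 2 ^ (e + 1) := Nat.pow_lt_pow_right (by norm_num) (by omega)
    omega
  have hzo : orderOf (a ^ 2 ^ e) = 2 := orderOf_eq_prime hz2 hz1
  have hxm : ∀ m : ℕ, x * a ^ m ∉ Subgroup.zpowers a := fun m h =>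
    hx ((Subgroup.mul_mem_cancel_right _ (Subgroup.pow_mem _ (Subgroup.mem_zpowers a) m)).1 h)
  have hbconj : ∀ m : ℕ, (x * a ^ m) * a * (x * a ^ m)⁻¹ = a ^ k := by
    intro m
    rw [← hk]
    have h1 : a ^ m * a * (a ^ m)⁻¹ = a := by rw [pow_mul_comm', mul_inv_cancel_right]
    calc x * a ^ m * a * (x * a ^ m)⁻¹ = x * (a ^ m * a * (a ^ m)⁻¹) * x⁻¹ := by group
      _ = x * a * x⁻¹ := by rw [h1]
  have hsqmem : 2 ^ e ∣ j → x ^ 2 = 1 ∨ x ^ 2 = a ^ 2 ^ e := by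
    rintro ⟨t, rfl⟩
    apply mem_zpowers_two hzo
    rw [hj, pow_mul]
    exact Subgroup.pow_mem _ (Subgroup.mem_zpowers _) t
  have caseInv : k ≡ 2 ^ (e + 1) - 1 [MOD 2 ^ (e + 1)] →
      ∃ a b : G, orderOf a = 2 ^ (e + 1) ∧ b ∉ Subgroup.zpowers a ∧
      ((b ^ 2 = 1 ∧ b * a * b⁻¹ = a⁻¹) ∨ (b ^ 2 = a ^ (2 ^ e) ∧ b * a * b⁻¹ = a⁻¹) ∨
        (4 ≤ e + 2 ∧ b ^ 2 = 1 ∧ b * a * b⁻¹ = a ^ (1 + 2 ^ e)) ∨
        (4 ≤ e + 2 ∧ b ^ 2 = 1 ∧ b * a * b⁻¹ = a ^ (2 ^ e - 1))) := by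
    intro hkinv
    have hkinv' : x * a * x⁻¹ = a⁻¹ := by
      rw [hk, eq_inv_iff_mul_eq_one, ← pow_succ, pow_eq_one_iff_modEq, hoa]
      have h1 := hkinv.add_right 1
      rw [Nat.sub_add_cancel Nat.one_le_two_pow] at h1
      exact h1.trans ((Nat.modEq_zero_iff_dvd).2 dvd_rfl)
    have hjdvd : 2 ^ e ∣ j := by
      have h0 : (a ^ j)⁻¹ = a ^ j := by
        rw [← inv_pow, ← hkinv', hk, ← pow_mul]
        exact hkj
      have h1 : a ^ (2 * j) = 1 := by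
        rw [two_mul, pow_add]
        nth_rewrite 1 [← h0]
        exact inv_mul_cancel _
      have h2 : 2 ^ (e + 1) ∣ 2 * j := hoa ▸ orderOf_dvd_of_pow_eq_one h1
      rw [pow_succ'] at h2
      exact Nat.dvd_of_mul_dvd_mul_left (by norm_num) h2
    rcases hsqmem hjdvd with h | h
    · exact ⟨a, x, hoa, hx, Or.inl ⟨h, hkinv'⟩⟩
    · exact ⟨a, x, hoa, hx, Or.inr (Or.inl ⟨h, hkinv'⟩)⟩
  rcases sq_mod_cases e k he hmod with hc | hc | hc | hc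
  · exact absurd hc hk1
  · exact caseInv hc
  · -- k ≡ 1 + 2 ^ e
    by_cases he1 : e = 1
    · subst he1
      exact caseInv hc
    obtain ⟨f', rfl⟩ : ∃ f', e = f' + 2 := ⟨e - 2, by omega⟩
    have hak : a ^ k = a ^ (1 + 2 ^ (f' + 2)) := pow_eq_pow_iff_modEq.2 (hoa ▸ hc)
    have h1 : a ^ (2 ^ (f' + 2) * j) = 1 := by
      have h2 : a ^ ((1 + 2 ^ (f' + 2)) * j) = a ^ j := by
        rw [pow_mul, ← hak, ← pow_mul, hkj]
      rw [add_mul, one_mul, pow_add] at h2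
      exact mul_left_cancel (h2.trans (mul_one _).symm)
    have h3 : 2 ^ (f' + 2 + 1) ∣ 2 ^ (f' + 2) * j := hoa ▸ orderOf_dvd_of_pow_eq_one h1
    rw [pow_succ] at h3
    obtain ⟨j', rfl⟩ : 2 ∣ j := Nat.dvd_of_mul_dvd_mul_left (by positivity) h3
    obtain ⟨q, hq⟩ : ∃ q, 2 ^ (f' + 1) = q + 1 := ⟨2 ^ (f' + 1) - 1, by
      have : 1 ≤ 2 ^ (f' + 1) := Nat.one_le_two_pow
      omega⟩
    refine ⟨a, x * a ^ (j' * q), hoa, hxm _, Or.inr (Or.inr (Or.inl ⟨by omega, ?_, ?_⟩))⟩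
    · have h4 : (x * a ^ (j' * q)) ^ 2 = (x * a ^ (j' * q) * x⁻¹) * x ^ 2 * a ^ (j' * q) := by
        rw [pow_two, pow_two]; group
      rw [h4, hconj, hj, pow_mul, hak, ← pow_mul, ← pow_add, ← pow_add,
        ← orderOf_dvd_iff_pow_eq_one, hoa]
      have hQ2 : (2 : ℕ) ^ (f' + 1) = 2 * 2 ^ f' := by rw [pow_succ']
      have hE : (2 : ℕ) ^ (f' + 2) = 2 * 2 ^ (f' + 1) := by rw [pow_succ']
      have hN : (2 : ℕ) ^ (f' + 2 + 1) = 4 * 2 ^ (f' + 1) := by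
        rw [pow_succ', pow_succ']; ring
      refine ⟨j' * 2 ^ f', ?_⟩
      have hL : (1 + 2 ^ (f' + 2)) * (j' * q) + 2 * j' + j' * q
          = 2 * j' * 2 ^ (f' + 1) * 2 ^ (f' + 1) := by
        rw [hE, hq]; ring
      rw [hL, hN]
      calc 2 * j' * 2 ^ (f' + 1) * 2 ^ (f' + 1)
          = 2 * j' * 2 ^ (f' + 1) * (2 * 2 ^ f') := by rw [← hQ2]
        _ = 4 * 2 ^ (f' + 1) * (j' * 2 ^ f') := by ring
    · rw [hbconj, hak]
  · -- k ≡ 2 ^ e - 1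
    by_cases he1 : e = 1
    · subst he1
      exact absurd hc hk1
    obtain ⟨f', rfl⟩ : ∃ f', e = f' + 2 := ⟨e - 2, by omega⟩
    have hak : a ^ k = a ^ (2 ^ (f' + 2) - 1) := pow_eq_pow_iff_modEq.2 (hoa ▸ hc)
    have hQ2 : (2 : ℕ) ^ (f' + 1) = 2 * 2 ^ f' := by rw [pow_succ']
    have hE : (2 : ℕ) ^ (f' + 2) = 2 * 2 ^ (f' + 1) := by rw [pow_succ']
    have hN : (2 : ℕ) ^ (f' + 2 + 1) = 2 * 2 ^ (f' + 2) := by rw [pow_succ']
    have hpos : 1 ≤ 2 ^ f' := Nat.one_le_two_pow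
    have hjdvd : 2 ^ (f' + 2) ∣ j := by
      have h2 : a ^ ((2 ^ (f' + 2) - 1) * j) = a ^ j := by
        rw [pow_mul, ← hak, ← pow_mul, hkj]
      have h3 : (2 ^ (f' + 2) - 1) * j ≡ j [MOD 2 ^ (f' + 2 + 1)] := by
        rw [← hoa]; exact pow_eq_pow_iff_modEq.1 h2
      have h4 : j ≤ (2 ^ (f' + 2) - 1) * j := by
        have : 1 ≤ 2 ^ (f' + 2) - 1 := by omega
        nlinarith
      have h5 : 2 ^ (f' + 2 + 1) ∣ (2 ^ (f' + 2) - 1) * j - j :=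
        (Nat.modEq_iff_dvd' h4).1 h3.symm
      have h6 : (2 ^ (f' + 2) - 1) * j - j = 2 * ((2 ^ (f' + 1) - 1) * j) := by
        have h7 : (2 ^ (f' + 2) - 1) * j = 2 * ((2 ^ (f' + 1) - 1) * j) + j := by
          have h8 : 2 ^ (f' + 2) - 1 = 2 * (2 ^ (f' + 1) - 1) + 1 := by omega
          rw [h8]; ring
        omega
      rw [h6, hN] at h5
      have h9 : 2 ^ (f' + 2) ∣ (2 ^ (f' + 1) - 1) * j :=
        Nat.dvd_of_mul_dvd_mul_left (by norm_num) h5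
      have hcop : Nat.Coprime (2 ^ (f' + 2)) (2 ^ (f' + 1) - 1) := by
        apply Nat.Coprime.pow_left
        rw [Nat.coprime_two_left]
        exact ⟨2 ^ f' - 1, by omega⟩
      exact hcop.dvd_of_dvd_mul_left h9
    rcases hsqmem hjdvd with h | h
    · exact ⟨a, x, hoa, hx, Or.inr (Or.inr (Or.inr ⟨by omega, h, by rw [hk, hak]⟩))⟩
    · refine ⟨a, x * a ^ 1, hoa, hxm 1, Or.inr (Or.inr (Or.inr ⟨by omega, ?_, ?_⟩))⟩
      · have h4 : (x * a ^ 1) ^ 2 = (x * a * x⁻¹) * x ^ 2 * a := by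
          rw [pow_two, pow_two, pow_one]; group
        rw [h4, hk, hak, h, ← pow_add, ← pow_succ, ← orderOf_dvd_iff_pow_eq_one, hoa]
        have h5 : 2 ^ (f' + 2) - 1 + 2 ^ (f' + 2) + 1 = 2 ^ (f' + 2 + 1) := by omega
        rw [h5]
      · rw [hbconj, hak]

end Cfsg.Agent.S0646
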