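import Cfsg.Statements.S0519
import Mathlib
import Cfsg.Agent.Lib.Helper18.UniqueInvolution
import Cfsg.Agent.Lib.Helper18.DihedralEquiv
import Cfsg.Agent.Lib.Lead.CyclicMax
import Cfsg.Agent.S0126
import Cfsg.Agent.S0646

set_option autoImplicit false
open Cfsg

namespace Cfsg.Agent.S0519

theorem conj_pow_of {P : Type*} [Group P] {v x : P} {r : ℕ} (h : v * x * v⁻¹ = x ^ r) (k : ℕ) :
    v * x ^ k * v⁻¹ = x ^ (r * k) := by
  rw [← conj_pow, h, ← pow_mul]

theorem modEq_of_eq_add_mul {a b n k : ℕ} (h : a = b + n * k) : a ≡ b [MOD n] := by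
  rw [h]; exact Nat.add_mul_mod_self_left _ _ _

theorem comm_of_conj_eq_self {P : Type*} [Group P] {v x : P} (h : v * x * v⁻¹ = x) :
    v * x = x * v := by
  calc v * x = v * x * v⁻¹ * v := by group
    _ = x * v := by rw [h]

theorem normal_four_of {P : Type*} [Group P] [Finite P] (z t : P) (hzc : ∀ v, v * z = z * v)
    (hz2 : z ^ 2 = 1) (hz1 : z ≠ 1) (ht2 : t ^ 2 = 1) (ht1 : t ≠ 1) (htz : t ≠ z)
    (hconj : ∀ v : P, v * t * v⁻¹ = t ∨ v * t * v⁻¹ = z * t) :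
    ∃ E : Subgroup P, E.Normal ∧ IsMulCommutative E ∧ ¬ IsCyclic E := by
  classical
  have hzE : z ∈ Subgroup.closure ({z, t} : Set P) := Subgroup.subset_closure (by simp)
  have htE : t ∈ Subgroup.closure ({z, t} : Set P) := Subgroup.subset_closure (by simp)
  refine ⟨Subgroup.closure {z, t}, ?_, ?_, ?_⟩
  · constructor
    intro n hn v
    induction hn using Subgroup.closure_induction with
    | mem y hy =>
      rcases hy with h | h
      · have : v * y * v⁻¹ = y := by rw [h, hzc v]; group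
        rw [this, h]; exact hzE
      · have h' : y = t := h
        rw [h']
        rcases hconj v with h2 | h2
        · rw [h2]; exact htE
        · rw [h2]; exact Subgroup.mul_mem _ hzE htE
    | one => simp
    | mul a b _ _ ha hb =>
      have : v * (a * b) * v⁻¹ = (v * a * v⁻¹) * (v * b * v⁻¹) := by group
      rw [this]; exact Subgroup.mul_mem _ ha hb
    | inv a _ ha =>
      have : v * a⁻¹ * v⁻¹ = (v * a * v⁻¹)⁻¹ := by group
      rw [this]; exact Subgroup.inv_mem _ ha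
  · apply Subgroup.isMulCommutative_closure
    intro a ha b hb
    rcases ha with rfl | ha <;> rcases hb with rfl | hb
    · rfl
    · exact (hzc b).symm
    · exact hzc a
    · have ha' : a = t := ha
      have hb' : b = t := hb
      rw [ha', hb']
  · intro hcyc
    haveI := Fintype.ofFinite (Subgroup.closure ({z, t} : Set P))
    have h1 := IsCyclic.card_pow_eq_one_le (α := Subgroup.closure ({z, t} : Set P)) (n := 2)
      (by norm_num)
    have h3 : ({1, ⟨z, hzE⟩, ⟨t, htE⟩} : Finset (Subgroup.closure ({z, t} : Set P))) ⊆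
        Finset.univ.filter (fun a : Subgroup.closure ({z, t} : Set P) => a ^ 2 = 1) := by
      intro a ha
      rw [Finset.mem_filter]
      refine ⟨Finset.mem_univ _, ?_⟩
      rw [Finset.mem_insert, Finset.mem_insert, Finset.mem_singleton] at ha
      rcases ha with rfl | rfl | rfl
      · simp
      · exact Subtype.ext hz2
      · exact Subtype.ext ht2
    have h4 : ({1, ⟨z, hzE⟩, ⟨t, htE⟩} : Finset (Subgroup.closure ({z, t} : Set P))).card = 3 := by
      rw [Finset.card_insert_of_notMem, Finset.card_insert_of_notMem, Finset.card_singleton]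
      · rw [Finset.mem_singleton]
        intro h
        exact htz (congrArg Subtype.val h).symm
      · rw [Finset.mem_insert, Finset.mem_singleton]
        rintro (h | h)
        · exact hz1 (congrArg Subtype.val h).symm
        · exact ht1 (congrArg Subtype.val h).symm
    have h5 := Finset.card_le_card h3
    omega

theorem modular_contra {P : Type*} [Group P] [Finite P] (x : P) (e : ℕ) (he : 2 ≤ e)
    (hx : orderOf x = 2 ^ (e + 1))
    (hnorm : ∀ v : P, v * x * v⁻¹ ∈ Subgroup.zpowers x)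
    (hself : ∀ v : P, v * x = x * v → v ∈ Subgroup.zpowers x)
    (u : P) (hu : u ∉ Subgroup.zpowers x) (hux : u * x * u⁻¹ = x ^ (1 + 2 ^ e)) :
    ∃ E : Subgroup P, E.Normal ∧ IsMulCommutative E ∧ ¬ IsCyclic E := by
  obtain ⟨k, rfl⟩ : ∃ k, e = k + 2 := ⟨e - 2, by omega⟩
  obtain ⟨y, hy⟩ : ∃ y, 2 ^ k = y + 1 := ⟨2 ^ k - 1, by have := Nat.one_le_two_pow (n := k); omega⟩
  have hN : 2 ^ (k + 2) = 4 * (y + 1) := by rw [pow_add, hy]; ring
  have hN2 : 2 ^ (k + 2 + 1) = 8 * (y + 1) := by rw [pow_succ, hN]; ring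
  have hsq : (1 + 2 ^ (k + 2)) * (1 + 2 ^ (k + 2)) ≡ 1 [MOD 2 ^ (k + 2 + 1)] := by
    apply modEq_of_eq_add_mul (k := 2 * y + 3)
    rw [hN, hN2]; ring
  have hxx : x ^ ((1 + 2 ^ (k + 2)) * (1 + 2 ^ (k + 2))) = x := by
    have h0 : x ^ ((1 + 2 ^ (k + 2)) * (1 + 2 ^ (k + 2))) = x ^ 1 :=
      (pow_eq_pow_iff_modEq (x := x)).2 (by rw [hx]; exact hsq)
    exact h0.trans (pow_one x)
  -- u² ∈ ⟨x⟩
  have hu2 : u * u ∈ Subgroup.zpowers x := by
    apply hself
    have h1 : u * (u * x * u⁻¹) * u⁻¹ = x := by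
      rw [hux, conj_pow_of hux, hxx]
    calc u * u * x = u * (u * x * u⁻¹) * u⁻¹ * (u * u) := by group
      _ = x * (u * u) := by rw [h1]
  obtain ⟨d, hd⟩ := Cfsg.Agent.Lib.Lead.CyclicMax.exists_nat_pow hu2
  have hdeven : 2 ∣ d := by
    have h1 : u * x ^ d * u⁻¹ = x ^ ((1 + 2 ^ (k + 2)) * d) := conj_pow_of hux d
    have h2 : u * x ^ d * u⁻¹ = x ^ d := by rw [← hd]; group
    rw [h2] at h1
    have h3 := (pow_eq_pow_iff_modEq (x := x)).1 h1
    rw [hx] at h3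
    have h4 : d + 0 ≡ d + 2 ^ (k + 2) * d [MOD 2 ^ (k + 2 + 1)] := by
      have : (1 + 2 ^ (k + 2)) * d = d + 2 ^ (k + 2) * d := by ring
      rw [add_zero, ← this]; exact h3
    have h5 := (Nat.ModEq.add_left_cancel' d h4).symm
    have h6 : 2 ^ (k + 2 + 1) ∣ 2 ^ (k + 2) * d := (Nat.modEq_zero_iff_dvd).1 h5
    rw [pow_succ] at h6
    exact (Nat.mul_dvd_mul_iff_left (by positivity)).1 h6
  obtain ⟨c, rfl⟩ := hdeven
  -- the involution t
  obtain ⟨t, htdef⟩ : ∃ t : P, t = x ^ (c * (2 * y + 1)) * u := ⟨_, rfl⟩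
  have ht2 : t * t = 1 := by
    have h1 : t * t = x ^ (c * (2 * y + 1)) * (u * x ^ (c * (2 * y + 1)) * u⁻¹) * (u * u) := by
      rw [htdef]; group
    rw [h1, conj_pow_of hux, hd, ← pow_add, ← pow_add]
    apply orderOf_dvd_iff_pow_eq_one.1
    rw [hx, hN2, hN]
    refine ⟨c * (y + 1), ?_⟩
    ring
  have htn : t ∉ Subgroup.zpowers x := by
    intro h
    apply hu
    have : u = (x ^ (c * (2 * y + 1)))⁻¹ * t := by rw [htdef]; group
    rw [this]
    exact Subgroup.mul_mem _ (Subgroup.inv_mem _ (Subgroup.pow_mem _ (Subgroup.mem_zpowers x) _)) h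
  have ht1 : t ≠ 1 := fun h => htn (h ▸ Subgroup.one_mem _)
  have htx : t * x * t⁻¹ = x ^ (1 + 2 ^ (k + 2)) := by
    have h1 : t * x * t⁻¹ = x ^ (c * (2 * y + 1)) * (u * x * u⁻¹) * (x ^ (c * (2 * y + 1)))⁻¹ := by
      rw [htdef]; group
    rw [h1, hux, mul_inv_eq_iff_eq_mul, ← pow_add, ← pow_add, add_comm]
  have htinv : t⁻¹ = t := inv_eq_of_mul_eq_one_right ht2
  -- the central involution z
  obtain ⟨z, hzdef⟩ : ∃ z : P, z = x ^ (2 ^ (k + 2)) := ⟨_, rfl⟩
  have hz1 : z ≠ 1 := by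
    rw [hzdef]
    apply pow_ne_one_of_lt_orderOf (by positivity)
    rw [hx]; exact Nat.pow_lt_pow_right (by norm_num) (by omega)
  have hz2 : z ^ 2 = 1 := by
    rw [hzdef, ← pow_mul, ← pow_succ, ← hx, pow_orderOf_eq_one]
  have hzM : z ∈ Subgroup.zpowers x := by
    rw [hzdef]; exact Subgroup.pow_mem _ (Subgroup.mem_zpowers x) _
  have hpowz : ∀ j : ℕ, 2 ^ (k + 2 + 1) ∣ j * 2 → x ^ j = 1 ∨ x ^ j = z := by
    intro j hj
    have h1 : 2 ^ (k + 2) ∣ j := by
      rw [pow_succ] at hj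
      exact (Nat.mul_dvd_mul_iff_right (by norm_num)).1 hj
    obtain ⟨l, rfl⟩ := h1
    rw [pow_mul, ← hzdef]
    rcases Nat.even_or_odd l with ⟨l', hl⟩ | ⟨l', hl⟩
    · left; rw [hl, ← two_mul, pow_mul, hz2, one_pow]
    · right; rw [hl, pow_succ, pow_mul, hz2, one_pow, one_mul]
  have hzc : ∀ v, v * z = z * v := by
    intro v
    have h1 : v * z * v⁻¹ ∈ Subgroup.zpowers x := by
      rw [hzdef, ← conj_pow]
      exact Subgroup.pow_mem _ (hnorm v) _
    obtain ⟨j, hj⟩ := Cfsg.Agent.Lib.Lead.CyclicMax.exists_nat_pow h1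
    have h2 : x ^ (j * 2) = 1 := by
      rw [pow_mul, ← hj, conj_pow, hz2]; group
    have h3 := hpowz j (by rw [← hx]; exact orderOf_dvd_of_pow_eq_one h2)
    rw [← hj] at h3
    rcases h3 with h4 | h4
    · exfalso
      apply hz1
      have : z = v⁻¹ * (v * z * v⁻¹) * v := by group
      rw [this, h4]; group
    · exact comm_of_conj_eq_self h4
  have htz : t ≠ z := fun h => htn (h ▸ hzM)
  apply normal_four_of z t hzc hz2 hz1 (by rw [pow_two]; exact ht2) ht1 htz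
  intro v
  obtain ⟨r', hr'⟩ := Cfsg.Agent.Lib.Lead.CyclicMax.exists_nat_pow (hnorm v⁻¹)
  have hr'' : v⁻¹ * x * v = x ^ r' := by rw [← hr']; group
  have h1 : (v * t * v⁻¹) * x * (v * t * v⁻¹)⁻¹ = x ^ (1 + 2 ^ (k + 2)) := by
    have e1 : (v * t * v⁻¹) * x * (v * t * v⁻¹)⁻¹ = v * (t * (v⁻¹ * x * v) * t⁻¹) * v⁻¹ := by group
    rw [e1, hr'', conj_pow_of htx, mul_comm (1 + 2 ^ (k + 2)) r', pow_mul, ← conj_pow, ← hr'']
    congr 1
    group
  -- y := t' * t commutes with x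
  have h2 : (v * t * v⁻¹ * t) * x = x * (v * t * v⁻¹ * t) := by
    apply comm_of_conj_eq_self
    have e1 : (v * t * v⁻¹ * t) * x * (v * t * v⁻¹ * t)⁻¹ =
        (v * t * v⁻¹) * (t * x * t⁻¹) * (v * t * v⁻¹)⁻¹ := by group
    rw [e1, htx, conj_pow_of h1, hxx]
  obtain ⟨j, hj⟩ := Cfsg.Agent.Lib.Lead.CyclicMax.exists_nat_pow (hself _ h2)
  have h3 : v * t * v⁻¹ = x ^ j * t := by
    have : v * t * v⁻¹ = (v * t * v⁻¹ * t) * t⁻¹ := by group
    rw [this, hj, htinv]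
  have h4 : (v * t * v⁻¹) * (v * t * v⁻¹) = 1 := by
    have : (v * t * v⁻¹) * (v * t * v⁻¹) = v * (t * t) * v⁻¹ := by group
    rw [this, ht2]; group
  have h5 : x ^ (j + (1 + 2 ^ (k + 2)) * j) = 1 := by
    have e1 : x ^ j * t * (x ^ j * t) = x ^ j * (t * x ^ j * t⁻¹) * (t * t) := by group
    rw [h3, e1, conj_pow_of htx, ht2, mul_one, ← pow_add] at h4
    exact h4
  have h6 : 2 ^ (k + 2 + 1) ∣ j * 2 := by
    have h7 : 2 ^ (k + 2 + 1) ∣ j + (1 + 2 ^ (k + 2)) * j := by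
      rw [← hx]; exact orderOf_dvd_of_pow_eq_one h5
    have h8 : j + (1 + 2 ^ (k + 2)) * j = (j * 2) * (2 * y + 3) := by rw [hN]; ring
    rw [h8] at h7
    apply Nat.Coprime.dvd_of_dvd_mul_right _ h7
    apply Nat.Coprime.pow_left
    exact (Nat.Prime.coprime_iff_not_dvd Nat.prime_two).2 (by omega)
  rcases hpowz j h6 with h7 | h7
  · left; rw [h3, h7, one_mul]
  · right; rw [h3, h7]

theorem conj_pow_pow {P : Type*} [Group P] {u x : P} {r : ℕ} (h : u * x * u⁻¹ = x ^ r) (n : ℕ) :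
    u ^ n * x * (u ^ n)⁻¹ = x ^ (r ^ n) := by
  induction n with
  | zero => simp
  | succ n ih =>
    have e1 : u ^ (n + 1) * x * (u ^ (n + 1))⁻¹ = u * (u ^ n * x * (u ^ n)⁻¹) * u⁻¹ := by
      rw [pow_succ']; group
    rw [e1, ih, conj_pow_of h, pow_succ']

theorem arith1 (e : ℕ) (he : 1 ≤ e) :
    (2 ^ (e + 1) - 1) * (2 ^ (e + 1) - 1) ≡ 1 [MOD 2 ^ (e + 1)] ∧
    (2 ^ (e + 1) - 1) * (2 ^ e - 1) ≡ 1 + 2 ^ e [MOD 2 ^ (e + 1)] ∧
    (2 ^ e - 1) * (2 ^ e - 1) ≡ 1 [MOD 2 ^ (e + 1)] := by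
  obtain ⟨f, rfl⟩ : ∃ f, e = f + 1 := ⟨e - 1, by omega⟩
  obtain ⟨y, hy⟩ : ∃ y, 2 ^ f = y + 1 := ⟨2 ^ f - 1, by have := Nat.one_le_two_pow (n := f); omega⟩
  have hN : 2 ^ (f + 1) = 2 * (y + 1) := by rw [pow_succ, hy]; ring
  have hN2 : 2 ^ (f + 1 + 1) = 4 * (y + 1) := by rw [pow_succ, hN]; ring
  have h1 : 2 ^ (f + 1 + 1) - 1 = 4 * y + 3 := by omega
  have h2 : 2 ^ (f + 1) - 1 = 2 * y + 1 := by omega
  rw [h1, h2, hN2, hN]
  exact ⟨modEq_of_eq_add_mul (k := 4 * y + 2) (by ring), modEq_of_eq_add_mul (k := 2 * y) (by ring),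
    modEq_of_eq_add_mul (k := y) (by ring)⟩

theorem sq_mod_four (s : ℕ) : (s * s) % 4 ≠ 3 := by
  have h := Nat.mod_lt s (by norm_num : 0 < 4)
  rw [Nat.mul_mod]
  obtain ⟨t, ht⟩ : ∃ t, t = s % 4 := ⟨_, rfl⟩
  rw [← ht] at h ⊢
  interval_cases t <;> decide

theorem index_two {P : Type*} [Group P] [Finite P] (hP : IsPGroup 2 P)
    (hn : ∀ A : Subgroup P, A.Normal → IsMulCommutative A → IsCyclic A)
    (x : P) (e : ℕ) (he : 1 ≤ e) (hx : orderOf x = 2 ^ (e + 1))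
    (hnorm : ∀ v : P, v * x * v⁻¹ ∈ Subgroup.zpowers x)
    (hself : ∀ v : P, v * x = x * v → v ∈ Subgroup.zpowers x)
    (g₀ : P) (hg₀ : g₀ ∉ Subgroup.zpowers x) : (Subgroup.zpowers x).index = 2 := by
  obtain ⟨ha1, ha2, ha3⟩ := arith1 e he
  have hmod : ∀ a b : ℕ, a ≡ b [MOD 2 ^ (e + 1)] → x ^ a = x ^ b := fun a b h =>
    (pow_eq_pow_iff_modEq (x := x)).2 (by rw [hx]; exact h)
  have hmod' : ∀ a b : ℕ, x ^ a = x ^ b → a ≡ b [MOD 2 ^ (e + 1)] := fun a b h => by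
    have h0 := (pow_eq_pow_iff_modEq (x := x)).1 h
    rwa [hx] at h0
  have hnomod : ∀ u : P, u ∉ Subgroup.zpowers x → 2 ≤ e → u * x * u⁻¹ = x ^ (1 + 2 ^ e) →
      False := by
    intro u hu he2 hux
    obtain ⟨E, hEn, hEc, hEnc⟩ := modular_contra x e he2 hx hnorm hself u hu hux
    exact hEnc (hn E hEn hEc)
  have key1 : ∀ u : P, u ∉ Subgroup.zpowers x → ∀ r : ℕ, u * x * u⁻¹ = x ^ r →
      u * u ∈ Subgroup.zpowers x →
      (r ≡ 2 ^ (e + 1) - 1 [MOD 2 ^ (e + 1)] ∨ (2 ≤ e ∧ r ≡ 2 ^ e - 1 [MOD 2 ^ (e + 1)])) := by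
    intro u hu r hur hu2
    have h1 : x ^ (r * r) = x ^ 1 := by
      have hc : (u * u) * x = x * (u * u) := by
        obtain ⟨d, hd⟩ := Cfsg.Agent.Lib.Lead.CyclicMax.exists_nat_pow hu2
        rw [hd, ← pow_succ, ← pow_succ']
      have h2 : u * (u * x * u⁻¹) * u⁻¹ = x := by
        calc u * (u * x * u⁻¹) * u⁻¹ = (u * u) * x * (u * u)⁻¹ := by group
          _ = x := by rw [hc]; group
      rw [hur, conj_pow_of hur] at h2
      rw [h2, pow_one]
    have h3 := hmod' _ _ h1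
    rcases Cfsg.Agent.Lib.Lead.CyclicMax.sq_mod_cases e r he h3 with h4 | h4 | h4 | h4
    · exfalso
      apply hu
      apply hself
      apply comm_of_conj_eq_self
      rw [hur, hmod _ _ h4, pow_one]
    · left; exact h4
    · by_cases he2 : 2 ≤ e
      · exfalso
        exact hnomod u hu he2 (by rw [hur]; exact hmod _ _ h4)
      · left
        have he1 : e = 1 := by omega
        subst he1
        exact h4
    · by_cases he2 : 2 ≤ e
      · right; exact ⟨he2, h4⟩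
      · exfalso
        have he1 : e = 1 := by omega
        subst he1
        apply hu
        apply hself
        apply comm_of_conj_eq_self
        rw [hur, hmod _ _ h4]
        simp
  have key2 : ∀ u : P, u ∉ Subgroup.zpowers x → u * u ∈ Subgroup.zpowers x := by
    intro u hu
    obtain ⟨r, hr⟩ := Cfsg.Agent.Lib.Lead.CyclicMax.exists_nat_pow (hnorm u)
    have hex : ∃ j : ℕ, u ^ (2 ^ j) ∈ Subgroup.zpowers x := by
      obtain ⟨k, hk⟩ := (IsPGroup.iff_orderOf.1 hP) u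
      exact ⟨k, by rw [← hk, pow_orderOf_eq_one]; exact Subgroup.one_mem _⟩
    classical
    obtain ⟨j, hj, hmin⟩ : ∃ j, u ^ (2 ^ j) ∈ Subgroup.zpowers x ∧
        ∀ i < j, u ^ (2 ^ i) ∉ Subgroup.zpowers x :=
      ⟨Nat.find hex, Nat.find_spec hex, fun i hi => Nat.find_min hex hi⟩
    have hj0 : j ≠ 0 := by
      rintro rfl
      apply hu
      simpa using hj
    obtain ⟨j', rfl⟩ : ∃ j', j = j' + 1 := ⟨j - 1, by omega⟩
    have hw : u ^ (2 ^ j') ∉ Subgroup.zpowers x := hmin j' (by omega)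
    have hww : u ^ (2 ^ j') * u ^ (2 ^ j') ∈ Subgroup.zpowers x := by
      rw [← pow_add, ← two_mul, ← pow_succ']; exact hj
    have hwr := conj_pow_pow hr (2 ^ j')
    have h1 := key1 _ hw _ hwr hww
    by_cases hj' : j' = 0
    · subst hj'
      simpa using hww
    · exfalso
      obtain ⟨i, rfl⟩ : ∃ i, j' = i + 1 := ⟨j' - 1, by omega⟩
      have hs : r ^ (2 ^ (i + 1)) = r ^ (2 ^ i) * r ^ (2 ^ i) := by
        rw [← pow_add, ← two_mul, ← pow_succ']
      obtain ⟨f, rfl⟩ : ∃ f, e = f + 1 := ⟨e - 1, by omega⟩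
      have h4 : (4 : ℕ) ∣ 2 ^ (f + 1 + 1) := ⟨2 ^ f, by ring⟩
      have hpos : 0 < 2 ^ f := by positivity
      have hmod4 : (r ^ (2 ^ i) * r ^ (2 ^ i)) % 4 = 3 := by
        rw [← hs]
        rcases h1 with h | ⟨he2, h⟩
        · have h5 : r ^ 2 ^ (i + 1) % 4 = (2 ^ (f + 1 + 1) - 1) % 4 := h.of_dvd h4
          have h6 : (2 ^ (f + 1 + 1) - 1) % 4 = 3 := by
            have : 2 ^ (f + 1 + 1) = 4 * 2 ^ f := by ring
            omega
          rw [h5, h6]
        · have h5 : r ^ 2 ^ (i + 1) % 4 = (2 ^ (f + 1) - 1) % 4 := h.of_dvd h4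
          have h6 : (2 ^ (f + 1) - 1) % 4 = 3 := by
            obtain ⟨f', rfl⟩ : ∃ f', f = f' + 1 := ⟨f - 1, by omega⟩
            have : 2 ^ (f' + 1 + 1) = 4 * 2 ^ f' := by ring
            have : 0 < 2 ^ f' := by positivity
            omega
          rw [h5, h6]
      exact sq_mod_four _ hmod4
  have key3 : ∀ u : P, u ∉ Subgroup.zpowers x → u * g₀ ∈ Subgroup.zpowers x := by
    intro u hu
    obtain ⟨r, hr⟩ := Cfsg.Agent.Lib.Lead.CyclicMax.exists_nat_pow (hnorm u)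
    obtain ⟨r₀, hr₀⟩ := Cfsg.Agent.Lib.Lead.CyclicMax.exists_nat_pow (hnorm g₀)
    have hv : (u * g₀) * x * (u * g₀)⁻¹ = x ^ (r * r₀) := by
      have e1 : (u * g₀) * x * (u * g₀)⁻¹ = u * (g₀ * x * g₀⁻¹) * u⁻¹ := by group
      rw [e1, hr₀, conj_pow_of hr]
    have h1 := key1 u hu r hr (key2 u hu)
    have h2 := key1 g₀ hg₀ r₀ hr₀ (key2 g₀ hg₀)
    have hin : ∀ s : ℕ, r * r₀ ≡ s [MOD 2 ^ (e + 1)] → s ≡ 1 [MOD 2 ^ (e + 1)] →
        u * g₀ ∈ Subgroup.zpowers x := by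
      intro s hs hs1
      apply hself
      apply comm_of_conj_eq_self
      rw [hv, hmod _ _ (hs.trans hs1), pow_one]
    have hout : 2 ≤ e → r * r₀ ≡ 1 + 2 ^ e [MOD 2 ^ (e + 1)] →
        u * g₀ ∈ Subgroup.zpowers x := by
      intro he2 hs
      by_contra hnot
      exact hnomod (u * g₀) hnot he2 (by rw [hv]; exact hmod _ _ hs)
    rcases h1 with h1 | ⟨he2, h1⟩ <;> rcases h2 with h2 | ⟨he2', h2⟩
    · exact hin _ (h1.mul h2) ha1
    · exact hout he2' ((h1.mul h2).trans ha2)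
    · exact hout he2 ((h1.mul h2).trans (by rw [mul_comm]; exact ha2))
    · exact hin _ (h1.mul h2) ha3
  rw [Subgroup.index_eq_two_iff]
  refine ⟨g₀, fun b => ?_⟩
  by_cases hb : b ∈ Subgroup.zpowers x
  · right
    refine ⟨hb, fun h => hg₀ ?_⟩
    have : g₀ = b⁻¹ * (b * g₀) := by group
    rw [this]; exact Subgroup.mul_mem _ (Subgroup.inv_mem _ hb) h
  · left
    exact ⟨key3 b hb, hb⟩

theorem d8_contra {P : Type*} [Group P] [Finite P] (hcard : Nat.card P = 8) (a b : P)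
    (ha : orderOf a = 4) (hbn : b ∉ Subgroup.zpowers a) (hb2 : b ^ 2 = 1)
    (hba : b * a * b⁻¹ = a⁻¹) :
    ∃ E : Subgroup P, E.Normal ∧ IsMulCommutative E ∧ ¬ IsCyclic E := by
  have ha4 : a ^ 4 = 1 := by rw [← ha, pow_orderOf_eq_one]
  have hidx : (Subgroup.zpowers a).index = 2 := by
    have h1 := (Subgroup.zpowers a).card_mul_index
    rw [Nat.card_zpowers, ha, hcard] at h1
    omega
  have hbinv : b⁻¹ = b := by
    apply inv_eq_of_mul_eq_one_right
    rw [← pow_two]; exact hb2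
  have hz2 : (a ^ 2) ^ 2 = 1 := by rw [← pow_mul]; exact ha4
  have hzinv : (a ^ 2)⁻¹ = a ^ 2 := by
    apply inv_eq_of_mul_eq_one_right
    rw [← pow_two]; exact hz2
  have hbz : b * a ^ 2 = a ^ 2 * b := by
    have h1 : b * a ^ 2 * b⁻¹ = a ^ 2 := by
      rw [← conj_pow, hba, inv_pow, hzinv]
    exact comm_of_conj_eq_self h1
  -- every element is a^i or a^i * b
  have hform : ∀ v : P, (∃ i : ℕ, v = a ^ i) ∨ ∃ i : ℕ, v = a ^ i * b := by
    intro v
    by_cases hv : v ∈ Subgroup.zpowers a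
    · left; exact Cfsg.Agent.Lib.Lead.CyclicMax.exists_nat_pow hv
    · right
      have h1 : v * b ∈ Subgroup.zpowers a :=
        (Subgroup.mul_mem_iff_of_index_two hidx).2 ⟨fun h => absurd h hv, fun h => absurd h hbn⟩
      obtain ⟨i, hi⟩ := Cfsg.Agent.Lib.Lead.CyclicMax.exists_nat_pow h1
      refine ⟨i, ?_⟩
      rw [← hi, mul_assoc, ← pow_two, hb2, mul_one]
  have hpowz : ∀ i : ℕ, a ^ i * a ^ 2 = a ^ 2 * a ^ i := by
    intro i; rw [← pow_add, ← pow_add, add_comm]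
  have hconj_a : ∀ i : ℕ, a ^ i * b * (a ^ i)⁻¹ = b ∨ a ^ i * b * (a ^ i)⁻¹ = a ^ 2 * b := by
    intro i
    have h1 : b * (a ^ i)⁻¹ * b⁻¹ = a ^ i := by
      rw [← inv_pow, ← conj_pow]
      have : b * a⁻¹ * b⁻¹ = a := by
        have : b * a⁻¹ * b⁻¹ = (b * a * b⁻¹)⁻¹ := by group
        rw [this, hba, inv_inv]
      rw [this]
    have h2 : a ^ i * b * (a ^ i)⁻¹ = (a ^ 2) ^ i * b := by
      calc a ^ i * b * (a ^ i)⁻¹ = a ^ i * (b * (a ^ i)⁻¹ * b⁻¹) * b := by group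
        _ = (a ^ 2) ^ i * b := by rw [h1, ← pow_add, ← two_mul, pow_mul]
    rw [h2]
    rcases Nat.even_or_odd i with ⟨l, hl⟩ | ⟨l, hl⟩
    · left; rw [hl, ← two_mul, pow_mul, hz2, one_pow, one_mul]
    · right; rw [hl, pow_succ, pow_mul, hz2, one_pow, one_mul]
  apply normal_four_of (a ^ 2) b
  · intro v
    rcases hform v with ⟨i, rfl⟩ | ⟨i, rfl⟩
    · exact hpowz i
    · rw [mul_assoc, hbz, ← mul_assoc, hpowz, mul_assoc]
  · exact hz2
  · apply pow_ne_one_of_lt_orderOf (by norm_num)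
    rw [ha]; norm_num
  · exact hb2
  · intro h; exact hbn (h ▸ Subgroup.one_mem _)
  · intro h; exact hbn (h ▸ Subgroup.pow_mem _ (Subgroup.mem_zpowers a) _)
  · intro v
    rcases hform v with ⟨i, rfl⟩ | ⟨i, rfl⟩
    · exact hconj_a i
    · have : a ^ i * b * b * (a ^ i * b)⁻¹ = a ^ i * b * (a ^ i)⁻¹ := by group
      rw [this]
      exact hconj_a i

theorem main2 {P : Type*} [Group P] [Finite P] (hP : IsPGroup 2 P)
    (hn : ∀ A : Subgroup P, A.Normal → IsMulCommutative A → IsCyclic A)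
    (hnc : ¬ IsCyclic P) :
    (∃ n : ℕ, Nonempty (P ≃* QuaternionGroup n)) ∨
      (∃ n : ℕ, 8 ≤ n ∧ Nonempty (P ≃* DihedralGroup n)) ∨ Cfsg.IsQuasiDihedral P := by
  obtain ⟨M, hMn, hMc, hMself⟩ :=
    Cfsg.Agent.Lib.Helper18.UniqueInvolution.exists_max_normal_abelian 2 hP
  have hMcyc : IsCyclic M := hn M hMn ⟨⟨fun a b => Subtype.ext (hMc a a.2 b b.2)⟩⟩
  obtain ⟨x, hMx⟩ : ∃ x : P, M = Subgroup.zpowers x := by
    obtain ⟨g, hg⟩ := hMcyc.exists_generator
    refine ⟨g, le_antisymm ?_ ?_⟩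
    · intro y hy
      obtain ⟨k, hk⟩ := Subgroup.mem_zpowers_iff.1 (hg ⟨y, hy⟩)
      refine Subgroup.mem_zpowers_iff.2 ⟨k, ?_⟩
      have h1 := congrArg Subtype.val hk
      rwa [Subgroup.coe_zpow] at h1
    · rw [Subgroup.zpowers_le]; exact g.2
  subst hMx
  have hnorm : ∀ v : P, v * x * v⁻¹ ∈ Subgroup.zpowers x :=
    fun v => hMn.conj_mem x (Subgroup.mem_zpowers x) v
  have hself : ∀ v : P, v * x = x * v → v ∈ Subgroup.zpowers x := by
    intro v hv
    apply hMself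
    intro a ha
    obtain ⟨k, rfl⟩ := Subgroup.mem_zpowers_iff.1 ha
    exact (Commute.zpow_right hv k)
  obtain ⟨g₀, hg₀⟩ : ∃ g₀, g₀ ∉ Subgroup.zpowers x := by
    by_contra hcon
    push_neg at hcon
    exact hnc ⟨x, fun g => hcon g⟩
  obtain ⟨m, hm'⟩ := (IsPGroup.iff_orderOf.1 hP) x
  have hm2 : 2 ≤ m := by
    by_contra hlt
    apply hg₀
    apply hself
    have hx2 : x ^ 2 = 1 := by
      apply orderOf_dvd_iff_pow_eq_one.1
      rw [hm']
      have : m = 0 ∨ m = 1 := by omega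
      rcases this with rfl | rfl <;> norm_num
    obtain ⟨k, hk⟩ := Cfsg.Agent.Lib.Lead.CyclicMax.exists_nat_pow (hnorm g₀)
    rcases Nat.even_or_odd k with ⟨l, hl⟩ | ⟨l, hl⟩
    · have h1 : g₀ * x * g₀⁻¹ = 1 := by rw [hk, hl, ← two_mul, pow_mul, hx2, one_pow]
      have h2 : x = 1 := by
        have : x = g₀⁻¹ * (g₀ * x * g₀⁻¹) * g₀ := by group
        rw [this, h1]; group
      rw [h2, mul_one, one_mul]
    · apply comm_of_conj_eq_self
      rw [hk, hl, pow_succ, pow_mul, hx2, one_pow, one_mul]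
  obtain ⟨e, rfl⟩ : ∃ e, m = e + 1 := ⟨m - 1, by omega⟩
  have he : 1 ≤ e := by omega
  have hidx := index_two hP hn x e he hm' hnorm hself g₀ hg₀
  have hcard : Nat.card P = 2 ^ (e + 2) := by
    have h1 := (Subgroup.zpowers x).card_mul_index
    rw [Nat.card_zpowers, hm', hidx] at h1
    rw [← h1]; ring
  have hna : ∃ u v : P, u * v ≠ v * u := ⟨g₀, x, fun h => hg₀ (hself g₀ h)⟩
  obtain ⟨a, b, ha, hbn, hcases⟩ := Cfsg.Agent.S0646.result (e + 2) (by omega) hcard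
    (Subgroup.zpowers x) inferInstance hidx hna
  have ha' : orderOf a = 2 ^ (e + 1) := ha
  have hidxa : (Subgroup.zpowers a).index = 2 := by
    have h1 := (Subgroup.zpowers a).card_mul_index
    rw [Nat.card_zpowers, ha', hcard, pow_succ] at h1
    exact Nat.eq_of_mul_eq_mul_left (by positivity) h1
  rcases hcases with ⟨hb2, hba⟩ | ⟨hb2, hba⟩ | ⟨h4, hb2, hba⟩ | ⟨h4, hb2, hba⟩
  · -- dihedral
    by_cases he2 : 2 ≤ e
    · right; left
      refine ⟨2 ^ (e + 1), ?_, Cfsg.Agent.Lib.Helper18.DihedralEquiv.dihedral_equiv (2 ^ (e + 1))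
        (by positivity) a b ha' hb2 hba hbn (by rw [hcard]; ring)⟩
      calc 8 = 2 ^ 3 := by norm_num
        _ ≤ 2 ^ (e + 1) := Nat.pow_le_pow_right (by norm_num) (by omega)
    · exfalso
      have he1 : e = 1 := by omega
      subst he1
      obtain ⟨E, hEn, hEc, hEnc⟩ := d8_contra hcard a b ha' hbn hb2 hba
      exact hEnc (hn E hEn hEc)
  · -- quaternion
    left
    exact ⟨2 ^ e, Cfsg.Agent.Lib.Helper18.UniqueInvolution.quat_equiv (2 ^ e) (by positivity) a b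
      (by rw [ha']; ring) hb2 hba hbn (by rw [hcard]; ring)⟩
  · -- modular
    exfalso
    have he2 : 2 ≤ e := by omega
    haveI hnorm_a : (Subgroup.zpowers a).Normal := Subgroup.normal_of_index_eq_two hidxa
    obtain ⟨E, hEn, hEc, hEnc⟩ := modular_contra a e he2 ha'
      (fun v => hnorm_a.conj_mem a (Subgroup.mem_zpowers a) v)
      (fun v hv => by
        by_contra hvn
        obtain ⟨u, w, huw⟩ := hna
        apply huw
        exact Cfsg.Agent.Lib.Lead.CyclicMax.comm_of_conj_eq Nat.prime_two a v hidxa hvn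
          (by rw [hv]; group) u w)
      b hbn hba
    exact hEnc (hn E hEn hEc)
  · -- semidihedral
    right; right
    refine ⟨e + 1, by omega, hcard, a, b, ha', ?_, hba⟩
    apply orderOf_eq_prime hb2
    intro h; exact hbn (h ▸ Subgroup.one_mem _)

/-- Let P be a finite p-group in which every abelian normal subgroup is cyclic, but which has a non-cyclic abelian
subgroup. Then p = 2 and P is generalized quaternion, dihedral of order at least 16, or quasi-dihedral. -/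
theorem result {P : Type*} [Group P] [Finite P] (p : ℕ) [Fact p.Prime]
    (hP : IsPGroup p P) (hn : ∀ A : Subgroup P, A.Normal → IsMulCommutative A → IsCyclic A)
    (hm : ∃ B : Subgroup P, IsMulCommutative B ∧ ¬ IsCyclic B) :
    p = 2 ∧ ((∃ n : ℕ, Nonempty (P ≃* QuaternionGroup n)) ∨ (∃ n : ℕ, 8 ≤ n ∧ Nonempty (P ≃* DihedralGroup n)) ∨
      Cfsg.IsQuasiDihedral P) := by
  have hnc : ¬ IsCyclic P := by
    intro hc
    obtain ⟨B, hBc, hBnc⟩ := hm
    exact hBnc inferInstance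
  have hp2 : p = 2 := by
    by_contra hp2
    obtain ⟨A, hAn, hAe, hAcard⟩ := Cfsg.Agent.S0126.result hp2 hP hnc
    have hAc := hn A hAn hAe.1
    obtain ⟨g, hg⟩ := hAc.exists_generator
    have h1 : orderOf g = Nat.card A := orderOf_eq_card_of_forall_mem_zpowers hg
    have h2 : g ^ p = 1 := Subtype.ext (by
      rw [Subgroup.coe_pow]; exact hAe.2 g g.2)
    have hpp := (Fact.out : p.Prime)
    have h3 := orderOf_le_of_pow_eq_one hpp.pos h2
    rw [h1, hAcard] at h3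
    have h4 : p * 2 ≤ p ^ 2 := by
      rw [pow_two]; exact Nat.mul_le_mul_left p hpp.two_le
    have := hpp.pos
    omega
  subst hp2
  exact ⟨rfl, main2 hP hn hnc⟩

end Cfsg.Agent.S0519
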