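import Mathlib
import Cfsg.Statements.S0520
import Cfsg.Agent.S0502
import Cfsg.Agent.Lib.Helper16.Basic

set_option autoImplicit false
open Cfsg

namespace Cfsg.Agent.S0520

universe u

open Cfsg.Agent.Lib.Helper16.Basic

/-- commuting-graph edge on Klein four-subgroups -/
def Edge {X : Type*} [Group X] (A B : Subgroup X) : Prop :=
  IsKleinFour A ∧ IsKleinFour B ∧ ∀ a ∈ A, ∀ b ∈ B, a * b = b * a

/-- connectedness in the commuting graph on Klein four-subgroups -/
def Conn {X : Type*} [Group X] (U V : Subgroup X) : Prop :=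
  Relation.ReflTransGen (Edge (X := X)) U V

theorem kleinFour_of_equiv {X Y : Type*} [Group X] [Group Y] (e : X ≃* Y) (hX : IsKleinFour X) :
    IsKleinFour Y where
  card_four := by
    rw [← Nat.card_congr e.toEquiv]
    exact hX.card_four
  exponent_two := by
    rw [← Monoid.exponent_eq_of_mulEquiv e]
    exact hX.exponent_two

theorem kleinFour_map {X Y : Type*} [Group X] [Group Y] (f : X →* Y) (hf : Function.Injective f)
    {A : Subgroup X} (hA : IsKleinFour A) : IsKleinFour (A.map f) :=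
  kleinFour_of_equiv (A.equivMapOfInjective f hf) hA

theorem kleinFour_isPGroup {X : Type*} [Group X] (hX : IsKleinFour X) : IsPGroup 2 X :=
  IsPGroup.of_card (n := 2) (hX.card_four.trans (by norm_num))

theorem edge_map {X Y : Type*} [Group X] [Group Y] (f : X →* Y) (hf : Function.Injective f)
    {A B : Subgroup X} (h : Edge A B) : Edge (A.map f) (B.map f) := by
  obtain ⟨hA, hB, hc⟩ := h
  refine ⟨kleinFour_map f hf hA, kleinFour_map f hf hB, ?_⟩
  rintro _ ⟨a, ha, rfl⟩ _ ⟨b, hb, rfl⟩
  rw [← map_mul, ← map_mul, hc a ha b hb]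

theorem conn_map {X Y : Type*} [Group X] [Group Y] (f : X →* Y) (hf : Function.Injective f)
    {A B : Subgroup X} (h : Conn A B) : Conn (A.map f) (B.map f) := by
  have h' : Relation.ReflTransGen Edge A B := h
  induction h' with
  | refl => exact Relation.ReflTransGen.refl
  | tail hab hbc ih => exact Relation.ReflTransGen.tail (ih hab) (edge_map f hf hbc)

theorem edge_symm {X : Type*} [Group X] {A B : Subgroup X} (h : Edge A B) : Edge B A := by
  obtain ⟨hA, hB, hc⟩ := h
  exact ⟨hB, hA, fun b hb a ha => (hc a ha b hb).symm⟩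

theorem conn_symm {X : Type*} [Group X] {A B : Subgroup X} (h : Conn A B) : Conn B A := by
  have h' : Relation.ReflTransGen Edge A B := h
  induction h' with
  | refl => exact Relation.ReflTransGen.refl
  | tail hab hbc ih => exact Relation.ReflTransGen.head (edge_symm hbc) (ih hab)

theorem conn_trans {X : Type*} [Group X] {A B C : Subgroup X} (h1 : Conn A B) (h2 : Conn B C) :
    Conn A C := Relation.ReflTransGen.trans h1 h2

theorem conn_of_le {G : Type u} [Group G] (S : Subgroup G) (hS : IsFourConnected S)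
    {U V : Subgroup G} (hU : IsKleinFour U) (hV : IsKleinFour V) (hUS : U ≤ S) (hVS : V ≤ S) :
    Conn U V := by
  have hU' : IsKleinFour (U.subgroupOf S) :=
    kleinFour_of_equiv (Subgroup.subgroupOfEquivOfLe hUS).symm hU
  have hV' : IsKleinFour (V.subgroupOf S) :=
    kleinFour_of_equiv (Subgroup.subgroupOfEquivOfLe hVS).symm hV
  have h1 : Conn (U.subgroupOf S) (V.subgroupOf S) := hS _ _ hU' hV'
  have h2 := conn_map S.subtype S.subtype_injective h1
  rw [Subgroup.map_subgroupOf_eq_of_le hUS, Subgroup.map_subgroupOf_eq_of_le hVS] at h2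
  exact h2

theorem exists_four_of_rank {X : Type u} [Group X] [Finite X] (h : ¬ PRankLE 2 1 X) :
    ∃ U : Subgroup X, IsKleinFour U := by
  by_contra hcon
  apply h
  intro A hAc hA2
  by_contra hcard
  apply hcon
  have h3 : 3 ≤ Nat.card A := by
    rw [pow_one] at hcard
    omega
  obtain ⟨a, haA, ha1, -⟩ := Cfsg.Agent.S0502.exists_ne A h3 1
  obtain ⟨b, hbA, hb1, hba⟩ := Cfsg.Agent.S0502.exists_ne A h3 a
  have hab : a * b = b * a := by
    have h4 := hAc.is_comm.comm (⟨a, haA⟩ : A) ⟨b, hbA⟩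
    exact congrArg Subtype.val h4
  exact ⟨_, Cfsg.Agent.S0502.four_isKleinFour (hA2 a haA) (hA2 b hbA) hab ha1 hb1 (Ne.symm hba)⟩

theorem exists_four_le {G : Type u} [Group G] [Finite G] {Q : Subgroup G} (h : ¬ PRankLE 2 1 Q) :
    ∃ U : Subgroup G, IsKleinFour U ∧ U ≤ Q := by
  obtain ⟨U', hU'⟩ := exists_four_of_rank h
  exact ⟨U'.map Q.subtype, kleinFour_map Q.subtype Q.subtype_injective hU',
    Subgroup.map_subtype_le U'⟩

theorem not_rank_of_four {G : Type u} [Group G] {Q U : Subgroup G} (hU : IsKleinFour U)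
    (hUQ : U ≤ Q) : ¬ PRankLE 2 1 Q := by
  intro h
  have hU' : IsKleinFour (U.subgroupOf Q) :=
    kleinFour_of_equiv (Subgroup.subgroupOfEquivOfLe hUQ).symm hU
  have h1 := h (U.subgroupOf Q) (@IsKleinFour.isMulCommutative _ _ hU') (by
    intro a ha
    have h2 := @IsKleinFour.mul_self _ _ hU' (⟨a, ha⟩ : ↥(U.subgroupOf Q))
    have h3 := congrArg Subtype.val h2
    rw [pow_two]
    exact h3)
  rw [hU'.card_four] at h1
  norm_num at h1

/-- the 2-generated core -/
def core {G : Type u} [Group G] (S : Subgroup G) : Subgroup G :=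
  ⨆ Q : {Q : Subgroup G // Q ≤ S ∧ ¬ PRankLE 2 1 Q}, Subgroup.normalizer ((Q : Subgroup G) : Set G)

theorem le_core {G : Type u} [Group G] {S Q : Subgroup G} (hQS : Q ≤ S) (hQ : ¬ PRankLE 2 1 Q) :
    Subgroup.normalizer (Q : Set G) ≤ core S :=
  le_iSup (fun Q : {Q : Subgroup G // Q ≤ S ∧ ¬ PRankLE 2 1 Q} =>
    Subgroup.normalizer ((Q : Subgroup G) : Set G)) ⟨Q, hQS, hQ⟩

theorem sylow_le_core {G : Type u} [Group G] (S : Subgroup G) {U₀ : Subgroup G}
    (hU₀ : IsKleinFour U₀) (hU₀S : U₀ ≤ S) : S ≤ core S :=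
  le_trans Subgroup.le_normalizer (le_core le_rfl (not_rank_of_four hU₀ hU₀S))

theorem normalizer_le_core {G : Type u} [Group G] [Finite G] (S : Sylow 2 G)
    (hSc : (S : Subgroup G) ≤ core (S : Subgroup G))
    {X U : Subgroup G} (hX : IsPGroup 2 X) (hU : IsKleinFour U) (hUX : U ≤ X)
    (hXc : X ≤ core (S : Subgroup G)) :
    Subgroup.normalizer (X : Set G) ≤ core (S : Subgroup G) := by
  obtain ⟨k, hk, hkS⟩ := exists_conj_le_of_sylow_le S hSc hXc hX
  have h1 : ¬ PRankLE 2 1 ↥(X.map (MulAut.conj k).toMonoidHom) :=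
    not_rank_of_four (kleinFour_map _ (MulAut.conj k).injective hU) (conj_mono k hUX)
  have h2 := le_core hkS h1
  rw [normalizer_conj] at h2
  intro n hn
  have h3 : k * n * k⁻¹ ∈ core (S : Subgroup G) := h2 (conj_mem_conj _ k hn)
  have h4 : n = k⁻¹ * (k * n * k⁻¹) * k := by group
  rw [h4]
  exact (core (S : Subgroup G)).mul_mem
    ((core (S : Subgroup G)).mul_mem ((core (S : Subgroup G)).inv_mem hk) h3) hk

theorem le_core_of_conn {G : Type u} [Group G] [Finite G] (S : Sylow 2 G)
    (hSc : (S : Subgroup G) ≤ core (S : Subgroup G)) {U V : Subgroup G} (h : Conn U V)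
    (hU : U ≤ core (S : Subgroup G)) : V ≤ core (S : Subgroup G) := by
  have h' : Relation.ReflTransGen Edge U V := h
  induction h' with
  | refl => exact hU
  | tail hab hbc ih =>
    obtain ⟨hb, hc, hcomm⟩ := hbc
    refine le_trans ?_ (normalizer_le_core S hSc (kleinFour_isPGroup hb) hb le_rfl (ih hab))
    intro x hx
    apply Subgroup.centralizer_le_normalizer
    rw [Subgroup.mem_centralizer_iff]
    intro n hn
    exact hcomm n hn x hx

theorem core_eq_top_of_conn {G : Type u} [Group G] [Finite G] (S : Sylow 2 G)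
    {U₀ : Subgroup G} (hU₀ : IsKleinFour U₀) (hU₀S : U₀ ≤ S) (hG : IsFourConnected G) :
    core (S : Subgroup G) = ⊤ := by
  have hSc := sylow_le_core (S : Subgroup G) hU₀ hU₀S
  have hall : ∀ V : Subgroup G, IsKleinFour V → V ≤ core (S : Subgroup G) := fun V hV =>
    le_core_of_conn S hSc (hG U₀ V hU₀ hV) (hU₀S.trans hSc)
  rw [eq_top_iff]
  intro g _
  obtain ⟨T, hT⟩ : ∃ T : Subgroup G, T = (S : Subgroup G).map (MulAut.conj g).toMonoidHom :=
    ⟨_, rfl⟩
  have hT2 : IsPGroup 2 T := by
    rw [hT]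
    exact isPGroup_conj S.isPGroup' g
  obtain ⟨W, hW⟩ : ∃ W : Subgroup G,
      W = ⨆ V : {V : Subgroup G // IsKleinFour V ∧ V ≤ T}, (V : Subgroup G) := ⟨_, rfl⟩
  have hWT : W ≤ T := by
    rw [hW]
    exact iSup_le (fun V => V.2.2)
  have hWc : W ≤ core (S : Subgroup G) := by
    rw [hW]
    exact iSup_le (fun V => hall V.1 V.2.1)
  have hUg : IsKleinFour (U₀.map (MulAut.conj g).toMonoidHom) :=
    kleinFour_map _ (MulAut.conj g).injective hU₀
  have hUgT : U₀.map (MulAut.conj g).toMonoidHom ≤ T := by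
    rw [hT]
    exact conj_mono g hU₀S
  have hUgW : U₀.map (MulAut.conj g).toMonoidHom ≤ W := by
    rw [hW]
    exact le_iSup (fun V : {V : Subgroup G // IsKleinFour V ∧ V ≤ T} => (V : Subgroup G))
      ⟨_, hUg, hUgT⟩
  have hTN : T ≤ Subgroup.normalizer (W : Set G) := by
    intro t ht
    rw [← conj_eq_self_iff]
    apply Subgroup.eq_of_le_of_card_ge
    · rw [hW, Subgroup.map_iSup]
      apply iSup_le
      intro V
      have h1 : (V : Subgroup G).map (MulAut.conj t).toMonoidHom ≤ T := by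
        have h0 := conj_mono t V.2.2
        rw [conj_eq_self_of_mem ht] at h0
        exact h0
      exact le_iSup (fun V : {V : Subgroup G // IsKleinFour V ∧ V ≤ T} => (V : Subgroup G))
        ⟨_, kleinFour_map _ (MulAut.conj t).injective V.2.1, h1⟩
    · rw [card_conj]
  have hTc : T ≤ core (S : Subgroup G) :=
    hTN.trans (normalizer_le_core S hSc (hT2.to_le hWT) hUg hUgW hWc)
  obtain ⟨k, hk, hkS⟩ := exists_conj_le_of_sylow_le S hSc hTc hT2
  rw [hT, conj_conj] at hkS
  have h1 : (S : Subgroup G).map (MulAut.conj (k * g)).toMonoidHom = S := by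
    apply Subgroup.eq_of_le_of_card_ge hkS
    rw [card_conj]
  rw [conj_eq_self_iff] at h1
  have h2 : k * g ∈ core (S : Subgroup G) :=
    le_core le_rfl (not_rank_of_four hU₀ hU₀S) h1
  have h3 : g = k⁻¹ * (k * g) := by group
  rw [h3]
  exact (core (S : Subgroup G)).mul_mem ((core (S : Subgroup G)).inv_mem hk) h2

/-- the stabilizer of the connected component of `U₀` -/
def stab {G : Type u} [Group G] (U₀ : Subgroup G) : Subgroup G where
  carrier := {g | Conn U₀ (U₀.map (MulAut.conj g).toMonoidHom)}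
  one_mem' := by
    show Conn U₀ (U₀.map (MulAut.conj (1 : G)).toMonoidHom)
    rw [conj_one]
    exact Relation.ReflTransGen.refl
  mul_mem' := by
    intro a b ha hb
    show Conn U₀ (U₀.map (MulAut.conj (a * b)).toMonoidHom)
    have h1 := conn_map (MulAut.conj a).toMonoidHom (MulAut.conj a).injective hb
    rw [conj_conj] at h1
    exact conn_trans ha h1
  inv_mem' := by
    intro a ha
    show Conn U₀ (U₀.map (MulAut.conj a⁻¹).toMonoidHom)
    have h1 := conn_map (MulAut.conj a⁻¹).toMonoidHom (MulAut.conj a⁻¹).injective ha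
    rw [conj_inv_conj] at h1
    exact conn_symm h1

theorem mem_stab {G : Type u} [Group G] {U₀ : Subgroup G} {g : G} :
    g ∈ stab U₀ ↔ Conn U₀ (U₀.map (MulAut.conj g).toMonoidHom) := Iff.rfl

theorem conn_of_core_eq_top {G : Type u} [Group G] [Finite G] (S : Sylow 2 G)
    (hS : IsFourConnected (S : Subgroup G))
    {U₀ : Subgroup G} (hU₀ : IsKleinFour U₀) (hU₀S : U₀ ≤ S) (hc : core (S : Subgroup G) = ⊤) :
    IsFourConnected G := by
  have hle : core (S : Subgroup G) ≤ stab U₀ := by
    apply iSup_le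
    rintro ⟨Q, hQS, hQ⟩ g hg
    obtain ⟨U, hU, hUQ⟩ := exists_four_le hQ
    have hgQ : Q.map (MulAut.conj g).toMonoidHom = Q := (conj_eq_self_iff Q g).mpr hg
    have hUg : U.map (MulAut.conj g).toMonoidHom ≤ S := by
      have h1 := conj_mono g hUQ
      rw [hgQ] at h1
      exact h1.trans hQS
    have h1 : Conn U₀ (U.map (MulAut.conj g).toMonoidHom) :=
      conn_of_le _ hS hU₀ (kleinFour_map _ (MulAut.conj g).injective hU) hU₀S hUg
    have h2 : Conn U₀ U := conn_of_le _ hS hU₀ hU hU₀S (hUQ.trans hQS)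
    have h3 := conn_map (MulAut.conj g).toMonoidHom (MulAut.conj g).injective h2
    exact mem_stab.mpr (conn_trans h1 (conn_symm h3))
  rw [hc, top_le_iff] at hle
  have key : ∀ V : Subgroup G, IsKleinFour V → Conn U₀ V := by
    intro V hV
    obtain ⟨g, hg⟩ := exists_conj_le_sylow (kleinFour_isPGroup hV) S
    have h1 : Conn U₀ (V.map (MulAut.conj g).toMonoidHom) :=
      conn_of_le _ hS hU₀ (kleinFour_map _ (MulAut.conj g).injective hV) hU₀S hg
    have h2 : g⁻¹ ∈ stab U₀ := by
      rw [hle]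
      exact Subgroup.mem_top _
    have h3 := conn_map (MulAut.conj g⁻¹).toMonoidHom (MulAut.conj g⁻¹).injective h1
    rw [conj_inv_conj] at h3
    exact conn_trans (mem_stab.mp h2) h3
  intro V V' hV hV'
  exact conn_trans (conn_symm (key V hV)) (key V' hV')

/-- Let G be a finite group of 2-rank at least 2 and S a Sylow 2-subgroup whose commuting graph of Klein four-subgroups is
connected. Then the commuting graph of Klein four-subgroups of G is disconnected if and only if the 2-generated core — the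
subgroup generated by the normalizers N_G(Q) of the subgroups Q of S that contain a Klein four-group — is a proper
subgroup of G. -/
theorem result {G : Type*} [Group G] [Finite G] (h2 : ¬ Cfsg.PRankLE 2 1 G)
    (S : Sylow 2 G) (hS : Cfsg.IsFourConnected (S : Subgroup G)) :
    ¬ Cfsg.IsFourConnected G ↔
      (⨆ Q : {Q : Subgroup G // Q ≤ (S : Subgroup G) ∧ ¬ Cfsg.PRankLE 2 1 Q},
          Subgroup.normalizer ((Q : Subgroup G) : Set G)) ≠ ⊤ := by
  classical
  obtain ⟨U, hU⟩ := exists_four_of_rank h2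
  obtain ⟨g, hg⟩ := Cfsg.Agent.Lib.Helper16.Basic.exists_conj_le_sylow (kleinFour_isPGroup hU) S
  have hU₀ : IsKleinFour (U.map (MulAut.conj g).toMonoidHom) :=
    kleinFour_map _ (MulAut.conj g).injective hU
  have hiff : Cfsg.IsFourConnected G ↔ core (S : Subgroup G) = ⊤ :=
    ⟨fun h => core_eq_top_of_conn S hU₀ hg h, fun h => conn_of_core_eq_top S hS hU₀ hg h⟩
  exact not_congr hiff

end Cfsg.Agent.S0520
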