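import Mathlib
import Cfsg.Statements.S0530
import Cfsg.Agent.Lib.Helper4.Supersolvable

set_option autoImplicit false
open Cfsg

namespace Cfsg.Agent.S0530

universe u

open Cfsg.Agent.Lib.Helper4.Supersolvable

theorem zpowers_normal_of_conj_mem {G : Type u} [Group G] (c : G)
    (h : ∀ x : G, x * c * x⁻¹ ∈ Subgroup.zpowers c) : (Subgroup.zpowers c).Normal := by
  constructor
  intro n hn x
  obtain ⟨j, rfl⟩ := Subgroup.mem_zpowers_iff.mp hn
  rw [← conj_zpow]
  exact zpow_mem (h x) j

/-- a group with a normal `p`-subgroup `P` of index 2 (`P ≠ ⊥`) has a normal subgroup of order `p` -/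
theorem exists_normal_orderOf {G : Type u} [Group G] [Finite G] (p : ℕ) [Fact p.Prime]
    (P : Subgroup G) (hidx : P.index = 2) (hPp : IsPGroup p P) [Nontrivial P] :
    ∃ c : G, orderOf c = p ∧ (Subgroup.zpowers c).Normal := by
  have hp : p.Prime := Fact.out
  haveI hPn : P.Normal := Subgroup.normal_of_index_eq_two hidx
  haveI := hPp.center_nontrivial
  have hcd : p ∣ Nat.card (Subgroup.center P) := by
    have hcp : IsPGroup p (Subgroup.center P) := hPp.to_subgroup _
    obtain ⟨k, hk⟩ := IsPGroup.iff_card.mp hcp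
    have h1 : 1 < Nat.card (Subgroup.center P) := Finite.one_lt_card
    rw [hk] at h1 ⊢
    have hk0 : k ≠ 0 := by rintro rfl; simp at h1
    exact dvd_pow_self p hk0
  obtain ⟨z₀, hz₀⟩ := exists_prime_orderOf_dvd_card' p hcd
  set z : G := ((z₀ : P) : G) with hz
  have hzP : z ∈ P := (z₀ : P).2
  have hzo : orderOf z = p := by rw [hz, Subgroup.orderOf_coe, Subgroup.orderOf_coe, hz₀]
  have hzc : ∀ x ∈ P, x * z = z * x := by
    intro x hx
    have := Subgroup.mem_center_iff.mp z₀.2 ⟨x, hx⟩
    exact congrArg Subtype.val this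
  obtain ⟨a, ha⟩ := Subgroup.index_eq_two_iff.mp hidx
  set t := a⁻¹ with ht
  have hout : ∀ x : G, x ∉ P → ∃ y ∈ P, x = y * t := by
    intro x hx
    have h1 := ha x
    have h2 : x * a ∈ P := by
      rcases h1 with ⟨h, _⟩ | ⟨h, _⟩
      · exact h
      · exact absurd h hx
    exact ⟨x * a, h2, by rw [ht]; group⟩
  have htt : t * t ∈ P := Subgroup.mul_self_mem_of_index_two hidx t
  set z' := t * z * t⁻¹ with hz'
  have hz'P : z' ∈ P := hPn.conj_mem z hzP t
  have hz'c : ∀ x ∈ P, x * z' = z' * x := by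
    intro x hx
    have h : t⁻¹ * x * t ∈ P := by
      have := hPn.conj_mem x hx t⁻¹
      simpa using this
    calc x * (t * z * t⁻¹) = t * ((t⁻¹ * x * t) * z) * t⁻¹ := by group
      _ = t * (z * (t⁻¹ * x * t)) * t⁻¹ := by rw [hzc _ h]
      _ = t * z * t⁻¹ * x := by group
  have htz' : t * z' * t⁻¹ = z := by
    calc t * (t * z * t⁻¹) * t⁻¹ = ((t * t) * z) * (t * t)⁻¹ := by group
      _ = (z * (t * t)) * (t * t)⁻¹ := by rw [hzc _ htt]
      _ = z := by group
  have hzz' : z' * z = z * z' := hzc z' hz'P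
  by_cases hw : z * z' = 1
  · -- t inverts z
    refine ⟨z, hzo, zpowers_normal_of_conj_mem z ?_⟩
    have hinv : z' = z⁻¹ := by
      rw [eq_inv_iff_mul_eq_one, hzz']; exact hw
    intro x
    by_cases hx : x ∈ P
    · have : x * z * x⁻¹ = z := by rw [hzc x hx]; group
      rw [this]; exact Subgroup.mem_zpowers z
    · obtain ⟨y, hy, rfl⟩ := hout x hx
      have : y * t * z * (y * t)⁻¹ = z⁻¹ := by
        calc y * t * z * (y * t)⁻¹ = y * (t * z * t⁻¹) * y⁻¹ := by group
          _ = y * z' * y⁻¹ := rfl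
          _ = z' * y * y⁻¹ := by rw [hz'c y hy]
          _ = z⁻¹ := by rw [hinv]; group
      rw [this]; exact inv_mem (Subgroup.mem_zpowers z)
  · -- w = z z' is central
    have hwc : ∀ x ∈ P, x * (z * z') = (z * z') * x := by
      intro x hx
      calc x * (z * z') = (x * z) * z' := by group
        _ = z * (x * z') := by rw [hzc x hx]; group
        _ = z * z' * x := by rw [hz'c x hx]; group
    have hwt : t * (z * z') * t⁻¹ = z * z' := by
      calc t * (z * z') * t⁻¹ = (t * z * t⁻¹) * (t * z' * t⁻¹) := by group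
        _ = z' * z := by rw [htz']
        _ = z * z' := hzz'
    have hcen : ∀ x : G, x * (z * z') * x⁻¹ = z * z' := by
      intro x
      by_cases hx : x ∈ P
      · rw [hwc x hx]; group
      · obtain ⟨y, hy, rfl⟩ := hout x hx
        calc y * t * (z * z') * (y * t)⁻¹ = y * (t * (z * z') * t⁻¹) * y⁻¹ := by group
          _ = y * (z * z') * y⁻¹ := by rw [hwt]
          _ = z * z' := by rw [hwc y hy]; group
    refine ⟨z * z', ?_, zpowers_normal_of_conj_mem _ (fun x => ?_)⟩
    · have h1 : (z * z') ^ p = 1 := by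
        have hc : Commute z z' := hzz'.symm
        rw [hc.mul_pow, ← hzo, pow_orderOf_eq_one, one_mul, hz', conj_pow, pow_orderOf_eq_one]
        group
      have h2 : orderOf (z * z') ∣ p := orderOf_dvd_of_pow_eq_one h1
      rcases (Nat.dvd_prime hp).mp h2 with h3 | h3
      · exact absurd (orderOf_eq_one_iff.mp h3) hw
      · exact h3
    · rw [hcen x]; exact Subgroup.mem_zpowers _

theorem aux (p : ℕ) (hp : p.Prime) (n : ℕ) : ∀ (G : Type u) [Group G] [Finite G],
    Nat.card G = 2 * p ^ n → Cfsg.IsSupersolvable G := by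
  induction n with
  | zero =>
    intro G _ _ hG
    rw [pow_zero, mul_one] at hG
    haveI : Fact (Nat.Prime 2) := ⟨Nat.prime_two⟩
    haveI : IsCyclic G := isCyclic_of_prime_card hG
    exact isSupersolvable_of_isCyclic
  | succ n ih =>
    intro G _ _ hG
    haveI : Fact p.Prime := ⟨hp⟩
    obtain ⟨P, hP⟩ := Sylow.exists_subgroup_card_pow_prime p
      (show p ^ (n+1) ∣ Nat.card G by rw [hG]; exact dvd_mul_left _ _)
    have hidx : P.index = 2 := by
      have := P.index_mul_card
      rw [hP, hG] at this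
      exact Nat.eq_of_mul_eq_mul_right (pow_pos hp.pos _) this
    have hPp : IsPGroup p P := IsPGroup.of_card hP
    haveI : Nontrivial P := by
      rw [← Finite.one_lt_card_iff_nontrivial, hP]
      exact Nat.one_lt_pow (by omega) hp.one_lt
    obtain ⟨c, hco, hcn⟩ := exists_normal_orderOf p P hidx hPp
    haveI := hcn
    have hcard : Nat.card (G ⧸ Subgroup.zpowers c) = 2 * p ^ n := by
      have h1 := (Subgroup.zpowers c).card_eq_card_quotient_mul_card_subgroup
      rw [Nat.card_zpowers, hco, hG, pow_succ, ← mul_assoc] at h1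
      exact (Nat.eq_of_mul_eq_mul_right hp.pos h1).symm
    exact isSupersolvable_of_cyclic_normal (Subgroup.zpowers c) (ih _ hcard)

/-- A finite group whose order is twice a prime power is supersolvable. -/
theorem result {G : Type*} [Group G] [Finite G] (p n : ℕ) (hp : p.Prime) (hG : Nat.card G = 2 * p ^ n) : Cfsg.IsSupersolvable G := by
  exact aux p hp n G hG

end Cfsg.Agent.S0530
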