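import Mathlib
import Cfsg.Statements.S0532

set_option autoImplicit false
open Cfsg

namespace Cfsg.Agent.S0532

universe u v

theorem hasSub_of_equiv {A : Type u} {B : Type v} [Group A] [Group B] (e : A ≃* B)
    (hA : Cfsg.HasSubgroupOfEveryOrder A) : Cfsg.HasSubgroupOfEveryOrder B := by
  intro d hd
  have hd' : d ∣ Nat.card A := by rwa [Nat.card_congr e.toEquiv]
  obtain ⟨K, hK⟩ := hA d hd'
  refine ⟨K.map e.toMonoidHom, ?_⟩
  rw [Subgroup.card_map_of_injective e.injective]
  exact hK

theorem aux (n : ℕ) : ∀ (G : Type u) [Group G] [Finite G], Nat.card G = n →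
    (∀ H : Subgroup G, Cfsg.HasSubgroupOfEveryOrder H) → ∀ (p : ℕ) [Fact p.Prime],
    p ∣ Nat.card G → (∀ q : ℕ, q.Prime → q ∣ Nat.card G → q ≤ p) →
    ∀ P : Sylow p G, (P : Subgroup G).Normal := by
  induction n using Nat.strong_induction_on with
  | _ n ih =>
    intro G _ _ hn h p hp hdvd hmax P
    have hpp : p.Prime := hp.out
    have hcard_pos : 0 < Nat.card G := Nat.card_pos
    have hne1 : Nat.card G ≠ 1 := by
      intro h1
      rw [h1] at hdvd
      exact hpp.one_lt.ne' (Nat.dvd_one.mp hdvd)
    set q := (Nat.card G).minFac with hq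
    have hqp : q.Prime := Nat.minFac_prime hne1
    have hqd : q ∣ Nat.card G := Nat.minFac_dvd _
    have hqle : q ≤ p := hmax q hqp hqd
    rcases hqle.eq_or_lt with hqeq | hqlt
    · -- G is a p-group
      have hpow : Nat.card G = p ^ (Nat.card G).primeFactorsList.length := by
        apply Nat.eq_prime_pow_of_unique_prime_dvd hcard_pos.ne'
        intro d hd hdd
        have h1 : d ≤ p := hmax d hd hdd
        have h2 : q ≤ d := Nat.minFac_le_of_dvd hd.two_le hdd
        omega
      have hG : IsPGroup p G := IsPGroup.of_card hpow
      have htop : (P : Subgroup G) = ⊤ := by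
        have := P.is_maximal' (Q := ⊤) (hG.to_subgroup ⊤) le_top
        exact this.symm
      rw [htop]
      infer_instance
    · -- a subgroup of index q
      have hd : Nat.card G / q ∣ Nat.card (⊤ : Subgroup G) := by
        rw [Subgroup.card_top]
        exact Nat.div_dvd_of_dvd hqd
      obtain ⟨K, hK⟩ := h ⊤ _ hd
      set M : Subgroup G := K.map (⊤ : Subgroup G).subtype with hM
      have hMcard : Nat.card M = Nat.card G / q := by
        rw [hM, Subgroup.card_map_of_injective (Subgroup.subtype_injective _)]
        exact hK
      have hGM : Nat.card G = q * Nat.card M := by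
        rw [hMcard, Nat.mul_div_cancel' hqd]
      have hMpos : 0 < Nat.card M := Nat.card_pos
      have hMidx : M.index = q := by
        have := M.index_mul_card
        rw [hGM] at this
        exact Nat.eq_of_mul_eq_mul_right hMpos this
      have hMn : M.Normal := Subgroup.normal_of_index_eq_minFac_card hMidx
      have hMlt : Nat.card M < n := by
        rw [← hn, hGM]
        have := hqp.one_lt
        nlinarith
      have hpM : p ∣ Nat.card M := by
        rw [hGM] at hdvd
        rcases (Nat.Prime.dvd_mul hpp).mp hdvd with h1 | h1
        · exact absurd ((Nat.prime_dvd_prime_iff_eq hpp hqp).mp h1) hqlt.ne'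
        · exact h1
      have hM_h : ∀ H' : Subgroup M, Cfsg.HasSubgroupOfEveryOrder H' := by
        intro H'
        exact hasSub_of_equiv (H'.equivMapOfInjective M.subtype (Subgroup.subtype_injective _)).symm
          (h (H'.map M.subtype))
      have hM_max : ∀ r : ℕ, r.Prime → r ∣ Nat.card M → r ≤ p := by
        intro r hr hrd
        exact hmax r hr (hGM ▸ Dvd.dvd.mul_left hrd q)
      obtain ⟨Q⟩ : Nonempty (Sylow p M) := inferInstance
      have hQn : (Q : Subgroup M).Normal := ih (Nat.card M) hMlt M rfl hM_h p hpM hM_max Q
      have hQc : (Q : Subgroup M).Characteristic := Sylow.characteristic_of_normal Q hQn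
      have hRn : ((Q : Subgroup M).map M.subtype).Normal := ConjAct.normal_of_characteristic_of_normal
      have hfac : (Nat.card G).factorization p = (Nat.card M).factorization p := by
        rw [hGM, Nat.factorization_mul hqp.ne_zero hMpos.ne']
        simp [Nat.factorization_eq_zero_of_not_dvd (fun hpq : p ∣ q =>
          hqlt.ne' ((Nat.prime_dvd_prime_iff_eq hpp hqp).mp hpq))]
      have hRcard : Nat.card ((Q : Subgroup M).map M.subtype) = p ^ (Nat.card G).factorization p := by
        rw [Subgroup.card_map_of_injective (Subgroup.subtype_injective _), hfac]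
        exact Q.card_eq_multiplicity
      set R : Sylow p G := Sylow.ofCard _ hRcard with hR
      have hRn' : (R : Subgroup G).Normal := by
        rw [hR, Sylow.coe_ofCard]; exact hRn
      have := Sylow.unique_of_normal R hRn'
      have : P = R := Subsingleton.elim _ _
      rw [this]
      exact hRn'

/-- If each subgroup of a finite group satisfies the converse of Lagrange's theorem, then a Sylow subgroup for the largest prime dividing the group order is normal. -/
theorem result {G : Type*} [Group G] [Finite G] (h : ∀ H : Subgroup G, Cfsg.HasSubgroupOfEveryOrder H) (p : ℕ) [Fact p.Prime] (hdvd : p ∣ Nat.card G) (hmax : ∀ q : ℕ, q.Prime → q ∣ Nat.card G → q ≤ p) (P : Sylow p G) : (P : Subgroup G).Normal := by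
  exact aux (Nat.card G) G rfl h p hdvd hmax P

end Cfsg.Agent.S0532
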