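import Mathlib
import Cfsg.Statements.S0533
import Cfsg.Agent.Lib.Helper4.Huppert
import Cfsg.Agent.Lib.Helper16.Basic

set_option autoImplicit false
open Cfsg

namespace Cfsg.Agent.S0533

universe u v

open Cfsg.Agent.Lib.Helper4.Supersolvable

theorem clt_of_equiv {X : Type u} {Y : Type v} [Group X] [Group Y] (e : X ≃* Y)
    (h : HasSubgroupOfEveryOrder X) : HasSubgroupOfEveryOrder Y := by
  intro d hd
  rw [← Nat.card_congr e.toEquiv] at hd
  obtain ⟨H, hH⟩ := h d hd
  refine ⟨H.map e.toMonoidHom, ?_⟩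
  rw [Subgroup.card_map_of_injective e.injective]
  exact hH

theorem clt_hered {G : Type u} [Group G] (h : ∀ H : Subgroup G, HasSubgroupOfEveryOrder H)
    (L : Subgroup G) : ∀ H : Subgroup ↥L, HasSubgroupOfEveryOrder H := fun H =>
  clt_of_equiv (H.equivMapOfInjective L.subtype L.subtype_injective).symm (h (H.map L.subtype))

/-- a normal Sylow subgroup for the largest prime -/
theorem exists_normal_sylow {G : Type u} [Group G] [Finite G]
    (hG : HasSubgroupOfEveryOrder G)
    (hsub : ∀ L : Subgroup G, L ≠ ⊤ → IsSupersolvable ↥L)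
    {p : ℕ} [Fact p.Prime] (hpd : p ∣ Nat.card G)
    (hmax : ∀ q : ℕ, q.Prime → q ∣ Nat.card G → q ≤ p) :
    ∃ P : Subgroup G, P.Normal ∧ IsPGroup p P ∧ ¬ p ∣ P.index := by
  classical
  have hp := (Fact.out : p.Prime)
  have hcard1 : Nat.card G ≠ 1 := by
    intro h1
    rw [h1] at hpd
    exact hp.not_dvd_one hpd
  obtain ⟨r, hr⟩ : ∃ r, r = (Nat.card G).minFac := ⟨_, rfl⟩
  have hrp : r.Prime := by
    rw [hr]
    exact Nat.minFac_prime hcard1
  have hrd : r ∣ Nat.card G := by
    rw [hr]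
    exact Nat.minFac_dvd _
  by_cases hrp' : r = p
  · refine ⟨⊤, inferInstance, ?_, ?_⟩
    · have hpow : Nat.card G = p ^ (Nat.card G).primeFactorsList.length := by
        apply Nat.eq_prime_pow_of_unique_prime_dvd Nat.card_pos.ne'
        intro d hd hdd
        have h1 : r ≤ d := by
          rw [hr]
          exact Nat.minFac_le_of_dvd hd.two_le hdd
        have h2 := hmax d hd hdd
        omega
      have hG' : IsPGroup p G := IsPGroup.of_card hpow
      exact IsPGroup.of_equiv hG' Subgroup.topEquiv.symm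
    · rw [Subgroup.index_top]
      exact hp.not_dvd_one
  · obtain ⟨d, hd⟩ := hrd
    obtain ⟨H₀, hH₀⟩ := hG d (Dvd.intro_left r hd.symm)
    have hdpos : 0 < d := by
      rcases Nat.eq_zero_or_pos d with h0 | h0
      · rw [h0, mul_zero] at hd
        exact absurd hd Nat.card_pos.ne'
      · exact h0
    have hidx : H₀.index = r := by
      have h1 := Subgroup.card_mul_index H₀
      rw [hH₀, hd, mul_comm r d] at h1
      exact Nat.eq_of_mul_eq_mul_left hdpos h1
    have hH₀n : H₀.Normal := Subgroup.normal_of_index_eq_minFac_card (by rw [hidx, hr])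
    have hH₀top : H₀ ≠ ⊤ := by
      intro h1
      rw [h1, Subgroup.index_top] at hidx
      exact hrp.one_lt.ne hidx
    have hss := hsub H₀ hH₀top
    obtain ⟨P₀⟩ := (inferInstance : Nonempty (Sylow p ↥H₀))
    have hmax' : ∀ q : ℕ, q.Prime → q ∣ Nat.card ↥H₀ → q ≤ p := fun q hq hqd =>
      hmax q hq (hqd.trans (Subgroup.card_subgroup_dvd_card H₀))
    have hP₀n : (P₀ : Subgroup ↥H₀).Normal :=
      Cfsg.Agent.Lib.Helper4.SSTower.sylow_normal_of_max_prime hss p hmax' P₀
    haveI := hH₀n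
    have hle : (P₀ : Subgroup ↥H₀).map H₀.subtype ≤ pCore p G :=
      le_trans (Subgroup.map_mono (Cfsg.Agent.Lib.Helper9.le_pCore hP₀n P₀.isPGroup'))
        (Cfsg.Agent.Lib.Helper9.pCore_subtype_le p H₀)
    refine ⟨pCore p G, Cfsg.pCore_normal p G, Cfsg.Agent.Lib.Helper9.pCore_isPGroup p G, ?_⟩
    intro hdvd
    have h1 : (pCore p G).index ∣ ((P₀ : Subgroup ↥H₀).map H₀.subtype).index :=
      Subgroup.index_dvd_of_le hle
    rw [Subgroup.index_map_subtype, hidx] at h1
    have h2 : p ∣ (P₀ : Subgroup ↥H₀).index * r := hdvd.trans h1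
    rcases hp.dvd_mul.mp h2 with h3 | h3
    · exact P₀.not_dvd_index h3
    · exact hrp' ((Nat.prime_dvd_prime_iff_eq hp hrp).mp h3).symm

theorem index_mul_card_inf {G : Type u} [Group G] [Finite G] (M P : Subgroup G) [P.Normal]
    (htop : M ⊔ P = ⊤) : M.index * Nat.card ↥(M ⊓ P) = Nat.card P := by
  have h2 := Cfsg.Agent.Lib.Helper4.Card.card_mul_set M P
  rw [← Subgroup.mul_normal M P] at h2
  have h5 : Nat.card ↥(M ⊔ P) = Nat.card ((↑(M ⊔ P) : Set G)) := rfl
  rw [← h5, htop, Subgroup.card_top] at h2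
  have h3 := M.index_mul_card
  rw [← h3] at h2
  have h4 : Nat.card M * (M.index * Nat.card ↥(M ⊓ P)) = Nat.card M * Nat.card P := by
    rw [← h2]
    ring
  exact Nat.eq_of_mul_eq_mul_left Nat.card_pos h4

theorem le_normalizer_inf {G : Type u} [Group G] {M P : Subgroup G} (hPn : P.Normal) :
    M ≤ Subgroup.normalizer ((M ⊓ P : Subgroup G) : Set G) := by
  intro m hm
  rw [Subgroup.mem_normalizer_iff]
  intro y
  constructor
  · intro hy
    have hy' : y ∈ M ⊓ P := hy
    show m * y * m⁻¹ ∈ M ⊓ P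
    exact ⟨M.mul_mem (M.mul_mem hm hy'.1) (M.inv_mem hm), hPn.conj_mem y hy'.2 m⟩
  · intro hy
    have hy' : m * y * m⁻¹ ∈ M ⊓ P := hy
    have h1 : y = m⁻¹ * (m * y * m⁻¹) * m := by group
    show y ∈ M ⊓ P
    refine ⟨?_, ?_⟩
    · rw [h1]
      exact M.mul_mem (M.mul_mem (M.inv_mem hm) hy'.1) hm
    · have h2 := hPn.conj_mem _ hy'.2 m⁻¹
      rw [inv_inv] at h2
      rw [h1]
      exact h2

theorem inf_normal_of_coatom {G : Type u} [Group G] [Finite G] {p : ℕ} [Fact p.Prime]
    {M P : Subgroup G} (hM : IsCoatom M) (hPn : P.Normal) (hP : IsPGroup p P) (hPM : ¬ P ≤ M) :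
    (M ⊓ P).Normal := by
  have hlt : M ⊓ P < P := by
    refine lt_of_le_of_ne inf_le_right (fun h => hPM ?_)
    rw [← h]
    exact inf_le_left
  obtain ⟨x, hxP, hxn, hxQ⟩ := Cfsg.Agent.Lib.Helper16.Basic.exists_mem_normalizer_not_mem hP hlt
  have hxM : x ∉ M := fun h => hxQ ⟨h, hxP⟩
  have hMle : M ≤ Subgroup.normalizer ((M ⊓ P : Subgroup G) : Set G) := le_normalizer_inf hPn
  have hlt2 : M < Subgroup.normalizer ((M ⊓ P : Subgroup G) : Set G) := by
    refine lt_of_le_of_ne hMle (fun h => hxM ?_)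
    rw [h]
    exact hxn
  exact Subgroup.normalizer_eq_top_iff.mp (hM.2 _ hlt2)

theorem chief_of_coatom {G : Type u} [Group G] {M P R : Subgroup G} (hM : IsCoatom M)
    (hRn : R.Normal) (hQR : M ⊓ P ≤ R) (hRP : R ≤ P) : R = M ⊓ P ∨ R = P := by
  by_cases hRM : R ≤ M
  · left
    exact le_antisymm (le_inf hRM hRP) hQR
  · right
    apply le_antisymm hRP
    have htop : M ⊔ R = ⊤ := Cfsg.Agent.Lib.Helper4.MaxSub.sup_eq_top_of_not_le hM hRM
    intro x hx
    have hxtop : x ∈ ((M ⊔ R : Subgroup G) : Set G) := by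
      rw [htop]
      exact Subgroup.mem_top x
    haveI := hRn
    rw [Subgroup.mul_normal] at hxtop
    obtain ⟨m, hm, r, hr, hmr⟩ := hxtop
    have hmr' : m * r = x := hmr
    have hmP : m ∈ P := by
      have h0 : m = x * r⁻¹ := by
        rw [← hmr']
        group
      rw [h0]
      exact P.mul_mem hx (P.inv_mem (hRP hr))
    have hmR : m ∈ R := hQR ⟨hm, hmP⟩
    rw [← hmr']
    exact R.mul_mem hmR hr

/-- a subgroup `H` of index `p` and the normal subgroup `H ⊓ P` of index `p` in `P` -/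
theorem exists_index_p {G : Type u} [Group G] [Finite G] {p : ℕ} [Fact p.Prime]
    (hG : HasSubgroupOfEveryOrder G) {P : Subgroup G} (hPn : P.Normal) (hP : IsPGroup p P)
    (hnd : ¬ p ∣ P.index) (hpd : p ∣ Nat.card G) :
    ∃ H : Subgroup G, H ≠ ⊤ ∧ H ⊔ P = ⊤ ∧ (H ⊓ P).Normal ∧
      Nat.card P = Nat.card ↥(H ⊓ P) * p := by
  classical
  haveI := hPn
  have hp := (Fact.out : p.Prime)
  obtain ⟨d, hd⟩ := hpd
  obtain ⟨H, hH⟩ := hG d (Dvd.intro_left p hd.symm)
  have hdpos : 0 < d := by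
    rcases Nat.eq_zero_or_pos d with h0 | h0
    · rw [h0, mul_zero] at hd
      exact absurd hd Nat.card_pos.ne'
    · exact h0
  have h1 : Nat.card ↥(H ⊔ P) * Nat.card ↥(H ⊓ P) = d * Nat.card P := by
    have h2 := Cfsg.Agent.Lib.Helper4.Card.card_mul_set H P
    rw [← Subgroup.mul_normal H P] at h2
    have h5 : Nat.card ↥(H ⊔ P) = Nat.card ((↑(H ⊔ P) : Set G)) := rfl
    rw [← h5, hH] at h2
    exact h2
  have h4 : Nat.card P * P.index = p * d := by
    rw [Subgroup.card_mul_index, hd]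
  have hpP : p ∣ Nat.card P := by
    have h5 : p ∣ Nat.card P * P.index := by
      rw [h4]
      exact dvd_mul_right p d
    rcases hp.dvd_mul.mp h5 with h6 | h6
    · exact h6
    · exact absurd h6 hnd
  obtain ⟨c', hc'⟩ := hpP
  have hc'pos : 0 < c' := by
    rcases Nat.eq_zero_or_pos c' with h0 | h0
    · rw [h0, mul_zero] at hc'
      exact absurd hc' Nat.card_pos.ne'
    · exact h0
  have hd' : c' * P.index = d := by
    rw [hc', mul_assoc] at h4
    exact Nat.eq_of_mul_eq_mul_left hp.pos h4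
  obtain ⟨j, hj⟩ := IsPGroup.iff_card.mp (hP.to_le (inf_le_right : H ⊓ P ≤ P))
  have hcop : (Nat.card ↥(H ⊓ P)).Coprime P.index := by
    rw [hj]
    exact Nat.Coprime.pow_left j ((Nat.Prime.coprime_iff_not_dvd hp).mpr hnd)
  have hbd : Nat.card ↥(H ⊓ P) ∣ c' * P.index := by
    rw [hd', ← hH]
    exact Subgroup.card_dvd_of_le inf_le_left
  have hbc' : Nat.card ↥(H ⊓ P) ∣ c' := Nat.Coprime.dvd_of_dvd_mul_right hcop hbd
  have hle1 : Nat.card ↥(H ⊓ P) ≤ c' := Nat.le_of_dvd hc'pos hbc'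
  have ha : Nat.card ↥(H ⊔ P) ≤ Nat.card P * P.index := by
    rw [Subgroup.card_mul_index]
    exact Subgroup.card_le_card_group _
  have hle2 : c' ≤ Nat.card ↥(H ⊓ P) := by
    have h6 : c' * (P.index * Nat.card P) ≤ Nat.card ↥(H ⊓ P) * (P.index * Nat.card P) := by
      calc c' * (P.index * Nat.card P) = d * Nat.card P := by
            rw [← hd']
            ring
        _ = Nat.card ↥(H ⊔ P) * Nat.card ↥(H ⊓ P) := h1.symm
        _ ≤ (Nat.card P * P.index) * Nat.card ↥(H ⊓ P) := Nat.mul_le_mul_right _ ha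
        _ = Nat.card ↥(H ⊓ P) * (P.index * Nat.card P) := by ring
    have hpos : 0 < P.index * Nat.card P :=
      Nat.mul_pos (Nat.pos_of_ne_zero Subgroup.index_ne_zero_of_finite) Nat.card_pos
    exact Nat.le_of_mul_le_mul_right h6 hpos
  have hb : Nat.card ↥(H ⊓ P) = c' := le_antisymm hle1 hle2
  have hcardP : Nat.card P = Nat.card ↥(H ⊓ P) * p := by
    rw [hb, hc', mul_comm]
  have hsup : H ⊔ P = ⊤ := by
    apply Subgroup.eq_top_of_card_eq
    have h7 : Nat.card ↥(H ⊓ P) * Nat.card ↥(H ⊔ P) = Nat.card ↥(H ⊓ P) * Nat.card G := by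
      calc Nat.card ↥(H ⊓ P) * Nat.card ↥(H ⊔ P)
          = Nat.card ↥(H ⊔ P) * Nat.card ↥(H ⊓ P) := mul_comm _ _
        _ = d * Nat.card P := h1
        _ = d * (Nat.card ↥(H ⊓ P) * p) := by rw [← hcardP]
        _ = Nat.card ↥(H ⊓ P) * (p * d) := by ring
        _ = Nat.card ↥(H ⊓ P) * Nat.card G := by rw [hd]
    exact Nat.eq_of_mul_eq_mul_left Nat.card_pos h7
  have hHtop : H ≠ ⊤ := by
    intro h0
    rw [h0, Subgroup.card_top, hd] at hH
    have h8 : 2 * d ≤ p * d := Nat.mul_le_mul_right d hp.two_le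
    linarith
  refine ⟨H, hHtop, hsup, ?_, hcardP⟩
  have hn1 : H ≤ Subgroup.normalizer ((H ⊓ P : Subgroup G) : Set G) := le_normalizer_inf hPn
  have hn2 : P ≤ Subgroup.normalizer ((H ⊓ P : Subgroup G) : Set G) := by
    rw [← Subgroup.normal_subgroupOf_iff_le_normalizer inf_le_right]
    apply Subgroup.normal_of_index_eq_minFac_card
    have h9 := Subgroup.card_mul_index ((H ⊓ P).subgroupOf P)
    have h10 : Nat.card ↥((H ⊓ P).subgroupOf P) = Nat.card ↥(H ⊓ P) :=
      Nat.card_congr (Subgroup.subgroupOfEquivOfLe inf_le_right).toEquiv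
    rw [h10, hcardP] at h9
    have h11 : ((H ⊓ P).subgroupOf P).index = p := Nat.eq_of_mul_eq_mul_left Nat.card_pos h9
    rw [h11]
    obtain ⟨k, hk⟩ := IsPGroup.iff_card.mp hP
    have hk0 : k ≠ 0 := by
      rintro rfl
      rw [pow_zero, hc'] at hk
      have h12 : 2 * c' ≤ p * c' := Nat.mul_le_mul_right c' hp.two_le
      linarith
    rw [hk, hp.pow_minFac hk0]
  have hn3 : H ⊔ P ≤ Subgroup.normalizer ((H ⊓ P : Subgroup G) : Set G) := sup_le hn1 hn2
  rw [hsup, top_le_iff] at hn3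
  exact Subgroup.normalizer_eq_top_iff.mp hn3

/-- auxiliary: if a supersolvable subgroup `H` covers `G` modulo `Q = M ⊓ P`, `M` has
prime index -/
theorem index_prime_of_cover {G : Type u} [Group G] [Finite G]
    {P M Q H : Subgroup G} (hPn : P.Normal) (hQn : Q.Normal) (hQ : Q = M ⊓ P)
    (hM : IsCoatom M) (hPM : ¬ P ≤ M)
    (hstar : M.index * Nat.card ↥Q = Nat.card ↥P)
    (hHss : IsSupersolvable ↥H) (hHQ : H ⊔ Q = ⊤) : M.index.Prime := by
  classical
  haveI := hPn
  haveI := hQn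
  have hQM : Q ≤ M := by
    rw [hQ]
    exact inf_le_left
  have hQP : Q ≤ P := by
    rw [hQ]
    exact inf_le_right
  have hsurj : Function.Surjective ((QuotientGroup.mk' Q).comp H.subtype) := by
    intro y
    obtain ⟨g, rfl⟩ := QuotientGroup.mk'_surjective Q y
    have hg : g ∈ ((H ⊔ Q : Subgroup G) : Set G) := by
      rw [hHQ]
      exact Subgroup.mem_top g
    rw [Subgroup.mul_normal] at hg
    obtain ⟨h, hh, q, hq, hhq⟩ := hg
    have hhq' : h * q = g := hhq
    refine ⟨⟨h, hh⟩, ?_⟩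
    have hq1 : QuotientGroup.mk' Q q = 1 := (QuotientGroup.eq_one_iff q).mpr hq
    show QuotientGroup.mk' Q h = QuotientGroup.mk' Q g
    rw [← hhq', map_mul, hq1, mul_one]
  have hss : IsSupersolvable (G ⧸ Q) := isSupersolvable_of_surjective _ hsurj hHss
  have hPbar_ne : P.map (QuotientGroup.mk' Q) ≠ ⊥ := by
    intro h0
    rw [Subgroup.map_eq_bot_iff, QuotientGroup.ker_mk'] at h0
    exact hPM (le_trans h0 hQM)
  haveI hPbn : (P.map (QuotientGroup.mk' Q)).Normal :=
    hPn.map _ (QuotientGroup.mk'_surjective _)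
  obtain ⟨B, hBP, hBn, hBp, -⟩ :=
    Cfsg.Agent.Lib.Helper4.SSTower.exists_normal_card_prime_le hss
      (P.map (QuotientGroup.mk' Q)) hPbar_ne
  have hN'n : (B.comap (QuotientGroup.mk' Q)).Normal := hBn.comap _
  have hQN' : Q ≤ B.comap (QuotientGroup.mk' Q) := by
    have h2 := Subgroup.ker_le_comap (QuotientGroup.mk' Q) B
    rwa [QuotientGroup.ker_mk'] at h2
  have hN'P : B.comap (QuotientGroup.mk' Q) ≤ P := by
    have h2 : B.comap (QuotientGroup.mk' Q) ≤
        (P.map (QuotientGroup.mk' Q)).comap (QuotientGroup.mk' Q) :=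
      Subgroup.comap_mono hBP
    rw [Subgroup.comap_map_eq, QuotientGroup.ker_mk', sup_eq_left.mpr hQP] at h2
    exact h2
  have hN'card : Nat.card ↥(B.comap (QuotientGroup.mk' Q)) =
      Nat.card ↥Q * Nat.card ↥B := Cfsg.Agent.Lib.Helper9.card_comap_mk' _ _
  have hQN'' : M ⊓ P ≤ B.comap (QuotientGroup.mk' Q) := by
    rw [← hQ]
    exact hQN'
  rcases chief_of_coatom hM hN'n hQN'' hN'P with h2 | h2
  · exfalso
    rw [← hQ] at h2
    rw [h2] at hN'card
    have h3 : Nat.card ↥Q * 1 = Nat.card ↥Q * Nat.card ↥B := by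
      rw [mul_one]
      exact hN'card
    have h4 := Nat.eq_of_mul_eq_mul_left Nat.card_pos h3
    rw [← h4] at hBp
    exact Nat.not_prime_one hBp
  · rw [h2] at hN'card
    rw [hN'card] at hstar
    have h3 : Nat.card ↥Q * M.index = Nat.card ↥Q * Nat.card ↥B := by
      rw [← hstar]
      ring
    rw [Nat.eq_of_mul_eq_mul_left Nat.card_pos h3]
    exact hBp

/-- maximal subgroups not containing `P` have prime index -/
theorem index_prime_of_not_le {G : Type u} [Group G] [Finite G] {p : ℕ} [Fact p.Prime]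
    (hsub : ∀ L : Subgroup G, L ≠ ⊤ → IsSupersolvable ↥L)
    {P H M : Subgroup G} (hPn : P.Normal) (hP : IsPGroup p P)
    (hHtop : H ≠ ⊤) (hHP : H ⊔ P = ⊤) (hP₁n : (H ⊓ P).Normal)
    (hcardP : Nat.card P = Nat.card ↥(H ⊓ P) * p)
    (hM : IsCoatom M) (hPM : ¬ P ≤ M) : M.index.Prime := by
  classical
  have hQn : (M ⊓ P).Normal := inf_normal_of_coatom hM hPn hP hPM
  have htop : M ⊔ P = ⊤ := Cfsg.Agent.Lib.Helper4.MaxSub.sup_eq_top_of_not_le hM hPM
  have hstar : M.index * Nat.card ↥(M ⊓ P) = Nat.card ↥P := by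
    haveI := hPn
    exact index_mul_card_inf M P htop
  obtain ⟨Q, hQ⟩ : ∃ Q : Subgroup G, Q = M ⊓ P := ⟨_, rfl⟩
  obtain ⟨P₁, hP₁⟩ : ∃ P₁ : Subgroup G, P₁ = H ⊓ P := ⟨_, rfl⟩
  rw [← hQ] at hQn hstar
  rw [← hP₁] at hP₁n hcardP
  have hP₁P : P₁ ≤ P := by
    rw [hP₁]
    exact inf_le_right
  have hP₁H : P₁ ≤ H := by
    rw [hP₁]
    exact inf_le_left
  have hQP : Q ≤ P := by
    rw [hQ]
    exact inf_le_right
  have hRn : (P₁ ⊔ Q).Normal := by
    haveI := hP₁n
    haveI := hQn
    exact Subgroup.sup_normal P₁ Q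
  have hQR : M ⊓ P ≤ P₁ ⊔ Q := by
    rw [← hQ]
    exact le_sup_right
  rcases chief_of_coatom hM hRn hQR (sup_le hP₁P hQP) with h1 | h1
  · have hle : P₁ ≤ Q := by
      rw [hQ, ← h1]
      exact le_sup_left
    obtain ⟨c, hc⟩ := Subgroup.card_dvd_of_le hle
    rw [hc, hcardP] at hstar
    have h2 : M.index * c = p := by
      have h3 : Nat.card ↥P₁ * (M.index * c) = Nat.card ↥P₁ * p := by
        rw [← hstar]
        ring
      exact Nat.eq_of_mul_eq_mul_left Nat.card_pos h3
    have h4 : M.index ∣ p := Dvd.intro c h2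
    rcases (Nat.dvd_prime (Fact.out : p.Prime)).mp h4 with h5 | h5
    · exfalso
      exact hM.1 (Subgroup.index_eq_one.mp h5)
    · rw [h5]
      exact Fact.out
  · have hHQ : H ⊔ Q = ⊤ := by
      rw [eq_top_iff, ← hHP]
      apply sup_le le_sup_left
      rw [← h1]
      exact sup_le (le_trans hP₁H le_sup_left) le_sup_right
    exact index_prime_of_cover hPn hQn hQ hM hPM hstar (hsub H hHtop) hHQ

/-- maximal subgroups containing `P` have prime index -/
theorem index_prime_of_le {G : Type u} [Group G] [Finite G]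
    (hsub : ∀ L : Subgroup G, L ≠ ⊤ → IsSupersolvable ↥L)
    {P M : Subgroup G} (hPn : P.Normal) (hPne : P ≠ ⊥) (hPcop : (Nat.card P).Coprime P.index)
    (hM : IsCoatom M) (hPM : P ≤ M) : M.index.Prime := by
  haveI := hPn
  obtain ⟨K, hK⟩ := Subgroup.exists_right_complement'_of_coprime (N := P) hPcop
  have hKtop : K ≠ ⊤ := by
    intro hK'
    have hd := hK.disjoint
    rw [hK', disjoint_top] at hd
    exact hPne hd
  have hsurj : Function.Surjective ((QuotientGroup.mk' P).comp K.subtype) := by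
    intro y
    obtain ⟨g, rfl⟩ := QuotientGroup.mk'_surjective P y
    have hg : g ∈ ((P ⊔ K : Subgroup G) : Set G) := by
      rw [hK.sup_eq_top]
      exact Subgroup.mem_top g
    rw [Subgroup.normal_mul] at hg
    obtain ⟨x, hx, k, hk, hxk⟩ := hg
    have hxk' : x * k = g := hxk
    refine ⟨⟨k, hk⟩, ?_⟩
    have hx1 : QuotientGroup.mk' P x = 1 := (QuotientGroup.eq_one_iff x).mpr hx
    show QuotientGroup.mk' P k = QuotientGroup.mk' P g
    rw [← hxk', map_mul, hx1, one_mul]
  have hss : IsSupersolvable (G ⧸ P) := isSupersolvable_of_surjective _ hsurj (hsub K hKtop)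
  have hker : (QuotientGroup.mk' P).ker ≤ M := by
    rw [QuotientGroup.ker_mk']
    exact hPM
  have hco : IsCoatom (M.map (QuotientGroup.mk' P)) :=
    Cfsg.Agent.Lib.Helper4.SSMore.isCoatom_map_of_ker_le (QuotientGroup.mk' P)
      (QuotientGroup.mk'_surjective P) hM hker
  have hpr := Cfsg.Agent.Lib.Helper4.SSMore.index_prime_of_isCoatom (Nat.card (G ⧸ P)) (G ⧸ P) rfl
    hss _ hco
  have h1 := Subgroup.index_comap_of_surjective (M.map (QuotientGroup.mk' P))
    (QuotientGroup.mk'_surjective P)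
  rw [Subgroup.comap_map_eq_self hker] at h1
  rw [h1]
  exact hpr

theorem clt_ss (n : ℕ) : ∀ (G : Type u) [Group G] [Finite G], Nat.card G = n →
    (∀ H : Subgroup G, HasSubgroupOfEveryOrder H) → IsSupersolvable G := by
  induction n using Nat.strong_induction_on with
  | _ n ih =>
    intro G _ _ hn h
    rcases subsingleton_or_nontrivial G with hs | hnt
    · exact isSupersolvable_of_subsingleton
    · have hsub : ∀ L : Subgroup G, L ≠ ⊤ → IsSupersolvable ↥L := by
        intro L hL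
        have hlt : Nat.card ↥L < n := by
          rw [← hn]
          exact Cfsg.Agent.Lib.Helper9.card_lt_of_lt_top (lt_top_iff_ne_top.mpr hL)
        exact ih _ hlt ↥L rfl (clt_hered h L)
      have hG : HasSubgroupOfEveryOrder G := clt_of_equiv Subgroup.topEquiv (h ⊤)
      apply Cfsg.Agent.Lib.Helper4.Huppert.huppert (Nat.card G) G rfl
      intro M hM
      obtain ⟨p, hp, hpd, hmax⟩ := Cfsg.Agent.Lib.Helper4.SSTower.exists_max_prime (G := G)
      haveI : Fact p.Prime := ⟨hp⟩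
      obtain ⟨P, hPn, hPp, hnd⟩ := exists_normal_sylow hG hsub hpd hmax
      have hPcop : (Nat.card P).Coprime P.index := by
        obtain ⟨k, hk⟩ := IsPGroup.iff_card.mp hPp
        rw [hk]
        exact Nat.Coprime.pow_left k ((Nat.Prime.coprime_iff_not_dvd hp).mpr hnd)
      have hPne : P ≠ ⊥ := by
        intro h0
        apply hnd
        rw [h0, Subgroup.index_bot]
        exact hpd
      by_cases hPM : P ≤ M
      · exact index_prime_of_le hsub hPn hPne hPcop hM hPM
      · obtain ⟨H, hHtop, hHP, hP₁n, hcardP⟩ := exists_index_p hG hPn hPp hnd hpd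
        exact index_prime_of_not_le hsub hPn hPp hHtop hHP hP₁n hcardP hM hPM

/-- If every subgroup of a finite group has subgroups of all orders dividing its order, then the group is supersolvable. -/
theorem result {G : Type*} [Group G] [Finite G] (h : ∀ H : Subgroup G, Cfsg.HasSubgroupOfEveryOrder H) : Cfsg.IsSupersolvable G := by
  exact clt_ss (Nat.card G) G rfl h

end Cfsg.Agent.S0533
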