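import Mathlib
import Cfsg.Statements.S0535
import Cfsg.Agent.S0006

set_option autoImplicit false
open Cfsg

namespace Cfsg.Agent.S0535

universe u

theorem exists_compl {G : Type u} [Group G] [Finite G]
    (h : ∀ H : Subgroup G, H ≠ ⊥ → ∀ p : ℕ, p.Prime → p ∣ Nat.card H →
      ∃ K : Subgroup H, K ≠ ⊤ ∧ ∃ k : ℕ, K.index = p ^ k) (p : ℕ) (hp : p.Prime) (n : ℕ) :
    ∀ H : Subgroup G, Nat.card H = n →
      ∃ L : Subgroup G, L ≤ H ∧ L.relIndex H = p ^ (Nat.card H).factorization p := by
  induction n using Nat.strong_induction_on with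
  | _ n ih =>
    intro H hn
    by_cases hpd : p ∣ Nat.card H
    · have hHne : H ≠ ⊥ := by
        rintro rfl
        rw [Subgroup.card_bot] at hpd
        exact hp.one_lt.ne' (Nat.dvd_one.mp hpd)
      obtain ⟨K, hK, k, hk⟩ := h H hHne p hp hpd
      set K' : Subgroup G := K.map H.subtype with hK'
      have hK'H : K' ≤ H := Subgroup.map_subtype_le K
      have hsub : K'.subgroupOf H = K :=
        Subgroup.comap_map_eq_self_of_injective H.subtype_injective K
      have hrel : K'.relIndex H = p ^ k := by
        rw [Subgroup.relIndex, hsub, hk]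
      have hcK : Nat.card K' = Nat.card K := Subgroup.card_map_of_injective H.subtype_injective
      have hmul : Nat.card K' * p ^ k = Nat.card H := by
        rw [hcK, ← hk, mul_comm]; exact K.index_mul_card
      have hlt : Nat.card K' < n := by
        rw [← hn, ← hmul]
        have hk0 : k ≠ 0 := by
          rintro rfl
          rw [pow_zero] at hk
          exact hK (Subgroup.index_eq_one.mp hk)
        have h1 : 1 < p ^ k := Nat.one_lt_pow hk0 hp.one_lt
        have h2 : 0 < Nat.card K' := Nat.card_pos
        nlinarith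
      obtain ⟨L, hLK, hL⟩ := ih _ hlt K' rfl
      refine ⟨L, hLK.trans hK'H, ?_⟩
      rw [← Subgroup.relIndex_mul_relIndex L K' H hLK hK'H, hL, hrel, ← hmul,
        Nat.factorization_mul Nat.card_pos.ne' (pow_pos hp.pos k).ne', ← pow_add]
      congr 1
      simp [Nat.Prime.factorization_pow hp, hp.factorization_self]
    · refine ⟨H, le_rfl, ?_⟩
      rw [Subgroup.relIndex_self, Nat.factorization_eq_zero_of_not_dvd hpd, pow_zero]

/-- Suppose that for every nontrivial subgroup H of a finite group and every prime p dividing the order of H there is a proper subgroup of H whose index in H is a power of p. Then the group is solvable. -/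
theorem result {G : Type*} [Group G] [Finite G] (h : ∀ H : Subgroup G, H ≠ ⊥ → ∀ p : ℕ, p.Prime → p ∣ Nat.card H → ∃ K : Subgroup H, K ≠ ⊤ ∧ ∃ k : ℕ, K.index = p ^ k) : Group.IsSolvable G := by
  apply Cfsg.Agent.S0006.result
  intro p hp
  obtain ⟨L, -, hL⟩ := exists_compl h p hp _ ⊤ rfl
  refine ⟨L, ?_⟩
  rw [Subgroup.relIndex_top_right, Subgroup.card_top] at hL
  exact hL

end Cfsg.Agent.S0535
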