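import Mathlib
import Cfsg.Statements.S0537
import Cfsg.Agent.S0586
import Cfsg.Agent.Lib.Helper4.Schmidt

set_option autoImplicit false
open Cfsg

open scoped Pointwise commutatorElement

namespace Cfsg.Agent.S0537

universe u

open Cfsg.Agent.Lib.Helper4.Schmidt Cfsg.Agent.Lib.Helper4.Card

/-- commutator with a fixed element is multiplicative on an abelian normal subgroup -/
theorem comm_mul {G : Type u} [Group G] (Q : Subgroup G) [hQ : Q.Normal]
    (hab : ∀ a ∈ Q, ∀ b ∈ Q, a * b = b * a) (x : G) {y z : G} (hy : y ∈ Q) (hz : z ∈ Q) :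
    ⁅x, y * z⁆ = ⁅x, y⁆ * ⁅x, z⁆ := by
  have h1 : ⁅x, z⁆ ∈ Q := by
    rw [commutatorElement_def]
    exact Q.mul_mem (hQ.conj_mem z hz x) (Q.inv_mem hz)
  have h2 := hab _ h1 _ (Q.inv_mem hy)
  calc ⁅x, y * z⁆ = x * y * x⁻¹ * (⁅x, z⁆ * y⁻¹) := by
        simp only [commutatorElement_def]; group
    _ = x * y * x⁻¹ * (y⁻¹ * ⁅x, z⁆) := by rw [h2]
    _ = ⁅x, y⁆ * ⁅x, z⁆ := by simp only [commutatorElement_def]; group

theorem comm_pow {G : Type u} [Group G] (Q : Subgroup G) [hQ : Q.Normal]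
    (hab : ∀ a ∈ Q, ∀ b ∈ Q, a * b = b * a) (x : G) {y : G} (hy : y ∈ Q) (m : ℕ) :
    ⁅x, y ^ m⁆ = ⁅x, y⁆ ^ m := by
  induction m with
  | zero => simp
  | succ m ih => rw [pow_succ, comm_mul Q hab x (Q.pow_mem hy m) hy, ih, pow_succ]

theorem main {G : Type u} [Group G] [Finite G] (hna : ¬ IsMulCommutative G)
    (h : ∀ H : Subgroup G, H ≠ ⊤ → IsMulCommutative H) :
    (∃ p : ℕ, p.Prime ∧ IsPGroup p G) ∨ ∃ p q : ℕ, p.Prime ∧ q.Prime ∧ p ≠ q ∧
      ∃ (P : Sylow p G) (Q : Sylow q G), IsCyclic P ∧ (Q : Subgroup G).Normal ∧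
        Cfsg.IsElementaryAbelian q (Q : Subgroup G) ∧ (P : Subgroup G) ⊔ Q = ⊤ := by
  classical
  have hcomm : ∀ H : Subgroup G, H ≠ ⊤ → ∀ a ∈ H, ∀ b ∈ H, a * b = b * a := by
    intro H hH a ha b hb
    exact congrArg Subtype.val ((h H hH).is_comm.comm (⟨a, ha⟩ : H) ⟨b, hb⟩)
  by_cases hnil : Group.IsNilpotent G
  · left
    by_contra hcon
    apply hna
    have hSyl : ∀ (p : ℕ) [Fact p.Prime] (P : Sylow p G), (P : Subgroup G) ≠ ⊤ := by
      intro p hp P hP
      apply hcon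
      refine ⟨p, hp.out, ?_⟩
      intro g
      obtain ⟨k, hk⟩ := P.isPGroup' ⟨g, by rw [hP]; exact Subgroup.mem_top g⟩
      exact ⟨k, by simpa using congrArg Subtype.val hk⟩
    obtain ⟨e⟩ := ((Group.isNilpotent_of_finite_tfae (G := G)).out 0 4).mp hnil
    constructor; constructor
    intro a b
    obtain ⟨a', rfl⟩ := e.surjective a
    obtain ⟨b', rfl⟩ := e.surjective b
    rw [← map_mul, ← map_mul]
    congr 1
    funext p P
    haveI : Fact (p : ℕ).Prime := ⟨Nat.prime_of_mem_primeFactors p.2⟩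
    exact (h (P : Subgroup G) (hSyl p P)).is_comm.comm (a' p P) (b' p P)
  · right
    have hG : Cfsg.IsMinimalNonNilpotent G :=
      ⟨hnil, fun H hH => Cfsg.Agent.S0586.abelian_nilpotent H (h H hH)⟩
    obtain ⟨p, q, hp, hq, hpq, P, Q, hc, hQn, hPQ, hPnn⟩ := schmidt_structure hG
    haveI : Fact p.Prime := ⟨hp⟩
    haveI : Fact q.Prime := ⟨hq⟩
    haveI := hQn
    refine ⟨p, q, hp, hq, hpq, P, Q, hc, hQn, ?_, hPQ⟩
    have hPQd : (P : Subgroup G) ⊓ Q = ⊥ :=
      disjoint_iff.mp (IsPGroup.disjoint_of_ne p q hpq _ _ P.isPGroup' Q.isPGroup')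
    have hQtop : (Q : Subgroup G) ≠ ⊤ := by
      intro hQ
      apply hPnn
      rw [hQ, inf_top_eq] at hPQd
      rw [hPQd]; infer_instance
    have hQab := hcomm _ hQtop
    refine ⟨h _ hQtop, ?_⟩
    by_contra hexp
    let Q₁ : Subgroup G :=
      { carrier := {y | y ∈ (Q : Subgroup G) ∧ y ^ q = 1}
        mul_mem' := by
          rintro a b ⟨ha, hap⟩ ⟨hb, hbp⟩
          refine ⟨Subgroup.mul_mem _ ha hb, ?_⟩
          have hc' : Commute a b := hQab a ha b hb
          rw [hc'.mul_pow, hap, hbp, one_mul]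
        one_mem' := ⟨Subgroup.one_mem _, one_pow q⟩
        inv_mem' := by
          rintro a ⟨ha, hap⟩
          exact ⟨Subgroup.inv_mem _ ha, by rw [inv_pow, hap, inv_one]⟩ }
    have hQ₁n : Q₁.Normal := by
      constructor
      rintro y ⟨hy, hyq⟩ g
      refine ⟨hQn.conj_mem y hy g, ?_⟩
      rw [conj_pow, hyq]; group
    haveI := hQ₁n
    have hQ₁Q : Q₁ ≤ (Q : Subgroup G) := fun y hy => hy.1
    have hQ₁ne : Q₁ ≠ (Q : Subgroup G) := by
      intro heq
      apply hexp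
      intro y hy
      have hy' : y ∈ Q₁ := by rw [heq]; exact hy
      exact hy'.2
    have hQ₁lt : Nat.card Q₁ < Nat.card (Q : Subgroup G) := by
      by_contra hh
      exact hQ₁ne (Subgroup.eq_of_le_of_card_ge hQ₁Q (not_lt.mp hh))
    obtain ⟨x0, hx0⟩ := hc.exists_generator
    obtain ⟨x, hx⟩ : ∃ x : G, x = (x0 : G) := ⟨_, rfl⟩
    have hxP : x ∈ (P : Subgroup G) := by rw [hx]; exact x0.2
    have hPx : ∀ u ∈ (P : Subgroup G), ∃ k : ℤ, u = x ^ k := by
      intro u hu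
      obtain ⟨k, hk⟩ := Subgroup.mem_zpowers_iff.mp (hx0 ⟨u, hu⟩)
      refine ⟨k, ?_⟩
      have h1 : ((x0 ^ k : (P : Subgroup G)) : G) = u := congrArg Subtype.val hk
      rw [Subgroup.coe_zpow] at h1
      rw [hx]; exact h1.symm
    have hne : (P : Subgroup G) ⊔ Q₁ ≠ ⊤ := by
      intro htop
      have h1 := card_mul_card_le (P : Subgroup G) (Q : Subgroup G)
      rw [hPQd, Subgroup.card_bot, mul_one] at h1
      have h2 : Nat.card ↥((P : Subgroup G) ⊔ Q) ≤ Nat.card G := Subgroup.card_le_card_group _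
      have h3 := card_mul_set (P : Subgroup G) Q₁
      rw [← Subgroup.mul_normal (P : Subgroup G) Q₁] at h3
      have h5 : Nat.card ↥((P : Subgroup G) ⊔ Q₁) =
          Nat.card ((↑((P : Subgroup G) ⊔ Q₁) : Set G)) := rfl
      rw [← h5, htop, Subgroup.card_top] at h3
      have h6 : Nat.card G ≤ Nat.card (P : Subgroup G) * Nat.card Q₁ := by
        rw [← h3]; exact Nat.le_mul_of_pos_right _ Nat.card_pos
      have h7 : Nat.card (P : Subgroup G) * Nat.card Q₁ <
          Nat.card (P : Subgroup G) * Nat.card (Q : Subgroup G) :=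
        Nat.mul_lt_mul_of_pos_left hQ₁lt Nat.card_pos
      exact absurd (lt_of_le_of_lt h6 h7) (not_lt.mpr (h1.trans h2))
    have hxQ₁ : ∀ w ∈ Q₁, x * w = w * x :=
      fun w hw => hcomm _ hne x (Subgroup.mem_sup_left hxP) w (Subgroup.mem_sup_right hw)
    have hexy : ∃ y ∈ (Q : Subgroup G), x * y ≠ y * x := by
      by_contra hcon
      apply hPnn
      rw [← Subgroup.normalizer_eq_top_iff, eq_top_iff, ← hPQ]
      apply sup_le Subgroup.le_normalizer
      apply Cfsg.Agent.S0567.le_normalizer_of_conj_mem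
      intro a ha u hu
      obtain ⟨k, rfl⟩ := hPx u hu
      have hax : x * a = a * x := by
        by_contra hh
        exact hcon ⟨a, ha, hh⟩
      have e : a * x ^ k * a⁻¹ = x ^ k := by
        have hc' : Commute a x := hax.symm
        rw [(hc'.zpow_right k).eq]; group
      rw [e]; exact Subgroup.zpow_mem _ hxP k
    obtain ⟨y, hyQ, hxy⟩ := hexy
    obtain ⟨c, hcdef⟩ : ∃ c : G, c = ⁅x, y⁆ := ⟨_, rfl⟩
    have hcQ : c ∈ (Q : Subgroup G) := by
      rw [hcdef, commutatorElement_def]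
      exact Subgroup.mul_mem _ (hQn.conj_mem y hyQ x) (Subgroup.inv_mem _ hyQ)
    have hc1 : c ≠ 1 := fun h1 => hxy (commutatorElement_eq_one_iff_mul_comm.mp (hcdef ▸ h1))
    obtain ⟨k, hk⟩ := Q.isPGroup' ⟨c, hcQ⟩
    have hk' : c ^ q ^ k = 1 := by simpa using congrArg Subtype.val hk
    obtain ⟨j, hjk, hj⟩ := (Nat.dvd_prime_pow hq).mp (orderOf_dvd_of_pow_eq_one hk')
    have hj0 : j ≠ 0 := by
      rintro rfl
      rw [pow_zero, orderOf_eq_one_iff] at hj
      exact hc1 hj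
    obtain ⟨i, rfl⟩ := Nat.exists_eq_succ_of_ne_zero hj0
    obtain ⟨y', hy'⟩ : ∃ y' : G, y' = y ^ q ^ i := ⟨_, rfl⟩
    have hy'Q : y' ∈ (Q : Subgroup G) := by rw [hy']; exact Subgroup.pow_mem _ hyQ _
    obtain ⟨w, hw⟩ : ∃ w : G, w = ⁅x, y'⁆ := ⟨_, rfl⟩
    have hwc : w = c ^ q ^ i := by
      rw [hw, hy', hcdef]; exact comm_pow (Q : Subgroup G) hQab x hyQ (q ^ i)
    have hwq : w ^ q = 1 := by
      rw [hwc, ← pow_mul, ← pow_succ, ← hj, pow_orderOf_eq_one]
    have hw1 : w ≠ 1 := by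
      intro h1
      rw [hwc] at h1
      have h2 := orderOf_dvd_of_pow_eq_one h1
      rw [hj] at h2
      exact absurd (Nat.le_of_dvd (pow_pos hq.pos i) h2)
        (not_le.mpr (Nat.pow_lt_pow_right hq.one_lt (Nat.lt_succ_self i)))
    have hwQ : w ∈ (Q : Subgroup G) := by rw [hwc]; exact Subgroup.pow_mem _ hcQ _
    have hwQ₁ : w ∈ Q₁ := ⟨hwQ, hwq⟩
    have hxw := hxQ₁ w hwQ₁
    have hconj : x * y' * x⁻¹ = w * y' := by rw [hw, commutatorElement_def]; group
    have hpow : ∀ n : ℕ, x ^ n * y' * (x ^ n)⁻¹ = w ^ n * y' := by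
      intro n
      induction n with
      | zero => simp
      | succ n ih =>
        have e : x ^ (n + 1) * y' * (x ^ (n + 1))⁻¹ = x * (x ^ n * y' * (x ^ n)⁻¹) * x⁻¹ := by
          rw [pow_succ']; group
        rw [e, ih]
        have hc' : Commute x (w ^ n) := (show Commute x w from hxw).pow_right n
        calc x * (w ^ n * y') * x⁻¹ = (x * w ^ n) * y' * x⁻¹ := by group
          _ = w ^ n * (x * y' * x⁻¹) := by rw [hc'.eq]; group
          _ = w ^ (n + 1) * y' := by rw [hconj, pow_succ]; group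
    have h9 := hpow (orderOf x)
    rw [pow_orderOf_eq_one, inv_one, one_mul, mul_one] at h9
    have h10 : w ^ orderOf x = 1 := by
      apply mul_right_cancel (b := y')
      rw [← h9, one_mul]
    have h11 : orderOf w = q := by
      have h2 := orderOf_dvd_of_pow_eq_one hwq
      rcases (Nat.dvd_prime hq).mp h2 with h3 | h3
      · exact absurd (orderOf_eq_one_iff.mp h3) hw1
      · exact h3
    have h12 : q ∣ orderOf x := by rw [← h11]; exact orderOf_dvd_of_pow_eq_one h10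
    have h13 : orderOf x ∣ Nat.card (P : Subgroup G) := Subgroup.orderOf_dvd_natCard _ hxP
    rw [P.card_eq_multiplicity] at h13
    have h14 : q ∣ p := hq.dvd_of_dvd_pow (h12.trans h13)
    exact hpq ((Nat.prime_dvd_prime_iff_eq hq hp).mp h14).symm

/-- A finite non-abelian group in which every proper subgroup is abelian is either of prime-power order, or is generated by a cyclic Sylow p-subgroup and a normal Sylow q-subgroup that is elementary abelian, for distinct primes p and q. -/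
theorem result {G : Type*} [Group G] [Finite G] (hna : ¬ IsMulCommutative G) (h : ∀ H : Subgroup G, H ≠ ⊤ → IsMulCommutative H) : (∃ p : ℕ, p.Prime ∧ IsPGroup p G) ∨ ∃ p q : ℕ, p.Prime ∧ q.Prime ∧ p ≠ q ∧ ∃ (P : Sylow p G) (Q : Sylow q G), IsCyclic P ∧ (Q : Subgroup G).Normal ∧ Cfsg.IsElementaryAbelian q (Q : Subgroup G) ∧ (P : Subgroup G) ⊔ Q = ⊤ := by
  exact main hna h

end Cfsg.Agent.S0537
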