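import Mathlib
import Cfsg.Statements.S0540
import Cfsg.Agent.S0538
import Cfsg.Agent.Lib.Helper4.Conj

set_option autoImplicit false
open Pointwise
open Cfsg

open Cfsg.Agent.Lib.Helper4.Conj

namespace Cfsg.Agent.S0540

universe u

theorem sn_key {H : Type u} [Group H] (K : Subgroup H) (hK : K.IsSubnormal) :
    ∀ T : Subgroup H, T ≤ K → (T.subgroupOf K).Normal →
      T.Normal ∨ ∃ m : H, MulAut.conj m • T ≠ T ∧
        MulAut.conj m • T ≤ Subgroup.normalizer (T : Set H) := by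
  induction hK with
  | top =>
    intro T _ hT
    left
    rw [Subgroup.normal_subgroupOf_iff_le_normalizer le_top] at hT
    exact Subgroup.normalizer_eq_top_iff.mp (top_le_iff.mp hT)
  | step K K' hKK' hK' hN ih =>
    intro T hTK hT
    by_cases hTK' : (T.subgroupOf K').Normal
    · exact ih T (hTK.trans hKK') hTK'
    · right
      rw [Subgroup.normal_subgroupOf_iff_le_normalizer (hTK.trans hKK')] at hTK'
      rw [Subgroup.normal_subgroupOf_iff_le_normalizer hTK] at hT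
      rw [Subgroup.normal_subgroupOf_iff_le_normalizer hKK'] at hN
      obtain ⟨m, hmK', hmT⟩ := SetLike.not_le_iff_exists.mp hTK'
      refine ⟨m, fun h => hmT (mem_normalizer_iff_conj_smul_eq.mpr h), ?_⟩
      have h1 : MulAut.conj m • T ≤ MulAut.conj m • K := by
        intro x hx
        rw [mem_conj_smul] at hx ⊢
        exact hTK hx
      have h2 : MulAut.conj m • K = K := mem_normalizer_iff_conj_smul_eq.mp (hN hmK')
      rw [h2] at h1
      exact h1.trans hT

theorem conj_subgroupOf {G : Type u} [Group G] (V D : Subgroup G) (m : V) :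
    MulAut.conj m • (D.subgroupOf V) = (MulAut.conj (m : G) • D).subgroupOf V := by
  ext x
  rw [mem_conj_smul, Subgroup.mem_subgroupOf, Subgroup.mem_subgroupOf, mem_conj_smul]
  simp

theorem sn_key_sub {G : Type u} [Group G] (V D : Subgroup G) (hDV : D ≤ V)
    (hD : (D.subgroupOf V).IsSubnormal) :
    V ≤ Subgroup.normalizer (D : Set G) ∨ ∃ m ∈ V, MulAut.conj m • D ≠ D ∧
        MulAut.conj m • D ≤ Subgroup.normalizer (D : Set G) := by
  rcases sn_key (D.subgroupOf V) hD (D.subgroupOf V) le_rfl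
    (by rw [Subgroup.subgroupOf_self]; infer_instance) with h | ⟨m, h1, h2⟩
  · left
    rwa [Subgroup.normal_subgroupOf_iff_le_normalizer hDV] at h
  · right
    refine ⟨m, m.2, ?_, ?_⟩
    · intro h
      apply h1
      rw [conj_subgroupOf, h]
    · intro y hy
      have hyV : y ∈ V := conj_smul_le_of_mem m.2 hDV hy
      have h3 : (⟨y, hyV⟩ : V) ∈ MulAut.conj m • (D.subgroupOf V) := by
        rw [conj_subgroupOf, Subgroup.mem_subgroupOf]
        exact hy
      have h4 := h2 h3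
      rw [Subgroup.mem_normalizer_iff] at h4 ⊢
      intro d
      constructor
      · intro hd
        have := (h4 ⟨d, hDV hd⟩).mp (by rw [Subgroup.mem_subgroupOf]; exact hd)
        rw [Subgroup.mem_subgroupOf] at this
        exact this
      · intro hd
        have hdV : d ∈ V := by
          have h5 : y * d * y⁻¹ ∈ V := hDV hd
          have h6 : d = y⁻¹ * (y * d * y⁻¹) * y := by group
          rw [h6]
          exact V.mul_mem (V.mul_mem (V.inv_mem hyV) h5) hyV
        have := (h4 ⟨d, hdV⟩).mpr (by rw [Subgroup.mem_subgroupOf]; exact hd)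
        rw [Subgroup.mem_subgroupOf] at this
        exact this

theorem sSup_sn {G : Type u} [Group G] [Finite G] (V : Subgroup G) (T : Set (Subgroup G))
    (hT : ∀ B ∈ T, B ≤ V ∧ (B.subgroupOf V).IsSubnormal) :
    ((sSup T : Subgroup G).subgroupOf V).IsSubnormal := by
  have hfin : T.Finite := T.toFinite
  induction T, hfin using Set.Finite.induction_on with
  | empty =>
    rw [sSup_empty, Subgroup.bot_subgroupOf]
    exact Subgroup.IsSubnormal.bot
  | @insert a s ha hs ih =>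
    rw [sSup_insert]
    have h1 := hT a (Set.mem_insert a s)
    have h2 : sSup s ≤ V := sSup_le fun B hB => (hT B (Set.mem_insert_of_mem a hB)).1
    rw [Subgroup.subgroupOf_sup h1.1 h2]
    exact Cfsg.Agent.S0538.result _ _ h1.2 (ih fun B hB => hT B (Set.mem_insert_of_mem a hB))

theorem one_side {G : Type u} [Group G] [Finite G] (A : Subgroup G) (U : Set (Subgroup G))
    (S : Subgroup G → Set (Subgroup G))
    (hS : ∀ V B : Subgroup G, B ∈ S V ↔ (∃ g : G, B = MulAut.conj g • A) ∧ B ≤ V ∧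
      (B.subgroupOf V).IsSubnormal)
    (h2 : ∀ V ∈ U, ∀ W ∈ U, ∀ B ∈ S W, B ≤ V → B ∈ S V)
    (M1 M2 M : Subgroup G) (hM1 : M1 ∈ U) (hM1max : ∀ V ∈ U, M1 ≤ V → V = M1) (hM : M ∈ U)
    (hN : Subgroup.normalizer ((sSup (S M1 ∩ S M2) : Subgroup G) : Set G) ≤ M)
    (hmax : M1 ≠ M → (S M1 ∩ S M).ncard ≤ (S M1 ∩ S M2).ncard) : M1 = M := by
  by_contra hne
  have hle := hmax hne
  obtain ⟨D, hD⟩ : ∃ D : Subgroup G, D = sSup (S M1 ∩ S M2) := ⟨_, rfl⟩
  rw [← hD] at hN
  have hsub : S M1 ∩ S M2 ⊆ S M1 ∩ S M := by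
    intro B hB
    refine ⟨hB.1, h2 M hM M1 hM1 B hB.1 ?_⟩
    have : B ≤ D := by rw [hD]; exact le_sSup hB
    exact this.trans (Subgroup.le_normalizer.trans hN)
  have heq : S M1 ∩ S M2 = S M1 ∩ S M :=
    Set.eq_of_subset_of_ncard_le hsub hle (Set.toFinite _)
  have hDM1 : D ≤ M1 := by
    rw [hD]
    exact sSup_le fun B hB => ((hS M1 B).mp hB.1).2.1
  have hDsn : (D.subgroupOf M1).IsSubnormal := by
    rw [hD]
    exact sSup_sn M1 _ fun B hB => ((hS M1 B).mp hB.1).2
  rcases sn_key_sub M1 D hDM1 hDsn with h | ⟨m, hm, hne', hmN⟩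
  · exact hne (hM1max M hM (h.trans hN)).symm
  · apply hne'
    apply conj_smul_eq_of_le
    rw [conj_smul_eq_map, Subgroup.map_le_iff_le_comap]
    conv_lhs => rw [hD]
    apply sSup_le
    intro B hB
    rw [← Subgroup.map_le_iff_le_comap, ← conj_smul_eq_map]
    have hB1 := (hS M1 B).mp hB.1
    have hB' : MulAut.conj m • B ∈ S M1 := by
      rw [hS]
      refine ⟨?_, conj_smul_le_of_mem hm hB1.2.1, ?_⟩
      · obtain ⟨g, hg⟩ := hB1.1
        exact ⟨m * g, by rw [hg, conj_smul_smul]⟩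
      · have := hB1.2.2.smul (MulAut.conj (⟨m, hm⟩ : M1))
        rwa [conj_subgroupOf] at this
    have hBD : B ≤ D := by rw [hD]; exact le_sSup hB
    have hB'D : MulAut.conj m • B ≤ MulAut.conj m • D := by
      intro x hx
      rw [mem_conj_smul] at hx ⊢
      exact hBD hx
    have hB'M : MulAut.conj m • B ∈ S M :=
      h2 M hM M1 hM1 _ hB' (hB'D.trans (hmN.trans hN))
    have : MulAut.conj m • B ∈ S M1 ∩ S M2 := by
      rw [heq]; exact ⟨hB', hB'M⟩
    rw [hD]
    exact le_sSup this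

/-- A uniqueness lemma of zipper type. Let A be a subgroup of a finite group G and U a nonempty family of subgroups. For V in U write S(V) for the set of conjugates of A that lie in V and are subnormal in V. Assume: A belongs to S(V) for every V in U; a member of some S(W) that lies in V belongs to S(V); and for all V, W in U the normalizer of the join of S(V) ∩ S(W) lies in some member of U. Then U has a greatest element. -/
theorem result {G : Type*} [Group G] [Finite G] (A : Subgroup G) (U : Set (Subgroup G)) (hU : U.Nonempty) (S : Subgroup G → Set (Subgroup G)) (hS : ∀ V B : Subgroup G, B ∈ S V ↔ (∃ g : G, B = MulAut.conj g • A) ∧ B ≤ V ∧ (B.subgroupOf V).IsSubnormal) (h1 : ∀ V ∈ U, A ∈ S V) (h2 : ∀ V ∈ U, ∀ W ∈ U, ∀ B ∈ S W, B ≤ V → B ∈ S V) (h3 : ∀ V ∈ U, ∀ W ∈ U, ∃ X ∈ U, Subgroup.normalizer ((sSup (S V ∩ S W) : Subgroup G) : Set G) ≤ X) : ∃ M ∈ U, ∀ V ∈ U, V ≤ M := by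
  classical
  by_contra hcon
  push Not at hcon
  -- maximal elements
  have hmaxex : ∀ V ∈ U, ∃ M ∈ U, V ≤ M ∧ ∀ W ∈ U, M ≤ W → W = M := by
    intro V hV
    obtain ⟨M, hVM, hMmax⟩ := Set.Finite.exists_le_maximal (s := U) (Set.toFinite _) hV
    exact ⟨M, hMmax.1, hVM, fun W hW hMW => le_antisymm (hMmax.2 hW hMW) hMW⟩
  obtain ⟨V0, hV0⟩ := hU
  obtain ⟨M0, hM0U, -, hM0max⟩ := hmaxex V0 hV0
  obtain ⟨V1, hV1U, hV1⟩ := hcon M0 hM0U
  obtain ⟨M0', hM0'U, hV1M0', hM0'max⟩ := hmaxex V1 hV1U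
  have hne0 : M0 ≠ M0' := by
    rintro rfl
    exact hV1 hV1M0'
  obtain ⟨⟨M1, M2⟩, ⟨⟨hM1U, hM1max⟩, ⟨hM2U, hM2max⟩, hne⟩, hbest⟩ :=
    Set.exists_max_image
      {p : Subgroup G × Subgroup G | (p.1 ∈ U ∧ ∀ W ∈ U, p.1 ≤ W → W = p.1) ∧
        (p.2 ∈ U ∧ ∀ W ∈ U, p.2 ≤ W → W = p.2) ∧ p.1 ≠ p.2}
      (fun p => (S p.1 ∩ S p.2).ncard) (Set.toFinite _)
      ⟨(M0, M0'), ⟨hM0U, hM0max⟩, ⟨hM0'U, hM0'max⟩, hne0⟩
  simp only at hM1U hM1max hM2U hM2max hne hbest
  obtain ⟨X, hXU, hX⟩ := h3 M1 hM1U M2 hM2U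
  obtain ⟨M, hMU, hXM, hMmax⟩ := hmaxex X hXU
  have e1 : M1 = M := by
    refine one_side A U S hS h2 M1 M2 M hM1U hM1max hMU (hX.trans hXM) ?_
    intro hne1
    exact hbest (M1, M) ⟨⟨hM1U, hM1max⟩, ⟨hMU, hMmax⟩, hne1⟩
  have e2 : M2 = M := by
    refine one_side A U S hS h2 M2 M1 M hM2U hM2max hMU ?_ ?_
    · rw [Set.inter_comm]; exact hX.trans hXM
    · intro hne1
      have := hbest (M, M2) ⟨⟨hMU, hMmax⟩, ⟨hM2U, hM2max⟩, fun h => hne1 h.symm⟩
      simp only at this
      rw [Set.inter_comm (S M2) (S M), Set.inter_comm (S M2) (S M1)]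
      exact this
  exact hne (e1.trans e2.symm)

end Cfsg.Agent.S0540
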