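import Mathlib
import Cfsg.Statements.S0541
import Cfsg.Agent.Lib.Helper4.Conj
import Cfsg.Agent.Lib.Helper16.Basic

set_option autoImplicit false
open Pointwise
open Cfsg

open scoped Pointwise

namespace Cfsg.Agent.S0541

universe u

open Cfsg.Agent.Lib.Helper4.Conj

/-- the subgroup generated by the conjugates of `Z` inside `X` -/
def wc {G : Type u} [Group G] (Z X : Subgroup G) : Subgroup G :=
  ⨆ g ∈ {g : G | MulAut.conj g • Z ≤ X}, MulAut.conj g • Z

theorem wc_le {G : Type u} [Group G] (Z X : Subgroup G) : wc Z X ≤ X :=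
  iSup₂_le fun _ hg => hg

theorem le_wc {G : Type u} [Group G] {Z X : Subgroup G} {g : G} (hg : MulAut.conj g • Z ≤ X) :
    MulAut.conj g • Z ≤ wc Z X :=
  le_iSup₂ (f := fun g (_ : g ∈ {g : G | MulAut.conj g • Z ≤ X}) => MulAut.conj g • Z) g hg

theorem wc_mono {G : Type u} [Group G] (Z : Subgroup G) {X X' : Subgroup G} (h : X ≤ X') :
    wc Z X ≤ wc Z X' :=
  iSup₂_le fun _ hg => le_wc (le_trans hg h)

theorem conj_smul_mono {G : Type u} [Group G] (a : G) {A B : Subgroup G} (h : A ≤ B) :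
    MulAut.conj a • A ≤ MulAut.conj a • B := by
  intro x hx
  rw [mem_conj_smul] at hx ⊢
  exact h hx

theorem conj_iSup_le {G : Type u} [Group G] (Z Y : Subgroup G) (g a : G) (ha : a ∈ Y) :
    MulAut.conj a • (⨆ y ∈ Y, MulAut.conj (y * g) • Z) ≤ ⨆ y ∈ Y, MulAut.conj (y * g) • Z := by
  rw [conj_smul_eq_map]
  simp only [Subgroup.map_iSup]
  refine iSup₂_le fun y hy => ?_
  have e : (MulAut.conj (y * g) • Z).map (MulAut.conj a).toMonoidHom =
      MulAut.conj (a * y * g) • Z := by
    rw [← conj_smul_eq_map, conj_smul_smul, mul_assoc]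
  rw [e]
  exact le_iSup₂ (f := fun y (_ : y ∈ Y) => MulAut.conj (y * g) • Z) (a * y) (Y.mul_mem ha hy)

theorem mem_normalizer_of_conj_le {G : Type u} [Group G] [Finite G] {a : G} {T : Subgroup G}
    (h : MulAut.conj a • T ≤ T) : a ∈ Subgroup.normalizer (T : Set G) :=
  mem_normalizer_iff_conj_smul_eq.mpr (conj_smul_eq_of_le h)

theorem main {G : Type u} [Group G] [Finite G] (p : ℕ) [Fact p.Prime] (Z Y : Subgroup G)
    (h : ∀ g : G, IsPGroup p ↥(⨆ y ∈ Y, MulAut.conj (y * g) • Z)) :
    ∃ P : Sylow p G, Y ≤ Subgroup.normalizer ((wc Z (P : Subgroup G) : Subgroup G) : Set G) := by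
  classical
  set F : Subgroup G → Prop := fun T =>
    IsPGroup p T ∧ Y ≤ Subgroup.normalizer (T : Set G) ∧ T ≤ wc Z T with hF
  -- the family is nonempty
  have hF1 : F (⨆ y ∈ Y, MulAut.conj (y * 1) • Z) := by
    refine ⟨h 1, ?_, ?_⟩
    · intro a ha
      exact mem_normalizer_of_conj_le (conj_iSup_le Z Y 1 a ha)
    · refine iSup₂_le fun y hy => ?_
      exact le_wc (le_iSup₂ (f := fun y (_ : y ∈ Y) => MulAut.conj (y * 1) • Z) y hy)
  obtain ⟨T, -, hT⟩ := exists_maximal_ge_of_wellFoundedGT F _ hF1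
  obtain ⟨⟨hTp, hTY, hTw⟩, hTmax⟩ := hT
  -- (*) conjugates of Z normalizing T lie in T
  have hstar : ∀ g : G, MulAut.conj g • Z ≤ Subgroup.normalizer (T : Set G) →
      MulAut.conj g • Z ≤ T := by
    intro g hg
    set U := ⨆ y ∈ Y, MulAut.conj (y * g) • Z with hU
    have hUp : IsPGroup p U := h g
    have hUN : U ≤ Subgroup.normalizer (T : Set G) := by
      refine iSup₂_le fun y hy => ?_
      intro x hx
      rw [mem_conj_smul] at hx
      have hw : y⁻¹ * x * y ∈ MulAut.conj g • Z := by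
        rw [mem_conj_smul]
        have e : g⁻¹ * (y⁻¹ * x * y) * g = (y * g)⁻¹ * x * (y * g) := by group
        rw [e]; exact hx
      have hw' := hg hw
      have hyN := hTY hy
      have e : x = y * (y⁻¹ * x * y) * y⁻¹ := by group
      rw [e]
      exact Subgroup.mul_mem _ (Subgroup.mul_mem _ hyN hw') (Subgroup.inv_mem _ hyN)
    have hT'p : IsPGroup p ↥(T ⊔ U) := hTp.to_sup_of_normal_left' hUp hUN
    have hT'Y : Y ≤ Subgroup.normalizer ((T ⊔ U : Subgroup G) : Set G) := by
      intro a ha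
      apply mem_normalizer_of_conj_le
      rw [conj_smul_eq_map, Subgroup.map_sup]
      apply sup_le_sup
      · rw [← conj_smul_eq_map]
        exact (mem_normalizer_iff_conj_smul_eq.mp (hTY ha)).le
      · rw [← conj_smul_eq_map]
        exact conj_iSup_le Z Y g a ha
    have hT'w : T ⊔ U ≤ wc Z (T ⊔ U) := by
      apply sup_le
      · exact hTw.trans (wc_mono Z le_sup_left)
      · refine iSup₂_le fun y hy => ?_
        apply le_wc
        exact (le_iSup₂ (f := fun y (_ : y ∈ Y) => MulAut.conj (y * g) • Z) y hy).trans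
          le_sup_right
    have hle : T ⊔ U ≤ T := hTmax ⟨hT'p, hT'Y, hT'w⟩ le_sup_left
    have h1 : MulAut.conj g • Z ≤ U := by
      have h2 : MulAut.conj (1 * g) • Z ≤ U :=
        le_iSup₂ (f := fun y (_ : y ∈ Y) => MulAut.conj (y * g) • Z) 1 Y.one_mem
      rwa [one_mul] at h2
    exact h1.trans (le_sup_right.trans hle)
  obtain ⟨P, hTP⟩ := hTp.exists_le_sylow
  refine ⟨P, ?_⟩
  set W := wc Z (P : Subgroup G) with hW
  have hTW : T ≤ W := hTw.trans (wc_mono Z hTP)
  have hWP : W ≤ P := wc_le Z _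
  have hWp : IsPGroup p W := P.isPGroup'.to_le hWP
  set T₁ := W ⊓ Subgroup.normalizer (T : Set G) with hT₁
  have hTT₁ : T ≤ T₁ := le_inf hTW Subgroup.le_normalizer
  have hclaim : ∀ w ∈ W, w ∈ Subgroup.normalizer (T₁ : Set G) → w ∈ T₁ := by
    intro w hw hwN
    refine Subgroup.mem_inf.mpr ⟨hw, ?_⟩
    apply mem_normalizer_of_conj_le
    have h1 : MulAut.conj w • T ≤ MulAut.conj w • wc Z T := conj_smul_mono w hTw
    refine h1.trans ?_
    rw [conj_smul_eq_map]
    unfold wc
    simp only [Subgroup.map_iSup]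
    refine iSup₂_le fun g hg => ?_
    have e : (MulAut.conj g • Z).map (MulAut.conj w).toMonoidHom = MulAut.conj (w * g) • Z := by
      rw [← conj_smul_eq_map, conj_smul_smul]
    rw [e]
    apply hstar
    have h2 : MulAut.conj (w * g) • Z ≤ MulAut.conj w • T₁ := by
      rw [← conj_smul_smul]
      exact conj_smul_mono w (le_trans hg hTT₁)
    rw [mem_normalizer_iff_conj_smul_eq.mp hwN] at h2
    exact h2.trans inf_le_right
  have hT₁W : T₁ = W := by
    by_contra hne
    have hlt : T₁ < W := lt_of_le_of_ne inf_le_left hne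
    obtain ⟨x, hxW, hxN, hxT⟩ :=
      Cfsg.Agent.Lib.Helper16.Basic.exists_mem_normalizer_not_mem hWp hlt
    exact hxT (hclaim x hxW hxN)
  have hWN : W ≤ Subgroup.normalizer (T : Set G) := by
    rw [← hT₁W]; exact inf_le_right
  have hWT : W ≤ T := by
    refine iSup₂_le fun g hg => ?_
    apply hstar
    exact (le_wc hg).trans hWN
  have hWeq : W = T := le_antisymm hWT hTW
  rw [hWeq]
  exact hTY

/-- Let Z and Y be subgroups of a finite group G and p a prime. Suppose that for every g in G the subgroup generated by the conjugates of g Z g⁻¹ under Y is a p-group. Then there is a Sylow p-subgroup P of G such that Y normalizes the subgroup generated by all conjugates of Z contained in P. -/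
theorem result {G : Type*} [Group G] [Finite G] (p : ℕ) [Fact p.Prime] (Z Y : Subgroup G) (h : ∀ g : G, IsPGroup p ↥(⨆ y ∈ Y, MulAut.conj (y * g) • Z)) : ∃ P : Sylow p G, Y ≤ Subgroup.normalizer ((⨆ g ∈ {g : G | MulAut.conj g • Z ≤ (P : Subgroup G)}, MulAut.conj g • Z : Subgroup G) : Set G) := by
  exact main p Z Y h

end Cfsg.Agent.S0541
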