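import Mathlib
import Cfsg.Statements.S0546
import Cfsg.Agent.S0545

set_option autoImplicit false
open Cfsg

open scoped Pointwise commutatorElement

namespace Cfsg.Agent.S0546

universe u

theorem main {G : Type u} [Group G] [Finite G] [Group.IsSolvable G] (K : Nat.Primes → Subgroup G)
    (hK : Cfsg.IsComplementSystem K) :
    Subgroup.normalClosure ((Cfsg.systemNormalizer K : Subgroup G) : Set G) = ⊤ := by
  obtain ⟨D, hD⟩ : ∃ D, D = Cfsg.systemNormalizer K := ⟨_, rfl⟩
  obtain ⟨M, hM⟩ : ∃ M, M = Subgroup.normalClosure (D : Set G) := ⟨_, rfl⟩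
  rw [← hD, ← hM]
  by_contra hne
  haveI hMn : M.Normal := by rw [hM]; exact Subgroup.normalClosure_normal
  haveI : Nontrivial (G ⧸ M) := by
    rw [← Finite.one_lt_card_iff_nontrivial]
    have h1 : M.index ≠ 1 := fun h => hne (Subgroup.index_eq_one.mp h)
    have hpos : 0 < M.index := Nat.pos_of_ne_zero Subgroup.index_ne_zero_of_finite
    show 1 < M.index
    omega
  have hlt : commutator (G ⧸ M) < ⊤ := Group.IsSolvable.commutator_lt_top_of_nontrivial (G ⧸ M)
  obtain ⟨R, hR⟩ : ∃ R, R = (commutator (G ⧸ M)).comap (QuotientGroup.mk' M) := ⟨_, rfl⟩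
  haveI hRn : R.Normal := by rw [hR]; exact Subgroup.Normal.comap inferInstance _
  have hMR : M ≤ R := by
    intro x hx
    rw [hR, Subgroup.mem_comap]
    have h1 : (QuotientGroup.mk' M) x = 1 := (QuotientGroup.eq_one_iff x).mpr hx
    rw [h1]; exact Subgroup.one_mem _
  have hRtop : R ≠ ⊤ := by
    intro h
    apply hlt.ne
    rw [eq_top_iff]
    intro y _
    obtain ⟨x, rfl⟩ := QuotientGroup.mk'_surjective M y
    have h1 : x ∈ R := by rw [h]; exact Subgroup.mem_top x
    rw [hR] at h1
    exact h1
  have hab : ∀ a b : G ⧸ R, a * b = b * a := by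
    intro a b
    obtain ⟨x, rfl⟩ := QuotientGroup.mk'_surjective R a
    obtain ⟨y, rfl⟩ := QuotientGroup.mk'_surjective R b
    rw [← commutatorElement_eq_one_iff_mul_comm, ← map_commutatorElement]
    apply (QuotientGroup.eq_one_iff _).mpr
    rw [hR, Subgroup.mem_comap, map_commutatorElement]
    exact Subgroup.commutator_mem_commutator (Subgroup.mem_top _) (Subgroup.mem_top _)
  have h545 := (Cfsg.Agent.S0545.result K hK R).2
  have hDR : D ≤ R := by
    refine le_trans ?_ hMR
    rw [hM]; exact Subgroup.le_normalClosure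
  have hbot : (Cfsg.systemNormalizer K).map (QuotientGroup.mk' R) = ⊥ := by
    rw [Subgroup.map_eq_bot_iff, QuotientGroup.ker_mk', ← hD]; exact hDR
  rw [hbot] at h545
  have htop : Cfsg.systemNormalizer (fun p => (K p).map (QuotientGroup.mk' R)) = ⊤ := by
    rw [eq_top_iff]
    intro x _
    rw [Cfsg.systemNormalizer, Subgroup.mem_iInf]
    intro p
    rw [Subgroup.mem_normalizer_iff]
    intro h
    have e : x * h * x⁻¹ = h := by rw [hab x h]; group
    rw [e]
  rw [htop] at h545
  apply hRtop
  rw [eq_top_iff]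
  intro x _
  have hx : (QuotientGroup.mk' R) x ∈ (⊤ : Subgroup (G ⧸ R)) := Subgroup.mem_top _
  rw [h545, Subgroup.mem_bot] at hx
  exact (QuotientGroup.eq_one_iff x).mp hx

/-- The normal closure of a system normalizer of a finite solvable group is the whole group. -/
theorem result {G : Type*} [Group G] [Finite G] [Group.IsSolvable G] (K : Nat.Primes → Subgroup G) (hK : Cfsg.IsComplementSystem K) : Subgroup.normalClosure ((Cfsg.systemNormalizer K : Subgroup G) : Set G) = ⊤ := by
  exact main K hK

end Cfsg.Agent.S0546
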