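import Mathlib
import Cfsg.Statements.S0547
import Cfsg.Agent.Lib.Helper4.MaxSub
import Cfsg.Agent.S0043

set_option autoImplicit false
open Cfsg

namespace Cfsg.Agent.S0547

universe u v

open Cfsg.Agent.Lib.Helper4.MaxSub

/-- a minimal normal subgroup of a faithful primitive solvable group is abelian of prime
exponent and acts regularly -/
theorem prim_facts {G : Type u} [Group G] [Finite G] [Group.IsSolvable G] {Ω : Type v}
    [MulAction G Ω] [FaithfulSMul G Ω] (hprim : MulAction.IsPreprimitive G Ω) (M : Subgroup G)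
    [M.Normal] (hM : M ≠ ⊥) (hmin : ∀ K : Subgroup G, K.Normal → K ≤ M → K = ⊥ ∨ K = M) :
    MulAction.IsPretransitive M Ω ∧ (∀ ω : Ω, ∀ m ∈ M, m • ω = ω → m = 1) ∧
      IsMulCommutative M ∧ ∃ p : ℕ, p.Prime ∧ ∀ x ∈ M, x ^ p = 1 := by
  obtain ⟨hMc, p, hp, hMp⟩ := Cfsg.Agent.S0043.result M hM hmin
  have htr : MulAction.IsPretransitive M Ω := by
    apply MulAction.IsQuasiPreprimitive.isPretransitive_of_normal (G := G)
    intro hfix
    apply hM
    rw [eq_bot_iff]
    intro m hm
    rw [Subgroup.mem_bot]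
    apply FaithfulSMul.eq_of_smul_eq_smul (α := Ω)
    intro ω
    have h1 : ω ∈ MulAction.fixedPoints M Ω := by rw [hfix]; exact Set.mem_univ ω
    have h2 := h1 ⟨m, hm⟩
    rw [one_smul]
    exact h2
  refine ⟨htr, ?_, hMc, p, hp, hMp⟩
  intro ω m hm hfix
  apply FaithfulSMul.eq_of_smul_eq_smul (α := Ω)
  intro ω'
  obtain ⟨m', hm'⟩ := MulAction.exists_smul_eq M ω ω'
  rw [one_smul, ← hm']
  show m • ((m' : G) • ω) = (m' : G) • ω
  rw [smul_smul, setLike_mul_comm hm m'.2, ← smul_smul, hfix]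

/-- Let a finite solvable group G act faithfully and primitively on a set, and let M be a minimal normal subgroup of G. Then M is transitive with trivial point stabilizers, and the number of points equals the order of M, which is a prime power p ^ d with d ≥ 1. -/
theorem result {G : Type*} [Group G] [Finite G] [Group.IsSolvable G] {Ω : Type*} [Nonempty Ω] [MulAction G Ω] [FaithfulSMul G Ω] (hprim : MulAction.IsPreprimitive G Ω) (M : Subgroup G) [M.Normal] (hM : M ≠ ⊥) (hmin : ∀ K : Subgroup G, K.Normal → K ≤ M → K = ⊥ ∨ K = M) : MulAction.IsPretransitive M Ω ∧ (∀ ω : Ω, MulAction.stabilizer M ω = ⊥) ∧ ∃ p d : ℕ, p.Prime ∧ 0 < d ∧ Nat.card Ω = p ^ d ∧ Nat.card M = p ^ d := by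
  obtain ⟨htr, hreg, hMc, p, hp, hMp⟩ := prim_facts hprim M hM hmin
  refine ⟨htr, ?_, ?_⟩
  · intro ω
    rw [eq_bot_iff]
    intro m hm
    rw [Subgroup.mem_bot]
    have h1 : (m : G) • ω = ω := hm
    exact Subtype.ext (hreg ω m m.2 h1)
  · obtain ⟨ω⟩ := ‹Nonempty Ω›
    have hbij : Function.Bijective (fun m : M => (m : G) • ω) := by
      constructor
      · intro m₁ m₂ h
        have h1 : ((m₂ : G)⁻¹ * (m₁ : G)) • ω = ω := by
          rw [mul_smul]
          have h' : (m₁ : G) • ω = (m₂ : G) • ω := h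
          rw [h', inv_smul_smul]
        have h2 := hreg ω _ (M.mul_mem (M.inv_mem m₂.2) m₁.2) h1
        apply Subtype.ext
        calc (m₁ : G) = (m₂ : G) * ((m₂ : G)⁻¹ * (m₁ : G)) := by group
          _ = (m₂ : G) := by rw [h2, mul_one]
      · intro ω'
        obtain ⟨m', hm'⟩ := MulAction.exists_smul_eq M ω ω'
        exact ⟨m', hm'⟩
    have hcard : Nat.card Ω = Nat.card M := (Nat.card_eq_of_bijective _ hbij).symm
    have hMpg : IsPGroup p M := Cfsg.Agent.Lib.Helper4.MaxSub.isPGroup_of_pow_eq_one hMp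
    haveI : Fact p.Prime := ⟨hp⟩
    obtain ⟨d, hd⟩ := IsPGroup.iff_card.mp hMpg
    refine ⟨p, d, hp, ?_, by rw [hcard, hd], hd⟩
    have h1 : 1 < Nat.card M := by rwa [Subgroup.one_lt_card_iff_ne_bot]
    rw [hd] at h1
    by_contra h0
    have : d = 0 := by omega
    rw [this] at h1
    simp at h1

end Cfsg.Agent.S0547
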