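import Mathlib
import Cfsg.Statements.S0548
import Cfsg.Agent.Lib.Helper4.MaxSub
import Cfsg.Agent.S0547

set_option autoImplicit false
open Cfsg

namespace Cfsg.Agent.S0548

/-- Let a finite solvable group G act faithfully and primitively on a set, let M be a minimal normal subgroup and H the stabilizer of a point. Then H is a complement to M, no non-identity element of H centralizes M, and the only subgroups of M normalized by H are the trivial subgroup and M. -/
theorem result {G : Type*} [Group G] [Finite G] [Group.IsSolvable G] {Ω : Type*} [MulAction G Ω] [FaithfulSMul G Ω] (hprim : MulAction.IsPreprimitive G Ω) (M : Subgroup G) [M.Normal] (hM : M ≠ ⊥) (hmin : ∀ K : Subgroup G, K.Normal → K ≤ M → K = ⊥ ∨ K = M) (ω : Ω) : Subgroup.IsComplement' M (MulAction.stabilizer G ω) ∧ MulAction.stabilizer G ω ⊓ Subgroup.centralizer (M : Set G) = ⊥ ∧ ∀ K : Subgroup G, K ≤ M → MulAction.stabilizer G ω ≤ Subgroup.normalizer (K : Set G) → K = ⊥ ∨ K = M := by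
  obtain ⟨htr, hreg, hMc, p, hp, hMp⟩ := Cfsg.Agent.S0547.prim_facts hprim M hM hmin
  set H := MulAction.stabilizer G ω with hH
  have hinf : M ⊓ H = ⊥ := by
    rw [eq_bot_iff]
    intro m hm
    have hm' := Subgroup.mem_inf.mp hm
    rw [Subgroup.mem_bot]
    exact hreg ω m hm'.1 (MulAction.mem_stabilizer_iff.mp hm'.2)
  have hmul : ∀ g : G, ∃ m ∈ M, ∃ h ∈ H, g = m * h := by
    intro g
    obtain ⟨m, hm⟩ := MulAction.exists_smul_eq M ω (g • ω)
    refine ⟨m, m.2, (m : G)⁻¹ * g, ?_, by group⟩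
    rw [hH, MulAction.mem_stabilizer_iff, mul_smul, ← hm]
    exact inv_smul_smul (m : G) ω
  refine ⟨?_, ?_, ?_⟩
  · apply Subgroup.isComplement'_of_disjoint_and_mul_eq_univ (disjoint_iff.mpr hinf)
    rw [Set.eq_univ_iff_forall]
    intro g
    obtain ⟨m, hm, h, hh, rfl⟩ := hmul g
    exact Set.mul_mem_mul hm hh
  · rw [eq_bot_iff]
    intro h hh
    have hh' := Subgroup.mem_inf.mp hh
    rw [Subgroup.mem_bot]
    apply FaithfulSMul.eq_of_smul_eq_smul (α := Ω)
    intro ω'
    obtain ⟨m', hm'⟩ := MulAction.exists_smul_eq M ω ω'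
    rw [one_smul, ← hm']
    show h • ((m' : G) • ω) = (m' : G) • ω
    have hc : (m' : G) * h = h * (m' : G) := Subgroup.mem_centralizer_iff.mp hh'.2 _ m'.2
    rw [smul_smul, ← hc, ← smul_smul, MulAction.mem_stabilizer_iff.mp hh'.1]
  · intro K hKM hHK
    apply hmin K _ hKM
    constructor
    intro x hx g
    obtain ⟨m, hm, h, hh, rfl⟩ := hmul g
    have h1 : h * x * h⁻¹ ∈ K := (Subgroup.mem_normalizer_iff.mp (hHK hh) x).mp hx
    have h2 : m * (h * x * h⁻¹) = (h * x * h⁻¹) * m := setLike_mul_comm hm (hKM h1)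
    have e : m * h * x * (m * h)⁻¹ = (m * (h * x * h⁻¹)) * m⁻¹ := by group
    rw [e, h2]
    have e2 : h * x * h⁻¹ * m * m⁻¹ = h * x * h⁻¹ := by group
    rw [e2]; exact h1

end Cfsg.Agent.S0548
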