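import Mathlib
import Cfsg.Statements.S0550
import Cfsg.Agent.S0549

set_option autoImplicit false
open Cfsg

namespace Cfsg.Agent.S0550

theorem equiv_aux {G : Type*} [Group G] (U X Y : Subgroup G) [X.Normal] [Y.Normal]
    (hXY : X ⊓ Y = ⊥) (hYU : Y ⊓ U = ⊥) (hYUt : Y ⊔ U = ⊤) :
    Nonempty (X ≃* ↥((X ⊔ Y) ⊓ U)) := by
  let f : X →* G ⧸ Y := (QuotientGroup.mk' Y).comp X.subtype
  let g : ↥((X ⊔ Y) ⊓ U) →* G ⧸ Y := (QuotientGroup.mk' Y).comp ((X ⊔ Y) ⊓ U).subtype
  have hf : Function.Injective f := by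
    rw [injective_iff_map_eq_one]
    intro x hx
    have h1 : (x : G) ∈ Y := (QuotientGroup.eq_one_iff (x : G)).mp hx
    have h2 : (x : G) ∈ X ⊓ Y := ⟨x.2, h1⟩
    rw [hXY, Subgroup.mem_bot] at h2
    exact Subtype.ext h2
  have hg : Function.Injective g := by
    rw [injective_iff_map_eq_one]
    intro x hx
    have h1 : (x : G) ∈ Y := (QuotientGroup.eq_one_iff (x : G)).mp hx
    have h2 : (x : G) ∈ Y ⊓ U := ⟨h1, x.2.2⟩
    rw [hYU, Subgroup.mem_bot] at h2
    exact Subtype.ext h2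
  have hrange : f.range = g.range := by
    ext z
    constructor
    · rintro ⟨x, rfl⟩
      have hx : (x : G) ∈ (Y ⊔ U : Subgroup G) := by rw [hYUt]; trivial
      rw [← SetLike.mem_coe, Subgroup.normal_mul] at hx
      obtain ⟨y, hy, u, hu, hyu⟩ := hx
      have hu2 : u = y⁻¹ * (x : G) := by rw [← hyu]; group
      have huXY : u ∈ X ⊔ Y := by
        rw [hu2]
        exact Subgroup.mul_mem _ (Subgroup.inv_mem _ (Subgroup.mem_sup_right hy))
          (Subgroup.mem_sup_left x.2)
      refine ⟨⟨u, huXY, hu⟩, ?_⟩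
      show (QuotientGroup.mk' Y) u = (QuotientGroup.mk' Y) (x : G)
      rw [hu2, map_mul, map_inv]
      have : (QuotientGroup.mk' Y) y = 1 := (QuotientGroup.eq_one_iff y).mpr hy
      rw [this]; simp
    · rintro ⟨w, rfl⟩
      have hw : (w : G) ∈ (X ⊔ Y : Subgroup G) := w.2.1
      rw [← SetLike.mem_coe, Subgroup.mul_normal] at hw
      obtain ⟨x, hx, y, hy, hxy⟩ := hw
      refine ⟨⟨x, hx⟩, ?_⟩
      show (QuotientGroup.mk' Y) x = (QuotientGroup.mk' Y) (w : G)
      have hxy' : (w : G) = x * y := hxy.symm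
      rw [hxy', map_mul]
      have : (QuotientGroup.mk' Y) y = 1 := (QuotientGroup.eq_one_iff y).mpr hy
      rw [this]; simp
  exact ⟨(MonoidHom.ofInjective hf).trans
    ((MulEquiv.subgroupCongr hrange).trans (MonoidHom.ofInjective hg).symm)⟩

/-- Let U be a maximal subgroup with trivial normal core in a finite group G, and A ≠ B two minimal normal subgroups. Then A is the centralizer of B and B that of A, U complements each of them, A and B are non-abelian, and A, B and (A ⊔ B) ∩ U are pairwise isomorphic. -/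
theorem result {G : Type*} [Group G] [Finite G] (U : Subgroup G) (hU : IsCoatom U) (hcore : U.normalCore = ⊥) (A B : Subgroup G) [A.Normal] [B.Normal] (hA : A ≠ ⊥) (hB : B ≠ ⊥) (hAmin : ∀ K : Subgroup G, K.Normal → K ≤ A → K = ⊥ ∨ K = A) (hBmin : ∀ K : Subgroup G, K.Normal → K ≤ B → K = ⊥ ∨ K = B) (hAB : A ≠ B) : Subgroup.centralizer (B : Set G) = A ∧ Subgroup.centralizer (A : Set G) = B ∧ Subgroup.IsComplement' A U ∧ Subgroup.IsComplement' B U ∧ ¬ IsMulCommutative A ∧ Nonempty (A ≃* B) ∧ Nonempty (A ≃* ↥((A ⊔ B) ⊓ U)) := by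
  have hinf : A ⊓ B = ⊥ := by
    rcases hAmin (A ⊓ B) inferInstance inf_le_left with h | h
    · exact h
    · exfalso
      have hle : A ≤ B := h ▸ inf_le_right
      rcases hBmin A inferInstance hle with h' | h'
      · exact hA h'
      · exact hAB h'
  have hdisj : Disjoint A B := disjoint_iff.mpr hinf
  have hAcB : A ≤ Subgroup.centralizer (B : Set G) :=
    Subgroup.commutator_eq_bot_iff_le_centralizer.mp (Subgroup.commutator_eq_bot_of_disjoint hdisj)
  have hBcA : B ≤ Subgroup.centralizer (A : Set G) :=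
    Subgroup.commutator_eq_bot_iff_le_centralizer.mp (Subgroup.commutator_eq_bot_of_disjoint hdisj.symm)
  obtain ⟨hCBU, hCB⟩ := Cfsg.Agent.S0549.result U hU hcore B hB
  obtain ⟨hCAU, hCA⟩ := Cfsg.Agent.S0549.result U hU hcore A hA
  have hCB' : Subgroup.centralizer (B : Set G) = A := by
    rcases hCB with h | ⟨_, h⟩
    · exfalso; rw [h] at hAcB; exact hA (le_bot_iff.mp hAcB)
    · rcases h A inferInstance hAcB with h' | h'
      · exact absurd h' hA
      · exact h'.symm
  have hCA' : Subgroup.centralizer (A : Set G) = B := by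
    rcases hCA with h | ⟨_, h⟩
    · exfalso; rw [h] at hBcA; exact hB (le_bot_iff.mp hBcA)
    · rcases h B inferInstance hBcA with h' | h'
      · exact absurd h' hB
      · exact h'.symm
  have hAU : A ⊓ U = ⊥ := by rw [← hCB']; exact hCBU
  have hBU : B ⊓ U = ⊥ := by rw [← hCA']; exact hCAU
  have hAUt : A ⊔ U = ⊤ := Cfsg.Agent.S0549.sup_eq_top_of_normal U hU hcore A hA
  have hBUt : B ⊔ U = ⊤ := Cfsg.Agent.S0549.sup_eq_top_of_normal U hU hcore B hB
  have hcompA : Subgroup.IsComplement' A U := by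
    apply Subgroup.isComplement'_of_disjoint_and_mul_eq_univ (disjoint_iff.mpr hAU)
    rw [← Subgroup.normal_mul, hAUt]; rfl
  have hcompB : Subgroup.IsComplement' B U := by
    apply Subgroup.isComplement'_of_disjoint_and_mul_eq_univ (disjoint_iff.mpr hBU)
    rw [← Subgroup.normal_mul, hBUt]; rfl
  have hnc : ¬ IsMulCommutative A := by
    intro hc
    have hle : A ≤ Subgroup.centralizer (A : Set G) := by
      intro a ha
      rw [Subgroup.mem_centralizer_iff]
      intro b hb
      exact setLike_mul_comm hb ha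
    rw [hCA'] at hle
    have : A ≤ A ⊓ B := le_inf le_rfl hle
    rw [hinf] at this
    exact hA (le_bot_iff.mp this)
  obtain ⟨e1⟩ := equiv_aux U A B hinf hBU hBUt
  have hinf' : B ⊓ A = ⊥ := by rw [inf_comm]; exact hinf
  obtain ⟨e2⟩ := equiv_aux U B A hinf' hAU hAUt
  have hsup : (B ⊔ A) ⊓ U = (A ⊔ B) ⊓ U := by rw [sup_comm]
  exact ⟨hCB', hCA', hcompA, hcompB, hnc,
    ⟨e1.trans ((MulEquiv.subgroupCongr hsup).symm.trans e2.symm)⟩, ⟨e1⟩⟩

end Cfsg.Agent.S0550
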