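import Mathlib
import Cfsg.Statements.S0552
import Cfsg.Agent.S0044
import Cfsg.Agent.Lib.Lead.Cores

set_option autoImplicit false
open Cfsg

namespace Cfsg.Agent.S0552

/-- Let σ be an automorphism of a finite solvable group G fixing every element of the Fitting subgroup. If σ is not the identity then the order of σ and the order of G have a common prime factor. -/
theorem result {G : Type*} [Group G] [Finite G] [Group.IsSolvable G] (σ : G ≃* G) (hσ : ∀ x ∈ Cfsg.fittingSubgroup G, σ x = x) (hne : σ ≠ MulEquiv.refl G) : ¬ (orderOf σ).Coprime (Nat.card G) := by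
  intro hcop
  apply hne
  haveI hFn : (Cfsg.fittingSubgroup G).Normal := Cfsg.Agent.Lib.Lead.Cores.fittingSubgroup_normal
  have hCF := Cfsg.Agent.S0044.result (G := G)
  ext g
  show σ g = g
  set z := g⁻¹ * σ g with hz
  have hzC : z ∈ Subgroup.centralizer (Cfsg.fittingSubgroup G : Set G) := by
    rw [Subgroup.mem_centralizer_iff]
    intro x hx
    have h1 : g * x * g⁻¹ ∈ Cfsg.fittingSubgroup G := hFn.conj_mem x hx g
    have h2 := hσ _ h1
    rw [map_mul, map_mul, map_inv, hσ x hx] at h2
    -- h2 : σ g * x * (σ g)⁻¹ = g * x * g⁻¹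
    calc x * (g⁻¹ * σ g) = g⁻¹ * (g * x * g⁻¹) * σ g := by group
      _ = g⁻¹ * (σ g * x * (σ g)⁻¹) * σ g := by rw [h2]
      _ = g⁻¹ * σ g * x := by group
  have hzF : z ∈ Cfsg.fittingSubgroup G := hCF hzC
  have hσz : σ z = z := hσ z hzF
  have hσg : σ g = g * z := by rw [hz]; group
  have hpow : ∀ k : ℕ, (σ ^ k) g = g * z ^ k := by
    intro k
    induction k with
    | zero => simp
    | succ k ih =>
      rw [pow_succ', MulAut.mul_apply, ih, map_mul, map_pow, hσz, hσg, pow_succ', mul_assoc]
  have h1 := hpow (orderOf σ)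
  rw [pow_orderOf_eq_one, MulAut.one_apply] at h1
  have hz1 : z ^ orderOf σ = 1 := by
    have : g * z ^ orderOf σ = g * 1 := by rw [mul_one]; exact h1.symm
    exact mul_left_cancel this
  have hd1 : orderOf z ∣ orderOf σ := orderOf_dvd_of_pow_eq_one hz1
  have hd2 : orderOf z ∣ Nat.card G := orderOf_dvd_natCard z
  have hd3 : orderOf z ∣ 1 := by
    have := Nat.dvd_gcd hd1 hd2
    rwa [Nat.Coprime.gcd_eq_one hcop] at this
  have hz' : z = 1 := orderOf_eq_one_iff.mp (Nat.dvd_one.mp hd3)
  rw [hσg, hz', mul_one]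

end Cfsg.Agent.S0552
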