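import Mathlib
import Cfsg.Statements.S0553
import Cfsg.Agent.Lib.Helper4.MaxSub
import Cfsg.Agent.S0043

set_option autoImplicit false
open Cfsg

namespace Cfsg.Agent.S0553

universe u

open Cfsg.Agent.Lib.Helper4.MaxSub Cfsg.Agent.Lib.Helper4.MinNormal

theorem aux (n : ℕ) : ∀ (G : Type u) [Group G] [Finite G] [Group.IsSolvable G] [Nontrivial G],
    Nat.card G = n → (∀ M : Subgroup G, IsCoatom M → (Nat.card M).Coprime M.index) →
    ∃ p : ℕ, p.Prime ∧ p ∣ Nat.card G ∧ ∀ P : Sylow p G, (P : Subgroup G).Normal := by
  induction n using Nat.strong_induction_on with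
  | _ n ih =>
    intro G _ _ _ _ hn h
    obtain ⟨N, hNmin⟩ := exists_minNormal (G := G)
    haveI hNn : N.Normal := hNmin.1
    obtain ⟨hNc, p, hp, hNp⟩ := Cfsg.Agent.S0043.result N hNmin.2.1 hNmin.2.2
    haveI := hNc
    haveI : Fact p.Prime := ⟨hp⟩
    have hNpg : IsPGroup p N := isPGroup_of_pow_eq_one hNp
    have hpN : p ∣ Nat.card N := by
      obtain ⟨k, hk⟩ := IsPGroup.iff_card.mp hNpg
      have h1 : 1 < Nat.card N := by rw [Subgroup.one_lt_card_iff_ne_bot]; exact hNmin.2.1
      rw [hk] at h1 ⊢
      have hk0 : k ≠ 0 := by rintro rfl; simp at h1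
      exact dvd_pow_self p hk0
    have hpG : p ∣ Nat.card G := hpN.trans (Subgroup.card_subgroup_dvd_card N)
    by_cases hcase : ∃ M : Subgroup G, IsCoatom M ∧ ¬ N ≤ M
    · obtain ⟨M, hM, hNM⟩ := hcase
      have hinf := inf_eq_bot_of_minNormal_abelian hM hNmin hNM
      have htop := sup_eq_top_of_not_le hM hNM
      have hidx := index_eq_card_of_complement M N hinf htop
      have hcop := h M hM
      rw [hidx] at hcop
      refine ⟨p, hp, hpG, fun P => ?_⟩
      have hNP : N ≤ (P : Subgroup G) := hNpg.le_sylow_of_normal P
      have hcard : Nat.card (P : Subgroup G) ∣ Nat.card N := by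
        have h1 : Nat.card (P : Subgroup G) ∣ Nat.card M * Nat.card N := by
          have := M.index_mul_card
          rw [hidx] at this
          rw [mul_comm, this]; exact Subgroup.card_subgroup_dvd_card _
        have h2 : Nat.Coprime (Nat.card (P : Subgroup G)) (Nat.card M) := by
          obtain ⟨k, hk⟩ := IsPGroup.iff_card.mp P.isPGroup'
          rw [hk]
          apply Nat.Coprime.pow_left
          exact Nat.Coprime.coprime_dvd_left hpN hcop.symm
        exact h2.dvd_of_dvd_mul_left h1
      have : N = (P : Subgroup G) :=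
        Subgroup.eq_of_le_of_card_ge hNP (Nat.le_of_dvd Nat.card_pos hcard)
      rw [← this]; exact hNn
    · have hNΦ : N ≤ frattini G := by
        apply le_frattini_of_forall_coatom
        intro M hM
        by_contra hNM
        exact hcase ⟨M, hM, hNM⟩
      rcases subsingleton_or_nontrivial (G ⧸ N) with hs | hnt
      · have hNtop : N = ⊤ := by
          rw [eq_top_iff]; intro x _
          have : (QuotientGroup.mk x : G ⧸ N) = 1 := Subsingleton.elim _ _
          exact (QuotientGroup.eq_one_iff x).mp this
        refine ⟨p, hp, hpG, fun P => ?_⟩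
        have hNP : N ≤ (P : Subgroup G) := hNpg.le_sylow_of_normal P
        have : (P : Subgroup G) = ⊤ := by rw [eq_top_iff, ← hNtop]; exact hNP
        rw [this]; infer_instance
      · have hlt : Nat.card (G ⧸ N) < n := by rw [← hn]; exact card_quotient_lt N hNmin.2.1
        have hquot : ∀ M : Subgroup (G ⧸ N), IsCoatom M → (Nat.card M).Coprime M.index := by
          intro M hM
          have hc := Subgroup.isCoatom_comap_of_surjective (QuotientGroup.mk'_surjective N) hM
          have h1 := h _ hc
          rw [Subgroup.index_comap_of_surjective _ (QuotientGroup.mk'_surjective N)] at h1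
          have h2 : Nat.card M ∣ Nat.card (M.comap (QuotientGroup.mk' N)) := by
            have h3 := Subgroup.card_map_dvd (H := M.comap (QuotientGroup.mk' N)) (QuotientGroup.mk' N)
            rwa [Subgroup.map_comap_eq_self_of_surjective (QuotientGroup.mk'_surjective N)] at h3
          exact Nat.Coprime.coprime_dvd_left h2 h1
        obtain ⟨q, hq, hqd, hqn⟩ := ih _ hlt (G ⧸ N) rfl hquot
        haveI : Fact q.Prime := ⟨hq⟩
        refine ⟨q, hq, hqd.trans (Subgroup.card_quotient_dvd_card N), fun Q => ?_⟩
        exact sylow_normal_of_map_normal N hNΦ q Q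
          (hqn (Q.mapSurjective (QuotientGroup.mk'_surjective N)))

/-- Let G be a nontrivial finite solvable group in which every maximal subgroup has order coprime to its index. Then for some prime p dividing the order of G the Sylow p-subgroups of G are normal. -/
theorem result {G : Type*} [Group G] [Finite G] [Group.IsSolvable G] [Nontrivial G] (h : ∀ M : Subgroup G, IsCoatom M → (Nat.card M).Coprime M.index) : ∃ p : ℕ, p.Prime ∧ p ∣ Nat.card G ∧ ∀ P : Sylow p G, (P : Subgroup G).Normal := by
  exact aux _ G rfl h

end Cfsg.Agent.S0553
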