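import Mathlib
import Cfsg.Statements.S0554
import Cfsg.Agent.Lib.Helper4.MaxSub
import Cfsg.Agent.S0043

set_option autoImplicit false
open Cfsg

namespace Cfsg.Agent.S0554

universe u

open Cfsg.Agent.Lib.Helper4.MaxSub Cfsg.Agent.Lib.Helper4.MinNormal

/-- modifying one factor of an ordered product by an element of a normal subgroup -/
theorem prod_update {G : Type u} [Group G] (M : Subgroup G) [hM : M.Normal] :
    ∀ (t : ℕ) (s : Fin t → G) (j : Fin t) (m : G), m ∈ M →
      ∃ m' ∈ M, (List.ofFn s).prod * m = (List.ofFn (Function.update s j (s j * m'))).prod := by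
  intro t
  induction t with
  | zero => intro s j; exact j.elim0
  | succ t ih =>
    intro s j m hm
    refine Fin.cases ?_ (fun j' => ?_) j
    · set rest := (List.ofFn (fun i : Fin t => s i.succ)).prod with hrest
      refine ⟨rest * m * rest⁻¹, hM.conj_mem m hm rest, ?_⟩
      rw [List.ofFn_succ, List.prod_cons, List.ofFn_succ, List.prod_cons]
      have e0 : Function.update s 0 (s 0 * (rest * m * rest⁻¹)) 0 = s 0 * (rest * m * rest⁻¹) :=
        Function.update_self _ _ _
      have e1 : (fun i : Fin t => Function.update s 0 (s 0 * (rest * m * rest⁻¹)) i.succ)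
          = fun i => s i.succ := by
        funext i
        exact Function.update_of_ne (Fin.succ_ne_zero i) _ _
      rw [e0, e1, ← hrest]; group
    · obtain ⟨m', hm', h⟩ := ih (fun i => s i.succ) j' m hm
      refine ⟨m', hm', ?_⟩
      rw [List.ofFn_succ, List.prod_cons, mul_assoc, h, List.ofFn_succ, List.prod_cons]
      have e0 : Function.update s j'.succ (s j'.succ * m') 0 = s 0 :=
        Function.update_of_ne (Fin.succ_ne_zero j').symm _ _
      have e1 : (fun i : Fin t => Function.update s j'.succ (s j'.succ * m') i.succ)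
          = Function.update (fun i => s i.succ) j' (s j'.succ * m') := by
        funext i
        by_cases hij : i = j'
        · subst hij
          rw [Function.update_self, Function.update_self]
        · rw [Function.update_of_ne hij,
            Function.update_of_ne (fun h => hij (Fin.succ_injective _ h))]
      rw [e0, e1]

theorem aux (n : ℕ) : ∀ (G : Type u) [Group G] [Finite G] [Group.IsSolvable G], Nat.card G = n →
    ∀ (t : ℕ) (p : Fin t → ℕ) (_ : ∀ i, (p i).Prime)
      (_ : ∀ q : ℕ, q.Prime → q ∣ Nat.card G → ∃ i, p i = q)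
      (S : (i : Fin t) → Sylow (p i) G), ∀ g : G, ∃ s : (i : Fin t) → G,
        (∀ i, s i ∈ (S i : Subgroup G)) ∧ g = (List.ofFn s).prod := by
  induction n using Nat.strong_induction_on with
  | _ n ih =>
    intro G _ _ _ hn t p hp hall S g
    rcases subsingleton_or_nontrivial G with hs | hnt
    · exact ⟨fun _ => 1, fun i => one_mem _, Subsingleton.elim _ _⟩
    · obtain ⟨M, hMmin⟩ := exists_minNormal (G := G)
      haveI hMn : M.Normal := hMmin.1
      obtain ⟨hMc, q, hq, hMq⟩ := Cfsg.Agent.S0043.result M hMmin.2.1 hMmin.2.2
      haveI : Fact q.Prime := ⟨hq⟩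
      have hMpg : IsPGroup q M := isPGroup_of_pow_eq_one hMq
      have hqM : q ∣ Nat.card M := by
        obtain ⟨k, hk⟩ := IsPGroup.iff_card.mp hMpg
        have h1 : 1 < Nat.card M := by rw [Subgroup.one_lt_card_iff_ne_bot]; exact hMmin.2.1
        rw [hk] at h1 ⊢
        have hk0 : k ≠ 0 := by rintro rfl; simp at h1
        exact dvd_pow_self q hk0
      obtain ⟨j, hj⟩ := hall q hq (hqM.trans (Subgroup.card_subgroup_dvd_card M))
      have hMS : M ≤ (S j : Subgroup G) := by
        subst hj
        exact hMpg.le_sylow_of_normal (S j)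
      have hlt : Nat.card (G ⧸ M) < n := by rw [← hn]; exact card_quotient_lt M hMmin.2.1
      have hsurj := QuotientGroup.mk'_surjective M
      have hall' : ∀ r : ℕ, r.Prime → r ∣ Nat.card (G ⧸ M) → ∃ i, p i = r :=
        fun r hr hrd => hall r hr (hrd.trans (Subgroup.card_quotient_dvd_card M))
      let Sb : (i : Fin t) → Sylow (p i) (G ⧸ M) := fun i =>
        haveI : Fact (p i).Prime := ⟨hp i⟩
        (S i).mapSurjective hsurj
      obtain ⟨sb, hsb, hg⟩ := ih _ hlt (G ⧸ M) rfl t p hp hall' Sb (QuotientGroup.mk' M g)
      have hlift : ∀ i, ∃ x ∈ (S i : Subgroup G), QuotientGroup.mk' M x = sb i := by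
        intro i
        have h1 : sb i ∈ (S i : Subgroup G).map (QuotientGroup.mk' M) := hsb i
        obtain ⟨x, hx, hxe⟩ := h1
        exact ⟨x, hx, hxe⟩
      choose s hs hsπ using hlift
      have hprod : QuotientGroup.mk' M ((List.ofFn s).prod) = QuotientGroup.mk' M g := by
        rw [map_list_prod, List.map_ofFn, hg]
        congr 2
        funext i
        exact hsπ i
      have hm : ((List.ofFn s).prod)⁻¹ * g ∈ M := by
        have h1 : QuotientGroup.mk' M (((List.ofFn s).prod)⁻¹ * g) = 1 := by
          rw [map_mul, map_inv, hprod, inv_mul_cancel]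
        exact (QuotientGroup.eq_one_iff _).mp h1
      obtain ⟨m', hm', hupd⟩ := prod_update M t s j _ hm
      refine ⟨Function.update s j (s j * m'), ?_, ?_⟩
      · intro i
        by_cases hij : i = j
        · subst hij
          rw [Function.update_self]
          exact (S i : Subgroup G).mul_mem (hs i) (hMS hm')
        · rw [Function.update_of_ne hij]; exact hs i
      · rw [← hupd]; group

/-- Let G be a finite solvable group and let S assign to each of t distinct primes, including every prime divisor of the order of G, a Sylow subgroup of G. Then every element of G is a product s_0 s_1 ⋯ s_(t-1) with s_i in S i, the factors taken in the given order. -/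
theorem result {G : Type*} [Group G] [Finite G] [Group.IsSolvable G] (t : ℕ) (p : Fin t → ℕ) (hp : ∀ i, (p i).Prime) (hinj : Function.Injective p) (hall : ∀ q : ℕ, q.Prime → q ∣ Nat.card G → ∃ i, p i = q) (S : (i : Fin t) → Sylow (p i) G) : ∀ g : G, ∃ s : (i : Fin t) → G, (∀ i, s i ∈ (S i : Subgroup G)) ∧ g = (List.ofFn s).prod := by
  exact aux _ G rfl t p hp hall S

end Cfsg.Agent.S0554
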