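import Mathlib
import Cfsg.Statements.S0555
import Cfsg.Agent.Lib.Helper4.SSMore

set_option autoImplicit false
open Cfsg

open scoped commutatorElement

namespace Cfsg.Agent.S0555

universe u

theorem exists_sup_zpowers_of_isCyclic_quotient {G : Type u} [Group G] {A B : Subgroup G}
    (hBA : B ≤ A) [hn : (B.subgroupOf A).Normal] (h : IsCyclic (↥A ⧸ B.subgroupOf A)) :
    ∃ a ∈ A, A = B ⊔ Subgroup.zpowers a := by
  obtain ⟨q, hq⟩ := h.exists_generator
  obtain ⟨a', rfl⟩ := QuotientGroup.mk_surjective q
  refine ⟨(a' : G), a'.2, le_antisymm ?_ (sup_le hBA (by rw [Subgroup.zpowers_le]; exact a'.2))⟩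
  intro x hx
  obtain ⟨k, hk⟩ := Subgroup.mem_zpowers_iff.mp (hq (QuotientGroup.mk (⟨x, hx⟩ : A)))
  have h1 : (a' ^ k)⁻¹ * (⟨x, hx⟩ : A) ∈ B.subgroupOf A := by
    rw [← QuotientGroup.eq, QuotientGroup.mk_zpow]
    exact hk
  rw [Subgroup.mem_subgroupOf] at h1
  have e : x = (a' : G) ^ k * (((a' : G) ^ k)⁻¹ * x) := by group
  rw [e]
  refine mul_mem (Subgroup.mem_sup_right (zpow_mem (Subgroup.mem_zpowers _) k))
    (Subgroup.mem_sup_left ?_)
  simpa using h1

/-- Let i ≥ 1. If in the derived series of a group the quotient of the i-th term by the (i+1)-st and the quotient of the (i+1)-st by the (i+2)-nd are both cyclic, then the (i+1)-st and (i+2)-nd terms coincide. -/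
theorem result {G : Type*} [Group G] (i : ℕ) (hi : 1 ≤ i) (h₁ : IsCyclic (↥(derivedSeries G i) ⧸ (derivedSeries G (i + 1)).subgroupOf (derivedSeries G i))) (h₂ : IsCyclic (↥(derivedSeries G (i + 1)) ⧸ (derivedSeries G (i + 2)).subgroupOf (derivedSeries G (i + 1)))) : derivedSeries G (i + 1) = derivedSeries G (i + 2) := by
  set A := derivedSeries G i with hA
  set B := derivedSeries G (i + 1) with hB
  set C := derivedSeries G (i + 2) with hC
  have hBA : B ≤ A := derivedSeries_antitone G (Nat.le_succ i)
  have hCB : C ≤ B := derivedSeries_antitone G (Nat.le_succ (i + 1))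
  haveI hAn : A.Normal := derivedSeries_normal G i
  haveI hBn : B.Normal := derivedSeries_normal G (i + 1)
  haveI hCn : C.Normal := derivedSeries_normal G (i + 2)
  obtain ⟨a, ha, hAa⟩ := exists_sup_zpowers_of_isCyclic_quotient hBA h₁
  obtain ⟨b, hb, hBb⟩ := exists_sup_zpowers_of_isCyclic_quotient hCB h₂
  have hAcomm : A ≤ commutator G := by
    have : derivedSeries G i ≤ derivedSeries G 1 := derivedSeries_antitone G hi
    rwa [derivedSeries_one] at this
  set π := QuotientGroup.mk' C with hπ
  have hBn' : (C ⊔ Subgroup.zpowers b).Normal := by rw [← hBb]; exact hBn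
  -- B is central in A modulo C
  have hBA' : ∀ x ∈ B, ∀ y ∈ A, Commute (π x) (π y) := by
    intro x hx y hy
    have h1 := Cfsg.Agent.Lib.Helper4.SSMore.comm_mem_of_step C b hBn' (hBb ▸ hx) (hAcomm hy)
    have h2 : π (x * y * x⁻¹ * y⁻¹) = 1 := (QuotientGroup.eq_one_iff _).mpr h1
    rw [map_mul, map_mul, map_mul, map_inv, map_inv, ← commutatorElement_def,
      commutatorElement_eq_one_iff_commute] at h2
    exact h2
  have hacomm : ∀ y ∈ A, Commute (π a) (π y) := by
    intro y hy
    have h1 : A ≤ (Subgroup.centralizer {π a}).comap π := by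
      rw [hAa]
      apply sup_le
      · intro x hx
        rw [Subgroup.mem_comap, Subgroup.mem_centralizer_iff]
        intro z hz
        rw [Set.mem_singleton_iff] at hz; subst hz
        exact ((hBA' x hx a ha).symm).eq
      · rw [Subgroup.zpowers_le, Subgroup.mem_comap, Subgroup.mem_centralizer_iff]
        intro z hz
        rw [Set.mem_singleton_iff] at hz; subst hz
        rfl
    have h2 := h1 hy
    rw [Subgroup.mem_comap, Subgroup.mem_centralizer_iff] at h2
    exact h2 _ (Set.mem_singleton _)
  have hAA : ∀ x ∈ A, ∀ y ∈ A, Commute (π x) (π y) := by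
    intro x hx y hy
    have h1 : A ≤ (Subgroup.centralizer {π y}).comap π := by
      rw [hAa]
      apply sup_le
      · intro x hx
        rw [Subgroup.mem_comap, Subgroup.mem_centralizer_iff]
        intro z hz
        rw [Set.mem_singleton_iff] at hz; subst hz
        exact ((hBA' x hx y hy).symm).eq
      · rw [Subgroup.zpowers_le, Subgroup.mem_comap, Subgroup.mem_centralizer_iff]
        intro z hz
        rw [Set.mem_singleton_iff] at hz; subst hz
        exact ((hacomm y hy).symm).eq
    have h2 := h1 hx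
    rw [Subgroup.mem_comap, Subgroup.mem_centralizer_iff] at h2
    exact (h2 _ (Set.mem_singleton _)).symm
  apply le_antisymm _ hCB
  have hB' : B = ⁅A, A⁆ := rfl
  rw [hB', Subgroup.commutator_le]
  intro x hx y hy
  have h2 : π ⁅x, y⁆ = 1 := by
    rw [map_commutatorElement, commutatorElement_eq_one_iff_commute]
    exact hAA x hx y hy
  exact (QuotientGroup.eq_one_iff _).mp h2

end Cfsg.Agent.S0555
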