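import Mathlib
import Cfsg.Statements.S0589
import Cfsg.Agent.S0034
import Cfsg.Agent.Lib.Helper4.Conj
import Cfsg.Agent.Lib.Helper23.FrobSemi

set_option autoImplicit false
open Pointwise
open Cfsg

open scoped Pointwise

namespace Cfsg.Agent.S0589

universe u

open Cfsg.Agent.Lib.Helper4.Conj

/-- in the coset action of a Frobenius complement a non-identity element fixes at most one point -/
theorem fix_unique {G : Type u} [Group G] (H : Subgroup G) (hH : Cfsg.IsFrobeniusComplement H)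
    (x : G) (hx : x ≠ 1) (ω ω' : G ⧸ H) (h1 : x • ω = ω) (h2 : x • ω' = ω') : ω = ω' := by
  obtain ⟨-, -, hF⟩ := (Cfsg.Agent.Lib.Helper23.FrobSemi.isFrobeniusComplement_iff H).mp hH
  induction ω using QuotientGroup.induction_on with
  | H a =>
  induction ω' using QuotientGroup.induction_on with
  | H b =>
  have ha : a⁻¹ * x * a ∈ H := by
    have h3 : ((x * a : G) : G ⧸ H) = (a : G ⧸ H) := h1
    have h4 := QuotientGroup.eq.mp h3
    have e : a⁻¹ * x * a = ((x * a)⁻¹ * a)⁻¹ := by group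
    rw [e]; exact H.inv_mem h4
  have hb : b⁻¹ * x * b ∈ H := by
    have h3 : ((x * b : G) : G ⧸ H) = (b : G ⧸ H) := h2
    have h4 := QuotientGroup.eq.mp h3
    have e : b⁻¹ * x * b = ((x * b)⁻¹ * b)⁻¹ := by group
    rw [e]; exact H.inv_mem h4
  rw [QuotientGroup.eq]
  by_contra hg
  have h5 := hF (a⁻¹ * b) hg (a⁻¹ * x * a) ha (by
    have e : (a⁻¹ * b)⁻¹ * (a⁻¹ * x * a) * (a⁻¹ * b) = b⁻¹ * x * b := by group
    rw [e]; exact hb)
  apply hx
  calc x = a * (a⁻¹ * x * a) * a⁻¹ := by group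
    _ = 1 := by rw [h5]; group

theorem le_conj_of_card_dvd {G : Type u} [Group G] [Finite G] (H : Subgroup G)
    (hH : Cfsg.IsFrobeniusComplement H) (L : Subgroup G) (hL : Nat.card L ∣ Nat.card H) :
    ∃ x : G, L ≤ MulAut.conj x • H := by
  classical
  by_cases hL1 : Nat.card L = 1
  · refine ⟨1, ?_⟩
    have : L = ⊥ := Subgroup.card_eq_one.mp hL1
    rw [this]; exact bot_le
  have hL2 : 2 ≤ Nat.card L := by
    have : 0 < Nat.card L := Nat.card_pos
    omega
  -- the free part
  let Ω₀ : SubMulAction L (G ⧸ H) :=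
    { carrier := {ω | ∀ y : L, y • ω = ω → y = 1}
      smul_mem' := by
        intro c ω hω y hy
        have h1 : (c⁻¹ * y * c) • ω = ω := by
          rw [mul_smul, mul_smul, hy, inv_smul_smul]
        have h2 := hω _ h1
        calc y = c * (c⁻¹ * y * c) * c⁻¹ := by group
          _ = 1 := by rw [h2]; group }
  have hfree : ∀ b : Ω₀, MulAction.stabilizer L b = ⊥ := by
    intro b
    rw [eq_bot_iff]
    intro y hy
    rw [Subgroup.mem_bot]
    have h1 : y • b = b := hy
    have h2 : y • (b : G ⧸ H) = (b : G ⧸ H) := congrArg Subtype.val h1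
    exact b.2 y h2
  have hcard0 : Nat.card Ω₀ = Nat.card (Quotient (MulAction.orbitRel L Ω₀)) * Nat.card L := by
    rw [Nat.card_congr (MulAction.selfEquivOrbitsQuotientProd hfree), Nat.card_prod]
  have hmod : Nat.card (G ⧸ H) % Nat.card L = 1 % Nat.card L := by
    have h1 := (Cfsg.Agent.S0034.result H hH).2
    rw [← Subgroup.index_eq_card]
    exact Nat.ModEq.of_dvd hL h1
  set S₀ : Set (G ⧸ H) := {ω | ∀ y : L, y • ω = ω → y = 1} with hS₀
  have hc0 : S₀.ncard = Nat.card Ω₀ := (Nat.card_coe_set_eq S₀).symm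
  have hsum : S₀.ncard + S₀ᶜ.ncard = Nat.card (G ⧸ H) := Set.ncard_add_ncard_compl S₀
  -- the points with nontrivial stabilizer inject into L minus the identity
  have hex : ∀ ω : (S₀ᶜ : Set (G ⧸ H)), ∃ y : L, y • (ω : G ⧸ H) = ω ∧ y ≠ 1 := by
    intro ω
    have h1 : (ω : G ⧸ H) ∉ S₀ := ω.2
    by_contra hcon
    apply h1
    show ∀ y : L, y • (ω : G ⧸ H) = ω → y = 1
    intro y hy
    by_contra hy1
    exact hcon ⟨y, hy, hy1⟩
  choose f hf1 hf2 using hex
  have hfinj : Function.Injective f := by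
    intro ω ω' hff
    apply Subtype.ext
    have h1 := hf1 ω
    have h2 := hf1 ω'
    rw [← hff] at h2
    have hne : ((f ω : L) : G) ≠ 1 := fun h => hf2 ω (Subtype.ext h)
    exact fix_unique H hH (f ω : G) hne _ _ h1 h2
  have hlt : S₀ᶜ.ncard < Nat.card L := by
    rw [← Nat.card_coe_set_eq]
    haveI := Fintype.ofFinite (S₀ᶜ : Set (G ⧸ H))
    haveI := Fintype.ofFinite L
    rw [Nat.card_eq_fintype_card, Nat.card_eq_fintype_card]
    exact Fintype.card_lt_of_injective_of_notMem f hfinj (b := 1)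
      (by rintro ⟨ω, hω⟩; exact hf2 ω hω)
  have hone : S₀ᶜ.ncard = 1 := by
    rw [← hsum, hc0, hcard0, Nat.mul_add_mod_self_right, Nat.mod_eq_of_lt hlt,
      Nat.mod_eq_of_lt (by omega : 1 < Nat.card L)] at hmod
    exact hmod
  obtain ⟨ω₁, hω₁⟩ := Set.ncard_eq_one.mp hone
  have hfixall : ∀ y : L, y • ω₁ = ω₁ := by
    intro y
    have h1 : y • ω₁ ∈ S₀ᶜ := by
      intro hmem
      have h2 : y⁻¹ • (y • ω₁) ∈ S₀ := Ω₀.smul_mem y⁻¹ hmem
      rw [inv_smul_smul] at h2
      have h3 : ω₁ ∈ S₀ᶜ := by rw [hω₁]; exact Set.mem_singleton ω₁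
      exact h3 h2
    rw [hω₁] at h1
    exact h1
  induction ω₁ using QuotientGroup.induction_on with
  | H a =>
  refine ⟨a, ?_⟩
  intro y hy
  rw [mem_conj_smul]
  have h3 : ((y * a : G) : G ⧸ H) = (a : G ⧸ H) := hfixall ⟨y, hy⟩
  have h4 := QuotientGroup.eq.mp h3
  have e : a⁻¹ * y * a = ((y * a)⁻¹ * a)⁻¹ := by group
  rw [e]; exact H.inv_mem h4

/-- Let H be a Frobenius complement in a finite group G and L a subgroup of G whose order divides the order of H. Then L is contained in some conjugate of H. -/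
theorem result {G : Type*} [Group G] [Finite G] (H : Subgroup G) (hH : Cfsg.IsFrobeniusComplement H) (L : Subgroup G) (hL : Nat.card L ∣ Nat.card H) : ∃ x : G, L ≤ MulAut.conj x • H := by
  exact le_conj_of_card_dvd H hH L hL

end Cfsg.Agent.S0589
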