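import Mathlib
import Cfsg.Statements.S0556
import Cfsg.Agent.S0034
import Cfsg.Agent.S0557
import Cfsg.Agent.S0589
import Cfsg.Agent.Lib.Helper4.Conj
import Cfsg.Agent.Lib.Helper4.Card
import Cfsg.Agent.Lib.Helper4.MaxSub
import Cfsg.Agent.Lib.Helper4.SSMore

set_option autoImplicit false
open Cfsg

open scoped Pointwise commutatorElement

namespace Cfsg.Agent.S0556

universe u

open Cfsg.Agent.Lib.Helper4.Conj Cfsg.Agent.Lib.Helper4.Card Cfsg.Agent.Lib.Helper4.MaxSub

theorem frob_abelian_core {G : Type u} [Group G] [Finite G] (A : Subgroup G)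
    (hF : Cfsg.IsFrobeniusComplement A) (hA : IsCoatom A)
    (hAc : ∀ x ∈ A, ∀ y ∈ A, x * y = y * x) : derivedSeries G 2 = ⊥ := by
  classical
  obtain ⟨hAne, hAtop, hTI⟩ := hF
  have hF' : Cfsg.IsFrobeniusComplement A := ⟨hAne, hAtop, hTI⟩
  have hHall : (Nat.card A).Coprime A.index := by
    have h1 : A.index ≡ 1 [MOD Nat.card A] := (Cfsg.Agent.S0034.result A hF').2
    have h2 := h1.gcd_eq
    rw [Nat.gcd_one_left] at h2
    exact Nat.Coprime.symm h2
  have hfoc : (fun K : Subgroup G => Subgroup.focalSubgroup K)^[1] A = ⊥ := by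
    rw [Function.iterate_one]
    show A.focalSubgroup = ⊥
    rw [Subgroup.focalSubgroup_def, Subgroup.closure_eq_bot_iff]
    rintro g ⟨hg, x, hx, u, rfl⟩
    rw [Set.mem_singleton_iff]
    by_cases hu : u ∈ A
    · exact commutatorElement_eq_one_iff_mul_comm.mpr (hAc x hx u hu)
    · have h1 : u * x⁻¹ * u⁻¹ ∈ A := by
        have e : u * x⁻¹ * u⁻¹ = x⁻¹ * ⁅x, u⁆ := by rw [commutatorElement_def]; group
        rw [e]; exact A.mul_mem (A.inv_mem hx) hg
      have h2 : u * x⁻¹ * u⁻¹ ∈ MulAut.conj u • A := conj_mem_conj_smul (A.inv_mem hx)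
      have h3 : u * x⁻¹ * u⁻¹ ∈ A ⊓ MulAut.conj u • A := Subgroup.mem_inf.mpr ⟨h1, h2⟩
      rw [hTI u hu, Subgroup.mem_bot] at h3
      have hx1 : x = 1 := by
        have e : x = (u⁻¹ * (u * x⁻¹ * u⁻¹) * u)⁻¹ := by group
        rw [e, h3]; group
      rw [hx1]; exact commutatorElement_one_left u
  obtain ⟨K, hKn, hKc⟩ := Cfsg.Agent.S0557.result A hHall 1 hfoc
  haveI := hKn
  have hKA : K ⊓ A = ⊥ := disjoint_iff.mp hKc.disjoint
  have hKAtop : K ⊔ A = ⊤ := hKc.sup_eq_top
  have hcardKA : Nat.card K * Nat.card A = Nat.card G := hKc.card_mul_card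
  have hKne : K ≠ ⊥ := by
    intro h
    rw [h, bot_sup_eq] at hKAtop
    exact hAtop hKAtop
  have hKidx : K.index = Nat.card A := by
    have h1 : K.index * Nat.card K = Nat.card G := Subgroup.index_mul_card K
    rw [← hcardKA, mul_comm] at h1
    exact Nat.eq_of_mul_eq_mul_left Nat.card_pos h1
  have hKcop : (Nat.card K).Coprime (Nat.card A) := by
    have h1 : A.index * Nat.card A = Nat.card G := Subgroup.index_mul_card A
    have h2 : Nat.card K = A.index := by
      rw [← hcardKA] at h1
      exact (Nat.eq_of_mul_eq_mul_right Nat.card_pos h1).symm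
    rw [h2]; exact hHall.symm
  have hkey : ∀ Z : Subgroup G, Z.Normal → Z ≤ K → Z ≠ ⊥ → K ≤ Z := by
    intro Z hZn hZK hZne k hk
    haveI := hZn
    have hZA : ¬ Z ≤ A := by
      intro h
      apply hZne
      rw [eq_bot_iff, ← hKA]
      exact le_inf hZK h
    have htop : A ⊔ Z = ⊤ := sup_eq_top_of_not_le hA hZA
    have hk' : k ∈ Z ⊔ A := by rw [sup_comm, htop]; exact Subgroup.mem_top k
    rw [← SetLike.mem_coe, Subgroup.normal_mul] at hk'
    obtain ⟨z, hz, a, ha, rfl⟩ := Set.mem_mul.mp hk'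
    have haK : a ∈ K := by
      have e : a = z⁻¹ * (z * a) := by group
      rw [e]; exact K.mul_mem (K.inv_mem (hZK hz)) hk
    have ha1 : a ∈ K ⊓ A := Subgroup.mem_inf.mpr ⟨haK, ha⟩
    rw [hKA, Subgroup.mem_bot] at ha1
    rw [ha1, mul_one]; exact hz
  have hKcard1 : Nat.card K ≠ 1 := fun h => hKne (Subgroup.card_eq_one.mp h)
  obtain ⟨p, hp, hpd⟩ := Nat.exists_prime_and_dvd hKcard1
  haveI : Fact p.Prime := ⟨hp⟩
  obtain ⟨P⟩ : Nonempty (Sylow p K) := inferInstance
  set PG := (P : Subgroup K).map K.subtype with hPG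
  have hPGK : PG ≤ K := Subgroup.map_subtype_le _
  have hPGcard : Nat.card PG = p ^ (Nat.card K).factorization p := by
    rw [hPG, Subgroup.card_map_of_injective K.subtype_injective, Sylow.card_eq_multiplicity]
  have hPGgt : 1 < Nat.card PG := by
    rw [hPGcard]
    exact Nat.one_lt_pow (hp.factorization_pos_of_dvd Nat.card_pos.ne' hpd).ne' hp.one_lt
  set N := Subgroup.normalizer (PG : Set G) with hN
  have hfr : N ⊔ K = ⊤ := Sylow.normalizer_sup_eq_top P
  set K' : Subgroup N := K.subgroupOf N with hK'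
  haveI hK'n : K'.Normal := hKn.subgroupOf N
  have hK'idx : K'.index = Nat.card A := by
    show K.relIndex N = Nat.card A
    rw [← Subgroup.relIndex_sup_right (H := N) (K := K), hfr, Subgroup.relIndex_top_right, hKidx]
  have hK'card : Nat.card K' ∣ Nat.card K := by
    rw [hK', card_subgroupOf_eq]
    exact Subgroup.card_dvd_of_le inf_le_left
  have hK'cop : (Nat.card K').Coprime K'.index := by
    rw [hK'idx]; exact Nat.Coprime.coprime_dvd_left hK'card hKcop
  obtain ⟨A1', hA1'⟩ := Subgroup.exists_right_complement'_of_coprime hK'cop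
  have hA1'card : Nat.card A1' = Nat.card A := by
    have h1 := hA1'.card_mul_card
    have h2 : K'.index * Nat.card K' = Nat.card N := Subgroup.index_mul_card K'
    rw [hK'idx, ← h1, mul_comm] at h2
    exact (Nat.eq_of_mul_eq_mul_left Nat.card_pos h2).symm
  set A1 := A1'.map N.subtype with hA1
  have hA1N : A1 ≤ N := Subgroup.map_subtype_le _
  have hA1card : Nat.card A1 = Nat.card A := by
    rw [hA1, Subgroup.card_map_of_injective N.subtype_injective, hA1'card]
  obtain ⟨x, hx⟩ := Cfsg.Agent.S0589.result A hF' A1 (by rw [hA1card])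
  have hxA : MulAut.conj x • A = A1 := by
    symm
    apply Subgroup.eq_of_le_of_card_ge hx
    rw [card_conj_smul, hA1card]
  set P' := MulAut.conj x⁻¹ • PG with hP'
  have hP'card : Nat.card P' = Nat.card PG := card_conj_smul _ _
  have hP'K : P' ≤ K := by
    intro y hy
    rw [hP', mem_conj_smul, inv_inv] at hy
    have h1 := hPGK hy
    have e : y = x⁻¹ * (x * y * x⁻¹) * x⁻¹⁻¹ := by group
    rw [e]; exact hKn.conj_mem _ h1 x⁻¹
  have hAP' : A ≤ Subgroup.normalizer (P' : Set G) := by
    intro a ha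
    rw [mem_normalizer_iff_conj_smul_eq, hP', conj_smul_smul]
    have h1 : x * a * x⁻¹ ∈ N := by
      apply hA1N
      rw [← hxA]
      exact conj_mem_conj_smul ha
    have h2 : MulAut.conj (x * a * x⁻¹) • PG = PG := mem_normalizer_iff_conj_smul_eq.mp h1
    have e : a * x⁻¹ = x⁻¹ * (x * a * x⁻¹) := by group
    rw [e, ← conj_smul_smul, h2]
  have hP'ne : P' ≠ ⊥ := by
    intro h
    rw [h, Subgroup.card_bot] at hP'card
    omega
  have hP'A : ¬ P' ≤ A := by
    intro h
    apply hP'ne
    rw [eq_bot_iff, ← hKA]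
    exact le_inf hP'K h
  have hP'n : P'.Normal := by
    rw [← Subgroup.normalizer_eq_top_iff, eq_top_iff, ← sup_eq_top_of_not_le hA hP'A]
    exact sup_le hAP' Subgroup.le_normalizer
  haveI := hP'n
  have hP'p : IsPGroup p P' := IsPGroup.of_card (hP'card.trans hPGcard)
  set Zp := P' ⊓ Subgroup.centralizer (P' : Set G) with hZp
  have hZpn : Zp.Normal := inferInstance
  have hZpne : Zp ≠ ⊥ := by
    haveI : Nontrivial P' := (Subgroup.nontrivial_iff_ne_bot P').mpr hP'ne
    haveI := hP'p.center_nontrivial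
    obtain ⟨z, hz⟩ := exists_ne (1 : Subgroup.center P')
    intro h
    have hzZ : ((z : P') : G) ∈ Zp := by
      refine Subgroup.mem_inf.mpr ⟨(z : P').2, ?_⟩
      rw [Subgroup.mem_centralizer_iff]
      intro y hy
      exact congrArg Subtype.val (Subgroup.mem_center_iff.mp z.2 ⟨y, hy⟩)
    rw [h, Subgroup.mem_bot] at hzZ
    apply hz
    apply Subtype.ext; apply Subtype.ext
    exact hzZ
  have hKZ : K ≤ Zp := hkey Zp hZpn (inf_le_left.trans hP'K) hZpne
  have hKab : ∀ a ∈ K, ∀ b ∈ K, a * b = b * a := by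
    intro a ha b hb
    have h1 := (Subgroup.mem_inf.mp (hKZ hb)).2
    have h2 := (Subgroup.mem_inf.mp (hKZ ha)).1
    exact Subgroup.mem_centralizer_iff.mp h1 a h2
  have hD1 : derivedSeries G 1 ≤ K := by
    rw [derivedSeries_succ, derivedSeries_zero, Subgroup.commutator_le]
    intro g1 _ g2 _
    have hdec : ∀ g : G, ∃ a ∈ A, (QuotientGroup.mk' K) g = (QuotientGroup.mk' K) a := by
      intro g
      have hg : g ∈ K ⊔ A := by rw [hKAtop]; exact Subgroup.mem_top g
      rw [← SetLike.mem_coe, Subgroup.normal_mul] at hg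
      obtain ⟨k, hk, a, ha, rfl⟩ := Set.mem_mul.mp hg
      refine ⟨a, ha, ?_⟩
      have h1 : (QuotientGroup.mk' K) k = 1 := (QuotientGroup.eq_one_iff k).mpr hk
      rw [map_mul, h1, one_mul]
    obtain ⟨a1, ha1, e1⟩ := hdec g1
    obtain ⟨a2, ha2, e2⟩ := hdec g2
    rw [← QuotientGroup.eq_one_iff]
    show (QuotientGroup.mk' K) ⁅g1, g2⁆ = 1
    rw [map_commutatorElement, e1, e2, ← map_commutatorElement,
      commutatorElement_eq_one_iff_mul_comm.mpr (hAc a1 ha1 a2 ha2), map_one]
  rw [derivedSeries_succ, eq_bot_iff]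
  refine (Subgroup.commutator_mono hD1 hD1).trans ?_
  rw [Subgroup.commutator_le]
  intro a ha b hb
  rw [Subgroup.mem_bot]
  exact commutatorElement_eq_one_iff_mul_comm.mpr (hKab a ha b hb)

theorem main {G : Type u} [Group G] [Finite G] (A : Subgroup G) (hA : IsCoatom A)
    (hAc : ∀ x ∈ A, ∀ y ∈ A, x * y = y * x) : derivedSeries G 3 = ⊥ := by
  classical
  have hAA : ⁅A, A⁆ = ⊥ := by
    rw [eq_bot_iff, Subgroup.commutator_le]
    intro a ha b hb
    rw [Subgroup.mem_bot]
    exact commutatorElement_eq_one_iff_mul_comm.mpr (hAc a ha b hb)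
  by_cases hAn : A.Normal
  · haveI := hAn
    obtain ⟨x, hx⟩ : ∃ x : G, x ∉ A := by
      by_contra hcon
      apply hA.1
      rw [eq_top_iff]
      intro g _
      by_contra hg
      exact hcon ⟨g, hg⟩
    have htop : A ⊔ Subgroup.zpowers x = ⊤ :=
      sup_eq_top_of_not_le hA (fun h => hx (h (Subgroup.mem_zpowers x)))
    have hD1 : derivedSeries G 1 ≤ A := by
      rw [derivedSeries_succ, derivedSeries_zero, Subgroup.commutator_le]
      intro g1 _ g2 _
      have hdec : ∀ g : G, ∃ i : ℤ, (QuotientGroup.mk' A) g = (QuotientGroup.mk' A) x ^ i := by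
        intro g
        have hg : g ∈ A ⊔ Subgroup.zpowers x := by rw [htop]; exact Subgroup.mem_top g
        rw [← SetLike.mem_coe, Subgroup.normal_mul] at hg
        obtain ⟨a, ha, y, hy, rfl⟩ := Set.mem_mul.mp hg
        obtain ⟨i, rfl⟩ := Subgroup.mem_zpowers_iff.mp hy
        refine ⟨i, ?_⟩
        have h1 : (QuotientGroup.mk' A) a = 1 := (QuotientGroup.eq_one_iff a).mpr ha
        rw [map_mul, h1, one_mul, map_zpow]
      obtain ⟨i, e1⟩ := hdec g1
      obtain ⟨j, e2⟩ := hdec g2
      rw [← QuotientGroup.eq_one_iff]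
      show (QuotientGroup.mk' A) ⁅g1, g2⁆ = 1
      rw [map_commutatorElement, e1, e2]
      exact commutatorElement_eq_one_iff_commute.mpr ((Commute.refl _).zpow_zpow i j)
    have hD2 : derivedSeries G 2 = ⊥ := by
      rw [derivedSeries_succ, eq_bot_iff, ← hAA]
      exact Subgroup.commutator_mono hD1 hD1
    rw [derivedSeries_succ, hD2]
    exact Subgroup.commutator_bot_left _
  · have hNA : Subgroup.normalizer (A : Set G) = A := by
      by_contra hne
      have hlt : A < Subgroup.normalizer (A : Set G) :=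
        lt_of_le_of_ne Subgroup.le_normalizer (Ne.symm hne)
      exact hAn (Subgroup.normalizer_eq_top_iff.mp (hA.2 _ hlt))
    have hconj : ∀ x : G, x ∉ A → ¬ MulAut.conj x • A ≤ A := by
      intro x hx h
      apply hx
      rw [← hNA]
      exact mem_normalizer_iff_conj_smul_eq.mpr (conj_smul_eq_of_le h)
    set Z := Subgroup.center G with hZ
    have hZA : Z ≤ A := by
      by_contra hZA
      have htop : A ⊔ Z = ⊤ := sup_eq_top_of_not_le hA hZA
      apply hAn
      constructor
      intro y hy g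
      have hg : g ∈ A ⊔ Z := by rw [htop]; exact Subgroup.mem_top g
      rw [← SetLike.mem_coe, Subgroup.mul_normal] at hg
      obtain ⟨a, ha, z, hz, rfl⟩ := Set.mem_mul.mp hg
      have hzc : z * y = y * z := (Subgroup.mem_center_iff.mp hz y).symm
      have e : a * z * y * (a * z)⁻¹ = a * (z * y) * z⁻¹ * a⁻¹ := by group
      rw [e, hzc]
      have e2 : a * (y * z) * z⁻¹ * a⁻¹ = a * y * a⁻¹ := by group
      rw [e2]
      exact A.mul_mem (A.mul_mem ha hy) (A.inv_mem ha)
    have hTI : ∀ x : G, x ∉ A → A ⊓ MulAut.conj x • A ≤ Z := by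
      intro x hx y hy
      obtain ⟨hyA, hyx⟩ := Subgroup.mem_inf.mp hy
      have hsup : A ⊔ MulAut.conj x • A = ⊤ := sup_eq_top_of_not_le hA (hconj x hx)
      have hle : A ⊔ MulAut.conj x • A ≤ Subgroup.centralizer {y} := by
        apply sup_le
        · intro a ha
          rw [Subgroup.mem_centralizer_iff]
          intro w hw
          rw [Set.mem_singleton_iff] at hw
          rw [hw]; exact hAc y hyA a ha
        · intro a ha
          rw [Subgroup.mem_centralizer_iff]
          intro w hw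
          rw [Set.mem_singleton_iff] at hw
          rw [hw]
          rw [mem_conj_smul] at ha hyx
          have h1 := hAc _ hyx _ ha
          calc y * a = x * ((x⁻¹ * y * x) * (x⁻¹ * a * x)) * x⁻¹ := by group
            _ = x * ((x⁻¹ * a * x) * (x⁻¹ * y * x)) * x⁻¹ := by rw [h1]
            _ = a * y := by group
      rw [hsup] at hle
      rw [hZ, Subgroup.mem_center_iff]
      intro g
      have h1 := Subgroup.mem_centralizer_iff.mp (hle (Subgroup.mem_top g)) y
        (Set.mem_singleton y)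
      exact h1.symm
    set π := QuotientGroup.mk' Z with hπ
    have hπs : Function.Surjective π := QuotientGroup.mk'_surjective Z
    have hker : π.ker = Z := QuotientGroup.ker_mk' Z
    set Ab := A.map π with hAb
    have hAbco : IsCoatom Ab :=
      Cfsg.Agent.Lib.Helper4.SSMore.isCoatom_map_of_ker_le π hπs hA (by rw [hker]; exact hZA)
    have hAbc : ∀ a ∈ Ab, ∀ b ∈ Ab, a * b = b * a := by
      rintro _ ⟨a, ha, rfl⟩ _ ⟨b, hb, rfl⟩
      rw [← map_mul, ← map_mul, hAc a ha b hb]
    have hAbF : Cfsg.IsFrobeniusComplement Ab := by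
      refine ⟨?_, hAbco.1, ?_⟩
      · intro h
        have h1 : A ≤ Z := by rw [← hker]; exact (Subgroup.map_eq_bot_iff A).mp h
        have h2 : A = Z := le_antisymm h1 hZA
        apply hAn
        rw [h2]; infer_instance
      · intro gb hgb
        obtain ⟨g, rfl⟩ := hπs gb
        have hg : g ∉ A := fun h => hgb (Subgroup.mem_map_of_mem π h)
        rw [eq_bot_iff]
        intro w hw
        obtain ⟨hw1, hw2⟩ := Subgroup.mem_inf.mp hw
        obtain ⟨a, ha, rfl⟩ := hw1
        rw [mem_conj_smul] at hw2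
        obtain ⟨b, hb, hbe⟩ := hw2
        have h1 : π b = π (g⁻¹ * a * g) := by rw [hbe]; simp
        have h2 : b⁻¹ * (g⁻¹ * a * g) ∈ Z := by
          rw [← hker, MonoidHom.mem_ker, map_mul, map_inv, h1]; simp
        have h3 : g⁻¹ * a * g ∈ A := by
          have e : g⁻¹ * a * g = b * (b⁻¹ * (g⁻¹ * a * g)) := by group
          rw [e]; exact A.mul_mem hb (hZA h2)
        have h4 : a ∈ A ⊓ MulAut.conj g • A := Subgroup.mem_inf.mpr ⟨ha, mem_conj_smul.mpr h3⟩
        have h5 : a ∈ Z := hTI g hg h4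
        rw [Subgroup.mem_bot]
        rw [← hker, MonoidHom.mem_ker] at h5
        exact h5
    have hD2b := frob_abelian_core Ab hAbF hAbco hAbc
    have hD2 : derivedSeries G 2 ≤ Z := by
      rw [← hker, ← Subgroup.map_eq_bot_iff, map_derivedSeries_eq hπs 2]
      exact hD2b
    rw [derivedSeries_succ, eq_bot_iff, Subgroup.commutator_le]
    intro a ha b hb
    rw [Subgroup.mem_bot]
    have h1 := Subgroup.mem_center_iff.mp (hD2 ha) b
    exact commutatorElement_eq_one_iff_mul_comm.mpr h1.symm

/-- If a finite group has a maximal subgroup that is abelian, then the third term of its derived series is trivial (so the group is solvable of derived length at most three). -/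
theorem result {G : Type*} [Group G] [Finite G] (A : Subgroup G) (hA : IsCoatom A) [IsMulCommutative A] : derivedSeries G 3 = ⊥ := by
  exact main A hA (fun x hx y hy => congrArg Subtype.val
      (IsMulCommutative.is_comm.comm (⟨x, hx⟩ : A) ⟨y, hy⟩))

end Cfsg.Agent.S0556
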