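import Mathlib
import Cfsg.Statements.S0560
import Cfsg.Agent.Lib.Helper4.Card
import Cfsg.Agent.Lib.Helper4.Conj

set_option autoImplicit false
open Pointwise
open Cfsg

open scoped Pointwise

namespace Cfsg.Agent.S0560

/-- Let the finite group G be the product HK of two subgroups and p a prime. Then there are Sylow p-subgroups P of H and Q of K and a Sylow p-subgroup R of G whose underlying set is the product set of P and Q. -/
theorem result {G : Type*} [Group G] [Finite G] (H K : Subgroup G) (hHK : ∀ g : G, ∃ h ∈ H, ∃ k ∈ K, g = h * k) (p : ℕ) [Fact p.Prime] : ∃ (P : Sylow p H) (Q : Sylow p K) (R : Sylow p G), ((R : Subgroup G) : Set G) = (((P : Subgroup H).map H.subtype : Subgroup G) : Set G) * (((Q : Subgroup K).map K.subtype : Subgroup G) : Set G) := by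
  classical
  obtain ⟨P₀⟩ : Nonempty (Sylow p H) := inferInstance
  obtain ⟨Q₀⟩ : Nonempty (Sylow p K) := inferInstance
  obtain ⟨R₀⟩ : Nonempty (Sylow p G) := inferInstance
  obtain ⟨Ra, hRa⟩ := (P₀.isPGroup'.map H.subtype).exists_le_sylow
  obtain ⟨Rb, hRb⟩ := (Q₀.isPGroup'.map K.subtype).exists_le_sylow
  obtain ⟨a, ha⟩ := MulAction.exists_smul_eq G R₀ Ra
  obtain ⟨b, hb⟩ := MulAction.exists_smul_eq G R₀ Rb
  obtain ⟨h', hh', k', hk', hab⟩ := hHK (a * b⁻¹)
  have hhk : h'⁻¹ * a = k' * b := by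
    have : a = h' * k' * b := by rw [← hab]; group
    rw [this]; group
  set h : H := ⟨h'⁻¹, H.inv_mem hh'⟩ with hh
  set k : K := ⟨k', hk'⟩ with hk
  refine ⟨h • P₀, k • Q₀, (h'⁻¹ * a) • R₀, ?_⟩
  set P' : Subgroup G := ((h • P₀ : Sylow p H) : Subgroup H).map H.subtype with hP'
  set Q' : Subgroup G := ((k • Q₀ : Sylow p K) : Subgroup K).map K.subtype with hQ'
  set R : Sylow p G := (h'⁻¹ * a) • R₀ with hR
  have hP'R : P' ≤ (R : Subgroup G) := by
    rintro _ ⟨y, hy, rfl⟩
    rw [SetLike.mem_coe, Sylow.coe_subgroup_smul, Cfsg.Agent.Lib.Helper4.Conj.mem_conj_smul] at hy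
    have h1 : H.subtype (h⁻¹ * y * h) ∈ (Ra : Subgroup G) := hRa (Subgroup.mem_map_of_mem _ hy)
    rw [← ha, Sylow.coe_subgroup_smul, Cfsg.Agent.Lib.Helper4.Conj.mem_conj_smul] at h1
    rw [hR, Sylow.coe_subgroup_smul, Cfsg.Agent.Lib.Helper4.Conj.mem_conj_smul]
    have e : (h'⁻¹ * a)⁻¹ * H.subtype y * (h'⁻¹ * a) = a⁻¹ * H.subtype (h⁻¹ * y * h) * a := by
      simp only [hh, Subgroup.coe_subtype, Subgroup.coe_mul, Subgroup.coe_inv]
      group
    rw [e]; exact h1
  have hQ'R : Q' ≤ (R : Subgroup G) := by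
    rintro _ ⟨y, hy, rfl⟩
    rw [SetLike.mem_coe, Sylow.coe_subgroup_smul, Cfsg.Agent.Lib.Helper4.Conj.mem_conj_smul] at hy
    have h1 : K.subtype (k⁻¹ * y * k) ∈ (Rb : Subgroup G) := hRb (Subgroup.mem_map_of_mem _ hy)
    rw [← hb, Sylow.coe_subgroup_smul, Cfsg.Agent.Lib.Helper4.Conj.mem_conj_smul] at h1
    rw [hR, hhk, Sylow.coe_subgroup_smul, Cfsg.Agent.Lib.Helper4.Conj.mem_conj_smul]
    have e : (k' * b)⁻¹ * K.subtype y * (k' * b) = b⁻¹ * K.subtype (k⁻¹ * y * k) * b := by
      simp only [hk, Subgroup.coe_subtype, Subgroup.coe_mul, Subgroup.coe_inv]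
      group
    rw [e]; exact h1
  have hsub : (P' : Set G) * (Q' : Set G) ⊆ ((R : Subgroup G) : Set G) := by
    rintro _ ⟨x, hx, y, hy, rfl⟩
    exact (R : Subgroup G).mul_mem (hP'R hx) (hQ'R hy)
  -- cardinalities
  have hp : p.Prime := Fact.out
  have cP : Nat.card P' = p ^ (Nat.card H).factorization p := by
    rw [hP', Subgroup.card_map_of_injective H.subtype_injective]
    exact (h • P₀).card_eq_multiplicity
  have cQ : Nat.card Q' = p ^ (Nat.card K).factorization p := by
    rw [hQ', Subgroup.card_map_of_injective K.subtype_injective]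
    exact (k • Q₀).card_eq_multiplicity
  have cR : Nat.card (R : Subgroup G) = p ^ (Nat.card G).factorization p := R.card_eq_multiplicity
  have hI : IsPGroup p ↥(P' ⊓ Q') := by
    have h1 : IsPGroup p P' := (h • P₀).isPGroup'.map H.subtype
    exact h1.to_le inf_le_left
  obtain ⟨j, hj⟩ := IsPGroup.iff_card.mp hI
  have hle : P' ⊓ Q' ≤ H ⊓ K :=
    inf_le_inf (Subgroup.map_subtype_le _) (Subgroup.map_subtype_le _)
  have hjle : j ≤ (Nat.card ↥(H ⊓ K)).factorization p := by
    have h1 : p ^ j ∣ Nat.card ↥(H ⊓ K) := hj ▸ Subgroup.card_dvd_of_le hle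
    exact (hp.pow_dvd_iff_le_factorization Nat.card_pos.ne').mp h1
  have hHKuniv : (H : Set G) * (K : Set G) = Set.univ := by
    rw [Set.eq_univ_iff_forall]
    intro g
    obtain ⟨x, hx, y, hy, rfl⟩ := hHK g
    exact Set.mul_mem_mul hx hy
  have h1 := Cfsg.Agent.Lib.Helper4.Card.card_mul_set H K
  rw [hHKuniv, Nat.card_coe_set_eq, Set.ncard_univ] at h1
  have hv : (Nat.card G).factorization p + (Nat.card ↥(H ⊓ K)).factorization p
      = (Nat.card H).factorization p + (Nat.card K).factorization p := by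
    have : (Nat.card G * Nat.card ↥(H ⊓ K)).factorization p
        = (Nat.card H * Nat.card K).factorization p := by rw [h1]
    rw [Nat.factorization_mul Nat.card_pos.ne' Nat.card_pos.ne',
      Nat.factorization_mul Nat.card_pos.ne' Nat.card_pos.ne'] at this
    simpa using this
  have h2 := Cfsg.Agent.Lib.Helper4.Card.card_mul_set P' Q'
  rw [cP, cQ, hj, ← pow_add, ← hv] at h2
  have h3 : Nat.card ((P' : Set G) * (Q' : Set G) : Set G)
      = p ^ (Nat.card G).factorization p * p ^ ((Nat.card ↥(H ⊓ K)).factorization p - j) := by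
    have e : p ^ ((Nat.card G).factorization p + (Nat.card ↥(H ⊓ K)).factorization p)
        = p ^ (Nat.card G).factorization p * p ^ ((Nat.card ↥(H ⊓ K)).factorization p - j) * p ^ j := by
      rw [← pow_add, ← pow_add]; congr 1; omega
    rw [e] at h2
    exact Nat.eq_of_mul_eq_mul_right (pow_pos hp.pos j) h2
  have h4 : Nat.card ((R : Subgroup G) : Set G) ≤ Nat.card ((P' : Set G) * (Q' : Set G) : Set G) := by
    rw [h3]
    have : Nat.card ((R : Subgroup G) : Set G) = p ^ (Nat.card G).factorization p := cR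
    rw [this]
    exact Nat.le_mul_of_pos_right _ (pow_pos hp.pos _)
  rw [Nat.card_coe_set_eq, Nat.card_coe_set_eq] at h4
  exact (Set.eq_of_subset_of_ncard_le hsub h4 (Set.toFinite _)).symm

end Cfsg.Agent.S0560
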