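import Mathlib
import Cfsg.Statements.S0563
import Cfsg.Agent.Lib.Helper4.KW4

set_option autoImplicit false
open Pointwise
open Cfsg

namespace Cfsg.Agent.S0563

theorem card_eq_of_coprime {G : Type*} [Group G] [Finite G] (A B : Subgroup G)
    (hcop : (Nat.card A).Coprime (Nat.card B)) (hAB : ∀ g : G, ∃ a ∈ A, ∃ b ∈ B, g = a * b) :
    Nat.card G = Nat.card A * Nat.card B := by
  have hinf : A ⊓ B = ⊥ := by
    rw [← Subgroup.card_eq_one]
    exact Nat.eq_one_of_dvd_coprimes hcop (Subgroup.card_dvd_of_le inf_le_left)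
      (Subgroup.card_dvd_of_le inf_le_right)
  have h := Cfsg.Agent.Lib.Helper4.Card.card_mul_set A B
  rw [hinf, Subgroup.card_bot, mul_one] at h
  rw [← h]
  have hset : ((A : Set G) * (B : Set G)) = Set.univ := by
    ext g; simp only [Set.mem_univ, iff_true]
    obtain ⟨a, ha, b, hb, rfl⟩ := hAB g
    exact Set.mul_mem_mul ha hb
  rw [hset]
  exact (Nat.card_congr (Equiv.Set.univ G)).symm

theorem hall_Syl {G : Type*} [Group G] [Finite G] (A : Subgroup G) {n : ℕ}
    (hcop : (Nat.card A).Coprime n) (hcard : Nat.card G = Nat.card A * n) {p : ℕ} (hp : p.Prime) :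
    (Nat.card (Cfsg.Agent.Lib.Helper4.KW.Syl A p)).Coprime
      (Cfsg.Agent.Lib.Helper4.KW.Syl A p).index := by
  have h2 := Subgroup.card_mul_index (Cfsg.Agent.Lib.Helper4.KW.Syl A p)
  rw [Cfsg.Agent.Lib.Helper4.KW.card_Syl A hp, hcard] at h2
  rw [Cfsg.Agent.Lib.Helper4.KW.card_Syl A hp]
  exact Cfsg.Agent.Lib.Helper4.KW.hall_arith hp hcop Nat.card_pos.ne' h2

/-- If a finite group G is the product AB of two nilpotent subgroups of coprime orders, then G is solvable, and for every Sylow p-subgroup P of A and Sylow q-subgroup Q of B the product set PQ is a subgroup. -/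
theorem result {G : Type*} [Group G] [Finite G] (A B : Subgroup G) (hA : Group.IsNilpotent A) (hB : Group.IsNilpotent B) (hcop : (Nat.card A).Coprime (Nat.card B)) (hAB : ∀ g : G, ∃ a ∈ A, ∃ b ∈ B, g = a * b) : Group.IsSolvable G ∧ ∀ (p q : ℕ) [Fact p.Prime] [Fact q.Prime] (P : Sylow p A) (Q : Sylow q B), ∃ S : Subgroup G, (S : Set G) = (((P : Subgroup A).map A.subtype : Subgroup G) : Set G) * (((Q : Subgroup B).map B.subtype : Subgroup G) : Set G) := by
  have hsol : Group.IsSolvable G :=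
    Cfsg.Agent.Lib.Helper4.KW.coprime_solvable (Nat.card G) G rfl A B hA hB hcop hAB
  refine ⟨hsol, ?_⟩
  intro p q _ _ P Q
  haveI := hsol
  have hp : p.Prime := Fact.out
  have hq : q.Prime := Fact.out
  have hcard := card_eq_of_coprime A B hcop hAB
  have hcard' : Nat.card G = Nat.card B * Nat.card A := by rw [hcard, mul_comm]
  rw [Cfsg.Agent.Lib.Helper4.KW.map_sylow_eq_Syl hA hp P,
    Cfsg.Agent.Lib.Helper4.KW.map_sylow_eq_Syl hB hq Q]
  obtain ⟨S, hS⟩ := Cfsg.Agent.S0561.result A B (Cfsg.Agent.Lib.Helper4.KW.Syl A p)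
    (Cfsg.Agent.Lib.Helper4.KW.Syl B q) hAB (Cfsg.Agent.Lib.Helper4.KW.Syl_le A p)
    ((Subgroup.normal_subgroupOf_iff_le_normalizer (Cfsg.Agent.Lib.Helper4.KW.Syl_le A p)).2
      (Cfsg.Agent.Lib.Helper4.KW.Syl_normal hA hp))
    (Cfsg.Agent.Lib.Helper4.KW.Syl_le B q)
    ((Subgroup.normal_subgroupOf_iff_le_normalizer (Cfsg.Agent.Lib.Helper4.KW.Syl_le B q)).2
      (Cfsg.Agent.Lib.Helper4.KW.Syl_normal hB hq))
    (hall_Syl A hcop hcard hp) (hall_Syl B hcop.symm hcard' hq) 1 1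
  rw [Cfsg.Agent.Lib.Helper4.Conj.conj_one_smul, Cfsg.Agent.Lib.Helper4.Conj.conj_one_smul] at hS
  exact ⟨S, hS⟩

end Cfsg.Agent.S0563
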