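import Mathlib
import Cfsg.Statements.S0564
import Cfsg.Agent.Lib.Helper4.KW4
import Cfsg.Agent.Lib.Helper4.KW5
import Cfsg.Agent.S0560

set_option autoImplicit false
open Cfsg

open Pointwise

namespace Cfsg.Agent.S0564

universe u

open Cfsg.Agent.Lib.Helper4 Cfsg.Agent.Lib.Helper4.KW in
theorem kw_all : ∀ (n : ℕ) (G : Type u) [Group G] [Finite G], Nat.card G = n →
    ∀ A B : Subgroup G, Group.IsNilpotent A → Group.IsNilpotent B →
      (∀ g : G, ∃ a ∈ A, ∃ b ∈ B, g = a * b) → Group.IsSolvable G := by
  intro n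
  induction n using Nat.strong_induction_on with
  | _ n ih =>
    intro G _ _ hn A B hA hB hAB
    by_contra ns
    have hquot : ∀ (N : Subgroup G) [N.Normal], N ≠ ⊥ → Group.IsSolvable (G ⧸ N) := by
      intro N hN h0
      have hlt : Nat.card (G ⧸ N) < n := by
        have h := Subgroup.card_eq_card_quotient_mul_card_subgroup N
        have h2 : 1 < Nat.card N := (Subgroup.one_lt_card_iff_ne_bot N).2 h0
        have h3 : 0 < Nat.card (G ⧸ N) := Nat.card_pos
        rw [← hn]; nlinarith
      refine ih (Nat.card (G ⧸ N)) hlt (G ⧸ N) rfl (A.map (QuotientGroup.mk' N))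
        (B.map (QuotientGroup.mk' N)) ?_ ?_ ?_
      · haveI := hA
        exact Group.nilpotent_of_surjective ((QuotientGroup.mk' N).subgroupMap A)
          ((QuotientGroup.mk' N).subgroupMap_surjective A)
      · haveI := hB
        exact Group.nilpotent_of_surjective ((QuotientGroup.mk' N).subgroupMap B)
          ((QuotientGroup.mk' N).subgroupMap_surjective B)
      · intro g
        obtain ⟨g, rfl⟩ := QuotientGroup.mk'_surjective N g
        obtain ⟨a, ha, b, hb, rfl⟩ := hAB g
        exact ⟨_, Subgroup.mem_map_of_mem _ ha, _, Subgroup.mem_map_of_mem _ hb, map_mul _ a b⟩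
    have hnos : ∀ N : Subgroup G, N.Normal → Group.IsSolvable N → N = ⊥ := by
      intro N hN hs
      by_contra h0
      haveI := hN
      haveI := hs
      haveI := hquot N h0
      exact ns (Group.isSolvable_of_ker_le_range N.subtype (QuotientGroup.mk' N)
        (by rw [QuotientGroup.ker_mk', Subgroup.range_subtype]))
    by_cases hcop : (Nat.card A).Coprime (Nat.card B)
    · exact ns (coprime_solvable (Nat.card G) G rfl A B hA hB hcop hAB)
    obtain ⟨p, hp, hpA, hpB⟩ := Nat.Prime.not_coprime_iff_dvd.1 hcop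
    haveI : Fact p.Prime := ⟨hp⟩
    have hO : ∀ N : Subgroup G, N.Normal → IsPGroup p N → N = ⊥ := fun N hN hNp => by
      haveI := hNp.isNilpotent
      exact hnos N hN inferInstance
    have hU0 : Syl A p ≠ ⊥ := Syl_ne_bot A hp hpA
    have hV0 : Syl B p ≠ ⊥ := Syl_ne_bot B hp hpB
    have hperm : Perm (Syl A p) (Syl B p) := by
      obtain ⟨P, Q, R, hR⟩ := Cfsg.Agent.S0560.result A B hAB p
      rw [map_sylow_eq_Syl hA hp P, map_sylow_eq_Syl hB hp Q] at hR
      intro x
      obtain ⟨a, ha, b, hb, rfl⟩ := hAB x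
      refine ⟨MulAut.conj a • (R : Subgroup G), ?_⟩
      have e1 : MulAut.conj (a * b) • Syl B p = MulAut.conj a • Syl B p := by
        rw [← Conj.conj_smul_smul, Conj.mem_normalizer_iff_conj_smul_eq.1 (Syl_normal hB hp hb)]
      have e2 : MulAut.conj a • Syl A p = Syl A p :=
        Conj.mem_normalizer_iff_conj_smul_eq.1 (Syl_normal hA hp ha)
      rw [e1, conj_smul_mul_set a hR, e2]
    obtain ⟨DA, hDA⟩ : ∃ DA : Subgroup G, DA = Subgroup.normalClosure (Syl A p : Set G) :=
      ⟨_, rfl⟩
    obtain ⟨DB, hDB⟩ : ∃ DB : Subgroup G, DB = Subgroup.normalClosure (Syl B p : Set G) :=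
      ⟨_, rfl⟩
    have hDAn : DA.Normal := hDA ▸ Subgroup.normalClosure_normal
    have hDBn : DB.Normal := hDB ▸ Subgroup.normalClosure_normal
    have hUDA : Syl A p ≤ DA := fun x hx => hDA ▸ Subgroup.subset_normalClosure hx
    have hVDB : Syl B p ≤ DB := fun x hx => hDB ▸ Subgroup.subset_normalClosure hx
    have hDA0 : DA ≠ ⊥ := fun h => hU0 (le_bot_iff.1 (h ▸ hUDA))
    have hDB0 : DB ≠ ⊥ := fun h => hV0 (le_bot_iff.1 (h ▸ hVDB))
    have hcomm : ∀ x ∈ DA, ∀ y ∈ DB, x * y = y * x := by
      intro x hx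
      have h1 : DB ≤ Subgroup.centralizer {x} := by
        rw [hDB]
        apply normalClosure_le_of_conj_le
        intro c y hy
        have h2 : DA ≤ Subgroup.centralizer {y} := by
          rw [hDA]
          apply normalClosure_le_of_conj_le
          intro g u hu
          rw [mem_cent]
          exact (W_comm p hO (conj_isPGroup (Syl_isPGroup A p) g)
            (conj_isPGroup (Syl_isPGroup B p) c) (hperm.conj g c) u hu y hy).symm
        exact mem_cent.2 (mem_cent.1 (h2 hx)).symm
      intro y hy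
      exact mem_cent.1 (h1 hy)
    haveI := hDAn
    haveI := hDBn
    have hinf : DA ⊓ DB = ⊥ := by
      apply hnos (DA ⊓ DB) (Subgroup.normal_inf_normal DA DB)
      exact Group.isSolvable_of_comm (by
        rintro ⟨a, ha⟩ ⟨b, hb⟩
        exact Subtype.ext (hcomm a ha.1 b hb.2))
    haveI := hquot DA hDA0
    haveI := hquot DB hDB0
    have hinj : Function.Injective ((QuotientGroup.mk' DA).prod (QuotientGroup.mk' DB)) := by
      rw [injective_iff_map_eq_one]
      intro g hg
      have h1 : (QuotientGroup.mk' DA) g = 1 := congrArg Prod.fst hg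
      have h2 : (QuotientGroup.mk' DB) g = 1 := congrArg Prod.snd hg
      have h3 : g ∈ DA ⊓ DB :=
        ⟨(QuotientGroup.eq_one_iff g).1 h1, (QuotientGroup.eq_one_iff g).1 h2⟩
      rw [hinf] at h3; exact Subgroup.mem_bot.1 h3
    exact ns (Group.isSolvable_of_isSolvable_injective hinj)

/-- The Kegel–Wielandt Theorem: a finite group G = AB with A and B nilpotent subgroups is solvable. -/
theorem result {G : Type*} [Group G] [Finite G] (A B : Subgroup G) (hA : Group.IsNilpotent A) (hB : Group.IsNilpotent B) (hAB : ∀ g : G, ∃ a ∈ A, ∃ b ∈ B, g = a * b) : Group.IsSolvable G := by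
  exact kw_all (Nat.card G) G rfl A B hA hB hAB

end Cfsg.Agent.S0564
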