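import Mathlib
import Cfsg.Statements.S0565
import Cfsg.Agent.Lib.Helper4.KW1
import Cfsg.Agent.Lib.Lead.Hall
import Cfsg.Agent.S0563
import Cfsg.Agent.S0564

set_option autoImplicit false
open Cfsg

open Pointwise

namespace Cfsg.Agent.S0565

universe u

theorem nilp_case {G : Type*} [Group G] [Finite G] (hG : Group.IsNilpotent G) {B : Subgroup G}
    (hB : B ≠ ⊤) : ∃ N : Subgroup G, N.Normal ∧ N ≠ ⊤ ∧ B ≤ N := by
  haveI := hG
  rcases eq_top_or_exists_le_coatom B with h | ⟨M, hM, hBM⟩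
  · exact absurd h hB
  · exact ⟨M, Subgroup.NormalizerCondition.normal_of_coatom M
      Group.normalizerCondition_of_isNilpotent hM, hM.1, hBM⟩

open Cfsg.Agent.Lib.Helper4 Cfsg.Agent.Lib.Helper4.KW in
theorem pprime_of_Q {G : Type u} [Group G] [Finite G] {A : Subgroup G}
    (hA : Group.IsNilpotent A) (hAtop : A ≠ ⊤)
    (hQ : ∀ L : Subgroup G, L.Normal → L ≠ ⊥ → ∀ g : G, ∃ a ∈ A, ∃ n ∈ L, g = a * n)
    {p : ℕ} (hp : p.Prime) {N : Subgroup G} (hN : N.Normal) (hN0 : N ≠ ⊥) (hNp : IsPGroup p N) :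
    ¬ p ∣ Nat.card A := by
  intro hpA
  haveI : Fact p.Prime := ⟨hp⟩
  have hP₀ : Syl A p ≠ ⊥ := Syl_ne_bot A hp hpA
  have hNtop : Subgroup.normalizer (N : Set G) = ⊤ := Subgroup.normalizer_eq_top_iff.2 hN
  have hPp : IsPGroup p ↥(Syl A p ⊔ N) :=
    IsPGroup.to_sup_of_normal_right' (Syl_isPGroup A p) hNp (by rw [hNtop]; exact le_top)
  have hPn : (Syl A p ⊔ N).Normal := by
    rw [← Subgroup.normalizer_eq_top_iff, eq_top_iff]
    intro g _
    obtain ⟨a, ha, n, hn, rfl⟩ := hQ N hN hN0 g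
    apply mul_mem
    · rw [Conj.mem_normalizer_iff_conj_smul_eq, Subgroup.smul_sup,
        Conj.mem_normalizer_iff_conj_smul_eq.1 (Syl_normal hA hp ha),
        Conj.mem_normalizer_iff_conj_smul_eq.1 (by rw [hNtop]; exact Subgroup.mem_top a)]
    · exact Subgroup.le_normalizer ((le_sup_right : N ≤ Syl A p ⊔ N) hn)
  haveI := hPn
  have hZn : ((Subgroup.center ↥(Syl A p ⊔ N)).map (Syl A p ⊔ N).subtype).Normal :=
    ConjAct.normal_of_characteristic_of_normal
  have hZ0 : (Subgroup.center ↥(Syl A p ⊔ N)).map (Syl A p ⊔ N).subtype ≠ ⊥ := by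
    haveI : Nontrivial ↥(Syl A p ⊔ N) :=
      (Subgroup.nontrivial_iff_ne_bot _).2 (fun h => hN0 (le_bot_iff.1 (h ▸ le_sup_right)))
    haveI := hPp.center_nontrivial
    intro h
    rw [Subgroup.map_eq_bot_iff_of_injective _ (Subgroup.subtype_injective _)] at h
    exact (Subgroup.nontrivial_iff_ne_bot _).1 inferInstance h
  have hP₀n : (Syl A p).Normal := by
    constructor
    intro x hx g
    obtain ⟨a, ha, z, hz, rfl⟩ := hQ _ hZn hZ0 g
    obtain ⟨z', hz', hzz⟩ := hz
    have hxz : z * x = x * z := by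
      have h1 := Subgroup.mem_center_iff.1 hz' ⟨x, (le_sup_left : Syl A p ≤ Syl A p ⊔ N) hx⟩
      rw [← hzz]
      exact (congrArg Subtype.val h1).symm
    have e : a * z * x * (a * z)⁻¹ = a * x * a⁻¹ := by
      calc a * z * x * (a * z)⁻¹ = a * (z * x) * z⁻¹ * a⁻¹ := by group
        _ = a * (x * z) * z⁻¹ * a⁻¹ := by rw [hxz]
        _ = a * x * a⁻¹ := by group
    rw [e]
    exact normalizer_conj_mem (Syl_normal hA hp ha) hx
  apply hAtop
  rw [eq_top_iff]
  intro g _
  obtain ⟨a, ha, n, hn, rfl⟩ := hQ (Syl A p) hP₀n hP₀ g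
  exact mul_mem ha (Syl_le A p hn)

open Cfsg.Agent.Lib.Helper4 Cfsg.Agent.Lib.Helper4.KW in
theorem kegel_all : ∀ (n : ℕ) (G : Type u) [Group G] [Finite G], Nat.card G = n →
    ∀ A B : Subgroup G, Group.IsNilpotent A → Group.IsNilpotent B →
      (∀ g : G, ∃ a ∈ A, ∃ b ∈ B, g = a * b) → (A ≠ ⊤ ∨ B ≠ ⊤) →
      ∃ N : Subgroup G, N.Normal ∧ N ≠ ⊤ ∧ (A ≤ N ∨ B ≤ N) := by
  intro n
  induction n using Nat.strong_induction_on with
  | _ n ih =>
    intro G _ _ hn A B hA hB hAB hproper
    by_contra hcon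
    haveI hsol : Group.IsSolvable G := Cfsg.Agent.S0564.result A B hA hB hAB
    have hAtop : A ≠ ⊤ := by
      intro h
      have hB' : B ≠ ⊤ := hproper.resolve_left (fun h' => h' h)
      have hG : Group.IsNilpotent G := by
        haveI := hA
        subst h
        exact Group.nilpotent_of_mulEquiv Subgroup.topEquiv
      obtain ⟨N, hN1, hN2, hN3⟩ := nilp_case hG hB'
      exact hcon ⟨N, hN1, hN2, Or.inr hN3⟩
    have hBtop : B ≠ ⊤ := by
      intro h
      have hG : Group.IsNilpotent G := by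
        haveI := hB
        subst h
        exact Group.nilpotent_of_mulEquiv Subgroup.topEquiv
      obtain ⟨N, hN1, hN2, hN3⟩ := nilp_case hG hAtop
      exact hcon ⟨N, hN1, hN2, Or.inl hN3⟩
    have hQ : ∀ (L : Subgroup G), L.Normal → L ≠ ⊥ →
        (∀ g : G, ∃ a ∈ A, ∃ n ∈ L, g = a * n) ∧ (∀ g : G, ∃ b ∈ B, ∃ n ∈ L, g = b * n) := by
      intro L hL hL0
      haveI := hL
      have hlt : Nat.card (G ⧸ L) < n := by
        have h := Subgroup.card_eq_card_quotient_mul_card_subgroup L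
        have h2 : 1 < Nat.card L := (Subgroup.one_lt_card_iff_ne_bot L).2 hL0
        have h3 : 0 < Nat.card (G ⧸ L) := Nat.card_pos
        rw [← hn]; nlinarith
      by_contra hneg
      apply hcon
      have hpr : A.map (QuotientGroup.mk' L) ≠ ⊤ ∨ B.map (QuotientGroup.mk' L) ≠ ⊤ := by
        by_contra hboth
        push Not at hboth
        apply hneg
        constructor
        · intro g
          have h1 : QuotientGroup.mk' L g ∈ A.map (QuotientGroup.mk' L) := by
            rw [hboth.1]; exact Subgroup.mem_top _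
          obtain ⟨a, ha, hag⟩ := h1
          exact ⟨a, ha, a⁻¹ * g, QuotientGroup.eq.1 hag, by group⟩
        · intro g
          have h1 : QuotientGroup.mk' L g ∈ B.map (QuotientGroup.mk' L) := by
            rw [hboth.2]; exact Subgroup.mem_top _
          obtain ⟨b, hb, hbg⟩ := h1
          exact ⟨b, hb, b⁻¹ * g, QuotientGroup.eq.1 hbg, by group⟩
      obtain ⟨K, hK1, hK2, hK3⟩ := ih (Nat.card (G ⧸ L)) hlt (G ⧸ L) rfl
        (A.map (QuotientGroup.mk' L)) (B.map (QuotientGroup.mk' L))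
        (by
          haveI := hA
          exact Group.nilpotent_of_surjective ((QuotientGroup.mk' L).subgroupMap A)
            ((QuotientGroup.mk' L).subgroupMap_surjective A))
        (by
          haveI := hB
          exact Group.nilpotent_of_surjective ((QuotientGroup.mk' L).subgroupMap B)
            ((QuotientGroup.mk' L).subgroupMap_surjective B))
        (by
          intro g
          obtain ⟨g, rfl⟩ := QuotientGroup.mk'_surjective L g
          obtain ⟨a, ha, b, hb, rfl⟩ := hAB g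
          exact ⟨_, Subgroup.mem_map_of_mem _ ha, _, Subgroup.mem_map_of_mem _ hb, map_mul _ a b⟩)
        hpr
      refine ⟨K.comap (QuotientGroup.mk' L), hK1.comap _, ?_, ?_⟩
      · intro h
        apply hK2
        rw [eq_top_iff]
        intro x _
        obtain ⟨g, rfl⟩ := QuotientGroup.mk'_surjective L x
        have h4 : g ∈ K.comap (QuotientGroup.mk' L) := h ▸ Subgroup.mem_top g
        exact h4
      · rcases hK3 with h | h
        · left; intro a ha; exact h (Subgroup.mem_map_of_mem _ ha)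
        · right; intro b hb; exact h (Subgroup.mem_map_of_mem _ hb)
    haveI : Nontrivial G := by
      by_contra hnt
      rw [not_nontrivial_iff_subsingleton] at hnt
      exact hAtop (eq_top_iff.2 (fun x _ => by rw [Subsingleton.elim x 1]; exact one_mem _))
    obtain ⟨N, hNn, -, p, k, hp, hk, hNc⟩ := Cfsg.Agent.Lib.Lead.Hall.exists_minimal_normal G
    haveI : Fact p.Prime := ⟨hp⟩
    have hNp : IsPGroup p N := IsPGroup.of_card hNc
    have hN0 : N ≠ ⊥ := by
      intro h
      rw [h, Subgroup.card_bot] at hNc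
      have h1 := Nat.one_lt_pow hk.ne' hp.one_lt
      omega
    have hpA : ¬ p ∣ Nat.card A :=
      pprime_of_Q hA hAtop (fun L hL hL0 => (hQ L hL hL0).1) hp hNn hN0 hNp
    have hpB : ¬ p ∣ Nat.card B :=
      pprime_of_Q hB hBtop (fun L hL hL0 => (hQ L hL hL0).2) hp hNn hN0 hNp
    have hcopA : (Nat.card A).Coprime (Nat.card N) := by
      rw [hNc]; exact Nat.Coprime.pow_right _ ((Nat.Prime.coprime_iff_not_dvd hp).2 hpA).symm
    have hcopB : (Nat.card B).Coprime (Nat.card N) := by
      rw [hNc]; exact Nat.Coprime.pow_right _ ((Nat.Prime.coprime_iff_not_dvd hp).2 hpB).symm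
    have hcA := Cfsg.Agent.S0563.card_eq_of_coprime A N hcopA (hQ N hNn hN0).1
    have hcB := Cfsg.Agent.S0563.card_eq_of_coprime B N hcopB (hQ N hNn hN0).2
    have hAB' : Nat.card A = Nat.card B :=
      Nat.eq_of_mul_eq_mul_right Nat.card_pos (hcA.symm.trans hcB)
    obtain ⟨g, hg⟩ := Cfsg.Agent.Lib.Lead.Hall.hall_conj (Nat.card A) (Nat.card N) hcA hcopA A B
      rfl hAB'.symm
    obtain ⟨a, ha, b, hb, hab⟩ := hAB g⁻¹
    rw [← hg, Conj.mem_conj_smul] at hb
    have hgA : g ∈ A := by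
      have e : g = a⁻¹ * (g⁻¹ * b * g)⁻¹ := by
        have h1 : b = a⁻¹ * g⁻¹ := by rw [hab]; group
        rw [h1]; group
      rw [e]; exact mul_mem (inv_mem ha) (inv_mem hb)
    have hBA : B = A := by
      rw [← hg]; exact Conj.mem_normalizer_iff_conj_smul_eq.1 (Subgroup.le_normalizer hgA)
    apply hAtop
    rw [eq_top_iff]
    intro x _
    obtain ⟨a', ha', b', hb', rfl⟩ := hAB x
    rw [hBA] at hb'
    exact mul_mem ha' hb'

/-- Let the finite group G be the product AB of nilpotent subgroups A and B, not both equal to G. Then there is a proper normal subgroup of G containing A or containing B. -/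
theorem result {G : Type*} [Group G] [Finite G] (A B : Subgroup G) (hA : Group.IsNilpotent A) (hB : Group.IsNilpotent B) (hAB : ∀ g : G, ∃ a ∈ A, ∃ b ∈ B, g = a * b) (hproper : A ≠ ⊤ ∨ B ≠ ⊤) : ∃ N : Subgroup G, N.Normal ∧ N ≠ ⊤ ∧ (A ≤ N ∨ B ≤ N) := by
  exact kegel_all (Nat.card G) G rfl A B hA hB hAB hproper

end Cfsg.Agent.S0565
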