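import Mathlib
import Cfsg.Statements.S0569
import Cfsg.Agent.S0543
import Cfsg.Agent.Lib.Helper22.Carter
import Cfsg.Agent.Lib.Helper22.SNConj
import Cfsg.Agent.Lib.Helper22.CarterSN

set_option autoImplicit false
open Cfsg

namespace Cfsg.Agent.S0569

open scoped Pointwise

/-- In a finite solvable group: each nilpotent self-normalizing subgroup contains the system normalizer of some Hall complement system, and the system normalizer of any Hall complement system lies in some nilpotent self-normalizing subgroup. -/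
theorem result {G : Type*} [Group G] [Finite G] [Group.IsSolvable G] : (∀ C : Subgroup G, Cfsg.IsCarterSubgroup C → ∃ K : Nat.Primes → Subgroup G, Cfsg.IsComplementSystem K ∧ Cfsg.systemNormalizer K ≤ C) ∧ ∀ K : Nat.Primes → Subgroup G, Cfsg.IsComplementSystem K → ∃ C : Subgroup G, Cfsg.IsCarterSubgroup C ∧ Cfsg.systemNormalizer K ≤ C := by
  refine ⟨fun C hC => Cfsg.Agent.Lib.Helper22.CarterSN.carter_contains_sn C hC, ?_⟩
  intro K hK
  obtain ⟨C₀, hC₀⟩ := Cfsg.Agent.Lib.Helper22.CarterSN.carter_exists (G := G)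
  obtain ⟨K₀, hK₀, hD₀⟩ := Cfsg.Agent.Lib.Helper22.CarterSN.carter_contains_sn C₀ hC₀
  obtain ⟨g, hg⟩ := Cfsg.Agent.S0543.result K₀ K hK₀ hK
  refine ⟨MulAut.conj g • C₀, Cfsg.Agent.Lib.Helper22.Carter.carter_conj_smul g hC₀, ?_⟩
  have e : K = fun p => MulAut.conj g • K₀ p := funext fun p => (hg p).symm
  rw [e, Cfsg.Agent.Lib.Helper22.SNConj.sn_conj]
  exact Subgroup.pointwise_smul_le_pointwise_smul_iff.mpr hD₀

end Cfsg.Agent.S0569
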