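import Mathlib
import Cfsg.Statements.S0571
import Cfsg.Agent.Lib.Helper4.KW1
import Cfsg.Agent.Lib.Helper4.Supersolvable
import Cfsg.Agent.S0638

set_option autoImplicit false
open Cfsg

open Pointwise

namespace Cfsg.Agent.S0571

universe u

section
variable {R : Type*} [Group R]

/-- the elements of exponent dividing `d` in an abelian subgroup `C` -/
def expSub (C : Subgroup R) (hC : ∀ x ∈ C, ∀ y ∈ C, x * y = y * x) (d : ℕ) : Subgroup R where
  carrier := {x | x ∈ C ∧ x ^ d = 1}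
  mul_mem' := fun {x y} hx hy =>
    ⟨C.mul_mem hx.1 hy.1, by
      have hc : Commute x y := hC x hx.1 y hy.1
      rw [hc.mul_pow, hx.2, hy.2, one_mul]⟩
  one_mem' := ⟨C.one_mem, one_pow d⟩
  inv_mem' := fun {x} hx => ⟨C.inv_mem hx.1, by rw [inv_pow, hx.2, inv_one]⟩

theorem mem_expSub {C : Subgroup R} {hC : ∀ x ∈ C, ∀ y ∈ C, x * y = y * x} {d : ℕ} {x : R} :
    x ∈ expSub C hC d ↔ x ∈ C ∧ x ^ d = 1 := Iff.rfl

theorem comm_of_isCyclic {C : Subgroup R} (hC : IsCyclic C) :
    ∀ x ∈ C, ∀ y ∈ C, x * y = y * x := by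
  obtain ⟨c, hc⟩ := (Subgroup.isCyclic_iff_exists_zpowers_eq_top C).mp hC
  intro x hx y hy
  rw [← hc] at hx hy
  obtain ⟨i, rfl⟩ := Subgroup.mem_zpowers_iff.1 hx
  obtain ⟨j, rfl⟩ := Subgroup.mem_zpowers_iff.1 hy
  rw [← zpow_add, ← zpow_add, add_comm]

theorem isCyclic_of_le {C K : Subgroup R} (hC : IsCyclic C) (hKC : K ≤ C) : IsCyclic K := by
  haveI := hC
  exact isCyclic_of_surjective (Subgroup.subgroupOfEquivOfLe hKC).toMonoidHom
    (Subgroup.subgroupOfEquivOfLe hKC).surjective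

/-- a cyclic group has at most one subgroup of each order -/
theorem cyc_eq_of_card_eq [Finite R] {C H₁ H₂ : Subgroup R} (hC : IsCyclic C) (h₁ : H₁ ≤ C)
    (h₂ : H₂ ≤ C) (hc : Nat.card H₁ = Nat.card H₂) : H₁ = H₂ := by
  have hcomm := comm_of_isCyclic hC
  have hle : H₁ ⊔ H₂ ≤ expSub C hcomm (Nat.card H₁) := by
    apply sup_le
    · intro x hx
      exact mem_expSub.2 ⟨h₁ hx, orderOf_dvd_iff_pow_eq_one.1
        (Cfsg.Agent.Lib.Helper4.KW.orderOf_dvd_card_of_mem hx)⟩
    · intro x hx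
      refine mem_expSub.2 ⟨h₂ hx, orderOf_dvd_iff_pow_eq_one.1 ?_⟩
      rw [hc]; exact Cfsg.Agent.Lib.Helper4.KW.orderOf_dvd_card_of_mem hx
  have hK : IsCyclic ↥(H₁ ⊔ H₂) := isCyclic_of_le hC (sup_le h₁ h₂)
  have hcard : Nat.card ↥(H₁ ⊔ H₂) ≤ Nat.card H₁ :=
    Cfsg.Agent.S0638.cyc_card_le Nat.card_pos (H₁ ⊔ H₂) hK (fun x hx => (mem_expSub.1 (hle hx)).2)
  have e1 : H₁ = H₁ ⊔ H₂ := Subgroup.eq_of_le_of_card_ge le_sup_left hcard
  have e2 : H₂ = H₁ ⊔ H₂ := Subgroup.eq_of_le_of_card_ge le_sup_right (by rw [← hc]; exact hcard)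
  exact e1.trans e2.symm

end

theorem exists_normal_le_of_card_le {G : Type*} [Group G] [Finite G] [Nontrivial G]
    {A B : Subgroup G} (hA : IsCyclic A) (hB : IsCyclic B)
    (hAB : ∀ g : G, ∃ a ∈ A, ∃ b ∈ B, g = a * b) (hle : Nat.card B ≤ Nat.card A) :
    ∃ N : Subgroup G, N.Normal ∧ N ≠ ⊥ ∧ IsCyclic N := by
  obtain ⟨b, hb⟩ := (Subgroup.isCyclic_iff_exists_zpowers_eq_top B).mp hB
  have hAcomm := comm_of_isCyclic hA
  obtain ⟨D, hD⟩ : ∃ D : Subgroup G, D = A ⊓ MulAut.conj b • A := ⟨_, rfl⟩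
  have hDA : D ≤ A := hD ▸ inf_le_left
  have hDAb : D ≤ MulAut.conj b • A := hD ▸ inf_le_right
  have hAb : IsCyclic ↥(MulAut.conj b • A) := by
    haveI := hA
    exact isCyclic_of_surjective (Subgroup.equivSMul (MulAut.conj b) A).toMonoidHom
      (Subgroup.equivSMul (MulAut.conj b) A).surjective
  have hDb : MulAut.conj b • D = D :=
    cyc_eq_of_card_eq hAb (Subgroup.pointwise_smul_le_pointwise_smul_iff.2 hDA) hDAb
      (Cfsg.Agent.Lib.Helper4.Conj.card_conj_smul b D)
  have hDn : D.Normal := by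
    rw [← Subgroup.normalizer_eq_top_iff, eq_top_iff]
    intro g _
    obtain ⟨a, ha, b', hb', rfl⟩ := hAB g
    apply mul_mem
    · apply Subgroup.centralizer_le_normalizer
      rw [Subgroup.mem_centralizer_iff]
      intro x hx
      exact hAcomm x (hDA hx) a ha
    · have h1 : Subgroup.zpowers b ≤ Subgroup.normalizer (D : Set G) := by
        rw [Subgroup.zpowers_le]
        exact Cfsg.Agent.Lib.Helper4.Conj.mem_normalizer_iff_conj_smul_eq.2 hDb
      rw [← hb] at hb'
      exact h1 hb'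
  by_cases hD0 : D = ⊥
  · have hinj : Function.Injective (fun xy : A × A => (xy.1 : G) * b * (xy.2 : G)) := by
      rintro ⟨x, y⟩ ⟨x', y'⟩ h
      have h' : (x : G) * b * y = x' * b * y' := h
      have e : (x' : G)⁻¹ * x = b * ((y' : G) * (y : G)⁻¹) * b⁻¹ := by
        have e1 : (x : G) = x' * b * y' * (y : G)⁻¹ * b⁻¹ := by rw [← h']; group
        rw [e1]; group
      have h1 : (x' : G)⁻¹ * x ∈ D := by
        rw [hD]
        refine ⟨A.mul_mem (A.inv_mem x'.2) x.2, ?_⟩
        rw [e]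
        exact Cfsg.Agent.Lib.Helper4.Conj.conj_mem_conj_smul (A.mul_mem y'.2 (A.inv_mem y.2))
      rw [hD0, Subgroup.mem_bot] at h1
      have hx : (x : G) = x' := (inv_mul_eq_one.1 h1).symm
      have hy : (y : G) = y' := by
        rw [hx] at h'
        exact mul_left_cancel h'
      exact Prod.ext (Subtype.ext hx) (Subtype.ext hy)
    have hsurjAB : Function.Surjective (fun ab : A × B => (ab.1 : G) * (ab.2 : G)) := by
      intro g
      obtain ⟨a, ha, b', hb', rfl⟩ := hAB g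
      exact ⟨(⟨a, ha⟩, ⟨b', hb'⟩), rfl⟩
    have hcard : Nat.card G ≤ Nat.card (A × A) := by
      have h1 := Nat.card_le_card_of_surjective _ hsurjAB
      rw [Nat.card_prod] at h1 ⊢
      exact h1.trans (Nat.mul_le_mul_left _ hle)
    have hbij := hinj.bijective_of_nat_card_le hcard
    obtain ⟨⟨x, y⟩, hxy⟩ := hbij.2 1
    have hxy' : (x : G) * b * y = 1 := hxy
    have hbA : b ∈ A := by
      have e : b = (x : G)⁻¹ * (y : G)⁻¹ := by
        have e1 : b = (x : G)⁻¹ * ((x : G) * b * y) * (y : G)⁻¹ := by group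
        rw [e1, hxy']; group
      rw [e]; exact mul_mem (inv_mem x.2) (inv_mem y.2)
    have hBA : B ≤ A := by rw [← hb, Subgroup.zpowers_le]; exact hbA
    have hAtop : A = ⊤ := by
      rw [eq_top_iff]; intro g _
      obtain ⟨a, ha, b', hb', rfl⟩ := hAB g
      exact mul_mem ha (hBA hb')
    refine ⟨A, ?_, ?_, hA⟩
    · rw [hAtop]; infer_instance
    · rw [hAtop]
      intro h
      obtain ⟨x, hx⟩ := exists_ne (1 : G)
      have h2 : x ∈ (⊥ : Subgroup G) := h ▸ Subgroup.mem_top x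
      exact hx (Subgroup.mem_bot.1 h2)
  · exact ⟨D, hDn, hD0, isCyclic_of_le hA hDA⟩

theorem cyc_all : ∀ (n : ℕ) (G : Type u) [Group G] [Finite G], Nat.card G = n →
    ∀ A B : Subgroup G, IsCyclic A → IsCyclic B → (∀ g : G, ∃ a ∈ A, ∃ b ∈ B, g = a * b) →
      Cfsg.IsSupersolvable G := by
  intro n
  induction n using Nat.strong_induction_on with
  | _ n ih =>
    intro G _ _ hn A B hA hB hAB
    by_cases hnt : Nontrivial G
    swap
    · rw [not_nontrivial_iff_subsingleton] at hnt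
      exact Cfsg.Agent.Lib.Helper4.Supersolvable.isSupersolvable_of_subsingleton
    obtain ⟨N, hNn, hN0, hNc⟩ : ∃ N : Subgroup G, N.Normal ∧ N ≠ ⊥ ∧ IsCyclic N := by
      rcases le_total (Nat.card B) (Nat.card A) with h | h
      · exact exists_normal_le_of_card_le hA hB hAB h
      · exact exists_normal_le_of_card_le hB hA (fun g => by
          obtain ⟨a, ha, b, hb, e⟩ := hAB g⁻¹
          exact ⟨b⁻¹, inv_mem hb, a⁻¹, inv_mem ha, by rw [← mul_inv_rev, ← e, inv_inv]⟩) h
    haveI := hNn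
    haveI := hNc
    have hlt : Nat.card (G ⧸ N) < n := by
      have h := Subgroup.card_eq_card_quotient_mul_card_subgroup N
      have h2 : 1 < Nat.card N := (Subgroup.one_lt_card_iff_ne_bot N).2 hN0
      have h3 : 0 < Nat.card (G ⧸ N) := Nat.card_pos
      rw [← hn]; nlinarith
    apply Cfsg.Agent.Lib.Helper4.Supersolvable.isSupersolvable_of_cyclic_normal N
    refine ih (Nat.card (G ⧸ N)) hlt (G ⧸ N) rfl (A.map (QuotientGroup.mk' N))
      (B.map (QuotientGroup.mk' N)) ?_ ?_ ?_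
    · haveI := hA
      exact isCyclic_of_surjective ((QuotientGroup.mk' N).subgroupMap A)
        ((QuotientGroup.mk' N).subgroupMap_surjective A)
    · haveI := hB
      exact isCyclic_of_surjective ((QuotientGroup.mk' N).subgroupMap B)
        ((QuotientGroup.mk' N).subgroupMap_surjective B)
    · intro g
      obtain ⟨g, rfl⟩ := QuotientGroup.mk'_surjective N g
      obtain ⟨a, ha, b, hb, rfl⟩ := hAB g
      exact ⟨_, Subgroup.mem_map_of_mem _ ha, _, Subgroup.mem_map_of_mem _ hb, map_mul _ a b⟩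

/-- If a finite group G is the product AB of two cyclic subgroups (every element is a product ab), then G is supersolvable. -/
theorem result {G : Type*} [Group G] [Finite G] (A B : Subgroup G) [IsCyclic A] [IsCyclic B] (hAB : ∀ g : G, ∃ a ∈ A, ∃ b ∈ B, g = a * b) : Cfsg.IsSupersolvable G := by
  exact cyc_all (Nat.card G) G rfl A B inferInstance inferInstance hAB

end Cfsg.Agent.S0571
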