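import Mathlib
import Cfsg.Statements.S0572

set_option autoImplicit false
open Cfsg

open scoped commutatorElement

namespace Cfsg.Agent.S0572

universe u

theorem conj_of_commute {G : Type u} [Group G] {g x : G} (h : Commute g x) :
    MulAut.conj g x = x := by
  rw [MulAut.conj_apply, h.eq, mul_inv_cancel_right]

theorem comm_mul_left {G : Type u} [Group G] {x y z : G} (h : Commute y z) :
    ⁅x * y, z⁆ = ⁅x, z⁆ := by
  rw [commutatorElement_def, commutatorElement_def]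
  calc x * y * z * (x * y)⁻¹ * z⁻¹ = x * (y * z) * y⁻¹ * x⁻¹ * z⁻¹ := by group
    _ = x * (z * y) * y⁻¹ * x⁻¹ * z⁻¹ := by rw [h.eq]
    _ = x * z * x⁻¹ * z⁻¹ := by group

theorem comm_mul_right {G : Type u} [Group G] {x y z : G} (h : Commute x z) :
    ⁅x, y * z⁆ = ⁅x, y⁆ := by
  rw [commutatorElement_def, commutatorElement_def]
  have h' : z * x⁻¹ = x⁻¹ * z := (h.symm.inv_right).eq
  calc x * (y * z) * x⁻¹ * (y * z)⁻¹ = x * y * (z * x⁻¹) * z⁻¹ * y⁻¹ := by group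
    _ = x * y * (x⁻¹ * z) * z⁻¹ * y⁻¹ := by rw [h']
    _ = x * y * x⁻¹ * y⁻¹ := by group

/-- the key computation in Itô's theorem -/
theorem ito_key {G : Type u} [Group G] (A B : Subgroup G) [IsMulCommutative A] [IsMulCommutative B]
    (hAB : ∀ g : G, ∃ a ∈ A, ∃ b ∈ B, g = a * b) {a b a1 b1 : G} (ha : a ∈ A) (hb : b ∈ B)
    (ha1 : a1 ∈ A) (hb1 : b1 ∈ B) :
    MulAut.conj (a1 * b1) ⁅a, b⁆ = MulAut.conj (b1 * a1) ⁅a, b⁆ := by
  have cA : ∀ {x y : G}, x ∈ A → y ∈ A → Commute x y := fun hx hy => setLike_mul_comm hx hy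
  have cB : ∀ {x y : G}, x ∈ B → y ∈ B → Commute x y := fun hx hy => setLike_mul_comm hx hy
  obtain ⟨a3, ha3, b3, hb3, e3⟩ := hAB (MulAut.conj b1 a)
  obtain ⟨a2', ha2', b2', hb2', e2'⟩ := hAB (MulAut.conj a1 b)⁻¹
  have e2 : MulAut.conj a1 b = b2'⁻¹ * a2'⁻¹ := by
    rw [← mul_inv_rev, ← e2', inv_inv]
  have ha2 : a2'⁻¹ ∈ A := inv_mem ha2'
  have hb2 : b2'⁻¹ ∈ B := inv_mem hb2'
  have L : MulAut.conj (a1 * b1) ⁅a, b⁆ = ⁅a3, b2'⁻¹⁆ := by
    rw [map_mul, MulAut.mul_apply, map_commutatorElement, conj_of_commute (cB hb1 hb), e3,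
      comm_mul_left (cB hb3 hb), map_commutatorElement, conj_of_commute (cA ha1 ha3), e2,
      comm_mul_right (cA ha3 ha2)]
  have R : MulAut.conj (b1 * a1) ⁅a, b⁆ = ⁅a3, b2'⁻¹⁆ := by
    rw [map_mul, MulAut.mul_apply, map_commutatorElement, conj_of_commute (cA ha1 ha), e2,
      comm_mul_right (cA ha ha2), map_commutatorElement, conj_of_commute (cB hb1 hb2), e3,
      comm_mul_left (cB hb3 hb2)]
  rw [L, R]

theorem ito_commute {G : Type u} [Group G] (A B : Subgroup G) [IsMulCommutative A]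
    [IsMulCommutative B] (hAB : ∀ g : G, ∃ a ∈ A, ∃ b ∈ B, g = a * b) {a b a1 b1 : G}
    (ha : a ∈ A) (hb : b ∈ B) (ha1 : a1 ∈ A) (hb1 : b1 ∈ B) : Commute ⁅a1, b1⁆ ⁅a, b⁆ := by
  have h := ito_key A B hAB ha hb (inv_mem ha1) (inv_mem hb1)
  rw [MulAut.conj_apply, MulAut.conj_apply] at h
  -- h : (a1⁻¹ b1⁻¹) c (a1⁻¹ b1⁻¹)⁻¹ = (b1⁻¹ a1⁻¹) c (b1⁻¹ a1⁻¹)⁻¹
  show ⁅a1, b1⁆ * ⁅a, b⁆ = ⁅a, b⁆ * ⁅a1, b1⁆
  have e1 : ⁅a1, b1⁆ * ⁅a, b⁆ = (a1 * b1) * (a1⁻¹ * b1⁻¹ * ⁅a, b⁆ * (a1⁻¹ * b1⁻¹)⁻¹) * (a1⁻¹ * b1⁻¹) := by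
    rw [commutatorElement_def a1 b1]; group
  have e2 : ⁅a, b⁆ * ⁅a1, b1⁆ = (a1 * b1) * (b1⁻¹ * a1⁻¹ * ⁅a, b⁆ * (b1⁻¹ * a1⁻¹)⁻¹) * (a1⁻¹ * b1⁻¹) := by
    rw [commutatorElement_def a1 b1]; group
  rw [e1, e2, h]

/-- Itô's Theorem: if a group G is the product AB of two abelian subgroups, then the commutator subgroup of G is abelian, i.e. the second term of the derived series is trivial. -/
theorem result {G : Type*} [Group G] (A B : Subgroup G) [IsMulCommutative A] [IsMulCommutative B] (hAB : ∀ g : G, ∃ a ∈ A, ∃ b ∈ B, g = a * b) : derivedSeries G 2 = ⊥ := by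
  have hcomm : ∀ a ∈ A, ∀ b ∈ B, ∀ a1 ∈ A, ∀ b1 ∈ B, Commute ⁅a1, b1⁆ ⁅a, b⁆ :=
    fun a ha b hb a1 ha1 b1 hb1 => ito_commute A B hAB ha hb ha1 hb1
  have htop : A ⊔ B = ⊤ := by
    rw [eq_top_iff]
    intro g _
    obtain ⟨a, ha, b, hb, rfl⟩ := hAB g
    exact mul_mem (Subgroup.mem_sup_left ha) (Subgroup.mem_sup_right hb)
  have hN : (⁅A, B⁆ : Subgroup G).Normal := by
    have h1 : A ⊔ B ≤ Subgroup.normalizer ((⁅A, B⁆ : Subgroup G) : Set G) :=
      sup_le (Subgroup.normalizer_commutator_ge_left A B) (Subgroup.normalizer_commutator_ge_right A B)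
    rw [htop] at h1
    exact Subgroup.normalizer_eq_top_iff.mp (top_le_iff.mp h1)
  have hab : ⁅(⁅A, B⁆ : Subgroup G), ⁅A, B⁆⁆ = ⊥ := by
    rw [Subgroup.commutator_eq_bot_iff_le_centralizer, Subgroup.commutator_le]
    intro a ha b hb
    rw [Subgroup.mem_centralizer_iff]
    intro h hh
    have h2 : (⁅A, B⁆ : Subgroup G) ≤ Subgroup.centralizer {⁅a, b⁆} := by
      rw [Subgroup.commutator_le]
      intro a1 ha1 b1 hb1
      rw [Subgroup.mem_centralizer_iff]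
      intro x hx
      rw [Set.mem_singleton_iff] at hx
      subst hx
      exact ((hcomm a ha b hb a1 ha1 b1 hb1).eq).symm
    exact (Subgroup.mem_centralizer_iff.mp (h2 hh) _ (Set.mem_singleton _)).symm
  have hder : commutator G ≤ ⁅A, B⁆ := by
    haveI := hN
    rw [← Subgroup.Normal.quotient_commutative_iff_commutator_le]
    have cA : ∀ {x y : G}, x ∈ A → y ∈ A → Commute x y := fun hx hy => setLike_mul_comm hx hy
    have cB : ∀ {x y : G}, x ∈ B → y ∈ B → Commute x y := fun hx hy => setLike_mul_comm hx hy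
    have cAB : ∀ {x y : G}, x ∈ A → y ∈ B →
        Commute (QuotientGroup.mk' (⁅A, B⁆ : Subgroup G) x) (QuotientGroup.mk' (⁅A, B⁆ : Subgroup G) y) := by
      intro x y hx hy
      rw [← commutatorElement_eq_one_iff_commute, ← map_commutatorElement, QuotientGroup.mk'_apply,
        QuotientGroup.eq_one_iff]
      exact Subgroup.commutator_mem_commutator hx hy
    refine ⟨⟨fun x' y' => ?_⟩⟩
    obtain ⟨x, rfl⟩ := QuotientGroup.mk'_surjective (⁅A, B⁆ : Subgroup G) x'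
    obtain ⟨y, rfl⟩ := QuotientGroup.mk'_surjective (⁅A, B⁆ : Subgroup G) y'
    obtain ⟨a, ha, b, hb, rfl⟩ := hAB x
    obtain ⟨a1, ha1, b1, hb1, rfl⟩ := hAB y
    rw [map_mul, map_mul]
    have h1 : Commute (QuotientGroup.mk' (⁅A, B⁆ : Subgroup G) a) (QuotientGroup.mk' (⁅A, B⁆ : Subgroup G) a1) :=
      (cA ha ha1).map _
    have h2 : Commute (QuotientGroup.mk' (⁅A, B⁆ : Subgroup G) b) (QuotientGroup.mk' (⁅A, B⁆ : Subgroup G) b1) :=
      (cB hb hb1).map _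
    exact ((h1.mul_right (cAB ha hb1)).mul_left ((cAB ha1 hb).symm.mul_right h2)).eq
  show ⁅derivedSeries G 1, derivedSeries G 1⁆ = ⊥
  rw [derivedSeries_one, eq_bot_iff, ← hab]
  exact Subgroup.commutator_mono hder hder

end Cfsg.Agent.S0572
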