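import Mathlib
import Cfsg.Statements.S0573
import Cfsg.Agent.S0572
import Cfsg.Agent.S0551
import Cfsg.Agent.Lib.Helper4.Card
import Cfsg.Agent.Lib.Helper4.Replace
import Cfsg.Agent.Lib.Helper9.Cores

set_option autoImplicit false
open Cfsg

open scoped commutatorElement Pointwise
open Cfsg.Agent.Lib.Helper4.Card

namespace Cfsg.Agent.S0573

universe u

theorem central_of {G : Type u} [Group G] (A B : Subgroup G)
    (hAB : ∀ g : G, ∃ a ∈ A, ∃ b ∈ B, g = a * b) {z : G}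
    (hA : ∀ a ∈ A, a * z = z * a) (hB : ∀ b ∈ B, b * z = z * b) : ∀ g : G, g * z = z * g := by
  intro g
  obtain ⟨a, ha, b, hb, rfl⟩ := hAB g
  rw [mul_assoc, hB b hb, ← mul_assoc, hA a ha, mul_assoc]

theorem zpowers_normal_of_central {G : Type u} [Group G] {z : G} (hz : ∀ g : G, g * z = z * g) :
    (Subgroup.zpowers z).Normal := by
  constructor
  intro n hn g
  obtain ⟨k, rfl⟩ := Subgroup.mem_zpowers_iff.mp hn
  have hc : Commute g z := hz g
  have e : g * z ^ k * g⁻¹ = z ^ k := by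
    rw [(hc.zpow_right k).eq]; group
  rw [e]; exact hn

theorem M_struct {G : Type u} [Group G] [Finite G] (A B W : Subgroup G) [W.Normal]
    (hAB : ∀ g : G, ∃ a ∈ A, ∃ b ∈ B, g = a * b)
    (cA : ∀ x ∈ A, ∀ y ∈ A, x * y = y * x) (cB : ∀ x ∈ B, ∀ y ∈ B, x * y = y * x)
    (q : ℕ) [Fact q.Prime] (hWq : IsPGroup q W)
    (hABbot : ∀ x ∈ A, x ∈ B → x = 1) (hBW : ∀ x ∈ B, x ∈ W → x = 1) :
    ((A ⊔ W) ⊓ (B ⊔ W)).Normal ∧ IsPGroup q ↥((A ⊔ W) ⊓ (B ⊔ W)) ∧ W ≤ (A ⊔ W) ⊓ (B ⊔ W) ∧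
      ∀ m ∈ (A ⊔ W) ⊓ (B ⊔ W), ∃ a ∈ A, ∃ b ∈ B, b ∈ (A ⊔ W) ⊓ (B ⊔ W) ∧ m = a * b := by
  classical
  have hBA : ∀ g : G, ∃ b ∈ B, ∃ a ∈ A, g = b * a := by
    intro g
    obtain ⟨a, ha, b, hb, h⟩ := hAB g⁻¹
    refine ⟨b⁻¹, B.inv_mem hb, a⁻¹, A.inv_mem ha, ?_⟩
    rw [← mul_inv_rev, ← h, inv_inv]
  obtain ⟨M, hM⟩ : ∃ M : Subgroup G, M = (A ⊔ W) ⊓ (B ⊔ W) := ⟨_, rfl⟩
  rw [← hM]
  have hWM : W ≤ M := by rw [hM]; exact le_inf le_sup_right le_sup_right
  -- decompositions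
  have hDA : ∀ m ∈ M, ∃ a ∈ A, ∃ w ∈ W, a ∈ B ⊔ W ∧ m = a * w := by
    intro m hm
    rw [hM] at hm
    have h1 : m ∈ ((A ⊔ W : Subgroup G) : Set G) := hm.1
    rw [Subgroup.mul_normal] at h1
    obtain ⟨a, ha, w, hw, rfl⟩ := Set.mem_mul.mp h1
    refine ⟨a, ha, w, hw, ?_, rfl⟩
    have h2 : a = (a * w) * w⁻¹ := by group
    rw [h2]
    exact Subgroup.mul_mem _ hm.2 (Subgroup.mem_sup_right (W.inv_mem hw))
  have hDB : ∀ m ∈ M, ∃ b ∈ B, ∃ w ∈ W, b ∈ A ⊔ W ∧ m = b * w := by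
    intro m hm
    rw [hM] at hm
    have h1 : m ∈ ((B ⊔ W : Subgroup G) : Set G) := hm.2
    rw [Subgroup.mul_normal] at h1
    obtain ⟨b, hb, w, hw, rfl⟩ := Set.mem_mul.mp h1
    refine ⟨b, hb, w, hw, ?_, rfl⟩
    have h2 : b = (b * w) * w⁻¹ := by group
    rw [h2]
    exact Subgroup.mul_mem _ hm.1 (Subgroup.mem_sup_right (W.inv_mem hw))
  have hconjA : ∀ a' ∈ A, ∀ m ∈ M, a' * m * a'⁻¹ ∈ M := by
    intro a' ha' m hm
    obtain ⟨a, ha, w, hw, haB, rfl⟩ := hDA m hm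
    have e : a' * (a * w) * a'⁻¹ = a * (a' * w * a'⁻¹) := by
      rw [← mul_assoc, cA a' ha' a ha]; group
    rw [e]
    refine M.mul_mem ?_ (hWM (Subgroup.Normal.conj_mem inferInstance w hw a'))
    rw [hM]
    exact ⟨Subgroup.mem_sup_left ha, haB⟩
  have hconjB : ∀ b' ∈ B, ∀ m ∈ M, b' * m * b'⁻¹ ∈ M := by
    intro b' hb' m hm
    obtain ⟨b, hb, w, hw, hbA, rfl⟩ := hDB m hm
    have e : b' * (b * w) * b'⁻¹ = b * (b' * w * b'⁻¹) := by
      rw [← mul_assoc, cB b' hb' b hb]; group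
    rw [e]
    refine M.mul_mem ?_ (hWM (Subgroup.Normal.conj_mem inferInstance w hw b'))
    rw [hM]
    exact ⟨hbA, Subgroup.mem_sup_left hb⟩
  have hMn : M.Normal := by
    constructor
    intro m hm g
    obtain ⟨a, ha, b, hb, rfl⟩ := hAB g
    have e : a * b * m * (a * b)⁻¹ = a * (b * m * b⁻¹) * a⁻¹ := by group
    rw [e]
    exact hconjA a ha _ (hconjB b hb m hm)
  -- the p-group property
  obtain ⟨As, hAs⟩ : ∃ As : Subgroup G, As = A ⊓ (B ⊔ W) := ⟨_, rfl⟩
  have hset : ((B ⊔ W : Subgroup G) : Set G) = (B : Set G) * (As : Set G) := by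
    ext g
    constructor
    · intro hg
      obtain ⟨b, hb, a, ha, rfl⟩ := hBA g
      refine Set.mem_mul.mpr ⟨b, hb, a, ?_, rfl⟩
      rw [hAs]
      refine ⟨ha, ?_⟩
      have h2 : a = b⁻¹ * (b * a) := by group
      rw [h2]
      exact Subgroup.mul_mem _ (Subgroup.mem_sup_left (B.inv_mem hb)) hg
    · intro hg
      obtain ⟨b, hb, a, ha, rfl⟩ := Set.mem_mul.mp hg
      rw [hAs] at ha
      exact Subgroup.mul_mem _ (Subgroup.mem_sup_left hb) ha.2
  have hc1 := card_mul_set B W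
  have hc2 := card_mul_set B As
  have hb1 : B ⊓ W = ⊥ := by
    rw [eq_bot_iff]; intro x hx; rw [Subgroup.mem_bot]; exact hBW x hx.1 hx.2
  have hb2 : B ⊓ As = ⊥ := by
    rw [eq_bot_iff]; intro x hx; rw [Subgroup.mem_bot]
    rw [hAs] at hx
    exact hABbot x hx.2.1 hx.1
  rw [hb1, Subgroup.card_bot, mul_one, ← Subgroup.mul_normal] at hc1
  rw [hb2, Subgroup.card_bot, mul_one, ← hset] at hc2
  have hcardAs : Nat.card As = Nat.card W := by
    have : Nat.card B * Nat.card As = Nat.card B * Nat.card W := by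
      rw [← hc1, ← hc2]
    exact Nat.eq_of_mul_eq_mul_left Nat.card_pos this
  obtain ⟨k, hk⟩ := IsPGroup.iff_card.mp hWq
  have hAsq : IsPGroup q As := IsPGroup.of_card (n := k) (by rw [hcardAs, hk])
  have hMle : M ≤ As ⊔ W := by
    intro m hm
    obtain ⟨a, ha, w, hw, haB, rfl⟩ := hDA m hm
    refine Subgroup.mul_mem _ (Subgroup.mem_sup_left ?_) (Subgroup.mem_sup_right hw)
    rw [hAs]; exact ⟨ha, haB⟩
  have hMq : IsPGroup q M := (IsPGroup.to_sup_of_normal_right hAsq hWq).to_le hMle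
  refine ⟨hMn, hMq, hWM, ?_⟩
  intro m hm
  obtain ⟨a, ha, b, hb, rfl⟩ := hAB m
  refine ⟨a, ha, b, hb, ?_, rfl⟩
  rw [hM] at hm ⊢
  have hbA : b ∈ A ⊔ W := by
    have h2 : b = a⁻¹ * (a * b) := by group
    rw [h2]
    exact Subgroup.mul_mem _ (Subgroup.mem_sup_left (A.inv_mem ha)) hm.1
  exact ⟨hbA, Subgroup.mem_sup_left hb⟩

theorem main {G : Type u} [Group G] [Finite G] [Nontrivial G] (A B : Subgroup G)
    [IsMulCommutative A] [IsMulCommutative B]
    (hAB : ∀ g : G, ∃ a ∈ A, ∃ b ∈ B, g = a * b) :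
    ∃ N : Subgroup G, N.Normal ∧ N ≠ ⊥ ∧ (N ≤ A ∨ N ≤ B) := by
  classical
  by_contra hcon
  have H0 : ∀ N : Subgroup G, N.Normal → (N ≤ A ∨ N ≤ B) → N = ⊥ := by
    intro N hN h
    by_contra hne
    exact hcon ⟨N, hN, hne, h⟩
  have cA : ∀ x ∈ A, ∀ y ∈ A, x * y = y * x := fun x hx y hy =>
    setLike_mul_comm hx hy
  have cB : ∀ x ∈ B, ∀ y ∈ B, x * y = y * x := fun x hx y hy =>
    setLike_mul_comm hx hy
  have hZA : ∀ z ∈ A, (∀ g : G, g * z = z * g) → z = 1 := by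
    intro z hz hc
    have := H0 (Subgroup.zpowers z) (zpowers_normal_of_central hc)
      (Or.inl (Subgroup.zpowers_le.mpr hz))
    exact Subgroup.zpowers_eq_bot.mp this
  have hZB : ∀ z ∈ B, (∀ g : G, g * z = z * g) → z = 1 := by
    intro z hz hc
    have := H0 (Subgroup.zpowers z) (zpowers_normal_of_central hc)
      (Or.inr (Subgroup.zpowers_le.mpr hz))
    exact Subgroup.zpowers_eq_bot.mp this
  have hBA1 : ∀ b ∈ B, (∀ a ∈ A, a * b = b * a) → b = 1 := fun b hb h =>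
    hZB b hb (central_of A B hAB h (fun b' hb' => cB b' hb' b hb))
  have hAB1 : ∀ a ∈ A, (∀ b ∈ B, b * a = a * b) → a = 1 := fun a ha h =>
    hZA a ha (central_of A B hAB (fun a' ha' => cA a' ha' a ha) h)
  have hABbot : ∀ x ∈ A, x ∈ B → x = 1 := fun x hxA hxB =>
    hAB1 x hxA (fun b hb => cB b hb x hxB)
  obtain ⟨V, hV⟩ : ∃ V : Subgroup G, V = commutator G := ⟨_, rfl⟩
  haveI hVn : V.Normal := by rw [hV]; infer_instance
  have hVc : ∀ x ∈ V, ∀ y ∈ V, x * y = y * x := by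
    have h2 := Cfsg.Agent.S0572.result A B hAB
    have h3 : ⁅commutator G, commutator G⁆ = ⊥ := by
      have e : derivedSeries G 2 = ⁅derivedSeries G 1, derivedSeries G 1⁆ := rfl
      rw [e, derivedSeries_one] at h2
      exact h2
    rw [Subgroup.commutator_eq_bot_iff_le_centralizer] at h3
    intro x hx y hy
    rw [hV] at hx hy
    exact Subgroup.mem_centralizer_iff.mp (h3 hy) x hx
  have hcomV : ∀ g h : G, ⁅g, h⁆ ∈ V := by
    intro g h
    rw [hV, commutator_def]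
    exact Subgroup.commutator_mem_commutator (Subgroup.mem_top g) (Subgroup.mem_top h)
  have hnorm : ∀ H : Subgroup G, V ≤ H → H.Normal := by
    intro H hH
    constructor
    intro n hn g
    have e : g * n * g⁻¹ = ⁅g, n⁆ * n := by simp only [commutatorElement_def]; group
    rw [e]
    exact H.mul_mem (hH (hcomV g n)) hn
  -- the centre of `XV` is trivial for `X = A` and `X = B`
  have hZXV : ∀ X Y : Subgroup G, (∀ g : G, ∃ x ∈ X, ∃ y ∈ Y, g = x * y) →
      (∀ x ∈ X, ∀ x' ∈ X, x * x' = x' * x) → (X = A ∨ X = B) →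
      (∀ y ∈ Y, (∀ x ∈ X, x * y = y * x) → y = 1) →
      ∀ z ∈ X ⊔ V, (∀ x ∈ X, x * z = z * x) → (∀ v ∈ V, v * z = z * v) → z = 1 := by
    intro X Y hXY cX hX hY1 z hz hzX hzV
    haveI : (X ⊔ V).Normal := hnorm _ le_sup_right
    have hN : ((X ⊔ V) ⊓ Subgroup.centralizer ((X ⊔ V : Subgroup G) : Set G)).Normal :=
      inferInstance
    have hNX : (X ⊔ V) ⊓ Subgroup.centralizer ((X ⊔ V : Subgroup G) : Set G) ≤ X := by
      intro y hy
      obtain ⟨a, ha, b, hb, rfl⟩ := hXY y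
      have hyc := hy.2
      have hb1 : b = 1 := by
        apply hY1 b hb
        intro a' ha'
        have h1 := Subgroup.mem_centralizer_iff.mp hyc a' (Subgroup.mem_sup_left ha')
        have h2 := cX a' ha' a ha
        calc a' * b = a⁻¹ * (a' * (a * b)) := by rw [← mul_assoc a' a b, h2]; group
          _ = a⁻¹ * ((a * b) * a') := by rw [h1]
          _ = b * a' := by group
      rw [hb1, mul_one]; exact ha
    have hbot := H0 _ hN (by rcases hX with rfl | rfl; exact Or.inl hNX; exact Or.inr hNX)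
    have hzN : z ∈ (X ⊔ V) ⊓ Subgroup.centralizer ((X ⊔ V : Subgroup G) : Set G) := by
      refine Subgroup.mem_inf.mpr ⟨hz, ?_⟩
      rw [Cfsg.Agent.Lib.Helper4.Replace.mem_centralizer_iff_le]
      apply sup_le
      · intro a ha
        rw [Subgroup.mem_centralizer_iff]
        intro g hg
        rw [Set.mem_singleton_iff] at hg
        subst hg
        exact (hzX a ha).symm
      · intro v hv
        rw [Subgroup.mem_centralizer_iff]
        intro g hg
        rw [Set.mem_singleton_iff] at hg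
        subst hg
        exact (hzV v hv).symm
    rw [hbot] at hzN
    exact Subgroup.mem_bot.mp hzN
  have hBAf : ∀ g : G, ∃ b ∈ B, ∃ a ∈ A, g = b * a := by
    intro g
    obtain ⟨a, ha, b, hb, h⟩ := hAB g⁻¹
    refine ⟨b⁻¹, B.inv_mem hb, a⁻¹, A.inv_mem ha, ?_⟩
    rw [← mul_inv_rev, ← h, inv_inv]
  have hZAV := hZXV A B hAB cA (Or.inl rfl) hBA1
  have hZBV := hZXV B A hBAf cB (Or.inr rfl) hAB1
  have hBV1 : ∀ x ∈ B, x ∈ V → x = 1 := fun x hxB hxV =>
    hZBV x (Subgroup.mem_sup_left hxB) (fun b hb => cB b hb x hxB) (fun v hv => hVc v hv x hxV)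
  have hVne : V ≠ ⊥ := by
    intro hVb
    have hcomm : ∀ g h : G, g * h = h * g := by
      intro g h
      have := hcomV g h
      rw [hVb, Subgroup.mem_bot] at this
      exact commutatorElement_eq_one_iff_mul_comm.mp this
    obtain ⟨g, hg⟩ := exists_ne (1 : G)
    obtain ⟨a, ha, b, hb, rfl⟩ := hAB g
    rw [hZA a ha (fun g => hcomm g a), hZB b hb (fun g => hcomm g b), mul_one] at hg
    exact hg rfl
  -- primary components of `V`
  have hW : ∀ q : ℕ, q.Prime → ∃ W : Subgroup G, W.Normal ∧ IsPGroup q W ∧ W ≤ V ∧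
      ∀ T : Subgroup G, IsPGroup q T → T ≤ V → T ≤ W := by
    intro q hq
    haveI : Fact q.Prime := ⟨hq⟩
    obtain ⟨S⟩ : Nonempty (Sylow q V) := inferInstance
    have hSn : (S : Subgroup V).Normal := by
      constructor
      intro n hn g
      have e : g * n * g⁻¹ = n := by
        apply Subtype.ext
        show (g : G) * (n : G) * (g : G)⁻¹ = (n : G)
        rw [hVc g g.2 n n.2]; group
      rw [e]; exact hn
    obtain ⟨SG, hSG⟩ : ∃ SG, SG = (S : Subgroup V).map V.subtype := ⟨_, rfl⟩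
    have hle : ∀ T : Subgroup G, IsPGroup q T → T ≤ V → T ≤ SG := by
      intro T hT hTV
      have hT' : IsPGroup q (T.subgroupOf V) := hT.comap_subtype
      obtain ⟨S', hS'⟩ := hT'.exists_le_sylow
      haveI := Sylow.unique_of_normal S hSn
      have hSS : S' = S := Subsingleton.elim _ _
      rw [hSS] at hS'
      intro t ht
      rw [hSG]
      exact ⟨⟨t, hTV ht⟩, hS' (Subgroup.mem_subgroupOf.mpr ht), rfl⟩
    have hSGp : IsPGroup q SG := by rw [hSG]; exact S.isPGroup'.map _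
    have hSGV : SG ≤ V := by rw [hSG]; exact Subgroup.map_subtype_le _
    refine ⟨SG, ?_, hSGp, hSGV, hle⟩
    constructor
    intro x hx g
    have h2 : (SG.map (MulAut.conj g).toMonoidHom) ≤ SG := by
      apply hle
      · exact hSGp.map _
      · rintro _ ⟨y, hy, rfl⟩
        exact hVn.conj_mem y (hSGV hy) g
    exact h2 ⟨x, hx, rfl⟩
  choose! W hWn hWq hWV hWmax using hW
  -- a prime dividing `|V|`
  have hcardV : Nat.card V ≠ 1 := fun h => hVne (Subgroup.card_eq_one.mp h)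
  obtain ⟨p, hp, hpV⟩ := Nat.exists_prime_and_dvd hcardV
  haveI : Fact p.Prime := ⟨hp⟩
  haveI := hWn p hp
  obtain ⟨hMn, hMp, hWM, -⟩ := M_struct A B (W p) hAB cA cB p (hWq p hp) hABbot
    (fun x hxB hxW => hBV1 x hxB (hWV p hp hxW))
  have hWne : W p ≠ ⊥ := by
    obtain ⟨v, hv⟩ := exists_prime_orderOf_dvd_card' (G := V) p hpV
    have hT : IsPGroup p (Subgroup.zpowers (v : G)) := by
      apply IsPGroup.of_card (n := 1)
      rw [Nat.card_zpowers, Subgroup.orderOf_coe, hv, pow_one]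
    have hle := hWmax p hp _ hT (Subgroup.zpowers_le.mpr v.2)
    intro hbot
    rw [hbot] at hle
    have h1 : (v : G) = 1 := Subgroup.mem_bot.mp (hle (Subgroup.mem_zpowers _))
    have h2 : v = 1 := Subtype.ext h1
    rw [h2, orderOf_one] at hv
    exact hp.ne_one hv.symm
  obtain ⟨Mp, hMpdef⟩ : ∃ Mp : Subgroup G, Mp = (A ⊔ W p) ⊓ (B ⊔ W p) := ⟨_, rfl⟩
  rw [← hMpdef] at hMn hMp hWM
  have hne' : (W p).subgroupOf Mp ≠ ⊥ := by
    intro h
    rw [Subgroup.subgroupOf_eq_bot, disjoint_iff, inf_eq_left.mpr hWM] at h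
    exact hWne h
  obtain ⟨z, hzW, hz1, hzc⟩ := Cfsg.Agent.S0551.exists_central_mem_of_normal hMp
    ((W p).subgroupOf Mp) hne'
  have hxW : (z : G) ∈ W p := hzW
  have hx1 : (z : G) ≠ 1 := fun h => hz1 (Subtype.ext h)
  have hxc : ∀ m ∈ Mp, m * (z : G) = (z : G) * m := fun m hm =>
    congrArg Subtype.val (hzc ⟨m, hm⟩)
  obtain ⟨a, ha, b, hb, hxab⟩ := hAB (z : G)
  have ha1 : a ≠ 1 := by
    intro h
    rw [h, one_mul] at hxab
    apply hx1
    apply hBV1 _ (hxab ▸ hb) (hWV p hp hxW)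
  -- `a` commutes with all of `W q`
  have hkey : ∀ q : ℕ, q.Prime → ∀ w ∈ W q, w * a = a * w := by
    intro q hq w hw
    haveI : Fact q.Prime := ⟨hq⟩
    haveI := hWn q hq
    obtain ⟨hMqn, hMqq, hWMq, hdec⟩ := M_struct A B (W q) hAB cA cB q (hWq q hq) hABbot
      (fun x hxB hxW => hBV1 x hxB (hWV q hq hxW))
    have hxMq : ∀ m ∈ (A ⊔ W q) ⊓ (B ⊔ W q), m * (z : G) = (z : G) * m := by
      intro m hm
      by_cases hqp : q = p
      · subst hqp
        rw [← hMpdef] at hm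
        exact hxc m hm
      · have hdisj : Disjoint ((A ⊔ W q) ⊓ (B ⊔ W q)) Mp :=
          IsPGroup.disjoint_of_ne q p hqp _ _ hMqq hMp
        exact (Subgroup.commute_of_normal_of_disjoint _ _ hMqn hMn hdisj m (z : G) hm
          (hWM hxW)).eq
    obtain ⟨a', ha', b', hb', hb'M, rfl⟩ := hdec w (hWMq hw)
    have e1 : a' * a = a * a' := cA a' ha' a ha
    have e2 : b' * (z : G) = (z : G) * b' := hxMq b' hb'M
    have e3 : b' * b⁻¹ = b⁻¹ * b' := cB b' hb' _ (B.inv_mem hb)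
    have e4 : a = (z : G) * b⁻¹ := by rw [hxab]; group
    have e5 : b' * a = a * b' := by
      rw [e4, ← mul_assoc, e2, mul_assoc, e3, ← mul_assoc]
    rw [mul_assoc, e5, ← mul_assoc, e1, mul_assoc]
  -- hence `a` centralizes `V`
  have hJ : (Subgroup.centralizer ({a} : Set G)).subgroupOf V = ⊤ := by
    apply Cfsg.Agent.Lib.Helper9.eq_top_of_forall_exists_sylow_le
    intro q hq
    obtain ⟨S⟩ : Nonempty (Sylow q V) := inferInstance
    refine ⟨S, ?_⟩
    intro y hy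
    rw [Subgroup.mem_subgroupOf, Subgroup.mem_centralizer_iff]
    intro g hg
    rw [Set.mem_singleton_iff] at hg
    subst hg
    have hT : (S : Subgroup V).map V.subtype ≤ W q :=
      hWmax q hq.out _ (S.isPGroup'.map _) (Subgroup.map_subtype_le _)
    exact (hkey q hq.out (y : G) (hT ⟨y, hy, rfl⟩)).symm
  apply ha1
  apply hZAV a (Subgroup.mem_sup_left ha) (fun a' ha' => cA a' ha' a ha)
  intro v hv
  have h1 : (⟨v, hv⟩ : V) ∈ (Subgroup.centralizer ({a} : Set G)).subgroupOf V := by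
    rw [hJ]; trivial
  rw [Subgroup.mem_subgroupOf, Subgroup.mem_centralizer_iff] at h1
  exact (h1 a rfl).symm

/-- If a nontrivial finite group G is the product AB of abelian subgroups A and B, then some nontrivial normal subgroup of G is contained in A or in B. -/
theorem result {G : Type*} [Group G] [Finite G] [Nontrivial G] (A B : Subgroup G) [IsMulCommutative A] [IsMulCommutative B] (hAB : ∀ g : G, ∃ a ∈ A, ∃ b ∈ B, g = a * b) : ∃ N : Subgroup G, N.Normal ∧ N ≠ ⊥ ∧ (N ≤ A ∨ N ≤ B) := by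
  exact main A B hAB

end Cfsg.Agent.S0573
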