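import Mathlib
import Cfsg.Statements.S0576

set_option autoImplicit false
open Cfsg

namespace Cfsg.Agent.S0576

/-- Let H be a normal subgroup of a finite group G with H contained in the Frattini subgroup of G. Then the group of inner automorphisms of H is contained in the Frattini subgroup of the automorphism group of H. -/
theorem result {G : Type*} [Group G] [Finite G] (H : Subgroup G) [H.Normal] (hH : H ≤ frattini G) : (MulAut.conj : ↥H →* MulAut ↥H).range ≤ frattini (MulAut ↥H) := by
  classical
  haveI hInn : (MulAut.conj : ↥H →* MulAut ↥H).range.Normal := by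
    constructor
    rintro _ ⟨h, rfl⟩ α
    refine ⟨α h, ?_⟩
    ext x
    simp [MulAut.conj_apply, map_mul]
  have hθ : ∀ h : H, (MulAut.conjNormal (h : G) : MulAut H) = MulAut.conj h := by
    intro h
    ext x
    simp [MulAut.conjNormal_apply]
  unfold frattini Order.radical
  refine le_iInf₂ fun M hM => ?_
  by_contra hcon
  have hsup : (MulAut.conj : ↥H →* MulAut ↥H).range ⊔ M = ⊤ := by
    by_contra hne
    have hlt : M < (MulAut.conj : ↥H →* MulAut ↥H).range ⊔ M :=
      lt_of_le_of_ne le_sup_right (fun heq => hcon (heq ▸ le_sup_left))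
    exact hne (hM.2 _ hlt)
  have hK : M.comap (MulAut.conjNormal : G →* MulAut H) ⊔ frattini G = ⊤ := by
    rw [eq_top_iff]
    intro g _
    have hg : (MulAut.conjNormal g : MulAut H) ∈ ((MulAut.conj : ↥H →* MulAut ↥H).range ⊔ M : Subgroup (MulAut H)) := by
      rw [hsup]; trivial
    rw [← SetLike.mem_coe, Subgroup.normal_mul] at hg
    obtain ⟨_, ⟨h, rfl⟩, m, hm, hgm⟩ := hg
    have h1 : (h : G)⁻¹ * g ∈ M.comap (MulAut.conjNormal : G →* MulAut H) := by
      rw [Subgroup.mem_comap, map_mul, map_inv, hθ, ← hgm]
      simpa using hm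
    have h2 : g = (h : G)⁻¹ * g * ((g⁻¹ * h * g)) := by group
    rw [h2]
    refine Subgroup.mul_mem _ (Subgroup.mem_sup_left h1) (Subgroup.mem_sup_right (hH ?_))
    have := (inferInstance : H.Normal).conj_mem (h : G) h.2 g⁻¹
    simpa using this
  have hK' := frattini_nongenerating hK
  apply hcon
  rintro _ ⟨h, rfl⟩
  have : (h : G) ∈ M.comap (MulAut.conjNormal : G →* MulAut H) := by rw [hK']; trivial
  rw [Subgroup.mem_comap, hθ] at this
  exact this

end Cfsg.Agent.S0576
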