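import Mathlib
import Cfsg.Statements.S0577
import Cfsg.Agent.Lib.Helper4.Schmidt
import Cfsg.Agent.Lib.Helper16.Generation

set_option autoImplicit false
open Cfsg

open scoped Pointwise commutatorElement

namespace Cfsg.Agent.S0577

universe u

open Cfsg.Agent.Lib.Helper4.Schmidt Cfsg.Agent.Lib.Helper4.Card Cfsg.Agent.Lib.Helper4.Conj

theorem isPGroup_zpowers_of_pow {G : Type u} [Group G] {p : ℕ} [hp : Fact p.Prime] {x : G}
    {k : ℕ} (h : x ^ p ^ k = 1) : IsPGroup p (Subgroup.zpowers x) := by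
  obtain ⟨j, -, hj⟩ := (Nat.dvd_prime_pow hp.out).mp (orderOf_dvd_of_pow_eq_one h)
  apply IsPGroup.of_card (n := j)
  rw [Nat.card_zpowers, hj]

/-- splitting an element into commuting parts killed by coprime numbers -/
theorem exists_split {G : Type u} [Group G] [Finite G] (m₁ m₂ : ℕ) (hcop : m₁.Coprime m₂)
    (hcard : Nat.card G = m₁ * m₂) (a : G) :
    ∃ a₁ a₂ : G, a₁ ∈ Subgroup.zpowers a ∧ a₂ ∈ Subgroup.zpowers a ∧ a = a₁ * a₂ ∧
      a₁ ^ m₁ = 1 ∧ a₂ ^ m₂ = 1 := by
  obtain ⟨s, t, hst⟩ := Nat.isCoprime_iff_coprime.mpr hcop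
  have hpow : a ^ ((m₁ : ℤ) * (m₂ : ℤ)) = 1 := by
    have h1 : a ^ (m₁ * m₂) = 1 := by rw [← hcard]; exact pow_card_eq_one'
    have h2 : ((m₁ : ℤ) * (m₂ : ℤ)) = ((m₁ * m₂ : ℕ) : ℤ) := by push_cast; ring
    rw [h2, zpow_natCast]; exact h1
  refine ⟨a ^ (t * m₂), a ^ (s * m₁), Subgroup.zpow_mem_zpowers a _,
    Subgroup.zpow_mem_zpowers a _, ?_, ?_, ?_⟩
  · rw [← zpow_add]
    have e : t * (m₂ : ℤ) + s * (m₁ : ℤ) = 1 := by rw [← hst]; ring
    rw [e, zpow_one]
  · rw [← zpow_natCast, ← zpow_mul]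
    have e : t * (m₂ : ℤ) * (m₁ : ℤ) = ((m₁ : ℤ) * (m₂ : ℤ)) * t := by ring
    rw [e, zpow_mul, hpow, one_zpow]
  · rw [← zpow_natCast, ← zpow_mul]
    have e : s * (m₁ : ℤ) * (m₂ : ℤ) = ((m₁ : ℤ) * (m₂ : ℤ)) * s := by ring
    rw [e, zpow_mul, hpow, one_zpow]

theorem main {G : Type u} [Group G] [Finite G] (hG : Cfsg.IsMinimalNonNilpotent G) (q : ℕ)
    [hqf : Fact q.Prime] (hq : q ∣ Nat.card G) (Q : Sylow q G) (hQ : (Q : Subgroup G).Normal)
    (D : Subgroup G) [hDn : D.Normal]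
    (hD : D = (commutator ↥(Q : Subgroup G)).map (Q : Subgroup G).subtype) :
    ¬ IsMulCommutative (G ⧸ D) ∧ ∀ K : Subgroup (G ⧸ D), K ≠ ⊤ → IsMulCommutative K := by
  classical
  obtain ⟨p, q', hp, hq', hpq, P, Q', hc, hQ'n, hPQ, hPnn⟩ := schmidt_structure hG
  haveI : Fact p.Prime := ⟨hp⟩
  haveI : Fact q'.Prime := ⟨hq'⟩
  have hPQd : (P : Subgroup G) ⊓ Q' = ⊥ :=
    disjoint_iff.mp (IsPGroup.disjoint_of_ne p q' hpq _ _ P.isPGroup' Q'.isPGroup')
  have hcardG : Nat.card G = Nat.card (P : Subgroup G) * Nat.card (Q' : Subgroup G) := by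
    haveI := hQ'n
    have h3 := card_mul_set (P : Subgroup G) (Q' : Subgroup G)
    rw [← Subgroup.mul_normal (P : Subgroup G) (Q' : Subgroup G)] at h3
    have h5 : Nat.card ↥((P : Subgroup G) ⊔ Q') =
        Nat.card ((↑((P : Subgroup G) ⊔ Q') : Set G)) := rfl
    rw [← h5, hPQ, Subgroup.card_top, hPQd, Subgroup.card_bot, mul_one] at h3
    exact h3
  have hqq : q' = q := by
    rw [hcardG, P.card_eq_multiplicity, Q'.card_eq_multiplicity] at hq
    rcases (Nat.Prime.dvd_mul hqf.out).mp hq with h1 | h1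
    · exfalso
      have h2 : q = p := (Nat.prime_dvd_prime_iff_eq hqf.out hp).mp (hqf.out.dvd_of_dvd_pow h1)
      subst h2
      apply hPnn
      haveI := Sylow.unique_of_normal Q hQ
      have h3 : P = Q := Subsingleton.elim _ _
      rw [h3]; exact hQ
    · exact ((Nat.prime_dvd_prime_iff_eq hqf.out hq').mp (hqf.out.dvd_of_dvd_pow h1)).symm
  subst hqq
  have hQQ : Q' = Q := by
    haveI := Sylow.unique_of_normal Q hQ
    exact Subsingleton.elim _ _
  subst hQQ
  haveI := hQ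
  have hD' : D = ⁅(Q' : Subgroup G), (Q' : Subgroup G)⁆ := by
    rw [hD, Subgroup.map_subtype_commutator]
  have hDQ : D ≤ (Q' : Subgroup G) := by
    rw [hD']; exact Subgroup.commutator_le_left _ _
  have hcop : (Nat.card (P : Subgroup G)).Coprime (Nat.card (Q' : Subgroup G)) := by
    rw [P.card_eq_multiplicity, Q'.card_eq_multiplicity]
    exact Nat.Coprime.pow _ _ ((Nat.coprime_primes hp hq').mpr hpq)
  constructor
  · intro hcomm
    have hcD : ∀ a b : G, ⁅a, b⁆ ∈ D := by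
      intro a b
      rw [← QuotientGroup.eq_one_iff]
      show (QuotientGroup.mk' D) ⁅a, b⁆ = 1
      rw [map_commutatorElement]
      exact commutatorElement_eq_one_iff_mul_comm.mpr (hcomm.is_comm.comm _ _)
    apply hPnn
    have hLn : ((P : Subgroup G) ⊔ D).Normal := by
      constructor
      intro l hl g
      have e : g * l * g⁻¹ = ⁅g, l⁆ * l := by rw [commutatorElement_def]; group
      rw [e]
      exact Subgroup.mul_mem _ (Subgroup.mem_sup_right (hcD g l)) hl
    haveI := hLn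
    have hfr : Subgroup.normalizer ((P : Subgroup G) : Set G) ⊔ ((P : Subgroup G) ⊔ D) = ⊤ :=
      Sylow.normalizer_sup_eq_top' P le_sup_left
    have hfr' : Subgroup.normalizer ((P : Subgroup G) : Set G) ⊔ D = ⊤ := by
      rw [← hfr, ← sup_assoc, sup_eq_left.mpr (Subgroup.le_normalizer (H := (P : Subgroup G)))]
    have h1 : (Q' : Subgroup G) ≤
        ((Q' : Subgroup G) ⊓ Subgroup.normalizer ((P : Subgroup G) : Set G)) ⊔
          ⁅(Q' : Subgroup G), (Q' : Subgroup G)⁆ := by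
      intro y hy
      have hy' : y ∈ Subgroup.normalizer ((P : Subgroup G) : Set G) ⊔ D := by
        rw [hfr']; exact Subgroup.mem_top y
      rw [← SetLike.mem_coe, Subgroup.mul_normal] at hy'
      obtain ⟨n, hn, d, hd, rfl⟩ := Set.mem_mul.mp hy'
      have hnQ : n ∈ (Q' : Subgroup G) := by
        have e : n = (n * d) * d⁻¹ := by group
        rw [e]; exact Subgroup.mul_mem _ hy (Subgroup.inv_mem _ (hDQ hd))
      exact Subgroup.mul_mem_sup (Subgroup.mem_inf.mpr ⟨hnQ, hn⟩) (hD' ▸ hd)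
    haveI : Group.IsNilpotent (Q' : Subgroup G) := Q'.isPGroup'.isNilpotent
    have h2 := Cfsg.Agent.Lib.Helper16.Generation.nilpotent_frattini (Q' : Subgroup G)
      ((Q' : Subgroup G) ⊓ Subgroup.normalizer ((P : Subgroup G) : Set G)) inf_le_left h1
    rw [← Subgroup.normalizer_eq_top_iff, eq_top_iff, ← hPQ]
    exact sup_le Subgroup.le_normalizer (h2.trans inf_le_right)
  · intro Kb hKb
    obtain ⟨K, hK⟩ : ∃ K : Subgroup G, K = Kb.comap (QuotientGroup.mk' D) := ⟨_, rfl⟩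
    have hKtop : K ≠ ⊤ := by
      intro h
      apply hKb
      rw [eq_top_iff]
      intro gb _
      obtain ⟨g, rfl⟩ := QuotientGroup.mk_surjective gb
      have hg : g ∈ K := by rw [h]; exact Subgroup.mem_top g
      rw [hK] at hg
      exact hg
    have hKnil : Group.IsNilpotent K := hG.2 K hKtop
    -- generator of P
    obtain ⟨x0, hx0⟩ := hc.exists_generator
    have hPcomm : ∀ u ∈ (P : Subgroup G), ∀ v ∈ (P : Subgroup G), u * v = v * u := by
      intro u hu v hv
      obtain ⟨i, hi⟩ := Subgroup.mem_zpowers_iff.mp (hx0 ⟨u, hu⟩)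
      obtain ⟨j, hj⟩ := Subgroup.mem_zpowers_iff.mp (hx0 ⟨v, hv⟩)
      have h1 : (⟨u, hu⟩ : (P : Subgroup G)) * ⟨v, hv⟩ = ⟨v, hv⟩ * ⟨u, hu⟩ := by
        rw [← hi, ← hj]
        exact ((Commute.refl x0).zpow_zpow i j).eq
      exact congrArg Subtype.val h1
    -- p-elements of K commute
    have hpp : ∀ a ∈ K, ∀ b ∈ K, IsPGroup p (Subgroup.zpowers a) →
        IsPGroup p (Subgroup.zpowers b) → a * b = b * a := by
      intro a ha b hb hap hbp
      have hnorm := ((Group.isNilpotent_of_finite_tfae (G := K)).out 0 3).mp hKnil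
      have ha' : IsPGroup p (Subgroup.zpowers (⟨a, ha⟩ : K)) := by
        have h1 : Subgroup.zpowers (⟨a, ha⟩ : K) ≤ (Subgroup.zpowers a).subgroupOf K := by
          rw [Subgroup.zpowers_le, Subgroup.mem_subgroupOf]; exact Subgroup.mem_zpowers a
        exact (hap.comap_subtype).to_le h1
      have hb' : IsPGroup p (Subgroup.zpowers (⟨b, hb⟩ : K)) := by
        have h1 : Subgroup.zpowers (⟨b, hb⟩ : K) ≤ (Subgroup.zpowers b).subgroupOf K := by
          rw [Subgroup.zpowers_le, Subgroup.mem_subgroupOf]; exact Subgroup.mem_zpowers b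
        exact (hbp.comap_subtype).to_le h1
      obtain ⟨S, hS⟩ := ha'.exists_le_sylow
      obtain ⟨S', hS'⟩ := hb'.exists_le_sylow
      haveI := Sylow.unique_of_normal S (hnorm p inferInstance S)
      have hSS : S' = S := Subsingleton.elim _ _
      rw [hSS] at hS'
      have hSGp : IsPGroup p ((S : Subgroup K).map K.subtype) := S.isPGroup'.map _
      obtain ⟨g, hg⟩ := Cfsg.Agent.Lib.Helper16.Basic.exists_conj_le_sylow hSGp P
      have haS : a ∈ (S : Subgroup K).map K.subtype :=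
        ⟨⟨a, ha⟩, hS (Subgroup.mem_zpowers _), rfl⟩
      have hbS : b ∈ (S : Subgroup K).map K.subtype :=
        ⟨⟨b, hb⟩, hS' (Subgroup.mem_zpowers _), rfl⟩
      have h1 : g * a * g⁻¹ ∈ (P : Subgroup G) := hg ⟨a, haS, rfl⟩
      have h2 : g * b * g⁻¹ ∈ (P : Subgroup G) := hg ⟨b, hbS, rfl⟩
      have h3 := hPcomm _ h1 _ h2
      calc a * b = g⁻¹ * ((g * a * g⁻¹) * (g * b * g⁻¹)) * g := by group
        _ = g⁻¹ * ((g * b * g⁻¹) * (g * a * g⁻¹)) * g := by rw [h3]
        _ = b * a := by group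
    -- q-elements lie in Q
    have hqQ : ∀ a : G, IsPGroup q' (Subgroup.zpowers a) → a ∈ (Q' : Subgroup G) := by
      intro a ha
      obtain ⟨Q'', hQ''⟩ := ha.exists_le_sylow
      haveI := Sylow.unique_of_normal Q' hQ
      have h1 : Q'' = Q' := Subsingleton.elim _ _
      rw [h1] at hQ''
      exact hQ'' (Subgroup.mem_zpowers a)
    constructor; constructor
    rintro ⟨ub, hub⟩ ⟨vb, hvb⟩
    apply Subtype.ext
    show ub * vb = vb * ub
    obtain ⟨a, rfl⟩ := QuotientGroup.mk_surjective ub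
    obtain ⟨b, rfl⟩ := QuotientGroup.mk_surjective vb
    have haK : a ∈ K := by rw [hK]; exact hub
    have hbK : b ∈ K := by rw [hK]; exact hvb
    obtain ⟨a₁, a₂, ha₁, ha₂, hae, ha₁p, ha₂q⟩ :=
      exists_split _ _ hcop hcardG a
    obtain ⟨b₁, b₂, hb₁, hb₂, hbe, hb₁p, hb₂q⟩ :=
      exists_split _ _ hcop hcardG b
    rw [P.card_eq_multiplicity] at ha₁p hb₁p
    rw [Q'.card_eq_multiplicity] at ha₂q hb₂q
    have hza : Subgroup.zpowers a ≤ K := Subgroup.zpowers_le.mpr haK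
    have hzb : Subgroup.zpowers b ≤ K := Subgroup.zpowers_le.mpr hbK
    have hA1 := isPGroup_zpowers_of_pow ha₁p
    have hA2 := isPGroup_zpowers_of_pow ha₂q
    have hB1 := isPGroup_zpowers_of_pow hb₁p
    have hB2 := isPGroup_zpowers_of_pow hb₂q
    have c11 : a₁ * b₁ = b₁ * a₁ := hpp a₁ (hza ha₁) b₁ (hzb hb₁) hA1 hB1
    have c12 : a₁ * b₂ = b₂ * a₁ :=
      commute_of_nilpotent K hKnil hpq (hza ha₁) (hzb hb₂) hA1 hB2
    have c21 : a₂ * b₁ = b₁ * a₂ :=
      (commute_of_nilpotent K hKnil hpq (hzb hb₁) (hza ha₂) hB1 hA2).symm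
    have c22 : ⁅a₂, b₂⁆ ∈ D := by
      rw [hD']
      exact Subgroup.commutator_mem_commutator (hqQ a₂ hA2) (hqQ b₂ hB2)
    have C11 : Commute (QuotientGroup.mk' D a₁) (QuotientGroup.mk' D b₁) := by
      show _ * _ = _ * _
      rw [← map_mul, ← map_mul, c11]
    have C12 : Commute (QuotientGroup.mk' D a₁) (QuotientGroup.mk' D b₂) := by
      show _ * _ = _ * _
      rw [← map_mul, ← map_mul, c12]
    have C21 : Commute (QuotientGroup.mk' D a₂) (QuotientGroup.mk' D b₁) := by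
      show _ * _ = _ * _
      rw [← map_mul, ← map_mul, c21]
    have C22 : Commute (QuotientGroup.mk' D a₂) (QuotientGroup.mk' D b₂) := by
      rw [← commutatorElement_eq_one_iff_commute, ← map_commutatorElement]
      exact (QuotientGroup.eq_one_iff _).mpr c22
    have hfin : Commute (QuotientGroup.mk' D a₁ * QuotientGroup.mk' D a₂)
        (QuotientGroup.mk' D b₁ * QuotientGroup.mk' D b₂) :=
      (C11.mul_right C12).mul_left (C21.mul_right C22)
    have ea : (a : G ⧸ D) = QuotientGroup.mk' D a₁ * QuotientGroup.mk' D a₂ := by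
      rw [← map_mul, ← hae]; rfl
    have eb : (b : G ⧸ D) = QuotientGroup.mk' D b₁ * QuotientGroup.mk' D b₂ := by
      rw [← map_mul, ← hbe]; rfl
    rw [ea, eb]
    exact hfin.eq

/-- Let G be a finite minimal non-nilpotent group and Q a normal Sylow q-subgroup of G, and let D be the commutator subgroup of Q regarded in G (a normal subgroup). Then G modulo D is non-abelian and all its proper subgroups are abelian. -/
theorem result {G : Type*} [Group G] [Finite G] (hG : Cfsg.IsMinimalNonNilpotent G) (q : ℕ) [Fact q.Prime] (hq : q ∣ Nat.card G) (Q : Sylow q G) (hQ : (Q : Subgroup G).Normal) (D : Subgroup G) [D.Normal] (hD : D = (commutator ↥(Q : Subgroup G)).map (Q : Subgroup G).subtype) : ¬ IsMulCommutative (G ⧸ D) ∧ ∀ K : Subgroup (G ⧸ D), K ≠ ⊤ → IsMulCommutative K := by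
  exact main hG q hq Q hQ D hD

end Cfsg.Agent.S0577
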