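import Mathlib
import Cfsg.Statements.S0578
import Cfsg.Agent.S0567

set_option autoImplicit false
open Cfsg

namespace Cfsg.Agent.S0578

universe u

theorem inherit {G : Type u} [Group G]
    (h : ∀ A : Subgroup G, IsMulCommutative A →
      Subgroup.normalizer (A : Set G) = Subgroup.centralizer (A : Set G)) (H : Subgroup G) :
    ∀ B : Subgroup H, IsMulCommutative B →
      Subgroup.normalizer (B : Set H) = Subgroup.centralizer (B : Set H) := by
  intro B hB
  apply le_antisymm _ (Subgroup.centralizer_le_normalizer _)
  intro x hx
  haveI : IsMulCommutative (B.map H.subtype) := inferInstance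
  have h1 : (x : G) ∈ Subgroup.normalizer ((B.map H.subtype : Subgroup G) : Set G) := by
    have : (Subgroup.normalizer (B : Set H)).map H.subtype
        ≤ Subgroup.normalizer ((B.map H.subtype : Subgroup G) : Set G) := by
      apply Cfsg.Agent.S0567.le_normalizer_of_conj_mem
      rintro _ ⟨a, ha, rfl⟩ _ ⟨b, hb, rfl⟩
      exact ⟨a * b * a⁻¹, (Subgroup.mem_normalizer_iff.mp ha b).mp hb, by simp⟩
    exact this (Subgroup.mem_map_of_mem _ hx)
  rw [h _ inferInstance] at h1
  rw [Subgroup.mem_centralizer_iff]
  intro b hb
  apply Subtype.ext
  exact Subgroup.mem_centralizer_iff.mp h1 _ (Subgroup.mem_map_of_mem _ hb)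

theorem aux (n : ℕ) : ∀ (G : Type u) [Group G] [Finite G], Nat.card G = n →
    (∀ A : Subgroup G, IsMulCommutative A →
      Subgroup.normalizer (A : Set G) = Subgroup.centralizer (A : Set G)) →
    ∀ a b : G, a * b = b * a := by
  induction n using Nat.strong_induction_on with
  | _ n ih =>
    intro G _ _ hn h
    rcases subsingleton_or_nontrivial G with hs | hnt
    · intro a b; exact Subsingleton.elim _ _
    · obtain ⟨p, hp, hpd⟩ := Nat.exists_prime_and_dvd
        (show Nat.card G ≠ 1 from (Finite.one_lt_card (α := G)).ne')
      haveI : Fact p.Prime := ⟨hp⟩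
      obtain ⟨P⟩ : Nonempty (Sylow p G) := inferInstance
      have hPne : (P : Subgroup G) ≠ ⊥ := P.ne_bot_of_dvd_card hpd
      have hcentral : ∀ A : Subgroup G, A.Normal → IsMulCommutative A →
          ∀ x ∈ A, ∀ g : G, x * g = g * x := by
        intro A hAn hAc x hx g
        have := h A hAc
        rw [Subgroup.normalizer_eq_top_iff.mpr hAn] at this
        have hg : g ∈ Subgroup.centralizer (A : Set G) := by rw [← this]; exact Subgroup.mem_top g
        exact Subgroup.mem_centralizer_iff.mp hg x hx
      by_cases hPtop : (P : Subgroup G) = ⊤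
      · have hG : IsPGroup p G := by
          have h1 : IsPGroup p (⊤ : Subgroup G) := hPtop ▸ P.isPGroup'
          exact h1.of_equiv Subgroup.topEquiv
        obtain ⟨k, hk⟩ := IsPGroup.iff_card.mp hG
        have hk0 : k ≠ 0 := by
          rintro rfl
          have : 1 < Nat.card G := Finite.one_lt_card
          rw [hk] at this; simp at this
        obtain ⟨A, hA⟩ := Sylow.exists_subgroup_card_pow_prime p
          (show p ^ (k - 1) ∣ Nat.card G by rw [hk]; exact pow_dvd_pow p (Nat.sub_le k 1))
        have hAidx : A.index = p := by
          have h1 := A.index_mul_card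
          rw [hA, hk] at h1
          have h2 : p ^ k = p * p ^ (k - 1) := by
            rw [← pow_succ']; congr 1; omega
          rw [h2] at h1
          exact Nat.eq_of_mul_eq_mul_right (pow_pos hp.pos _) h1
        haveI hAn : A.Normal := Subgroup.normal_of_index_eq_minFac_card
          (by rw [hAidx, hk, Nat.Prime.pow_minFac hp hk0])
        have hAlt : Nat.card A < n := by
          rw [← hn, hA, hk]
          exact Nat.pow_lt_pow_right hp.one_lt (by omega)
        have hAc := ih _ hAlt A rfl (inherit h A)
        haveI : IsMulCommutative A := ⟨⟨hAc⟩⟩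
        have hAZ : A ≤ Subgroup.center G := by
          intro x hx
          rw [Subgroup.mem_center_iff]
          intro g
          exact (hcentral A hAn inferInstance x hx g).symm
        haveI : IsCyclic (G ⧸ A) := by
          have : Nat.card (G ⧸ A) = p := by rw [← Subgroup.index_eq_card]; exact hAidx
          exact isCyclic_of_prime_card this
        exact commutative_of_cyclic_center_quotient (QuotientGroup.mk' A)
          (by rw [QuotientGroup.ker_mk']; exact hAZ)
      · have hPlt : Nat.card (P : Subgroup G) < n := by
          rw [← hn]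
          have h1 := (P : Subgroup G).index_mul_card
          have h2 : (P : Subgroup G).index ≠ 1 := fun h => hPtop (Subgroup.index_eq_one.mp h)
          have h3 : 0 < (P : Subgroup G).index := Nat.pos_of_ne_zero Subgroup.index_ne_zero_of_finite
          have h4 : 0 < Nat.card (P : Subgroup G) := Nat.card_pos
          have h5 : 2 ≤ (P : Subgroup G).index := by omega
          nlinarith
        have hPc := ih _ hPlt (P : Subgroup G) rfl (inherit h P)
        haveI : IsMulCommutative (P : Subgroup G) := ⟨⟨hPc⟩⟩
        have hNC : Subgroup.normalizer ((P : Subgroup G) : Set G)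
            ≤ Subgroup.centralizer ((P : Subgroup G) : Set G) := (h _ inferInstance).le
        have hcompl := MonoidHom.ker_transferSylow_isComplement' P hNC
        set K := (MonoidHom.transferSylow P hNC).ker with hK
        have hKlt : Nat.card K < n := by
          have h1 := hcompl.card_mul_card
          have h2 : 1 < Nat.card (P : Subgroup G) := by
            rw [Subgroup.one_lt_card_iff_ne_bot]; exact hPne
          have h3 : 0 < Nat.card K := Nat.card_pos
          rw [← hn, ← h1]
          nlinarith
        have hKc := ih _ hKlt K rfl (inherit h K)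
        haveI : IsMulCommutative K := ⟨⟨hKc⟩⟩
        have hKn : K.Normal := MonoidHom.normal_ker _
        have hprod : ∀ g : G, ∃ k ∈ K, ∃ y ∈ (P : Subgroup G), g = k * y := by
          intro g
          obtain ⟨⟨k, y⟩, hky⟩ := hcompl.2 g
          exact ⟨k, k.2, y, y.2, hky.symm⟩
        intro a b
        obtain ⟨k1, hk1, y1, hy1, rfl⟩ := hprod a
        obtain ⟨k2, hk2, y2, hy2, rfl⟩ := hprod b
        have e1 : y1 * y2 = y2 * y1 := setLike_mul_comm hy1 hy2
        have e2 : k1 * k2 = k2 * k1 := setLike_mul_comm hk1 hk2
        have e3 : k2 * y1 = y1 * k2 := hcentral K hKn inferInstance k2 hk2 y1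
        have e4 : k1 * y2 = y2 * k1 := hcentral K hKn inferInstance k1 hk1 y2
        calc k1 * y1 * (k2 * y2) = k1 * (y1 * k2) * y2 := by group
          _ = k1 * (k2 * y1) * y2 := by rw [e3]
          _ = (k1 * k2) * (y1 * y2) := by group
          _ = (k2 * k1) * (y2 * y1) := by rw [e1, e2]
          _ = k2 * (k1 * y2) * y1 := by group
          _ = k2 * (y2 * k1) * y1 := by rw [e4]
          _ = k2 * y2 * (k1 * y1) := by group

/-- If in a finite group the normalizer of each abelian subgroup coincides with its centralizer, then the group is abelian. -/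
theorem result {G : Type*} [Group G] [Finite G] (h : ∀ A : Subgroup G, IsMulCommutative A → Subgroup.normalizer (A : Set G) = Subgroup.centralizer (A : Set G)) : IsMulCommutative G := by
  exact ⟨⟨aux _ G rfl h⟩⟩

end Cfsg.Agent.S0578
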