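import Mathlib
import Cfsg.Statements.S0581
import Cfsg.Agent.Lib.Helper4.Wielandt

set_option autoImplicit false
open Pointwise
open Cfsg

open scoped Pointwise

namespace Cfsg.Agent.S0581

universe u

theorem main {G : Type u} [Group G] [Finite G] (H K : Subgroup G) (hH : Group.IsNilpotent H)
    (hHall : (Nat.card H).Coprime H.index)
    (hK : ∀ p : ℕ, p.Prime → p ∣ Nat.card K → p ∣ Nat.card H) :
    ∃ x : G, K ≤ MulAut.conj x • H := by
  apply Cfsg.Agent.Lib.Helper4.Wielandt.wielandt_aux (Nat.card K) G H K hH _ rfl
  intro p hp hpK hpi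
  exact (Nat.Prime.coprime_iff_not_dvd hp).mp
    (Nat.Coprime.coprime_dvd_left (hK p hp hpK) hHall) hpi

/-- Let H be a nilpotent subgroup of a finite group G whose order is coprime to its index, and K a subgroup every prime divisor of whose order divides the order of H. Then K lies in some conjugate of H. -/
theorem result {G : Type*} [Group G] [Finite G] (H K : Subgroup G) (hH : Group.IsNilpotent H) (hHall : (Nat.card H).Coprime H.index) (hK : ∀ p : ℕ, p.Prime → p ∣ Nat.card K → p ∣ Nat.card H) : ∃ x : G, K ≤ MulAut.conj x • H := by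
  exact main H K hH hHall hK

end Cfsg.Agent.S0581
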