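import Mathlib
import Cfsg.Statements.S0584

set_option autoImplicit false
open Cfsg

namespace Cfsg.Agent.S0584

universe u

/-- Gaschütz: a normal subgroup `A` with `A/B` nilpotent for a normal `B ≤ Φ(G)` is nilpotent;
more precisely all Sylow subgroups of `A` are normal in `G`. -/
theorem sylow_normal_of_nilpotent_quotient {G : Type u} [Group G] [Finite G] (A B : Subgroup G)
    [A.Normal] [B.Normal] (hBA : B ≤ A) (hB : B ≤ frattini G)
    (h : Group.IsNilpotent (↥A ⧸ B.subgroupOf A)) (p : ℕ) [hp : Fact p.Prime] (S : Sylow p A) :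
    ((S : Subgroup A).map A.subtype).Normal := by
  set S' : Subgroup G := (S : Subgroup A).map A.subtype with hS'
  have hfr1 : Subgroup.normalizer (S' : Set G) ⊔ A = ⊤ := Sylow.normalizer_sup_eq_top S
  set B' := B.subgroupOf A with hB'
  set π := QuotientGroup.mk' B' with hπ
  have hSbar : ((S : Subgroup A).map π).Normal := by
    have q := (Group.isNilpotent_of_finite_tfae (G := ↥A ⧸ B')).out 0 3
    have hall := q.mp h
    exact hall p hp (S.mapSurjective (QuotientGroup.mk'_surjective B'))
  set T' : Subgroup A := (S : Subgroup A) ⊔ B' with hT'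
  have hT'n : T'.Normal := by
    have e : T' = ((S : Subgroup A).map π).comap π := by
      rw [Subgroup.comap_map_eq, QuotientGroup.ker_mk']
    rw [e]; exact hSbar.comap π
  set T : Subgroup G := S' ⊔ B with hT
  have hTA : T ≤ A := sup_le (Subgroup.map_subtype_le _) hBA
  have hTmap : T = T'.map A.subtype := by
    rw [hT', Subgroup.map_sup, hB', Subgroup.map_subgroupOf_eq_of_le hBA]
  have hTT' : T.subgroupOf A = T' := by
    rw [hTmap]; exact Subgroup.comap_map_eq_self_of_injective A.subtype_injective _
  have hTn : T.Normal := by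
    rw [← Subgroup.normalizer_eq_top_iff]
    have h1 : A ≤ Subgroup.normalizer (T : Set G) := by
      rw [← Subgroup.normal_subgroupOf_iff_le_normalizer hTA, hTT']; exact hT'n
    have h2 : Subgroup.normalizer (S' : Set G) ≤ Subgroup.normalizer (T : Set G) := by
      refine le_trans ?_ (Subgroup.normalizer_inf_normalizer_le_normalizer_sup S' B)
      have hBtop : Subgroup.normalizer (B : Set G) = ⊤ :=
        Subgroup.normalizer_eq_top_iff.mpr ‹B.Normal›
      refine le_inf le_rfl ?_
      rw [hBtop]; exact le_top
    exact top_le_iff.mp (hfr1 ▸ sup_le h2 h1)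
  have hS'T : S' ≤ T := le_sup_left
  have hS'p : IsPGroup p S' := S.isPGroup'.map A.subtype
  obtain ⟨Q, hQ⟩ := (hS'p.comap_subtype (K := T)).exists_le_sylow
  have hQS : (Q : Subgroup T).map T.subtype = S' := by
    set Q' := (Q : Subgroup T).map T.subtype with hQ'
    have h1 : S' ≤ Q' := by
      intro x hx
      exact ⟨⟨x, hS'T hx⟩, hQ (by simpa [Subgroup.mem_subgroupOf] using hx), rfl⟩
    have h2 : Q' ≤ A := (Subgroup.map_subtype_le _).trans hTA
    have h3 : IsPGroup p (Q'.subgroupOf A) := (Q.isPGroup'.map T.subtype).comap_subtype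
    have h4 : (S : Subgroup A) ≤ Q'.subgroupOf A := by
      intro x hx
      rw [Subgroup.mem_subgroupOf]
      exact h1 (Subgroup.mem_map_of_mem _ hx)
    have h5 := S.is_maximal' h3 h4
    rw [← Subgroup.map_subgroupOf_eq_of_le h2, h5]
  haveI := hTn
  have hfr2 : Subgroup.normalizer (S' : Set G) ⊔ T = ⊤ := by
    have := Sylow.normalizer_sup_eq_top Q
    rwa [hQS] at this
  have hfr3 : Subgroup.normalizer (S' : Set G) ⊔ frattini G = ⊤ := by
    rw [eq_top_iff, ← hfr2, hT]
    exact sup_le le_sup_left
      (sup_le (Subgroup.le_normalizer.trans le_sup_left) (hB.trans le_sup_right))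
  have hN := frattini_nongenerating hfr3
  exact Subgroup.normalizer_eq_top_iff.mp hN

/-- Let B ≤ A be normal subgroups of a finite group G with B contained in the Frattini subgroup of G. If A modulo B is nilpotent then A is nilpotent. -/
theorem result {G : Type*} [Group G] [Finite G] (A B : Subgroup G) [A.Normal] [B.Normal] (hBA : B ≤ A) (hB : B ≤ frattini G) (h : Group.IsNilpotent (↥A ⧸ B.subgroupOf A)) : Group.IsNilpotent A := by
  have q := (Group.isNilpotent_of_finite_tfae (G := A)).out 0 3
  rw [q]
  intro p hp S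
  exact (sylow_normal_of_nilpotent_quotient A B hBA hB h p S).of_map_subtype

end Cfsg.Agent.S0584
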