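import Mathlib
import Cfsg.Statements.S0587
import Cfsg.Agent.Lib.Lead.Cores
import Cfsg.Agent.Lib.Helper4.MaxSub

set_option autoImplicit false
open Cfsg

namespace Cfsg.Agent.S0587

universe u

open Cfsg.Agent.Lib.Lead.Cores Cfsg.Agent.Lib.Helper4.MaxSub

theorem main {G : Type u} [Group G] [Finite G] (p : ℕ) [Fact p.Prime]
    (hL : Cfsg.pCore p G ≠ ⊥) (M : Subgroup G) (hM : IsCoatom M) (hcore : M.normalCore = ⊥) :
    Cfsg.IsElementaryAbelian p (Cfsg.pCore p G) ∧
    Subgroup.IsComplement' (Cfsg.pCore p G) M ∧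
    (∀ K : Subgroup G, K.Normal → K ≤ Cfsg.pCore p G → K = ⊥ ∨ K = Cfsg.pCore p G) ∧
    Subgroup.centralizer ((Cfsg.pCore p G : Subgroup G) : Set G) = Cfsg.pCore p G ∧
    ∀ (q : ℕ) [Fact q.Prime], Cfsg.pCore q ↥M ≠ ⊥ →
      Nat.card (Cfsg.pCore p G) % q = 1 % q ∧ q ≠ p := by
  classical
  set L := Cfsg.pCore p G with hLdef
  haveI hLn : L.Normal := pCore_normal p
  have hLp : IsPGroup p L := pCore_isPGroup p
  have hcf : ∀ N : Subgroup G, N.Normal → N ≤ M → N = ⊥ := by
    intro N hN hNM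
    haveI := hN
    have h1 : N ≤ M.normalCore := Subgroup.normal_le_normalCore.mpr hNM
    rw [hcore] at h1
    exact le_bot_iff.mp h1
  have hdec : ∀ N : Subgroup G, N.Normal → N ≠ ⊥ → ∀ g : G, ∃ n ∈ N, ∃ m ∈ M, g = n * m := by
    intro N hN hNne g
    haveI := hN
    have hNM : ¬ N ≤ M := fun h => hNne (hcf N hN h)
    have htop : M ⊔ N = ⊤ := sup_eq_top_of_not_le hM hNM
    have hg : g ∈ N ⊔ M := by rw [sup_comm, htop]; exact Subgroup.mem_top g
    rw [← SetLike.mem_coe, Subgroup.normal_mul] at hg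
    obtain ⟨n, hn, m, hm, rfl⟩ := Set.mem_mul.mp hg
    exact ⟨n, hn, m, hm, rfl⟩
  haveI : Nontrivial L := (Subgroup.nontrivial_iff_ne_bot L).mpr hL
  haveI := hLp.center_nontrivial
  obtain ⟨z, hz⟩ := exists_ne (1 : Subgroup.center L)
  set Z : Subgroup G := L ⊓ Subgroup.centralizer (L : Set G) with hZ
  have hZn : Z.Normal := inferInstance
  have hzZ : ((z : L) : G) ∈ Z := by
    refine Subgroup.mem_inf.mpr ⟨(z : L).2, ?_⟩
    rw [Subgroup.mem_centralizer_iff]
    intro y hy
    have h1 := Subgroup.mem_center_iff.mp z.2 ⟨y, hy⟩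
    exact congrArg Subtype.val h1
  have hZne : Z ≠ ⊥ := by
    intro h
    rw [h, Subgroup.mem_bot] at hzZ
    apply hz
    apply Subtype.ext; apply Subtype.ext
    exact hzZ
  have hDn : (M ⊓ L).Normal := by
    constructor
    intro x hx g
    obtain ⟨hxM, hxL⟩ := Subgroup.mem_inf.mp hx
    obtain ⟨n, hn, m, hm, rfl⟩ := hdec Z hZn hZne g
    have h1 : m * x * m⁻¹ ∈ L := hLn.conj_mem x hxL m
    have h2 : m * x * m⁻¹ ∈ M := M.mul_mem (M.mul_mem hm hxM) (M.inv_mem hm)
    have h3 : (m * x * m⁻¹) * n = n * (m * x * m⁻¹) :=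
      Subgroup.mem_centralizer_iff.mp (Subgroup.mem_inf.mp hn).2 _ h1
    have e : n * m * x * (n * m)⁻¹ = n * (m * x * m⁻¹) * n⁻¹ := by group
    rw [e, ← h3]
    have e2 : m * x * m⁻¹ * n * n⁻¹ = m * x * m⁻¹ := by group
    rw [e2]
    exact Subgroup.mem_inf.mpr ⟨h2, h1⟩
  have hD : M ⊓ L = ⊥ := hcf _ hDn inf_le_left
  have hkey : ∀ K : Subgroup G, K.Normal → K ≤ L → K ≠ ⊥ → L ≤ K := by
    intro K hK hKL hKne x hx
    obtain ⟨n, hn, m, hm, rfl⟩ := hdec K hK hKne x
    have hmL : m ∈ L := by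
      have e : m = n⁻¹ * (n * m) := by group
      rw [e]; exact L.mul_mem (L.inv_mem (hKL hn)) hx
    have hm1 : m ∈ M ⊓ L := Subgroup.mem_inf.mpr ⟨hm, hmL⟩
    rw [hD, Subgroup.mem_bot] at hm1
    rw [hm1, mul_one]; exact hn
  have hLZ : L ≤ Z := hkey Z hZn inf_le_left hZne
  have hLab : ∀ x ∈ L, ∀ y ∈ L, x * y = y * x := by
    intro x hx y hy
    exact Subgroup.mem_centralizer_iff.mp (Subgroup.mem_inf.mp (hLZ hy)).2 x hx
  have hmin : ∀ K : Subgroup G, K.Normal → K ≤ L → K = ⊥ ∨ K = L := by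
    intro K hK hKL
    by_cases hKb : K = ⊥
    · exact Or.inl hKb
    · exact Or.inr (le_antisymm hKL (hkey K hK hKL hKb))
  have hLexp : ∀ x ∈ L, x ^ p = 1 := by
    let Ω : Subgroup G :=
      { carrier := {x | x ∈ L ∧ x ^ p = 1}
        mul_mem' := by
          rintro a b ⟨ha, hap⟩ ⟨hb, hbp⟩
          refine ⟨L.mul_mem ha hb, ?_⟩
          have hc : Commute a b := hLab a ha b hb
          rw [hc.mul_pow, hap, hbp, one_mul]
        one_mem' := ⟨L.one_mem, one_pow p⟩
        inv_mem' := by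
          rintro a ⟨ha, hap⟩
          exact ⟨L.inv_mem ha, by rw [inv_pow, hap, inv_one]⟩ }
    have hΩn : Ω.Normal := by
      constructor
      rintro x ⟨hx, hxp⟩ g
      refine ⟨hLn.conj_mem x hx g, ?_⟩
      rw [conj_pow, hxp]; group
    have hΩL : Ω ≤ L := fun x hx => hx.1
    have hΩne : Ω ≠ ⊥ := by
      have hdvd : p ∣ Nat.card L := by
        rcases hLp.card_eq_or_dvd with h | h
        · exact absurd (Subgroup.card_eq_one.mp h) hL
        · exact h
      obtain ⟨y, hy⟩ := exists_prime_orderOf_dvd_card' p hdvd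
      intro h
      have hyp : (y : G) ^ p = 1 := by
        rw [← Subgroup.coe_pow, ← hy, pow_orderOf_eq_one]; rfl
      have hyΩ : (y : G) ∈ Ω := ⟨y.2, hyp⟩
      rw [h, Subgroup.mem_bot] at hyΩ
      have hy1 : y = 1 := Subtype.ext hyΩ
      rw [hy1, orderOf_one] at hy
      exact (Fact.out : p.Prime).one_lt.ne hy
    intro x hx
    exact (hkey Ω hΩn hΩL hΩne hx).2
  have hcent : Subgroup.centralizer (L : Set G) = L := by
    set C := Subgroup.centralizer (L : Set G) with hC
    have hCn : C.Normal := inferInstance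
    have hLC : L ≤ C := fun x hx => (Subgroup.mem_inf.mp (hLZ hx)).2
    have hCMn : (C ⊓ M).Normal := by
      constructor
      intro x hx g
      obtain ⟨hxC, hxM⟩ := Subgroup.mem_inf.mp hx
      obtain ⟨n, hn, m, hm, rfl⟩ := hdec L hLn hL g
      have h1 : m * x * m⁻¹ ∈ C := hCn.conj_mem x hxC m
      have h2 : m * x * m⁻¹ ∈ M := M.mul_mem (M.mul_mem hm hxM) (M.inv_mem hm)
      have h3 : n * (m * x * m⁻¹) = (m * x * m⁻¹) * n :=
        Subgroup.mem_centralizer_iff.mp h1 n hn
      have e : n * m * x * (n * m)⁻¹ = n * (m * x * m⁻¹) * n⁻¹ := by group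
      rw [e, h3]
      have e2 : m * x * m⁻¹ * n * n⁻¹ = m * x * m⁻¹ := by group
      rw [e2]
      exact Subgroup.mem_inf.mpr ⟨h1, h2⟩
    have hCM : C ⊓ M = ⊥ := hcf _ hCMn inf_le_right
    apply le_antisymm _ hLC
    intro x hx
    obtain ⟨n, hn, m, hm, rfl⟩ := hdec L hLn hL x
    have hmC : m ∈ C := by
      have e : m = n⁻¹ * (n * m) := by group
      rw [e]; exact C.mul_mem (C.inv_mem (hLC hn)) hx
    have hm1 : m ∈ C ⊓ M := Subgroup.mem_inf.mpr ⟨hmC, hm⟩
    rw [hCM, Subgroup.mem_bot] at hm1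
    rw [hm1, mul_one]; exact hn
  refine ⟨⟨⟨⟨fun a b => Subtype.ext (hLab a a.2 b b.2)⟩⟩, hLexp⟩, ?_, hmin, hcent, ?_⟩
  · apply Subgroup.isComplement'_of_disjoint_and_mul_eq_univ
    · rw [disjoint_iff, inf_comm]; exact hD
    · rw [Set.eq_univ_iff_forall]
      intro g
      obtain ⟨n, hn, m, hm, rfl⟩ := hdec L hLn hL g
      exact Set.mul_mem_mul hn hm
  · intro q hq hQ
    set QG : Subgroup G := (Cfsg.pCore q ↥M).map M.subtype with hQG
    have hQGM : QG ≤ M := Subgroup.map_subtype_le _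
    have hQGne : QG ≠ ⊥ := by
      intro h
      exact hQ ((Subgroup.map_eq_bot_iff_of_injective _ M.subtype_injective).mp h)
    have hQGq : IsPGroup q QG := (pCore_isPGroup q).map _
    have hQGnorm : ∀ m ∈ M, ∀ y ∈ QG, m * y * m⁻¹ ∈ QG := by
      rintro m hm _ ⟨y, hy, rfl⟩
      exact ⟨⟨m, hm⟩ * y * ⟨m, hm⟩⁻¹, (pCore_normal q).conj_mem y hy ⟨m, hm⟩, rfl⟩
    have hQL : ¬ QG ≤ L := by
      intro h
      apply hQGne
      rw [eq_bot_iff, ← hD]
      exact le_inf hQGM h
    have hqp : q ≠ p := by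
      intro hqp
      apply hQL
      have hQGp : IsPGroup p QG := hqp ▸ hQGq
      have hNp : IsPGroup p ↥(L ⊔ QG) := hLp.to_sup_of_normal_left hQGp
      have hNn : (L ⊔ QG).Normal := by
        constructor
        intro x hx g
        obtain ⟨n, hn, m, hm, rfl⟩ := hdec L hLn hL g
        have h1 : m * x * m⁻¹ ∈ L ⊔ QG := by
          have h2 : (L ⊔ QG).map (MulAut.conj m).toMonoidHom ≤ L ⊔ QG := by
            rw [Subgroup.map_sup]
            apply sup_le_sup
            · rintro _ ⟨y, hy, rfl⟩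
              exact hLn.conj_mem y hy m
            · rintro _ ⟨y, hy, rfl⟩
              exact hQGnorm m hm y hy
          exact h2 ⟨x, hx, rfl⟩
        have hnN : n ∈ L ⊔ QG := Subgroup.mem_sup_left hn
        have e : n * m * x * (n * m)⁻¹ = n * (m * x * m⁻¹) * n⁻¹ := by group
        rw [e]
        exact (L ⊔ QG).mul_mem ((L ⊔ QG).mul_mem hnN h1) ((L ⊔ QG).inv_mem hnN)
      exact le_sup_right.trans (le_pCore hNn hNp)
    refine ⟨?_, hqp⟩
    set CL : Subgroup G := L ⊓ Subgroup.centralizer (QG : Set G) with hCL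
    have hCLn : CL.Normal := by
      constructor
      intro x hx g
      obtain ⟨hxL, hxC⟩ := Subgroup.mem_inf.mp hx
      obtain ⟨n, hn, m, hm, rfl⟩ := hdec L hLn hL g
      have h1 : m * x * m⁻¹ ∈ L := hLn.conj_mem x hxL m
      have h2 : m * x * m⁻¹ ∈ Subgroup.centralizer (QG : Set G) := by
        rw [Subgroup.mem_centralizer_iff]
        intro y hy
        have h3 : m⁻¹ * y * m ∈ QG := by
          have h3' := hQGnorm m⁻¹ (M.inv_mem hm) y hy
          rwa [inv_inv] at h3'
        have h4 := Subgroup.mem_centralizer_iff.mp hxC _ h3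
        calc y * (m * x * m⁻¹) = m * ((m⁻¹ * y * m) * x) * m⁻¹ := by group
          _ = m * (x * (m⁻¹ * y * m)) * m⁻¹ := by rw [h4]
          _ = m * x * m⁻¹ * y := by group
      have h5 : n * (m * x * m⁻¹) = (m * x * m⁻¹) * n := hLab n hn _ h1
      have e : n * m * x * (n * m)⁻¹ = n * (m * x * m⁻¹) * n⁻¹ := by group
      rw [e, h5]
      have e2 : m * x * m⁻¹ * n * n⁻¹ = m * x * m⁻¹ := by group
      rw [e2]
      exact Subgroup.mem_inf.mpr ⟨h1, h2⟩
    have hCLb : CL = ⊥ := by
      rcases hmin CL hCLn inf_le_left with h | h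
      · exact h
      · exfalso
        apply hQL
        rw [← hcent]
        intro y hy
        rw [Subgroup.mem_centralizer_iff]
        intro x hx
        have hx' : x ∈ CL := by rw [h]; exact hx
        exact (Subgroup.mem_centralizer_iff.mp (Subgroup.mem_inf.mp hx').2 y hy).symm
    let φ : QG →* MulAut L := (MulAut.conjNormal (H := L)).comp QG.subtype
    letI : MulAction QG L := MulAction.compHom L φ
    have hmod := hQGq.card_modEq_card_fixedPoints L
    have hfix : MulAction.fixedPoints QG L = {1} := by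
      ext x
      rw [MulAction.mem_fixedPoints, Set.mem_singleton_iff]
      constructor
      · intro h
        have hx : (x : G) ∈ CL := by
          refine Subgroup.mem_inf.mpr ⟨x.2, ?_⟩
          rw [Subgroup.mem_centralizer_iff]
          intro y hy
          have h1 := h ⟨y, hy⟩
          have h2 : ((⟨y, hy⟩ : QG) • x : L) = MulAut.conjNormal (H := L) y x := rfl
          rw [h2] at h1
          have h3 := congrArg Subtype.val h1
          rw [MulAut.conjNormal_apply] at h3
          calc y * (x : G) = (y * x * y⁻¹) * y := by group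
            _ = x * y := by rw [h3]
        rw [hCLb, Subgroup.mem_bot] at hx
        exact Subtype.ext hx
      · rintro rfl g
        show φ g 1 = 1
        exact map_one _
    rw [hfix] at hmod
    have h1 : Nat.card ({1} : Set L) = 1 := by
      rw [Nat.card_coe_set_eq, Set.ncard_singleton]
    rw [h1] at hmod
    exact hmod

/-- Let G be a finite group whose largest normal p-subgroup L is nontrivial, and M a maximal subgroup of G with trivial normal core. Then L is elementary abelian, M is a complement to L, L is a minimal normal subgroup of G, the centralizer of L is L, and for every prime q such that the largest normal q-subgroup of M is nontrivial, the order of L is congruent to 1 modulo q and q ≠ p. -/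
theorem result {G : Type*} [Group G] [Finite G] (p : ℕ) [Fact p.Prime] (hL : Cfsg.pCore p G ≠ ⊥) (M : Subgroup G) (hM : IsCoatom M) (hcore : M.normalCore = ⊥) : Cfsg.IsElementaryAbelian p (Cfsg.pCore p G) ∧ Subgroup.IsComplement' (Cfsg.pCore p G) M ∧ (∀ K : Subgroup G, K.Normal → K ≤ Cfsg.pCore p G → K = ⊥ ∨ K = Cfsg.pCore p G) ∧ Subgroup.centralizer ((Cfsg.pCore p G : Subgroup G) : Set G) = Cfsg.pCore p G ∧ ∀ (q : ℕ) [Fact q.Prime], Cfsg.pCore q ↥M ≠ ⊥ → Nat.card (Cfsg.pCore p G) % q = 1 % q ∧ q ≠ p := by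
  exact main p hL M hM hcore

end Cfsg.Agent.S0587
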