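import Mathlib
import Cfsg.Statements.S0588

set_option autoImplicit false
open Cfsg

namespace Cfsg.Agent.S0588

/-- If a subgroup H of a finite group G contains the centralizer of every non-identity element of H, then the order of H is coprime to its index. -/
theorem result {G : Type*} [Group G] [Finite G] (H : Subgroup G) (h : ∀ x ∈ H, x ≠ 1 → Subgroup.centralizer ({x} : Set G) ≤ H) : (Nat.card H).Coprime H.index := by
  apply Nat.coprime_of_dvd
  intro p hp hpH hpI
  have : Fact p.Prime := ⟨hp⟩
  obtain ⟨P⟩ : Nonempty (Sylow p H) := inferInstance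
  have hPne : (P : Subgroup H) ≠ ⊥ := P.ne_bot_of_dvd_card hpH
  obtain ⟨⟨x, hxP⟩, hx1'⟩ := (Subgroup.ne_bot_iff_exists_ne_one).mp hPne
  have hx1 : x ≠ 1 := fun hh => hx1' (Subtype.ext hh)
  have hPG : IsPGroup p ((P : Subgroup H).map H.subtype) := P.isPGroup'.map H.subtype
  obtain ⟨S, hS⟩ := hPG.exists_le_sylow
  have hxS : (x : G) ∈ (S : Subgroup G) := hS ⟨x, hxP, rfl⟩
  have hxne : (x : G) ≠ 1 := fun hh => hx1 (Subtype.ext hh)
  haveI : Nontrivial (S : Subgroup G) := ⟨⟨⟨(x : G), hxS⟩, 1, fun hh => hxne (congrArg Subtype.val hh)⟩⟩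
  have hcen : Nontrivial (Subgroup.center (S : Subgroup G)) := S.isPGroup'.center_nontrivial
  obtain ⟨z, hz1⟩ := exists_ne (1 : Subgroup.center (S : Subgroup G))
  have hzne : ((z : (S : Subgroup G)) : G) ≠ 1 := by
    intro hh
    apply hz1
    apply Subtype.ext
    apply Subtype.ext
    exact hh
  have hzx : ((z : (S : Subgroup G)) : G) ∈ Subgroup.centralizer ({(x : G)} : Set G) := by
    rw [Subgroup.mem_centralizer_iff]
    intro y hy
    rw [Set.mem_singleton_iff] at hy
    subst hy
    have := Subgroup.mem_center_iff.mp z.2 ⟨(x : G), hxS⟩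
    exact congrArg Subtype.val this
  have hzH : ((z : (S : Subgroup G)) : G) ∈ H := h x x.2 hxne hzx
  have hSH : (S : Subgroup G) ≤ H := by
    intro s hs
    apply h _ hzH hzne
    rw [Subgroup.mem_centralizer_iff]
    intro y hy
    rw [Set.mem_singleton_iff] at hy
    subst hy
    have := Subgroup.mem_center_iff.mp z.2 ⟨s, hs⟩
    exact (congrArg Subtype.val this).symm
  exact S.not_dvd_index (hpI.trans (Subgroup.index_dvd_of_le hSH))

end Cfsg.Agent.S0588
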