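import Mathlib
import Cfsg.Statements.S0590

set_option autoImplicit false
open Cfsg
open scoped commutatorElement

namespace Cfsg.Agent.S0590

/-- Quadratic action on an elementary abelian p-group forces the acting group modulo the kernel of the action to be elementary abelian. -/
theorem result {G : Type*} [Group G] [Finite G] {p : ℕ} [Fact p.Prime] (V H : Subgroup G) (hV : Cfsg.IsElementaryAbelian p V) (hHV : H ≤ Subgroup.normalizer (V : Set G)) (hq : ⁅⁅V, H⁆, H⁆ = ⊥) : ⁅H, H⁆ ≤ Subgroup.centralizer (V : Set G) ∧ ∀ a ∈ H, a ^ p ∈ Subgroup.centralizer (V : Set G) := by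
  obtain ⟨hVc, hVp⟩ := hV
  constructor
  · rw [← Subgroup.commutator_eq_bot_iff_le_centralizer]
    apply Subgroup.commutator_commutator_eq_bot_of_rotate
    · rw [Subgroup.commutator_comm H V]; exact hq
    · exact hq
  · intro a ha
    rw [Subgroup.mem_centralizer_iff]
    intro v hv
    have hv' : v ∈ V := hv
    set c : G := ⁅v, a⁆ with hc
    have hcVH : c ∈ ⁅V, H⁆ := Subgroup.commutator_mem_commutator hv' ha
    have hca : c * a = a * c := by
      have h1 : ⁅c, a⁆ ∈ ⁅⁅V, H⁆, H⁆ := Subgroup.commutator_mem_commutator hcVH ha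
      rw [hq, Subgroup.mem_bot] at h1
      exact commutatorElement_eq_one_iff_mul_comm.mp h1
    have hcV : c ∈ V := by
      have h1 : a * v⁻¹ * a⁻¹ ∈ V := ((Subgroup.mem_normalizer_iff.mp (hHV ha)) v⁻¹).mp (V.inv_mem hv')
      have h2 : c = v * (a * v⁻¹ * a⁻¹) := by
        rw [hc, commutatorElement_def]; group
      rw [h2]; exact V.mul_mem hv' h1
    have hcp : c ^ p = 1 := hVp c hcV
    have hva : v * a = a * (c * v) := by
      rw [hc, commutatorElement_def] at hca ⊢
      have : v * a * v⁻¹ * a⁻¹ * a = a * (v * a * v⁻¹ * a⁻¹) := hca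
      calc v * a = v * a * v⁻¹ * a⁻¹ * a * v := by group
        _ = a * (v * a * v⁻¹ * a⁻¹) * v := by rw [this]
        _ = a * (v * a * v⁻¹ * a⁻¹ * v) := by group
    have hpow : ∀ k : ℕ, v * a ^ k = a ^ k * (c ^ k * v) := by
      intro k
      induction k with
      | zero => simp
      | succ k ih =>
        have hcak : c ^ k * a = a * c ^ k := by
          have : Commute c a := hca
          exact (this.pow_left k).eq
        calc v * a ^ (k + 1) = v * a ^ k * a := by rw [pow_succ, mul_assoc]
          _ = a ^ k * (c ^ k * v) * a := by rw [ih]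
          _ = a ^ k * c ^ k * (v * a) := by group
          _ = a ^ k * c ^ k * (a * (c * v)) := by rw [hva]
          _ = a ^ k * (c ^ k * a) * (c * v) := by group
          _ = a ^ k * (a * c ^ k) * (c * v) := by rw [hcak]
          _ = a ^ (k + 1) * (c ^ (k + 1) * v) := by rw [pow_succ, pow_succ]; group
    have := hpow p
    rw [hcp, one_mul] at this
    exact this

end Cfsg.Agent.S0590
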