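import Mathlib
import Cfsg.Statements.S0591

set_option autoImplicit false
open Cfsg
open scoped commutatorElement

namespace Cfsg.Agent.S0591

/-- For a quadratically acting element a on an elementary abelian p-group V, the fixed points C_V(a) have order at least the square root of the order of V. -/
theorem result {G : Type*} [Group G] [Finite G] {p : ℕ} [Fact p.Prime] (V : Subgroup G) (hV : Cfsg.IsElementaryAbelian p V) (a : G) (ha : a ∈ Subgroup.normalizer (V : Set G)) (hq : ⁅⁅V, Subgroup.zpowers a⁆, Subgroup.zpowers a⁆ = ⊥) : Nat.card V ≤ Nat.card ↥(V ⊓ Subgroup.centralizer (Subgroup.zpowers a : Set G)) ^ 2 := by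
  obtain ⟨hVc, hVp⟩ := hV
  have hnorm : ∀ v ∈ V, a * v * a⁻¹ ∈ V := fun v hv => ((Subgroup.mem_normalizer_iff.mp ha) v).mp hv
  have hcomV : ∀ v ∈ V, ⁅v, a⁆ ∈ V := by
    intro v hv
    have h2 : ⁅v, a⁆ = v * (a * v⁻¹ * a⁻¹) := by
      rw [commutatorElement_def]; group
    rw [h2]; exact V.mul_mem hv (hnorm _ (V.inv_mem hv))
  have hcent : ∀ g : G, g * a = a * g → g ∈ Subgroup.centralizer (Subgroup.zpowers a : Set G) := by
    intro g hg
    rw [Subgroup.mem_centralizer_iff]
    rintro h hh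
    obtain ⟨k, rfl⟩ := Subgroup.mem_zpowers_iff.mp hh
    have : Commute g a := hg
    exact (this.zpow_right k).eq.symm
  have hcomC : ∀ v ∈ V, ⁅v, a⁆ ∈ Subgroup.centralizer (Subgroup.zpowers a : Set G) := by
    intro v hv
    apply hcent
    have h1 : ⁅⁅v, a⁆, a⁆ ∈ ⁅⁅V, Subgroup.zpowers a⁆, Subgroup.zpowers a⁆ :=
      Subgroup.commutator_mem_commutator
        (Subgroup.commutator_mem_commutator hv (Subgroup.mem_zpowers a)) (Subgroup.mem_zpowers a)
    rw [hq, Subgroup.mem_bot] at h1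
    exact commutatorElement_eq_one_iff_mul_comm.mp h1
  let φ : V →* V := MonoidHom.mk' (fun v => ⟨⁅(v : G), a⁆, hcomV v v.2⟩) (by
    intro v w
    apply Subtype.ext
    have h1 : ⁅(v : G) * w, a⁆ = v * ⁅(w : G), a⁆ * (a * (v : G)⁻¹ * a⁻¹) := by
      simp only [commutatorElement_def]; group
    have h2 : ⁅(v : G), a⁆ * ⁅(w : G), a⁆ = v * ((a * (v : G)⁻¹ * a⁻¹) * ⁅(w : G), a⁆) := by
      simp only [commutatorElement_def]; group
    have h3 : (a * (v : G)⁻¹ * a⁻¹) * ⁅(w : G), a⁆ = ⁅(w : G), a⁆ * (a * (v : G)⁻¹ * a⁻¹) :=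
      Subgroup.mul_comm_of_mem_isMulCommutative V (hnorm _ (V.inv_mem v.2)) (hcomV w w.2)
    show ⁅((v * w : V) : G), a⁆ = ⁅(v : G), a⁆ * ⁅(w : G), a⁆
    rw [Subgroup.coe_mul, h1, h2, h3]; group)
  have hφ : ∀ v : V, ((φ v : V) : G) = ⁅(v : G), a⁆ := fun v => rfl
  have hker : Nat.card φ.ker ≤ Nat.card ↥(V ⊓ Subgroup.centralizer (Subgroup.zpowers a : Set G)) := by
    have hle : φ.ker.map V.subtype ≤ V ⊓ Subgroup.centralizer (Subgroup.zpowers a : Set G) := by
      rintro _ ⟨v, hv, rfl⟩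
      refine ⟨v.2, hcent _ ?_⟩
      have h1 : φ v = 1 := MonoidHom.mem_ker.mp hv
      have h2 : ⁅(v : G), a⁆ = 1 := by
        rw [← hφ, h1]; rfl
      exact commutatorElement_eq_one_iff_mul_comm.mp h2
    have := Subgroup.card_le_of_le hle
    rwa [Subgroup.card_map_of_injective (Subgroup.subtype_injective _)] at this
  have hrange : Nat.card φ.range ≤ Nat.card ↥(V ⊓ Subgroup.centralizer (Subgroup.zpowers a : Set G)) := by
    have hle : φ.range.map V.subtype ≤ V ⊓ Subgroup.centralizer (Subgroup.zpowers a : Set G) := by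
      rintro _ ⟨_, ⟨v, rfl⟩, rfl⟩
      exact ⟨hcomV v v.2, hcomC v v.2⟩
    have := Subgroup.card_le_of_le hle
    rwa [Subgroup.card_map_of_injective (Subgroup.subtype_injective _)] at this
  have hcard : Nat.card V = Nat.card φ.range * Nat.card φ.ker := by
    rw [← Subgroup.index_ker, Subgroup.index_mul_card]
  rw [hcard, sq]
  exact Nat.mul_le_mul hrange hker

end Cfsg.Agent.S0591
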