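import Mathlib
import Cfsg.Statements.S0592

set_option autoImplicit false
open Cfsg

namespace Cfsg.Agent.S0592

universe u v w

/-- quadratic action of an endomorphism -/
def Quadr {K : Type v} [Field K] {W : Type w} [AddCommGroup W] [Module K W]
    (T : Module.End K W) : Prop :=
  ∀ x : W, T (T x - x) = T x - x

theorem quadr_pow {K : Type v} [Field K] {W : Type w} [AddCommGroup W] [Module K W]
    {T : Module.End K W} (hT : Quadr T) (n : ℕ) (x : W) :
    (T ^ n) x = x + n • (T x - x) := by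
  induction n with
  | zero => simp
  | succ n ih =>
    rw [pow_succ', Module.End.mul_apply, ih, map_add, map_nsmul, hT x, succ_nsmul]
    abel

theorem quadr_pow_char {K : Type v} [Field K] {W : Type w} [AddCommGroup W] [Module K W]
    (p : ℕ) [CharP K p] {T : Module.End K W} (hT : Quadr T) : T ^ p = 1 := by
  refine LinearMap.ext fun x => ?_
  have h0 : (p : ℕ) • (T x - x) = 0 := by
    rw [← Nat.cast_smul_eq_nsmul K, CharP.cast_eq_zero, zero_smul]
  calc (T ^ p) x = x + p • (T x - x) := quadr_pow hT p x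
    _ = x := by rw [h0, add_zero]
    _ = (1 : Module.End K W) x := rfl

/-- restriction of a representation to an invariant subspace -/
noncomputable def subRep {K : Type v} [Field K] {W : Type w} [AddCommGroup W] [Module K W]
    {F : Type u} [Group F] (ρ : F →* Module.End K W) (U : Submodule K W)
    (hU : ∀ g, ∀ x ∈ U, ρ g x ∈ U) : F →* Module.End K U where
  toFun g := (ρ g).restrict (hU g)
  map_one' := by
    refine LinearMap.ext fun x => Subtype.ext ?_
    exact congrArg (fun T : Module.End K W => T (x : W)) (map_one ρ)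
  map_mul' g h := by
    refine LinearMap.ext fun x => Subtype.ext ?_
    exact congrArg (fun T : Module.End K W => T (x : W)) (map_mul ρ g h)

theorem subRep_apply {K : Type v} [Field K] {W : Type w} [AddCommGroup W] [Module K W]
    {F : Type u} [Group F] (ρ : F →* Module.End K W) (U : Submodule K W)
    (hU : ∀ g, ∀ x ∈ U, ρ g x ∈ U) (g : F) (x : U) :
    ((subRep ρ U hU g x : U) : W) = ρ g x := rfl

/-- the representation induced on the quotient by an invariant subspace -/
noncomputable def quotRep {K : Type v} [Field K] {W : Type w} [AddCommGroup W] [Module K W]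
    {F : Type u} [Group F] (ρ : F →* Module.End K W) (U : Submodule K W)
    (hU : ∀ g, ∀ x ∈ U, ρ g x ∈ U) : F →* Module.End K (W ⧸ U) where
  toFun g := U.mapQ U (ρ g) (fun x hx => hU g x hx)
  map_one' := by
    refine LinearMap.ext fun y => ?_
    obtain ⟨x, rfl⟩ := Submodule.Quotient.mk_surjective U y
    exact congrArg (fun T : Module.End K W => (Submodule.Quotient.mk (T x) : W ⧸ U)) (map_one ρ)
  map_mul' g h := by
    refine LinearMap.ext fun y => ?_
    obtain ⟨x, rfl⟩ := Submodule.Quotient.mk_surjective U y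
    exact congrArg (fun T : Module.End K W => (Submodule.Quotient.mk (T x) : W ⧸ U))
      (map_mul ρ g h)

theorem quotRep_mk {K : Type v} [Field K] {W : Type w} [AddCommGroup W] [Module K W]
    {F : Type u} [Group F] (ρ : F →* Module.End K W) (U : Submodule K W)
    (hU : ∀ g, ∀ x ∈ U, ρ g x ∈ U) (g : F) (x : W) :
    quotRep ρ U hU g (Submodule.Quotient.mk x) = Submodule.Quotient.mk (ρ g x) := rfl

theorem quadr_sub {K : Type v} [Field K] {W : Type w} [AddCommGroup W] [Module K W]
    {F : Type u} [Group F] (ρ : F →* Module.End K W) (U : Submodule K W)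
    (hU : ∀ g, ∀ x ∈ U, ρ g x ∈ U) (g : F) (hg : Quadr (ρ g)) : Quadr (subRep ρ U hU g) := by
  intro x
  apply Subtype.ext
  simp only [subRep_apply, Submodule.coe_sub]
  exact hg x

theorem quadr_quot {K : Type v} [Field K] {W : Type w} [AddCommGroup W] [Module K W]
    {F : Type u} [Group F] (ρ : F →* Module.End K W) (U : Submodule K W)
    (hU : ∀ g, ∀ x ∈ U, ρ g x ∈ U) (g : F) (hg : Quadr (ρ g)) : Quadr (quotRep ρ U hU g) := by
  intro y
  obtain ⟨x, rfl⟩ := Submodule.Quotient.mk_surjective U y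
  rw [quotRep_mk, ← Submodule.Quotient.mk_sub, quotRep_mk, hg x]

theorem inv_apply {K : Type v} [Field K] {W : Type w} [AddCommGroup W] [Module K W]
    {F : Type u} [Group F] (ρ : F →* Module.End K W) (g : F) (x : W) :
    ρ g⁻¹ (ρ g x) = x := by
  have h : ρ g⁻¹ * ρ g = 1 := by rw [← map_mul, inv_mul_cancel, map_one]
  exact congrArg (fun T : Module.End K W => T x) h

theorem quadr_sq {K : Type v} [Field K] {W : Type w} [AddCommGroup W] [Module K W]
    {T : Module.End K W} (hT : Quadr T) (x : W) : T (T x) = T x + T x - x := by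
  have h := hT x
  rw [map_sub, sub_eq_iff_eq_add] at h
  rw [h]; abel

theorem inv_apply_of_quadr {K : Type v} [Field K] {W : Type w} [AddCommGroup W] [Module K W]
    {F : Type u} [Group F] (ρ : F →* Module.End K W) (g : F) (hg : Quadr (ρ g)) (x : W) :
    ρ g⁻¹ x = x + x - ρ g x := by
  have h2 : ρ g (x + x - ρ g x) = x := by
    rw [map_sub, map_add, quadr_sq hg]; abel
  calc ρ g⁻¹ x = ρ g⁻¹ (ρ g (x + x - ρ g x)) := by rw [h2]
    _ = x + x - ρ g x := inv_apply ρ g _

theorem gen_induction {F : Type u} [Group F] {a b : F}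
    (hgen : Subgroup.closure ({a, b} : Set F) = ⊤) (P : F → Prop) (h1 : P 1) (ha : P a)
    (hb : P b) (hmul : ∀ x y, P x → P y → P (x * y)) (hinv : ∀ x, P x → P x⁻¹) (g : F) :
    P g := by
  have hg : g ∈ Subgroup.closure ({a, b} : Set F) := by rw [hgen]; exact Subgroup.mem_top g
  induction hg using Subgroup.closure_induction with
  | mem x hx =>
    rcases Set.mem_insert_iff.mp hx with h | h
    · rw [h]; exact ha
    · rw [Set.mem_singleton_iff.mp h]; exact hb
  | one => exact h1
  | mul x y _ _ hx hy => exact hmul x y hx hy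
  | inv x _ hx => exact hinv x hx

theorem splits_aux (K : Type v) [Field K] [Fintype K] :
    (Polynomial.X ^ Fintype.card K - Polynomial.X : Polynomial K).Splits := by
  rw [Polynomial.splits_iff_card_roots, FiniteField.roots_X_pow_card_sub_X K,
    FiniteField.X_pow_card_sub_X_natDegree_eq K Fintype.one_lt_card]
  exact Finset.card_univ

theorem exists_eigen {K : Type v} [Field K] [Fintype K] {p : ℕ} [Fact p.Prime] [CharP K p]
    {W : Type w} [AddCommGroup W] [Module K W] [FiniteDimensional K W] [Nontrivial W]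
    (x : Module.End K W) (e k : ℕ) (hk : k ∣ Fintype.card K - 1)
    (hx : x ^ (p ^ e * k) = 1) :
    ∃ (c : K) (v : W), v ≠ 0 ∧ x v = c • v := by
  classical
  have hdvd : minpoly K x ∣ (Polynomial.X ^ (p ^ e * k) - 1 : Polynomial K) := by
    apply minpoly.dvd
    simp [hx]
  have h1 : (Polynomial.X ^ (p ^ e * k) - 1 : Polynomial K)
      = (Polynomial.X ^ k - 1) ^ (p ^ e) := by
    rw [sub_pow_char_pow, one_pow, ← pow_mul, mul_comm k]
  have h2 : (Polynomial.X ^ k - 1 : Polynomial K)
      ∣ Polynomial.X ^ Fintype.card K - Polynomial.X := by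
    obtain ⟨j, hj⟩ := hk
    have h3 : (Polynomial.X ^ k - 1 : Polynomial K)
        ∣ Polynomial.X ^ (Fintype.card K - 1) - 1 := by
      rw [hj, pow_mul]
      have h := sub_dvd_pow_sub_pow ((Polynomial.X : Polynomial K) ^ k) 1 j
      rwa [one_pow] at h
    have h4 : (Polynomial.X ^ Fintype.card K - Polynomial.X : Polynomial K)
        = Polynomial.X * (Polynomial.X ^ (Fintype.card K - 1) - 1) := by
      have hq : Fintype.card K - 1 + 1 = Fintype.card K := by
        have := Fintype.one_lt_card (α := K); omega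
      rw [mul_sub, mul_one, ← pow_succ', hq]
    rw [h4]; exact Dvd.dvd.mul_left h3 _
  have h5 : (minpoly K x)
      ∣ (Polynomial.X ^ Fintype.card K - Polynomial.X : Polynomial K) ^ (p ^ e) := by
    rw [h1] at hdvd
    exact hdvd.trans (pow_dvd_pow_of_dvd h2 _)
  have hne : (Polynomial.X ^ Fintype.card K - Polynomial.X : Polynomial K) ^ (p ^ e) ≠ 0 :=
    pow_ne_zero _ (FiniteField.X_pow_card_sub_X_ne_zero K Fintype.one_lt_card)
  have hsp : (minpoly K x).Splits := ((splits_aux K).pow _).of_dvd hne h5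
  have hint : IsIntegral K x := Algebra.IsIntegral.isIntegral x
  have hdeg : (minpoly K x).degree ≠ 0 := (minpoly.degree_pos hint).ne'
  obtain ⟨c, hc⟩ := hsp.exists_eval_eq_zero hdeg
  have hev : x.HasEigenvalue c := Module.End.hasEigenvalue_of_isRoot hc
  obtain ⟨v, hv⟩ := hev.exists_hasEigenvector
  exact ⟨c, v, hv.2, hv.apply_eq_smul⟩

theorem irred_case {K : Type v} [Field K] [Fintype K] {p : ℕ} [Fact p.Prime] [CharP K p]
    {W : Type w} [AddCommGroup W] [Module K W] [FiniteDimensional K W]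
    {F : Type u} [Group F] (ρ : F →* Module.End K W) (a b : F)
    (hgen : Subgroup.closure ({a, b} : Set F) = ⊤) (ha : Quadr (ρ a)) (hb : Quadr (ρ b))
    (e k : ℕ) (hk : k ∣ Fintype.card K - 1) (hab : (a * b) ^ (p ^ e * k) = 1)
    (hnp : ∃ g : F, ∀ n : ℕ, ρ g ^ (p ^ n) ≠ 1)
    (hirr : ∀ U : Submodule K W, (∀ g, ∀ x ∈ U, ρ g x ∈ U) → U = ⊥ ∨ U = ⊤) :
    ∃ φ : F →* Matrix.SpecialLinearGroup (Fin 2) K, ∃ g : F, ∀ n : ℕ, φ g ^ (p ^ n) ≠ 1 := by
  classical
  haveI : Nontrivial W := by
    by_contra hnt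
    haveI : Subsingleton W := not_nontrivial_iff_subsingleton.mp hnt
    obtain ⟨g, hg⟩ := hnp
    exact hg 0 (LinearMap.ext fun x => Subsingleton.elim _ _)
  have hx : ρ (a * b) ^ (p ^ e * k) = 1 := by rw [← map_pow, hab, map_one]
  obtain ⟨c, v, hv0, hcv⟩ := exists_eigen (p := p) (ρ (a * b)) e k hk hx
  have hc0 : c ≠ 0 := by
    rintro rfl
    apply hv0
    have h := inv_apply ρ (a * b) v
    rw [hcv, zero_smul, map_zero] at h
    exact h.symm
  have hABv : ρ a (ρ b v) = c • v := by
    rw [← hcv, map_mul]; rfl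
  have hBv : ρ b v = c • (v + v - ρ a v) := by
    have h1 : ρ a⁻¹ (ρ a (ρ b v)) = ρ b v := inv_apply ρ a _
    rw [hABv, map_smul, inv_apply_of_quadr ρ a ha] at h1
    exact h1.symm
  have hAv : ρ a v = (v + v) - c⁻¹ • ρ b v := by
    rw [hBv, smul_smul, inv_mul_cancel₀ hc0, one_smul]; abel
  have hBBv : ρ b (ρ b v) = ρ b v + ρ b v - v := quadr_sq hb v
  have hAAv : ρ a (ρ a v) = ρ a v + ρ a v - v := quadr_sq ha v
  have hBAv : ρ b (ρ a v) = ρ b v + ρ b v - c⁻¹ • (ρ b v + ρ b v - v) := by
    have h1 : ρ b (ρ a v) = ρ b ((v + v) - c⁻¹ • ρ b v) := congrArg (ρ b) hAv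
    rw [h1, map_sub, map_add, map_smul, hBBv]
  obtain ⟨U, hUdef⟩ : ∃ U : Submodule K W, U = Submodule.span K ({v, ρ a v} : Set W) :=
    ⟨_, rfl⟩
  have hvU : v ∈ U := by rw [hUdef]; exact Submodule.subset_span (Set.mem_insert _ _)
  have hAvU : ρ a v ∈ U := by
    rw [hUdef]; exact Submodule.subset_span (Set.mem_insert_of_mem _ rfl)
  have hBvU : ρ b v ∈ U := by
    rw [hBv]; exact U.smul_mem _ (U.sub_mem (U.add_mem hvU hvU) hAvU)
  have hUle : ∀ T : Module.End K W, T v ∈ U → T (ρ a v) ∈ U → ∀ x ∈ U, T x ∈ U := by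
    intro T h1 h2 x hx
    have h3 : Submodule.span K ({v, ρ a v} : Set W) ≤ U.comap T := by
      rw [Submodule.span_le]
      intro y hy
      show T y ∈ U
      rcases Set.mem_insert_iff.mp hy with h | h
      · rw [h]; exact h1
      · rw [Set.mem_singleton_iff.mp h]; exact h2
    have hx' : x ∈ Submodule.span K ({v, ρ a v} : Set W) := by rw [← hUdef]; exact hx
    exact h3 hx'
  have hUa : ∀ x ∈ U, ρ a x ∈ U :=
    hUle (ρ a) hAvU (by rw [hAAv]; exact U.sub_mem (U.add_mem hAvU hAvU) hvU)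
  have hUb : ∀ x ∈ U, ρ b x ∈ U :=
    hUle (ρ b) hBvU (by
      rw [hBAv]
      exact U.sub_mem (U.add_mem hBvU hBvU)
        (U.smul_mem _ (U.sub_mem (U.add_mem hBvU hBvU) hvU)))
  have hUall : ∀ g : F, (∀ x ∈ U, ρ g x ∈ U) ∧ (∀ x ∈ U, ρ g⁻¹ x ∈ U) := by
    intro g
    refine gen_induction hgen (fun g => (∀ x ∈ U, ρ g x ∈ U) ∧ (∀ x ∈ U, ρ g⁻¹ x ∈ U))
      ?_ ?_ ?_ ?_ ?_ g
    · refine ⟨fun x hx => ?_, fun x hx => ?_⟩
      · rw [map_one]; exact hx
      · rw [inv_one, map_one]; exact hx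
    · refine ⟨hUa, fun x hx => ?_⟩
      rw [inv_apply_of_quadr ρ a ha]
      exact U.sub_mem (U.add_mem hx hx) (hUa x hx)
    · refine ⟨hUb, fun x hx => ?_⟩
      rw [inv_apply_of_quadr ρ b hb]
      exact U.sub_mem (U.add_mem hx hx) (hUb x hx)
    · intro y z hy hz
      refine ⟨fun x hx => ?_, fun x hx => ?_⟩
      · rw [map_mul]; exact hy.1 _ (hz.1 x hx)
      · rw [mul_inv_rev, map_mul]; exact hz.2 _ (hy.2 x hx)
    · intro y hy
      refine ⟨hy.2, fun x hx => ?_⟩
      rw [inv_inv]; exact hy.1 x hx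
  have hUtop : U = ⊤ := by
    rcases hirr U (fun g => (hUall g).1) with h | h
    · exfalso; apply hv0
      rw [h] at hvU
      exact (Submodule.mem_bot K).mp hvU
    · exact h
  have hfr2 : Module.finrank K W ≤ 2 := by
    have h2 : Module.finrank K (Submodule.span K ((({v, ρ a v} : Finset W)) : Set W)) ≤ 2 :=
      (finrank_span_finset_le_card (R := K) ({v, ρ a v} : Finset W)).trans Finset.card_le_two
    rw [Finset.coe_pair, ← hUdef, hUtop, finrank_top] at h2
    exact h2
  have hfr1 : 0 < Module.finrank K W := Module.finrank_pos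
  rcases (show Module.finrank K W = 1 ∨ Module.finrank K W = 2 by omega) with h1 | h2
  · exfalso
    have hv1 := (finrank_eq_one_iff_of_nonzero' v hv0).mp h1
    have hq1 : ∀ T : Module.End K W, Quadr T → T = 1 := by
      intro T hT
      obtain ⟨α, hα⟩ := hv1 (T v)
      have h2 := hT v
      rw [← hα, map_sub, map_smul, ← hα] at h2
      have h3 : ((α - 1) * (α - 1)) • v = 0 := by
        have h4 : ((α - 1) * (α - 1)) • v = (α • α • v - α • v) - (α • v - v) := by module
        rw [h4, h2, sub_self]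
      have h5 : α = 1 := by
        rcases smul_eq_zero.mp h3 with h | h
        · exact sub_eq_zero.mp (mul_self_eq_zero.mp h)
        · exact absurd h hv0
      rw [h5, one_smul] at hα
      refine LinearMap.ext fun x => ?_
      obtain ⟨c', hc'⟩ := hv1 x
      calc T x = T (c' • v) := by rw [hc']
        _ = c' • T v := map_smul T c' v
        _ = c' • v := by rw [← hα]
        _ = x := hc'
        _ = (1 : Module.End K W) x := rfl
    have hall : ∀ g : F, ρ g = 1 := by
      intro g
      refine gen_induction hgen (fun g => ρ g = 1) (map_one ρ) (hq1 _ ha) (hq1 _ hb) ?_ ?_ g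
      · intro y z hy hz
        have hy' : ρ y = 1 := hy
        have hz' : ρ z = 1 := hz
        show ρ (y * z) = 1
        rw [map_mul, hy', hz', one_mul]
      · intro y hy
        have hy' : ρ y = 1 := hy
        have h : ρ y⁻¹ * ρ y = 1 := by rw [← map_mul, inv_mul_cancel, map_one]
        rw [hy', mul_one] at h
        exact h
    obtain ⟨g, hg⟩ := hnp
    exact hg 0 (by rw [hall g, one_pow])
  · have bs := Module.finBasisOfFinrankEq K W h2
    obtain ⟨toMat, -⟩ : ∃ f : Module.End K W ≃ₐ[K] Matrix (Fin 2) (Fin 2) K, True :=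
      ⟨LinearMap.toMatrixAlgEquiv bs, trivial⟩
    have hdetq : ∀ g : F, Quadr (ρ g) → (toMat (ρ g)).det = 1 := by
      intro g hg
      have h1 : (toMat (ρ g)).det ^ p = 1 := by
        rw [← Matrix.det_pow, ← map_pow, quadr_pow_char p hg, map_one, Matrix.det_one]
      have h3 : ((toMat (ρ g)).det - 1) ^ p = 0 := by
        rw [sub_pow_char, h1, one_pow, sub_self]
      exact sub_eq_zero.mp ((pow_eq_zero_iff (Fact.out : p.Prime).ne_zero).mp h3)
    have hdet : ∀ g : F, (toMat (ρ g)).det = 1 := by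
      intro g
      refine gen_induction hgen (fun g => (toMat (ρ g)).det = 1) ?_ (hdetq a ha) (hdetq b hb)
        ?_ ?_ g
      · show (toMat (ρ 1)).det = 1
        rw [map_one, map_one, Matrix.det_one]
      · intro y z hy hz
        have hy' : (toMat (ρ y)).det = 1 := hy
        have hz' : (toMat (ρ z)).det = 1 := hz
        show (toMat (ρ (y * z))).det = 1
        rw [map_mul, map_mul, Matrix.det_mul, hy', hz', one_mul]
      · intro y hy
        have hy' : (toMat (ρ y)).det = 1 := hy
        show (toMat (ρ y⁻¹)).det = 1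
        have h : (toMat (ρ y⁻¹)).det * (toMat (ρ y)).det = 1 := by
          rw [← Matrix.det_mul, ← map_mul, ← map_mul, inv_mul_cancel, map_one, map_one,
            Matrix.det_one]
        rw [hy', mul_one] at h
        exact h
    obtain ⟨φ, hφ⟩ : ∃ φ : F →* Matrix.SpecialLinearGroup (Fin 2) K,
        ∀ g, ((φ g : Matrix.SpecialLinearGroup (Fin 2) K) : Matrix (Fin 2) (Fin 2) K)
          = toMat (ρ g) :=
      ⟨{ toFun := fun g => ⟨toMat (ρ g), hdet g⟩
         map_one' := by
           apply Subtype.ext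
           show toMat (ρ 1) = 1
           rw [map_one, map_one]
         map_mul' := fun g h => by
           apply Subtype.ext
           show toMat (ρ (g * h)) = toMat (ρ g) * toMat (ρ h)
           rw [map_mul, map_mul] }, fun g => rfl⟩
    obtain ⟨g, hg⟩ := hnp
    refine ⟨φ, g, fun n hn => hg n ?_⟩
    have h3 : φ (g ^ (p ^ n)) = 1 := by rw [map_pow]; exact hn
    have h4 : toMat (ρ (g ^ (p ^ n))) = 1 := (hφ _).symm.trans (congrArg Subtype.val h3)
    have h5 : ρ (g ^ (p ^ n)) = 1 := toMat.injective (by rw [h4, map_one])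
    rw [← map_pow]; exact h5

theorem main {K : Type v} [Field K] [Fintype K] {p : ℕ} [Fact p.Prime] [CharP K p] (e k : ℕ)
    (hk : k ∣ Fintype.card K - 1) {F : Type u} [Group F] (a b : F)
    (hgen : Subgroup.closure ({a, b} : Set F) = ⊤) (hab : (a * b) ^ (p ^ e * k) = 1) :
    ∀ (n : ℕ) (W : Type w) [AddCommGroup W] [Module K W] [FiniteDimensional K W]
      (ρ : F →* Module.End K W), Module.finrank K W = n → Quadr (ρ a) → Quadr (ρ b) →
      (∃ g : F, ∀ m : ℕ, ρ g ^ (p ^ m) ≠ 1) →
      ∃ φ : F →* Matrix.SpecialLinearGroup (Fin 2) K, ∃ g : F, ∀ m : ℕ, φ g ^ (p ^ m) ≠ 1 := by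
  intro n
  induction n using Nat.strong_induction_on with
  | _ n ih =>
    intro W _ _ _ ρ hn ha hb hnp
    by_cases hirr : ∀ U : Submodule K W, (∀ g, ∀ x ∈ U, ρ g x ∈ U) → U = ⊥ ∨ U = ⊤
    · exact irred_case ρ a b hgen ha hb e k hk hab hnp hirr
    · push_neg at hirr
      obtain ⟨U, hU, hUbot, hUtop⟩ := hirr
      have hlt1 : Module.finrank K U < n := hn ▸ Submodule.finrank_lt hUtop
      have hlt2 : Module.finrank K (W ⧸ U) < n := by
        have h1 := Submodule.finrank_quotient_add_finrank U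
        have h2 : Module.finrank K U ≠ 0 := fun h => hUbot (Submodule.finrank_eq_zero.mp h)
        omega
      by_cases hs : ∃ g : F, ∀ m : ℕ, subRep ρ U hU g ^ (p ^ m) ≠ 1
      · exact ih _ hlt1 U (subRep ρ U hU) rfl (quadr_sub ρ U hU a ha) (quadr_sub ρ U hU b hb) hs
      by_cases hq : ∃ g : F, ∀ m : ℕ, quotRep ρ U hU g ^ (p ^ m) ≠ 1
      · exact ih _ hlt2 (W ⧸ U) (quotRep ρ U hU) rfl (quadr_quot ρ U hU a ha)
          (quadr_quot ρ U hU b hb) hq
      exfalso
      push_neg at hs hq
      obtain ⟨g, hg⟩ := hnp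
      obtain ⟨m1, hm1⟩ := hs g
      obtain ⟨m2, hm2⟩ := hq g
      have h1 : subRep ρ U hU (g ^ (p ^ (m1 + m2))) = 1 := by
        rw [map_pow, pow_add, pow_mul, hm1, one_pow]
      have h2 : quotRep ρ U hU (g ^ (p ^ (m1 + m2))) = 1 := by
        rw [map_pow, pow_add, mul_comm (p ^ m1), pow_mul, hm2, one_pow]
      have hquad : Quadr (ρ (g ^ (p ^ (m1 + m2)))) := by
        intro x
        have h3 : ρ (g ^ (p ^ (m1 + m2))) x - x ∈ U := by
          have h4 := congrArg (fun f : Module.End K (W ⧸ U) => f (Submodule.Quotient.mk x)) h2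
          exact (Submodule.Quotient.eq U).mp h4
        have h5 := congrArg (fun f : Module.End K U => ((f ⟨_, h3⟩ : U) : W)) h1
        exact h5
      have h6 := quadr_pow_char p hquad
      apply hg (m1 + m2 + 1)
      rw [pow_succ, pow_mul, ← map_pow ρ g]
      exact h6

/-- Two quadratically acting generators of a linear group that is not a p-group, with the p'-part of the order of their product dividing q - 1, give a homomorphism onto a subgroup of SL(2, q) that is not a p-group. -/
theorem result {K : Type*} [Field K] [Fintype K] {p : ℕ} [Fact p.Prime] [CharP K p] {W : Type*} [AddCommGroup W] [Module K W] [FiniteDimensional K W] [Finite W] [Nontrivial W] (H : Subgroup (W ≃ₗ[K] W)) (a b : W ≃ₗ[K] W) (hH : H = Subgroup.closure {a, b}) (ha : ∀ w : W, a (a w - w) = a w - w) (hb : ∀ w : W, b (b w - w) = b w - w) (hnp : ¬ IsPGroup p H) (hk : ∃ e k : ℕ, orderOf (a * b) = p ^ e * k ∧ k ∣ Fintype.card K - 1) : ∃ φ : H →* Matrix.SpecialLinearGroup (Fin 2) K, ¬ IsPGroup p φ.range :=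 by
  classical
  subst hH
  obtain ⟨e, k, hord, hk⟩ := hk
  have ha' : a ∈ Subgroup.closure ({a, b} : Set (W ≃ₗ[K] W)) :=
    Subgroup.subset_closure (Set.mem_insert _ _)
  have hb' : b ∈ Subgroup.closure ({a, b} : Set (W ≃ₗ[K] W)) :=
    Subgroup.subset_closure (Set.mem_insert_of_mem _ rfl)
  obtain ⟨ρ, hρ⟩ : ∃ ρ : ↥(Subgroup.closure ({a, b} : Set (W ≃ₗ[K] W))) →* Module.End K W,
      ∀ g x, ρ g x = (g : W ≃ₗ[K] W) x :=
    ⟨LinearEquiv.automorphismGroup.toLinearMapMonoidHom.comp (Subgroup.subtype _),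
      fun g x => rfl⟩
  have hgen : Subgroup.closure ({⟨a, ha'⟩, ⟨b, hb'⟩} :
      Set ↥(Subgroup.closure ({a, b} : Set (W ≃ₗ[K] W)))) = ⊤ := by
    apply Subgroup.map_injective (Subgroup.subtype_injective _)
    rw [MonoidHom.map_closure, Set.image_pair, ← MonoidHom.range_eq_map, Subgroup.range_subtype]
    rfl
  have ha2 : Quadr (ρ ⟨a, ha'⟩) := by
    intro x
    rw [hρ, hρ]
    exact ha x
  have hb2 : Quadr (ρ ⟨b, hb'⟩) := by
    intro x
    rw [hρ, hρ]
    exact hb x
  have hab : ((⟨a, ha'⟩ * ⟨b, hb'⟩ : ↥(Subgroup.closure ({a, b} : Set (W ≃ₗ[K] W))))) ^ (p ^ e * k)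
      = 1 := by
    apply Subtype.ext
    rw [← hord]
    exact pow_orderOf_eq_one (a * b)
  have hinj : ∀ h : ↥(Subgroup.closure ({a, b} : Set (W ≃ₗ[K] W))), ρ h = 1 → h = 1 := by
    intro h hh
    apply Subtype.ext
    apply LinearEquiv.ext
    intro x
    have h1 := congrArg (fun f : Module.End K W => f x) hh
    rw [← hρ]
    exact h1
  have hnp' : ∃ g : ↥(Subgroup.closure ({a, b} : Set (W ≃ₗ[K] W))), ∀ m : ℕ, ρ g ^ (p ^ m) ≠ 1 := by
    by_contra hcon
    push_neg at hcon
    apply hnp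
    intro g
    obtain ⟨m, hm⟩ := hcon g
    exact ⟨m, hinj _ (by rw [map_pow]; exact hm)⟩
  obtain ⟨φ, g, hg⟩ := main e k hk _ _ hgen hab _ W ρ rfl ha2 hb2 hnp'
  refine ⟨φ, fun hP => ?_⟩
  obtain ⟨m, hm⟩ := hP ⟨φ g, g, rfl⟩
  exact hg m (by simpa using congrArg Subtype.val hm)

end Cfsg.Agent.S0592
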