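import Cfsg.Statements.S0593
import Cfsg.Agent.Lib.Lead.QuadBridge

set_option autoImplicit false
open Cfsg

namespace Cfsg.Agent.S0593

/-- For odd p, a faithful group on an elementary abelian p-group generated by two quadratically acting elements is a p-group or has non-abelian Sylow 2-subgroups. -/
theorem result {G : Type*} [Group G] [Finite G] {p : ℕ} [Fact p.Prime] (hp : p ≠ 2) (V H : Subgroup G) (hV : Cfsg.IsElementaryAbelian p V) (hHV : H ≤ Subgroup.normalizer (V : Set G)) (hf : H ⊓ Subgroup.centralizer (V : Set G) = ⊥) (a b : G) (hab : H = Subgroup.closure {a, b}) (ha : ⁅⁅V, Subgroup.zpowers a⁆, Subgroup.zpowers a⁆ = ⊥) (hb : ⁅⁅V, Subgroup.zpowers b⁆, Subgroup.zpowers b⁆ = ⊥) (hnp : ¬ IsPGroup p H) (T : Sylow 2 H) : ¬ IsMulCommutative T := by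
  intro hT
  subst hab
  apply hnp
  have key := Cfsg.Agent.Lib.Lead.QuadBridge.pair_bridge p hp V hV.1 hV.2 a b
    (hHV (Subgroup.subset_closure (by simp))) (hHV (Subgroup.subset_closure (by simp)))
    (Cfsg.Agent.Lib.Lead.QuadBridge.quad_of_comm V a ha)
    (Cfsg.Agent.Lib.Lead.QuadBridge.quad_of_comm V b hb) T hT
  rintro ⟨h, hh⟩
  obtain ⟨j, hj⟩ := key h hh
  refine ⟨j, Subtype.ext ?_⟩
  have h1 : h ^ p ^ j ∈ Subgroup.closure ({a, b} : Set G) ⊓ Subgroup.centralizer (V : Set G) :=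
    ⟨Subgroup.pow_mem _ hh _, hj⟩
  rw [hf] at h1
  exact Subgroup.mem_bot.mp h1

end Cfsg.Agent.S0593
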