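import Cfsg.Statements.S0595
import Cfsg.Agent.Lib.Lead.QuadBridge

set_option autoImplicit false
open Cfsg

namespace Cfsg.Agent.S0595

/-- For odd p, a faithful action on an elementary abelian p-group that is not p-stable forces non-abelian Sylow 2-subgroups. -/
theorem result {G : Type*} [Group G] [Finite G] {p : ℕ} [Fact p.Prime] (hp : p ≠ 2) (V H : Subgroup G) (hV : Cfsg.IsElementaryAbelian p V) (hHV : H ≤ Subgroup.normalizer (V : Set G)) (hf : H ⊓ Subgroup.centralizer (V : Set G) = ⊥) (a : G) (haH : a ∈ H) (hq : ⁅⁅V, Subgroup.zpowers a⁆, Subgroup.zpowers a⁆ = ⊥) (hna : a ∉ (Cfsg.pCore p H).map H.subtype) (T : Sylow 2 H) : ¬ IsMulCommutative T := by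
  intro hT
  apply hna
  obtain ⟨D, hDH, hHD, hCD, haD, hDp⟩ := Cfsg.Agent.Lib.Lead.QuadBridge.stable_bridge p hp V
    hV.1 hV.2 H hHV T hT a haH (Cfsg.Agent.Lib.Lead.QuadBridge.quad_of_comm V a hq)
  have hn : (D.subgroupOf H).Normal := (Subgroup.normal_subgroupOf_iff_le_normalizer hDH).mpr hHD
  have hp' : IsPGroup p (D.subgroupOf H) := by
    rintro ⟨x, hx⟩
    obtain ⟨j, hj⟩ := hDp x.1 hx
    refine ⟨j, Subtype.ext (Subtype.ext ?_)⟩
    have h1 : (x : G) ^ p ^ j ∈ H ⊓ Subgroup.centralizer (V : Set G) :=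
      ⟨Subgroup.pow_mem _ x.2 _, hj⟩
    rw [hf] at h1
    exact Subgroup.mem_bot.mp h1
  have hle : D.subgroupOf H ≤ Cfsg.pCore p H := le_sSup ⟨hn, hp'⟩
  exact ⟨⟨a, haH⟩, hle haD, rfl⟩

end Cfsg.Agent.S0595
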