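import Mathlib
import Cfsg.Statements.S0597
import Cfsg.Agent.S0538
import Cfsg.Agent.Lib.Helper9.Cores

set_option autoImplicit false
open Cfsg

open scoped commutatorElement

namespace Cfsg.Agent.S0597

universe u

/-- the stability subgroup of the chain `W ≤ V` -/
def stab {G : Type u} [Group G] (V W : Subgroup G) : Subgroup G where
  carrier := {g | g ∈ Subgroup.normalizer (V : Set G) ∧ g ∈ Subgroup.normalizer (W : Set G) ∧
    ∀ v ∈ V, v⁻¹ * g⁻¹ * v * g ∈ W}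
  one_mem' := ⟨Subgroup.one_mem _, Subgroup.one_mem _, fun v hv => by simp⟩
  mul_mem' := by
    rintro g h ⟨hg1, hg2, hg3⟩ ⟨hh1, hh2, hh3⟩
    refine ⟨mul_mem hg1 hh1, mul_mem hg2 hh2, fun v hv => ?_⟩
    have e : v⁻¹ * (g * h)⁻¹ * v * (g * h)
        = (v⁻¹ * h⁻¹ * v * h) * (h⁻¹ * (v⁻¹ * g⁻¹ * v * g) * h) := by group
    rw [e]
    exact mul_mem (hh3 v hv) ((Subgroup.mem_normalizer_iff''.mp hh2 _).mp (hg3 v hv))
  inv_mem' := by
    rintro g ⟨hg1, hg2, hg3⟩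
    refine ⟨inv_mem hg1, inv_mem hg2, fun v hv => ?_⟩
    have hu : g * v * g⁻¹ ∈ V := (Subgroup.mem_normalizer_iff.mp hg1 v).mp hv
    have := hg3 _ hu
    have e : v⁻¹ * g⁻¹⁻¹ * v * g⁻¹ = ((g * v * g⁻¹)⁻¹ * g⁻¹ * (g * v * g⁻¹) * g)⁻¹ := by group
    rw [e]; exact inv_mem this

theorem pow_conj_aux {G : Type u} [Group G] (g v c : G) (hc : g⁻¹ * v * g = v * c)
    (hgc : g⁻¹ * c * g = c) (n : ℕ) : (g ^ n)⁻¹ * v * g ^ n = v * c ^ n := by
  have hcomm : Commute c g := by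
    have : c * g = g * (g⁻¹ * c * g) := by group
    rw [hgc] at this
    exact this
  induction n with
  | zero => simp
  | succ n ih =>
    have e : (g ^ (n + 1))⁻¹ * v * g ^ (n + 1) = g⁻¹ * ((g ^ n)⁻¹ * v * g ^ n) * g := by
      rw [pow_succ]; group
    rw [e, ih]
    have h3 : c ^ n * g = g * c ^ n := (hcomm.pow_left n).eq
    calc g⁻¹ * (v * c ^ n) * g = g⁻¹ * v * (c ^ n * g) := by group
      _ = g⁻¹ * v * (g * c ^ n) := by rw [h3]
      _ = (g⁻¹ * v * g) * c ^ n := by group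
      _ = v * c * c ^ n := by rw [hc]
      _ = v * c ^ (n + 1) := by rw [pow_succ', mul_assoc]

/-- If two subnormal subgroups of a faithful group on an elementary abelian p-group satisfy [V, E₁, E₂] = 1, then their commutator lies in the largest normal p-subgroup. -/
theorem result {G : Type*} [Group G] [Finite G] {p : ℕ} [Fact p.Prime] (V H : Subgroup G) (hV : Cfsg.IsElementaryAbelian p V) (hHV : H ≤ Subgroup.normalizer (V : Set G)) (hf : H ⊓ Subgroup.centralizer (V : Set G) = ⊥) (E₁ E₂ : Subgroup G) (h₁ : E₁ ≤ H) (h₂ : E₂ ≤ H) (hs₁ : (E₁.subgroupOf H).IsSubnormal) (hs₂ : (E₂.subgroupOf H).IsSubnormal) (hc : ⁅⁅V, E₁⁆, E₂⁆ = ⊥) : ⁅E₁, E₂⁆ ≤ (Cfsg.pCore p H).map H.subtype := by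
  classical
  obtain ⟨hVc, hVp⟩ := hV
  set W := ⁅V, E₁⁆ with hW
  have hE1V : E₁ ≤ Subgroup.normalizer (V : Set G) := h₁.trans hHV
  have hE2V : E₂ ≤ Subgroup.normalizer (V : Set G) := h₂.trans hHV
  have hWV : W ≤ V := by
    rw [hW, Subgroup.commutator_le]
    intro v hv e he
    have : e * v⁻¹ * e⁻¹ ∈ V := (Subgroup.mem_normalizer_iff.mp (hE1V he) _).mp (inv_mem hv)
    have e' : ⁅v, e⁆ = v * (e * v⁻¹ * e⁻¹) := by simp [commutatorElement_def, mul_assoc]
    rw [e']; exact mul_mem hv this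
  have hE1W : E₁ ≤ Subgroup.normalizer (W : Set G) := Subgroup.normalizer_commutator_ge_right V E₁
  have hE2C : E₂ ≤ Subgroup.centralizer (W : Set G) := by
    rw [Subgroup.commutator_comm] at hc
    exact Subgroup.commutator_eq_bot_iff_le_centralizer.mp hc
  have hE2W : E₂ ≤ Subgroup.normalizer (W : Set G) := hE2C.trans (Subgroup.centralizer_le_normalizer _)
  have hE1C : E₁ ≤ Subgroup.normalizer ((Subgroup.centralizer (W : Set G) : Subgroup G) : Set G) := by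
    intro e he
    rw [Subgroup.mem_normalizer_iff]
    have key : ∀ e ∈ E₁, ∀ h ∈ Subgroup.centralizer (W : Set G),
        e * h * e⁻¹ ∈ Subgroup.centralizer (W : Set G) := by
      intro e he h hh
      rw [Subgroup.mem_centralizer_iff]
      intro w hw
      have hw' : e⁻¹ * w * e ∈ W := (Subgroup.mem_normalizer_iff''.mp (hE1W he) w).mp hw
      have := Subgroup.mem_centralizer_iff.mp hh _ hw'
      calc w * (e * h * e⁻¹) = e * ((e⁻¹ * w * e) * h) * e⁻¹ := by group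
        _ = e * (h * (e⁻¹ * w * e)) * e⁻¹ := by rw [this]
        _ = e * h * e⁻¹ * w := by group
    intro h
    refine ⟨key e he h, fun hh => ?_⟩
    have := key e⁻¹ (inv_mem he) _ hh
    have e2 : e⁻¹ * (e * h * e⁻¹) * e⁻¹⁻¹ = h := by group
    rwa [e2] at this
  -- X centralizes W
  have hXC : ⁅E₁, E₂⁆ ≤ Subgroup.centralizer (W : Set G) := by
    rw [Subgroup.commutator_le]
    intro e1 he1 e2 he2
    have h1 : e1 * e2 * e1⁻¹ ∈ Subgroup.centralizer (W : Set G) :=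
      (Subgroup.mem_normalizer_iff.mp (hE1C he1) _).mp (hE2C he2)
    rw [commutatorElement_def]
    exact mul_mem h1 (inv_mem (hE2C he2))
  -- X is in the stability group
  have hE1S : E₁ ≤ stab V W := by
    intro e he
    refine ⟨hE1V he, hE1W he, fun v hv => ?_⟩
    have : ⁅v⁻¹, e⁻¹⁆ ∈ W := Subgroup.commutator_mem_commutator (inv_mem hv) (inv_mem he)
    simpa [commutatorElement_def] using this
  have hXS : ⁅E₁, E₂⁆ ≤ stab V W := by
    rw [Subgroup.commutator_le]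
    intro e1 he1 e2 he2
    have h1 : e2 * e1⁻¹ * e2⁻¹ ∈ stab V W := by
      obtain ⟨a1, a2, a3⟩ := hE1S (inv_mem he1)
      refine ⟨mul_mem (mul_mem (hE2V he2) a1) (inv_mem (hE2V he2)),
        mul_mem (mul_mem (hE2W he2) a2) (inv_mem (hE2W he2)), fun v hv => ?_⟩
      have hv' : e2⁻¹ * v * e2 ∈ V := (Subgroup.mem_normalizer_iff''.mp (hE2V he2) v).mp hv
      have := a3 _ hv'
      have e : v⁻¹ * (e2 * e1⁻¹ * e2⁻¹)⁻¹ * v * (e2 * e1⁻¹ * e2⁻¹)
          = e2 * ((e2⁻¹ * v * e2)⁻¹ * e1⁻¹⁻¹ * (e2⁻¹ * v * e2) * e1⁻¹) * e2⁻¹ := by group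
      rw [e]
      exact (Subgroup.mem_normalizer_iff.mp (hE2W he2) _).mp this
    have e : ⁅e1, e2⁆ = e1 * (e2 * e1⁻¹ * e2⁻¹) := by simp [commutatorElement_def, mul_assoc]
    rw [e]
    exact mul_mem (hE1S he1) h1
  -- every element of X has p-th power centralizing V
  have hXH : ⁅E₁, E₂⁆ ≤ H := (Subgroup.commutator_le_sup E₁ E₂).trans (sup_le h₁ h₂)
  have hXp : ∀ g ∈ ⁅E₁, E₂⁆, g ^ p = 1 := by
    intro g hg
    have hgH : g ^ p ∈ H := pow_mem (hXH hg) p
    have hgC : g ^ p ∈ Subgroup.centralizer (V : Set G) := by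
      rw [Subgroup.mem_centralizer_iff]
      intro v hv
      obtain ⟨a1, a2, a3⟩ := hXS hg
      have hcW := a3 v hv
      have hcc : g⁻¹ * (v⁻¹ * g⁻¹ * v * g) * g = v⁻¹ * g⁻¹ * v * g := by
        have := Subgroup.mem_centralizer_iff.mp (hXC hg) _ hcW
        calc g⁻¹ * (v⁻¹ * g⁻¹ * v * g) * g = g⁻¹ * ((v⁻¹ * g⁻¹ * v * g) * g) := by group
          _ = g⁻¹ * (g * (v⁻¹ * g⁻¹ * v * g)) := by rw [this]
          _ = v⁻¹ * g⁻¹ * v * g := by group
      have h0 : g⁻¹ * v * g = v * (v⁻¹ * g⁻¹ * v * g) := by group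
      have := pow_conj_aux g v _ h0 hcc p
      rw [hVp _ (hWV hcW), mul_one] at this
      calc v * g ^ p = g ^ p * ((g ^ p)⁻¹ * v * g ^ p) := by group
        _ = g ^ p * v := by rw [this]
    have : g ^ p ∈ H ⊓ Subgroup.centralizer (V : Set G) := ⟨hgH, hgC⟩
    rw [hf] at this
    exact Subgroup.mem_bot.mp this
  -- move to H
  set A₁ := E₁.subgroupOf H with hA₁
  set A₂ := E₂.subgroupOf H with hA₂
  have hmap : (⁅A₁, A₂⁆).map H.subtype = ⁅E₁, E₂⁆ := by
    rw [Subgroup.map_commutator, hA₁, hA₂, Subgroup.map_subgroupOf_eq_of_le h₁,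
      Subgroup.map_subgroupOf_eq_of_le h₂]
  have hsub : (⁅A₁, A₂⁆ : Subgroup H).IsSubnormal := by
    have hj : (A₁ ⊔ A₂).IsSubnormal :=
      Cfsg.Agent.S0538.join_subnormal _ H rfl A₁ A₂ hs₁ hs₂
    exact Subgroup.IsSubnormal.trans (Subgroup.commutator_le_sup A₁ A₂)
      (Subgroup.normal_subgroupOf_commutator_sup A₁ A₂).isSubnormal hj
  have hp : IsPGroup p (⁅A₁, A₂⁆ : Subgroup H) := by
    intro ⟨y, hy⟩
    refine ⟨1, ?_⟩
    have hy' : (y : G) ∈ ⁅E₁, E₂⁆ := by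
      rw [← hmap]; exact Subgroup.mem_map_of_mem _ hy
    have := hXp _ hy'
    apply Subtype.ext
    apply Subtype.ext
    simpa using this
  have hle := Cfsg.Agent.Lib.Helper9.le_pCore_of_isSubnormal hsub hp
  rw [← hmap]
  exact Subgroup.map_mono hle

end Cfsg.Agent.S0597
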