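import Mathlib
import Cfsg.Statements.S0599
import Cfsg.Agent.Lib.Helper4.Replace2

set_option autoImplicit false
open Cfsg

open scoped commutatorElement
open Cfsg.Agent.Lib.Helper4.Replace Cfsg.Agent.Lib.Helper4.Replace2

namespace Cfsg.Agent.S0599

/-- The Timmesfeld replacement Theorem: replacing a best offender A by C_A([U, A]) gives a best offender with fixed points [U, A]C_V(A), still nontrivial on V if A was. -/
theorem result {G : Type*} [Group G] [Finite G] {p : ℕ} [Fact p.Prime] (V A : Subgroup G) (hV : Cfsg.IsElementaryAbelian p V) (hAV : A ≤ Subgroup.normalizer (V : Set G)) (hA : Cfsg.IsBestOffenderOn p V A) (U : Subgroup G) (hU : U ≤ V) : Cfsg.IsBestOffenderOn p V (A ⊓ Subgroup.centralizer ((⁅U, A⁆ : Subgroup G) : Set G)) ∧ V ⊓ Subgroup.centralizer ((A ⊓ Subgroup.centralizer ((⁅U, A⁆ : Subgroup G) : Set G) : Subgroup G) : Set G) = ⁅U, A⁆ ⊔ (V ⊓ Subgroup.centralizer (A : Set G)) ∧ (⁅V, A⁆ ≠ ⊥ → ⁅V, A ⊓ Subgroup.centralizer ((⁅U, A⁆ : Subgroup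 G) : Set G)⁆ ≠ ⊥) := by
  classical
  have hVc : ∀ x ∈ V, ∀ y ∈ V, x * y = y * x := by
    intro x hx y hy
    have := hV.1.is_comm.comm (⟨x, hx⟩ : V) ⟨y, hy⟩
    exact congrArg Subtype.val this
  have hVp : IsPGroup p V := by
    intro a
    refine ⟨1, ?_⟩
    apply Subtype.ext
    rw [pow_one]
    exact hV.2 a a.2
  obtain ⟨hstar, hab, hp⟩ := hA
  obtain ⟨h1, h2⟩ := replacement hVc hAV hab hstar U hU
  refine ⟨⟨?_, ?_, ?_⟩, h2, ?_⟩
  · intro D hD
    rw [h1]
    exact hstar D (hD.trans inf_le_left)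
  · exact (Subgroup.commutator_mono inf_le_left inf_le_left).trans hab
  · intro a ha
    exact hp a ha.1
  · intro hne hbot
    rw [Subgroup.commutator_eq_bot_iff_le_centralizer] at hbot
    apply not_le_of_comm_ne p V A U hVc hVp hAV hp hU hne
    rw [← h2]
    exact le_inf le_rfl hbot

end Cfsg.Agent.S0599
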