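import Mathlib
import Cfsg.Statements.S0602
import Cfsg.Agent.Lib.Helper4.Thompson

set_option autoImplicit false
open Cfsg

open Cfsg.Agent.Lib.Helper4.Thompson

namespace Cfsg.Agent.S0602

/-- The Thompson subgroup is characteristic, and nontrivial as soon as p divides the group order. -/
theorem result {G : Type*} [Group G] [Finite G] {p : ℕ} [Fact p.Prime] : (Cfsg.thompsonSubgroup p G).Characteristic ∧ (p ∣ Nat.card G → Cfsg.thompsonSubgroup p G ≠ ⊥) := by
  constructor
  · exact thompson_characteristic
  · intro hp
    obtain ⟨x, hx⟩ := exists_prime_orderOf_dvd_card' p hp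
    obtain ⟨A, hA⟩ := exists_mem_max (G := G) (p := p)
    have hz : IsElementaryAbelian p (Subgroup.zpowers x) :=
      elab_zpowers (by rw [← hx]; exact pow_orderOf_eq_one x)
    have hcard := hA.2 _ hz
    rw [Nat.card_zpowers, hx] at hcard
    intro hbot
    have hAbot : A = ⊥ := le_bot_iff.mp (hbot ▸ le_thompson hA)
    rw [hAbot, Subgroup.card_bot] at hcard
    have := (Fact.out : p.Prime).one_lt
    omega

end Cfsg.Agent.S0602
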