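import Mathlib
import Cfsg.Statements.S0605
import Cfsg.Agent.Lib.Helper4.Thompson

set_option autoImplicit false
open Cfsg

open Cfsg.Agent.Lib.Helper4.Thompson

namespace Cfsg.Agent.S0605

/-- Elements of order p in the centralizer of the Thompson subgroup belong to the Thompson subgroup (so to its centre). -/
theorem result {G : Type*} [Group G] [Finite G] {p : ℕ} [Fact p.Prime] (x : G) (hx : x ∈ Subgroup.centralizer (Cfsg.thompsonSubgroup p G : Set G)) (ho : orderOf x = p) : x ∈ Cfsg.thompsonSubgroup p G := by
  obtain ⟨A, hA⟩ := exists_mem_max (G := G) (p := p)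
  have hxp : x ^ p = 1 := by rw [← ho]; exact pow_orderOf_eq_one x
  have hz := elab_zpowers (p := p) hxp
  have hcomm : ∀ a ∈ A, ∀ b ∈ Subgroup.zpowers x, a * b = b * a := by
    intro a ha b hb
    obtain ⟨k, rfl⟩ := Subgroup.mem_zpowers_iff.mp hb
    have h1 : a * x = x * a := (Subgroup.mem_centralizer_iff.mp hx) a (le_thompson hA ha)
    have : Commute a x := h1
    exact (this.zpow_right k).eq
  have hsup := elab_sup hA.1 hz hcomm
  have hcard := hA.2 _ hsup
  have heq : A = A ⊔ Subgroup.zpowers x := Subgroup.eq_of_le_of_card_ge le_sup_left hcard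
  have hxA : x ∈ A := by rw [heq]; exact Subgroup.mem_sup_right (Subgroup.mem_zpowers x)
  exact le_thompson hA hxA

end Cfsg.Agent.S0605
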