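import Mathlib
import Cfsg.Statements.S0609
import Cfsg.Agent.Lib.Helper4.PPrimeQuot

set_option autoImplicit false
open Cfsg

namespace Cfsg.Agent.S0609

/-- Thompson factorizability passes to and from the quotient by the largest normal subgroup of order prime to p. -/
theorem result {G : Type*} [Group G] [Finite G] {p : ℕ} [Fact p.Prime] : Cfsg.IsThompsonFactorizable p G ↔ Cfsg.IsThompsonFactorizable p (G ⧸ Cfsg.pPrimeCore p G) := by
  classical
  have hO := Cfsg.Agent.Lib.Helper9.pPrimeCore_coprime p G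
  have hbot := Cfsg.Agent.Lib.Helper9.pPrimeCore_quotient_eq_bot p G
  have hsurj : Function.Surjective (QuotientGroup.mk' (pPrimeCore p G)) :=
    QuotientGroup.mk'_surjective _
  have hΩp : ∀ S : Sylow p G, IsPGroup p
      (omegaOne p ((S : Subgroup G) ⊓ Subgroup.centralizer ((S : Subgroup G) : Set G))) :=
    fun S => S.2.to_le ((Cfsg.Agent.Lib.Helper4.PPrimeQuot.omegaOne_le p _).trans inf_le_left)
  have hJp : ∀ S : Sylow p G, IsPGroup p (thompsonSubgroupOf p (S : Subgroup G)) :=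
    fun S => S.2.to_le (Cfsg.Agent.Lib.Helper4.Thompson2.thompsonSubgroupOf_le _)
  constructor
  · intro h Sb gb
    obtain ⟨S, rfl⟩ := Sylow.mapSurjective_surjective hsurj p Sb
    obtain ⟨g, rfl⟩ := hsurj gb
    obtain ⟨x, hx, c, hc, n, hn, rfl⟩ := h S g
    refine ⟨1, Subgroup.one_mem _, QuotientGroup.mk' (pPrimeCore p G) c, ?_,
      QuotientGroup.mk' (pPrimeCore p G) n, ?_, ?_⟩
    · rw [Sylow.coe_mapSurjective, ← Cfsg.Agent.Lib.Helper4.PPrimeQuot.omegaOne_center_map hO S.2]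
      exact Cfsg.Agent.Lib.Helper4.PPrimeQuot.cent_map _ _ hc
    · rw [Sylow.coe_mapSurjective,
        Cfsg.Agent.Lib.Helper4.PPrimeQuot.thompsonSubgroupOf_map_of_injOn _ _
          (Cfsg.Agent.Lib.Helper4.PPrimeQuot.map_injOn hO S.2)]
      exact Cfsg.Agent.Lib.Helper4.PPrimeQuot.norm_map _ _ hn
    · rw [map_mul, map_mul, one_mul]
      have : QuotientGroup.mk' (pPrimeCore p G) x = 1 := (QuotientGroup.eq_one_iff x).mpr hx
      rw [this, one_mul]
  · intro h S g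
    obtain ⟨xb, hxb, cb, hcb, nb, hnb, hg⟩ :=
      h (Sylow.mapSurjective hsurj S) (QuotientGroup.mk' (pPrimeCore p G) g)
    rw [hbot, Subgroup.mem_bot] at hxb
    rw [Sylow.coe_mapSurjective] at hcb hnb
    rw [← Cfsg.Agent.Lib.Helper4.PPrimeQuot.omegaOne_center_map hO S.2] at hcb
    rw [Cfsg.Agent.Lib.Helper4.PPrimeQuot.thompsonSubgroupOf_map_of_injOn _ _
      (Cfsg.Agent.Lib.Helper4.PPrimeQuot.map_injOn hO S.2)] at hnb
    obtain ⟨c0, rfl⟩ := hsurj cb
    obtain ⟨n0, rfl⟩ := hsurj nb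
    obtain ⟨u, hu, hc⟩ := Cfsg.Agent.Lib.Helper4.PPrimeQuot.cent_lift hO (hΩp S) c0 hcb
    obtain ⟨v, hv, hn⟩ := Cfsg.Agent.Lib.Helper4.PPrimeQuot.norm_lift hO (hJp S) n0 hnb
    refine ⟨g * (u * c0 * (v * n0))⁻¹, ?_, u * c0, hc, v * n0, hn, by group⟩
    rw [← QuotientGroup.eq_one_iff (N := pPrimeCore p G)]
    have h3 : ((u : G) : G ⧸ pPrimeCore p G) = 1 := (QuotientGroup.eq_one_iff u).mpr hu
    have h4 : ((v : G) : G ⧸ pPrimeCore p G) = 1 := (QuotientGroup.eq_one_iff v).mpr hv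
    rw [hxb, one_mul] at hg
    simp only [QuotientGroup.mk'_apply] at hg
    simp only [QuotientGroup.mk_mul, QuotientGroup.mk_inv, h3, h4, one_mul, hg]
    group

end Cfsg.Agent.S0609
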