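import Mathlib
import Cfsg.Statements.S0615
import Cfsg.Agent.Lib.Helper25.SubIrr
import Cfsg.Agent.Lib.Helper9.Cores

set_option autoImplicit false
open Cfsg

namespace Cfsg.Agent.S0615

open Cfsg.Agent.Lib.Helper25.SubIrr

/-- Two subnormal subgroups acting irreducibly on their incomparable commutator modules, in a faithful group with trivial largest normal p-subgroup, generate their direct product, and the commutator module splits accordingly. -/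
theorem result {G : Type*} [Group G] [Finite G] {p : ℕ} [Fact p.Prime] (V E E₁ E₂ : Subgroup G) (hV : Cfsg.IsElementaryAbelian p V) (hEV : E ≤ Subgroup.normalizer (V : Set G)) (hf : E ⊓ Subgroup.centralizer (V : Set G) = ⊥) (hgen : E = E₁ ⊔ E₂) (hs₁ : (E₁.subgroupOf E).IsSubnormal) (hs₂ : (E₂.subgroupOf E).IsSubnormal) (hOp : Cfsg.pCore p ↥E = ⊥) (hirr₁ : (∀ U : Subgroup G, U ≤ ⁅V, E₁⁆ → E₁ ≤ Subgroup.normalizer (U : Set G) → U = ⊥ ∨ U = ⁅V, E₁⁆)) (hirr₂ : (∀ U : Subgroup G, U ≤ ⁅V, E₂⁆ → E₂ ≤ Subgroup.normalizer (U : Set G) → U = ⊥ ∨ U = ⁅V, E₂⁆)) (h12 : ¬ ⁅V, E₁⁆ ≤ ⁅V, E₂⁆) (h21 : ¬ ⁅V, E₂⁆ ≤ ⁅V, E₁⁆) (hc₁ : 2 < Nat.card E₁) (hc₂ : 2 < Nat.card E₂) : ⁅E₁, E₂⁆ = ⊥ ∧ E₁ ⊓ E₂ = ⊥ ∧ ⁅V, E₁⁆ ⊓ ⁅V, E₂⁆ = ⊥ ∧ ⁅V, E⁆ = ⁅V, E₁⁆ ⊔ ⁅V, E₂⁆ := by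
  subst hgen
  have hVc : ∀ a ∈ V, ∀ b ∈ V, a * b = b * a := by
    intro a ha b hb
    haveI := hV.1
    exact setLike_mul_comm ha hb
  have hVp : ∀ a ∈ V, a ^ p = 1 := hV.2
  have hnz : ∀ e ∈ E₁ ⊔ E₂, cj e V = V := fun e he => cj_eq_iff_normalizer.mp (hEV he)
  -- faithfulness of the action on the commutator module
  have faith : ∀ F : Subgroup G, F ≤ E₁ ⊔ E₂ → (F.subgroupOf (E₁ ⊔ E₂)).IsSubnormal →
      ∀ e ∈ F, (∀ a ∈ ⁅V, F⁆, e * a * e⁻¹ = a) → e = 1 := by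
    intro F hFE hFs e he hcen
    have hFn : ∀ e ∈ F, cj e V = V := fun e he => hnz e (hFE he)
    have hAV : ⁅V, F⁆ ≤ V := comm_le hFn
    obtain ⟨C, hC⟩ : ∃ C : Subgroup G, C = F ⊓ Subgroup.centralizer ((⁅V, F⁆ : Subgroup G) : Set G) :=
      ⟨_, rfl⟩
    have hCF : C ≤ F := hC ▸ inf_le_left
    have hCc : ∀ x ∈ C, ∀ a ∈ ⁅V, F⁆, a * x = x * a := by
      intro x hx a ha
      rw [hC] at hx
      exact Subgroup.mem_centralizer_iff.mp (Subgroup.mem_inf.mp hx).2 a ha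
    have hCp : ∀ x ∈ C, x ^ p = 1 := by
      intro x hx
      have hxF : x ∈ F := hCF hx
      have hcenV : x ^ p ∈ Subgroup.centralizer (V : Set G) := by
        rw [Subgroup.mem_centralizer_iff]
        intro v hv
        obtain ⟨c, hc⟩ : ∃ c, c = x * v * x⁻¹ * v⁻¹ := ⟨_, rfl⟩
        have hcA : c ∈ ⁅V, F⁆ := hc ▸ comm_elt_mem hxF hv
        have hxc : x * c = c * x := (hCc x hx c hcA).symm
        have hxv : x * v * x⁻¹ = c * v := by rw [hc]; group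
        have hpow : ∀ k : ℕ, x ^ k * v * (x ^ k)⁻¹ = c ^ k * v := by
          intro k
          induction k with
          | zero => simp
          | succ k ih =>
            have hck : x * c ^ k * x⁻¹ = c ^ k := by
              have : Commute x (c ^ k) := (show Commute x c from hxc).pow_right k
              rw [this.eq, mul_inv_cancel_right]
            calc x ^ (k + 1) * v * (x ^ (k + 1))⁻¹ = x * (x ^ k * v * (x ^ k)⁻¹) * x⁻¹ := by
                  rw [pow_succ']; group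
              _ = x * (c ^ k * v) * x⁻¹ := by rw [ih]
              _ = (x * c ^ k * x⁻¹) * (x * v * x⁻¹) := by group
              _ = c ^ k * (c * v) := by rw [hck, hxv]
              _ = c ^ (k + 1) * v := by rw [pow_succ, mul_assoc]
        have h1 := hpow p
        rw [hVp c (hAV hcA), one_mul] at h1
        calc v * x ^ p = (x ^ p * v * (x ^ p)⁻¹) * x ^ p := by rw [h1]
          _ = x ^ p * v := by group
      have : x ^ p ∈ (E₁ ⊔ E₂) ⊓ Subgroup.centralizer (V : Set G) :=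
        Subgroup.mem_inf.mpr ⟨Subgroup.pow_mem _ (hFE hxF) p, hcenV⟩
      rw [hf, Subgroup.mem_bot] at this
      exact this
    have hCn : ∀ f ∈ F, ∀ c ∈ C, f * c * f⁻¹ ∈ C := by
      intro f hf' c hc
      rw [hC]
      refine Subgroup.mem_inf.mpr ⟨F.mul_mem (F.mul_mem hf' (hCF hc)) (F.inv_mem hf'), ?_⟩
      rw [Subgroup.mem_centralizer_iff]
      intro a ha
      have ha' : f⁻¹ * a * f ∈ ⁅V, F⁆ := by
        have := conj_mem_of_cj_eq (cj_comm_self hFn f⁻¹ (F.inv_mem hf')) ha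
        rwa [inv_inv] at this
      have h := hCc c hc _ ha'
      calc a * (f * c * f⁻¹) = f * (f⁻¹ * a * f * c) * f⁻¹ := by group
        _ = f * (c * (f⁻¹ * a * f)) * f⁻¹ := by rw [h]
        _ = f * c * f⁻¹ * a := by group
    have hle : C.subgroupOf (E₁ ⊔ E₂) ≤ F.subgroupOf (E₁ ⊔ E₂) := by
      intro z hz
      rw [Subgroup.mem_subgroupOf] at hz ⊢
      exact hCF hz
    have hN : ((C.subgroupOf (E₁ ⊔ E₂)).subgroupOf (F.subgroupOf (E₁ ⊔ E₂))).Normal := by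
      refine ⟨fun n hn g => ?_⟩
      rw [Subgroup.mem_subgroupOf, Subgroup.mem_subgroupOf] at hn ⊢
      have hg : ((g : ↥(E₁ ⊔ E₂)) : G) ∈ F := Subgroup.mem_subgroupOf.mp g.2
      exact hCn _ hg _ hn
    have hsub : (C.subgroupOf (E₁ ⊔ E₂)).IsSubnormal := Subgroup.IsSubnormal.step _ _ hle hFs hN
    have hpg : IsPGroup p ↥(C.subgroupOf (E₁ ⊔ E₂)) := by
      intro g
      refine ⟨1, ?_⟩
      rw [pow_one]
      apply Subtype.ext
      apply Subtype.ext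
      simp only [Subgroup.coe_pow, Subgroup.coe_one]
      exact hCp _ (Subgroup.mem_subgroupOf.mp g.2)
    have hcore := Cfsg.Agent.Lib.Helper9.le_pCore_of_isSubnormal hsub hpg
    rw [hOp] at hcore
    have heC : e ∈ C := by
      rw [hC]
      refine Subgroup.mem_inf.mpr ⟨he, ?_⟩
      rw [Subgroup.mem_centralizer_iff]
      intro a ha
      have := hcen a ha
      calc a * e = (e * a * e⁻¹) * e := by rw [this]
        _ = e * a := by group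
    have h1 : (⟨e, hFE he⟩ : ↥(E₁ ⊔ E₂)) ∈ C.subgroupOf (E₁ ⊔ E₂) :=
      Subgroup.mem_subgroupOf.mpr heC
    have h2 := hcore h1
    rw [Subgroup.mem_bot] at h2
    exact congrArg Subtype.val h2
  have H₁ : Hyp V E₁ :=
    ⟨fun e he => hnz e (Subgroup.mem_sup_left he),
     fun U hU hn => hirr₁ U hU (fun e he => cj_eq_iff_normalizer.mpr (hn e he)),
     faith E₁ le_sup_left hs₁, hc₁⟩
  have H₂ : Hyp V E₂ :=
    ⟨fun e he => hnz e (Subgroup.mem_sup_right he),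
     fun U hU hn => hirr₂ U hU (fun e he => cj_eq_iff_normalizer.mpr (hn e he)),
     faith E₂ le_sup_right hs₂, hc₂⟩
  have s₁ : SN (E₁ ⊔ E₂) E₁ := by
    have := sn_of_isSubnormal hs₁
    rwa [Subgroup.map_subgroupOf_eq_of_le le_sup_left] at this
  have s₂ : SN (E₁ ⊔ E₂) E₂ := by
    have := sn_of_isSubnormal hs₂
    rwa [Subgroup.map_subgroupOf_eq_of_le le_sup_right] at this
  obtain ⟨c1, c2, c3⟩ := key V hVc _ E₁ E₂ rfl H₁ H₂ s₁ s₂ h12 h21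
  have hAV : ⁅V, E₁⁆ ≤ V := comm_le H₁.nz
  have hBV : ⁅V, E₂⁆ ≤ V := comm_le H₂.nz
  have hP : ∀ e₁ ∈ E₁, ∀ e₂ ∈ E₂, ∀ v ∈ V, ∃ a ∈ ⁅V, E₁⁆, ∃ b ∈ ⁅V, E₂⁆,
      e₁ * e₂ * v * (e₁ * e₂)⁻¹ = b * (a * v) ∧ e₂ * e₁ * v * (e₂ * e₁)⁻¹ = a * (b * v) := by
    intro e₁ he₁ e₂ he₂ v hv
    obtain ⟨a, ha⟩ : ∃ a, a = e₁ * v * e₁⁻¹ * v⁻¹ := ⟨_, rfl⟩
    obtain ⟨b, hb⟩ : ∃ b, b = e₂ * v * e₂⁻¹ * v⁻¹ := ⟨_, rfl⟩
    have haA : a ∈ ⁅V, E₁⁆ := ha ▸ comm_elt_mem he₁ hv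
    have hbB : b ∈ ⁅V, E₂⁆ := hb ▸ comm_elt_mem he₂ hv
    have ea : e₁ * v * e₁⁻¹ = a * v := by rw [ha]; group
    have eb : e₂ * v * e₂⁻¹ = b * v := by rw [hb]; group
    refine ⟨a, haA, b, hbB, ?_, ?_⟩
    · calc e₁ * e₂ * v * (e₁ * e₂)⁻¹ = e₁ * (e₂ * v * e₂⁻¹) * e₁⁻¹ := by group
        _ = e₁ * (b * v) * e₁⁻¹ := by rw [eb]
        _ = (e₁ * b * e₁⁻¹) * (e₁ * v * e₁⁻¹) := by group
        _ = b * (a * v) := by rw [c1 b hbB e₁ he₁, ea]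
    · calc e₂ * e₁ * v * (e₂ * e₁)⁻¹ = e₂ * (e₁ * v * e₁⁻¹) * e₂⁻¹ := by group
        _ = e₂ * (a * v) * e₂⁻¹ := by rw [ea]
        _ = (e₂ * a * e₂⁻¹) * (e₂ * v * e₂⁻¹) := by group
        _ = a * (b * v) := by rw [c2 a haA e₂ he₂, eb]
  have hcomm : ∀ e₁ ∈ E₁, ∀ e₂ ∈ E₂, e₁ * e₂ = e₂ * e₁ := by
    intro e₁ he₁ e₂ he₂
    have hz : (e₂ * e₁)⁻¹ * (e₁ * e₂) ∈ (E₁ ⊔ E₂) ⊓ Subgroup.centralizer (V : Set G) := by
      refine Subgroup.mem_inf.mpr ⟨?_, ?_⟩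
      · exact Subgroup.mul_mem _ (Subgroup.inv_mem _ (Subgroup.mul_mem _ (Subgroup.mem_sup_right he₂)
          (Subgroup.mem_sup_left he₁))) (Subgroup.mul_mem _ (Subgroup.mem_sup_left he₁)
          (Subgroup.mem_sup_right he₂))
      · rw [Subgroup.mem_centralizer_iff]
        intro v hv
        obtain ⟨a, haA, b, hbB, h1, h2⟩ := hP e₁ he₁ e₂ he₂ v hv
        have hPQ : e₁ * e₂ * v * (e₁ * e₂)⁻¹ = e₂ * e₁ * v * (e₂ * e₁)⁻¹ := by
          rw [h1, h2, ← mul_assoc, ← mul_assoc, hVc b (hBV hbB) a (hAV haA)]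
        calc v * ((e₂ * e₁)⁻¹ * (e₁ * e₂))
            = (e₂ * e₁)⁻¹ * (e₂ * e₁ * v * (e₂ * e₁)⁻¹) * (e₁ * e₂) := by group
          _ = (e₂ * e₁)⁻¹ * (e₁ * e₂ * v * (e₁ * e₂)⁻¹) * (e₁ * e₂) := by rw [hPQ]
          _ = (e₂ * e₁)⁻¹ * (e₁ * e₂) * v := by group
    rw [hf, Subgroup.mem_bot] at hz
    exact (inv_mul_eq_one.mp hz).symm
  refine ⟨?_, ?_, c3, ?_⟩
  · rw [Subgroup.commutator_eq_bot_iff_le_centralizer]
    intro e₁ he₁
    rw [Subgroup.mem_centralizer_iff]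
    intro e₂ he₂
    exact (hcomm e₁ he₁ e₂ he₂).symm
  · rw [eq_bot_iff]
    intro x hx
    obtain ⟨hx1, hx2⟩ := Subgroup.mem_inf.mp hx
    rw [Subgroup.mem_bot]
    exact H₁.faith x hx1 (fun a ha => c2 a ha x hx2)
  · apply le_antisymm
    · rw [Subgroup.commutator_comm, Subgroup.commutator_le]
      intro g hg v hv
      obtain ⟨e₁, he₁, e₂, he₂, rfl⟩ := mem_sup_of_comm hcomm hg
      rw [commutatorElement_def]
      obtain ⟨a, haA, b, hbB, h1, -⟩ := hP e₁ he₁ e₂ he₂ v hv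
      rw [h1]
      have : b * (a * v) * v⁻¹ = b * a := by group
      rw [this]
      exact Subgroup.mul_mem _ (Subgroup.mem_sup_right hbB) (Subgroup.mem_sup_left haA)
    · exact sup_le (Subgroup.commutator_mono le_rfl le_sup_left)
        (Subgroup.commutator_mono le_rfl le_sup_right)

end Cfsg.Agent.S0615
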