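import Mathlib
import Cfsg.Statements.S0618
import Cfsg.Agent.S0601
import Cfsg.Agent.S0606
import Cfsg.Agent.S0608
import Cfsg.Agent.S0617
import Cfsg.Agent.S3754
import Cfsg.Agent.Lib.Helper4.Hol
import Cfsg.Agent.Lib.Helper4.Thompson
import Cfsg.Agent.Lib.Helper4.PSolv
import Cfsg.Agent.Lib.Helper12.PSolvable
import Cfsg.Agent.Lib.Helper9.Cores
import Cfsg.Agent.S0600

set_option autoImplicit false
open Cfsg

open scoped commutatorElement

namespace Cfsg.Agent.S0618

universe u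

theorem centralizer_iSup_coe {G : Type u} [Group G] {ι : Sort*} (K : ι → Subgroup G) :
    Subgroup.centralizer (⨆ i, (K i : Set G)) =
      Subgroup.centralizer ((⨆ i, K i : Subgroup G) : Set G) := by
  apply le_antisymm
  · intro x hx
    apply Cfsg.Agent.S0600.mem_centralizer_iSup
    intro i v hv
    have hv' : v ∈ ⨆ i, (K i : Set G) := (le_iSup (fun i => (K i : Set G)) i) hv
    exact Subgroup.mem_centralizer_iff.mp hx v hv'
  · apply Subgroup.centralizer_le
    exact iSup_le fun i => SetLike.coe_subset_coe.mpr (le_iSup K i)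

open Cfsg.Agent.Lib.Helper4.Hol in
/-- failure of factorization through the holomorph: a normal `SL₂(p)` in `J(X) C_X(V) / C_X(V)` -/
theorem aux_main {X : Type u} [Group X] [Finite X] {p : ℕ} [Fact p.Prime]
    (hsep : IsPSolvable p X) (V : Subgroup X) [V.Normal] (hV : IsElementaryAbelian p V)
    (hD : ∀ D : Subgroup X, D.Normal → Subgroup.centralizer (V : Set X) ≤ D →
      (∃ k : ℕ, (Subgroup.centralizer (V : Set X)).relIndex D = p ^ k) →
      D = Subgroup.centralizer (V : Set X))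
    (hJ : ¬ thompsonSubgroup p X ≤ Subgroup.centralizer (V : Set X)) :
    (p = 2 ∨ p = 3) ∧ ∃ E : Subgroup X, Subgroup.centralizer (V : Set X) ≤ E ∧
      E ≤ thompsonSubgroup p X ⊔ Subgroup.centralizer (V : Set X) ∧
      thompsonSubgroup p X ⊔ Subgroup.centralizer (V : Set X) ≤ Subgroup.normalizer (E : Set X) ∧
      ∃ hn : ((Subgroup.centralizer (V : Set X)).subgroupOf E).Normal,
        Nonempty ((↥E ⧸ (Subgroup.centralizer (V : Set X)).subgroupOf E) ≃*
          Matrix.SpecialLinearGroup (Fin 2) (ZMod p)) := by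
  haveI := finite_HolG V
  obtain ⟨J, hJdef⟩ : ∃ J : Subgroup X, J = thompsonSubgroup p X := ⟨_, rfl⟩
  rw [← hJdef] at hJ ⊢
  have hJn : J.Normal := by
    rw [hJdef]
    haveI := Cfsg.Agent.Lib.Helper4.Thompson.thompson_characteristic (G := X) (p := p)
    exact Subgroup.normal_of_characteristic _
  obtain ⟨H, hHdef⟩ : ∃ H : Subgroup (HolG V), H = J.map (rho V) := ⟨_, rfl⟩
  obtain ⟨R, hRdef⟩ : ∃ R : Subgroup (HolG V), R = (rho V).range := ⟨_, rfl⟩
  have hHR : H ≤ R := by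
    rw [hHdef, hRdef]
    rintro _ ⟨a, -, rfl⟩
    exact ⟨a, rfl⟩
  have hVV := VV_elab V hV
  have hHV : H ≤ Subgroup.normalizer ((VV V : Subgroup (HolG V)) : Set (HolG V)) :=
    VV_le_normalizer V H
  have hf : H ⊓ Subgroup.centralizer ((VV V : Subgroup (HolG V)) : Set (HolG V)) = ⊥ := by
    rw [eq_bot_iff]
    have h1 := rho_range_inf_centralizer V
    rw [← hRdef] at h1
    exact (inf_le_inf_right _ hHR).trans (le_of_eq h1)
  have hbo : ∀ A ∈ maxElementaryAbelianSubgroups p X,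
      A.map (rho V) ≤ H ∧ IsBestOffenderOn p (VV V) (A.map (rho V)) := by
    intro A hA
    have h := Cfsg.Agent.S0606.result V hV A hA
    refine ⟨?_, bo_map V A h.2.1 h.2.2 h.1⟩
    rw [hHdef]
    apply Subgroup.map_mono
    rw [hJdef]
    exact Cfsg.Agent.Lib.Helper4.Thompson.le_thompson hA
  have hS3 : H = ⨆ A : {A : Subgroup (HolG V) // A ≤ H ∧ IsBestOffenderOn p (VV V) A},
      (A : Subgroup (HolG V)) := by
    apply le_antisymm
    · have h1 : J ≤ (⨆ A : {A : Subgroup (HolG V) // A ≤ H ∧ IsBestOffenderOn p (VV V) A},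
          (A : Subgroup (HolG V))).comap (rho V) := by
        rw [hJdef]
        apply sSup_le
        intro A hA
        rw [← Subgroup.map_le_iff_le_comap]
        exact le_iSup_of_le ⟨A.map (rho V), hbo A hA⟩ le_rfl
      calc H = J.map (rho V) := hHdef
        _ ≤ _ := Subgroup.map_le_iff_le_comap.mpr h1
    · exact iSup_le fun A => A.2.1
  have hJsol : IsPSolvable p ↥J :=
    Cfsg.Agent.Lib.Helper12.PSolvable.isPSolvable_subgroup hsep J
  have hHsol : IsPSolvable p ↥H := by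
    subst hHdef
    exact Cfsg.Agent.Lib.Helper4.PSolv.isPSolvable_of_surjective ((rho V).subgroupMap J)
      ((rho V).subgroupMap_surjective J) hJsol
  have hRcore : pCore p ↥R = ⊥ := by
    subst hRdef
    exact pCore_range_eq_bot V hD
  have hNn : (H.subgroupOf R).Normal := by
    constructor
    rintro ⟨n, hnR⟩ hn ⟨r, hrR⟩
    rw [Subgroup.mem_subgroupOf] at hn ⊢
    show r * n * r⁻¹ ∈ H
    have hn' : n ∈ H := hn
    rw [hHdef] at hn' ⊢
    rw [hRdef] at hrR
    obtain ⟨j, hj, rfl⟩ := hn'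
    obtain ⟨g, rfl⟩ := hrR
    refine ⟨g * j * g⁻¹, hJn.conj_mem j hj g, ?_⟩
    rw [map_mul, map_mul, map_inv]
  haveI := hNn
  have hNcore : pCore p ↥(H.subgroupOf R) = ⊥ := by
    have h1 := Cfsg.Agent.Lib.Helper9.pCore_subtype_eq_inf (G := ↥R) p (H.subgroupOf R)
    rw [hRcore, bot_inf_eq] at h1
    exact (Subgroup.map_eq_bot_iff_of_injective _ (Subgroup.subtype_injective _)).mp h1
  have hHcore : pCore p ↥H = ⊥ := by
    have h2 := Cfsg.Agent.Lib.Helper9.pCore_map_equiv p (Subgroup.subgroupOfEquivOfLe hHR)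
    rw [hNcore, Subgroup.map_bot] at h2
    exact h2.symm
  have hS1 : Subgroup.centralizer (pPrimeCore p ↥H : Set ↥H) ≤ pPrimeCore p ↥H :=
    Cfsg.Agent.S3754.dual_hall_higman hHsol hHcore
  have hH1 : H ≠ ⊥ := by
    intro h
    apply hJ
    rw [hHdef, Subgroup.map_eq_bot_iff, rho_ker] at h
    exact h
  obtain ⟨hp23, h2, -, h4, -, -⟩ := Cfsg.Agent.S0617.result (VV V) H hVV hHV hf hS1 hS3 hH1
  have hex : ∃ E₀ : Subgroup (HolG V), E₀ ≤ H ∧
      H ≤ Subgroup.normalizer (E₀ : Set (HolG V)) ∧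
      Nonempty (↥E₀ ≃* Matrix.SpecialLinearGroup (Fin 2) (ZMod p)) := by
    by_contra hno
    apply hH1
    rw [← h4, iSup_eq_bot]
    intro E
    exact absurd ⟨E.1, (iSup_le_iff.mp (le_of_eq h4)) E, (h2 E).1, (h2 E).2.1⟩ hno
  obtain ⟨E₀, hE₀H, hE₀N, ⟨e₀⟩⟩ := hex
  obtain ⟨C, hCdef⟩ : ∃ C : Subgroup X, C = Subgroup.centralizer (V : Set X) := ⟨_, rfl⟩
  rw [← hCdef] at hJ ⊢
  have hCmem : ∀ c, c ∈ C ↔ rho V c = 1 := fun c => by
    rw [hCdef]; exact (rho_eq_one_iff V c).symm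
  haveI hCn : C.Normal := by
    rw [hCdef, ← rho_ker V]; exact (rho V).normal_ker
  obtain ⟨E, hEdef⟩ : ∃ E : Subgroup X, E = E₀.comap (rho V) := ⟨_, rfl⟩
  have hEmem : ∀ x, x ∈ E ↔ rho V x ∈ E₀ := fun x => by rw [hEdef]; exact Subgroup.mem_comap
  have hJH : ∀ g ∈ J ⊔ C, rho V g ∈ H := by
    intro g hg
    have hle : J ⊔ C ≤ H.comap (rho V) := by
      refine sup_le ?_ ?_
      · rw [hHdef]; exact Subgroup.le_comap_map _ _
      · intro c hc
        show rho V c ∈ H
        rw [(hCmem c).mp hc]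
        exact H.one_mem
    exact hle hg
  refine ⟨hp23, E, ?_, ?_, ?_, ?_⟩
  · intro c hc
    rw [hEmem, (hCmem c).mp hc]
    exact E₀.one_mem
  · intro x hx
    have hx' : rho V x ∈ H := hE₀H ((hEmem x).mp hx)
    rw [hHdef] at hx'
    obtain ⟨j, hj, hjx⟩ := hx'
    have hc : j⁻¹ * x ∈ C := by
      rw [hCmem, map_mul, map_inv, hjx, inv_mul_cancel]
    have : x = j * (j⁻¹ * x) := by group
    rw [this]
    exact Subgroup.mul_mem_sup hj hc
  · intro g hg
    have hgN := hE₀N (hJH g hg)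
    rw [Subgroup.mem_normalizer_iff] at hgN ⊢
    intro h
    rw [hEmem, hEmem, map_mul, map_mul, map_inv]
    exact hgN (rho V h)
  · refine ⟨inferInstance, ?_⟩
    obtain ⟨φ, hφdef⟩ : ∃ φ : ↥E →* ↥E₀, ∀ x : ↥E, ((φ x : ↥E₀) : HolG V) = rho V (x : X) := by
      subst hEdef
      exact ⟨(rho V).subgroupComap E₀, fun x => rfl⟩
    have hφs : Function.Surjective φ := by
      rintro ⟨y, hy⟩
      have hyH : y ∈ H := hE₀H hy
      rw [hHdef] at hyH
      obtain ⟨j, hj, rfl⟩ := hyH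
      exact ⟨⟨j, (hEmem j).mpr hy⟩, Subtype.ext (hφdef _)⟩
    have hker : C.subgroupOf E = φ.ker := by
      ext x
      rw [Subgroup.mem_subgroupOf, MonoidHom.mem_ker, hCmem, ← hφdef x]
      constructor
      · intro h; exact Subtype.ext h
      · intro h; exact congrArg Subtype.val h
    exact ⟨(QuotientGroup.quotientMulEquivOfEq hker).trans
      ((QuotientGroup.quotientKerEquivOfSurjective φ hφs).trans e₀)⟩

/-- A p-separable group with trivial p'-core in which the Thompson factorization fails has p = 2 or 3, and J(G) induces on the normal closure of Ω₁(Z(S)) a group containing a normal SL(2, p). -/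
theorem result {G : Type*} [Group G] [Finite G] {p : ℕ} [Fact p.Prime] (hsep : Cfsg.IsPSolvable p G) (hO : Cfsg.pPrimeCore p G = ⊥) (hnf : ¬ Cfsg.IsThompsonFactorizable p G) : (p = 2 ∨ p = 3) ∧ ∃ E : Subgroup G, Subgroup.centralizer ((⨆ S : Sylow p G, Cfsg.omegaOne p ((S : Subgroup G) ⊓ Subgroup.centralizer ((S : Subgroup G) : Set G))) : Set G) ≤ E ∧ E ≤ Cfsg.thompsonSubgroup p G ⊔ Subgroup.centralizer ((⨆ S : Sylow p G, Cfsg.omegaOne p ((S : Subgroup G) ⊓ Subgroup.centralizer ((S : Subgroup G) : Set G))) : Set G) ∧ Cfsg.thompsonSubgroup p G ⊔ Subgroup.centralizer ((⨆ S : Sylow p G, Cfsg.omegaOne p ((S : Subgroup G) ⊓ Subgroup.centralizer ((S : Subgroup G) : Set G))) : Set G) ≤ Subgroup.normalizer (E : Set G) ∧ ∃ hn : ((Subgroup.centralizer ((⨆ S : Sylow p G, Cfsg.omegaOne p ((S : Subgroup G) ⊓ Subgroup.centralizer ((S : Subgroup G) : Set G))) : Set G)).subgroupOf E).Normal, Nonempty ((↥E ⧸ (Subgroup.centralizer ((⨆ S : Sylow p G, Cfsg.omegaOne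 p ((S : Subgroup G) ⊓ Subgroup.centralizer ((S : Subgroup G) : Set G))) : Set G)).subgroupOf E) ≃* Matrix.SpecialLinearGroup (Fin 2) (ZMod p)) := by
  have hc := Cfsg.Agent.Lib.Helper12.PSolvable.hall_higman hsep hO
  obtain ⟨hVn, hVe, hD⟩ := Cfsg.Agent.S0601.result hc
  have hCeq : Subgroup.centralizer ((⨆ S : Sylow p G, Cfsg.omegaOne p ((S : Subgroup G) ⊓ Subgroup.centralizer ((S : Subgroup G) : Set G))) : Set G) = Subgroup.centralizer ((⨆ S : Sylow p G, Cfsg.omegaOne p ((S : Subgroup G) ⊓ Subgroup.centralizer ((S : Subgroup G) : Set G)) : Subgroup G) : Set G) := centralizer_iSup_coe _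
  rw [hCeq]
  have hJ : ¬ Cfsg.thompsonSubgroup p G ≤ Subgroup.centralizer ((⨆ S : Sylow p G, Cfsg.omegaOne p ((S : Subgroup G) ⊓ Subgroup.centralizer ((S : Subgroup G) : Set G)) : Subgroup G) : Set G) :=
    fun h => hnf ((Cfsg.Agent.S0608.result hO).mpr h)
  haveI := hVn
  exact aux_main hsep _ hVe hD hJ

end Cfsg.Agent.S0618
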