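import Mathlib
import Cfsg.Statements.S0619
import Cfsg.Agent.S3754
import Cfsg.Agent.Lib.Helper4.Hol
import Cfsg.Agent.Lib.Helper4.Offender
import Cfsg.Agent.Lib.Helper4.Thompson
import Cfsg.Agent.Lib.Helper4.Thompson2
import Cfsg.Agent.Lib.Helper4.Card
import Cfsg.Agent.Lib.Helper4.PSolv
import Cfsg.Agent.Lib.Helper9.Cores

set_option autoImplicit false
open Cfsg

open scoped commutatorElement

namespace Cfsg.Agent.S0619

universe u

open Cfsg.Agent.Lib.Helper4.Hol in
/-- for `A` elementary abelian of largest order, `(A ∩ C_X(V)) V` is at least as large as `A` -/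
theorem card_le_aux {X : Type u} [Group X] [Finite X] {p : ℕ} [Fact p.Prime]
    (hsep : IsPSolvable p X) (V : Subgroup X) [V.Normal] (hV : IsElementaryAbelian p V)
    (hO : pCore p (X ⧸ Subgroup.centralizer (V : Set X)) = ⊥)
    (A : Subgroup X) (hA : A ∈ maxElementaryAbelianSubgroups p X) :
    Nat.card A ≤ Nat.card ↥((A ⊓ Subgroup.centralizer (V : Set X)) ⊔ V) := by
  haveI := finite_HolG V
  obtain ⟨hAe, hAmax⟩ := hA
  have hAcomm : ∀ a ∈ A, ∀ b ∈ A, a * b = b * a := fun a ha b hb =>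
    congrArg Subtype.val (hAe.1.is_comm.comm ⟨a, ha⟩ ⟨b, hb⟩)
  have hAVle : A ⊓ V ≤ V ⊓ Subgroup.centralizer (A : Set X) := by
    intro x hx
    obtain ⟨hxA, hxV⟩ := Subgroup.mem_inf.mp hx
    refine Subgroup.mem_inf.mpr ⟨hxV, ?_⟩
    rw [Subgroup.mem_centralizer_iff]
    intro a ha
    exact hAcomm a ha x hxA
  have hmain : Nat.card A * Nat.card ↥(A ⊓ V) ≤
      Nat.card ↥(A ⊓ Subgroup.centralizer (V : Set X)) * Nat.card V := by
    by_cases hAV : A ≤ Subgroup.centralizer (V : Set X)
    · rw [inf_eq_left.mpr hAV]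
      exact Nat.mul_le_mul_left _ (Subgroup.card_le_of_le inf_le_right)
    · have hstar : ∀ B : Subgroup X, B ≤ A →
          Nat.card B * Nat.card ↥(V ⊓ Subgroup.centralizer (B : Set X)) ≤
            Nat.card A * Nat.card ↥(V ⊓ Subgroup.centralizer (A : Set X)) := by
        intro B hBA
        obtain ⟨D, hDdef⟩ : ∃ D : Subgroup X, D = V ⊓ Subgroup.centralizer (B : Set X) :=
          ⟨_, rfl⟩
        rw [← hDdef]
        have hBe : IsElementaryAbelian p B := Cfsg.Agent.Lib.Helper4.Thompson.elab_mono hBA hAe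
        have hDe : IsElementaryAbelian p D := by
          rw [hDdef]; exact Cfsg.Agent.Lib.Helper4.Thompson.elab_mono inf_le_left hV
        have hBD : ∀ b ∈ B, ∀ d ∈ D, b * d = d * b := by
          intro b hb d hd
          rw [hDdef] at hd
          exact Subgroup.mem_centralizer_iff.mp (Subgroup.mem_inf.mp hd).2 b hb
        have hsupe : IsElementaryAbelian p (B ⊔ D) :=
          Cfsg.Agent.Lib.Helper4.Thompson.elab_sup hBe hDe hBD
        have h1 := hAmax (B ⊔ D) hsupe
        have h2 := Cfsg.Agent.Lib.Helper4.Card.card_mul_card_le B D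
        have h3 : B ⊓ D ≤ V ⊓ Subgroup.centralizer (A : Set X) := by
          intro x hx
          obtain ⟨hxB, hxD⟩ := Subgroup.mem_inf.mp hx
          rw [hDdef] at hxD
          refine Subgroup.mem_inf.mpr ⟨(Subgroup.mem_inf.mp hxD).1, ?_⟩
          rw [Subgroup.mem_centralizer_iff]
          intro a ha
          exact hAcomm a ha x (hBA hxB)
        have h4 : Nat.card ↥(B ⊓ D) ≤ Nat.card ↥(V ⊓ Subgroup.centralizer (A : Set X)) :=
          Subgroup.card_le_of_le h3
        calc Nat.card B * Nat.card D ≤ Nat.card ↥(B ⊔ D) * Nat.card ↥(B ⊓ D) := h2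
          _ ≤ Nat.card A * Nat.card ↥(V ⊓ Subgroup.centralizer (A : Set X)) :=
            Nat.mul_le_mul h1 h4
      obtain ⟨H, hHdef⟩ : ∃ H : Subgroup (HolG V), H = (rho V).range := ⟨_, rfl⟩
      have hVV := VV_elab V hV
      have hHV : H ≤ Subgroup.normalizer ((VV V : Subgroup (HolG V)) : Set (HolG V)) :=
        VV_le_normalizer V H
      have hf : H ⊓ Subgroup.centralizer ((VV V : Subgroup (HolG V)) : Set (HolG V)) = ⊥ := by
        rw [hHdef]; exact rho_range_inf_centralizer V
      have hD : ∀ D : Subgroup X, D.Normal → Subgroup.centralizer (V : Set X) ≤ D →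
          (∃ k : ℕ, (Subgroup.centralizer (V : Set X)).relIndex D = p ^ k) →
          D = Subgroup.centralizer (V : Set X) := by
        rintro D hDn hCD ⟨k, hk⟩
        refine le_antisymm ?_ hCD
        have hmapn : (D.map (QuotientGroup.mk' (Subgroup.centralizer (V : Set X)))).Normal :=
          hDn.map _ (QuotientGroup.mk'_surjective _)
        have hmapp : IsPGroup p (D.map (QuotientGroup.mk' (Subgroup.centralizer (V : Set X)))) := by
          rintro ⟨y, hy⟩
          obtain ⟨d, hd, rfl⟩ := hy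
          refine ⟨k, Subtype.ext ?_⟩
          show (QuotientGroup.mk' (Subgroup.centralizer (V : Set X)) d) ^ p ^ k = 1
          rw [← map_pow]
          have h1 := Subgroup.pow_index_mem ((Subgroup.centralizer (V : Set X)).subgroupOf D)
            (⟨d, hd⟩ : ↥D)
          have h2 : ((Subgroup.centralizer (V : Set X)).subgroupOf D).index = p ^ k := hk
          rw [h2] at h1
          have h3 : d ^ p ^ k ∈ Subgroup.centralizer (V : Set X) := by
            simpa using Subgroup.mem_subgroupOf.mp h1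
          exact (QuotientGroup.eq_one_iff _).mpr h3
        have hle := Cfsg.Agent.Lib.Helper9.le_pCore hmapn hmapp
        rw [hO] at hle
        intro d hd
        have h1 : QuotientGroup.mk' (Subgroup.centralizer (V : Set X)) d ∈
            D.map (QuotientGroup.mk' (Subgroup.centralizer (V : Set X))) :=
          Subgroup.mem_map_of_mem _ hd
        have h2 := Subgroup.mem_bot.mp (hle h1)
        exact (QuotientGroup.eq_one_iff _).mp h2
      have hS1 : Subgroup.centralizer (pPrimeCore p ↥H : Set ↥H) ≤ pPrimeCore p ↥H := by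
        subst hHdef
        exact Cfsg.Agent.S3754.dual_hall_higman
          (Cfsg.Agent.Lib.Helper4.PSolv.isPSolvable_of_surjective (rho V).rangeRestrict
            (rho V).rangeRestrict_surjective hsep)
          (pCore_range_eq_bot V hD)
      have hbo : IsBestOffenderOn p (VV V) (A.map (rho V)) := by
        refine bo_map V A ?_ ?_ hstar
        · rw [Subgroup.commutator_le]
          intro a ha b hb
          rw [commutatorElement_eq_one_iff_commute.mpr (hAcomm a ha b hb)]
          exact Subgroup.one_mem _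
        · intro a ha
          rw [hAe.2 a ha]
          exact Subgroup.one_mem _
      have hAH : A.map (rho V) ≤ H := by
        rw [hHdef]
        rintro _ ⟨a, -, rfl⟩
        exact ⟨a, rfl⟩
      have hA1 : A.map (rho V) ≠ ⊥ := map_rho_ne_bot V hAV
      have hcard := Cfsg.Agent.Lib.Helper4.Offender.card_eq_aux hVV hHV hf hS1
        (Nat.card (A.map (rho V))) (A.map (rho V)) rfl hAH hbo hA1
      rw [card_VV_inf_centralizer_map] at hcard
      have hcVV : Nat.card ↥(VV V) = Nat.card V :=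
        (Nat.card_congr (MonoidHom.ofInjective
          (SemidirectProduct.inl_injective (N := ↥V) (G := MulAut ↥V)
            (φ := MonoidHom.id (MulAut ↥V)))).toEquiv).symm
      rw [hcVV] at hcard
      have hcm := card_map_rho V A
      calc Nat.card A * Nat.card ↥(A ⊓ V)
          ≤ Nat.card A * Nat.card ↥(V ⊓ Subgroup.centralizer (A : Set X)) :=
            Nat.mul_le_mul_left _ (Subgroup.card_le_of_le hAVle)
        _ = Nat.card ↥(A ⊓ Subgroup.centralizer (V : Set X)) *
              (Nat.card ↥(A.map (rho V)) *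
                Nat.card ↥(V ⊓ Subgroup.centralizer (A : Set X))) := by
            rw [← hcm]; ring
        _ = Nat.card ↥(A ⊓ Subgroup.centralizer (V : Set X)) * Nat.card V := by rw [hcard]
  have h2 := Cfsg.Agent.Lib.Helper4.Card.card_mul_card_le
    (A ⊓ Subgroup.centralizer (V : Set X)) V
  have h3 : Nat.card ↥((A ⊓ Subgroup.centralizer (V : Set X)) ⊓ V) ≤ Nat.card ↥(A ⊓ V) :=
    Subgroup.card_le_of_le (inf_le_inf_right V inf_le_left)
  have hpos : 0 < Nat.card ↥(A ⊓ V) := Nat.card_pos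
  have h4 : Nat.card A * Nat.card ↥(A ⊓ V) ≤
      Nat.card ↥((A ⊓ Subgroup.centralizer (V : Set X)) ⊔ V) * Nat.card ↥(A ⊓ V) :=
    calc Nat.card A * Nat.card ↥(A ⊓ V)
        ≤ Nat.card ↥(A ⊓ Subgroup.centralizer (V : Set X)) * Nat.card V := hmain
      _ ≤ Nat.card ↥((A ⊓ Subgroup.centralizer (V : Set X)) ⊔ V) *
            Nat.card ↥((A ⊓ Subgroup.centralizer (V : Set X)) ⊓ V) := h2
      _ ≤ Nat.card ↥((A ⊓ Subgroup.centralizer (V : Set X)) ⊔ V) * Nat.card ↥(A ⊓ V) :=
          Nat.mul_le_mul_left _ h3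
  exact Nat.le_of_mul_le_mul_right h4 hpos

/-- For a p-separable group and a normal elementary abelian p-subgroup V with no nontrivial normal p-subgroup modulo its centralizer C, the Thompson subgroup J(G) moves Ω₁(Z(J(C))) only inside V. -/
theorem result {G : Type*} [Group G] [Finite G] {p : ℕ} [Fact p.Prime] (hsep : Cfsg.IsPSolvable p G) (V : Subgroup G) [V.Normal] (hV : Cfsg.IsElementaryAbelian p V) (hO : Cfsg.pCore p (G ⧸ Subgroup.centralizer (V : Set G)) = ⊥) : ⁅Cfsg.omegaOne p (Cfsg.centerThompsonOf p (Subgroup.centralizer (V : Set G))), Cfsg.thompsonSubgroup p G⁆ ≤ V := by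
  obtain ⟨C, hCdef⟩ : ∃ C : Subgroup G, C = Subgroup.centralizer (V : Set G) := ⟨_, rfl⟩
  have hkeycard : ∀ A ∈ maxElementaryAbelianSubgroups p G,
      Nat.card A ≤ Nat.card ↥((A ⊓ C) ⊔ V) := by
    intro A hA
    rw [hCdef]
    exact card_le_aux hsep V hV hO A hA
  rw [← hCdef]
  obtain ⟨W, hWdef⟩ : ∃ W : Subgroup G, W = omegaOne p (centerThompsonOf p C) := ⟨_, rfl⟩
  rw [← hWdef]
  have hVn : V.Normal := inferInstance
  have hVc : ∀ v ∈ V, ∀ w ∈ V, v * w = w * v := fun v hv w hw =>
    congrArg Subtype.val (hV.1.is_comm.comm ⟨v, hv⟩ ⟨w, hw⟩)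
  have hVC : V ≤ C := by
    rw [hCdef]
    intro v hv
    rw [Subgroup.mem_centralizer_iff]
    intro w hw
    exact hVc w hw v hv
  have hkey : ∀ A ∈ maxElementaryAbelianSubgroups p G, W ≤ (A ⊓ C) ⊔ V := by
    intro A hA
    have hcard := hkeycard A hA
    obtain ⟨E, hEdef⟩ : ∃ E : Subgroup G, E = (A ⊓ C) ⊔ V := ⟨_, rfl⟩
    rw [← hEdef] at hcard ⊢
    have hAe := hA.1
    have hACe : IsElementaryAbelian p (A ⊓ C) :=
      Cfsg.Agent.Lib.Helper4.Thompson.elab_mono inf_le_left hAe
    have hEe : IsElementaryAbelian p E := by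
      rw [hEdef]
      refine Cfsg.Agent.Lib.Helper4.Thompson.elab_sup hACe hV ?_
      intro a ha v hv
      have h1 : a ∈ C := (Subgroup.mem_inf.mp ha).2
      rw [hCdef, Subgroup.mem_centralizer_iff] at h1
      exact (h1 v hv).symm
    have hEC : E ≤ C := by rw [hEdef]; exact sup_le inf_le_right hVC
    have hEmax : ∀ B : Subgroup G, IsElementaryAbelian p B → Nat.card B ≤ Nat.card E :=
      fun B hB => (hA.2 B hB).trans hcard
    have hEmaxG : E ∈ maxElementaryAbelianSubgroups p G := ⟨hEe, hEmax⟩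
    have hEmaxC : E.subgroupOf C ∈ maxElementaryAbelianSubgroups p ↥C :=
      Cfsg.Agent.Lib.Helper4.Thompson.max_subgroupOf C hEmaxG hEC
    have hEJ : E ≤ thompsonSubgroupOf p C := by
      intro x hx
      show x ∈ (thompsonSubgroup p ↥C).map C.subtype
      have hx' : (⟨x, hEC hx⟩ : ↥C) ∈ E.subgroupOf C := Subgroup.mem_subgroupOf.mpr hx
      exact ⟨⟨x, hEC hx⟩, Cfsg.Agent.Lib.Helper4.Thompson.le_thompson hEmaxC hx', rfl⟩
    rw [hWdef]
    show Subgroup.closure {x : G | x ∈ centerThompsonOf p C ∧ x ^ p = 1} ≤ E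
    rw [Subgroup.closure_le]
    rintro x ⟨hxZ, hxp⟩
    have hxZ' : x ∈ thompsonSubgroupOf p C ⊓
        Subgroup.centralizer (thompsonSubgroupOf p C : Set G) := hxZ
    have hxc : x ∈ Subgroup.centralizer (thompsonSubgroupOf p C : Set G) :=
      (Subgroup.mem_inf.mp hxZ').2
    have hcomm : ∀ e ∈ E, ∀ y ∈ Subgroup.zpowers x, e * y = y * e := by
      intro e he y hy
      obtain ⟨k, rfl⟩ := Subgroup.mem_zpowers_iff.mp hy
      have h1 : Commute e x := Subgroup.mem_centralizer_iff.mp hxc e (hEJ he)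
      exact (h1.zpow_right k).eq
    have hsup : IsElementaryAbelian p (E ⊔ Subgroup.zpowers x) :=
      Cfsg.Agent.Lib.Helper4.Thompson.elab_sup hEe
        (Cfsg.Agent.Lib.Helper4.Thompson.elab_zpowers hxp) hcomm
    have h2 : E = E ⊔ Subgroup.zpowers x :=
      Subgroup.eq_of_le_of_card_ge le_sup_left (hEmax _ hsup)
    rw [SetLike.mem_coe, h2]
    exact (le_sup_right : Subgroup.zpowers x ≤ E ⊔ Subgroup.zpowers x) (Subgroup.mem_zpowers x)
  obtain ⟨N, hNdef⟩ : ∃ N : Subgroup G, N = (Subgroup.centralizer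
      ((W.map (QuotientGroup.mk' V) : Subgroup (G ⧸ V)) : Set (G ⧸ V))).comap
        (QuotientGroup.mk' V) := ⟨_, rfl⟩
  have hJN : thompsonSubgroup p G ≤ N := by
    show sSup (maxElementaryAbelianSubgroups p G) ≤ N
    apply sSup_le
    intro A hA a ha
    rw [hNdef, Subgroup.mem_comap, Subgroup.mem_centralizer_iff]
    rintro _ ⟨w, hw, rfl⟩
    have hwE := hkey A hA hw
    obtain ⟨b, hb, v, hv, rfl⟩ := Subgroup.mem_sup_of_normal_right.mp hwE
    have hbA : b ∈ A := (Subgroup.mem_inf.mp hb).1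
    have hab : a * b = b * a := congrArg Subtype.val (hA.1.1.is_comm.comm ⟨a, ha⟩ ⟨b, hbA⟩)
    have hmem : (b * v) * a * (b * v)⁻¹ * a⁻¹ ∈ V := by
      have e : (b * v) * a * (b * v)⁻¹ * a⁻¹ = b * (v * (a * v⁻¹ * a⁻¹)) * b⁻¹ := by
        have h1 : b⁻¹ * a⁻¹ = a⁻¹ * b⁻¹ := by rw [← mul_inv_rev, ← mul_inv_rev, hab]
        calc (b * v) * a * (b * v)⁻¹ * a⁻¹ = b * v * a * v⁻¹ * (b⁻¹ * a⁻¹) := by group
          _ = b * v * a * v⁻¹ * (a⁻¹ * b⁻¹) := by rw [h1]
          _ = b * (v * (a * v⁻¹ * a⁻¹)) * b⁻¹ := by group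
      rw [e]
      exact hVn.conj_mem _ (V.mul_mem hv (hVn.conj_mem _ (V.inv_mem hv) a)) b
    have h := (QuotientGroup.eq_one_iff (N := V) _).mpr hmem
    have h' : QuotientGroup.mk' V (b * v) * QuotientGroup.mk' V a *
        (QuotientGroup.mk' V (b * v))⁻¹ * (QuotientGroup.mk' V a)⁻¹ = 1 := by
      rw [← map_inv, ← map_inv, ← map_mul, ← map_mul, ← map_mul]
      exact h
    exact mul_inv_eq_iff_eq_mul.mp (mul_inv_eq_one.mp h')
  rw [Subgroup.commutator_le]
  intro w hw g hg
  have hgN := hJN hg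
  rw [hNdef, Subgroup.mem_comap, Subgroup.mem_centralizer_iff] at hgN
  have hc := hgN _ (Subgroup.mem_map_of_mem (QuotientGroup.mk' V) hw)
  rw [commutatorElement_def]
  apply (QuotientGroup.eq_one_iff (N := V) _).mp
  show QuotientGroup.mk' V (w * g * w⁻¹ * g⁻¹) = 1
  rw [map_mul, map_mul, map_mul, map_inv, map_inv, hc]
  group

end Cfsg.Agent.S0619
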