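import Mathlib
import Cfsg.Statements.S0621
import Cfsg.Agent.S0542
import Cfsg.Agent.S0600
import Cfsg.Agent.S0601
import Cfsg.Agent.S0606
import Cfsg.Agent.S0608
import Cfsg.Agent.S0617
import Cfsg.Agent.S3754
import Cfsg.Agent.Lib.Helper4.Hol
import Cfsg.Agent.Lib.Helper4.Conj
import Cfsg.Agent.Lib.Helper4.Thompson
import Cfsg.Agent.Lib.Helper4.Thompson2
import Cfsg.Agent.Lib.Helper4.PSolv
import Cfsg.Agent.Lib.Helper4.FFCore
import Cfsg.Agent.Lib.Helper12.PSolvable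
import Cfsg.Agent.Lib.Helper9.Cores
import Cfsg.Agent.S0620
import Cfsg.Agent.Lib.Helper4.FFCore2

set_option autoImplicit false
open Cfsg

open scoped commutatorElement Pointwise

namespace Cfsg.Agent.S0621

universe u

open Cfsg.Agent.Lib.Helper4.Hol Cfsg.Agent.Lib.Helper4.FFCore Cfsg.Agent.Lib.Helper4.Conj
open Cfsg.Agent.Lib.Helper4.FFCore2
open Cfsg.Agent.S0620 (hol_hyps conjN charRestrict W_char lift_fixed)

theorem main {G : Type u} [Group G] [Finite G] {p : ℕ} [Fact p.Prime] {q : ℕ} [Fact q.Prime]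
    (K X : Subgroup G) (hXK : X ≤ Subgroup.normalizer (K : Set G))
    (hX : IsElementaryAbelian q X) (hq : ¬ q ∣ Nat.card K) (hsep : IsPSolvable p ↥K)
    (hO : pPrimeCore p ↥K = ⊥) (hnf : ¬ IsThompsonFactorizable p ↥K) :
    (p = 2 ∨ p = 3) ∧ ∃ W D : Subgroup G, W ≤ K ⊓ Subgroup.centralizer (X : Set G) ∧
      D ≤ K ⊓ Subgroup.centralizer (X : Set G) ∧ IsElementaryAbelian p W ∧
      Nat.card W = p ^ 2 ∧ D ≤ Subgroup.normalizer (W : Set G) ∧
      ∃ hn : ((Subgroup.centralizer (W : Set G)).subgroupOf D).Normal,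
        Nonempty ((↥D ⧸ (Subgroup.centralizer (W : Set G)).subgroupOf D) ≃*
          Matrix.SpecialLinearGroup (Fin 2) (ZMod p)) := by
  have hc := Cfsg.Agent.Lib.Helper12.PSolvable.hall_higman hsep hO
  obtain ⟨hVn, hVe, hD⟩ := Cfsg.Agent.S0601.result hc
  have hJ : ¬ thompsonSubgroup p ↥K ≤ Subgroup.centralizer ((⨆ S : Sylow p ↥K,
      omegaOne p ((S : Subgroup ↥K) ⊓ Subgroup.centralizer ((S : Subgroup ↥K) : Set ↥K)) :
        Subgroup ↥K) : Set ↥K) :=
    fun h => hnf ((Cfsg.Agent.S0608.result hO).mpr h)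
  obtain ⟨V, hVdef⟩ : ∃ V : Subgroup ↥K, V = ⨆ S : Sylow p ↥K,
      omegaOne p ((S : Subgroup ↥K) ⊓ Subgroup.centralizer ((S : Subgroup ↥K) : Set ↥K)) :=
    ⟨_, rfl⟩
  rw [← hVdef] at hVn hVe hD hJ
  haveI := hVn
  have hVchar : V.Characteristic := by rw [hVdef]; exact W_char p
  have hh := hol_hyps hsep V hVe hD hJ
  haveI := finite_HolG V
  obtain ⟨J, hJdef⟩ : ∃ J : Subgroup ↥K, J = thompsonSubgroup p ↥K := ⟨_, rfl⟩
  rw [← hJdef] at hh hJ
  have hJchar : J.Characteristic := by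
    rw [hJdef]; exact Cfsg.Agent.Lib.Helper4.Thompson.thompson_characteristic
  haveI hJn : J.Normal := Subgroup.normal_of_characteristic _
  -- the action of X
  obtain ⟨α, hα⟩ : ∃ α : ↥X →* MulAut ↥K, ∀ (x : ↥X) (k : ↥K),
      ((α x k : ↥K) : G) = (x : G) * k * (x : G)⁻¹ :=
    ⟨(conjN K).comp (Subgroup.inclusion hXK), fun _ _ => rfl⟩
  obtain ⟨ξ, hξ⟩ : ∃ ξ : ↥X →* HolG V, ∀ x : ↥X,
      ξ x = (SemidirectProduct.inr (charRestrict V hVchar (α x)) : HolG V) :=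
    ⟨(SemidirectProduct.inr : MulAut ↥V →* HolG V).comp ((charRestrict V hVchar).comp α),
      fun _ => rfl⟩
  have hr : ∀ k : ↥K, rho V k = (SemidirectProduct.inr (MulAut.conjNormal k) : HolG V) :=
    fun _ => rfl
  have hrel : ∀ (x : ↥X) (k : ↥K), ξ x * rho V k * (ξ x)⁻¹ = rho V (α x k) := by
    intro x k
    have hM : charRestrict V hVchar (α x) * MulAut.conjNormal k =
        MulAut.conjNormal (α x k) * charRestrict V hVchar (α x) := by
      apply MulEquiv.ext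
      intro v
      apply Subtype.ext
      apply Subtype.ext
      show ((α x (MulAut.conjNormal k v : ↥K) : ↥K) : G) =
        ((α x k : ↥K) : G) * ((α x (v : ↥K) : ↥K) : G) * ((α x k : ↥K) : G)⁻¹
      rw [hα, hα, hα]
      show (x : G) * ((k : G) * ((v : ↥K) : G) * (k : G)⁻¹) * (x : G)⁻¹ = _
      group
    rw [hξ, hr, hr, ← map_inv, ← map_mul, ← map_mul, hM, mul_inv_cancel_right]
  have hXp : IsPGroup q ↥X := by
    intro x
    refine ⟨1, Subtype.ext ?_⟩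
    have := hX.2 (x : G) x.2
    simpa using this
  obtain ⟨Xb, hXbdef⟩ : ∃ Xb : Subgroup (HolG V), Xb = ξ.range := ⟨_, rfl⟩
  have hXV : Xb ≤ Subgroup.normalizer ((VV V : Subgroup (HolG V)) : Set (HolG V)) :=
    VV_le_normalizer V Xb
  have hJα : ∀ (x : ↥X) (j : ↥K), j ∈ J → α x j ∈ J := by
    intro x j hj
    have h : j ∈ J.comap (α x).toMonoidHom := by rw [hJchar.fixed]; exact hj
    exact h
  have hXH : Xb ≤ Subgroup.normalizer ((J.map (rho V) : Subgroup (HolG V)) : Set (HolG V)) := by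
    rw [hXbdef]
    rintro _ ⟨x, rfl⟩
    rw [mem_normalizer_iff_conj_smul_eq]
    apply conj_smul_eq_of_le
    intro z hz
    rw [mem_conj_smul] at hz
    obtain ⟨j, hj, hjz⟩ := hz
    refine ⟨α x j, hJα x j hj, ?_⟩
    rw [← hrel, hjz]; group
  have hXq : ∀ y ∈ Xb, ∃ k : ℕ, y ^ q ^ k = 1 := by
    rw [hXbdef]
    rintro _ ⟨x, rfl⟩
    refine ⟨1, ?_⟩
    have hx : x ^ q = 1 := Subtype.ext (by simpa using hX.2 (x : G) x.2)
    rw [pow_one, ← map_pow, hx, map_one]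
  have h6 : 6 ∣ Nat.card ↥K := by
    have hex : ∃ E, Comp p (VV V) (J.map (rho V)) E := by
      by_contra hno
      apply hh.2.2.2.2.2
      rw [← comp_sup hh, iSup_eq_bot]
      rintro ⟨E, hE⟩
      exact absurd ⟨E, hE⟩ hno
    obtain ⟨E, hE⟩ := hex
    have h1 := comp_card hh hE
    have h2 : Nat.card E ∣ Nat.card ↥(J.map (rho V)) := Subgroup.card_dvd_of_le (comp_le hh hE)
    have h3 : Nat.card ↥(J.map (rho V)) ∣ Nat.card ↥J := Subgroup.card_map_dvd J (rho V)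
    have h4 : Nat.card ↥J ∣ Nat.card ↥K := Subgroup.card_subgroup_dvd_card J
    exact h1.trans (h2.trans (h3.trans h4))
  have hq2 : q ≠ 2 := by
    intro h2
    apply hq
    rw [h2]
    exact dvd_trans (by norm_num) h6
  have hq3 : q ≠ 3 := by
    intro h3
    apply hq
    rw [h3]
    exact dvd_trans (by norm_num) h6
  refine ⟨hyp_p23 hh, ?_⟩
  -- the diagonal plane in the holomorph
  obtain ⟨D₀, hD₀def⟩ : ∃ D₀ : Subgroup (HolG V),
      D₀ = J.map (rho V) ⊓ Subgroup.centralizer (Xb : Set (HolG V)) := ⟨_, rfl⟩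
  obtain ⟨W₀, hW₀V, hW₀card, hW₀fix, hD₀W, hn₀, ⟨ψ₀⟩⟩ :=
    planeW hh hq2 hq3 hXV hXH hXq hD₀def
  haveI := hn₀
  have hD₀mem : ∀ y : HolG V, y ∈ D₀ ↔
      y ∈ J.map (rho V) ∧ y ∈ Subgroup.centralizer (Xb : Set (HolG V)) := by
    intro y
    rw [hD₀def]
    exact Subgroup.mem_inf
  obtain ⟨W', hW'⟩ : ∃ W' : Subgroup ↥V,
      ∀ v : ↥V, v ∈ W' ↔ (SemidirectProduct.inl v : HolG V) ∈ W₀ :=
    ⟨W₀.comap (SemidirectProduct.inl : ↥V →* HolG V), fun _ => Iff.rfl⟩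
  have hW₀ex : ∀ y ∈ W₀, ∃ v : ↥V, v ∈ W' ∧ (SemidirectProduct.inl v : HolG V) = y := by
    intro y hy
    obtain ⟨v, rfl⟩ := (mem_VV V).mp (hW₀V hy)
    exact ⟨v, (hW' v).mpr hy, rfl⟩
  have hW'card : Nat.card W' = p ^ 2 := by
    rw [← hW₀card]
    apply Nat.card_congr
    exact Equiv.ofBijective
      (fun v : ↥W' => (⟨(SemidirectProduct.inl (v : ↥V) : HolG V), (hW' _).mp v.2⟩ : ↥W₀))
      ⟨fun a b hab => Subtype.ext (SemidirectProduct.inl_injective (congrArg Subtype.val hab)),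
       fun y => by
         obtain ⟨v, hv, hvy⟩ := hW₀ex y y.2
         exact ⟨⟨v, hv⟩, Subtype.ext hvy⟩⟩
  obtain ⟨W, hWdef⟩ : ∃ W : Subgroup G, W = (W'.map V.subtype).map K.subtype := ⟨_, rfl⟩
  have hWmem : ∀ z : G, z ∈ W ↔ ∃ v : ↥V, v ∈ W' ∧ ((v : ↥K) : G) = z := by
    intro z
    rw [hWdef]
    constructor
    · rintro ⟨k, ⟨v, hv, rfl⟩, rfl⟩
      exact ⟨v, hv, rfl⟩
    · rintro ⟨v, hv, rfl⟩
      exact ⟨(v : ↥K), ⟨v, hv, rfl⟩, rfl⟩
  have hWcard : Nat.card W = p ^ 2 := by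
    rw [hWdef, Subgroup.card_map_of_injective K.subtype_injective,
      Subgroup.card_map_of_injective V.subtype_injective, hW'card]
  have hWe : IsElementaryAbelian p W := by
    rw [hWdef]
    apply Cfsg.Agent.Lib.Helper4.Thompson.elab_map
    exact Cfsg.Agent.Lib.Helper4.Thompson.elab_mono
      (by rintro _ ⟨v, -, rfl⟩; exact v.2) hVe
  have hβ : ∀ (x : ↥X) (v : ↥V), ξ x * (SemidirectProduct.inl v : HolG V) * (ξ x)⁻¹ =
      (SemidirectProduct.inl (charRestrict V hVchar (α x) v) : HolG V) := by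
    intro x v
    rw [hξ, ← map_inv]
    exact (SemidirectProduct.inl_aut (φ := MonoidHom.id (MulAut ↥V))
      (charRestrict V hVchar (α x)) v).symm
  have hWKC : W ≤ K ⊓ Subgroup.centralizer (X : Set G) := by
    intro z hz
    obtain ⟨v, hv, rfl⟩ := (hWmem z).mp hz
    refine Subgroup.mem_inf.mpr ⟨(v : ↥K).2, ?_⟩
    rw [Subgroup.mem_centralizer_iff]
    intro x hx
    have h1 : ξ ⟨x, hx⟩ * (SemidirectProduct.inl v : HolG V) =
        (SemidirectProduct.inl v : HolG V) * ξ ⟨x, hx⟩ :=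
      hW₀fix _ ((hW' v).mp hv) _ (by rw [hXbdef]; exact ⟨⟨x, hx⟩, rfl⟩)
    have h2 := hβ ⟨x, hx⟩ v
    rw [h1, mul_inv_cancel_right] at h2
    have h3 := SemidirectProduct.inl_injective h2
    have h4 : ((v : ↥K) : G) = x * ((v : ↥K) : G) * x⁻¹ := by
      have h5 := congrArg (fun t : ↥V => ((t : ↥K) : G)) h3
      exact h5.trans (hα ⟨x, hx⟩ (v : ↥K))
    calc x * ((v : ↥K) : G) = (x * ((v : ↥K) : G) * x⁻¹) * x := by group
      _ = ((v : ↥K) : G) * x := by rw [← h4]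
  -- the subgroup D
  obtain ⟨D', hD'def⟩ : ∃ D' : Subgroup ↥K,
      D' = (D₀.comap (rho V)) ⊓ (Subgroup.centralizer (X : Set G)).subgroupOf K := ⟨_, rfl⟩
  have hD'mem : ∀ k : ↥K, k ∈ D' ↔
      rho V k ∈ D₀ ∧ (k : G) ∈ Subgroup.centralizer (X : Set G) := by
    intro k
    rw [hD'def]
    exact Subgroup.mem_inf
  obtain ⟨D, hDdef⟩ : ∃ D : Subgroup G, D = D'.map K.subtype := ⟨_, rfl⟩
  have hDmem' : ∀ g : G, g ∈ D ↔ ∃ k : ↥K, k ∈ D' ∧ (k : G) = g := by
    intro g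
    rw [hDdef]
    exact Subgroup.mem_map
  have hDK : D ≤ K := by
    intro g hg
    obtain ⟨k, -, rfl⟩ := (hDmem' g).mp hg
    exact k.2
  have hDKC : D ≤ K ⊓ Subgroup.centralizer (X : Set G) := by
    intro g hg
    obtain ⟨k, hk, rfl⟩ := (hDmem' g).mp hg
    exact Subgroup.mem_inf.mpr ⟨k.2, ((hD'mem k).mp hk).2⟩
  have hcn : ∀ (k : ↥K) (v : ↥V), (((MulAut.conjNormal k v : ↥V) : ↥K) : G) =
      (k : G) * ((v : ↥K) : G) * (k : G)⁻¹ := by
    intro k v
    rw [MulAut.conjNormal_apply]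
    rfl
  have hkey : ∀ (k : ↥K) (v : ↥V),
      ((SemidirectProduct.inl v : HolG V) * rho V k = rho V k * (SemidirectProduct.inl v : HolG V))
        ↔ ((v : ↥K) : G) * (k : G) = (k : G) * ((v : ↥K) : G) := by
    intro k v
    have h0 := rho_inl V k v
    have h0' := hcn k v
    constructor
    · intro h
      rw [← h, mul_inv_cancel_right] at h0
      have h1 := SemidirectProduct.inl_injective h0
      have h2 : ((v : ↥K) : G) = (k : G) * ((v : ↥K) : G) * (k : G)⁻¹ := by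
        rw [← h0', ← h1]
      calc ((v : ↥K) : G) * (k : G)
          = ((k : G) * ((v : ↥K) : G) * (k : G)⁻¹) * (k : G) := by rw [← h2]
        _ = (k : G) * ((v : ↥K) : G) := by group
    · intro h
      have h2 : (MulAut.conjNormal k v : ↥V) = v := by
        apply Subtype.ext
        apply Subtype.ext
        rw [h0', ← h, mul_inv_cancel_right]
      rw [h2] at h0
      exact (mul_inv_eq_iff_eq_mul.mp h0).symm
  have hDW : D ≤ Subgroup.normalizer (W : Set G) := by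
    intro g hg
    obtain ⟨k, hk, rfl⟩ := (hDmem' g).mp hg
    have hkN := hD₀W ((hD'mem k).mp hk).1
    rw [mem_normalizer_iff_conj_smul_eq]
    apply conj_smul_eq_of_le
    intro z hz
    rw [mem_conj_smul] at hz
    obtain ⟨v, hv, hvz⟩ := (hWmem _).mp hz
    have h1 : rho V k * (SemidirectProduct.inl v : HolG V) * (rho V k)⁻¹ ∈ W₀ :=
      (norm_conj_mem' hkN).mpr ((hW' v).mp hv)
    rw [rho_inl] at h1
    refine (hWmem z).mpr ⟨MulAut.conjNormal k v, (hW' _).mpr h1, ?_⟩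
    rw [hcn, hvz]
    group
  have hrmem : ∀ d : ↥D, rho V (Subgroup.inclusion hDK d) ∈ D₀ := by
    intro d
    obtain ⟨k, hk, hkd⟩ := (hDmem' _).mp d.2
    have e : Subgroup.inclusion hDK d = k := Subtype.ext hkd.symm
    rw [e]
    exact ((hD'mem k).mp hk).1
  obtain ⟨r, hr'⟩ : ∃ r : ↥D →* ↥D₀,
      ∀ d : ↥D, ((r d : ↥D₀) : HolG V) = rho V (Subgroup.inclusion hDK d) :=
    ⟨((rho V).comp (Subgroup.inclusion hDK)).codRestrict D₀ hrmem, fun _ => rfl⟩
  have hrsurj : Function.Surjective r := by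
    intro h
    obtain ⟨hhH, hhC⟩ := (hD₀mem _).mp h.2
    have hrange : (h : HolG V) ∈ (rho V).range := by
      obtain ⟨j, -, hj⟩ := hhH
      exact ⟨j, hj⟩
    have hfix : ∀ x : ↥X, ξ x * (h : HolG V) = (h : HolG V) * ξ x := fun x =>
      Subgroup.mem_centralizer_iff.mp hhC (ξ x) (by rw [hXbdef]; exact ⟨x, rfl⟩)
    obtain ⟨k, hk, hkfix⟩ := lift_fixed hXp hq (rho V) ξ α hrel (h : HolG V) hrange hfix
    have hkC : (k : G) ∈ Subgroup.centralizer (X : Set G) := by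
      rw [Subgroup.mem_centralizer_iff]
      intro x hx
      have h1 := hkfix ⟨x, hx⟩
      have h2 : x * (k : G) * x⁻¹ = (k : G) := by
        rw [← hα ⟨x, hx⟩ k, h1]
      exact mul_inv_eq_iff_eq_mul.mp h2
    have hkD' : k ∈ D' := (hD'mem k).mpr ⟨by rw [hk]; exact h.2, hkC⟩
    have hkD : (k : G) ∈ D := (hDmem' _).mpr ⟨k, hkD', rfl⟩
    refine ⟨⟨(k : G), hkD⟩, Subtype.ext ?_⟩
    rw [hr']
    have e : Subgroup.inclusion hDK ⟨(k : G), hkD⟩ = k := Subtype.ext rfl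
    rw [e, hk]
  obtain ⟨Φ, hΦ⟩ : ∃ Φ : ↥D →* ↥D₀ ⧸ (Subgroup.centralizer (W₀ : Set (HolG V))).subgroupOf D₀,
      ∀ d, Φ d = QuotientGroup.mk' ((Subgroup.centralizer (W₀ : Set (HolG V))).subgroupOf D₀)
        (r d) := ⟨(QuotientGroup.mk' _).comp r, fun _ => rfl⟩
  have hΦsurj : Function.Surjective Φ := by
    intro y
    obtain ⟨h, rfl⟩ := QuotientGroup.mk'_surjective _ y
    obtain ⟨d, rfl⟩ := hrsurj h
    exact ⟨d, hΦ d⟩
  have hker : (Subgroup.centralizer (W : Set G)).subgroupOf D = Φ.ker := by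
    ext d
    rw [Subgroup.mem_subgroupOf, MonoidHom.mem_ker, hΦ]
    have e1 : (QuotientGroup.mk' ((Subgroup.centralizer (W₀ : Set (HolG V))).subgroupOf D₀)
        (r d) = 1) ↔ (r d) ∈ (Subgroup.centralizer (W₀ : Set (HolG V))).subgroupOf D₀ :=
      QuotientGroup.eq_one_iff (r d)
    rw [e1, Subgroup.mem_subgroupOf, hr', Subgroup.mem_centralizer_iff,
      Subgroup.mem_centralizer_iff]
    constructor
    · intro h y hy
      obtain ⟨v, hv, rfl⟩ := hW₀ex y hy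
      apply (hkey _ v).mpr
      exact h _ ((hWmem _).mpr ⟨v, hv, rfl⟩)
    · intro h z hz
      obtain ⟨v, hv, rfl⟩ := (hWmem z).mp hz
      exact (hkey (Subgroup.inclusion hDK d) v).mp (h _ ((hW' v).mp hv))
  have hn : ((Subgroup.centralizer (W : Set G)).subgroupOf D).Normal := by
    rw [hker]; exact Φ.normal_ker
  refine ⟨W, D, hWKC, hDKC, hWe, hWcard, hDW, hn, ⟨?_⟩⟩
  exact (QuotientGroup.quotientMulEquivOfEq hker).trans
    ((QuotientGroup.quotientKerEquivOfSurjective Φ hΦsurj).trans ψ₀)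

/-- Let K be p-separable with O_p'(K) = 1, normalized by an elementary abelian q-group X for a prime q not dividing the order of K. If the Thompson factorization fails in K, then p is 2 or 3 and the fixed points of X contain a plane W of order p² and a subgroup inducing SL(2, p) on it. -/
theorem result {G : Type*} [Group G] [Finite G] {p : ℕ} [Fact p.Prime] {q : ℕ} [Fact q.Prime] (K X : Subgroup G) (hXK : X ≤ Subgroup.normalizer (K : Set G)) (hX : Cfsg.IsElementaryAbelian q X) (hq : ¬ q ∣ Nat.card K) (hsep : Cfsg.IsPSolvable p ↥K) (hO : Cfsg.pPrimeCore p ↥K = ⊥) (hnf : ¬ Cfsg.IsThompsonFactorizable p ↥K) : (p = 2 ∨ p = 3) ∧ ∃ W D : Subgroup G, W ≤ K ⊓ Subgroup.centralizer (X : Set G) ∧ D ≤ K ⊓ Subgroup.centralizer (X : Set G) ∧ Cfsg.IsElementaryAbelian p W ∧ Nat.card W = p ^ 2 ∧ D ≤ Subgroup.normalizer (W : Set G) ∧ ∃ hn : ((Subgroup.centralizer (W : Set G)).subgroupOf D).Normal, Nonempty ((↥D ⧸ (Subgroup.centralizer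 (W : Set G)).subgroupOf D) ≃* Matrix.SpecialLinearGroup (Fin 2) (ZMod p)) := by
  exact main K X hXK hX hq hsep hO hnf

end Cfsg.Agent.S0621
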