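import Mathlib
import Cfsg.Statements.S0622
import Cfsg.Agent.Lib.Helper4.Thompson
import Cfsg.Agent.S0605

set_option autoImplicit false
universe u
open Cfsg

namespace Cfsg.Agent.S0622

section
variable {S : Type u} [Group S] {S' : Type u} [Group S'] {p : ℕ}

theorem omegaOne_map (f : S →* S') (hf : Function.Injective f) (H : Subgroup S) :
    (omegaOne p H).map f = omegaOne p (H.map f) := by
  unfold omegaOne
  rw [MonoidHom.map_closure]
  congr 1
  ext y
  constructor
  · rintro ⟨x, ⟨hx, hxp⟩, rfl⟩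
    exact ⟨Subgroup.mem_map_of_mem _ hx, by rw [← map_pow, hxp, map_one]⟩
  · rintro ⟨⟨x, hx, rfl⟩, hyp⟩
    refine ⟨x, ⟨hx, ?_⟩, rfl⟩
    apply hf
    rw [map_pow, map_one]; exact hyp

theorem center_map (η : S ≃* S') :
    (Subgroup.center S).map η.toMonoidHom = Subgroup.center S' := by
  ext y
  constructor
  · rintro ⟨z, hz, rfl⟩
    have hz' : z ∈ Subgroup.center S := hz
    rw [Subgroup.mem_center_iff] at hz' ⊢
    intro g
    obtain ⟨g0, rfl⟩ := η.surjective g
    show η g0 * η z = η z * η g0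
    rw [← map_mul, ← map_mul, hz' g0]
  · intro hy
    rw [Subgroup.mem_center_iff] at hy
    refine ⟨η.symm y, ?_, by simp⟩
    show η.symm y ∈ Subgroup.center S
    rw [Subgroup.mem_center_iff]
    intro g
    apply η.injective
    rw [map_mul, map_mul, MulEquiv.apply_symm_apply]
    exact hy (η g)

theorem centralizer_map (η : S ≃* S') (J : Subgroup S) :
    (Subgroup.centralizer (J : Set S)).map η.toMonoidHom =
      Subgroup.centralizer ((J.map η.toMonoidHom : Subgroup S') : Set S') := by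
  ext y
  constructor
  · rintro ⟨z, hz, rfl⟩
    have hz' : z ∈ Subgroup.centralizer (J : Set S) := hz
    rw [Subgroup.mem_centralizer_iff] at hz' ⊢
    rintro _ ⟨j, hj, rfl⟩
    show η j * η z = η z * η j
    rw [← map_mul, ← map_mul, hz' j hj]
  · intro hy
    rw [Subgroup.mem_centralizer_iff] at hy
    refine ⟨η.symm y, ?_, by simp⟩
    show η.symm y ∈ Subgroup.centralizer (J : Set S)
    rw [Subgroup.mem_centralizer_iff]
    intro j hj
    apply η.injective
    rw [map_mul, map_mul, MulEquiv.apply_symm_apply]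
    exact hy (η j) (Subgroup.mem_map_of_mem _ hj)

theorem omegaCenterThompson_map (η : S ≃* S') :
    (omegaCenterThompson p S).map η.toMonoidHom = omegaCenterThompson p S' := by
  unfold omegaCenterThompson
  rw [omegaOne_map _ η.injective, Subgroup.map_inf _ _ _ η.injective, centralizer_map,
    Cfsg.Agent.Lib.Helper4.Thompson.thompson_map_equiv]

theorem stable_comp {H : Type u} [Group H] (η : S ≃* S') (τ : S' →* H)
    (h : IsStableEmbedding p τ) : IsStableEmbedding p (τ.comp η.toMonoidHom) := by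
  obtain ⟨h1, h2, ⟨P, hP⟩, h4, h5, h6⟩ := h
  refine ⟨h1.comp η.injective, h2, ⟨P, ?_⟩, h4, ?_, ?_⟩
  · rw [hP]
    ext y
    constructor
    · rintro ⟨x, rfl⟩
      exact ⟨η.symm x, by simp⟩
    · rintro ⟨x, rfl⟩
      exact ⟨η x, rfl⟩
  · rw [← Subgroup.map_map, Cfsg.Agent.Lib.Helper4.Thompson.thompson_map_equiv]; exact h5
  · intro V _ hV
    rw [← Subgroup.map_map, omegaCenterThompson_map] at hV
    exact h6 V hV

theorem snc_map_le (η : S ≃* S') :
    (stableNormalClosure p S).map η.toMonoidHom ≤ stableNormalClosure p S' := by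
  unfold stableNormalClosure
  apply le_sInf
  rintro W' ⟨hW'1, hW'2⟩
  rw [Subgroup.map_le_iff_le_comap]
  apply sInf_le
  refine ⟨?_, ?_⟩
  · rw [← Subgroup.map_le_iff_le_comap, omegaOne_map _ η.injective, center_map]
    exact hW'1
  · intro H _ τ hτ
    have h1 : IsStableEmbedding p (τ.comp η.symm.toMonoidHom) := stable_comp η.symm τ hτ
    have h2 := hW'2 H (τ.comp η.symm.toMonoidHom) h1
    have h3 : (W'.comap η.toMonoidHom).map τ = W'.map (τ.comp η.symm.toMonoidHom) := by
      rw [Subgroup.comap_equiv_eq_map_symm', Subgroup.map_map]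
    rw [h3]; exact h2

theorem snc_map_eq (η : S ≃* S') :
    (stableNormalClosure p S).map η.toMonoidHom = stableNormalClosure p S' := by
  apply le_antisymm (snc_map_le η)
  have h1 := snc_map_le (p := p) η.symm
  intro y hy
  exact ⟨η.symm y, h1 (Subgroup.mem_map_of_mem _ hy), by simp⟩

theorem ocT_map_normal [Finite S] [Fact p.Prime] {H : Type u} [Group H] (τ : S →* H)
    (hτ : IsStableEmbedding p τ) : ((omegaCenterThompson p S).map τ).Normal := by
  obtain ⟨hinj, -, -, -, hJn, -⟩ := hτ
  have hconj : ∀ h : H, ((omegaCenterThompson p S).map τ).map (MulAut.conj h).toMonoidHom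
      ≤ (omegaCenterThompson p S).map τ := by
    intro h
    unfold omegaCenterThompson omegaOne
    rw [MonoidHom.map_closure, MonoidHom.map_closure, Subgroup.closure_le]
    rintro _ ⟨_, ⟨x, ⟨hx, hxp⟩, rfl⟩, rfl⟩
    apply Subgroup.subset_closure
    obtain ⟨hxJ, hxC⟩ := Subgroup.mem_inf.mp hx
    have h1 : h * τ x * h⁻¹ ∈ (thompsonSubgroup p S).map τ :=
      hJn.conj_mem _ (Subgroup.mem_map_of_mem _ hxJ) h
    obtain ⟨y, hyJ, hy⟩ := h1
    refine ⟨y, ⟨Subgroup.mem_inf.mpr ⟨hyJ, ?_⟩, ?_⟩, ?_⟩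
    · rw [Subgroup.mem_centralizer_iff]
      intro j hj
      apply hinj
      rw [map_mul, map_mul, hy]
      have h2 : h⁻¹ * τ j * h⁻¹⁻¹ ∈ (thompsonSubgroup p S).map τ :=
        hJn.conj_mem _ (Subgroup.mem_map_of_mem _ hj) h⁻¹
      obtain ⟨j', hj', hjj⟩ := h2
      have h3 : τ j' * τ x = τ x * τ j' := by
        rw [← map_mul, ← map_mul, (Subgroup.mem_centralizer_iff.mp hxC) j' hj']
      rw [inv_inv] at hjj
      calc τ j * (h * τ x * h⁻¹) = h * ((h⁻¹ * τ j * h) * τ x) * h⁻¹ := by group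
        _ = h * (τ x * (h⁻¹ * τ j * h)) * h⁻¹ := by rw [← hjj, h3]
        _ = h * τ x * h⁻¹ * τ j := by group
    · apply hinj
      rw [map_pow, hy, conj_pow, ← map_pow, hxp, map_one, mul_one, mul_inv_cancel]
    · rw [hy]; simp [MulAut.conj_apply]
  constructor
  intro n hn h
  apply hconj h
  exact ⟨n, hn, by simp [MulAut.conj_apply]⟩

end

/-- Basic properties of the stable normal closure W(S) of Ω₁(Z(S)) in a finite p-group: characteristic, squeezed between Ω₁(Z(S)) and Ω₁(Z(J(S))), nontrivial for S ≠ 1, and transported by group isomorphisms. -/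
theorem result {S : Type u} [Group S] [Finite S] {p : ℕ} [Fact p.Prime] (hS : IsPGroup p S) : (Cfsg.stableNormalClosure p S).Characteristic ∧ Cfsg.omegaOne p (Subgroup.center S) ≤ Cfsg.stableNormalClosure p S ∧ Cfsg.stableNormalClosure p S ≤ Cfsg.omegaCenterThompson p S ∧ (Nontrivial S → Cfsg.stableNormalClosure p S ≠ ⊥) ∧ ∀ (S' : Type u) [Group S'] (η : S ≃* S'), (Cfsg.stableNormalClosure p S).map η.toMonoidHom = Cfsg.stableNormalClosure p S' := by
  classical
  have hpp : p.Prime := Fact.out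
  have h2 : Cfsg.omegaOne p (Subgroup.center S) ≤ Cfsg.stableNormalClosure p S := by
    unfold Cfsg.stableNormalClosure
    exact le_sInf (fun W hW => hW.1)
  refine ⟨?_, h2, ?_, ?_, ?_⟩
  · exact Subgroup.characteristic_iff_map_eq.mpr (fun ϕ => snc_map_eq ϕ)
  · unfold Cfsg.stableNormalClosure
    apply sInf_le
    refine ⟨?_, fun H _ τ hτ => ocT_map_normal τ hτ⟩
    unfold Cfsg.omegaCenterThompson Cfsg.omegaOne
    apply Subgroup.closure_mono
    rintro x ⟨hxc, hxp⟩
    have hxC : x ∈ Subgroup.centralizer (Cfsg.thompsonSubgroup p S : Set S) :=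
      Subgroup.center_le_centralizer _ hxc
    refine ⟨Subgroup.mem_inf.mpr ⟨?_, hxC⟩, hxp⟩
    by_cases hx1 : x = 1
    · rw [hx1]; exact Subgroup.one_mem _
    · exact Cfsg.Agent.S0605.result x hxC (orderOf_eq_prime hxp hx1)
  · intro hnt hbot
    have hc : ⊥ < Subgroup.center S := hS.bot_lt_center
    have hZp : IsPGroup p (Subgroup.center S) := hS.to_subgroup _
    obtain ⟨k, hk⟩ := IsPGroup.iff_card.mp hZp
    have hk1 : k ≠ 0 := by
      rintro rfl
      rw [pow_zero, Subgroup.card_eq_one] at hk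
      exact (ne_of_gt hc) hk
    have hdvd : p ∣ Nat.card (Subgroup.center S) := by rw [hk]; exact dvd_pow_self p hk1
    obtain ⟨x, hx⟩ := exists_prime_orderOf_dvd_card' p hdvd
    have hxp : (x : S) ^ p = 1 := by
      have h3 := pow_orderOf_eq_one x
      rw [hx] at h3
      have h4 := congrArg Subtype.val h3
      simpa using h4
    have hx1 : (x : S) ≠ 1 := by
      intro h
      have h5 : x = 1 := Subtype.ext h
      rw [h5, orderOf_one] at hx
      exact hpp.one_lt.ne hx
    have hmem : (x : S) ∈ Cfsg.stableNormalClosure p S :=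
      h2 (Subgroup.subset_closure ⟨x.2, hxp⟩)
    rw [hbot, Subgroup.mem_bot] at hmem
    exact hx1 hmem
  · intro S' _ η
    exact snc_map_eq η

end Cfsg.Agent.S0622
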