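import Mathlib
import Cfsg.Statements.S0623
import Cfsg.Agent.Lib.Helper4.Thompson
import Cfsg.Agent.Lib.Helper9.Cores

set_option autoImplicit false
open Cfsg

open scoped commutatorElement

namespace Cfsg.Agent.S0623

universe u

/-- the family of subgroups whose infimum is the stable normal closure -/
def fam (p : ℕ) (S : Type u) [Group S] : Set (Subgroup S) :=
  {W : Subgroup S | omegaOne p (Subgroup.center S) ≤ W ∧
    ∀ (H : Type u) [Group H] (τ : S →* H), IsStableEmbedding p τ → (W.map τ).Normal}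

theorem snc_eq (p : ℕ) (S : Type u) [Group S] : stableNormalClosure p S = sInf (fam p S) := rfl

theorem mem_fam_iff {p : ℕ} {S : Type u} [Group S] {W : Subgroup S} : W ∈ fam p S ↔
    (omegaOne p (Subgroup.center S) ≤ W ∧
    ∀ (H : Type u) [Group H] (τ : S →* H), IsStableEmbedding p τ → (W.map τ).Normal) := Iff.rfl

/-- elementwise form of quadratic action -/
def Quad {G : Type*} [Group G] (V : Subgroup G) (a : G) : Prop :=
  ∀ v ∈ V, ∀ i : ℤ, a * ⁅v, a ^ i⁆ = ⁅v, a ^ i⁆ * a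

theorem quad_iff {G : Type*} [Group G] (V : Subgroup G) (a : G) :
    ⁅⁅V, Subgroup.zpowers a⁆, Subgroup.zpowers a⁆ = ⊥ ↔ Quad V a := by
  rw [Subgroup.commutator_eq_bot_iff_le_centralizer, Subgroup.commutator_le]
  constructor
  · intro h v hv i
    have h1 := h v hv (a ^ i) (Subgroup.zpow_mem_zpowers a i)
    rw [Subgroup.mem_centralizer_iff] at h1
    exact h1 a (Subgroup.mem_zpowers a)
  · intro h v hv g hg
    obtain ⟨i, rfl⟩ := Subgroup.mem_zpowers_iff.mp hg
    rw [Subgroup.mem_centralizer_iff]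
    intro y hy
    obtain ⟨j, rfl⟩ := Subgroup.mem_zpowers_iff.mp hy
    have hc : Commute a ⁅v, a ^ i⁆ := h v hv i
    exact (hc.zpow_left j).eq

theorem quad_map {S H : Type*} [Group S] [Group H] (τ : S →* H) (hτ : Function.Injective τ)
    (W : Subgroup S) (x : S) : Quad (W.map τ) (τ x) ↔ Quad W x := by
  constructor
  · intro h w hw i
    have h1 := h (τ w) (Subgroup.mem_map_of_mem τ hw) i
    apply hτ
    rw [map_mul, map_mul, map_commutatorElement, map_zpow]
    exact h1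
  · rintro h _ ⟨w, hw, rfl⟩ i
    have h1 := h w hw i
    rw [← map_zpow, ← map_commutatorElement, ← map_mul, ← map_mul, h1]

theorem quad_conj {G : Type*} [Group G] {V : Subgroup G} (hV : V.Normal) {a : G} (g : G)
    (h : Quad V a) : Quad V (g * a * g⁻¹) := by
  intro v hv i
  have hv' : g⁻¹ * v * g ∈ V := by
    have := hV.conj_mem v hv g⁻¹
    simpa using this
  have h1 := h _ hv' i
  have h2 : ⁅v, (g * a * g⁻¹) ^ i⁆ = g * ⁅g⁻¹ * v * g, a ^ i⁆ * g⁻¹ := by
    rw [conj_zpow]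
    generalize a ^ i = b
    simp only [commutatorElement_def]
    group
  rw [h2]
  generalize ⁅g⁻¹ * v * g, a ^ i⁆ = c at h1
  calc g * a * g⁻¹ * (g * c * g⁻¹) = g * (a * c) * g⁻¹ := by group
    _ = g * (c * a) * g⁻¹ := by rw [h1]
    _ = g * c * g⁻¹ * (g * a * g⁻¹) := by group

theorem quad_mul_cent {G : Type*} [Group G] {V : Subgroup G} (hV : V.Normal) {h c : G}
    (hq : Quad V h) (hc : c ∈ Subgroup.centralizer (V : Set G)) : Quad V (h * c) := by
  haveI := hV
  haveI hCn : (Subgroup.centralizer (V : Set G)).Normal := inferInstance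
  intro v hv i
  have hd : (h ^ i)⁻¹ * (h * c) ^ i ∈ Subgroup.centralizer (V : Set G) := by
    have h1 : ((QuotientGroup.mk' (Subgroup.centralizer (V : Set G))) ((h ^ i)⁻¹ * (h * c) ^ i)) = 1 := by
      have hc1 : (QuotientGroup.mk' (Subgroup.centralizer (V : Set G))) c = 1 :=
        (QuotientGroup.eq_one_iff c).mpr hc
      rw [map_mul, map_inv, map_zpow, map_zpow, map_mul, hc1, mul_one, inv_mul_cancel]
    exact (QuotientGroup.eq_one_iff _).mp h1
  obtain ⟨d, hdd⟩ : ∃ d, d = (h ^ i)⁻¹ * (h * c) ^ i := ⟨_, rfl⟩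
  rw [← hdd] at hd
  have he : (h * c) ^ i = h ^ i * d := by rw [hdd, mul_inv_cancel_left]
  have hcomm : ⁅v, (h * c) ^ i⁆ = ⁅v, h ^ i⁆ := by
    rw [he]
    have hdv : v⁻¹ * d = d * v⁻¹ := (Subgroup.mem_centralizer_iff.mp hd) v⁻¹ (V.inv_mem hv)
    generalize h ^ i = k
    simp only [commutatorElement_def]
    calc v * (k * d) * v⁻¹ * (k * d)⁻¹ = v * k * (d * v⁻¹) * d⁻¹ * k⁻¹ := by group
      _ = v * k * (v⁻¹ * d) * d⁻¹ * k⁻¹ := by rw [hdv]
      _ = v * k * v⁻¹ * k⁻¹ := by group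
  rw [hcomm]
  have hu : ⁅v, h ^ i⁆ ∈ V := by
    rw [commutatorElement_def]
    have h2 := hV.conj_mem v⁻¹ (V.inv_mem hv) (h ^ i)
    generalize h ^ i = k at h2 ⊢
    have h3 : v * k * v⁻¹ * k⁻¹ = v * (k * v⁻¹ * k⁻¹) := by group
    rw [h3]
    exact V.mul_mem hv h2
  have hcu : ⁅v, h ^ i⁆ * c = c * ⁅v, h ^ i⁆ := (Subgroup.mem_centralizer_iff.mp hc) _ hu
  have hhu := hq v hv i
  generalize ⁅v, h ^ i⁆ = u at hcu hhu
  calc h * c * u = h * (c * u) := by group
    _ = h * (u * c) := by rw [hcu]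
    _ = (h * u) * c := by group
    _ = u * h * c := by rw [hhu]
    _ = u * (h * c) := by group

theorem center_mem_max {S : Type u} [Group S] [Finite S] {p : ℕ} {A : Subgroup S}
    (hA : A ∈ maxElementaryAbelianSubgroups p S) {z : S} (hz : z ∈ Subgroup.center S)
    (hzp : z ^ p = 1) : z ∈ A := by
  have h1 : IsElementaryAbelian p (A ⊔ Subgroup.zpowers z) := by
    apply Cfsg.Agent.Lib.Helper4.Thompson.elab_sup hA.1
      (Cfsg.Agent.Lib.Helper4.Thompson.elab_zpowers hzp)
    intro a _ b hb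
    obtain ⟨k, rfl⟩ := Subgroup.mem_zpowers_iff.mp hb
    have hc : Commute z a := (Subgroup.mem_center_iff.mp hz a).symm
    exact ((hc.zpow_left k).eq).symm
  have h2 := hA.2 _ h1
  have h3 : A ⊔ Subgroup.zpowers z = A := by
    symm
    exact Subgroup.eq_of_le_of_card_ge le_sup_left h2
  rw [← h3]
  exact (le_sup_right : Subgroup.zpowers z ≤ A ⊔ Subgroup.zpowers z) (Subgroup.mem_zpowers z)

theorem mem_omegaCT {S : Type u} [Group S] {p : ℕ} {z : S} (h1 : z ∈ thompsonSubgroup p S)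
    (h2 : z ∈ Subgroup.centralizer (thompsonSubgroup p S : Set S)) (h3 : z ^ p = 1) :
    z ∈ omegaCenterThompson p S :=
  Subgroup.subset_closure ⟨Subgroup.mem_inf.mpr ⟨h1, h2⟩, h3⟩

theorem omega_center_le {S : Type u} [Group S] [Finite S] (p : ℕ) :
    omegaOne p (Subgroup.center S) ≤ omegaCenterThompson p S := by
  unfold omegaOne
  rw [Subgroup.closure_le]
  rintro z ⟨hz, hzp⟩
  obtain ⟨A, hA⟩ := Cfsg.Agent.Lib.Helper4.Thompson.exists_mem_max (G := S) (p := p)
  exact mem_omegaCT (Cfsg.Agent.Lib.Helper4.Thompson.le_thompson hA (center_mem_max hA hz hzp))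
    (Subgroup.center_le_centralizer _ hz) hzp

theorem omega_map_normal {S H : Type u} [Group S] [Group H] (p : ℕ) (τ : S →* H)
    (hτ : Function.Injective τ) (hJ : ((thompsonSubgroup p S).map τ).Normal) :
    ((omegaCenterThompson p S).map τ).Normal := by
  constructor
  intro n hn g
  obtain ⟨w, hw, rfl⟩ := hn
  have hw' : w ∈ Subgroup.closure {x : S | x ∈ thompsonSubgroup p S ⊓
      Subgroup.centralizer (thompsonSubgroup p S : Set S) ∧ x ^ p = 1} := hw
  induction hw' using Subgroup.closure_induction with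
  | mem z hz =>
    obtain ⟨hzJC, hzp⟩ := hz
    obtain ⟨hzJ, hzC⟩ := Subgroup.mem_inf.mp hzJC
    obtain ⟨y, hyJ, hy⟩ := hJ.conj_mem _ (Subgroup.mem_map_of_mem τ hzJ) g
    rw [← hy]
    apply Subgroup.mem_map_of_mem
    apply mem_omegaCT hyJ
    · rw [Subgroup.mem_centralizer_iff]
      intro j hj
      have h2 : g⁻¹ * τ j * g ∈ (thompsonSubgroup p S).map τ := by
        have := hJ.conj_mem _ (Subgroup.mem_map_of_mem τ hj) g⁻¹
        simpa using this
      obtain ⟨j', hj', hjj⟩ := h2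
      have h3 : j' * z = z * j' := (Subgroup.mem_centralizer_iff.mp hzC) j' hj'
      apply hτ
      rw [map_mul, map_mul, hy]
      have h4 : τ j = g * τ j' * g⁻¹ := by
        rw [hjj]
        group
      rw [h4]
      have h5 : τ j' * τ z = τ z * τ j' := by rw [← map_mul, ← map_mul, h3]
      calc g * τ j' * g⁻¹ * (g * τ z * g⁻¹) = g * (τ j' * τ z) * g⁻¹ := by group
        _ = g * (τ z * τ j') * g⁻¹ := by rw [h5]
        _ = g * τ z * g⁻¹ * (g * τ j' * g⁻¹) := by group
    · apply hτ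
      rw [map_pow, hy, map_one, conj_pow, ← map_pow, hzp, map_one]
      simp
  | one =>
    have h1 : g * τ 1 * g⁻¹ = 1 := by simp
    rw [h1]
    exact Subgroup.one_mem _
  | mul a b ha hb iha ihb =>
    have h1 : g * τ (a * b) * g⁻¹ = (g * τ a * g⁻¹) * (g * τ b * g⁻¹) := by
      rw [map_mul]
      group
    rw [h1]
    exact Subgroup.mul_mem _ (iha (Subgroup.closure_le _ |>.mpr (fun _ h => Subgroup.subset_closure h) ha))
      (ihb (Subgroup.closure_le _ |>.mpr (fun _ h => Subgroup.subset_closure h) hb))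
  | inv a ha ih =>
    have h1 : g * τ a⁻¹ * g⁻¹ = (g * τ a * g⁻¹)⁻¹ := by
      rw [map_inv]
      group
    rw [h1]
    exact Subgroup.inv_mem _ (ih (Subgroup.closure_le _ |>.mpr (fun _ h => Subgroup.subset_closure h) ha))

theorem omega_mem_fam {S : Type u} [Group S] [Finite S] (p : ℕ) :
    omegaCenterThompson p S ∈ fam p S := by
  refine mem_fam_iff.mpr ⟨omega_center_le p, ?_⟩
  intro H _ τ hτ
  exact omega_map_normal p τ hτ.1 hτ.2.2.2.2.1

theorem snc_map_normal {S H : Type u} [Group S] [Finite S] [Group H] (p : ℕ) (τ : S →* H)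
    (hτ : IsStableEmbedding p τ) : ((stableNormalClosure p S).map τ).Normal := by
  constructor
  intro n hn g
  obtain ⟨w, hw, rfl⟩ := hn
  have hw1 : w ∈ sInf (fam p S) := hw
  have h0 := ((mem_fam_iff.mp (omega_mem_fam (S := S) p)).2 H τ hτ).conj_mem _
    (Subgroup.mem_map_of_mem τ (Subgroup.mem_sInf.mp hw1 _ (omega_mem_fam p))) g
  obtain ⟨w', hw', hww⟩ := h0
  have hw2 : w' ∈ sInf (fam p S) := by
    rw [Subgroup.mem_sInf]
    intro W' hW'
    have h1 := ((mem_fam_iff.mp hW').2 H τ hτ).conj_mem _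
      (Subgroup.mem_map_of_mem τ (Subgroup.mem_sInf.mp hw1 W' hW')) g
    obtain ⟨w'', hw'', hww'⟩ := h1
    have h2 : w'' = w' := hτ.1 (hww'.trans hww.symm)
    rw [← h2]
    exact hw''
  exact ⟨w', hw2, hww⟩

theorem exists_sylow_mul {H : Type u} [Group H] [Finite H] {p : ℕ} [Fact p.Prime] (P : Sylow p H)
    (N : Subgroup H) [N.Normal] {h : H}
    (hh : (QuotientGroup.mk h : H ⧸ N) ∈ pCore p (H ⧸ N)) : ∃ s ∈ P, ∃ c ∈ N, h = s * c := by
  have hp : IsPGroup p (pCore p (H ⧸ N)) := Cfsg.Agent.Lib.Helper9.pCore_isPGroup p (H ⧸ N)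
  haveI hchar : (pCore p (H ⧸ N)).Characteristic :=
    Cfsg.Agent.Lib.Helper9.pCore_characteristic p (H ⧸ N)
  haveI hn : (pCore p (H ⧸ N)).Normal := inferInstance
  have hP' : IsPGroup p ((P : Subgroup H).map (QuotientGroup.mk' N)) := P.2.map _
  have hsup : IsPGroup p (pCore p (H ⧸ N) ⊔ (P : Subgroup H).map (QuotientGroup.mk' N) :
      Subgroup (H ⧸ N)) := IsPGroup.to_sup_of_normal_left hp hP'
  have hmax := (P.mapSurjective (QuotientGroup.mk'_surjective N)).is_maximal' hsup le_sup_right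
  have hle : pCore p (H ⧸ N) ≤ (P : Subgroup H).map (QuotientGroup.mk' N) :=
    le_sup_left.trans (le_of_eq hmax)
  obtain ⟨s, hs, hsh⟩ := hle hh
  refine ⟨s, hs, s⁻¹ * h, ?_, by group⟩
  exact QuotientGroup.eq.mp hsh

theorem key {S : Type u} [Group S] [Finite S] {p : ℕ} [Fact p.Prime] :
    stableNormalClosure p S ⊓ Subgroup.centralizer {y : S | Quad (stableNormalClosure p S) y} ∈
      fam p S := by
  obtain ⟨W, hW⟩ : ∃ W : Subgroup S, W = stableNormalClosure p S := ⟨_, rfl⟩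
  rw [← hW]
  refine mem_fam_iff.mpr ⟨le_inf ?_ ?_, ?_⟩
  · rw [hW, snc_eq]
    apply le_sInf
    intro W' hW'
    exact (mem_fam_iff.mp hW').1
  · have h1 : omegaOne p (Subgroup.center S) ≤ Subgroup.center S := by
      unfold omegaOne
      rw [Subgroup.closure_le]
      rintro z ⟨hz, -⟩
      exact hz
    exact h1.trans (Subgroup.center_le_centralizer _)
  · intro H _ τ hτ
    obtain ⟨hinj, hfin, ⟨P, hP⟩, -, -, hstab⟩ := id hτ
    haveI := hfin
    haveI hVn : (W.map τ).Normal := by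
      rw [hW]
      exact snc_map_normal p τ hτ
    have hVle : W.map τ ≤ (omegaCenterThompson p S).map τ := by
      apply Subgroup.map_mono
      rw [hW, snc_eq]
      exact sInf_le (omega_mem_fam p)
    have hps : IsPStableOn p (W.map τ) := hstab (W.map τ) hVle
    constructor
    intro n hn g
    obtain ⟨w, hw, rfl⟩ := hn
    obtain ⟨hwW, hwC⟩ := Subgroup.mem_inf.mp hw
    obtain ⟨w', hw', hww⟩ := hVn.conj_mem _ (Subgroup.mem_map_of_mem τ hwW) g
    refine ⟨w', Subgroup.mem_inf.mpr ⟨hw', ?_⟩, hww⟩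
    rw [Subgroup.mem_centralizer_iff]
    intro y hy
    have hy' : Quad W y := hy
    have h1 : Quad (W.map τ) (τ y) := (quad_map τ hinj W y).mpr hy'
    have h2 : Quad (W.map τ) (g⁻¹ * τ y * g⁻¹⁻¹) := quad_conj hVn g⁻¹ h1
    have h3 := hps _ ((quad_iff _ _).mpr h2)
    obtain ⟨s, hs, c, hc, hsc⟩ := exists_sylow_mul P _ h3
    have hs' : s ∈ τ.range := by
      rw [← hP]
      exact hs
    obtain ⟨y', rfl⟩ := hs'
    have h4 : τ y' = g⁻¹ * τ y * g⁻¹⁻¹ * c⁻¹ := by
      rw [hsc]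
      group
    have h5 : Quad (W.map τ) (τ y') := by
      rw [h4]
      exact quad_mul_cent hVn h2 (Subgroup.inv_mem _ hc)
    have h6 : Quad W y' := (quad_map τ hinj W y').mp h5
    have h7 : y' * w = w * y' := (Subgroup.mem_centralizer_iff.mp hwC) y' h6
    have h8 : c * τ w = τ w * c :=
      ((Subgroup.mem_centralizer_iff.mp hc) (τ w) (Subgroup.mem_map_of_mem τ hwW)).symm
    apply hinj
    rw [map_mul, map_mul, hww]
    have h9 : τ y' * τ w = τ w * τ y' := by rw [← map_mul, ← map_mul, h7]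
    have h10 : (g⁻¹ * τ y * g⁻¹⁻¹) * τ w = τ w * (g⁻¹ * τ y * g⁻¹⁻¹) := by
      rw [hsc]
      calc τ y' * c * τ w = τ y' * (c * τ w) := by group
        _ = τ y' * (τ w * c) := by rw [h8]
        _ = (τ y' * τ w) * c := by group
        _ = τ w * τ y' * c := by rw [h9]
        _ = τ w * (τ y' * c) := by group
    calc τ y * (g * τ w * g⁻¹) = g * ((g⁻¹ * τ y * g⁻¹⁻¹) * τ w) * g⁻¹ := by group
      _ = g * (τ w * (g⁻¹ * τ y * g⁻¹⁻¹)) * g⁻¹ := by rw [h10]
      _ = g * τ w * g⁻¹ * τ y := by group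

/-- No element of a finite p-group acts quadratically and nontrivially on the stable normal closure W(S). -/
theorem result {S : Type*} [Group S] [Finite S] {p : ℕ} [Fact p.Prime] (hS : IsPGroup p S) (x : S) (hq : ⁅⁅Cfsg.stableNormalClosure p S, Subgroup.zpowers x⁆, Subgroup.zpowers x⁆ = ⊥) : ⁅Cfsg.stableNormalClosure p S, Subgroup.zpowers x⁆ = ⊥ := by
  rw [Subgroup.commutator_eq_bot_iff_le_centralizer]
  have hx : Quad (stableNormalClosure p S) x := (quad_iff _ _).mp hq
  have hle : stableNormalClosure p S ≤ stableNormalClosure p S ⊓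
      Subgroup.centralizer {y : S | Quad (stableNormalClosure p S) y} := by
    conv_lhs => rw [snc_eq]
    exact sInf_le key
  intro w hw
  have hwc := (Subgroup.mem_inf.mp (hle hw)).2
  rw [Subgroup.mem_centralizer_iff] at hwc ⊢
  intro y hy
  obtain ⟨j, rfl⟩ := Subgroup.mem_zpowers_iff.mp hy
  have h1 : x * w = w * x := hwc x hx
  have hc : Commute x w := h1
  exact (hc.zpow_left j).eq

end Cfsg.Agent.S0623
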