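import Mathlib
import Cfsg.Statements.S0624
import Cfsg.Agent.S0623
import Cfsg.Agent.S0607
import Cfsg.Agent.S0029
import Cfsg.Agent.Lib.Helper4.Thompson
import Cfsg.Agent.Lib.Helper4.Thompson2
import Cfsg.Agent.Lib.Helper4.Card
import Cfsg.Agent.Lib.Helper9.Cores
import Cfsg.Agent.Lib.Helper16.PClosed

set_option autoImplicit false
open Cfsg

open scoped commutatorElement

namespace Cfsg.Agent.S0624

universe u

open Cfsg.Agent.S0623 (Quad quad_iff quad_map quad_conj quad_mul_cent snc_map_normal omega_mem_fam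
  snc_eq exists_sylow_mul)

/-- `W(S)` of a subgroup `S`, viewed inside the ambient group -/
def WS {G : Type u} [Group G] (p : ℕ) (S : Subgroup G) : Subgroup G :=
  (stableNormalClosure p ↥S).map S.subtype

theorem pCore_le_sylow {G : Type u} [Group G] [Finite G] {p : ℕ} [Fact p.Prime] (S : Sylow p G) :
    pCore p G ≤ (S : Subgroup G) := by
  have hp : IsPGroup p (pCore p G) := Cfsg.Agent.Lib.Helper9.pCore_isPGroup p G
  haveI hn : (pCore p G).Normal := inferInstance
  have hsup : IsPGroup p (pCore p G ⊔ (S : Subgroup G) : Subgroup G) :=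
    IsPGroup.to_sup_of_normal_left hp S.isPGroup'
  have hmax := S.is_maximal' hsup le_sup_right
  exact le_sup_left.trans (le_of_eq hmax)

theorem omegaCT_comm {S : Type u} [Group S] (p : ℕ) :
    ∀ x ∈ omegaCenterThompson p S, ∀ y ∈ omegaCenterThompson p S, x * y = y * x := by
  have hle : omegaCenterThompson p S ≤ thompsonSubgroup p S ⊓
      Subgroup.centralizer (thompsonSubgroup p S : Set S) := by
    unfold omegaCenterThompson omegaOne
    rw [Subgroup.closure_le]
    rintro z ⟨hz, -⟩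
    exact hz
  intro x hx y hy
  have hx' := hle hx
  have hy' := hle hy
  exact (Subgroup.mem_centralizer_iff.mp (Subgroup.mem_inf.mp hy').2) x (Subgroup.mem_inf.mp hx').1

theorem omegaCT_pow {S : Type u} [Group S] (p : ℕ) :
    ∀ x ∈ omegaCenterThompson p S, x ^ p = 1 := by
  intro x hx
  have hx' : x ∈ Subgroup.closure {x : S | x ∈ thompsonSubgroup p S ⊓
      Subgroup.centralizer (thompsonSubgroup p S : Set S) ∧ x ^ p = 1} := hx
  clear hx
  induction hx' using Subgroup.closure_induction with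
  | mem z hz => exact hz.2
  | one => exact one_pow p
  | mul a b ha hb iha ihb =>
    have hc : Commute a b := omegaCT_comm p a ha b hb
    rw [hc.mul_pow, iha, ihb, one_mul]
  | inv a ha ih => rw [inv_pow, ih, inv_one]

theorem snc_le_omegaCT {S : Type u} [Group S] [Finite S] (p : ℕ) :
    stableNormalClosure p S ≤ omegaCenterThompson p S := by
  rw [snc_eq]; exact sInf_le (omega_mem_fam p)

theorem WS_comm {G : Type u} [Group G] [Finite G] (p : ℕ) (S : Subgroup G) :
    ∀ x ∈ WS p S, ∀ y ∈ WS p S, x * y = y * x := by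
  rintro _ ⟨x, hx, rfl⟩ _ ⟨y, hy, rfl⟩
  have h := omegaCT_comm p x (snc_le_omegaCT p hx) y (snc_le_omegaCT p hy)
  rw [← map_mul, ← map_mul, h]

theorem WS_pow {G : Type u} [Group G] [Finite G] (p : ℕ) (S : Subgroup G) :
    ∀ x ∈ WS p S, x ^ p = 1 := by
  rintro _ ⟨x, hx, rfl⟩
  rw [← map_pow, omegaCT_pow p x (snc_le_omegaCT p hx), map_one]

theorem sylow_le_normalizer_J {G : Type u} [Group G] {p : ℕ} (S : Sylow p G) :
    (S : Subgroup G) ≤ Subgroup.normalizer (thompsonSubgroupOf p (S : Subgroup G) : Set G) :=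
  Subgroup.le_normalizer.trans
    (Cfsg.Agent.Lib.Helper4.Thompson2.normalizer_le_normalizer_thompsonSubgroupOf (S : Subgroup G))

theorem stable_incl {G : Type u} [Group G] [Finite G] {p : ℕ} [Fact p.Prime]
    (hst : IsActionPStable p G)
    (hc : Subgroup.centralizer (pCore p G : Set G) ≤ pCore p G) (S : Sylow p G)
    (hSN : (S : Subgroup G) ≤
      Subgroup.normalizer (thompsonSubgroupOf p (S : Subgroup G) : Set G)) :
    IsStableEmbedding p (Subgroup.inclusion hSN) := by
  unfold IsStableEmbedding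
  refine ⟨Subgroup.inclusion_injective hSN, inferInstance, ⟨S.subtype hSN, ?_⟩, ?_, ?_, ?_⟩
  · rw [Sylow.coe_subtype, Subgroup.inclusion_range]
  · intro c hcN
    have hPn : (pCore p G).Normal := inferInstance
    have hle : (pCore p G).subgroupOf
          (Subgroup.normalizer (thompsonSubgroupOf p (S : Subgroup G) : Set G))
        ≤ pCore p ↥(Subgroup.normalizer (thompsonSubgroupOf p (S : Subgroup G) : Set G)) :=
      Cfsg.Agent.Lib.Helper9.le_pCore (hPn.subgroupOf _)
        ((Cfsg.Agent.Lib.Helper9.pCore_isPGroup p G).comap_subtype)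
    apply hle
    rw [Subgroup.mem_subgroupOf]
    apply hc
    rw [Subgroup.mem_centralizer_iff]
    intro x hx
    have hxN : x ∈ Subgroup.normalizer (thompsonSubgroupOf p (S : Subgroup G) : Set G) :=
      hSN (pCore_le_sylow S hx)
    have h1 := (Subgroup.mem_centralizer_iff.mp hcN) ⟨x, hxN⟩
      (hle (Subgroup.mem_subgroupOf.mpr hx))
    exact congrArg Subtype.val h1
  · constructor
    intro y hy n
    obtain ⟨x, hx, rfl⟩ := hy
    have hn := n.2
    have h1 : (x : G) ∈ thompsonSubgroupOf p (S : Subgroup G) := Subgroup.mem_map_of_mem _ hx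
    have h2 : (n : G) * (x : G) * (n : G)⁻¹ ∈ thompsonSubgroupOf p (S : Subgroup G) :=
      (Subgroup.mem_normalizer_iff.mp hn (x : G)).mp h1
    obtain ⟨y, hy, hyx⟩ := h2
    refine ⟨y, hy, ?_⟩
    apply Subtype.ext
    show (y : G) = (n : G) * (x : G) * (n : G)⁻¹
    exact hyx
  · intro V hVn hVle
    haveI := hVn
    apply hst.2.2 S V
    calc V.map (Subgroup.normalizer (thompsonSubgroupOf p (S : Subgroup G) : Set G)).subtype
        ≤ ((omegaCenterThompson p ↥(S : Subgroup G)).map (Subgroup.inclusion hSN)).map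
            (Subgroup.normalizer (thompsonSubgroupOf p (S : Subgroup G) : Set G)).subtype :=
          Subgroup.map_mono hVle
      _ = (omegaCenterThompson p ↥(S : Subgroup G)).map (S : Subgroup G).subtype := by
          rw [Subgroup.map_map, Subgroup.subtype_comp_inclusion]

theorem WS_conj_normalizer {G : Type u} [Group G] [Finite G] {p : ℕ} [Fact p.Prime]
    (hst : IsActionPStable p G)
    (hc : Subgroup.centralizer (pCore p G : Set G) ≤ pCore p G) (S : Sylow p G) :
    ∀ n ∈ Subgroup.normalizer (thompsonSubgroupOf p (S : Subgroup G) : Set G),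
      ∀ w ∈ WS p (S : Subgroup G), n * w * n⁻¹ ∈ WS p (S : Subgroup G) := by
  have hSN := sylow_le_normalizer_J S
  have hnor := snc_map_normal p (Subgroup.inclusion hSN) (stable_incl hst hc S hSN)
  intro n hn w hw
  obtain ⟨w₀, hw₀, rfl⟩ := hw
  have h1 := hnor.conj_mem _ (Subgroup.mem_map_of_mem (Subgroup.inclusion hSN) hw₀) ⟨n, hn⟩
  obtain ⟨w₁, hw₁, h2⟩ := h1
  refine ⟨w₁, hw₁, ?_⟩
  have h3 := congrArg Subtype.val h2
  exact h3

theorem sectionKernel_isPGroup {G : Type u} [Group G] [Finite G] {p : ℕ} [Fact p.Prime]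
    (hc : Subgroup.centralizer (pCore p G : Set G) ≤ pCore p G)
    (Φ : Subgroup G) [Φ.Normal] (hΦ : Φ = (frattini ↥(pCore p G)).map (pCore p G).subtype) :
    IsPGroup p ↥(sectionKernel (pCore p G) Φ) := by
  have hPp : IsPGroup p (pCore p G) := Cfsg.Agent.Lib.Helper9.pCore_isPGroup p G
  have hPn : (pCore p G).Normal := inferInstance
  have hp := (Fact.out : p.Prime)
  rintro ⟨g, hg⟩
  have ho : orderOf g ≠ 0 := (orderOf_pos g).ne'
  obtain ⟨e, m, hm, hom⟩ := Nat.exists_eq_pow_mul_and_not_dvd ho p hp.ne_one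
  refine ⟨e, ?_⟩
  apply Subtype.ext
  show g ^ (p ^ e) = 1
  obtain ⟨h, hh⟩ : ∃ h, h = g ^ (p ^ e) := ⟨_, rfl⟩
  rw [← hh]
  have hhC : h ∈ sectionKernel (pCore p G) Φ := by rw [hh]; exact Subgroup.pow_mem _ hg _
  have hhm : h ^ m = 1 := by rw [hh, ← pow_mul, ← hom, pow_orderOf_eq_one]
  have hcop : (orderOf h).Coprime p := by
    have h1 : orderOf h ∣ m := orderOf_dvd_of_pow_eq_one hhm
    have h2 : Nat.Coprime m p := ((Nat.Prime.coprime_iff_not_dvd hp).mpr hm).symm
    exact Nat.Coprime.coprime_dvd_left h1 h2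
  have hA : Subgroup.zpowers h ≤ Subgroup.centralizer (pCore p G : Set G) := by
    apply Cfsg.Agent.S0029.result (Subgroup.zpowers h) (pCore p G)
    · intro x _
      rw [Subgroup.mem_normalizer_iff]
      intro y
      constructor
      · intro hy
        exact hPn.conj_mem y hy x
      · intro hy
        have h3 := hPn.conj_mem _ hy x⁻¹
        simpa [mul_assoc] using h3
    · obtain ⟨j, hj⟩ := (hPp.to_subgroup (frattini ↥(pCore p G))).exists_card_eq
      rw [hj, Nat.card_zpowers]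
      exact Nat.Coprime.pow_right j hcop
    · intro a ha k hk
      have haC : a ∈ sectionKernel (pCore p G) Φ := by
        obtain ⟨i, rfl⟩ := Subgroup.mem_zpowers_iff.mp ha
        exact Subgroup.zpow_mem _ hhC i
      rw [← hΦ]
      have h1 : (QuotientGroup.mk' Φ) a ∈ Subgroup.centralizer
          (((pCore p G).map (QuotientGroup.mk' Φ) : Subgroup (G ⧸ Φ)) : Set (G ⧸ Φ)) := haC
      have h2 := (Subgroup.mem_centralizer_iff.mp h1) _
        (Subgroup.mem_map_of_mem (QuotientGroup.mk' Φ) hk)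
      have h3 : (QuotientGroup.mk' Φ) (a * k * a⁻¹ * k⁻¹) = 1 := by
        rw [map_mul, map_mul, map_mul, map_inv, map_inv, ← h2, mul_inv_cancel_right,
          mul_inv_cancel]
      exact (QuotientGroup.eq_one_iff _).mp h3
  have hhP : h ∈ pCore p G := hc (hA (Subgroup.mem_zpowers h))
  obtain ⟨j, hj⟩ := hPp ⟨h, hhP⟩
  have hj' : h ^ (p ^ j) = 1 := congrArg Subtype.val hj
  have h1 : orderOf h ∣ p ^ j := orderOf_dvd_of_pow_eq_one hj'
  have h2 : orderOf h = 1 := Nat.Coprime.eq_one_of_dvd (Nat.Coprime.pow_right j hcop) h1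
  exact orderOf_eq_one_iff.mp h2

theorem WS_le_pCore {G : Type u} [Group G] [Finite G] {p : ℕ} [Fact p.Prime]
    (hst : IsActionPStable p G)
    (hc : Subgroup.centralizer (pCore p G : Set G) ≤ pCore p G) (S : Sylow p G) :
    WS p (S : Subgroup G) ≤ pCore p G := by
  intro a ha
  have hN := WS_conj_normalizer hst hc S
  have hSN := sylow_le_normalizer_J S
  have hquad : ⁅⁅pCore p G, Subgroup.zpowers a⁆, Subgroup.zpowers a⁆ = ⊥ := by
    rw [Subgroup.commutator_eq_bot_iff_le_centralizer, Subgroup.commutator_le]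
    intro x hx y hy
    obtain ⟨i, rfl⟩ := Subgroup.mem_zpowers_iff.mp hy
    rw [Subgroup.mem_centralizer_iff]
    intro z hz
    obtain ⟨j, rfl⟩ := Subgroup.mem_zpowers_iff.mp hz
    have hai : a ^ i ∈ WS p (S : Subgroup G) := Subgroup.zpow_mem _ ha i
    have haj : a ^ j ∈ WS p (S : Subgroup G) := Subgroup.zpow_mem _ ha j
    have hxN := hSN (pCore_le_sylow S hx)
    have h1 : ⁅x, a ^ i⁆ ∈ WS p (S : Subgroup G) := by
      rw [commutatorElement_def]
      exact Subgroup.mul_mem _ (hN x hxN _ hai) (Subgroup.inv_mem _ hai)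
    exact WS_comm p _ _ haj _ h1
  obtain ⟨D, hDn, hCD, ⟨k, hk⟩, haD⟩ := hst.2.1 a (hquad.le.trans bot_le)
  have hCp : IsPGroup p ↥(sectionKernel (pCore p G)
      ((frattini ↥(pCore p G)).map (pCore p G).subtype)) :=
    sectionKernel_isPGroup hc _ rfl
  obtain ⟨i, hi⟩ := hCp.exists_card_eq
  have hcard := Cfsg.Agent.Lib.Helper4.Card.card_eq_relIndex_mul_card_inf
    (sectionKernel (pCore p G) ((frattini ↥(pCore p G)).map (pCore p G).subtype)) D
  rw [inf_eq_left.mpr hCD, hk, hi, ← pow_add] at hcard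
  have hDp : IsPGroup p D := IsPGroup.of_card hcard
  exact Cfsg.Agent.Lib.Helper9.le_pCore hDn hDp haD

theorem WS_conj_comm {G : Type u} [Group G] [Finite G] {p : ℕ} [Fact p.Prime]
    (hst : IsActionPStable p G)
    (hc : Subgroup.centralizer (pCore p G : Set G) ≤ pCore p G) (S : Sylow p G) :
    ∀ x ∈ WS p (S : Subgroup G), ∀ g : G, ∀ w ∈ WS p (S : Subgroup G),
      (g⁻¹ * x * g) * w = w * (g⁻¹ * x * g) := by
  intro x hx g w hw
  have hN := WS_conj_normalizer hst hc S
  have hSN := sylow_le_normalizer_J S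
  have hWP := WS_le_pCore hst hc S
  have hPS := pCore_le_sylow S
  have hPn : (pCore p G).Normal := inferInstance
  have hx'P : g⁻¹ * x * g ∈ pCore p G := by
    have h := hPn.conj_mem x (hWP hx) g⁻¹
    simpa using h
  have hx'S : g⁻¹ * x * g ∈ (S : Subgroup G) := hPS hx'P
  have hq : Quad (WS p (S : Subgroup G)) (g⁻¹ * x * g) := by
    intro v hv i
    have hgv : g * v * g⁻¹ ∈
        Subgroup.normalizer (thompsonSubgroupOf p (S : Subgroup G) : Set G) :=
      hSN (hPS (hPn.conj_mem v (hWP hv) g))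
    have hxi : x ^ i ∈ WS p (S : Subgroup G) := Subgroup.zpow_mem _ hx i
    have hu := hN _ hgv _ hxi
    have hu2 : (g * v * g⁻¹) * x ^ i * (g * v * g⁻¹)⁻¹ * (x ^ i)⁻¹ ∈ WS p (S : Subgroup G) :=
      Subgroup.mul_mem _ hu (Subgroup.inv_mem _ hxi)
    have hcomm := WS_comm p _ x hx _ hu2
    have he : ⁅v, (g⁻¹ * x * g) ^ i⁆ =
        g⁻¹ * ((g * v * g⁻¹) * x ^ i * (g * v * g⁻¹)⁻¹ * (x ^ i)⁻¹) * g := by
      have hz : (g⁻¹ * x * g) ^ i = g⁻¹ * x ^ i * g := by
        rw [show g⁻¹ * x * g = g⁻¹ * x * g⁻¹⁻¹ by rw [inv_inv], conj_zpow, inv_inv]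
      rw [hz, commutatorElement_def]
      generalize x ^ i = y
      group
    rw [he]
    generalize (g * v * g⁻¹) * x ^ i * (g * v * g⁻¹)⁻¹ * (x ^ i)⁻¹ = U at hcomm ⊢
    calc g⁻¹ * x * g * (g⁻¹ * U * g) = g⁻¹ * (x * U) * g := by group
      _ = g⁻¹ * (U * x) * g := by rw [hcomm]
      _ = g⁻¹ * U * g * (g⁻¹ * x * g) := by group
  have hq' : Quad (stableNormalClosure p ↥(S : Subgroup G))
      (⟨g⁻¹ * x * g, hx'S⟩ : ↥(S : Subgroup G)) :=
    (quad_map (S : Subgroup G).subtype (Subgroup.subtype_injective _) _ _).mp hq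
  have h0 := Cfsg.Agent.S0623.result S.isPGroup' (⟨g⁻¹ * x * g, hx'S⟩ : ↥(S : Subgroup G))
    ((quad_iff _ _).mpr hq')
  rw [Subgroup.commutator_eq_bot_iff_le_centralizer] at h0
  obtain ⟨w₀, hw₀, rfl⟩ := hw
  have h1 := (Subgroup.mem_centralizer_iff.mp (h0 hw₀)) _ (Subgroup.mem_zpowers _)
  exact congrArg Subtype.val h1

theorem conj_set_comm {G : Type u} [Group G] [Finite G] {p : ℕ} [Fact p.Prime]
    (hst : IsActionPStable p G)
    (hc : Subgroup.centralizer (pCore p G : Set G) ≤ pCore p G) (S : Sylow p G) :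
    ∀ t₁ ∈ Group.conjugatesOfSet (WS p (S : Subgroup G) : Set G),
      ∀ t₂ ∈ Group.conjugatesOfSet (WS p (S : Subgroup G) : Set G), t₁ * t₂ = t₂ * t₁ := by
  intro t₁ h₁ t₂ h₂
  obtain ⟨w₁, hw₁, hc₁⟩ := Group.mem_conjugatesOfSet_iff.mp h₁
  obtain ⟨w₂, hw₂, hc₂⟩ := Group.mem_conjugatesOfSet_iff.mp h₂
  obtain ⟨c₁, rfl⟩ := isConj_iff.mp hc₁
  obtain ⟨c₂, rfl⟩ := isConj_iff.mp hc₂
  have h := WS_conj_comm hst hc S w₁ hw₁ (c₁⁻¹ * c₂) w₂ hw₂
  calc c₁ * w₁ * c₁⁻¹ * (c₂ * w₂ * c₂⁻¹)
      = c₂ * ((c₁⁻¹ * c₂)⁻¹ * w₁ * (c₁⁻¹ * c₂) * w₂) * c₂⁻¹ := by group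
    _ = c₂ * (w₂ * ((c₁⁻¹ * c₂)⁻¹ * w₁ * (c₁⁻¹ * c₂))) * c₂⁻¹ := by rw [h]
    _ = c₂ * w₂ * c₂⁻¹ * (c₁ * w₁ * c₁⁻¹) := by group

theorem V_elab {G : Type u} [Group G] [Finite G] {p : ℕ} [Fact p.Prime]
    (hst : IsActionPStable p G)
    (hc : Subgroup.centralizer (pCore p G : Set G) ≤ pCore p G) (S : Sylow p G) :
    IsElementaryAbelian p (Subgroup.normalClosure (WS p (S : Subgroup G) : Set G)) := by
  have hgen := conj_set_comm hst hc S
  have hcl : IsMulCommutative
      (Subgroup.closure (Group.conjugatesOfSet (WS p (S : Subgroup G) : Set G))) :=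
    Subgroup.isMulCommutative_closure hgen
  refine ⟨hcl, ?_⟩
  intro a ha
  have ha' : a ∈ Subgroup.closure (Group.conjugatesOfSet (WS p (S : Subgroup G) : Set G)) := ha
  clear ha
  induction ha' using Subgroup.closure_induction with
  | mem t ht =>
    obtain ⟨w, hw, hcw⟩ := Group.mem_conjugatesOfSet_iff.mp ht
    obtain ⟨c, rfl⟩ := isConj_iff.mp hcw
    rw [conj_pow, WS_pow p _ w hw, mul_one, mul_inv_cancel]
  | one => exact one_pow p
  | mul x y hx hy ihx ihy =>
    have hxy : Commute x y := congrArg Subtype.val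
      (hcl.is_comm.comm (⟨x, hx⟩ : ↥(Subgroup.closure
        (Group.conjugatesOfSet (WS p (S : Subgroup G) : Set G)))) ⟨y, hy⟩)
    rw [hxy.mul_pow, ihx, ihy, one_mul]
  | inv x hx ih => rw [inv_pow, ih, inv_one]

theorem max_le_centralizer {G : Type u} [Group G] [Finite G] {p : ℕ} [Fact p.Prime]
    (hst : IsActionPStable p G)
    (hc : Subgroup.centralizer (pCore p G : Set G) ≤ pCore p G) (S : Sylow p G)
    (A : Subgroup G) (hA : A ∈ maxElementaryAbelianSubgroups p G) :
    A ≤ Subgroup.centralizer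
      (Subgroup.normalClosure (WS p (S : Subgroup G) : Set G) : Set G) := by
  obtain ⟨V, hVdef⟩ : ∃ V : Subgroup G,
      V = Subgroup.normalClosure (WS p (S : Subgroup G) : Set G) := ⟨_, rfl⟩
  rw [← hVdef]
  haveI hVn : V.Normal := by rw [hVdef]; exact Subgroup.normalClosure_normal
  have hVe : IsElementaryAbelian p V := by rw [hVdef]; exact V_elab hst hc S
  have hWV : WS p (S : Subgroup G) ≤ V := by rw [hVdef]; exact Subgroup.le_normalClosure
  by_contra hnot
  have hne : ⁅V, A⁆ ≠ ⊥ := by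
    intro h
    rw [Subgroup.commutator_comm, Subgroup.commutator_eq_bot_iff_le_centralizer] at h
    exact hnot h
  obtain ⟨-, hquad, hne'⟩ := Cfsg.Agent.S0607.result V hVe A hA
  apply hne' hne
  obtain ⟨A₀, hA₀⟩ : ∃ A₀ : Subgroup G,
      A₀ = ⁅V, A⁆ ⊔ (A ⊓ Subgroup.centralizer ((⁅V, A⁆ : Subgroup G) : Set G)) := ⟨_, rfl⟩
  rw [← hA₀] at hquad ⊢
  rw [Subgroup.commutator_comm, Subgroup.commutator_eq_bot_iff_le_centralizer]
  intro a ha
  have hqa : Quad V a := by
    intro v hv i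
    have h1 : ⁅v, a ^ i⁆ ∈ ⁅V, A₀⁆ :=
      Subgroup.commutator_mem_commutator hv (Subgroup.zpow_mem _ ha i)
    have h2 := (Subgroup.commutator_eq_bot_iff_le_centralizer.mp hquad) h1
    exact (Subgroup.mem_centralizer_iff.mp h2) a ha
  have hps : IsPStableOn p V := hst.1 V hVe
  have hconj : ∀ g : G, ∀ w ∈ WS p (S : Subgroup G),
      (g⁻¹ * a * g) * w = w * (g⁻¹ * a * g) := by
    intro g w hw
    have h2 : Quad V (g⁻¹ * a * g⁻¹⁻¹) := quad_conj hVn g⁻¹ hqa
    have h3 := hps _ ((quad_iff _ _).mpr h2)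
    obtain ⟨s, hs, c, hcc, hsc⟩ := exists_sylow_mul S _ h3
    have h4 : s = g⁻¹ * a * g⁻¹⁻¹ * c⁻¹ := by rw [hsc]; group
    have h5 : Quad V s := by rw [h4]; exact quad_mul_cent hVn h2 (Subgroup.inv_mem _ hcc)
    have h6 : Quad (WS p (S : Subgroup G)) s := fun v hv i => h5 v (hWV hv) i
    have h7 : Quad (stableNormalClosure p ↥(S : Subgroup G)) (⟨s, hs⟩ : ↥(S : Subgroup G)) :=
      (quad_map (S : Subgroup G).subtype (Subgroup.subtype_injective _) _ _).mp h6
    have h8 := Cfsg.Agent.S0623.result S.isPGroup' (⟨s, hs⟩ : ↥(S : Subgroup G))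
      ((quad_iff _ _).mpr h7)
    rw [Subgroup.commutator_eq_bot_iff_le_centralizer] at h8
    obtain ⟨w₀, hw₀, rfl⟩ := hw
    have h9 : s * (w₀ : G) = (w₀ : G) * s :=
      congrArg Subtype.val
        ((Subgroup.mem_centralizer_iff.mp (h8 hw₀)) _ (Subgroup.mem_zpowers _))
    have h10 : c * (w₀ : G) = (w₀ : G) * c :=
      ((Subgroup.mem_centralizer_iff.mp hcc) _ (hWV (Subgroup.mem_map_of_mem _ hw₀))).symm
    have h11 : g⁻¹ * a * g = s * c := by rw [← hsc, inv_inv]
    rw [h11]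
    show s * c * (w₀ : G) = (w₀ : G) * (s * c)
    calc s * c * (w₀ : G) = s * (c * (w₀ : G)) := by group
      _ = s * ((w₀ : G) * c) := by rw [h10]
      _ = (s * (w₀ : G)) * c := by group
      _ = (w₀ : G) * s * c := by rw [h9]
      _ = (w₀ : G) * (s * c) := by group
  have hVle : V ≤ Subgroup.centralizer ({a} : Set G) := by
    rw [hVdef]
    show Subgroup.closure (Group.conjugatesOfSet (WS p (S : Subgroup G) : Set G)) ≤ _
    rw [Subgroup.closure_le]
    intro t ht
    obtain ⟨w, hw, hcw⟩ := Group.mem_conjugatesOfSet_iff.mp ht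
    obtain ⟨c, rfl⟩ := isConj_iff.mp hcw
    rw [SetLike.mem_coe, Subgroup.mem_centralizer_iff]
    intro z hz
    rw [Set.mem_singleton_iff.mp hz]
    have h := hconj c w hw
    calc a * (c * w * c⁻¹) = c * ((c⁻¹ * a * c) * w) * c⁻¹ := by group
      _ = c * (w * (c⁻¹ * a * c)) * c⁻¹ := by rw [h]
      _ = c * w * c⁻¹ * a := by group
  rw [Subgroup.mem_centralizer_iff]
  intro v hv
  exact ((Subgroup.mem_centralizer_iff.mp (hVle hv)) a (Set.mem_singleton a)).symm

theorem WS_normal {G : Type u} [Group G] [Finite G] {p : ℕ} [Fact p.Prime]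
    (hst : IsActionPStable p G)
    (hc : Subgroup.centralizer (pCore p G : Set G) ≤ pCore p G) (S : Sylow p G) :
    (WS p (S : Subgroup G)).Normal := by
  obtain ⟨V, hVdef⟩ : ∃ V : Subgroup G,
      V = Subgroup.normalClosure (WS p (S : Subgroup G) : Set G) := ⟨_, rfl⟩
  haveI hVn : V.Normal := by rw [hVdef]; exact Subgroup.normalClosure_normal
  have hWV : WS p (S : Subgroup G) ≤ V := by rw [hVdef]; exact Subgroup.le_normalClosure
  have hJC : thompsonSubgroup p G ≤ Subgroup.centralizer (V : Set G) := by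
    show sSup (maxElementaryAbelianSubgroups p G) ≤ _
    apply sSup_le
    intro A hA
    rw [hVdef]
    exact max_le_centralizer hst hc S A hA
  have hfr := Cfsg.Agent.Lib.Helper16.PClosed.frattini_inf S (Subgroup.centralizer (V : Set G))
  have hJle : thompsonSubgroupOf p (S : Subgroup G) ≤
      (S : Subgroup G) ⊓ Subgroup.centralizer (V : Set G) :=
    le_inf (Cfsg.Agent.Lib.Helper4.Thompson2.thompsonSubgroupOf_le _)
      ((Cfsg.Agent.Lib.Helper4.Thompson2.thompsonSubgroupOf_sylow_le S).trans hJC)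
  have hJeq := Cfsg.Agent.Lib.Helper4.Thompson2.thompsonSubgroupOf_eq_of_le (p := p)
    inf_le_left hJle
  have hNle : Subgroup.normalizer
      ((((S : Subgroup G) ⊓ Subgroup.centralizer (V : Set G) : Subgroup G)) : Set G)
      ≤ Subgroup.normalizer (thompsonSubgroupOf p (S : Subgroup G) : Set G) := by
    have h := Cfsg.Agent.Lib.Helper4.Thompson2.normalizer_le_normalizer_thompsonSubgroupOf
      (p := p) ((S : Subgroup G) ⊓ Subgroup.centralizer (V : Set G))
    rw [hJeq] at h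
    exact h
  have hN := WS_conj_normalizer hst hc S
  constructor
  intro w hw g
  have hg : g ∈ Subgroup.normalizer
      ((((S : Subgroup G) ⊓ Subgroup.centralizer (V : Set G) : Subgroup G)) : Set G)
      ⊔ Subgroup.centralizer (V : Set G) := by rw [hfr]; exact Subgroup.mem_top g
  rw [← SetLike.mem_coe, Subgroup.mul_normal] at hg
  obtain ⟨n, hn, c, hcc, rfl⟩ := hg
  have hn' := SetLike.mem_coe.mp hn
  have hcc' := SetLike.mem_coe.mp hcc
  have h1 : c * w * c⁻¹ = w := by
    have h := (Subgroup.mem_centralizer_iff.mp hcc') w (hWV hw)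
    rw [← h]; group
  have h2 : n * c * w * (n * c)⁻¹ = n * (c * w * c⁻¹) * n⁻¹ := by group
  rw [h2, h1]
  exact hN n (hNle hn') w hw

/-- The analogue of the ZJ-Theorem: in an action-p-stable group whose largest normal p-subgroup contains its centralizer, the characteristic subgroup W(S) of a Sylow p-subgroup S is normal. -/
theorem result {G : Type*} [Group G] [Finite G] {p : ℕ} [Fact p.Prime] (hst : Cfsg.IsActionPStable p G) (hc : Subgroup.centralizer (Cfsg.pCore p G : Set G) ≤ Cfsg.pCore p G) (S : Sylow p G) : (((Cfsg.stableNormalClosure p ↥(S : Subgroup G)).map (S : Subgroup G).subtype)).Normal := by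
  exact WS_normal hst hc S

end Cfsg.Agent.S0624
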