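import Mathlib
import Cfsg.Statements.S0632
import Cfsg.Agent.Lib.Helper9.Cores
import Cfsg.Agent.Lib.Helper4.Card

set_option autoImplicit false
open Cfsg

namespace Cfsg.Agent.S0632

universe u

variable {G : Type u} [Group G] [Finite G] {p : ℕ} [Fact p.Prime]

theorem not_dvd_of_coprime' {n : ℕ} (h : n.Coprime p) : ¬ p ∣ n := by
  intro hd
  have h1 : p ∣ Nat.gcd n p := Nat.dvd_gcd hd dvd_rfl
  rw [Nat.Coprime.gcd_eq_one h] at h1
  exact (Fact.out : p.Prime).one_lt.ne' (Nat.dvd_one.mp h1)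

theorem inf_eq_bot_of_coprime {S K : Subgroup G} (hS : IsPGroup p S)
    (hK : (Nat.card K).Coprime p) : S ⊓ K = ⊥ := by
  have h1 : IsPGroup p ↥(S ⊓ K) := hS.to_le inf_le_left
  have h2 : (Nat.card ↥(S ⊓ K)).Coprime p :=
    Nat.Coprime.coprime_dvd_left (Subgroup.card_dvd_of_le inf_le_right) hK
  obtain ⟨n, hn⟩ := IsPGroup.iff_card.mp h1
  apply Subgroup.eq_bot_of_card_eq
  rw [hn] at h2 ⊢
  rcases Nat.eq_zero_or_pos n with rfl | hpos
  · simp
  · exfalso
    have h3 := (Nat.coprime_pow_left_iff hpos p p).mp h2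
    rw [Nat.coprime_self] at h3
    exact (Fact.out : p.Prime).ne_one h3

theorem le_normalizer_of_conj {X : Type*} [Group X] {A P : Subgroup X}
    (h : ∀ a ∈ A, ∀ x ∈ P, a * x * a⁻¹ ∈ P) : A ≤ Subgroup.normalizer (P : Set X) := by
  intro a ha
  rw [Subgroup.mem_normalizer_iff]
  intro n
  constructor
  · intro hn
    exact h a ha n hn
  · intro hn
    have h1 := h a⁻¹ (A.inv_mem ha) _ hn
    have h2 : a⁻¹ * (a * n * a⁻¹) * a⁻¹⁻¹ = n := by group
    rw [h2] at h1
    exact h1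

/-- The map `N_G(P) → N_{G/K}(PK/K)`. -/
def nmap (K : Subgroup G) [K.Normal] (P : Subgroup G) :
    ↥(Subgroup.normalizer (P : Set G)) →*
      ↥(Subgroup.normalizer ((P.map (QuotientGroup.mk' K) : Subgroup (G ⧸ K)) : Set (G ⧸ K))) :=
  ((QuotientGroup.mk' K).comp (Subgroup.normalizer (P : Set G)).subtype).codRestrict _
    (fun g => Subgroup.le_normalizer_map (QuotientGroup.mk' K) (Subgroup.mem_map_of_mem _ g.2))

/-- The map `N_G(P) → N_{G/K}(PK/K) / C_{G/K}(PK/K)`. -/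
def psi0 (K : Subgroup G) [K.Normal] (P : Subgroup G) :
    ↥(Subgroup.normalizer (P : Set G)) →*
      (↥(Subgroup.normalizer ((P.map (QuotientGroup.mk' K) : Subgroup (G ⧸ K)) : Set (G ⧸ K))) ⧸
        (Subgroup.centralizer ((P.map (QuotientGroup.mk' K) : Subgroup (G ⧸ K)) : Set (G ⧸ K))).subgroupOf
          (Subgroup.normalizer ((P.map (QuotientGroup.mk' K) : Subgroup (G ⧸ K)) : Set (G ⧸ K)))) :=
  (QuotientGroup.mk' _).comp (nmap K P)

theorem psi0_ker (K : Subgroup G) [K.Normal] {P : Subgroup G} (hK : (Nat.card K).Coprime p)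
    (hP : IsPGroup p P) :
    (psi0 K P).ker =
      (Subgroup.centralizer (P : Set G)).subgroupOf (Subgroup.normalizer (P : Set G)) := by
  ext g
  rw [MonoidHom.mem_ker, Subgroup.mem_subgroupOf]
  have h1 : psi0 K P g = 1 ↔ (QuotientGroup.mk' K (g : G)) ∈
      Subgroup.centralizer ((P.map (QuotientGroup.mk' K) : Subgroup (G ⧸ K)) : Set (G ⧸ K)) := by
    unfold psi0
    rw [MonoidHom.comp_apply, QuotientGroup.mk'_apply, QuotientGroup.eq_one_iff,
      Subgroup.mem_subgroupOf]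
    rfl
  rw [h1]
  constructor
  · intro h
    rw [Subgroup.mem_centralizer_iff] at h ⊢
    intro y hy
    have hy' : QuotientGroup.mk' K y ∈
        ((P.map (QuotientGroup.mk' K) : Subgroup (G ⧸ K)) : Set (G ⧸ K)) :=
      Subgroup.mem_map_of_mem _ hy
    have h2 := h _ hy'
    have h3 : (g : G) * y * (g : G)⁻¹ ∈ P := (Subgroup.mem_normalizer_iff.mp g.2 y).mp hy
    have h4 : (g : G) * y * (g : G)⁻¹ * y⁻¹ ∈ P := P.mul_mem h3 (P.inv_mem hy)
    have h5 : (g : G) * y * (g : G)⁻¹ * y⁻¹ ∈ K := by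
      rw [← QuotientGroup.ker_mk' K, MonoidHom.mem_ker, map_mul, map_mul, map_mul, map_inv,
        map_inv, ← h2]
      group
    have h6 : (g : G) * y * (g : G)⁻¹ * y⁻¹ ∈ P ⊓ K := ⟨h4, h5⟩
    rw [inf_eq_bot_of_coprime hP hK, Subgroup.mem_bot] at h6
    calc y * (g : G) = ((g : G) * y * (g : G)⁻¹ * y⁻¹)⁻¹ * ((g : G) * y) := by group
      _ = (g : G) * y := by rw [h6]; simp
  · intro h
    rw [Subgroup.mem_centralizer_iff] at h ⊢
    rintro _ ⟨y, hy, rfl⟩
    have h2 := h y hy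
    show QuotientGroup.mk' K y * QuotientGroup.mk' K (g : G) =
      QuotientGroup.mk' K (g : G) * QuotientGroup.mk' K y
    rw [← map_mul, ← map_mul, h2]

theorem exists_normalizer_rep (K : Subgroup G) [K.Normal] {P : Subgroup G}
    (hK : (Nat.card K).Coprime p) (hP : IsPGroup p P) (hn : (K ⊔ P).Normal) (g : G) :
    ∃ n ∈ Subgroup.normalizer (P : Set G), ∃ k ∈ K, g = n * k := by
  obtain ⟨L, hL⟩ : ∃ L : Subgroup G, L = K ⊔ P := ⟨_, rfl⟩
  have hLn : L.Normal := by rw [hL]; exact hn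
  have hPL : P ≤ L := by rw [hL]; exact le_sup_right
  have hKL : K ≤ L := by rw [hL]; exact le_sup_left
  have hidx : ¬ p ∣ (P.subgroupOf L).index := by
    intro hd
    have h1 := Subgroup.card_mul_index (P.subgroupOf L)
    have h2 : Nat.card ↥(P.subgroupOf L) = Nat.card P :=
      Nat.card_congr (Subgroup.subgroupOfEquivOfLe hPL).toEquiv
    have h3 : Nat.card ↥L ∣ Nat.card P * Nat.card K := by
      rw [hL, sup_comm]
      exact Cfsg.Agent.Lib.Helper9.card_sup_dvd P K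
    rw [h2] at h1
    rw [← h1] at h3
    have h4 : (P.subgroupOf L).index ∣ Nat.card K :=
      Nat.dvd_of_mul_dvd_mul_left Nat.card_pos h3
    exact not_dvd_of_coprime' hK (hd.trans h4)
  have hP' : IsPGroup p ↥(P.subgroupOf L) := hP.comap_subtype
  obtain ⟨S, hS⟩ : ∃ S : Sylow p ↥L, (S : Subgroup ↥L) = P.subgroupOf L :=
    ⟨hP'.toSylow hidx, IsPGroup.toSylow_coe _ _⟩
  have hF := Sylow.normalizer_sup_eq_top S
  rw [hS, Subgroup.map_subgroupOf_eq_of_le hPL] at hF
  have hg : g ∈ Subgroup.normalizer (P : Set G) ⊔ L := by rw [hF]; exact Subgroup.mem_top g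
  have hle : Subgroup.normalizer (P : Set G) ⊔ L = Subgroup.normalizer (P : Set G) ⊔ K := by
    apply le_antisymm
    · apply sup_le le_sup_left
      rw [hL]
      exact sup_le le_sup_right (le_trans Subgroup.le_normalizer le_sup_left)
    · exact sup_le le_sup_left (le_trans hKL le_sup_right)
  rw [hle] at hg
  have hg' : g ∈ ((Subgroup.normalizer (P : Set G) ⊔ K : Subgroup G) : Set G) := hg
  rw [Subgroup.mul_normal] at hg'
  obtain ⟨n, hn', k, hk, hnk⟩ := hg'
  exact ⟨n, hn', k, hk, hnk.symm⟩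

theorem psi0_surj (K : Subgroup G) [K.Normal] {P : Subgroup G}
    (hK : (Nat.card K).Coprime p) (hP : IsPGroup p P) (hn : (K ⊔ P).Normal) :
    Function.Surjective (psi0 K P) := by
  intro q
  obtain ⟨x, rfl⟩ := QuotientGroup.mk'_surjective _ q
  obtain ⟨g, hg⟩ := QuotientGroup.mk'_surjective K (x : G ⧸ K)
  obtain ⟨n, hn', k, hk, hnk⟩ := exists_normalizer_rep K hK hP hn g
  refine ⟨⟨n, hn'⟩, ?_⟩
  have hx : nmap K P ⟨n, hn'⟩ = x := by
    apply Subtype.ext
    show QuotientGroup.mk' K n = (x : G ⧸ K)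
    have hk1 : QuotientGroup.mk' K k = 1 := (QuotientGroup.eq_one_iff k).mpr hk
    rw [← hg, hnk, map_mul, hk1, mul_one]
  show QuotientGroup.mk' _ (nmap K P ⟨n, hn'⟩) = QuotientGroup.mk' _ x
  rw [hx]

theorem exists_eqv (K : Subgroup G) [K.Normal] {P : Subgroup G}
    (hK : (Nat.card K).Coprime p) (hP : IsPGroup p P) (hn : (K ⊔ P).Normal) :
    ∃ e : (↥(Subgroup.normalizer (P : Set G)) ⧸
        (Subgroup.centralizer (P : Set G)).subgroupOf (Subgroup.normalizer (P : Set G))) ≃*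
      (↥(Subgroup.normalizer ((P.map (QuotientGroup.mk' K) : Subgroup (G ⧸ K)) : Set (G ⧸ K))) ⧸
        (Subgroup.centralizer ((P.map (QuotientGroup.mk' K) : Subgroup (G ⧸ K)) : Set (G ⧸ K))).subgroupOf
          (Subgroup.normalizer ((P.map (QuotientGroup.mk' K) : Subgroup (G ⧸ K)) : Set (G ⧸ K)))),
      ∀ g, e (QuotientGroup.mk' _ g) = QuotientGroup.mk' _ (nmap K P g) :=
  ⟨(QuotientGroup.quotientMulEquivOfEq (psi0_ker K hK hP).symm).trans
    (QuotientGroup.quotientKerEquivOfSurjective (psi0 K P) (psi0_surj K hK hP hn)), fun g => rfl⟩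

theorem pcore_iff (K : Subgroup G) [K.Normal] {P : Subgroup G}
    (hK : (Nat.card K).Coprime p) (hP : IsPGroup p P) (hn : (K ⊔ P).Normal)
    (g : ↥(Subgroup.normalizer (P : Set G))) :
    QuotientGroup.mk' ((Subgroup.centralizer (P : Set G)).subgroupOf
        (Subgroup.normalizer (P : Set G))) g ∈
      pCore p (↥(Subgroup.normalizer (P : Set G)) ⧸
        (Subgroup.centralizer (P : Set G)).subgroupOf (Subgroup.normalizer (P : Set G))) ↔
    QuotientGroup.mk' ((Subgroup.centralizer ((P.map (QuotientGroup.mk' K) : Subgroup (G ⧸ K)) : Set (G ⧸ K))).subgroupOf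
          (Subgroup.normalizer ((P.map (QuotientGroup.mk' K) : Subgroup (G ⧸ K)) : Set (G ⧸ K))))
        (nmap K P g) ∈
      pCore p (↥(Subgroup.normalizer ((P.map (QuotientGroup.mk' K) : Subgroup (G ⧸ K)) : Set (G ⧸ K))) ⧸
        (Subgroup.centralizer ((P.map (QuotientGroup.mk' K) : Subgroup (G ⧸ K)) : Set (G ⧸ K))).subgroupOf
          (Subgroup.normalizer ((P.map (QuotientGroup.mk' K) : Subgroup (G ⧸ K)) : Set (G ⧸ K)))) := by
  obtain ⟨e, he⟩ := exists_eqv K hK hP hn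
  rw [← he g, ← Cfsg.Agent.Lib.Helper9.pCore_map_equiv p e]
  constructor
  · intro h
    exact Subgroup.mem_map_of_mem _ h
  · rintro ⟨y, hy, hye⟩
    have h1 : y = QuotientGroup.mk' _ g := e.injective hye
    rw [← h1]
    exact hy

theorem stab_iff {X : Type u} [Group X] (A P : Subgroup X) :
    (A.subgroupOf (Subgroup.normalizer (P : Set X))).map
          (QuotientGroup.mk' ((Subgroup.centralizer (P : Set X)).subgroupOf
            (Subgroup.normalizer (P : Set X))))
        ≤ pCore p _ ↔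
    ∀ g : ↥(Subgroup.normalizer (P : Set X)), (g : X) ∈ A →
      QuotientGroup.mk' ((Subgroup.centralizer (P : Set X)).subgroupOf
            (Subgroup.normalizer (P : Set X))) g ∈
        pCore p (↥(Subgroup.normalizer (P : Set X)) ⧸
          (Subgroup.centralizer (P : Set X)).subgroupOf (Subgroup.normalizer (P : Set X))) := by
  constructor
  · intro h g hg
    exact h (Subgroup.mem_map_of_mem _ (Subgroup.mem_subgroupOf.mpr hg))
  · rintro h _ ⟨g, hg, rfl⟩
    exact h g (Subgroup.mem_subgroupOf.mp hg)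

theorem le_pPrimePCore_of_map {X : Type u} [Group X] {M : Subgroup X}
    (hM : (M.map (QuotientGroup.mk' (pPrimeCore p X))).Normal)
    (hp : IsPGroup p ↥(M.map (QuotientGroup.mk' (pPrimeCore p X)))) : M ≤ pPrimePCore p X := by
  unfold Cfsg.pPrimePCore
  rw [← Subgroup.map_le_iff_le_comap]
  exact Cfsg.Agent.Lib.Helper9.le_pCore hM hp

theorem pPrimePCore_eq_of_bot {X : Type u} [Group X] [Finite X] (h : pPrimeCore p X = ⊥) :
    pPrimePCore p X = pCore p X := by
  apply le_antisymm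
  · apply Cfsg.Agent.Lib.Helper9.le_pCore
    · unfold Cfsg.pPrimePCore
      exact Subgroup.Normal.comap (Cfsg.pCore_normal p _) _
    · unfold Cfsg.pPrimePCore
      apply IsPGroup.comap_of_ker_isPGroup (Cfsg.Agent.Lib.Helper9.pCore_isPGroup p _)
      rw [QuotientGroup.ker_mk', h]
      exact IsPGroup.of_bot
  · apply le_pPrimePCore_of_map
    · exact Subgroup.Normal.map (Cfsg.pCore_normal p X) _ (QuotientGroup.mk'_surjective _)
    · exact (Cfsg.Agent.Lib.Helper9.pCore_isPGroup p X).map _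

theorem exists_lift (K : Subgroup G) [K.Normal] (hK : (Nat.card K).Coprime p)
    {A' P' : Subgroup (G ⧸ K)} (hA : IsPGroup p A') (hP : IsPGroup p P')
    (hnorm : ∀ a ∈ A', ∀ x ∈ P', a * x * a⁻¹ ∈ P') :
    ∃ A P : Subgroup G, IsPGroup p A ∧ IsPGroup p P ∧ A.map (QuotientGroup.mk' K) = A' ∧
      P.map (QuotientGroup.mk' K) = P' ∧ (∀ a ∈ A, ∀ x ∈ P, a * x * a⁻¹ ∈ P) ∧
      ∃ S₀ : Subgroup G, IsPGroup p S₀ ∧ A ≤ S₀ ∧ P ≤ S₀ := by
  have hL' : IsPGroup p ↥(A' ⊔ P') :=
    IsPGroup.to_sup_of_normal_right' hA hP (le_normalizer_of_conj hnorm)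
  obtain ⟨L, hL⟩ : ∃ L : Subgroup G, L = (A' ⊔ P').comap (QuotientGroup.mk' K) := ⟨_, rfl⟩
  have hKL : K ≤ L := by
    rw [hL]
    intro k hk
    rw [Subgroup.mem_comap]
    have h1 : QuotientGroup.mk' K k = 1 := (QuotientGroup.eq_one_iff k).mpr hk
    rw [h1]
    exact Subgroup.one_mem _
  obtain ⟨S⟩ := (inferInstance : Nonempty (Sylow p ↥L))
  obtain ⟨S₀, hS₀⟩ : ∃ S₀ : Subgroup G, S₀ = (S : Subgroup ↥L).map L.subtype := ⟨_, rfl⟩
  have hS₀p : IsPGroup p S₀ := by
    rw [hS₀]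
    exact S.isPGroup'.map L.subtype
  have hS₀L : S₀ ≤ L := by
    rw [hS₀]
    exact Subgroup.map_subtype_le _
  have hcardS : Nat.card S₀ = Nat.card (S : Subgroup ↥L) := by
    rw [hS₀]
    exact Subgroup.card_map_of_injective L.subtype_injective
  have hcardL : Nat.card L = Nat.card K * Nat.card ↥(A' ⊔ P') := by
    rw [hL]
    exact Cfsg.Agent.Lib.Helper9.card_comap_mk' K _
  have hle : Nat.card ↥(A' ⊔ P') ≤ Nat.card S₀ := by
    obtain ⟨k, hk⟩ := IsPGroup.iff_card.mp hL'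
    have h1 := Subgroup.card_mul_index (S : Subgroup ↥L)
    have h2 : ¬ p ∣ (S : Subgroup ↥L).index := S.not_dvd_index
    have h3 : (p ^ k).Coprime (S : Subgroup ↥L).index :=
      Nat.Coprime.pow_left k ((Nat.Prime.coprime_iff_not_dvd Fact.out).mpr h2)
    have h4 : p ^ k ∣ Nat.card (S : Subgroup ↥L) * (S : Subgroup ↥L).index := by
      rw [h1, hcardL, hk]
      exact Dvd.intro_left _ rfl
    have h5 : p ^ k ∣ Nat.card (S : Subgroup ↥L) := Nat.Coprime.dvd_of_dvd_mul_right h3 h4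
    rw [hk, hcardS]
    exact Nat.le_of_dvd Nat.card_pos h5
  have hSK : S₀ ⊓ K = ⊥ := inf_eq_bot_of_coprime hS₀p hK
  have hsup : S₀ ⊔ K = L := by
    apply Subgroup.eq_of_le_of_card_ge (sup_le hS₀L hKL)
    have h1 := Cfsg.Agent.Lib.Helper4.Card.card_mul_card_le S₀ K
    rw [hSK, Subgroup.card_bot, mul_one] at h1
    calc Nat.card L = Nat.card K * Nat.card ↥(A' ⊔ P') := hcardL
      _ ≤ Nat.card K * Nat.card S₀ := Nat.mul_le_mul_left _ hle
      _ = Nat.card S₀ * Nat.card K := Nat.mul_comm _ _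
      _ ≤ Nat.card ↥(S₀ ⊔ K) := h1
  have hmap : S₀.map (QuotientGroup.mk' K) = A' ⊔ P' := by
    have h1 : (S₀ ⊔ K).map (QuotientGroup.mk' K) = L.map (QuotientGroup.mk' K) := by rw [hsup]
    rw [Subgroup.map_sup, QuotientGroup.map_mk'_self, sup_bot_eq, hL,
      Subgroup.map_comap_eq_self_of_surjective (QuotientGroup.mk'_surjective K)] at h1
    exact h1
  refine ⟨S₀ ⊓ A'.comap (QuotientGroup.mk' K), S₀ ⊓ P'.comap (QuotientGroup.mk' K),
    hS₀p.to_le inf_le_left, hS₀p.to_le inf_le_left, ?_, ?_, ?_, S₀, hS₀p, inf_le_left, inf_le_left⟩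
  · apply le_antisymm
    · rintro _ ⟨x, hx, rfl⟩
      exact hx.2
    · intro a ha
      have h1 : a ∈ S₀.map (QuotientGroup.mk' K) := by
        rw [hmap]
        exact Subgroup.mem_sup_left ha
      obtain ⟨s, hs, rfl⟩ := h1
      exact ⟨s, ⟨hs, ha⟩, rfl⟩
  · apply le_antisymm
    · rintro _ ⟨x, hx, rfl⟩
      exact hx.2
    · intro a ha
      have h1 : a ∈ S₀.map (QuotientGroup.mk' K) := by
        rw [hmap]
        exact Subgroup.mem_sup_right ha
      obtain ⟨s, hs, rfl⟩ := h1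
      exact ⟨s, ⟨hs, ha⟩, rfl⟩
  · intro a ha x hx
    refine ⟨S₀.mul_mem (S₀.mul_mem ha.1 hx.1) (S₀.inv_mem ha.1), ?_⟩
    show QuotientGroup.mk' K (a * x * a⁻¹) ∈ P'
    rw [map_mul, map_mul, map_inv]
    exact hnorm _ ha.2 _ hx.2

/-- For a group with a nontrivial normal p-subgroup, p-stability passes to and from the quotient by the largest normal subgroup of order prime to p. -/
theorem result {G : Type*} [Group G] [Finite G] {p : ℕ} [Fact p.Prime] (hO : Cfsg.pCore p G ≠ ⊥) : Cfsg.IsPStable p G ↔ Cfsg.IsPStable p (G ⧸ Cfsg.pPrimeCore p G) := by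
  classical
  have hKc : (Nat.card (pPrimeCore p G)).Coprime p :=
    Cfsg.Agent.Lib.Helper9.pPrimeCore_coprime p G
  have hbar : pPrimeCore p (G ⧸ pPrimeCore p G) = ⊥ :=
    Cfsg.Agent.Lib.Helper9.pPrimeCore_quotient_eq_bot p G
  have hpp : pPrimePCore p (G ⧸ pPrimeCore p G) = pCore p (G ⧸ pPrimeCore p G) :=
    pPrimePCore_eq_of_bot hbar
  have hdef : pPrimePCore p G =
      (pCore p (G ⧸ pPrimeCore p G)).comap (QuotientGroup.mk' (pPrimeCore p G)) := rfl
  unfold Cfsg.IsPStable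
  constructor
  · rintro ⟨hodd, -, H⟩
    refine ⟨hodd, ?_, ?_⟩
    · intro h0
      apply hO
      have h1 : (pCore p G).map (QuotientGroup.mk' (pPrimeCore p G)) ≤
          pCore p (G ⧸ pPrimeCore p G) :=
        Cfsg.Agent.Lib.Helper9.le_pCore
          (Subgroup.Normal.map (Cfsg.pCore_normal p G) _ (QuotientGroup.mk'_surjective _))
          ((Cfsg.Agent.Lib.Helper9.pCore_isPGroup p G).map _)
      rw [h0, le_bot_iff, Subgroup.map_eq_bot_iff, QuotientGroup.ker_mk'] at h1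
      have h3 := Cfsg.Agent.Lib.Helper9.pCore_inf_pPrimeCore p G
      rw [inf_eq_left.mpr h1] at h3
      exact h3
    · intro A' P' hA hP hnorm hPle hPn hcomm
      obtain ⟨A, P, hAp, hPp, rfl, rfl, hnorm', S₀, hS₀, hAS, hPS⟩ :=
        exists_lift (pPrimeCore p G) hKc hA hP hnorm
      have hP1 : P ≤ pPrimePCore p G := by
        rw [hdef, ← Subgroup.map_le_iff_le_comap, ← hpp]
        exact hPle
      have hP2 : (pPrimeCore p G ⊔ P).Normal := by
        rw [hbar, bot_sup_eq] at hPn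
        have h1 := Subgroup.Normal.comap hPn (QuotientGroup.mk' (pPrimeCore p G))
        rw [Subgroup.comap_map_eq, QuotientGroup.ker_mk', sup_comm] at h1
        exact h1
      have hP3 : ⁅⁅P, A⁆, A⁆ = ⊥ := by
        have h1 : ⁅⁅P, A⁆, A⁆ ≤ S₀ := by
          have h2 : ⁅P, A⁆ ≤ S₀ := by
            rw [Subgroup.commutator_le]
            intro x hx y hy
            rw [commutatorElement_def]
            exact S₀.mul_mem (S₀.mul_mem (S₀.mul_mem (hPS hx) (hAS hy)) (S₀.inv_mem (hPS hx)))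
              (S₀.inv_mem (hAS hy))
          rw [Subgroup.commutator_le]
          intro x hx y hy
          rw [commutatorElement_def]
          exact S₀.mul_mem (S₀.mul_mem (S₀.mul_mem (h2 hx) (hAS hy)) (S₀.inv_mem (h2 hx)))
            (S₀.inv_mem (hAS hy))
        have h3 : ⁅⁅P, A⁆, A⁆ ≤ pPrimeCore p G := by
          have h4 : (⁅⁅P, A⁆, A⁆).map (QuotientGroup.mk' (pPrimeCore p G)) = ⊥ := by
            rw [Subgroup.map_commutator, Subgroup.map_commutator]
            exact hcomm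
          rw [Subgroup.map_eq_bot_iff, QuotientGroup.ker_mk'] at h4
          exact h4
        have h5 : ⁅⁅P, A⁆, A⁆ ≤ S₀ ⊓ pPrimeCore p G := le_inf h1 h3
        rw [inf_eq_bot_of_coprime hS₀ hKc] at h5
        exact le_bot_iff.mp h5
      have hH := (stab_iff _ _).mp (H A P hAp hPp hnorm' hP1 hP2 hP3)
      refine (stab_iff _ _).mpr ?_
      intro g hg
      obtain ⟨a, ha, hag⟩ := hg
      have han : a ∈ Subgroup.normalizer (P : Set G) := le_normalizer_of_conj hnorm' ha
      have hg' : g = nmap (pPrimeCore p G) P ⟨a, han⟩ := Subtype.ext hag.symm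
      rw [hg']
      exact (pcore_iff (pPrimeCore p G) hKc hPp hP2 ⟨a, han⟩).mp (hH ⟨a, han⟩ ha)
  · rintro ⟨hodd, -, H⟩
    refine ⟨hodd, hO, ?_⟩
    intro A P hA hP hnorm hPle hPn hcomm
    have hn' : ∀ a ∈ A.map (QuotientGroup.mk' (pPrimeCore p G)),
        ∀ x ∈ P.map (QuotientGroup.mk' (pPrimeCore p G)),
        a * x * a⁻¹ ∈ P.map (QuotientGroup.mk' (pPrimeCore p G)) := by
      rintro _ ⟨a, ha, rfl⟩ _ ⟨x, hx, rfl⟩
      refine ⟨a * x * a⁻¹, hnorm a ha x hx, ?_⟩
      rw [map_mul, map_mul, map_inv]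
    have hP1 : P.map (QuotientGroup.mk' (pPrimeCore p G)) ≤
        pPrimePCore p (G ⧸ pPrimeCore p G) := by
      rw [hpp, Subgroup.map_le_iff_le_comap]
      exact hPle
    have hPbar : (P.map (QuotientGroup.mk' (pPrimeCore p G))).Normal := by
      have h1 := Subgroup.Normal.map hPn (QuotientGroup.mk' (pPrimeCore p G))
        (QuotientGroup.mk'_surjective _)
      rw [Subgroup.map_sup, QuotientGroup.map_mk'_self, bot_sup_eq] at h1
      exact h1
    have hP2 : (pPrimeCore p (G ⧸ pPrimeCore p G) ⊔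
        P.map (QuotientGroup.mk' (pPrimeCore p G))).Normal := by
      rw [hbar, bot_sup_eq]
      exact hPbar
    have hP3 : ⁅⁅P.map (QuotientGroup.mk' (pPrimeCore p G)),
        A.map (QuotientGroup.mk' (pPrimeCore p G))⁆,
        A.map (QuotientGroup.mk' (pPrimeCore p G))⁆ = ⊥ := by
      rw [← Subgroup.map_commutator, ← Subgroup.map_commutator, hcomm, Subgroup.map_bot]
    have hH := (stab_iff _ _).mp (H _ _ (hA.map _) (hP.map _) hn' hP1 hP2 hP3)
    refine (stab_iff _ _).mpr ?_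
    intro g hg
    exact (pcore_iff (pPrimeCore p G) hKc hP hPn g).mpr
      (hH (nmap (pPrimeCore p G) P g) (Subgroup.mem_map_of_mem _ hg))

end Cfsg.Agent.S0632
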