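import Cfsg.Statements.S0637
import Cfsg.Agent.S0128
import Cfsg.Agent.S0065
import Mathlib

set_option autoImplicit false
open Cfsg

namespace Cfsg.Agent.S0637

open scoped commutatorElement

universe u

theorem omegaOne_top {G : Type*} [Group G] (p : ℕ) :
    Cfsg.omegaOne p (⊤ : Subgroup G) = Subgroup.closure {x : G | x ^ p = 1} := by
  unfold Cfsg.omegaOne
  congr 1
  ext x
  simp

/-- In class at most three and for `p > 3`, if `y ^ p` is central then `(x y)^p = x^p y^p`. -/
theorem mul_pow_of_central_pow {R : Type*} [Group R] {p : ℕ} [Fact p.Prime] (hp : 3 < p)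
    (hcl : ⁅⁅commutator R, (⊤ : Subgroup R)⁆, (⊤ : Subgroup R)⁆ = ⊥) (x y : R)
    (hy : ∀ g : R, y ^ p * g = g * y ^ p) : (x * y) ^ p = x ^ p * y ^ p := by
  have hpp : p.Prime := Fact.out
  have hdc := Cfsg.Agent.S0124.central_of_class_three hcl _ (Cfsg.Agent.S0124.comm_mem_d x y)
  have hec := Cfsg.Agent.S0124.central_of_class_three hcl _ (Cfsg.Agent.S0124.comm_mem_e x y)
  have hyx : y * x = ⁅y, x⁆ * x * y := Cfsg.Agent.S0124.comm_rel y x
  have hcx : ⁅y, x⁆ * x = ⁅⁅y, x⁆, x⁆ * x * ⁅y, x⁆ := Cfsg.Agent.S0124.comm_rel _ x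
  have hyc : y * ⁅y, x⁆ = ⁅y, ⁅y, x⁆⁆ * ⁅y, x⁆ * y := Cfsg.Agent.S0124.comm_rel y _
  have he : ⁅y, ⁅y, x⁆⁆ ^ p = 1 := by
    have h1 := Cfsg.Agent.S0124.pow_swap_one y ⁅y, x⁆ ⁅y, ⁅y, x⁆⁆ hyc hec p
    rw [hy, mul_assoc] at h1
    exact mul_eq_right.mp h1.symm
  have hc : ⁅y, x⁆ ^ p = 1 := by
    have h1 := Cfsg.Agent.S0124.pow_left_collect x y ⁅y, x⁆ ⁅y, ⁅y, x⁆⁆ hyx hyc hec p
    rw [Cfsg.Agent.S0124.pow_eq_one_of_dvd he (Cfsg.Agent.S0124.dvd_choose_two hpp (by omega)),
      one_mul, hy, mul_assoc] at h1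
    exact mul_eq_right.mp h1.symm
  have hd : ⁅⁅y, x⁆, x⁆ ^ p = 1 := by
    have h1 := Cfsg.Agent.S0124.pow_swap_one ⁅y, x⁆ x ⁅⁅y, x⁆, x⁆ hcx hdc p
    rw [hc, one_mul, mul_one] at h1
    exact mul_eq_right.mp h1.symm
  rw [Cfsg.Agent.S0124.collect_comm hcl x y p,
    Cfsg.Agent.S0124.pow_eq_one_of_dvd hc (Cfsg.Agent.S0124.dvd_choose_two hpp (by omega)),
    Cfsg.Agent.S0124.pow_eq_one_of_dvd hd (Cfsg.Agent.S0124.dvd_choose_succ_three hpp hp),
    Cfsg.Agent.S0124.pow_eq_one_of_dvd he (Cfsg.Agent.S0124.dvd_choose_three hpp hp)]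
  simp

theorem card_comap_mk {R : Type*} [Group R] [Finite R] (T : Subgroup R) [T.Normal]
    (K : Subgroup (R ⧸ T)) :
    Nat.card (K.comap (QuotientGroup.mk' T)) = Nat.card K * Nat.card T := by
  have h1 := Subgroup.card_mul_index (K.comap (QuotientGroup.mk' T))
  have h0 : (K.comap (QuotientGroup.mk' T)).index = K.index :=
    Subgroup.index_comap_of_surjective K (QuotientGroup.mk'_surjective T)
  rw [h0] at h1
  have h2 := Subgroup.card_mul_index K
  have h3 := Subgroup.card_eq_card_quotient_mul_card_subgroup T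
  have h4 : K.index ≠ 0 := Subgroup.index_ne_zero_of_finite
  have h5 : Nat.card (K.comap (QuotientGroup.mk' T)) * K.index =
      Nat.card K * Nat.card T * K.index := by
    rw [h1, h3, ← h2]; ring
  exact Nat.eq_of_mul_eq_mul_right (Nat.pos_of_ne_zero h4) h5

theorem card_omega_congr {G H : Type*} [Group G] [Group H] (e : G ≃* H) (p : ℕ) :
    Nat.card (Subgroup.closure {x : G | x ^ p = 1}) =
      Nat.card (Subgroup.closure {x : H | x ^ p = 1}) := by
  have h1 : (Subgroup.closure {x : G | x ^ p = 1}).map e.toMonoidHom =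
      Subgroup.closure {x : H | x ^ p = 1} := by
    rw [MonoidHom.map_closure]
    congr 1
    ext y
    constructor
    · rintro ⟨x, hx, rfl⟩
      show (e x) ^ p = 1
      rw [← map_pow, show x ^ p = 1 from hx, map_one]
    · intro hy
      refine ⟨e.symm y, ?_, by simp⟩
      show (e.symm y) ^ p = 1
      rw [← map_pow, show y ^ p = 1 from hy, map_one]
  rw [← h1, Subgroup.card_map_of_injective e.injective]

/-- The case of a central subgroup of order `p`. -/
theorem step {R : Type*} [Group R] [Finite R] {p : ℕ} [Fact p.Prime] (hp : 3 < p)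
    (hR : IsPGroup p R) (hO : Nat.card (Subgroup.closure {x : R | x ^ p = 1}) ≤ p ^ 2)
    (T : Subgroup R) [T.Normal] (hT : Nat.card T = p) (hTZ : T ≤ Subgroup.center R) :
    Nat.card (Subgroup.closure {x : R ⧸ T | x ^ p = 1}) ≤ p ^ 2 := by
  have hpp : p.Prime := Fact.out
  by_contra hcon
  push Not at hcon
  have hQ : IsPGroup p (R ⧸ T) := hR.to_quotient T
  -- a subgroup of order p^3 and exponent p in the quotient
  have hex : ∃ K : Subgroup (R ⧸ T), Nat.card K = p ^ 3 ∧ ∀ k ∈ K, k ^ p = 1 := by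
    by_cases hrk : ∀ E : Subgroup (R ⧸ T), Cfsg.IsElementaryAbelian p E → Nat.card E ≤ p ^ 2
    · refine ⟨Subgroup.closure {x : R ⧸ T | x ^ p = 1}, ?_, ?_⟩
      · have hexp : ∀ g ∈ Subgroup.closure {x : R ⧸ T | x ^ p = 1}, g ^ p = 1 :=
          fun g hg => Cfsg.Agent.S0128.result hp hQ hrk g hg
        have hle : Nat.card (Subgroup.closure {x : R ⧸ T | x ^ p = 1}) ≤ p ^ 3 :=
          Cfsg.Agent.S0128.card_le_cube_of_exp (hQ.to_subgroup _)
            (Cfsg.Agent.S0128.rank_sub hrk _)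
            (fun g => Subtype.ext (by simpa using hexp g.1 g.2))
        obtain ⟨k, hk⟩ := IsPGroup.iff_card.1
          (hQ.to_subgroup (Subgroup.closure {x : R ⧸ T | x ^ p = 1}))
        rw [hk] at hcon hle ⊢
        have h1 : 2 < k := (Nat.pow_lt_pow_iff_right hpp.one_lt).1 hcon
        have h2 : k ≤ 3 := (Nat.pow_le_pow_iff_right hpp.one_lt).1 hle
        have : k = 3 := by omega
        rw [this]
      · exact fun g hg => Cfsg.Agent.S0128.result hp hQ hrk g hg
    · push Not at hrk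
      obtain ⟨E, hE, hEc⟩ := hrk
      obtain ⟨k, hk⟩ := IsPGroup.iff_card.1 (hQ.to_subgroup E)
      have h1 : 2 < k := by
        rw [hk] at hEc
        exact (Nat.pow_lt_pow_iff_right hpp.one_lt).1 hEc
      have hdvd : p ^ 3 ∣ Nat.card E := by
        rw [hk]; exact pow_dvd_pow p (by omega)
      obtain ⟨K, hK⟩ := Sylow.exists_subgroup_card_pow_prime p hdvd
      refine ⟨K.map E.subtype, ?_, ?_⟩
      · rw [Subgroup.card_map_of_injective E.subtype_injective, hK]
      · rintro _ ⟨k, -, rfl⟩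
        exact hE.2 _ k.2
  obtain ⟨Kb, hKb, hKe⟩ := hex
  set K : Subgroup R := Kb.comap (QuotientGroup.mk' T) with hKdef
  have hKc : Nat.card K = p ^ 4 := by
    rw [hKdef, card_comap_mk, hKb, hT]; ring
  have hKp : ∀ x ∈ K, x ^ p ∈ T := by
    intro x hx
    have h1 : (QuotientGroup.mk' T x) ^ p = 1 := hKe _ hx
    rw [← map_pow, QuotientGroup.mk'_apply, QuotientGroup.eq_one_iff] at h1
    exact h1
  have hcl : ⁅⁅commutator K, (⊤ : Subgroup K)⁆, (⊤ : Subgroup K)⁆ = ⊥ :=
    Cfsg.Agent.S0128.class_three_of_card (hR.to_subgroup K) (le_of_eq hKc)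
  have hmul : ∀ a b : K, (a * b) ^ p = a ^ p * b ^ p := by
    intro a b
    apply mul_pow_of_central_pow hp hcl a b
    intro g
    apply Subtype.ext
    have h1 := Subgroup.mem_center_iff.1 (hTZ (hKp b.1 b.2)) g.1
    simpa using h1.symm
  let φ : K →* T := MonoidHom.mk' (fun x => ⟨x.1 ^ p, hKp x.1 x.2⟩)
    (fun a b => Subtype.ext (by simpa using congrArg Subtype.val (hmul a b)))
  have hker : Nat.card φ.ker ≤ p ^ 2 := by
    have h1 : φ.ker.map K.subtype ≤ Subgroup.closure {x : R | x ^ p = 1} := by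
      rintro _ ⟨x, hx, rfl⟩
      apply Subgroup.subset_closure
      have h2 : φ x = 1 := hx
      have h3 := congrArg Subtype.val h2
      simpa [φ] using h3
    have h2 := Subgroup.card_le_of_le h1
    rw [Subgroup.card_map_of_injective K.subtype_injective] at h2
    exact h2.trans hO
  have h1 := Subgroup.card_mul_index φ.ker
  rw [Subgroup.index_ker, hKc] at h1
  have h2 : Nat.card φ.range ≤ p := by
    rw [← hT]; exact Subgroup.card_le_card_group φ.range
  have h3 : p ^ 4 ≤ p ^ 2 * p := by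
    rw [← h1]; exact Nat.mul_le_mul hker h2
  have h4 : p ^ 4 ≤ p ^ 3 := by
    calc p ^ 4 ≤ p ^ 2 * p := h3
      _ = p ^ 3 := by ring
  have := (Nat.pow_le_pow_iff_right hpp.one_lt).1 h4
  omega

theorem aux {p : ℕ} [Fact p.Prime] (hp : 3 < p) : ∀ (n : ℕ) (R : Type u) [Group R] [Finite R],
    IsPGroup p R → Nat.card (Subgroup.closure {x : R | x ^ p = 1}) ≤ p ^ 2 →
    ∀ (T : Subgroup R) [T.Normal], Nat.card T ≤ n →
      Nat.card (Subgroup.closure {x : R ⧸ T | x ^ p = 1}) ≤ p ^ 2 := by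
  have hpp : p.Prime := Fact.out
  intro n
  induction n with
  | zero =>
    intro R _ _ hR hO T _ hT
    have : 0 < Nat.card T := Nat.card_pos
    omega
  | succ n ih =>
    intro R _ _ hR hO T _ hT
    by_cases hTb : T = ⊥
    · subst hTb
      rw [card_omega_congr (QuotientGroup.quotientBot (G := R)) p]
      exact hO
    · haveI : Group.IsNilpotent R := hR.isNilpotent
      have hne := Cfsg.Agent.S0065.normal_inf_center_ne_bot T hTb
      have hpd : p ∣ Nat.card (T ⊓ Subgroup.center R : Subgroup R) := by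
        rcases (hR.to_subgroup (T ⊓ Subgroup.center R)).card_eq_or_dvd with h | h
        · exact absurd (Subgroup.card_eq_one.1 h) hne
        · exact h
      obtain ⟨x, hx⟩ := exists_prime_orderOf_dvd_card' p hpd
      set z : R := x.1 with hz
      have hzo : orderOf z = p := by rw [hz, Subgroup.orderOf_coe, hx]
      have hzT : z ∈ T := x.2.1
      have hzZ : z ∈ Subgroup.center R := x.2.2
      set T₁ : Subgroup R := Subgroup.zpowers z with hT₁
      have hT1Z : T₁ ≤ Subgroup.center R := Subgroup.zpowers_le.2 hzZ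
      have hT1T : T₁ ≤ T := Subgroup.zpowers_le.2 hzT
      haveI hT1n : T₁.Normal := ⟨fun n hn g => by
        have := Subgroup.mem_center_iff.1 (hT1Z hn) g
        rw [this, mul_inv_cancel_right]; exact hn⟩
      have hT1c : Nat.card T₁ = p := by rw [hT₁, Nat.card_zpowers, hzo]
      have h1 := step hp hR hO T₁ hT1c hT1Z
      have hR1 : IsPGroup p (R ⧸ T₁) := hR.to_quotient T₁
      have hcm : (T.map (QuotientGroup.mk' T₁)).comap (QuotientGroup.mk' T₁) = T := by
        apply Subgroup.comap_map_eq_self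
        rw [QuotientGroup.ker_mk']; exact hT1T
      have hc2 : Nat.card T = Nat.card (T.map (QuotientGroup.mk' T₁)) * p := by
        conv_lhs => rw [← hcm]
        rw [card_comap_mk, hT1c]
      have hc3 : Nat.card (T.map (QuotientGroup.mk' T₁)) ≤ n := by
        have h2 : 0 < Nat.card (T.map (QuotientGroup.mk' T₁)) := Nat.card_pos
        have h3 := hpp.two_le
        nlinarith
      haveI : (T.map (QuotientGroup.mk' T₁)).Normal :=
        Subgroup.Normal.map inferInstance _ (QuotientGroup.mk'_surjective T₁)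
      have h2 := ih (R ⧸ T₁) hR1 h1 (T.map (QuotientGroup.mk' T₁)) hc3
      rw [← card_omega_congr (QuotientGroup.quotientQuotientEquivQuotient T₁ T hT1T) p]
      exact h2

/-- For p greater than 3, the bound p² on the order of the subgroup generated by the elements of order dividing p passes from a p-group to all its quotients. -/
theorem result {R : Type*} [Group R] [Finite R] {p : ℕ} [Fact p.Prime] (hp : 3 < p) (hR : IsPGroup p R) (hO : Nat.card ↥(Cfsg.omegaOne p (⊤ : Subgroup R)) ≤ p ^ 2) (T : Subgroup R) [T.Normal] : Nat.card ↥(Cfsg.omegaOne p (⊤ : Subgroup (R ⧸ T))) ≤ p ^ 2 := by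
  rw [omegaOne_top] at hO ⊢
  exact aux hp _ R hR hO T le_rfl

end Cfsg.Agent.S0637
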