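import Cfsg.Statements.S0639
import Cfsg.Agent.S0637
import Cfsg.Agent.S0636
import Cfsg.Agent.S0123
import Mathlib

set_option autoImplicit false
open Cfsg

namespace Cfsg.Agent.S0639

open scoped commutatorElement

universe u

section Struct

variable {R : Type*} [Group R]

/-- `N = ⟨a⟩⟨z⟩` with `z` central is abelian. -/
theorem comm_N (N : Subgroup R) (a z : R) (hz : ∀ g : R, z * g = g * z)
    (hN : ∀ n ∈ N, ∃ s t : ℕ, n = a ^ s * z ^ t) :
    ∀ n ∈ N, ∀ n' ∈ N, n * n' = n' * n := by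
  intro n hn n' hn'
  obtain ⟨s, t, rfl⟩ := hN n hn
  obtain ⟨s', t', rfl⟩ := hN n' hn'
  have haz : Commute a z := (hz a).symm
  exact (((Commute.refl a).pow_pow s s').mul_right (haz.pow_pow s t')).mul_left
    ((haz.symm.pow_pow t s').mul_right ((Commute.refl z).pow_pow t t'))

/-- On an abelian normal subgroup, `n ↦ ⁅n, g⁆` is multiplicative. -/
theorem comm_hom (N : Subgroup R) [hNn : N.Normal] (hc : ∀ n ∈ N, ∀ n' ∈ N, n * n' = n' * n)
    (n n' : R) (hn : n ∈ N) (hn' : n' ∈ N) (g : R) : ⁅n * n', g⁆ = ⁅n, g⁆ * ⁅n', g⁆ := by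
  have h1 : ⁅n', g⁆ ∈ N := by
    have e : ⁅n', g⁆ = n' * (g * n'⁻¹ * g⁻¹) := by rw [commutatorElement_def]; group
    rw [e]
    exact N.mul_mem hn' (hNn.conj_mem _ (N.inv_mem hn') g)
  have h2 : g * n⁻¹ * g⁻¹ ∈ N := hNn.conj_mem _ (N.inv_mem hn) g
  have h3 := hc _ h1 _ h2
  calc ⁅n * n', g⁆ = n * (⁅n', g⁆ * (g * n⁻¹ * g⁻¹)) := by
        simp only [commutatorElement_def]; group
    _ = n * ((g * n⁻¹ * g⁻¹) * ⁅n', g⁆) := by rw [h3]
    _ = ⁅n, g⁆ * ⁅n', g⁆ := by simp only [commutatorElement_def]; group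

theorem comm_pow_hom (N : Subgroup R) [hNn : N.Normal]
    (hc : ∀ n ∈ N, ∀ n' ∈ N, n * n' = n' * n) (n : R) (hn : n ∈ N) (g : R) (s : ℕ) :
    ⁅n ^ s, g⁆ = ⁅n, g⁆ ^ s := by
  induction s with
  | zero => simp
  | succ s ih =>
    rw [pow_succ, comm_hom N hc _ _ (N.pow_mem hn s) hn g, ih, pow_succ]

/-- With `N = ⟨a⟩⟨z⟩` normal, `z` central and `R = N⟨b⟩`, the derived subgroup is generated by
`⁅a, b⁆`. -/
theorem derived_le (N : Subgroup R) [hNn : N.Normal] (a b z : R) (hz : ∀ g : R, z * g = g * z)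
    (ha : a ∈ N) (hzN : z ∈ N) (hN : ∀ n ∈ N, ∃ s t : ℕ, n = a ^ s * z ^ t)
    (hb : ∀ g : R, ∃ n ∈ N, ∃ i : ℕ, g = n * b ^ i) :
    commutator R ≤ Subgroup.zpowers ⁅a, b⁆ := by
  have hc := comm_N N a z hz hN
  have hcN : ⁅a, b⁆ ∈ N := by
    have e : ⁅a, b⁆ = a * (b * a⁻¹ * b⁻¹) := by rw [commutatorElement_def]; group
    rw [e]
    exact N.mul_mem ha (hNn.conj_mem _ (N.inv_mem ha) b)
  have hzc : ∀ (t : ℕ) (g : R), ⁅z ^ t, g⁆ = 1 := by
    intro t g
    rw [commutatorElement_eq_one_iff_mul_comm]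
    exact ((Commute.pow_left (hz g) t)).eq
  -- (ii-a)
  have h2a : ∀ n ∈ N, ⁅n, b⁆ ∈ Subgroup.zpowers ⁅a, b⁆ := by
    intro n hn
    obtain ⟨s, t, rfl⟩ := hN n hn
    rw [comm_hom N hc _ _ (N.pow_mem ha s) (N.pow_mem hzN t) b, hzc, mul_one,
      comm_pow_hom N hc a ha b s]
    exact Subgroup.pow_mem _ (Subgroup.mem_zpowers _) s
  have hcle : Subgroup.zpowers ⁅a, b⁆ ≤ N := Subgroup.zpowers_le.2 hcN
  -- (ii-b)
  have h2b : ∀ x ∈ Subgroup.zpowers ⁅a, b⁆, b * x * b⁻¹ ∈ Subgroup.zpowers ⁅a, b⁆ := by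
    intro x hx
    have h1 : b * x * b⁻¹ = x * ⁅x⁻¹, b⁆ := by simp only [commutatorElement_def]; group
    rw [h1]
    exact Subgroup.mul_mem _ hx (h2a _ (N.inv_mem (hcle hx)))
  -- (ii-c)
  have h2c : ∀ (j : ℕ), ∀ n ∈ N, ⁅n, b ^ j⁆ ∈ Subgroup.zpowers ⁅a, b⁆ := by
    intro j
    induction j with
    | zero =>
      intro n _
      simp
    | succ j ih =>
      intro n hn
      have h1 : ⁅n, b ^ (j + 1)⁆ = ⁅n, b⁆ * (b * ⁅n, b ^ j⁆ * b⁻¹) := by
        rw [pow_succ']; simp only [commutatorElement_def]; group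
      rw [h1]
      exact Subgroup.mul_mem _ (h2a n hn) (h2b _ (ih n hn))
  rw [commutator_def, Subgroup.commutator_le]
  intro g _ h _
  obtain ⟨n, hn, i, rfl⟩ := hb g
  obtain ⟨n', hn', j, rfl⟩ := hb h
  have hP : b ^ i * n' * (b ^ i)⁻¹ ∈ N := hNn.conj_mem _ hn' _
  have hQ : b ^ j * n⁻¹ * (b ^ j)⁻¹ ∈ N := hNn.conj_mem _ (N.inv_mem hn) _
  have hPQ := hc _ hP _ hQ
  have h1 : ⁅n * b ^ i, n' * b ^ j⁆ = ⁅n, b ^ j⁆ * ⁅n', b ^ i⁆⁻¹ := by
    calc ⁅n * b ^ i, n' * b ^ j⁆
        = n * ((b ^ i * n' * (b ^ i)⁻¹) * (b ^ j * n⁻¹ * (b ^ j)⁻¹)) * n'⁻¹ := by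
          simp only [commutatorElement_def]; group
      _ = n * ((b ^ j * n⁻¹ * (b ^ j)⁻¹) * (b ^ i * n' * (b ^ i)⁻¹)) * n'⁻¹ := by rw [hPQ]
      _ = ⁅n, b ^ j⁆ * ⁅n', b ^ i⁆⁻¹ := by simp only [commutatorElement_def]; group
  rw [h1]
  exact Subgroup.mul_mem _ (h2c j n hn) (Subgroup.inv_mem _ (h2c i n' hn'))

end Struct

/-- Lifting a metacyclic structure through a central cyclic subgroup. -/
theorem lift_struct {R : Type*} [Group R] [Finite R] (z : R)
    [hTn : (Subgroup.zpowers z).Normal]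
    (hm : Cfsg.IsMetacyclic (R ⧸ Subgroup.zpowers z)) :
    ∃ (N : Subgroup R) (_ : N.Normal) (a b : R), a ∈ N ∧ z ∈ N ∧
      (∀ n ∈ N, ∃ s t : ℕ, n = a ^ s * z ^ t) ∧
      (∀ g : R, ∃ n ∈ N, ∃ i : ℕ, g = n * b ^ i) := by
  obtain ⟨Nb, hNbn, hNbc, hq⟩ := hm
  have hNn : (Nb.comap (QuotientGroup.mk' (Subgroup.zpowers z))).Normal := hNbn.comap _
  obtain ⟨γ, hγ⟩ := hNbc.exists_generator
  obtain ⟨a, ha⟩ := QuotientGroup.mk'_surjective (Subgroup.zpowers z) γ.1
  obtain ⟨β, hβ⟩ := hq.exists_generator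
  obtain ⟨b', hb'⟩ := QuotientGroup.mk'_surjective Nb β
  obtain ⟨b, hb⟩ := QuotientGroup.mk'_surjective (Subgroup.zpowers z) b'
  refine ⟨Nb.comap (QuotientGroup.mk' (Subgroup.zpowers z)), hNn, a, b, ?_, ?_, ?_, ?_⟩
  · show QuotientGroup.mk' (Subgroup.zpowers z) a ∈ Nb
    rw [ha]; exact γ.2
  · show QuotientGroup.mk' (Subgroup.zpowers z) z ∈ Nb
    have : QuotientGroup.mk' (Subgroup.zpowers z) z = 1 :=
      (QuotientGroup.eq_one_iff z).2 (Subgroup.mem_zpowers z)
    rw [this]; exact one_mem _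
  · intro n hn
    have hn' : QuotientGroup.mk' (Subgroup.zpowers z) n ∈ Nb := hn
    have h1 : (⟨QuotientGroup.mk' (Subgroup.zpowers z) n, hn'⟩ : Nb) ∈ Submonoid.powers γ :=
      mem_powers_iff_mem_zpowers.2 (hγ _)
    obtain ⟨s, hs⟩ := h1
    have hs' : γ.1 ^ s = QuotientGroup.mk' (Subgroup.zpowers z) n := by
      have := congrArg Subtype.val hs
      simpa using this
    have h2 : QuotientGroup.mk' (Subgroup.zpowers z) (a ^ s) =
        QuotientGroup.mk' (Subgroup.zpowers z) n := by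
      rw [map_pow, ha]; exact hs'
    have h3 : (a ^ s)⁻¹ * n ∈ Subgroup.zpowers z := QuotientGroup.eq.1 h2
    obtain ⟨t, ht⟩ := mem_powers_iff_mem_zpowers.2 h3
    refine ⟨s, t, ?_⟩
    have ht' : z ^ t = (a ^ s)⁻¹ * n := ht
    rw [ht']; group
  · intro g
    have h1 : QuotientGroup.mk' Nb (QuotientGroup.mk' (Subgroup.zpowers z) g) ∈
        Submonoid.powers β := mem_powers_iff_mem_zpowers.2 (hβ _)
    obtain ⟨i, hi⟩ := h1
    have hi' : β ^ i = QuotientGroup.mk' Nb (QuotientGroup.mk' (Subgroup.zpowers z) g) := hi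
    refine ⟨g * (b ^ i)⁻¹, ?_, i, by group⟩
    show QuotientGroup.mk' (Subgroup.zpowers z) (g * (b ^ i)⁻¹) ∈ Nb
    apply (QuotientGroup.eq_one_iff _).1
    have : ((QuotientGroup.mk' (Subgroup.zpowers z) (g * (b ^ i)⁻¹) : R ⧸ Subgroup.zpowers z) :
        (R ⧸ Subgroup.zpowers z) ⧸ Nb) =
        QuotientGroup.mk' Nb (QuotientGroup.mk' (Subgroup.zpowers z) (g * (b ^ i)⁻¹)) := rfl
    rw [this, map_mul, map_mul, map_inv, map_inv, map_pow, map_pow, hb, hb', ← hi',
      mul_inv_cancel]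

theorem cyclic_of_omega_le {Q : Type*} [Group Q] [Finite Q] {p : ℕ} [Fact p.Prime] (hp : p ≠ 2)
    (hQ : IsPGroup p Q) (h : Nat.card (Subgroup.closure {x : Q | x ^ p = 1}) ≤ p) :
    IsCyclic Q := by
  by_contra hnc
  have h1 : ¬ IsCyclic (⊤ : Subgroup Q) :=
    fun h' => hnc ((MulEquiv.isCyclic Subgroup.topEquiv).1 h')
  obtain ⟨A, -, -, hA, hAc⟩ := Cfsg.Agent.S0636.result hp hQ ⊤ h1
  have h2 : A ≤ Subgroup.closure {x : Q | x ^ p = 1} :=
    fun x hx => Subgroup.subset_closure (hA.2 x hx)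
  have h3 := Subgroup.card_le_of_le h2
  rw [hAc] at h3
  have hpp : p.Prime := Fact.out
  have h4 : p ^ 2 ≤ p := h3.trans h
  nlinarith [hpp.two_le]

/-- The final step: class at most two with cyclic derived subgroup of exponent `p`. -/
theorem final {R : Type*} [Group R] [Finite R] {p : ℕ} [Fact p.Prime] (hp : 3 < p)
    (hR : IsPGroup p R) (hO : Nat.card (Subgroup.closure {x : R | x ^ p = 1}) ≤ p ^ 2)
    (z : R) (hz : ∀ g : R, z * g = g * z) (hzp : z ^ p = 1)
    (hder : commutator R ≤ Subgroup.zpowers z) : Cfsg.IsMetacyclic R := by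
  have hpp : p.Prime := Fact.out
  have hcl : ⁅commutator R, (⊤ : Subgroup R)⁆ = ⊥ := by
    rw [eq_bot_iff, Subgroup.commutator_le]
    intro c hc g _
    obtain ⟨k, rfl⟩ := Subgroup.mem_zpowers_iff.1 (hder hc)
    rw [Subgroup.mem_bot, commutatorElement_eq_one_iff_mul_comm]
    exact ((Commute.zpow_left (hz g) k)).eq
  have hder' : commutator R ≤ Subgroup.closure {x : R | x ^ p = 1} := by
    intro c hc
    obtain ⟨k, rfl⟩ := Subgroup.mem_zpowers_iff.1 (hder hc)
    apply Subgroup.subset_closure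
    show (z ^ k) ^ p = 1
    rw [← zpow_natCast, ← zpow_mul, mul_comm, zpow_mul, zpow_natCast, hzp, one_zpow]
  have hmul : ∀ x y : R, (x * y) ^ p = x ^ p * y ^ p :=
    Cfsg.Agent.S0123.result hR (Or.inl ⟨by omega, hcl⟩) hder'
  haveI : Nonempty {v : R // commutator R ≤ Subgroup.zpowers v} := ⟨⟨z, hder⟩⟩
  obtain ⟨⟨u, hu⟩, hmax⟩ := Finite.exists_max
    (fun v : {v : R // commutator R ≤ Subgroup.zpowers v} => orderOf v.1)
  by_cases hu1 : u = 1
  · have hall : ∀ v : R, v = 1 := by
      intro v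
      have h1 : commutator R ≤ Subgroup.zpowers v := by
        refine hu.trans ?_
        rw [hu1, Subgroup.zpowers_one_eq_bot]; exact bot_le
      have h2 := hmax ⟨v, h1⟩
      simp only [hu1, orderOf_one] at h2
      have h3 : 0 < orderOf v := orderOf_pos v
      exact orderOf_eq_one_iff.1 (by omega)
    haveI : Subsingleton R := ⟨fun x y => by rw [hall x, hall y]⟩
    exact ⟨⊥, inferInstance, inferInstance, inferInstance⟩
  · haveI hN'n : (Subgroup.zpowers u).Normal := ⟨fun n hn g => by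
      have h1 : g * n * g⁻¹ = ⁅g, n⁆ * n := by simp [commutatorElement_def]
      rw [h1]
      have h2 : ⁅g, n⁆ ∈ commutator R := by
        rw [commutator_def]
        exact Subgroup.commutator_mem_commutator (Subgroup.mem_top g) (Subgroup.mem_top n)
      exact (Subgroup.zpowers u).mul_mem (hu h2) hn⟩
    refine ⟨Subgroup.zpowers u, hN'n, inferInstance, ?_⟩
    apply cyclic_of_omega_le (by omega) (hR.to_quotient (Subgroup.zpowers u))
    let φ : R →* R := MonoidHom.mk' (fun x => x ^ p) hmul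
    have hφ : ∀ x, φ x = x ^ p := fun x => rfl
    have hEle : φ.ker ≤ Subgroup.closure {x : R | x ^ p = 1} :=
      fun x hx => Subgroup.subset_closure (by
        have : φ x = 1 := hx
        rw [hφ] at this
        exact this)
    have hEc : Nat.card φ.ker ≤ p ^ 2 := (Subgroup.card_le_of_le hEle).trans hO
    have hsub : Subgroup.closure {q : R ⧸ Subgroup.zpowers u | q ^ p = 1} ≤
        φ.ker.map (QuotientGroup.mk' (Subgroup.zpowers u)) := by
      rw [Subgroup.closure_le]
      intro q hq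
      obtain ⟨x, rfl⟩ := QuotientGroup.mk'_surjective (Subgroup.zpowers u) q
      have h1 : x ^ p ∈ Subgroup.zpowers u := by
        rw [← QuotientGroup.eq_one_iff]
        have : (QuotientGroup.mk' (Subgroup.zpowers u) x) ^ p = 1 := hq
        rw [← map_pow] at this
        exact this
      obtain ⟨j, hj⟩ := mem_powers_iff_mem_zpowers.2 h1
      have hj' : u ^ j = x ^ p := hj
      have hpj : p ∣ j := by
        by_contra hpj
        obtain ⟨k, hk⟩ := (IsPGroup.iff_orderOf.1 hR) u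
        have hcop : j.Coprime (orderOf u) := by
          rw [hk]
          exact Nat.Coprime.pow_right _ ((Nat.Prime.coprime_iff_not_dvd hpp).2 hpj).symm
        obtain ⟨m, hm⟩ := exists_pow_eq_self_of_coprime hcop
        have hux : u ∈ Subgroup.zpowers (x ^ p) := by
          rw [← hm, hj']
          exact Subgroup.pow_mem _ (Subgroup.mem_zpowers _) m
        have hle1 : Subgroup.zpowers u ≤ Subgroup.zpowers x :=
          (Subgroup.zpowers_le.2 hux).trans
            (Subgroup.zpowers_le.2 (Subgroup.pow_mem _ (Subgroup.mem_zpowers x) p))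
        have h2 := hmax ⟨x, hu.trans hle1⟩
        have h2' : orderOf x ≤ orderOf u := h2
        have h3 : orderOf u ∣ orderOf (x ^ p) := orderOf_dvd_of_mem_zpowers hux
        have hx1 : x ≠ 1 := by
          rintro rfl
          apply hu1
          rw [one_pow, Subgroup.zpowers_one_eq_bot, Subgroup.mem_bot] at hux
          exact hux
        have h4 : orderOf (x ^ p) * p = orderOf x := by
          obtain ⟨k', hk'⟩ := (IsPGroup.iff_orderOf.1 hR) x
          have hk0 : k' ≠ 0 := by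
            rintro rfl
            rw [pow_zero, orderOf_eq_one_iff] at hk'
            exact hx1 hk'
          have hdvd : p ∣ orderOf x := by
            rw [hk']; exact dvd_pow_self p hk0
          rw [orderOf_pow' x hpp.ne_zero, Nat.gcd_eq_right hdvd]
          exact Nat.div_mul_cancel hdvd
        have h5 : orderOf u ≤ orderOf (x ^ p) := Nat.le_of_dvd (orderOf_pos _) h3
        have h6 : 0 < orderOf (x ^ p) := orderOf_pos _
        nlinarith [hpp.two_le]
      obtain ⟨j', rfl⟩ := hpj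
      have h2 : φ (x * (u ^ j')⁻¹) = 1 := by
        rw [hφ, hmul, inv_pow, ← pow_mul, mul_comm j' p, hj', mul_inv_cancel]
      refine ⟨x * (u ^ j')⁻¹, h2, ?_⟩
      rw [QuotientGroup.mk'_apply, QuotientGroup.mk'_apply, QuotientGroup.eq]
      have e : (x * (u ^ j')⁻¹)⁻¹ * x = x⁻¹ * (x * u ^ j' * x⁻¹) * x := by group
      rw [e]
      have h3 : x * u ^ j' * x⁻¹ ∈ Subgroup.zpowers u :=
        hN'n.conj_mem _ (Subgroup.pow_mem _ (Subgroup.mem_zpowers u) j') x
      have h4 := hN'n.conj_mem _ h3 x⁻¹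
      rw [inv_inv] at h4
      exact h4
    have hcard : Nat.card (φ.ker.map (QuotientGroup.mk' (Subgroup.zpowers u))) ≤ p := by
      let ψ : φ.ker →* R ⧸ Subgroup.zpowers u :=
        (QuotientGroup.mk' (Subgroup.zpowers u)).comp φ.ker.subtype
      have hr : ψ.range = φ.ker.map (QuotientGroup.mk' (Subgroup.zpowers u)) := by
        rw [MonoidHom.range_comp, Subgroup.range_subtype]
      have h1 := Subgroup.card_mul_index ψ.ker
      rw [Subgroup.index_ker, hr] at h1
      have hker : p ≤ Nat.card ψ.ker := by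
        obtain ⟨k, hk⟩ := (IsPGroup.iff_orderOf.1 hR) u
        have hk0 : k ≠ 0 := by
          rintro rfl
          rw [pow_zero, orderOf_eq_one_iff] at hk
          exact hu1 hk
        obtain ⟨k1, rfl⟩ := Nat.exists_eq_succ_of_ne_zero hk0
        have hw1 : u ^ (p ^ k1) ≠ 1 := by
          apply pow_ne_one_of_lt_orderOf (pow_ne_zero _ hpp.ne_zero)
          rw [hk]
          exact Nat.pow_lt_pow_right hpp.one_lt (Nat.lt_succ_self k1)
        have hwE : u ^ (p ^ k1) ∈ φ.ker := by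
          show φ (u ^ (p ^ k1)) = 1
          rw [hφ, ← pow_mul, ← pow_succ, ← hk, pow_orderOf_eq_one]
        have hwk : (⟨u ^ (p ^ k1), hwE⟩ : φ.ker) ∈ ψ.ker := by
          show (QuotientGroup.mk' (Subgroup.zpowers u)) (u ^ (p ^ k1)) = 1
          rw [QuotientGroup.mk'_apply, QuotientGroup.eq_one_iff]
          exact Subgroup.pow_mem _ (Subgroup.mem_zpowers u) _
        have hne : ψ.ker ≠ ⊥ := by
          intro h
          rw [h, Subgroup.mem_bot] at hwk
          exact hw1 (congrArg Subtype.val hwk)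
        rcases ((hR.to_subgroup φ.ker).to_subgroup ψ.ker).card_eq_or_dvd with h | h
        · exact absurd (Subgroup.card_eq_one.1 h) hne
        · exact Nat.le_of_dvd Nat.card_pos h
      have h2 : 0 < Nat.card (φ.ker.map (QuotientGroup.mk' (Subgroup.zpowers u))) := Nat.card_pos
      by_contra hcon
      push Not at hcon
      have h3 : p * (p + 1) ≤ Nat.card ψ.ker *
          Nat.card (φ.ker.map (QuotientGroup.mk' (Subgroup.zpowers u))) :=
        Nat.mul_le_mul hker hcon
      rw [h1] at h3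
      nlinarith
    exact (Subgroup.card_le_of_le hsub).trans hcard

theorem aux {p : ℕ} [Fact p.Prime] (hp : 3 < p) : ∀ (n : ℕ) (R : Type u) [Group R] [Finite R],
    Nat.card R ≤ n → IsPGroup p R → Nat.card (Subgroup.closure {x : R | x ^ p = 1}) ≤ p ^ 2 →
    Cfsg.IsMetacyclic R := by
  have hpp : p.Prime := Fact.out
  intro n
  induction n with
  | zero =>
    intro R _ _ hc
    have : 0 < Nat.card R := Nat.card_pos
    omega
  | succ n ih =>
    intro R _ _ hc hR hO
    haveI : Group.IsNilpotent R := hR.isNilpotent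
    by_cases hab : commutator R = ⊥
    · exact final hp hR hO 1 (by simp) (one_pow p) (by rw [hab]; exact bot_le)
    have key : ∀ (V : Subgroup R) [V.Normal], V ≠ ⊥ → ∃ z ∈ V, (∀ g : R, z * g = g * z) ∧
        orderOf z = p ∧ (Cfsg.IsMetacyclic R ∨ ∃ (N : Subgroup R) (_ : N.Normal) (a b : R),
          z ∉ Subgroup.zpowers a ∧ a ∈ N ∧ z ∈ N ∧
          (∀ n ∈ N, ∃ s t : ℕ, n = a ^ s * z ^ t) ∧
          (∀ g : R, ∃ n ∈ N, ∃ i : ℕ, g = n * b ^ i)) := by
      intro V _ hV
      have hne := Cfsg.Agent.S0065.normal_inf_center_ne_bot V hV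
      have hpd : p ∣ Nat.card (V ⊓ Subgroup.center R : Subgroup R) := by
        rcases (hR.to_subgroup (V ⊓ Subgroup.center R)).card_eq_or_dvd with h | h
        · exact absurd (Subgroup.card_eq_one.1 h) hne
        · exact h
      obtain ⟨x, hx⟩ := exists_prime_orderOf_dvd_card' p hpd
      have hzo : orderOf x.1 = p := by rw [Subgroup.orderOf_coe, hx]
      have hzV : x.1 ∈ V := x.2.1
      have hzZ : ∀ g : R, x.1 * g = g * x.1 :=
        fun g => ((Subgroup.mem_center_iff.1 x.2.2) g).symm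
      refine ⟨x.1, hzV, hzZ, hzo, ?_⟩
      have hT1Z : Subgroup.zpowers x.1 ≤ Subgroup.center R := Subgroup.zpowers_le.2 x.2.2
      haveI hTn : (Subgroup.zpowers x.1).Normal := ⟨fun n hn g => by
        have := Subgroup.mem_center_iff.1 (hT1Z hn) g
        rw [this, mul_inv_cancel_right]; exact hn⟩
      have hTc : Nat.card (Subgroup.zpowers x.1) = p := by rw [Nat.card_zpowers, hzo]
      have h1 := Cfsg.Agent.S0637.step hp hR hO (Subgroup.zpowers x.1) hTc hT1Z
      have hR1 : IsPGroup p (R ⧸ Subgroup.zpowers x.1) := hR.to_quotient _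
      have hc1 : Nat.card (R ⧸ Subgroup.zpowers x.1) ≤ n := by
        have h2 := Subgroup.card_eq_card_quotient_mul_card_subgroup (Subgroup.zpowers x.1)
        rw [hTc] at h2
        have h3 : 0 < Nat.card (R ⧸ Subgroup.zpowers x.1) := Nat.card_pos
        nlinarith [hpp.two_le]
      have hm := ih (R ⧸ Subgroup.zpowers x.1) hc1 hR1 h1
      obtain ⟨N, hNn, a, b, ha, hzN, hN, hb⟩ := lift_struct x.1 hm
      by_cases hza : x.1 ∈ Subgroup.zpowers a
      · left
        have hNa : N = Subgroup.zpowers a := by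
          apply le_antisymm
          · intro n hn
            obtain ⟨s, t, rfl⟩ := hN n hn
            exact Subgroup.mul_mem _ (Subgroup.pow_mem _ (Subgroup.mem_zpowers a) s)
              (Subgroup.pow_mem _ hza t)
          · exact Subgroup.zpowers_le.2 ha
        refine ⟨N, hNn, by rw [hNa]; infer_instance, ?_⟩
        refine ⟨⟨QuotientGroup.mk b, fun y => ?_⟩⟩
        obtain ⟨g, rfl⟩ := QuotientGroup.mk_surjective y
        obtain ⟨m, hm, i, rfl⟩ := hb g
        refine ⟨i, ?_⟩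
        show (QuotientGroup.mk b : R ⧸ N) ^ (i : ℤ) = QuotientGroup.mk (m * b ^ i)
        rw [zpow_natCast, QuotientGroup.mk_mul, QuotientGroup.mk_pow,
          (QuotientGroup.eq_one_iff m).2 hm, one_mul]
      · right
        exact ⟨N, hNn, a, b, hza, ha, hzN, hN, hb⟩
    by_cases hexp : ∀ c ∈ commutator R, c ^ p = 1
    · obtain ⟨z, hzV, hzZ, hzo, hcase⟩ := key (commutator R) hab
      rcases hcase with hm | ⟨N, hNn, a, b, hza, ha, hzN, hN, hb⟩
      · exact hm
      · haveI := hNn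
        have hd := derived_le N a b z hzZ ha hzN hN hb
        have hcm : ⁅a, b⁆ ∈ commutator R := by
          rw [commutator_def]
          exact Subgroup.commutator_mem_commutator (Subgroup.mem_top _) (Subgroup.mem_top _)
        have hcp : ⁅a, b⁆ ^ p = 1 := hexp _ hcm
        have h1 : Nat.card (Subgroup.zpowers ⁅a, b⁆) ≤ p := by
          rw [Nat.card_zpowers]
          exact Nat.le_of_dvd hpp.pos (orderOf_dvd_of_pow_eq_one hcp)
        have h2 : Subgroup.zpowers z ≤ commutator R := Subgroup.zpowers_le.2 hzV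
        have h3 : Nat.card (Subgroup.zpowers z) = p := by rw [Nat.card_zpowers, hzo]
        have h4 : Subgroup.zpowers z = commutator R :=
          Subgroup.eq_of_le_of_card_ge h2 (by rw [h3]; exact (Subgroup.card_le_of_le hd).trans h1)
        exact final hp hR hO z hzZ (by rw [← hzo]; exact pow_orderOf_eq_one z) (by rw [h4])
    · push Not at hexp
      obtain ⟨c0, hc0, hc0p⟩ := hexp
      have hVn : (Subgroup.closure {x : R | ∃ c ∈ commutator R, x = c ^ p}).Normal := by
        constructor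
        intro n hn g
        have h1 : (Subgroup.closure {x : R | ∃ c ∈ commutator R, x = c ^ p}).map
            (MulAut.conj g).toMonoidHom ≤
            Subgroup.closure {x : R | ∃ c ∈ commutator R, x = c ^ p} := by
          rw [MonoidHom.map_closure, Subgroup.closure_le]
          rintro _ ⟨x, ⟨c, hc, rfl⟩, rfl⟩
          apply Subgroup.subset_closure
          refine ⟨g * c * g⁻¹, (inferInstance : (commutator R).Normal).conj_mem c hc g, ?_⟩
          simp [conj_pow]
        exact h1 ⟨n, hn, rfl⟩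
      have hV : Subgroup.closure {x : R | ∃ c ∈ commutator R, x = c ^ p} ≠ ⊥ := by
        intro h
        apply hc0p
        have : c0 ^ p ∈ Subgroup.closure {x : R | ∃ c ∈ commutator R, x = c ^ p} :=
          Subgroup.subset_closure ⟨c0, hc0, rfl⟩
        rwa [h, Subgroup.mem_bot] at this
      obtain ⟨z, hzV, hzZ, hzo, hcase⟩ := key _ hV
      rcases hcase with hm | ⟨N, hNn, a, b, hza, ha, hzN, hN, hb⟩
      · exact hm
      · exfalso
        apply hza
        haveI := hNn
        have hdN : commutator R ≤ N := by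
          have hd := derived_le N a b z hzZ ha hzN hN hb
          refine hd.trans (Subgroup.zpowers_le.2 ?_)
          have e : ⁅a, b⁆ = a * (b * a⁻¹ * b⁻¹) := by rw [commutatorElement_def]; group
          rw [e]; exact N.mul_mem ha (hNn.conj_mem _ (N.inv_mem ha) b)
        have hVa : Subgroup.closure {x : R | ∃ c ∈ commutator R, x = c ^ p} ≤
            Subgroup.zpowers a := by
          rw [Subgroup.closure_le]
          rintro _ ⟨c, hc, rfl⟩
          obtain ⟨s, t, rfl⟩ := hN c (hdN hc)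
          have haz : Commute a z := (hzZ a).symm
          have hcomm : Commute (a ^ s) (z ^ t) := haz.pow_pow s t
          rw [SetLike.mem_coe, hcomm.mul_pow, ← pow_mul, ← pow_mul, mul_comm t p, pow_mul z,
            ← hzo, pow_orderOf_eq_one, one_pow, mul_one]
          exact Subgroup.pow_mem _ (Subgroup.mem_zpowers a) _
        exact hVa hzV

/-- Huppert's criterion: for p greater than 3, a p-group whose elements of order dividing p generate a subgroup of order at most p² is metacyclic. -/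
theorem result {R : Type*} [Group R] [Finite R] {p : ℕ} [Fact p.Prime] (hp : 3 < p) (hR : IsPGroup p R) (hO : Nat.card ↥(Cfsg.omegaOne p (⊤ : Subgroup R)) ≤ p ^ 2) : Cfsg.IsMetacyclic R := by
  rw [Cfsg.Agent.S0637.omegaOne_top] at hO
  exact aux hp _ R le_rfl hR hO



end Cfsg.Agent.S0639
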