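import Cfsg.Statements.S0640
import Cfsg.Agent.S0093
import Cfsg.Agent.S0121
import Cfsg.Agent.S0096
import Cfsg.Agent.S0128
import Cfsg.Agent.Lib.Helper17.OmegaAct
import Mathlib

set_option autoImplicit false
open Cfsg

namespace Cfsg.Agent.S0640

open scoped commutatorElement

/-- External form of Gorenstein 5.3.10: for `p` odd, an automorphism of order prime to `p`
fixing all elements of order dividing `p` of an invariant `p`-subgroup `Q` fixes `Q`
pointwise. -/
theorem aut_fix_of_fix_omega {R : Type*} [Group R] [Finite R] {p : ℕ} [Fact p.Prime] (hp : p ≠ 2)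
    (α : MulAut R) (hco : (orderOf α).Coprime p) (Q : Subgroup R) (hQ : IsPGroup p Q)
    (hinv : ∀ β : MulAut R, ∀ x ∈ Q, β x ∈ Q) (hΩ : ∀ x ∈ Q, x ^ p = 1 → α x = x) :
    ∀ x ∈ Q, α x = x := by
  haveI : Finite (R ⋊[MonoidHom.id (MulAut R)] MulAut R) :=
    Finite.of_equiv _ SemidirectProduct.equivProd.symm
  have hconj : ∀ (β : MulAut R) (x : R),
      (SemidirectProduct.inr β : R ⋊[MonoidHom.id (MulAut R)] MulAut R) *
        SemidirectProduct.inl x * (SemidirectProduct.inr β)⁻¹ = SemidirectProduct.inl (β x) := by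
    intro β x
    have := SemidirectProduct.inl_aut (φ := MonoidHom.id (MulAut R)) β x
    rw [← map_inv]; exact this.symm
  have hord : orderOf (SemidirectProduct.inr α : R ⋊[MonoidHom.id (MulAut R)] MulAut R) =
      orderOf α :=
    orderOf_injective (SemidirectProduct.inr : MulAut R →* R ⋊[MonoidHom.id (MulAut R)] MulAut R)
      SemidirectProduct.inr_injective α
  have hQ' : IsPGroup p (Q.map
      (SemidirectProduct.inl : R →* R ⋊[MonoidHom.id (MulAut R)] MulAut R)) := hQ.map _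
  have hnorm : (SemidirectProduct.inr α : R ⋊[MonoidHom.id (MulAut R)] MulAut R) ∈
      Subgroup.normalizer ((Q.map (SemidirectProduct.inl :
        R →* R ⋊[MonoidHom.id (MulAut R)] MulAut R) : Subgroup _) : Set _) := by
    rw [Subgroup.mem_normalizer_iff]
    intro h
    constructor
    · rintro ⟨x, hx, rfl⟩
      rw [hconj]; exact ⟨α x, hinv α x hx, rfl⟩
    · rintro ⟨y, hy, hyx⟩
      have h1 : h = SemidirectProduct.inl (α⁻¹ y) := by
        rw [← hconj α⁻¹ y, map_inv, inv_inv, hyx]; group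
      rw [h1]; exact ⟨α⁻¹ y, hinv α⁻¹ y hy, rfl⟩
  have hΩ' : ∀ x ∈ Q.map (SemidirectProduct.inl :
      R →* R ⋊[MonoidHom.id (MulAut R)] MulAut R), x ^ p = 1 →
      (SemidirectProduct.inr α : R ⋊[MonoidHom.id (MulAut R)] MulAut R) * x =
        x * SemidirectProduct.inr α := by
    rintro _ ⟨x, hx, rfl⟩ hxp
    have h1 : x ^ p = 1 := by
      apply SemidirectProduct.inl_injective (φ := MonoidHom.id (MulAut R))
      rw [map_pow, map_one]; exact hxp
    have h2 := hΩ x hx h1
    have h3 := hconj α x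
    rw [h2] at h3
    exact mul_inv_eq_iff_eq_mul.1 h3
  intro x hx
  have h1 := Cfsg.Agent.Lib.Helper17.OmegaAct.centralizes_of_centralizes_omega hp
    (by rw [hord]; exact hco) _ (Q.map (SemidirectProduct.inl :
      R →* R ⋊[MonoidHom.id (MulAut R)] MulAut R)) rfl hQ' hnorm hΩ'
    (SemidirectProduct.inl x) ⟨x, hx, rfl⟩
  have h2 := hconj α x
  rw [h1, mul_inv_cancel_right] at h2
  exact (SemidirectProduct.inl_injective h2).symm

/-- The subgroup of fixed points of an automorphism. -/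
def fixSub {R : Type*} [Group R] (α : MulAut R) : Subgroup R where
  carrier := {x | α x = x}
  mul_mem' := fun {a b} ha hb => by
    simp only [Set.mem_setOf_eq] at *; rw [map_mul, ha, hb]
  one_mem' := map_one α
  inv_mem' := fun {a} ha => by
    simp only [Set.mem_setOf_eq] at *; rw [map_inv, ha]

theorem mem_fixSub {R : Type*} [Group R] (α : MulAut R) (x : R) : x ∈ fixSub α ↔ α x = x :=
  Iff.rfl

theorem card_modEq_fix {R : Type*} [Group R] [Finite R] (α : MulAut R) (q : ℕ) [Fact q.Prime]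
    (hα : α ^ q = 1) (D : Subgroup R) (hD : ∀ x ∈ D, α x ∈ D) :
    Nat.card D ≡ Nat.card (D ⊓ fixSub α : Subgroup R) [MOD q] := by
  classical
  haveI : Fintype D := Fintype.ofFinite D
  let f : Function.End D := fun x => ⟨α x.1, hD x.1 x.2⟩
  have hfk : ∀ k : ℕ, ∀ x : D, ((f ^ k) x : R) = (α ^ k) x.1 := by
    intro k
    induction k with
    | zero => intro x; rw [pow_zero, pow_zero]; rfl
    | succ k ih =>
      intro x
      rw [pow_succ, pow_succ]
      show ((f ^ k) (f x) : R) = (α ^ k * α) x.1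
      rw [ih]; rfl
  have hf : f ^ q ^ 1 = 1 := by
    rw [pow_one]; funext x; apply Subtype.ext; rw [hfk, hα]; rfl
  have h := Equiv.Perm.card_fixedPoints_modEq (p := q) (n := 1) hf
  rw [← Nat.card_eq_fintype_card, ← Nat.card_eq_fintype_card] at h
  have e : Function.fixedPoints f ≃ (D ⊓ fixSub α : Subgroup R) :=
    { toFun := fun x => ⟨x.1.1, x.1.2, congrArg Subtype.val x.2⟩
      invFun := fun y => ⟨⟨y.1, y.2.1⟩, Subtype.ext y.2.2⟩
      left_inv := fun x => rfl
      right_inv := fun y => rfl }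
  rw [Nat.card_congr e] at h
  exact h

theorem card_fix_lt {R : Type*} [Group R] [Finite R] (α : MulAut R) (D : Subgroup R) (x0 : R)
    (hx0D : x0 ∈ D) (hx0 : α x0 ≠ x0) :
    Nat.card (D ⊓ fixSub α : Subgroup R) < Nat.card D := by
  apply lt_of_le_of_ne (Subgroup.card_le_of_le inf_le_left)
  intro heq
  have h1 := Subgroup.eq_of_le_of_card_ge (inf_le_left : D ⊓ fixSub α ≤ D) (le_of_eq heq.symm)
  have hx : x0 ∈ D ⊓ fixSub α := by rw [h1]; exact hx0D
  exact hx0 hx.2

theorem sq_sub_one (r : ℕ) : (r + 1) ^ 2 - 1 = r * (r + 2) := by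
  have : (r + 1) ^ 2 = r * (r + 2) + 1 := by ring
  rw [this, Nat.add_sub_cancel]

theorem arith {p q : ℕ} (hp : p.Prime) (hq : q.Prime) (hqp : q ≠ p) (j k : ℕ) (hjk : j < k)
    (hk : k ≤ j + 2) (h : p ^ k ≡ p ^ j [MOD q]) : q ∣ p ^ 2 - 1 := by
  have h1 : q ∣ p ^ k - p ^ j :=
    (Nat.modEq_iff_dvd' (Nat.pow_le_pow_right hp.pos hjk.le)).1 h.symm
  obtain ⟨m, rfl⟩ : ∃ m, k = j + m := ⟨k - j, by omega⟩
  have h2 : p ^ (j + m) - p ^ j = p ^ j * (p ^ m - 1) := by
    rw [pow_add, Nat.mul_sub, mul_one]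
  rw [h2] at h1
  have hcop : Nat.Coprime q (p ^ j) := Nat.Coprime.pow_right _ ((Nat.coprime_primes hq hp).2 hqp)
  have h3 : q ∣ p ^ m - 1 := hcop.dvd_of_dvd_mul_left h1
  have hm : m = 1 ∨ m = 2 := by omega
  rcases hm with rfl | rfl
  · rw [pow_one] at h3
    obtain ⟨r, rfl⟩ : ∃ r, p = r + 1 := ⟨p - 1, by have := hp.pos; omega⟩
    rw [sq_sub_one]
    rw [Nat.add_sub_cancel] at h3
    exact Dvd.dvd.mul_right h3 _
  · exact h3

theorem lt_of_dvd {p q : ℕ} (hp : p.Prime) (hp2 : p ≠ 2) (hq : q.Prime)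
    (h : q ∣ p ^ 2 - 1) : q < p := by
  obtain ⟨r, rfl⟩ : ∃ r, p = r + 1 := ⟨p - 1, by have := hp.pos; omega⟩
  rw [sq_sub_one] at h
  have h2le := hp.two_le
  rcases (Nat.Prime.dvd_mul hq).1 h with h1 | h1
  · have hr : 0 < r := by omega
    have := Nat.le_of_dvd hr h1
    omega
  · obtain ⟨m, hm⟩ := h1
    have hodd : ¬ 2 ∣ r + 1 := by
      intro h2
      exact hp2 ((Nat.prime_dvd_prime_iff_eq Nat.prime_two hp).1 h2).symm
    have hm1 : m ≠ 1 := by
      rintro rfl
      rw [mul_one] at hm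
      have h2 : 2 ∣ q := by rw [← hm]; omega
      have h3 := (Nat.prime_dvd_prime_iff_eq Nat.prime_two hq).1 h2
      omega
    have hm0 : m ≠ 0 := by
      rintro rfl
      simp at hm
    have hm2 : 2 ≤ m := by omega
    have h4 : 2 * q ≤ r + 2 := by rw [hm]; nlinarith
    omega

/-- For odd p, a prime q ≠ p dividing the order of the automorphism group of a p-group of rank at most 2 divides p² - 1 and is less than p. -/
theorem result {R : Type*} [Group R] [Finite R] {p : ℕ} [Fact p.Prime] (hp : p ≠ 2) (hR : IsPGroup p R) (hrk : Cfsg.PRankLE p 2 R) (q : ℕ) (hq : q.Prime) (hqp : q ≠ p) (hdvd : q ∣ Nat.card (MulAut R)) : q ∣ p ^ 2 - 1 ∧ q < p := by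
  have hpp : p.Prime := Fact.out
  haveI : Fact q.Prime := ⟨hq⟩
  obtain ⟨α, hα⟩ := exists_prime_orderOf_dvd_card' q hdvd
  have hco : (orderOf α).Coprime p := by rw [hα]; exact (Nat.coprime_primes hq hpp).2 hqp
  have hαq : α ^ q = 1 := by rw [← hα]; exact pow_orderOf_eq_one α
  have hα1 : α ≠ 1 := by
    rintro rfl
    rw [orderOf_one] at hα
    exact hq.one_lt.ne hα
  obtain ⟨H, hH, h1, h2, h3⟩ := Cfsg.Agent.S0093.result hR
  have hHinv : ∀ β : MulAut R, ∀ x ∈ H, β x ∈ H := by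
    intro β x hx
    have h4 := hH.fixed β
    have h' : x ∈ H.comap β.toMonoidHom := by rw [h4]; exact hx
    exact h'
  have hex1 : ∃ x ∈ H, α x ≠ x := by
    by_contra hcon
    push Not at hcon
    exact hα1 (Cfsg.Agent.S0121.result hR H hH h1 h2 h3 α hco hcon)
  have hex2 : ∃ x ∈ H, x ^ p = 1 ∧ α x ≠ x := by
    by_contra hcon
    push Not at hcon
    obtain ⟨x, hx, hne⟩ := hex1
    exact hne (aut_fix_of_fix_omega hp α hco H (hR.to_subgroup H) hHinv
      (fun y hy hyp => hcon y hy hyp) x hx)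
  obtain ⟨x0, hx0H, hx0p, hx0⟩ := hex2
  have hcl : ⁅commutator H, (⊤ : Subgroup H)⁆ = ⊥ := by
    rw [eq_bot_iff, Subgroup.commutator_le]
    intro c hc g _
    rw [Subgroup.mem_bot, commutatorElement_eq_one_iff_mul_comm]
    have hc' : (c : R) ∈ Subgroup.centralizer (H : Set R) := by
      have hle : commutator H ≤ (Subgroup.centralizer (H : Set R)).comap H.subtype := by
        rw [commutator_def, Subgroup.commutator_le]
        intro a _ b _
        have h4 : ⁅(a : R), (b : R)⁆ ∈ ⁅H, (⊤ : Subgroup R)⁆ :=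
          Subgroup.commutator_mem_commutator a.2 (Subgroup.mem_top _)
        exact (h2 h4).2
      exact hle hc
    apply Subtype.ext
    have h5 := (Subgroup.mem_centralizer_iff.1 hc') g.1 g.2
    simpa using h5.symm
  have hDH : ∀ g ∈ Subgroup.closure {x : R | x ∈ H ∧ x ^ p = 1}, g ∈ H ∧ g ^ p = 1 := by
    intro g hg
    induction hg using Subgroup.closure_induction with
    | mem u hu => exact hu
    | one => exact ⟨one_mem H, one_pow p⟩
    | mul a b _ _ ha hb =>
      refine ⟨mul_mem ha.1 hb.1, ?_⟩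
      have h4 := Cfsg.Agent.S0096.mul_pow_eq_one hp hcl ⟨a, ha.1⟩ ⟨b, hb.1⟩
        (Subtype.ext (by simpa using ha.2)) (Subtype.ext (by simpa using hb.2))
      simpa using congrArg Subtype.val h4
    | inv a _ ha => exact ⟨inv_mem ha.1, by rw [inv_pow, ha.2, inv_one]⟩
  have hDinv : ∀ β : MulAut R, ∀ x ∈ Subgroup.closure {x : R | x ∈ H ∧ x ^ p = 1},
      β x ∈ Subgroup.closure {x : R | x ∈ H ∧ x ^ p = 1} := by
    intro β x hx
    have h4 : (Subgroup.closure {x : R | x ∈ H ∧ x ^ p = 1}).map β.toMonoidHom ≤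
        Subgroup.closure {x : R | x ∈ H ∧ x ^ p = 1} := by
      rw [MonoidHom.map_closure, Subgroup.closure_le]
      rintro _ ⟨u, ⟨huH, hup⟩, rfl⟩
      apply Subgroup.subset_closure
      refine ⟨hHinv β u huH, ?_⟩
      show (β u) ^ p = 1
      rw [← map_pow, hup, map_one]
    exact h4 ⟨x, hx, rfl⟩
  set D : Subgroup R := Subgroup.closure {x : R | x ∈ H ∧ x ^ p = 1} with hDdef
  have hx0D : x0 ∈ D := Subgroup.subset_closure ⟨hx0H, hx0p⟩
  have hrk' : ∀ E : Subgroup R, Cfsg.IsElementaryAbelian p E → Nat.card E ≤ p ^ 2 :=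
    fun E hE => hrk E hE.1 hE.2
  have hDc : Nat.card D ≤ p ^ 3 :=
    Cfsg.Agent.S0128.card_le_cube_of_exp (hR.to_subgroup D) (Cfsg.Agent.S0128.rank_sub hrk' D)
      (fun g => Subtype.ext (by simpa using (hDH g.1 g.2).2))
  have hZinv : ∀ x ∈ D ⊓ Subgroup.centralizer (D : Set R),
      α x ∈ D ⊓ Subgroup.centralizer (D : Set R) := by
    intro x hx
    refine ⟨hDinv α x hx.1, ?_⟩
    show α x ∈ Subgroup.centralizer (D : Set R)
    rw [Subgroup.mem_centralizer_iff]
    intro d hd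
    have h4 := (Subgroup.mem_centralizer_iff.1 hx.2) (α⁻¹ d) (hDinv α⁻¹ d hd)
    have h5 := congrArg α h4
    simpa using h5
  have hZne : D ⊓ Subgroup.centralizer (D : Set R) ≠ ⊥ := by
    haveI : Nontrivial D := ⟨⟨⟨x0, hx0D⟩, 1, fun h => hx0 (by
      have h4 : x0 = 1 := congrArg Subtype.val h
      rw [h4]; exact map_one α)⟩⟩
    haveI : Nontrivial (Subgroup.center D) := (hR.to_subgroup D).center_nontrivial
    obtain ⟨c, hc⟩ := exists_ne (1 : Subgroup.center D)
    intro hbot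
    apply hc
    have hcZ : (c.1.1 : R) ∈ D ⊓ Subgroup.centralizer (D : Set R) := by
      refine ⟨c.1.2, ?_⟩
      show (c.1.1 : R) ∈ Subgroup.centralizer (D : Set R)
      rw [Subgroup.mem_centralizer_iff]
      intro d hd
      have h4 := Subgroup.mem_center_iff.1 c.2 ⟨d, hd⟩
      exact congrArg Subtype.val h4
    rw [hbot, Subgroup.mem_bot] at hcZ
    exact Subtype.ext (Subtype.ext hcZ)
  have hZab : IsMulCommutative (D ⊓ Subgroup.centralizer (D : Set R) : Subgroup R) :=
    ⟨⟨fun a b => Subtype.ext ((Subgroup.mem_centralizer_iff.1 b.2.2) a.1 a.2.1)⟩⟩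
  have hZc : Nat.card (D ⊓ Subgroup.centralizer (D : Set R) : Subgroup R) ≤ p ^ 2 :=
    hrk _ hZab (fun a ha => (hDH a ha.1).2)
  have hmain : q ∣ p ^ 2 - 1 := by
    by_cases hZfix : ∀ x ∈ D ⊓ Subgroup.centralizer (D : Set R), α x = x
    · have hcong := card_modEq_fix α q hαq D (hDinv α)
      obtain ⟨k, hk⟩ := IsPGroup.iff_card.1 (hR.to_subgroup D)
      obtain ⟨j, hj⟩ := IsPGroup.iff_card.1 (hR.to_subgroup (D ⊓ fixSub α))
      have hlt := card_fix_lt α D x0 hx0D hx0
      rw [hk, hj] at hcong hlt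
      have hk3 : k ≤ 3 := by
        rw [hk] at hDc; exact (Nat.pow_le_pow_iff_right hpp.one_lt).1 hDc
      have hZle : D ⊓ Subgroup.centralizer (D : Set R) ≤ D ⊓ fixSub α :=
        fun x hx => ⟨hx.1, hZfix x hx⟩
      have hj1 : 1 ≤ j := by
        by_contra h0
        have hj0 : j = 0 := by omega
        rw [hj0, pow_zero] at hj
        have h4 := Subgroup.card_eq_one.1 hj
        rw [h4] at hZle
        exact hZne (le_bot_iff.1 hZle)
      have hjk : j < k := (Nat.pow_lt_pow_iff_right hpp.one_lt).1 hlt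
      exact arith hpp hq hqp j k hjk (by omega) hcong
    · push Not at hZfix
      obtain ⟨x1, hx1Z, hx1⟩ := hZfix
      have hcong := card_modEq_fix α q hαq _ hZinv
      obtain ⟨k, hk⟩ := IsPGroup.iff_card.1
        (hR.to_subgroup (D ⊓ Subgroup.centralizer (D : Set R)))
      obtain ⟨j, hj⟩ := IsPGroup.iff_card.1
        (hR.to_subgroup ((D ⊓ Subgroup.centralizer (D : Set R)) ⊓ fixSub α))
      have hlt := card_fix_lt α _ x1 hx1Z hx1
      rw [hk, hj] at hcong hlt
      have hk2 : k ≤ 2 := by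
        rw [hk] at hZc; exact (Nat.pow_le_pow_iff_right hpp.one_lt).1 hZc
      have hjk : j < k := (Nat.pow_lt_pow_iff_right hpp.one_lt).1 hlt
      exact arith hpp hq hqp j k hjk (by omega) hcong
  exact ⟨hmain, lt_of_dvd hpp hp hq hmain⟩

end Cfsg.Agent.S0640
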