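import Cfsg.Statements.S0641

set_option autoImplicit false
open Cfsg

namespace Cfsg.Agent.S0641

theorem powerClosure_map_le {G H : Type*} [Group G] [Group H] (f : G →* H) (p n : ℕ)
    (K : Subgroup G) : (Cfsg.powerClosure p n K).map f ≤ Cfsg.powerClosure p n (K.map f) := by
  unfold Cfsg.powerClosure
  rw [MonoidHom.map_closure]
  apply Subgroup.closure_mono
  rintro _ ⟨y, ⟨x, hx, rfl⟩, rfl⟩
  exact ⟨f x, Subgroup.mem_map_of_mem f hx, by simp⟩

theorem powerClosure_mono {G : Type*} [Group G] (p n : ℕ) {K L : Subgroup G} (h : K ≤ L) :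
    Cfsg.powerClosure p n K ≤ Cfsg.powerClosure p n L := by
  unfold Cfsg.powerClosure
  apply Subgroup.closure_mono
  rintro _ ⟨x, hx, rfl⟩
  exact ⟨x, h hx, rfl⟩

/-- Regularity of a p-group passes to quotient groups. -/
theorem result {G : Type*} [Group G] {p : ℕ} [Fact p.Prime] (hG : Cfsg.IsRegularPGroup p G) (N : Subgroup G) [N.Normal] : Cfsg.IsRegularPGroup p (G ⧸ N) := by
  refine ⟨hG.1.to_quotient N, ?_⟩
  intro a b n
  obtain ⟨a, rfl⟩ := QuotientGroup.mk_surjective a
  obtain ⟨b, rfl⟩ := QuotientGroup.mk_surjective b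
  obtain ⟨c, hc, hab⟩ := hG.2 a b n
  refine ⟨(QuotientGroup.mk' N) c, ?_, ?_⟩
  · have h1 : (QuotientGroup.mk' N) c ∈ (Cfsg.powerClosure p n ⁅Subgroup.closure ({a, b} : Set G), Subgroup.closure ({a, b} : Set G)⁆).map (QuotientGroup.mk' N) :=
      Subgroup.mem_map_of_mem _ hc
    have h2 := powerClosure_map_le (QuotientGroup.mk' N) p n _ h1
    refine powerClosure_mono p n ?_ h2
    rw [Subgroup.map_commutator, MonoidHom.map_closure]
    simp [Set.image_pair]
  · have := congrArg (QuotientGroup.mk' N) hab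
    simpa using this

end Cfsg.Agent.S0641
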