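import Cfsg.Statements.S0642
import Mathlib

set_option autoImplicit false
open Cfsg
open scoped commutatorElement

namespace Cfsg.Agent.S0642

theorem powerClosure_map_le {G H : Type*} [Group G] [Group H] (f : G →* H) (p n : ℕ)
    (K : Subgroup G) : (Cfsg.powerClosure p n K).map f ≤ Cfsg.powerClosure p n (K.map f) := by
  unfold Cfsg.powerClosure
  rw [MonoidHom.map_closure]
  apply Subgroup.closure_mono
  rintro _ ⟨y, ⟨x, hx, rfl⟩, rfl⟩
  exact ⟨f x, Subgroup.mem_map_of_mem f hx, by simp⟩

theorem powerClosure_mono {G : Type*} [Group G] (p n : ℕ) {K L : Subgroup G} (h : K ≤ L) :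
    Cfsg.powerClosure p n K ≤ Cfsg.powerClosure p n L := by
  unfold Cfsg.powerClosure
  apply Subgroup.closure_mono
  rintro _ ⟨x, hx, rfl⟩
  exact ⟨x, h hx, rfl⟩

/-- Among finite 2-groups the regular ones are exactly the abelian ones. -/
theorem result {G : Type*} [Group G] [Finite G] (hG : IsPGroup 2 G) : Cfsg.IsRegularPGroup 2 G ↔ ∀ a b : G, a * b = b * a := by
  constructor
  · intro hreg a b
    set H := Subgroup.closure ({a, b} : Set G) with hH
    set D := ⁅H, H⁆ with hD
    set K := Cfsg.powerClosure 2 1 D with hK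
    have haH : a ∈ H := Subgroup.subset_closure (by simp)
    have hbH : b ∈ H := Subgroup.subset_closure (by simp)
    have hKn : ∀ h ∈ H, ∀ c ∈ K, h * c * h⁻¹ ∈ K := by
      intro h hh c hc
      have hmapH : H.map (MulAut.conj h).toMonoidHom ≤ H := by
        rintro _ ⟨x, hx, rfl⟩
        exact mul_mem (mul_mem hh hx) (inv_mem hh)
      have h1 : (MulAut.conj h).toMonoidHom c ∈ K.map (MulAut.conj h).toMonoidHom :=
        Subgroup.mem_map_of_mem _ hc
      have h2 := powerClosure_map_le (MulAut.conj h).toMonoidHom 2 1 D h1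
      have h3 : D.map (MulAut.conj h).toMonoidHom ≤ D := by
        rw [hD, Subgroup.map_commutator]
        exact Subgroup.commutator_mono hmapH hmapH
      exact powerClosure_mono 2 1 h3 h2
    obtain ⟨c, hc, hab⟩ := hreg.2 a b 1
    have hba : ⁅b, a⁆ ∈ K := by
      have h1 : b * a = a * b * (b * c * b⁻¹) := by
        have h0 : a * (b * a * b) = a * (a * b * b * c) := by
          simp only [pow_one, pow_two] at hab
          simpa [mul_assoc] using hab
        have h2 := mul_left_cancel h0
        calc b * a = (b * a * b) * b⁻¹ := by group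
          _ = (a * b * b * c) * b⁻¹ := by rw [h2]
          _ = a * b * (b * c * b⁻¹) := by group
      have h2 : ⁅b, a⁆ = (a * b) * (b * c * b⁻¹) * (a * b)⁻¹ := by
        rw [commutatorElement_def]
        calc b * a * b⁻¹ * a⁻¹ = (b * a) * (a * b)⁻¹ := by group
          _ = (a * b * (b * c * b⁻¹)) * (a * b)⁻¹ := by rw [h1]
      rw [h2]
      exact hKn (a * b) (mul_mem haH hbH) _ (hKn b hbH c hc)
    have hab' : ⁅a, b⁆ ∈ K := by
      rw [← commutatorElement_inv]
      exact inv_mem hba
    have hDK : D ≤ K := by
      rw [hD, Subgroup.commutator_le]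
      intro x hx y hy
      refine Subgroup.closure_induction₂ (p := fun x y _ _ => ⁅x, y⁆ ∈ K) ?_ ?_ ?_ ?_ ?_ ?_ ?_ hx hy
      · intro x y hx hy
        have hx' : x = a ∨ x = b := by simpa using hx
        have hy' : y = a ∨ y = b := by simpa using hy
        rcases hx' with hx' | hx' <;> rcases hy' with hy' | hy' <;> rw [hx', hy']
        · rw [commutatorElement_self]; exact one_mem _
        · exact hab'
        · exact hba
        · rw [commutatorElement_self]; exact one_mem _
      · intro x hx
        rw [commutatorElement_one_left]; exact one_mem _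
      · intro x hx
        rw [commutatorElement_one_right]; exact one_mem _
      · intro x y z hx hy hz h1 h2
        have : ⁅x * y, z⁆ = x * ⁅y, z⁆ * x⁻¹ * ⁅x, z⁆ := by
          simp only [commutatorElement_def]; group
        rw [this]
        exact mul_mem (hKn x hx _ h2) h1
      · intro y z x hy hz hx h1 h2
        have : ⁅x, y * z⁆ = ⁅x, y⁆ * (y * ⁅x, z⁆ * y⁻¹) := by
          simp only [commutatorElement_def]; group
        rw [this]
        exact mul_mem h1 (hKn y hy _ h2)
      · intro x y hx hy h1
        have : ⁅x⁻¹, y⁆ = x⁻¹ * ⁅x, y⁆⁻¹ * x⁻¹⁻¹ := by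
          simp only [commutatorElement_def]; group
        rw [this]
        exact hKn x⁻¹ (inv_mem hx) _ (inv_mem h1)
      · intro x y hx hy h1
        have : ⁅x, y⁻¹⁆ = y⁻¹ * ⁅x, y⁆⁻¹ * y⁻¹⁻¹ := by
          simp only [commutatorElement_def]; group
        rw [this]
        exact hKn y⁻¹ (inv_mem hy) _ (inv_mem h1)
    have hDbot : D = ⊥ := by
      by_contra hne
      have hDp : IsPGroup 2 D := hG.to_subgroup D
      have : Nontrivial D := (Subgroup.nontrivial_iff_ne_bot D).mpr hne
      obtain ⟨k, hk⟩ := IsPGroup.iff_card.mp hDp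
      have hk0 : k ≠ 0 := by
        intro h0
        rw [h0, pow_zero] at hk
        have := Finite.one_lt_card (α := D)
        omega
      obtain ⟨M, hM⟩ := Sylow.exists_subgroup_card_pow_prime (G := D) 2 (n := k - 1)
        (by rw [hk]; exact pow_dvd_pow 2 (by omega))
      have hidx : M.index = 2 := by
        have h1 := M.card_mul_index
        rw [hM, hk] at h1
        have h2 : 2 ^ k = 2 ^ (k - 1) * 2 := by
          rw [← pow_succ]; congr 1; omega
        rw [h2] at h1
        exact Nat.eq_of_mul_eq_mul_left (by positivity) h1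
      have hKM : K ≤ M.map D.subtype := by
        rw [hK]
        unfold Cfsg.powerClosure
        rw [Subgroup.closure_le]
        rintro _ ⟨x, hx, rfl⟩
        have h1 := Subgroup.sq_mem_of_index_two hidx ⟨x, hx⟩
        exact ⟨_, h1, by simp⟩
      have hMtop : M = ⊤ := by
        rw [eq_top_iff]
        rintro ⟨d, hd⟩ -
        obtain ⟨m, hm, hmd⟩ := hKM (hDK hd)
        have h1 : m = ⟨d, hd⟩ := Subtype.ext hmd
        rw [← h1]
        exact hm
      rw [hMtop, Subgroup.index_top] at hidx
      omega
    have h1 : ⁅a, b⁆ ∈ D := Subgroup.commutator_mem_commutator haH hbH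
    rw [hDbot, Subgroup.mem_bot] at h1
    exact commutatorElement_eq_one_iff_mul_comm.mp h1
  · intro hcomm
    refine ⟨hG, ?_⟩
    intro a b n
    refine ⟨1, one_mem _, ?_⟩
    rw [mul_one]
    exact (show Commute a b from hcomm a b).mul_pow _

end Cfsg.Agent.S0642
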