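import Mathlib
import Cfsg.Statements.S0644
import Cfsg.Agent.Lib.Helper22.Regular

set_option autoImplicit false
open Cfsg
open scoped commutatorElement

namespace Cfsg.Agent.S0644

open Cfsg.Agent.Lib.Helper22.Regular

universe u
variable {G : Type u} [Group G]

/-- Level-`n` regularity. -/
def Reg (p n : ℕ) (G : Type u) [Group G] : Prop :=
  ∀ a b : G, ∃ c ∈ Cfsg.powerClosure p n ⁅Subgroup.closure ({a, b} : Set G), Subgroup.closure ({a, b} : Set G)⁆,
      (a * b) ^ (p ^ n) = a ^ (p ^ n) * b ^ (p ^ n) * c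

theorem powerClosure_mono (p n : ℕ) {H K : Subgroup G} (h : H ≤ K) :
    Cfsg.powerClosure p n H ≤ Cfsg.powerClosure p n K := by
  unfold Cfsg.powerClosure
  apply Subgroup.closure_mono
  rintro y ⟨x, hx, rfl⟩
  exact ⟨x, h hx, rfl⟩

theorem powerClosure_le (p n : ℕ) (H : Subgroup G) : Cfsg.powerClosure p n H ≤ H := by
  unfold Cfsg.powerClosure
  rw [Subgroup.closure_le]
  rintro y ⟨x, hx, rfl⟩
  exact H.pow_mem hx _

theorem pow_mem_powerClosure (p n : ℕ) {H : Subgroup G} {x : G} (hx : x ∈ H) :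
    x ^ (p ^ n) ∈ Cfsg.powerClosure p n H :=
  Subgroup.subset_closure ⟨x, hx, rfl⟩

theorem closure_pair_le {K : Subgroup G} {x y : G} (hx : x ∈ K) (hy : y ∈ K) :
    Subgroup.closure ({x, y} : Set G) ≤ K := by
  rw [Subgroup.closure_le]
  intro z hz
  rcases hz with rfl | hz
  · exact hx
  · rw [Set.mem_singleton_iff] at hz; subst hz; exact hy

theorem closure_mul_right (x y : G) :
    Subgroup.closure ({x * y, y} : Set G) = Subgroup.closure ({x, y} : Set G) := by
  apply le_antisymm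
  · apply closure_pair_le
    · exact mul_mem (Subgroup.subset_closure (by simp)) (Subgroup.subset_closure (by simp))
    · exact Subgroup.subset_closure (by simp)
  · apply closure_pair_le
    · have h1 : x * y ∈ Subgroup.closure ({x * y, y} : Set G) := Subgroup.subset_closure (by simp)
      have h2 : y ∈ Subgroup.closure ({x * y, y} : Set G) := Subgroup.subset_closure (by simp)
      have := mul_mem h1 (inv_mem h2)
      rwa [mul_inv_cancel_right] at this
    · exact Subgroup.subset_closure (by simp)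

theorem powerClosure_elim {p n : ℕ} {K : Subgroup G}
    (hmul : ∀ x ∈ K, ∀ y ∈ K, ∃ z ∈ K, x ^ (p ^ n) * y ^ (p ^ n) = z ^ (p ^ n)) :
    ∀ d ∈ Cfsg.powerClosure p n K, ∃ w ∈ K, d = w ^ (p ^ n) := by
  intro d hd
  unfold Cfsg.powerClosure at hd
  induction hd using Subgroup.closure_induction with
  | mem d hd => obtain ⟨w, hw, rfl⟩ := hd; exact ⟨w, hw, rfl⟩
  | one => exact ⟨1, one_mem _, (one_pow _).symm⟩
  | mul d d' _ _ ih1 ih2 =>
    obtain ⟨w, hw, rfl⟩ := ih1
    obtain ⟨w', hw', rfl⟩ := ih2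
    obtain ⟨z, hz, hz'⟩ := hmul w hw w' hw'
    exact ⟨z, hz, hz'⟩
  | inv d _ ih1 =>
    obtain ⟨w, hw, rfl⟩ := ih1
    exact ⟨w⁻¹, inv_mem hw, (inv_pow _ _).symm⟩

/-- Products of `p^n`-th powers are `p^n`-th powers. -/
theorem pow_mul_pow {p : ℕ} [Fact p.Prime] [Finite G] (hG : IsPGroup p G) {n : ℕ} (hR : Reg p n G) :
    ∀ m : ℕ, ∀ K : Subgroup G, Nat.card K ≤ m → ∀ x ∈ K, ∀ y ∈ K,
      ∃ z ∈ K, x ^ (p ^ n) * y ^ (p ^ n) = z ^ (p ^ n) := by
  intro m
  induction m with
  | zero =>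
    intro K hK
    exact absurd hK (by have := Nat.card_pos (α := K); omega)
  | succ m ih =>
    intro K hK x hx y hy
    by_cases hcomm : x * y = y * x
    · exact ⟨x * y, mul_mem hx hy, ((Commute.mul_pow hcomm _).symm)⟩
    · obtain ⟨c, hc, hxy⟩ := hR x y
      obtain ⟨L, hL⟩ : ∃ L : Subgroup G, L = Subgroup.closure ({x, y} : Set G) := ⟨_, rfl⟩
      rw [← hL] at hc
      have hLK : L ≤ K := by rw [hL]; exact closure_pair_le hx hy
      have hcomm' : ¬ (x * y) * y = y * (x * y) := by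
        intro h
        apply hcomm
        have : x * y * y = y * x * y := by rw [h, mul_assoc]
        exact mul_right_cancel this
      have hlt := card_lt (x * y) y hG hcomm'
      rw [closure_mul_right, ← hL] at hlt
      obtain ⟨M, hM⟩ : ∃ M : Subgroup G, M = Subgroup.zpowers (x * y) ⊔ ⁅L, L⁆ := ⟨_, rfl⟩
      rw [← hM] at hlt
      have hMm : Nat.card M ≤ m := by
        have := Subgroup.card_le_of_le hLK
        omega
      have hL'M : ⁅L, L⁆ ≤ M := by rw [hM]; exact le_sup_right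
      have hL'm : Nat.card (⁅L, L⁆ : Subgroup G) ≤ m := (Subgroup.card_le_of_le hL'M).trans hMm
      obtain ⟨w, hw, hw'⟩ := powerClosure_elim (ih _ hL'm) c⁻¹ (inv_mem hc)
      have hxyM : x * y ∈ M := by
        rw [hM]
        exact (le_sup_left : Subgroup.zpowers (x * y) ≤ _) (Subgroup.mem_zpowers _)
      obtain ⟨z, hz, hz'⟩ := ih M hMm (x * y) hxyM w (hL'M hw)
      have hML : M ≤ L := by
        rw [hM]
        apply sup_le
        · rw [Subgroup.zpowers_le, hL]
          exact mul_mem (Subgroup.subset_closure (by simp)) (Subgroup.subset_closure (by simp))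
        · exact comm_le_self L
      refine ⟨z, hLK (hML hz), ?_⟩
      rw [← hz', ← hw', hxy, mul_inv_cancel_right]

theorem comm_pow_mem {p n : ℕ} (hR : Reg p n G) (K : Subgroup G) (x v : G) (hx : x ∈ K) (hv : v ∈ K) :
    ⁅x ^ (p ^ n), v⁆ ∈ Cfsg.powerClosure p n ⁅K, K⁆ := by
  obtain ⟨c, hc, hxy⟩ := hR x (v * x⁻¹ * v⁻¹)
  have hx' : v * x⁻¹ * v⁻¹ ∈ K := mul_mem (mul_mem hv (inv_mem hx)) (inv_mem hv)
  have hcK : c ∈ Cfsg.powerClosure p n ⁅K, K⁆ :=
    powerClosure_mono p n (Subgroup.commutator_mono (closure_pair_le hx hx') (closure_pair_le hx hx')) hc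
  have e1 : ⁅x ^ (p ^ n), v⁆ = x ^ (p ^ n) * (v * x⁻¹ * v⁻¹) ^ (p ^ n) := by
    rw [commutatorElement_def, conj_pow, inv_pow]
    simp only [mul_assoc]
  have e2 : x * (v * x⁻¹ * v⁻¹) = ⁅x, v⁆ := by
    rw [commutatorElement_def]; simp only [mul_assoc]
  rw [e1]
  have e3 : x ^ (p ^ n) * (v * x⁻¹ * v⁻¹) ^ (p ^ n) = ⁅x, v⁆ ^ (p ^ n) * c⁻¹ := by
    rw [← e2, hxy, mul_inv_cancel_right]
  rw [e3]
  exact mul_mem (pow_mem_powerClosure p n (Subgroup.commutator_mem_commutator hx hv)) (inv_mem hcK)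

theorem comm_powerClosure_le {p : ℕ} [Fact p.Prime] [Finite G] (hG : IsPGroup p G) {n : ℕ} (hR : Reg p n G)
    (K : Subgroup G) :
    ⁅Cfsg.powerClosure p n K, Cfsg.powerClosure p n K⁆ ≤ Cfsg.powerClosure p n ⁅K, K⁆ := by
  rw [Subgroup.commutator_le]
  intro g1 h1 g2 h2
  obtain ⟨x, hx, rfl⟩ := powerClosure_elim (pow_mul_pow hG hR _ K le_rfl) g1 h1
  exact comm_pow_mem hR K x g2 hx (powerClosure_le p n K h2)

/-- In a regular p-group the p^n-th powers of the elements of any subgroup H form a subgroup, whose derived subgroup is contained in the subgroup generated by the p^n-th powers of elements of the derived subgroup of H. -/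
theorem result {G : Type*} [Group G] [Finite G] {p : ℕ} [Fact p.Prime] (hG : Cfsg.IsRegularPGroup p G) (H : Subgroup G) (n : ℕ) : {y : G | ∃ x ∈ H, y = x ^ (p ^ n)} = (Cfsg.powerClosure p n H : Set G) ∧ ⁅Cfsg.powerClosure p n H, Cfsg.powerClosure p n H⁆ ≤ Cfsg.powerClosure p n ⁅H, H⁆ := by
  have hR : Reg p n G := fun a b => hG.2 a b n
  refine ⟨?_, comm_powerClosure_le hG.1 hR H⟩
  apply Set.Subset.antisymm
  · rintro y ⟨x, hx, rfl⟩
    exact pow_mem_powerClosure p n hx
  · intro d hd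
    obtain ⟨w, hw, rfl⟩ := powerClosure_elim (pow_mul_pow hG.1 hR _ H le_rfl) d hd
    exact ⟨w, hw, rfl⟩

end Cfsg.Agent.S0644
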