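import Mathlib
import Cfsg.Statements.S0643
import Cfsg.Agent.S0644

set_option autoImplicit false
open Cfsg
open scoped commutatorElement

namespace Cfsg.Agent.S0643

open Cfsg.Agent.S0644 Cfsg.Agent.Lib.Helper22.Regular

universe u
variable {G : Type u} [Group G]

theorem reg_all {p : ℕ} [Fact p.Prime] [Finite G] (hG : IsPGroup p G)
    (h1 : ∀ a b : G, ∃ c ∈ ⁅Subgroup.closure ({a, b} : Set G), Subgroup.closure ({a, b} : Set G)⁆,
      (a * b) ^ p = a ^ p * b ^ p * c ^ p) : ∀ n : ℕ, Reg p n G := by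
  intro n
  induction n with
  | zero =>
    intro a b
    exact ⟨1, one_mem _, by simp⟩
  | succ m ih =>
    intro a b
    obtain ⟨L, hL⟩ : ∃ L : Subgroup G, L = Subgroup.closure ({a, b} : Set G) := ⟨_, rfl⟩
    rw [← hL]
    have haL : a ∈ L := by rw [hL]; exact Subgroup.subset_closure (by simp)
    have hbL : b ∈ L := by rw [hL]; exact Subgroup.subset_closure (by simp)
    obtain ⟨c, hc, hab⟩ := ih a b
    rw [← hL] at hc
    have elim : ∀ K : Subgroup G, ∀ d ∈ Cfsg.powerClosure p m K, ∃ w ∈ K, d = w ^ (p ^ m) := fun K =>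
      powerClosure_elim (pow_mul_pow hG ih _ K le_rfl)
    obtain ⟨s, hs, rfl⟩ := elim _ c hc
    have hsL : s ∈ L := comm_le_self L hs
    obtain ⟨c₁, hc₁, e₁⟩ := h1 (a ^ (p ^ m) * b ^ (p ^ m)) (s ^ (p ^ m))
    obtain ⟨c₂, hc₂, e₂⟩ := h1 (a ^ (p ^ m)) (b ^ (p ^ m))
    have hT : ∀ u v : G, u ∈ Cfsg.powerClosure p m L → v ∈ Cfsg.powerClosure p m L →
        ∀ d ∈ ⁅Subgroup.closure ({u, v} : Set G), Subgroup.closure ({u, v} : Set G)⁆,
          d ^ p ∈ Cfsg.powerClosure p (m + 1) ⁅L, L⁆ := by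
      intro u v hu hv d hd
      have hd1 : d ∈ ⁅Cfsg.powerClosure p m L, Cfsg.powerClosure p m L⁆ :=
        Subgroup.commutator_mono (closure_pair_le hu hv) (closure_pair_le hu hv) hd
      have hd2 := comm_powerClosure_le hG ih L hd1
      obtain ⟨t, ht, rfl⟩ := elim _ d hd2
      rw [← pow_mul, ← pow_succ]
      exact pow_mem_powerClosure p (m + 1) ht
    have hu : a ^ (p ^ m) ∈ Cfsg.powerClosure p m L := pow_mem_powerClosure p m haL
    have hv : b ^ (p ^ m) ∈ Cfsg.powerClosure p m L := pow_mem_powerClosure p m hbL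
    have hw : s ^ (p ^ m) ∈ Cfsg.powerClosure p m L := pow_mem_powerClosure p m hsL
    refine ⟨c₂ ^ p * s ^ (p ^ (m + 1)) * c₁ ^ p, ?_, ?_⟩
    · exact mul_mem (mul_mem (hT _ _ hu hv c₂ hc₂) (pow_mem_powerClosure p (m + 1) hs))
        (hT _ _ (mul_mem hu hv) hw c₁ hc₁)
    · rw [pow_succ, pow_mul, hab, e₁, e₂]
      simp only [← pow_mul, mul_assoc]

/-- A finite p-group G is regular if and only if for all a, b in G there is c in the derived subgroup of the subgroup generated by a and b with (ab)^p = a^p b^p c^p. -/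
theorem result {G : Type*} [Group G] [Finite G] {p : ℕ} [Fact p.Prime] (hG : IsPGroup p G) : Cfsg.IsRegularPGroup p G ↔ ∀ a b : G, ∃ c ∈ ⁅Subgroup.closure ({a, b} : Set G), Subgroup.closure ({a, b} : Set G)⁆, (a * b) ^ p = a ^ p * b ^ p * c ^ p := by
  constructor
  · intro hreg a b
    obtain ⟨c, hc, hab⟩ := hreg.2 a b 1
    have hR : Reg p 1 G := fun a b => hreg.2 a b 1
    obtain ⟨w, hw, rfl⟩ := powerClosure_elim (pow_mul_pow hG hR _ _ le_rfl) c hc
    refine ⟨w, hw, ?_⟩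
    rw [pow_one] at hab
    exact hab
  · intro h1
    exact ⟨hG, fun a b n => reg_all hG h1 n a b⟩

end Cfsg.Agent.S0643
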