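import Cfsg.Statements.S0645
import Cfsg.Agent.S0127
import Cfsg.Agent.Lib.Lead.CyclicMax

set_option autoImplicit false
open Cfsg

namespace Cfsg.Agent.S0645

open Cfsg.Agent.Lib.Lead.CyclicMax
open scoped commutatorElement

/-- Classification of p-groups with a cyclic maximal subgroup, odd p: a non-abelian one of order p^n has generators a of order p^(n-1) and b of order p, b outside the cyclic subgroup generated by a, with b a b⁻¹ = a^(1 + p^(n-2)). -/
theorem result {G : Type*} [Group G] [Finite G] {p : ℕ} [Fact p.Prime] (hp : p ≠ 2) (n : ℕ) (hn : 3 ≤ n) (hG : Nat.card G = p ^ n) (C : Subgroup G) (hC : IsCyclic C) (hCi : C.index = p) (hna : ∃ x y : G, x * y ≠ y * x) : ∃ a b : G, orderOf a = p ^ (n - 1) ∧ orderOf b = p ∧ b ∉ Subgroup.zpowers a ∧ b * a * b⁻¹ = a ^ (1 + p ^ (n - 2)) := by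
  have hpp : p.Prime := Fact.out
  obtain ⟨e, rfl⟩ : ∃ e, n = e + 2 := ⟨n - 2, by omega⟩
  show ∃ a b : G, orderOf a = p ^ (e + 1) ∧ orderOf b = p ∧ b ∉ Subgroup.zpowers a ∧
    b * a * b⁻¹ = a ^ (1 + p ^ e)
  have hR : IsPGroup p G := IsPGroup.of_card hG
  obtain ⟨a, hCz, hoa'⟩ := exists_generator hpp (e + 2) hG C hC hCi
  have hoa : orderOf a = p ^ (e + 1) := by
    have h1 : orderOf a * p = p ^ (e + 1) * p := by rw [hoa', pow_succ]
    exact Nat.eq_of_mul_eq_mul_right hpp.pos h1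
  have hnc : ¬ IsCyclic G := by
    intro h
    obtain ⟨u, v, huv⟩ := hna
    exact huv ((IsCyclic.isMulCommutative (α := G)).is_comm.comm u v)
  obtain ⟨hΩe, hΩc⟩ := S0127.result hp hR hnc C hC hCi
  subst hCz
  haveI hCn : (Subgroup.zpowers a).Normal := by
    apply Subgroup.normal_of_index_eq_minFac_card
    rw [hCi, hG, Nat.pow_minFac (by omega), hpp.minFac_eq]
  haveI hΩn : (Subgroup.closure {x : G | x ^ p = 1}).Normal := by
    constructor
    intro y hy g
    induction hy using Subgroup.closure_induction with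
    | mem y hy =>
      exact Subgroup.subset_closure
        (show (g * y * g⁻¹) ^ p = 1 by rw [conj_pow, hy, mul_one, mul_inv_cancel])
    | one => rw [mul_one, mul_inv_cancel]; exact Subgroup.one_mem _
    | mul u v _ _ hu hv =>
      have h1 : g * (u * v) * g⁻¹ = (g * u * g⁻¹) * (g * v * g⁻¹) := by group
      rw [h1]; exact Subgroup.mul_mem _ hu hv
    | inv u _ hu =>
      have h1 : g * u⁻¹ * g⁻¹ = (g * u * g⁻¹)⁻¹ := by group
      rw [h1]; exact Subgroup.inv_mem _ hu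
  have hΩC : ¬ Subgroup.closure {x : G | x ^ p = 1} ≤ Subgroup.zpowers a := by
    intro hle
    haveI : IsCyclic (Subgroup.closure {x : G | x ^ p = 1}) := by
      haveI : IsCyclic ((Subgroup.closure {x : G | x ^ p = 1}).subgroupOf (Subgroup.zpowers a)) :=
        inferInstance
      exact isCyclic_of_surjective (Subgroup.subgroupOfEquivOfLe hle)
        (Subgroup.subgroupOfEquivOfLe hle).surjective
    obtain ⟨g, hg⟩ := IsCyclic.exists_generator (α := Subgroup.closure {x : G | x ^ p = 1})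
    have hgo : orderOf g = p ^ 2 := by rw [orderOf_eq_card_of_forall_mem_zpowers hg, hΩc]
    have hgp : g ^ p = 1 := Subtype.ext (by rw [Subgroup.coe_pow]; exact hΩe.2 _ g.2)
    have h1 := orderOf_dvd_of_pow_eq_one hgp
    rw [hgo] at h1
    have h2 := Nat.le_of_dvd hpp.pos h1
    have h3 : p < p ^ 2 := by rw [pow_two]; exact lt_mul_self hpp.one_lt
    omega
  obtain ⟨b, hbΩ, hbC⟩ : ∃ b ∈ Subgroup.closure {x : G | x ^ p = 1}, b ∉ Subgroup.zpowers a := by
    by_contra hcon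
    push Not at hcon
    exact hΩC hcon
  have hbp : b ^ p = 1 := hΩe.2 b hbΩ
  have hcdef : a⁻¹ * (b * a * b⁻¹) = ⁅a⁻¹, b⁆ := by rw [commutatorElement_def]; group
  have hccen : a⁻¹ * (b * a * b⁻¹) ∈ Subgroup.center G := by
    rw [hcdef]
    exact S0127.comm_mem_center_of_card_sq hR _ hΩc a⁻¹ b hbΩ
  have hcΩ : a⁻¹ * (b * a * b⁻¹) ∈ Subgroup.closure {x : G | x ^ p = 1} := by
    rw [hcdef, commutatorElement_def]
    exact Subgroup.mul_mem _ (hΩn.conj_mem b hbΩ a⁻¹) (Subgroup.inv_mem _ hbΩ)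
  have hcp : (a⁻¹ * (b * a * b⁻¹)) ^ p = 1 := hΩe.2 _ hcΩ
  have hcC : a⁻¹ * (b * a * b⁻¹) ∈ Subgroup.zpowers a :=
    Subgroup.mul_mem _ (Subgroup.inv_mem _ (Subgroup.mem_zpowers a))
      (hCn.conj_mem a (Subgroup.mem_zpowers a) b)
  obtain ⟨t, ht⟩ := exists_nat_pow hcC
  have hba : b * a * b⁻¹ = a * a ^ t := by rw [← ht]; group
  rw [ht] at hccen hcp
  have htdvd : p ^ e ∣ t := by
    have h1 : a ^ (t * p) = 1 := by rw [pow_mul, hcp]
    have h2 : p ^ (e + 1) ∣ t * p := hoa ▸ orderOf_dvd_of_pow_eq_one h1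
    rw [pow_succ] at h2
    exact Nat.dvd_of_mul_dvd_mul_right hpp.pos h2
  obtain ⟨j, rfl⟩ := htdvd
  have hc1 : a ^ (p ^ e * j) ≠ 1 := by
    intro h
    have h1 : b * a * b⁻¹ = a := by rw [hba, h, mul_one]
    obtain ⟨u, v, huv⟩ := hna
    exact huv (comm_of_conj_eq hpp a b hCi hbC h1 u v)
  have hpj : ¬ p ∣ j := by
    rintro ⟨s, rfl⟩
    apply hc1
    rw [← orderOf_dvd_iff_pow_eq_one, hoa, pow_succ]
    exact ⟨s, by ring⟩
  have hcop : Nat.Coprime j p := ((Nat.Prime.coprime_iff_not_dvd hpp).2 hpj).symm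
  obtain ⟨i, -, hi⟩ := Nat.exists_mul_mod_eq_one_of_coprime hcop hpp.one_lt
  have hbi : ∀ m : ℕ, b ^ m * a * (b ^ m)⁻¹ = a * (a ^ (p ^ e * j)) ^ m := by
    intro m
    induction m with
    | zero => simp
    | succ m ih =>
      have h1 : b ^ (m + 1) * a * (b ^ (m + 1))⁻¹ = b * (b ^ m * a * (b ^ m)⁻¹) * b⁻¹ := by
        rw [pow_succ']; group
      rw [h1, ih]
      have h2 : b * (a * (a ^ (p ^ e * j)) ^ m) * b⁻¹
          = (b * a * b⁻¹) * (b * (a ^ (p ^ e * j)) ^ m * b⁻¹) := by group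
      have h3 : b * (a ^ (p ^ e * j)) ^ m * b⁻¹ = (a ^ (p ^ e * j)) ^ m := by
        rw [Subgroup.mem_center_iff.1 (Subgroup.pow_mem _ hccen m) b, mul_inv_cancel_right]
      rw [h2, h3, hba, mul_assoc, ← pow_succ']
  have hci : (a ^ (p ^ e * j)) ^ i = a ^ p ^ e := by
    rw [← pow_mul, pow_eq_pow_iff_modEq, hoa]
    have h1 : j * i ≡ 1 [MOD p] := by
      show j * i % p = 1 % p
      rw [hi, Nat.mod_eq_of_lt hpp.one_lt]
    have h2 := Nat.ModEq.mul_left' (p ^ e) h1
    rw [mul_one, ← pow_succ, ← mul_assoc] at h2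
    exact h2
  have hbeq : (b ^ i) ^ j = b := by
    have h1 : j * i = p * (j * i / p) + 1 := by
      have h2 := Nat.div_add_mod (j * i) p
      rw [hi] at h2
      exact h2.symm
    rw [← pow_mul, mul_comm i j, h1, pow_succ, pow_mul, hbp, one_pow, one_mul]
  have hbiC : b ^ i ∉ Subgroup.zpowers a := by
    intro h
    apply hbC
    rw [← hbeq]
    exact Subgroup.pow_mem _ h j
  refine ⟨a, b ^ i, hoa, ?_, hbiC, ?_⟩
  · apply orderOf_eq_prime
    · rw [← pow_mul, mul_comm, pow_mul, hbp, one_pow]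
    · intro h
      exact hbiC (h ▸ Subgroup.one_mem _)
  · rw [hbi, hci, pow_add, pow_one]

end Cfsg.Agent.S0645
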