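import Mathlib
import Cfsg.Statements.S0656
import Cfsg.Agent.Lib.Helper9.Dickson
import Cfsg.Agent.Lib.Helper9.Cores

set_option autoImplicit false
open Cfsg

namespace Cfsg.Agent.S0656

/-- For odd p, a faithful group on an elementary abelian p-group with no nontrivial normal p-subgroup in which some nontrivial p-element acts quadratically has a section isomorphic to SL(2, p). -/
theorem result {G : Type*} [Group G] [Finite G] {p : ℕ} [Fact p.Prime] (hp : p ≠ 2) (V H : Subgroup G) (hV : Cfsg.IsElementaryAbelian p V) (hHV : H ≤ Subgroup.normalizer (V : Set G)) (hf : H ⊓ Subgroup.centralizer (V : Set G) = ⊥) (hO : Cfsg.pCore p ↥H = ⊥) (x : G) (hxH : x ∈ H) (hx1 : x ≠ 1) (hxp : ∃ k : ℕ, orderOf x = p ^ k) (hq : ⁅⁅V, Subgroup.zpowers x⁆, Subgroup.zpowers x⁆ = ⊥) : ∃ (K L : Subgroup G) (hL : (L.subgroupOf K).Normal), K ≤ H ∧ Nonempty ((K ⧸ L.subgroupOf K) ≃* Matrix.SpecialLinearGroup (Fin 2) (ZMod p)) := by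
  classical
  obtain ⟨hVc, hVp⟩ := hV
  have hq' := Cfsg.Agent.Lib.Lead.QuadBridge.quad_of_comm V x hq
  by_cases hpair : ∀ g ∈ H, ∀ k ∈ Subgroup.closure ({x, g * x * g⁻¹} : Set G),
      ∃ j : ℕ, k ^ p ^ j ∈ Subgroup.centralizer (V : Set G)
  · exfalso
    obtain ⟨D, hDH, hHD, _, hxD, hDp⟩ :=
      Cfsg.Agent.Lib.Lead.QuadNS2.stable_bridge_gen p V H hHV x hxH hpair
    have hn : (D.subgroupOf H).Normal := by
      constructor
      intro d hd g
      rw [Subgroup.mem_subgroupOf] at hd ⊢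
      exact (Subgroup.mem_normalizer_iff.mp (hHD g.2) d).mp hd
    have hpg : IsPGroup p (D.subgroupOf H) := by
      rintro ⟨d, hd⟩
      rw [Subgroup.mem_subgroupOf] at hd
      obtain ⟨j, hj⟩ := hDp d hd
      refine ⟨j, ?_⟩
      have h1 : (d : G) ^ p ^ j ∈ H ⊓ Subgroup.centralizer (V : Set G) :=
        Subgroup.mem_inf.mpr ⟨H.pow_mem d.2 _, hj⟩
      rw [hf, Subgroup.mem_bot] at h1
      apply Subtype.ext
      apply Subtype.ext
      exact h1
    have hle := Cfsg.Agent.Lib.Helper9.le_pCore hn hpg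
    rw [hO] at hle
    have hx' : (⟨x, hxH⟩ : H) ∈ D.subgroupOf H := Subgroup.mem_subgroupOf.mpr hxD
    have h2 := hle hx'
    rw [Subgroup.mem_bot] at h2
    exact hx1 (congrArg Subtype.val h2)
  · push_neg at hpair
    obtain ⟨g, hgH, k, hk, hk'⟩ := hpair
    have hgx : g * x * g⁻¹ ∈ H := H.mul_mem (H.mul_mem hgH hxH) (H.inv_mem hgH)
    rcases Cfsg.Agent.Lib.Helper9.Dickson.pair_bridge_sl2 p hp V hVc hVp x (g * x * g⁻¹)
      (hHV hxH) (hHV hgx) hq' (Cfsg.Agent.Lib.Lead.QuadBridge.quad_conj V x g (hHV hgH) hq')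
      with h | ⟨K, φ, hK, hφ⟩
    · exfalso
      obtain ⟨j, hj⟩ := h k hk
      exact hk' j hj
    · have hKH : K ≤ H := by
        refine hK.trans ?_
        rw [Subgroup.closure_le]
        rintro y (rfl | rfl)
        · exact hxH
        · exact hgx
      obtain ⟨L, hL, hiso⟩ := Cfsg.Agent.Lib.Helper9.Dickson.section_of_surj K φ hφ
      exact ⟨K, L, hL, hKH, hiso⟩

end Cfsg.Agent.S0656
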