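import Mathlib
import Cfsg.Statements.S0657
import Cfsg.Agent.Lib.Helper9.PStab

set_option autoImplicit false
open Cfsg

namespace Cfsg.Agent.S0657

open Cfsg.Agent.Lib.Helper9.PStab

/-- For odd p, a group that fails to be p-stable modulo its largest normal subgroup of order prime to p, and whose upper p-series does not stop there, has a section isomorphic to SL(2, p). -/
theorem result {G : Type*} [Group G] [Finite G] {p : ℕ} [Fact p.Prime] (hp : p ≠ 2) (hO : Cfsg.pPrimeCore p G < Cfsg.pPrimePCore p G) (hns : ¬ Cfsg.IsPStable p (G ⧸ Cfsg.pPrimeCore p G)) : ∃ (K L : Subgroup G) (hL : (L.subgroupOf K).Normal), K ≤ ⊤ ∧ Nonempty ((K ⧸ L.subgroupOf K) ≃* Matrix.SpecialLinearGroup (Fin 2) (ZMod p)) := by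
  have hpp : p.Prime := Fact.out
  have hodd : Odd p := hpp.odd_of_ne_two hp
  have hcore : Cfsg.pCore p (G ⧸ Cfsg.pPrimeCore p G) ≠ ⊥ := by
    intro hbot
    have h1 : Cfsg.pPrimePCore p G = Cfsg.pPrimeCore p G := by
      unfold Cfsg.pPrimePCore
      rw [hbot, MonoidHom.comap_bot, QuotientGroup.ker_mk']
    exact absurd h1 (ne_of_gt hO)
  have hS : HasSL2 p (G ⧸ Cfsg.pPrimeCore p G) := by
    by_contra hfree
    apply hns
    refine ⟨hodd, hcore, ?_⟩
    intro A P hA hP hnorm _ _ hquad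
    rintro _ ⟨a, ha, rfl⟩
    have haA : (a : G ⧸ Cfsg.pPrimeCore p G) ∈ A := Subgroup.mem_subgroupOf.mp ha
    have hq : ⁅⁅P, Subgroup.zpowers (a : G ⧸ Cfsg.pPrimeCore p G)⁆,
        Subgroup.zpowers (a : G ⧸ Cfsg.pPrimeCore p G)⁆ = ⊥ := by
      rw [eq_bot_iff, ← hquad]
      have hz : Subgroup.zpowers (a : G ⧸ Cfsg.pPrimeCore p G) ≤ A :=
        (Subgroup.zpowers_le).mpr haA
      exact Subgroup.commutator_mono (Subgroup.commutator_mono le_rfl hz) hz
    have h1 := pstab_normalizer p hp P hP (a : G ⧸ Cfsg.pPrimeCore p G) a.2 hq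
      (fun hS => hfree (HasSL2.of_injective (Subgroup.subtype _) (Subgroup.subtype_injective _) hS))
    exact h1
  have hS' : HasSL2 p G :=
    HasSL2.of_surjective (QuotientGroup.mk' _) (QuotientGroup.mk'_surjective _) hS
  obtain ⟨K, L, hL, hiso⟩ := hS'.involves
  exact ⟨K, L, hL, le_top, hiso⟩

end Cfsg.Agent.S0657
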