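import Cfsg.Statements.S0660
import Mathlib
import Cfsg.Agent.S0051

set_option autoImplicit false
open Cfsg

namespace Cfsg.Agent.S0660

/-- Under a coprime action on an abelian group, an invariant subgroup that is complemented admits an invariant complement. -/
theorem result {G : Type*} [Group G] [Finite G] (V A U : Subgroup G) (hVab : IsMulCommutative V) (hAV : A ≤ Subgroup.normalizer (V : Set G)) (hcop : (Nat.card A).Coprime (Nat.card V)) (hUV : U ≤ V) (hAU : A ≤ Subgroup.normalizer (U : Set G)) (W : Subgroup G) (hWV : W ≤ V) (hUW : U ⊓ W = ⊥) (hUWV : U ⊔ W = V) : ∃ W' : Subgroup G, W' ≤ V ∧ A ≤ Subgroup.normalizer (W' : Set G) ∧ U ⊓ W' = ⊥ ∧ U ⊔ W' = V := by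
  have hcomm : ∀ x ∈ V, ∀ y ∈ V, x * y = y * x := fun x hx y hy =>
    congrArg Subtype.val (hVab.is_comm.comm ⟨x, hx⟩ ⟨y, hy⟩)
  have hVX : V ≤ V ⊔ A := le_sup_left
  have hAX : A ≤ V ⊔ A := le_sup_right
  have hUX : U ≤ V ⊔ A := hUV.trans hVX
  have hWX : W ≤ V ⊔ A := hWV.trans hVX
  have hXNV : V ⊔ A ≤ Subgroup.normalizer (V : Set G) := sup_le Subgroup.le_normalizer hAV
  have hVNU : V ≤ Subgroup.normalizer (U : Set G) := by
    intro v hv
    rw [Subgroup.mem_normalizer_iff]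
    intro h
    constructor
    · intro hh
      have h1 : v * h * v⁻¹ = h := by
        rw [hcomm v hv h (hUV hh), mul_assoc, mul_inv_cancel, mul_one]
      rw [h1]
      exact hh
    · intro hh
      have h1 : h = v * h * v⁻¹ := by
        have h2 := hcomm (v * h * v⁻¹) (hUV hh) v hv
        have h4 : v * h = v * (v * h * v⁻¹) := by
          rw [← h2]
          group
        exact mul_left_cancel h4
      rw [h1]
      exact hh
  have hXNU : V ⊔ A ≤ Subgroup.normalizer (U : Set G) := sup_le hVNU hAU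
  have instK : (U.subgroupOf (V ⊔ A)).Normal := Subgroup.normal_subgroupOf_of_le_normalizer hXNU
  have instV' : (V.subgroupOf (V ⊔ A)).Normal := Subgroup.normal_subgroupOf_of_le_normalizer hXNV
  have instKc : IsMulCommutative (U.subgroupOf (V ⊔ A)) :=
    ⟨⟨fun x y => Subtype.ext (Subtype.ext (hcomm _ (hUV x.2) _ (hUV y.2)))⟩⟩
  have hKV' : U.subgroupOf (V ⊔ A) ≤ V.subgroupOf (V ⊔ A) := fun x hx => hUV hx
  have hsupV : V.subgroupOf (V ⊔ A) ⊔ A.subgroupOf (V ⊔ A) = ⊤ := by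
    rw [← Subgroup.subgroupOf_sup hVX hAX, Subgroup.subgroupOf_self]
  have hidx : (V.subgroupOf (V ⊔ A)).index ∣ Nat.card A := by
    rw [← Subgroup.relIndex_top_right, ← hsupV, Subgroup.relIndex_sup_left]
    have h1 := Subgroup.relIndex_dvd_card (V.subgroupOf (V ⊔ A)) (A.subgroupOf (V ⊔ A))
    rwa [Nat.card_congr (Subgroup.subgroupOfEquivOfLe hAX).toEquiv] at h1
  have hcardK : Nat.card (U.subgroupOf (V ⊔ A)) ∣ Nat.card V := by
    rw [Nat.card_congr (Subgroup.subgroupOfEquivOfLe hUX).toEquiv]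
    exact Subgroup.card_dvd_of_le hUV
  have hcop' : (Nat.card (U.subgroupOf (V ⊔ A))).Coprime (V.subgroupOf (V ⊔ A)).index :=
    Nat.Coprime.coprime_dvd_left hcardK (Nat.Coprime.coprime_dvd_right hidx hcop.symm)
  have hW₁V' : W.subgroupOf (V ⊔ A) ≤ V.subgroupOf (V ⊔ A) := fun x hx => hWV hx
  have hW₁K : W.subgroupOf (V ⊔ A) ⊓ U.subgroupOf (V ⊔ A) = ⊥ := by
    rw [Subgroup.eq_bot_iff_forall]
    rintro x ⟨hx1, hx2⟩
    have h1 : (x : G) ∈ U ⊓ W := ⟨hx2, hx1⟩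
    rw [hUW, Subgroup.mem_bot] at h1
    exact Subtype.ext h1
  have hKW₁ : U.subgroupOf (V ⊔ A) ⊔ W.subgroupOf (V ⊔ A) = V.subgroupOf (V ⊔ A) := by
    rw [← Subgroup.subgroupOf_sup hUX hWX, hUWV]
  obtain ⟨H, hH⟩ := Cfsg.Agent.S0051.result (U.subgroupOf (V ⊔ A)) (V.subgroupOf (V ⊔ A)) hKV' hcop'
    (W.subgroupOf (V ⊔ A)) hW₁V' hW₁K hKW₁
  have hdecomp : ∀ x : ↥(V ⊔ A), ∃ k ∈ U.subgroupOf (V ⊔ A), ∃ h ∈ H, k * h = x := by
    intro x
    have h1 : x ∈ U.subgroupOf (V ⊔ A) ⊔ H := by rw [hH.sup_eq_top]; trivial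
    exact Subgroup.mem_sup_of_normal_left.1 h1
  have hXcomm : ∀ x ∈ V.subgroupOf (V ⊔ A), ∀ y ∈ V.subgroupOf (V ⊔ A), x * y = y * x :=
    fun x hx y hy => Subtype.ext (hcomm _ hx _ hy)
  have key : ∀ x : ↥(V ⊔ A), ∀ y ∈ H ⊓ V.subgroupOf (V ⊔ A),
      x * y * x⁻¹ ∈ H ⊓ V.subgroupOf (V ⊔ A) := by
    intro x y hy
    obtain ⟨k, hk, h, hh, rfl⟩ := hdecomp x
    have h1 : h * y * h⁻¹ ∈ H ⊓ V.subgroupOf (V ⊔ A) :=
      ⟨H.mul_mem (H.mul_mem hh hy.1) (H.inv_mem hh), instV'.conj_mem y hy.2 h⟩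
    have h2 : k * h * y * (k * h)⁻¹ = h * y * h⁻¹ := by
      have h3 := hXcomm k (hKV' hk) (h * y * h⁻¹) h1.2
      calc k * h * y * (k * h)⁻¹ = k * (h * y * h⁻¹) * k⁻¹ := by group
        _ = h * y * h⁻¹ * k * k⁻¹ := by rw [h3]
        _ = h * y * h⁻¹ := by group
    rw [h2]
    exact h1
  refine ⟨(H ⊓ V.subgroupOf (V ⊔ A)).map (V ⊔ A).subtype, ?_, ?_, ?_, ?_⟩
  · rintro _ ⟨y, hy, rfl⟩
    exact hy.2
  · intro a ha
    rw [Subgroup.mem_normalizer_iff]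
    intro g
    constructor
    · rintro ⟨y, hy, rfl⟩
      exact ⟨⟨a, hAX ha⟩ * y * ⟨a, hAX ha⟩⁻¹, key _ y hy, rfl⟩
    · rintro ⟨y, hy, hyg⟩
      refine ⟨⟨a, hAX ha⟩⁻¹ * y * (⟨a, hAX ha⟩⁻¹)⁻¹, key _ y hy, ?_⟩
      have h1 : ((V ⊔ A).subtype y : G) = a * g * a⁻¹ := hyg
      show a⁻¹ * (y : G) * (a⁻¹)⁻¹ = g
      have h2 : (y : G) = a * g * a⁻¹ := h1
      rw [h2]
      group
  · rw [Subgroup.eq_bot_iff_forall]
    rintro x ⟨hxU, y, hy, rfl⟩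
    have h1 : y ∈ U.subgroupOf (V ⊔ A) ⊓ H := ⟨hxU, hy.1⟩
    rw [disjoint_iff.1 hH.disjoint, Subgroup.mem_bot] at h1
    rw [h1]
    rfl
  · apply le_antisymm
    · apply sup_le hUV
      rintro _ ⟨y, hy, rfl⟩
      exact hy.2
    · intro v hv
      obtain ⟨k, hk, h, hh, hkh⟩ := hdecomp ⟨v, hVX hv⟩
      have hhV : h ∈ V.subgroupOf (V ⊔ A) := by
        have h1 : h = k⁻¹ * ⟨v, hVX hv⟩ := by rw [← hkh]; group
        rw [h1]
        exact Subgroup.mul_mem _ (Subgroup.inv_mem _ (hKV' hk)) hv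
      have h2 : v = (k : G) * (h : G) := by
        have := congrArg Subtype.val hkh
        exact this.symm
      rw [h2]
      exact Subgroup.mul_mem_sup hk ⟨h, ⟨hh, hhV⟩, rfl⟩

end Cfsg.Agent.S0660
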