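import Cfsg.Statements.S0662
import Mathlib


set_option autoImplicit false
open Cfsg

namespace Cfsg.Agent.S0662

open scoped commutatorElement

abbrev Lc (P : Type*) [Group P] (k : ℕ) : Subgroup P := (⊤ : Subgroup P).lowerCentralSeries k

section gen

variable {P : Type*} [Group P]

theorem Lc_succ (k : ℕ) : Lc P (k + 1) = ⁅Lc P k, (⊤ : Subgroup P)⁆ := rfl

theorem Lc_anti {k l : ℕ} (h : k ≤ l) : Lc P l ≤ Lc P k :=
  Subgroup.lowerCentralSeries_antitone _ h

theorem Lc_normal (k : ℕ) : (Lc P k).Normal := Subgroup.lowerCentralSeries_normal _ k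

theorem stab {k : ℕ} (h : Lc P (k + 1) = Lc P k) : ∀ j, Lc P (k + j) = Lc P k := by
  intro j
  induction j with
  | zero => rfl
  | succ j ih =>
    have h1 : Lc P (k + (j + 1)) = ⁅Lc P (k + j), (⊤ : Subgroup P)⁆ := rfl
    rw [h1, ih, ← Lc_succ, h]

theorem strict [Group.IsNilpotent P] {k : ℕ} (hk : Lc P k ≠ ⊥) : Lc P (k + 1) < Lc P k := by
  refine lt_of_le_of_ne (Lc_anti (Nat.le_succ k)) ?_
  intro h
  apply hk
  have h1 := stab h (Group.nilpotencyClass P)
  rw [← h1, eq_bot_iff]
  calc Lc P (k + Group.nilpotencyClass P) ≤ Lc P (Group.nilpotencyClass P) :=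
        Lc_anti (Nat.le_add_left _ _)
    _ = ⊥ := Subgroup.lowerCentralSeries_nilpotencyClass

theorem not_cyclic [Group.IsNilpotent P] (h1 : Lc P 1 ≠ ⊥) : ¬ IsCyclic (P ⧸ Lc P 1) := by
  intro hc
  have h21 : Lc P 2 ≤ Lc P 1 := Lc_anti (by norm_num)
  have hn1 := Lc_normal (P := P) 1
  have hn2 := Lc_normal (P := P) 2
  obtain ⟨f, hf⟩ : ∃ f : P ⧸ Lc P 2 →* P ⧸ Lc P 1,
      ∀ a : P, f (QuotientGroup.mk a) = QuotientGroup.mk a :=
    ⟨QuotientGroup.map (Lc P 2) (Lc P 1) (MonoidHom.id P) (fun x hx => h21 hx), fun a => rfl⟩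
  have hker : f.ker ≤ Subgroup.center (P ⧸ Lc P 2) := by
    intro q hq
    induction q using QuotientGroup.induction_on with
    | H a =>
      rw [MonoidHom.mem_ker, hf] at hq
      have ha : a ∈ Lc P 1 := (QuotientGroup.eq_one_iff a).1 hq
      rw [Subgroup.mem_center_iff]
      intro r
      induction r using QuotientGroup.induction_on with
      | H b =>
        rw [← QuotientGroup.mk_mul, ← QuotientGroup.mk_mul, QuotientGroup.eq]
        have hc' : ⁅a⁻¹, b⁻¹⁆ ∈ Lc P 2 :=
          Subgroup.commutator_mem_commutator ((Lc P 1).inv_mem ha) (Subgroup.mem_top _)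
        have he : (b * a)⁻¹ * (a * b) = ⁅a⁻¹, b⁻¹⁆ := by
          rw [commutatorElement_def]; group
        rw [he]; exact hc'
  have hcomm := commutative_of_cyclic_center_quotient f hker
  have hle : Lc P 1 ≤ Lc P 2 := by
    have h0 : Lc P 1 = ⁅(⊤ : Subgroup P), (⊤ : Subgroup P)⁆ := rfl
    rw [h0, Subgroup.commutator_le]
    intro x _ y _
    rw [← QuotientGroup.eq_one_iff, commutatorElement_def]
    simp only [QuotientGroup.mk_mul, QuotientGroup.mk_inv]
    rw [hcomm (QuotientGroup.mk x) (QuotientGroup.mk y)]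
    group
  exact absurd (le_antisymm h21 hle) (ne_of_lt (strict h1))

variable [Finite P] {p : ℕ} [Fact p.Prime]

theorem card_step (hP : IsPGroup p P) [Group.IsNilpotent P] {k : ℕ} (hk : Lc P k ≠ ⊥) :
    p * Nat.card (Lc P (k + 1)) ≤ Nat.card (Lc P k) := by
  have hp := (Fact.out : p.Prime)
  have hlt := strict hk
  obtain ⟨a, ha⟩ := (hP.to_subgroup (Lc P (k + 1))).exists_card_eq
  obtain ⟨b, hb⟩ := (hP.to_subgroup (Lc P k)).exists_card_eq
  have hab : a < b := by
    by_contra hcon
    have hle : Nat.card (Lc P k) ≤ Nat.card (Lc P (k + 1)) := by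
      rw [ha, hb]; exact Nat.pow_le_pow_right hp.pos (by omega)
    exact absurd (Subgroup.eq_of_le_of_card_ge hlt.le hle) (ne_of_lt hlt)
  rw [ha, hb, ← pow_succ']
  exact Nat.pow_le_pow_right hp.pos hab

theorem card_first (hP : IsPGroup p P) [Group.IsNilpotent P] (h1 : Lc P 1 ≠ ⊥) :
    p ^ 2 * Nat.card (Lc P 1) ≤ Nat.card P := by
  have hp := (Fact.out : p.Prime)
  have hidx : Nat.card (Lc P 1) * (Lc P 1).index = Nat.card P := Subgroup.card_mul_index _
  obtain ⟨n, hn⟩ := hP.exists_card_eq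
  have hdvd : (Lc P 1).index ∣ p ^ n := hn ▸ Subgroup.index_dvd_card _
  obtain ⟨j, -, hj⟩ := (Nat.dvd_prime_pow hp).1 hdvd
  have hn1 := Lc_normal (P := P) 1
  have hj2 : 2 ≤ j := by
    by_contra hlt
    have hj' : j = 0 ∨ j = 1 := by omega
    rcases hj' with rfl | rfl
    · rw [pow_zero] at hj
      have htop : Lc P 1 = ⊤ := Subgroup.index_eq_one.1 hj
      have h0 : Lc P 0 ≠ ⊥ := by
        intro h0; apply h1; exact le_bot_iff.1 (h0 ▸ Lc_anti (Nat.zero_le 1))
      have hs := strict h0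
      have h00 : Lc P 0 = ⊤ := rfl
      have h01 : Lc P (0 + 1) = ⊤ := htop
      rw [h00, h01] at hs
      exact absurd hs (lt_irrefl _)
    · rw [pow_one] at hj
      apply not_cyclic h1
      have hc : Nat.card (P ⧸ Lc P 1) = p := by rw [← Subgroup.index_eq_card]; exact hj
      exact isCyclic_of_prime_card hc
  calc p ^ 2 * Nat.card (Lc P 1) ≤ p ^ j * Nat.card (Lc P 1) :=
        Nat.mul_le_mul_right _ (Nat.pow_le_pow_right hp.pos hj2)
    _ = Nat.card P := by rw [← hj, mul_comm]; exact hidx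

theorem card_bound (hP : IsPGroup p P) [Group.IsNilpotent P] :
    ∀ k : ℕ, Lc P (k + 1) ≠ ⊥ → p ^ (k + 2) * Nat.card (Lc P (k + 1)) ≤ Nat.card P := by
  intro k
  induction k with
  | zero => intro h; simpa using card_first hP h
  | succ k ih =>
    intro h
    have hk : Lc P (k + 1) ≠ ⊥ := by
      intro h0; apply h; exact le_bot_iff.1 (h0 ▸ Lc_anti (Nat.le_succ _))
    have h1 := ih hk
    have h2 := card_step hP hk
    calc p ^ (k + 1 + 2) * Nat.card (Lc P (k + 1 + 1))
        = p ^ (k + 2) * (p * Nat.card (Lc P (k + 1 + 1))) := by ring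
      _ ≤ p ^ (k + 2) * Nat.card (Lc P (k + 1)) := Nat.mul_le_mul_left _ h2
      _ ≤ Nat.card P := h1

theorem class_bound (hP : IsPGroup p P) [Group.IsNilpotent P] (m : ℕ) (hm : 2 ≤ m)
    (hc : Nat.card P = p ^ m) : Lc P (m - 1) = ⊥ := by
  have hp := (Fact.out : p.Prime)
  by_contra h
  obtain ⟨k, rfl⟩ : ∃ k, m = k + 2 := ⟨m - 2, by omega⟩
  have h' : Lc P (k + 1) ≠ ⊥ := h
  have h1 := card_bound hP k h'
  rw [hc] at h1
  have hpos : 0 < p ^ (k + 2) := pow_pos hp.pos _
  have h2 : Nat.card (Lc P (k + 1)) ≤ 1 := by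
    apply Nat.le_of_mul_le_mul_left _ hpos
    rw [mul_one]; exact h1
  have h3 : 0 < Nat.card (Lc P (k + 1)) := Nat.card_pos
  exact h' (Subgroup.eq_bot_of_card_eq _ (by omega))

end gen

theorem card_ne {α : Type*} [Finite α] (a : α) : Nat.card {x : α // x ≠ a} = Nat.card α - 1 := by
  classical
  have := Fintype.ofFinite α
  rw [Nat.card_eq_fintype_card, Nat.card_eq_fintype_card, Fintype.card_subtype_compl,
    Fintype.card_subtype_eq]

theorem count_index {A : Type*} [Group A] [Finite A] {p : ℕ} [Fact p.Prime]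
    (hc : Nat.card A = p ^ 2) (hnc : ¬ IsCyclic A) :
    Nat.card {M : Subgroup A // M.index = p} = p + 1 := by
  classical
  have hp := (Fact.out : p.Prime)
  have hord : ∀ x : A, x ≠ 1 → orderOf x = p := by
    intro x hx
    have hdvd : orderOf x ∣ p ^ 2 := hc ▸ orderOf_dvd_natCard x
    obtain ⟨j, hj, hjj⟩ := (Nat.dvd_prime_pow hp).1 hdvd
    interval_cases j
    · rw [pow_zero, orderOf_eq_one_iff] at hjj; exact absurd hjj hx
    · simpa using hjj
    · exfalso; apply hnc; exact isCyclic_of_orderOf_eq_card x (by rw [hjj, hc])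
  have hidx : ∀ M : Subgroup A, M.index = p ↔ Nat.card M = p := by
    intro M
    have h0 := Subgroup.card_mul_index M
    rw [hc] at h0
    constructor
    · intro h; rw [h] at h0
      have h1 : Nat.card M * p = p * p := by rw [h0]; ring
      exact Nat.eq_of_mul_eq_mul_right hp.pos h1
    · intro h; rw [h] at h0
      have h1 : p * M.index = p * p := by rw [h0]; ring
      exact Nat.eq_of_mul_eq_mul_left hp.pos h1
  let e : {x : A // x ≠ 1} ≃ Σ M : {M : Subgroup A // M.index = p}, {x : M.1 // x ≠ 1} :=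
    { toFun := fun x => ⟨⟨Subgroup.zpowers x.1, (hidx _).2 (by rw [Nat.card_zpowers, hord x.1 x.2])⟩,
        ⟨⟨x.1, Subgroup.mem_zpowers x.1⟩, fun h => x.2 (congrArg Subtype.val h)⟩⟩
      invFun := fun y => ⟨y.2.1.1, fun h => y.2.2 (Subtype.ext h)⟩
      left_inv := fun x => rfl
      right_inv := by
        rintro ⟨⟨M, hM⟩, ⟨⟨x, hx⟩, hx1⟩⟩
        have hx1' : x ≠ 1 := fun h => hx1 (Subtype.ext h)
        have hM' : Subgroup.zpowers x = M := by
          apply Subgroup.eq_of_le_of_card_ge (Subgroup.zpowers_le.2 hx)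
          rw [Nat.card_zpowers, hord x hx1', (hidx M).1 hM]
        subst hM'
        rfl }
  have h1 := Nat.card_congr e
  have : Fintype {M : Subgroup A // M.index = p} := Fintype.ofFinite _
  rw [Nat.card_sigma] at h1
  have hfib : ∀ M : {M : Subgroup A // M.index = p}, Nat.card {x : M.1 // x ≠ 1} = p - 1 := by
    intro M
    rw [card_ne, (hidx M.1).1 M.2]
  simp only [hfib, Finset.sum_const, Finset.card_univ, smul_eq_mul] at h1
  rw [card_ne, hc, ← Nat.card_eq_fintype_card] at h1
  have h2 : p ^ 2 - 1 = (p + 1) * (p - 1) := by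
    have := hp.two_le
    zify [Nat.one_le_pow 2 p hp.pos, hp.pos]
    ring
  rw [h2] at h1
  exact (Nat.eq_of_mul_eq_mul_right (by have := hp.two_le; omega) h1).symm

theorem le_of_normal_prime {G : Type*} [Group G] {p : ℕ} [Fact p.Prime] (N : Subgroup G)
    (hN : N.Normal) (hi : N.index = p) : Lc G 1 ≤ N := by
  have hc : Nat.card (G ⧸ N) = p := by rw [← Subgroup.index_eq_card]; exact hi
  have hcyc : IsCyclic (G ⧸ N) := isCyclic_of_prime_card hc
  obtain ⟨g, hg⟩ := IsCyclic.exists_generator (α := G ⧸ N)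
  have h0 : Lc G 1 = ⁅(⊤ : Subgroup G), (⊤ : Subgroup G)⁆ := rfl
  rw [h0, Subgroup.commutator_le]
  intro x _ y _
  rw [← QuotientGroup.eq_one_iff, commutatorElement_def]
  simp only [QuotientGroup.mk_mul, QuotientGroup.mk_inv]
  obtain ⟨i, hi'⟩ := Subgroup.mem_zpowers_iff.1 (hg (QuotientGroup.mk x))
  obtain ⟨j, hj'⟩ := Subgroup.mem_zpowers_iff.1 (hg (QuotientGroup.mk y))
  rw [← hi', ← hj']
  have hcm : g ^ i * g ^ j = g ^ j * g ^ i := ((Commute.refl g).zpow_zpow i j).eq
  rw [hcm]; group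

theorem normal_of_le {G : Type*} [Group G] (N : Subgroup G) (h : Lc G 1 ≤ N) : N.Normal := by
  refine ⟨fun n hn g => ?_⟩
  have he : g * n * g⁻¹ = ⁅g, n⁆ * n := by rw [commutatorElement_def]; group
  rw [he]
  exact N.mul_mem (h (Subgroup.commutator_mem_commutator (Subgroup.mem_top g) (Subgroup.mem_top n))) hn

noncomputable def equivQ (G : Type*) [Group G] (p : ℕ) [Fact p.Prime] :
    have := Lc_normal (P := G) 1
    {N : Subgroup G // N.Normal ∧ N.index = p} ≃ {M : Subgroup (G ⧸ Lc G 1) // M.index = p} :=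
  have := Lc_normal (P := G) 1
  { toFun := fun N => ⟨N.1.map (QuotientGroup.mk' (Lc G 1)), by
      rw [Subgroup.index_map, QuotientGroup.ker_mk',
        sup_eq_left.2 (le_of_normal_prime N.1 N.2.1 N.2.2),
        MonoidHom.range_eq_top.2 (QuotientGroup.mk'_surjective _), Subgroup.index_top, mul_one]
      exact N.2.2⟩
    invFun := fun M => ⟨M.1.comap (QuotientGroup.mk' (Lc G 1)),
      normal_of_le _ (by
        have h0 : (QuotientGroup.mk' (Lc G 1)).ker ≤ M.1.comap (QuotientGroup.mk' (Lc G 1)) :=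
          Subgroup.comap_mono bot_le
        rwa [QuotientGroup.ker_mk'] at h0), by
      rw [Subgroup.index_comap_of_surjective _ (QuotientGroup.mk'_surjective _)]; exact M.2⟩
    left_inv := fun N => by
      apply Subtype.ext
      show (N.1.map (QuotientGroup.mk' (Lc G 1))).comap (QuotientGroup.mk' (Lc G 1)) = N.1
      rw [Subgroup.comap_map_eq, QuotientGroup.ker_mk',
        sup_eq_left.2 (le_of_normal_prime N.1 N.2.1 N.2.2)]
    right_inv := fun M => by
      apply Subtype.ext
      exact Subgroup.map_comap_eq_self_of_surjective (QuotientGroup.mk'_surjective _) M.1 }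

/-- In a p-group of maximal class of order at least p³ the normal subgroups of index at least p² are exactly the terms of the lower central series, and there are exactly p + 1 normal subgroups of index p. -/
theorem result {G : Type*} [Group G] [Finite G] {p : ℕ} [Fact p.Prime] (n : ℕ) (hG : Nat.card G = p ^ n) (hcl : Group.nilpotencyClass G = n - 1) (hn : 3 ≤ n) : (∀ (N : Subgroup G) [N.Normal] (r : ℕ), 2 ≤ r → N.index = p ^ r → N = (⊤ : Subgroup G).lowerCentralSeries (r - 1)) ∧ Nat.card {N : Subgroup G // N.Normal ∧ N.index = p} = p + 1 := by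
  have hp := (Fact.out : p.Prime)
  have hP : IsPGroup p G := IsPGroup.of_card hG
  have hnil : Group.IsNilpotent G := hP.isNilpotent
  have hbot : Lc G (n - 1) = ⊥ :=
    Subgroup.lowerCentralSeries_eq_bot_iff_nilpotencyClass_le.2 (le_of_eq hcl)
  have hne : Lc G (n - 2) ≠ ⊥ := by
    intro h
    have := Subgroup.lowerCentralSeries_eq_bot_iff_nilpotencyClass_le.1 h
    omega
  have hcard : ∀ k, 1 ≤ k → k ≤ n - 2 → Nat.card (Lc G k) = p ^ (n - 1 - k) := by
    intro k hk1 hk2
    have hkne : Lc G k ≠ ⊥ := fun h => hne (le_bot_iff.1 (h ▸ Lc_anti hk2))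
    obtain ⟨k', rfl⟩ : ∃ k', k = k' + 1 := ⟨k - 1, by omega⟩
    have hub := card_bound hP k' hkne
    rw [hG] at hub
    have hlb : ∀ j, k' + 1 + j ≤ n - 2 →
        p ^ j * Nat.card (Lc G (k' + 1 + j)) ≤ Nat.card (Lc G (k' + 1)) := by
      intro j
      induction j with
      | zero => intro _; simp
      | succ j ih =>
        intro hj
        have hjne : Lc G (k' + 1 + j) ≠ ⊥ :=
          fun h => hne (le_bot_iff.1 (h ▸ Lc_anti (by omega)))
        have h1 := card_step hP hjne
        have h2 := ih (by omega)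
        calc p ^ (j + 1) * Nat.card (Lc G (k' + 1 + (j + 1)))
            = p ^ j * (p * Nat.card (Lc G (k' + 1 + j + 1))) := by rw [pow_succ, mul_assoc]; rfl
          _ ≤ p ^ j * Nat.card (Lc G (k' + 1 + j)) := Nat.mul_le_mul_left _ h1
          _ ≤ _ := h2
    have h3 := hlb (n - 2 - (k' + 1)) (by omega)
    have hidx : k' + 1 + (n - 2 - (k' + 1)) = n - 2 := by omega
    rw [hidx] at h3
    have hge : p ≤ Nat.card (Lc G (n - 2)) := by
      obtain ⟨a, ha⟩ := (hP.to_subgroup (Lc G (n - 2))).exists_card_eq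
      rw [ha]
      rcases Nat.eq_zero_or_pos a with rfl | hapos
      · exact absurd (Subgroup.eq_bot_of_card_eq _ (by simpa using ha)) hne
      · exact Nat.le_self_pow hapos.ne' p
    obtain ⟨a, ha⟩ := (hP.to_subgroup (Lc G (k' + 1))).exists_card_eq
    rw [ha] at hub h3 ⊢
    have h4 : k' + 2 + a ≤ n := by
      rw [← pow_add] at hub
      exact (Nat.pow_le_pow_iff_right hp.one_lt).1 hub
    have h5 : n - 2 - (k' + 1) + 1 ≤ a := by
      have h6 : p ^ (n - 2 - (k' + 1) + 1) ≤ p ^ a := by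
        calc p ^ (n - 2 - (k' + 1) + 1) = p ^ (n - 2 - (k' + 1)) * p := pow_succ _ _
          _ ≤ p ^ (n - 2 - (k' + 1)) * Nat.card (Lc G (n - 2)) := Nat.mul_le_mul_left _ hge
          _ ≤ p ^ a := h3
      exact (Nat.pow_le_pow_iff_right hp.one_lt).1 h6
    congr 1; omega
  refine ⟨?_, ?_⟩
  · intro N hN r hr hidx
    have hrn : r ≤ n := by
      have h1 : p ^ r ∣ p ^ n := by rw [← hidx, ← hG]; exact Subgroup.index_dvd_card N
      exact (Nat.pow_dvd_pow_iff_le_right hp.one_lt).1 h1
    have hcardQ : Nat.card (G ⧸ N) = p ^ r := by rw [← Subgroup.index_eq_card]; exact hidx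
    have hPQ : IsPGroup p (G ⧸ N) := IsPGroup.of_card hcardQ
    have hnilQ : Group.IsNilpotent (G ⧸ N) := hPQ.isNilpotent
    have hQ := class_bound hPQ r hr hcardQ
    have hle : Lc G (r - 1) ≤ N := by
      have h1 := Subgroup.lowerCentralSeries.map (QuotientGroup.mk' N) (r - 1)
      rw [show (⊤ : Subgroup (G ⧸ N)).lowerCentralSeries (r - 1) = ⊥ from hQ, le_bot_iff] at h1
      rw [← QuotientGroup.ker_mk' N]
      exact (Subgroup.map_eq_bot_iff _).1 h1
    have hcN : Nat.card N = p ^ (n - r) := by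
      have h0 := Subgroup.card_mul_index N
      rw [hidx, hG] at h0
      have h2 : p ^ n = p ^ (n - r) * p ^ r := by rw [← pow_add]; congr 1; omega
      rw [h2] at h0
      exact Nat.eq_of_mul_eq_mul_right (pow_pos hp.pos r) h0
    have hcL : Nat.card (Lc G (r - 1)) = p ^ (n - r) := by
      rcases Nat.lt_or_ge r n with h | h
      · have h0 := hcard (r - 1) (by omega) (by omega)
        rw [h0]; congr 1; omega
      · have hrn' : r = n := le_antisymm hrn h
        subst hrn'
        rw [hbot]; simp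
    symm
    exact Subgroup.eq_of_le_of_card_ge hle (by rw [hcN, hcL])
  · have hc1 : Nat.card (Lc G 1) = p ^ (n - 2) := by
      have h0 := hcard 1 le_rfl (by omega)
      rw [h0]; congr 1
    have h1ne : Lc G 1 ≠ ⊥ := fun h => hne (le_bot_iff.1 (h ▸ Lc_anti (by omega)))
    have hnc := not_cyclic h1ne
    have hn1 := Lc_normal (P := G) 1
    have hcQ : Nat.card (G ⧸ Lc G 1) = p ^ 2 := by
      rw [← Subgroup.index_eq_card]
      have h0 := Subgroup.card_mul_index (Lc G 1)
      rw [hc1, hG] at h0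
      have h2 : p ^ n = p ^ (n - 2) * p ^ 2 := by rw [← pow_add]; congr 1; omega
      rw [h2] at h0
      exact Nat.eq_of_mul_eq_mul_left (pow_pos hp.pos _) h0
    have hcount := count_index (A := G ⧸ Lc G 1) hcQ hnc
    rw [← hcount]
    exact Nat.card_congr (equivQ G p)


end Cfsg.Agent.S0662
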