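import Mathlib
import Cfsg.Statements.S0663
import Cfsg.Agent.Lib.Helper16.Basic

set_option autoImplicit false
open Cfsg

namespace Cfsg.Agent.S0663

open scoped commutatorElement
open Cfsg.Agent.Lib.Helper16.Basic

theorem card_mul_relIndex' {L : Type*} [Group L] {H K : Subgroup L} (h : H ≤ K) :
    Nat.card H * H.relIndex K = Nat.card K := by
  have := Subgroup.relIndex_mul_relIndex ⊥ H K bot_le h
  rwa [Subgroup.relIndex_bot_left, Subgroup.relIndex_bot_left] at this

theorem comm_ne_self {L : Type*} [Group L] [Finite L] {p : ℕ} [Fact p.Prime] {H K : Subgroup L}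
    (hK : IsPGroup p K) (hHK : H ≤ K) (hne : H ≠ ⊥) : ⁅H, K⁆ ≠ H := by
  intro heq
  haveI : Group.IsNilpotent K := hK.isNilpotent
  obtain ⟨c, hc⟩ := (Subgroup.isNilpotent_iff_lowerCentralSeries K).1 inferInstance
  have : ∀ i, H ≤ K.lowerCentralSeries i := by
    intro i
    induction i with
    | zero => simpa using hHK
    | succ i ih =>
      rw [Subgroup.lowerCentralSeries_succ]
      calc H = ⁅H, K⁆ := heq.symm
        _ ≤ _ := Subgroup.commutator_mono ih le_rfl
  apply hne
  rw [eq_bot_iff, ← hc]
  exact this c

theorem comm_mul {L : Type*} [Group L] (x y g : L) : ⁅x * y, g⁆ = x * ⁅y, g⁆ * x⁻¹ * ⁅x, g⁆ := by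
  simp only [commutatorElement_def]; group

theorem comm_inv {L : Type*} [Group L] (x g : L) : ⁅x⁻¹, g⁆ = x⁻¹ * (⁅x, g⁆)⁻¹ * x⁻¹⁻¹ := by
  simp only [commutatorElement_def]; group

theorem conj_eq {L : Type*} [Group L] (x d : L) : x * d * x⁻¹ = ⁅x, d⁆ * d := by
  simp only [commutatorElement_def]; group

theorem result {L : Type*} [Group L] [Finite L] {p : ℕ} [Fact p.Prime] (N G : Subgroup L) (hN : IsPGroup p N) (hG : IsPGroup p G) (hGN : G ≤ Subgroup.normalizer (N : Set L)) (n : ℕ) (hn : Nat.card N = p ^ n) : ((∀ H : Subgroup L, H ≤ N → G ≤ Subgroup.normalizer (H : Set L) → H ≠ ⊥ → (⁅H, G⁆).relIndex H = p) ↔ Cfsg.iterCommutator N G (n - 1) ≠ ⊥ ∨ n = 0) ∧ ((∀ H : Subgroup L, H ≤ N → G ≤ Subgroup.normalizer (H : Set L) → H ≠ ⊥ → (⁅H, G⁆).relIndex H = p) → ∀ H : Subgroup L, H ≤ N → G ≤ Subgroup.normalizer (H : Set L) → (∃ i ≤ n, H = Cfsg.iterCommutator N G i) ∧ N ≤ Subgroup.normalizer (H : Set L)) := by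
  have hp : p.Prime := Fact.out
  set C : ℕ → Subgroup L := iterCommutator N G with hCdef
  have hC0 : C 0 = N := rfl
  have hCs : ∀ i, C (i + 1) = ⁅C i, G⁆ := fun i => rfl
  have hGC : ∀ i, G ≤ Subgroup.normalizer (C i : Set L) := by
    intro i
    induction i with
    | zero => exact hGN
    | succ i ih => rw [hCs]; exact le_normalizer_commutator_right (C i) G
  have hCle : ∀ i, C (i + 1) ≤ C i := fun i => by
    rw [hCs]; exact commutator_le_left_of_le_normalizer (hGC i)
  have hCanti : ∀ i j, i ≤ j → C j ≤ C i := by
    intro i j hij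
    induction j, hij using Nat.le_induction with
    | base => exact le_rfl
    | succ j hij ih => exact (hCle j).trans ih
  have hCN : ∀ i, C i ≤ N := fun i => hCanti 0 i (Nat.zero_le i)
  have hpg : ∀ H : Subgroup L, H ≤ N → ∃ a, Nat.card H = p ^ a := by
    intro H hH
    exact (hN.to_le hH).exists_card_eq
  choose e he using fun i => hpg (C i) (hCN i)
  have he0 : e 0 = n := by
    apply Nat.pow_right_injective hp.two_le
    change p ^ e 0 = p ^ n
    rw [← he 0, hC0, hn]
  have hbot : ∀ i, C i = ⊥ ↔ e i = 0 := by
    intro i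
    rw [← Subgroup.card_eq_one, he i]
    constructor
    · intro h
      by_contra h0
      exact (Nat.one_lt_pow h0 hp.one_lt).ne' h
    · intro h; rw [h, pow_zero]
  have hlt : ∀ (H K : Subgroup L) (a b : ℕ), H ≤ K → H ≠ K → Nat.card H = p ^ a →
      Nat.card K = p ^ b → a < b := by
    intro H K a b hHK hne ha hb
    by_contra hcon
    push Not at hcon
    apply hne
    apply Subgroup.eq_of_le_of_card_ge hHK
    rw [ha, hb]
    exact Nat.pow_le_pow_right hp.pos hcon
  have hle : ∀ (H K : Subgroup L) (a b : ℕ), H ≤ K → Nat.card H = p ^ a →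
      Nat.card K = p ^ b → a ≤ b := by
    intro H K a b hHK ha hb
    have := Subgroup.card_le_of_le hHK
    rw [ha, hb] at this
    exact (Nat.pow_le_pow_iff_right hp.one_lt).1 this
  have heq : ∀ (H K : Subgroup L) (a : ℕ), H ≤ K → Nat.card H = p ^ a →
      Nat.card K = p ^ a → H = K := by
    intro H K a hHK ha hb
    apply Subgroup.eq_of_le_of_card_ge hHK
    rw [ha, hb]
  have hstrict : ∀ H : Subgroup L, H ≤ N → G ≤ Subgroup.normalizer (H : Set L) → H ≠ ⊥ →
      ⁅H, G⁆ ≠ H := by
    intro H hH hGH hne heq'
    have hK' : IsPGroup p (H ⊔ G : Subgroup L) := by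
      rw [sup_comm]
      exact IsPGroup.to_sup_of_normal_right' hG (hN.to_le hH) hGH
    have h1 : ⁅H, (H ⊔ G : Subgroup L)⁆ ≤ H :=
      commutator_le_left_of_le_normalizer (sup_le Subgroup.le_normalizer hGH)
    have h2 : H ≤ ⁅H, (H ⊔ G : Subgroup L)⁆ := by
      calc H = ⁅H, G⁆ := heq'.symm
        _ ≤ _ := Subgroup.commutator_mono le_rfl le_sup_right
    exact comm_ne_self hK' le_sup_left hne (le_antisymm h1 h2)
  have hestep : ∀ i, e i ≠ 0 → e (i + 1) < e i := by
    intro i hi
    apply hlt (C (i + 1)) (C i) _ _ (hCle i) _ (he (i + 1)) (he i)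
    rw [hCs]
    exact hstrict (C i) (hCN i) (hGC i) (fun h => hi ((hbot i).1 h))
  have heanti : ∀ i j, i ≤ j → e j ≤ e i :=
    fun i j hij => hle _ _ _ _ (hCanti i j hij) (he j) (he i)
  have hU_CP : (∀ H : Subgroup L, H ≤ N → G ≤ Subgroup.normalizer (H : Set L) → H ≠ ⊥ →
      (⁅H, G⁆).relIndex H = p) → ∀ i, e i ≠ 0 → e (i + 1) + 1 = e i := by
    intro hU i hi
    have h1 : (C (i + 1)).relIndex (C i) = p :=
      hU (C i) (hCN i) (hGC i) (fun h => hi ((hbot i).1 h))
    have h2 := card_mul_relIndex' (hCle i)
    rw [h1, he (i + 1), he i, ← pow_succ] at h2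
    exact Nat.pow_right_injective hp.two_le h2
  have hend_CP : (C (n - 1) ≠ ⊥ ∨ n = 0) → ∀ i, e i ≠ 0 → e (i + 1) + 1 = e i := by
    rintro (h | h)
    · have hn1 : e (n - 1) ≠ 0 := fun h0 => h ((hbot _).2 h0)
      have hnpos : 1 ≤ n := by
        by_contra hcon
        have h0 : n - 1 = 0 := by omega
        rw [h0, he0] at hn1
        omega
      have hb : ∀ i, i ≤ n - 1 → e i ≠ 0 := by
        intro i hi h0
        have := heanti i (n - 1) hi
        omega
      have hc : ∀ i, i ≤ n - 1 → e i + i ≤ n := by
        intro i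
        induction i with
        | zero => intro _; omega
        | succ i ih =>
          intro hi
          have h1 := ih (by omega)
          have h2 := hestep i (hb i (by omega))
          omega
      have hd : ∀ d i, i + d = n - 1 → d + 1 ≤ e i := by
        intro d
        induction d with
        | zero =>
          intro i hi
          have h0 : i = n - 1 := by omega
          rw [h0]
          omega
        | succ d ih =>
          intro i hi
          have h1 := ih (i + 1) (by omega)
          have h2 := hestep i (hb i (by omega))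
          omega
      have hen : e n = 0 := by
        have h1 := hc (n - 1) le_rfl
        have h2 := hestep (n - 1) hn1
        have h3 : n - 1 + 1 = n := by omega
        rw [h3] at h2
        omega
      intro i hi
      have hin : i ≤ n - 1 := by
        by_contra hcon
        have := heanti n i (by omega)
        omega
      have h1 := hc i hin
      have h2 := hd (n - 1 - i) i (by omega)
      rcases Nat.lt_or_ge i (n - 1) with h3 | h3
      · have h4 := hc (i + 1) (by omega)
        have h5 := hd (n - 1 - (i + 1)) (i + 1) (by omega)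
        omega
      · have h4 : i + 1 = n := by omega
        rw [h4, hen]
        omega
    · intro i hi
      exfalso
      apply hi
      have := heanti 0 i (Nat.zero_le i)
      omega
  have hCP_e : (∀ i, e i ≠ 0 → e (i + 1) + 1 = e i) → ∀ i, i ≤ n → e i = n - i := by
    intro hCP i
    induction i with
    | zero => intro _; rw [he0]; rfl
    | succ i ih =>
      intro hi
      have h1 := ih (by omega)
      have h2 := hCP i (by omega)
      omega
  have hCP_end : (∀ i, e i ≠ 0 → e (i + 1) + 1 = e i) → (C (n - 1) ≠ ⊥ ∨ n = 0) := by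
    intro hCP
    by_cases h0 : n = 0
    · exact Or.inr h0
    · left
      intro h
      have h1 := (hbot _).1 h
      have h2 := hCP_e hCP (n - 1) (by omega)
      omega
  set K : Subgroup L := N ⊔ G with hKdef
  have hKp : IsPGroup p K := by
    rw [hKdef, sup_comm]
    exact IsPGroup.to_sup_of_normal_right' hG hN hGN
  have hR : (∀ i, e i ≠ 0 → e (i + 1) + 1 = e i) →
      ∀ i, K ≤ Subgroup.normalizer (C i : Set L) ∧ ⁅C i, K⁆ = C (i + 1) := by
    intro hCP
    have hstepR : ∀ i, K ≤ Subgroup.normalizer (C i : Set L) → ⁅C i, K⁆ = C (i + 1) := by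
      intro i hKi
      by_cases h0 : e i = 0
      · have hb := (hbot i).2 h0
        rw [hCs, hb, Subgroup.commutator_bot_left, Subgroup.commutator_bot_left]
      · have h1 : C (i + 1) ≤ ⁅C i, K⁆ := by
          rw [hCs]; exact Subgroup.commutator_mono le_rfl le_sup_right
        have h2 : ⁅C i, K⁆ ≤ C i := commutator_le_left_of_le_normalizer hKi
        have h3 : ⁅C i, K⁆ ≠ C i :=
          comm_ne_self hKp ((hCN i).trans le_sup_left) (fun h => h0 ((hbot i).1 h))
        obtain ⟨a, ha⟩ := hpg ⁅C i, K⁆ (h2.trans (hCN i))
        have h4 := hlt _ _ _ _ h2 h3 ha (he i)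
        have h5 := hle _ _ _ _ h1 (he (i + 1)) ha
        have h6 := hCP i h0
        have h7 : a = e (i + 1) := by omega
        rw [h7] at ha
        exact (heq _ _ _ h1 (he (i + 1)) ha).symm
    intro i
    induction i with
    | zero =>
      have h1 : K ≤ Subgroup.normalizer (C 0 : Set L) := sup_le Subgroup.le_normalizer hGN
      exact ⟨h1, hstepR 0 h1⟩
    | succ i ih =>
      have h1 : K ≤ Subgroup.normalizer (C (i + 1) : Set L) := by
        rw [← ih.2]
        exact le_normalizer_commutator_right (C i) K
      exact ⟨h1, hstepR (i + 1) h1⟩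
  have hclass : (∀ i, e i ≠ 0 → e (i + 1) + 1 = e i) → ∀ H : Subgroup L, H ≤ N →
      G ≤ Subgroup.normalizer (H : Set L) → ∃ j, j ≤ n ∧ H = C j := by
    intro hCP
    have hen := hCP_e hCP
    have hR' := hR hCP
    have key : ∀ k i, i + k = n → ∀ H : Subgroup L, H ≤ C i →
        G ≤ Subgroup.normalizer (H : Set L) → ∃ j, j ≤ n ∧ H = C j := by
      intro k
      induction k with
      | zero =>
        intro i hi H hH _
        have h0 : e i = 0 := by have := hen i (by omega); omega
        have hb := (hbot i).2 h0
        refine ⟨i, by omega, ?_⟩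
        rw [hb] at hH ⊢
        exact le_bot_iff.1 hH
      | succ k ih =>
        intro i hi H hH hGH
        by_cases hHD : H ≤ C (i + 1)
        · exact ih (i + 1) (by omega) H hHD hGH
        · refine ⟨i, by omega, ?_⟩
          have hei : e i ≠ 0 := by have := hen i (by omega); omega
          have hei1 := hCP i hei
          have hGinf : G ≤ Subgroup.normalizer ((H ⊓ C (i + 1) : Subgroup L) : Set L) := by
            intro g hg
            rw [Subgroup.mem_normalizer_iff]
            intro h
            rw [Subgroup.mem_inf, Subgroup.mem_inf]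
            exact and_congr (Subgroup.mem_normalizer_iff.1 (hGH hg) h)
              (Subgroup.mem_normalizer_iff.1 (hGC (i + 1) hg) h)
          obtain ⟨j, hj, hHj⟩ := ih (i + 1) (by omega) (H ⊓ C (i + 1)) inf_le_right hGinf
          have hDH : C (i + 1) ≤ H := by
            rcases Nat.lt_or_ge (i + 1) j with h | h
            · have hjE : C j ≤ C (i + 2) := hCanti (i + 2) j h
              have hsup : H ⊔ C (i + 1) = C i := by
                have h1 : H ⊔ C (i + 1) ≤ C i := sup_le hH (hCle i)
                obtain ⟨a, ha⟩ := hpg (H ⊔ C (i + 1)) (h1.trans (hCN i))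
                have h2 : C (i + 1) ≠ H ⊔ C (i + 1) := by
                  intro h3
                  apply hHD
                  rw [h3]
                  exact le_sup_left
                have h4 := hlt _ _ _ _ le_sup_right h2 (he (i + 1)) ha
                have h5 := hle _ _ _ _ h1 ha (he i)
                have h6 : a = e i := by omega
                rw [h6] at ha
                exact heq _ _ _ h1 ha (he i)
              have hα : ∀ x ∈ C i, ∀ d ∈ C (i + 1), ⁅x, d⁆ ∈ C (i + 2) := by
                intro x hx d hd
                rw [← (hR' (i + 1)).2, Subgroup.commutator_comm]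
                exact Subgroup.commutator_mem_commutator ((le_sup_left : N ≤ N ⊔ G) (hCN i hx)) hd
              have hβ : ∀ x ∈ C i, ∀ g ∈ G, ⁅x, g⁆ ∈ C (i + 1) := by
                intro x hx g hg
                rw [hCs]
                exact Subgroup.commutator_mem_commutator hx hg
              have hγ : ∀ x ∈ C i, ∀ d ∈ C (i + 1), d ∈ C (i + 2) → x * d * x⁻¹ ∈ C (i + 2) := by
                intro x hx d hd hd2
                rw [conj_eq]
                exact Subgroup.mul_mem _ (hα x hx d hd) hd2
              let S : Subgroup L :=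
                { carrier := {x | x ∈ C i ∧ ∀ g ∈ G, ⁅x, g⁆ ∈ C (i + 2)}
                  mul_mem' := by
                    rintro x y ⟨hx, hx2⟩ ⟨hy, hy2⟩
                    refine ⟨Subgroup.mul_mem _ hx hy, fun g hg => ?_⟩
                    rw [comm_mul]
                    exact Subgroup.mul_mem _ (hγ x hx _ (hβ y hy g hg) (hy2 g hg)) (hx2 g hg)
                  one_mem' := by
                    refine ⟨Subgroup.one_mem _, fun g hg => ?_⟩
                    rw [commutatorElement_one_left]
                    exact Subgroup.one_mem _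
                  inv_mem' := by
                    rintro x ⟨hx, hx2⟩
                    refine ⟨Subgroup.inv_mem _ hx, fun g hg => ?_⟩
                    rw [comm_inv]
                    exact hγ x⁻¹ (Subgroup.inv_mem _ hx) _
                      (Subgroup.inv_mem _ (hβ x hx g hg)) (Subgroup.inv_mem _ (hx2 g hg)) }
              have hHS : H ≤ S := by
                intro h hh
                refine ⟨hH hh, fun g hg => ?_⟩
                have h1 : ⁅h, g⁆ ∈ H :=
                  commutator_le_left_of_le_normalizer hGH (Subgroup.commutator_mem_commutator hh hg)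
                have h2 : ⁅h, g⁆ ∈ H ⊓ C (i + 1) := ⟨h1, hβ h (hH hh) g hg⟩
                rw [hHj] at h2
                exact hjE h2
              have hDS : C (i + 1) ≤ S := by
                intro m hm
                refine ⟨hCle i hm, fun g hg => ?_⟩
                exact Subgroup.commutator_mem_commutator hm hg
              have hCS : C i ≤ S := by
                rw [← hsup]
                exact sup_le hHS hDS
              have hDM : C (i + 1) ≤ C (i + 2) := by
                rw [hCs i, Subgroup.commutator_le]
                intro x hx g hg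
                exact (hCS hx).2 g hg
              have hDbot : C (i + 1) = ⊥ := by
                by_contra hne
                exact hstrict (C (i + 1)) (hCN _) (hGC _) hne (le_antisymm (hCle (i + 1)) hDM)
              rw [hDbot]; exact bot_le
            · calc C (i + 1) ≤ C j := hCanti j (i + 1) h
                _ = H ⊓ C (i + 1) := hHj.symm
                _ ≤ H := inf_le_left
          obtain ⟨a, ha⟩ := hpg H (hH.trans (hCN i))
          have h1 : C (i + 1) ≠ H := by
            intro h3
            apply hHD
            rw [h3]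
          have h2 := hlt _ _ _ _ hDH h1 (he (i + 1)) ha
          have h3 := hle _ _ _ _ hH ha (he i)
          have h4 : a = e i := by omega
          rw [h4] at ha
          exact heq _ _ _ hH ha (he i)
    intro H hH hGH
    exact key n 0 (by omega) H hH hGH
  have hCP_U : (∀ i, e i ≠ 0 → e (i + 1) + 1 = e i) → ∀ H : Subgroup L, H ≤ N →
      G ≤ Subgroup.normalizer (H : Set L) → H ≠ ⊥ → (⁅H, G⁆).relIndex H = p := by
    intro hCP H hH hGH hne
    obtain ⟨j, hj, rfl⟩ := hclass hCP H hH hGH
    have hej : e j ≠ 0 := fun h => hne ((hbot j).2 h)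
    have h1 := hCP j hej
    have h2 := card_mul_relIndex' (hCle j)
    rw [he (j + 1), he j, ← h1, pow_succ] at h2
    exact Nat.eq_of_mul_eq_mul_left (pow_pos hp.pos _) h2
  refine ⟨⟨fun hU => hCP_end (hU_CP hU), fun h => hCP_U (hend_CP h)⟩, fun hU H hH hGH => ?_⟩
  have hCP := hU_CP hU
  obtain ⟨j, hj, hHj⟩ := hclass hCP H hH hGH
  refine ⟨⟨j, hj, hHj⟩, ?_⟩
  rw [hHj]
  exact le_sup_left.trans (hR hCP j).1

end Cfsg.Agent.S0663
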