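import Cfsg.Statements.S0666
import Cfsg.Agent.S0035
import Mathlib

set_option autoImplicit false
open Cfsg

namespace Cfsg.Agent.S0666

open scoped Pointwise

theorem fix_prod {F V : Type*} [Group F] [Fintype F] [CommGroup V] (c : F → V →* V)
    (hmul : ∀ f g v, c (f * g) v = c f (c g v)) (S : Subgroup F) [Fintype S] (t : F)
    (ht : t ∈ S) (v : V) :
    c t (∏ s : S, c (s : F) v) = ∏ s : S, c (s : F) v := by
  rw [map_prod]
  refine Fintype.prod_equiv (Equiv.mulLeft (⟨t, ht⟩ : S)) _ _ ?_
  intro s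
  rw [← hmul]
  rfl

theorem key {F V : Type*} [Group F] [Finite F] [CommGroup V] (c : F → V →* V)
    (hmul : ∀ f g v, c (f * g) v = c f (c g v)) (hone : ∀ v, c 1 v = v)
    (H N : Subgroup F) (hH : IsFrobeniusComplement H) (hN : (N : Set F) = frobeniusKernel H)
    (hNn : N.Normal) (hc : Subgroup.IsComplement' N H)
    (hN0 : ∀ v : V, (∀ n ∈ N, c n v = v) → v = 1)
    (hH0 : ∀ v : V, (∀ h ∈ H, c h v = v) → v = 1) (v : V) :
    v ^ Nat.card N = 1 := by
  classical
  have : Fintype F := Fintype.ofFinite F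
  have hdisj : ∀ x : F, x ∈ N → x ∈ H → x = 1 :=
    fun x h1 h2 => Subgroup.disjoint_def.mp hc.disjoint h1 h2
  have hTN : ∀ w : V, ∏ s : N, c (s : F) w = 1 :=
    fun w => hN0 _ (fun n hn => fix_prod c hmul N n hn w)
  have hTH : ∀ w : V, ∏ s : H, c (s : F) w = 1 :=
    fun w => hH0 _ (fun n hn => fix_prod c hmul H n hn w)
  have hA : ∏ f : F, c f v = 1 := by
    have hbij : Function.Bijective (fun x : N × H => (x.1 : F) * (x.2 : F)) := hc
    rw [← Fintype.prod_equiv (Equiv.ofBijective _ hbij) (fun x => c ((x.1 : F) * (x.2 : F)) v)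
      (fun f => c f v) (fun x => rfl)]
    rw [Fintype.prod_prod_type]
    apply Finset.prod_eq_one
    intro n _
    have : ∀ h : H, c ((n : F) * (h : F)) v = c (n : F) (c (h : F) v) := fun h => hmul _ _ _
    simp_rw [this]
    rw [← map_prod, hTH, map_one]
  have hB : ∏ x : N × H, c ((x.1 : F) * (x.2 : F) * (x.1 : F)⁻¹) v = 1 := by
    rw [Fintype.prod_prod_type]
    apply Finset.prod_eq_one
    intro n _
    have : ∀ h : H, c ((n : F) * (h : F) * (n : F)⁻¹) v
        = c (n : F) (c (h : F) (c (n : F)⁻¹ v)) := fun h => by rw [hmul, hmul]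
    simp_rw [this]
    rw [← map_prod, hTH, map_one]
  have hsplitF : ∏ f : F, c f v = (∏ f ∈ Finset.univ.filter (fun f : F => f ∈ N), c f v)
      * ∏ f ∈ Finset.univ.filter (fun f : F => f ∉ N), c f v :=
    (Finset.prod_filter_mul_prod_filter_not _ _ _).symm
  have hN1 : ∏ f ∈ Finset.univ.filter (fun f : F => f ∈ N), c f v = 1 := by
    rw [Finset.prod_subtype (Finset.univ.filter (fun f : F => f ∈ N)) (p := fun f => f ∈ N)
      (by simp) (fun f => c f v)]
    exact hTN v
  have hrest : ∏ f ∈ Finset.univ.filter (fun f : F => f ∉ N), c f v = 1 := by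
    rw [hA, hN1, one_mul] at hsplitF
    exact hsplitF.symm
  have hbij : ∏ x ∈ (Finset.univ : Finset N) ×ˢ ((Finset.univ : Finset H).erase 1),
      c ((x.1 : F) * (x.2 : F) * (x.1 : F)⁻¹) v
      = ∏ f ∈ Finset.univ.filter (fun f : F => f ∉ N), c f v := by
    apply Finset.prod_nbij (fun x => (x.1 : F) * (x.2 : F) * (x.1 : F)⁻¹)
    · rintro ⟨n, h⟩ hx
      simp only [Finset.mem_product, Finset.mem_univ, Finset.mem_erase, ne_eq, and_true,
        true_and] at hx
      simp only [Finset.mem_filter, Finset.mem_univ, true_and]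
      intro hmem
      have h1 : (h : F) ∈ N := by
        have := hNn.conj_mem _ hmem (n : F)⁻¹
        simpa [mul_assoc] using this
      exact hx (Subtype.ext (hdisj _ h1 h.2))
    · rintro ⟨n, h⟩ hx ⟨n', h'⟩ hx' heq
      simp only [Finset.coe_product, Finset.coe_univ, Finset.coe_erase, Set.mem_prod,
        Set.mem_univ, Set.mem_sdiff, Set.mem_singleton_iff, true_and] at hx hx'
      have heq' : (n : F) * (h : F) * (n : F)⁻¹ = (n' : F) * (h' : F) * (n' : F)⁻¹ := heq
      have hg : (h : F) = ((n : F)⁻¹ * n') * (h' : F) * ((n : F)⁻¹ * n')⁻¹ := by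
        calc (h : F) = (n : F)⁻¹ * ((n : F) * (h : F) * (n : F)⁻¹) * (n : F) := by group
          _ = (n : F)⁻¹ * ((n' : F) * (h' : F) * (n' : F)⁻¹) * (n : F) := by rw [heq']
          _ = _ := by group
      have hgH : (n : F)⁻¹ * n' ∈ H := by
        by_contra hcon
        have hbot := hH.2.2 _ hcon
        have hmem : (h : F) ∈ H ⊓ (MulAut.conj ((n : F)⁻¹ * n') • H) := by
          refine ⟨h.2, ?_⟩
          rw [hg]
          have := Subgroup.smul_mem_pointwise_smul (h' : F) (MulAut.conj ((n : F)⁻¹ * n')) H h'.2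
          rw [MulAut.smul_def, MulAut.conj_apply] at this
          exact this
        rw [hbot, Subgroup.mem_bot] at hmem
        exact hx (Subtype.ext hmem)
      have hgN : (n : F)⁻¹ * n' ∈ N := N.mul_mem (N.inv_mem n.2) n'.2
      have hg1 := hdisj _ hgN hgH
      have hnn : (n : F) = n' := by
        calc (n : F) = (n : F) * ((n : F)⁻¹ * n') := by rw [hg1, mul_one]
          _ = n' := by group
      have hnn' : n = n' := Subtype.ext hnn
      subst hnn'
      have hhh : (h : F) = h' := by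
        rw [hg, hg1]; group
      have hhh' : h = h' := Subtype.ext hhh
      rw [hhh']
    · intro f hf
      simp only [Finset.coe_filter, Finset.mem_univ, true_and, Set.mem_ofPred_eq] at hf
      have hf' : f ∉ (N : Set F) := hf
      rw [hN] at hf'
      unfold frobeniusKernel at hf'
      simp only [Set.mem_ofPred_eq, not_or, not_forall, not_not] at hf'
      obtain ⟨hf1, g, hg⟩ := hf'
      obtain ⟨h, hh, rfl⟩ := Subgroup.mem_smul_pointwise_iff_exists _ _ _ |>.mp hg
      obtain ⟨⟨n₀, h₀⟩, hnh⟩ := (hc : Function.Bijective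
        (fun x : N × H => (x.1 : F) * (x.2 : F))).2 g
      have hnh' : (n₀ : F) * (h₀ : F) = g := hnh
      refine ⟨(n₀, ⟨(h₀ : F) * h * (h₀ : F)⁻¹, H.mul_mem (H.mul_mem h₀.2 hh) (H.inv_mem h₀.2)⟩),
        ?_, ?_⟩
      · simp only [Finset.coe_product, Finset.coe_univ, Finset.coe_erase, Set.mem_prod,
          Set.mem_univ, Set.mem_sdiff, Set.mem_singleton_iff, true_and]
        intro hcon
        have hcon' : (h₀ : F) * h * (h₀ : F)⁻¹ = 1 := congrArg Subtype.val hcon
        apply hf1
        rw [MulAut.smul_def, MulAut.conj_apply, ← hnh']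
        calc (n₀ : F) * (h₀ : F) * h * ((n₀ : F) * (h₀ : F))⁻¹
            = (n₀ : F) * ((h₀ : F) * h * (h₀ : F)⁻¹) * (n₀ : F)⁻¹ := by group
          _ = 1 := by rw [hcon']; group
      · show (n₀ : F) * ((h₀ : F) * h * (h₀ : F)⁻¹) * (n₀ : F)⁻¹ = _
        rw [MulAut.smul_def, MulAut.conj_apply, ← hnh']
        group
    · intro _ _; rfl
  have hfin : ∏ x : N × H, c ((x.1 : F) * (x.2 : F) * (x.1 : F)⁻¹) v
      = v ^ Nat.card N * ∏ x ∈ (Finset.univ : Finset N) ×ˢ ((Finset.univ : Finset H).erase 1),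
      c ((x.1 : F) * (x.2 : F) * (x.1 : F)⁻¹) v := by
    rw [Fintype.prod_prod_type, Finset.prod_product]
    have : ∀ n : N, ∏ h : H, c ((n : F) * (h : F) * (n : F)⁻¹) v
        = v * ∏ h ∈ (Finset.univ : Finset H).erase 1, c ((n : F) * (h : F) * (n : F)⁻¹) v := by
      intro n
      rw [← Finset.mul_prod_erase Finset.univ _ (Finset.mem_univ (1 : H))]
      congr 1
      simp [hone]
    simp_rw [this]
    rw [Finset.prod_mul_distrib, Finset.prod_const, Finset.card_univ, Nat.card_eq_fintype_card]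
  rw [hB, hbij, hrest, mul_one] at hfin
  exact hfin.symm

open scoped IsMulCommutative in
theorem main {G : Type*} [Group G] [Finite G] (V F : Subgroup G) (hVab : IsMulCommutative V)
    (hFV : F ≤ Subgroup.normalizer (V : Set G)) (H N : Subgroup ↥F)
    (hH : Cfsg.IsFrobeniusComplement H) (hN : (N : Set F) = frobeniusKernel H)
    (hNn : N.Normal) (hc : Subgroup.IsComplement' N H)
    (hCK : V ⊓ Subgroup.centralizer (Subtype.val '' (N : Set F) : Set G) = ⊥)
    (hCH : V ⊓ Subgroup.centralizer ((H.map F.subtype : Subgroup G) : Set G) = ⊥) (v : V) :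
    v ^ Nat.card N = 1 := by
  have hmem : ∀ (f : F) (v : V), (f : G) * v * (f : G)⁻¹ ∈ V :=
    fun f v => (Subgroup.mem_normalizer_iff.mp (hFV f.2) v).mp v.2
  let c : F → V →* V := fun f =>
    MonoidHom.mk' (fun v => ⟨(f : G) * v * (f : G)⁻¹, hmem f v⟩)
      (by intro a b; apply Subtype.ext; simp)
  refine key c ?_ ?_ H N hH hN hNn hc ?_ ?_ v
  · intro f g v
    apply Subtype.ext
    show ((f * g : F) : G) * v * ((f * g : F) : G)⁻¹ = f * (g * v * g⁻¹) * f⁻¹
    simp [mul_assoc]
  · intro v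
    apply Subtype.ext
    show ((1 : F) : G) * v * ((1 : F) : G)⁻¹ = v
    simp
  · intro v hv
    have : (v : G) ∈ V ⊓ Subgroup.centralizer (Subtype.val '' (N : Set F) : Set G) := by
      refine ⟨v.2, Subgroup.mem_centralizer_iff.mpr ?_⟩
      rintro _ ⟨n, hn, rfl⟩
      have h1 := congrArg Subtype.val (hv n hn)
      have h2 : (n : G) * v * (n : G)⁻¹ = v := h1
      calc (n : G) * v = (n : G) * v * (n : G)⁻¹ * n := by group
        _ = v * n := by rw [h2]
    rw [hCK, Subgroup.mem_bot] at this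
    exact Subtype.ext this
  · intro v hv
    have : (v : G) ∈ V ⊓ Subgroup.centralizer ((H.map F.subtype : Subgroup G) : Set G) := by
      refine ⟨v.2, Subgroup.mem_centralizer_iff.mpr ?_⟩
      rintro _ ⟨n, hn, rfl⟩
      have h1 := congrArg Subtype.val (hv n hn)
      have h2 : (n : G) * v * (n : G)⁻¹ = v := h1
      show (n : G) * v = v * n
      calc (n : G) * v = (n : G) * v * (n : G)⁻¹ * n := by group
        _ = v * n := by rw [h2]
    rw [hCH, Subgroup.mem_bot] at this
    exact Subtype.ext this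

/-- A Frobenius group acting on a nontrivial abelian group of order prime to that of its kernel, with the kernel acting without nontrivial fixed points, has a complement with a nontrivial fixed point. -/
theorem result {G : Type*} [Group G] [Finite G] (V F : Subgroup G) (hVab : IsMulCommutative V) (hV1 : V ≠ ⊥) (hFV : F ≤ Subgroup.normalizer (V : Set G)) (H : Subgroup ↥F) (hH : Cfsg.IsFrobeniusComplement H) (hcop : (Nat.card V).Coprime (Nat.card (Cfsg.frobeniusKernel H))) (hCK : V ⊓ Subgroup.centralizer (Subtype.val '' Cfsg.frobeniusKernel H : Set G) = ⊥) : V ⊓ Subgroup.centralizer ((H.map F.subtype : Subgroup G) : Set G) ≠ ⊥ := by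
  intro hCH
  obtain ⟨N, hN, hNn, hc⟩ := Cfsg.Agent.S0035.result H hH
  have hcard : Nat.card N = Nat.card (frobeniusKernel H) := by rw [← hN]; rfl
  apply hV1
  rw [eq_bot_iff]
  intro x hx
  have h1 := main V F hVab hFV H N hH hN hNn hc (by rw [hN]; exact hCK) hCH ⟨x, hx⟩
  have h2 : (⟨x, hx⟩ : V) ^ Nat.card V = 1 := pow_card_eq_one'
  have h3 : (⟨x, hx⟩ : V) ^ (Nat.card V).gcd (Nat.card N) = 1 := pow_gcd_eq_one.mpr ⟨h2, h1⟩
  rw [hcard, hcop.gcd_eq_one, pow_one] at h3
  exact congrArg Subtype.val h3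

end Cfsg.Agent.S0666
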