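import Cfsg.Statements.S0668
import Mathlib

set_option autoImplicit false
open Cfsg

namespace Cfsg.Agent.S0668

/-- The equivariant linear maps between the permutation modules of two finite `G`-sets form a space whose dimension is the number of `G`-orbits on the product of the two sets. -/
theorem result {G : Type*} [Group G] {K : Type*} [Field K] {Ω₁ Ω₂ : Type*} [Fintype Ω₁] [Fintype Ω₂] [MulAction G Ω₁] [MulAction G Ω₂] : Module.finrank K ((Cfsg.permRep K G Ω₁).linHom (Cfsg.permRep K G Ω₂)).invariants = Nat.card (MulAction.orbitRel.Quotient G (Ω₁ × Ω₂)) := by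
  classical
  have hkey : ∀ (g : G) (f : (Ω₁ → K) →ₗ[K] (Ω₂ → K)) (i : Ω₂) (j : Ω₁),
      LinearMap.toMatrix' (((Cfsg.permRep K G Ω₁).linHom (Cfsg.permRep K G Ω₂)) g f) i j =
        LinearMap.toMatrix' f (g⁻¹ • i) (g⁻¹ • j) := by
    intro g f i j
    rw [LinearMap.toMatrix'_apply, LinearMap.toMatrix'_apply]
    have h1 : Cfsg.permRep K G Ω₁ g⁻¹ (Pi.single j 1) = Pi.single (g⁻¹ • j) 1 := by
      funext x
      show (Pi.single j (1 : K) : Ω₁ → K) (g⁻¹⁻¹ • x) = (Pi.single (g⁻¹ • j) (1 : K) : Ω₁ → K) x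
      rw [inv_inv]
      simp only [Pi.single_apply, eq_inv_smul_iff]
    show f (Cfsg.permRep K G Ω₁ g⁻¹ (Pi.single j 1)) (g⁻¹ • i) = f (Pi.single (g⁻¹ • j) 1) (g⁻¹ • i)
    rw [h1]
  let ψ : (MulAction.orbitRel.Quotient G (Ω₁ × Ω₂) → K) →ₗ[K] Matrix Ω₂ Ω₁ K :=
    { toFun := fun φ => Matrix.of (fun i j => φ (Quotient.mk'' (j, i)))
      map_add' := fun φ φ' => rfl
      map_smul' := fun r φ => rfl }
  have hψ : ∀ φ i j, ψ φ i j = φ (Quotient.mk'' (j, i)) := fun φ i j => rfl
  have hψinj : Function.Injective ψ := by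
    intro φ φ' h
    funext q
    induction q using Quotient.inductionOn' with
    | h x =>
      obtain ⟨j, i⟩ := x
      have h1 := congrFun (congrFun h i) j
      rw [hψ, hψ] at h1
      exact h1
  have hmap : ((Cfsg.permRep K G Ω₁).linHom (Cfsg.permRep K G Ω₂)).invariants.map
      (LinearMap.toMatrix' : ((Ω₁ → K) →ₗ[K] (Ω₂ → K)) ≃ₗ[K] Matrix Ω₂ Ω₁ K).toLinearMap =
      LinearMap.range ψ := by
    ext M
    constructor
    · rintro ⟨f, hf, rfl⟩
      have hf' : ∀ g : G, ((Cfsg.permRep K G Ω₁).linHom (Cfsg.permRep K G Ω₂)) g f = f := hf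
      have hM : ∀ (g : G) (i : Ω₂) (j : Ω₁),
          LinearMap.toMatrix' f (g • i) (g • j) = LinearMap.toMatrix' f i j := by
        intro g i j
        have h1 := hkey g⁻¹ f i j
        rw [hf' g⁻¹, inv_inv] at h1
        exact h1.symm
      refine ⟨fun q => Quotient.liftOn' q (fun x => LinearMap.toMatrix' f x.2 x.1) ?_, ?_⟩
      · rintro ⟨j, i⟩ ⟨j', i'⟩ hrel
        obtain ⟨g, hg⟩ := hrel
        have hg1 : g • j' = j := congrArg Prod.fst hg
        have hg2 : g • i' = i := congrArg Prod.snd hg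
        show LinearMap.toMatrix' f i j = LinearMap.toMatrix' f i' j'
        rw [← hg1, ← hg2, hM]
      · ext i j
        rfl
    · rintro ⟨φ, rfl⟩
      refine ⟨LinearMap.toMatrix'.symm (ψ φ), ?_, ?_⟩
      · show ∀ g : G, ((Cfsg.permRep K G Ω₁).linHom (Cfsg.permRep K G Ω₂)) g
          (LinearMap.toMatrix'.symm (ψ φ)) = LinearMap.toMatrix'.symm (ψ φ)
        intro g
        apply LinearMap.toMatrix'.injective
        ext i j
        rw [hkey, LinearEquiv.apply_symm_apply, hψ, hψ]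
        congr 1
        apply Quotient.sound'
        exact MulAction.mem_orbit (j, i) g⁻¹
      · exact LinearEquiv.apply_symm_apply _ _
  have : Fintype (MulAction.orbitRel.Quotient G (Ω₁ × Ω₂)) := Fintype.ofFinite _
  rw [← LinearEquiv.finrank_map_eq (LinearMap.toMatrix' :
    ((Ω₁ → K) →ₗ[K] (Ω₂ → K)) ≃ₗ[K] Matrix Ω₂ Ω₁ K), hmap, LinearMap.finrank_range_of_inj hψinj,
    Module.finrank_fintype_fun_eq_card, Nat.card_eq_fintype_card]

end Cfsg.Agent.S0668
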