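import Cfsg.Statements.S0669
import Mathlib

set_option autoImplicit false
open Cfsg

namespace Cfsg.Agent.S0669

/-- The rank of a transitive action: orbits on ordered pairs correspond to orbits of a point stabiliser. -/
theorem result {G : Type*} [Group G] {Ω : Type*} [Finite Ω] [MulAction G Ω] [MulAction.IsPretransitive G Ω] (a : Ω) : Nat.card (MulAction.orbitRel.Quotient G (Ω × Ω)) = Nat.card (MulAction.orbitRel.Quotient (MulAction.stabilizer G a) Ω) := by
  symm
  let f : MulAction.orbitRel.Quotient (MulAction.stabilizer G a) Ω →
      MulAction.orbitRel.Quotient G (Ω × Ω) :=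
    Quotient.lift (fun b => (Quotient.mk'' (a, b) : MulAction.orbitRel.Quotient G (Ω × Ω))) (by
      intro b b' h
      apply Quotient.sound'
      have h' : b ∈ MulAction.orbit (MulAction.stabilizer G a) b' := h
      obtain ⟨s, hs⟩ := h'
      show (a, b) ∈ MulAction.orbit G (a, b')
      refine ⟨(s : G), ?_⟩
      have hs' : (s : G) • b' = b := hs
      have hsa : (s : G) • a = a := s.2
      show ((s : G) • a, (s : G) • b') = (a, b)
      rw [hsa, hs'])
  have hf : ∀ b, f (Quotient.mk'' b) = Quotient.mk'' (a, b) := fun b => rfl
  have hbij : Function.Bijective f := by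
    constructor
    · intro x y
      induction x using Quotient.inductionOn' with
      | h b =>
        induction y using Quotient.inductionOn' with
        | h b' =>
          intro h
          rw [hf, hf] at h
          have h1 : (a, b) ∈ MulAction.orbit G (a, b') := Quotient.exact' h
          obtain ⟨g, hg⟩ := h1
          have hg' : (g • a, g • b') = (a, b) := hg
          have hga : g • a = a := (Prod.mk.inj hg').1
          have hgb : g • b' = b := (Prod.mk.inj hg').2
          apply Quotient.sound'
          show b ∈ MulAction.orbit (MulAction.stabilizer G a) b'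
          exact ⟨⟨g, hga⟩, hgb⟩
    · intro z
      induction z using Quotient.inductionOn' with
      | h xy =>
        obtain ⟨x, y⟩ := xy
        obtain ⟨g, hg⟩ := MulAction.exists_smul_eq G x a
        refine ⟨Quotient.mk'' (g • y), ?_⟩
        rw [hf]
        apply Quotient.sound'
        show (a, g • y) ∈ MulAction.orbit G (x, y)
        refine ⟨g, ?_⟩
        show (g • x, g • y) = (a, g • y)
        rw [hg]
  exact Nat.card_congr (Equiv.ofBijective f hbij)

end Cfsg.Agent.S0669
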