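import Cfsg.Statements.S0740
import Mathlib

set_option autoImplicit false
open Cfsg

namespace Cfsg.Agent.S0740

theorem card_fix {G Ω : Type*} [Group G] [MulAction G Ω] [Fintype Ω] [DecidableEq Ω] (s : G) :
    Nat.card (MulAction.fixedBy Ω s) = (Finset.univ.filter (fun x : Ω => s • x = x)).card := by
  classical
  rw [Nat.card_eq_fintype_card, ← Fintype.card_coe]
  apply Fintype.card_congr
  exact Equiv.subtypeEquivRight (by intro x; simp [MulAction.mem_fixedBy])

theorem card_fix_le {G Ω : Type*} [Group G] [MulAction G Ω] [Fintype Ω] [DecidableEq Ω]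
    (h3 : ∀ g : G, ∀ a b c : Ω, a ≠ b → b ≠ c → a ≠ c → g • a = a → g • b = b → g • c = c → g = 1)
    (s : G) (hs : s ≠ 1) : (Finset.univ.filter (fun x : Ω => s • x = x)).card ≤ 2 := by
  by_contra hcon
  push Not at hcon
  obtain ⟨a, b, c, ha, hb, hc, hab, hac, hbc⟩ := Finset.two_lt_card_iff.1 hcon
  simp only [Finset.mem_filter, Finset.mem_univ, true_and] at ha hb hc
  exact hs (h3 s a b c hab hbc hac ha hb hc)

theorem card_fix_parity {G Ω : Type*} [Group G] [MulAction G Ω] [Fintype Ω] [DecidableEq Ω]
    (s : G) (hs : s ^ 2 = 1) :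
    Fintype.card Ω ≡ (Finset.univ.filter (fun x : Ω => s • x = x)).card [MOD 2] := by
  classical
  have : Fact (Nat.Prime 2) := ⟨Nat.prime_two⟩
  let f : Function.End Ω := fun x => s • x
  have h1 : f ^ 2 ^ 1 = 1 := by
    rw [pow_one, pow_two]
    funext x
    show s • s • x = x
    rw [smul_smul, ← pow_two, hs, one_smul]
  have h2 := Equiv.Perm.card_fixedPoints_modEq (p := 2) (n := 1) h1
  have h3 : Fintype.card ↑(Function.fixedPoints f) =
      (Finset.univ.filter (fun x : Ω => s • x = x)).card := by
    rw [← Fintype.card_coe]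
    apply Fintype.card_congr
    exact Equiv.subtypeEquivRight (by
      intro x
      simp [Function.mem_fixedPoints, Function.IsFixedPt, f])
  rw [h3] at h2
  exact h2

/-- In a finite Zassenhaus group any two points `a ≠ b` are swapped by an involution; every such involution has exactly one fixed point when the degree is odd and 0 or 2 fixed points when the degree is even; and if the two-point stabiliser has even order, some such involution has exactly 2 fixed points. -/
theorem result {G Ω : Type*} [Group G] [Finite G] [MulAction G Ω] [Fintype Ω] (hZ : Cfsg.IsZassenhausGroup G Ω) {a b : Ω} (hab : a ≠ b) : (∃ s : G, orderOf s = 2 ∧ s • a = b ∧ s • b = a) ∧ (∀ s : G, orderOf s = 2 → s • a = b → s • b = a → (Odd (Fintype.card Ω) → Nat.card (MulAction.fixedBy Ω s) = 1) ∧ (Even (Fintype.card Ω) → Nat.card (MulAction.fixedBy Ω s) = 0 ∨ Nat.card (MulAction.fixedBy Ω s) = 2)) ∧ (Even (Fintype.card Ω) → Even (Nat.card ↥(MulAction.stabilizer G a ⊓ MulAction.stabilizer G b)) → ∃ s : G, orderOf s = 2 ∧ s • a = b ∧ s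 • b = a ∧ Nat.card (MulAction.fixedBy Ω s) = 2) := by
  classical
  obtain ⟨hfaith, h2t, h3, -, -⟩ := hZ
  have : Fact (Nat.Prime 2) := ⟨Nat.prime_two⟩
  rw [MulAction.is_two_pretransitive_iff] at h2t
  -- even two-point stabiliser: an involution swapping `a`, `b` with exactly two fixed points
  have hevenH : Even (Nat.card ↥(MulAction.stabilizer G a ⊓ MulAction.stabilizer G b)) →
      ∃ s : G, orderOf s = 2 ∧ s • a = b ∧ s • b = a ∧ Nat.card (MulAction.fixedBy Ω s) = 2 := by
    intro hev
    obtain ⟨z, hz⟩ := exists_prime_orderOf_dvd_card' 2 (even_iff_two_dvd.1 hev)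
    have hz2 : orderOf (z : G) = 2 := by rw [Subgroup.orderOf_coe, hz]
    have hza : (z : G) • a = a := z.2.1
    have hzb : (z : G) • b = b := z.2.2
    have hz1 : (z : G) ≠ 1 := by
      intro h
      rw [h, orderOf_one] at hz2
      omega
    have hzsq : (z : G) ^ 2 = 1 := by rw [← hz2, pow_orderOf_eq_one]
    obtain ⟨c, hca, hcb⟩ : ∃ c : Ω, c ≠ a ∧ c ≠ b := by
      by_contra hcon
      push Not at hcon
      apply hz1
      apply hfaith.eq_of_smul_eq_smul
      intro x
      rw [one_smul]
      by_cases hxa : x = a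
      · rw [hxa, hza]
      · rw [hcon x hxa, hzb]
    have hdc : (z : G) • c ≠ c := by
      intro h
      exact hz1 (h3 _ a b c hab (Ne.symm hcb) (Ne.symm hca) hza hzb h)
    have hzd : (z : G) • (z : G) • c = c := by
      rw [smul_smul, ← pow_two, hzsq, one_smul]
    obtain ⟨g, hgc, hgd⟩ := h2t (Ne.symm hdc) hab
    have hgc' : g⁻¹ • a = c := by rw [inv_smul_eq_iff, hgc]
    have hgd' : g⁻¹ • b = (z : G) • c := by rw [inv_smul_eq_iff, hgd]
    have hsa : (g * z * g⁻¹) • a = b := by
      rw [mul_smul, mul_smul, hgc', hgd]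
    have hsb : (g * z * g⁻¹) • b = a := by
      rw [mul_smul, mul_smul, hgd', hzd, hgc]
    have hs1 : g * (z : G) * g⁻¹ ≠ 1 := by
      intro h
      rw [h, one_smul] at hsa
      exact hab hsa
    have hssq : (g * (z : G) * g⁻¹) ^ 2 = 1 := by
      rw [pow_two]
      have : g * (z : G) * g⁻¹ * (g * (z : G) * g⁻¹) = g * ((z : G) ^ 2) * g⁻¹ := by
        rw [pow_two]; group
      rw [this, hzsq]
      group
    refine ⟨g * z * g⁻¹, orderOf_eq_prime hssq hs1, hsa, hsb, ?_⟩
    rw [card_fix]
    apply le_antisymm (card_fix_le h3 _ hs1)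
    have hsub : ({g • a, g • b} : Finset Ω) ⊆
        Finset.univ.filter (fun x : Ω => (g * (z : G) * g⁻¹) • x = x) := by
      intro x hx
      rw [Finset.mem_insert, Finset.mem_singleton] at hx
      rw [Finset.mem_filter]
      refine ⟨Finset.mem_univ _, ?_⟩
      rcases hx with rfl | rfl
      · rw [mul_smul, mul_smul, inv_smul_smul, hza]
      · rw [mul_smul, mul_smul, inv_smul_smul, hzb]
    have hcard : ({g • a, g • b} : Finset Ω).card = 2 := by
      rw [Finset.card_pair]
      exact fun h => hab (MulAction.injective g h)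
    rw [← hcard]
    exact Finset.card_le_card hsub
  refine ⟨?_, ?_, fun _ => hevenH⟩
  · by_cases hev : Even (Nat.card ↥(MulAction.stabilizer G a ⊓ MulAction.stabilizer G b))
    · obtain ⟨s, h1, h2, h3', -⟩ := hevenH hev
      exact ⟨s, h1, h2, h3'⟩
    · obtain ⟨g, hga, hgb⟩ := h2t hab (Ne.symm hab)
      have hg2 : g ^ 2 ∈ MulAction.stabilizer G a ⊓ MulAction.stabilizer G b := by
        constructor
        · show g ^ 2 • a = a
          rw [pow_two, mul_smul, hga, hgb]
        · show g ^ 2 • b = b
          rw [pow_two, mul_smul, hgb, hga]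
      have hodd : Odd (orderOf (g ^ 2)) := by
        have h1 : orderOf (⟨g ^ 2, hg2⟩ :
            ↥(MulAction.stabilizer G a ⊓ MulAction.stabilizer G b)) ∣ _ := orderOf_dvd_natCard _
        rw [← Subgroup.orderOf_coe] at h1
        exact (Nat.not_even_iff_odd.1 hev).of_dvd_nat h1
      obtain ⟨m, hm⟩ := hodd
      have hpow : ∀ j : ℕ, (g ^ 2) ^ j • a = a ∧ (g ^ 2) ^ j • b = b := by
        intro j
        have := Subgroup.pow_mem _ hg2 j
        exact ⟨this.1, this.2⟩
      have hs : g ^ orderOf (g ^ 2) = (g ^ 2) ^ m * g := by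
        rw [hm, pow_succ, pow_mul]
      have hsa : g ^ orderOf (g ^ 2) • a = b := by
        rw [hs, mul_smul, hga, (hpow m).2]
      have hsb : g ^ orderOf (g ^ 2) • b = a := by
        rw [hs, mul_smul, hgb, (hpow m).1]
      refine ⟨g ^ orderOf (g ^ 2), orderOf_eq_prime ?_ ?_, hsa, hsb⟩
      · rw [← pow_mul, mul_comm, pow_mul, pow_orderOf_eq_one]
      · intro h
        rw [h, one_smul] at hsa
        exact hab hsa
  · intro s hs2 hsa hsb
    have hs1 : s ≠ 1 := by
      intro h
      rw [h, orderOf_one] at hs2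
      omega
    have hssq : s ^ 2 = 1 := by rw [← hs2, pow_orderOf_eq_one]
    have hle := card_fix_le h3 s hs1
    have hpar := card_fix_parity (Ω := Ω) s hssq
    rw [card_fix]
    constructor
    · intro hodd
      have h5 : Fintype.card Ω % 2 = 1 := Nat.odd_iff.1 hodd
      unfold Nat.ModEq at hpar
      omega
    · intro heven
      have h5 : Fintype.card Ω % 2 = 0 := Nat.even_iff.1 heven
      unfold Nat.ModEq at hpar
      omega

end Cfsg.Agent.S0740
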