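import Cfsg.Statements.S0680
import Mathlib
import Cfsg.Agent.S0740

set_option autoImplicit false
open Cfsg

namespace Cfsg.Agent.S0680

open Equiv

section
variable {α : Type*} [Fintype α] [DecidableEq α] (G : Subgroup (Perm α))
  [DecidablePred (fun g : Perm α => g ∈ G)]

omit [Fintype α] [DecidableEq α] [DecidablePred (fun g : Perm α => g ∈ G)] in
theorem eq_of_two (hB1 : ∀ g ∈ G, ∀ a b, a ≠ b → g a = a → g b = b → g = 1)
    {g g' : Perm α} (hg : g ∈ G) (hg' : g' ∈ G) {a b : α} (hab : a ≠ b) (ha : g a = g' a)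
    (hb : g b = g' b) : g = g' := by
  have h1 := hB1 (g'⁻¹ * g) (G.mul_mem (G.inv_mem hg') hg) a b hab
    (by rw [Perm.mul_apply, ha]; simp) (by rw [Perm.mul_apply, hb]; simp)
  exact (inv_mul_eq_one.1 h1).symm

theorem card_G (hB1 : ∀ g ∈ G, ∀ a b, a ≠ b → g a = a → g b = b → g = 1)
    (hB2 : ∀ a b c d : α, a ≠ b → c ≠ d → ∃ g ∈ G, g a = c ∧ g b = d) (h2 : 2 ≤ Fintype.card α) :
    (Finset.univ.filter (fun g : Perm α => g ∈ G)).card =
      Fintype.card α * (Fintype.card α - 1) := by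
  obtain ⟨a, b, hab⟩ := Fintype.exists_pair_of_one_lt_card (by omega : 1 < Fintype.card α)
  have h1 : (Finset.univ.filter (fun g : Perm α => g ∈ G)).card =
      (Finset.univ : Finset α).offDiag.card := by
    apply Finset.card_bij (fun g _ => (g a, g b))
    · intro g _
      rw [Finset.mem_offDiag]
      exact ⟨Finset.mem_univ _, Finset.mem_univ _, fun h => hab (g.injective h)⟩
    · intro g hg g' hg' h
      rw [Finset.mem_filter] at hg hg'
      rw [Prod.mk.injEq] at h
      exact eq_of_two G hB1 hg.2 hg'.2 hab h.1 h.2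
    · rintro ⟨c, d⟩ hcd
      rw [Finset.mem_offDiag] at hcd
      obtain ⟨g, hg, hga, hgb⟩ := hB2 a b c d hab hcd.2.2
      exact ⟨g, Finset.mem_filter.2 ⟨Finset.mem_univ _, hg⟩, by rw [hga, hgb]⟩
  rw [h1, Finset.offDiag_card, Finset.card_univ, Nat.mul_sub_one]

theorem card_stab (hB1 : ∀ g ∈ G, ∀ a b, a ≠ b → g a = a → g b = b → g = 1)
    (hB2 : ∀ a b c d : α, a ≠ b → c ≠ d → ∃ g ∈ G, g a = c ∧ g b = d) (h2 : 2 ≤ Fintype.card α)
    (a : α) :
    (Finset.univ.filter (fun g : Perm α => g ∈ G ∧ g a = a)).card = Fintype.card α - 1 := by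
  obtain ⟨b, hba⟩ := Fintype.exists_ne_of_one_lt_card (by omega : 1 < Fintype.card α) a
  have h1 : (Finset.univ.filter (fun g : Perm α => g ∈ G ∧ g a = a)).card =
      ((Finset.univ : Finset α).erase a).card := by
    apply Finset.card_bij (fun g _ => g b)
    · intro g hg
      rw [Finset.mem_filter] at hg
      rw [Finset.mem_erase]
      refine ⟨?_, Finset.mem_univ _⟩
      intro h
      rw [← hg.2.2] at h
      exact hba (g.injective h)
    · intro g hg g' hg' h
      rw [Finset.mem_filter] at hg hg'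
      exact eq_of_two G hB1 hg.2.1 hg'.2.1 (Ne.symm hba) (by rw [hg.2.2, hg'.2.2]) h
    · intro c hc
      rw [Finset.mem_erase] at hc
      obtain ⟨g, hg, hga, hgb⟩ := hB2 a b a c (Ne.symm hba) (Ne.symm hc.1)
      exact ⟨g, Finset.mem_filter.2 ⟨Finset.mem_univ _, hg, hga⟩, hgb⟩
  rw [h1, Finset.card_erase_of_mem (Finset.mem_univ _), Finset.card_univ]

omit [DecidablePred (fun g : Perm α => g ∈ G)] in
theorem fix_le_one (hB1 : ∀ g ∈ G, ∀ a b, a ≠ b → g a = a → g b = b → g = 1)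
    {g : Perm α} (hg : g ∈ G) (hg1 : g ≠ 1) :
    (Finset.univ.filter (fun x : α => g x = x)).card ≤ 1 := by
  rw [Finset.card_le_one]
  intro a ha b hb
  rw [Finset.mem_filter] at ha hb
  by_contra hab
  exact hg1 (hB1 g hg a b hab ha.2 hb.2)

theorem card_fpf (hB1 : ∀ g ∈ G, ∀ a b, a ≠ b → g a = a → g b = b → g = 1)
    (hB2 : ∀ a b c d : α, a ≠ b → c ≠ d → ∃ g ∈ G, g a = c ∧ g b = d) (h2 : 2 ≤ Fintype.card α) :
    (Finset.univ.filter (fun g : Perm α => g ∈ G ∧ ∀ a, g a ≠ a)).card = Fintype.card α - 1 := by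
  -- double counting of pairs (g, a) with g a = a
  have hsum : ∑ g ∈ Finset.univ.filter (fun g : Perm α => g ∈ G),
      (Finset.univ.filter (fun x : α => g x = x)).card =
      ∑ a : α, (Finset.univ.filter (fun g : Perm α => g ∈ G ∧ g a = a)).card := by
    simp only [Finset.card_filter]
    rw [Finset.sum_comm]
    apply Finset.sum_congr rfl
    intro a _
    rw [Finset.sum_filter]
    apply Finset.sum_congr rfl
    intro g _
    by_cases hg : g ∈ G <;> simp [hg]
  have hR : ∑ a : α, (Finset.univ.filter (fun g : Perm α => g ∈ G ∧ g a = a)).card =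
      Fintype.card α * (Fintype.card α - 1) := by
    simp only [card_stab G hB1 hB2 h2, Finset.sum_const, Finset.card_univ, smul_eq_mul]
  have h1mem : (1 : Perm α) ∈ Finset.univ.filter (fun g : Perm α => g ∈ G) :=
    Finset.mem_filter.2 ⟨Finset.mem_univ _, G.one_mem⟩
  have hL : ∑ g ∈ Finset.univ.filter (fun g : Perm α => g ∈ G),
      (Finset.univ.filter (fun x : α => g x = x)).card =
      Fintype.card α + (((Finset.univ.filter (fun g : Perm α => g ∈ G)).erase 1).card -
        (Finset.univ.filter (fun g : Perm α => g ∈ G ∧ ∀ a, g a ≠ a)).card) := by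
    rw [← Finset.add_sum_erase _ _ h1mem]
    congr 1
    · simp
    · have h5 : ∀ g ∈ (Finset.univ.filter (fun g : Perm α => g ∈ G)).erase 1,
          (Finset.univ.filter (fun x : α => g x = x)).card =
            if (∀ a, g a ≠ a) then 0 else 1 := by
        intro g hg
        rw [Finset.mem_erase, Finset.mem_filter] at hg
        split_ifs with hfp
        · rw [Finset.card_eq_zero, Finset.filter_eq_empty_iff]
          intro x _
          exact hfp x
        · apply le_antisymm (fix_le_one G hB1 hg.2.2 hg.1)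
          push Not at hfp
          obtain ⟨x, hx⟩ := hfp
          exact Finset.card_pos.2 ⟨x, Finset.mem_filter.2 ⟨Finset.mem_univ _, hx⟩⟩
      rw [Finset.sum_congr rfl h5, Finset.sum_ite, Finset.sum_const_zero, zero_add,
        Finset.sum_const, smul_eq_mul, mul_one]
      have h6 : ((Finset.univ.filter (fun g : Perm α => g ∈ G)).erase 1).filter
          (fun g => ∀ a, g a ≠ a) =
          Finset.univ.filter (fun g : Perm α => g ∈ G ∧ ∀ a, g a ≠ a) := by
        ext g
        simp only [Finset.mem_filter, Finset.mem_erase, Finset.mem_univ, true_and]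
        constructor
        · rintro ⟨⟨-, hg⟩, hf⟩
          exact ⟨hg, hf⟩
        · rintro ⟨hg, hf⟩
          refine ⟨⟨?_, hg⟩, hf⟩
          rintro rfl
          obtain ⟨a⟩ : Nonempty α := Fintype.card_pos_iff.1 (by omega)
          exact hf a rfl
      have h7 := Finset.card_filter_add_card_filter_not
        (s := (Finset.univ.filter (fun g : Perm α => g ∈ G)).erase 1) (fun g => ∀ a, g a ≠ a)
      rw [h6] at h7
      omega
  rw [hL, hR, Finset.card_erase_of_mem h1mem, card_G G hB1 hB2 h2] at hsum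
  have h8 : (Finset.univ.filter (fun g : Perm α => g ∈ G ∧ ∀ a, g a ≠ a)).card ≤
      Fintype.card α * (Fintype.card α - 1) - 1 := by
    rw [← card_G G hB1 hB2 h2, ← Finset.card_erase_of_mem h1mem]
    apply Finset.card_le_card
    intro g hg
    rw [Finset.mem_filter] at hg
    rw [Finset.mem_erase, Finset.mem_filter]
    refine ⟨?_, Finset.mem_univ _, hg.2.1⟩
    rintro rfl
    obtain ⟨a⟩ : Nonempty α := Fintype.card_pos_iff.1 (by omega)
    exact hg.2.2 a rfl
  have h9 : 1 ≤ Fintype.card α * (Fintype.card α - 1) := by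
    have : 1 ≤ Fintype.card α - 1 := by omega
    nlinarith
  omega


omit [Fintype α] [DecidableEq α] [DecidablePred (fun g : Perm α => g ∈ G)] in
theorem exists_sw (hB1 : ∀ g ∈ G, ∀ a b, a ≠ b → g a = a → g b = b → g = 1)
    (hB2 : ∀ a b c d : α, a ≠ b → c ≠ d → ∃ g ∈ G, g a = c ∧ g b = d) (a b : α) (hab : a ≠ b) :
    ∃ t ∈ G, t ≠ 1 ∧ t * t = 1 ∧ t a = b ∧ t b = a := by
  obtain ⟨g, hg, hga, hgb⟩ := hB2 a b b a hab (Ne.symm hab)
  refine ⟨g, hg, ?_, ?_, hga, hgb⟩
  · rintro rfl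
    exact hab hga
  · exact hB1 _ (G.mul_mem hg hg) a b hab (by rw [Perm.mul_apply, hga, hgb])
      (by rw [Perm.mul_apply, hgb, hga])

omit [DecidablePred (fun g : Perm α => g ∈ G)] in
theorem inv_fix (hB1 : ∀ g ∈ G, ∀ a b, a ≠ b → g a = a → g b = b → g = 1)
    {t : Perm α} (ht : t ∈ G) (ht1 : t ≠ 1) (htt : t * t = 1) :
    (Finset.univ.filter (fun x : α => t x = x)).card = Fintype.card α % 2 := by
  have h1 := fix_le_one G hB1 ht ht1
  have h2 := S0740.card_fix_parity (G := Perm α) (Ω := α) t (by rw [pow_two, htt])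
  have h3 : (Finset.univ.filter (fun x : α => t • x = x)) =
      (Finset.univ.filter (fun x : α => t x = x)) := rfl
  rw [h3] at h2
  unfold Nat.ModEq at h2
  omega

theorem card_I (hB1 : ∀ g ∈ G, ∀ a b, a ≠ b → g a = a → g b = b → g = 1)
    (hB2 : ∀ a b c d : α, a ≠ b → c ≠ d → ∃ g ∈ G, g a = c ∧ g b = d) :
    (Finset.univ.filter (fun t : Perm α => t ∈ G ∧ t ≠ 1 ∧ t * t = 1)).card *
      (Fintype.card α - Fintype.card α % 2) = Fintype.card α * (Fintype.card α - 1) := by
  have hex : ∀ a b : α, a ≠ b → ∃ t, t ∈ G ∧ t ≠ 1 ∧ t * t = 1 ∧ t a = b ∧ t b = a := by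
    intro a b hab
    obtain ⟨t, h1, h2, h3, h4, h5⟩ := exists_sw G hB1 hB2 a b hab
    exact ⟨t, h1, h2, h3, h4, h5⟩
  choose! swf hswf using hex
  have h1 := Finset.card_eq_sum_card_fiberwise (s := (Finset.univ : Finset α).offDiag)
    (t := Finset.univ.filter (fun t : Perm α => t ∈ G ∧ t ≠ 1 ∧ t * t = 1))
    (f := fun p : α × α => swf p.1 p.2) (by
      rintro ⟨a, b⟩ hp
      rw [Finset.mem_coe, Finset.mem_offDiag] at hp
      have := hswf a b hp.2.2
      rw [Finset.mem_coe, Finset.mem_filter]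
      exact ⟨Finset.mem_univ _, this.1, this.2.1, this.2.2.1⟩)
  have h2 : ∀ t ∈ Finset.univ.filter (fun t : Perm α => t ∈ G ∧ t ≠ 1 ∧ t * t = 1),
      (((Finset.univ : Finset α).offDiag).filter (fun p : α × α => swf p.1 p.2 = t)).card =
        Fintype.card α - Fintype.card α % 2 := by
    intro t ht
    rw [Finset.mem_filter] at ht
    obtain ⟨-, htG, ht1, htt⟩ := ht
    have h3 : (((Finset.univ : Finset α).offDiag).filter (fun p : α × α => swf p.1 p.2 = t)).card =
        (Finset.univ.filter (fun x : α => ¬ t x = x)).card := by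
      apply Finset.card_bij (fun p _ => p.1)
      · rintro ⟨a, b⟩ hp
        rw [Finset.mem_filter, Finset.mem_offDiag] at hp
        rw [Finset.mem_filter]
        refine ⟨Finset.mem_univ _, ?_⟩
        have h4 := hswf a b hp.1.2.2
        rw [hp.2] at h4
        show ¬ t a = a
        rw [h4.2.2.2.1]
        exact fun h => hp.1.2.2 h.symm
      · rintro ⟨a, b⟩ hp ⟨a', b'⟩ hp' h
        rw [Finset.mem_filter, Finset.mem_offDiag] at hp hp'
        have h4 := hswf a b hp.1.2.2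
        have h5 := hswf a' b' hp'.1.2.2
        rw [hp.2] at h4
        rw [hp'.2] at h5
        simp only at h
        subst h
        rw [← h4.2.2.2.1, ← h5.2.2.2.1]
      · intro x hx
        rw [Finset.mem_filter] at hx
        have hne : x ≠ t x := fun h => hx.2 h.symm
        refine ⟨(x, t x), ?_, rfl⟩
        rw [Finset.mem_filter, Finset.mem_offDiag]
        refine ⟨⟨Finset.mem_univ _, Finset.mem_univ _, hne⟩, ?_⟩
        have h4 := hswf x (t x) hne
        have htx : t (t x) = x := by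
          have := congrArg (fun q : Perm α => q x) htt
          simpa using this
        exact eq_of_two G hB1 h4.1 htG hne h4.2.2.2.1 (by rw [h4.2.2.2.2, htx])
    rw [h3]
    have h6 := Finset.card_filter_add_card_filter_not (s := (Finset.univ : Finset α))
      (fun x : α => t x = x)
    rw [inv_fix G hB1 htG ht1 htt, Finset.card_univ] at h6
    omega
  rw [Finset.sum_congr rfl h2, Finset.sum_const, smul_eq_mul, Finset.offDiag_card,
    Finset.card_univ] at h1
  rw [← h1, Nat.mul_sub_one]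

theorem uniq_inv (hB1 : ∀ g ∈ G, ∀ a b, a ≠ b → g a = a → g b = b → g = 1)
    (hB2 : ∀ a b c d : α, a ≠ b → c ≠ d → ∃ g ∈ G, g a = c ∧ g b = d) (h2 : 2 ≤ Fintype.card α)
    {s t : Perm α} (hs : s ∈ G) (hs1 : s ≠ 1) (hss : s * s = 1) (ht : t ∈ G) (ht1 : t ≠ 1)
    (htt : t * t = 1) (a : α) (hsa : s a = a) (hta : t a = a) : s = t := by
  have hodd : Fintype.card α % 2 = 1 := by
    have h1 := inv_fix G hB1 hs hs1 hss
    have h3 : 0 < (Finset.univ.filter (fun x : α => s x = x)).card :=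
      Finset.card_pos.2 ⟨a, Finset.mem_filter.2 ⟨Finset.mem_univ _, hsa⟩⟩
    omega
  have hI := card_I G hB1 hB2
  rw [hodd] at hI
  have hIn : (Finset.univ.filter (fun t : Perm α => t ∈ G ∧ t ≠ 1 ∧ t * t = 1)).card =
      Fintype.card α := by
    have : 0 < Fintype.card α - 1 := by omega
    exact Nat.eq_of_mul_eq_mul_right this hI
  have hex : ∀ b : α, ∃ u : Perm α, u ∈ G ∧ u ≠ 1 ∧ u * u = 1 ∧ u b = b := by
    intro b
    by_cases hab : a = b
    · subst hab; exact ⟨s, hs, hs1, hss, hsa⟩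
    · obtain ⟨g, hg, hga, -⟩ := hB2 a b b a hab (Ne.symm hab)
      refine ⟨g * s * g⁻¹, G.mul_mem (G.mul_mem hg hs) (G.inv_mem hg), ?_, ?_, ?_⟩
      · intro h
        apply hs1
        have h5 : s = g⁻¹ * (g * s * g⁻¹) * g := by group
        rw [h5, h]; group
      · have h5 : g * s * g⁻¹ * (g * s * g⁻¹) = g * (s * s) * g⁻¹ := by group
        rw [h5, hss]; group
      · have h5 : g⁻¹ b = a := by rw [← hga]; simp
        rw [Perm.mul_apply, Perm.mul_apply, h5, hsa, hga]
  choose φ hφ using hex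
  have hinj : Function.Injective φ := by
    intro b c hbc
    by_contra hne
    exact (hφ b).2.1 (hB1 _ (hφ b).1 b c hne (hφ b).2.2.2 (by rw [hbc]; exact (hφ c).2.2.2))
  have himg : Finset.image φ Finset.univ =
      Finset.univ.filter (fun t : Perm α => t ∈ G ∧ t ≠ 1 ∧ t * t = 1) := by
    apply Finset.eq_of_subset_of_card_le
    · intro u hu
      rw [Finset.mem_image] at hu
      obtain ⟨b, -, rfl⟩ := hu
      exact Finset.mem_filter.2 ⟨Finset.mem_univ _, (hφ b).1, (hφ b).2.1, (hφ b).2.2.1⟩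
    · rw [Finset.card_image_of_injective _ hinj, hIn, Finset.card_univ]
  have key : ∀ u : Perm α, u ∈ G → u ≠ 1 → u * u = 1 → u a = a → u = φ a := by
    intro u hu hu1 huu hua
    have h5 : u ∈ Finset.image φ Finset.univ := by
      rw [himg]; exact Finset.mem_filter.2 ⟨Finset.mem_univ _, hu, hu1, huu⟩
    rw [Finset.mem_image] at h5
    obtain ⟨b, -, rfl⟩ := h5
    by_contra hne
    have hab : a ≠ b := fun h => hne (by rw [h])
    exact hu1 (hB1 _ hu a b hab hua (hφ b).2.2.2)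
  rw [key s hs hs1 hss hsa, key t ht ht1 htt hta]

theorem prod_fpf (hB1 : ∀ g ∈ G, ∀ a b, a ≠ b → g a = a → g b = b → g = 1)
    (hB2 : ∀ a b c d : α, a ≠ b → c ≠ d → ∃ g ∈ G, g a = c ∧ g b = d) (h2 : 2 ≤ Fintype.card α)
    {s t : Perm α} (hs : s ∈ G) (hs1 : s ≠ 1) (hss : s * s = 1) (ht : t ∈ G) (ht1 : t ≠ 1)
    (htt : t * t = 1) (hst : s ≠ t) (a : α) : (s * t) a ≠ a := by
  intro h
  rw [Perm.mul_apply] at h
  have hsa : s a = t a := by
    have h5 := congrArg (fun q : Perm α => q (t a)) hss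
    simp only [Perm.mul_apply, Perm.one_apply] at h5
    rw [h] at h5
    exact h5
  have hta : t (t a) = a := by
    have h5 := congrArg (fun q : Perm α => q a) htt
    simpa using h5
  by_cases hb : t a = a
  · exact hst (uniq_inv G hB1 hB2 h2 hs hs1 hss ht ht1 htt a (by rw [hsa, hb]) hb)
  · exact hst (eq_of_two G hB1 hs ht (Ne.symm hb) hsa (by rw [h, hta]))

theorem K_closed (hB1 : ∀ g ∈ G, ∀ a b, a ≠ b → g a = a → g b = b → g = 1)
    (hB2 : ∀ a b c d : α, a ≠ b → c ≠ d → ∃ g ∈ G, g a = c ∧ g b = d) (h2 : 2 ≤ Fintype.card α)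
    {x y : Perm α} (hx : x ∈ G) (hx' : x = 1 ∨ ∀ a, x a ≠ a) (hy : y ∈ G)
    (hy' : y = 1 ∨ ∀ a, y a ≠ a) : x⁻¹ * y = 1 ∨ ∀ a, (x⁻¹ * y) a ≠ a := by
  have sub : ∀ s t : Perm α, s ∈ G → s ≠ 1 → s * s = 1 → t ∈ G → t ≠ 1 → t * t = 1 →
      (s⁻¹ * t = 1 ∨ ∀ a, (s⁻¹ * t) a ≠ a) := by
    intro s t hs hs1 hss ht ht1 htt
    have hsi : s⁻¹ = s := inv_eq_of_mul_eq_one_right hss
    rw [hsi]
    by_cases hst : s = t
    · left; rw [hst]; exact htt
    · right; exact prod_fpf G hB1 hB2 h2 hs hs1 hss ht ht1 htt hst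
  obtain ⟨a₀⟩ : Nonempty α := Fintype.card_pos_iff.1 (by omega)
  have hI := card_I G hB1 hB2
  have hF := card_fpf G hB1 hB2 h2
  rcases Nat.mod_two_eq_zero_or_one (Fintype.card α) with hev | hodd
  · rw [hev, Nat.sub_zero, mul_comm] at hI
    have hIn : (Finset.univ.filter (fun t : Perm α => t ∈ G ∧ t ≠ 1 ∧ t * t = 1)).card =
        Fintype.card α - 1 := Nat.eq_of_mul_eq_mul_left (by omega) hI
    have hIF : Finset.univ.filter (fun t : Perm α => t ∈ G ∧ t ≠ 1 ∧ t * t = 1) =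
        Finset.univ.filter (fun g : Perm α => g ∈ G ∧ ∀ a, g a ≠ a) := by
      apply Finset.eq_of_subset_of_card_le
      · intro t ht
        rw [Finset.mem_filter] at ht ⊢
        refine ⟨Finset.mem_univ _, ht.2.1, ?_⟩
        have h5 := inv_fix G hB1 ht.2.1 ht.2.2.1 ht.2.2.2
        rw [hev, Finset.card_eq_zero, Finset.filter_eq_empty_iff] at h5
        intro a
        exact h5 (Finset.mem_univ a)
      · rw [hIn, hF]
    have hinv : ∀ g : Perm α, g ∈ G → (∀ a, g a ≠ a) → g ≠ 1 ∧ g * g = 1 := by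
      intro g hg hgf
      have h5 : g ∈ Finset.univ.filter (fun t : Perm α => t ∈ G ∧ t ≠ 1 ∧ t * t = 1) := by
        rw [hIF]; exact Finset.mem_filter.2 ⟨Finset.mem_univ _, hg, hgf⟩
      rw [Finset.mem_filter] at h5
      exact h5.2.2
    rcases hx' with hx1 | hxf
    · rw [hx1, inv_one, one_mul]; exact hy'
    · obtain ⟨hx1, hxx⟩ := hinv x hx hxf
      rcases hy' with hy1 | hyf
      · right
        rw [hy1, mul_one, inv_eq_of_mul_eq_one_right hxx]
        exact hxf
      · obtain ⟨hy1, hyy⟩ := hinv y hy hyf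
        exact sub x y hx hx1 hxx hy hy1 hyy
  · rw [hodd] at hI
    have hIn : (Finset.univ.filter (fun t : Perm α => t ∈ G ∧ t ≠ 1 ∧ t * t = 1)).card =
        Fintype.card α := Nat.eq_of_mul_eq_mul_right (by omega) hI
    have hne : (Finset.univ.filter (fun t : Perm α => t ∈ G ∧ t ≠ 1 ∧ t * t = 1)).Nonempty := by
      rw [← Finset.card_pos, hIn]; omega
    obtain ⟨t₀, ht₀⟩ := hne
    rw [Finset.mem_filter] at ht₀
    obtain ⟨-, ht₀G, ht₀1, ht₀t⟩ := ht₀
    have h1F : (1 : Perm α) ∉ Finset.univ.filter (fun g : Perm α => g ∈ G ∧ ∀ a, g a ≠ a) := by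
      intro h
      rw [Finset.mem_filter] at h
      exact h.2.2 a₀ rfl
    have himg : Finset.image (fun s : Perm α => t₀ * s)
        (Finset.univ.filter (fun t : Perm α => t ∈ G ∧ t ≠ 1 ∧ t * t = 1)) =
        insert 1 (Finset.univ.filter (fun g : Perm α => g ∈ G ∧ ∀ a, g a ≠ a)) := by
      apply Finset.eq_of_subset_of_card_le
      · intro u hu
        rw [Finset.mem_image] at hu
        obtain ⟨s, hs, rfl⟩ := hu
        rw [Finset.mem_filter] at hs
        rw [Finset.mem_insert, Finset.mem_filter]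
        by_cases hst : t₀ = s
        · left; rw [← hst]; exact ht₀t
        · right
          exact ⟨Finset.mem_univ _, G.mul_mem ht₀G hs.2.1,
            prod_fpf G hB1 hB2 h2 ht₀G ht₀1 ht₀t hs.2.1 hs.2.2.1 hs.2.2.2 hst⟩
      · rw [Finset.card_insert_of_notMem h1F, hF,
          Finset.card_image_of_injective _ (mul_right_injective t₀), hIn]
        omega
    have hrep : ∀ g : Perm α, g ∈ G → (g = 1 ∨ ∀ a, g a ≠ a) →
        ∃ s : Perm α, s ∈ G ∧ s ≠ 1 ∧ s * s = 1 ∧ g = t₀ * s := by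
      intro g hg hg'
      have h5 : g ∈ insert 1 (Finset.univ.filter (fun g : Perm α => g ∈ G ∧ ∀ a, g a ≠ a)) := by
        rw [Finset.mem_insert, Finset.mem_filter]
        rcases hg' with h | h
        · exact Or.inl h
        · exact Or.inr ⟨Finset.mem_univ _, hg, h⟩
      rw [← himg, Finset.mem_image] at h5
      obtain ⟨s, hs, rfl⟩ := h5
      rw [Finset.mem_filter] at hs
      exact ⟨s, hs.2.1, hs.2.2.1, hs.2.2.2, rfl⟩
    obtain ⟨s, hs, hs1, hss, rfl⟩ := hrep x hx hx'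
    obtain ⟨t, ht, ht1, htt, rfl⟩ := hrep y hy hy'
    have h5 : (t₀ * s)⁻¹ * (t₀ * t) = s⁻¹ * t := by group
    rw [h5]
    exact sub s t hs hs1 hss ht ht1 htt

theorem main_aux (hB1 : ∀ g ∈ G, ∀ a b, a ≠ b → g a = a → g b = b → g = 1)
    (hB2 : ∀ a b c d : α, a ≠ b → c ≠ d → ∃ g ∈ G, g a = c ∧ g b = d) (h2 : 2 ≤ Fintype.card α) :
    ∃ (K : Subgroup (Perm α)) (p j : ℕ), p.Prime ∧ 1 ≤ j ∧ Fintype.card α = p ^ j ∧
      (∀ g, g ∈ K ↔ g ∈ G ∧ (g = 1 ∨ ∀ a, g a ≠ a)) ∧
      (∀ g ∈ G, ∀ k ∈ K, g * k * g⁻¹ ∈ K) ∧ (∀ x ∈ K, ∀ y ∈ K, x * y = y * x) ∧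
      (∀ x ∈ K, x ^ p = 1) ∧ (∀ a b : α, ∃ k ∈ K, k a = b) ∧ Nat.card K = p ^ j := by
  let K : Subgroup (Perm α) :=
    { carrier := {g | g ∈ G ∧ (g = 1 ∨ ∀ a, g a ≠ a)}
      one_mem' := ⟨G.one_mem, Or.inl rfl⟩
      inv_mem' := by
        intro x hx
        have h5 := K_closed G hB1 hB2 h2 hx.1 hx.2 G.one_mem (Or.inl rfl)
        rw [mul_one] at h5
        exact ⟨G.inv_mem hx.1, h5⟩
      mul_mem' := by
        intro x y hx hy
        have hxi : x⁻¹ ∈ G ∧ (x⁻¹ = 1 ∨ ∀ a, x⁻¹ a ≠ a) := by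
          have h5 := K_closed G hB1 hB2 h2 hx.1 hx.2 G.one_mem (Or.inl rfl)
          rw [mul_one] at h5
          exact ⟨G.inv_mem hx.1, h5⟩
        have h6 := K_closed G hB1 hB2 h2 hxi.1 hxi.2 hy.1 hy.2
        rw [inv_inv] at h6
        exact ⟨G.mul_mem hx.1 hy.1, h6⟩ }
  have hKmem : ∀ g, g ∈ K ↔ g ∈ G ∧ (g = 1 ∨ ∀ a, g a ≠ a) := fun g => Iff.rfl
  have hfree : ∀ k ∈ K, ∀ a, k a = a → k = 1 := by
    intro k hk a ha
    rcases hk.2 with h | h
    · exact h
    · exact absurd ha (h a)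
  have hnorm : ∀ g ∈ G, ∀ k ∈ K, g * k * g⁻¹ ∈ K := by
    intro g hg k hk
    refine ⟨G.mul_mem (G.mul_mem hg hk.1) (G.inv_mem hg), ?_⟩
    rcases hk.2 with h | h
    · left; rw [h]; group
    · right
      intro a ha
      apply h (g⁻¹ a)
      rw [Perm.mul_apply, Perm.mul_apply] at ha
      have h5 := congrArg (fun b => g⁻¹ b) ha
      simpa using h5
  obtain ⟨a₀⟩ : Nonempty α := Fintype.card_pos_iff.1 (by omega)
  have hcardK : Nat.card K = Fintype.card α := by
    have : Fintype K := Fintype.ofFinite K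
    rw [Nat.card_eq_fintype_card, Fintype.card_of_subtype
      (insert 1 (Finset.univ.filter (fun g : Perm α => g ∈ G ∧ ∀ a, g a ≠ a)))]
    · rw [Finset.card_insert_of_notMem, card_fpf G hB1 hB2 h2]
      · omega
      · intro h
        rw [Finset.mem_filter] at h
        exact h.2.2 a₀ rfl
    · intro g
      rw [Finset.mem_insert, Finset.mem_filter, hKmem]
      constructor
      · rintro (h | h)
        · rw [h]; exact ⟨G.one_mem, Or.inl rfl⟩
        · exact ⟨h.2.1, Or.inr h.2.2⟩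
      · rintro ⟨hg, h | h⟩
        · exact Or.inl h
        · exact Or.inr ⟨Finset.mem_univ _, hg, h⟩
  have hconj : ∀ x ∈ K, ∀ y ∈ K, x ≠ 1 → y ≠ 1 → ∃ g ∈ G, g * x * g⁻¹ = y := by
    intro x hx y hy hx1 hy1
    have hxa : x a₀ ≠ a₀ := fun h => hx1 (hfree x hx a₀ h)
    have hya : y a₀ ≠ a₀ := fun h => hy1 (hfree y hy a₀ h)
    obtain ⟨g, hg, hga, hgx⟩ := hB2 a₀ (x a₀) a₀ (y a₀) (Ne.symm hxa) (Ne.symm hya)
    refine ⟨g, hg, ?_⟩
    have hz := hnorm g hg x hx
    have h1 : (y⁻¹ * (g * x * g⁻¹)) a₀ = a₀ := by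
      have h5 : g⁻¹ a₀ = a₀ := by rw [Perm.inv_eq_iff_eq]; exact hga.symm
      rw [Perm.mul_apply, Perm.mul_apply, Perm.mul_apply, h5, hgx]; simp
    have h3 := hfree _ (K.mul_mem (K.inv_mem hy) hz) a₀ h1
    exact (inv_mul_eq_one.1 h3).symm
  have hn1 : Fintype.card α ≠ 1 := by omega
  obtain ⟨p, hp, hpn⟩ := Nat.exists_prime_and_dvd hn1
  have hpF : Fact p.Prime := ⟨hp⟩
  obtain ⟨x₀, hx₀⟩ := exists_prime_orderOf_dvd_card' (G := K) p (by rw [hcardK]; exact hpn)
  have hx₀1 : (x₀ : Perm α) ≠ 1 := by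
    intro h
    have h5 : x₀ = 1 := Subtype.ext h
    rw [h5, orderOf_one] at hx₀
    exact hp.one_lt.ne hx₀
  have hx₀p : (x₀ : Perm α) ^ p = 1 := by
    have h5 := pow_orderOf_eq_one x₀
    rw [hx₀] at h5
    have h6 := congrArg Subtype.val h5
    simpa using h6
  have hpow : ∀ x ∈ K, x ^ p = 1 := by
    intro x hx
    by_cases hx1 : x = 1
    · rw [hx1, one_pow]
    · obtain ⟨g, hg, hgx⟩ := hconj x₀ x₀.2 x hx hx₀1 hx1
      rw [← hgx, conj_pow, hx₀p]; group
  have hPG : IsPGroup p K := by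
    intro x
    refine ⟨1, ?_⟩
    rw [pow_one]
    apply Subtype.ext
    rw [Subgroup.coe_pow]
    exact hpow x x.2
  obtain ⟨j, hj⟩ := IsPGroup.iff_card.1 hPG
  have hnj : Fintype.card α = p ^ j := by rw [← hcardK, hj]
  have hj1 : 1 ≤ j := by
    rcases Nat.eq_zero_or_pos j with h | h
    · rw [h, pow_zero] at hnj; omega
    · exact h
  have hcomm : ∀ x ∈ K, ∀ y ∈ K, x * y = y * x := by
    have hnt : Nontrivial K := by
      rw [← Finite.one_lt_card_iff_nontrivial, hcardK]; omega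
    have hc := IsPGroup.center_nontrivial hPG
    obtain ⟨z, hz⟩ := exists_ne (1 : Subgroup.center K)
    have hz1 : ((z : K) : Perm α) ≠ 1 := by
      intro h; apply hz; apply Subtype.ext; apply Subtype.ext; exact h
    have hzc : ∀ w ∈ K, ((z : K) : Perm α) * w = w * ((z : K) : Perm α) := by
      intro w hw
      have h5 := Subgroup.mem_center_iff.1 z.2 ⟨w, hw⟩
      have h6 := congrArg Subtype.val h5
      exact h6.symm
    have hcen : ∀ y ∈ K, y ≠ 1 → ∀ w ∈ K, y * w = w * y := by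
      intro y hy hy1 w hw
      obtain ⟨g, hg, hgz⟩ := hconj _ (z : K).2 y hy hz1 hy1
      have hw' : g⁻¹ * w * g ∈ K := by
        have h5 := hnorm g⁻¹ (G.inv_mem hg) w hw
        rw [inv_inv] at h5
        exact h5
      have h7 := hzc _ hw'
      calc y * w = g * (((z : K) : Perm α) * (g⁻¹ * w * g)) * g⁻¹ := by rw [← hgz]; group
        _ = g * ((g⁻¹ * w * g) * ((z : K) : Perm α)) * g⁻¹ := by rw [h7]
        _ = w * y := by rw [← hgz]; group
    intro x hx y hy
    by_cases hx1 : x = 1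
    · rw [hx1, one_mul, mul_one]
    · exact hcen x hx hx1 y hy
  have htrans : ∀ a b : α, ∃ k ∈ K, k a = b := by
    intro a b
    have hinj : Function.Injective (fun k : K => (k : Perm α) a) := by
      intro k k' h
      have h1 : ((k' : Perm α)⁻¹ * k) a = a := by
        simp only at h
        rw [Perm.mul_apply, h]; simp
      have h5 := hfree _ (K.mul_mem (K.inv_mem k'.2) k.2) a h1
      exact Subtype.ext (inv_mul_eq_one.1 h5).symm
    have hbij := (Nat.bijective_iff_injective_and_card _).2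
      ⟨hinj, by rw [hcardK, Nat.card_eq_fintype_card]⟩
    obtain ⟨k, hk⟩ := hbij.2 b
    exact ⟨k, k.2, hk⟩
  exact ⟨K, p, j, hp, hj1, hnj, hKmem, hnorm, hcomm, hpow, htrans, by rw [hcardK, hnj]⟩

end

theorem result {α : Type*} [Fintype α] [DecidableEq α] (G : Subgroup (Equiv.Perm α)) [MulAction.IsMultiplyPretransitive G α 2] (hsharp : ∀ x : Fin 2 ↪ α, MulAction.stabilizer G x = ⊥) (h2 : 2 ≤ Fintype.card α) : ∃ p j : ℕ, p.Prime ∧ 1 ≤ j ∧ Fintype.card α = p ^ j ∧ ∀ (hp : Fact p.Prime) (P : Sylow p G), (P : Subgroup G).Normal ∧ IsMulCommutative (P : Subgroup G) ∧ (∀ x ∈ (P : Subgroup G), x ^ p = 1) ∧ MulAction.IsPretransitive (P : Subgroup G) α ∧ (∀ a : α, MulAction.stabilizer (P : Subgroup G) a = ⊥) ∧ ∀ g : G, g ∈ (P : Subgroup G) ↔ g = 1 ∨ ∀ a : α, g • a ≠ a := by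
  have hdec : DecidablePred (fun g : Perm α => g ∈ G) := fun _ => Classical.propDecidable _
  have hB1 : ∀ g ∈ G, ∀ a b, a ≠ b → g a = a → g b = b → g = 1 := by
    intro g hg a b hab ha hb
    let x : Fin 2 ↪ α := ⟨![a, b], by
      intro i j hij
      fin_cases i <;> fin_cases j <;> simp_all⟩
    have hmem : (⟨g, hg⟩ : G) ∈ MulAction.stabilizer G x := by
      rw [MulAction.mem_stabilizer_iff]
      ext i
      show g (x i) = x i
      fin_cases i
      · exact ha
      · exact hb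
    rw [hsharp x, Subgroup.mem_bot] at hmem
    exact congrArg Subtype.val hmem
  have hB2 : ∀ a b c d : α, a ≠ b → c ≠ d → ∃ g ∈ G, g a = c ∧ g b = d := by
    intro a b c d hab hcd
    obtain ⟨g, h1, h2⟩ := (MulAction.is_two_pretransitive_iff (G := G) (α := α)).1
      inferInstance hab hcd
    exact ⟨g.1, g.2, h1, h2⟩
  obtain ⟨K, p, j, hp, hj1, hnj, hKmem, hnorm, hcomm, hpow, htrans, hcardK⟩ :=
    main_aux G hB1 hB2 h2
  refine ⟨p, j, hp, hj1, hnj, ?_⟩
  intro hpF P
  have hKG : K ≤ G := fun g hg => ((hKmem g).1 hg).1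
  have hcardG : Nat.card G = p ^ j * (p ^ j - 1) := by
    have hF : Fintype G := Fintype.ofFinite G
    rw [← hnj, Nat.card_eq_fintype_card,
      Fintype.card_of_subtype (Finset.univ.filter (fun g : Perm α => g ∈ G))]
    · exact card_G G hB1 hB2 h2
    · intro g; simp
  have hcardK' : Nat.card (K.subgroupOf G) = p ^ j := by
    rw [← hcardK]; exact Nat.card_congr (Subgroup.subgroupOfEquivOfLe hKG).toEquiv
  have hpj : 0 < p ^ j := pow_pos hp.pos j
  have hpj2 : 2 ≤ p ^ j := by rw [← hnj]; exact h2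
  have hfact : (Nat.card G).factorization p = j := by
    rw [hcardG, Nat.factorization_mul (by omega) (by omega), hp.factorization_pow]
    have h5 : ¬ p ∣ p ^ j - 1 := by
      intro h
      have h6 : p ∣ p ^ j := dvd_pow_self p (by omega)
      have h7 : p ∣ 1 := by
        have h8 := Nat.dvd_sub h6 h
        have h9 : p ^ j - (p ^ j - 1) = 1 := by omega
        rwa [h9] at h8
      exact hp.one_lt.ne' (Nat.dvd_one.1 h7)
    have h6 := Nat.factorization_eq_zero_of_not_dvd h5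
    simp [h6]
  have hKn : (K.subgroupOf G).Normal := by
    constructor
    intro n hn g
    rw [Subgroup.mem_subgroupOf] at hn ⊢
    exact hnorm g g.2 n hn
  let Q : Sylow p G := Sylow.ofCard (K.subgroupOf G) (by rw [hcardK', hfact])
  have hsub : Subsingleton (Sylow p G) := (Sylow.unique_of_normal Q hKn).instSubsingleton
  have hPQ : P = Q := Subsingleton.elim _ _
  have hmem : ∀ g : G, g ∈ (P : Subgroup G) ↔ (g : Perm α) ∈ K := by
    intro g
    rw [hPQ]
    exact Subgroup.mem_subgroupOf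
  refine ⟨?_, ?_, ?_, ?_, ?_, ?_⟩
  · constructor
    intro n hn g
    rw [hmem] at hn ⊢
    exact hnorm g g.2 n hn
  · exact ⟨⟨fun x y => Subtype.ext (Subtype.ext
      (hcomm _ ((hmem x.1).1 x.2) _ ((hmem y.1).1 y.2)))⟩⟩
  · intro x hx
    apply Subtype.ext
    rw [Subgroup.coe_pow]
    exact hpow _ ((hmem x).1 hx)
  · constructor
    intro a b
    obtain ⟨k, hk, hkab⟩ := htrans a b
    exact ⟨⟨⟨k, hKG hk⟩, (hmem _).2 hk⟩, hkab⟩
  · intro a
    rw [Subgroup.eq_bot_iff_forall]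
    intro x hx
    rw [MulAction.mem_stabilizer_iff] at hx
    have h5 := (hKmem _).1 ((hmem x.1).1 x.2)
    rcases h5.2 with h | h
    · exact Subtype.ext (Subtype.ext h)
    · exact absurd hx (h a)
  · intro g
    rw [hmem, hKmem]
    constructor
    · rintro ⟨-, h | h⟩
      · left; exact Subtype.ext h
      · right; exact h
    · rintro (h | h)
      · exact ⟨g.2, Or.inl (by rw [h]; rfl)⟩
      · exact ⟨g.2, Or.inr h⟩

end Cfsg.Agent.S0680
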