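import Cfsg.Statements.S0681
import Mathlib

set_option autoImplicit false
open Cfsg

namespace Cfsg.Agent.S0681

theorem nf_zero_mul {F : Type*} [Cfsg.NearField F] (a : F) : (0 : F) * a = 0 := by
  have h := Cfsg.NearField.right_distrib (0 : F) 0 a
  rw [add_zero] at h
  have h2 : (0 : F) * a + 0 = 0 * a + 0 * a := by rw [add_zero]; exact h
  exact (add_left_cancel h2).symm

theorem nf_neg_mul {F : Type*} [Cfsg.NearField F] (a b : F) : (-a) * b = -(a * b) := by
  have h := Cfsg.NearField.right_distrib (-a) a b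
  rw [neg_add_cancel, nf_zero_mul] at h
  exact eq_neg_of_add_eq_zero_left h.symm

theorem nf_sub_mul {F : Type*} [Cfsg.NearField F] (a b c : F) : (a - b) * c = a * c - b * c := by
  rw [sub_eq_add_neg, Cfsg.NearField.right_distrib, nf_neg_mul, ← sub_eq_add_neg]

theorem nf_mul_ne_zero {F : Type*} [Cfsg.NearField F] (a b : F) (ha : a ≠ 0) (hb : b ≠ 0) :
    a * b ≠ 0 := by
  intro h
  obtain ⟨a', -, ha'⟩ := Cfsg.NearField.exists_inv a ha
  apply hb
  have h1 : a' * (a * b) = b := by rw [← mul_assoc, ha', one_mul]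
  rw [h, Cfsg.NearField.mul_zero] at h1
  exact h1.symm

theorem nf_inv_ne_zero {F : Type*} [Cfsg.NearField F] (a a' : F) (h : a * a' = 1) : a' ≠ 0 := by
  intro h0
  rw [h0, Cfsg.NearField.mul_zero] at h
  exact Cfsg.NearField.zero_ne_one h

/-- The affine permutation `x ↦ x * a + b`. -/
def affPerm {F : Type*} [Cfsg.NearField F] (a a' : F) (h1 : a * a' = 1) (h2 : a' * a = 1) (b : F) :
    Equiv.Perm F where
  toFun x := x * a + b
  invFun y := (y - b) * a'
  left_inv x := by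
    show (x * a + b - b) * a' = x
    rw [add_sub_cancel_right, mul_assoc, h1, mul_one]
  right_inv y := by
    show (y - b) * a' * a + b = y
    rw [mul_assoc, h2, mul_one, sub_add_cancel]

theorem affPerm_apply {F : Type*} [Cfsg.NearField F] (a a' : F) (h1 : a * a' = 1)
    (h2 : a' * a = 1) (b x : F) : affPerm a a' h1 h2 b x = x * a + b := rfl

/-- The affine group of a near-field. -/
def affSub (F : Type*) [Cfsg.NearField F] : Subgroup (Equiv.Perm F) where
  carrier := {σ | ∃ a b : F, a ≠ 0 ∧ ∀ x : F, σ x = x * a + b}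
  one_mem' := ⟨1, 0, fun h => Cfsg.NearField.zero_ne_one h.symm, fun x => by simp⟩
  mul_mem' := by
    rintro σ τ ⟨a, b, ha, hσ⟩ ⟨c, d, hc, hτ⟩
    refine ⟨c * a, d * a + b, nf_mul_ne_zero c a hc ha, fun x => ?_⟩
    rw [Equiv.Perm.mul_apply, hτ, hσ, Cfsg.NearField.right_distrib, mul_assoc, add_assoc]
  inv_mem' := by
    rintro σ ⟨a, b, ha, hσ⟩
    obtain ⟨a', h1, h2⟩ := Cfsg.NearField.exists_inv a ha
    refine ⟨a', (-b) * a', nf_inv_ne_zero a a' h1, fun y => ?_⟩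
    rw [Equiv.Perm.inv_eq_iff_eq, hσ, ← Cfsg.NearField.right_distrib, mul_assoc, h2, mul_one,
      ← sub_eq_add_neg, sub_add_cancel]

theorem mem_affSub {F : Type*} [Cfsg.NearField F] (σ : Equiv.Perm F) :
    σ ∈ affSub F ↔ ∃ a b : F, a ≠ 0 ∧ ∀ x : F, σ x = x * a + b := Iff.rfl

/-- The affine maps `x ↦ x * a + b`, `a ≠ 0`, of a near-field form a sharply doubly transitive permutation group. -/
theorem result {F : Type*} [Cfsg.NearField F] : ∃ H : Subgroup (Equiv.Perm F), (∀ σ : Equiv.Perm F, σ ∈ H ↔ ∃ a b : F, a ≠ 0 ∧ ∀ x : F, σ x = x * a + b) ∧ MulAction.IsMultiplyPretransitive H F 2 ∧ ∀ x : Fin 2 ↪ F, MulAction.stabilizer H x = ⊥ := by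
  refine ⟨affSub F, mem_affSub, ?_, ?_⟩
  · rw [MulAction.is_two_pretransitive_iff]
    intro x₁ x₂ y₁ y₂ hx hy
    have hu : x₁ - x₂ ≠ 0 := sub_ne_zero.2 hx
    have hv : y₁ - y₂ ≠ 0 := sub_ne_zero.2 hy
    obtain ⟨u', hu1, hu2⟩ := Cfsg.NearField.exists_inv (x₁ - x₂) hu
    have ha : u' * (y₁ - y₂) ≠ 0 := nf_mul_ne_zero _ _ (nf_inv_ne_zero _ _ hu1) hv
    obtain ⟨a', ha1, ha2⟩ := Cfsg.NearField.exists_inv (u' * (y₁ - y₂)) ha
    have hmem : affPerm (u' * (y₁ - y₂)) a' ha1 ha2 (-(x₁ * (u' * (y₁ - y₂))) + y₁) ∈ affSub F :=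
      ⟨u' * (y₁ - y₂), _, ha, fun x => rfl⟩
    refine ⟨⟨_, hmem⟩, ?_, ?_⟩
    · show x₁ * (u' * (y₁ - y₂)) + (-(x₁ * (u' * (y₁ - y₂))) + y₁) = y₁
      rw [add_neg_cancel_left]
    · show x₂ * (u' * (y₁ - y₂)) + (-(x₁ * (u' * (y₁ - y₂))) + y₁) = y₂
      rw [← add_assoc, ← sub_eq_add_neg, ← nf_sub_mul, ← neg_sub x₁ x₂, nf_neg_mul, ← mul_assoc,
        hu1, one_mul, neg_sub, sub_add_cancel]
  · intro x
    rw [Subgroup.eq_bot_iff_forall]
    rintro ⟨σ, hσ⟩ hstab
    rw [MulAction.mem_stabilizer_iff] at hstab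
    obtain ⟨a, b, ha, hab⟩ := hσ
    have h0 : σ (x 0) = x 0 := DFunLike.congr_fun hstab 0
    have h1 : σ (x 1) = x 1 := DFunLike.congr_fun hstab 1
    rw [hab] at h0 h1
    have hne : x 0 - x 1 ≠ 0 := by
      rw [sub_ne_zero]
      intro h
      have := x.injective h
      simp at this
    have h2 : (x 0 - x 1) * a = x 0 - x 1 := by
      rw [nf_sub_mul]
      have h3 : x 0 * a + b - (x 1 * a + b) = x 0 - x 1 := by rw [h0, h1]
      rw [add_sub_add_right_eq_sub] at h3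
      exact h3
    obtain ⟨u', hu1, hu2⟩ := Cfsg.NearField.exists_inv (x 0 - x 1) hne
    have ha1 : a = 1 := by
      have h3 : u' * ((x 0 - x 1) * a) = a := by rw [← mul_assoc, hu2, one_mul]
      rw [h2, hu2] at h3
      exact h3.symm
    have hb0 : b = 0 := by
      rw [ha1, mul_one] at h0
      exact add_eq_left.1 h0
    apply Subtype.ext
    show σ = 1
    ext y
    rw [hab, ha1, hb0, mul_one, add_zero]
    rfl

end Cfsg.Agent.S0681
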