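import Cfsg.Statements.S0682
import Mathlib
import Cfsg.Agent.S0681

set_option autoImplicit false
open Cfsg

namespace Cfsg.Agent.S0682

open Cfsg.Agent.S0681

theorem nsmul_mul {F : Type*} [Cfsg.NearField F] (n : ℕ) (x a : F) :
    (n • x) * a = n • (x * a) := by
  induction n with
  | zero => rw [zero_nsmul, zero_nsmul, nf_zero_mul]
  | succ n ih => rw [succ_nsmul, succ_nsmul, Cfsg.NearField.right_distrib, ih]

/-- A finite near-field has prime-power order; its additive group is commutative of prime exponent. -/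
theorem result {F : Type*} [Cfsg.NearField F] [Finite F] : ∃ p j : ℕ, p.Prime ∧ 1 ≤ j ∧ Nat.card F = p ^ j ∧ (∀ x y : F, x + y = y + x) ∧ ∀ x : F, p • x = 0 := by
  classical
  have hnt : Nontrivial F := ⟨⟨0, 1, Cfsg.NearField.zero_ne_one⟩⟩
  have hcard : 1 < Nat.card F := Finite.one_lt_card
  have hfin : Fintype F := Fintype.ofFinite F
  obtain ⟨p, hp, hpdvd⟩ := Nat.exists_prime_and_dvd (show Nat.card F ≠ 1 by omega)
  have hpf : Fact p.Prime := ⟨hp⟩
  rw [Nat.card_eq_fintype_card] at hpdvd
  obtain ⟨x₀, hx₀⟩ := exists_prime_addOrderOf_dvd_card p hpdvd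
  have hx₀0 : x₀ ≠ 0 := by
    intro h
    rw [h, addOrderOf_zero] at hx₀
    exact hp.one_lt.ne' hx₀.symm
  have hpx : ∀ x : F, p • x = 0 := by
    intro x
    by_cases hx : x = 0
    · rw [hx, nsmul_zero]
    · obtain ⟨u', hu1, hu2⟩ := Cfsg.NearField.exists_inv x₀ hx₀0
      have h1 : x = x₀ * (u' * x) := by rw [← mul_assoc, hu1, one_mul]
      rw [h1, ← nsmul_mul, ← hx₀, addOrderOf_nsmul_eq_zero, nf_zero_mul]
  have hP : IsPGroup p (Multiplicative F) := by
    intro g
    refine ⟨1, ?_⟩
    rw [pow_one]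
    exact congrArg Multiplicative.ofAdd (hpx (Multiplicative.toAdd g))
  obtain ⟨j, hj⟩ := (IsPGroup.iff_card (p := p) (G := Multiplicative F)).1 hP
  have hj' : Nat.card F = p ^ j := hj
  have hj1 : 1 ≤ j := by
    by_contra h
    have : j = 0 := by omega
    rw [this, pow_zero] at hj'
    omega
  have hcen := IsPGroup.center_nontrivial hP
  obtain ⟨z, hz, hz1⟩ := (Subgroup.nontrivial_iff_exists_ne_one _).1 hcen
  rw [Subgroup.mem_center_iff] at hz
  have hz0 : Multiplicative.toAdd z ≠ 0 := by
    intro h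
    apply hz1
    exact Multiplicative.toAdd.injective h
  have hzc : ∀ y : F, y + Multiplicative.toAdd z = Multiplicative.toAdd z + y := by
    intro y
    have := hz (Multiplicative.ofAdd y)
    exact congrArg Multiplicative.toAdd this
  refine ⟨p, j, hp, hj1, hj', ?_, hpx⟩
  intro x y
  by_cases hx : x = 0
  · rw [hx, zero_add, add_zero]
  · obtain ⟨z', hz1', hz2'⟩ := Cfsg.NearField.exists_inv _ hz0
    have hc : z' * x ≠ 0 := nf_mul_ne_zero _ _ (nf_inv_ne_zero _ _ hz1') hx
    obtain ⟨c', hc1, hc2⟩ := Cfsg.NearField.exists_inv _ hc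
    have h1 : x = Multiplicative.toAdd z * (z' * x) := by rw [← mul_assoc, hz1', one_mul]
    have h2 : y = (y * c') * (z' * x) := by rw [mul_assoc, hc2, mul_one]
    calc x + y = Multiplicative.toAdd z * (z' * x) + (y * c') * (z' * x) := by rw [← h1, ← h2]
      _ = (Multiplicative.toAdd z + y * c') * (z' * x) := by
        rw [Cfsg.NearField.right_distrib]
      _ = (y * c' + Multiplicative.toAdd z) * (z' * x) := by rw [hzc]
      _ = (y * c') * (z' * x) + Multiplicative.toAdd z * (z' * x) := by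
        rw [Cfsg.NearField.right_distrib]
      _ = y + x := by rw [← h1, ← h2]

end Cfsg.Agent.S0682
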