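import Cfsg.Statements.S0684
import Mathlib

set_option autoImplicit false
open Cfsg

namespace Cfsg.Agent.S0684

theorem card_dvd_of_free {G X : Type*} [Group G] [MulAction G X]
    (h : ∀ (g : G) (x : X), g • x = x → g = 1) : Nat.card G ∣ Nat.card X := by
  have hstab : ∀ x : X, MulAction.stabilizer G x = ⊥ := fun x => by
    rw [eq_bot_iff]
    intro g hg
    exact Subgroup.mem_bot.2 (h g x (MulAction.mem_stabilizer_iff.1 hg))
  have e := MulAction.selfEquivOrbitsQuotientProd hstab
  rw [Nat.card_congr e, Nat.card_prod]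
  exact dvd_mul_left _ _

theorem exists_min_inv {p : ℕ} [Fact p.Prime] {V : Type*} [AddCommGroup V] [Module (ZMod p) V]
    [Finite V] (P : Submodule (ZMod p) V → Prop) (W₀ : Submodule (ZMod p) V) (h0 : W₀ ≠ ⊥)
    (hP : P W₀) :
    ∃ W : Submodule (ZMod p) V, W ≤ W₀ ∧ W ≠ ⊥ ∧ P W ∧
      ∀ W' : Submodule (ZMod p) V, W' ≤ W → P W' → W' = ⊥ ∨ W' = W := by
  classical
  have hwf : WellFounded (InvImage (· < ·) (fun W : Submodule (ZMod p) V => Nat.card W)) :=
    InvImage.wf _ Nat.lt_wfRel.wf
  obtain ⟨W, ⟨hW1, hW2, hW3⟩, hmin⟩ :=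
    hwf.has_min {W | W ≤ W₀ ∧ W ≠ ⊥ ∧ P W} ⟨W₀, le_refl _, h0, hP⟩
  refine ⟨W, hW1, hW2, hW3, fun W' hle hP' => ?_⟩
  by_cases hb : W' = ⊥
  · exact Or.inl hb
  · right
    have hnlt : ¬ (Nat.card W' < Nat.card W) := hmin W' ⟨hle.trans hW1, hb, hP'⟩
    have hcard : Nat.card W ≤ Nat.card W' := not_lt.1 hnlt
    apply le_antisymm hle
    have hsub : (W' : Set V) ⊆ (W : Set V) := hle
    have heq : (W' : Set V) = (W : Set V) := by
      apply Set.eq_of_subset_of_ncard_le hsub _ (Set.toFinite _)
      rw [← Nat.card_coe_set_eq, ← Nat.card_coe_set_eq]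
      exact hcard
    intro x hx
    have : x ∈ (W' : Set V) := by rw [heq]; exact hx
    exact this

/-- Point stabiliser of a sharply doubly transitive group not of semilinear type: a maximal normal abelian subgroup `A` of a linear group `H` that is regular on non-zero vectors and has no irreducible cyclic normal subgroup is cyclic and reducible, and the order of `A` divides `p ^ k - 1` for `k` the dimension of a minimal `A`-invariant subspace. -/
theorem result {p : ℕ} [Fact p.Prime] {V : Type*} [AddCommGroup V] [Module (ZMod p) V] [Finite V] (H : Subgroup (V ≃ₗ[ZMod p] V)) (hreg : ∀ v w : V, v ≠ 0 → w ≠ 0 → ∃! h : H, (h : V ≃ₗ[ZMod p] V) v = w) (hI : ∀ A : Subgroup H, A.Normal → IsCyclic A → ∃ W : Submodule (ZMod p) V, W ≠ ⊥ ∧ W ≠ ⊤ ∧ ∀ a ∈ A, ∀ v ∈ W, ((a : H) : V ≃ₗ[ZMod p] V) v ∈ W) (A : Subgroup H) (hAn : A.Normal) (hAc : IsMulCommutative A) (hAmax : ∀ B : Subgroup H, B.Normal → IsMulCommutative B → A ≤ B → B = A) : IsCyclic A ∧ ∃ W : Submodule (ZMod p) V, W ≠ ⊥ ∧ W ≠ ⊤ ∧ (∀ a ∈ A, ∀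 v ∈ W, ((a : H) : V ≃ₗ[ZMod p] V) v ∈ W) ∧ (∀ W' : Submodule (ZMod p) V, W' ≤ W → (∀ a ∈ A, ∀ v ∈ W', ((a : H) : V ≃ₗ[ZMod p] V) v ∈ W') → W' = ⊥ ∨ W' = W) ∧ Nat.card A ∣ p ^ Module.finrank (ZMod p) W - 1 := by
  classical
  have hfix : ∀ h : H, ∀ v : V, v ≠ 0 → (h : V ≃ₗ[ZMod p] V) v = v → h = 1 := by
    intro h v hv hh
    obtain ⟨h0, _, huniq⟩ := hreg v v hv hv
    rw [huniq h hh, huniq 1 (by simp)]
  have hcyc : IsCyclic A := by
    by_cases hV : Subsingleton V
    · have hone : ∀ g : V ≃ₗ[ZMod p] V, g = 1 := fun g =>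
        LinearEquiv.ext (fun v => Subsingleton.elim _ _)
      have : Subsingleton A :=
        ⟨fun a b => Subtype.ext (Subtype.ext ((hone _).trans (hone _).symm))⟩
      infer_instance
    · rw [not_subsingleton_iff_nontrivial] at hV
      obtain ⟨U, -, hU0, hUinv, hUmin⟩ := exists_min_inv
        (fun W => ∀ a ∈ A, ∀ v ∈ W, ((a : H) : V ≃ₗ[ZMod p] V) v ∈ W) ⊤ top_ne_bot
        (fun a _ v _ => Submodule.mem_top (R := ZMod p) (M := V))
      obtain ⟨u₀, hu₀U, hu₀⟩ := Submodule.exists_mem_ne_zero_of_ne_bot hU0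
      have hcomm : ∀ a b : A, a * b = b * a := fun a b => hAc.is_comm.comm a b
      let ρ : A →* Module.End (ZMod p) U :=
        { toFun := fun a => (((a : H) : V ≃ₗ[ZMod p] V) : V →ₗ[ZMod p] V).restrict
            (fun v hv => hUinv a a.2 v hv)
          map_one' := by
            apply LinearMap.ext
            intro u
            apply Subtype.ext
            simp [LinearMap.restrict_apply]
          map_mul' := fun a b => by
            apply LinearMap.ext
            intro u
            apply Subtype.ext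
            simp [LinearMap.restrict_apply] }
      have hρapp : ∀ (a : A) (u : U), ((ρ a u : U) : V) = ((a : H) : V ≃ₗ[ZMod p] V) (u : V) :=
        fun a u => rfl
      have hρc : ∀ a b : A, ρ a * ρ b = ρ b * ρ a := fun a b => by
        rw [← map_mul, ← map_mul, hcomm a b]
      let C : Subring (Module.End (ZMod p) U) := Subring.centralizer (Set.range ρ)
      have hρC : ∀ a, ρ a ∈ C := fun a => Subring.mem_centralizer_iff.2 (by
        rintro _ ⟨b, rfl⟩
        exact hρc b a)
      have hρZ : ∀ a, (⟨ρ a, hρC a⟩ : C) ∈ Subring.center C := fun a =>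
        Subring.mem_center_iff.2 (fun g => Subtype.ext
          (Subring.mem_centralizer_iff.1 g.2 (ρ a) ⟨a, rfl⟩).symm)
      let f : A →* Subring.center C :=
        { toFun := fun a => ⟨⟨ρ a, hρC a⟩, hρZ a⟩
          map_one' := Subtype.ext (Subtype.ext (map_one ρ))
          map_mul' := fun a b => Subtype.ext (Subtype.ext (map_mul ρ a b)) }
      have hinj : Function.Injective f := by
        intro a b hab
        have h1 : ρ a = ρ b := congrArg (fun z : Subring.center C => (z.1.1 : Module.End (ZMod p) U)) hab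
        have h2 : ((a : H) : V ≃ₗ[ZMod p] V) u₀ = ((b : H) : V ≃ₗ[ZMod p] V) u₀ := by
          have h3 := congrArg (fun g : Module.End (ZMod p) U => ((g ⟨u₀, hu₀U⟩ : U) : V)) h1
          exact h3
        obtain ⟨h0, _, huniq⟩ := hreg u₀ (((b : H) : V ≃ₗ[ZMod p] V) u₀) hu₀
          ((LinearEquiv.map_ne_zero_iff _).2 hu₀)
        exact Subtype.ext ((huniq a h2).trans (huniq b rfl).symm)
      have hker : ∀ z : Subring.center C, z ≠ 0 →
          ∀ u : U, (z.1.1 : Module.End (ZMod p) U) u = 0 → u = 0 := by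
        intro z hz
        have hzc : ∀ a : A, (z.1.1 : Module.End (ZMod p) U) * ρ a = ρ a * z.1.1 := fun a =>
          (Subring.mem_centralizer_iff.1 z.1.2 (ρ a) ⟨a, rfl⟩).symm
        have hinv : ∀ a ∈ A, ∀ v ∈ (LinearMap.ker (z.1.1 : Module.End (ZMod p) U)).map U.subtype,
            ((a : H) : V ≃ₗ[ZMod p] V) v ∈
              (LinearMap.ker (z.1.1 : Module.End (ZMod p) U)).map U.subtype := by
          intro a ha v hv
          obtain ⟨u, hu, rfl⟩ := Submodule.mem_map.1 hv
          refine Submodule.mem_map.2 ⟨ρ ⟨a, ha⟩ u, ?_, rfl⟩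
          rw [LinearMap.mem_ker] at hu ⊢
          have h4 := congrArg (fun g : Module.End (ZMod p) U => g u) (hzc ⟨a, ha⟩)
          simp only [Module.End.mul_apply] at h4
          rw [h4, hu, map_zero]
        rcases hUmin _ (Submodule.map_subtype_le U _) hinv with h | h
        · intro u hu
          have h5 : (u : V) ∈ (LinearMap.ker (z.1.1 : Module.End (ZMod p) U)).map U.subtype :=
            Submodule.mem_map.2 ⟨u, LinearMap.mem_ker.2 hu, rfl⟩
          rw [h, Submodule.mem_bot] at h5
          exact Subtype.ext h5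
        · exfalso
          apply hz
          apply Subtype.ext
          apply Subtype.ext
          apply LinearMap.ext
          intro u
          have h5 : (u : V) ∈ (LinearMap.ker (z.1.1 : Module.End (ZMod p) U)).map U.subtype := by
            rw [h]; exact u.2
          obtain ⟨u', hu', he⟩ := Submodule.mem_map.1 h5
          have h6 : u' = u := Subtype.ext he
          rw [← h6]
          exact LinearMap.mem_ker.1 hu'
      have hnzd : NoZeroDivisors (Subring.center C) := ⟨fun {x y} hxy => by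
        by_cases hx : x = 0
        · exact Or.inl hx
        · right
          apply Subtype.ext
          apply Subtype.ext
          apply LinearMap.ext
          intro u
          have h1 : (x.1.1 : Module.End (ZMod p) U) ((y.1.1 : Module.End (ZMod p) U) u) = 0 := by
            have h2 := congrArg (fun z : Subring.center C => (z.1.1 : Module.End (ZMod p) U) u) hxy
            exact h2
          exact hker x hx _ h1⟩
      have hnt : Nontrivial (Subring.center C) := ⟨⟨0, 1, fun h => by
        have h2 := congrArg (fun z : Subring.center C =>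
          (((z.1.1 : Module.End (ZMod p) U) ⟨u₀, hu₀U⟩ : U) : V)) h
        exact hu₀ h2.symm⟩⟩
      have hdom : IsDomain (Subring.center C) := NoZeroDivisors.to_isDomain _
      have hfinE : Finite (V ≃ₗ[ZMod p] V) :=
        Finite.of_injective (fun g : V ≃ₗ[ZMod p] V => (g : V → V)) DFunLike.coe_injective
      exact isCyclic_of_injective_ringHom f hinj
  obtain ⟨W₀, hW₀b, hW₀t, hW₀inv⟩ := hI A hAn hcyc
  obtain ⟨W, hWle, hWb, hWinv, hWmin⟩ := exists_min_inv
    (fun W => ∀ a ∈ A, ∀ v ∈ W, ((a : H) : V ≃ₗ[ZMod p] V) v ∈ W) W₀ hW₀b hW₀inv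
  refine ⟨hcyc, W, hWb, ?_, hWinv, hWmin, ?_⟩
  · rintro rfl
    exact hW₀t (top_le_iff.1 hWle)
  · let S : Set V := {v | v ∈ W ∧ v ≠ 0}
    let _ : MulAction A S :=
      { smul := fun a x => ⟨((a : H) : V ≃ₗ[ZMod p] V) x.1, hWinv a a.2 x.1 x.2.1,
          (LinearEquiv.map_ne_zero_iff _).2 x.2.2⟩
        one_smul := fun x => Subtype.ext (by
          show (((1 : A) : H) : V ≃ₗ[ZMod p] V) x.1 = x.1
          simp)
        mul_smul := fun a b x => Subtype.ext (by
          show (((a * b : A) : H) : V ≃ₗ[ZMod p] V) x.1 =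
            ((a : H) : V ≃ₗ[ZMod p] V) (((b : H) : V ≃ₗ[ZMod p] V) x.1)
          simp) }
    have hfree : ∀ (a : A) (x : S), a • x = x → a = 1 := by
      intro a x hax
      have h1 : ((a : H) : V ≃ₗ[ZMod p] V) x.1 = x.1 := congrArg Subtype.val hax
      exact Subtype.ext (hfix a x.1 x.2.2 h1)
    have hdvd := card_dvd_of_free hfree
    have hS : Nat.card S = p ^ Module.finrank (ZMod p) W - 1 := by
      have h1 : S = (W : Set V) \ {0} := by
        ext v
        simp [S]
      have h2 : Nat.card W = p ^ Module.finrank (ZMod p) W := by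
        rw [Module.natCard_eq_pow_finrank (K := ZMod p) (V := W), Nat.card_zmod]
      rw [Nat.card_coe_set_eq, h1, Set.ncard_sdiff_singleton_of_mem (by simp), ← h2,
        ← Nat.card_coe_set_eq]
      rfl
    rw [← hS]
    exact hdvd

end Cfsg.Agent.S0684
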