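import Cfsg.Statements.S0685
import Mathlib
import Cfsg.Agent.S0684

set_option autoImplicit false
open Cfsg

namespace Cfsg.Agent.S0685

/-- In a linear group over the prime field that is regular on non-zero vectors and has no irreducible cyclic normal subgroup, a maximal normal abelian subgroup is properly contained in its centraliser, which is non-abelian. -/
theorem result {p : ℕ} [Fact p.Prime] {V : Type*} [AddCommGroup V] [Module (ZMod p) V] [Finite V] (H : Subgroup (V ≃ₗ[ZMod p] V)) (hreg : ∀ v w : V, v ≠ 0 → w ≠ 0 → ∃! h : H, (h : V ≃ₗ[ZMod p] V) v = w) (hI : ∀ A : Subgroup H, A.Normal → IsCyclic A → ∃ W : Submodule (ZMod p) V, W ≠ ⊥ ∧ W ≠ ⊤ ∧ ∀ a ∈ A, ∀ v ∈ W, ((a : H) : V ≃ₗ[ZMod p] V) v ∈ W) (A : Subgroup H) (hAn : A.Normal) (hAc : IsMulCommutative A) (hAmax : ∀ B : Subgroup H, B.Normal → IsMulCommutative B → A ≤ B → B = A) : A < Subgroup.centralizer (A : Set H) ∧ ¬ IsMulCommutative (Subgroup.centralizer (A : Set H)) := by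
  classical
  have := hAn
  have hfinE : Finite (V ≃ₗ[ZMod p] V) :=
    Finite.of_injective (fun g : V ≃ₗ[ZMod p] V => (g : V → V)) DFunLike.coe_injective
  have hAle : A ≤ Subgroup.centralizer (A : Set H) := by
    intro a ha
    rw [Subgroup.mem_centralizer_iff]
    intro b hb
    exact congrArg Subtype.val (hAc.is_comm.comm ⟨b, hb⟩ ⟨a, ha⟩)
  have hne : Subgroup.centralizer (A : Set H) ≠ A := by
    intro hCA
    obtain ⟨hcyc, W, hWb, hWt, hWinv, hWmin, hdvd⟩ :=
      Cfsg.Agent.S0684.result H hreg hI A hAn hAc hAmax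
    obtain ⟨u, huW, hu0⟩ := Submodule.exists_mem_ne_zero_of_ne_bot hWb
    obtain ⟨v, -, hvW⟩ := SetLike.exists_of_lt (lt_top_iff_ne_top.2 hWt)
    have hv0 : v ≠ 0 := fun h0 => hvW (h0 ▸ W.zero_mem)
    obtain ⟨h, hh, -⟩ := hreg u v hu0 hv0
    -- images of W are invariant
    have hmapinv : ∀ g : H, ∀ a ∈ A,
        ∀ x ∈ W.map (((g : V ≃ₗ[ZMod p] V)) : V →ₗ[ZMod p] V),
        ((a : H) : V ≃ₗ[ZMod p] V) x ∈ W.map (((g : V ≃ₗ[ZMod p] V)) : V →ₗ[ZMod p] V) := by
      intro g a ha x hx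
      obtain ⟨w, hw, rfl⟩ := Submodule.mem_map.1 hx
      have hc : g⁻¹ * a * g ∈ A := by simpa using hAn.conj_mem a ha g⁻¹
      have e1 : (a * g : H) = g * (g⁻¹ * a * g) := by group
      have e2 := congrArg (fun k : H => (k : V ≃ₗ[ZMod p] V) w) e1
      refine Submodule.mem_map.2 ⟨((g⁻¹ * a * g : H) : V ≃ₗ[ZMod p] V) w, hWinv _ hc w hw, ?_⟩
      exact e2.symm
    have hdisj : W ⊓ W.map (((h : V ≃ₗ[ZMod p] V)) : V →ₗ[ZMod p] V) = ⊥ := by
      have hinv : ∀ a ∈ A, ∀ x ∈ W ⊓ W.map (((h : V ≃ₗ[ZMod p] V)) : V →ₗ[ZMod p] V),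
          ((a : H) : V ≃ₗ[ZMod p] V) x ∈ W ⊓ W.map (((h : V ≃ₗ[ZMod p] V)) : V →ₗ[ZMod p] V) :=
        fun a ha x hx => ⟨hWinv a ha x hx.1, hmapinv h a ha x hx.2⟩
      rcases hWmin _ inf_le_left hinv with h1 | h1
      · exact h1
      · exfalso
        have hle : W ≤ W.map (((h : V ≃ₗ[ZMod p] V)) : V →ₗ[ZMod p] V) := by
          intro x hx
          have hx' : x ∈ W ⊓ W.map (((h : V ≃ₗ[ZMod p] V)) : V →ₗ[ZMod p] V) := by
            rw [h1]; exact hx
          exact hx'.2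
        have hle2 : W.map (((h⁻¹ : H) : V ≃ₗ[ZMod p] V) : V →ₗ[ZMod p] V) ≤ W := by
          intro x hx
          obtain ⟨w, hw, rfl⟩ := Submodule.mem_map.1 hx
          obtain ⟨w1, hw1, rfl⟩ := Submodule.mem_map.1 (hle hw)
          have e2 := congrArg (fun k : H => (k : V ≃ₗ[ZMod p] V) w1) (inv_mul_cancel h)
          have e3 : ((h⁻¹ : H) : V ≃ₗ[ZMod p] V) ((h : V ≃ₗ[ZMod p] V) w1) = w1 := e2
          show ((h⁻¹ : H) : V ≃ₗ[ZMod p] V) ((h : V ≃ₗ[ZMod p] V) w1) ∈ W
          rw [e3]; exact hw1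
        rcases hWmin _ hle2 (hmapinv h⁻¹) with h2 | h2
        · have hmem : ((h⁻¹ : H) : V ≃ₗ[ZMod p] V) u ∈
              W.map (((h⁻¹ : H) : V ≃ₗ[ZMod p] V) : V →ₗ[ZMod p] V) :=
            Submodule.mem_map.2 ⟨u, huW, rfl⟩
          rw [h2, Submodule.mem_bot] at hmem
          exact hu0 ((LinearEquiv.map_eq_zero_iff _).1 hmem)
        · have hmem : u ∈ W.map (((h⁻¹ : H) : V ≃ₗ[ZMod p] V) : V →ₗ[ZMod p] V) := by
            rw [h2]; exact huW
          obtain ⟨w2, hw2, he⟩ := Submodule.mem_map.1 hmem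
          have e2 := congrArg (fun k : H => (k : V ≃ₗ[ZMod p] V) w2) (mul_inv_cancel h)
          have e3 : (h : V ≃ₗ[ZMod p] V) (((h⁻¹ : H) : V ≃ₗ[ZMod p] V) w2) = w2 := e2
          have he' : ((h⁻¹ : H) : V ≃ₗ[ZMod p] V) w2 = u := he
          rw [he', hh] at e3
          exact hvW (e3 ▸ hw2)
    -- |W|^2 ≤ |V|
    have hVq : Nat.card W * Nat.card W ≤ Nat.card V := by
      rw [← Nat.card_prod]
      apply Nat.card_le_card_of_injective (fun xy : W × W => (xy.1 : V) + (h : V ≃ₗ[ZMod p] V) xy.2)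
      rintro ⟨x, y⟩ ⟨x', y'⟩ hxy
      have hxy' : (x : V) + (h : V ≃ₗ[ZMod p] V) y = (x' : V) + (h : V ≃ₗ[ZMod p] V) y' := hxy
      have h3 : (x : V) - x' = (h : V ≃ₗ[ZMod p] V) ((y' : V) - y) := by
        rw [map_sub]
        have := hxy'
        rw [sub_eq_sub_iff_add_eq_add]
        rw [this, add_comm]
      have h4 : (x : V) - x' ∈ W ⊓ W.map (((h : V ≃ₗ[ZMod p] V)) : V →ₗ[ZMod p] V) :=
        ⟨W.sub_mem x.2 x'.2, by
          rw [h3]; exact Submodule.mem_map.2 ⟨_, W.sub_mem y'.2 y.2, rfl⟩⟩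
      rw [hdisj, Submodule.mem_bot] at h4
      have h5 : (x : V) = x' := sub_eq_zero.1 h4
      have h6 : (h : V ≃ₗ[ZMod p] V) ((y' : V) - y) = 0 := by rw [← h3, h4]
      have h7 : (y' : V) = y := sub_eq_zero.1 ((LinearEquiv.map_eq_zero_iff _).1 h6)
      exact Prod.ext (Subtype.ext h5) (Subtype.ext h7.symm)
    -- |V| - 1 ≤ |H|
    have hHV : Nat.card V - 1 ≤ Nat.card H := by
      have hsurj : Function.Surjective
          (fun k : H => (⟨(k : V ≃ₗ[ZMod p] V) u, (LinearEquiv.map_ne_zero_iff _).2 hu0⟩ :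
            {x : V // x ≠ 0})) := by
        rintro ⟨x, hx⟩
        obtain ⟨k, hk, -⟩ := hreg u x hu0 hx
        exact ⟨k, Subtype.ext hk⟩
      have h1 := Nat.card_le_card_of_surjective _ hsurj
      have h2 : Nat.card {x : V // x ≠ 0} = Nat.card V - 1 := by
        have h3 : {x : V | x ≠ 0} = (Set.univ : Set V) \ {0} := by
          ext x; simp
        have h4 : Nat.card {x : V // x ≠ 0} = ({x : V | x ≠ 0} : Set V).ncard :=
          Nat.card_coe_set_eq _
        rw [h4, h3, Set.ncard_sdiff_singleton_of_mem (Set.mem_univ _), Set.ncard_univ]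
      rw [← h2]; exact h1
    -- |H| ≤ |A|^2
    have hHA : Nat.card H ≤ Nat.card A * Nat.card A := by
      let f : H →* MulAut A := MulAut.conjNormal
      have hker : f.ker ≤ A := by
        intro k hk
        rw [← hCA, Subgroup.mem_centralizer_iff]
        intro b hb
        have h1 : f k = 1 := MonoidHom.mem_ker.1 hk
        have h2 := congrArg (fun σ : MulAut A => ((σ ⟨b, hb⟩ : A) : H)) h1
        have h3 : k * b * k⁻¹ = b := h2
        calc b * k = k * b * k⁻¹ * k := by rw [h3]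
          _ = k * b := by group
      have h1 : Nat.card f.ker ≤ Nat.card A := Subgroup.card_le_of_le hker
      obtain ⟨g, hg⟩ := IsCyclic.exists_generator (α := A)
      have h2 : Nat.card f.range ≤ Nat.card A := by
        apply Nat.card_le_card_of_injective (fun σ : f.range => (σ : MulAut A) g)
        intro σ τ hστ
        apply Subtype.ext
        apply MulEquiv.ext
        intro x
        obtain ⟨n, rfl⟩ := Subgroup.mem_zpowers_iff.1 (hg x)
        have hστ' : (σ : MulAut A) g = (τ : MulAut A) g := hστ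
        rw [map_zpow, map_zpow, hστ']
      have h3 : Nat.card f.ker * Nat.card f.range = Nat.card H := by
        rw [← Subgroup.index_ker, Subgroup.card_mul_index]
      rw [← h3]
      exact Nat.mul_le_mul h1 h2
    -- arithmetic
    have hq2 : 2 ≤ Nat.card W := by
      have : Nontrivial W := ⟨⟨⟨u, huW⟩, 0, fun h0 => hu0 (congrArg Subtype.val h0)⟩⟩
      exact Finite.one_lt_card
    have hqW : Nat.card W = p ^ Module.finrank (ZMod p) W := by
      rw [Module.natCard_eq_pow_finrank (K := ZMod p) (V := W), Nat.card_zmod]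
    rw [← hqW] at hdvd
    have ha : Nat.card A ≤ Nat.card W - 1 := Nat.le_of_dvd (by omega) hdvd
    obtain ⟨m, hm⟩ : ∃ m, Nat.card W = m + 2 := ⟨Nat.card W - 2, by omega⟩
    rw [hm] at hVq ha
    have ha' : Nat.card A ≤ m + 1 := by omega
    have h8 : Nat.card A * Nat.card A ≤ (m + 1) * (m + 1) := Nat.mul_le_mul ha' ha'
    have h9 : (m + 2) * (m + 2) = (m + 1) * (m + 1) + 2 * m + 3 := by ring
    omega
  have hlt : A < Subgroup.centralizer (A : Set H) := lt_of_le_of_ne hAle (Ne.symm hne)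
  exact ⟨hlt, fun hcomm => hne (hAmax _ inferInstance hcomm hAle)⟩

end Cfsg.Agent.S0685
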