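import Cfsg.Statements.S0687
import Mathlib
import Cfsg.Agent.S0684

set_option autoImplicit false
open Cfsg

namespace Cfsg.Agent.S0687

theorem comm_of_left_inv {R : Type*} [Ring R] [Finite R] [Nontrivial R]
    (h : ∀ x : R, x ≠ 0 → ∃ y : R, y * x = 1) : ∀ x y : R, x * y = y * x := by
  have hnzd : NoZeroDivisors R := ⟨fun {x y} hxy => by
    by_cases hy : y = 0
    · exact Or.inr hy
    · left
      obtain ⟨y', hy'⟩ := h y hy
      have hy'0 : y' ≠ 0 := by
        rintro rfl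
        rw [zero_mul] at hy'
        exact zero_ne_one hy'
      obtain ⟨y'', hy''⟩ := h y' hy'0
      have e : y'' = y := by
        calc y'' = y'' * (y' * y) := by rw [hy', mul_one]
          _ = (y'' * y') * y := by rw [mul_assoc]
          _ = y := by rw [hy'', one_mul]
      rw [e] at hy''
      calc x = x * (y * y') := by rw [hy'', mul_one]
        _ = (x * y) * y' := by rw [mul_assoc]
        _ = 0 := by rw [hxy, zero_mul]⟩
  have hdom : IsDomain R := NoZeroDivisors.to_isDomain R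
  exact (Finite.isDomain_to_isField R).mul_comm

theorem irred_of_nonabelian {p : ℕ} [Fact p.Prime] {V : Type*} [AddCommGroup V]
    [Module (ZMod p) V] [Finite V] (H : Subgroup (V ≃ₗ[ZMod p] V))
    (hreg : ∀ v w : V, v ≠ 0 → w ≠ 0 → ∃! h : H, (h : V ≃ₗ[ZMod p] V) v = w)
    (N : Subgroup H) (hNn : N.Normal) (hNna : ¬ IsMulCommutative N)
    (W₀ : Submodule (ZMod p) V)
    (hinv : ∀ n ∈ N, ∀ v ∈ W₀, ((n : H) : V ≃ₗ[ZMod p] V) v ∈ W₀) : W₀ = ⊥ ∨ W₀ = ⊤ := by
  classical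
  by_contra hcon
  rw [not_or] at hcon
  obtain ⟨hb, ht⟩ := hcon
  apply hNna
  let Inv : Submodule (ZMod p) V → Prop :=
    fun W => ∀ n ∈ N, ∀ v ∈ W, ((n : H) : V ≃ₗ[ZMod p] V) v ∈ W
  obtain ⟨W, hWle, hWb, hWinv, hWmin⟩ := Cfsg.Agent.S0684.exists_min_inv Inv W₀ hb hinv
  have hWt : W ≠ ⊤ := by
    rintro rfl
    exact ht (top_le_iff.1 hWle)
  obtain ⟨w, hwW, hw0⟩ := Submodule.exists_mem_ne_zero_of_ne_bot hWb
  obtain ⟨v₀, -, hv₀W⟩ := SetLike.exists_of_lt (lt_top_iff_ne_top.2 hWt)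
  have hmapinv : ∀ (g : H) (M : Submodule (ZMod p) V), Inv M →
      Inv (M.map ((g : V ≃ₗ[ZMod p] V) : V →ₗ[ZMod p] V)) := by
    intro g M hM a ha x hx
    obtain ⟨y, hy, rfl⟩ := Submodule.mem_map.1 hx
    have hc : g⁻¹ * a * g ∈ N := by simpa using hNn.conj_mem a ha g⁻¹
    have e1 : (a * g : H) = g * (g⁻¹ * a * g) := by group
    have e2 := congrArg (fun k : H => (k : V ≃ₗ[ZMod p] V) y) e1
    exact Submodule.mem_map.2 ⟨((g⁻¹ * a * g : H) : V ≃ₗ[ZMod p] V) y, hM _ hc y hy, e2.symm⟩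
  have hL2 : ∀ v : V, v ≠ 0 → ∃ M : Submodule (ZMod p) V, v ∈ M ∧ M ≠ ⊥ ∧ Inv M ∧
      ∀ M' : Submodule (ZMod p) V, M' ≤ M → Inv M' → M' = ⊥ ∨ M' = M := by
    intro v hv
    obtain ⟨h, hh, -⟩ := hreg w v hw0 hv
    have hvmem : v ∈ W.map ((h : V ≃ₗ[ZMod p] V) : V →ₗ[ZMod p] V) :=
      Submodule.mem_map.2 ⟨w, hwW, hh⟩
    refine ⟨W.map ((h : V ≃ₗ[ZMod p] V) : V →ₗ[ZMod p] V), hvmem, ?_, hmapinv h W hWinv, ?_⟩
    · intro hbot
      rw [hbot, Submodule.mem_bot] at hvmem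
      exact hv hvmem
    · intro M' hle hM'
      have hle2 : M'.map (((h⁻¹ : H) : V ≃ₗ[ZMod p] V) : V →ₗ[ZMod p] V) ≤ W := by
        intro x hx
        obtain ⟨y, hy, rfl⟩ := Submodule.mem_map.1 hx
        obtain ⟨w1, hw1, rfl⟩ := Submodule.mem_map.1 (hle hy)
        have e3 : ((h⁻¹ : H) : V ≃ₗ[ZMod p] V) ((h : V ≃ₗ[ZMod p] V) w1) = w1 :=
          congrArg (fun k : H => (k : V ≃ₗ[ZMod p] V) w1) (inv_mul_cancel h)
        show ((h⁻¹ : H) : V ≃ₗ[ZMod p] V) ((h : V ≃ₗ[ZMod p] V) w1) ∈ W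
        rw [e3]
        exact hw1
      have hhh : ∀ y : V, (h : V ≃ₗ[ZMod p] V) (((h⁻¹ : H) : V ≃ₗ[ZMod p] V) y) = y := fun y =>
        congrArg (fun k : H => (k : V ≃ₗ[ZMod p] V) y) (mul_inv_cancel h)
      rcases hWmin _ hle2 (hmapinv h⁻¹ M' hM') with h2 | h2
      · left
        rw [eq_bot_iff]
        intro x hx
        have hmem : ((h⁻¹ : H) : V ≃ₗ[ZMod p] V) x ∈
            M'.map (((h⁻¹ : H) : V ≃ₗ[ZMod p] V) : V →ₗ[ZMod p] V) :=
          Submodule.mem_map.2 ⟨x, hx, rfl⟩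
        rw [h2, Submodule.mem_bot] at hmem
        exact (Submodule.mem_bot (ZMod p)).2 ((LinearEquiv.map_eq_zero_iff _).1 hmem)
      · right
        apply le_antisymm hle
        intro x hx
        obtain ⟨w1, hw1, rfl⟩ := Submodule.mem_map.1 hx
        have hmem : w1 ∈ M'.map (((h⁻¹ : H) : V ≃ₗ[ZMod p] V) : V →ₗ[ZMod p] V) := by
          rw [h2]
          exact hw1
        obtain ⟨y, hy, he⟩ := Submodule.mem_map.1 hmem
        have he' : ((h⁻¹ : H) : V ≃ₗ[ZMod p] V) y = w1 := he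
        show (h : V ≃ₗ[ZMod p] V) w1 ∈ M'
        rw [← he', hhh]
        exact hy
  let S : Set (Module.End (ZMod p) V) :=
    Set.range (fun n : N => (((n : H) : V ≃ₗ[ZMod p] V) : V →ₗ[ZMod p] V))
  let E : Subalgebra (ZMod p) (Module.End (ZMod p) V) := Algebra.adjoin (ZMod p) S
  have hNE : ∀ n : N, (((n : H) : V ≃ₗ[ZMod p] V) : V →ₗ[ZMod p] V) ∈ E :=
    fun n => Algebra.subset_adjoin ⟨n, rfl⟩
  have hP1 : ∀ (M : Submodule (ZMod p) V), Inv M → ∀ e ∈ E, ∀ x ∈ M,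
      (e : Module.End (ZMod p) V) x ∈ M := by
    intro M hM e he
    refine Algebra.adjoin_induction (p := fun e _ => ∀ x ∈ M, (e : Module.End (ZMod p) V) x ∈ M)
      ?_ ?_ ?_ ?_ he
    · rintro _ ⟨n, rfl⟩ x hx
      exact hM n n.2 x hx
    · intro c x hx
      rw [Module.algebraMap_end_apply]
      exact M.smul_mem c hx
    · intro e₁ e₂ _ _ h₁ h₂ x hx
      exact M.add_mem (h₁ x hx) (h₂ x hx)
    · intro e₁ e₂ _ _ h₁ h₂ x hx
      exact h₁ _ (h₂ x hx)
  have hA : ∀ e ∈ E, (e : Module.End (ZMod p) V) w = 0 → ∀ v : V, v ∉ W →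
      (e : Module.End (ZMod p) V) v = 0 := by
    intro e he hew v hvW
    have hv0 : v ≠ 0 := fun h0 => hvW (h0 ▸ W.zero_mem)
    have hwv0 : w + v ≠ 0 := by
      intro h0
      apply hvW
      have h1 : v = -w := by
        rw [eq_neg_iff_add_eq_zero, add_comm]
        exact h0
      rw [h1]
      exact W.neg_mem hwW
    obtain ⟨M₂, hvM₂, hM₂b, hM₂inv, hM₂min⟩ := hL2 v hv0
    obtain ⟨M₃, hM₃mem, hM₃b, hM₃inv, hM₃min⟩ := hL2 (w + v) hwv0
    have h1 : (e : Module.End (ZMod p) V) v ∈ M₂ := hP1 M₂ hM₂inv e he v hvM₂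
    have h2 : (e : Module.End (ZMod p) V) v ∈ M₃ := by
      have h2' := hP1 M₃ hM₃inv e he (w + v) hM₃mem
      rwa [map_add, hew, zero_add] at h2'
    have hI : Inv (M₂ ⊓ M₃) := fun n hn x hx => ⟨hM₂inv n hn x hx.1, hM₃inv n hn x hx.2⟩
    rcases hM₂min _ inf_le_left hI with h3 | h3
    · have h4 : (e : Module.End (ZMod p) V) v ∈ M₂ ⊓ M₃ := ⟨h1, h2⟩
      rw [h3, Submodule.mem_bot] at h4
      exact h4
    · exfalso
      have hle23 : M₂ ≤ M₃ := fun x hx => by
        have hx' : x ∈ M₂ ⊓ M₃ := by rw [h3]; exact hx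
        exact hx'.2
      rcases hM₃min _ hle23 hM₂inv with h4 | h4
      · exact hM₂b h4
      · have hwM₂ : w ∈ M₂ := by
          have h5 : w + v ∈ M₂ := by rw [h4]; exact hM₃mem
          have h6 := M₂.sub_mem h5 hvM₂
          rwa [add_sub_cancel_right] at h6
        have hI2 : Inv (W ⊓ M₂) := fun n hn x hx => ⟨hWinv n hn x hx.1, hM₂inv n hn x hx.2⟩
        rcases hWmin _ inf_le_left hI2 with h6 | h6
        · have h7 : w ∈ W ⊓ M₂ := ⟨hwW, hwM₂⟩
          rw [h6, Submodule.mem_bot] at h7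
          exact hw0 h7
        · have hleW : W ≤ M₂ := fun x hx => by
            have hx' : x ∈ W ⊓ M₂ := by rw [h6]; exact hx
            exact hx'.2
          rcases hM₂min _ hleW hWinv with h7 | h7
          · exact hWb h7
          · exact hvW (h7 ▸ hvM₂)
  have hB : ∀ e ∈ E, (e : Module.End (ZMod p) V) w = 0 → e = 0 := by
    intro e he hew
    apply LinearMap.ext
    intro x
    by_cases hx : x ∈ W
    · have h1 : x + v₀ ∉ W := fun h => hv₀W (by
        have h' := W.sub_mem h hx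
        rwa [add_sub_cancel_left] at h')
      have h2 := hA e he hew (x + v₀) h1
      have h3 := hA e he hew v₀ hv₀W
      rw [map_add, h3, add_zero] at h2
      rw [h2]
      rfl
    · rw [hA e he hew x hx]
      rfl
  have hC : ∀ x : E, x ≠ 0 → ∃ y : E, y * x = 1 := by
    intro x hx
    have hxw : (x : Module.End (ZMod p) V) w ≠ 0 := fun h0 => hx (Subtype.ext (hB x.1 x.2 h0))
    have hxwW : (x : Module.End (ZMod p) V) w ∈ W := hP1 W hWinv x.1 x.2 w hwW
    let M : Submodule (ZMod p) V :=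
      { carrier := {y | ∃ e ∈ E, (e : Module.End (ZMod p) V) ((x : Module.End (ZMod p) V) w) = y}
        add_mem' := by
          rintro _ _ ⟨e₁, he₁, rfl⟩ ⟨e₂, he₂, rfl⟩
          exact ⟨e₁ + e₂, E.add_mem he₁ he₂, rfl⟩
        zero_mem' := ⟨0, E.zero_mem, rfl⟩
        smul_mem' := by
          rintro c _ ⟨e, he, rfl⟩
          exact ⟨c • e, E.smul_mem he c, rfl⟩ }
    have hMle : M ≤ W := by
      rintro _ ⟨e, he, rfl⟩
      exact hP1 W hWinv e he _ hxwW
    have hMinv : Inv M := by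
      rintro n hn _ ⟨e, he, rfl⟩
      exact ⟨(((n : H) : V ≃ₗ[ZMod p] V) : V →ₗ[ZMod p] V) * e,
        E.mul_mem (hNE ⟨n, hn⟩) he, rfl⟩
    rcases hWmin M hMle hMinv with h1 | h1
    · exfalso
      have h2 : (x : Module.End (ZMod p) V) w ∈ M := ⟨1, E.one_mem, rfl⟩
      rw [h1, Submodule.mem_bot] at h2
      exact hxw h2
    · have h2 : w ∈ M := by rw [h1]; exact hwW
      obtain ⟨e, he, hew⟩ := h2
      refine ⟨⟨e, he⟩, Subtype.ext ?_⟩
      have h3 : (e * (x : Module.End (ZMod p) V) - 1) = 0 :=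
        hB _ (E.sub_mem (E.mul_mem he x.2) E.one_mem) (by
          show e ((x : Module.End (ZMod p) V) w) - w = 0
          rw [hew, sub_self])
      exact sub_eq_zero.1 h3
  have hfinEnd : Finite (Module.End (ZMod p) V) :=
    Finite.of_injective (fun g : Module.End (ZMod p) V => (g : V → V)) DFunLike.coe_injective
  have hEnt : Nontrivial E := ⟨⟨0, 1, fun h => by
    have h' := congrArg (fun z : E => (z : Module.End (ZMod p) V) w) h
    exact hw0 h'.symm⟩⟩
  have hcomm := comm_of_left_inv hC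
  refine ⟨⟨fun a b => ?_⟩⟩
  have h1 := hcomm ⟨_, hNE a⟩ ⟨_, hNE b⟩
  have h2 : (((a : H) : V ≃ₗ[ZMod p] V) : Module.End (ZMod p) V) *
      (((b : H) : V ≃ₗ[ZMod p] V) : Module.End (ZMod p) V) =
      (((b : H) : V ≃ₗ[ZMod p] V) : Module.End (ZMod p) V) *
      (((a : H) : V ≃ₗ[ZMod p] V) : Module.End (ZMod p) V) := congrArg Subtype.val h1
  apply Subtype.ext
  apply Subtype.ext
  apply LinearEquiv.ext
  intro x
  exact congrArg (fun g : Module.End (ZMod p) V => g x) h2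

theorem cent_comm {p : ℕ} [Fact p.Prime] {V : Type*} [AddCommGroup V]
    [Module (ZMod p) V] [Finite V] [Nontrivial V] (H : Subgroup (V ≃ₗ[ZMod p] V))
    (N : Subgroup H)
    (hirr : ∀ W : Submodule (ZMod p) V,
      (∀ n ∈ N, ∀ v ∈ W, ((n : H) : V ≃ₗ[ZMod p] V) v ∈ W) → W = ⊥ ∨ W = ⊤) :
    ∀ c₁ ∈ Subgroup.centralizer (N : Set H), ∀ c₂ ∈ Subgroup.centralizer (N : Set H),
      c₁ * c₂ = c₂ * c₁ := by
  classical
  let S : Set (Module.End (ZMod p) V) :=
    Set.range (fun n : N => (((n : H) : V ≃ₗ[ZMod p] V) : V →ₗ[ZMod p] V))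
  let R : Subring (Module.End (ZMod p) V) := Subring.centralizer S
  have hfinEnd : Finite (Module.End (ZMod p) V) :=
    Finite.of_injective (fun g : Module.End (ZMod p) V => (g : V → V)) DFunLike.coe_injective
  have hR : ∀ r : R, r ≠ 0 → ∀ x : V, (r : Module.End (ZMod p) V) x = 0 → x = 0 := by
    intro r hr
    have hI : ∀ n ∈ N, ∀ v ∈ LinearMap.ker (r : Module.End (ZMod p) V),
        ((n : H) : V ≃ₗ[ZMod p] V) v ∈ LinearMap.ker (r : Module.End (ZMod p) V) := by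
      intro n hn x hx
      rw [LinearMap.mem_ker] at hx ⊢
      have h1 := Subring.mem_centralizer_iff.1 r.2 _ ⟨⟨n, hn⟩, rfl⟩
      have h2 := congrArg (fun g : Module.End (ZMod p) V => g x) h1
      have h3 : (r : Module.End (ZMod p) V) (((n : H) : V ≃ₗ[ZMod p] V) x) =
          ((n : H) : V ≃ₗ[ZMod p] V) ((r : Module.End (ZMod p) V) x) := h2.symm
      rw [h3, hx, map_zero]
    rcases hirr _ hI with h | h
    · intro x hx
      have hx' : x ∈ LinearMap.ker (r : Module.End (ZMod p) V) := LinearMap.mem_ker.2 hx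
      rw [h, Submodule.mem_bot] at hx'
      exact hx'
    · exfalso
      apply hr
      apply Subtype.ext
      apply LinearMap.ext
      intro x
      have hx' : x ∈ LinearMap.ker (r : Module.End (ZMod p) V) := by
        rw [h]
        exact Submodule.mem_top
      exact LinearMap.mem_ker.1 hx'
  have hnzd : NoZeroDivisors R := ⟨fun {x y} hxy => by
    by_cases hx : x = 0
    · exact Or.inl hx
    · right
      apply Subtype.ext
      apply LinearMap.ext
      intro u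
      have h1 : (x : Module.End (ZMod p) V) ((y : Module.End (ZMod p) V) u) = 0 :=
        congrArg (fun z : R => (z : Module.End (ZMod p) V) u) hxy
      exact hR x hx _ h1⟩
  obtain ⟨u₀, hu₀⟩ := exists_ne (0 : V)
  have hnt : Nontrivial R := ⟨⟨0, 1, fun h => by
    have h' := congrArg (fun z : R => (z : Module.End (ZMod p) V) u₀) h
    exact hu₀ h'.symm⟩⟩
  have hdom : IsDomain R := NoZeroDivisors.to_isDomain R
  have hcomm := (Finite.isDomain_to_isField R).mul_comm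
  have hmem : ∀ c ∈ Subgroup.centralizer (N : Set H),
      (((c : H) : V ≃ₗ[ZMod p] V) : Module.End (ZMod p) V) ∈ R := by
    intro c hc
    rw [Subring.mem_centralizer_iff]
    rintro _ ⟨n, rfl⟩
    have h1 := Subgroup.mem_centralizer_iff.1 hc n n.2
    apply LinearMap.ext
    intro x
    exact congrArg (fun k : H => (k : V ≃ₗ[ZMod p] V) x) h1
  intro c₁ hc₁ c₂ hc₂
  have h1 := hcomm ⟨_, hmem c₁ hc₁⟩ ⟨_, hmem c₂ hc₂⟩
  have h2 : (((c₁ : H) : V ≃ₗ[ZMod p] V) : Module.End (ZMod p) V) *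
      (((c₂ : H) : V ≃ₗ[ZMod p] V) : Module.End (ZMod p) V) =
      (((c₂ : H) : V ≃ₗ[ZMod p] V) : Module.End (ZMod p) V) *
      (((c₁ : H) : V ≃ₗ[ZMod p] V) : Module.End (ZMod p) V) := congrArg Subtype.val h1
  apply Subtype.ext
  apply LinearEquiv.ext
  intro x
  exact congrArg (fun g : Module.End (ZMod p) V => g x) h2

/-- In a linear group over the prime field that is regular on non-zero vectors and has no irreducible cyclic normal subgroup, a normal subgroup `N` minimal among the non-abelian normal subgroups centralising a maximal normal abelian subgroup `A` is irreducible on `V`, and its centraliser is `A`. -/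
theorem result {p : ℕ} [Fact p.Prime] {V : Type*} [AddCommGroup V] [Module (ZMod p) V] [Finite V] (H : Subgroup (V ≃ₗ[ZMod p] V)) (hreg : ∀ v w : V, v ≠ 0 → w ≠ 0 → ∃! h : H, (h : V ≃ₗ[ZMod p] V) v = w) (hI : ∀ A : Subgroup H, A.Normal → IsCyclic A → ∃ W : Submodule (ZMod p) V, W ≠ ⊥ ∧ W ≠ ⊤ ∧ ∀ a ∈ A, ∀ v ∈ W, ((a : H) : V ≃ₗ[ZMod p] V) v ∈ W) (A : Subgroup H) (hAn : A.Normal) (hAc : IsMulCommutative A) (hAmax : ∀ B : Subgroup H, B.Normal → IsMulCommutative B → A ≤ B → B = A) (N : Subgroup H) (hNn : N.Normal) (hNle : N ≤ Subgroup.centralizer (A : Set H)) (hNna : ¬ IsMulCommutative N) (hNmin : ∀ M : Subgroup H, M.Normal → M ≤ N → ¬ IsMulCommutative M → M = N) : (∀ W : Submodule (ZMod p) V, (∀ n ∈ N, ∀ v ∈ W, ((n : H) : V ≃ₗ[ZMod p] V) v ∈ W) → W = ⊥ ∨ W = ⊤) ∧ Subgroup.centralizer (N : Set H) = A := by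
  classical
  have hirr : ∀ W : Submodule (ZMod p) V,
      (∀ n ∈ N, ∀ v ∈ W, ((n : H) : V ≃ₗ[ZMod p] V) v ∈ W) → W = ⊥ ∨ W = ⊤ :=
    fun W hW => irred_of_nonabelian H hreg N hNn hNna W hW
  refine ⟨hirr, ?_⟩
  have hVnt : Nontrivial V := by
    by_contra hV
    rw [not_nontrivial_iff_subsingleton] at hV
    apply hNna
    have hone : ∀ g : V ≃ₗ[ZMod p] V, g = 1 := fun g =>
      LinearEquiv.ext (fun v => Subsingleton.elim _ _)
    exact ⟨⟨fun a b => Subtype.ext (Subtype.ext ((hone _).trans (hone _).symm))⟩⟩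
  have hcc := cent_comm H N hirr
  have := hNn
  have hAle : A ≤ Subgroup.centralizer (N : Set H) := by
    intro a ha
    rw [Subgroup.mem_centralizer_iff]
    intro n hn
    exact ((Subgroup.mem_centralizer_iff.1 (hNle hn)) a ha).symm
  exact hAmax _ inferInstance ⟨⟨fun a b => Subtype.ext (hcc a.1 a.2 b.1 b.2)⟩⟩ hAle

end Cfsg.Agent.S0687
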