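import Cfsg.Statements.S0691
import Mathlib
import Cfsg.Agent.Lib.Helper5.Reg2

set_option autoImplicit false
open Cfsg

namespace Cfsg.Agent.S0691

open Cfsg.Agent.Lib.Helper5.Reg2

def predT : ℕ := 0x520026004a00190028001a005400310036005000460006002a00620014000e003200560016000000510004002900150000

def phiT : ℕ := 0x1100160007000c0004001000150006000b0002001300180009000e0003001200170008000d00010005000f000a00140000

theorem cert1 : allBelow (fun n => Nat.beq n 0 || reach 5 ⟨2, 0, 0, 3⟩ ⟨0, 4, 1, 0⟩ ⟨1, 2, 1, 3⟩ predT 4 n) (5 * 5) = true := by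
  decide +kernel

theorem cert2 : allBelow (fun n => Nat.beq n 0 || (eqv 5 ⟨2, 0, 0, 3⟩ phiT n && eqv 5 ⟨0, 4, 1, 0⟩ phiT n && eqv 5 ⟨1, 2, 1, 3⟩ phiT n)) (5 * 5) = true := by
  decide +kernel

theorem cert3 : look phiT 16 5 = 1 := by
  decide +kernel

/-- An exceptional sharply doubly transitive group of degree 5^2: the listed matrices generate a subgroup of GL(2,5) of order 24 acting regularly on the non-zero vectors. -/
theorem result (A : Matrix.GeneralLinearGroup (Fin 2) (ZMod 5)) (B : Matrix.GeneralLinearGroup (Fin 2) (ZMod 5)) (C : Matrix.GeneralLinearGroup (Fin 2) (ZMod 5)) (hA : (A : Matrix (Fin 2) (Fin 2) (ZMod 5)) = !![2, 0; 0, -2]) (hB : (B : Matrix (Fin 2) (Fin 2) (ZMod 5)) = !![0, -1; 1, 0]) (hC : (C : Matrix (Fin 2) (Fin 2) (ZMod 5)) = !![1, 2; 1, -2]) : Nat.card (Subgroup.closure ({A, B, C} : Set (Matrix.GeneralLinearGroup (Fin 2) (ZMod 5)))) = 24 ∧ ∀ v w : Fin 2 → ZMod 5, v ≠ 0 → w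 ≠ 0 → ∃! h : Subgroup.closure ({A, B, C} : Set (Matrix.GeneralLinearGroup (Fin 2) (ZMod 5))), Matrix.mulVec ((h : Matrix.GeneralLinearGroup (Fin 2) (ZMod 5)) : Matrix (Fin 2) (Fin 2) (ZMod 5)) v = w := by
  have hA' : (A : Matrix (Fin 2) (Fin 2) (ZMod 5)) = mat 5 ⟨2, 0, 0, 3⟩ := by
    rw [hA]
    ext i j
    fin_cases i <;> fin_cases j <;> rfl
  have hB' : (B : Matrix (Fin 2) (Fin 2) (ZMod 5)) = mat 5 ⟨0, 4, 1, 0⟩ := by
    rw [hB]
    ext i j
    fin_cases i <;> fin_cases j <;> rfl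
  have hC' : (C : Matrix (Fin 2) (Fin 2) (ZMod 5)) = mat 5 ⟨1, 2, 1, 3⟩ := by
    rw [hC]
    ext i j
    fin_cases i <;> fin_cases j <;> rfl
  exact regular_of_cert (p := 5) (by norm_num) A B C ⟨2, 0, 0, 3⟩ ⟨0, 4, 1, 0⟩ ⟨1, 2, 1, 3⟩ hA' hB' hC' predT phiT 4 cert1 cert2 cert3

end Cfsg.Agent.S0691
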