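import Cfsg.Statements.S0694
import Mathlib

set_option autoImplicit false
open Cfsg

namespace Cfsg.Agent.S0694

/-- The geometric sum `1 + q + ... + q^(i-1)`. -/
def S (q i : ℕ) : ℕ := ∑ j ∈ Finset.range i, q ^ j

theorem S_succ (q i : ℕ) : S q (i + 1) = S q i + q ^ i := Finset.sum_range_succ _ _

theorem S_zero (q : ℕ) : S q 0 = 0 := by simp [S]

theorem S_mul (q i : ℕ) (hq : 1 ≤ q) : S q i * (q - 1) + 1 = q ^ i := by
  induction i with
  | zero => simp [S]
  | succ i ih =>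
    obtain ⟨t, rfl⟩ : ∃ t, q = t + 1 := ⟨q - 1, by omega⟩
    rw [S_succ, add_mul, pow_succ]
    simp only [Nat.add_sub_cancel] at ih ⊢
    rw [mul_add, mul_one]
    omega

theorem S_pos (q i : ℕ) (hi : 1 ≤ i) : 1 ≤ S q i := by
  obtain ⟨j, rfl⟩ : ∃ j, i = j + 1 := ⟨i - 1, by omega⟩
  unfold S
  rw [Finset.sum_range_succ', pow_zero]
  exact Nat.le_add_left _ _

theorem S_modEq (q d i : ℕ) (hq : 1 ≤ q) (hd : d ∣ q - 1) : S q i ≡ i [MOD d] := by
  have hq1 : q ≡ 1 [MOD d] := ((Nat.modEq_iff_dvd' hq).mpr hd).symm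
  induction i with
  | zero => rw [S_zero]
  | succ i ih =>
    rw [S_succ]
    have h1 : q ^ i ≡ 1 [MOD d] := by
      have h2 := hq1.pow i
      rwa [one_pow] at h2
    exact ih.add h1

theorem S_mul_mul (q a b : ℕ) (hq : 2 ≤ q) : S q (a * b) = S q a * S (q ^ a) b := by
  have h1 := S_mul q (a * b) (by omega)
  have h2 := S_mul (q ^ a) b (Nat.one_le_pow _ _ (by omega))
  have h3 := S_mul q a (by omega)
  have h4 : q ^ a - 1 = S q a * (q - 1) := by omega
  rw [h4, ← pow_mul] at h2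
  have h5 : S q (a * b) * (q - 1) = S q a * S (q ^ a) b * (q - 1) := by
    have h6 : S (q ^ a) b * (S q a * (q - 1)) = S q a * S (q ^ a) b * (q - 1) := by ring
    omega
  exact Nat.eq_of_mul_eq_mul_right (by omega) h5

theorem lift (p x a : ℕ) (hx : 1 ≤ x) (ha : 1 ≤ a) (h : p ^ a ∣ x - 1) :
    ∀ j, p ^ (a + j) ∣ x ^ (p ^ j) - 1 := by
  intro j
  induction j with
  | zero => simpa using h
  | succ j ih =>
    have hX : 1 ≤ x ^ p ^ j := Nat.one_le_pow _ _ hx
    have h1 := S_mul (x ^ p ^ j) p hX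
    have h2 : x ^ p ^ (j + 1) - 1 = (x ^ p ^ j - 1) * S (x ^ p ^ j) p := by
      rw [pow_succ, pow_mul, mul_comm]; omega
    have hp : p ∣ x ^ p ^ j - 1 := dvd_trans (dvd_pow_self p (by omega)) ih
    have h3 := S_modEq (x ^ p ^ j) p p hX hp
    have hpS : p ∣ S (x ^ p ^ j) p :=
      (Nat.modEq_zero_iff_dvd).mp (h3.trans ((Nat.modEq_zero_iff_dvd).mpr dvd_rfl))
    rw [h2, ← add_assoc, pow_succ]
    exact Nat.mul_dvd_mul ih hpS

theorem val_S (p q i : ℕ) (hp : p.Prime) (hq : 2 ≤ q) (hpq : p ∣ q - 1)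
    (h4 : p = 2 → 4 ∣ q - 1) (hi : 1 ≤ i) : padicValNat p (S q i) = padicValNat p i := by
  have : Fact p.Prime := ⟨hp⟩
  have hS := S_mul q i (by omega)
  have hSpos := S_pos q i hi
  have hqi : 1 ≤ q ^ i := Nat.one_le_pow _ _ (by omega)
  have hnp : ¬ p ∣ q := by
    intro h
    have h1 : p ∣ q - (q - 1) := Nat.dvd_sub h hpq
    have h2 : q - (q - 1) = 1 := by omega
    rw [h2] at h1
    exact hp.one_lt.ne' (Nat.dvd_one.mp h1)
  have hmul : padicValNat p (q ^ i - 1) = padicValNat p (S q i) + padicValNat p (q - 1) := by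
    have h1 : q ^ i - 1 = S q i * (q - 1) := by omega
    rw [h1, padicValNat.mul (by omega) (by omega)]
  by_cases hodd : Odd p
  · have hl := padicValNat.pow_sub_pow hodd (show 1 < q by omega) hpq hnp (show i ≠ 0 by omega)
    rw [one_pow] at hl
    omega
  · have hp2 : p = 2 := by
      rcases hp.eq_two_or_odd' with h | h
      · exact h
      · exact absurd h hodd
    subst hp2
    have h4' := h4 rfl
    rcases Nat.even_or_odd i with hev | hod
    · have hl := padicValNat.pow_two_sub_pow (show 1 < q by omega) hpq hnp (show i ≠ 0 by omega) hev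
      rw [one_pow] at hl
      have hq1 : padicValNat 2 (q + 1) = 1 := by
        obtain ⟨t, ht⟩ := h4'
        have h1 : q + 1 = 2 * (2 * t + 1) := by omega
        rw [h1, padicValNat.mul (by norm_num) (by omega), padicValNat_self,
          padicValNat.eq_zero_of_not_dvd (by omega)]
      omega
    · have hA : S q i % 2 = i % 2 := S_modEq q 2 i (by omega) hpq
      have hi2 : i % 2 = 1 := Nat.odd_iff.mp hod
      have h1 : ¬ 2 ∣ S q i := by omega
      have h2 : ¬ 2 ∣ i := by omega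
      rw [padicValNat.eq_zero_of_not_dvd h1, padicValNat.eq_zero_of_not_dvd h2]

theorem modEq_iff (q n i : ℕ) (hq : 2 ≤ q) : q ^ i ≡ 1 [MOD n * (q - 1)] ↔ n ∣ S q i := by
  have h1 := S_mul q i (by omega)
  have hpos : 1 ≤ q ^ i := Nat.one_le_pow _ _ (by omega)
  have h2 : q ^ i - 1 = S q i * (q - 1) := by omega
  constructor
  · intro h
    have h3 := (Nat.modEq_iff_dvd' hpos).mp h.symm
    rw [h2] at h3
    exact (Nat.mul_dvd_mul_iff_right (by omega)).mp h3
  · intro h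
    have h3 : n * (q - 1) ∣ q ^ i - 1 := by rw [h2]; exact Nat.mul_dvd_mul_right h _
    exact ((Nat.modEq_iff_dvd' hpos).mpr h3).symm

theorem fwd (q n : ℕ) (hq : 2 ≤ q) (hr : ∀ r : ℕ, r.Prime → r ∣ n → r ∣ q - 1)
    (h4 : 4 ∣ n → 4 ∣ q - 1) (i : ℕ) (hi : 1 ≤ i) : n ∣ S q i ↔ n ∣ i := by
  rw [Nat.dvd_iff_prime_pow_dvd_dvd (S q i) n, Nat.dvd_iff_prime_pow_dvd_dvd i n]
  have key : ∀ p k : ℕ, p.Prime → p ^ k ∣ n → (p ^ k ∣ S q i ↔ p ^ k ∣ i) := by
    intro p k hp hk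
    have : Fact p.Prime := ⟨hp⟩
    rcases Nat.eq_zero_or_pos k with rfl | hkpos
    · simp
    have hpn : p ∣ n := dvd_trans (dvd_pow_self p (by omega)) hk
    have hpq := hr p hp hpn
    have hSpos := S_pos q i hi
    by_cases hc : p = 2 ∧ ¬ 4 ∣ q - 1
    · obtain ⟨rfl, hc4⟩ := hc
      have hk1 : k = 1 := by
        by_contra hne
        have hk2 : 2 ≤ k := by omega
        apply hc4
        apply h4
        have h22 : (2 : ℕ) ^ 2 ∣ 2 ^ k := pow_dvd_pow 2 hk2
        have h5 := dvd_trans h22 hk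
        norm_num at h5
        exact h5
      subst hk1
      rw [pow_one]
      have hA : S q i % 2 = i % 2 := S_modEq q 2 i (by omega) hpq
      omega
    · have hv := val_S p q i hp hq hpq (fun h2 => by_contra fun h => hc ⟨h2, h⟩) hi
      rw [padicValNat_dvd_iff_le (by omega), padicValNat_dvd_iff_le (by omega), hv]
  constructor
  · intro h p k hp hk; exact (key p k hp hk).mp (h p k hp hk)
  · intro h p k hp hk; exact (key p k hp hk).mpr (h p k hp hk)

theorem bwd1 (q n : ℕ) (hq : 2 ≤ q) (hn : 1 < n) (hS : n ∣ S q n)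
    (hmin : ∀ i, 0 < i → i < n → ¬ n ∣ S q i) :
    ∀ r : ℕ, r.Prime → r ∣ n → r ∣ q - 1 := by
  by_contra hcon
  push Not at hcon
  obtain ⟨r₀, hr₀p, hr₀n, hr₀q⟩ := hcon
  have hne : (n.primeFactors.filter (fun r => ¬ r ∣ q - 1)).Nonempty :=
    ⟨r₀, by rw [Finset.mem_filter, Nat.mem_primeFactors]; exact ⟨⟨hr₀p, hr₀n, by omega⟩, hr₀q⟩⟩
  obtain ⟨r, hrmem, hrmax⟩ := Finset.exists_max_image _ id hne
  rw [Finset.mem_filter, Nat.mem_primeFactors] at hrmem
  obtain ⟨⟨hrp, hrn, -⟩, hrq⟩ := hrmem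
  have : Fact r.Prime := ⟨hrp⟩
  have hmax : ∀ s : ℕ, s.Prime → s ∣ n → ¬ s ∣ q - 1 → s ≤ r := by
    intro s hs hsn hsq
    exact hrmax s (by rw [Finset.mem_filter, Nat.mem_primeFactors]; exact ⟨⟨hs, hsn, by omega⟩, hsq⟩)
  obtain ⟨m, hm⟩ := hrn
  have hr2 := hrp.two_le
  have hmpos : 0 < m := by
    rcases Nat.eq_zero_or_pos m with h | h
    · subst h; omega
    · exact h
  have hmlt : m < n := by nlinarith
  apply hmin m hmpos hmlt
  have hfac : S q n = S q m * S (q ^ m) r := by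
    rw [hm, mul_comm r m]; exact S_mul_mul q m r hq
  have hqn1 : r ∣ q ^ n - 1 := by
    have h1 := S_mul q n (by omega)
    have hpos : 1 ≤ q ^ n := Nat.one_le_pow _ _ (by omega)
    have h2 : q ^ n - 1 = S q n * (q - 1) := by omega
    rw [h2]
    exact dvd_mul_of_dvd_left (dvd_trans ⟨m, hm⟩ hS) _
  have hqnZ : (q : ZMod r) ^ n = 1 := by
    have hpos : 1 ≤ q ^ n := Nat.one_le_pow _ _ (by omega)
    have h1 : q ^ n ≡ 1 [MOD r] := ((Nat.modEq_iff_dvd' hpos).mpr hqn1).symm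
    have h2 := (ZMod.natCast_eq_natCast_iff _ _ _).mpr h1
    push_cast at h2
    exact h2
  rw [Nat.dvd_iff_prime_pow_dvd_dvd]
  intro s k hs hk
  rcases Nat.eq_zero_or_pos k with rfl | hkpos
  · simp
  have hqm : 1 ≤ q ^ m := Nat.one_le_pow _ _ (by omega)
  have hSm := S_mul q m (by omega)
  have hSm' : q ^ m - 1 = S q m * (q - 1) := by omega
  by_cases hsr : s = r
  · subst hsr
    obtain ⟨m', hm'⟩ := hk
    obtain ⟨j, rfl⟩ : ∃ j, k = j + 1 := ⟨k - 1, by omega⟩
    have hmm : m = s ^ j * m' := by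
      have h1 : s * m = s * (s ^ j * m') := by
        rw [← mul_assoc, ← pow_succ', ← hm', hm]
      exact Nat.eq_of_mul_eq_mul_left (by omega) h1
    have hx1 : ((q ^ m' : ℕ) : ZMod s) = 1 := by
      have h1 : ((q ^ m' : ℕ) : ZMod s) ^ s ^ (j + 1) = 1 := by
        push_cast
        rw [← pow_mul, mul_comm, ← hm']
        exact hqnZ
      rw [ZMod.pow_card_pow] at h1
      exact h1
    have hx : 1 ≤ q ^ m' := Nat.one_le_pow _ _ (by omega)
    have hdvd1 : s ^ 1 ∣ q ^ m' - 1 := by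
      rw [pow_one]
      have h1 : ((q ^ m' : ℕ) : ZMod s) = ((1 : ℕ) : ZMod s) := by rw [hx1]; simp
      have h2 := (ZMod.natCast_eq_natCast_iff _ _ _).mp h1
      exact (Nat.modEq_iff_dvd' hx).mp h2.symm
    have hl := lift s (q ^ m') 1 hx le_rfl hdvd1 j
    have hexp : (q ^ m') ^ s ^ j = q ^ m := by
      rw [← pow_mul, hmm, mul_comm]
    rw [hexp, hSm', add_comm] at hl
    exact (Nat.Coprime.pow_left (j + 1)
      ((Nat.Prime.coprime_iff_not_dvd hs).mpr hrq)).dvd_of_dvd_mul_right hl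
  · have hsP : Fact s.Prime := ⟨hs⟩
    have hsn : s ∣ n := dvd_trans (dvd_pow_self s (by omega)) hk
    have hkS : s ^ k ∣ S q m * S (q ^ m) r := by rw [← hfac]; exact dvd_trans hk hS
    have hnot : ¬ s ∣ S (q ^ m) r := by
      intro hdiv
      have hQ := S_mul (q ^ m) r hqm
      have hQr : ((q ^ m : ℕ) : ZMod s) ^ r = 1 := by
        have h1 := congrArg (Nat.cast : ℕ → ZMod s) hQ
        rw [Nat.cast_add, Nat.cast_mul, (ZMod.natCast_eq_zero_iff _ _).mpr hdiv, zero_mul,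
          zero_add, Nat.cast_one, Nat.cast_pow] at h1
        exact h1.symm
      by_cases hQ1 : ((q ^ m : ℕ) : ZMod s) = 1
      · have h1 : ((q ^ m : ℕ) : ZMod s) = ((1 : ℕ) : ZMod s) := by rw [hQ1]; simp
        have h2 := (ZMod.natCast_eq_natCast_iff _ _ _).mp h1
        have hsQ : s ∣ q ^ m - 1 := (Nat.modEq_iff_dvd' hqm).mp h2.symm
        have hA := S_modEq (q ^ m) s r hqm hsQ
        have h3 : s ∣ r :=
          (Nat.modEq_zero_iff_dvd).mp (hA.symm.trans ((Nat.modEq_zero_iff_dvd).mpr hdiv))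
        exact hsr ((Nat.prime_dvd_prime_iff_eq hs hrp).mp h3)
      · have hord : orderOf ((q ^ m : ℕ) : ZMod s) = r := orderOf_eq_prime hQr hQ1
        have hQ0 : ((q ^ m : ℕ) : ZMod s) ≠ 0 := by
          intro h0
          rw [h0, zero_pow (by omega)] at hQr
          exact zero_ne_one hQr
        have h1 := ZMod.orderOf_dvd_card_sub_one hQ0
        rw [hord] at h1
        have hs2 := hs.two_le
        have h2 : r ≤ s - 1 := Nat.le_of_dvd (by omega) h1
        have hsq : s ∣ q - 1 := by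
          by_contra hnsq
          have h3 := hmax s hs hsn hnsq
          omega
        apply hQ1
        have h4 : q ≡ 1 [MOD s] := ((Nat.modEq_iff_dvd' (by omega)).mpr hsq).symm
        have h5 := h4.pow m
        rw [one_pow] at h5
        have h6 := (ZMod.natCast_eq_natCast_iff _ _ _).mpr h5
        rw [h6]; simp
    exact (Nat.Coprime.pow_left k
      ((Nat.Prime.coprime_iff_not_dvd hs).mpr hnot)).dvd_of_dvd_mul_right hkS

theorem bwd2 (q n : ℕ) (hq : 2 ≤ q) (hn : 1 < n) (hS : n ∣ S q n)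
    (hmin : ∀ i, 0 < i → i < n → ¬ n ∣ S q i)
    (hall : ∀ r : ℕ, r.Prime → r ∣ n → r ∣ q - 1) : 4 ∣ n → 4 ∣ q - 1 := by
  intro h4n
  by_contra h4q
  obtain ⟨m2, hm2⟩ := h4n
  have h2q : 2 ∣ q - 1 := hall 2 Nat.prime_two ⟨2 * m2, by omega⟩
  obtain ⟨m, hm⟩ : ∃ m, m = 2 * m2 := ⟨_, rfl⟩
  have hn0 : 0 < m2 := by omega
  apply hmin m (by omega) (by omega)
  have hfac : S q n = S q m * S (q ^ m) 2 := by
    have h1 : n = m * 2 := by omega
    rw [h1]; exact S_mul_mul q m 2 hq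
  have hqm : 1 ≤ q ^ m := Nat.one_le_pow _ _ (by omega)
  have hSm := S_mul q m (by omega)
  have hSm' : q ^ m - 1 = S q m * (q - 1) := by omega
  rw [Nat.dvd_iff_prime_pow_dvd_dvd]
  intro s k hs hk
  rcases Nat.eq_zero_or_pos k with rfl | hkpos
  · simp
  by_cases hs2 : s = 2
  · subst hs2
    rcases Nat.lt_or_ge k 2 with hk1 | hk2
    · have hk1' : k = 1 := by omega
      subst hk1'
      rw [pow_one]
      have hA : S q m % 2 = m % 2 := S_modEq q 2 m (by omega) h2q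
      omega
    · obtain ⟨m', hm'⟩ := hk
      obtain ⟨j, rfl⟩ : ∃ j, k = j + 2 := ⟨k - 2, by omega⟩
      have hmm : m = 2 ^ (j + 1) * m' := by
        have h1 : 2 * m = 2 * (2 ^ (j + 1) * m') := by
          rw [← mul_assoc, ← pow_succ', ← hm']; omega
        omega
      have hyodd : (q ^ m') % 2 = 1 := by
        have h1 : q % 2 = 1 := by omega
        rw [Nat.pow_mod, h1]; simp
      have h8 : 2 ^ 3 ∣ (q ^ m') ^ 2 - 1 := by
        have h1 := Nat.eight_dvd_sq_sub_one_of_odd (Nat.odd_iff.mpr hyodd)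
        norm_num
        exact h1
      have hl := lift 2 ((q ^ m') ^ 2) 3
        (Nat.one_le_pow _ _ (Nat.one_le_pow _ _ (by omega))) (by norm_num) h8 j
      have hexp : ((q ^ m') ^ 2) ^ (2 ^ j) = q ^ m := by
        rw [← pow_mul, ← pow_mul, hmm]
        congr 1
        rw [pow_succ]; ring
      rw [hexp, hSm'] at hl
      obtain ⟨u, hu1, hu2⟩ : ∃ u, q - 1 = 2 * u ∧ u % 2 = 1 := ⟨(q - 1) / 2, by omega, by omega⟩
      rw [hu1] at hl
      have h3 : 2 ^ (j + 2) ∣ S q m * u := by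
        have h4 : 2 ^ (3 + j) = 2 * 2 ^ (j + 2) := by
          rw [← pow_succ']; congr 1; omega
        have h5 : S q m * (2 * u) = 2 * (S q m * u) := by ring
        rw [h4, h5] at hl
        exact (Nat.mul_dvd_mul_iff_left (by norm_num)).mp hl
      have hcop : Nat.Coprime (2 ^ (j + 2)) u :=
        Nat.Coprime.pow_left _ ((Nat.Prime.coprime_iff_not_dvd Nat.prime_two).mpr (by omega))
      exact hcop.dvd_of_dvd_mul_right h3
  · have hsP : Fact s.Prime := ⟨hs⟩
    have hsn : s ∣ n := dvd_trans (dvd_pow_self s (by omega)) hk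
    have hsq := hall s hs hsn
    have hkS : s ^ k ∣ S q m * S (q ^ m) 2 := by rw [← hfac]; exact dvd_trans hk hS
    have hnot : ¬ s ∣ S (q ^ m) 2 := by
      intro hdiv
      have hsQ : s ∣ q ^ m - 1 := by
        rw [hSm']; exact dvd_mul_of_dvd_right hsq _
      have hA := S_modEq (q ^ m) s 2 hqm hsQ
      have h3 : s ∣ 2 :=
        (Nat.modEq_zero_iff_dvd).mp (hA.symm.trans ((Nat.modEq_zero_iff_dvd).mpr hdiv))
      exact hs2 ((Nat.prime_dvd_prime_iff_eq hs Nat.prime_two).mp h3)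
    exact (Nat.Coprime.pow_left k
      ((Nat.Prime.coprime_iff_not_dvd hs).mpr hnot)).dvd_of_dvd_mul_right hkS

/-- The Dickson pair condition: for a prime power `q` and `n > 1`, (every prime factor of `n` divides `q - 1`, and `4 ∣ n → 4 ∣ q - 1`) holds exactly when `q ^ n ≡ 1` modulo `n * (q - 1)` but `q ^ i` is not, for `0 < i < n`. -/
theorem result (q n : ℕ) (hq : IsPrimePow q) (hn : 1 < n) : ((∀ r : ℕ, r.Prime → r ∣ n → r ∣ q - 1) ∧ (4 ∣ n → 4 ∣ q - 1)) ↔ (q ^ n ≡ 1 [MOD n * (q - 1)] ∧ ∀ i : ℕ, 0 < i → i < n → ¬ q ^ i ≡ 1 [MOD n * (q - 1)]) := by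
  have hq2 : 2 ≤ q := hq.two_le
  have htr : ∀ i, q ^ i ≡ 1 [MOD n * (q - 1)] ↔ n ∣ S q i := fun i => modEq_iff q n i hq2
  constructor
  · rintro ⟨hr, h4⟩
    have hf := fwd q n hq2 hr h4
    refine ⟨(htr n).mpr ((hf n (by omega)).mpr dvd_rfl), ?_⟩
    intro i hi0 hin hmod
    have h5 := (hf i hi0).mp ((htr i).mp hmod)
    exact Nat.not_dvd_of_pos_of_lt hi0 hin h5
  · rintro ⟨h1, h2⟩
    have hS : n ∣ S q n := (htr n).mp h1
    have hmin : ∀ i, 0 < i → i < n → ¬ n ∣ S q i :=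
      fun i hi0 hin h => h2 i hi0 hin ((htr i).mpr h)
    have hall := bwd1 q n hq2 hn hS hmin
    exact ⟨hall, bwd2 q n hq2 hn hS hmin hall⟩

end Cfsg.Agent.S0694
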