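import Cfsg.Statements.S0695
import Mathlib

set_option autoImplicit false
open Cfsg

namespace Cfsg.Agent.S0695

/-- The block `{n • a, n⁻¹ • a}` argument: for `n` in a regular normal subgroup of a doubly
primitive group, either `n = n⁻¹` or the degree is 3. -/
theorem key {G : Type*} [Group G] {X : Type*} [Fintype X] [MulAction G X]
    (h2 : MulAction.IsMultiplyPreprimitive G X 2) (N : Subgroup G) [N.Normal]
    (hfree : ∀ n ∈ N, ∀ x : X, n • x = x → n = 1) (a : X) (n : G) (hn : n ∈ N) (hn1 : n ≠ 1) :
    n = n⁻¹ ∨ Fintype.card X = 3 := by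
  classical
  have hprim : MulAction.IsPreprimitive (fixingSubgroup G ({a} : Set X))
      (SubMulAction.ofFixingSubgroup G ({a} : Set X)) :=
    MulAction.IsMultiplyPreprimitive.isPreprimitive_ofFixingSubgroup G 2 (by
      rw [Set.encard_singleton]; rfl)
  have hinj : ∀ x ∈ N, ∀ y ∈ N, x • a = y • a → x = y := by
    intro x hx y hy hxy
    have h1 : (y⁻¹ * x) • a = a := by
      rw [mul_smul, hxy, inv_smul_smul]
    have h2 := hfree _ (N.mul_mem (N.inv_mem hy) hx) a h1
    exact (inv_mul_eq_one.1 h2).symm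
  have hna : n • a ≠ a := fun h => hn1 (hfree n hn a h)
  have hna' : n⁻¹ • a ≠ a := fun h => hn1 (inv_eq_one.1 (hfree _ (N.inv_mem hn) a h))
  let B : Set (SubMulAction.ofFixingSubgroup G ({a} : Set X)) :=
    {y | (y : X) = n • a ∨ (y : X) = n⁻¹ • a}
  have sub : ∀ g : fixingSubgroup G ({a} : Set X), ∀ y ∈ B, g • y ∈ B → ∀ z ∈ B, g • z ∈ B := by
    intro g y hy hgy z hz
    have hga : (g : G) • a = a := (mem_fixingSubgroup_iff G).1 g.2 a rfl
    have hc : (g : G) * n * (g : G)⁻¹ ∈ N := ‹N.Normal›.conj_mem n hn g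
    have hc' : ((g : G) * n * (g : G)⁻¹)⁻¹ ∈ N := N.inv_mem hc
    have hga' : (g : G)⁻¹ • a = a := by rw [inv_smul_eq_iff, hga]
    have e1 : (g : G) • n • a = ((g : G) * n * (g : G)⁻¹) • a := by
      rw [mul_smul, mul_smul, hga']
    have e2 : (g : G) • n⁻¹ • a = ((g : G) * n * (g : G)⁻¹)⁻¹ • a := by
      have h0 : ((g : G) * n * (g : G)⁻¹)⁻¹ = (g : G) * n⁻¹ * (g : G)⁻¹ := by group
      rw [h0, mul_smul, mul_smul, hga']
    have hcn : (g : G) * n * (g : G)⁻¹ = n ∨ (g : G) * n * (g : G)⁻¹ = n⁻¹ := by
      have hgy' : (g : G) • (y : X) = n • a ∨ (g : G) • (y : X) = n⁻¹ • a := hgy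
      rcases hy with hy | hy
      · rw [hy, e1] at hgy'
        rcases hgy' with h | h
        · exact Or.inl (hinj _ hc _ hn h)
        · exact Or.inr (hinj _ hc _ (N.inv_mem hn) h)
      · rw [hy, e2] at hgy'
        rcases hgy' with h | h
        · right
          have := hinj _ hc' _ hn h
          exact inv_eq_iff_eq_inv.1 this
        · left
          have := hinj _ hc' _ (N.inv_mem hn) h
          exact inv_injective this
    show (g : G) • (z : X) = n • a ∨ (g : G) • (z : X) = n⁻¹ • a
    rcases hz with hz | hz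
    · rw [hz, e1]
      rcases hcn with h | h
      · left; rw [h]
      · right; rw [h]
    · rw [hz, e2]
      rcases hcn with h | h
      · right; rw [h]
      · left; rw [h, inv_inv]
  have hB : MulAction.IsBlock (fixingSubgroup G ({a} : Set X)) B := by
    rw [MulAction.isBlock_iff_smul_eq_of_mem]
    intro g y hy hgy
    apply Set.Subset.antisymm
    · rintro _ ⟨z, hz, rfl⟩
      exact sub g y hy hgy z hz
    · intro z hz
      refine ⟨g⁻¹ • z, ?_, by simp⟩
      exact sub g⁻¹ (g • y) hgy (by simpa using hy) z hz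
  let y₁ : SubMulAction.ofFixingSubgroup G ({a} : Set X) :=
    ⟨n • a, (SubMulAction.mem_ofFixingSubgroup_iff G).2 (by simpa using hna)⟩
  let y₂ : SubMulAction.ofFixingSubgroup G ({a} : Set X) :=
    ⟨n⁻¹ • a, (SubMulAction.mem_ofFixingSubgroup_iff G).2 (by simpa using hna')⟩
  have hy₁ : y₁ ∈ B := Or.inl rfl
  have hy₂ : y₂ ∈ B := Or.inr rfl
  by_cases hnn : n = n⁻¹
  · exact Or.inl hnn
  right
  have hne : n • a ≠ n⁻¹ • a := fun h => hnn (hinj _ hn _ (N.inv_mem hn) h)
  rcases hprim.isTrivialBlock_of_isBlock hB with hsub | htop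
  · exact absurd (congrArg Subtype.val (hsub hy₁ hy₂)) hne
  · have huniv : (Finset.univ : Finset X) = {a, n • a, n⁻¹ • a} := by
      ext x
      simp only [Finset.mem_univ, Finset.mem_insert, Finset.mem_singleton, true_iff]
      by_cases hxa : x = a
      · exact Or.inl hxa
      · right
        have hx : (⟨x, (SubMulAction.mem_ofFixingSubgroup_iff G).2 (by simpa using hxa)⟩ :
            SubMulAction.ofFixingSubgroup G ({a} : Set X)) ∈ B := by
          rw [htop]
          exact Set.mem_univ _
        exact hx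
    rw [← Finset.card_univ, huniv, Finset.card_insert_of_notMem, Finset.card_insert_of_notMem,
      Finset.card_singleton]
    · simpa using hne
    · simp only [Finset.mem_insert, Finset.mem_singleton, not_or]
      exact ⟨fun h => hna h.symm, fun h => hna' h.symm⟩

/-- A regular normal subgroup of a doubly primitive group of finite degree at least 2 is an elementary abelian 2-group (and the degree is a power of 2), unless the degree is 3. -/
theorem result {G : Type*} [Group G] {X : Type*} [Fintype X] [MulAction G X] (hX : 2 ≤ Fintype.card X) (h2 : MulAction.IsMultiplyPreprimitive G X 2) (N : Subgroup G) [N.Normal] (htrans : MulAction.IsPretransitive N X) (hreg : ∀ x : X, MulAction.stabilizer N x = ⊥) : Fintype.card X = 3 ∨ (IsMulCommutative N ∧ (∀ n ∈ N, n ^ 2 = 1) ∧ ∃ m : ℕ, Fintype.card X = 2 ^ m) := by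
  classical
  have hfree : ∀ n ∈ N, ∀ x : X, n • x = x → n = 1 := by
    intro n hn x hx
    have h1 : (⟨n, hn⟩ : N) ∈ MulAction.stabilizer N x := hx
    rw [hreg x, Subgroup.mem_bot] at h1
    exact congrArg Subtype.val h1
  by_cases h3 : Fintype.card X = 3
  · exact Or.inl h3
  right
  have hne : Nonempty X := by
    rw [← Fintype.card_pos_iff]
    omega
  obtain ⟨a⟩ := hne
  have hsq : ∀ n ∈ N, n ^ 2 = 1 := by
    intro n hn
    by_cases hn1 : n = 1
    · rw [hn1, one_pow]
    · rcases key h2 N hfree a n hn hn1 with h | h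
      · rw [pow_two]
        nth_rewrite 1 [h]
        exact inv_mul_cancel n
      · exact absurd h h3
  have hinv : ∀ n ∈ N, n⁻¹ = n := by
    intro n hn
    have := hsq n hn
    rw [pow_two] at this
    exact inv_eq_of_mul_eq_one_left this
  refine ⟨⟨⟨fun x y => ?_⟩⟩, hsq, ?_⟩
  · apply Subtype.ext
    have h1 := hinv _ (N.mul_mem x.2 y.2)
    rw [mul_inv_rev, hinv _ x.2, hinv _ y.2] at h1
    exact h1.symm
  · have hbij : Function.Bijective (fun n : N => n • a) := by
      constructor
      · intro x y hxy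
        have h1 : (y⁻¹ * x) • a = a := by
          rw [mul_smul]
          simp only at hxy
          rw [hxy, inv_smul_smul]
        have h2 : y⁻¹ * x ∈ MulAction.stabilizer N a := h1
        rw [hreg a, Subgroup.mem_bot] at h2
        exact (inv_mul_eq_one.1 h2).symm
      · intro x
        exact MulAction.exists_smul_eq N a x
    have hfin : Finite N := Finite.of_injective _ hbij.1
    have hcard : Nat.card N = Fintype.card X := by
      rw [Nat.card_congr (Equiv.ofBijective _ hbij), Nat.card_eq_fintype_card]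
    have hp : IsPGroup 2 N := by
      intro x
      refine ⟨1, ?_⟩
      apply Subtype.ext
      simpa using hsq x.1 x.2
    have : Fact (Nat.Prime 2) := ⟨Nat.prime_two⟩
    obtain ⟨m, hm⟩ := IsPGroup.iff_card.1 hp
    exact ⟨m, by rw [← hcard, hm]⟩

end Cfsg.Agent.S0695
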