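import Cfsg.Statements.S0696
import Mathlib
import Cfsg.Agent.S0695

set_option autoImplicit false
open Cfsg

namespace Cfsg.Agent.S0696

/-- A triply primitive group of degree at least 3 having a regular normal subgroup has degree 3 or 4. -/
theorem result {G : Type*} [Group G] {X : Type*} [Fintype X] [MulAction G X] (hX : 3 ≤ Fintype.card X) (h3 : MulAction.IsMultiplyPreprimitive G X 3) (N : Subgroup G) [N.Normal] (htrans : MulAction.IsPretransitive N X) (hreg : ∀ x : X, MulAction.stabilizer N x = ⊥) : Fintype.card X = 3 ∨ Fintype.card X = 4 := by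
  classical
  have h2 : MulAction.IsMultiplyPreprimitive G X 2 :=
    MulAction.isMultiplyPreprimitive_of_le G X h3 (by norm_num) (by
      rw [ENat.card_eq_coe_fintype_card]
      exact_mod_cast hX)
  rcases S0695.result (by omega) h2 N htrans hreg with h | ⟨-, hsq, -⟩
  · exact Or.inl h
  right
  have hfree : ∀ n ∈ N, ∀ x : X, n • x = x → n = 1 := by
    intro n hn x hx
    have h1 : (⟨n, hn⟩ : N) ∈ MulAction.stabilizer N x := hx
    rw [hreg x, Subgroup.mem_bot] at h1
    exact congrArg Subtype.val h1
  have hinv : ∀ n ∈ N, n⁻¹ = n := by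
    intro n hn
    have := hsq n hn
    rw [pow_two] at this
    exact inv_eq_of_mul_eq_one_left this
  obtain ⟨a, b, c, hab, hac, hbc⟩ := Fintype.two_lt_card_iff.1 (by omega : 2 < Fintype.card X)
  have hinj : ∀ x ∈ N, ∀ y ∈ N, x • a = y • a → x = y := by
    intro x hx y hy hxy
    have h1 : (y⁻¹ * x) • a = a := by
      rw [mul_smul, hxy, inv_smul_smul]
    have h2 := hfree _ (N.mul_mem (N.inv_mem hy) hx) a h1
    exact (inv_mul_eq_one.1 h2).symm
  obtain ⟨⟨n, hn⟩, hnb⟩ := MulAction.exists_smul_eq N a b
  obtain ⟨⟨x, hx⟩, hxc⟩ := MulAction.exists_smul_eq N a c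
  replace hnb : n • a = b := hnb
  replace hxc : x • a = c := hxc
  have hn1 : n ≠ 1 := by
    rintro rfl
    rw [one_smul] at hnb
    exact hab hnb
  have hx1 : x ≠ 1 := by
    rintro rfl
    rw [one_smul] at hxc
    exact hac hxc
  have hxn : x ≠ n := by
    rintro rfl
    rw [hnb] at hxc
    exact hbc hxc
  have hxnN : x * n ∈ N := N.mul_mem hx hn
  have hprim : MulAction.IsPreprimitive (fixingSubgroup G ({a, b} : Set X))
      (SubMulAction.ofFixingSubgroup G ({a, b} : Set X)) :=
    MulAction.IsMultiplyPreprimitive.isPreprimitive_ofFixingSubgroup G 3 (by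
      rw [Set.encard_pair hab]; rfl)
  let B : Set (SubMulAction.ofFixingSubgroup G ({a, b} : Set X)) :=
    {y | (y : X) = x • a ∨ (y : X) = (x * n) • a}
  have sub : ∀ g : fixingSubgroup G ({a, b} : Set X), ∀ y ∈ B, g • y ∈ B →
      ∀ z ∈ B, g • z ∈ B := by
    intro g y hy hgy z hz
    have hga : (g : G) • a = a := (mem_fixingSubgroup_iff G).1 g.2 a (by simp)
    have hgb : (g : G) • b = b := (mem_fixingSubgroup_iff G).1 g.2 b (by simp)
    have hga' : (g : G)⁻¹ • a = a := by rw [inv_smul_eq_iff, hga]
    have hcn : (g : G) * n * (g : G)⁻¹ ∈ N := ‹N.Normal›.conj_mem n hn g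
    have hcx : (g : G) * x * (g : G)⁻¹ ∈ N := ‹N.Normal›.conj_mem x hx g
    have en : (g : G) * n * (g : G)⁻¹ = n := by
      apply hinj _ hcn _ hn
      rw [mul_smul, mul_smul, hga', hnb, hgb]
    have e1 : (g : G) • x • a = ((g : G) * x * (g : G)⁻¹) • a := by
      rw [mul_smul, mul_smul, hga']
    have e2 : (g : G) • (x * n) • a = ((g : G) * x * (g : G)⁻¹ * n) • a := by
      have h1 : (g : G) * x * (g : G)⁻¹ * n = (g : G) * (x * n) * (g : G)⁻¹ := by
        calc (g : G) * x * (g : G)⁻¹ * n
            = (g : G) * x * (g : G)⁻¹ * ((g : G) * n * (g : G)⁻¹) := by rw [en]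
          _ = (g : G) * (x * n) * (g : G)⁻¹ := by group
      rw [h1]
      simp only [mul_smul, hga']
    have hnn : n * n = 1 := by
      have := hsq n hn
      rwa [pow_two] at this
    have hcx' : (g : G) * x * (g : G)⁻¹ = x ∨ (g : G) * x * (g : G)⁻¹ = x * n := by
      have hgy' : (g : G) • (y : X) = x • a ∨ (g : G) • (y : X) = (x * n) • a := hgy
      rcases hy with hy | hy
      · rw [hy, e1] at hgy'
        rcases hgy' with h | h
        · exact Or.inl (hinj _ hcx _ hx h)
        · exact Or.inr (hinj _ hcx _ hxnN h)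
      · rw [hy, e2] at hgy'
        rcases hgy' with h | h
        · right
          have h5 := eq_mul_inv_of_mul_eq (hinj _ (N.mul_mem hcx hn) _ hx h)
          rw [hinv n hn] at h5
          exact h5
        · left
          have := hinj _ (N.mul_mem hcx hn) _ hxnN h
          exact mul_right_cancel this
    show (g : G) • (z : X) = x • a ∨ (g : G) • (z : X) = (x * n) • a
    rcases hz with hz | hz
    · rw [hz, e1]
      rcases hcx' with h | h
      · left; rw [h]
      · right; rw [h]
    · rw [hz, e2]
      rcases hcx' with h | h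
      · right; rw [h]
      · left; rw [h, mul_assoc, hnn, mul_one]
  have hB : MulAction.IsBlock (fixingSubgroup G ({a, b} : Set X)) B := by
    rw [MulAction.isBlock_iff_smul_eq_of_mem]
    intro g y hy hgy
    apply Set.Subset.antisymm
    · rintro _ ⟨z, hz, rfl⟩
      exact sub g y hy hgy z hz
    · intro z hz
      refine ⟨g⁻¹ • z, ?_, by simp⟩
      exact sub g⁻¹ (g • y) hgy (by simpa using hy) z hz
  have hxa : x • a ≠ a := fun h => hx1 (hfree x hx a h)
  have hxb : x • a ≠ b := by
    rw [hxc]
    exact fun h => hbc h.symm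
  have hxna : (x * n) • a ≠ a := by
    intro h
    have h1 := hfree _ hxnN a h
    have h2 : x = n⁻¹ := eq_inv_of_mul_eq_one_left h1
    rw [hinv n hn] at h2
    exact hxn h2
  have hxnb : (x * n) • a ≠ b := by
    intro h
    rw [← hnb] at h
    have h1 := hinj _ hxnN _ hn h
    exact hx1 (by simpa using h1)
  have hne : x • a ≠ (x * n) • a := by
    intro h
    have h1 := hinj _ hx _ hxnN h
    exact hn1 (by simpa using h1.symm)
  let y₁ : SubMulAction.ofFixingSubgroup G ({a, b} : Set X) :=
    ⟨x • a, (SubMulAction.mem_ofFixingSubgroup_iff G).2 (by simp [hxa, hxb])⟩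
  let y₂ : SubMulAction.ofFixingSubgroup G ({a, b} : Set X) :=
    ⟨(x * n) • a, (SubMulAction.mem_ofFixingSubgroup_iff G).2 (by simp [hxna, hxnb])⟩
  have hy₁ : y₁ ∈ B := Or.inl rfl
  have hy₂ : y₂ ∈ B := Or.inr rfl
  rcases hprim.isTrivialBlock_of_isBlock hB with hsub | htop
  · exact absurd (congrArg Subtype.val (hsub hy₁ hy₂)) hne
  · have huniv : (Finset.univ : Finset X) = {a, b, x • a, (x * n) • a} := by
      ext z
      simp only [Finset.mem_univ, Finset.mem_insert, Finset.mem_singleton, true_iff]
      by_cases hza : z = a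
      · exact Or.inl hza
      by_cases hzb : z = b
      · exact Or.inr (Or.inl hzb)
      right; right
      have hz : (⟨z, (SubMulAction.mem_ofFixingSubgroup_iff G).2 (by simp [hza, hzb])⟩ :
          SubMulAction.ofFixingSubgroup G ({a, b} : Set X)) ∈ B := by
        rw [htop]
        exact Set.mem_univ _
      exact hz
    rw [← Finset.card_univ, huniv, Finset.card_insert_of_notMem, Finset.card_insert_of_notMem,
      Finset.card_insert_of_notMem, Finset.card_singleton]
    · simpa using hne
    · simp only [Finset.mem_insert, Finset.mem_singleton, not_or]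
      exact ⟨fun h => hxb h.symm, fun h => hxnb h.symm⟩
    · simp only [Finset.mem_insert, Finset.mem_singleton, not_or]
      exact ⟨hab, fun h => hxa h.symm, fun h => hxna h.symm⟩

end Cfsg.Agent.S0696
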