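import Cfsg.Statements.S0697
import Mathlib
import Cfsg.Agent.Lib.Helper5.Jordan
import Cfsg.Agent.S0711
import Cfsg.Agent.S0695

set_option autoImplicit false
open Cfsg

namespace Cfsg.Agent.S0697

open Cfsg.Agent.Lib.Helper5.Jordan Equiv

/-- A nontrivial normal subgroup of a primitive pointwise stabiliser is transitive on the
remaining points. -/
theorem P1 {α : Type*} [Fintype α] [DecidableEq α] (G : Subgroup (Perm α)) (H : Subgroup G)
    [H.Normal] (U : Finset α)
    (hprim : MulAction.IsPreprimitive (fixingSubgroup G (U : Set α))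
      (SubMulAction.ofFixingSubgroup G (U : Set α)))
    (t : Perm α) (ht : t ∈ H.map G.subtype) (htU : ∀ u ∈ U, t u = u) (ht1 : t ≠ 1) (b₀ b₁ : α)
    (h0 : b₀ ∉ U) (h1 : b₁ ∉ U) :
    ∃ h ∈ H.map G.subtype, (∀ u ∈ U, h u = u) ∧ h b₀ = b₁ := by
  obtain ⟨t₀, ht₀, rfl⟩ := ht
  have htf : t₀ ∈ fixingSubgroup G (U : Set α) := by
    rw [mem_fixingSubgroup_iff]
    intro y hy
    exact htU y (by simpa using hy)
  obtain ⟨w, hw⟩ : ∃ w, G.subtype t₀ w ≠ w := by
    by_contra hcon
    push Not at hcon
    exact ht1 (Perm.ext hcon)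
  have hwU : w ∉ U := fun h => hw (htU w h)
  have hfix : MulAction.fixedPoints (H.subgroupOf (fixingSubgroup G (U : Set α)))
      (SubMulAction.ofFixingSubgroup G (U : Set α)) ≠ Set.univ := by
    intro hcon
    have hmem : (⟨w, (SubMulAction.mem_ofFixingSubgroup_iff G).2 (by simpa using hwU)⟩ :
        SubMulAction.ofFixingSubgroup G (U : Set α)) ∈
        MulAction.fixedPoints (H.subgroupOf (fixingSubgroup G (U : Set α)))
          (SubMulAction.ofFixingSubgroup G (U : Set α)) := by
      rw [hcon]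
      exact Set.mem_univ _
    rw [MulAction.mem_fixedPoints] at hmem
    have h3 := hmem ⟨⟨t₀, htf⟩, (Subgroup.mem_subgroupOf).2 ht₀⟩
    exact hw (congrArg Subtype.val h3)
  have htr : MulAction.IsPretransitive (H.subgroupOf (fixingSubgroup G (U : Set α)))
      (SubMulAction.ofFixingSubgroup G (U : Set α)) :=
    MulAction.IsQuasiPreprimitive.isPretransitive_of_normal hfix
  obtain ⟨n, hn⟩ := htr.exists_smul_eq
    (⟨b₀, (SubMulAction.mem_ofFixingSubgroup_iff G).2 (by simpa using h0)⟩ :
      SubMulAction.ofFixingSubgroup G (U : Set α))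
    ⟨b₁, (SubMulAction.mem_ofFixingSubgroup_iff G).2 (by simpa using h1)⟩
  refine ⟨n.1.1.1, ⟨n.1.1, Subgroup.mem_subgroupOf.1 n.2, rfl⟩, ?_, congrArg Subtype.val hn⟩
  intro u hu
  exact (mem_fixingSubgroup_iff G).1 n.1.2 u (by simpa using hu)

/-- The block argument for a regular normal subgroup of a doubly primitive pointwise
stabiliser. -/
theorem P2 {α : Type*} [Fintype α] [DecidableEq α] (G : Subgroup (Perm α)) (H : Subgroup G)
    [H.Normal] (U : Finset α)
    (h2 : MulAction.IsMultiplyPreprimitive (fixingSubgroup G (U : Set α))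
      (SubMulAction.ofFixingSubgroup G (U : Set α)) 2)
    (hfree : ∀ n ∈ H.map G.subtype, (∀ u ∈ U, n u = u) → ∀ y, y ∉ U → n y = y → n = 1)
    (t : Perm α) (ht : t ∈ H.map G.subtype) (htU : ∀ u ∈ U, t u = u) (ht1 : t ≠ 1) (a : α)
    (ha : a ∉ U) :
    t * t = 1 ∨ Fintype.card α = U.card + 3 := by
  classical
  obtain ⟨t₀, ht₀, rfl⟩ := ht
  have htf : t₀ ∈ fixingSubgroup G (U : Set α) := by
    rw [mem_fixingSubgroup_iff]
    intro y hy
    exact htU y (by simpa using hy)
  have : Fintype (SubMulAction.ofFixingSubgroup G (U : Set α)) := Fintype.ofFinite _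
  have hfree' : ∀ n ∈ H.subgroupOf (fixingSubgroup G (U : Set α)),
      ∀ x : SubMulAction.ofFixingSubgroup G (U : Set α), n • x = x → n = 1 := by
    intro n hn x hx
    have h3 := hfree n.1.1 ⟨n.1, Subgroup.mem_subgroupOf.1 hn, rfl⟩
      (fun u hu => (mem_fixingSubgroup_iff G).1 n.2 u (by simpa using hu)) x.1
      (by simpa using (SubMulAction.mem_ofFixingSubgroup_iff G).1 x.2) (congrArg Subtype.val hx)
    exact Subtype.ext (Subtype.ext h3)
  rcases S0695.key h2 (H.subgroupOf (fixingSubgroup G (U : Set α))) hfree'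
      ⟨a, (SubMulAction.mem_ofFixingSubgroup_iff G).2 (by simpa using ha)⟩ ⟨t₀, htf⟩
      (Subgroup.mem_subgroupOf.2 ht₀) (fun h => ht1 (by
        have h4 := congrArg (fun z => (z.1.1 : Perm α)) h
        exact h4)) with h | h
  · left
    have h4 : (G.subtype t₀ : Perm α) = (G.subtype t₀)⁻¹ :=
      congrArg (fun z => (z.1.1 : Perm α)) h
    nth_rewrite 1 [h4]
    exact inv_mul_cancel _
  · right
    have h5 : Fintype.card (SubMulAction.ofFixingSubgroup G (U : Set α)) = Uᶜ.card := by
      apply Fintype.card_of_subtype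
      intro x
      rw [Finset.mem_compl, SubMulAction.mem_ofFixingSubgroup_iff]
      simp
    rw [h5, Finset.card_compl] at h
    have := Finset.card_le_univ U
    omega

/-- In a `k`-primitive permutation group which is not the whole symmetric group, a non-trivial non-regular normal subgroup is `k`-transitive. -/
theorem result {α : Type*} [Fintype α] [DecidableEq α] (G : Subgroup (Equiv.Perm α)) {k : ℕ} (hk : 1 ≤ k) (hkn : k ≤ Fintype.card α) (hG : MulAction.IsMultiplyPreprimitive G α k) (htop : G ≠ ⊤) (H : Subgroup G) [H.Normal] (hH : H ≠ ⊥) (hnr : ∃ a : α, MulAction.stabilizer H a ≠ ⊥) : MulAction.IsMultiplyPretransitive H α k := by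
  classical
  have hGk : MulAction.IsMultiplyPretransitive G α k :=
    MulAction.IsMultiplyPreprimitive.isMultiplyPretransitive G α k
  have hcard : k + 2 ≤ Fintype.card α := by
    by_contra hcon
    apply htop
    apply Equiv.Perm.eq_top_of_isMultiplyPretransitive
    rw [Nat.card_eq_fintype_card]
    exact MulAction.isMultiplyPretransitive_of_le (n := k) (by omega) (by simpa using hkn)
  have hkE : (k : ℕ∞) ≤ ENat.card α := by
    rw [ENat.card_eq_coe_fintype_card]
    exact_mod_cast hkn
  have hprimU : ∀ U : Finset α, U.card < k →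
      MulAction.IsPreprimitive (fixingSubgroup G (U : Set α))
        (SubMulAction.ofFixingSubgroup G (U : Set α)) := by
    intro U hU
    have h1 : MulAction.IsMultiplyPreprimitive G α (U.card + 1) :=
      MulAction.isMultiplyPreprimitive_of_le G α hG (by omega) hkE
    exact MulAction.IsMultiplyPreprimitive.isPreprimitive_ofFixingSubgroup G (U.card + 1) (by
      rw [Set.encard_coe_eq_coe_finsetCard]
      rfl)
  have h2primU : ∀ U : Finset α, U.card + 2 ≤ k →
      MulAction.IsMultiplyPreprimitive (fixingSubgroup G (U : Set α))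
        (SubMulAction.ofFixingSubgroup G (U : Set α)) 2 := by
    intro U hU
    have : MulAction.IsMultiplyPreprimitive G α (U.card + 2) :=
      MulAction.isMultiplyPreprimitive_of_le G α hG hU hkE
    exact MulAction.ofFixingSubgroup.isMultiplyPreprimitive G α (by rw [Set.ncard_coe_finset])
  have hEG : ∀ U : Finset α, U.card < k → ∀ b₀ b₁, b₀ ∉ U → b₁ ∉ U →
      ∃ g ∈ G, (∀ u ∈ U, g u = u) ∧ g b₀ = b₁ :=
    fun U hU b₀ b₁ h0 h1 => S0711.exists_fix G hkn hGk U (by omega) b₀ b₁ h0 h1
  have hle : H.map G.subtype ≤ G := by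
    rintro _ ⟨n, -, rfl⟩
    exact n.2
  have hnorm : ∀ g ∈ G, ∀ n ∈ H.map G.subtype, g * n * g⁻¹ ∈ H.map G.subtype := by
    rintro g hg _ ⟨n, hn, rfl⟩
    exact ⟨⟨g, hg⟩ * n * ⟨g, hg⟩⁻¹, ‹H.Normal›.conj_mem n hn ⟨g, hg⟩, rfl⟩
  have hH' : H.map G.subtype ≠ ⊥ := by
    rw [Ne, Subgroup.map_eq_bot_iff_of_injective _ G.subtype_injective]
    exact hH
  have main : ∀ i, i < k → ∀ U : Finset α, U.card = i →
      ∃ t ∈ H.map G.subtype, (∀ u ∈ U, t u = u) ∧ t ≠ 1 := by
    intro i
    induction i using Nat.strong_induction_on with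
    | _ i IH =>
      intro hik U hUi
      have trs : ∀ U₀ : Finset α, U₀.card < i → ∀ b₀ b₁, b₀ ∉ U₀ → b₁ ∉ U₀ →
          ∃ h ∈ H.map G.subtype, (∀ u ∈ U₀, h u = u) ∧ h b₀ = b₁ := by
        intro U₀ hU₀ b₀ b₁ h0 h1
        obtain ⟨t, ht, htU, ht1⟩ := IH U₀.card hU₀ (by omega) U₀ rfl
        exact P1 G H U₀ (hprimU U₀ (by omega)) t ht htU ht1 b₀ b₁ h0 h1
      rcases Nat.lt_or_ge i 2 with hi2 | hi2
      · interval_cases i
        · obtain ⟨t, ht1⟩ := (Subgroup.ne_bot_iff_exists_ne_one).1 hH'
          exact ⟨t.1, t.2, by simp [Finset.card_eq_zero.1 hUi], fun h => ht1 (Subtype.ext h)⟩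
        · obtain ⟨a', rfl⟩ := Finset.card_eq_one.1 hUi
          obtain ⟨a, ha⟩ := hnr
          obtain ⟨s, hs1⟩ := (Subgroup.ne_bot_iff_exists_ne_one).1 ha
          have hs0 : (s.1.1.1 : Perm α) ∈ H.map G.subtype := ⟨s.1.1, s.1.2, rfl⟩
          have hsa : (s.1.1.1 : Perm α) a = a := s.2
          have hs1' : (s.1.1.1 : Perm α) ≠ 1 := by
            intro h
            exact hs1 (Subtype.ext (Subtype.ext (Subtype.ext h)))
          obtain ⟨m, hm, -, hma⟩ := trs ∅ (by simp) a a' (by simp) (by simp)
          have hma' : m⁻¹ a' = a := by rw [Perm.inv_eq_iff_eq, hma]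
          refine ⟨m * s.1.1.1 * m⁻¹, Subgroup.mul_mem _ (Subgroup.mul_mem _ hm hs0)
            (Subgroup.inv_mem _ hm), ?_, ?_⟩
          · intro u hu
            rw [Finset.mem_singleton] at hu
            rw [hu, Perm.mul_apply, Perm.mul_apply, hma', hsa, hma]
          · intro h
            apply hs1'
            have h3 : (s.1.1.1 : Perm α) = m⁻¹ * (m * s.1.1.1 * m⁻¹) * m := by group
            rw [h3, h]
            group
      · by_contra hcon
        push Not at hcon
        obtain ⟨b, hbU⟩ : ∃ b, b ∈ U := Finset.card_pos.1 (by omega)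
        obtain ⟨a, haU'⟩ : ∃ a, a ∈ U.erase b := Finset.card_pos.1 (by
          rw [Finset.card_erase_of_mem hbU]
          omega)
        have hcU' : (U.erase b).card = i - 1 := by
          rw [Finset.card_erase_of_mem hbU, hUi]
        have hcU'' : ((U.erase b).erase a).card = i - 2 := by
          rw [Finset.card_erase_of_mem haU', hcU']
          omega
        have hbU' : b ∉ U.erase b := Finset.notMem_erase b U
        have haU'' : a ∉ (U.erase b).erase a := Finset.notMem_erase a _
        have hsub : ∀ u ∈ (U.erase b).erase a, u ∈ U.erase b := fun u hu => Finset.mem_of_mem_erase hu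
        have hU'eq : ∀ u ∈ U.erase b, u = a ∨ u ∈ (U.erase b).erase a := by
          intro u hu
          by_cases hua : u = a
          · exact Or.inl hua
          · exact Or.inr (Finset.mem_erase.2 ⟨hua, hu⟩)
        have free : ∀ n ∈ H.map G.subtype, (∀ u ∈ U.erase b, n u = u) →
            ∀ y, y ∉ U.erase b → n y = y → n = 1 := by
          intro n hn hnU y hy hny
          obtain ⟨m, hm, hmU, hmy⟩ := trs (U.erase b) (by omega) y b hy hbU'
          have hmy' : m⁻¹ b = y := by rw [Perm.inv_eq_iff_eq, hmy]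
          have h1 := hcon (m * n * m⁻¹) (Subgroup.mul_mem _ (Subgroup.mul_mem _ hm hn)
            (Subgroup.inv_mem _ hm)) (by
              intro u hu
              by_cases hub : u = b
              · rw [hub, Perm.mul_apply, Perm.mul_apply, hmy', hny, hmy]
              · have hu' : u ∈ U.erase b := Finset.mem_erase.2 ⟨hub, hu⟩
                have hmu' : m⁻¹ u = u := by rw [Perm.inv_eq_iff_eq, hmU u hu']
                rw [Perm.mul_apply, Perm.mul_apply, hmu', hnU u hu', hmU u hu'])
          have h3 : n = m⁻¹ * (m * n * m⁻¹) * m := by group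
          rw [h3, h1]
          group
        obtain ⟨t₀, ht₀, ht₀U, ht₀1⟩ := IH (i - 1) (by omega) (by omega) (U.erase b) hcU'
        have hsq : t₀ * t₀ = 1 := by
          rcases P2 G H (U.erase b) (h2primU _ (by omega)) free t₀ ht₀ ht₀U ht₀1 b hbU' with h | h
          · exact h
          · omega
        obtain ⟨b', hb'⟩ : ∃ b', t₀ b' ≠ b' := by
          by_contra hcon'
          push Not at hcon'
          exact ht₀1 (Perm.ext hcon')
        have hb'U : b' ∉ U.erase b := fun h => hb' (ht₀U b' h)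
        have hcU : t₀ b' ∉ U.erase b := by
          intro h
          have h1 := ht₀U _ h
          exact hb'U (by rw [← t₀.injective h1]; exact h)
        have htc : t₀ (t₀ b') = b' := by
          have h1 := congrArg (fun p : Perm α => p b') hsq
          simpa using h1
        obtain ⟨d, hd⟩ := exists_notMem (insert b' (insert (t₀ b') (U.erase b))) (by
          have h1 := Finset.card_insert_le b' (insert (t₀ b') (U.erase b))
          have h2 := Finset.card_insert_le (t₀ b') (U.erase b)
          omega)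
        simp only [Finset.mem_insert, not_or] at hd
        have hab' : a ≠ b' := by
          rintro rfl
          exact hb'U haU'
        have hac : a ≠ t₀ b' := by
          intro h
          rw [h] at haU'
          exact hcU haU'
        obtain ⟨g, hg, hgU, hga⟩ := hEG (insert b' (insert (t₀ b') ((U.erase b).erase a))) (by
            have h1 := Finset.card_insert_le b' (insert (t₀ b') ((U.erase b).erase a))
            have h2 := Finset.card_insert_le (t₀ b') ((U.erase b).erase a)
            omega) a d (by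
            simp only [Finset.mem_insert, not_or]
            exact ⟨hab', hac, haU''⟩) (by
            simp only [Finset.mem_insert, not_or]
            exact ⟨hd.1, hd.2.1, fun h => hd.2.2 (hsub d h)⟩)
        have hgb' : g b' = b' := hgU b' (by simp)
        have hgc : g (t₀ b') = t₀ b' := hgU (t₀ b') (by simp)
        have hgU'' : ∀ u ∈ (U.erase b).erase a, g u = u := fun u hu => hgU u (by simp [hu])
        have hgb'' : g⁻¹ b' = b' := by rw [Perm.inv_eq_iff_eq, hgb']
        have hgc'' : g⁻¹ (t₀ b') = t₀ b' := by rw [Perm.inv_eq_iff_eq, hgc]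
        have htb' : t₀⁻¹ (t₀ b') = b' := by simp
        have htc' : t₀⁻¹ b' = t₀ b' := by rw [Perm.inv_eq_iff_eq, htc]
        have hu : t₀⁻¹ * (g * t₀ * g⁻¹) ∈ H.map G.subtype :=
          Subgroup.mul_mem _ (Subgroup.inv_mem _ ht₀) (hnorm g hg t₀ ht₀)
        have hub : (t₀⁻¹ * (g * t₀ * g⁻¹)) b' = b' := by
          simp only [Perm.mul_apply, hgb'', hgc, htb']
        have huc : (t₀⁻¹ * (g * t₀ * g⁻¹)) (t₀ b') = t₀ b' := by
          simp only [Perm.mul_apply, hgc'', htc, hgb', htc']
        have huU : ∀ w ∈ (U.erase b).erase a, (t₀⁻¹ * (g * t₀ * g⁻¹)) w = w := by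
          intro w hw
          have h1 : g⁻¹ w = w := by rw [Perm.inv_eq_iff_eq, hgU'' w hw]
          have h2 : t₀⁻¹ w = w := by rw [Perm.inv_eq_iff_eq, ht₀U w (hsub w hw)]
          simp only [Perm.mul_apply, h1, ht₀U w (hsub w hw), hgU'' w hw, h2]
        obtain ⟨m, hm, hmU, hmb⟩ := trs ((U.erase b).erase a) (by omega) b' a
          (fun h => hb'U (hsub b' h)) haU''
        have hmb' : m⁻¹ a = b' := by rw [Perm.inv_eq_iff_eq, hmb]
        have hv : m * (t₀⁻¹ * (g * t₀ * g⁻¹)) * m⁻¹ ∈ H.map G.subtype :=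
          Subgroup.mul_mem _ (Subgroup.mul_mem _ hm hu) (Subgroup.inv_mem _ hm)
        have hva : (m * (t₀⁻¹ * (g * t₀ * g⁻¹)) * m⁻¹) a = a := by
          rw [Perm.mul_apply, hmb', Perm.mul_apply, hub, hmb]
        have hvU : ∀ w ∈ U.erase b, (m * (t₀⁻¹ * (g * t₀ * g⁻¹)) * m⁻¹) w = w := by
          intro w hw
          rcases hU'eq w hw with rfl | hw'
          · exact hva
          · have h1 : m⁻¹ w = w := by rw [Perm.inv_eq_iff_eq, hmU w hw']
            rw [Perm.mul_apply, h1, Perm.mul_apply, huU w hw', hmU w hw']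
        have hvc : (m * (t₀⁻¹ * (g * t₀ * g⁻¹)) * m⁻¹) (m (t₀ b')) = m (t₀ b') := by
          have h0 : m⁻¹ (m (t₀ b')) = t₀ b' := by simp
          rw [Perm.mul_apply, h0, Perm.mul_apply, huc]
        have hmc : m (t₀ b') ∉ U.erase b := by
          intro h
          rcases hU'eq _ h with h1 | h1
          · rw [← hmb] at h1
            exact hb' (m.injective h1)
          · have h2 := hmU _ h1
            have h3 : t₀ b' = m (t₀ b') := m.injective h2.symm
            rw [← h3] at h1
            exact hcU (hsub _ h1)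
        have hv1 := free _ hv hvU _ hmc hvc
        have hu1 : t₀⁻¹ * (g * t₀ * g⁻¹) = 1 := by
          have h3 : t₀⁻¹ * (g * t₀ * g⁻¹) =
              m⁻¹ * (m * (t₀⁻¹ * (g * t₀ * g⁻¹)) * m⁻¹) * m := by group
          rw [h3, hv1]
          group
        have htt : t₀ = g * t₀ * g⁻¹ := inv_mul_eq_one.1 hu1
        have hgd : g⁻¹ d = a := by rw [Perm.inv_eq_iff_eq, hga]
        have hta : t₀ a = a := ht₀U a haU'
        have htd : t₀ d = d := by
          conv_lhs => rw [htt]
          rw [Perm.mul_apply, Perm.mul_apply, hgd, hta, hga]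
        exact ht₀1 (free t₀ ht₀ ht₀U d hd.2.2 htd)
  have hE : E (H.map G.subtype) ∅ k := by
    intro U _ hc b₀ b₁ _ hb₀ _ hb₁
    obtain ⟨t, ht, htU, ht1⟩ := main U.card hc U rfl
    exact P1 G H U (hprimU U hc) t ht htU ht1 b₀ b₁ hb₀ hb₁
  rw [MulAction.isMultiplyPretransitive_iff]
  intro x y
  obtain ⟨g, ⟨n, hn, rfl⟩, hg⟩ := hE.tuple k le_rfl x y x.injective y.injective
  refine ⟨⟨n, hn⟩, ?_⟩
  ext i
  exact hg i

end Cfsg.Agent.S0697
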