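import Cfsg.Statements.S0701
import Mathlib

set_option autoImplicit false
open Cfsg

namespace Cfsg.Agent.S0701

/-- The centraliser in the full symmetric group of a transitive permutation group `G` is semiregular, and it is transitive if and only if `G` is regular. -/
theorem result {α : Type*} (G : Subgroup (Equiv.Perm α)) [MulAction.IsPretransitive G α] : (∀ c ∈ Subgroup.centralizer (G : Set (Equiv.Perm α)), ∀ a : α, c a = a → c = 1) ∧ (MulAction.IsPretransitive (Subgroup.centralizer (G : Set (Equiv.Perm α))) α ↔ ∀ a : α, MulAction.stabilizer G a = ⊥) := by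
  have hcomm : ∀ c ∈ Subgroup.centralizer (G : Set (Equiv.Perm α)), ∀ g : G, ∀ x : α,
      c ((g : Equiv.Perm α) x) = (g : Equiv.Perm α) (c x) := by
    intro c hc g x
    have h := hc (g : Equiv.Perm α) g.2
    have h2 := congrArg (fun f : Equiv.Perm α => f x) h
    simpa using h2.symm
  refine ⟨?_, ?_, ?_⟩
  · intro c hc a hca
    ext b
    obtain ⟨g, hg⟩ := MulAction.exists_smul_eq G a b
    have hg' : (g : Equiv.Perm α) a = b := hg
    rw [← hg', hcomm c hc g a, hca]
    simp
  · intro htr a
    rw [Subgroup.eq_bot_iff_forall]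
    intro g hg
    apply Subtype.ext
    ext b
    obtain ⟨c, hc⟩ := htr.exists_smul_eq a b
    have hc' : (c : Equiv.Perm α) a = b := hc
    have hg' : (g : Equiv.Perm α) a = a := hg
    rw [← hc', ← hcomm c c.2 g a, hg']
    simp
  · intro hreg
    have hinj : ∀ a : α, Function.Bijective (fun g : G => (g : Equiv.Perm α) a) := by
      intro a
      constructor
      · intro g g' hgg
        have h1 : g'⁻¹ * g ∈ MulAction.stabilizer G a := by
          rw [MulAction.mem_stabilizer_iff, mul_smul]
          have : g • a = g' • a := hgg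
          rw [this, inv_smul_smul]
        rw [hreg a, Subgroup.mem_bot] at h1
        exact (inv_mul_eq_one.mp h1).symm
      · intro b
        exact MulAction.exists_smul_eq G a b
    refine ⟨fun a b => ?_⟩
    let ea := Equiv.ofBijective _ (hinj a)
    let eb := Equiv.ofBijective _ (hinj b)
    let c : Equiv.Perm α := ea.symm.trans eb
    have hcg : ∀ g : G, c ((g : Equiv.Perm α) a) = (g : Equiv.Perm α) b := by
      intro g
      show eb (ea.symm (ea g)) = eb g
      rw [Equiv.symm_apply_apply]
    have hc : c ∈ Subgroup.centralizer (G : Set (Equiv.Perm α)) := by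
      rw [Subgroup.mem_centralizer_iff]
      intro h hh
      ext x
      obtain ⟨g, rfl⟩ := ea.surjective x
      show h (c ((g : Equiv.Perm α) a)) = c (h ((g : Equiv.Perm α) a))
      have h1 : h ((g : Equiv.Perm α) a) = ((⟨h, hh⟩ * g : G) : Equiv.Perm α) a := rfl
      rw [h1, hcg, hcg]
      rfl
    refine ⟨⟨c, hc⟩, ?_⟩
    have := hcg 1
    simpa using this

end Cfsg.Agent.S0701
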