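import Mathlib
import Cfsg.Statements.S0702

set_option autoImplicit false
open Cfsg

namespace Cfsg.Agent.S0702

theorem result {α : Type*} [Finite α] (G : Subgroup (Equiv.Perm α)) [MulAction.IsPretransitive G α] (a : α) : Nonempty (Subgroup.centralizer (G : Set (Equiv.Perm α)) ≃* Subgroup.normalizer ((MulAction.stabilizer G a : Subgroup G) : Set G) ⧸ (MulAction.stabilizer G a).subgroupOf (Subgroup.normalizer ((MulAction.stabilizer G a : Subgroup G) : Set G))) ∧ MulAction.orbit (Subgroup.centralizer (G : Set (Equiv.Perm α))) a = MulAction.fixedPoints (MulAction.stabilizer G a) α := by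
  classical
  set H : Subgroup G := MulAction.stabilizer G a with hH
  set Nm : Subgroup G := Subgroup.normalizer (H : Set G) with hNm
  set C : Subgroup (Equiv.Perm α) := Subgroup.centralizer (G : Set (Equiv.Perm α)) with hC
  have hHmem : ∀ g : G, g ∈ H ↔ (g : Equiv.Perm α) a = a := fun g => Iff.rfl
  have htr : ∀ b : α, ∃ g : G, (g : Equiv.Perm α) a = b := fun b => MulAction.exists_smul_eq G a b
  have hCmem : ∀ c : Equiv.Perm α, c ∈ C ↔ ∀ h : G, ∀ b, (h : Equiv.Perm α) (c b) = c ((h : Equiv.Perm α) b) := by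
    intro c
    rw [hC, Subgroup.mem_centralizer_iff]
    constructor
    · intro hc h b
      have := hc h h.2
      exact congrArg (fun f : Equiv.Perm α => f b) this
    · intro hc h hh
      ext b
      exact hc ⟨h, hh⟩ b
  choose sel hsel using htr
  let cf : G → α → α := fun n b => (sel b : Equiv.Perm α) ((n : Equiv.Perm α)⁻¹ a)
  have hkey : ∀ n ∈ Nm, ∀ g : G, cf n ((g : Equiv.Perm α) a) = (g : Equiv.Perm α) ((n : Equiv.Perm α)⁻¹ a) := by
    intro n hn g
    have hg' := hsel ((g : Equiv.Perm α) a)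
    set g' := sel ((g : Equiv.Perm α) a) with hg'def
    have hh : g⁻¹ * g' ∈ H := by
      rw [hHmem]
      simp [Equiv.Perm.mul_apply, hg']
    have h2 := (Subgroup.mem_normalizer_iff.1 hn _).1 hh
    rw [hHmem] at h2
    simp only [Subgroup.coe_mul, Subgroup.coe_inv, Equiv.Perm.mul_apply] at h2
    change (g' : Equiv.Perm α) ((n : Equiv.Perm α)⁻¹ a) = _
    have h3 := congrArg (fun z => (g : Equiv.Perm α) ((n : Equiv.Perm α)⁻¹ z)) h2
    simpa using h3
  have hone : ∀ b, cf 1 b = b := by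
    intro b
    obtain ⟨g, rfl⟩ : ∃ g : G, (g : Equiv.Perm α) a = b := ⟨sel b, hsel b⟩
    rw [hkey 1 (Subgroup.one_mem _) g]
    simp
  have hcomp : ∀ n ∈ Nm, ∀ m ∈ Nm, ∀ b, cf n (cf m b) = cf (n * m) b := by
    intro n hn m hm b
    obtain ⟨g, rfl⟩ : ∃ g : G, (g : Equiv.Perm α) a = b := ⟨sel b, hsel b⟩
    rw [hkey m hm g, hkey (n * m) (Subgroup.mul_mem _ hn hm) g]
    have e : (g : Equiv.Perm α) ((m : Equiv.Perm α)⁻¹ a) = ((g * m⁻¹ : G) : Equiv.Perm α) a := by
      simp [Equiv.Perm.mul_apply]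
    rw [e, hkey n hn (g * m⁻¹)]
    simp [Equiv.Perm.mul_apply]
  have hcfC : ∀ n ∈ Nm, ∀ h : G, ∀ b, (h : Equiv.Perm α) (cf n b) = cf n ((h : Equiv.Perm α) b) := by
    intro n hn h b
    obtain ⟨g, rfl⟩ : ∃ g : G, (g : Equiv.Perm α) a = b := ⟨sel b, hsel b⟩
    have e : (h : Equiv.Perm α) ((g : Equiv.Perm α) a) = ((h * g : G) : Equiv.Perm α) a := by
      simp [Equiv.Perm.mul_apply]
    rw [e, hkey n hn g, hkey n hn (h * g)]
    simp [Equiv.Perm.mul_apply]
  let ce : Nm → Equiv.Perm α := fun n =>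
    { toFun := cf n
      invFun := cf (n⁻¹ : Nm)
      left_inv := by
        intro b
        have := hcomp (n⁻¹ : Nm) (n⁻¹ : Nm).2 n n.2 b
        rw [this]
        simpa using hone b
      right_inv := by
        intro b
        have := hcomp n n.2 (n⁻¹ : Nm) (n⁻¹ : Nm).2 b
        rw [this]
        simpa using hone b }
  have hce : ∀ n : Nm, ∀ b, ce n b = cf n b := fun n b => rfl
  have hceC : ∀ n : Nm, ce n ∈ C := by
    intro n
    rw [hCmem]
    intro h b
    rw [hce, hce]
    exact hcfC n n.2 h b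
  let φ : Nm →* C :=
    { toFun := fun n => ⟨ce n, hceC n⟩
      map_one' := by
        apply Subtype.ext
        ext b
        change cf ((1 : Nm) : G) b = b
        exact hone b
      map_mul' := by
        intro n m
        apply Subtype.ext
        ext b
        change cf ((n * m : Nm) : G) b = cf n (cf m b)
        rw [hcomp n n.2 m m.2 b]
        rfl }
  have hφ : ∀ n : Nm, ∀ b, ((φ n : C) : Equiv.Perm α) b = cf n b := fun n b => rfl
  have hnorm : ∀ m : G, (∀ h : G, h ∈ H → (h : Equiv.Perm α) ((m : Equiv.Perm α) a) = (m : Equiv.Perm α) a) →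
      m⁻¹ ∈ Nm := by
    intro m hm
    have hfw : ∀ h : G, h ∈ H → m⁻¹ * h * m⁻¹⁻¹ ∈ H := by
      intro h hh
      rw [hHmem]
      simp only [Subgroup.coe_mul, Subgroup.coe_inv, Equiv.Perm.mul_apply, inv_inv]
      rw [hm h hh]
      simp
    rw [hNm, Subgroup.mem_normalizer_iff]
    intro h
    refine ⟨hfw h, fun hh => ?_⟩
    let f : H → H := fun k => ⟨m⁻¹ * k * m⁻¹⁻¹, hfw k k.2⟩
    have hinj : Function.Injective f := by
      intro k1 k2 hk
      have := congrArg (fun z : H => (z : G)) hk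
      simp only [f] at this
      apply Subtype.ext
      simpa using this
    have hsurj : Function.Surjective f := Finite.injective_iff_surjective.1 hinj
    obtain ⟨k, hk⟩ := hsurj ⟨_, hh⟩
    have := congrArg (fun z : H => (z : G)) hk
    simp only [f] at this
    have e : (k : G) = h := by simpa using this
    rw [← e]; exact k.2
  have hfix1 : ∀ c : Equiv.Perm α, c ∈ C → ∀ h : G, h ∈ H → (h : Equiv.Perm α) (c a) = c a := by
    intro c hc h hh
    rw [(hCmem c).1 hc h a, (hHmem h).1 hh]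
  have hsurj : Function.Surjective φ := by
    rintro ⟨c, hc⟩
    obtain ⟨m, hm⟩ : ∃ g : G, (g : Equiv.Perm α) a = c a := ⟨sel (c a), hsel (c a)⟩
    have hmN : m⁻¹ ∈ Nm := by
      apply hnorm
      intro h hh
      rw [hm]
      exact hfix1 c hc h hh
    refine ⟨⟨m⁻¹, hmN⟩, ?_⟩
    apply Subtype.ext
    ext b
    rw [hφ]
    obtain ⟨g, rfl⟩ : ∃ g : G, (g : Equiv.Perm α) a = b := ⟨sel b, hsel b⟩
    rw [hkey _ hmN g]
    simp only [Subgroup.coe_inv, inv_inv]
    rw [hm, (hCmem c).1 hc g a]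
  have hker : φ.ker = H.subgroupOf Nm := by
    ext n
    rw [MonoidHom.mem_ker, Subgroup.mem_subgroupOf, hHmem]
    constructor
    · intro h
      have h1 := hφ n a
      rw [h] at h1
      have h2 := hkey n n.2 1
      simp only [Subgroup.coe_one, Equiv.Perm.one_apply] at h2
      rw [h2] at h1
      have h3 := congrArg (fun z => ((n : G) : Equiv.Perm α) z) h1
      simpa using h3
    · intro h
      apply Subtype.ext
      ext b
      rw [hφ]
      obtain ⟨g, rfl⟩ : ∃ g : G, (g : Equiv.Perm α) a = b := ⟨sel b, hsel b⟩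
      rw [hkey n n.2 g]
      have : ((n : G) : Equiv.Perm α)⁻¹ a = a := by
        rw [Equiv.Perm.inv_eq_iff_eq]; exact h.symm
      rw [this]
      rfl
  refine ⟨⟨?_⟩, ?_⟩
  · exact ((QuotientGroup.quotientMulEquivOfEq hker).symm.trans
      (QuotientGroup.quotientKerEquivOfSurjective φ hsurj)).symm
  · ext b
    rw [MulAction.mem_orbit_iff, MulAction.mem_fixedPoints]
    constructor
    · rintro ⟨c, rfl⟩ h
      exact hfix1 c c.2 h h.2
    · intro hb
      obtain ⟨m, hm⟩ : ∃ g : G, (g : Equiv.Perm α) a = b := ⟨sel b, hsel b⟩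
      have hmN : m⁻¹ ∈ Nm := by
        apply hnorm
        intro h hh
        rw [hm]
        exact hb ⟨h, hh⟩
      refine ⟨φ ⟨m⁻¹, hmN⟩, ?_⟩
      change ((φ ⟨m⁻¹, hmN⟩ : C) : Equiv.Perm α) a = b
      rw [hφ]
      have := hkey _ hmN 1
      simp only [Subgroup.coe_one, Equiv.Perm.one_apply, Subgroup.coe_inv, inv_inv] at this
      rw [this, hm]

end Cfsg.Agent.S0702
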