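import Cfsg.Statements.S0703
import Mathlib

set_option autoImplicit false
open Cfsg

namespace Cfsg.Agent.S0703

/-- An abelian transitive minimal normal subgroup `M` of a permutation group on a finite set is self-centralising in the symmetric group, regular, elementary abelian, and is the unique minimal normal subgroup. -/
theorem result {α : Type*} [Finite α] (G : Subgroup (Equiv.Perm α)) (M : Subgroup G) [M.Normal] (hM : M ≠ ⊥) (hmin : ∀ L : Subgroup G, L.Normal → L ≤ M → L = ⊥ ∨ L = M) (hab : IsMulCommutative M) (htrans : MulAction.IsPretransitive M α) : Subgroup.centralizer ((M.map G.subtype : Subgroup (Equiv.Perm α)) : Set (Equiv.Perm α)) = M.map G.subtype ∧ (∀ a : α, MulAction.stabilizer M a = ⊥) ∧ (∃ p : ℕ, p.Prime ∧ ∀ m ∈ M, m ^ p = 1) ∧ ∀ L : Subgroup G, L.Normal → L ≠ ⊥ → (∀ L' : Subgroup G, L'.Normal → L' ≤ L → L' = ⊥ ∨ L' = L) → L = M := by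
  classical
  have hsmul : ∀ (m : M) (a : α), m • a = ((m : G) : Equiv.Perm α) a := fun _ _ => rfl
  have hcomm : ∀ x y : M, x * y = y * x := fun x y => hab.is_comm.comm x y
  have hcommG : ∀ x ∈ M, ∀ y ∈ M, x * y = y * x := by
    intro x hx y hy
    exact congrArg Subtype.val (hcomm ⟨x, hx⟩ ⟨y, hy⟩)
  have hcommP : ∀ x y : M, ((x : G) : Equiv.Perm α) * ((y : G) : Equiv.Perm α) =
      ((y : G) : Equiv.Perm α) * ((x : G) : Equiv.Perm α) := by
    intro x y
    have h1 := congrArg (fun z : M => ((z : G) : Equiv.Perm α)) (hcomm x y)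
    simpa using h1
  have hex : ∀ a b : α, ∃ m : M, ((m : G) : Equiv.Perm α) a = b := fun a b =>
    MulAction.exists_smul_eq M a b
  -- nonempty
  have hne : Nonempty α := by
    by_contra hemp
    rw [not_nonempty_iff] at hemp
    apply hM
    rw [Subgroup.eq_bot_iff_forall]
    intro x _
    apply Subtype.ext
    apply Equiv.ext
    intro a
    exact (hemp.false a).elim
  -- fixes a point implies trivial
  have hfix : ∀ (m : M) (a : α), ((m : G) : Equiv.Perm α) a = a → m = 1 := by
    intro m a hma
    apply Subtype.ext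
    apply Subtype.ext
    apply Equiv.ext
    intro b
    obtain ⟨k, hk⟩ := hex a b
    have h1 := congrArg (fun f : Equiv.Perm α => f a) (hcommP m k)
    simp only [Equiv.Perm.coe_mul, Function.comp_apply] at h1
    rw [hk, hma, hk] at h1
    simpa using h1
  have hcent : Subgroup.centralizer ((M.map G.subtype : Subgroup (Equiv.Perm α)) :
      Set (Equiv.Perm α)) = M.map G.subtype := by
    apply le_antisymm
    · intro c hc
      rw [Subgroup.mem_centralizer_iff] at hc
      obtain ⟨a⟩ := hne
      obtain ⟨m, hm⟩ := hex a (c a)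
      have hcm : c = ((m : G) : Equiv.Perm α) := by
        apply Equiv.ext
        intro b
        obtain ⟨k, hk⟩ := hex a b
        have hkmem : ((k : G) : Equiv.Perm α) ∈ ((M.map G.subtype : Subgroup (Equiv.Perm α)) :
            Set (Equiv.Perm α)) := ⟨(k : G), k.2, rfl⟩
        have h1 := congrArg (fun f : Equiv.Perm α => f a) (hc _ hkmem)
        simp only [Equiv.Perm.coe_mul, Function.comp_apply] at h1
        have h2 := congrArg (fun f : Equiv.Perm α => f a) (hcommP m k)
        simp only [Equiv.Perm.coe_mul, Function.comp_apply] at h2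
        rw [← hk, ← h1, ← hm, h2]
      rw [hcm]
      exact ⟨(m : G), m.2, rfl⟩
    · rintro _ ⟨x, hx, rfl⟩
      rw [Subgroup.mem_centralizer_iff]
      rintro _ ⟨y, hy, rfl⟩
      exact hcommP ⟨y, hy⟩ ⟨x, hx⟩
  refine ⟨hcent, ?_, ?_, ?_⟩
  · intro a
    rw [Subgroup.eq_bot_iff_forall]
    intro m hm
    rw [MulAction.mem_stabilizer_iff] at hm
    exact hfix m a hm
  · have hfinM : Finite M := inferInstance
    have hntM : Nontrivial M := by
      rw [← not_subsingleton_iff_nontrivial]
      intro hss
      apply hM
      rw [Subgroup.eq_bot_iff_forall]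
      intro x hx
      have := hss.elim (⟨x, hx⟩ : M) 1
      exact congrArg Subtype.val this
    have hcard : Nat.card M ≠ 1 := by
      intro h1
      rw [Nat.card_eq_one_iff_unique] at h1
      exact not_subsingleton M h1.1
    obtain ⟨p, hp, hpd⟩ := Nat.exists_prime_and_dvd hcard
    have hpf : Fact p.Prime := ⟨hp⟩
    obtain ⟨x, hx⟩ := exists_prime_orderOf_dvd_card' p hpd
    refine ⟨p, hp, ?_⟩
    let L : Subgroup G :=
      { carrier := {g : G | g ∈ M ∧ g ^ p = 1}
        mul_mem' := by
          rintro a b ⟨ha, hap⟩ ⟨hb, hbp⟩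
          refine ⟨M.mul_mem ha hb, ?_⟩
          have hc : Commute a b := hcommG a ha b hb
          rw [hc.mul_pow, hap, hbp, one_mul]
        one_mem' := ⟨M.one_mem, one_pow p⟩
        inv_mem' := by
          rintro a ⟨ha, hap⟩
          exact ⟨M.inv_mem ha, by rw [inv_pow, hap, inv_one]⟩ }
    have hLn : L.Normal := by
      constructor
      rintro n ⟨hn, hnp⟩ g
      refine ⟨‹M.Normal›.conj_mem n hn g, ?_⟩
      rw [conj_pow, hnp, mul_one, mul_inv_cancel]
    have hLM : L ≤ M := fun g hg => hg.1
    have hLne : L ≠ ⊥ := by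
      intro hbot
      have hxL : (x : G) ∈ L := by
        refine ⟨x.2, ?_⟩
        have h1 : x ^ p = 1 := by rw [← hx]; exact pow_orderOf_eq_one x
        have h2 := congrArg Subtype.val h1
        simpa using h2
      rw [hbot, Subgroup.mem_bot] at hxL
      have hx1 : x = 1 := Subtype.ext hxL
      rw [hx1, orderOf_one] at hx
      exact hp.one_lt.ne hx
    rcases hmin L hLn hLM with h | h
    · exact absurd h hLne
    · intro m hm
      rw [← h] at hm
      exact hm.2
  · intro L hLn hLne hLmin
    have hKn : (L ⊓ M).Normal := Subgroup.normal_inf_normal L M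
    rcases hmin (L ⊓ M) hKn inf_le_right with h | h
    · exfalso
      apply hLne
      have hLM : L ≤ M := by
        intro l hl
        have hlc : ((l : G) : Equiv.Perm α) ∈ Subgroup.centralizer
            ((M.map G.subtype : Subgroup (Equiv.Perm α)) : Set (Equiv.Perm α)) := by
          rw [Subgroup.mem_centralizer_iff]
          rintro _ ⟨m, hm, rfl⟩
          have h1 : l * m * l⁻¹ * m⁻¹ ∈ L ⊓ M := by
            constructor
            · have h2 : m * l⁻¹ * m⁻¹ ∈ L := hLn.conj_mem _ (L.inv_mem hl) m
              have h3 : l * m * l⁻¹ * m⁻¹ = l * (m * l⁻¹ * m⁻¹) := by group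
              rw [h3]
              exact L.mul_mem hl h2
            · have h2 : l * m * l⁻¹ ∈ M := ‹M.Normal›.conj_mem m hm l
              exact M.mul_mem h2 (M.inv_mem hm)
          rw [h, Subgroup.mem_bot] at h1
          have h4 : m * l = l * m := by
            have h5 : l * m = (l * m * l⁻¹ * m⁻¹) * (m * l) := by group
            rw [h5, h1, one_mul]
          have h6 := congrArg (fun z : G => (z : Equiv.Perm α)) h4
          simpa using h6
        rw [hcent] at hlc
        obtain ⟨m, hm, hml⟩ := hlc
        have : m = l := Subtype.ext hml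
        rw [← this]
        exact hm
      rw [← inf_eq_left.mpr hLM]
      exact h
    · have hML : M ≤ L := by
        rw [← h]
        exact inf_le_left
      rcases hLmin M ‹M.Normal› hML with h1 | h1
      · exact absurd h1 hM
      · exact h1.symm

end Cfsg.Agent.S0703
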