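import Cfsg.Statements.S0704
import Mathlib

set_option autoImplicit false
open Cfsg

namespace Cfsg.Agent.S0704

/-- if `A` is transitive and commutes elementwise with `B`, the centralizer of `A` is `B` when `B` is transitive. -/
theorem centralizer_eq {α : Type*} [Nonempty α] (G : Subgroup (Equiv.Perm α)) (A B : Subgroup G)
    (hA : MulAction.IsPretransitive A α) (hB : MulAction.IsPretransitive B α)
    (hcomm : ∀ x ∈ A, ∀ y ∈ B, x * y = y * x) :
    Subgroup.centralizer ((A.map G.subtype : Subgroup (Equiv.Perm α)) : Set (Equiv.Perm α)) =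
      B.map G.subtype := by
  have hexA : ∀ a b : α, ∃ m : A, ((m : G) : Equiv.Perm α) a = b := fun a b =>
    MulAction.exists_smul_eq A a b
  have hexB : ∀ a b : α, ∃ m : B, ((m : G) : Equiv.Perm α) a = b := fun a b =>
    MulAction.exists_smul_eq B a b
  have hcommP : ∀ (x : A) (y : B), ((x : G) : Equiv.Perm α) * ((y : G) : Equiv.Perm α) =
      ((y : G) : Equiv.Perm α) * ((x : G) : Equiv.Perm α) := by
    intro x y
    have h1 := congrArg (fun z : G => (z : Equiv.Perm α)) (hcomm x x.2 y y.2)
    simpa using h1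
  apply le_antisymm
  · intro c hc
    rw [Subgroup.mem_centralizer_iff] at hc
    obtain ⟨a⟩ := ‹Nonempty α›
    obtain ⟨n, hn⟩ := hexB a (c a)
    have hcn : c = ((n : G) : Equiv.Perm α) := by
      apply Equiv.ext
      intro b
      obtain ⟨k, hk⟩ := hexA a b
      have hkmem : ((k : G) : Equiv.Perm α) ∈ ((A.map G.subtype : Subgroup (Equiv.Perm α)) :
          Set (Equiv.Perm α)) := ⟨(k : G), k.2, rfl⟩
      have h1 := congrArg (fun f : Equiv.Perm α => f a) (hc _ hkmem)
      simp only [Equiv.Perm.coe_mul, Function.comp_apply] at h1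
      have h2 := congrArg (fun f : Equiv.Perm α => f a) (hcommP k n)
      simp only [Equiv.Perm.coe_mul, Function.comp_apply] at h2
      rw [← hk, ← h1, ← hn, h2]
    rw [hcn]
    exact ⟨(n : G), n.2, rfl⟩
  · rintro _ ⟨y, hy, rfl⟩
    rw [Subgroup.mem_centralizer_iff]
    rintro _ ⟨x, hx, rfl⟩
    exact hcommP ⟨x, hx⟩ ⟨y, hy⟩

theorem semireg {α : Type*} (G : Subgroup (Equiv.Perm α)) (A B : Subgroup G)
    (hA : MulAction.IsPretransitive A α)
    (hcomm : ∀ x ∈ A, ∀ y ∈ B, x * y = y * x) (n : B) (a : α)
    (hna : ((n : G) : Equiv.Perm α) a = a) : n = 1 := by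
  have hexA : ∀ a b : α, ∃ m : A, ((m : G) : Equiv.Perm α) a = b := fun a b =>
    MulAction.exists_smul_eq A a b
  apply Subtype.ext
  apply Subtype.ext
  apply Equiv.ext
  intro b
  obtain ⟨k, hk⟩ := hexA a b
  have h1 := congrArg (fun z : G => (z : Equiv.Perm α) a) (hcomm k k.2 n n.2)
  simp only [Subgroup.coe_mul, Equiv.Perm.coe_mul, Function.comp_apply] at h1
  rw [hna, hk] at h1
  simpa using h1.symm

theorem disjoint_of_min {H : Type*} [Group H] (M N : Subgroup H) [M.Normal] [N.Normal]
    (hM : M ≠ ⊥)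
    (hMmin : ∀ L : Subgroup H, L.Normal → L ≤ M → L = ⊥ ∨ L = M)
    (hNmin : ∀ L : Subgroup H, L.Normal → L ≤ N → L = ⊥ ∨ L = N) (hMN : M ≠ N) :
    M ⊓ N = ⊥ := by
  rcases hMmin (M ⊓ N) (Subgroup.normal_inf_normal M N) inf_le_left with h | h
  · exact h
  · exfalso
    have hle : M ≤ N := by
      rw [← h]
      exact inf_le_right
    rcases hNmin M ‹M.Normal› hle with h1 | h1
    · exact hM h1
    · exact hMN h1

/-- Two distinct transitive minimal normal subgroups `M`, `N` of a permutation group are regular, non-abelian, isomorphic, each other's centraliser in the symmetric group, and the only minimal normal subgroups. -/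
theorem result {α : Type*} (G : Subgroup (Equiv.Perm α)) (M N : Subgroup G) [M.Normal] [N.Normal] (hM : M ≠ ⊥) (hN : N ≠ ⊥) (hMmin : ∀ L : Subgroup G, L.Normal → L ≤ M → L = ⊥ ∨ L = M) (hNmin : ∀ L : Subgroup G, L.Normal → L ≤ N → L = ⊥ ∨ L = N) (hMN : M ≠ N) (hMt : MulAction.IsPretransitive M α) (hNt : MulAction.IsPretransitive N α) : (∀ a : α, MulAction.stabilizer M a = ⊥) ∧ (∀ a : α, MulAction.stabilizer N a = ⊥) ∧ ¬ IsMulCommutative M ∧ Nonempty (M ≃* N) ∧ Subgroup.centralizer ((M.map G.subtype : Subgroup (Equiv.Perm α)) : Set (Equiv.Perm α)) = N.map G.subtype ∧ Subgroup.centralizer ((N.map G.subtype : Subgroup (Equiv.Perm α)) : Set (Equiv.Perm α)) = M.map G.subtype ∧ ∀ L : Subgroup G, L.Normal → L ≠ ⊥ → (∀ L' : Subgroup G, L'.Normal → L' ≤ L → L' = ⊥ ∨ L' = L) → L = M ∨ L = N := by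
  classical
  have hne : Nonempty α := by
    by_contra hemp
    rw [not_nonempty_iff] at hemp
    apply hM
    rw [Subgroup.eq_bot_iff_forall]
    intro x _
    apply Subtype.ext
    apply Equiv.ext
    intro a
    exact (hemp.false a).elim
  have hdis : M ⊓ N = ⊥ := disjoint_of_min M N hM hMmin hNmin hMN
  have hcomm : ∀ x ∈ M, ∀ y ∈ N, x * y = y * x := by
    intro x hx y hy
    exact Subgroup.commute_of_normal_of_disjoint M N ‹M.Normal› ‹N.Normal›
      (disjoint_iff.mpr hdis) x y hx hy
  have hcomm' : ∀ x ∈ N, ∀ y ∈ M, x * y = y * x := fun x hx y hy => (hcomm y hy x hx).symm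
  have hcentM := centralizer_eq G M N hMt hNt hcomm
  have hcentN := centralizer_eq G N M hNt hMt hcomm'
  have hstabM : ∀ a : α, MulAction.stabilizer M a = ⊥ := by
    intro a
    rw [Subgroup.eq_bot_iff_forall]
    intro m hm
    rw [MulAction.mem_stabilizer_iff] at hm
    exact semireg G N M hNt hcomm' m a hm
  have hstabN : ∀ a : α, MulAction.stabilizer N a = ⊥ := by
    intro a
    rw [Subgroup.eq_bot_iff_forall]
    intro m hm
    rw [MulAction.mem_stabilizer_iff] at hm
    exact semireg G M N hMt hcomm m a hm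
  refine ⟨hstabM, hstabN, ?_, ?_, hcentM, hcentN, ?_⟩
  · intro hab
    apply hM
    have hle : M ≤ N := by
      intro m hm
      have hmc : ((m : G) : Equiv.Perm α) ∈ Subgroup.centralizer
          ((M.map G.subtype : Subgroup (Equiv.Perm α)) : Set (Equiv.Perm α)) := by
        rw [Subgroup.mem_centralizer_iff]
        rintro _ ⟨k, hk, rfl⟩
        have h1 := hab.is_comm.comm (⟨k, hk⟩ : M) ⟨m, hm⟩
        have h2 := congrArg (fun z : M => ((z : G) : Equiv.Perm α)) h1
        simpa using h2
      rw [hcentM] at hmc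
      obtain ⟨n, hn, hnm⟩ := hmc
      have : n = m := Subtype.ext hnm
      rw [← this]
      exact hn
    rw [← inf_eq_left.mpr hle]
    exact hdis
  · obtain ⟨a⟩ := hne
    have hexN : ∀ m : M, ∃ n : N, ((n : G) : Equiv.Perm α) a = ((m : G) : Equiv.Perm α) a :=
      fun m => MulAction.exists_smul_eq N a (((m : G) : Equiv.Perm α) a)
    choose nf hnf using hexN
    have huniqN : ∀ n n' : N, ((n : G) : Equiv.Perm α) a = ((n' : G) : Equiv.Perm α) a →
        n = n' := by
      intro n n' h
      have h1 : n'⁻¹ * n = 1 := by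
        apply semireg G M N hMt hcomm (n'⁻¹ * n) a
        simp only [Subgroup.coe_mul, Subgroup.coe_inv, Equiv.Perm.coe_mul, Function.comp_apply]
        rw [h]
        simp
      exact (inv_mul_eq_one.mp h1).symm
    have huniqM : ∀ m m' : M, ((m : G) : Equiv.Perm α) a = ((m' : G) : Equiv.Perm α) a →
        m = m' := by
      intro m m' h
      have h1 : m'⁻¹ * m = 1 := by
        apply semireg G N M hNt hcomm' (m'⁻¹ * m) a
        simp only [Subgroup.coe_mul, Subgroup.coe_inv, Equiv.Perm.coe_mul, Function.comp_apply]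
        rw [h]
        simp
      exact (inv_mul_eq_one.mp h1).symm
    have hanti : ∀ m m' : M, nf (m * m') = nf m' * nf m := by
      intro m m'
      apply huniqN
      rw [hnf]
      simp only [Subgroup.coe_mul, Equiv.Perm.coe_mul, Function.comp_apply]
      rw [hnf m, ← hnf m']
      have h1 := congrArg (fun z : G => (z : Equiv.Perm α) a) (hcomm m m.2 (nf m') (nf m').2)
      simp only [Subgroup.coe_mul, Equiv.Perm.coe_mul, Function.comp_apply] at h1
      exact h1
    let φ : M →* N := MonoidHom.mk' (fun m => (nf m)⁻¹) (by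
      intro m m'
      rw [hanti, mul_inv_rev])
    have hφ : ∀ m, φ m = (nf m)⁻¹ := fun m => rfl
    have hbij : Function.Bijective φ := by
      constructor
      · intro m m' h
        rw [hφ, hφ, inv_inj] at h
        apply huniqM
        rw [← hnf m, ← hnf m', h]
      · intro n
        obtain ⟨m, hm⟩ := MulAction.exists_smul_eq M a (((n⁻¹ : N) : G) • a)
        refine ⟨m, ?_⟩
        rw [hφ]
        have h1 : nf m = n⁻¹ := by
          apply huniqN
          rw [hnf]
          exact hm
        rw [h1, inv_inv]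
    exact ⟨MulEquiv.ofBijective φ hbij⟩
  · intro L hLn hLne hLmin
    by_cases hLM : L = M
    · exact Or.inl hLM
    · right
      have hdisL : L ⊓ M = ⊥ := by
        have := hLn
        exact disjoint_of_min L M hLne hLmin hMmin hLM
      have hcommL : ∀ x ∈ L, ∀ y ∈ M, x * y = y * x := by
        intro x hx y hy
        exact Subgroup.commute_of_normal_of_disjoint L M hLn ‹M.Normal›
          (disjoint_iff.mpr hdisL) x y hx hy
      have hle : L ≤ N := by
        intro l hl
        have hlc : ((l : G) : Equiv.Perm α) ∈ Subgroup.centralizer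
            ((M.map G.subtype : Subgroup (Equiv.Perm α)) : Set (Equiv.Perm α)) := by
          rw [Subgroup.mem_centralizer_iff]
          rintro _ ⟨k, hk, rfl⟩
          have h1 := hcommL l hl k hk
          have h2 := congrArg (fun z : G => (z : Equiv.Perm α)) h1
          simpa using h2.symm
        rw [hcentM] at hlc
        obtain ⟨n, hn, hnl⟩ := hlc
        have : n = l := Subtype.ext hnl
        rw [← this]
        exact hn
      rcases hNmin L hLn hle with h1 | h1
      · exact absurd h1 hLne
      · exact h1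

end Cfsg.Agent.S0704
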