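import Cfsg.Statements.S0705
import Mathlib

set_option autoImplicit false
open scoped Pointwise
open Cfsg

namespace Cfsg.Agent.S0705

theorem step {α : Type*} [Fintype α] [DecidableEq α] (G : Subgroup (Equiv.Perm α)) {k : ℕ}
    (hgen : ∀ s : Finset α, s.card = k + 1 → ∀ σ : Equiv.Perm ↥s, ∃ g ∈ G, ∀ x : ↥s, g (x : α) = σ x)
    (t : Finset α) (ht : t.card = k + 1) (x y : Fin k ↪ α) (hx : ∀ i, x i ∈ t)
    (hy : ∀ i, y i ∈ t) : ∃ g ∈ G, ∀ i, g (x i) = y i := by
  let xt : Fin k ↪ ↥t := ⟨fun i => ⟨x i, hx i⟩, fun i j h => x.injective (congrArg Subtype.val h)⟩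
  let yt : Fin k ↪ ↥t := ⟨fun i => ⟨y i, hy i⟩, fun i j h => y.injective (congrArg Subtype.val h)⟩
  obtain ⟨σ, hσ⟩ := Equiv.Perm.exists_smul_eq_embedding xt yt
  obtain ⟨g, hg, hgσ⟩ := hgen t ht σ
  refine ⟨g, hg, fun i => ?_⟩
  have h1 := hgσ (xt i)
  have h2 : σ (xt i) = yt i := DFunLike.congr_fun hσ i
  rw [h2] at h1
  exact h1

theorem trans_aux {α : Type*} [Fintype α] [DecidableEq α] (G : Subgroup (Equiv.Perm α)) {k : ℕ}
    (hk : k < Fintype.card α)
    (hgen : ∀ s : Finset α, s.card = k + 1 → ∀ σ : Equiv.Perm ↥s, ∃ g ∈ G, ∀ x : ↥s, g (x : α) = σ x) :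
    ∀ n : ℕ, ∀ x y : Fin k ↪ α,
      ((Finset.univ.image x) \ (Finset.univ.image y)).card ≤ n → ∃ g ∈ G, ∀ i, g (x i) = y i := by
  have hcardimg : ∀ x : Fin k ↪ α, (Finset.univ.image x).card = k := by
    intro x
    rw [Finset.card_image_of_injective _ x.injective]
    simp
  intro n
  induction n with
  | zero =>
    intro x y hn
    have hsub : Finset.univ.image x ⊆ Finset.univ.image y := by
      rw [← Finset.sdiff_eq_empty_iff_subset, ← Finset.card_eq_zero]
      omega
    have heq : Finset.univ.image x = Finset.univ.image y :=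
      Finset.eq_of_subset_of_card_le hsub (by rw [hcardimg, hcardimg])
    obtain ⟨z, hz⟩ : ∃ z, z ∉ Finset.univ.image x := by
      by_contra h
      push Not at h
      have h1 : Finset.univ.image x = Finset.univ := Finset.eq_univ_iff_forall.2 h
      have h2 := hcardimg x
      rw [h1, Finset.card_univ] at h2
      omega
    refine step G hgen (insert z (Finset.univ.image x))
      (by rw [Finset.card_insert_of_notMem hz, hcardimg]) x y ?_ ?_
    · intro i
      exact Finset.mem_insert_of_mem (Finset.mem_image_of_mem x (Finset.mem_univ i))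
    · intro i
      rw [heq]
      exact Finset.mem_insert_of_mem (Finset.mem_image_of_mem y (Finset.mem_univ i))
  | succ n ih =>
    intro x y hn
    by_cases h0 : ((Finset.univ.image x) \ (Finset.univ.image y)).card ≤ n
    · exact ih x y h0
    · have hcard : ((Finset.univ.image y) \ (Finset.univ.image x)).card =
          ((Finset.univ.image x) \ (Finset.univ.image y)).card := by
        have e1 := Finset.card_sdiff_add_card_inter (Finset.univ.image x) (Finset.univ.image y)
        have e2 := Finset.card_sdiff_add_card_inter (Finset.univ.image y) (Finset.univ.image x)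
        rw [Finset.inter_comm] at e2
        have := hcardimg x
        have := hcardimg y
        omega
      obtain ⟨a, ha⟩ : ((Finset.univ.image x) \ (Finset.univ.image y)).Nonempty :=
        Finset.card_pos.1 (by omega)
      obtain ⟨b, hb⟩ : ((Finset.univ.image y) \ (Finset.univ.image x)).Nonempty :=
        Finset.card_pos.1 (by omega)
      rw [Finset.mem_sdiff, Finset.mem_image] at ha
      obtain ⟨⟨j, -, rfl⟩, hay⟩ := ha
      rw [Finset.mem_sdiff] at hb
      obtain ⟨hby, hbx⟩ := hb
      have hbx' : ∀ i, x i ≠ b := fun i h =>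
        hbx (h ▸ Finset.mem_image_of_mem x (Finset.mem_univ i))
      let x' : Fin k ↪ α := ⟨fun i => if i = j then b else x i, by
        intro i i' h
        by_cases hi : i = j <;> by_cases hi' : i' = j
        · rw [hi, hi']
        · simp only [hi, hi', if_true, if_false] at h
          exact absurd h.symm (hbx' i')
        · simp only [hi, hi', if_true, if_false] at h
          exact absurd h (hbx' i)
        · simp only [hi, hi', if_false] at h
          exact x.injective h⟩
      have hx'j : x' j = b := if_pos rfl
      have hx'i : ∀ i, i ≠ j → x' i = x i := fun i hi => if_neg hi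
      obtain ⟨g₁, hg₁, hg₁x⟩ := step G hgen (insert b (Finset.univ.image x))
        (by rw [Finset.card_insert_of_notMem hbx, hcardimg]) x x'
        (fun i => Finset.mem_insert_of_mem (Finset.mem_image_of_mem x (Finset.mem_univ i)))
        (fun i => by
          by_cases hi : i = j
          · rw [hi, hx'j]
            exact Finset.mem_insert_self _ _
          · rw [hx'i i hi]
            exact Finset.mem_insert_of_mem (Finset.mem_image_of_mem x (Finset.mem_univ i)))
      obtain ⟨g₂, hg₂, hg₂x⟩ := ih x' y (by
        have hsub : (Finset.univ.image x') \ (Finset.univ.image y) ⊆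
            ((Finset.univ.image x) \ (Finset.univ.image y)).erase (x j) := by
          intro w hw
          rw [Finset.mem_sdiff, Finset.mem_image] at hw
          obtain ⟨⟨i, -, rfl⟩, hwy⟩ := hw
          by_cases hi : i = j
          · exfalso
            rw [hi, hx'j] at hwy
            exact hwy hby
          · rw [hx'i i hi] at hwy ⊢
            rw [Finset.mem_erase, Finset.mem_sdiff]
            exact ⟨fun h => hi (x.injective h), Finset.mem_image_of_mem x (Finset.mem_univ i), hwy⟩
        have h1 := Finset.card_le_card hsub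
        rw [Finset.card_erase_of_mem (Finset.mem_sdiff.2
          ⟨Finset.mem_image_of_mem x (Finset.mem_univ j), hay⟩)] at h1
        omega)
      exact ⟨g₂ * g₁, G.mul_mem hg₂ hg₁, fun i => by rw [Equiv.Perm.mul_apply, hg₁x, hg₂x]⟩

/-- A generously `k`-transitive permutation group (every `(k+1)`-subset has its full symmetric group induced by the setwise stabiliser) of degree greater than `k` is `k`-transitive, and for a `k`-subset the setwise and pointwise stabilisers have the same orbits outside it. -/
theorem result {α : Type*} [Fintype α] [DecidableEq α] (G : Subgroup (Equiv.Perm α)) {k : ℕ} (hk : k < Fintype.card α) (hgen : ∀ s : Finset α, s.card = k + 1 → ∀ σ : Equiv.Perm ↥s, ∃ g ∈ G, ∀ x : ↥s, g (x : α) = σ x) : MulAction.IsMultiplyPretransitive G α k ∧ ∀ s : Finset α, s.card = k → ∀ a b : α, a ∉ s → b ∉ s → (∃ g ∈ G, g • s = s ∧ g a = b) → ∃ g ∈ G, (∀ x ∈ s, g x = x) ∧ g a = b := by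
  classical
  have hcardimg : ∀ x : Fin k ↪ α, (Finset.univ.image x).card = k := by
    intro x
    rw [Finset.card_image_of_injective _ x.injective]
    simp
  constructor
  · rw [MulAction.isMultiplyPretransitive_iff]
    intro x y
    obtain ⟨g, hg, hgx⟩ := trans_aux G hk hgen _ x y le_rfl
    refine ⟨⟨g, hg⟩, ?_⟩
    ext i
    exact hgx i
  · intro s hs a b ha hb hex
    obtain ⟨g, hg, hgs, hga⟩ := hex
    by_cases hab : a = b
    · exact ⟨1, G.one_mem, fun x _ => rfl, by rw [hab]; rfl⟩
    · have hmem : ∀ x : α, g x ∈ s ↔ x ∈ s := by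
        intro x
        have h1 : g • x ∈ g • s ↔ x ∈ s := Finset.smul_mem_smul_finset_iff g
        rw [hgs] at h1
        exact h1
      have hmem' : ∀ x : α, g⁻¹ x ∈ s ↔ x ∈ s := by
        intro x
        have h1 := hmem (g⁻¹ x)
        have h2 : g (g⁻¹ x) = x := by simp
        rw [h2] at h1
        exact h1.symm
      have hsw : ∀ y : α, Equiv.swap a b y ∈ s ↔ y ∈ s := by
        intro y
        by_cases hya : y = a
        · rw [hya, Equiv.swap_apply_left]
          exact ⟨fun h => absurd h hb, fun h => absurd h ha⟩
        · by_cases hyb : y = b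
          · rw [hyb, Equiv.swap_apply_right]
            exact ⟨fun h => absurd h ha, fun h => absurd h hb⟩
          · rw [Equiv.swap_apply_of_ne_of_ne hya hyb]
      have hpres : ∀ x : α, (Equiv.swap a b * g⁻¹) x ∈ insert b s ↔ x ∈ insert b s := by
        intro x
        rw [Equiv.Perm.mul_apply, Finset.mem_insert, Finset.mem_insert, hsw, hmem']
        have h1 : Equiv.swap a b (g⁻¹ x) = b ↔ x = b := by
          constructor
          · intro h
            have h2 : g⁻¹ x = a := by
              have h3 := congrArg (Equiv.swap a b) h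
              rw [Equiv.swap_apply_self, Equiv.swap_apply_right] at h3
              exact h3
            rw [Equiv.Perm.inv_eq_iff_eq] at h2
            rw [h2, hga]
          · intro h
            have h2 : g⁻¹ x = a := by
              rw [Equiv.Perm.inv_eq_iff_eq, h, hga]
            rw [h2, Equiv.swap_apply_left]
        rw [h1]
      obtain ⟨h, hhG, hh⟩ := hgen (insert b s) (by rw [Finset.card_insert_of_notMem hb, hs])
        ((Equiv.swap a b * g⁻¹).subtypePerm hpres)
      refine ⟨h * g, G.mul_mem hhG hg, ?_, ?_⟩
      · intro x hx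
        have h1 := hh ⟨g x, Finset.mem_insert_of_mem ((hmem x).2 hx)⟩
        rw [Equiv.Perm.mul_apply]
        rw [h1, Equiv.Perm.subtypePerm_apply]
        show (Equiv.swap a b * g⁻¹) (g x) = x
        have h3 : g⁻¹ (g x) = x := by simp
        rw [Equiv.Perm.mul_apply, h3, Equiv.swap_apply_of_ne_of_ne]
        · intro hxa
          exact ha (hxa ▸ hx)
        · intro hxb
          exact hb (hxb ▸ hx)
      · have h1 := hh ⟨b, Finset.mem_insert_self b s⟩
        rw [Equiv.Perm.mul_apply, hga, h1, Equiv.Perm.subtypePerm_apply]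
        show (Equiv.swap a b * g⁻¹) b = b
        have h2 : g⁻¹ b = a := by
          rw [Equiv.Perm.inv_eq_iff_eq, hga]
        rw [Equiv.Perm.mul_apply, h2, Equiv.swap_apply_left]

end Cfsg.Agent.S0705
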