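import Cfsg.Statements.S0706
import Mathlib

set_option autoImplicit false
open Cfsg

namespace Cfsg.Agent.S0706

open Equiv

variable {α : Type*} [Fintype α] [DecidableEq α]

omit [Fintype α] [DecidableEq α] in
theorem app_inv (f : Perm α) (x : α) : f (f⁻¹ x) = x := by simp

omit [Fintype α] [DecidableEq α] in
theorem inv_app (f : Perm α) (x : α) : f⁻¹ (f x) = x := by simp

omit [Fintype α] [DecidableEq α] in
/-- A p-group of permutations preserving a set of size prime to p fixes a point of it. -/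
theorem fix_pt {p : ℕ} [Fact p.Prime] (S : Subgroup (Perm α)) (hS : IsPGroup p S) (Δ : Set α)
    (hΔ : ∀ g ∈ S, ∀ x ∈ Δ, g x ∈ Δ) (hp : ¬ p ∣ Nat.card Δ) : ∃ x ∈ Δ, ∀ g ∈ S, g x = x := by
  let M : SubMulAction ↥S α := ⟨Δ, fun g x hx => hΔ g g.2 x hx⟩
  have hc : ¬ p ∣ Nat.card ↥M := hp
  obtain ⟨⟨x, hx⟩, hfix⟩ := hS.nonempty_fixed_point_of_prime_not_dvd_card ↥M hc
  refine ⟨x, hx, fun g hg => ?_⟩
  have := hfix ⟨g, hg⟩
  exact congrArg Subtype.val this

omit [Fintype α] [DecidableEq α] in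
/-- Generosity: a permutation preserving `s` is induced on `s` by an element of `G`. -/
theorem gen_ext (G : Subgroup (Perm α)) {k : ℕ}
    (hgen : ∀ s : Finset α, s.card = k + 1 → ∀ σ : Perm ↥s, ∃ g ∈ G, ∀ x : ↥s, g (x : α) = σ x)
    (s : Finset α) (hs : s.card = k + 1) (π : Perm α) (hπ : ∀ x, π x ∈ s ↔ x ∈ s) :
    ∃ g ∈ G, ∀ x ∈ s, g x = π x := by
  obtain ⟨g, hg, h⟩ := hgen s hs (π.subtypePerm hπ)
  refine ⟨g, hg, fun x hx => ?_⟩
  have := h ⟨x, hx⟩
  simpa using this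

omit [Fintype α] in
theorem homog (G : Subgroup (Perm α)) {k : ℕ}
    (hgen : ∀ s : Finset α, s.card = k + 1 → ∀ σ : Perm ↥s, ∃ g ∈ G, ∀ x : ↥s, g (x : α) = σ x) :
    ∀ (n : ℕ) (A B : Finset α), A.card = k → B.card = k → (A \ B).card = n →
      ∃ g ∈ G, ∀ x ∈ A, g x ∈ B := by
  intro n
  induction n with
  | zero =>
    intro A B hA hB h0
    refine ⟨1, G.one_mem, fun x hx => ?_⟩
    have : A \ B = ∅ := Finset.card_eq_zero.mp h0
    have hsub : A ⊆ B := Finset.sdiff_eq_empty_iff_subset.mp this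
    exact hsub hx
  | succ n ih =>
    intro A B hA hB hn
    have hne : (A \ B).Nonempty := by rw [← Finset.card_pos]; omega
    obtain ⟨a, ha⟩ := hne
    rw [Finset.mem_sdiff] at ha
    have hBA : (B \ A).card = (A \ B).card := by
      have h1 := Finset.card_sdiff_add_card_inter A B
      have h2 := Finset.card_sdiff_add_card_inter B A
      rw [Finset.inter_comm] at h2
      omega
    have hne' : (B \ A).Nonempty := by rw [← Finset.card_pos]; omega
    obtain ⟨b, hb⟩ := hne'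
    rw [Finset.mem_sdiff] at hb
    have hs : (insert b A).card = k + 1 := by rw [Finset.card_insert_of_notMem hb.2, hA]
    have hab : a ≠ b := fun h => ha.2 (h ▸ hb.1)
    obtain ⟨g₁, hg₁, h₁⟩ := gen_ext G hgen (insert b A) hs (Equiv.swap a b) (by
      intro x
      by_cases hxa : x = a
      · subst hxa; simp [ha.1]
      · by_cases hxb : x = b
        · subst hxb; simp [ha.1]
        · rw [Equiv.swap_apply_of_ne_of_ne hxa hxb])
    have hA₁ : (insert b (A.erase a)).card = k := by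
      rw [Finset.card_insert_of_notMem (fun h => hb.2 (Finset.mem_of_mem_erase h)),
        Finset.card_erase_of_mem ha.1, hA]
      have : 0 < k := by rw [← hA]; exact Finset.card_pos.mpr ⟨a, ha.1⟩
      omega
    have hn₁ : (insert b (A.erase a) \ B).card = n := by
      have : insert b (A.erase a) \ B = (A \ B).erase a := by
        ext x
        simp only [Finset.mem_sdiff, Finset.mem_insert, Finset.mem_erase]
        constructor
        · rintro ⟨h | h, hx⟩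
          · exact absurd (h ▸ hb.1) hx
          · exact ⟨h.1, h.2, hx⟩
        · rintro ⟨h1, h2, h3⟩
          exact ⟨Or.inr ⟨h1, h2⟩, h3⟩
      rw [this, Finset.card_erase_of_mem (Finset.mem_sdiff.mpr ha), hn]
      rfl
    obtain ⟨g₂, hg₂, h₂⟩ := ih _ B hA₁ hB hn₁
    refine ⟨g₂ * g₁, G.mul_mem hg₂ hg₁, fun x hx => ?_⟩
    rw [Perm.mul_apply]
    apply h₂
    rw [h₁ x (Finset.mem_insert_of_mem hx)]
    by_cases hxa : x = a
    · subst hxa; simp
    · have hxb : x ≠ b := fun h => hb.2 (h ▸ hx)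
      rw [Equiv.swap_apply_of_ne_of_ne hxa hxb]
      exact Finset.mem_insert_of_mem (Finset.mem_erase.mpr ⟨hxa, hx⟩)

omit [Fintype α] [DecidableEq α] in
/-- Pointwise stabilizer of a finset in `G`, as a subgroup of `Perm α`. -/
def fixG (G : Subgroup (Perm α)) (T : Finset α) : Subgroup (Perm α) where
  carrier := {g | g ∈ G ∧ ∀ x ∈ T, g x = x}
  mul_mem' := by
    rintro a b ⟨ha, ha'⟩ ⟨hb, hb'⟩
    exact ⟨G.mul_mem ha hb, fun x hx => by rw [Perm.mul_apply, hb' x hx, ha' x hx]⟩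
  one_mem' := ⟨G.one_mem, fun x _ => rfl⟩
  inv_mem' := by
    rintro a ⟨ha, ha'⟩
    exact ⟨G.inv_mem ha, fun x hx => by rw [Perm.inv_eq_iff_eq]; exact (ha' x hx).symm⟩

omit [Fintype α] [DecidableEq α] in
theorem supp_mem (π : Perm α) (C : Finset α) (hπ : ∀ x, x ∉ C → π x = x) (x : α) (hx : x ∈ C) :
    π x ∈ C := by
  by_contra h
  have := hπ (π x) h
  have h2 : π x = x := π.injective this
  rw [h2] at h
  exact h hx

omit [Fintype α] [DecidableEq α] in
theorem supp_inv (π : Perm α) (C : Finset α) (hπ : ∀ x, x ∉ C → π x = x) (x : α) (hx : x ∉ C) :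
    π⁻¹ x = x := by
  rw [Perm.inv_eq_iff_eq]
  exact (hπ x hx).symm

omit [Fintype α] [DecidableEq α] in
theorem supp_mem' (π : Perm α) (C Γ : Finset α) (hC : C ⊆ Γ) (hπ : ∀ x, x ∉ C → π x = x) (x : α)
    (hx : x ∈ Γ) : π x ∈ Γ := by
  by_cases hxC : x ∈ C
  · exact hC (supp_mem π C hπ x hxC)
  · rw [hπ x hxC]; exact hx

omit [Fintype α] [DecidableEq α] in
/-- Elements of `G` acting on `Γ` like a permutation moving only points of `C`. -/
def Lsub (G : Subgroup (Perm α)) (Γ C : Finset α) (hC : C ⊆ Γ) : Subgroup (Perm α) where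
  carrier := {g | g ∈ G ∧ ∃ π : Perm α, (∀ x, x ∉ C → π x = x) ∧ ∀ x ∈ Γ, g x = π x}
  mul_mem' := by
    rintro a b ⟨ha, π₁, h₁, h₁'⟩ ⟨hb, π₂, h₂, h₂'⟩
    refine ⟨G.mul_mem ha hb, π₁ * π₂, fun x hx => ?_, fun x hx => ?_⟩
    · rw [Perm.mul_apply, h₂ x hx, h₁ x hx]
    · rw [Perm.mul_apply, Perm.mul_apply, h₂' x hx, h₁' _ (supp_mem' π₂ C Γ hC h₂ x hx)]
  one_mem' := ⟨G.one_mem, 1, fun _ _ => rfl, fun _ _ => rfl⟩
  inv_mem' := by
    rintro a ⟨ha, π, h, h'⟩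
    refine ⟨G.inv_mem ha, π⁻¹, supp_inv π C h, fun x hx => ?_⟩
    rw [Perm.inv_eq_iff_eq, h' _ (supp_mem' π⁻¹ C Γ hC (supp_inv π C h) x hx)]
    simp

/-- In a generously `k`-transitive permutation group, for a prime `p ≤ k` and a `k`-set `Γ`, there are no `p` points outside `Γ` lying in distinct orbits of the pointwise stabiliser of `Γ` all of length prime to `p` (at most `p - 1` such orbits). -/
theorem result {α : Type*} [Fintype α] [DecidableEq α] (G : Subgroup (Equiv.Perm α)) {k : ℕ} (hk : k < Fintype.card α) (hgen : ∀ s : Finset α, s.card = k + 1 → ∀ σ : Equiv.Perm ↥s, ∃ g ∈ G, ∀ x : ↥s, g (x : α) = σ x) {p : ℕ} (hp : p.Prime) (hpk : p ≤ k) (Γ : Finset α) (hΓ : Γ.card = k) (f : Fin p → α) (hf : ∀ i, f i ∉ Γ) (hdist : ∀ i j, i ≠ j → f j ∉ MulAction.orbit (fixingSubgroup G (Γ : Set α)) (f i)) : ∃ i, p ∣ Nat.card (MulAction.orbit (fixingSubgroup G (Γ : Set α)) (f i)) := by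
  classical
  haveI : Fact p.Prime := ⟨hp⟩
  by_contra hcon
  push Not at hcon
  obtain ⟨C, hCΓ, hCp⟩ := Finset.exists_subset_card_eq (hpk.trans hΓ.ge)
  obtain ⟨ω, hω⟩ : ∃ ω, ω ∉ Γ := by
    by_contra h
    push Not at h
    have : Γ = Finset.univ := Finset.eq_univ_iff_forall.mpr h
    rw [this, Finset.card_univ] at hΓ
    omega
  have hHL : fixG G Γ ≤ Lsub G Γ C hCΓ :=
    fun g hg => ⟨hg.1, 1, fun _ _ => rfl, fun x hx => by simpa using hg.2 x hx⟩
  have hLG : Lsub G Γ C hCΓ ≤ G := fun g hg => hg.1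
  -- orbit description
  have horb : ∀ (i : Fin p) (a : α), a ∈ MulAction.orbit (fixingSubgroup G (Γ : Set α)) (f i) ↔
      ∃ h ∈ fixG G Γ, h (f i) = a := by
    intro i a
    rw [MulAction.mem_orbit_iff]
    constructor
    · rintro ⟨⟨⟨h, hG⟩, hfix⟩, rfl⟩
      refine ⟨h, ⟨hG, fun x hx => ?_⟩, rfl⟩
      exact (mem_fixingSubgroup_iff _).mp hfix x hx
    · rintro ⟨h, ⟨hG, hfix⟩, rfl⟩
      exact ⟨⟨⟨h, hG⟩, (mem_fixingSubgroup_iff _).mpr (fun x hx => hfix x hx)⟩, rfl⟩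
  have hout : ∀ (i : Fin p) (a : α), a ∈ MulAction.orbit (fixingSubgroup G (Γ : Set α)) (f i) →
      a ∉ Γ := by
    intro i a ha haΓ
    obtain ⟨h, hh, rfl⟩ := (horb i a).mp ha
    have := hh.2 _ haΓ
    exact hf i (h.injective this ▸ haΓ)
  -- L preserves the orbits
  have hLorb : ∀ g ∈ Lsub G Γ C hCΓ, ∀ (i : Fin p) (a : α),
      a ∈ MulAction.orbit (fixingSubgroup G (Γ : Set α)) (f i) →
      g a ∈ MulAction.orbit (fixingSubgroup G (Γ : Set α)) (f i) := by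
    rintro g ⟨hgG, π, hπ, hgπ⟩ i a ha
    have haΓ := hout i a ha
    obtain ⟨h, hh, rfl⟩ := (horb i a).mp ha
    have hgaΓ : g (h (f i)) ∉ Γ := by
      intro hz
      have h1 : π⁻¹ (g (h (f i))) ∈ Γ := supp_mem' π⁻¹ C Γ hCΓ (supp_inv π C hπ) _ hz
      have h2 := hgπ _ h1
      rw [app_inv] at h2
      exact haΓ (g.injective h2 ▸ h1)
    have hs : (insert (g (h (f i))) Γ).card = k + 1 := by
      rw [Finset.card_insert_of_notMem hgaΓ, hΓ]
    obtain ⟨t, htG, ht⟩ := gen_ext G hgen _ hs π⁻¹ (by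
      intro x
      by_cases hxC : x ∈ C
      · have h1 : π⁻¹ x ∈ C := supp_mem π⁻¹ C (supp_inv π C hπ) x hxC
        constructor
        · intro _; exact Finset.mem_insert_of_mem (hCΓ hxC)
        · intro _; exact Finset.mem_insert_of_mem (hCΓ h1)
      · rw [supp_inv π C hπ x hxC])
    rw [horb]
    refine ⟨t * g * h, ⟨G.mul_mem (G.mul_mem htG hgG) hh.1, fun x hx => ?_⟩, ?_⟩
    · rw [Perm.mul_apply, Perm.mul_apply, hh.2 x hx, hgπ x hx,
        ht _ (Finset.mem_insert_of_mem (supp_mem' π C Γ hCΓ hπ x hx)), inv_app]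
    · rw [Perm.mul_apply, Perm.mul_apply, ht _ (Finset.mem_insert_self _ _)]
      exact supp_inv π C hπ _ (fun hc => hgaΓ (hCΓ hc))
  -- an element of order p on C
  have hdvd : p ∣ Nat.card (Perm {x // x ∈ C}) := by
    rw [Nat.card_perm, Nat.card_eq_fintype_card, Fintype.card_coe, hCp]
    exact Nat.dvd_factorial hp.pos le_rfl
  obtain ⟨τ, hτ⟩ := exists_prime_orderOf_dvd_card' p hdvd
  have hπ₀ : ∀ x, x ∉ C → Perm.ofSubtype τ x = x :=
    fun x hx => Perm.ofSubtype_apply_of_not_mem τ hx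
  have hπ₀p : (Perm.ofSubtype τ : Perm α) ^ p = 1 := by
    rw [← map_pow, ← hτ, pow_orderOf_eq_one, map_one]
  have hπ₀1 : (Perm.ofSubtype τ : Perm α) ≠ 1 := by
    intro h
    have : τ = 1 := Perm.ofSubtype_injective (by rw [h, map_one])
    rw [this, orderOf_one] at hτ
    exact hp.one_lt.ne hτ
  have hs₀ : (insert ω Γ).card = k + 1 := by rw [Finset.card_insert_of_notMem hω, hΓ]
  obtain ⟨y₀, hy₀G, hy₀⟩ := gen_ext G hgen (insert ω Γ) hs₀ (Perm.ofSubtype τ) (by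
    intro x
    by_cases hxC : x ∈ C
    · have h1 : Perm.ofSubtype τ x ∈ C := supp_mem _ C hπ₀ x hxC
      constructor
      · intro _; exact Finset.mem_insert_of_mem (hCΓ hxC)
      · intro _; exact Finset.mem_insert_of_mem (hCΓ h1)
    · rw [hπ₀ x hxC])
  have hy₀L : y₀ ∈ Lsub G Γ C hCΓ :=
    ⟨hy₀G, Perm.ofSubtype τ, hπ₀, fun x hx => hy₀ x (Finset.mem_insert_of_mem hx)⟩
  have hy₀H : y₀ ∉ fixG G Γ := by
    intro h
    apply hπ₀1
    ext x
    by_cases hx : x ∈ Γ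
    · rw [← hy₀ x (Finset.mem_insert_of_mem hx), h.2 x hx]; rfl
    · rw [hπ₀ x (fun hc => hx (hCΓ hc))]; rfl
  have hpow : ∀ j : ℕ, ∀ x ∈ Γ, (y₀ ^ j) x = ((Perm.ofSubtype τ : Perm α) ^ j) x := by
    intro j
    induction j with
    | zero => intro x _; rfl
    | succ j ih =>
      intro x hx
      rw [pow_succ, pow_succ, Perm.mul_apply, Perm.mul_apply, hy₀ x (Finset.mem_insert_of_mem hx),
        ih _ (supp_mem' _ C Γ hCΓ hπ₀ x hx)]
  have hy₀p : y₀ ^ p ∈ fixG G Γ := by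
    refine ⟨G.pow_mem hy₀G p, fun x hx => ?_⟩
    rw [hpow p x hx, hπ₀p]; rfl
  -- p divides the index of H in L
  have hidx : p ∣ (fixG G Γ).relIndex (Lsub G Γ C hCΓ) := by
    haveI : ((fixG G Γ).subgroupOf (Lsub G Γ C hCΓ)).Normal := by
      refine ⟨fun n hn g => ?_⟩
      rw [Subgroup.mem_subgroupOf] at hn ⊢
      obtain ⟨-, π, hπ, hgπ⟩ := (g⁻¹).2
      refine ⟨G.mul_mem (G.mul_mem (hLG g.2) hn.1) (G.inv_mem (hLG g.2)), fun x hx => ?_⟩
      have h1 : ((g⁻¹ : ↥(Lsub G Γ C hCΓ)) : Perm α) x ∈ Γ := by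
        rw [hgπ x hx]; exact supp_mem' π C Γ hCΓ hπ x hx
      show (g : Perm α) ((n : Perm α) (((g⁻¹ : ↥(Lsub G Γ C hCΓ)) : Perm α) x)) = x
      rw [hn.2 _ h1]
      simp
    have h1 : (QuotientGroup.mk (⟨y₀, hy₀L⟩ : ↥(Lsub G Γ C hCΓ)) :
        ↥(Lsub G Γ C hCΓ) ⧸ (fixG G Γ).subgroupOf (Lsub G Γ C hCΓ)) ^ p = 1 := by
      rw [← QuotientGroup.mk_pow, QuotientGroup.eq_one_iff, Subgroup.mem_subgroupOf]
      exact hy₀p
    have h2 : (QuotientGroup.mk (⟨y₀, hy₀L⟩ : ↥(Lsub G Γ C hCΓ)) :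
        ↥(Lsub G Γ C hCΓ) ⧸ (fixG G Γ).subgroupOf (Lsub G Γ C hCΓ)) ≠ 1 := by
      rw [Ne, QuotientGroup.eq_one_iff, Subgroup.mem_subgroupOf]
      exact hy₀H
    have h3 := orderOf_eq_prime h1 h2
    have h4 := orderOf_dvd_natCard (QuotientGroup.mk (⟨y₀, hy₀L⟩ : ↥(Lsub G Γ C hCΓ)) :
        ↥(Lsub G Γ C hCΓ) ⧸ (fixG G Γ).subgroupOf (Lsub G Γ C hCΓ))
    rw [h3, ← Subgroup.index_eq_card] at h4
    exact h4
  have hcardL : Nat.card (Lsub G Γ C hCΓ) =
      Nat.card (fixG G Γ) * (fixG G Γ).relIndex (Lsub G Γ C hCΓ) := by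
    have h1 := Subgroup.card_mul_index ((fixG G Γ).subgroupOf (Lsub G Γ C hCΓ))
    rw [Nat.card_congr (Subgroup.subgroupOfEquivOfLe hHL).toEquiv] at h1
    exact h1.symm
  -- Sylow subgroup of L
  let S : Sylow p ↥(Lsub G Γ C hCΓ) := default
  have hS'p : IsPGroup p ↥((S : Subgroup ↥(Lsub G Γ C hCΓ)).map (Lsub G Γ C hCΓ).subtype) :=
    S.isPGroup'.map _
  have hS'card : Nat.card ↥((S : Subgroup ↥(Lsub G Γ C hCΓ)).map (Lsub G Γ C hCΓ).subtype) =
      p ^ (Nat.card (Lsub G Γ C hCΓ)).factorization p := by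
    rw [Subgroup.card_map_of_injective (Lsub G Γ C hCΓ).subtype_injective, S.card_eq_multiplicity]
  have hS'L : (S : Subgroup ↥(Lsub G Γ C hCΓ)).map (Lsub G Γ C hCΓ).subtype ≤ Lsub G Γ C hCΓ :=
    Subgroup.map_subtype_le _
  -- fixed points in each orbit
  have hfixpt : ∀ i : Fin p, ∃ b ∈ MulAction.orbit (fixingSubgroup G (Γ : Set α)) (f i),
      ∀ g ∈ (S : Subgroup ↥(Lsub G Γ C hCΓ)).map (Lsub G Γ C hCΓ).subtype, g b = b :=
    fun i => fix_pt _ hS'p _ (fun g hg x hx => hLorb g (hS'L hg) i x hx) (hcon i)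
  choose b hbΔ hbfix using hfixpt
  have hbinj : Function.Injective b := by
    intro i j hij
    by_contra hne
    obtain ⟨h, hh, hhi⟩ := (horb i (b i)).mp (hbΔ i)
    obtain ⟨h', hh', hhj⟩ := (horb j (b j)).mp (hbΔ j)
    apply hdist i j hne
    rw [horb]
    refine ⟨h'⁻¹ * h, (fixG G Γ).mul_mem ((fixG G Γ).inv_mem hh') hh, ?_⟩
    rw [Perm.mul_apply, hhi, hij, ← hhj, inv_app]
  have hT : ((Γ \ C) ∪ Finset.univ.image b).card = k := by
    rw [Finset.card_union_of_disjoint, Finset.card_sdiff_of_subset hCΓ,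
      Finset.card_image_of_injective _ hbinj, Finset.card_univ, Fintype.card_fin, hΓ, hCp]
    · omega
    · rw [Finset.disjoint_left]
      intro x hx hx'
      obtain ⟨i, -, rfl⟩ := Finset.mem_image.mp hx'
      exact hout i _ (hbΔ i) (Finset.mem_sdiff.mp hx).1
  obtain ⟨g, hgG, hg⟩ := homog G hgen _ Γ _ hΓ hT rfl
  have hle : (((S : Subgroup ↥(Lsub G Γ C hCΓ)).map (Lsub G Γ C hCΓ).subtype).map
      (MulAut.conj g⁻¹).toMonoidHom) ≤ fixG G Γ := by
    rintro _ ⟨s, hs, rfl⟩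
    obtain ⟨hsG, π, hπ, hsπ⟩ := hS'L hs
    refine ⟨?_, fun x hx => ?_⟩
    · show g⁻¹ * s * g⁻¹⁻¹ ∈ G
      exact G.mul_mem (G.mul_mem (G.inv_mem hgG) hsG) (G.inv_mem (G.inv_mem hgG))
    · show (g⁻¹ * s * g⁻¹⁻¹) x = x
      rw [inv_inv, Perm.mul_apply, Perm.mul_apply]
      have hsx : s (g x) = g x := by
        rcases Finset.mem_union.mp (hg x hx) with h | h
        · rw [Finset.mem_sdiff] at h
          rw [hsπ _ h.1, hπ _ h.2]
        · obtain ⟨i, -, hi⟩ := Finset.mem_image.mp h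
          rw [← hi]
          exact hbfix i s hs
      rw [hsx, inv_app]
  have hdvd2 := Subgroup.card_dvd_of_le hle
  rw [Subgroup.card_map_of_injective (MulAut.conj g⁻¹).injective, hS'card] at hdvd2
  have hH0 : Nat.card (fixG G Γ) ≠ 0 := Nat.card_pos.ne'
  have hL0 : Nat.card (Lsub G Γ C hCΓ) ≠ 0 := Nat.card_pos.ne'
  have h5 : p ^ ((Nat.card (fixG G Γ)).factorization p + 1) ∣ Nat.card (Lsub G Γ C hCΓ) := by
    rw [hcardL, pow_succ]
    exact Nat.mul_dvd_mul (Nat.ordProj_dvd _ _) hidx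
  have h6 := (hp.pow_dvd_iff_le_factorization hL0).mp h5
  exact Nat.pow_succ_factorization_not_dvd hH0 hp ((pow_dvd_pow p h6).trans hdvd2)

end Cfsg.Agent.S0706
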