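import Cfsg.Statements.S0707
import Mathlib

set_option autoImplicit false
open Cfsg

namespace Cfsg.Agent.S0707

theorem card_prime_of_isCoatom_bot {G : Type*} [Group G] (hco : IsCoatom (⊥ : Subgroup G)) :
    (Nat.card G).Prime := by
  have hall : ∀ H : Subgroup G, H = ⊥ ∨ H = ⊤ := by
    intro H
    by_cases hH : H = ⊥
    · exact Or.inl hH
    · exact Or.inr (hco.2 H (bot_lt_iff_ne_bot.mpr hH))
  have hnt : Nontrivial G := by
    rw [← Subgroup.nontrivial_iff]
    exact ⟨⟨⊥, ⊤, hco.1⟩⟩
  obtain ⟨g, hg⟩ := exists_ne (1 : G)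
  have hz : Subgroup.zpowers g = ⊤ := by
    rcases hall (Subgroup.zpowers g) with h | h
    · exfalso
      apply hg
      have : g ∈ Subgroup.zpowers g := Subgroup.mem_zpowers g
      rw [h, Subgroup.mem_bot] at this
      exact this
    · exact h
  have hcomm : IsMulCommutative G := by
    refine ⟨⟨fun x y => ?_⟩⟩
    have hx : x ∈ Subgroup.zpowers g := by rw [hz]; trivial
    have hy : y ∈ Subgroup.zpowers g := by rw [hz]; trivial
    obtain ⟨i, rfl⟩ := Subgroup.mem_zpowers_iff.mp hx
    obtain ⟨j, rfl⟩ := Subgroup.mem_zpowers_iff.mp hy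
    rw [← zpow_add, ← zpow_add, add_comm]
  have hsimple : IsSimpleGroup G := ⟨fun H _ => hall H⟩
  exact Group.is_simple_iff_prime_card.mp hsimple

/-- In a primitive permutation group, distinct points have distinct stabilisers unless the group is regular of prime degree. -/
theorem result {α : Type*} (G : Subgroup (Equiv.Perm α)) [MulAction.IsPreprimitive G α] (h : ¬ (Nat.card α).Prime ∨ ∃ a : α, MulAction.stabilizer G a ≠ ⊥) {a b : α} (hab : a ≠ b) : MulAction.stabilizer G a ≠ MulAction.stabilizer G b := by
  intro heq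
  have hnt : Nontrivial α := ⟨⟨a, b, hab⟩⟩
  have hco : IsCoatom (MulAction.stabilizer G a) :=
    MulAction.IsPreprimitive.isCoatom_stabilizer_of_isPreprimitive (G := G) a
  obtain ⟨g, hg⟩ := MulAction.exists_smul_eq G a b
  have hgN : g ∈ Subgroup.normalizer (MulAction.stabilizer G a : Set G) := by
    rw [Subgroup.mem_normalizer_iff]
    intro k
    constructor
    · intro hk
      rw [heq, MulAction.mem_stabilizer_iff, ← hg, mul_smul, mul_smul, inv_smul_smul]
      rw [MulAction.mem_stabilizer_iff] at hk
      rw [hk]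
    · intro hk
      rw [heq, MulAction.mem_stabilizer_iff, ← hg, mul_smul, mul_smul, inv_smul_smul] at hk
      rw [MulAction.mem_stabilizer_iff]
      exact smul_left_cancel g hk
  have hgnot : g ∉ MulAction.stabilizer G a := by
    intro hmem
    rw [MulAction.mem_stabilizer_iff] at hmem
    exact hab (hmem.symm.trans hg)
  have hNtop : Subgroup.normalizer (MulAction.stabilizer G a : Set G) = ⊤ := by
    apply hco.2
    apply lt_of_le_of_ne Subgroup.le_normalizer
    intro hEq
    apply hgnot
    rw [hEq]
    exact hgN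
  have hconj : ∀ (x k : G), k ∈ MulAction.stabilizer G a → x * k * x⁻¹ ∈ MulAction.stabilizer G a := by
    intro x k hk
    have hx : x ∈ Subgroup.normalizer (MulAction.stabilizer G a : Set G) := by
      rw [hNtop]
      trivial
    exact (Subgroup.mem_normalizer_iff.mp hx k).mp hk
  have hfixall : ∀ k ∈ MulAction.stabilizer G a, ∀ c : α, k • c = c := by
    intro k hk c
    obtain ⟨x, hx⟩ := MulAction.exists_smul_eq G a c
    have h1 := hconj x⁻¹ k hk
    rw [MulAction.mem_stabilizer_iff, inv_inv, mul_smul, mul_smul, hx] at h1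
    have h2 := congrArg (fun z => x • z) h1
    simp only [smul_inv_smul] at h2
    rw [h2, hx]
  have hbot : MulAction.stabilizer G a = ⊥ := by
    rw [Subgroup.eq_bot_iff_forall]
    intro k hk
    apply Subtype.ext
    apply Equiv.ext
    intro c
    exact hfixall k hk c
  have hbotc : ∀ c : α, MulAction.stabilizer G c = ⊥ := by
    intro c
    rw [Subgroup.eq_bot_iff_forall]
    intro k hk
    obtain ⟨x, hx⟩ := MulAction.exists_smul_eq G a c
    rw [MulAction.mem_stabilizer_iff, ← hx] at hk
    have h1 : x⁻¹ * k * x ∈ MulAction.stabilizer G a := by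
      rw [MulAction.mem_stabilizer_iff, mul_smul, mul_smul, hk, inv_smul_smul]
    rw [hbot, Subgroup.mem_bot] at h1
    have h2 : k = x * (x⁻¹ * k * x) * x⁻¹ := by group
    rw [h2, h1, mul_one, mul_inv_cancel]
  rcases h with h | ⟨c, hc⟩
  · apply h
    rw [hbot] at hco
    have hprime := card_prime_of_isCoatom_bot hco
    have hbij : Function.Bijective (fun x : G => x • a) := by
      constructor
      · intro x y hxy
        have hxy' : x • a = y • a := hxy
        have h1 : y⁻¹ * x ∈ MulAction.stabilizer G a := by
          rw [MulAction.mem_stabilizer_iff, mul_smul, hxy', inv_smul_smul]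
        rw [hbot, Subgroup.mem_bot] at h1
        exact (inv_mul_eq_one.mp h1).symm
      · intro c
        exact MulAction.exists_smul_eq G a c
    rw [← Nat.card_congr (Equiv.ofBijective _ hbij)]
    exact hprime
  · exact hc (hbotc c)

end Cfsg.Agent.S0707
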