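import Cfsg.Statements.S0709
import Mathlib

set_option autoImplicit false
open Cfsg

namespace Cfsg.Agent.S0709

variable {α : Type*}

theorem conj_eq (a b : Equiv.Perm α) : b * a * b⁻¹ = a⁻¹ * (a * b) ^ 2 * (b ^ 2)⁻¹ := by
  simp [pow_two, mul_assoc]

theorem cube_eq (a b : Equiv.Perm α) : (b * a) ^ 3 = a⁻¹ * (a * b) ^ 3 * a := by
  simp [pow_succ, mul_assoc]

/-- One step of Witt's construction: if `X` fixes `inf`, `s` swaps `inf` and `p`, and the
relations hold, then the group generated by `X` and `s` is `X ∪ X s X`. -/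
theorem witt_step (X : Subgroup (Equiv.Perm α)) (s : Equiv.Perm α) (p inf : α) (Ω : Set α)
    (hinf : ∀ x ∈ X, x inf = inf)
    (hΩ : ∀ x ∈ X, ∀ a ∈ Ω, x a ∈ Ω) (hs : s inf = p) (hpΩ : p ∈ Ω)
    (htr : ∀ a ∈ Ω, ∀ b ∈ Ω, a ≠ p → b ≠ p → ∃ y ∈ X, y p = p ∧ y a = b)
    (hs2 : s ^ 2 ∈ X)
    (hn : ∀ y ∈ X, y p = p → s * y * s⁻¹ ∈ X)
    (g₀ : Equiv.Perm α) (hg₀ : g₀ ∈ X) (hg₀p : g₀ p ≠ p) (h3 : (s * g₀) ^ 3 ∈ X) :
    ∀ g ∈ Subgroup.closure ((X : Set (Equiv.Perm α)) ∪ {s}),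
      g ∈ X ∨ ∃ x ∈ X, ∃ x' ∈ X, g = x * s * x' := by
  have hsp : s p = inf := by
    have := hinf _ hs2
    rw [pow_two, Equiv.Perm.mul_apply, hs] at this
    exact this
  have hsinv : s⁻¹ = (s ^ 2)⁻¹ * s := by simp [pow_two]
  have hn' : ∀ y ∈ X, y p = p → s⁻¹ * y * s ∈ X := by
    intro y hy hyp
    have : s⁻¹ * y * s = (s ^ 2)⁻¹ * (s * y * s⁻¹) * s ^ 2 := by
      simp [pow_two, mul_assoc]
    rw [this]
    exact X.mul_mem (X.mul_mem (X.inv_mem hs2) (hn y hy hyp)) hs2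
  have hdec : ∀ x ∈ X, x p = p ∨
      ∃ y ∈ X, ∃ y' ∈ X, y p = p ∧ y' p = p ∧ x = y * g₀ * y' := by
    intro x hx
    by_cases hxp : x p = p
    · exact Or.inl hxp
    · right
      obtain ⟨y, hy, hyp, hya⟩ := htr (g₀ p) (hΩ g₀ hg₀ p hpΩ) (x p) (hΩ x hx p hpΩ) hg₀p hxp
      refine ⟨y, hy, (y * g₀)⁻¹ * x, X.mul_mem (X.inv_mem (X.mul_mem hy hg₀)) hx, hyp, ?_, ?_⟩
      · rw [Equiv.Perm.mul_apply, Equiv.Perm.inv_eq_iff_eq, Equiv.Perm.mul_apply, hya]
      · simp [mul_assoc]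
  have hD : ∀ x ∈ X, s * x * s ∈ X ∨ ∃ u ∈ X, ∃ v ∈ X, s * x * s = u * s * v := by
    intro x hx
    rcases hdec x hx with hxp | ⟨y, hy, y', hy', hyp, hy'p, rfl⟩
    · left
      have : s * x * s = (s * x * s⁻¹) * s ^ 2 := by simp [pow_two, mul_assoc]
      rw [this]
      exact X.mul_mem (hn x hx hxp) hs2
    · right
      refine ⟨(s * y * s⁻¹) * ((s * g₀) ^ 3 * g₀⁻¹ * (s ^ 2)⁻¹), ?_, g₀⁻¹ * (s⁻¹ * y' * s), ?_, ?_⟩
      · exact X.mul_mem (hn y hy hyp) (X.mul_mem (X.mul_mem h3 (X.inv_mem hg₀)) (X.inv_mem hs2))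
      · exact X.mul_mem (X.inv_mem hg₀) (hn' y' hy' hy'p)
      · simp [pow_succ, mul_assoc]
  intro g hg
  induction hg using Subgroup.closure_induction with
  | mem x hx =>
    rcases hx with hx | hx
    · exact Or.inl hx
    · rw [Set.mem_singleton_iff] at hx
      subst hx
      exact Or.inr ⟨1, X.one_mem, 1, X.one_mem, by simp⟩
  | one => exact Or.inl X.one_mem
  | mul x y _ _ ihx ihy =>
    rcases ihx with hx | ⟨x₁, hx₁, x₂, hx₂, rfl⟩
    · rcases ihy with hy | ⟨y₁, hy₁, y₂, hy₂, rfl⟩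
      · exact Or.inl (X.mul_mem hx hy)
      · exact Or.inr ⟨x * y₁, X.mul_mem hx hy₁, y₂, hy₂, by simp [mul_assoc]⟩
    · rcases ihy with hy | ⟨y₁, hy₁, y₂, hy₂, rfl⟩
      · exact Or.inr ⟨x₁, hx₁, x₂ * y, X.mul_mem hx₂ hy, by simp [mul_assoc]⟩
      · rcases hD (x₂ * y₁) (X.mul_mem hx₂ hy₁) with h | ⟨u, hu, v, hv, h⟩
        · left
          have : x₁ * s * x₂ * (y₁ * s * y₂) = x₁ * (s * (x₂ * y₁) * s) * y₂ := by
            simp [mul_assoc]
          rw [this]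
          exact X.mul_mem (X.mul_mem hx₁ h) hy₂
        · right
          refine ⟨x₁ * u, X.mul_mem hx₁ hu, v * y₂, X.mul_mem hv hy₂, ?_⟩
          have : x₁ * s * x₂ * (y₁ * s * y₂) = x₁ * (s * (x₂ * y₁) * s) * y₂ := by
            simp [mul_assoc]
          rw [this, h]
          simp [mul_assoc]
  | inv x _ ihx =>
    rcases ihx with hx | ⟨x₁, hx₁, x₂, hx₂, rfl⟩
    · exact Or.inl (X.inv_mem hx)
    · right
      refine ⟨x₂⁻¹ * (s ^ 2)⁻¹, X.mul_mem (X.inv_mem hx₂) (X.inv_mem hs2), x₁⁻¹, X.inv_mem hx₁, ?_⟩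
      simp [pow_two, mul_assoc]

/-- The subgroup generated by `G` and `s 2, …, s (j-1)`. -/
def Gj (G : Subgroup (Equiv.Perm α)) (s : ℕ → Equiv.Perm α) (j : ℕ) :
    Subgroup (Equiv.Perm α) :=
  Subgroup.closure ((G : Set (Equiv.Perm α)) ∪ {x | ∃ i : ℕ, 2 ≤ i ∧ i + 1 ≤ j ∧ x = s i})

theorem G_le_Gj (G : Subgroup (Equiv.Perm α)) (s : ℕ → Equiv.Perm α) (j : ℕ) :
    G ≤ Gj G s j := fun _ hg => Subgroup.subset_closure (Or.inl hg)

theorem s_mem_Gj (G : Subgroup (Equiv.Perm α)) (s : ℕ → Equiv.Perm α) {i j : ℕ}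
    (hi : 2 ≤ i) (hij : i + 1 ≤ j) : s i ∈ Gj G s j :=
  Subgroup.subset_closure (Or.inr ⟨i, hi, hij, rfl⟩)

theorem Gj_mono (G : Subgroup (Equiv.Perm α)) (s : ℕ → Equiv.Perm α) {j k : ℕ}
    (h : j ≤ k) : Gj G s j ≤ Gj G s k := by
  apply Subgroup.closure_mono
  rintro x (hx | ⟨i, hi, hij, rfl⟩)
  · exact Or.inl hx
  · exact Or.inr ⟨i, hi, by omega, rfl⟩

theorem Gj_two (G : Subgroup (Equiv.Perm α)) (s : ℕ → Equiv.Perm α) : Gj G s 2 = G := by
  apply le_antisymm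
  · rw [Gj, Subgroup.closure_le]
    rintro x (hx | ⟨i, hi, hij, rfl⟩)
    · exact hx
    · omega
  · exact G_le_Gj G s 2

theorem Gj_succ (G : Subgroup (Equiv.Perm α)) (s : ℕ → Equiv.Perm α) (j : ℕ) (hj : 2 ≤ j) :
    Gj G s (j + 1) = Subgroup.closure ((Gj G s j : Set (Equiv.Perm α)) ∪ {s j}) := by
  apply le_antisymm
  · rw [Gj, Subgroup.closure_le]
    rintro x (hx | ⟨i, hi, hij, rfl⟩)
    · exact Subgroup.subset_closure (Or.inl (G_le_Gj G s j hx))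
    · by_cases h : i = j
      · subst h
        exact Subgroup.subset_closure (Or.inr rfl)
      · exact Subgroup.subset_closure (Or.inl (s_mem_Gj G s hi (by omega)))
  · rw [Subgroup.closure_le]
    rintro x (hx | hx)
    · exact Gj_mono G s (Nat.le_succ j) hx
    · rw [Set.mem_singleton_iff] at hx
      subst hx
      exact s_mem_Gj G s hj le_rfl

/-- The points not among `q (j+1), …, q t`. -/
def Om (t : ℕ) (q : ℕ → α) (j : ℕ) : Set α := {x | ∀ i, j < i → i ≤ t → x ≠ q i}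

/-- The hypotheses of Witt's lemma. -/
structure WD (t : ℕ) (q : ℕ → α) (G : Subgroup (Equiv.Perm α)) (s : ℕ → Equiv.Perm α)
    (H : Subgroup (Equiv.Perm α)) : Prop where
  ht : 2 ≤ t
  hq : ∀ i j : ℕ, 1 ≤ i → i ≤ t → 1 ≤ j → j ≤ t → q i = q j → i = j
  hfix : ∀ g ∈ G, ∀ i : ℕ, 3 ≤ i → i ≤ t → g (q i) = q i
  h2 : ∀ a b c d : α, (∀ i, 3 ≤ i → i ≤ t → a ≠ q i ∧ b ≠ q i ∧ c ≠ q i ∧ d ≠ q i) → a ≠ b →
    c ≠ d → ∃ g ∈ G, g a = c ∧ g b = d
  hs1 : s 1 ∈ G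
  hs1q : s 1 (q 1) = q 2 ∧ s 1 (q 2) = q 1
  hsq : ∀ i : ℕ, 2 ≤ i → i + 1 ≤ t → s i (q i) = q (i + 1) ∧ s i (q (i + 1)) = q i ∧
    ∀ j : ℕ, 1 ≤ j → j ≤ t → j ≠ i → j ≠ i + 1 → s i (q j) = q j
  hH : H = G ⊓ MulAction.stabilizer (Equiv.Perm α) (q 1) ⊓
    MulAction.stabilizer (Equiv.Perm α) (q 2)
  hsq2 : ∀ i : ℕ, 1 ≤ i → i + 1 ≤ t → s i ^ 2 ∈ H
  hbraid : ∀ i : ℕ, 1 ≤ i → i + 2 ≤ t → (s i * s (i + 1)) ^ 3 ∈ H
  hcomm : ∀ i j : ℕ, 1 ≤ i → i + 2 ≤ j → j + 1 ≤ t →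
    (s i * s j) ^ 2 ∈ H ∧ (s j * s i) ^ 2 ∈ H
  hnorm : ∀ i : ℕ, 2 ≤ i → i + 1 ≤ t →
    ∀ g ∈ G ⊓ MulAction.stabilizer (Equiv.Perm α) (q 2),
      s i * g * (s i)⁻¹ ∈ G ⊓ MulAction.stabilizer (Equiv.Perm α) (q 2)

namespace WD

variable {t : ℕ} {q : ℕ → α} {G : Subgroup (Equiv.Perm α)} {s : ℕ → Equiv.Perm α}
  {H : Subgroup (Equiv.Perm α)}

theorem H_le (W : WD t q G s H) : H ≤ G := by
  rw [W.hH]
  exact inf_le_left.trans inf_le_left

theorem qne (W : WD t q G s H) {i j : ℕ} (hi : 1 ≤ i) (hit : i ≤ t) (hj : 1 ≤ j) (hjt : j ≤ t)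
    (hij : i ≠ j) : q i ≠ q j := fun h => hij (W.hq i j hi hit hj hjt h)

theorem Gj_fix (W : WD t q G s H) (j : ℕ) (hj : 2 ≤ j) :
    ∀ g ∈ Gj G s j, ∀ i, j < i → i ≤ t → g (q i) = q i := by
  intro g hg i hji hit
  induction hg using Subgroup.closure_induction with
  | mem x hx =>
    rcases hx with hx | ⟨k, hk, hkj, rfl⟩
    · exact W.hfix x hx i (by omega) hit
    · exact (W.hsq k hk (by omega)).2.2 i (by omega) hit (by omega) (by omega)
  | one => rfl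
  | mul x y _ _ ihx ihy => rw [Equiv.Perm.mul_apply, ihy, ihx]
  | inv x _ ihx => rw [Equiv.Perm.inv_eq_iff_eq, ihx]

theorem conj_G (W : WD t q G s H) (m : ℕ) (hm : 3 ≤ m) (hmt : m + 1 ≤ t) :
    ∀ g ∈ G, s m * g * (s m)⁻¹ ∈ G := by
  intro g hg
  have hY : ∀ y ∈ G, y (q 2) = q 2 → s m * y * (s m)⁻¹ ∈ G := by
    intro y hy hy2
    have : y ∈ G ⊓ MulAction.stabilizer (Equiv.Perm α) (q 2) :=
      Subgroup.mem_inf.mpr ⟨hy, MulAction.mem_stabilizer_iff.mpr hy2⟩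
    exact (Subgroup.mem_inf.mp (W.hnorm m (by omega) hmt y this)).1
  by_cases hg2 : g (q 2) = q 2
  · exact hY g hg hg2
  · have hΩ : ∀ i, 3 ≤ i → i ≤ t → g (q 2) ≠ q i := by
      intro i hi hit h
      rw [← W.hfix g hg i hi hit] at h
      have := W.hq 2 i (by omega) (by omega) (by omega) hit (g.injective h)
      omega
    obtain ⟨y, hy, hy2, hy1⟩ := W.h2 (q 2) (q 1) (q 2) (g (q 2))
      (fun i hi hit => ⟨W.qne (by omega) (by omega) (by omega) hit (by omega),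
        W.qne (by omega) (by omega) (by omega) hit (by omega),
        W.qne (by omega) (by omega) (by omega) hit (by omega), hΩ i hi hit⟩)
      (W.qne (by omega) (by omega) (by omega) (by omega) (by omega)) (Ne.symm hg2)
    have hy' : (y * s 1)⁻¹ * g ∈ G := G.mul_mem (G.inv_mem (G.mul_mem hy W.hs1)) hg
    have hy'2 : ((y * s 1)⁻¹ * g) (q 2) = q 2 := by
      rw [Equiv.Perm.mul_apply, Equiv.Perm.inv_eq_iff_eq, Equiv.Perm.mul_apply, W.hs1q.2, hy1]
    have hs1 : s m * s 1 * (s m)⁻¹ ∈ G := by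
      rw [conj_eq]
      have h := W.hcomm 1 m le_rfl (by omega) hmt
      exact G.mul_mem (G.mul_mem (G.inv_mem W.hs1) (W.H_le h.1))
        (G.inv_mem (W.H_le (W.hsq2 m (by omega) hmt)))
    have : s m * g * (s m)⁻¹ = (s m * y * (s m)⁻¹) * (s m * s 1 * (s m)⁻¹) *
        (s m * ((y * s 1)⁻¹ * g) * (s m)⁻¹) := by
      simp [mul_assoc]
    rw [this]
    exact G.mul_mem (G.mul_mem (hY y hy hy2) hs1) (hY _ hy' hy'2)

theorem conj_mem (W : WD t q G s H) (j : ℕ) (hj : 2 ≤ j) (hjt : j + 2 ≤ t) :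
    ∀ y ∈ Gj G s j, s (j + 1) * y * (s (j + 1))⁻¹ ∈ Gj G s j := by
  intro y hy
  induction hy using Subgroup.closure_induction with
  | mem x hx =>
    rcases hx with hx | ⟨k, hk, hkj, rfl⟩
    · exact G_le_Gj G s j (W.conj_G (j + 1) (by omega) (by omega) x hx)
    · rw [conj_eq]
      have h := W.hcomm k (j + 1) (by omega) (by omega) (by omega)
      exact (Gj G s j).mul_mem ((Gj G s j).mul_mem ((Gj G s j).inv_mem (s_mem_Gj G s hk hkj))
        (G_le_Gj G s j (W.H_le h.1)))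
        ((Gj G s j).inv_mem (G_le_Gj G s j (W.H_le (W.hsq2 (j + 1) (by omega) (by omega)))))
  | one => simp
  | mul x y _ _ ihx ihy =>
    have : s (j + 1) * (x * y) * (s (j + 1))⁻¹ =
        (s (j + 1) * x * (s (j + 1))⁻¹) * (s (j + 1) * y * (s (j + 1))⁻¹) := by
      simp [mul_assoc]
    rw [this]
    exact (Gj G s j).mul_mem ihx ihy
  | inv x _ ihx =>
    have : s (j + 1) * x⁻¹ * (s (j + 1))⁻¹ = (s (j + 1) * x * (s (j + 1))⁻¹)⁻¹ := by
      simp [mul_assoc]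
    rw [this]
    exact (Gj G s j).inv_mem ihx


/-- The inductive statement at level `j`. -/
def Q (t : ℕ) (q : ℕ → α) (G : Subgroup (Equiv.Perm α)) (s : ℕ → Equiv.Perm α) (j : ℕ) :
    Prop :=
  (∀ a ∈ Om t q j, ∃ g ∈ Gj G s j, g a = q j) ∧
  (∀ a ∈ Om t q j, ∀ b ∈ Om t q j, a ≠ q j → b ≠ q j →
    ∃ y ∈ Gj G s j, y (q j) = q j ∧ y a = b) ∧
  (j + 1 ≤ t → ∀ y ∈ Gj G s j, y (q j) = q j → s j * y * (s j)⁻¹ ∈ Gj G s j) ∧
  (∀ j', 2 ≤ j' → j' + 1 ≤ j → ∀ g ∈ Gj G s (j' + 1), g (q (j' + 1)) = q (j' + 1) →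
    g ∈ Gj G s j')

theorem Om_of (_W : WD t q G s H) {j : ℕ} {a : α} (ha : a ∈ Om t q (j + 1))
    (ha' : a ≠ q (j + 1)) : a ∈ Om t q j := by
  intro i hji hit
  by_cases h : i = j + 1
  · subst h
    exact ha'
  · exact ha i (by omega) hit

theorem Q_all (W : WD t q G s H) : ∀ j, 2 ≤ j → j ≤ t → Q t q G s j := by
  intro j hj
  induction j, hj using Nat.le_induction with
  | base =>
    intro _
    refine ⟨?_, ?_, ?_, ?_⟩
    · intro a ha
      by_cases h : a = q 2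
      · exact ⟨1, (Gj G s 2).one_mem, by simp [h]⟩
      · obtain ⟨g, hg, hg1, _⟩ := W.h2 a (q 2) (q 2) a
          (fun i hi hit => ⟨ha i (by omega) hit,
            W.qne (by omega) (by omega) (by omega) hit (by omega),
            W.qne (by omega) (by omega) (by omega) hit (by omega), ha i (by omega) hit⟩)
          h (Ne.symm h)
        exact ⟨g, G_le_Gj G s 2 hg, hg1⟩
    · intro a ha b hb ha2 hb2
      obtain ⟨g, hg, hg1, hg2⟩ := W.h2 (q 2) a (q 2) b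
          (fun i hi hit => ⟨W.qne (by omega) (by omega) (by omega) hit (by omega),
            ha i (by omega) hit,
            W.qne (by omega) (by omega) (by omega) hit (by omega), hb i (by omega) hit⟩)
          (Ne.symm ha2) (Ne.symm hb2)
      exact ⟨g, G_le_Gj G s 2 hg, hg1, hg2⟩
    · intro h3 y hy hy2
      rw [Gj_two] at hy ⊢
      have : y ∈ G ⊓ MulAction.stabilizer (Equiv.Perm α) (q 2) :=
        Subgroup.mem_inf.mpr ⟨hy, MulAction.mem_stabilizer_iff.mpr hy2⟩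
      exact (Subgroup.mem_inf.mp (W.hnorm 2 le_rfl h3 y this)).1
    · intro j' h1 h2
      omega
  | succ j hj ih =>
    intro hjt
    obtain ⟨hb, hd1, hd2, hc⟩ := ih (by omega)
    have hfixj := W.Gj_fix j hj
    have hqj : q j ∈ Om t q j := fun i hji hit =>
      W.qne (by omega) (by omega) (by omega) hit (by omega)
    have hpres : ∀ x ∈ Gj G s j, ∀ a ∈ Om t q j, x a ∈ Om t q j := by
      intro x hx a ha i hji hit h
      rw [← hfixj x hx i hji hit] at h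
      exact ha i hji hit (x.injective h)
    have hsj := W.hsq j hj hjt
    obtain ⟨g₀, hg₀, hg₀p, h3⟩ : ∃ g₀ ∈ Gj G s j, g₀ (q j) ≠ q j ∧
        (s j * g₀) ^ 3 ∈ Gj G s j := by
      obtain ⟨k, rfl⟩ : ∃ k, j = k + 1 := ⟨j - 1, by omega⟩
      by_cases hk : k = 1
      · subst hk
        have h1 : s 1 ∈ Gj G s (1 + 1) := G_le_Gj G s _ W.hs1
        refine ⟨s 1, h1, ?_, ?_⟩
        · rw [W.hs1q.2]
          exact W.qne (by omega) (by omega) (by omega) (by omega) (by omega)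
        · rw [cube_eq]
          exact (Gj G s _).mul_mem ((Gj G s _).mul_mem ((Gj G s _).inv_mem h1)
            (G_le_Gj G s _ (W.H_le (W.hbraid 1 le_rfl (by omega))))) h1
      · have h1 : s k ∈ Gj G s (k + 1) := s_mem_Gj G s (by omega) le_rfl
        refine ⟨s k, h1, ?_, ?_⟩
        · rw [(W.hsq k (by omega) (by omega)).2.1]
          exact W.qne (by omega) (by omega) (by omega) (by omega) (by omega)
        · rw [cube_eq]
          exact (Gj G s _).mul_mem ((Gj G s _).mul_mem ((Gj G s _).inv_mem h1)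
            (G_le_Gj G s _ (W.H_le (W.hbraid k (by omega) (by omega))))) h1
    have key := witt_step (Gj G s j) (s j) (q j) (q (j + 1)) (Om t q j)
      (fun x hx => hfixj x hx (j + 1) (by omega) hjt) hpres hsj.2.1 hqj hd1
      (G_le_Gj G s j (W.H_le (W.hsq2 j (by omega) hjt))) (hd2 hjt) g₀ hg₀ hg₀p h3
    have hcj : ∀ g ∈ Gj G s (j + 1), g (q (j + 1)) = q (j + 1) → g ∈ Gj G s j := by
      intro g hg hgq
      rw [Gj_succ G s j hj] at hg
      rcases key g hg with h | ⟨x, hx, x', hx', rfl⟩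
      · exact h
      · exfalso
        rw [Equiv.Perm.mul_apply, Equiv.Perm.mul_apply, hfixj x' hx' (j + 1) (by omega) hjt,
          hsj.2.1] at hgq
        have hgq' : x (q j) = x (q (j + 1)) :=
          hgq.trans (hfixj x hx (j + 1) (by omega) hjt).symm
        have := W.hq j (j + 1) (by omega) (by omega) (by omega) hjt (x.injective hgq')
        omega
    have hle : Gj G s j ≤ Gj G s (j + 1) := Gj_mono G s (Nat.le_succ j)
    refine ⟨?_, ?_, ?_, ?_⟩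
    · intro a ha
      by_cases h : a = q (j + 1)
      · exact ⟨1, (Gj G s _).one_mem, by simp [h]⟩
      · obtain ⟨g₁, hg₁, hg₁a⟩ := hb a (W.Om_of ha h)
        refine ⟨s j * g₁, (Gj G s _).mul_mem (s_mem_Gj G s hj le_rfl) (hle hg₁), ?_⟩
        rw [Equiv.Perm.mul_apply, hg₁a, hsj.1]
    · intro a ha b hb' ha2 hb2
      obtain ⟨g₁, hg₁, hg₁a⟩ := hb a (W.Om_of ha ha2)
      obtain ⟨g₂, hg₂, hg₂b⟩ := hb b (W.Om_of hb' hb2)
      have hmem : g₂⁻¹ * g₁ ∈ Gj G s j := (Gj G s j).mul_mem ((Gj G s j).inv_mem hg₂) hg₁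
      refine ⟨g₂⁻¹ * g₁, hle hmem, hfixj _ hmem (j + 1) (by omega) hjt, ?_⟩
      rw [Equiv.Perm.mul_apply, hg₁a, Equiv.Perm.inv_eq_iff_eq, hg₂b]
    · intro hjt2 y hy hyq
      exact hle (W.conj_mem j hj (by omega) y (hcj y hy hyq))
    · intro j' h1 h2 g hg hgq
      by_cases h : j' = j
      · subst h
        exact hcj g hg hgq
      · exact hc j' h1 (by omega) g hg hgq

theorem T (W : WD t q G s H) : ∀ j, 2 ≤ j → j ≤ t → ∀ a : ℕ → α,
    (∀ i i', 1 ≤ i → i ≤ t → 1 ≤ i' → i' ≤ t → a i = a i' → i = i') →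
    (∀ i, j < i → i ≤ t → a i = q i) →
    ∃ g ∈ Gj G s j, ∀ i, 1 ≤ i → i ≤ t → g (a i) = q i := by
  intro j hj
  induction j, hj using Nat.le_induction with
  | base =>
    intro _ a hinj haq
    have ht := W.ht
    obtain ⟨g, hg, hg1, hg2⟩ := W.h2 (a 1) (a 2) (q 1) (q 2)
      (fun i hi hit => ⟨fun h => by
          have := hinj 1 i le_rfl (by omega) (by omega) hit (h.trans (haq i (by omega) hit).symm)
          omega,
        fun h => by
          have := hinj 2 i (by omega) (by omega) (by omega) hit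
            (h.trans (haq i (by omega) hit).symm)
          omega,
        W.qne (by omega) (by omega) (by omega) hit (by omega),
        W.qne (by omega) (by omega) (by omega) hit (by omega)⟩)
      (fun h => by
        have := hinj 1 2 le_rfl (by omega) (by omega) (by omega) h
        omega)
      (W.qne (by omega) (by omega) (by omega) (by omega) (by omega))
    refine ⟨g, G_le_Gj G s 2 hg, ?_⟩
    intro i hi hit
    by_cases h1 : i = 1
    · subst h1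
      exact hg1
    · by_cases h2 : i = 2
      · subst h2
        exact hg2
      · rw [haq i (by omega) hit]
        exact W.hfix g hg i (by omega) hit
  | succ j hj ih =>
    intro hjt a hinj haq
    have haΩ : a (j + 1) ∈ Om t q (j + 1) := by
      intro i hji hit h
      have := hinj (j + 1) i (by omega) hjt (by omega) hit (h.trans (haq i hji hit).symm)
      omega
    obtain ⟨g₁, hg₁, hg₁a⟩ := (W.Q_all (j + 1) (by omega) hjt).1 _ haΩ
    obtain ⟨g₂, hg₂, hg₂a⟩ := ih (by omega) (fun i => g₁ (a i))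
      (fun i i' hi hit hi' hit' h => hinj i i' hi hit hi' hit' (g₁.injective h))
      (fun i hji hit => by
        by_cases h : i = j + 1
        · subst h
          exact hg₁a
        · show g₁ (a i) = q i
          rw [haq i (by omega) hit]
          exact W.Gj_fix (j + 1) (by omega) g₁ hg₁ i (by omega) hit)
    exact ⟨g₂ * g₁, (Gj G s _).mul_mem (Gj_mono G s (Nat.le_succ j) hg₂) hg₁,
      fun i hi hit => hg₂a i hi hit⟩

theorem descend (W : WD t q G s H) (g : Equiv.Perm α) (hg : g ∈ Gj G s t)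
    (hfix : ∀ i, 1 ≤ i → i ≤ t → g (q i) = q i) : g ∈ G := by
  have ht := W.ht
  have hQ := (W.Q_all t ht le_rfl).2.2.2
  have key : ∀ k, k ≤ t - 2 → g ∈ Gj G s (t - k) := by
    intro k
    induction k with
    | zero => intro _; exact hg
    | succ k ih =>
      intro hk
      have h1 := ih (by omega)
      have h2 : t - k = (t - (k + 1)) + 1 := by omega
      rw [h2] at h1
      exact hQ (t - (k + 1)) (by omega) (by omega) g h1 (hfix _ (by omega) (by omega))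
  have := key (t - 2) le_rfl
  have h2 : t - (t - 2) = 2 := by omega
  rw [h2, Gj_two] at this
  exact this

end WD

/-- Witt's Lemma for constructing transitive extensions. Points `q 1, …, q t` (`t ≥ 2`) of a finite set are given; `G` fixes `q i` for `i ≥ 3` and is doubly transitive on the remaining points; `s 1 ∈ G` swaps `q 1, q 2`; for `2 ≤ i ≤ t-1`, `s i` swaps `q i, q (i+1)` and fixes the other `q j`; with `H` the stabiliser of `q 1, q 2` in `G`: `s i ^ 2 ∈ H`, `(s i * s (i+1)) ^ 3 ∈ H`, `(s i * s j) ^ 2 ∈ H` for `j ≥ i + 2`, and `s i` (`i ≥ 2`) normalises the stabiliser of `q 2` in `G`. Then `G` and the `s i` generate a `t`-transitive group whose pointwise stabiliser of the `q`'s is `H`. -/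
theorem result {α : Type*} [Fintype α] [DecidableEq α] (t : ℕ) (ht : 2 ≤ t) (q : ℕ → α) (hq : ∀ i j : ℕ, 1 ≤ i → i ≤ t → 1 ≤ j → j ≤ t → q i = q j → i = j) (G : Subgroup (Equiv.Perm α)) (hfix : ∀ g ∈ G, ∀ i : ℕ, 3 ≤ i → i ≤ t → g (q i) = q i) (h2 : ∀ a b c d : α, (∀ i, 3 ≤ i → i ≤ t → a ≠ q i ∧ b ≠ q i ∧ c ≠ q i ∧ d ≠ q i) → a ≠ b → c ≠ d → ∃ g ∈ G, g a = c ∧ g b = d) (s : ℕ → Equiv.Perm α) (hs1 : s 1 ∈ G) (hs1q : s 1 (q 1) = q 2 ∧ s 1 (q 2) = q 1) (hsq : ∀ i : ℕ, 2 ≤ i → i + 1 ≤ t → s i (q i) = q (i + 1) ∧ s i (q (i + 1)) = q i ∧ ∀ j : ℕ, 1 ≤ j → j ≤ t → j ≠ i → j ≠ i + 1 → s i (q j) = q j) (H : Subgroup (Equiv.Perm α)) (hH : H = G ⊓ MulAction.stabilizer (Equiv.Perm α) (q 1) ⊓ MulAction.stabilizer (Equiv.Perm α) (q 2)) (hsq2 : ∀ i : ℕ, 1 ≤ i → i + 1 ≤ t → s i ^ 2 ∈ H) (hbraid : ∀ i : ℕ, 1 ≤ i → i + 2 ≤ t → (s i * s (i + 1)) ^ 3 ∈ H) (hcomm : ∀ i j : ℕ, 1 ≤ i → i + 2 ≤ j → j + 1 ≤ t → (s i * s j)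 ^ 2 ∈ H ∧ (s j * s i) ^ 2 ∈ H) (hnorm : ∀ i : ℕ, 2 ≤ i → i + 1 ≤ t → ∀ g ∈ G ⊓ MulAction.stabilizer (Equiv.Perm α) (q 2), s i * g * (s i)⁻¹ ∈ G ⊓ MulAction.stabilizer (Equiv.Perm α) (q 2)) : MulAction.IsMultiplyPretransitive ↥(Subgroup.closure ((G : Set (Equiv.Perm α)) ∪ {x | ∃ i : ℕ, 2 ≤ i ∧ i + 1 ≤ t ∧ x = s i})) α t ∧ Subgroup.closure ((G : Set (Equiv.Perm α)) ∪ {x | ∃ i : ℕ, 2 ≤ i ∧ i + 1 ≤ t ∧ x = s i}) ⊓ fixingSubgroup (Equiv.Perm α) {x | ∃ i : ℕ, 1 ≤ i ∧ i ≤ t ∧ x = q i} = H := by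
  have W : WD t q G s H :=
    ⟨ht, hq, hfix, h2, hs1, hs1q, hsq, hH, hsq2, hbraid, hcomm, hnorm⟩
  have hK : Subgroup.closure ((G : Set (Equiv.Perm α)) ∪
      {x | ∃ i : ℕ, 2 ≤ i ∧ i + 1 ≤ t ∧ x = s i}) = Gj G s t := rfl
  rw [hK]
  refine ⟨?_, ?_⟩
  · rw [MulAction.isMultiplyPretransitive_iff]
    have hT : ∀ x : Fin t ↪ α, ∃ g ∈ Gj G s t, ∀ i : Fin t, g (x i) = q (i.val + 1) := by
      intro x
      obtain ⟨g, hg, hgx⟩ := W.T t ht le_rfl
        (fun i => if h : 1 ≤ i ∧ i ≤ t then x ⟨i - 1, by omega⟩ else q i)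
        (fun i i' hi hit hi' hit' h => by
          rw [dif_pos ⟨hi, hit⟩, dif_pos ⟨hi', hit'⟩] at h
          have := x.injective h
          rw [Fin.mk.injEq] at this
          omega)
        (fun i hti hit => by omega)
      refine ⟨g, hg, fun i => ?_⟩
      have := hgx (i.val + 1) (by omega) (by have := i.isLt; omega)
      rw [dif_pos ⟨by omega, by have := i.isLt; omega⟩] at this
      simpa using this
    intro x y
    obtain ⟨g₁, hg₁, hx⟩ := hT x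
    obtain ⟨g₂, hg₂, hy⟩ := hT y
    refine ⟨⟨g₂⁻¹ * g₁, (Gj G s t).mul_mem ((Gj G s t).inv_mem hg₂) hg₁⟩, ?_⟩
    ext i
    rw [Function.Embedding.smul_apply]
    show (g₂⁻¹ * g₁) (x i) = y i
    rw [Equiv.Perm.mul_apply, hx i, Equiv.Perm.inv_eq_iff_eq, hy i]
  · ext g
    rw [Subgroup.mem_inf, mem_fixingSubgroup_iff]
    constructor
    · rintro ⟨hg, hgfix⟩
      have hfix' : ∀ i, 1 ≤ i → i ≤ t → g (q i) = q i := fun i hi hit =>
        hgfix (q i) ⟨i, hi, hit, rfl⟩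
      have hgG := W.descend g hg hfix'
      rw [hH]
      exact Subgroup.mem_inf.mpr ⟨Subgroup.mem_inf.mpr ⟨hgG,
        MulAction.mem_stabilizer_iff.mpr (hfix' 1 le_rfl (by omega))⟩,
        MulAction.mem_stabilizer_iff.mpr (hfix' 2 (by omega) ht)⟩
    · intro hg
      have hgG := W.H_le hg
      rw [hH] at hg
      obtain ⟨hg1, hg2⟩ := Subgroup.mem_inf.mp hg
      obtain ⟨_, hg1⟩ := Subgroup.mem_inf.mp hg1
      refine ⟨G_le_Gj G s t hgG, ?_⟩
      rintro _ ⟨i, hi, hit, rfl⟩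
      by_cases h1 : i = 1
      · subst h1
        exact MulAction.mem_stabilizer_iff.mp hg1
      · by_cases h2 : i = 2
        · subst h2
          exact MulAction.mem_stabilizer_iff.mp hg2
        · exact hfix g hgG i (by omega) hit

end Cfsg.Agent.S0709
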