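import Cfsg.Statements.S0710
import Mathlib

set_option autoImplicit false
open Cfsg

namespace Cfsg.Agent.S0710

open Nat in
theorem cent_card {α : Type*} [Fintype α] [DecidableEq α] (hα : Fintype.card α = 13)
    (g : Equiv.Perm α) (hg : orderOf g = 13) :
    Nat.card (Subgroup.centralizer ({g} : Set (Equiv.Perm α))) = 13 := by
  have hcyc : g.IsCycle := Equiv.Perm.isCycle_of_prime_order'' (by rw [hα]; norm_num)
    (by rw [hg, hα])
  have hsupp : g.support.card = 13 := by rw [← hcyc.orderOf, hg]
  rw [Equiv.Perm.nat_card_centralizer, hcyc.cycleType, hsupp, hα]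
  simp

/-- No transitive permutation group on 13 points has order `13 * 12 * 11 * 10 * 9 * 8`. -/
theorem result {α : Type*} [Fintype α] [DecidableEq α] (hα : Fintype.card α = 13) (G : Subgroup (Equiv.Perm α)) [MulAction.IsPretransitive G α] : Nat.card G ≠ 13 * 12 * 11 * 10 * 9 * 8 := by
  intro hcard
  have hfact : Fact (Nat.Prime 13) := ⟨by norm_num⟩
  obtain ⟨P⟩ : Nonempty (Sylow 13 G) := inferInstance
  have hP13 : Nat.card P = 13 := by
    obtain ⟨m, hm⟩ := IsPGroup.iff_card.1 P.isPGroup'
    have h1 : 13 ∣ Nat.card P := P.dvd_card_of_dvd_card (by rw [hcard]; norm_num)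
    have h2 : Nat.card P ∣ Nat.card G := Subgroup.card_subgroup_dvd_card _
    rw [hm] at h1 h2
    rw [hcard] at h2
    have hm1 : m ≠ 0 := by
      intro h
      rw [h, pow_zero] at h1
      omega
    have hm2 : m < 2 := by
      by_contra h
      push Not at h
      have h3 : 13 ^ 2 ∣ 13 * 12 * 11 * 10 * 9 * 8 := (pow_dvd_pow 13 h).trans h2
      omega
    have hm3 : m = 1 := by omega
    rw [hm, hm3, pow_one]
  have hcyc : IsCyclic P := isCyclic_of_prime_card hP13
  have h1 := card_sylow_modEq_one 13 G
  have h2 := Sylow.card_eq_index_normalizer P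
  have h3 := Subgroup.card_mul_index (Subgroup.normalizer ((P : Subgroup G) : Set G))
  have key := Subgroup.card_dvd_of_injective _
    (QuotientGroup.kerLift_injective (P : Subgroup G).normalizerMonoidHom)
  rw [Subgroup.normalizerMonoidHom_ker, ← Subgroup.index, ← Subgroup.relIndex] at key
  rw [IsCyclic.card_mulAut, hP13] at key
  have htot : Nat.totient 13 = 12 := by
    rw [Nat.totient_prime (by norm_num)]
  rw [htot] at key
  -- the centraliser
  have hC : Nat.card (Subgroup.centralizer ((P : Subgroup G) : Set G)) ∣ 13 := by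
    obtain ⟨g, hg⟩ := hcyc.exists_generator
    have hg13 : orderOf g = 13 := by
      rw [orderOf_eq_card_of_forall_mem_zpowers hg, hP13]
    have hg13' : orderOf ((g : G) : Equiv.Perm α) = 13 := by
      rw [Subgroup.orderOf_coe, Subgroup.orderOf_coe, hg13]
    have hle : (Subgroup.centralizer ((P : Subgroup G) : Set G)).map G.subtype ≤
        Subgroup.centralizer ({((g : G) : Equiv.Perm α)} : Set (Equiv.Perm α)) := by
      rintro _ ⟨c, hc, rfl⟩
      rw [Subgroup.mem_centralizer_iff]
      intro h hh
      rw [Set.mem_singleton_iff] at hh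
      rw [hh]
      have h4 := hc (g : G) g.2
      exact congrArg Subtype.val h4
    have h5 := Subgroup.card_dvd_of_le hle
    rw [Subgroup.card_map_of_injective G.subtype_injective, cent_card hα _ hg13'] at h5
    exact h5
  have h4 := Subgroup.index_mul_card ((Subgroup.centralizer ((P : Subgroup G) : Set G)).subgroupOf
    (Subgroup.normalizer ((P : Subgroup G) : Set G)))
  rw [Nat.card_congr (Subgroup.subgroupOfEquivOfLe
    (Subgroup.centralizer_le_normalizer ((P : Subgroup G) : Set G))).toEquiv] at h4
  change (Subgroup.centralizer ((P : Subgroup G) : Set G)).relIndex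
    (Subgroup.normalizer ((P : Subgroup G) : Set G)) * _ = _ at h4
  rw [h2] at h1
  rw [hcard] at h3
  generalize (Subgroup.centralizer ((P : Subgroup G) : Set G)).relIndex
    (Subgroup.normalizer ((P : Subgroup G) : Set G)) = r at key h4
  generalize Nat.card (Subgroup.centralizer ((P : Subgroup G) : Set G)) = c at hC h4
  generalize Nat.card (Subgroup.normalizer ((P : Subgroup G) : Set G)) = N at h3 h4
  generalize (Subgroup.normalizer ((P : Subgroup G) : Set G)).index = idx at h1 h3
  have hr : r ≤ 12 := Nat.le_of_dvd (by norm_num) key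
  have hc : c ≤ 13 := Nat.le_of_dvd (by norm_num) hC
  have h1' : idx % 13 = 1 := h1
  subst h4
  interval_cases r <;> interval_cases c <;> omega

end Cfsg.Agent.S0710
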