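import Cfsg.Statements.S0712
import Mathlib

set_option autoImplicit false
open Cfsg

namespace Cfsg.Agent.S0712

open MulAction

/-- Transitivity on `|s|`-tuples plus double transitivity of the pointwise stabiliser of `s`
on the complement give `(|s| + 2)`-transitivity. -/
theorem add_two {G α : Type*} [Group G] [MulAction G α] (s : Set α) [Finite s] {m : ℕ}
    (hsm : s.ncard = m) (hm : IsMultiplyPretransitive G α m)
    (h2 : IsMultiplyPretransitive (fixingSubgroup G s) (SubMulAction.ofFixingSubgroup G s) 2) :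
    IsMultiplyPretransitive G α (m + 2) := by
  have e : Fin m ≃ s := (Finite.equivFinOfCardEq (by rw [Nat.card_coe_set_eq, hsm])).symm
  let e' : Fin m ↪ α := ⟨fun i => (e i : α), fun i j hij => e.injective (Subtype.ext hij)⟩
  rw [is_two_pretransitive_iff] at h2
  -- normalisation of a tuple
  have norm : ∀ x : Fin (m + 2) ↪ α, ∃ g : G, (∀ i : Fin m, g • x (Fin.castAdd 2 i) = (e i : α)) ∧
      g • x (Fin.natAdd m 0) ∉ s ∧ g • x (Fin.natAdd m 1) ∉ s ∧
      g • x (Fin.natAdd m 0) ≠ g • x (Fin.natAdd m 1) := by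
    intro x
    let x₁ : Fin m ↪ α := ⟨fun i => x (Fin.castAdd 2 i), fun i j hij =>
      Fin.castAdd_injective m 2 (x.injective hij)⟩
    obtain ⟨g, hg⟩ := hm.exists_smul_eq x₁ e'
    have hg' : ∀ i : Fin m, g • x (Fin.castAdd 2 i) = (e i : α) := by
      intro i
      have := DFunLike.congr_fun hg i
      exact this
    have hout : ∀ j : Fin 2, g • x (Fin.natAdd m j) ∉ s := by
      intro j hj
      have h1 := hg' (e.symm ⟨_, hj⟩)
      rw [Equiv.apply_symm_apply] at h1
      have h2' : x (Fin.castAdd 2 (e.symm ⟨_, hj⟩)) = x (Fin.natAdd m j) :=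
        MulAction.injective g h1
      have h3 := x.injective h2'
      have h4 := congrArg Fin.val h3
      simp only [Fin.val_castAdd, Fin.val_natAdd] at h4
      have := (e.symm ⟨_, hj⟩).isLt
      omega
    refine ⟨g, hg', hout 0, hout 1, ?_⟩
    intro h
    have h3 := x.injective (MulAction.injective g h)
    have h4 := congrArg Fin.val h3
    simp at h4
  refine ⟨fun x y => ?_⟩
  obtain ⟨g₁, hg₁, ha₀, ha₁, ha⟩ := norm x
  obtain ⟨g₂, hg₂, hb₀, hb₁, hb⟩ := norm y
  obtain ⟨h, hh0, hh1⟩ := @h2
    (⟨g₁ • x (Fin.natAdd m 0), ha₀⟩ : SubMulAction.ofFixingSubgroup G s)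
    ⟨g₁ • x (Fin.natAdd m 1), ha₁⟩
    ⟨g₂ • y (Fin.natAdd m 0), hb₀⟩
    ⟨g₂ • y (Fin.natAdd m 1), hb₁⟩
    (fun hc => ha (congrArg Subtype.val hc)) (fun hc => hb (congrArg Subtype.val hc))
  have hh0' : (h : G) • (g₁ • x (Fin.natAdd m 0)) = g₂ • y (Fin.natAdd m 0) :=
    congrArg Subtype.val hh0
  have hh1' : (h : G) • (g₁ • x (Fin.natAdd m 1)) = g₂ • y (Fin.natAdd m 1) :=
    congrArg Subtype.val hh1
  have hfix : ∀ a ∈ s, (h : G) • a = a := by
    have := h.2
    rw [mem_fixingSubgroup_iff] at this
    exact this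
  refine ⟨g₂⁻¹ * (h : G) * g₁, ?_⟩
  ext i
  rw [Function.Embedding.smul_apply, mul_smul, mul_smul, inv_smul_eq_iff]
  by_cases hi : (i : ℕ) < m
  · have hi' : i = Fin.castAdd 2 ⟨i, hi⟩ := by
      apply Fin.ext
      simp
    rw [hi', hg₁, hg₂, hfix _ (e _).2]
  · by_cases hi0 : (i : ℕ) = m
    · have hi' : i = Fin.natAdd m 0 := by
        apply Fin.ext
        simp [hi0]
      rw [hi', hh0']
    · have hi' : i = Fin.natAdd m 1 := by
        apply Fin.ext
        have := i.isLt
        simp
        omega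
      rw [hi', hh1']

/-- Jordan: a primitive group in which the pointwise stabiliser of a set `s` is doubly transitive on the complement of `s` (which has at least 2 points) is `(|s| + 2)`-transitive. -/
theorem result {α : Type*} [Fintype α] [DecidableEq α] (G : Subgroup (Equiv.Perm α)) (hG : MulAction.IsPreprimitive G α) (s : Set α) {m : ℕ} (hsm : s.ncard = m) (hm : m + 2 ≤ Fintype.card α) (h2 : MulAction.IsMultiplyPretransitive (fixingSubgroup G s) (SubMulAction.ofFixingSubgroup G s) 2) : MulAction.IsMultiplyPretransitive G α (m + 2) := by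
  apply add_two s hsm _ h2
  cases m with
  | zero => exact is_zero_pretransitive'
  | succ n =>
    have hprim : IsPreprimitive (fixingSubgroup G s) (SubMulAction.ofFixingSubgroup G s) :=
      isPreprimitive_of_is_two_pretransitive h2
    have h3 : IsMultiplyPreprimitive G α (n + 2) :=
      hG.isMultiplyPreprimitive hsm (by rw [Nat.card_eq_fintype_card]; omega) hprim
    have h4 : IsMultiplyPretransitive G α (n + 2) := inferInstance
    exact isMultiplyPretransitive_of_le (n := n + 2) (by omega)
      (by rw [Nat.card_eq_fintype_card]; omega)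

end Cfsg.Agent.S0712
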