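import Cfsg.Statements.S0713
import Mathlib

set_option autoImplicit false
open Cfsg

namespace Cfsg.Agent.S0713

open MulAction Equiv.Perm

theorem ktrans {α : Type*} [Fintype α] [DecidableEq α] (G : Subgroup (Equiv.Perm α))
    (hG : MulAction.IsPreprimitive G α) {p : ℕ} (hp : p.Prime)
    (hpn : p + 3 ≤ Fintype.card α) {g : Equiv.Perm α} (hgc : g.IsCycle)
    (hgp : g.support.card = p) (hg : g ∈ G) (π : Equiv.Perm {x : α // x ∉ g.support}) :
    ∃ x ∈ G, ∀ (d : α) (hd : d ∉ g.support), x d = π ⟨d, hd⟩ := by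
  classical
  obtain ⟨k, hk⟩ : ∃ k, Fintype.card α = p + k + 3 := ⟨Fintype.card α - p - 3, by omega⟩
  have hsc : Set.ncard ((g.support : Set α)ᶜ) = (k + 2) + 1 := by
    apply Nat.add_left_cancel (n := p)
    rw [← hgp]
    have h1 := Set.ncard_add_ncard_compl (g.support : Set α)
    rw [Set.ncard_coe_finset] at h1
    rw [h1, Nat.card_eq_fintype_card, hk, hgp]
    ring
  have hmp : IsMultiplyPreprimitive G α ((k + 2) + 2) := by
    apply hG.isMultiplyPreprimitive hsc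
    · rw [Nat.card_eq_fintype_card, hk]
      have := hp.two_le
      omega
    have := isPretransitive_of_isCycle_mem hgc hg
    apply IsPreprimitive.of_prime_card
    convert hp
    rw [Nat.card_eq_fintype_card, Fintype.card_subtype, ← hgp]
    apply congr_arg
    ext x
    simp [SubMulAction.mem_ofFixingSubgroup_iff]
  have hmt : IsMultiplyPretransitive G α ((k + 2) + 2) :=
    IsMultiplyPreprimitive.isMultiplyPretransitive ..
  have hmt' : IsMultiplyPretransitive G α (k + 3) :=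
    isMultiplyPretransitive_of_le (n := (k + 2) + 2) (by omega)
      (by rw [Nat.card_eq_fintype_card, hk]; have := hp.two_le; omega)
  have hcardΔ : Fintype.card {x : α // x ∉ g.support} = k + 3 := by
    rw [Fintype.card_subtype_compl, Fintype.card_coe, hgp, hk]
    omega
  let ε : Fin (k + 3) ≃ {x : α // x ∉ g.support} := (Fintype.equivFinOfCardEq hcardΔ).symm
  let e1 : Fin (k + 3) ↪ α := ε.toEmbedding.trans (Function.Embedding.subtype _)
  let e2 : Fin (k + 3) ↪ α := (ε.trans π).toEmbedding.trans (Function.Embedding.subtype _)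
  obtain ⟨x, hx⟩ := MulAction.exists_smul_eq G e1 e2
  refine ⟨x, x.2, ?_⟩
  intro d hd
  have h1 := congrArg (fun f : Fin (k + 3) ↪ α => f (ε.symm ⟨d, hd⟩)) hx
  simp only [Function.Embedding.smul_apply, e1, e2, Function.Embedding.trans_apply,
    Equiv.coe_toEmbedding, Equiv.apply_symm_apply, Function.Embedding.subtype_apply,
    Equiv.trans_apply] at h1
  exact h1

theorem normalize {α : Type*} [Fintype α] [DecidableEq α] (G : Subgroup (Equiv.Perm α))
    {p : ℕ} (hp : p.Prime) {g : Equiv.Perm α} (hgc : g.IsCycle) (hgp : g.support.card = p)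
    (hg : g ∈ G) (x₀ : Equiv.Perm α) (hx₀ : x₀ ∈ G)
    (hx₀Δ : ∀ d, d ∉ g.support → x₀⁻¹ d ∉ g.support) :
    ∃ c ∈ G, (∀ d, d ∉ g.support → c d = d) ∧
      (c * x₀) * g * (c * x₀)⁻¹ ∈ Subgroup.zpowers g := by
  classical
  have hpf : Fact p.Prime := ⟨hp⟩
  let Fx : Subgroup (Equiv.Perm α) :=
    { carrier := {f | ∀ d, d ∉ g.support → f d = d}
      mul_mem' := by
        intro a b ha hb d hd
        rw [Equiv.Perm.mul_apply, hb d hd, ha d hd]
      one_mem' := fun d _ => rfl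
      inv_mem' := by
        intro a ha d hd
        rw [Equiv.Perm.inv_eq_iff_eq, ha d hd] }
  have hFxmem : ∀ f : Equiv.Perm α, f ∈ Fx ↔ ∀ d, d ∉ g.support → f d = d := fun f => Iff.rfl
  have hcardFx : Nat.card Fx = p.factorial := by
    have e1 : {f : Equiv.Perm α // ∀ a, ¬ (a ∈ g.support) → f a = a} ≃
        Equiv.Perm {a : α // a ∈ g.support} :=
      (Equiv.Perm.subtypeEquivSubtypePerm (fun a => a ∈ g.support)).symm
    have h1 : Nat.card Fx = Nat.card {f : Equiv.Perm α // ∀ a, ¬ (a ∈ g.support) → f a = a} :=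
      rfl
    rw [h1, Nat.card_congr e1, Nat.card_perm, Nat.card_eq_fintype_card, Fintype.card_coe, hgp]
  have hKdvd : Nat.card (G ⊓ Fx : Subgroup (Equiv.Perm α)) ∣ p.factorial := by
    rw [← hcardFx]
    exact Subgroup.card_dvd_of_le inf_le_right
  have hgFx : g ∈ Fx := by
    intro d hd
    exact Equiv.Perm.notMem_support.mp hd
  have hgK : g ∈ G ⊓ Fx := ⟨hg, hgFx⟩
  have hord : orderOf g = p := by rw [hgc.orderOf, hgp]
  obtain ⟨g₁, hg₁⟩ : ∃ g₁, g₁ = x₀ * g * x₀⁻¹ := ⟨_, rfl⟩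
  have hg₁G : g₁ ∈ G := by
    rw [hg₁]
    exact G.mul_mem (G.mul_mem hx₀ hg) (G.inv_mem hx₀)
  have hg₁Fx : g₁ ∈ Fx := by
    intro d hd
    rw [hg₁, Equiv.Perm.mul_apply, Equiv.Perm.mul_apply,
      Equiv.Perm.notMem_support.mp (hx₀Δ d hd)]
    simp
  have hg₁K : g₁ ∈ G ⊓ Fx := ⟨hg₁G, hg₁Fx⟩
  have hord₁ : orderOf g₁ = p := by
    rw [hg₁, ← hord]
    have h1 := orderOf_injective (MulAut.conj x₀).toMonoidHom (MulAut.conj x₀).injective g
    simpa [MulAut.conj_apply] using h1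
  have hcardpos : Nat.card (G ⊓ Fx : Subgroup (Equiv.Perm α)) ≠ 0 := Nat.card_pos.ne'
  have hpdvd : p ∣ Nat.card (G ⊓ Fx : Subgroup (Equiv.Perm α)) := by
    have h1 : Subgroup.zpowers g ≤ G ⊓ Fx := by
      rw [Subgroup.zpowers_le]
      exact hgK
    have h2 := Subgroup.card_dvd_of_le h1
    rw [Nat.card_zpowers, hord] at h2
    exact h2
  have hp2 : ¬ p ^ 2 ∣ Nat.card (G ⊓ Fx : Subgroup (Equiv.Perm α)) := by
    intro h
    have h1 : p ^ 2 ∣ p.factorial := dvd_trans h hKdvd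
    obtain ⟨q, rfl⟩ : ∃ q, p = q + 1 := ⟨p - 1, by have := hp.pos; omega⟩
    rw [Nat.factorial_succ, pow_two] at h1
    have h2 : (q + 1) ∣ q.factorial := Nat.dvd_of_mul_dvd_mul_left (Nat.succ_pos q) h1
    have h3 := (hp.dvd_factorial).mp h2
    omega
  have hfact : (Nat.card (G ⊓ Fx : Subgroup (Equiv.Perm α))).factorization p = 1 := by
    have h1 : 1 ≤ (Nat.card (G ⊓ Fx : Subgroup (Equiv.Perm α))).factorization p := by
      rw [← hp.pow_dvd_iff_le_factorization hcardpos, pow_one]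
      exact hpdvd
    have h2 : ¬ 2 ≤ (Nat.card (G ⊓ Fx : Subgroup (Equiv.Perm α))).factorization p := by
      rw [← hp.pow_dvd_iff_le_factorization hcardpos]
      exact hp2
    omega
  let gK : (G ⊓ Fx : Subgroup (Equiv.Perm α)) := ⟨g, hgK⟩
  let g₁K : (G ⊓ Fx : Subgroup (Equiv.Perm α)) := ⟨g₁, hg₁K⟩
  have hcard1 : Nat.card (Subgroup.zpowers gK) =
      p ^ (Nat.card (G ⊓ Fx : Subgroup (Equiv.Perm α))).factorization p := by
    rw [hfact, pow_one, Nat.card_zpowers, ← Subgroup.orderOf_coe]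
    exact hord
  have hcard2 : Nat.card (Subgroup.zpowers g₁K) =
      p ^ (Nat.card (G ⊓ Fx : Subgroup (Equiv.Perm α))).factorization p := by
    rw [hfact, pow_one, Nat.card_zpowers, ← Subgroup.orderOf_coe]
    exact hord₁
  obtain ⟨c, hc⟩ := MulAction.exists_smul_eq (G ⊓ Fx : Subgroup (Equiv.Perm α))
    (Sylow.ofCard (Subgroup.zpowers g₁K) hcard2) (Sylow.ofCard (Subgroup.zpowers gK) hcard1)
  have hmem : c * g₁K * c⁻¹ ∈ Subgroup.zpowers gK := by
    have h1 : c * g₁K * c⁻¹ ∈ ((c • Sylow.ofCard (Subgroup.zpowers g₁K) hcard2 :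
        Sylow p (G ⊓ Fx : Subgroup (Equiv.Perm α))) :
        Subgroup (G ⊓ Fx : Subgroup (Equiv.Perm α))) := by
      rw [Sylow.coe_subgroup_smul, Sylow.coe_ofCard]
      have h2 := Subgroup.smul_mem_pointwise_smul g₁K (MulAut.conj c) (Subgroup.zpowers g₁K)
        (Subgroup.mem_zpowers g₁K)
      simpa [MulAut.smul_def] using h2
    rw [hc, Sylow.coe_ofCard] at h1
    exact h1
  obtain ⟨i, hi⟩ := Subgroup.mem_zpowers_iff.mp hmem
  refine ⟨(c : Equiv.Perm α), c.2.1, c.2.2, ?_⟩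
  rw [Subgroup.mem_zpowers_iff]
  refine ⟨i, ?_⟩
  have h3 := congrArg (fun z : (G ⊓ Fx : Subgroup (Equiv.Perm α)) => (z : Equiv.Perm α)) hi
  simp only [Subgroup.coe_zpow, Subgroup.coe_mul, Subgroup.coe_inv] at h3
  rw [h3]
  show (c : Equiv.Perm α) * g₁ * (c : Equiv.Perm α)⁻¹ = _
  rw [hg₁]
  group

/-- Jordan's Theorem: a primitive permutation group of degree `n ≥ 5` containing a `p`-cycle for a prime `p ≤ n - 3` contains the alternating group. -/
theorem result {α : Type*} [Fintype α] [DecidableEq α] (G : Subgroup (Equiv.Perm α)) (hG : MulAction.IsPreprimitive G α) {p : ℕ} (hp : p.Prime) (hn : 5 ≤ Fintype.card α) (hpn : p + 3 ≤ Fintype.card α) {g : Equiv.Perm α} (hgc : g.IsCycle) (hgp : g.support.card = p) (hg : g ∈ G) : alternatingGroup α ≤ G := by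
  classical
  have hcardΔ : 2 < (Finset.univ \ g.support).card := by
    rw [Finset.card_sdiff_of_subset (Finset.subset_univ _), Finset.card_univ, hgp]
    omega
  obtain ⟨a, b, c, ha, hb, hc, hab, hac, hbc⟩ := Finset.two_lt_card_iff.mp hcardΔ
  have ha' : a ∉ g.support := (Finset.mem_sdiff.mp ha).2
  have hb' : b ∉ g.support := (Finset.mem_sdiff.mp hb).2
  have hc' : c ∉ g.support := (Finset.mem_sdiff.mp hc).2
  have key : ∀ u v : α, u ∉ g.support → v ∉ g.support → u ≠ v → ∃ x ∈ G, x u = v ∧ x v = u ∧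
      (∀ d, d ∉ g.support → d ≠ u → d ≠ v → x d = d) ∧ ∃ i : ℤ, x * g * x⁻¹ = g ^ i := by
    intro u v hu hv huv
    obtain ⟨x₀, hx₀G, hx₀⟩ := ktrans G hG hp hpn hgc hgp hg
      (Equiv.swap (⟨u, hu⟩ : {x : α // x ∉ g.support}) ⟨v, hv⟩)
    have hx₀inv : ∀ d (hd : d ∉ g.support), x₀⁻¹ d =
        (Equiv.swap (⟨u, hu⟩ : {x : α // x ∉ g.support}) ⟨v, hv⟩ ⟨d, hd⟩ : α) := by
      intro d hd
      rw [Equiv.Perm.inv_eq_iff_eq, hx₀ _
        ((Equiv.swap (⟨u, hu⟩ : {x : α // x ∉ g.support}) ⟨v, hv⟩ ⟨d, hd⟩).2)]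
      simp
    obtain ⟨c, hcG, hcΔ, hcz⟩ := normalize G hp hgc hgp hg x₀ hx₀G
      (fun d hd => by
        rw [hx₀inv d hd]
        exact (Equiv.swap (⟨u, hu⟩ : {x : α // x ∉ g.support}) ⟨v, hv⟩ ⟨d, hd⟩).2)
    refine ⟨c * x₀, G.mul_mem hcG hx₀G, ?_, ?_, ?_, ?_⟩
    · rw [Equiv.Perm.mul_apply, hx₀ u hu, Equiv.swap_apply_left]
      exact hcΔ v hv
    · rw [Equiv.Perm.mul_apply, hx₀ v hv, Equiv.swap_apply_right]
      exact hcΔ u hu
    · intro d hd hdu hdv
      rw [Equiv.Perm.mul_apply, hx₀ d hd, Equiv.swap_apply_of_ne_of_ne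
        (fun h => hdu (congrArg Subtype.val h)) (fun h => hdv (congrArg Subtype.val h))]
      exact hcΔ d hd
    · obtain ⟨i, hi⟩ := Subgroup.mem_zpowers_iff.mp hcz
      exact ⟨i, hi.symm⟩
  obtain ⟨x, hxG, hxa, hxb, hxd, i, hxi⟩ := key a b ha' hb' hab
  obtain ⟨y, hyG, hyb, hyc, hyd, j, hyj⟩ := key b c hb' hc' hbc
  have hxc : x c = c := hxd c hc' (Ne.symm hac) (Ne.symm hbc)
  have hya : y a = a := hyd a ha' hab hac
  have hxia : x⁻¹ a = b := by rw [Equiv.Perm.inv_eq_iff_eq, hxb]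
  have hxib : x⁻¹ b = a := by rw [Equiv.Perm.inv_eq_iff_eq, hxa]
  have hxic : x⁻¹ c = c := by rw [Equiv.Perm.inv_eq_iff_eq, hxc]
  have hyia : y⁻¹ a = a := by rw [Equiv.Perm.inv_eq_iff_eq, hya]
  have hyib : y⁻¹ b = c := by rw [Equiv.Perm.inv_eq_iff_eq, hyc]
  have hyic : y⁻¹ c = b := by rw [Equiv.Perm.inv_eq_iff_eq, hyb]
  have hxy : (x * y) * g * (x * y)⁻¹ = (y * x) * g * (y * x)⁻¹ := by
    have h1 : (x * y) * g * (x * y)⁻¹ = (g ^ i) ^ j := by
      have h0 : (x * y) * g * (x * y)⁻¹ = x * (y * g * y⁻¹) * x⁻¹ := by group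
      rw [h0, hyj, ← hxi, conj_zpow]
    have h2 : (y * x) * g * (y * x)⁻¹ = (g ^ j) ^ i := by
      have h0 : (y * x) * g * (y * x)⁻¹ = y * (x * g * x⁻¹) * y⁻¹ := by group
      rw [h0, hxi, ← hyj, conj_zpow]
    rw [h1, h2, ← zpow_mul, ← zpow_mul, mul_comm]
  obtain ⟨z, hz⟩ : ∃ z, z = x⁻¹ * y⁻¹ * x * y := ⟨_, rfl⟩
  have hzG : z ∈ G := by
    rw [hz]
    exact G.mul_mem (G.mul_mem (G.mul_mem (G.inv_mem hxG) (G.inv_mem hyG)) hxG) hyG
  have hzcomm : Commute z g := by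
    show z * g = g * z
    have h0 : z * g = (y * x)⁻¹ * ((x * y) * g * (x * y)⁻¹) * (x * y) := by
      rw [hz]
      group
    rw [h0, hxy, hz]
    group
  have hza : z a = c := by
    rw [hz]
    simp only [Equiv.Perm.mul_apply]
    rw [hya, hxa, hyib, hxic]
  have hzc : z c = b := by
    rw [hz]
    simp only [Equiv.Perm.mul_apply]
    rw [hyc, hxb, hyia, hxia]
  have hzb : z b = a := by
    rw [hz]
    simp only [Equiv.Perm.mul_apply]
    rw [hyb, hxc, hyic, hxib]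
  have hzd : ∀ d, d ∉ g.support → d ≠ a → d ≠ b → d ≠ c → z d = d := by
    intro d hd hda hdb hdc
    have hxdd : x d = d := hxd d hd hda hdb
    have hydd : y d = d := hyd d hd hdb hdc
    have hxid : x⁻¹ d = d := by rw [Equiv.Perm.inv_eq_iff_eq, hxdd]
    have hyid : y⁻¹ d = d := by rw [Equiv.Perm.inv_eq_iff_eq, hydd]
    rw [hz]
    simp only [Equiv.Perm.mul_apply]
    rw [hydd, hxdd, hyid, hxid]
  obtain ⟨hc'', hzp⟩ := hgc.commute_iff.mp hzcomm
  obtain ⟨m, hm⟩ := Subgroup.mem_zpowers_iff.mp hzp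
  have hzΓ : ∀ γ, γ ∈ g.support → z γ = (g ^ m) γ := by
    intro γ hγ
    rw [hm, Equiv.Perm.ofSubtype_subtypePerm_of_mem hc'' hγ]
  obtain ⟨w, hw⟩ : ∃ w, w = z * (g ^ m)⁻¹ := ⟨_, rfl⟩
  have hwG : w ∈ G := by
    rw [hw]
    exact G.mul_mem hzG (G.inv_mem (G.zpow_mem hg m))
  have hwΓ : ∀ γ, γ ∈ g.support → w γ = γ := by
    intro γ hγ
    have h1 : (g ^ m)⁻¹ γ ∈ g.support := by
      rw [← zpow_neg]
      exact Equiv.Perm.zpow_apply_mem_support.mpr hγ
    rw [hw, Equiv.Perm.mul_apply, hzΓ _ h1]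
    simp
  have hwΔ : ∀ d, d ∉ g.support → w d = z d := by
    intro d hd
    have h1 : (g ^ m)⁻¹ d = d := by
      rw [← zpow_neg]
      exact Equiv.Perm.zpow_apply_eq_self_of_apply_eq_self (Equiv.Perm.notMem_support.mp hd) _
    rw [hw, Equiv.Perm.mul_apply, h1]
  have hsupp : w.support = {a, b, c} := by
    ext t
    simp only [Equiv.Perm.mem_support, Finset.mem_insert, Finset.mem_singleton]
    constructor
    · intro ht
      by_contra hcon
      push Not at hcon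
      apply ht
      by_cases htΓ : t ∈ g.support
      · exact hwΓ t htΓ
      · rw [hwΔ t htΓ]
        exact hzd t htΓ hcon.1 hcon.2.1 hcon.2.2
    · rintro (rfl | rfl | rfl)
      · rw [hwΔ _ ha', hza]
        exact Ne.symm hac
      · rw [hwΔ _ hb', hzb]
        exact hab
      · rw [hwΔ _ hc', hzc]
        exact hbc
  have h3 : w.IsThreeCycle := by
    rw [← card_support_eq_three_iff, hsupp]
    exact Finset.card_eq_three.mpr ⟨a, b, c, hab, hac, hbc, rfl⟩
  exact Equiv.Perm.alternatingGroup_le_of_isPreprimitive_of_isThreeCycle_mem hG h3 hwG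

end Cfsg.Agent.S0713
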