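import Cfsg.Statements.S0714
import Mathlib

set_option autoImplicit false
open Cfsg

namespace Cfsg.Agent.S0714

theorem rho_apply {α : Type*} [Fintype α] [DecidableEq α] {K : Type*} [Field K]
    (g : alternatingGroup α) (f : α → K) (x : α) :
    Cfsg.permRep K (alternatingGroup α) α g f x = f ((g : Equiv.Perm α)⁻¹ x) := rfl

theorem rho_single {α : Type*} [Fintype α] [DecidableEq α] {K : Type*} [Field K]
    (g : alternatingGroup α) (x : α) (c : K) :
    Cfsg.permRep K (alternatingGroup α) α g (Pi.single x c) =
      Pi.single ((g : Equiv.Perm α) x) c := by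
  funext y
  rw [rho_apply, Pi.single_apply, Pi.single_apply]
  by_cases h : y = (g : Equiv.Perm α) x
  · rw [if_pos h, if_pos]
    rw [h]
    simp
  · rw [if_neg h, if_neg]
    intro h'
    apply h
    rw [← h']
    simp

theorem sum_single {α : Type*} [Fintype α] [DecidableEq α] {K : Type*} [Field K] (x₀ : α) (c : K) :
    ∑ x, (Pi.single x₀ c : α → K) x = c := by
  simp

/-- Over any field, the permutation module of the alternating group of degree at least 5 has exactly four invariant subspaces: zero, the constant functions, the functions with coordinate sum zero, and everything. -/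
theorem result {α : Type*} [Fintype α] [DecidableEq α] (hα : 5 ≤ Fintype.card α) {K : Type*} [Field K] (W : Subrepresentation (Cfsg.permRep K (alternatingGroup α) α)) : W.toSubmodule = ⊥ ∨ W = Cfsg.permConstants K (alternatingGroup α) α ∨ W = Cfsg.permSumZero K (alternatingGroup α) α ∨ W.toSubmodule = ⊤ := by
  classical
  obtain ⟨x₀⟩ : Nonempty α := by
    rw [← Fintype.card_pos_iff]
    omega
  by_cases hconst : ∀ f ∈ W.toSubmodule, ∀ a b : α, f a = f b
  · by_cases hbot : W.toSubmodule = ⊥
    · exact Or.inl hbot
    · right; left
      apply Subrepresentation.toSubmodule_injective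
      show W.toSubmodule = Submodule.span K {fun _ => 1}
      apply le_antisymm
      · intro f hf
        rw [Submodule.mem_span_singleton]
        refine ⟨f x₀, ?_⟩
        funext x
        simp [hconst f hf x x₀]
      · rw [Submodule.span_singleton_le_iff_mem]
        obtain ⟨f, hf, hf0⟩ := Submodule.exists_mem_ne_zero_of_ne_bot hbot
        have hfx : f x₀ ≠ 0 := by
          intro h
          apply hf0
          funext x
          rw [hconst f hf x x₀, h]
          rfl
        have h1 : (fun _ : α => (1 : K)) = (f x₀)⁻¹ • f := by
          funext x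
          simp [hconst f hf x x₀, hfx]
        rw [h1]
        exact W.toSubmodule.smul_mem _ hf
  · right; right
    push Not at hconst
    obtain ⟨f, hf, a, b, hab⟩ := hconst
    have hab' : a ≠ b := fun h => hab (by rw [h])
    have key : ∃ x y : α, x ≠ y ∧
        (Pi.single x (1 : K) - Pi.single y 1 : α → K) ∈ W.toSubmodule := by
      obtain ⟨c, d, e, hc, hd, he, hcd, hce, hde⟩ :=
        (Finset.two_lt_card_iff (s := ({a, b} : Finset α)ᶜ)).1 (by
          rw [Finset.card_compl, Finset.card_pair hab']
          omega)
      simp only [Finset.mem_compl, Finset.mem_insert, Finset.mem_singleton, not_or] at hc hd he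
      obtain ⟨hca, hcb⟩ := hc
      obtain ⟨hda, hdb⟩ := hd
      obtain ⟨hea, heb⟩ := he
      have hτ : Equiv.swap a b * Equiv.swap d e ∈ alternatingGroup α := by
        simp [Equiv.Perm.mem_alternatingGroup, Equiv.Perm.sign_swap hab', Equiv.Perm.sign_swap hde]
      have hh : f - Cfsg.permRep K (alternatingGroup α) α ⟨_, hτ⟩ f ∈ W.toSubmodule :=
        W.toSubmodule.sub_mem hf (W.apply_mem_toSubmodule _ hf)
      have hform : f - Cfsg.permRep K (alternatingGroup α) α ⟨_, hτ⟩ f =
          (f a - f b) • (Pi.single a (1 : K) - Pi.single b 1 : α → K) +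
          (f d - f e) • (Pi.single d (1 : K) - Pi.single e 1 : α → K) := by
        funext x
        rw [Pi.sub_apply, rho_apply]
        show f x - f ((Equiv.swap a b * Equiv.swap d e)⁻¹ x) = _
        rw [mul_inv_rev, Equiv.swap_inv, Equiv.swap_inv, Equiv.Perm.mul_apply]
        simp only [Pi.add_apply, Pi.smul_apply, Pi.sub_apply, smul_eq_mul, Pi.single_apply]
        by_cases hxa : x = a
        · subst hxa
          rw [Equiv.swap_apply_left, Equiv.swap_apply_of_ne_of_ne (Ne.symm hdb) (Ne.symm heb)]
          simp [hab', Ne.symm hda, Ne.symm hea]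
        · by_cases hxb : x = b
          · subst hxb
            rw [Equiv.swap_apply_right, Equiv.swap_apply_of_ne_of_ne (Ne.symm hda) (Ne.symm hea)]
            simp [Ne.symm hab', Ne.symm hdb, Ne.symm heb]
          · rw [Equiv.swap_apply_of_ne_of_ne hxa hxb]
            by_cases hxd : x = d
            · subst hxd
              rw [Equiv.swap_apply_left]
              simp [hxa, hxb, hde]
            · by_cases hxe : x = e
              · subst hxe
                rw [Equiv.swap_apply_right]
                simp [hxa, hxb, Ne.symm hde]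
              · rw [Equiv.swap_apply_of_ne_of_ne hxd hxe]
                simp [hxa, hxb, hxd, hxe]
      rw [hform] at hh
      by_cases hε : f d - f e = 0
      · refine ⟨a, b, hab', ?_⟩
        rw [hε, zero_smul, add_zero] at hh
        have h1 := W.toSubmodule.smul_mem (f a - f b)⁻¹ hh
        rwa [smul_smul, inv_mul_cancel₀ (sub_ne_zero.2 hab), one_smul] at h1
      · refine ⟨c, a, hca, ?_⟩
        have hg : Equiv.swap c d * Equiv.swap d e ∈ alternatingGroup α := by
          simp [Equiv.Perm.mem_alternatingGroup, Equiv.Perm.sign_swap hcd, Equiv.Perm.sign_swap hde]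
        have hg' : Equiv.swap c a * Equiv.swap a b ∈ alternatingGroup α := by
          simp [Equiv.Perm.mem_alternatingGroup, Equiv.Perm.sign_swap hca, Equiv.Perm.sign_swap hab']
        have ga : (Equiv.swap c d * Equiv.swap d e) a = a := by
          rw [Equiv.Perm.mul_apply, Equiv.swap_apply_of_ne_of_ne (Ne.symm hda) (Ne.symm hea),
            Equiv.swap_apply_of_ne_of_ne (Ne.symm hca) (Ne.symm hda)]
        have gb : (Equiv.swap c d * Equiv.swap d e) b = b := by
          rw [Equiv.Perm.mul_apply, Equiv.swap_apply_of_ne_of_ne (Ne.symm hdb) (Ne.symm heb),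
            Equiv.swap_apply_of_ne_of_ne (Ne.symm hcb) (Ne.symm hdb)]
        have gd : (Equiv.swap c d * Equiv.swap d e) d = e := by
          rw [Equiv.Perm.mul_apply, Equiv.swap_apply_left,
            Equiv.swap_apply_of_ne_of_ne (Ne.symm hce) (Ne.symm hde)]
        have ge : (Equiv.swap c d * Equiv.swap d e) e = c := by
          rw [Equiv.Perm.mul_apply, Equiv.swap_apply_right, Equiv.swap_apply_right]
        have g'c : (Equiv.swap c a * Equiv.swap a b) c = a := by
          rw [Equiv.Perm.mul_apply, Equiv.swap_apply_of_ne_of_ne hca hcb, Equiv.swap_apply_left]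
        have g'd : (Equiv.swap c a * Equiv.swap a b) d = d := by
          rw [Equiv.Perm.mul_apply, Equiv.swap_apply_of_ne_of_ne hda hdb,
            Equiv.swap_apply_of_ne_of_ne (Ne.symm hcd) hda]
        have g'e : (Equiv.swap c a * Equiv.swap a b) e = e := by
          rw [Equiv.Perm.mul_apply, Equiv.swap_apply_of_ne_of_ne hea heb,
            Equiv.swap_apply_of_ne_of_ne (Ne.symm hce) hea]
        have h1 := W.toSubmodule.sub_mem hh (W.apply_mem_toSubmodule ⟨_, hg⟩ hh)
        have h2 : ((f a - f b) • (Pi.single a (1 : K) - Pi.single b 1 : α → K) +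
            (f d - f e) • (Pi.single d (1 : K) - Pi.single e 1 : α → K)) -
            Cfsg.permRep K (alternatingGroup α) α ⟨_, hg⟩
              ((f a - f b) • (Pi.single a (1 : K) - Pi.single b 1 : α → K) +
              (f d - f e) • (Pi.single d (1 : K) - Pi.single e 1 : α → K)) =
            (f d - f e) • (Pi.single c (1 : K) + Pi.single d 1 - Pi.single e 1 - Pi.single e 1 :
              α → K) := by
          simp only [map_add, map_smul, map_sub, rho_single]
          rw [ga, gb, gd, ge]
          module
        rw [h2] at h1
        have h3 := W.toSubmodule.smul_mem (f d - f e)⁻¹ h1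
        rw [smul_smul, inv_mul_cancel₀ hε, one_smul] at h3
        have h4 := W.toSubmodule.sub_mem h3 (W.apply_mem_toSubmodule ⟨_, hg'⟩ h3)
        have h5 : (Pi.single c (1 : K) + Pi.single d 1 - Pi.single e 1 - Pi.single e 1 : α → K) -
            Cfsg.permRep K (alternatingGroup α) α ⟨_, hg'⟩
              (Pi.single c (1 : K) + Pi.single d 1 - Pi.single e 1 - Pi.single e 1 : α → K) =
            (Pi.single c (1 : K) - Pi.single a 1 : α → K) := by
          simp only [map_add, map_sub, rho_single]
          rw [g'c, g'd, g'e]
          abel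
        rwa [h5] at h4
    obtain ⟨x, y, hxy, hxyW⟩ := key
    have h2t : MulAction.IsMultiplyPretransitive (alternatingGroup α) α 2 := by
      have h1 := alternatingGroup.isMultiplyPretransitive α
      exact MulAction.isMultiplyPretransitive_of_le (n := Nat.card α - 2)
        (by rw [Nat.card_eq_fintype_card]; omega) (by omega)
    rw [MulAction.is_two_pretransitive_iff] at h2t
    have hall : ∀ c d : α, c ≠ d →
        (Pi.single c (1 : K) - Pi.single d 1 : α → K) ∈ W.toSubmodule := by
      intro c d hcd
      obtain ⟨g, hgx, hgy⟩ := h2t hxy hcd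
      have h1 := W.apply_mem_toSubmodule g hxyW
      rw [map_sub, rho_single, rho_single] at h1
      have h2 : (g : Equiv.Perm α) x = c := hgx
      have h3 : (g : Equiv.Perm α) y = d := hgy
      rwa [h2, h3] at h1
    have hsz : ∀ f : α → K, ∑ x, f x = 0 → f ∈ W.toSubmodule := by
      intro f hf
      have h1 : f = ∑ x, f x • (Pi.single x (1 : K) - Pi.single x₀ 1 : α → K) := by
        funext y
        rw [Finset.sum_apply]
        have h2 : ∀ x, (f x • (Pi.single x (1 : K) - Pi.single x₀ 1 : α → K)) y =
            (if y = x then f x else 0) - f x * (Pi.single x₀ (1 : K) : α → K) y := by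
          intro x
          simp only [Pi.smul_apply, Pi.sub_apply, smul_eq_mul, mul_sub, Pi.single_apply, mul_ite,
            mul_one, mul_zero]
        rw [Finset.sum_congr rfl (fun x _ => h2 x), Finset.sum_sub_distrib, Finset.sum_ite_eq,
          ← Finset.sum_mul, hf]
        simp
      rw [h1]
      apply Submodule.sum_mem
      intro x _
      apply Submodule.smul_mem
      by_cases hx : x = x₀
      · rw [hx, sub_self]
        exact Submodule.zero_mem _
      · exact hall x x₀ hx
    by_cases hWs : ∀ f ∈ W.toSubmodule, ∑ x, f x = 0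
    · left
      apply Subrepresentation.toSubmodule_injective
      apply le_antisymm
      · exact fun f hf => hWs f hf
      · exact fun f hf => hsz f hf
    · right
      push Not at hWs
      obtain ⟨f₁, hf₁, hs⟩ := hWs
      have h1 : f₁ - (∑ x, f₁ x) • (Pi.single x₀ (1 : K) : α → K) ∈ W.toSubmodule := by
        apply hsz
        simp only [Pi.sub_apply, Pi.smul_apply, smul_eq_mul, Finset.sum_sub_distrib,
          ← Finset.mul_sum, sum_single, mul_one, sub_self]
      have h2 : (Pi.single x₀ (1 : K) : α → K) ∈ W.toSubmodule := by
        have h3 := W.toSubmodule.sub_mem hf₁ h1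
        rw [sub_sub_cancel] at h3
        have h4 := W.toSubmodule.smul_mem (∑ x, f₁ x)⁻¹ h3
        rwa [smul_smul, inv_mul_cancel₀ hs, one_smul] at h4
      rw [eq_top_iff]
      intro f' _
      have h3 : f' - (∑ x, f' x) • (Pi.single x₀ (1 : K) : α → K) ∈ W.toSubmodule := by
        apply hsz
        simp only [Pi.sub_apply, Pi.smul_apply, smul_eq_mul, Finset.sum_sub_distrib,
          ← Finset.mul_sum, sum_single, mul_one, sub_self]
      have h4 := W.toSubmodule.add_mem h3 (W.toSubmodule.smul_mem (∑ x, f' x) h2)
      rwa [sub_add_cancel] at h4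

end Cfsg.Agent.S0714
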