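import Cfsg.Statements.S0715
import Cfsg.Agent.Lib.Helper19.PermChar2
import Cfsg.Agent.Lib.Helper1.CharMore

set_option autoImplicit false
set_option linter.unusedSectionVars false
set_option linter.style.haveILetI false
open Cfsg

namespace Cfsg.Agent.S0715

open Representation Module Cfsg.Agent.Lib.Helper1 Cfsg.Agent.Lib.Helper19.PermChar

section aux

variable {G : Type*} [Group G] [Fintype G] {Ω : Type*} [Fintype Ω] [MulAction G Ω]

/-- the permutation character of a transitive action contains the principal character once -/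
theorem inner_perm_one [MulAction.IsPretransitive G Ω] [Nonempty Ω] :
    Cfsg.classInner (Cfsg.permRep ℂ G Ω).character (fun _ => (1 : ℂ)) = 1 := by
  rw [Cfsg.classInner]
  simp only [map_one, mul_one, permRep_character]
  have h1 := burnside_nat (G := G) Ω
  have h2 : Nat.card (MulAction.orbitRel.Quotient G Ω) = 1 := by
    have hs : Subsingleton (MulAction.orbitRel.Quotient G Ω) :=
      (MulAction.pretransitive_iff_subsingleton_quotient G Ω).mp inferInstance
    obtain ⟨a⟩ := ‹Nonempty Ω›
    have hn : Nonempty (MulAction.orbitRel.Quotient G Ω) := ⟨Quotient.mk'' a⟩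
    exact Nat.card_unique
  rw [h2, one_mul] at h1
  have h3 : ∑ g : G, (Nat.card (MulAction.fixedBy Ω g) : ℂ) = (Nat.card G : ℂ) := by
    exact_mod_cast h1
  rw [h3]
  have hne : (Nat.card G : ℂ) ≠ 0 := by
    have := Nat.card_pos (α := G)
    exact_mod_cast this.ne'
  field_simp

theorem finrank_const [Nonempty Ω] :
    Module.finrank ℂ (Cfsg.permConstants ℂ G Ω).toSubmodule = 1 := by
  apply finrank_span_singleton
  intro h
  obtain ⟨a⟩ := ‹Nonempty Ω›
  have h1 := congrFun h a
  simp at h1

theorem char_constants [Nonempty Ω] :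
    (Cfsg.permConstants ℂ G Ω).toRepresentation.character = fun _ => (1 : ℂ) := by
  funext g
  have hid : (Cfsg.permConstants ℂ G Ω).toRepresentation g = LinearMap.id := by
    apply LinearMap.ext
    intro w
    apply Subtype.ext
    obtain ⟨c, hc⟩ := Submodule.mem_span_singleton.mp w.2
    show Cfsg.permRep ℂ G Ω g (w : Ω → ℂ) = (w : Ω → ℂ)
    rw [← hc]
    funext x
    rfl
  rw [character_apply, hid, LinearMap.trace_id, finrank_const]
  simp

end aux

/-- If a natural number `f` divides the degree of every non-principal irreducible constituent of the permutation character of a transitive group, then `f` divides every non-trivial subdegree. -/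
theorem result {G : Type*} [Group G] [Fintype G] {Ω : Type*} [Fintype Ω] [MulAction G Ω] [MulAction.IsPretransitive G Ω] (f : ℕ) (hf : ∀ χ : G → ℂ, Cfsg.IsIrrCharacter G χ → χ ≠ (fun _ => 1) → Cfsg.classInner (fun g : G => (Nat.card (MulAction.fixedBy Ω g) : ℂ)) χ ≠ 0 → ∃ m : ℕ, χ 1 = (f : ℂ) * m) (a b : Ω) (hab : b ≠ a) : f ∣ Nat.card (MulAction.orbit (MulAction.stabilizer G a) b) := by
  classical
  haveI : Nonempty Ω := ⟨a⟩
  have hπ : (fun g : G => (Nat.card (MulAction.fixedBy Ω g) : ℂ)) =
      (Cfsg.permRep ℂ G Ω).character := funext fun g => (permRep_character g).symm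
  rw [hπ] at hf
  have hO : ∀ (g : G) (x y : Ω), (g • x, g • y) ∈ MulAction.orbit G (a, b) ↔
      (x, y) ∈ MulAction.orbit G (a, b) := by
    intro g x y
    have h1 : (g • x, g • y) = g • (x, y) := rfl
    rw [h1, ← MulAction.orbit_eq_iff, MulAction.orbit_smul, MulAction.orbit_eq_iff]
  have hOa : ∀ z : Ω, (a, z) ∈ MulAction.orbit G (a, b) ↔
      z ∈ MulAction.orbit (MulAction.stabilizer G a) b := by
    intro z
    constructor
    · rintro ⟨h, hh⟩
      have h1 : h • a = a := congrArg Prod.fst hh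
      have h2 : h • b = z := congrArg Prod.snd hh
      exact ⟨⟨h, h1⟩, h2⟩
    · rintro ⟨⟨h, hh⟩, h2⟩
      refine ⟨h, ?_⟩
      have h1 : h • a = a := hh
      have h2' : h • b = z := h2
      show (h • a, h • b) = (a, z)
      rw [h1, h2']
  obtain ⟨k, hk⟩ : ∃ k : ℕ, k = Nat.card (MulAction.orbit (MulAction.stabilizer G a) b) :=
    ⟨_, rfl⟩
  rw [← hk]
  have hcount : ∀ x : Ω,
      (Finset.univ.filter (fun y => (x, y) ∈ MulAction.orbit G (a, b))).card = k := by
    intro x
    obtain ⟨g, rfl⟩ := MulAction.exists_smul_eq G a x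
    rw [hk, ← Fintype.card_subtype, ← Nat.card_eq_fintype_card]
    let e : {y // (g • a, y) ∈ MulAction.orbit G (a, b)} ≃
        ↥(MulAction.orbit (MulAction.stabilizer G a) b) :=
      { toFun := fun y => ⟨g⁻¹ • y.1, (hOa _).mp (by
            have h1 := (hO g⁻¹ (g • a) y.1).mpr y.2
            rwa [inv_smul_smul] at h1)⟩
        invFun := fun z => ⟨g • z.1, (hO g a z.1).mpr ((hOa _).mpr z.2)⟩
        left_inv := fun y => Subtype.ext (smul_inv_smul g y.1)
        right_inv := fun z => Subtype.ext (inv_smul_smul g z.1) }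
    exact Nat.card_congr e
  have hrow : ∀ x : Ω,
      ∑ y, (if (x, y) ∈ MulAction.orbit G (a, b) then (1 : ℂ) else 0) = (k : ℂ) := by
    intro x
    rw [Finset.sum_boole, hcount x]
  obtain ⟨M₀, hM₀⟩ : ∃ M₀ : Matrix Ω Ω ℤ, M₀ = fun x y =>
      if (x, y) ∈ MulAction.orbit G (a, b) then (1 : ℤ) else 0 := ⟨_, rfl⟩
  obtain ⟨A, hAdef⟩ : ∃ A : (Ω → ℂ) →ₗ[ℂ] (Ω → ℂ),
      A = Matrix.toLin' (M₀.map (Int.castRingHom ℂ)) := ⟨_, rfl⟩
  have hA : ∀ (v : Ω → ℂ) (x : Ω),
      A v x = ∑ y, (if (x, y) ∈ MulAction.orbit G (a, b) then v y else 0) := by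
    intro v x
    rw [hAdef, Matrix.toLin'_apply, Matrix.mulVec, dotProduct]
    apply Finset.sum_congr rfl
    intro y _
    rw [Matrix.map_apply, hM₀]
    by_cases h : (x, y) ∈ MulAction.orbit G (a, b)
    · simp [h]
    · simp [h]
  have hAcomm : ∀ g, A ∘ₗ Cfsg.permRep ℂ G Ω g = Cfsg.permRep ℂ G Ω g ∘ₗ A := by
    intro g
    apply LinearMap.ext
    intro v
    funext x
    show A (Cfsg.permRep ℂ G Ω g v) x = (A v) (g⁻¹ • x)
    rw [hA, hA]
    have h1 := Equiv.sum_comp (MulAction.toPerm g⁻¹)
      (fun y => if (g⁻¹ • x, y) ∈ MulAction.orbit G (a, b) then v y else 0)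
    rw [← h1]
    apply Finset.sum_congr rfl
    intro y _
    show (if (x, y) ∈ MulAction.orbit G (a, b) then v (g⁻¹ • y) else 0) =
      if (g⁻¹ • x, g⁻¹ • y) ∈ MulAction.orbit G (a, b) then v (g⁻¹ • y) else 0
    by_cases h : (x, y) ∈ MulAction.orbit G (a, b)
    · rw [if_pos h, if_pos ((hO g⁻¹ x y).mpr h)]
    · rw [if_neg h, if_neg (fun h' => h ((hO g⁻¹ x y).mp h'))]
  have hconst : ∀ w ∈ (Cfsg.permConstants ℂ G Ω).toSubmodule, A w = (k : ℂ) • w := by
    intro w hw
    obtain ⟨c, rfl⟩ := Submodule.mem_span_singleton.mp hw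
    have h1 : A (fun _ => (1 : ℂ)) = (k : ℂ) • (fun _ => (1 : ℂ)) := by
      funext x
      rw [hA]
      simp only [Pi.smul_apply, smul_eq_mul, mul_one]
      exact hrow x
    rw [map_smul, h1, smul_comm]
  have htr : LinearMap.trace ℂ (Ω → ℂ) A = 0 := by
    rw [hAdef, Matrix.trace_toLin'_eq, Matrix.trace]
    apply Finset.sum_eq_zero
    intro x _
    have hx : (x, x) ∉ MulAction.orbit G (a, b) := by
      rintro ⟨g, hg⟩
      have h1 : g • a = x := congrArg Prod.fst hg
      have h2 : g • b = x := congrArg Prod.snd hg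
      exact hab (smul_left_cancel g (h2.trans h1.symm))
    rw [Matrix.diag_apply, Matrix.map_apply, hM₀]
    simp [hx]
  have hint : ∀ μ, Module.End.HasEigenvalue A μ → IsIntegral ℤ μ := by
    intro μ hμ
    rw [Module.End.hasEigenvalue_iff_isRoot_charpoly] at hμ
    have h1 : A.charpoly = (M₀.charpoly).map (Int.castRingHom ℂ) := by
      rw [hAdef, Matrix.charpoly_toLin', Matrix.charpoly_map]
    rw [h1, Polynomial.IsRoot.def, Polynomial.eval_map] at hμ
    exact ⟨M₀.charpoly, M₀.charpoly_monic, hμ⟩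
  haveI : NeZero (Nat.card G : ℂ) := ⟨by
    have := Nat.card_pos (α := G)
    exact_mod_cast this.ne'⟩
  obtain ⟨U, hU⟩ := exists_isCompl (Cfsg.permConstants ℂ G Ω)
  have hc := subrep_toSubmodule_isCompl hU
  have hchar := char_of_isCompl hU
  rw [char_constants] at hchar
  have hdegU : ∀ χ : G → ℂ, Cfsg.IsIrrCharacter G χ →
      Cfsg.classInner U.toRepresentation.character χ ≠ 0 → ∃ m : ℕ, χ 1 = (f : ℂ) * m := by
    intro χ hχ hne
    have hsum : Cfsg.classInner (Cfsg.permRep ℂ G Ω).character χ =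
        Cfsg.classInner (fun _ => (1 : ℂ)) χ +
          Cfsg.classInner U.toRepresentation.character χ := by
      rw [hchar, classInner_add_left]
    by_cases h1 : χ = fun _ => 1
    · exfalso
      apply hne
      rw [h1] at hsum ⊢
      rw [inner_perm_one, classInner_irr_self isIrrCharacter_one] at hsum
      linear_combination -hsum
    · apply hf χ hχ h1
      rw [hsum, classInner_irr isIrrCharacter_one hχ, if_neg (Ne.symm h1), zero_add]
      exact hne
  obtain ⟨t, ht, htt⟩ := trace_dvd_aux f _ U.toSubmodule U.toRepresentation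
    (compress (Cfsg.permConstants ℂ G Ω) U hc A) rfl
    (compress_comm (Cfsg.permConstants ℂ G Ω) U hc A hAcomm)
    (fun μ hμ => hint μ (eigen_compress (Cfsg.permConstants ℂ G Ω) U hc A k hconst μ hμ)) hdegU
  have htrace := trace_compress (Cfsg.permConstants ℂ G Ω) U hc A k hconst
  rw [htr, finrank_const, htt] at htrace
  by_cases hf0 : f = 0
  · rw [hf0] at htrace
    have hk0 : (k : ℂ) = 0 := by
      simp only [Nat.cast_one, mul_one, Nat.cast_zero, zero_mul, add_zero] at htrace
      exact htrace.symm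
    have hk0' : k = 0 := by exact_mod_cast hk0
    rw [hk0', hf0]
  · apply nat_dvd_of_isIntegral_div hf0
    have hfc : (f : ℂ) ≠ 0 := by exact_mod_cast hf0
    have h1 : (k : ℂ) / (f : ℂ) = -t := by
      rw [div_eq_iff hfc]
      simp only [Nat.cast_one, mul_one] at htrace
      linear_combination -htrace
    rw [h1]
    exact ht.neg

end Cfsg.Agent.S0715
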