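import Cfsg.Statements.S0716
import Cfsg.Agent.S0715
import Cfsg.Agent.S0669

set_option autoImplicit false
set_option linter.unusedSectionVars false
set_option linter.style.haveILetI false
open Cfsg

namespace Cfsg.Agent.S0716

open Representation Module Cfsg.Agent.Lib.Helper1 Cfsg.Agent.Lib.Helper19.PermChar

/-- the counting argument behind Frame's theorem -/
theorem counting {Q I : Type*} [Fintype Q] [Fintype I] [DecidableEq Q] [DecidableEq I]
    (q₀ : Q) (i₀ : I) (s : Q → ℕ) (m d : I → ℕ) (f : ℕ)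
    (h1 : ∑ q, s q = ∑ i, m i * d i) (h2 : Fintype.card Q = ∑ i, m i ^ 2)
    (hs0 : s q₀ = 1) (hm0 : m i₀ = 1) (hd0 : d i₀ = 1)
    (h4 : ∀ q, q ≠ q₀ → f ∣ s q ∧ 0 < s q) (h5 : ∀ i, i ≠ i₀ → m i ≠ 0 → d i = f) :
    (∀ i, m i ≤ 1) ∧ ∀ q, q ≠ q₀ → s q = f := by
  have e1 : ∑ q, s q = 1 + ∑ q ∈ Finset.univ.erase q₀, s q := by
    rw [← Finset.add_sum_erase _ _ (Finset.mem_univ q₀), hs0]
  have e2 : ∑ i, m i * d i = 1 + f * ∑ i ∈ Finset.univ.erase i₀, m i := by
    rw [← Finset.add_sum_erase _ _ (Finset.mem_univ i₀), hm0, hd0, Finset.mul_sum]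
    congr 1
    apply Finset.sum_congr rfl
    intro i hi
    have hne := Finset.ne_of_mem_erase hi
    by_cases h0 : m i = 0
    · rw [h0]
      simp
    · rw [h5 i hne h0, mul_comm]
  have e3 : ∑ i, m i ^ 2 = 1 + ∑ i ∈ Finset.univ.erase i₀, m i ^ 2 := by
    rw [← Finset.add_sum_erase _ _ (Finset.mem_univ i₀), hm0]
    norm_num
  have e4 : Fintype.card Q = 1 + (Finset.univ.erase q₀).card := by
    rw [Finset.card_erase_of_mem (Finset.mem_univ q₀), Finset.card_univ]
    have := Fintype.card_pos_iff.mpr ⟨q₀⟩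
    omega
  obtain ⟨S₁, hS₁⟩ : ∃ S₁, S₁ = ∑ i ∈ Finset.univ.erase i₀, m i := ⟨_, rfl⟩
  obtain ⟨S₂, hS₂⟩ : ∃ S₂, S₂ = ∑ i ∈ Finset.univ.erase i₀, m i ^ 2 := ⟨_, rfl⟩
  obtain ⟨T, hTdef⟩ : ∃ T, T = ∑ q ∈ Finset.univ.erase q₀, s q := ⟨_, rfl⟩
  obtain ⟨c, hcdef⟩ : ∃ c, c = (Finset.univ.erase q₀).card := ⟨_, rfl⟩
  rw [← hS₁] at e2
  rw [← hS₂] at e3
  rw [← hTdef] at e1
  rw [← hcdef] at e4
  have hT : T = f * S₁ := by
    have h6 : 1 + T = 1 + f * S₁ := by rw [← e1, ← e2, h1]
    exact Nat.add_left_cancel h6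
  have hc : c = S₂ := by omega
  have hS : S₁ ≤ S₂ := by
    rw [hS₁, hS₂]
    exact Finset.sum_le_sum (fun i _ => Nat.le_self_pow (by norm_num) _)
  rcases Nat.eq_zero_or_pos f with hf0 | hfpos
  · have hT0 : T = 0 := by rw [hT, hf0, zero_mul]
    have hempty : Finset.univ.erase q₀ = ∅ := by
      by_contra hne
      obtain ⟨q, hq⟩ := Finset.nonempty_iff_ne_empty.mpr hne
      have h6 := (h4 q (Finset.ne_of_mem_erase hq)).2
      have h7 : s q ≤ T := by
        rw [hTdef]
        exact Finset.single_le_sum (fun _ _ => Nat.zero_le _) hq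
      omega
    have hc0 : c = 0 := by rw [hcdef, hempty, Finset.card_empty]
    have hS20 : S₂ = 0 := by omega
    constructor
    · intro i
      by_cases hi : i = i₀
      · rw [hi, hm0]
      · have h7 : m i ^ 2 ≤ S₂ := by
          rw [hS₂]
          exact Finset.single_le_sum (f := fun i => m i ^ 2) (fun _ _ => Nat.zero_le _)
            (Finset.mem_erase.mpr ⟨hi, Finset.mem_univ i⟩)
        have h8 : m i ^ 2 = 0 := by omega
        have h9 : m i = 0 := by simpa using h8
        omega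
    · intro q hq
      exfalso
      have h6 : q ∈ Finset.univ.erase q₀ := Finset.mem_erase.mpr ⟨hq, Finset.mem_univ q⟩
      rw [hempty] at h6
      simp at h6
  · have hsf : ∀ q ∈ Finset.univ.erase q₀, f ≤ s q := fun q hq =>
      Nat.le_of_dvd (h4 q (Finset.ne_of_mem_erase hq)).2 (h4 q (Finset.ne_of_mem_erase hq)).1
    have hT2 : c * f ≤ T := by
      have h6 := Finset.sum_le_sum hsf
      rw [Finset.sum_const, smul_eq_mul, ← hcdef, ← hTdef] at h6
      exact h6
    have h8 : S₂ ≤ S₁ := by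
      rw [hc, hT, mul_comm] at hT2
      exact Nat.le_of_mul_le_mul_left hT2 hfpos
    have hS12 : S₁ = S₂ := le_antisymm hS h8
    have hmle : ∀ i ∈ Finset.univ.erase i₀, m i = m i ^ 2 :=
      (Finset.sum_eq_sum_iff_of_le (fun i _ => Nat.le_self_pow (by norm_num) _)).mp
        (by rw [← hS₁, ← hS₂]; exact hS12)
    have hTc : ∑ q ∈ Finset.univ.erase q₀, f = ∑ q ∈ Finset.univ.erase q₀, s q := by
      rw [Finset.sum_const, smul_eq_mul, ← hcdef, ← hTdef, hT, hc, hS12, mul_comm]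
    have hseq := (Finset.sum_eq_sum_iff_of_le hsf).mp hTc
    constructor
    · intro i
      by_cases hi : i = i₀
      · rw [hi, hm0]
      · have h6 := hmle i (Finset.mem_erase.mpr ⟨hi, Finset.mem_univ i⟩)
        by_contra hgt
        push Not at hgt
        nlinarith
    · intro q hq
      exact (hseq q (Finset.mem_erase.mpr ⟨hq, Finset.mem_univ q⟩)).symm

section aux

variable {G : Type*} [Group G] [Fintype G] {Ω : Type*} [Fintype Ω] [MulAction G Ω]

theorem char_data [MulAction.IsPretransitive G Ω] (a : Ω) [Fintype (Cfsg.IrrCharacter G)] :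
    ∃ m : Cfsg.IrrCharacter G → ℕ,
      (∀ ψ : Cfsg.IrrCharacter G,
        Cfsg.classInner (Cfsg.permRep ℂ G Ω).character (ψ : G → ℂ) = (m ψ : ℂ)) ∧
      (Fintype.card Ω : ℂ) = ∑ ψ : Cfsg.IrrCharacter G, (m ψ : ℂ) * (ψ : G → ℂ) 1 ∧
      Nat.card (MulAction.orbitRel.Quotient (MulAction.stabilizer G a) Ω) =
        ∑ ψ : Cfsg.IrrCharacter G, (m ψ) ^ 2 := by
  classical
  obtain ⟨m, hm1, hm2⟩ := IsCharacter.eq_sum_irr (isCharacter_character (Cfsg.permRep ℂ G Ω))
  refine ⟨m, hm1, ?_, ?_⟩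
  · have h1 := congrFun hm2 1
    rw [permRep_character] at h1
    simp only [Finset.sum_apply, Pi.smul_apply, smul_eq_mul] at h1
    rw [← h1]
    have h2 : MulAction.fixedBy Ω (1 : G) = Set.univ := by
      ext x
      simp
    rw [h2, Nat.card_coe_set_eq, Set.ncard_univ, Nat.card_eq_fintype_card]
  · have hne : (Nat.card G : ℂ) ≠ 0 := by
      have := Nat.card_pos (α := G)
      exact_mod_cast this.ne'
    have hππ : Cfsg.classInner (Cfsg.permRep ℂ G Ω).character (Cfsg.permRep ℂ G Ω).character =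
        (Nat.card (MulAction.orbitRel.Quotient G (Ω × Ω)) : ℂ) := by
      rw [Cfsg.classInner]
      simp only [permRep_character, Complex.conj_natCast]
      have h1 := burnside_nat (G := G) (Ω × Ω)
      simp only [card_fixedBy_prod] at h1
      have h3 : ∑ g : G, (Nat.card (MulAction.fixedBy Ω g) : ℂ) *
          (Nat.card (MulAction.fixedBy Ω g) : ℂ) =
          (Nat.card (MulAction.orbitRel.Quotient G (Ω × Ω)) : ℂ) * (Nat.card G : ℂ) := by
        have h4 : ∑ g : G, (Nat.card (MulAction.fixedBy Ω g) : ℂ) *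
            (Nat.card (MulAction.fixedBy Ω g) : ℂ) =
            ((∑ g : G, Nat.card (MulAction.fixedBy Ω g) ^ 2 : ℕ) : ℂ) := by
          push_cast
          exact Finset.sum_congr rfl (fun g _ => by ring)
        rw [h4, h1]
        push_cast
        ring
      rw [h3]
      field_simp
    have hsum : Cfsg.classInner (Cfsg.permRep ℂ G Ω).character (Cfsg.permRep ℂ G Ω).character =
        ∑ ψ : Cfsg.IrrCharacter G, ((m ψ : ℂ)) ^ 2 := by
      have h5 : Cfsg.classInner (Cfsg.permRep ℂ G Ω).character (Cfsg.permRep ℂ G Ω).character =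
          Cfsg.classInner (Cfsg.permRep ℂ G Ω).character
            (∑ ψ : Cfsg.IrrCharacter G, (m ψ : ℂ) • (ψ : G → ℂ)) := by
        rw [← hm2]
      rw [h5, classInner_sum_right]
      apply Finset.sum_congr rfl
      intro ψ _
      rw [classInner_smul_right, Complex.conj_natCast, hm1 ψ]
      ring
    rw [← Cfsg.Agent.S0669.result a]
    have h6 : ((Nat.card (MulAction.orbitRel.Quotient G (Ω × Ω)) : ℕ) : ℂ) =
        ((∑ ψ : Cfsg.IrrCharacter G, m ψ ^ 2 : ℕ) : ℂ) := by
      rw [← hππ, hsum]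
      push_cast
      rfl
    exact_mod_cast h6

theorem part1 [MulAction.IsPretransitive G Ω] (a : Ω) (f : ℕ)
    (hyp : ∀ χ : G → ℂ, Cfsg.IsIrrCharacter G χ → χ ≠ (fun _ => 1) →
      Cfsg.classInner (fun g : G => (Nat.card (MulAction.fixedBy Ω g) : ℂ)) χ ≠ 0 → χ 1 = f) :
    (∀ χ : G → ℂ, Cfsg.IsIrrCharacter G χ →
        Cfsg.classInner (fun g : G => (Nat.card (MulAction.fixedBy Ω g) : ℂ)) χ = 0 ∨
        Cfsg.classInner (fun g : G => (Nat.card (MulAction.fixedBy Ω g) : ℂ)) χ = 1) ∧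
      ∀ b : Ω, b ≠ a → Nat.card (MulAction.orbit (MulAction.stabilizer G a) b) = f := by
  classical
  haveI : Nonempty Ω := ⟨a⟩
  haveI : Fintype (Cfsg.IrrCharacter G) := irrFintype
  haveI : Fintype (MulAction.orbitRel.Quotient (MulAction.stabilizer G a) Ω) := Fintype.ofFinite _
  have hπ : (fun g : G => (Nat.card (MulAction.fixedBy Ω g) : ℂ)) =
      (Cfsg.permRep ℂ G Ω).character := funext fun g => (permRep_character g).symm
  obtain ⟨m, hm1, hm2, hm3⟩ := char_data (G := G) (Ω := Ω) a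
  have hdeg : ∀ ψ : Cfsg.IrrCharacter G, ∃ n : ℕ, (ψ : G → ℂ) 1 = (n : ℂ) := fun ψ =>
    (IsIrrCharacter.degree_pos ψ.2).imp fun n h => h.2
  choose d hd using hdeg
  obtain ⟨i₀, hi₀⟩ : ∃ i₀ : Cfsg.IrrCharacter G, (i₀ : G → ℂ) = fun _ => 1 :=
    ⟨⟨fun _ => 1, isIrrCharacter_one⟩, rfl⟩
  obtain ⟨q₀, hq₀⟩ : ∃ q₀ : MulAction.orbitRel.Quotient (MulAction.stabilizer G a) Ω,
      q₀ = Quotient.mk'' a := ⟨_, rfl⟩
  have hout : ∀ (q : MulAction.orbitRel.Quotient (MulAction.stabilizer G a) Ω) (b : Ω),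
      q = Quotient.mk'' b → q.out ∈ MulAction.orbit (MulAction.stabilizer G a) b := by
    intro q b hq
    have h1 : (Quotient.mk'' q.out : MulAction.orbitRel.Quotient (MulAction.stabilizer G a) Ω) =
        Quotient.mk'' b := by rw [Quotient.out_eq', hq]
    exact MulAction.orbitRel_apply.mp (Quotient.exact' h1)
  have horba : ∀ z : Ω, z ∈ MulAction.orbit (MulAction.stabilizer G a) a → z = a := by
    rintro z ⟨h, hh⟩
    have h1 : (h : G) • a = a := h.2
    have h2 : (h : G) • a = z := hh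
    rw [← h2, h1]
  have hB1 : ∑ q : MulAction.orbitRel.Quotient (MulAction.stabilizer G a) Ω,
      Nat.card (MulAction.orbit (MulAction.stabilizer G a) q.out) = Fintype.card Ω := by
    have e := MulAction.selfEquivSigmaOrbits (MulAction.stabilizer G a) Ω
    rw [← Nat.card_eq_fintype_card, Nat.card_congr e, Nat.card_sigma]
  have h1 : ∑ q : MulAction.orbitRel.Quotient (MulAction.stabilizer G a) Ω,
      Nat.card (MulAction.orbit (MulAction.stabilizer G a) q.out) = ∑ i, m i * d i := by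
    rw [hB1]
    have h6 : (Fintype.card Ω : ℂ) = ((∑ i, m i * d i : ℕ) : ℂ) := by
      rw [hm2]
      push_cast
      exact Finset.sum_congr rfl (fun i _ => by rw [hd i])
    exact_mod_cast h6
  have h2 : Fintype.card (MulAction.orbitRel.Quotient (MulAction.stabilizer G a) Ω) =
      ∑ i, m i ^ 2 := by
    rw [← Nat.card_eq_fintype_card, hm3]
  have hs0 : Nat.card (MulAction.orbit (MulAction.stabilizer G a) q₀.out) = 1 := by
    have h6 : q₀.out = a := horba _ (hout q₀ a hq₀)
    rw [h6]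
    have h7 : MulAction.orbit (MulAction.stabilizer G a) a = {a} := by
      ext z
      constructor
      · intro hz
        exact horba z hz
      · intro hz
        rw [Set.mem_singleton_iff] at hz
        rw [hz]
        exact MulAction.mem_orbit_self a
    rw [h7]
    simp
  have hm0 : m i₀ = 1 := by
    have h6 := hm1 i₀
    rw [hi₀, Cfsg.Agent.S0715.inner_perm_one] at h6
    exact_mod_cast h6.symm
  have hd0 : d i₀ = 1 := by
    have h6 := hd i₀
    rw [hi₀] at h6
    have h7 : (1 : ℂ) = (d i₀ : ℂ) := h6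
    exact_mod_cast h7.symm
  have h4 : ∀ q : MulAction.orbitRel.Quotient (MulAction.stabilizer G a) Ω, q ≠ q₀ →
      f ∣ Nat.card (MulAction.orbit (MulAction.stabilizer G a) q.out) ∧
      0 < Nat.card (MulAction.orbit (MulAction.stabilizer G a) q.out) := by
    intro q hq
    have hne : q.out ≠ a := by
      intro h6
      apply hq
      rw [hq₀]
      exact (Quotient.out_eq' q).symm.trans (congrArg
        (Quotient.mk'' : Ω → MulAction.orbitRel.Quotient (MulAction.stabilizer G a) Ω) h6)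
    refine ⟨Cfsg.Agent.S0715.result f (fun χ hχ hχ1 hχ2 => ⟨1, by
      rw [hyp χ hχ hχ1 hχ2]
      simp⟩) a q.out hne, ?_⟩
    haveI : Nonempty (MulAction.orbit (MulAction.stabilizer G a) q.out) :=
      (MulAction.nonempty_orbit _).to_subtype
    exact Nat.card_pos
  have h5 : ∀ i : Cfsg.IrrCharacter G, i ≠ i₀ → m i ≠ 0 → d i = f := by
    intro i hi hmi
    have h6 : (i : G → ℂ) 1 = f := hyp i.1 i.2 (by
      intro h7
      apply hi
      apply Subtype.ext
      rw [h7, hi₀]) (by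
      rw [hπ, hm1 i]
      exact_mod_cast hmi)
    rw [hd i] at h6
    exact_mod_cast h6
  obtain ⟨hmle, hsf⟩ := counting q₀ i₀
    (fun q => Nat.card (MulAction.orbit (MulAction.stabilizer G a) q.out)) m d f h1 h2 hs0 hm0 hd0
    h4 h5
  constructor
  · intro χ hχ
    rw [hπ, hm1 ⟨χ, hχ⟩]
    rcases Nat.le_one_iff_eq_zero_or_eq_one.mp (hmle ⟨χ, hχ⟩) with h | h
    · left
      rw [h]
      simp
    · right
      rw [h]
      simp
  · intro b hb
    have hq : (Quotient.mk'' b : MulAction.orbitRel.Quotient (MulAction.stabilizer G a) Ω) ≠ q₀ := by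
      intro h6
      apply hb
      rw [hq₀] at h6
      exact horba b (MulAction.orbitRel_apply.mp (Quotient.exact' h6))
    have h6 := hsf _ hq
    have h7 : MulAction.orbit (MulAction.stabilizer G a)
        (Quotient.mk'' b : MulAction.orbitRel.Quotient (MulAction.stabilizer G a) Ω).out =
        MulAction.orbit (MulAction.stabilizer G a) b :=
      MulAction.orbit_eq_iff.mpr (hout _ b rfl)
    rw [← h7]
    exact h6

theorem part2 [MulAction.IsPretransitive G Ω] (a : Ω)
    (hr : Nat.card (MulAction.orbitRel.Quotient (MulAction.stabilizer G a) Ω) ≤ 5) :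
    ∀ χ : G → ℂ, Cfsg.IsIrrCharacter G χ →
        Cfsg.classInner (fun g : G => (Nat.card (MulAction.fixedBy Ω g) : ℂ)) χ = 0 ∨
        Cfsg.classInner (fun g : G => (Nat.card (MulAction.fixedBy Ω g) : ℂ)) χ = 1 := by
  classical
  haveI : Nonempty Ω := ⟨a⟩
  haveI : Fintype (Cfsg.IrrCharacter G) := irrFintype
  have hπ : (fun g : G => (Nat.card (MulAction.fixedBy Ω g) : ℂ)) =
      (Cfsg.permRep ℂ G Ω).character := funext fun g => (permRep_character g).symm
  obtain ⟨m, hm1, hm2, hm3⟩ := char_data (G := G) (Ω := Ω) a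
  intro χ hχ
  by_contra hcon
  push Not at hcon
  obtain ⟨i₁, hi₁⟩ : ∃ i₁ : Cfsg.IrrCharacter G, (i₁ : G → ℂ) = χ := ⟨⟨χ, hχ⟩, rfl⟩
  have hmi₁ : 2 ≤ m i₁ := by
    by_contra h
    have h6 : m i₁ ≤ 1 := by omega
    rcases Nat.le_one_iff_eq_zero_or_eq_one.mp h6 with h0 | h0
    · exact hcon.1 (by rw [hπ, ← hi₁, hm1 i₁, h0]; simp)
    · exact hcon.2 (by rw [hπ, ← hi₁, hm1 i₁, h0]; simp)
  obtain ⟨i₀, hi₀⟩ : ∃ i₀ : Cfsg.IrrCharacter G, (i₀ : G → ℂ) = fun _ => 1 :=
    ⟨⟨fun _ => 1, isIrrCharacter_one⟩, rfl⟩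
  have hm0 : m i₀ = 1 := by
    have h6 := hm1 i₀
    rw [hi₀, Cfsg.Agent.S0715.inner_perm_one] at h6
    exact_mod_cast h6.symm
  have hne : i₁ ≠ i₀ := by
    intro h
    rw [h] at hmi₁
    omega
  have hothers : ∀ i : Cfsg.IrrCharacter G, i ≠ i₀ → i ≠ i₁ → m i = 0 := by
    intro i hi0 hi1
    have hsub : ∑ j ∈ ({i₀, i₁, i} : Finset (Cfsg.IrrCharacter G)), m j ^ 2 ≤ ∑ j, m j ^ 2 :=
      Finset.sum_le_sum_of_subset (Finset.subset_univ _)
    have hnm : i₀ ∉ ({i₁, i} : Finset (Cfsg.IrrCharacter G)) := by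
      simp only [Finset.mem_insert, Finset.mem_singleton, not_or]
      exact ⟨hne.symm, hi0.symm⟩
    rw [Finset.sum_insert hnm, Finset.sum_pair hi1.symm, hm0, ← hm3] at hsub
    have h6 : 4 ≤ m i₁ ^ 2 := by nlinarith
    have h7 : m i ^ 2 = 0 := by omega
    simpa using h7
  obtain ⟨f, hf⟩ : ∃ f : ℕ, χ 1 = (f : ℂ) := (IsIrrCharacter.degree_pos hχ).imp fun n h => h.2
  have h8 := (part1 a f (fun χ' hχ' h1 h2 => by
    have h9 : (⟨χ', hχ'⟩ : Cfsg.IrrCharacter G) = i₁ := by
      by_contra hne'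
      have h10 := hothers ⟨χ', hχ'⟩ (by
        intro h
        apply h1
        have := congrArg Subtype.val h
        rw [hi₀] at this
        exact this) hne'
      apply h2
      rw [hπ, hm1 ⟨χ', hχ'⟩, h10]
      simp
    have h11 : χ' = χ := by
      have := congrArg Subtype.val h9
      rw [hi₁] at this
      exact this
    rw [h11, hf])).1 χ hχ
  rcases h8 with h | h
  · exact hcon.1 h
  · exact hcon.2 h

end aux

/-- (a) If all non-principal irreducible constituents of the permutation character of a transitive group have the same degree `f`, the character is multiplicity-free and all non-trivial subdegrees equal `f`. (b) A transitive group of rank at most 5 has multiplicity-free permutation character. -/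
theorem result {G : Type*} [Group G] [Fintype G] {Ω : Type*} [Fintype Ω] [MulAction G Ω] [MulAction.IsPretransitive G Ω] (a : Ω) : ((f : ℕ) → (∀ χ : G → ℂ, Cfsg.IsIrrCharacter G χ → χ ≠ (fun _ => 1) → Cfsg.classInner (fun g : G => (Nat.card (MulAction.fixedBy Ω g) : ℂ)) χ ≠ 0 → χ 1 = f) → (∀ χ : G → ℂ, Cfsg.IsIrrCharacter G χ → Cfsg.classInner (fun g : G => (Nat.card (MulAction.fixedBy Ω g) : ℂ)) χ = 0 ∨ Cfsg.classInner (fun g : G => (Nat.card (MulAction.fixedBy Ω g) : ℂ)) χ = 1) ∧ ∀ b : Ω, b ≠ a → Nat.card (MulAction.orbit (MulAction.stabilizer G a) b) = f) ∧ (Nat.card (MulAction.orbitRel.Quotient (MulAction.stabilizer G a) Ω) ≤ 5 → ∀ χ : G → ℂ, Cfsg.IsIrrCharacter G χ → Cfsg.classInner (fun g : G => (Nat.card (MulAction.fixedBy Ω g) : ℂ)) χ = 0 ∨ Cfsg.classInner (fun g : G => (Nat.card (MulAction.fixedBy Ω g) : ℂ)) χ = 1) := by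
  exact ⟨fun f hyp => part1 a f hyp, fun hr => part2 a hr⟩

end Cfsg.Agent.S0716
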