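import Cfsg.Statements.S0718
import Cfsg.Agent.Lib.Helper19.PermChar

set_option autoImplicit false
open Cfsg

namespace Cfsg.Agent.S0718

open Representation Module Cfsg.Agent.Lib.Helper1 Cfsg.Agent.Lib.Helper19.PermChar

/-- Multiplicity-freeness of the permutation character is equivalent to commutativity of the centraliser ring, i.e. of the algebra of `G`-equivariant endomorphisms of the complex permutation module. -/
theorem result {G : Type*} [Group G] [Fintype G] {Ω : Type*} [Fintype Ω] [MulAction G Ω] : (∀ χ : G → ℂ, Cfsg.IsIrrCharacter G χ → Cfsg.classInner (fun g : G => (Nat.card (MulAction.fixedBy Ω g) : ℂ)) χ = 0 ∨ Cfsg.classInner (fun g : G => (Nat.card (MulAction.fixedBy Ω g) : ℂ)) χ = 1) ↔ ∀ S T : (Ω → ℂ) →ₗ[ℂ] (Ω → ℂ), S ∈ ((Cfsg.permRep ℂ G Ω).linHom (Cfsg.permRep ℂ G Ω)).invariants → T ∈ ((Cfsg.permRep ℂ G Ω).linHom (Cfsg.permRep ℂ G Ω)).invariants → S ∘ₗ T = T ∘ₗ S := by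
  classical
  set ρ := Cfsg.permRep ℂ G Ω with hρ
  have hπ : (fun g : G => (Nat.card (MulAction.fixedBy Ω g) : ℂ)) = ρ.character := by
    funext g
    exact (permRep_character g).symm
  rw [hπ]
  constructor
  · intro hmf S T hS hT
    rw [mem_inv_iff] at hS hT
    have key : ∀ v, S (T v) = T (S v) := by
      apply irr_induction ρ (fun v => S (T v) = T (S v))
      · simp
      · intro x y hx hy
        simp only [map_add, hx, hy]
      · intro W hW w hw
        haveI := hW
        obtain ⟨c, hc⟩ := scalar_on_irr ρ hmf W (ofComm ρ S hS)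
        obtain ⟨d, hd⟩ := scalar_on_irr ρ hmf W (ofComm ρ T hT)
        have hc' : S w = c • w := hc w hw
        have hd' : T w = d • w := hd w hw
        show S (T w) = T (S w)
        rw [hd', hc', map_smul, map_smul, hc', hd', smul_comm]
    exact LinearMap.ext key
  · intro hcomm χ hχ
    obtain ⟨n, σ, hσ, rfl⟩ := hχ
    haveI := hσ
    rw [classInner_character ρ σ]
    haveI := finite_intertwining σ ρ
    have hle : Module.finrank ℂ (IntertwiningMap σ ρ) ≤ 1 := by
      rw [finrank_le_one_iff]
      by_cases hall : ∀ f : IntertwiningMap σ ρ, f = 0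
      · exact ⟨0, fun w => ⟨0, by rw [hall w]; simp⟩⟩
      · push Not at hall
        obtain ⟨f₁, hf₁⟩ := hall
        refine ⟨f₁, fun f₂ => ?_⟩
        have hinj : Function.Injective f₁ :=
          (Representation.IsIrreducible.injective_or_eq_zero f₁).resolve_right hf₁
        obtain ⟨g₁, hg₁⟩ := exists_retraction ρ σ f₁ hinj
        have hST := hcomm (f₁.comp g₁).toLinearMap (f₂.comp g₁).toLinearMap
          ((mem_inv_iff ρ _).mpr (f₁.comp g₁).isIntertwining')
          ((mem_inv_iff ρ _).mpr (f₂.comp g₁).isIntertwining')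
        have hu := schur_scalar σ (g₁.comp f₂).toLinearMap (g₁.comp f₂).isIntertwining'
        obtain ⟨c, hc⟩ : ∃ c : ℂ, (g₁.comp f₂).toLinearMap = c • (LinearMap.id : _ →ₗ[ℂ] _) :=
          ⟨_, hu⟩
        have h1 : ∀ v, f₂ v = f₁ (g₁ (f₂ v)) := by
          intro v
          have h2 := LinearMap.congr_fun hST (f₁ v)
          have e1 : ((f₁.comp g₁).toLinearMap ∘ₗ (f₂.comp g₁).toLinearMap) (f₁ v) =
              f₁ (g₁ (f₂ v)) := by
            show f₁ (g₁ (f₂ (g₁ (f₁ v)))) = _
            rw [hg₁]
          have e2 : ((f₂.comp g₁).toLinearMap ∘ₗ (f₁.comp g₁).toLinearMap) (f₁ v) = f₂ v := by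
            show f₂ (g₁ (f₁ (g₁ (f₁ v)))) = _
            rw [hg₁, hg₁]
          rw [e1, e2] at h2
          exact h2.symm
        refine ⟨c, ?_⟩
        apply IntertwiningMap.ext
        apply LinearMap.ext
        intro v
        show c • f₁ v = f₂ v
        rw [h1 v]
        have h3 : g₁ (f₂ v) = c • v := LinearMap.congr_fun hc v
        rw [h3, map_smul]
    rcases Nat.le_one_iff_eq_zero_or_eq_one.mp hle with h | h
    · left
      rw [h]
      simp
    · right
      rw [h]
      simp

end Cfsg.Agent.S0718
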