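import Cfsg.Statements.S0719
import Cfsg.Agent.Lib.Helper19.PermChar3
import Cfsg.Agent.Lib.Helper1.CharMore
import Cfsg.Agent.Lib.Helper1.CharEquiv
import Cfsg.Agent.S0715

set_option autoImplicit false
set_option linter.unusedSectionVars false
set_option linter.unusedVariables false
set_option linter.style.haveILetI false
open Cfsg

namespace Cfsg.Agent.S0719

open Representation Module Cfsg.Agent.Lib.Helper1 Cfsg.Agent.Lib.Helper19.PermChar

universe u v

/-- the arithmetic of the two eigenvalue equations -/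
theorem int_lemma (M K L δ μ : ℤ) (hM : 3 ≤ M) (hsum : 2 * M = 1 + K + L) (hK : 2 ≤ K)
    (hL : 2 ≤ L) (E2 : K * K = K + δ * K + μ * (2 * M - 1))
    (E1 : (K + M * δ) * (-K - (M - 1) * δ) = μ - K) :
    ∃ a : ℤ, 0 < a ∧ M = 2 * a ^ 2 + 2 * a + 1 ∧
      ((K = a * (2 * a + 1) ∧ L = (a + 1) * (2 * a + 1)) ∨
       (K = (a + 1) * (2 * a + 1) ∧ L = a * (2 * a + 1))) := by
  obtain ⟨w, hw⟩ : ∃ w : ℤ, w = -K - (M - 1) * δ := ⟨_, rfl⟩
  have key : M * (2 * w * (w + 1) + (M - 1) * δ * (δ + 2)) = 0 := by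
    rw [hw]
    linear_combination E2 - (2 * M - 1) * E1
  have hM0 : M ≠ 0 := by omega
  have key2 : 2 * w * (w + 1) + (M - 1) * δ * (δ + 2) = 0 := by
    rcases mul_eq_zero.mp key with h | h
    · exact absurd h hM0
    · exact h
  have hww : 0 ≤ w * (w + 1) := by
    rcases le_or_gt 0 w with h | h
    · positivity
    · nlinarith
  have hδ : δ * (δ + 2) ≤ 0 := by
    by_contra hcon
    push Not at hcon
    have h1 : 0 < (M - 1) * (δ * (δ + 2)) := mul_pos (by omega) hcon
    nlinarith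
  have hδ1 : -2 ≤ δ := by nlinarith
  have hδ2 : δ ≤ 0 := by nlinarith
  interval_cases δ
  · exfalso
    have h1 : w * (w + 1) = 0 := by linarith
    rcases mul_eq_zero.mp h1 with h | h
    · omega
    · omega
  · have h1 : 2 * w * (w + 1) = M - 1 := by linarith
    have hw' : w = -K + (M - 1) := by linarith
    rcases le_or_gt 0 w with h | h
    · refine ⟨w, ?_, ?_, Or.inl ⟨?_, ?_⟩⟩
      · by_contra hc
        have hw0 : w = 0 := by omega
        rw [hw0] at h1
        norm_num at h1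
        omega
      · linarith
      · linarith
      · linarith
    · refine ⟨-w - 1, ?_, ?_, Or.inr ⟨?_, ?_⟩⟩
      · by_contra hc
        have hw0 : w = -1 := by omega
        rw [hw0] at h1
        norm_num at h1
        omega
      · linarith
      · linarith
      · linarith
  · exfalso
    have h1 : w * (w + 1) = 0 := by linarith
    rcases mul_eq_zero.mp h1 with h | h
    · omega
    · omega

section prim

variable {G : Type*} [Group G] {Ω : Type*} [MulAction G Ω]

theorem fixed_of_card_one (H : Subgroup G) (b : Ω) (h1 : Nat.card (MulAction.orbit H b) = 1) :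
    ∀ h ∈ H, h • b = b := by
  intro h hh
  have hs : Subsingleton (MulAction.orbit H b) := (Nat.card_eq_one_iff_unique.mp h1).1
  have e := Subsingleton.elim
    (⟨(⟨h, hh⟩ : H) • b, MulAction.mem_orbit b _⟩ : MulAction.orbit H b)
    ⟨b, MulAction.mem_orbit_self b⟩
  exact congrArg Subtype.val e

theorem card_one_of_fixed (H : Subgroup G) (b : Ω) (hf : ∀ h ∈ H, h • b = b) :
    Nat.card (MulAction.orbit H b) = 1 := by
  have h1 : MulAction.orbit H b = {b} := by
    ext z
    constructor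
    · rintro ⟨h, rfl⟩
      exact Set.mem_singleton_iff.mpr (hf h.1 h.2)
    · intro hz
      rw [Set.mem_singleton_iff.mp hz]
      exact MulAction.mem_orbit_self _
  rw [h1, Nat.card_coe_set_eq, Set.ncard_singleton]

/-- in a primitive action, a point stabilizer fixing a second point fixes every point -/
theorem fix_all [Finite Ω] (hprim : MulAction.IsPreprimitive G Ω) (a b : Ω) (hab : b ≠ a)
    (hfix : ∀ h ∈ MulAction.stabilizer G a, h • b = b) :
    ∀ x : Ω, ∀ h ∈ MulAction.stabilizer G a, h • x = x := by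
  haveI := hprim.toIsPretransitive
  haveI : Nontrivial Ω := ⟨⟨b, a, hab⟩⟩
  have hco : IsCoatom (MulAction.stabilizer G a) :=
    MulAction.IsPreprimitive.isCoatom_stabilizer_of_isPreprimitive G a
  have hle : MulAction.stabilizer G a ≤ MulAction.stabilizer G b := fun h hh => hfix h hh
  have heq : MulAction.stabilizer G a = MulAction.stabilizer G b := by
    have h1 := Subgroup.relIndex_mul_index hle
    rw [MulAction.index_stabilizer_of_transitive, MulAction.index_stabilizer_of_transitive] at h1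
    have hpos : 0 < Nat.card Ω := Nat.card_pos
    have h2 : (MulAction.stabilizer G a).relIndex (MulAction.stabilizer G b) = 1 := by
      nlinarith
    exact le_antisymm hle (Subgroup.relIndex_eq_one.mp h2)
  obtain ⟨g, hg⟩ := MulAction.exists_smul_eq G a b
  have hgn : g ∈ Subgroup.normalizer (MulAction.stabilizer G a : Set G) := by
    rw [Subgroup.mem_normalizer_iff]
    intro h
    have h1 : g * h * g⁻¹ ∈ MulAction.stabilizer G a ↔
        g * h * g⁻¹ ∈ MulAction.stabilizer G b := by rw [← heq]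
    rw [h1, MulAction.mem_stabilizer_iff, MulAction.mem_stabilizer_iff, ← hg, mul_smul, mul_smul,
      inv_smul_smul, smul_left_cancel_iff]
  have hgH : g ∉ MulAction.stabilizer G a := by
    intro h
    rw [MulAction.mem_stabilizer_iff] at h
    exact hab (hg.symm.trans h)
  have hlt : MulAction.stabilizer G a < Subgroup.normalizer (MulAction.stabilizer G a : Set G) :=
    lt_of_le_of_ne Subgroup.le_normalizer (fun e => hgH (by rw [e]; exact hgn))
  have htop := hco.2 _ hlt
  have hnorm : (MulAction.stabilizer G a).Normal := Subgroup.normalizer_eq_top_iff.mp htop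
  intro x h hh
  obtain ⟨g', rfl⟩ := MulAction.exists_smul_eq G a x
  have h1 := hnorm.conj_mem h hh g'⁻¹
  rw [MulAction.mem_stabilizer_iff, mul_smul, mul_smul, inv_inv] at h1
  exact inv_smul_eq_iff.mp h1

end prim

section rep

variable {G : Type u} [Group G] [Fintype G] {V : Type v} [AddCommGroup V] [Module ℂ V]
  [FiniteDimensional ℂ V]

theorem irr_of_irrChar (ρ : Representation ℂ G V) (h : Cfsg.IsIrrCharacter G ρ.character) :
    ρ.IsIrreducible := by
  obtain ⟨n, ρ', hρ', hchar⟩ := h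
  obtain ⟨φ⟩ := equiv_of_char_eq ρ' ρ hchar
  exact isIrreducible_of_equiv φ hρ'

/-- an intertwining endomorphism of a representation with character `χ₁ + χ₂` has two eigenvalues
and its trace is the corresponding combination of the degrees -/
theorem eigen_data (σ : Representation ℂ G V) (χ₁ χ₂ : G → ℂ)
    (h₁ : Cfsg.IsIrrCharacter G χ₁) (h₂ : Cfsg.IsIrrCharacter G χ₂) (hne : χ₁ ≠ χ₂)
    (hσ : σ.character = χ₁ + χ₂) (B : V →ₗ[ℂ] V) (hB : ∀ g, B ∘ₗ σ g = σ g ∘ₗ B) :
    ∃ r s : ℂ, (∃ v : V, v ≠ 0 ∧ B v = r • v) ∧ (∃ v : V, v ≠ 0 ∧ B v = s • v) ∧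
      LinearMap.trace ℂ V B = r * χ₁ 1 + s * χ₂ 1 := by
  classical
  have hmf : ∀ ψ : G → ℂ, Cfsg.IsIrrCharacter G ψ →
      Cfsg.classInner σ.character ψ = 0 ∨ Cfsg.classInner σ.character ψ = 1 := by
    intro ψ hψ
    rw [hσ, classInner_add_left, classInner_irr h₁ hψ, classInner_irr h₂ hψ]
    by_cases e1 : χ₁ = ψ
    · have e2 : χ₂ ≠ ψ := fun e2 => hne (e1.trans e2.symm)
      rw [if_pos e1, if_neg e2]
      right
      ring
    · by_cases e2 : χ₂ = ψ
      · rw [if_neg e1, if_pos e2]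
        right
        ring
      · rw [if_neg e1, if_neg e2]
        left
        ring
  haveI : Nontrivial V := by
    by_contra hcon
    rw [not_nontrivial_iff_subsingleton] at hcon
    have h0 : σ.character = 0 := character_eq_zero_of_subsingleton σ
    have h3 := classInner_add_left χ₁ χ₂ χ₁
    rw [← hσ, h0, classInner_zero_left, classInner_irr_self h₁, classInner_irr h₂ h₁,
      if_neg (Ne.symm hne)] at h3
    norm_num at h3
  obtain ⟨X, Y, hX, hXY⟩ := exists_irreducible_isCompl σ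
  haveI := hX
  have hc := subrep_toSubmodule_isCompl hXY
  have hchar := char_of_isCompl hXY
  have hχX := isIrrCharacter_character X.toRepresentation
  have hX12 : X.toRepresentation.character = χ₁ ∨ X.toRepresentation.character = χ₂ := by
    have h3 : Cfsg.classInner σ.character X.toRepresentation.character ≠ 0 := by
      rw [hchar, classInner_add_left, classInner_irr_self hχX]
      obtain ⟨b, hb⟩ := IsCharacter.classInner_irr_nat
        (isCharacter_character Y.toRepresentation) hχX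
      rw [hb]
      intro h0
      have h4 : 1 + b = 0 := by exact_mod_cast h0
      omega
    rw [hσ, classInner_add_left, classInner_irr h₁ hχX, classInner_irr h₂ hχX] at h3
    by_cases e1 : χ₁ = X.toRepresentation.character
    · left
      exact e1.symm
    · by_cases e2 : χ₂ = X.toRepresentation.character
      · right
        exact e2.symm
      · rw [if_neg e1, if_neg e2] at h3
        exact absurd (add_zero (0 : ℂ)) h3
  have hYchar : (X.toRepresentation.character = χ₁ ∧ Y.toRepresentation.character = χ₂) ∨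
      (X.toRepresentation.character = χ₂ ∧ Y.toRepresentation.character = χ₁) := by
    rcases hX12 with e | e
    · left
      refine ⟨e, ?_⟩
      rw [hσ, e] at hchar
      exact (add_left_cancel hchar).symm
    · right
      refine ⟨e, ?_⟩
      rw [hσ, e, add_comm] at hchar
      exact (add_left_cancel hchar).symm
  have hY12 : Cfsg.IsIrrCharacter G Y.toRepresentation.character := by
    rcases hYchar with ⟨-, e⟩ | ⟨-, e⟩
    · rw [e]
      exact h₂
    · rw [e]
      exact h₁
  haveI hYirr : Y.toRepresentation.IsIrreducible := irr_of_irrChar _ hY12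
  obtain ⟨c₁, hc₁⟩ := scalar_on_irr σ hmf X (ofComm σ B hB)
  obtain ⟨c₂, hc₂⟩ := scalar_on_irr σ hmf Y (ofComm σ B hB)
  have hc₁' : ∀ w ∈ X.toSubmodule, B w = c₁ • w := fun w hw => by
    have h5 := hc₁ w hw
    rwa [ofComm_apply] at h5
  have hc₂' : ∀ w ∈ Y.toSubmodule, B w = c₂ • w := fun w hw => by
    have h5 := hc₂ w hw
    rwa [ofComm_apply] at h5
  have htr := trace_compress X Y hc B c₁ hc₁'
  have hcomp : compress X Y hc B = c₂ • LinearMap.id := by
    apply LinearMap.ext
    intro y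
    rw [compress_apply, hc₂' y y.2, map_smul, Submodule.projectionOnto_apply_left]
    rfl
  rw [hcomp, map_smul, LinearMap.trace_id, smul_eq_mul] at htr
  have hntX : Nontrivial X.toSubmodule := nontrivial_of_isIrreducible X.toRepresentation
  have hntY : Nontrivial Y.toSubmodule := nontrivial_of_isIrreducible Y.toRepresentation
  obtain ⟨x, hx⟩ := exists_ne (0 : X.toSubmodule)
  obtain ⟨y, hy⟩ := exists_ne (0 : Y.toSubmodule)
  have ev1 : ∃ v : V, v ≠ 0 ∧ B v = c₁ • v := ⟨x, fun h => hx (Subtype.ext h), hc₁' x x.2⟩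
  have ev2 : ∃ v : V, v ≠ 0 ∧ B v = c₂ • v := ⟨y, fun h => hy (Subtype.ext h), hc₂' y y.2⟩
  have dX : (Module.finrank ℂ X.toSubmodule : ℂ) = X.toRepresentation.character 1 :=
    (char_one _).symm
  have dY : (Module.finrank ℂ Y.toSubmodule : ℂ) = Y.toRepresentation.character 1 :=
    (char_one _).symm
  rcases hYchar with ⟨e, eY⟩ | ⟨e, eY⟩
  · refine ⟨c₁, c₂, ev1, ev2, ?_⟩
    rw [htr, dX, dY, e, eY]
  · refine ⟨c₂, c₁, ev2, ev1, ?_⟩
    rw [htr, dX, dY, e, eY]
    ring

end rep

/-- Groups of Wielandt type: if a primitive group of degree `2m` has rank 3 and permutation character `1 + χ₁ + χ₂` with irreducible `χ₁, χ₂` of degrees `m - 1` and `m`, then `m = 2a² + 2a + 1` for some positive integer `a` and the two non-trivial subdegrees are `a(2a+1)` and `(a+1)(2a+1)`. -/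
theorem result {G : Type*} [Group G] [Fintype G] {Ω : Type*} [Fintype Ω] [MulAction G Ω] (hprim : MulAction.IsPreprimitive G Ω) {m : ℕ} (hm : Fintype.card Ω = 2 * m) (a₀ : Ω) (hrank : Nat.card (MulAction.orbitRel.Quotient (MulAction.stabilizer G a₀) Ω) = 3) (χ₁ χ₂ : G → ℂ) (h₁ : Cfsg.IsIrrCharacter G χ₁) (h₂ : Cfsg.IsIrrCharacter G χ₂) (hπ : (fun g : G => (Nat.card (MulAction.fixedBy Ω g) : ℂ)) = fun g => 1 + χ₁ g + χ₂ g) (hd₁ : χ₁ 1 = (m : ℂ) - 1) (hd₂ : χ₂ 1 = m) : ∃ a : ℕ, 0 < a ∧ m = 2 * a ^ 2 + 2 * a + 1 ∧ ∀ b : Ω, b ≠ a₀ → Nat.card (MulAction.orbit (MulAction.stabilizer G a₀) b) = a * (2 * a + 1) ∨ Nat.card (MulAction.orbit (MulAction.stabilizer G a₀) b) = (a + 1) * (2 * a + 1) := by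
  classical
  haveI : Nonempty Ω := ⟨a₀⟩
  haveI := hprim.toIsPretransitive
  obtain ⟨b₁, b₂, hb1, hb2, h12, hall⟩ := three_orbits a₀ hrank
  obtain ⟨k, hk⟩ : ∃ k : ℕ, k = Nat.card (MulAction.orbit (MulAction.stabilizer G a₀) b₁) :=
    ⟨_, rfl⟩
  obtain ⟨l, hl⟩ : ∃ l : ℕ, l = Nat.card (MulAction.orbit (MulAction.stabilizer G a₀) b₂) :=
    ⟨_, rfl⟩
  have hsum := card_eq_subdegrees a₀ b₁ b₂ hb1 hb2 h12 hall
  rw [hm, ← hk, ← hl] at hsum
  have hk1 : 1 ≤ k := by
    rw [hk]
    haveI : Nonempty (MulAction.orbit (MulAction.stabilizer G a₀) b₁) :=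
      ⟨⟨b₁, MulAction.mem_orbit_self b₁⟩⟩
    exact Nat.card_pos
  have hl1 : 1 ≤ l := by
    rw [hl]
    haveI : Nonempty (MulAction.orbit (MulAction.stabilizer G a₀) b₂) :=
      ⟨⟨b₂, MulAction.mem_orbit_self b₂⟩⟩
    exact Nat.card_pos
  have hno : ∀ b : Ω, b ≠ a₀ →
      Nat.card (MulAction.orbit (MulAction.stabilizer G a₀) b) = 1 → False := by
    intro b hb hcard
    have hfix := fixed_of_card_one (MulAction.stabilizer G a₀) b hcard
    have hall' := fix_all hprim a₀ b hb hfix
    have c1 := card_one_of_fixed (MulAction.stabilizer G a₀) b₁ (fun h hh => hall' b₁ h hh)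
    have c2 := card_one_of_fixed (MulAction.stabilizer G a₀) b₂ (fun h hh => hall' b₂ h hh)
    rw [← hk] at c1
    rw [← hl] at c2
    omega
  have hk2 : 2 ≤ k := by
    by_contra hcon
    have hk' : k = 1 := by omega
    exact hno b₁ hb1 (by rw [← hk, hk'])
  have hl2 : 2 ≤ l := by
    by_contra hcon
    have hl' : l = 1 := by omega
    exact hno b₂ hb2 (by rw [← hl, hl'])
  have hkl : k ≠ l := by omega
  have hsp := self_paired a₀ b₁ b₂ hb1 hb2 h12 hall (by rw [← hk, ← hl]; exact hkl)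
  obtain ⟨lam, mu, hsq⟩ := adj_sq a₀ b₁ b₂ hb1 hb2 h12 hall hsp
  rw [← hk] at hsq
  have E2 : (k : ℂ) * k = k + lam * k + mu * l := by
    have h1 := hsq (fun _ => (1 : ℂ)) a₀
    have h2 : adj G a₀ b₁ (fun _ => (1 : ℂ)) = (k : ℂ) • (fun _ => (1 : ℂ)) := by
      funext x
      rw [adj_one, ← hk]
      simp
    rw [h2, map_smul, h2] at h1
    rw [adj_one (G := G) a₀ b₂ a₀, ← hl] at h1
    simp only [Pi.smul_apply, smul_eq_mul, mul_one] at h1
    linear_combination h1
  have hπ' : (Cfsg.permRep ℂ G Ω).character = fun g => 1 + χ₁ g + χ₂ g := by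
    rw [← hπ]
    funext g
    exact permRep_character g
  have hc := isCompl_const_sumZero (G := G) (Ω := Ω)
  have hchar := char_of_isCompl (subrep_isCompl hc)
  rw [Cfsg.Agent.S0715.char_constants, hπ'] at hchar
  have hσ : (Cfsg.permSumZero ℂ G Ω).toRepresentation.character = χ₁ + χ₂ := by
    funext g
    have h1 := congrFun hchar g
    simp only [Pi.add_apply] at h1 ⊢
    linear_combination -h1
  have hne : χ₁ ≠ χ₂ := by
    intro e
    rw [e, hd₂] at hd₁
    have h1 : (1 : ℂ) = 0 := by linear_combination hd₁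
    exact one_ne_zero h1
  obtain ⟨A, hAdef⟩ : ∃ A : (Ω → ℂ) →ₗ[ℂ] (Ω → ℂ), A = adj G a₀ b₁ := ⟨_, rfl⟩
  have hAcomm : ∀ g, A ∘ₗ Cfsg.permRep ℂ G Ω g = Cfsg.permRep ℂ G Ω g ∘ₗ A := by
    rw [hAdef]
    exact adj_comm a₀ b₁
  have hconst : ∀ w ∈ (Cfsg.permConstants ℂ G Ω).toSubmodule, A w = (k : ℂ) • w := by
    rw [hAdef, hk]
    exact adj_const a₀ b₁
  have htr0 : LinearMap.trace ℂ (Ω → ℂ) A = 0 := by
    rw [hAdef]
    exact adj_trace hb1
  have htrace := trace_compress (Cfsg.permConstants ℂ G Ω) (Cfsg.permSumZero ℂ G Ω) hc A k hconst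
  rw [htr0, Cfsg.Agent.S0715.finrank_const] at htrace
  have hAU : ∀ u : (Cfsg.permSumZero ℂ G Ω).toSubmodule,
      A (u : Ω → ℂ) ∈ (Cfsg.permSumZero ℂ G Ω).toSubmodule := by
    intro u
    have hu : ∑ x, (u : Ω → ℂ) x = 0 := u.2
    have h1 : ∑ x, A (u : Ω → ℂ) x = 0 := by
      rw [hAdef, adj_sumZero a₀ b₁ hsp, hu, mul_zero]
    exact h1
  have hB1 : ∀ u : (Cfsg.permSumZero ℂ G Ω).toSubmodule,
      ((compress (Cfsg.permConstants ℂ G Ω) (Cfsg.permSumZero ℂ G Ω) hc A u :
        (Cfsg.permSumZero ℂ G Ω).toSubmodule) : Ω → ℂ) = A (u : Ω → ℂ) := by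
    intro u
    rw [compress_apply, Submodule.projectionOnto_apply_of_mem_left hc.symm (hAU u)]
  obtain ⟨r, s, ⟨v₁, hv₁, hBv₁⟩, ⟨v₂, hv₂, hBv₂⟩, htr⟩ :=
    eigen_data (Cfsg.permSumZero ℂ G Ω).toRepresentation χ₁ χ₂ h₁ h₂ hne hσ _
      (compress_comm (Cfsg.permConstants ℂ G Ω) (Cfsg.permSumZero ℂ G Ω) hc A hAcomm)
  rw [hd₁, hd₂] at htr
  have hquad : ∀ (c : ℂ) (u : (Cfsg.permSumZero ℂ G Ω).toSubmodule), u ≠ 0 →
      compress (Cfsg.permConstants ℂ G Ω) (Cfsg.permSumZero ℂ G Ω) hc A u = c • u →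
      c * c = ((lam : ℂ) - mu) * c + (k - mu) ∧ IsIntegral ℤ c := by
    intro c u hu hBu
    have hAu : A (u : Ω → ℂ) = c • (u : Ω → ℂ) := by
      rw [← hB1 u, hBu]
      rfl
    have hu0 : (u : Ω → ℂ) ≠ 0 := fun h => hu (Subtype.ext h)
    constructor
    · obtain ⟨x, hx⟩ : ∃ x, (u : Ω → ℂ) x ≠ 0 := by
        by_contra hcon
        push Not at hcon
        exact hu0 (funext hcon)
      have h1 := hsq (u : Ω → ℂ) x
      have h2 := adj_add a₀ b₁ b₂ hb1 hb2 h12 hall (u : Ω → ℂ) x
      have hsum0 : ∑ y, (u : Ω → ℂ) y = 0 := u.2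
      rw [hsum0] at h2
      rw [← hAdef, hAu, map_smul, hAu] at h1
      rw [← hAdef, hAu] at h2
      simp only [Pi.smul_apply, smul_eq_mul] at h1 h2
      have h3 : (c * c - ((lam : ℂ) - mu) * c - (k - mu)) * (u : Ω → ℂ) x = 0 := by
        linear_combination h1 + (mu : ℂ) * h2
      rcases mul_eq_zero.mp h3 with h | h
      · linear_combination h
      · exact absurd h hx
    · apply adj_integral (G := G) a₀ b₁ c
      rw [← hAdef]
      exact Module.End.hasEigenvalue_of_hasEigenvector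
        ⟨Module.End.mem_eigenspace_iff.mpr hAu, hu0⟩
  obtain ⟨hq1, hi1⟩ := hquad r v₁ hv₁ hBv₁
  obtain ⟨hq2, hi2⟩ := hquad s v₂ hv₂ hBv₂
  have hT : r * ((m : ℂ) - 1) + s * m = -(k : ℂ) := by
    rw [htr] at htrace
    simp only [Nat.cast_one, mul_one] at htrace
    linear_combination -htrace
  by_cases hrs : r = s
  · exfalso
    have h2m : 2 * m - 1 ≠ 0 := by omega
    have hdvd : (2 * m - 1) ∣ k := by
      apply nat_dvd_of_isIntegral_div h2m
      have hcast : ((2 * m - 1 : ℕ) : ℂ) = 2 * (m : ℂ) - 1 := by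
        rw [Nat.cast_sub (by omega)]
        push_cast
        ring
      have hne0 : ((2 * m - 1 : ℕ) : ℂ) ≠ 0 := by exact_mod_cast h2m
      have h1 : (k : ℂ) / ((2 * m - 1 : ℕ) : ℂ) = -r := by
        rw [div_eq_iff hne0, hcast]
        rw [← hrs] at hT
        linear_combination hT
      rw [h1]
      exact hi1.neg
    have h3 := Nat.le_of_dvd (by omega) hdvd
    omega
  · have hsumrs : r + s = (lam : ℂ) - mu := by
      have h3 : (r - s) * (r + s - ((lam : ℂ) - mu)) = 0 := by linear_combination hq1 - hq2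
      rcases mul_eq_zero.mp h3 with h | h
      · exact absurd (sub_eq_zero.mp h) hrs
      · linear_combination h
    have hprod : r * s = (mu : ℂ) - k := by
      rw [← hsumrs] at hq1
      linear_combination -hq1
    have hs : s = -(k : ℂ) - ((m : ℂ) - 1) * ((lam : ℂ) - mu) := by
      linear_combination hT - ((m : ℂ) - 1) * hsumrs
    have hr : r = (k : ℂ) + (m : ℂ) * ((lam : ℂ) - mu) := by
      linear_combination hsumrs - hs
    rw [hr, hs] at hprod
    have E1 : ((k : ℤ) + (m : ℤ) * ((lam : ℤ) - mu)) *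
        (-(k : ℤ) - ((m : ℤ) - 1) * ((lam : ℤ) - mu)) = (mu : ℤ) - k := by
      exact_mod_cast hprod
    have hs' : (2 : ℤ) * m = 1 + k + l := by exact_mod_cast hsum
    have E2' : (k : ℤ) * k = k + ((lam : ℤ) - mu) * k + mu * (2 * (m : ℤ) - 1) := by
      have h5 : (k : ℤ) * k = k + lam * k + mu * l := by exact_mod_cast E2
      linear_combination h5 - (mu : ℤ) * hs'
    obtain ⟨a, ha, hM, hcase⟩ := int_lemma m k l (lam - mu) mu (by omega) hs' (by omega)
      (by omega) E2' E1
    obtain ⟨a', rfl⟩ : ∃ a' : ℕ, (a' : ℤ) = a := ⟨a.toNat, Int.toNat_of_nonneg ha.le⟩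
    refine ⟨a', by exact_mod_cast ha, by exact_mod_cast hM, ?_⟩
    have hk' : k = a' * (2 * a' + 1) ∨ k = (a' + 1) * (2 * a' + 1) := by
      rcases hcase with ⟨h, -⟩ | ⟨h, -⟩
      · left
        exact_mod_cast h
      · right
        exact_mod_cast h
    have hl' : l = a' * (2 * a' + 1) ∨ l = (a' + 1) * (2 * a' + 1) := by
      rcases hcase with ⟨-, h⟩ | ⟨-, h⟩
      · right
        exact_mod_cast h
      · left
        exact_mod_cast h
    intro b hb
    rcases hall b with h | h | h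
    · exact absurd h hb
    · rw [MulAction.orbit_eq_iff.mpr h, ← hk]
      exact hk'
    · rw [MulAction.orbit_eq_iff.mpr h, ← hl]
      exact hl'

end Cfsg.Agent.S0719
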