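import Cfsg.Statements.S0722
import Mathlib

set_option autoImplicit false
open Cfsg

namespace Cfsg.Agent.S0722

/-- In a primitive group `H`, with `N` a minimal normal subgroup and `K` a point stabiliser, `K ⊓ N` is maximal among proper `K`-invariant subgroups of `N`. -/
theorem result {α : Type*} [Finite α] (H : Subgroup (Equiv.Perm α)) [MulAction.IsPreprimitive H α] (N : Subgroup H) [N.Normal] (hN : N ≠ ⊥) (hmin : ∀ M : Subgroup H, M.Normal → M ≤ N → M = ⊥ ∨ M = N) (a : α) (X : Subgroup H) (hX : X ≤ N) (hKX : MulAction.stabilizer H a ⊓ N ≤ X) (hinv : MulAction.stabilizer H a ≤ Subgroup.normalizer (X : Set H)) : X = MulAction.stabilizer H a ⊓ N ∨ X = N := by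
  have hnt : Nontrivial α := by
    by_contra hnt
    rw [not_nontrivial_iff_subsingleton] at hnt
    apply hN
    rw [Subgroup.eq_bot_iff_forall]
    intro x _
    apply Subtype.ext
    apply Equiv.ext
    intro y
    exact Subsingleton.elim _ _
  have hco : IsCoatom (MulAction.stabilizer H a) :=
    MulAction.IsPreprimitive.isCoatom_stabilizer_of_isPreprimitive H a
  rcases eq_or_ne (X ⊔ MulAction.stabilizer H a) (MulAction.stabilizer H a) with h | h
  · left
    have hXK : X ≤ MulAction.stabilizer H a := by
      rw [← h]; exact le_sup_left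
    exact le_antisymm (le_inf hXK hX) hKX
  · right
    have htop : X ⊔ MulAction.stabilizer H a = ⊤ :=
      hco.2 _ (lt_of_le_of_ne le_sup_right (Ne.symm h))
    apply le_antisymm hX
    intro n hn
    have hn' : n ∈ ((X ⊔ MulAction.stabilizer H a : Subgroup H) : Set H) := by
      rw [htop]; trivial
    rw [Subgroup.coe_mul_of_right_le_normalizer_left X _ hinv] at hn'
    obtain ⟨x, hx, k, hk, hxk⟩ := hn'
    have hkN : k ∈ N := by
      have : k = x⁻¹ * n := by rw [← hxk]; group
      rw [this]
      exact mul_mem (inv_mem (hX hx)) hn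
    rw [← hxk]
    exact mul_mem hx (hKX ⟨hk, hkN⟩)

end Cfsg.Agent.S0722
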