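import Cfsg.Statements.S0724
import Mathlib

set_option autoImplicit false
open Cfsg

namespace Cfsg.Agent.S0724

theorem fixed_pow {α : Type*} [Fintype α] [DecidableEq α] (G : Subgroup (Equiv.Perm α)) (j : ℕ)
    (g : G) :
    Nat.card (MulAction.fixedBy (Fin j → α) g) =
      (Nat.card (MulAction.fixedBy α (g : Equiv.Perm α))) ^ j := by
  have e : MulAction.fixedBy (Fin j → α) g ≃ (Fin j → MulAction.fixedBy α (g : Equiv.Perm α)) :=
    { toFun := fun f i => ⟨f.1 i, congrFun f.2 i⟩
      invFun := fun f => ⟨fun i => (f i).1, funext fun i => (f i).2⟩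
      left_inv := fun f => rfl
      right_inv := fun f => rfl }
  rw [Nat.card_congr e, Nat.card_fun, Nat.card_eq_fintype_card (α := Fin j), Fintype.card_fin]

/-- Blichfeldt's Theorem: if a finite set `L` of natural numbers contains the number of fixed points of every non-identity element of a permutation group `G` of degree `n`, then the order of `G` divides `∏ (n - l)` over `l ∈ L`. -/
theorem result {α : Type*} [Fintype α] [DecidableEq α] (G : Subgroup (Equiv.Perm α)) (L : Finset ℕ) (hL : ∀ g ∈ G, g ≠ 1 → Nat.card (MulAction.fixedBy α g) ∈ L) : Nat.card G ∣ ∏ l ∈ L, (Fintype.card α - l) := by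
  classical
  have hfinG : Fintype G := Fintype.ofFinite G
  have c1 : ∀ j : ℕ, (Nat.card G : ℤ) ∣
      ∑ g : G, ((Nat.card (MulAction.fixedBy α (g : Equiv.Perm α)) : ℕ) : ℤ) ^ j := by
    intro j
    have hB := MulAction.sum_card_fixedBy_eq_card_orbits_mul_card_group G (Fin j → α)
    have h1 : ∀ g : G, Fintype.card (MulAction.fixedBy (Fin j → α) g) =
        (Nat.card (MulAction.fixedBy α (g : Equiv.Perm α))) ^ j := by
      intro g
      rw [← Nat.card_eq_fintype_card, fixed_pow]
    rw [Finset.sum_congr rfl (fun g _ => h1 g)] at hB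
    refine ⟨(Fintype.card (Quotient (MulAction.orbitRel G (Fin j → α))) : ℤ), ?_⟩
    have h2 := congrArg (Nat.cast : ℕ → ℤ) hB
    push_cast at h2
    rw [h2, Nat.card_eq_fintype_card]
    ring
  set P : Polynomial ℤ := ∏ l ∈ L, (Polynomial.X - Polynomial.C (l : ℤ)) with hP
  have hPeval : ∀ x : ℤ, P.eval x = ∏ l ∈ L, (x - (l : ℤ)) := by
    intro x
    rw [hP, Polynomial.eval_prod]
    apply Finset.prod_congr rfl
    intro l _
    simp
  have c2 : ∑ g : G, P.eval ((Nat.card (MulAction.fixedBy α (g : Equiv.Perm α)) : ℕ) : ℤ) =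
      P.eval (Fintype.card α : ℤ) := by
    rw [Finset.sum_eq_single (1 : G)]
    · congr 2
      rw [OneMemClass.coe_one, MulAction.fixedBy_one_eq_univ, Nat.card_coe_set_eq, Set.ncard_univ,
        Nat.card_eq_fintype_card]
    · intro g _ hg
      have hg1 : (g : Equiv.Perm α) ≠ 1 := by
        intro h
        apply hg
        exact Subtype.ext h
      have hmem := hL g g.2 hg1
      rw [hPeval]
      exact Finset.prod_eq_zero hmem (sub_self _)
    · intro h
      exact absurd (Finset.mem_univ _) h
  have c3 : (Nat.card G : ℤ) ∣ P.eval (Fintype.card α : ℤ) := by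
    rw [← c2]
    have h1 : ∀ g : G, P.eval ((Nat.card (MulAction.fixedBy α (g : Equiv.Perm α)) : ℕ) : ℤ) =
        ∑ i ∈ Finset.range (P.natDegree + 1), P.coeff i *
          ((Nat.card (MulAction.fixedBy α (g : Equiv.Perm α)) : ℕ) : ℤ) ^ i :=
      fun g => Polynomial.eval_eq_sum_range _
    rw [Finset.sum_congr rfl (fun g _ => h1 g), Finset.sum_comm]
    apply Finset.dvd_sum
    intro i _
    rw [← Finset.mul_sum]
    exact Dvd.dvd.mul_left (c1 i) _
  rw [hPeval] at c3
  by_cases hbig : ∃ l ∈ L, Fintype.card α ≤ l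
  · obtain ⟨l, hl, hle⟩ := hbig
    rw [Finset.prod_eq_zero hl (Nat.sub_eq_zero_of_le hle)]
    exact dvd_zero _
  · push Not at hbig
    have h1 : ∏ l ∈ L, ((Fintype.card α : ℤ) - (l : ℤ)) =
        ((∏ l ∈ L, (Fintype.card α - l) : ℕ) : ℤ) := by
      rw [Nat.cast_prod]
      apply Finset.prod_congr rfl
      intro l hl
      rw [Nat.cast_sub (hbig l hl).le]
    rw [h1] at c3
    exact Int.natCast_dvd_natCast.1 c3

end Cfsg.Agent.S0724
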