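import Cfsg.Statements.S0726
import Mathlib

set_option autoImplicit false
open Cfsg

namespace Cfsg.Agent.S0726

theorem mem_centralizer_iff_eq {G : Type*} [Group G] (c : Equiv.Perm G) :
    c ∈ Subgroup.centralizer ((MulAction.toPermHom G G).range : Set (Equiv.Perm G)) ↔
      c = MulAction.toPermHom Gᵐᵒᵖ G (MulOpposite.op (c 1)) := by
  constructor
  · intro hc
    ext x
    have h := hc (MulAction.toPermHom G G x) ⟨x, rfl⟩
    have h2 := congrArg (fun f : Equiv.Perm G => f 1) h
    simp at h2
    simp [h2]
  · intro hc
    rw [Subgroup.mem_centralizer_iff]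
    rintro _ ⟨g, rfl⟩
    rw [hc]
    ext x
    simp [mul_assoc]

/-- The left and right regular permutation representations of a group are each other's centralisers in the symmetric group: the centraliser of the left regular image is the right regular image, and a transitive subgroup centralising the left regular image is the whole right regular image. -/
theorem result {G : Type*} [Group G] : Subgroup.centralizer ((MulAction.toPermHom G G).range : Set (Equiv.Perm G)) = (MulAction.toPermHom Gᵐᵒᵖ G).range ∧ ∀ H : Subgroup (Equiv.Perm G), H ≤ Subgroup.centralizer ((MulAction.toPermHom G G).range : Set (Equiv.Perm G)) → MulAction.IsPretransitive H G → H = (MulAction.toPermHom Gᵐᵒᵖ G).range := by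
  have h1 : Subgroup.centralizer ((MulAction.toPermHom G G).range : Set (Equiv.Perm G)) = (MulAction.toPermHom Gᵐᵒᵖ G).range := by
    ext c
    constructor
    · intro hc
      exact ⟨MulOpposite.op (c 1), ((mem_centralizer_iff_eq c).mp hc).symm⟩
    · rintro ⟨k, rfl⟩
      rw [mem_centralizer_iff_eq]
      simp
  refine ⟨h1, ?_⟩
  intro H hH htr
  apply le_antisymm
  · rw [← h1]; exact hH
  · rintro _ ⟨k, rfl⟩
    obtain ⟨h, hh⟩ := htr.exists_smul_eq (1 : G) (MulOpposite.unop k)
    have h2 := (mem_centralizer_iff_eq (h : Equiv.Perm G)).mp (hH h.2)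
    have h3 : (h : Equiv.Perm G) 1 = MulOpposite.unop k := hh
    rw [h3, MulOpposite.op_unop] at h2
    rw [← h2]
    exact h.2

end Cfsg.Agent.S0726
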