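import Cfsg.Statements.S1229
-- import your own Cfsg.Agent.* helpers here
import Mathlib
import Cfsg.Agent.Lib.Helper8.CIT3

set_option autoImplicit false
open Cfsg

namespace Cfsg.Agent.S1229

open Cfsg.Agent.Lib.Helper8.IsoInv Cfsg.Agent.Lib.Helper8.Conj Cfsg.Agent.Lib.Helper8.SE
  Cfsg.Agent.Lib.Helper8.CIT Cfsg.Agent.Lib.Helper8.CIT2 Cfsg.Agent.Lib.Helper8.CIT3

section

variable {G : Type*} [Group G] [Finite G]
  (T : Sylow 2 G) (hnc : ¬ IsCyclic (T : Subgroup G)) (hnn : ¬ (T : Subgroup G).Normal)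
  (hC : ∀ t : G, orderOf t = 2 → IsMulCommutative (Subgroup.centralizer ({t} : Set G)) ∧
    ∀ c ∈ Subgroup.centralizer ({t} : Set G), c ^ 2 = 1)

omit [Finite G] in
theorem smul_mk_iff (g a : G) :
    g • (QuotientGroup.mk a : G ⧸ NT T) = QuotientGroup.mk a ↔ a⁻¹ * g * a ∈ NT T := by
  rw [MulAction.Quotient.smul_mk, QuotientGroup.eq, smul_eq_mul]
  have e : (g * a)⁻¹ * a = (a⁻¹ * g * a)⁻¹ := by group
  rw [e, inv_mem_iff]

omit [Finite G] in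
theorem mk_eq_one_iff (a : G) :
    (QuotientGroup.mk a : G ⧸ NT T) = QuotientGroup.mk 1 ↔ a ∈ NT T := by
  rw [QuotientGroup.eq, mul_one, inv_mem_iff]

omit [Finite G] in
theorem mk_eq_smul_iff (g σ u : G) :
    (QuotientGroup.mk g : G ⧸ NT T) = σ • (QuotientGroup.mk u : G ⧸ NT T) ↔
      g⁻¹ * σ * u ∈ NT T := by
  rw [MulAction.Quotient.smul_mk, QuotientGroup.eq, smul_eq_mul, mul_assoc]

omit [Finite G] in
theorem fix_conj {X : Type*} [MulAction G X] (g a : G) (x : X) :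
    g • (a • x) = a • x ↔ (a⁻¹ * g * a) • x = x := by
  rw [mul_smul, mul_smul, inv_smul_eq_iff]

include hnc hnn hC

theorem T_trans_aux {u w : G} (hu : orderOf u = 2) (huH : u ∉ NT T) (hw : orderOf w = 2)
    (hwH : w ∉ NT T) : ∃ σ ∈ (T : Subgroup G), w⁻¹ * σ * u ∈ NT T := by
  obtain ⟨d, hd, hd1⟩ := DD_ne_bot T hnc hnn hC hu huH
  obtain ⟨τ, hτ, d', hd', hdd⟩ := NT_eq_TD T hnc hnn hC hw hwH (DD_le T u hd)
  have hd'1 : d' ≠ 1 := by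
    rintro rfl
    rw [mul_one] at hdd
    apply hd1
    exact DD_inf_T T hnc hnn hC huH hd (hdd ▸ hτ)
  let ψ : ↥(T : Subgroup G) → ↥(T : Subgroup G) := fun σ =>
    ⟨σ.1 * (d * σ.1⁻¹ * d⁻¹),
      Subgroup.mul_mem _ σ.2 (conj_mem_T T (DD_le T u hd) (Subgroup.inv_mem _ σ.2))⟩
  have hinj : Function.Injective ψ := by
    intro a b hab
    have h1 : a.1 * (d * a.1⁻¹ * d⁻¹) = b.1 * (d * b.1⁻¹ * d⁻¹) := congrArg Subtype.val hab
    have h3 : a.1 * d * a.1⁻¹ = b.1 * d * b.1⁻¹ := by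
      calc a.1 * d * a.1⁻¹ = (a.1 * (d * a.1⁻¹ * d⁻¹)) * d := by group
        _ = (b.1 * (d * b.1⁻¹ * d⁻¹)) * d := by rw [h1]
        _ = b.1 * d * b.1⁻¹ := by group
    have h2 : d * (b.1⁻¹ * a.1) = (b.1⁻¹ * a.1) * d := by
      calc d * (b.1⁻¹ * a.1) = b.1⁻¹ * (b.1 * d * b.1⁻¹) * a.1 := by group
        _ = b.1⁻¹ * (a.1 * d * a.1⁻¹) * a.1 := by rw [h3]
        _ = (b.1⁻¹ * a.1) * d := by group
    by_contra hne
    have h4 : b.1⁻¹ * a.1 ≠ 1 := by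
      intro h
      apply hne
      apply Subtype.ext
      rw [inv_mul_eq_one] at h
      exact h.symm
    exact hd1 (cent_T T hnc hnn hC huH (Subgroup.mul_mem _ (Subgroup.inv_mem _ b.2) a.2) h4 hd h2)
  have hsurj := Finite.injective_iff_surjective.mp hinj
  obtain ⟨σ, hσ⟩ := hsurj ⟨τ⁻¹, Subgroup.inv_mem _ hτ⟩
  have hσ' : σ.1 * (d * σ.1⁻¹ * d⁻¹) = τ⁻¹ := congrArg Subtype.val hσ
  have hconj : σ.1 * d * σ.1⁻¹ = d' := by
    calc σ.1 * d * σ.1⁻¹ = (σ.1 * (d * σ.1⁻¹ * d⁻¹)) * d := by group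
      _ = τ⁻¹ * (τ * d') := by rw [hσ', hdd]
      _ = d' := by group
  have hu' : orderOf (σ.1 * u * σ.1⁻¹) = 2 := by rw [orderOf_conj_eq]; exact hu
  have hσH : σ.1 ∈ NT T := T_le_NT T σ.2
  have hu'H : σ.1 * u * σ.1⁻¹ ∉ NT T := by
    intro h
    apply huH
    have e : u = σ.1⁻¹ * (σ.1 * u * σ.1⁻¹) * σ.1 := by group
    rw [e]
    exact Subgroup.mul_mem _ (Subgroup.mul_mem _ (Subgroup.inv_mem _ hσH) h) hσH
  have hd'u' : d' ∈ DD T (σ.1 * u * σ.1⁻¹) := by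
    rw [mem_DD_iff]
    refine ⟨DD_le T w hd', ?_⟩
    rw [← hconj]
    have e : (σ.1 * u * σ.1⁻¹)⁻¹ * (σ.1 * d * σ.1⁻¹) * (σ.1 * u * σ.1⁻¹) =
        σ.1 * (u⁻¹ * d * u) * σ.1⁻¹ := by group
    rw [e]
    exact Subgroup.mul_mem _ (Subgroup.mul_mem _ hσH ((mem_DD_iff T).mp hd).2)
      (Subgroup.inv_mem _ hσH)
  have hle := DD_TI T hnc hnn hC hw hwH hu' hu'H hd' hd'u' hd'1
  have hfix : ∀ e ∈ DD T w, (σ.1 * u * σ.1⁻¹)⁻¹ * e * (σ.1 * u * σ.1⁻¹) ∈ NT T :=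
    fun e he => ((mem_DD_iff T).mp (hle he)).2
  rcases fix_DD T hnc hnn hC hw hwH hfix with h | h
  · exact absurd h hu'H
  · refine ⟨σ.1, σ.2, ?_⟩
    have e : w⁻¹ * σ.1 * u = (w⁻¹ * (σ.1 * u * σ.1⁻¹)) * σ.1 := by group
    rw [e]
    exact Subgroup.mul_mem _ h hσH

theorem exists_T {u : G} (hu : orderOf u = 2) (huH : u ∉ NT T) (x : G ⧸ NT T)
    (hx : x ≠ QuotientGroup.mk 1) :
    ∃ σ ∈ (T : Subgroup G), x = σ • (QuotientGroup.mk u : G ⧸ NT T) := by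
  induction x using QuotientGroup.induction_on with
  | H g =>
    have hg : g ∉ NT T := fun h => hx ((mk_eq_one_iff T g).mpr h)
    obtain ⟨w, hw, hwH, hwg⟩ := exists_invol_coset T hnc hnn hC hg
    obtain ⟨σ, hσ, h⟩ := T_trans_aux T hnc hnn hC hu huH hw hwH
    refine ⟨σ, hσ, ?_⟩
    rw [mk_eq_smul_iff]
    have e : g⁻¹ * σ * u = (g⁻¹ * w) * (w⁻¹ * σ * u) := by group
    rw [e]
    exact Subgroup.mul_mem _ hwg h

theorem T_semireg {t : G} (ht : t ∈ (T : Subgroup G)) (x : G ⧸ NT T)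
    (hx : x ≠ QuotientGroup.mk 1) (hfix : t • x = x) : t = 1 := by
  induction x using QuotientGroup.induction_on with
  | H g =>
    have hg : g ∉ NT T := fun h => hx ((mk_eq_one_iff T g).mpr h)
    rw [smul_mk_iff] at hfix
    by_contra ht1
    exact hg (mem_of_invol (stronglyEmbedded T hnc hnn hC) (T_orderOf T hnc hC ht ht1)
      (T_le_NT T ht) hfix)

theorem D_fix_third {u : G} (hu : orderOf u = 2) (huH : u ∉ NT T) {d σ : G} (hd : d ∈ DD T u)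
    (hσ : σ ∈ (T : Subgroup G)) (hσ1 : σ ≠ 1)
    (hfix : (σ * u)⁻¹ * d * (σ * u) ∈ NT T) : d = 1 := by
  have hσH : σ ∈ NT T := T_le_NT T hσ
  have hu' : orderOf (σ * u * σ⁻¹) = 2 := by rw [orderOf_conj_eq]; exact hu
  have hu'H : σ * u * σ⁻¹ ∉ NT T := by
    intro h
    apply huH
    have e : u = σ⁻¹ * (σ * u * σ⁻¹) * σ := by group
    rw [e]
    exact Subgroup.mul_mem _ (Subgroup.mul_mem _ (Subgroup.inv_mem _ hσH) h) hσH
  have hd' : d ∈ DD T (σ * u * σ⁻¹) := by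
    rw [mem_DD_iff]
    refine ⟨DD_le T u hd, ?_⟩
    have e : (σ * u * σ⁻¹)⁻¹ * d * (σ * u * σ⁻¹) = σ * ((σ * u)⁻¹ * d * (σ * u)) * σ⁻¹ := by group
    rw [e]
    exact Subgroup.mul_mem _ (Subgroup.mul_mem _ hσH hfix) (Subgroup.inv_mem _ hσH)
  by_contra hd1
  have hle := DD_TI T hnc hnn hC hu huH hu' hu'H hd hd' hd1
  have hfix' : ∀ e ∈ DD T u, (σ * u * σ⁻¹)⁻¹ * e * (σ * u * σ⁻¹) ∈ NT T :=
    fun e he => ((mem_DD_iff T).mp (hle he)).2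
  rcases fix_DD T hnc hnn hC hu huH hfix' with h | h
  · exact hu'H h
  · have h2 : u⁻¹ * σ * u ∈ NT T := by
      have e : u⁻¹ * σ * u = (u⁻¹ * (σ * u * σ⁻¹)) * σ := by group
      rw [e]
      exact Subgroup.mul_mem _ h hσH
    exact huH (mem_of_invol (stronglyEmbedded T hnc hnn hC) (T_orderOf T hnc hC hσ hσ1) hσH h2)

theorem to_std {u σ₀ : G} (hu : orderOf u = 2) (huH : u ∉ NT T) (hσ₀ : σ₀ ∈ (T : Subgroup G))
    (hσ₀1 : σ₀ ≠ 1) (x₁ x₂ x₃ : G ⧸ NT T) (h12 : x₁ ≠ x₂) (h13 : x₁ ≠ x₃) (h23 : x₂ ≠ x₃) :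
    ∃ g : G, g • x₁ = QuotientGroup.mk 1 ∧ g • x₂ = QuotientGroup.mk u ∧
      g • x₃ = σ₀ • (QuotientGroup.mk u : G ⧸ NT T) := by
  obtain ⟨a, rfl⟩ := QuotientGroup.mk_surjective x₁
  have ha : a⁻¹ • (QuotientGroup.mk a : G ⧸ NT T) = QuotientGroup.mk 1 := by
    rw [MulAction.Quotient.smul_mk, smul_eq_mul, inv_mul_cancel]
  have hy2 : a⁻¹ • x₂ ≠ QuotientGroup.mk 1 := by
    rw [← ha]
    exact fun h => h12 (smul_left_cancel _ h).symm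
  have hy3 : a⁻¹ • x₃ ≠ QuotientGroup.mk 1 := by
    rw [← ha]
    exact fun h => h13 (smul_left_cancel _ h).symm
  obtain ⟨σ, hσ, hσ2⟩ := exists_T T hnc hnn hC hu huH _ hy2
  have hσH : σ ∈ NT T := T_le_NT T hσ
  have hp0 : ∀ h : G, h ∈ NT T → h • (QuotientGroup.mk 1 : G ⧸ NT T) = QuotientGroup.mk 1 := by
    intro h hh
    rw [MulAction.Quotient.smul_mk, smul_eq_mul, mul_one, mk_eq_one_iff]
    exact hh
  have hz3 : σ⁻¹ • a⁻¹ • x₃ ≠ QuotientGroup.mk 1 := by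
    rw [← hp0 σ⁻¹ (Subgroup.inv_mem _ hσH)]
    exact fun h => hy3 (smul_left_cancel _ h)
  obtain ⟨σ₃, hσ₃, hσ32⟩ := exists_T T hnc hnn hC hu huH _ hz3
  have hσ₃1 : σ₃ ≠ 1 := by
    rintro rfl
    rw [one_smul] at hσ32
    apply h23
    have h1 : σ⁻¹ • a⁻¹ • x₂ = QuotientGroup.mk u := by
      rw [hσ2, inv_smul_smul]
    have h2 := hσ32.trans h1.symm
    exact (smul_left_cancel _ (smul_left_cancel _ h2)).symm
  obtain ⟨d, hd, hdσ⟩ := DD_trans T hnc hnn hC hu huH hσ₃ hσ₃1 hσ₀ hσ₀1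
  have hdu : d • (QuotientGroup.mk u : G ⧸ NT T) = QuotientGroup.mk u := by
    rw [smul_mk_iff]
    exact ((mem_DD_iff T).mp hd).2
  refine ⟨d * σ⁻¹ * a⁻¹, ?_, ?_, ?_⟩
  · rw [mul_smul, mul_smul, ha, hp0 _ (Subgroup.inv_mem _ hσH), hp0 _ (DD_le T u hd)]
  · rw [mul_smul, mul_smul, hσ2, inv_smul_smul, hdu]
  · rw [mul_smul, mul_smul, hσ32, ← mul_smul]
    have e : d * σ₃ = σ₀ * d := by rw [← hdσ]; group
    rw [e, mul_smul, hdu]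

end

/-- Let G be a finite group with a Sylow 2-subgroup T that is neither cyclic nor normal, such that the centralizer of every involution is an elementary abelian 2-group; put H = N_G(T) and X = G/H. Then G is triply transitive on X, an element fixing three distinct points of X is the identity, and T acts regularly on X minus the point H. -/
theorem result {G : Type*} [Group G] [Finite G] (T : Sylow 2 G) (hnc : ¬ IsCyclic (T : Subgroup G)) (hnn : ¬ (T : Subgroup G).Normal) (hC : ∀ t : G, orderOf t = 2 → IsMulCommutative (Subgroup.centralizer ({t} : Set G)) ∧ ∀ c ∈ Subgroup.centralizer ({t} : Set G), c ^ 2 = 1) : (∀ x₁ x₂ x₃ y₁ y₂ y₃ : G ⧸ Subgroup.normalizer ((T : Subgroup G) : Set G), x₁ ≠ x₂ → x₁ ≠ x₃ → x₂ ≠ x₃ → y₁ ≠ y₂ → y₁ ≠ y₃ → y₂ ≠ y₃ → ∃ g : G, g • x₁ = y₁ ∧ g • x₂ = y₂ ∧ g • x₃ = y₃) ∧ (∀ g : G, ∀ x₁ x₂ x₃ : G ⧸ Subgroup.normalizer ((T : Subgroup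 G) : Set G), x₁ ≠ x₂ → x₁ ≠ x₃ → x₂ ≠ x₃ → g • x₁ = x₁ → g • x₂ = x₂ → g • x₃ = x₃ → g = 1) ∧ (∀ x y : G ⧸ Subgroup.normalizer ((T : Subgroup G) : Set G), x ≠ QuotientGroup.mk 1 → y ≠ QuotientGroup.mk 1 → ∃! t : G, t ∈ T ∧ t • x = y) := by
  obtain ⟨u, huH, hu⟩ := exists_invol_not_mem (stronglyEmbedded T hnc hnn hC)
  obtain ⟨σ₀, hσ₀, hσ₀1⟩ := exists_ne_one T hnc
  refine ⟨?_, ?_, ?_⟩
  · intro x₁ x₂ x₃ y₁ y₂ y₃ h12 h13 h23 k12 k13 k23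
    obtain ⟨g, hg1, hg2, hg3⟩ := to_std T hnc hnn hC hu huH hσ₀ hσ₀1 x₁ x₂ x₃ h12 h13 h23
    obtain ⟨k, hk1, hk2, hk3⟩ := to_std T hnc hnn hC hu huH hσ₀ hσ₀1 y₁ y₂ y₃ k12 k13 k23
    refine ⟨k⁻¹ * g, ?_, ?_, ?_⟩
    · rw [mul_smul, hg1, ← hk1, inv_smul_smul]
    · rw [mul_smul, hg2, ← hk2, inv_smul_smul]
    · rw [mul_smul, hg3, ← hk3, inv_smul_smul]
  · intro g x₁ x₂ x₃ h12 h13 h23 f1 f2 f3
    obtain ⟨k, hk1, hk2, hk3⟩ := to_std T hnc hnn hC hu huH hσ₀ hσ₀1 x₁ x₂ x₃ h12 h13 h23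
    -- k g k⁻¹ fixes the standard triple
    have e1 : x₁ = k⁻¹ • (QuotientGroup.mk 1 : G ⧸ NT T) := by rw [← hk1, inv_smul_smul]
    have e2 : x₂ = k⁻¹ • (QuotientGroup.mk u : G ⧸ NT T) := by rw [← hk2, inv_smul_smul]
    have e3 : x₃ = k⁻¹ • (σ₀ • (QuotientGroup.mk u : G ⧸ NT T)) := by rw [← hk3, inv_smul_smul]
    rw [e1, fix_conj, inv_inv, smul_mk_iff, inv_one, one_mul, mul_one] at f1
    rw [e2, fix_conj, inv_inv, smul_mk_iff] at f2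
    rw [e3, fix_conj, inv_inv, MulAction.Quotient.smul_mk, smul_eq_mul, smul_mk_iff] at f3
    have hd : k * g * k⁻¹ ∈ DD T u := (mem_DD_iff T).mpr ⟨f1, f2⟩
    have h1 := D_fix_third T hnc hnn hC hu huH hd hσ₀ hσ₀1 f3
    have e : g = k⁻¹ * (k * g * k⁻¹) * k := by group
    rw [e, h1]; group
  · intro x y hx hy
    obtain ⟨σ, hσ, rfl⟩ := exists_T T hnc hnn hC hu huH x hx
    obtain ⟨ρ, hρ, rfl⟩ := exists_T T hnc hnn hC hu huH y hy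
    refine ⟨ρ * σ⁻¹, ⟨Subgroup.mul_mem _ hρ (Subgroup.inv_mem _ hσ), ?_⟩, ?_⟩
    · rw [mul_smul, inv_smul_smul]
    · rintro t ⟨ht, hte⟩
      have h1 : ((ρ * σ⁻¹)⁻¹ * t) • (σ • (QuotientGroup.mk u : G ⧸ NT T)) =
          σ • (QuotientGroup.mk u : G ⧸ NT T) := by
        rw [mul_smul, hte, mul_inv_rev, inv_inv, mul_smul, inv_smul_smul]
      have h2 := T_semireg T hnc hnn hC (Subgroup.mul_mem _ (Subgroup.inv_mem _
        (Subgroup.mul_mem _ hρ (Subgroup.inv_mem _ hσ))) ht) _ hx h1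
      rw [inv_mul_eq_one] at h2
      exact h2.symm

end Cfsg.Agent.S1229
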