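import Cfsg.Statements.S1230
-- import your own Cfsg.Agent.* helpers here
import Mathlib
import Cfsg.Agent.Lib.Helper8.CITField
import Cfsg.Agent.Lib.Helper8.PSL2Rec
import Cfsg.Agent.Lib.Helper2.SLGen
import Cfsg.Agent.S1229

set_option autoImplicit false
open Cfsg

namespace Cfsg.Agent.S1230

open Cfsg.Agent.Lib.Helper8.IsoInv Cfsg.Agent.Lib.Helper8.Conj Cfsg.Agent.Lib.Helper8.SE
  Cfsg.Agent.Lib.Helper8.CIT Cfsg.Agent.Lib.Helper8.CIT2 Cfsg.Agent.Lib.Helper8.CIT3
  Cfsg.Agent.Lib.Helper8.CITField Cfsg.Agent.Lib.Helper8.PSL2Rec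
open Matrix OnePoint

section Mob

variable {K : Type*} [Field K] [DecidableEq K]

/-- explicit elements of `SL₂` -/
def mk2 (a b c d : K) (h : a * d - b * c = 1) : Matrix.SpecialLinearGroup (Fin 2) K :=
  ⟨!![a, b; c, d], by rw [Matrix.det_fin_two_of]; exact h⟩

omit [DecidableEq K] in
theorem mk2_00 (a b c d : K) (h : a * d - b * c = 1) : (mk2 a b c d h) 0 0 = a := rfl
omit [DecidableEq K] in
theorem mk2_01 (a b c d : K) (h : a * d - b * c = 1) : (mk2 a b c d h) 0 1 = b := rfl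
omit [DecidableEq K] in
theorem mk2_10 (a b c d : K) (h : a * d - b * c = 1) : (mk2 a b c d h) 1 0 = c := rfl
omit [DecidableEq K] in
theorem mk2_11 (a b c d : K) (h : a * d - b * c = 1) : (mk2 a b c d h) 1 1 = d := rfl

theorem mob_infty (a b c d : K) (h : a * d - b * c = 1) :
    (Matrix.SpecialLinearGroup.toGL (mk2 a b c d h)) •
      (∞ : OnePoint K) = if c = 0 then ∞ else ((a / c : K) : OnePoint K) := by
  rw [act_infty, mk2_10, mk2_00]

theorem mob_coe (a b c d : K) (h : a * d - b * c = 1) (k : K) :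
    (Matrix.SpecialLinearGroup.toGL (mk2 a b c d h)) •
      (k : OnePoint K) = if c * k + d = 0 then ∞
        else (((a * k + b) / (c * k + d) : K) : OnePoint K) := by
  rw [act_coe, mk2_10, mk2_00, mk2_11, mk2_01]

omit [DecidableEq K] in
theorem transv01 (b : K) :
    (Matrix.SpecialLinearGroup.transvection (show (0 : Fin 2) ≠ 1 by decide) b) =
      mk2 1 b 0 1 (by simp) := by
  ext i j
  fin_cases i <;> fin_cases j <;> simp [Matrix.SpecialLinearGroup.transvection_coe, mk2]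

omit [DecidableEq K] in
theorem transv10 (h2 : (-1 : K) = 1) (c s : K) (hs : s ≠ 0) :
    (Matrix.SpecialLinearGroup.transvection (show (1 : Fin 2) ≠ 0 by decide) c) =
      mk2 0 s s⁻¹ 0 (by simp [hs, h2]) * mk2 1 (c * (s * s)) 0 1 (by simp) *
        mk2 0 s s⁻¹ 0 (by simp [hs, h2]) := by
  apply Subtype.ext
  show (1 + Matrix.single 1 0 c : Matrix (Fin 2) (Fin 2) K) =
    !![0, s; s⁻¹, 0] * !![1, c * (s * s); 0, 1] * !![0, s; s⁻¹, 0]
  ext i j
  fin_cases i <;> fin_cases j <;>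
    simp [Matrix.mul_apply, Fin.sum_univ_two, hs] <;>
    field_simp

end Mob

section Transport

theorem psl_congr {R S : Type*} [CommRing R] [CommRing S] (r : R ≃+* S) :
    Nonempty (Matrix.ProjectiveSpecialLinearGroup (Fin 2) R ≃*
      Matrix.ProjectiveSpecialLinearGroup (Fin 2) S) := by
  let φ : Matrix.SpecialLinearGroup (Fin 2) R ≃* Matrix.SpecialLinearGroup (Fin 2) S :=
    { toFun := Matrix.SpecialLinearGroup.map r.toRingHom
      invFun := Matrix.SpecialLinearGroup.map r.symm.toRingHom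
      left_inv := by
        intro A
        ext i j
        simp [Matrix.SpecialLinearGroup.map_apply_coe]
      right_inv := by
        intro A
        ext i j
        simp [Matrix.SpecialLinearGroup.map_apply_coe]
      map_mul' := fun A B => map_mul _ A B }
  refine ⟨QuotientGroup.congr _ _ φ ?_⟩
  ext x
  rw [Subgroup.mem_map]
  constructor
  · rintro ⟨z, hz, rfl⟩
    rw [Subgroup.mem_center_iff] at hz ⊢
    intro y
    have h1 := hz (φ.symm y)
    have h2 := congrArg φ h1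
    rw [map_mul, map_mul, MulEquiv.apply_symm_apply] at h2
    exact h2
  · intro hx
    refine ⟨φ.symm x, ?_, MulEquiv.apply_symm_apply φ x⟩
    rw [Subgroup.mem_center_iff] at hx ⊢
    intro y
    have h1 := hx (φ y)
    have h2 := congrArg φ.symm h1
    rw [map_mul, map_mul, MulEquiv.symm_apply_apply] at h2
    exact h2

/-- a copy of `Fin n` without any algebraic structure -/
def FK (n : ℕ) : Type := Fin n

instance (n : ℕ) : Fintype (FK n) := inferInstanceAs (Fintype (Fin n))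

theorem card_FK (n : ℕ) : Fintype.card (FK n) = n := Fintype.card_fin n

theorem transport {K : Type*} [Field K] [Finite K] {Y : Type*} [Group Y]
    (h : Nonempty (Y ≃* Matrix.ProjectiveSpecialLinearGroup (Fin 2) K)) :
    ∃ (F : Type) (_ : Field F) (_ : Fintype F), Fintype.card F = Nat.card K ∧
      Nonempty (Y ≃* Matrix.ProjectiveSpecialLinearGroup (Fin 2) F) := by
  obtain ⟨ψ⟩ := h
  let e : FK (Nat.card K) ≃ K := (Finite.equivFin K).symm
  letI : Field (FK (Nat.card K)) := e.field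
  let r : FK (Nat.card K) ≃+* K := e.ringEquiv
  obtain ⟨χ⟩ := psl_congr r
  exact ⟨FK (Nat.card K), inferInstance, inferInstance, card_FK _, ⟨ψ.trans χ.symm⟩⟩

end Transport

section Coord

variable {G : Type*} [Group G] [Finite G] (P : Params G)

/-- the coordinatisation of `G ⧸ N(T)` by the projective line -/
noncomputable def eta (p : OnePoint (KT P)) : G ⧸ NT P.T :=
  p.elim (QuotientGroup.mk 1) (fun a => QuotientGroup.mk (a.val * P.u))

theorem eta_infty : eta P ∞ = QuotientGroup.mk 1 := rfl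

theorem eta_coe (a : KT P) :
    eta P (a : OnePoint (KT P)) = QuotientGroup.mk (a.val * P.u) := rfl

theorem huu : P.u * P.u = 1 := mul_self_of_orderOf_two P.hu

theorem hui : P.u⁻¹ = P.u := inv_eq_self_of_mul_self (huu P)

theorem smul_mk (g a : G) : g • (QuotientGroup.mk a : G ⧸ NT P.T) = QuotientGroup.mk (g * a) :=
  rfl

theorem mk_u_ne : (QuotientGroup.mk P.u : G ⧸ NT P.T) ≠ QuotientGroup.mk 1 := by
  intro h
  rw [Cfsg.Agent.S1229.mk_eq_one_iff] at h
  exact P.huH h

theorem eta_injective : Function.Injective (eta P) := by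
  have key : ∀ a : KT P, eta P (a : OnePoint (KT P)) ≠ eta P ∞ := by
    intro a h
    rw [eta_coe, eta_infty, Cfsg.Agent.S1229.mk_eq_one_iff] at h
    apply P.huH
    have e : P.u = a.val⁻¹ * (a.val * P.u) := by group
    rw [e]
    exact Subgroup.mul_mem _ (Subgroup.inv_mem _ (T_le_NT P.T a.mem)) h
  intro p q hpq
  cases p with
  | infty =>
    cases q with
    | infty => rfl
    | coe b => exact absurd hpq.symm (key b)
  | coe a =>
    cases q with
    | infty => exact absurd hpq (key a)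
    | coe b =>
      rw [eta_coe, eta_coe] at hpq
      have h1 : (b.val⁻¹ * a.val) • (QuotientGroup.mk P.u : G ⧸ NT P.T) = QuotientGroup.mk P.u := by
        rw [mul_smul, show a.val • (QuotientGroup.mk P.u : G ⧸ NT P.T) =
          QuotientGroup.mk (a.val * P.u) from rfl, hpq, smul_mk, ← mul_assoc, inv_mul_cancel,
          one_mul]
      have h2 := Cfsg.Agent.S1229.T_semireg P.T P.hnc P.hnn P.hC
        (Subgroup.mul_mem _ (Subgroup.inv_mem _ b.mem) a.mem) _ (mk_u_ne P) h1
      rw [inv_mul_eq_one] at h2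
      have : a = b := KT.ext h2.symm
      rw [this]

theorem eta_surjective : Function.Surjective (eta P) := by
  intro x
  by_cases hx : x = QuotientGroup.mk 1
  · exact ⟨∞, hx.symm⟩
  · obtain ⟨σ, hσ, rfl⟩ := Cfsg.Agent.S1229.exists_T P.T P.hnc P.hnn P.hC P.hu P.huH x hx
    exact ⟨((⟨σ, hσ⟩ : KT P) : OnePoint (KT P)), rfl⟩

/-- `g` acts as a Möbius transformation -/
def Real (g : G) : Prop :=
  ∃ A : Matrix.SpecialLinearGroup (Fin 2) (KT P),
    ∀ p, g • eta P p = eta P ((Matrix.SpecialLinearGroup.toGL A) • p)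

theorem real_mul {g h : G} (hg : Real P g) (hh : Real P h) : Real P (g * h) := by
  obtain ⟨A, hA⟩ := hg
  obtain ⟨B, hB⟩ := hh
  refine ⟨A * B, fun p => ?_⟩
  rw [mul_smul, hB, hA, map_mul, mul_smul]

theorem real_T (τ : KT P) :
    ∀ p, τ.val • eta P p = eta P ((Matrix.SpecialLinearGroup.toGL (mk2 1 τ 0 1 (by simp))) • p) := by
  intro p
  cases p with
  | infty =>
    rw [mob_infty, if_pos rfl, eta_infty, smul_mk, mul_one, Cfsg.Agent.S1229.mk_eq_one_iff]
    exact T_le_NT P.T τ.mem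
  | coe a =>
    rw [mob_coe, if_neg (by simp), eta_coe, eta_coe, smul_mk]
    have h1 : ((1 * a + τ) / (0 * a + 1) : KT P) = a + τ := by simp
    rw [h1, KT.add_val, ← mul_assoc, T_comm P.T P.hnc P.hC τ.mem a.mem]

theorem real_D {d : G} (hd : d ∈ DD P.T P.u) : Real P d := by
  have hdH : d ∈ NT P.T := DD_le P.T P.u hd
  obtain ⟨c, hc⟩ := KT.exists_sqrt P (⟨d * P.s * d⁻¹, conj_mem_T P.T hdH P.hs⟩ : KT P)
  have hc0 : c ≠ 0 := by
    rintro rfl
    rw [mul_zero] at hc
    have := congrArg KT.val hc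
    rw [KT.zero_val] at this
    exact KT.conj_ne_one P d this.symm
  refine ⟨mk2 c 0 0 c⁻¹ (by simp [hc0]), fun p => ?_⟩
  cases p with
  | infty =>
    rw [mob_infty, if_pos rfl, eta_infty, smul_mk, mul_one, Cfsg.Agent.S1229.mk_eq_one_iff]
    exact hdH
  | coe b =>
    rw [mob_coe, if_neg (by simp [hc0]), eta_coe, eta_coe, smul_mk]
    have h1 : ((c * b + 0) / (0 * b + c⁻¹) : KT P) = (c * c) * b := by
      rw [add_zero, zero_mul, zero_add, div_inv_eq_mul]
      ring
    rw [h1, hc, KT.mul_val_of'' P hd rfl b, QuotientGroup.eq]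
    have e : (d * (b.val * P.u))⁻¹ * (d * b.val * d⁻¹ * P.u) = (P.u⁻¹ * d * P.u)⁻¹ := by group
    rw [e]
    exact Subgroup.inv_mem _ ((mem_DD_iff P.T).mp hd).2

theorem real_u : ∃ r : KT P, ∃ hr : r ≠ 0,
    ∀ p, P.u • eta P p = eta P ((Matrix.SpecialLinearGroup.toGL
      (mk2 0 r r⁻¹ 0 (by simp [hr, KT.neg_eq]))) • p) := by
  have hsH : P.s ∈ NT P.T := T_le_NT P.T P.hs
  have hy : (QuotientGroup.mk (P.u * P.s * P.u) : G ⧸ NT P.T) ≠ QuotientGroup.mk 1 := by
    intro h
    rw [Cfsg.Agent.S1229.mk_eq_one_iff] at h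
    apply P.huH
    apply mem_of_invol (stronglyEmbedded P.T P.hnc P.hnn P.hC)
      (T_orderOf P.T P.hnc P.hC P.hs P.hs1) hsH
    rw [hui P]
    exact h
  obtain ⟨c₀, hc₀, hc₀e⟩ := Cfsg.Agent.S1229.exists_T P.T P.hnc P.hnn P.hC P.hu P.huH _ hy
  rw [Cfsg.Agent.S1229.mk_eq_smul_iff] at hc₀e
  have hc₀1 : c₀ ≠ 1 := by
    rintro rfl
    apply P.huH
    have e : P.u = ((P.u * P.s * P.u)⁻¹ * 1 * P.u * P.s)⁻¹ := by group
    rw [e]
    exact Subgroup.inv_mem _ (Subgroup.mul_mem _ hc₀e hsH)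
  obtain ⟨r, hr⟩ := KT.exists_sqrt P (⟨c₀, hc₀⟩ : KT P)
  have hr0 : r ≠ 0 := by
    rintro rfl
    rw [mul_zero] at hr
    have := congrArg KT.val hr
    rw [KT.zero_val] at this
    exact hc₀1 this.symm
  refine ⟨r, hr0, fun p => ?_⟩
  cases p with
  | infty =>
    rw [mob_infty, if_neg (inv_ne_zero hr0), zero_div, eta_infty, eta_coe, smul_mk, mul_one,
      KT.zero_val, one_mul]
  | coe b =>
    rw [mob_coe]
    by_cases hb : b = 0
    · subst hb
      rw [if_pos (by simp), eta_infty, eta_coe, smul_mk, KT.zero_val, one_mul, huu]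
    · rw [if_neg (by simp [hr0, hb]), eta_coe, eta_coe, smul_mk]
      have hb1 : b.val ≠ 1 := fun h => hb ((KT.eq_zero_iff P b).mpr h)
      obtain ⟨e, he, heb⟩ := KT.exists_d P b hb1
      have heH : e ∈ NT P.T := DD_le P.T P.u he
      have hρmem : e⁻¹ * c₀ * e ∈ (P.T : Subgroup G) := by
        have := conj_mem_T P.T (Subgroup.inv_mem _ heH) hc₀
        rwa [inv_inv] at this
      have h1 : ((0 * b + r) / (r⁻¹ * b + 0) : KT P) = (⟨e⁻¹ * c₀ * e, hρmem⟩ : KT P) := by
        have h2 : ((0 * b + r) / (r⁻¹ * b + 0) : KT P) = (r * r) / b := by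
          rw [zero_mul, zero_add, add_zero,
            div_eq_div_iff (mul_ne_zero (inv_ne_zero hr0) hb) hb]
          have h3 : r * r⁻¹ = 1 := mul_inv_cancel₀ hr0
          calc r * b = r * (r * r⁻¹) * b := by rw [h3, mul_one]
            _ = r * r * (r⁻¹ * b) := by ring
        rw [h2, hr, div_eq_iff hb, mul_comm]
        apply KT.ext
        rw [KT.mul_val_of'' P he heb.symm]
        show c₀ = e * (e⁻¹ * c₀ * e) * e⁻¹
        group
      rw [h1, QuotientGroup.eq]
      show (P.u * (b.val * P.u))⁻¹ * (e⁻¹ * c₀ * e * P.u) ∈ NT P.T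
      have hinv := DD_inverted P.T P.hnc P.hnn P.hC P.hu P.huH e he
      have hue : P.u * e = e⁻¹ * P.u := by
        calc P.u * e = (P.u * e * P.u⁻¹) * P.u := by group
          _ = e⁻¹ * P.u := by rw [hinv]
      have hue2 : e * P.u = P.u * e⁻¹ := by
        calc e * P.u = e * (P.u * e) * e⁻¹ := by group
          _ = e * (e⁻¹ * P.u) * e⁻¹ := by rw [hue]
          _ = P.u * e⁻¹ := by group
      have k1 : P.u * (b.val * P.u) = e⁻¹ * (P.u * P.s * P.u) * e := by
        rw [← heb]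
        calc P.u * (e * P.s * e⁻¹ * P.u) = (P.u * e) * P.s * (e⁻¹ * P.u) := by group
          _ = (e⁻¹ * P.u) * P.s * (P.u * e) := by rw [hue]
          _ = e⁻¹ * (P.u * P.s * P.u) * e := by group
      have k2 : e⁻¹ * c₀ * e * P.u = e⁻¹ * c₀ * P.u * e⁻¹ := by
        calc e⁻¹ * c₀ * e * P.u = e⁻¹ * c₀ * (e * P.u) := by group
          _ = e⁻¹ * c₀ * (P.u * e⁻¹) := by rw [hue2]
          _ = e⁻¹ * c₀ * P.u * e⁻¹ := by group
      rw [k1, k2]
      have e3 : (e⁻¹ * (P.u * P.s * P.u) * e)⁻¹ * (e⁻¹ * c₀ * P.u * e⁻¹) =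
          e⁻¹ * ((P.u * P.s * P.u)⁻¹ * c₀ * P.u) * e⁻¹ := by group
      rw [e3]
      exact Subgroup.mul_mem _ (Subgroup.mul_mem _ (Subgroup.inv_mem _ heH) hc₀e)
        (Subgroup.inv_mem _ heH)

theorem real_all (g : G) : Real P g := by
  obtain ⟨r, hr, hur⟩ := real_u P
  have hU : Real P P.u := ⟨_, hur⟩
  have hH : ∀ h : G, h ∈ NT P.T → Real P h := by
    intro h hh
    obtain ⟨d, hd, τ, hτ, rfl⟩ := NT_eq_DT P.T P.hnc P.hnn P.hC P.hu P.huH hh
    exact real_mul P (real_D P hd) ⟨_, real_T P ⟨τ, hτ⟩⟩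
  by_cases hg : g ∈ NT P.T
  · exact hH g hg
  · have hx : (QuotientGroup.mk g : G ⧸ NT P.T) ≠ QuotientGroup.mk 1 := by
      intro h
      exact hg ((Cfsg.Agent.S1229.mk_eq_one_iff P.T g).mp h)
    obtain ⟨σ, hσ, hσe⟩ := Cfsg.Agent.S1229.exists_T P.T P.hnc P.hnn P.hC P.hu P.huH _ hx
    rw [Cfsg.Agent.S1229.mk_eq_smul_iff] at hσe
    have e : g = σ * P.u * (g⁻¹ * σ * P.u)⁻¹ := by group
    rw [e]
    exact real_mul P (real_mul P ⟨_, real_T P ⟨σ, hσ⟩⟩ hU) (hH _ (Subgroup.inv_mem _ hσe))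

theorem neg_one_eq : (-1 : KT P) = 1 := KT.neg_eq P 1

theorem real_surj (A : Matrix.SpecialLinearGroup (Fin 2) (KT P)) :
    ∃ g : G, ∀ p, g • eta P p = eta P ((Matrix.SpecialLinearGroup.toGL A) • p) := by
  obtain ⟨r, hr, hur⟩ := real_u P
  refine Cfsg.Agent.Lib.Helper2.SLGen.transvection_induction
    (fun A => ∃ g : G, ∀ p, g • eta P p = eta P ((Matrix.SpecialLinearGroup.toGL A) • p))
    ?_ ?_ A
  · intro i j hij c
    fin_cases i <;> fin_cases j
    · exact absurd rfl hij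
    · refine ⟨c.val, ?_⟩
      have h1 := transv01 (K := KT P) c
      intro p
      have h2 := real_T P c p
      rw [h2]
      congr 3
      exact h1.symm
    · have h1 := transv10 (neg_one_eq P) c r hr
      refine ⟨P.u * (c * (r * r)).val * P.u, ?_⟩
      intro p
      rw [mul_smul, mul_smul, hur, real_T P, hur, ← mul_smul, ← mul_smul, ← map_mul, ← map_mul]
      congr 3
      exact h1.symm
    · exact absurd rfl hij
  · rintro A B ⟨g, hg⟩ ⟨h, hh⟩
    refine ⟨g * h, fun p => ?_⟩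
    rw [mul_smul, hh, hg, map_mul, mul_smul]

theorem faithful (g : G) (h : ∀ x : G ⧸ NT P.T, g • x = x) : g = 1 := by
  have hinj := eta_injective P
  have h01 : ((0 : KT P) : OnePoint (KT P)) ≠ ((1 : KT P) : OnePoint (KT P)) := by
    intro h
    exact zero_ne_one (OnePoint.coe_injective h)
  exact (Cfsg.Agent.S1229.result P.T P.hnc P.hnn P.hC).2.1 g (eta P ∞) (eta P (0 : KT P))
    (eta P (1 : KT P))
    (fun h => OnePoint.infty_ne_coe _ (hinj h))
    (fun h => OnePoint.infty_ne_coe _ (hinj h))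
    (fun h => h01 (hinj h))
    (h _) (h _) (h _)

theorem iso_KT : Nonempty (G ≃* Matrix.ProjectiveSpecialLinearGroup (Fin 2) (KT P)) :=
  recognize (faithful P) (eta P) ⟨eta_injective P, eta_surjective P⟩ (real_all P) (real_surj P)

end Coord

/-- Let G be a finite group with a Sylow 2-subgroup T that is neither cyclic nor normal, such that the centralizer of every involution is an elementary abelian 2-group. Then G ≅ PSL(2,F) for a finite field F with |F| = |T|. -/
theorem result {G : Type*} [Group G] [Finite G] (T : Sylow 2 G) (hnc : ¬ IsCyclic (T : Subgroup G)) (hnn : ¬ (T : Subgroup G).Normal) (hC : ∀ t : G, orderOf t = 2 → IsMulCommutative (Subgroup.centralizer ({t} : Set G)) ∧ ∀ c ∈ Subgroup.centralizer ({t} : Set G), c ^ 2 = 1) : ∃ (F : Type) (_ : Field F) (_ : Fintype F), Fintype.card F = Nat.card T ∧ Nonempty (G ≃* Matrix.ProjectiveSpecialLinearGroup (Fin 2) F) := by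
  obtain ⟨u, huH, hu⟩ := exists_invol_not_mem (stronglyEmbedded T hnc hnn hC)
  obtain ⟨s, hs, hs1⟩ := exists_ne_one T hnc
  let P : Params G := ⟨T, u, s, hnc, hnn, hC, hu, huH, hs, hs1⟩
  obtain ⟨F, iF, iFt, hcard, hiso⟩ := transport (iso_KT P)
  refine ⟨F, iF, iFt, ?_, hiso⟩
  rw [hcard, KT.card_eq]

end Cfsg.Agent.S1230
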