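import Mathlib
import Cfsg.Statements.S4702
import Mathlib
import Cfsg.Agent.Lib.Helper6.Sharp3
import Cfsg.Agent.S1230
import Cfsg.Agent.S0250

set_option autoImplicit false
open Cfsg

namespace Cfsg.Agent.S4702

/-- Let G be a triply transitive permutation group on a finite set of odd size m ≥ 3 in which only the identity fixes three or more points. Then m = 2^a + 1 for some a ≥ 1 and G is isomorphic to SL(2, 2^a). -/
theorem result {α : Type*} [Fintype α] [DecidableEq α] (hm : 3 ≤ Fintype.card α) (hodd : Odd (Fintype.card α)) (G : Subgroup (Equiv.Perm α)) (h3 : MulAction.IsMultiplyPretransitive G α 3) (hfix : ∀ g : G, 3 ≤ Nat.card (MulAction.fixedBy α g) → g = 1) : ∃ a : ℕ, 1 ≤ a ∧ Fintype.card α = 2 ^ a + 1 ∧ ∃ (F : Type) (_ : Field F) (_ : Fintype F), Fintype.card F = 2 ^ a ∧ Nonempty (G ≃* Matrix.SpecialLinearGroup (Fin 2) F) := by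
  classical
  by_cases h5 : 5 ≤ Fintype.card α
  · obtain ⟨T⟩ : Nonempty (Sylow 2 G) := inferInstance
    obtain ⟨hT, hnc, hnn, hC⟩ := Cfsg.Agent.Lib.Helper6.Sharp3.main h3 hfix hodd h5 T
    obtain ⟨F, iF, iFt, hF, ⟨e⟩⟩ := Cfsg.Agent.S1230.result T hnc hnn hC
    obtain ⟨a, ha⟩ := IsPGroup.iff_card.mp T.isPGroup'
    have ha' : Nat.card T = 2 ^ a := ha
    have h2a : 2 ^ a = Fintype.card α - 1 := by rw [← ha', hT]
    have ha1 : 1 ≤ a := by
      by_contra h0
      have h00 : a = 0 := by omega
      rw [h00] at h2a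
      simp at h2a
      omega
    have h20 : (2 : F) = 0 := by
      have h := Nat.cast_card_eq_zero F
      rw [hF, ha', Nat.cast_pow] at h
      have h' := (pow_eq_zero_iff (by omega : a ≠ 0)).mp h
      exact_mod_cast h'
    have hcen : Subgroup.center (Matrix.SpecialLinearGroup (Fin 2) F) = ⊥ := by
      rw [eq_bot_iff]
      intro A hA
      obtain ⟨r, hr, hrA⟩ := Matrix.SpecialLinearGroup.mem_center_iff.mp hA
      simp only [Fintype.card_fin] at hr
      have hr1 : r = 1 := by
        have hsq : (r - 1) ^ 2 = 0 := by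
          linear_combination hr + (1 - r) * h20
        have h' := (pow_eq_zero_iff (two_ne_zero)).mp hsq
        exact sub_eq_zero.mp h'
      rw [Subgroup.mem_bot]
      apply Subtype.ext
      rw [← hrA, hr1]
      simp
    refine ⟨a, ha1, by omega, F, iF, iFt, by rw [hF, ha'], ⟨e.trans ?_⟩⟩
    exact (QuotientGroup.quotientMulEquivOfEq hcen).trans QuotientGroup.quotientBot
  · have hc3 : Fintype.card α = 3 := by
      obtain ⟨k, hk⟩ := hodd
      omega
    have htop : G = ⊤ := by
      apply Equiv.Perm.eq_top_of_isMultiplyPretransitive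
      rw [Nat.card_eq_fintype_card, hc3]
      exact MulAction.isMultiplyPretransitive_of_le (n := 3) (by norm_num)
        (by rw [Nat.card_eq_fintype_card, hc3])
    haveI : Fact (Nat.Prime 2) := ⟨Nat.prime_two⟩
    obtain ⟨e⟩ := Cfsg.Agent.S0250.result (F := ZMod 2) (by simp [ZMod.card])
    have e1 : G ≃* Equiv.Perm α := (MulEquiv.subgroupCongr htop).trans Subgroup.topEquiv
    have e2 : Equiv.Perm α ≃* Equiv.Perm (Fin 3) :=
      Equiv.permCongrHom (Fintype.equivFinOfCardEq hc3)
    exact ⟨1, le_refl 1, by rw [hc3]; norm_num, ZMod 2, inferInstance, inferInstance,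
      by simp [ZMod.card], ⟨(e1.trans e2).trans e.symm⟩⟩

end Cfsg.Agent.S4702
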