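import Mathlib
import Cfsg.Statements.S0727
import Mathlib
import Cfsg.Agent.S4702

set_option autoImplicit false
open Cfsg

namespace Cfsg.Agent.S0727

/-- A sharply triply transitive permutation group of degree `2^f + 1` is isomorphic to the projective general linear group of degree 2 over the field with `2^f` elements. -/
theorem result {α : Type*} [Fintype α] [DecidableEq α] {f : ℕ} (hf : 1 ≤ f) (hα : Fintype.card α = 2 ^ f + 1) (G : Subgroup (Equiv.Perm α)) (h3 : MulAction.IsMultiplyPretransitive G α 3) (hsharp : ∀ x : Fin 3 ↪ α, MulAction.stabilizer G x = ⊥) : ∃ (F : Type) (_ : Field F) (_ : Fintype F), Fintype.card F = 2 ^ f ∧ Nonempty (G ≃* Matrix.ProjGenLinGroup (Fin 2) F) := by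
  classical
  have hodd : Odd (Fintype.card α) := by
    rw [hα]
    refine ⟨2 ^ (f - 1), ?_⟩
    have h1 : 2 ^ f = 2 * 2 ^ (f - 1) := by
      rw [← pow_succ']
      congr 1
      omega
    omega
  have hm : 3 ≤ Fintype.card α := by
    rw [hα]
    have h1 : 2 ^ 1 ≤ 2 ^ f := Nat.pow_le_pow_right (by norm_num) hf
    omega
  have hfix : ∀ g : G, 3 ≤ Nat.card (MulAction.fixedBy α g) → g = 1 := by
    intro g hg
    rw [Nat.card_coe_set_eq] at hg
    have h2 : 2 < (MulAction.fixedBy α g).ncard := by omega
    obtain ⟨a, b, c, ha, hb, hc, hab, hac, hbc⟩ :=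
      (Set.two_lt_ncard_iff (Set.toFinite _)).mp h2
    have hba := hab.symm
    have hca := hac.symm
    have hcb := hbc.symm
    have hx : Function.Injective ![a, b, c] := by
      intro i j hij
      fin_cases i <;> fin_cases j <;> simp_all
    have hmem : g ∈ MulAction.stabilizer G (⟨![a, b, c], hx⟩ : Fin 3 ↪ α) := by
      rw [MulAction.mem_stabilizer_iff]
      ext i
      have ha' : g • a = a := ha
      have hb' : g • b = b := hb
      have hc' : g • c = c := hc
      fin_cases i
      · exact ha'
      · exact hb'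
      · exact hc'
    rw [hsharp] at hmem
    exact Subgroup.mem_bot.mp hmem
  obtain ⟨a, ha1, hcard, F, iF, iFt, hF, ⟨e⟩⟩ := Cfsg.Agent.S4702.result hm hodd G h3 hfix
  have haf : a = f := by
    have h1 : 2 ^ a = 2 ^ f := by omega
    exact Nat.pow_right_injective (le_refl 2) h1
  subst haf
  have h20 : (2 : F) = 0 := by
    have h := Nat.cast_card_eq_zero F
    rw [hF, Nat.cast_pow] at h
    have h' := (pow_eq_zero_iff (by omega : a ≠ 0)).mp h
    exact_mod_cast h'
  have hchar : ringChar F = 2 :=
    CharP.ringChar_of_prime_eq_zero Nat.prime_two (by exact_mod_cast h20)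
  have hcen : Subgroup.center (Matrix.SpecialLinearGroup (Fin 2) F) = ⊥ := by
    rw [eq_bot_iff]
    intro A hA
    obtain ⟨r, hr, hrA⟩ := Matrix.SpecialLinearGroup.mem_center_iff.mp hA
    simp only [Fintype.card_fin] at hr
    have hr1 : r = 1 := by
      have hsq : (r - 1) ^ 2 = 0 := by
        linear_combination hr + (1 - r) * h20
      have h' := (pow_eq_zero_iff (two_ne_zero)).mp hsq
      exact sub_eq_zero.mp h'
    rw [Subgroup.mem_bot]
    apply Subtype.ext
    rw [← hrA, hr1]
    simp
  have hinj : Function.Injective (Matrix.SpecialLinearGroup.toPGL (n := Fin 2) (R := F)) := by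
    rw [← MonoidHom.ker_eq_bot_iff, Matrix.SpecialLinearGroup.toPGL_ker, hcen]
  have hsurj : Function.Surjective (Matrix.SpecialLinearGroup.toPGL (n := Fin 2) (R := F)) := by
    intro x
    obtain ⟨y, hy⟩ := Matrix.ProjectiveSpecialLinearGroup.toPGL_surj_of_roots
      (n := Fin 2) (R := F) (fun r => by
        obtain ⟨k, hk⟩ := FiniteField.isSquare_of_char_two hchar (r : F)
        have hk0 : k ≠ 0 := by
          intro h0
          rw [h0, mul_zero] at hk
          exact r.ne_zero hk
        refine ⟨Units.mk0 k hk0, ?_⟩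
        apply Units.ext
        simp [pow_two, hk]) x
    induction y using QuotientGroup.induction_on with
    | H g => exact ⟨g, hy⟩
  exact ⟨F, iF, iFt, hF, ⟨e.trans (MulEquiv.ofBijective _ ⟨hinj, hsurj⟩)⟩⟩

end Cfsg.Agent.S0727
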