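import Cfsg.Statements.S0728
import Mathlib

set_option autoImplicit false
open Cfsg

namespace Cfsg.Agent.S0728

theorem emb3_inj {α : Type*} (p q r : α) (hpq : p ≠ q) (hpr : p ≠ r) (hqr : q ≠ r) :
    Function.Injective ![p, q, r] := by
  intro i j hij
  fin_cases i <;> fin_cases j <;> simp_all

/-- an element fixing three distinct points is trivial -/
theorem fix3 {α : Type*} (G : Subgroup (Equiv.Perm α))
    (hsharp : ∀ x : Fin 3 ↪ α, MulAction.stabilizer G x = ⊥) (g : G) (p q r : α)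
    (hpq : p ≠ q) (hpr : p ≠ r) (hqr : q ≠ r) (hp : g • p = p) (hq : g • q = q)
    (hr : g • r = r) : g = 1 := by
  have hmem : g ∈ MulAction.stabilizer G
      (⟨![p, q, r], emb3_inj p q r hpq hpr hqr⟩ : Fin 3 ↪ α) := by
    rw [MulAction.mem_stabilizer_iff]
    refine DFunLike.ext _ _ (fun i => ?_)
    show g • (![p, q, r] i) = ![p, q, r] i
    fin_cases i
    · exact hp
    · exact hq
    · exact hr
  rw [hsharp] at hmem
  exact Subgroup.mem_bot.1 hmem

theorem trans3 {α : Type*} (G : Subgroup (Equiv.Perm α))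
    (h3 : MulAction.IsMultiplyPretransitive G α 3) (p q r p' q' r' : α)
    (hpq : p ≠ q) (hpr : p ≠ r) (hqr : q ≠ r) (hpq' : p' ≠ q') (hpr' : p' ≠ r')
    (hqr' : q' ≠ r') : ∃ x : G, x • p = p' ∧ x • q = q' ∧ x • r = r' := by
  obtain ⟨x, hx⟩ := h3.exists_smul_eq
    (⟨![p, q, r], emb3_inj p q r hpq hpr hqr⟩ : Fin 3 ↪ α)
    (⟨![p', q', r'], emb3_inj p' q' r' hpq' hpr' hqr'⟩ : Fin 3 ↪ α)
  have h0 := DFunLike.congr_fun hx (0 : Fin 3)
  have h1 := DFunLike.congr_fun hx (1 : Fin 3)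
  have h2 := DFunLike.congr_fun hx (2 : Fin 3)
  rw [Function.Embedding.smul_apply] at h0 h1 h2
  exact ⟨x, h0, h1, h2⟩

theorem conj_fix {α : Type*} (G : Subgroup (Equiv.Perm α)) (y g h' : G)
    (hy : y * g * y⁻¹ = h') (p : α) (hgp : g • p = p) : h' • (y • p) = y • p := by
  rw [← hy]
  simp only [mul_smul]
  rw [inv_smul_smul, hgp]

theorem swap_or_fix {α : Type*} (G : Subgroup (Equiv.Perm α))
    (hsharp : ∀ x : Fin 3 ↪ α, MulAction.stabilizer G x = ⊥) {a b : α} (hab : a ≠ b)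
    (h y : G) (hh1 : h ≠ 1) (hha : h • a = a) (hhb : h • b = b)
    (h1 : h • (y • a) = y • a) (h2 : h • (y • b) = y • b) :
    (y • a = a ∧ y • b = b) ∨ (y • a = b ∧ y • b = a) := by
  have ha : y • a = a ∨ y • a = b := by
    by_contra hcon
    push Not at hcon
    exact hh1 (fix3 G hsharp h a b (y • a) hab (Ne.symm hcon.1) (Ne.symm hcon.2) hha hhb h1)
  have hb : y • b = a ∨ y • b = b := by
    by_contra hcon
    push Not at hcon
    exact hh1 (fix3 G hsharp h a b (y • b) hab (Ne.symm hcon.1) (Ne.symm hcon.2) hha hhb h2)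
  have hne : y • a ≠ y • b := fun h => hab (smul_left_cancel y h)
  rcases ha with ha | ha
  · rcases hb with hb | hb
    · exact absurd (ha.trans hb.symm) hne
    · exact Or.inl ⟨ha, hb⟩
  · rcases hb with hb | hb
    · exact Or.inr ⟨ha, hb⟩
    · exact absurd (ha.trans hb.symm) hne

theorem key {α : Type*} (G : Subgroup (Equiv.Perm α))
    (h3 : MulAction.IsMultiplyPretransitive G α 3)
    (hsharp : ∀ x : Fin 3 ↪ α, MulAction.stabilizer G x = ⊥) {a b c : α} (hab : a ≠ b)
    (hca : c ≠ a) (hcb : c ≠ b) (g h : G) (hg1 : g ≠ 1) (hh1 : h ≠ 1) (hg3 : g ^ 3 = 1)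
    (hh3 : h ^ 3 = 1) (hga : g • a = a) (hgb : g • b = b) (hha : h • a = a) (hhb : h • b = b) :
    h = g ∨ h = g⁻¹ := by
  have hgc : g • c ≠ c := fun hfix =>
    hg1 (fix3 G hsharp g a b c hab hca.symm hcb.symm hga hgb hfix)
  have hhc : h • c ≠ c := fun hfix =>
    hh1 (fix3 G hsharp h a b c hab hca.symm hcb.symm hha hhb hfix)
  have hg3c : g • g • g • c = c := by
    rw [← mul_smul, ← mul_smul]
    have e : g * g * g = g ^ 3 := by rw [pow_succ, pow_two]
    rw [e, hg3, one_smul]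
  have hh3c : h • h • h • c = c := by
    rw [← mul_smul, ← mul_smul]
    have e : h * h * h = h ^ 3 := by rw [pow_succ, pow_two]
    rw [e, hh3, one_smul]
  have hg2c : g • g • c ≠ c := by
    intro hfix
    apply hgc
    calc g • c = g • (g • g • c) := by rw [hfix]
      _ = c := hg3c
  have hh2c : h • h • c ≠ c := by
    intro hfix
    apply hhc
    calc h • c = h • (h • h • c) := by rw [hfix]
      _ = c := hh3c
  have hg12 : g • g • c ≠ g • c := fun hfix => hgc (smul_left_cancel g hfix)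
  have hh12 : h • h • c ≠ h • c := fun hfix => hhc (smul_left_cancel h hfix)
  -- first conjugator
  obtain ⟨x, hxc, hx1, hx2⟩ := trans3 G h3 c (g • c) (g • g • c) c (h • c) (h • h • c)
    (Ne.symm hgc) (Ne.symm hg2c) (Ne.symm hg12) (Ne.symm hhc) (Ne.symm hh2c) (Ne.symm hh12)
  have hxi0 : x⁻¹ • c = c := inv_smul_eq_iff.2 hxc.symm
  have hxi1 : x⁻¹ • (h • c) = g • c := inv_smul_eq_iff.2 hx1.symm
  have hxi2 : x⁻¹ • (h • h • c) = g • g • c := inv_smul_eq_iff.2 hx2.symm
  have hhi0 : h⁻¹ • c = h • h • c := inv_smul_eq_iff.2 hh3c.symm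
  have hxg : x * g * x⁻¹ = h := by
    have hu : x * g * x⁻¹ * h⁻¹ = 1 := by
      apply fix3 G hsharp _ c (h • c) (h • h • c) (Ne.symm hhc) (Ne.symm hh2c) (Ne.symm hh12)
      · simp only [mul_smul]
        rw [hhi0, hxi2, hg3c, hxc]
      · simp only [mul_smul]
        rw [inv_smul_smul, hxi0, hx1]
      · simp only [mul_smul]
        rw [inv_smul_smul, hxi1, hx2]
    exact mul_inv_eq_one.1 hu
  -- second conjugator
  obtain ⟨x', hxc', hx1', hx2'⟩ := trans3 G h3 c (g • c) (g • g • c) c (h • h • c) (h • c)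
    (Ne.symm hgc) (Ne.symm hg2c) (Ne.symm hg12) (Ne.symm hh2c) (Ne.symm hhc) hh12
  have hxi0' : x'⁻¹ • c = c := inv_smul_eq_iff.2 hxc'.symm
  have hxi1' : x'⁻¹ • (h • h • c) = g • c := inv_smul_eq_iff.2 hx1'.symm
  have hxi2' : x'⁻¹ • (h • c) = g • g • c := inv_smul_eq_iff.2 hx2'.symm
  have hxg' : x' * g * x'⁻¹ = h⁻¹ := by
    have hu : x' * g * x'⁻¹ * h = 1 := by
      apply fix3 G hsharp _ c (h • c) (h • h • c) (Ne.symm hhc) (Ne.symm hh2c) (Ne.symm hh12)
      · simp only [mul_smul]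
        rw [hxi2', hg3c, hxc']
      · simp only [mul_smul]
        rw [hxi1', hx2']
      · simp only [mul_smul]
        rw [hh3c, hxi0', hx1']
    exact mul_eq_one_iff_eq_inv.1 hu
  -- fixed points
  have f1 := conj_fix G x g h hxg a hga
  have f2 := conj_fix G x g h hxg b hgb
  have f1' : h • (x' • a) = x' • a := by
    have := conj_fix G x' g h⁻¹ hxg' a hga
    exact (inv_smul_eq_iff.1 this).symm
  have f2' : h • (x' • b) = x' • b := by
    have := conj_fix G x' g h⁻¹ hxg' b hgb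
    exact (inv_smul_eq_iff.1 this).symm
  rcases swap_or_fix G hsharp hab h x hh1 hha hhb f1 f2 with ⟨e1, e2⟩ | ⟨e1, e2⟩
  · left
    have hx1' : x = 1 := fix3 G hsharp x a b c hab hca.symm hcb.symm e1 e2 hxc
    rw [← hxg, hx1', one_mul, inv_one, mul_one]
  · rcases swap_or_fix G hsharp hab h x' hh1 hha hhb f1' f2' with ⟨e1', e2'⟩ | ⟨e1', e2'⟩
    · right
      have hx1'' : x' = 1 := fix3 G hsharp x' a b c hab hca.symm hcb.symm e1' e2' hxc'
      have e : g = h⁻¹ := by rw [← hxg', hx1'', one_mul, inv_one, mul_one]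
      rw [e, inv_inv]
    · exfalso
      have hy : x⁻¹ * x' = 1 := by
        apply fix3 G hsharp _ a b c hab hca.symm hcb.symm
        · rw [mul_smul, e1']; exact inv_smul_eq_iff.2 e1.symm
        · rw [mul_smul, e2']; exact inv_smul_eq_iff.2 e2.symm
        · rw [mul_smul, hxc', hxi0]
      have hxx : x' = x := (inv_mul_eq_one.1 hy).symm
      rw [hxx, hxg] at hxg'
      -- h = h⁻¹
      have h2 : h * h = 1 := by
        calc h * h = h * h⁻¹ := by rw [← hxg']
          _ = 1 := mul_inv_cancel h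
      apply hh1
      calc h = h * (h * h)⁻¹ := by rw [h2, inv_one, mul_one]
        _ = h ^ 3 * ((h * h)⁻¹ * (h * h)⁻¹) := by rw [pow_succ, pow_two]; group
        _ = 1 := by rw [hh3, h2]; simp

/-- In a sharply triply transitive group of even degree at least 6 (degree `q + 1`, `q` odd), a two-point stabiliser has at most one subgroup of order 3. -/
theorem result {α : Type*} [Fintype α] [DecidableEq α] (heven : Even (Fintype.card α)) (h6 : 6 ≤ Fintype.card α) (G : Subgroup (Equiv.Perm α)) (h3 : MulAction.IsMultiplyPretransitive G α 3) (hsharp : ∀ x : Fin 3 ↪ α, MulAction.stabilizer G x = ⊥) {a b : α} (hab : a ≠ b) (A B : Subgroup G) (hA : A ≤ MulAction.stabilizer G a ⊓ MulAction.stabilizer G b) (hB : B ≤ MulAction.stabilizer G a ⊓ MulAction.stabilizer G b) (hA3 : Nat.card A = 3) (hB3 : Nat.card B = 3) : A = B := by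
  classical
  obtain ⟨c, hca, hcb⟩ : ∃ c : α, c ≠ a ∧ c ≠ b := by
    by_contra hcon
    push Not at hcon
    have hle : Fintype.card α ≤ 2 := by
      have hsub : (Finset.univ : Finset α) ⊆ {a, b} := by
        intro c _
        by_cases h : c = a
        · simp [h]
        · simp [hcon c h]
      calc Fintype.card α = (Finset.univ : Finset α).card := Finset.card_univ.symm
        _ ≤ ({a, b} : Finset α).card := Finset.card_le_card hsub
        _ ≤ 2 := Finset.card_le_two
    omega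
  have hgen : ∀ (K : Subgroup G), Nat.card K = 3 → ∃ g : G, g ∈ K ∧ g ≠ 1 ∧ g ^ 3 = 1 := by
    intro K hK
    haveI : Nontrivial K := by
      rw [← Finite.one_lt_card_iff_nontrivial, hK]; norm_num
    obtain ⟨⟨g, hg⟩, hne⟩ := exists_ne (1 : K)
    refine ⟨g, hg, fun h => hne (Subtype.ext h), ?_⟩
    have h1 : (⟨g, hg⟩ : K) ^ Nat.card K = 1 := pow_card_eq_one'
    rw [hK] at h1
    have h2 : ((⟨g, hg⟩ : K) : G) ^ 3 = 1 := by rw [← Subgroup.coe_pow, h1, Subgroup.coe_one]
    exact h2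
  obtain ⟨g, hgA, hg1, hg3⟩ := hgen A hA3
  obtain ⟨h, hhB, hh1, hh3⟩ := hgen B hB3
  have hga : g • a = a := MulAction.mem_stabilizer_iff.1 (hA hgA).1
  have hgb : g • b = b := MulAction.mem_stabilizer_iff.1 (hA hgA).2
  have hha : h • a = a := MulAction.mem_stabilizer_iff.1 (hB hhB).1
  have hhb : h • b = b := MulAction.mem_stabilizer_iff.1 (hB hhB).2
  have hhA : h ∈ A := by
    rcases key G h3 hsharp hab hca hcb g h hg1 hh1 hg3 hh3 hga hgb hha hhb with e | e
    · rw [e]; exact hgA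
    · rw [e]; exact A.inv_mem hgA
  have hAB : Nat.card (A ⊓ B : Subgroup G) = 3 := by
    have hdvd : Nat.card (A ⊓ B : Subgroup G) ∣ 3 := by
      rw [← hB3]; exact Subgroup.card_dvd_of_le inf_le_right
    rcases (Nat.dvd_prime Nat.prime_three).1 hdvd with h1 | h3'
    · exfalso
      have hbot : (A ⊓ B : Subgroup G) = ⊥ := Subgroup.card_eq_one.1 h1
      have hmem : h ∈ (A ⊓ B : Subgroup G) := ⟨hhA, hhB⟩
      rw [hbot, Subgroup.mem_bot] at hmem
      exact hh1 hmem
    · exact h3'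
  have e1 : A ⊓ B = A := Subgroup.eq_of_le_of_card_ge inf_le_left (by rw [hAB, hA3])
  have e2 : A ⊓ B = B := Subgroup.eq_of_le_of_card_ge inf_le_right (by rw [hAB, hB3])
  exact e1.symm.trans e2

end Cfsg.Agent.S0728
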