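import Cfsg.Statements.S0733
import Mathlib

set_option autoImplicit false
open Cfsg

namespace Cfsg.Agent.S0733

open MulAction
open scoped Pointwise

/-- The affine permutation `x ↦ g x + b`. -/
def aff {p : ℕ} {V : Type*} [AddCommGroup V] [Module (ZMod p) V] (g : V ≃ₗ[ZMod p] V) (b : V) :
    Equiv.Perm V := g.toEquiv.trans (Equiv.addRight b)

theorem aff_apply {p : ℕ} {V : Type*} [AddCommGroup V] [Module (ZMod p) V] (g : V ≃ₗ[ZMod p] V)
    (b x : V) : aff g b x = g x + b := rfl

/-- A permutation group of affine type — generated by the translations of a finite vector space `V` over `ZMod p` together with a group `G₀` of linear automorphisms — is primitive on `V` if and only if `G₀` is irreducible on `V`. -/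
theorem result {p : ℕ} [Fact p.Prime] {V : Type*} [AddCommGroup V] [Module (ZMod p) V] [Finite V] [Nontrivial V] (G₀ : Subgroup (V ≃ₗ[ZMod p] V)) (G : Subgroup (Equiv.Perm V)) (hG : ∀ σ : Equiv.Perm V, σ ∈ G ↔ ∃ g ∈ G₀, ∃ b : V, ∀ x : V, σ x = (g : V ≃ₗ[ZMod p] V) x + b) : MulAction.IsPreprimitive G V ↔ ∀ W : Submodule (ZMod p) V, (∀ g ∈ G₀, ∀ v ∈ W, (g : V ≃ₗ[ZMod p] V) v ∈ W) → W = ⊥ ∨ W = ⊤ := by
  have haffG : ∀ g ∈ G₀, ∀ b : V, aff g b ∈ G := fun g hg b =>
    (hG _).2 ⟨g, hg, b, fun x => rfl⟩
  constructor
  · intro hprim W hW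
    have hB : IsBlock G (W : Set V) := by
      rw [isBlock_iff_smul_eq_of_mem]
      rintro ⟨σ, hσ⟩ x hx hσx
      obtain ⟨g, hg, b, hgb⟩ := (hG σ).1 hσ
      have hσx' : σ x ∈ W := hσx
      rw [hgb] at hσx'
      have hb : b ∈ W := by
        have := W.sub_mem hσx' (hW g hg x hx)
        simpa using this
      ext y
      constructor
      · rintro ⟨z, hz, rfl⟩
        show σ z ∈ W
        rw [hgb]
        exact W.add_mem (hW g hg z hz) hb
      · intro hy
        rw [Set.mem_smul_set_iff_inv_smul_mem]
        show σ⁻¹ y ∈ W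
        have h1 : σ⁻¹ y = (g⁻¹ : V ≃ₗ[ZMod p] V) (y - b) := by
          rw [Equiv.Perm.inv_eq_iff_eq, hgb]
          have h2 : g ((g⁻¹ : V ≃ₗ[ZMod p] V) (y - b)) = y - b := by
            show (g * g⁻¹) (y - b) = y - b
            rw [mul_inv_cancel]
            rfl
          rw [h2, sub_add_cancel]
        rw [h1]
        exact hW g⁻¹ (G₀.inv_mem hg) _ (W.sub_mem hy hb)
    rcases hprim.isTrivialBlock_of_isBlock hB with h | h
    · left
      rw [Submodule.eq_bot_iff]
      intro x hx
      exact h hx W.zero_mem
    · right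
      rw [Submodule.eq_top_iff']
      intro x
      have : x ∈ (W : Set V) := by rw [h]; trivial
      exact this
  · intro hirr
    have htrans : IsPretransitive G V := by
      refine ⟨fun x y => ⟨⟨aff 1 (y - x), haffG 1 G₀.one_mem _⟩, ?_⟩⟩
      show aff 1 (y - x) x = y
      rw [aff_apply]
      show x + (y - x) = y
      abel
    refine IsPreprimitive.mk ?_
    intro B hB
    by_cases hsub : B.Subsingleton
    · exact Or.inl hsub
    · right
      rw [Set.not_subsingleton_iff] at hsub
      obtain ⟨x₀, hx₀, x₁, hx₁, hx₀₁⟩ := hsub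
      have hadd : ∀ u v : V, u + x₀ ∈ B → v + x₀ ∈ B → u + v + x₀ ∈ B := by
        intro u v hu hv
        have h1 : (⟨aff 1 u, haffG 1 G₀.one_mem u⟩ : G) • B = B := by
          apply hB.smul_eq_of_mem hx₀
          show aff 1 u x₀ ∈ B
          rw [aff_apply]
          show x₀ + u ∈ B
          rw [add_comm]
          exact hu
        rw [← h1]
        refine ⟨v + x₀, hv, ?_⟩
        show aff 1 u (v + x₀) = u + v + x₀
        rw [aff_apply]
        show v + x₀ + u = u + v + x₀
        abel
      have hnsmul : ∀ (n : ℕ) (v : V), v + x₀ ∈ B → n • v + x₀ ∈ B := by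
        intro n v hv
        induction n with
        | zero => rw [zero_nsmul, zero_add]; exact hx₀
        | succ n ih =>
          rw [succ_nsmul]
          exact hadd _ _ ih hv
      let W : Submodule (ZMod p) V :=
        { carrier := {v | v + x₀ ∈ B}
          add_mem' := fun {u v} hu hv => hadd u v hu hv
          zero_mem' := by
            show (0 : V) + x₀ ∈ B
            rw [zero_add]
            exact hx₀
          smul_mem' := by
            intro c v hv
            show c • v + x₀ ∈ B
            have h1 : c • v = c.val • v := by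
              conv_lhs => rw [← ZMod.natCast_zmod_val c]
              rw [Nat.cast_smul_eq_nsmul]
            rw [h1]
            exact hnsmul _ v hv }
      have hWmem : ∀ v, v ∈ W ↔ v + x₀ ∈ B := fun v => Iff.rfl
      have hWinv : ∀ g ∈ G₀, ∀ v ∈ W, (g : V ≃ₗ[ZMod p] V) v ∈ W := by
        intro g hg v hv
        rw [hWmem] at hv ⊢
        have h1 : (⟨aff g (x₀ - g x₀), haffG g hg _⟩ : G) • B = B := by
          apply hB.smul_eq_of_mem hx₀
          show aff g (x₀ - g x₀) x₀ ∈ B
          rw [aff_apply, add_sub_cancel]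
          exact hx₀
        rw [← h1]
        refine ⟨v + x₀, hv, ?_⟩
        show aff g (x₀ - g x₀) (v + x₀) = g v + x₀
        rw [aff_apply, map_add]
        abel
      rcases hirr W hWinv with h | h
      · exfalso
        have h1 : x₁ - x₀ ∈ W := by
          rw [hWmem, sub_add_cancel]
          exact hx₁
        rw [h, Submodule.mem_bot, sub_eq_zero] at h1
        exact hx₀₁ h1.symm
      · rw [Set.eq_univ_iff_forall]
        intro x
        have h1 : x - x₀ ∈ W := by rw [h]; trivial
        rw [hWmem, sub_add_cancel] at h1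
        exact h1

end Cfsg.Agent.S0733
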