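import Cfsg.Statements.S0734
import Mathlib

set_option autoImplicit false
open Cfsg

namespace Cfsg.Agent.S0734

open MulAction
open scoped Pointwise

/-- The group acts by automorphisms of each orbital graph. -/
theorem reach_smul {G : Type*} [Group G] {Ω : Type*} [MulAction G Ω] (a b : Ω) (g : G) (x y : Ω)
    (h : (SimpleGraph.fromRel fun x y : Ω => ∃ g : G, g • a = x ∧ g • b = y).Reachable x y) :
    (SimpleGraph.fromRel fun x y : Ω => ∃ g : G, g • a = x ∧ g • b = y).Reachable (g • x) (g • y) := by
  let f : (SimpleGraph.fromRel fun x y : Ω => ∃ g : G, g • a = x ∧ g • b = y) →g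
      (SimpleGraph.fromRel fun x y : Ω => ∃ g : G, g • a = x ∧ g • b = y) :=
    { toFun := fun x => g • x
      map_rel' := by
        intro x y hxy
        rw [SimpleGraph.fromRel_adj] at hxy ⊢
        refine ⟨fun hh => hxy.1 (MulAction.injective g hh), ?_⟩
        rcases hxy.2 with ⟨g', h1, h2⟩ | ⟨g', h1, h2⟩
        · exact Or.inl ⟨g * g', by rw [mul_smul, h1], by rw [mul_smul, h2]⟩
        · exact Or.inr ⟨g * g', by rw [mul_smul, h1], by rw [mul_smul, h2]⟩ }
  exact h.map f

/-- Higman's criterion for primitivity: a transitive action on a finite set is primitive if and only if every non-trivial orbital graph (edges = images of a fixed pair of distinct points) is connected. -/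
theorem result {G : Type*} [Group G] {Ω : Type*} [Finite Ω] [MulAction G Ω] [MulAction.IsPretransitive G Ω] [Nontrivial Ω] : MulAction.IsPreprimitive G Ω ↔ ∀ a b : Ω, a ≠ b → (SimpleGraph.fromRel fun x y : Ω => ∃ g : G, g • a = x ∧ g • b = y).Connected := by
  constructor
  · intro hprim a b hab
    have hB : IsBlock G {x : Ω | (SimpleGraph.fromRel fun x y : Ω =>
        ∃ g : G, g • a = x ∧ g • b = y).Reachable a x} := by
      rw [isBlock_iff_smul_eq_of_mem]
      intro g x hx hgx
      have hx' : (SimpleGraph.fromRel fun x y : Ω =>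
        ∃ g : G, g • a = x ∧ g • b = y).Reachable a x := hx
      have hgx' : (SimpleGraph.fromRel fun x y : Ω =>
        ∃ g : G, g • a = x ∧ g • b = y).Reachable a (g • x) := hgx
      have h1 : (SimpleGraph.fromRel fun x y : Ω =>
          ∃ g : G, g • a = x ∧ g • b = y).Reachable a (g • a) :=
        hgx'.trans (reach_smul a b g a x hx').symm
      ext y
      constructor
      · rintro ⟨z, hz, rfl⟩
        exact h1.trans (reach_smul a b g a z hz)
      · intro hy
        rw [Set.mem_smul_set_iff_inv_smul_mem]
        have h2 := reach_smul a b g⁻¹ a (g • a) h1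
        rw [inv_smul_smul] at h2
        exact h2.symm.trans (reach_smul a b g⁻¹ a y hy)
    have hab' : (SimpleGraph.fromRel fun x y : Ω =>
        ∃ g : G, g • a = x ∧ g • b = y).Adj a b := by
      rw [SimpleGraph.fromRel_adj]
      exact ⟨hab, Or.inl ⟨1, one_smul _ _, one_smul _ _⟩⟩
    have htriv := hprim.isTrivialBlock_of_isBlock hB
    have huniv : {x : Ω | (SimpleGraph.fromRel fun x y : Ω =>
        ∃ g : G, g • a = x ∧ g • b = y).Reachable a x} = Set.univ := by
      rcases htriv with h | h
      · exfalso
        exact hab (h (SimpleGraph.Reachable.refl a) hab'.reachable)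
      · exact h
    rw [SimpleGraph.connected_iff]
    refine ⟨?_, ⟨a⟩⟩
    intro x y
    have hx : x ∈ {x : Ω | (SimpleGraph.fromRel fun x y : Ω =>
        ∃ g : G, g • a = x ∧ g • b = y).Reachable a x} := by rw [huniv]; trivial
    have hy : y ∈ {x : Ω | (SimpleGraph.fromRel fun x y : Ω =>
        ∃ g : G, g • a = x ∧ g • b = y).Reachable a x} := by rw [huniv]; trivial
    exact (SimpleGraph.Reachable.symm hx).trans hy
  · intro hconn
    refine IsPreprimitive.mk ?_
    intro B hB
    by_cases hsub : B.Subsingleton
    · exact Or.inl hsub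
    · right
      rw [Set.not_subsingleton_iff] at hsub
      obtain ⟨a, ha, b, hb, hab⟩ := hsub
      have hc := hconn a b hab
      have step : ∀ x y : Ω, (SimpleGraph.fromRel fun x y : Ω =>
          ∃ g : G, g • a = x ∧ g • b = y).Adj x y → x ∈ B → y ∈ B := by
        intro x y hxy hx
        rw [SimpleGraph.fromRel_adj] at hxy
        rcases hxy.2 with ⟨g, h1, h2⟩ | ⟨g, h1, h2⟩
        · have h3 : g • B = B := hB.smul_eq_of_mem ha (by rw [h1]; exact hx)
          rw [← h3, ← h2]
          exact Set.smul_mem_smul_set hb
        · have h3 : g • B = B := hB.smul_eq_of_mem hb (by rw [h2]; exact hx)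
          rw [← h3, ← h1]
          exact Set.smul_mem_smul_set ha
      have walk : ∀ x y : Ω, (SimpleGraph.fromRel fun x y : Ω =>
          ∃ g : G, g • a = x ∧ g • b = y).Walk x y → x ∈ B → y ∈ B := by
        intro x y w
        induction w with
        | nil => exact id
        | cons h p ih => exact fun hx => ih (step _ _ h hx)
      rw [Set.eq_univ_iff_forall]
      intro x
      obtain ⟨w⟩ := hc.preconnected a x
      exact walk a x w ha

end Cfsg.Agent.S0734
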