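import Cfsg.Statements.S0735
import Mathlib

set_option autoImplicit false
open Cfsg

namespace Cfsg.Agent.S0735

open MulAction
open scoped Pointwise

theorem pairs {α : Type*} [Fintype α] [DecidableEq α] (G : Subgroup (Equiv.Perm α))
    (h2 : MulAction.IsPretransitive G (Set.powersetCard α 2)) (a b c d : α) (hab : a ≠ b)
    (hcd : c ≠ d) : ∃ g : G, (g • a = c ∧ g • b = d) ∨ (g • a = d ∧ g • b = c) := by
  obtain ⟨g, hg⟩ := h2.exists_smul_eq
    (⟨{a, b}, Finset.card_pair hab⟩ : Set.powersetCard α 2) ⟨{c, d}, Finset.card_pair hcd⟩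
  have h := congrArg Subtype.val hg
  have h' : g • ({a, b} : Finset α) = {c, d} := h
  refine ⟨g, ?_⟩
  have ha : g • a ∈ ({c, d} : Finset α) := by
    rw [← h']
    exact Finset.smul_mem_smul_finset (by simp)
  have hb : g • b ∈ ({c, d} : Finset α) := by
    rw [← h']
    exact Finset.smul_mem_smul_finset (by simp)
  have hne : g • a ≠ g • b := fun hh => hab (MulAction.injective g hh)
  rw [Finset.mem_insert, Finset.mem_singleton] at ha hb
  rcases ha with ha | ha <;> rcases hb with hb | hb
  · exact absurd (ha.trans hb.symm) hne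
  · exact Or.inl ⟨ha, hb⟩
  · exact Or.inr ⟨ha, hb⟩
  · exact absurd (ha.trans hb.symm) hne

/-- A 2-homogeneous permutation group (transitive on 2-subsets) of even order is doubly transitive; a non-trivial 2-homogeneous group is primitive. -/
theorem result {α : Type*} [Fintype α] [DecidableEq α] (G : Subgroup (Equiv.Perm α)) (h2 : MulAction.IsPretransitive G (Set.powersetCard α 2)) (hα : 3 ≤ Fintype.card α) : (Even (Nat.card G) → MulAction.IsMultiplyPretransitive G α 2) ∧ (G ≠ ⊥ → MulAction.IsPreprimitive G α) := by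
  classical
  constructor
  · intro heven
    have hfact : Fact (Nat.Prime 2) := ⟨Nat.prime_two⟩
    obtain ⟨t, ht⟩ := exists_prime_orderOf_dvd_card' (G := G) 2 (even_iff_two_dvd.1 heven)
    have ht1 : t ≠ 1 := by
      intro h
      rw [h, orderOf_one] at ht
      omega
    have ht2 : t * t = 1 := by
      rw [← pow_two, ← ht, pow_orderOf_eq_one]
    obtain ⟨a, ha⟩ : ∃ a : α, t • a ≠ a := by
      by_contra h
      push Not at h
      apply ht1
      apply Subtype.ext
      ext x
      exact h x
    have hta : t • (t • a) = a := by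
      rw [← mul_smul, ht2, one_smul]
    -- from (a, t a) to any pair
    have key : ∀ c d : α, c ≠ d → ∃ g : G, g • a = c ∧ g • (t • a) = d := by
      intro c d hcd
      obtain ⟨g, hg | hg⟩ := pairs G h2 a (t • a) c d (Ne.symm ha) hcd
      · exact ⟨g, hg⟩
      · refine ⟨g * t, ?_, ?_⟩
        · rw [mul_smul]
          exact hg.2
        · rw [mul_smul, hta]
          exact hg.1
    rw [is_two_pretransitive_iff]
    intro a' b' c d hab' hcd
    obtain ⟨g₁, hg₁a, hg₁b⟩ := key a' b' hab'
    obtain ⟨g₂, hg₂a, hg₂b⟩ := key c d hcd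
    refine ⟨g₂ * g₁⁻¹, ?_, ?_⟩
    · rw [mul_smul, ← hg₁a, inv_smul_smul, hg₂a]
    · rw [mul_smul, ← hg₁b, inv_smul_smul, hg₂b]
  · intro _
    have htrans : IsPretransitive G α := by
      refine ⟨fun a b => ?_⟩
      by_cases hab : a = b
      · exact ⟨1, by rw [one_smul, hab]⟩
      · obtain ⟨c, hc⟩ : ∃ c, c ∉ ({a, b} : Finset α) := by
          by_contra h
          push Not at h
          have h1 : ({a, b} : Finset α) = Finset.univ := Finset.eq_univ_iff_forall.2 h
          have h3 := Finset.card_pair hab
          rw [h1, Finset.card_univ] at h3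
          omega
        rw [Finset.mem_insert, Finset.mem_singleton, not_or] at hc
        obtain ⟨g, hg | hg⟩ := pairs G h2 a c b c (Ne.symm hc.1) (Ne.symm hc.2)
        · exact ⟨g, hg.1⟩
        · refine ⟨g * g, ?_⟩
          rw [mul_smul, hg.1, hg.2]
    refine IsPreprimitive.mk ?_
    intro B hB
    by_cases hsub : B.Subsingleton
    · exact Or.inl hsub
    · right
      rw [Set.not_subsingleton_iff] at hsub
      obtain ⟨a, ha, b, hb, hab⟩ := hsub
      rw [Set.eq_univ_iff_forall]
      intro c
      by_cases hca : c = a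
      · rw [hca]
        exact ha
      · obtain ⟨g, hg | hg⟩ := pairs G h2 a b a c hab (Ne.symm hca)
        · have h1 : g • B = B := hB.smul_eq_of_mem ha (by rw [hg.1]; exact ha)
          rw [← h1, ← hg.2]
          exact Set.smul_mem_smul_set hb
        · have h1 : g • B = B := hB.smul_eq_of_mem hb (by rw [hg.2]; exact ha)
          rw [← h1, ← hg.1]
          exact Set.smul_mem_smul_set ha

end Cfsg.Agent.S0735
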