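import Cfsg.Statements.S0736
import Mathlib

set_option autoImplicit false
open Cfsg

namespace Cfsg.Agent.S0736

open scoped Pointwise

/-- no carries when adding `k` and `q - 1` in base `p`, for `q = p ^ v` dividing `k` -/
theorem no_carry {p v k : ℕ} (hp : p.Prime) (hk : p ^ v ∣ k) :
    ¬ p ∣ (k + p ^ v - 1).choose k := by
  obtain ⟨q, hq⟩ : ∃ q, q = p ^ v := ⟨_, rfl⟩
  rw [← hq] at hk ⊢
  have hq1 : 1 ≤ q := by rw [hq]; exact Nat.one_le_pow _ _ hp.pos
  have key : ∀ A B r : ℕ, A + r ≤ B → 1 ≤ r → A + (r - 1) < B := by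
    intro A B r h1 h2; omega
  have hfac := Nat.factorization_choose' (p := p) (n := q - 1) (k := k)
    (b := Nat.log p (q - 1 + k) + 1) hp (Nat.lt_succ_self _)
  have hempty : (Finset.filter (fun i => p ^ i ≤ k % p ^ i + (q - 1) % p ^ i)
      (Finset.Ico 1 (Nat.log p (q - 1 + k) + 1))) = ∅ := by
    apply Finset.filter_eq_empty_iff.mpr
    intro i hi
    rw [Finset.mem_Ico] at hi
    rw [not_le]
    have hpi : 0 < p ^ i := pow_pos hp.pos i
    rcases le_or_gt i v with hiv | hiv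
    · have h1 : p ^ i ∣ k := dvd_trans (by rw [hq]; exact pow_dvd_pow p hiv) hk
      rw [Nat.mod_eq_zero_of_dvd h1, zero_add]
      exact Nat.mod_lt _ hpi
    · have hqi : q ∣ p ^ i := by rw [hq]; exact pow_dvd_pow p hiv.le
      have h1 : q ∣ k % p ^ i := (Nat.dvd_mod_iff hqi).mpr hk
      have h2 : k % p ^ i < p ^ i := Nat.mod_lt _ hpi
      obtain ⟨c, hc⟩ := h1
      obtain ⟨d, hd⟩ := hqi
      have hcd : c < d := by
        by_contra hcon
        rw [not_lt] at hcon
        have : q * d ≤ q * c := Nat.mul_le_mul_left q hcon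
        rw [← hc, ← hd] at this
        omega
      have h3 : q * c + q ≤ q * d := by
        calc q * c + q = q * (c + 1) := by ring
          _ ≤ q * d := Nat.mul_le_mul_left q hcd
      have h5 : q ≤ q * d := Nat.le_mul_of_pos_right q (by omega)
      have h4 : q - 1 < p ^ i := by rw [hd]; omega
      rw [Nat.mod_eq_of_lt h4, hc, hd]
      exact key _ _ _ h3 hq1
  rw [hempty, Finset.card_empty] at hfac
  have hne : (q - 1 + k).choose k ≠ 0 := (Nat.choose_pos (by omega)).ne'
  have h5 : k + q - 1 = q - 1 + k := by omega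
  rw [h5]
  intro hdvd
  have := hp.factorization_pos_of_dvd hne hdvd
  omega

/-- the number of sets of size `|Γ| + 1` between `Γ` and `S` -/
theorem card_above {α : Type*} [DecidableEq α] (Γ S : Finset α) (h : Γ ⊆ S) :
    ((Finset.powersetCard (Γ.card + 1) S).filter (fun Δ => Γ ⊆ Δ)).card = (S \ Γ).card := by
  have himg : (Finset.powersetCard (Γ.card + 1) S).filter (fun Δ => Γ ⊆ Δ)
      = (S \ Γ).image (fun y => insert y Γ) := by
    ext Δ
    simp only [Finset.mem_filter, Finset.mem_powersetCard, Finset.mem_image, Finset.mem_sdiff]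
    constructor
    · rintro ⟨⟨hΔS, hc⟩, hΓΔ⟩
      have h1 : (Δ \ Γ).card = 1 := by
        rw [Finset.card_sdiff_of_subset hΓΔ, hc]; omega
      obtain ⟨y, hy⟩ := Finset.card_eq_one.mp h1
      have hyΔ : y ∈ Δ \ Γ := by rw [hy]; exact Finset.mem_singleton_self y
      rw [Finset.mem_sdiff] at hyΔ
      refine ⟨y, ⟨hΔS hyΔ.1, hyΔ.2⟩, ?_⟩
      ext z
      constructor
      · intro hz
        rcases Finset.mem_insert.mp hz with rfl | hz
        · exact hyΔ.1
        · exact hΓΔ hz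
      · intro hz
        by_cases hzΓ : z ∈ Γ
        · exact Finset.mem_insert_of_mem hzΓ
        · have : z ∈ Δ \ Γ := Finset.mem_sdiff.mpr ⟨hz, hzΓ⟩
          rw [hy, Finset.mem_singleton] at this
          rw [this]; exact Finset.mem_insert_self _ _
    · rintro ⟨y, ⟨hyS, hyΓ⟩, rfl⟩
      exact ⟨⟨Finset.insert_subset hyS h, Finset.card_insert_of_notMem hyΓ⟩,
        Finset.subset_insert _ _⟩
  rw [himg, Finset.card_image_of_injOn]
  intro y hy y' hy' hyy'
  simp only [Finset.coe_sdiff, Set.mem_sdiff, Finset.mem_coe] at hy hy'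
  have hmem : y ∈ insert y' Γ := by
    have : y ∈ insert y Γ := Finset.mem_insert_self _ _
    rw [show insert y Γ = insert y' Γ from hyy'] at this
    exact this
  rcases Finset.mem_insert.mp hmem with h | h
  · exact h
  · exact absurd h hy.2

/-- A `k`-homogeneous permutation group of degree `n`, `k ≥ 2`, with `k + q - 1 ≤ n` for every prime power `q` dividing `k`, is `(k-1)`-homogeneous. -/
theorem result {α : Type*} [Fintype α] [DecidableEq α] (G : Subgroup (Equiv.Perm α)) {k : ℕ} (hk : 2 ≤ k) (hG : MulAction.IsPretransitive G (Set.powersetCard α k)) (hq : ∀ q : ℕ, IsPrimePow q → q ∣ k → k + q - 1 ≤ Fintype.card α) : MulAction.IsPretransitive G (Set.powersetCard α (k - 1)) := by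
  classical
  have htr : ∀ s t : Finset α, s.card = k → t.card = k → ∃ g : G, g • s = t := by
    intro s t hs ht
    obtain ⟨g, hg⟩ := MulAction.exists_smul_eq G
      (⟨s, hs⟩ : Set.powersetCard α k) (⟨t, ht⟩ : Set.powersetCard α k)
    refine ⟨g, ?_⟩
    have h1 : ((g • (⟨s, hs⟩ : Set.powersetCard α k) : Set.powersetCard α k) : Finset α) = t :=
      congrArg (fun z : Set.powersetCard α k => (z : Finset α)) hg
    have q1 := Set.powersetCard.coe_smul (g := g) (s := (⟨s, hs⟩ : Set.powersetCard α k))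
    exact q1.symm.trans h1
  refine ⟨fun x y => ?_⟩
  obtain ⟨O, hO⟩ : ∃ O : Finset α → Prop,
      O = fun Γ => ∃ g : G, g • (x : Finset α) = Γ := ⟨_, rfl⟩
  have hOinv : ∀ (g : G) (Γ : Finset α), O (g • Γ) ↔ O Γ := by
    intro g Γ
    subst hO
    constructor
    · rintro ⟨h, hh⟩
      exact ⟨g⁻¹ * h, by rw [mul_smul, hh, inv_smul_smul]⟩
    · rintro ⟨h, hh⟩
      exact ⟨g * h, by rw [mul_smul, hh]⟩
  obtain ⟨a, ha⟩ : ∃ a : Finset α → ℕ,
      a = fun Δ => ((Finset.powersetCard (k - 1) Δ).filter O).card := ⟨_, rfl⟩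
  have ha_inv : ∀ (g : G) (Δ : Finset α), a (g • Δ) = a Δ := by
    intro g Δ
    subst ha
    symm
    apply Finset.card_bij (fun Γ _ => g • Γ)
    · intro Γ hΓ
      simp only [Finset.mem_filter, Finset.mem_powersetCard] at hΓ ⊢
      exact ⟨⟨Finset.smul_finset_subset_smul_finset hΓ.1.1,
        by rw [Finset.card_smul_finset]; exact hΓ.1.2⟩, (hOinv g Γ).mpr hΓ.2⟩
    · intro Γ₁ _ Γ₂ _ h
      exact (MulAction.injective g) h
    · intro Γ' hΓ'
      simp only [Finset.mem_filter, Finset.mem_powersetCard] at hΓ'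
      refine ⟨g⁻¹ • Γ', ?_, smul_inv_smul g Γ'⟩
      simp only [Finset.mem_filter, Finset.mem_powersetCard]
      refine ⟨⟨?_, by rw [Finset.card_smul_finset]; exact hΓ'.1.2⟩, (hOinv g⁻¹ Γ').mpr hΓ'.2⟩
      have := Finset.smul_finset_subset_smul_finset (a := g⁻¹) hΓ'.1.1
      rwa [inv_smul_smul] at this
  have hconst : ∀ Δ₁ Δ₂ : Finset α, Δ₁.card = k → Δ₂.card = k → a Δ₁ = a Δ₂ := by
    intro Δ₁ Δ₂ h1 h2
    obtain ⟨g, hg⟩ := htr Δ₁ Δ₂ h1 h2
    rw [← hg, ha_inv]
  have hn : k + 1 ≤ Fintype.card α := by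
    obtain ⟨p, hp, hpk⟩ := Nat.exists_prime_and_dvd (show k ≠ 1 by omega)
    have h1 := hq p hp.isPrimePow hpk
    have h2 := hp.two_le
    omega
  have hext : ∀ Γ : Finset α, Γ.card = k - 1 → ∃ Δ : Finset α, Γ ⊆ Δ ∧ Δ.card = k := by
    intro Γ hΓ
    obtain ⟨y0, hy0⟩ : ∃ y0, y0 ∉ Γ := by
      by_contra hcon
      push Not at hcon
      have : Γ = Finset.univ := Finset.eq_univ_iff_forall.mpr hcon
      rw [this, Finset.card_univ] at hΓ
      omega
    refine ⟨insert y0 Γ, Finset.subset_insert _ _, ?_⟩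
    rw [Finset.card_insert_of_notMem hy0, hΓ]; omega
  have hxc : (x : Finset α).card = k - 1 := x.prop
  have hyc : (y : Finset α).card = k - 1 := y.prop
  obtain ⟨Δ0, hxΔ0, hΔ0c⟩ := hext _ hxc
  have ha0 : 1 ≤ a Δ0 := by
    subst ha
    apply Finset.card_pos.mpr
    refine ⟨(x : Finset α), ?_⟩
    simp only [Finset.mem_filter, Finset.mem_powersetCard]
    exact ⟨⟨hxΔ0, hxc⟩, by subst hO; exact ⟨1, one_smul _ _⟩⟩
  have hdiv : ∀ p : ℕ, p.Prime → p ∣ k → p ^ (k.factorization p) ∣ a Δ0 := by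
    intro p hp hpk
    obtain ⟨v, hv⟩ : ∃ v, v = k.factorization p := ⟨_, rfl⟩
    rw [← hv]
    have hv1 : 0 < v := by rw [hv]; exact hp.factorization_pos_of_dvd (by omega) hpk
    have hqk : p ^ v ∣ k := by rw [hv]; exact Nat.ordProj_dvd k p
    have hqpp : IsPrimePow (p ^ v) := ⟨p, v, hp.prime, hv1, rfl⟩
    have hle := hq _ hqpp hqk
    have hq1 : 1 ≤ p ^ v := Nat.one_le_pow _ _ hp.pos
    obtain ⟨S, hS⟩ : ∃ S : Finset α, S.card = k + p ^ v - 1 := by
      obtain ⟨S, -, hS⟩ := Finset.exists_subset_card_eq (s := (Finset.univ : Finset α))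
        (n := k + p ^ v - 1) (by rw [Finset.card_univ]; exact hle)
      exact ⟨S, hS⟩
    have hdc := Finset.sum_card_bipartiteAbove_eq_sum_card_bipartiteBelow
      (s := Finset.powersetCard k S) (t := (Finset.powersetCard (k - 1) S).filter O)
      (r := fun Δ Γ => Γ ⊆ Δ)
    have hL : ∀ Δ ∈ Finset.powersetCard k S,
        (Finset.bipartiteAbove (fun Δ Γ => Γ ⊆ Δ)
          ((Finset.powersetCard (k - 1) S).filter O) Δ).card = a Δ0 := by
      intro Δ hΔ
      rw [Finset.mem_powersetCard] at hΔ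
      rw [← hconst Δ Δ0 hΔ.2 hΔ0c]
      subst ha
      congr 1
      ext Γ
      simp only [Finset.mem_bipartiteAbove, Finset.mem_filter, Finset.mem_powersetCard]
      constructor
      · rintro ⟨⟨⟨_, h2⟩, h3⟩, h4⟩
        exact ⟨⟨h4, h2⟩, h3⟩
      · rintro ⟨⟨h1, h2⟩, h3⟩
        exact ⟨⟨⟨h1.trans hΔ.1, h2⟩, h3⟩, h1⟩
    have hR : ∀ Γ ∈ (Finset.powersetCard (k - 1) S).filter O,
        (Finset.bipartiteBelow (fun Δ Γ => Γ ⊆ Δ) (Finset.powersetCard k S) Γ).card
          = p ^ v := by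
      intro Γ hΓ
      simp only [Finset.mem_filter, Finset.mem_powersetCard] at hΓ
      have h1 := card_above Γ S hΓ.1.1
      have hk' : Γ.card + 1 = k := by rw [hΓ.1.2]; omega
      rw [hk'] at h1
      show ((Finset.powersetCard k S).filter (fun Δ => Γ ⊆ Δ)).card = p ^ v
      rw [h1, Finset.card_sdiff_of_subset hΓ.1.1, hS, hΓ.1.2]
      omega
    rw [Finset.sum_congr rfl hL, Finset.sum_congr rfl hR] at hdc
    simp only [Finset.sum_const, smul_eq_mul, Finset.card_powersetCard] at hdc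
    have hcop : Nat.Coprime (p ^ v) ((k + p ^ v - 1).choose k) :=
      Nat.Coprime.pow_left _ ((Nat.Prime.coprime_iff_not_dvd hp).mpr (no_carry hp hqk))
    have h2 : p ^ v ∣ (k + p ^ v - 1).choose k * a Δ0 := by
      rw [← hS, hdc]
      exact Dvd.intro_left _ rfl
    exact hcop.dvd_of_dvd_mul_left h2
  have hka : k ∣ a Δ0 := by
    rw [Nat.dvd_iff_prime_pow_dvd_dvd]
    intro p j hp hpj
    rcases Nat.eq_zero_or_pos j with rfl | hj
    · simp
    have hpk : p ∣ k := dvd_trans (dvd_pow_self p hj.ne') hpj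
    have hjle : j ≤ k.factorization p := (hp.pow_dvd_iff_le_factorization (by omega)).mp hpj
    exact dvd_trans (pow_dvd_pow p hjle) (hdiv p hp hpk)
  have hchoose : k.choose (k - 1) = k :=
    (Nat.choose_symm (show 1 ≤ k by omega)).trans (Nat.choose_one_right k)
  have hak : k ≤ a Δ0 := Nat.le_of_dvd ha0 hka
  -- every (k-1)-subset of every k-set lies in the orbit
  have hall : ∀ Δ Γ : Finset α, Δ.card = k → Γ ⊆ Δ → Γ.card = k - 1 → O Γ := by
    intro Δ Γ hΔ hΓΔ hΓ
    have h1 : a Δ = a Δ0 := hconst Δ Δ0 hΔ hΔ0c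
    have h2 : ((Finset.powersetCard (k - 1) Δ).filter O).card
        = (Finset.powersetCard (k - 1) Δ).card := by
      apply le_antisymm (Finset.card_filter_le _ _)
      rw [Finset.card_powersetCard, hΔ, hchoose]
      have : a Δ = ((Finset.powersetCard (k - 1) Δ).filter O).card := by rw [ha]
      rw [← this, h1]
      exact hak
    have h3 := (Finset.card_filter_eq_iff.mp h2) Γ
      (Finset.mem_powersetCard.mpr ⟨hΓΔ, hΓ⟩)
    exact h3
  obtain ⟨Δ1, hyΔ1, hΔ1c⟩ := hext _ hyc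
  have hOy : O (y : Finset α) := hall Δ1 _ hΔ1c hyΔ1 hyc
  rw [hO] at hOy
  obtain ⟨g, hg⟩ := hOy
  refine ⟨g, ?_⟩
  apply Subtype.ext
  exact (Set.powersetCard.coe_smul (g := g) (s := x)).trans hg

end Cfsg.Agent.S0736
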