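import Cfsg.Statements.S0738
import Mathlib
import Cfsg.Agent.S0144

set_option autoImplicit false
open Cfsg

namespace Cfsg.Agent.S0738

/-- A subgroup acting freely on an invariant set has order dividing the size of the set. -/
theorem card_dvd_of_free {G Ω : Type*} [Group G] [MulAction G Ω] (H : Subgroup G) (X : Set Ω)
    (hinv : ∀ h ∈ H, ∀ x ∈ X, h • x ∈ X)
    (hfree : ∀ h ∈ H, ∀ x ∈ X, h • x = x → h = 1) : Nat.card H ∣ X.ncard := by
  let Y : SubMulAction H Ω :=
    { carrier := X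
      smul_mem' := fun h x hx => hinv h.1 h.2 x hx }
  have hst : ∀ y : Y, MulAction.stabilizer H y = ⊥ := by
    intro y
    rw [eq_bot_iff]
    intro h hh
    rw [MulAction.mem_stabilizer_iff] at hh
    have h1 : (h : G) • (y : Ω) = y := congrArg Subtype.val hh
    rw [Subgroup.mem_bot]
    exact Subtype.ext (hfree h.1 h.2 y.1 y.2 h1)
  have e := MulAction.selfEquivOrbitsQuotientProd hst
  have h2 : Nat.card Y = Nat.card (Quotient (MulAction.orbitRel H Y)) * Nat.card H := by
    rw [Nat.card_congr e, Nat.card_prod]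
  have h3 : Nat.card Y = X.ncard := Nat.card_coe_set_eq X
  rw [← h3, h2]
  exact Dvd.intro_left _ rfl

theorem two_primes (n : ℕ) (hn : n ≠ 0) (h : n.primeFactors.card ≤ 2) :
    ∃ p q a b : ℕ, p.Prime ∧ q.Prime ∧ n = p ^ a * q ^ b := by
  have hfac := Nat.prod_factorization_pow_eq_self hn
  rw [Finsupp.prod, Nat.support_factorization] at hfac
  have h3 : n.primeFactors.card = 0 ∨ n.primeFactors.card = 1 ∨ n.primeFactors.card = 2 := by
    omega
  rcases h3 with h0 | h1 | h2
  · rw [Finset.card_eq_zero] at h0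
    rw [h0, Finset.prod_empty] at hfac
    exact ⟨2, 2, 0, 0, Nat.prime_two, Nat.prime_two, by rw [← hfac]; rfl⟩
  · obtain ⟨p, hp⟩ := Finset.card_eq_one.1 h1
    rw [hp, Finset.prod_singleton] at hfac
    have hpp : p.Prime := Nat.prime_of_mem_primeFactors (by rw [hp]; exact Finset.mem_singleton_self p)
    exact ⟨p, 2, n.factorization p, 0, hpp, Nat.prime_two, by rw [pow_zero, mul_one, hfac]⟩
  · obtain ⟨p, q, hpq, hp⟩ := Finset.card_eq_two.1 h2
    rw [hp, Finset.prod_pair hpq] at hfac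
    have hpp : p.Prime := Nat.prime_of_mem_primeFactors (by rw [hp]; simp)
    have hqp : q.Prime := Nat.prime_of_mem_primeFactors (by rw [hp]; simp)
    exact ⟨p, q, n.factorization p, n.factorization q, hpp, hqp, hfac.symm⟩

/-- Let a finite Zassenhaus group of degree `n + 1` have two-point stabilisers of order `d` with `2d ≥ n - 1`. Then a normal subgroup of a point stabiliser acting regularly on the remaining points is elementary abelian, and the degree is a prime power plus one. -/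
theorem result {G Ω : Type*} [Group G] [Finite G] [MulAction G Ω] [Fintype Ω] (hZ : Cfsg.IsZassenhausGroup G Ω) {a b : Ω} (hab : a ≠ b) (hd : Fintype.card Ω - 2 ≤ 2 * Nat.card ↥(MulAction.stabilizer G a ⊓ MulAction.stabilizer G b)) (F : Subgroup G) (hFle : F ≤ MulAction.stabilizer G a) (hFn : (F.subgroupOf (MulAction.stabilizer G a)).Normal) (hreg : ∀ y z : Ω, y ≠ a → z ≠ a → ∃! u : F, (u : G) • y = z) : IsMulCommutative F ∧ ∃ p f : ℕ, p.Prime ∧ (∀ u ∈ F, u ^ p = 1) ∧ Fintype.card Ω = p ^ f + 1 := by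
  classical
  obtain ⟨-, -, h3, -, -⟩ := hZ
  set H : Subgroup G := MulAction.stabilizer G a ⊓ MulAction.stabilizer G b with hH
  have hdpos : 0 < Nat.card H := Nat.card_pos
  have := Fintype.ofFinite H
  have hFa : ∀ u ∈ F, u • a = a := fun u hu => hFle hu
  have hHa : ∀ h ∈ H, h • a = a := fun h hh => hh.1
  have hHb : ∀ h ∈ H, h • b = b := fun h hh => hh.2
  have hconj : ∀ h ∈ MulAction.stabilizer G a, ∀ u ∈ F, h * u * h⁻¹ ∈ F := by
    intro h hh u hu
    have h1 := hFn.conj_mem ⟨u, hFle hu⟩ (Subgroup.mem_subgroupOf.2 hu) ⟨h, hh⟩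
    exact Subgroup.mem_subgroupOf.1 h1
  have hconjH : ∀ h ∈ H, ∀ u ∈ F, h * u * h⁻¹ ∈ F := fun h hh => hconj h hh.1
  have hba : b ≠ a := Ne.symm hab
  have hFb : ∀ u ∈ F, u • b ≠ a := by
    intro u hu h
    rw [← hFa u hu] at h
    exact hba (MulAction.injective u h)
  have hinj : ∀ u ∈ F, ∀ v ∈ F, u • b = v • b → u = v := by
    intro u hu v hv huv
    obtain ⟨w, -, hw⟩ := hreg b (u • b) hba (hFb u hu)
    have h1 := hw ⟨u, hu⟩ rfl
    have h2 := hw ⟨v, hv⟩ huv.symm
    exact congrArg Subtype.val (h1.trans h2.symm)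
  have hFb1 : ∀ u ∈ F, u ≠ 1 → u • b ≠ b := by
    intro u hu hu1 h
    exact hu1 (hinj u hu 1 F.one_mem (by rw [h, one_smul]))
  have hsmul : ∀ h ∈ H, ∀ u : G, h • u • b = (h * u * h⁻¹) • b := by
    intro h hh u
    rw [mul_smul, mul_smul, inv_smul_eq_iff.2 (hHb h hh).symm]
  -- free conjugation action
  have hfree : ∀ h ∈ H, ∀ u ∈ F, u ≠ 1 → h * u * h⁻¹ = u → h = 1 := by
    intro h hh u hu hu1 hc
    have h1 : h • u • b = u • b := by rw [hsmul h hh, hc]
    exact h3 h a b (u • b) hab (Ne.symm (hFb1 u hu hu1)) (Ne.symm (hFb u hu)) (hHa h hh)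
      (hHb h hh) h1
  -- cardinality of F
  have hcardF : Nat.card F + 1 = Fintype.card Ω := by
    have hbij : Function.Bijective (fun u : F => (⟨(u : G) • b, hFb u.1 u.2⟩ : {x : Ω // x ≠ a})) := by
      constructor
      · intro u v huv
        exact Subtype.ext (hinj u.1 u.2 v.1 v.2 (congrArg Subtype.val huv))
      · rintro ⟨z, hz⟩
        obtain ⟨w, hw, -⟩ := hreg b z hba hz
        exact ⟨w, Subtype.ext hw⟩
    rw [Nat.card_congr (Equiv.ofBijective _ hbij), Nat.card_eq_fintype_card]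
    have h1 : Fintype.card {x : Ω // x ≠ a} = Fintype.card Ω - 1 := by simp
    have h2 : 0 < Fintype.card Ω := Fintype.card_pos_iff.2 ⟨a⟩
    omega
  have hd' : Nat.card F - 1 ≤ 2 * Nat.card H := by
    have : Nat.card F - 1 = Fintype.card Ω - 2 := by omega
    rw [this]
    exact hd
  -- invariant subgroups
  have hstar : ∀ N : Subgroup G, N ≤ F → (∀ h ∈ H, ∀ u ∈ N, h * u * h⁻¹ ∈ N) →
      N = ⊥ ∨ N = F := by
    intro N hNF hNinv
    by_contra hcon
    push Not at hcon
    obtain ⟨hN1, hN2⟩ := hcon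
    have hinjOn : Set.InjOn (fun u : G => u • b) (F : Set G) := fun u hu v hv huv => hinj u hu v hv huv
    have hNinv' : ∀ h ∈ H, ∀ u ∈ F, u ∉ N → h * u * h⁻¹ ∉ N := by
      intro h hh u hu huN hc
      have h1 := hNinv h⁻¹ (H.inv_mem hh) _ hc
      have h2 : h⁻¹ * (h * u * h⁻¹) * h⁻¹⁻¹ = u := by group
      rw [h2] at h1
      exact huN h1
    have hX1 := card_dvd_of_free H ((fun u : G => u • b) '' ((N : Set G) \ {1})) (by
        rintro h hh _ ⟨u, ⟨huN, hu1⟩, rfl⟩
        refine ⟨h * u * h⁻¹, ⟨hNinv h hh u huN, ?_⟩, (hsmul h hh u).symm⟩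
        intro hc
        rw [Set.mem_singleton_iff] at hc hu1
        apply hu1
        have h5 : u = h⁻¹ * (h * u * h⁻¹) * h := by group
        rw [h5, hc]
        group) (by
        rintro h hh _ ⟨u, ⟨huN, hu1⟩, rfl⟩ hfix
        rw [Set.mem_singleton_iff] at hu1
        have huF : u ∈ F := hNF huN
        exact h3 h a b (u • b) hab (Ne.symm (hFb1 u huF hu1)) (Ne.symm (hFb u huF)) (hHa h hh)
          (hHb h hh) hfix)
    have hX2 := card_dvd_of_free H ((fun u : G => u • b) '' ((F : Set G) \ (N : Set G))) (by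
        rintro h hh _ ⟨u, ⟨huF, huN⟩, rfl⟩
        exact ⟨h * u * h⁻¹, ⟨hconjH h hh u huF, hNinv' h hh u huF huN⟩, (hsmul h hh u).symm⟩) (by
        rintro h hh _ ⟨u, ⟨huF, huN⟩, rfl⟩ hfix
        have hu1 : u ≠ 1 := by
          rintro rfl
          exact huN N.one_mem
        exact h3 h a b (u • b) hab (Ne.symm (hFb1 u huF hu1)) (Ne.symm (hFb u huF)) (hHa h hh)
          (hHb h hh) hfix)
    rw [Set.InjOn.ncard_image (hinjOn.mono (Set.sdiff_subset.trans hNF)),
      Set.ncard_sdiff_singleton_of_mem N.one_mem, ← Nat.card_coe_set_eq] at hX1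
    rw [Set.InjOn.ncard_image (hinjOn.mono Set.sdiff_subset),
      Set.ncard_sdiff hNF (Set.toFinite _), ← Nat.card_coe_set_eq, ← Nat.card_coe_set_eq] at hX2
    have hNcard : 1 < Nat.card N := by
      rw [Subgroup.one_lt_card_iff_ne_bot]
      exact hN1
    have hNF' : Nat.card N < Nat.card F := by
      have h1 : Nat.card N ∣ Nat.card F := Subgroup.card_dvd_of_le hNF
      have h2 : Nat.card N ≤ Nat.card F := Nat.le_of_dvd Nat.card_pos h1
      rcases Nat.lt_or_ge (Nat.card N) (Nat.card F) with h | h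
      · exact h
      · exact absurd (Subgroup.eq_of_le_of_card_ge hNF h) hN2
    have h6 : Nat.card H ≤ Nat.card N - 1 := Nat.le_of_dvd (by omega) hX1
    have h7 : Nat.card H ≤ Nat.card F - Nat.card N := Nat.le_of_dvd (by omega) hX2
    have hdvd : Nat.card N ∣ Nat.card F := Subgroup.card_dvd_of_le hNF
    have h8 : Nat.card N = Nat.card H + 1 := by omega
    have h9 : Nat.card F = 2 * Nat.card H + 1 := by omega
    rw [h8, h9] at hdvd
    have h10 : Nat.card H + 1 ∣ 1 := by
      have h11 : Nat.card H + 1 ∣ 2 * (Nat.card H + 1) := Dvd.intro_left _ rfl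
      have h12 := Nat.dvd_sub h11 hdvd
      have h13 : 2 * (Nat.card H + 1) - (2 * Nat.card H + 1) = 1 := by omega
      rw [h13] at h12
      exact h12
    have := Nat.le_of_dvd Nat.one_pos h10
    omega
  -- at most two element orders
  have hthree : ∀ u₁ ∈ F, ∀ u₂ ∈ F, ∀ u₃ ∈ F, u₁ ≠ 1 → u₂ ≠ 1 → u₃ ≠ 1 →
      orderOf u₁ ≠ orderOf u₂ → orderOf u₁ ≠ orderOf u₃ → orderOf u₂ ≠ orderOf u₃ → False := by
    intro u₁ hu₁ u₂ hu₂ u₃ hu₃ h1 h2 h3' h12 h13 h23
    let us : Fin 3 → G := ![u₁, u₂, u₃]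
    have husF : ∀ i, us i ∈ F := by
      intro i
      fin_cases i
      · exact hu₁
      · exact hu₂
      · exact hu₃
    have hus1 : ∀ i, us i ≠ 1 := by
      intro i
      fin_cases i
      · exact h1
      · exact h2
      · exact h3'
    have husord : ∀ i j, orderOf (us i) = orderOf (us j) → i = j := by
      intro i j hij
      fin_cases i <;> fin_cases j <;> first | rfl | (exfalso; simp [us] at hij; first | exact h12 hij | exact h13 hij | exact h23 hij | exact h12 hij.symm | exact h13 hij.symm | exact h23 hij.symm)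
    have hordconj : ∀ (h u : G), orderOf (h * u * h⁻¹) = orderOf u := by
      intro h u
      exact orderOf_injective (MulAut.conj h).toMonoidHom (MulAut.conj h).injective u
    have hfinj : Function.Injective (fun x : H × Fin 3 =>
        (⟨((x.1 : G) * us x.2 * (x.1 : G)⁻¹) • b,
          ⟨hFb _ (hconjH x.1.1 x.1.2 _ (husF x.2)), hFb1 _ (hconjH x.1.1 x.1.2 _ (husF x.2)) (by
            intro hc
            apply hus1 x.2
            have h5 : us x.2 = (x.1 : G)⁻¹ * ((x.1 : G) * us x.2 * (x.1 : G)⁻¹) * (x.1 : G) := by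
              group
            rw [h5, hc]
            group)⟩⟩ : {y : Ω // y ≠ a ∧ y ≠ b})) := by
      rintro ⟨h, i⟩ ⟨h', j⟩ hxy
      have h5 : ((h : G) * us i * (h : G)⁻¹) • b = ((h' : G) * us j * (h' : G)⁻¹) • b :=
        congrArg Subtype.val hxy
      have h6 := hinj _ (hconjH h.1 h.2 _ (husF i)) _ (hconjH h'.1 h'.2 _ (husF j)) h5
      have h7 : i = j := by
        apply husord
        rw [← hordconj (h : G) (us i), ← hordconj (h' : G) (us j), h6]
      subst h7
      have h8 : ((h' : G)⁻¹ * (h : G)) * us i * ((h' : G)⁻¹ * (h : G))⁻¹ = us i := by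
        have h9 : ((h' : G)⁻¹ * (h : G)) * us i * ((h' : G)⁻¹ * (h : G))⁻¹ =
            (h' : G)⁻¹ * ((h : G) * us i * (h : G)⁻¹) * (h' : G) := by group
        rw [h9, h6]
        group
      have h10 := hfree _ (H.mul_mem (H.inv_mem h'.2) h.2) _ (husF i) (hus1 i) h8
      have h11 : (h : G) = h' := by
        have := inv_mul_eq_one.1 h10
        exact this.symm
      exact Prod.ext (Subtype.ext h11) rfl
    have hcard := Fintype.card_le_of_injective _ hfinj
    have hc2 : Fintype.card {x : Ω // x ≠ a ∧ x ≠ b} = Fintype.card Ω - 2 := by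
      rw [Fintype.card_subtype]
      have h5 : (Finset.univ.filter (fun x : Ω => x ≠ a ∧ x ≠ b)) = (Finset.univ.erase a).erase b := by
        ext x; simp; tauto
      rw [h5, Finset.card_erase_of_mem (by simp [hab.symm]), Finset.card_erase_of_mem (by simp)]
      simp
      omega
    rw [hc2, Fintype.card_prod, Fintype.card_fin, ← Nat.card_eq_fintype_card] at hcard
    omega
  -- the trivial case
  by_cases hF1 : F = ⊥
  · refine ⟨⟨⟨fun x y => ?_⟩⟩, 2, 0, Nat.prime_two, ?_, ?_⟩
    · have hx : x = 1 := Subtype.ext ((Subgroup.eq_bot_iff_forall F).1 hF1 x.1 x.2)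
      have hy : y = 1 := Subtype.ext ((Subgroup.eq_bot_iff_forall F).1 hF1 y.1 y.2)
      rw [hx, hy]
    · intro u hu
      rw [hF1, Subgroup.mem_bot] at hu
      rw [hu, one_pow]
    · rw [← hcardF, hF1, Subgroup.card_bot]
      rfl
  -- commutator subgroup
  have hcomle : ⁅F, F⁆ ≤ F := by
    rw [Subgroup.commutator_le]
    intro g₁ hg₁ g₂ hg₂
    exact F.mul_mem (F.mul_mem (F.mul_mem hg₁ hg₂) (F.inv_mem hg₁)) (F.inv_mem hg₂)
  have hmapF : ∀ h ∈ H, F.map (MulAut.conj h).toMonoidHom = F := by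
    intro h hh
    apply le_antisymm
    · rintro _ ⟨u, hu, rfl⟩
      exact hconjH h hh u hu
    · intro u hu
      refine ⟨h⁻¹ * u * h, ?_, ?_⟩
      · have := hconjH h⁻¹ (H.inv_mem hh) u hu
        rwa [inv_inv] at this
      · show h * (h⁻¹ * u * h) * h⁻¹ = u
        group
  have hcominv : ∀ h ∈ H, ∀ u ∈ ⁅F, F⁆, h * u * h⁻¹ ∈ ⁅F, F⁆ := by
    intro h hh u hu
    have h1 : (MulAut.conj h).toMonoidHom u ∈ (⁅F, F⁆).map (MulAut.conj h).toMonoidHom :=
      Subgroup.mem_map_of_mem _ hu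
    rw [Subgroup.map_commutator, hmapF h hh] at h1
    exact h1
  have hFnt : Nontrivial F := (Subgroup.nontrivial_iff_ne_bot F).2 hF1
  rcases hstar _ hcomle hcominv with hcom | hcom
  swap
  · -- perfect: impossible by Burnside's two-prime theorem
    exfalso
    have hprimes : (Nat.card F).primeFactors.card ≤ 2 := by
      by_contra hcon
      push Not at hcon
      obtain ⟨p₁, p₂, p₃, hp₁, hp₂, hp₃, h12, h13, h23⟩ := Finset.two_lt_card_iff.1 hcon
      have hel : ∀ p ∈ (Nat.card F).primeFactors, ∃ u ∈ F, u ≠ 1 ∧ orderOf u = p := by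
        intro p hp
        have hpp := Nat.prime_of_mem_primeFactors hp
        have : Fact p.Prime := ⟨hpp⟩
        obtain ⟨x, hx⟩ := exists_prime_orderOf_dvd_card' p (Nat.dvd_of_mem_primeFactors hp)
        refine ⟨x.1, x.2, ?_, ?_⟩
        · intro h
          have h5 : orderOf (x : G) = p := by rw [Subgroup.orderOf_coe, hx]
          rw [h, orderOf_one] at h5
          exact hpp.one_lt.ne h5
        · rw [Subgroup.orderOf_coe, hx]
      obtain ⟨u₁, hu₁, hu₁1, ho₁⟩ := hel p₁ hp₁
      obtain ⟨u₂, hu₂, hu₂1, ho₂⟩ := hel p₂ hp₂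
      obtain ⟨u₃, hu₃, hu₃1, ho₃⟩ := hel p₃ hp₃
      exact hthree u₁ hu₁ u₂ hu₂ u₃ hu₃ hu₁1 hu₂1 hu₃1 (by rw [ho₁, ho₂]; exact h12)
        (by rw [ho₁, ho₃]; exact h13) (by rw [ho₂, ho₃]; exact h23)
    obtain ⟨p, q, e₁, e₂, hp, hq, hn⟩ := two_primes (Nat.card F) Nat.card_pos.ne' hprimes
    have : Group.IsSolvable F := S0144.result p q e₁ e₂ hp hq hn
    have hlt := Group.IsSolvable.commutator_lt_top_of_nontrivial F
    have h5 : (commutator F).map F.subtype = ⁅F, F⁆ := by
      rw [commutator_def, Subgroup.map_commutator, ← MonoidHom.range_eq_map, Subgroup.range_subtype]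
    rw [hcom] at h5
    have h6 : (commutator F).map F.subtype = (⊤ : Subgroup F).map F.subtype := by
      rw [h5, ← MonoidHom.range_eq_map, Subgroup.range_subtype]
    exact hlt.ne (Subgroup.map_injective F.subtype_injective h6)
  -- abelian
  have hab' : ∀ x ∈ F, ∀ y ∈ F, x * y = y * x := by
    intro x hx y hy
    have h1 := Subgroup.commutator_mem_commutator (H₁ := F) (H₂ := F) hx hy
    rw [hcom, Subgroup.mem_bot] at h1
    exact commutatorElement_eq_one_iff_mul_comm.1 h1
  refine ⟨⟨⟨fun x y => Subtype.ext (hab' x.1 x.2 y.1 y.2)⟩⟩, ?_⟩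
  have hcardne : Nat.card F ≠ 1 := by
    intro h
    exact hF1 ((Subgroup.card_eq_one).1 h)
  obtain ⟨p, hp, hpd⟩ := Nat.exists_prime_and_dvd hcardne
  have : Fact p.Prime := ⟨hp⟩
  let N : Subgroup G :=
    { carrier := {u | u ∈ F ∧ u ^ p = 1}
      mul_mem' := by
        rintro x y ⟨hx, hxp⟩ ⟨hy, hyp⟩
        refine ⟨F.mul_mem hx hy, ?_⟩
        rw [(show Commute x y from hab' x hx y hy).mul_pow, hxp, hyp, one_mul]
      one_mem' := ⟨F.one_mem, one_pow _⟩
      inv_mem' := by
        rintro x ⟨hx, hxp⟩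
        exact ⟨F.inv_mem hx, by rw [inv_pow, hxp, inv_one]⟩ }
  have hNF : N ≤ F := fun u hu => hu.1
  have hNinv : ∀ h ∈ H, ∀ u ∈ N, h * u * h⁻¹ ∈ N := by
    rintro h hh u ⟨hu, hup⟩
    exact ⟨hconjH h hh u hu, by rw [conj_pow, hup, mul_one, mul_inv_cancel]⟩
  have hNne : N ≠ ⊥ := by
    obtain ⟨x, hx⟩ := exists_prime_orderOf_dvd_card' p hpd
    have hxo : orderOf (x : G) = p := by rw [Subgroup.orderOf_coe, hx]
    intro h
    have hxN : (x : G) ∈ N := ⟨x.2, by rw [← hxo, pow_orderOf_eq_one]⟩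
    rw [h, Subgroup.mem_bot] at hxN
    rw [hxN, orderOf_one] at hxo
    exact hp.one_lt.ne hxo
  have hNeq : N = F := (hstar N hNF hNinv).resolve_left hNne
  have hexp : ∀ u ∈ F, u ^ p = 1 := by
    intro u hu
    have : u ∈ N := by rw [hNeq]; exact hu
    exact this.2
  have hpg : IsPGroup p F := by
    intro x
    refine ⟨1, ?_⟩
    apply Subtype.ext
    simpa using hexp x.1 x.2
  obtain ⟨f, hf⟩ := IsPGroup.iff_card.1 hpg
  exact ⟨p, f, hp, hexp, by rw [← hcardF, hf]⟩

end Cfsg.Agent.S0738
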