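import Cfsg.Statements.S0741
import Mathlib
import Cfsg.Agent.S0740

set_option autoImplicit false
open Cfsg

namespace Cfsg.Agent.S0741

/-- If the two-point stabilisers of a finite Zassenhaus group of degree `n + 1` have even order `d`, then `2d ≥ n - 1`. -/
theorem result {G Ω : Type*} [Group G] [Finite G] [MulAction G Ω] [Fintype Ω] (hZ : Cfsg.IsZassenhausGroup G Ω) {a b : Ω} (hab : a ≠ b) (heven : Even (Nat.card ↥(MulAction.stabilizer G a ⊓ MulAction.stabilizer G b))) : Fintype.card Ω - 2 ≤ 2 * Nat.card ↥(MulAction.stabilizer G a ⊓ MulAction.stabilizer G b) := by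
  classical
  obtain ⟨hfaith, h2t, h3, -, -⟩ := hZ
  have : Fact (Nat.Prime 2) := ⟨Nat.prime_two⟩
  rw [MulAction.is_two_pretransitive_iff] at h2t
  have := Fintype.ofFinite G
  obtain ⟨z, hz⟩ := exists_prime_orderOf_dvd_card' 2 (even_iff_two_dvd.1 heven)
  have hz2 : orderOf (z : G) = 2 := by rw [Subgroup.orderOf_coe, hz]
  have hza : (z : G) • a = a := z.2.1
  have hzb : (z : G) • b = b := z.2.2
  have hz1 : (z : G) ≠ 1 := by
    intro h
    rw [h, orderOf_one] at hz2
    omega
  have hzsq : (z : G) ^ 2 = 1 := by rw [← hz2, pow_orderOf_eq_one]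
  have hex : ∀ c e : Ω, c ≠ e → ∃ s : G, s ≠ 1 ∧ s ^ 2 = 1 ∧ s • c = c ∧ s • e = e := by
    intro c e hce
    obtain ⟨g, hga, hgb⟩ := h2t hab hce
    refine ⟨g * z * g⁻¹, ?_, ?_, ?_, ?_⟩
    · intro h
      apply hz1
      have h5 : (z : G) = g⁻¹ * (g * z * g⁻¹) * g := by group
      rw [h5, h]
      group
    · have h5 : (g * (z : G) * g⁻¹) ^ 2 = g * ((z : G) ^ 2) * g⁻¹ := by
        rw [pow_two, pow_two]; group
      rw [h5, hzsq]
      group
    · rw [mul_smul, mul_smul, ← hga, inv_smul_smul, hza]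
    · rw [mul_smul, mul_smul, ← hgb, inv_smul_smul, hzb]
  choose! zf hzf using hex
  let Hf : Ω → Finset G := fun b' => Finset.univ.filter (fun h : G => h • a = a ∧ h • b' = b')
  have hHf : ∀ b' (h : G), h ∈ Hf b' ↔ h • a = a ∧ h • b' = b' := by
    intro b' h
    simp [Hf]
  have hd : Nat.card ↥(MulAction.stabilizer G a ⊓ MulAction.stabilizer G b) = (Hf b).card := by
    rw [Nat.card_eq_fintype_card, ← Fintype.card_coe]
    apply Fintype.card_congr
    exact Equiv.subtypeEquivRight (by
      intro x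
      rw [hHf, Subgroup.mem_inf, MulAction.mem_stabilizer_iff, MulAction.mem_stabilizer_iff])
  have hdle : ∀ b', b' ≠ a → (Hf b').card ≤ (Hf b).card := by
    intro b' hb'
    obtain ⟨g, hga, hgb⟩ := h2t hab (Ne.symm hb')
    apply Finset.card_le_card_of_injOn (fun h => g⁻¹ * h * g)
    · intro h hh
      have hh' := (hHf b' h).1 hh
      apply (hHf b _).2
      constructor
      · rw [mul_smul, mul_smul, hga, hh'.1, inv_smul_eq_iff, hga]
      · rw [mul_smul, mul_smul, hgb, hh'.2, inv_smul_eq_iff, hgb]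
    · intro h₁ _ h₂ _ h12
      simpa using h12
  let S := (Finset.univ : Finset Ω).erase a
  let T := Finset.univ.filter (fun s : G => s ≠ 1 ∧ s ^ 2 = 1 ∧ s • a ≠ a)
  have hT : ∀ s : G, s ∈ T ↔ s ≠ 1 ∧ s ^ 2 = 1 ∧ s • a ≠ a := by
    intro s
    simp [T]
  have hSmem : ∀ x : Ω, x ∈ S ↔ x ≠ a := by
    intro x
    simp [S]
  have hS : S.card = Fintype.card Ω - 1 := by
    simp [S]
  have hup : T.card ≤ (Hf b).card * S.card := by
    have h1 := Finset.card_le_mul_card_image (f := fun s : G => s • a) T (Hf b).card (by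
      intro b' hb'
      obtain ⟨s₀, hs₀, hs₀b⟩ := Finset.mem_image.1 hb'
      have hs₀' := (hT s₀).1 hs₀
      have hb'a : b' ≠ a := by
        rw [← hs₀b]
        exact hs₀'.2.2
      have hs₀b' : s₀ • b' = a := by
        rw [← hs₀b, smul_smul, ← pow_two, hs₀'.2.1, one_smul]
      refine le_trans ?_ (hdle b' hb'a)
      apply Finset.card_le_card_of_injOn (fun s => s₀⁻¹ * s)
      · intro s hs
        have hs' := Finset.mem_filter.1 hs
        have hsT := (hT s).1 hs'.1
        have hsa : s • a = b' := hs'.2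
        have hsb : s • b' = a := by
          rw [← hsa, smul_smul, ← pow_two, hsT.2.1, one_smul]
        apply (hHf b' _).2
        constructor
        · rw [mul_smul, hsa, inv_smul_eq_iff, hs₀b]
        · rw [mul_smul, hsb, inv_smul_eq_iff, hs₀b']
      · intro s₁ _ s₂ _ h12
        simpa using h12)
    calc T.card ≤ (Hf b).card * (T.image (fun s : G => s • a)).card := h1
      _ ≤ (Hf b).card * S.card := Nat.mul_le_mul_left _ (Finset.card_le_card (by
          intro x hx
          obtain ⟨s, hs, rfl⟩ := Finset.mem_image.1 hx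
          exact (hSmem _).2 ((hT s).1 hs).2.2))
  have hlow : S.offDiag.card ≤ 2 * T.card := by
    have h1 := Finset.card_le_mul_card_image (f := fun p : Ω × Ω => zf p.1 p.2) S.offDiag 2 (by
      intro s hs
      obtain ⟨⟨c, e⟩, hce, rfl⟩ := Finset.mem_image.1 hs
      rw [Finset.mem_offDiag] at hce
      obtain ⟨hs1, hssq, hsc, hse⟩ := hzf c e hce.2.2
      have hF := S0740.card_fix_le h3 (zf c e) hs1
      have hsub : ({c, e} : Finset Ω) ⊆ Finset.univ.filter (fun x : Ω => zf c e • x = x) := by
        intro x hx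
        rw [Finset.mem_insert, Finset.mem_singleton] at hx
        rw [Finset.mem_filter]
        rcases hx with rfl | rfl
        · exact ⟨Finset.mem_univ _, hsc⟩
        · exact ⟨Finset.mem_univ _, hse⟩
      have hFeq : ({c, e} : Finset Ω) = Finset.univ.filter (fun x : Ω => zf c e • x = x) :=
        Finset.eq_of_subset_of_card_le hsub (by rw [Finset.card_pair hce.2.2]; exact hF)
      refine le_trans (Finset.card_le_card
        (?_ : _ ⊆ ({(c, e), (e, c)} : Finset (Ω × Ω)))) Finset.card_le_two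
      rintro ⟨c', e'⟩ hp
      rw [Finset.mem_filter, Finset.mem_offDiag] at hp
      obtain ⟨⟨-, -, hce'⟩, hp2⟩ := hp
      simp only at hp2 hce'
      obtain ⟨-, -, hsc', hse'⟩ := hzf c' e' hce'
      rw [hp2] at hsc' hse'
      have hc' : c' ∈ ({c, e} : Finset Ω) := by
        rw [hFeq, Finset.mem_filter]
        exact ⟨Finset.mem_univ _, hsc'⟩
      have he' : e' ∈ ({c, e} : Finset Ω) := by
        rw [hFeq, Finset.mem_filter]
        exact ⟨Finset.mem_univ _, hse'⟩
      rw [Finset.mem_insert, Finset.mem_singleton] at hc' he'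
      rw [Finset.mem_insert, Finset.mem_singleton]
      rcases hc' with rfl | rfl <;> rcases he' with rfl | rfl
      · exact absurd rfl hce'
      · exact Or.inl rfl
      · exact Or.inr rfl
      · exact absurd rfl hce')
    calc S.offDiag.card ≤ 2 * (S.offDiag.image (fun p : Ω × Ω => zf p.1 p.2)).card := h1
      _ ≤ 2 * T.card := Nat.mul_le_mul_left _ (Finset.card_le_card (by
          intro s hs
          obtain ⟨⟨c, e⟩, hce, rfl⟩ := Finset.mem_image.1 hs
          rw [Finset.mem_offDiag] at hce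
          obtain ⟨hs1, hssq, hsc, hse⟩ := hzf c e hce.2.2
          apply (hT _).2
          refine ⟨hs1, hssq, fun hsa => hs1 ?_⟩
          exact h3 _ a c e (Ne.symm ((hSmem c).1 hce.1)) hce.2.2 (Ne.symm ((hSmem e).1 hce.2.1))
            hsa hsc hse))
  have hoff : S.offDiag.card = S.card * S.card - S.card := Finset.offDiag_card S
  have hSpos : 0 < S.card := Finset.card_pos.2 ⟨b, (hSmem b).2 (Ne.symm hab)⟩
  rw [hd]
  have h7 : S.card * (S.card - 1) ≤ S.card * (2 * (Hf b).card) := by
    have h8 : S.card * (S.card - 1) = S.card * S.card - S.card := by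
      rw [Nat.mul_sub_one]
    rw [h8, ← hoff]
    calc S.offDiag.card ≤ 2 * T.card := hlow
      _ ≤ 2 * ((Hf b).card * S.card) := Nat.mul_le_mul_left _ hup
      _ = S.card * (2 * (Hf b).card) := by ring
  have h9 := Nat.le_of_mul_le_mul_left h7 hSpos
  omega

end Cfsg.Agent.S0741
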