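import Cfsg.Statements.S0743
import Mathlib
import Cfsg.Agent.Lib.Helper5.Jordan

set_option autoImplicit false
open Cfsg

namespace Cfsg.Agent.S0743

open Cfsg.Agent.Lib.Helper5.Jordan Equiv

/-- Gleason's counting: the orbit of `y'` under the pointwise stabiliser of `Δ` has size
congruent to 1 or 0 modulo `p` according as it contains `y` or not, when some `p`-subgroup has
fixed point set exactly `Δ ∪ {y}`. -/
theorem gleason_count {α : Type*} [Fintype α] [DecidableEq α] (G : Subgroup (Perm α)) {p : ℕ}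
    [Fact p.Prime] (Δ : Finset α) (y y' : α) (hy' : y' ∉ Δ)
    (P : Subgroup G) (hP : IsPGroup p P)
    (hfix : MulAction.fixedPoints P α = ((insert y Δ : Finset α) : Set α)) :
    (y ∈ {x : α | ∃ g ∈ G, (∀ u ∈ Δ, g u = u) ∧ g y' = x} →
      Nat.card {x : α | ∃ g ∈ G, (∀ u ∈ Δ, g u = u) ∧ g y' = x} % p = 1 % p) ∧
    (y ∉ {x : α | ∃ g ∈ G, (∀ u ∈ Δ, g u = u) ∧ g y' = x} →
      Nat.card {x : α | ∃ g ∈ G, (∀ u ∈ Δ, g u = u) ∧ g y' = x} % p = 0) := by
  classical
  have hPfix : ∀ h : P, ∀ u ∈ insert y Δ, (h.1.1 : Perm α) u = u := by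
    intro h u hu
    have h1 : u ∈ MulAction.fixedPoints P α := by
      rw [hfix]
      exact hu
    exact (MulAction.mem_fixedPoints.1 h1) h
  let Y : SubMulAction P α :=
    { carrier := {x : α | ∃ g ∈ G, (∀ u ∈ Δ, g u = u) ∧ g y' = x}
      smul_mem' := by
        rintro h x ⟨g, hg, hgΔ, rfl⟩
        refine ⟨h.1.1 * g, G.mul_mem h.1.2 hg, ?_, rfl⟩
        intro u hu
        rw [Perm.mul_apply, hgΔ u hu]
        exact hPfix h u (Finset.mem_insert_of_mem hu) }
  have hYΔ : ∀ x : Y, (x : α) ∉ Δ := by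
    rintro ⟨x, g, hg, hgΔ, rfl⟩ hx
    have h1 := hgΔ _ hx
    have h2 : y' = g y' := g.injective h1.symm
    exact hy' (h2 ▸ hx)
  have hmod := hP.card_modEq_card_fixedPoints Y
  have hfp : ∀ x : Y, x ∈ MulAction.fixedPoints P Y ↔ (x : α) = y := by
    intro x
    constructor
    · intro hx
      have h1 : (x : α) ∈ MulAction.fixedPoints P α := by
        rw [MulAction.mem_fixedPoints]
        intro h
        exact congrArg Subtype.val (MulAction.mem_fixedPoints.1 hx h)
      rw [hfix] at h1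
      have h2 : (x : α) ∈ insert y Δ := h1
      rw [Finset.mem_insert] at h2
      exact h2.resolve_right (hYΔ x)
    · intro hx
      rw [MulAction.mem_fixedPoints]
      intro h
      apply Subtype.ext
      show (h.1.1 : Perm α) (x : α) = x
      rw [hx]
      exact hPfix h y (Finset.mem_insert_self y Δ)
  constructor
  · intro hy
    have h1 : Nat.card (MulAction.fixedPoints P Y) = 1 := by
      rw [Nat.card_eq_one_iff_unique]
      refine ⟨⟨fun u v => ?_⟩, ⟨⟨⟨y, hy⟩, (hfp _).2 rfl⟩⟩⟩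
      apply Subtype.ext
      apply Subtype.ext
      rw [(hfp u.1).1 u.2, (hfp v.1).1 v.2]
    rw [h1] at hmod
    exact hmod
  · intro hy
    have h1 : Nat.card (MulAction.fixedPoints P Y) = 0 := by
      rw [Nat.card_eq_zero]
      left
      refine ⟨fun u => hy ?_⟩
      have h2 := (hfp u.1).1 u.2
      rw [← h2]
      exact u.1.2
    rw [h1] at hmod
    exact hmod

/-- Gleason's Lemma: let `p` be a prime and `1 ≤ k < n`; if every `k`-subset of the `n` points is exactly the fixed-point set of some `p`-subgroup of `G`, then `G` is `k`-transitive. -/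
theorem result {α : Type*} [Fintype α] [DecidableEq α] (G : Subgroup (Equiv.Perm α)) {p k : ℕ} (hp : p.Prime) (hk : 1 ≤ k) (hkn : k < Fintype.card α) (h : ∀ s : Finset α, s.card = k → ∃ P : Subgroup G, IsPGroup p P ∧ MulAction.fixedPoints P α = (s : Set α)) : MulAction.IsMultiplyPretransitive G α k := by
  classical
  have : Fact p.Prime := ⟨hp⟩
  have hE : E G ∅ k := by
    intro U _ hc b₀ b₁ _ hb₀ _ hb₁
    have hcard2 : ({b₀, b₁} : Finset α).card ≤ 2 := Finset.card_le_two
    obtain ⟨Δ, hUΔ, hΔsub, hΔcard⟩ := Finset.exists_subsuperset_card_eq (s := U)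
      (t := Finset.univ \ {b₀, b₁}) (n := k - 1) (by
        intro u hu
        rw [Finset.mem_sdiff]
        refine ⟨Finset.mem_univ _, ?_⟩
        rw [Finset.mem_insert, Finset.mem_singleton]
        rintro (rfl | rfl)
        · exact hb₀ hu
        · exact hb₁ hu) (by omega) (by
        have h1 := Finset.card_sdiff_add_card_inter (Finset.univ : Finset α) {b₀, b₁}
        have h2 : ((Finset.univ : Finset α) ∩ {b₀, b₁}).card ≤ 2 :=
          le_trans (Finset.card_le_card Finset.inter_subset_right) hcard2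
        rw [Finset.card_univ] at h1
        omega)
    have hbΔ : ∀ b, b = b₀ ∨ b = b₁ → b ∉ Δ := by
      intro b hb hbΔ
      have h1 := hΔsub hbΔ
      rw [Finset.mem_sdiff, Finset.mem_insert, Finset.mem_singleton] at h1
      exact h1.2 hb
    have key : ∀ y y', y ∉ Δ → y' ∉ Δ →
        y ∈ {x : α | ∃ g ∈ G, (∀ u ∈ Δ, g u = u) ∧ g y' = x} := by
      intro y y' hy hy'
      obtain ⟨P, hP, hfix⟩ := h (insert y Δ) (by
        rw [Finset.card_insert_of_notMem hy, hΔcard]
        omega)
      obtain ⟨P', hP', hfix'⟩ := h (insert y' Δ) (by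
        rw [Finset.card_insert_of_notMem hy', hΔcard]
        omega)
      have h1 := (gleason_count G Δ y' y' hy' P' hP' hfix').1 ⟨1, G.one_mem, fun u _ => rfl, rfl⟩
      by_contra hcon
      have h2 := (gleason_count G Δ y y' hy' P hP hfix).2 hcon
      rw [h2] at h1
      have h3 : 1 % p = 1 := Nat.mod_eq_of_lt hp.one_lt
      omega
    obtain ⟨g, hg, hgΔ, hgb⟩ := key b₁ b₀ (hbΔ b₁ (Or.inr rfl)) (hbΔ b₀ (Or.inl rfl))
    exact ⟨g, hg, fun u hu => hgΔ u (hUΔ hu), hgb⟩
  rw [MulAction.isMultiplyPretransitive_iff]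
  intro x y
  obtain ⟨g, hg, hgx⟩ := hE.tuple k le_rfl x y x.injective y.injective
  refine ⟨⟨g, hg⟩, ?_⟩
  ext i
  exact hgx i

end Cfsg.Agent.S0743
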