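import Cfsg.Statements.S0744
import Mathlib
import Cfsg.Agent.Lib.Helper5.Jordan

set_option autoImplicit false
open Cfsg

namespace Cfsg.Agent.S0744

open Cfsg.Agent.Lib.Helper5.Jordan Equiv

theorem card_stab_fixing {G₀ Ω : Type*} [Group G₀] [MulAction G₀ Ω] (s : Set Ω) (x : Ω) :
    Nat.card (MulAction.stabilizer (fixingSubgroup G₀ s) x) =
      Nat.card (fixingSubgroup G₀ (insert x s)) := by
  apply Nat.card_congr
  exact {
    toFun := fun h => ⟨h.1.1, (mem_fixingSubgroup_iff G₀).2 (by
      intro z hz
      rcases hz with rfl | hz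
      · exact h.2
      · exact (mem_fixingSubgroup_iff G₀).1 h.1.2 z hz)⟩
    invFun := fun g => ⟨⟨g.1, (mem_fixingSubgroup_iff G₀).2 (fun z hz =>
      (mem_fixingSubgroup_iff G₀).1 g.2 z (Set.mem_insert_of_mem x hz))⟩,
      (mem_fixingSubgroup_iff G₀).1 g.2 x (Set.mem_insert x s)⟩
    left_inv := fun h => rfl
    right_inv := fun g => rfl }

/-- Class equation when all stabilisers have the same order. -/
theorem card_dvd_of_stab {H X : Type*} [Group H] [MulAction H X] [Finite H] [Finite X] (m : ℕ)
    (hm : ∀ x : X, Nat.card (MulAction.stabilizer H x) = m) : Nat.card H ∣ Nat.card X * m := by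
  classical
  have := Fintype.ofFinite (MulAction.orbitRel.Quotient H X)
  rw [Nat.card_congr (MulAction.selfEquivSigmaOrbitsQuotientStabilizer H X), Nat.card_sigma,
    Finset.sum_mul]
  apply Finset.dvd_sum
  intro ω _
  have h1 := Subgroup.card_mul_index (MulAction.stabilizer H (Quotient.out ω))
  rw [hm] at h1
  show Nat.card H ∣ (MulAction.stabilizer H (Quotient.out ω)).index * m
  rw [mul_comm, h1]

theorem card_dvd_of_stab_set {H Ω : Type*} [Group H] [MulAction H Ω] [Finite H] [Finite Ω]
    (T : Set Ω) (hinv : ∀ h : H, ∀ x ∈ T, h • x ∈ T) (m : ℕ)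
    (hm : ∀ x ∈ T, Nat.card (MulAction.stabilizer H x) = m) : Nat.card H ∣ T.ncard * m := by
  let Y : SubMulAction H Ω :=
    { carrier := T
      smul_mem' := fun h x hx => hinv h x hx }
  have h1 := card_dvd_of_stab (H := H) (X := Y) m (by
    intro y
    rw [SubMulAction.stabilizer_of_subMul]
    exact hm y.1 y.2)
  have h3 : Nat.card Y = T.ncard := Nat.card_coe_set_eq T
  rw [h3] at h1
  exact h1

/-- If for some `k > 1` the pointwise stabilisers of all `(k-1)`-subsets have the same order `> 1` and those of all `k`-subsets have the same order, then the group is `(k-1)`-transitive. -/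
theorem result {α : Type*} [Fintype α] [DecidableEq α] (G : Subgroup (Equiv.Perm α)) {k : ℕ} (hk : 1 < k) (hkn : k ≤ Fintype.card α) (l m : ℕ) (hl : 1 < l) (hkm1 : ∀ s : Finset α, s.card = k - 1 → Nat.card (fixingSubgroup G (s : Set α)) = l) (hkm : ∀ s : Finset α, s.card = k → Nat.card (fixingSubgroup G (s : Set α)) = m) : MulAction.IsMultiplyPretransitive G α (k - 1) := by
  classical
  have hE : E G ∅ (k - 1) := by
    intro U _ hc b₀ b₁ _ hb₀ _ hb₁
    have hcard2 : ({b₀, b₁} : Finset α).card ≤ 2 := Finset.card_le_two
    obtain ⟨Δ, hUΔ, hΔsub, hΔcard⟩ := Finset.exists_subsuperset_card_eq (s := U)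
      (t := Finset.univ \ {b₀, b₁}) (n := k - 2) (by
        intro u hu
        rw [Finset.mem_sdiff]
        refine ⟨Finset.mem_univ _, ?_⟩
        rw [Finset.mem_insert, Finset.mem_singleton]
        rintro (rfl | rfl)
        · exact hb₀ hu
        · exact hb₁ hu) (by omega) (by
        have h1 := Finset.card_sdiff_add_card_inter (Finset.univ : Finset α) {b₀, b₁}
        have h2 : ((Finset.univ : Finset α) ∩ {b₀, b₁}).card ≤ 2 :=
          le_trans (Finset.card_le_card Finset.inter_subset_right) hcard2
        rw [Finset.card_univ] at h1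
        omega)
    have hbΔ : ∀ b, b = b₀ ∨ b = b₁ → b ∉ Δ := by
      intro b hb hbΔ
      have h1 := hΔsub hbΔ
      rw [Finset.mem_sdiff, Finset.mem_insert, Finset.mem_singleton] at h1
      exact h1.2 hb
    -- stabiliser orders
    have hstabK : ∀ y, y ∉ Δ →
        Nat.card (MulAction.stabilizer (fixingSubgroup G (Δ : Set α)) y) = l := by
      intro y hy
      rw [card_stab_fixing, ← Finset.coe_insert]
      exact hkm1 _ (by rw [Finset.card_insert_of_notMem hy, hΔcard]; omega)
    have horb : ∀ y, y ∉ Δ → (MulAction.orbit (fixingSubgroup G (Δ : Set α)) y).ncard * l =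
        Nat.card (fixingSubgroup G (Δ : Set α)) := by
      intro y hy
      rw [← MulAction.index_stabilizer, mul_comm, ← hstabK y hy]
      exact Subgroup.card_mul_index _
    have horbΔ : ∀ y, y ∉ Δ → ∀ x ∈ MulAction.orbit (fixingSubgroup G (Δ : Set α)) y, x ∉ Δ := by
      rintro y hy _ ⟨g, rfl⟩ hx
      have h1 : g • (g • y) = g • y := (mem_fixingSubgroup_iff G).1 g.2 _ (by simpa using hx)
      have h2 : g • y = y := MulAction.injective g h1
      exact hy (h2 ▸ hx)
    have key : ∀ y y', y ∉ Δ → y' ∉ Δ →
        y ∈ MulAction.orbit (fixingSubgroup G (Δ : Set α)) y' := by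
      intro y y' hy hy'
      by_contra hcon
      have hcardH : Nat.card (fixingSubgroup G ((insert y Δ : Finset α) : Set α)) = l :=
        hkm1 _ (by rw [Finset.card_insert_of_notMem hy, hΔcard]; omega)
      have hHK : ∀ h : fixingSubgroup G ((insert y Δ : Finset α) : Set α),
          (h : G) ∈ fixingSubgroup G (Δ : Set α) := by
        intro h
        rw [mem_fixingSubgroup_iff]
        intro z hz
        exact (mem_fixingSubgroup_iff G).1 h.2 z (by
          rw [Finset.coe_insert]
          exact Set.mem_insert_of_mem y hz)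
      have hHy : ∀ h : fixingSubgroup G ((insert y Δ : Finset α) : Set α), (h : G) • y = y := by
        intro h
        exact (mem_fixingSubgroup_iff G).1 h.2 y (by
          rw [Finset.coe_insert]
          exact Set.mem_insert y _)
      have hstabH : ∀ x, x ∉ Δ → x ≠ y →
          Nat.card (MulAction.stabilizer
            (fixingSubgroup G ((insert y Δ : Finset α) : Set α)) x) = m := by
        intro x hx hxy
        rw [card_stab_fixing, ← Finset.coe_insert]
        exact hkm _ (by
          rw [Finset.card_insert_of_notMem (by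
            rw [Finset.mem_insert, not_or]
            exact ⟨hxy, hx⟩), Finset.card_insert_of_notMem hy, hΔcard]
          omega)
      have hT1 := card_dvd_of_stab_set (H := fixingSubgroup G ((insert y Δ : Finset α) : Set α))
        (MulAction.orbit (fixingSubgroup G (Δ : Set α)) y \ {y}) (by
          rintro h x ⟨⟨g, rfl⟩, hxy⟩
          refine ⟨⟨⟨h.1, hHK h⟩ * g, rfl⟩, ?_⟩
          rw [Set.mem_singleton_iff] at hxy ⊢
          intro hc
          apply hxy
          have h5 : h • (g • y) = h • y := by
            rw [hc]
            exact (hHy h).symm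
          exact MulAction.injective h h5) m (by
          rintro x ⟨hx, hxy⟩
          exact hstabH x (horbΔ y hy x hx) hxy)
      have hT2 := card_dvd_of_stab_set (H := fixingSubgroup G ((insert y Δ : Finset α) : Set α))
        (MulAction.orbit (fixingSubgroup G (Δ : Set α)) y') (by
          rintro h x ⟨g, rfl⟩
          exact ⟨⟨h.1, hHK h⟩ * g, rfl⟩) m (by
          intro x hx
          refine hstabH x (horbΔ y' hy' x hx) ?_
          rintro rfl
          exact hcon hx)
      rw [hcardH] at hT1 hT2
      rw [Set.ncard_sdiff_singleton_of_mem (MulAction.mem_orbit_self y)] at hT1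
      have hN : (MulAction.orbit (fixingSubgroup G (Δ : Set α)) y).ncard =
          (MulAction.orbit (fixingSubgroup G (Δ : Set α)) y').ncard := by
        have h1 := horb y hy
        have h2 := horb y' hy'
        rw [← h2] at h1
        exact Nat.eq_of_mul_eq_mul_right (by omega) h1
      rw [← hN] at hT2
      have hNpos : 0 < (MulAction.orbit (fixingSubgroup G (Δ : Set α)) y).ncard := by
        rw [Set.ncard_pos (Set.toFinite _)]
        exact ⟨y, MulAction.mem_orbit_self y⟩
      have hlm : l ∣ m := by
        have h5 := Nat.dvd_sub hT2 hT1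
        have h6 : (MulAction.orbit (fixingSubgroup G (Δ : Set α)) y).ncard * m -
            ((MulAction.orbit (fixingSubgroup G (Δ : Set α)) y).ncard - 1) * m = m := by
          rw [← Nat.sub_mul]
          have : (MulAction.orbit (fixingSubgroup G (Δ : Set α)) y).ncard -
              ((MulAction.orbit (fixingSubgroup G (Δ : Set α)) y).ncard - 1) = 1 := by omega
          rw [this, one_mul]
        rw [h6] at h5
        exact h5
      -- a nonidentity element of the stabiliser of `insert y Δ` moves some point
      have hnt : Nontrivial (fixingSubgroup G ((insert y Δ : Finset α) : Set α)) := by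
        rw [← Finite.one_lt_card_iff_nontrivial, hcardH]
        exact hl
      obtain ⟨h, hh1⟩ := exists_ne (1 : fixingSubgroup G ((insert y Δ : Finset α) : Set α))
      obtain ⟨x, hx⟩ : ∃ x, (h.1.1 : Perm α) x ≠ x := by
        by_contra hc
        push Not at hc
        exact hh1 (Subtype.ext (Subtype.ext (Perm.ext hc)))
      have hxΔ : x ∉ Δ := by
        intro hxΔ
        exact hx ((mem_fixingSubgroup_iff G).1 h.2 x (by
          rw [Finset.coe_insert]
          exact Set.mem_insert_of_mem y hxΔ))
      have hxy : x ≠ y := by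
        rintro rfl
        exact hx (hHy h)
      have hmlt : m < l := by
        rw [← hstabH x hxΔ hxy, ← hcardH]
        by_contra hc
        push Not at hc
        have h7 := Subgroup.card_le_card_group (MulAction.stabilizer
          (fixingSubgroup G ((insert y Δ : Finset α) : Set α)) x)
        have h8 := Subgroup.eq_top_of_card_eq _ (le_antisymm h7 hc)
        have h9 : h ∈ MulAction.stabilizer
            (fixingSubgroup G ((insert y Δ : Finset α) : Set α)) x := by
          rw [h8]
          exact Subgroup.mem_top h
        exact hx h9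
      have hmpos : 0 < m := by
        rw [← hstabH x hxΔ hxy]
        exact Nat.card_pos
      have := Nat.le_of_dvd hmpos hlm
      omega
    obtain ⟨g, hg⟩ := key b₁ b₀ (hbΔ b₁ (Or.inr rfl)) (hbΔ b₀ (Or.inl rfl))
    refine ⟨g.1.1, g.1.2, ?_, congrArg id hg⟩
    intro u hu
    exact (mem_fixingSubgroup_iff G).1 g.2 u (by simpa using hUΔ hu)
  rw [MulAction.isMultiplyPretransitive_iff]
  intro x y
  obtain ⟨g, hg, hgx⟩ := hE.tuple (k - 1) le_rfl x y x.injective y.injective
  refine ⟨⟨g, hg⟩, ?_⟩
  ext i
  exact hgx i

end Cfsg.Agent.S0744
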