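import Cfsg.Statements.S0753
import Mathlib

set_option autoImplicit false
open Cfsg

namespace Cfsg.Agent.S0753

/-- If σ is a ring endomorphism of the field F other than the identity and B is a σ-sesquilinear conjugate-symmetric form with B v v = 0 for every v, then B = 0. -/
theorem result {F V : Type*} [Field F] [AddCommGroup V] [Module F V] (σ : F →+* F) (hσ : σ ≠ RingHom.id F) (B : V →ₛₗ[σ] V →ₗ[F] F) (hS : B.IsSymm) (h0 : ∀ v : V, B v v = 0) : B = 0 := by
  by_contra hB
  apply hσ
  have key : ∀ u v : V, B u v + σ (B u v) = 0 := by
    intro u v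
    have h := h0 (u + v)
    simp only [map_add, LinearMap.add_apply, h0, zero_add, add_zero] at h
    rw [hS.eq u v, add_comm]
    exact h
  obtain ⟨u, v, huv⟩ : ∃ u v, B u v ≠ 0 := by
    by_contra h
    push Not at h
    apply hB
    ext u v
    simpa using h u v
  ext a
  have h1 := key u v
  have h2 := key (a • u) v
  rw [LinearMap.map_smulₛₗ, LinearMap.smul_apply, smul_eq_mul, map_mul] at h2
  have h3 : σ (B u v) = - B u v := by linear_combination h1
  rw [h3] at h2
  have h4 : (σ a - σ (σ a)) * B u v = 0 := by linear_combination h2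
  have h5 : σ a = σ (σ a) := by
    rcases mul_eq_zero.mp h4 with h | h
    · exact sub_eq_zero.mp h
    · exact absurd h huv
  simpa using (σ.injective h5).symm

end Cfsg.Agent.S0753
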