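import Cfsg.Statements.S0757
import Mathlib

set_option autoImplicit false
open Cfsg

namespace Cfsg.Agent.S0757

theorem toMatrix'_wss {F : Type*} [Field F] [Invertible (2 : F)] {k : ℕ} (w : Fin k → F) :
    QuadraticForm.toMatrix' (QuadraticMap.weightedSumSquares F w) = Matrix.diagonal w := by
  ext i j
  rw [QuadraticForm.toMatrix', LinearMap.toMatrix₂'_apply]
  have h1 : (QuadraticMap.weightedSumSquares F w) (Pi.single i 1 + Pi.single j 1) -
      (QuadraticMap.weightedSumSquares F w) (Pi.single i 1) -
      (QuadraticMap.weightedSumSquares F w) (Pi.single j 1) =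
      2 * ∑ l, w l * ((Pi.single i 1 : Fin k → F) l * (Pi.single j 1 : Fin k → F) l) := by
    simp only [QuadraticMap.weightedSumSquares_apply, Pi.add_apply, smul_eq_mul,
      ← Finset.sum_sub_distrib, Finset.mul_sum]
    apply Finset.sum_congr rfl
    intro l _
    ring
  have h0 : (2 : F) * QuadraticMap.associated (R := F) (QuadraticMap.weightedSumSquares F w)
      (Pi.single i 1) (Pi.single j 1) =
      2 * ∑ l, w l * ((Pi.single i 1 : Fin k → F) l * (Pi.single j 1 : Fin k → F) l) := by
    rw [← h1]
    have h3 := QuadraticMap.two_nsmul_associated (S := F) (QuadraticMap.weightedSumSquares F w)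
    have h4 : (2 • QuadraticMap.associatedHom F (QuadraticMap.weightedSumSquares F w))
        (Pi.single i 1) (Pi.single j 1) =
        (QuadraticMap.polarBilin (QuadraticMap.weightedSumSquares F w))
          (Pi.single i 1) (Pi.single j 1) := by rw [h3]
    rw [LinearMap.smul_apply, LinearMap.smul_apply, QuadraticMap.polarBilin_apply_apply,
      nsmul_eq_mul] at h4
    simp only [Nat.cast_ofNat] at h4
    rw [h4]
    rfl
  have h20 : (2 : F) ≠ 0 := Invertible.ne_zero 2
  rw [mul_left_cancel₀ h20 h0]
  by_cases hij : i = j
  · subst hij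
    simp [Pi.single_apply]
  · rw [Matrix.diagonal_apply_ne _ hij]
    apply Finset.sum_eq_zero
    intro l _
    by_cases hl : l = i
    · subst hl
      simp [Pi.single_apply, hij]
    · simp [Pi.single_apply, hl]

/-- The two diagonal forms Σ x_i^2 and Σ_(i<n) x_i^2 + α x_n^2 on F^(n+1), with α a non-square and 2 ≠ 0 in F, are inequivalent quadratic forms (so over a finite field of odd order there are exactly two classes of non-singular symmetric bilinear forms in each dimension). -/
theorem result {F : Type*} [Field F] (h2 : (2 : F) ≠ 0) (n : ℕ) (α : F) (hα : ¬ IsSquare α) : ¬ (QuadraticMap.weightedSumSquares F (fun _ : Fin (n + 1) => (1 : F))).Equivalent (QuadraticMap.weightedSumSquares F (fun i : Fin (n + 1) => if i = Fin.last n then α else (1 : F))) := by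
  rintro ⟨e⟩
  have : Invertible (2 : F) := invertibleOfNonzero h2
  have hcomp : QuadraticMap.weightedSumSquares F (fun _ : Fin (n + 1) => (1 : F)) =
      (QuadraticMap.weightedSumSquares F
        (fun i : Fin (n + 1) => if i = Fin.last n then α else (1 : F))).comp
        (e.toLinearEquiv : (Fin (n + 1) → F) →ₗ[F] (Fin (n + 1) → F)) := by
    ext x
    exact (e.map_app x).symm
  have hd := congrArg QuadraticForm.discr' hcomp
  rw [QuadraticForm.discr'_comp, QuadraticForm.discr', QuadraticForm.discr', toMatrix'_wss,
    toMatrix'_wss, Matrix.det_diagonal, Matrix.det_diagonal] at hd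
  have hprod : ∏ i : Fin (n + 1), (if i = Fin.last n then α else (1 : F)) = α := by
    rw [Finset.prod_eq_single (Fin.last n)]
    · simp
    · intro b _ hb
      simp [hb]
    · simp
  rw [hprod] at hd
  simp only [Finset.prod_const_one] at hd
  set d := (LinearMap.toMatrix' (e.toLinearEquiv : (Fin (n + 1) → F) →ₗ[F] (Fin (n + 1) → F))).det
    with hd'
  have hd0 : d ≠ 0 := by
    intro h0
    rw [h0] at hd
    simp at hd
  apply hα
  refine ⟨d⁻¹, ?_⟩
  field_simp
  linear_combination -hd

end Cfsg.Agent.S0757
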