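import Cfsg.Statements.S0758
import Mathlib

set_option autoImplicit false
open Cfsg

namespace Cfsg.Agent.S0758

theorem iso_iff {F : Type*} [Field F] (β : F) :
    (∃ x y : F, (x ≠ 0 ∨ y ≠ 0) ∧ x ^ 2 + β * y ^ 2 = 0) ↔ IsSquare (-β) := by
  constructor
  · rintro ⟨x, y, hxy, h⟩
    have hy : y ≠ 0 := by
      intro hy
      rw [hy] at h hxy
      simp at h
      simp [h] at hxy
    refine ⟨x / y, ?_⟩
    field_simp
    linear_combination -h
  · rintro ⟨r, hr⟩
    refine ⟨r, 1, Or.inr one_ne_zero, ?_⟩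
    linear_combination -hr

/-- For a finite field F of odd order q and a non-square α: the form x² + y² is isotropic iff q ≡ 1 mod 4, and the form x² + α y² is isotropic iff q ≡ 3 mod 4. -/
theorem result {F : Type*} [Field F] [Fintype F] (h2 : (2 : F) ≠ 0) (α : F) (hα : ¬ IsSquare α) : ((∃ x y : F, (x ≠ 0 ∨ y ≠ 0) ∧ x ^ 2 + y ^ 2 = 0) ↔ Fintype.card F % 4 = 1) ∧ ((∃ x y : F, (x ≠ 0 ∨ y ≠ 0) ∧ x ^ 2 + α * y ^ 2 = 0) ↔ Fintype.card F % 4 = 3) := by
  classical
  have hchar : ringChar F ≠ 2 := by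
    intro h
    apply h2
    have := CharP.cast_eq_zero F (ringChar F)
    rw [h] at this
    exact_mod_cast this
  have hodd : Fintype.card F % 2 = 1 := FiniteField.odd_card_of_char_ne_two hchar
  have hm1 : IsSquare (-1 : F) ↔ Fintype.card F % 4 = 1 := by
    rw [FiniteField.isSquare_neg_one_iff]
    omega
  have hα0 : α ≠ 0 := by
    rintro rfl
    exact hα ⟨0, by simp⟩
  have hmα : IsSquare (-α) ↔ Fintype.card F % 4 = 3 := by
    have h1 : quadraticChar F (-α) = quadraticChar F (-1) * quadraticChar F α := by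
      rw [← map_mul]; simp
    have h3 : quadraticChar F α = -1 := (quadraticChar_neg_one_iff_not_isSquare).mpr hα
    rw [h3] at h1
    have h4 : IsSquare (-α) ↔ quadraticChar F (-α) = 1 :=
      (quadraticChar_one_iff_isSquare (neg_ne_zero.mpr hα0)).symm
    have h5 : ¬ IsSquare (-1 : F) ↔ quadraticChar F (-1) = -1 :=
      (quadraticChar_neg_one_iff_not_isSquare).symm
    have h6 : (IsSquare (-α) ↔ ¬ IsSquare (-1 : F)) := by
      rw [h4, h5, h1]
      constructor
      · intro h; linarith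
      · intro h; rw [h]; norm_num
    rw [h6, hm1]
    omega
  constructor
  · rw [← hm1, ← iso_iff]
    simp
  · rw [← hmα, ← iso_iff]

end Cfsg.Agent.S0758
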