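import Cfsg.Statements.S0759
import Mathlib

set_option autoImplicit false
open Cfsg

namespace Cfsg.Agent.S0759

open Matrix

theorem forward {F : Type*} [Field F] (h2 : (2 : F) ≠ 0) (m : ℕ)
    (W : Submodule F (Fin (2 * m) → F)) (hW : Module.finrank F W = m)
    (hQ : ∀ w ∈ W, ∑ i, w i ^ 2 = 0) (hm : Odd m) : IsSquare (-1 : F) := by
  classical
  obtain ⟨w, -⟩ : ∃ w : Module.Basis (Fin m) F W, True :=
    ⟨Module.finBasisOfFinrankEq F W hW, trivial⟩
  have hB : ∀ x ∈ W, ∀ y ∈ W, ∑ k, x k * y k = 0 := by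
    intro x hx y hy
    have h1 := hQ (x + y) (W.add_mem hx hy)
    have h2' := hQ x hx
    have h3 := hQ y hy
    have h4 : ∑ k, (x + y) k ^ 2 = ∑ k, x k ^ 2 + ∑ k, y k ^ 2 + 2 * ∑ k, x k * y k := by
      rw [Finset.mul_sum, ← Finset.sum_add_distrib, ← Finset.sum_add_distrib]
      apply Finset.sum_congr rfl
      intro k _
      simp only [Pi.add_apply]
      ring
    rw [h4, h2', h3, zero_add, zero_add] at h1
    exact (mul_eq_zero.mp h1).resolve_left h2
  have hl : ∀ j : Fin m, ∃ l : (Fin (2 * m) → F) →ₗ[F] F,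
      ∀ i, l (w i : Fin (2 * m) → F) = if i = j then 1 else 0 := by
    intro j
    obtain ⟨g, hg⟩ := LinearMap.exists_extend (w.coord j)
    refine ⟨g, fun i => ?_⟩
    have h1 := congrArg (fun k => k (w i)) hg
    simp only [LinearMap.comp_apply, Submodule.subtype_apply, Module.Basis.coord_apply,
      Module.Basis.repr_self] at h1
    rw [h1, Finsupp.single_apply]
  choose l hl using hl
  obtain ⟨Wm, hWm⟩ : ∃ Wm : Matrix (Fin m) (Fin (2 * m)) F,
      Wm = Matrix.of (fun i k => (w i : Fin (2 * m) → F) k) := ⟨_, rfl⟩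
  obtain ⟨Vm, hVm⟩ : ∃ Vm : Matrix (Fin m) (Fin (2 * m)) F,
      Vm = Matrix.of (fun j k => l j (fun t => if k = t then 1 else 0)) := ⟨_, rfl⟩
  have hWW : Wm * Wmᵀ = 0 := by
    ext i j
    rw [hWm]
    simp only [Matrix.mul_apply, Matrix.transpose_apply, Matrix.of_apply, Matrix.zero_apply]
    exact hB _ (w i).2 _ (w j).2
  have hWV : Wm * Vmᵀ = 1 := by
    ext i j
    rw [hWm, hVm]
    simp only [Matrix.mul_apply, Matrix.transpose_apply, Matrix.of_apply, Matrix.one_apply]
    have h1 := LinearMap.pi_apply_eq_sum_univ (l j) (w i : Fin (2 * m) → F)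
    simp only [smul_eq_mul] at h1
    rw [← h1, hl]
  have hVW : Vm * Wmᵀ = 1 := by
    have h1 := congrArg Matrix.transpose hWV
    rw [Matrix.transpose_mul, Matrix.transpose_transpose, Matrix.transpose_one] at h1
    exact h1
  obtain ⟨c, hc⟩ : ∃ c : F, c = 2⁻¹ := ⟨_, rfl⟩
  have hcc : c + c = 1 := by
    rw [hc]
    field_simp
    norm_num
  obtain ⟨C, hC⟩ : ∃ C : Matrix (Fin m) (Fin m) F, C = Vm * Vmᵀ := ⟨_, rfl⟩
  have hCt : Cᵀ = C := by
    rw [hC, Matrix.transpose_mul, Matrix.transpose_transpose]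
  obtain ⟨V', hV'⟩ : ∃ V' : Matrix (Fin m) (Fin (2 * m)) F, V' = Vm - c • (C * Wm) := ⟨_, rfl⟩
  have hV't : V'ᵀ = Vmᵀ - c • (Wmᵀ * C) := by
    rw [hV', Matrix.transpose_sub, Matrix.transpose_smul, Matrix.transpose_mul, hCt]
  have hWV' : Wm * V'ᵀ = 1 := by
    rw [hV't, Matrix.mul_sub, Matrix.mul_smul, ← Matrix.mul_assoc, hWW, Matrix.zero_mul,
      smul_zero, sub_zero, hWV]
  have hV'W : V' * Wmᵀ = 1 := by
    have h1 := congrArg Matrix.transpose hWV'
    rw [Matrix.transpose_mul, Matrix.transpose_transpose, Matrix.transpose_one] at h1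
    exact h1
  have hV'V' : V' * V'ᵀ = 0 := by
    have e1 : Vm * V'ᵀ = C - c • C := by
      rw [hV't, Matrix.mul_sub, Matrix.mul_smul, ← Matrix.mul_assoc, hVW, Matrix.one_mul, ← hC]
    have e2 : V' * V'ᵀ = Vm * V'ᵀ - c • (C * (Wm * V'ᵀ)) := by
      have e0 : V' * V'ᵀ = (Vm - c • (C * Wm)) * V'ᵀ := by rw [← hV']
      rw [e0, Matrix.sub_mul, Matrix.smul_mul, Matrix.mul_assoc]
    rw [e2, e1, hWV', Matrix.mul_one]
    have e3 : C - c • C - c • C = (1 - c - c) • C := by
      rw [sub_smul, sub_smul, one_smul]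
    rw [e3]
    have e4 : (1 : F) - c - c = 0 := by linear_combination -hcc
    rw [e4, zero_smul]
  have h11 : (Wm + V') * (Wm + V')ᵀ = (2 : F) • (1 : Matrix (Fin m) (Fin m) F) := by
    rw [Matrix.transpose_add, Matrix.add_mul, Matrix.mul_add, Matrix.mul_add, hWW, hWV', hV'W,
      hV'V', zero_add, add_zero, two_smul]
  have h12 : (Wm + V') * (Wm - V')ᵀ = 0 := by
    rw [Matrix.transpose_sub, Matrix.add_mul, Matrix.mul_sub, Matrix.mul_sub, hWW, hWV', hV'W,
      hV'V', zero_sub, sub_zero, neg_add_cancel]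
  have h21 : (Wm - V') * (Wm + V')ᵀ = 0 := by
    rw [Matrix.transpose_add, Matrix.sub_mul, Matrix.mul_add, Matrix.mul_add, hWW, hWV', hV'W,
      hV'V', zero_add, add_zero, sub_self]
  have h22 : (Wm - V') * (Wm - V')ᵀ = (-2 : F) • (1 : Matrix (Fin m) (Fin m) F) := by
    rw [Matrix.transpose_sub, Matrix.sub_mul, Matrix.mul_sub, Matrix.mul_sub, hWW, hWV', hV'W,
      hV'V', zero_sub, sub_zero, neg_smul, two_smul]
    abel
  obtain ⟨P, hP⟩ : ∃ P : Matrix (Fin m ⊕ Fin m) (Fin (2 * m)) F,
      P = Matrix.fromRows (Wm + V') (Wm - V') := ⟨_, rfl⟩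
  have hPP : P * Pᵀ = Matrix.fromBlocks ((2 : F) • (1 : Matrix (Fin m) (Fin m) F)) 0 0
      ((-2 : F) • (1 : Matrix (Fin m) (Fin m) F)) := by
    rw [hP, Matrix.transpose_fromRows, Matrix.fromRows_mul_fromCols, h11, h12, h21, h22]
  have e : Fin m ⊕ Fin m ≃ Fin (2 * m) :=
    Fintype.equivFinOfCardEq (by rw [Fintype.card_sum, Fintype.card_fin]; ring)
  have hP' : P.submatrix id e * (P.submatrix id e)ᵀ = P * Pᵀ := by
    rw [Matrix.transpose_submatrix, Matrix.submatrix_mul_equiv, Matrix.submatrix_id_id]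
  have hdet : (P.submatrix id e).det * (P.submatrix id e).det = 2 ^ m * (-2) ^ m := by
    have h1 := congrArg Matrix.det hP'
    rw [Matrix.det_mul, Matrix.det_transpose, hPP, Matrix.det_fromBlocks_zero₂₁, Matrix.det_smul,
      Matrix.det_smul, Matrix.det_one, Fintype.card_fin, mul_one, mul_one] at h1
    exact h1
  have hpow : (2 : F) ^ m ≠ 0 := pow_ne_zero _ h2
  rw [Odd.neg_pow hm] at hdet
  refine ⟨(P.submatrix id e).det / 2 ^ m, ?_⟩
  field_simp
  linear_combination -hdet

theorem exists_of_anti {F : Type*} [Field F] {κ : Type*} [Fintype κ] (m : ℕ)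
    (hκ : Fintype.card κ = m)
    (T : (κ → F) →ₗ[F] (κ → F)) (hT : ∀ y, ∑ j, (T y j) ^ 2 = - ∑ j, (y j) ^ 2) :
    ∃ W : Submodule F (Fin (2 * m) → F), Module.finrank F W = m ∧ ∀ w ∈ W, ∑ i, w i ^ 2 = 0 := by
  classical
  have e : κ ⊕ κ ≃ Fin (2 * m) :=
    Fintype.equivFinOfCardEq (by rw [Fintype.card_sum, hκ]; ring)
  obtain ⟨L, hL⟩ : ∃ L : (κ → F) →ₗ[F] (Fin (2 * m) → F),
      ∀ y i, L y i = Sum.elim y (T y) (e.symm i) := by
    refine ⟨{ toFun := fun y i => Sum.elim y (T y) (e.symm i)
              map_add' := ?_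
              map_smul' := ?_ }, fun y i => rfl⟩
    · intro y z
      ext i
      simp only [Pi.add_apply]
      generalize e.symm i = s
      rcases s with j | j <;> simp
    · intro c y
      ext i
      simp only [Pi.smul_apply, RingHom.id_apply]
      generalize e.symm i = s
      rcases s with j | j <;> simp
  have hLinj : Function.Injective L := by
    intro y z hyz
    ext j
    have h1 := congrFun hyz (e (Sum.inl j))
    rw [hL, hL, Equiv.symm_apply_apply] at h1
    exact h1
  refine ⟨LinearMap.range L, ?_, ?_⟩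
  · rw [LinearMap.finrank_range_of_inj hLinj, Module.finrank_pi, hκ]
  · rintro _ ⟨y, rfl⟩
    have h1 : ∑ i, (L y i) ^ 2 = ∑ s : κ ⊕ κ, (Sum.elim y (T y) s) ^ 2 := by
      simp only [hL]
      exact Equiv.sum_comp e.symm (fun s => (Sum.elim y (T y) s) ^ 2)
    rw [h1, Fintype.sum_sum_type]
    simp only [Sum.elim_inl, Sum.elim_inr]
    rw [hT]
    ring

/-- Type of the orthonormal form: over a finite field of odd order q and for m ≥ 1, the quadratic form Σ_(i<2m) x_i² on F^(2m) admits an m-dimensional subspace on which it vanishes identically if and only if it is not the case that q ≡ 3 (mod 4) and m is odd. -/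
theorem result {F : Type*} [Field F] [Fintype F] (h2 : (2 : F) ≠ 0) (m : ℕ) (hm : 1 ≤ m) : (∃ W : Submodule F (Fin (2 * m) → F), Module.finrank F W = m ∧ ∀ w ∈ W, ∑ i, w i ^ 2 = 0) ↔ ¬ (Fintype.card F % 4 = 3 ∧ Odd m) := by
  constructor
  · rintro ⟨W, hW, hQ⟩ ⟨h3, hodd⟩
    have h1 := forward h2 m W hW hQ hodd
    exact (FiniteField.isSquare_neg_one_iff.mp h1) h3
  · intro h
    by_cases h3 : Fintype.card F % 4 = 3
    · have hev : Even m := by
        rw [← Nat.not_odd_iff_even]
        exact fun ho => h ⟨h3, ho⟩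
      obtain ⟨k, hk⟩ := hev
      have hchar : ringChar F ≠ 2 := by
        intro hch
        apply h2
        have h4 := CharP.cast_eq_zero F (ringChar F)
        rw [hch] at h4
        exact_mod_cast h4
      have hodd : Fintype.card F % 2 = 1 := FiniteField.odd_card_of_char_ne_two hchar
      have hdeg1 : (Polynomial.X ^ 2 : Polynomial F).degree = 2 := by
        rw [Polynomial.degree_X_pow]
        rfl
      have hdeg2 : (Polynomial.X ^ 2 + Polynomial.C 1 : Polynomial F).degree = 2 := by
        rw [Polynomial.degree_X_pow_add_C (by norm_num)]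
        rfl
      obtain ⟨a, b, hab⟩ := FiniteField.exists_root_sum_quadratic hdeg1 hdeg2 hodd
      simp only [Polynomial.eval_add, Polynomial.eval_C, Polynomial.eval_pow,
        Polynomial.eval_X] at hab
      obtain ⟨T, hT⟩ : ∃ T : ((Fin k ⊕ Fin k) → F) →ₗ[F] ((Fin k ⊕ Fin k) → F),
          ∀ y s, T y s = Sum.elim (fun j => a * y (Sum.inl j) - b * y (Sum.inr j))
            (fun j => b * y (Sum.inl j) + a * y (Sum.inr j)) s := by
        refine ⟨{ toFun := fun y s => Sum.elim (fun j => a * y (Sum.inl j) - b * y (Sum.inr j))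
                    (fun j => b * y (Sum.inl j) + a * y (Sum.inr j)) s
                  map_add' := ?_
                  map_smul' := ?_ }, fun y s => rfl⟩
        · intro y z
          ext s
          rcases s with j | j
          · simp only [Sum.elim_inl, Pi.add_apply]
            ring
          · simp only [Sum.elim_inr, Pi.add_apply]
            ring
        · intro c y
          ext s
          rcases s with j | j
          · simp only [Sum.elim_inl, Pi.smul_apply, smul_eq_mul, RingHom.id_apply]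
            ring
          · simp only [Sum.elim_inr, Pi.smul_apply, smul_eq_mul, RingHom.id_apply]
            ring
      apply exists_of_anti m (by rw [Fintype.card_sum, Fintype.card_fin, hk]) T
      intro y
      simp only [hT, Fintype.sum_sum_type, Sum.elim_inl, Sum.elim_inr]
      rw [← Finset.sum_add_distrib, ← Finset.sum_add_distrib, ← Finset.sum_neg_distrib]
      apply Finset.sum_congr rfl
      intro j _
      linear_combination (y (Sum.inl j) ^ 2 + y (Sum.inr j) ^ 2) * hab
    · have hsq : IsSquare (-1 : F) := FiniteField.isSquare_neg_one_iff.mpr h3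
      obtain ⟨i, hi⟩ := hsq
      apply exists_of_anti m (Fintype.card_fin m) (i • LinearMap.id)
      intro y
      simp only [LinearMap.smul_apply, LinearMap.id_apply, Pi.smul_apply, smul_eq_mul]
      rw [← Finset.sum_neg_distrib]
      apply Finset.sum_congr rfl
      intro j _
      linear_combination (- y j ^ 2) * hi

end Cfsg.Agent.S0759
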