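import Cfsg.Statements.S0760
import Mathlib

set_option autoImplicit false
open Cfsg

namespace Cfsg.Agent.S0760

theorem polar_zero_of_singular {F V : Type*} [Field F] [AddCommGroup V] [Module F V]
    (Q : QuadraticForm F V) (W : Submodule F V) (h : ∀ w ∈ W, Q w = 0) :
    ∀ x ∈ W, ∀ y ∈ W, QuadraticMap.polar Q x y = 0 := by
  intro x hx y hy
  unfold QuadraticMap.polar
  rw [h _ (W.add_mem hx hy), h x hx, h y hy]
  simp

theorem le_orth {F V : Type*} [Field F] [AddCommGroup V] [Module F V]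
    (Q : QuadraticForm F V) (W : Submodule F V) (h : ∀ w ∈ W, Q w = 0) :
    W ≤ LinearMap.BilinForm.orthogonal (QuadraticMap.polarBilin Q) W := by
  intro x hx
  rw [LinearMap.BilinForm.mem_orthogonal_iff]
  intro n hn
  show QuadraticMap.polarBilin Q n x = 0
  rw [QuadraticMap.polarBilin_apply_apply]
  exact polar_zero_of_singular Q W h n hn x hx

theorem key {F V : Type*} [Field F] [AddCommGroup V] [Module F V] [FiniteDimensional F V]
    (Q : QuadraticForm F V) (hQ : (QuadraticMap.polarBilin Q).Nondegenerate)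
    (W₁ W₂ : Submodule F V) (h₁ : ∀ w ∈ W₁, Q w = 0) (h₂ : ∀ w ∈ W₂, Q w = 0)
    (hmax₁ : ∀ W : Submodule F V, W₁ ≤ W → (∀ w ∈ W, Q w = 0) → W = W₁) :
    Module.finrank F W₂ ≤ Module.finrank F W₁ := by
  by_contra hlt
  push Not at hlt
  obtain ⟨β, hβ⟩ : ∃ β : LinearMap.BilinForm F V, β = QuadraticMap.polarBilin Q := ⟨_, rfl⟩
  rw [← hβ] at hQ
  have hβapp : ∀ x y, β x y = QuadraticMap.polar Q x y := by
    intro x y
    rw [hβ, QuadraticMap.polarBilin_apply_apply]
  have hsup : W₂ ⊔ β.orthogonal W₁ ≤ β.orthogonal (W₁ ⊓ W₂) := by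
    apply sup_le
    · refine le_trans ?_ (LinearMap.BilinForm.orthogonal_le inf_le_right)
      rw [hβ]
      exact le_orth Q W₂ h₂
    · exact LinearMap.BilinForm.orthogonal_le inf_le_left
  have e1 := Submodule.finrank_sup_add_finrank_inf_eq W₂ (β.orthogonal W₁)
  have e2 := LinearMap.BilinForm.finrank_orthogonal hQ W₁
  have e3 := LinearMap.BilinForm.finrank_orthogonal hQ (W₁ ⊓ W₂)
  have e4 := Submodule.finrank_mono hsup
  have e5 : Module.finrank F W₁ ≤ Module.finrank F V := Submodule.finrank_le W₁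
  have e6 : Module.finrank F (W₁ ⊓ W₂ : Submodule F V) ≤ Module.finrank F W₁ :=
    Submodule.finrank_mono inf_le_left
  have e7 : Module.finrank F (W₁ ⊓ W₂ : Submodule F V) <
      Module.finrank F (W₂ ⊓ β.orthogonal W₁ : Submodule F V) := by omega
  have hnle : ¬ (W₂ ⊓ β.orthogonal W₁ ≤ W₁) := by
    intro hle
    have : W₂ ⊓ β.orthogonal W₁ ≤ W₁ ⊓ W₂ := le_inf hle inf_le_left
    have := Submodule.finrank_mono this
    omega
  obtain ⟨x, hx, hxW₁⟩ := SetLike.not_le_iff_exists.mp hnle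
  have hx2 : x ∈ W₂ := hx.1
  have hxo : ∀ w ∈ W₁, QuadraticMap.polar Q w x = 0 := by
    intro w hw
    have h9 : β w x = 0 := (LinearMap.BilinForm.mem_orthogonal_iff.mp hx.2) w hw
    rw [hβapp] at h9
    exact h9
  have hW : W₁ ⊔ Submodule.span F {x} = W₁ := by
    apply hmax₁ _ le_sup_left
    intro w hw
    obtain ⟨a, ha, b, hb, rfl⟩ := Submodule.mem_sup.mp hw
    obtain ⟨c, rfl⟩ := Submodule.mem_span_singleton.mp hb
    rw [QuadraticMap.map_add Q, QuadraticMap.map_smul, h₁ a ha, h₂ x hx2,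
      QuadraticMap.polar_smul_right, hxo a ha]
    simp
  apply hxW₁
  rw [← hW]
  exact Submodule.mem_sup_right (Submodule.mem_span_singleton_self x)

/-- Witt index is well defined: if Q is a quadratic form on a finite-dimensional space V over a finite field with non-degenerate polar form, and W₁, W₂ are subspaces on which Q vanishes that are maximal with this property, then W₁ and W₂ have the same dimension, and twice this dimension is at most dim V. -/
theorem result {F V : Type*} [Field F] [Finite F] [AddCommGroup V] [Module F V] [FiniteDimensional F V] (Q : QuadraticForm F V) (hQ : (QuadraticMap.polarBilin Q).Nondegenerate) (W₁ W₂ : Submodule F V) (h₁ : ∀ w ∈ W₁, Q w = 0) (h₂ : ∀ w ∈ W₂, Q w = 0) (hmax₁ : ∀ W : Submodule F V, W₁ ≤ W → (∀ w ∈ W, Q w = 0) → W = W₁) (hmax₂ : ∀ W : Submodule F V, W₂ ≤ W → (∀ w ∈ W, Q w = 0) → W = W₂) : Module.finrank F W₁ = Module.finrank F W₂ ∧ 2 * Module.finrank F W₁ ≤ Module.finrank F V := by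
  refine ⟨le_antisymm (key Q hQ W₂ W₁ h₂ h₁ hmax₂) (key Q hQ W₁ W₂ h₁ h₂ hmax₁), ?_⟩
  have e1 := Submodule.finrank_mono (le_orth Q W₁ h₁)
  have e2 := LinearMap.BilinForm.finrank_orthogonal hQ W₁
  have e5 : Module.finrank F W₁ ≤ Module.finrank F V := Submodule.finrank_le W₁
  omega

end Cfsg.Agent.S0760
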