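import Cfsg.Statements.S0761
import Mathlib

set_option autoImplicit false
open Cfsg

namespace Cfsg.Agent.S0761

/-- Hyperbolic partners: let B be a non-degenerate bilinear form on a finite-dimensional space, either alternating, or symmetric with 2 ≠ 0. If Z is a subspace on which B vanishes, x ∉ Z is isotropic and orthogonal to Z, then there is an isotropic y with B x y = 1 which is orthogonal to Z. -/
theorem result {F V : Type*} [Field F] [AddCommGroup V] [Module F V] [FiniteDimensional F V] (B : LinearMap.BilinForm F V) (hB : B.Nondegenerate) (hform : B.IsAlt ∨ (B.IsSymm ∧ (2 : F) ≠ 0)) (x : V) (Z : Submodule F V) (hxZ : x ∉ Z) (hx : B x x = 0) (hxz : ∀ z ∈ Z, B x z = 0) (hZ : ∀ z ∈ Z, ∀ z' ∈ Z, B z z' = 0) : ∃ y : V, B y y = 0 ∧ B x y = 1 ∧ ∀ z ∈ Z, B z y = 0 := by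
  obtain ⟨f, hfx, hfZ⟩ := Submodule.exists_dual_map_eq_bot_of_notMem hxZ inferInstance
  have hfz : ∀ z ∈ Z, f z = 0 := by
    intro z hz
    have h1 : f z ∈ Z.map f := Submodule.mem_map_of_mem hz
    rw [hfZ] at h1
    simpa using h1
  have hwv : ∀ v, B ((B.toDual hB).symm ((f x)⁻¹ • f)) v = (f x)⁻¹ * f v := by
    intro v
    rw [LinearMap.BilinForm.apply_toDual_symm_apply]
    simp
  set w := (B.toDual hB).symm ((f x)⁻¹ • f) with hw
  have hwx : B w x = 1 := by
    rw [hwv, inv_mul_cancel₀ hfx]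
  have hwz : ∀ z ∈ Z, B w z = 0 := by
    intro z hz
    rw [hwv, hfz z hz, mul_zero]
  rcases hform with hA | ⟨hS, h2⟩
  · refine ⟨-w, ?_, ?_, ?_⟩
    · exact hA.self_eq_zero _
    · rw [map_neg, ← hA.neg_eq, hwx, neg_neg]
    · intro z hz
      rw [map_neg, ← hA.neg_eq, hwz z hz]
      simp
  · refine ⟨w + (-(B w w) / 2) • x, ?_, ?_, ?_⟩
    · simp only [map_add, map_smul, LinearMap.add_apply, LinearMap.smul_apply, smul_eq_mul, hx,
        hwx, hS.eq x w, mul_zero, add_zero, mul_one]
      field_simp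
      ring
    · simp only [map_add, map_smul, smul_eq_mul, hx, hS.eq x w, hwx, mul_zero, add_zero]
    · intro z hz
      simp only [map_add, map_smul, smul_eq_mul, hS.eq z w, hwz z hz, hS.eq z x, hxz z hz,
        mul_zero, add_zero]

end Cfsg.Agent.S0761
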