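import Cfsg.Statements.S0762
import Mathlib

set_option autoImplicit false
open Cfsg

namespace Cfsg.Agent.S0762

/-- In characteristic two over a finite field, a quadratic form on a space of dimension at least 3 vanishes on some non-zero vector. -/
theorem result {F V : Type*} [Field F] [Finite F] [CharP F 2] [AddCommGroup V] [Module F V] [FiniteDimensional F V] (Q : QuadraticForm F V) (h3 : 3 ≤ Module.finrank F V) : ∃ v : V, v ≠ 0 ∧ Q v = 0 := by
  have hnt : Nontrivial V := by
    apply Module.nontrivial_of_finrank_pos (R := F)
    omega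
  obtain ⟨u, hu⟩ := exists_ne (0 : V)
  by_cases hQu : Q u = 0
  · exact ⟨u, hu, hQu⟩
  have hker : 2 ≤ Module.finrank F (LinearMap.ker (QuadraticMap.polarBilin Q u)) := by
    have h1 := LinearMap.finrank_range_add_finrank_ker (QuadraticMap.polarBilin Q u)
    have h2 : Module.finrank F (LinearMap.range (QuadraticMap.polarBilin Q u)) ≤ 1 := by
      have := Submodule.finrank_le (LinearMap.range (QuadraticMap.polarBilin Q u))
      simpa using this
    omega
  have hspan : Module.finrank F (Submodule.span F {u}) ≤ 1 := (finrank_span_singleton hu).le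
  have hnle : ¬ LinearMap.ker (QuadraticMap.polarBilin Q u) ≤ Submodule.span F {u} := by
    intro hle
    have := Submodule.finrank_mono hle
    omega
  obtain ⟨v, hv1, hv2⟩ := SetLike.not_le_iff_exists.mp hnle
  have hpol : QuadraticMap.polar Q u v = 0 := by
    have := LinearMap.mem_ker.mp hv1
    simpa using this
  have hchar : ringChar F = 2 := (ringChar.eq F 2).symm ▸ rfl
  obtain ⟨a, ha⟩ := FiniteField.isSquare_of_char_two hchar (Q v / Q u)
  refine ⟨a • u + v, ?_, ?_⟩
  · intro h0
    apply hv2
    have : v = (-a) • u := by
      rw [neg_smul]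
      exact eq_neg_of_add_eq_zero_right h0
    rw [this]
    exact Submodule.smul_mem _ _ (Submodule.mem_span_singleton_self u)
  · have h1 : Q (a • u + v) = Q (a • u) + Q v + QuadraticMap.polar Q (a • u) v := by
      simp [QuadraticMap.polar]
    rw [h1, QuadraticMap.polar_smul_left, hpol, smul_zero, add_zero, QuadraticMap.map_smul, ← ha,
      smul_eq_mul, div_mul_cancel₀ _ hQu]
    have h2 : (2 : F) = 0 := CharTwo.two_eq_zero
    linear_combination (Q v) * h2

end Cfsg.Agent.S0762
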