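import Cfsg.Statements.S0763
import Mathlib

set_option autoImplicit false
open Cfsg

namespace Cfsg.Agent.S0763

/-- Binary quadratic forms in characteristic two over a finite field: if Q is a quadratic form on a 2-dimensional space whose polar form is non-degenerate, then either there are vectors v, w with Q v = Q w = 0 and polar value 1 (Q is xy in these coordinates), or there are v, w and μ with Q v = 1, Q w = μ, polar value 1 and x² + x + μ without roots in F (Q is x² + xy + μy²). -/
theorem result {F V : Type*} [Field F] [Finite F] [CharP F 2] [AddCommGroup V] [Module F V] (Q : QuadraticForm F V) (h2 : Module.finrank F V = 2) (hQ : (QuadraticMap.polarBilin Q).Nondegenerate) : (∃ v w : V, LinearIndependent F ![v, w] ∧ Q v = 0 ∧ Q w = 0 ∧ QuadraticMap.polar Q v w = 1) ∨ (∃ (v w : V) (μ : F), LinearIndependent F ![v, w] ∧ (∀ x : F, x ^ 2 + x + μ ≠ 0) ∧ Q v = 1 ∧ Q w = μ ∧ QuadraticMap.polar Q v w = 1) := by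
  have hnt : Nontrivial V := Module.nontrivial_of_finrank_pos (R := F) (by omega)
  have h20 : (2 : F) = 0 := by
    have := CharP.cast_eq_zero F 2
    exact_mod_cast this
  have hadd : ∀ a : F, a + a = 0 := by
    intro a
    linear_combination a * h20
  have hself : ∀ x : V, QuadraticMap.polar Q x x = 0 := by
    intro x
    rw [QuadraticMap.polar_self]
    simp only [nsmul_eq_mul, Nat.cast_ofNat, h20, zero_mul]
  have hcomm : ∀ x y : V, QuadraticMap.polar Q x y = QuadraticMap.polar Q y x :=
    fun x y => QuadraticMap.polar_comm Q x y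
  have hex : ∀ v : V, v ≠ 0 → ∃ w, QuadraticMap.polar Q v w = 1 := by
    intro v hv
    have h1 : ∃ w, QuadraticMap.polar Q v w ≠ 0 := by
      by_contra h
      push Not at h
      apply hv
      apply hQ.1 v
      intro y
      rw [QuadraticMap.polarBilin_apply_apply]
      exact h y
    obtain ⟨w, hw⟩ := h1
    refine ⟨(QuadraticMap.polar Q v w)⁻¹ • w, ?_⟩
    rw [QuadraticMap.polar_smul_right, smul_eq_mul]
    exact inv_mul_cancel₀ hw
  have hli : ∀ v w : V, v ≠ 0 → QuadraticMap.polar Q v w = 1 → LinearIndependent F ![v, w] := by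
    intro v w hv hvw
    rw [LinearIndependent.pair_iff]
    intro s t hst
    have h1 := congrArg (fun x => QuadraticMap.polar Q v x) hst
    simp only [QuadraticMap.polar_add_right, QuadraticMap.polar_smul_right, smul_eq_mul, hself,
      hvw, mul_zero, mul_one, zero_add, QuadraticMap.polar_zero_right] at h1
    refine ⟨?_, h1⟩
    rw [h1, zero_smul, add_zero] at hst
    rcases smul_eq_zero.mp hst with h | h
    · exact h
    · exact absurd h hv
  by_cases hsing : ∃ v : V, v ≠ 0 ∧ Q v = 0
  · left
    obtain ⟨v, hv, hQv⟩ := hsing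
    obtain ⟨w', hw'⟩ := hex v hv
    have hvw : QuadraticMap.polar Q v (w' + Q w' • v) = 1 := by
      rw [QuadraticMap.polar_add_right, QuadraticMap.polar_smul_right, hself, hw']
      simp
    refine ⟨v, w' + Q w' • v, hli v _ hv hvw, hQv, ?_, hvw⟩
    rw [QuadraticMap.map_add Q, QuadraticMap.map_smul, hQv, QuadraticMap.polar_smul_right,
      hcomm, hw']
    simp only [smul_eq_mul, mul_zero, add_zero, mul_one]
    exact hadd _
  · right
    push Not at hsing
    obtain ⟨v0, hv0⟩ := exists_ne (0 : V)
    have hQv0 : Q v0 ≠ 0 := hsing v0 hv0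
    have hsq : IsSquare (Q v0) := FiniteField.isSquare_of_char_two (ringChar.eq F 2) _
    obtain ⟨s, hs⟩ := hsq
    have hs0 : s ≠ 0 := by
      rintro rfl
      rw [mul_zero] at hs
      exact hQv0 hs
    have hv : s⁻¹ • v0 ≠ 0 := smul_ne_zero (inv_ne_zero hs0) hv0
    have hQv : Q (s⁻¹ • v0) = 1 := by
      rw [QuadraticMap.map_smul, hs, smul_eq_mul]
      field_simp
    obtain ⟨w, hw⟩ := hex _ hv
    have hLI := hli _ w hv hw
    refine ⟨s⁻¹ • v0, w, Q w, hLI, ?_, hQv, rfl, hw⟩
    intro x hx
    have h3 : x • (s⁻¹ • v0) + w ≠ 0 := by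
      intro h
      have := (LinearIndependent.pair_iff.mp hLI x 1 (by rw [one_smul]; exact h)).2
      exact one_ne_zero this
    apply hsing _ h3
    rw [QuadraticMap.map_add Q, QuadraticMap.map_smul, hQv, QuadraticMap.polar_smul_left, hw]
    simp only [smul_eq_mul, mul_one]
    linear_combination hx

end Cfsg.Agent.S0763
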