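import Cfsg.Statements.S0767
import Cfsg.Agent.Lib.Helper5.Symp

set_option autoImplicit false
open Cfsg
open scoped Matrix

namespace Cfsg.Agent.S0767

open Cfsg.Agent.Lib.Helper5

/-- The root group of a point: T_v(c) T_v(d) = T_v(c + d), and for A in the symplectic group with A v = a v, the conjugate A T_v(c) A⁻¹ is again some T_v(d). -/
theorem result {F : Type*} [Field F] (m : ℕ) (v : Fin m ⊕ Fin m → F) : (∀ c d : F, Cfsg.sympTransvection m v c * Cfsg.sympTransvection m v d = Cfsg.sympTransvection m v (c + d)) ∧ ∀ (A : Matrix (Fin m ⊕ Fin m) (Fin m ⊕ Fin m) F) (a : F), A ∈ Matrix.symplecticGroup (Fin m) F → A.mulVec v = a • v → ∀ c : F, ∃ d : F, A * Cfsg.sympTransvection m v c * A⁻¹ = Cfsg.sympTransvection m v d := by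
  constructor
  · intro c d
    unfold Cfsg.sympTransvection
    have h : Matrix.vecMulVec v (Matrix.J (Fin m) F *ᵥ v) * Matrix.vecMulVec v (Matrix.J (Fin m) F *ᵥ v) = 0 := by
      rw [Matrix.vecMulVec_mul_vecMulVec, dotProduct_comm, Symp.dot_J_self, zero_smul,
        Matrix.vecMulVec_zero]
    simp only [Matrix.add_mul, Matrix.mul_add, Matrix.one_mul, Matrix.mul_one, Matrix.smul_mul,
      Matrix.mul_smul, h, smul_zero, add_zero]
    rw [add_smul]
    abel
  · intro A a hA hAv c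
    refine ⟨c * a * a, ?_⟩
    have hdet : IsUnit A.det := SymplecticGroup.symplectic_det hA
    have hAinv : A * A⁻¹ = 1 := Matrix.mul_nonsing_inv A hdet
    have hw : (Matrix.J (Fin m) F *ᵥ v) ᵥ* A⁻¹ = a • (Matrix.J (Fin m) F *ᵥ v) := by
      have h1 : Aᵀ * Matrix.J (Fin m) F * A = Matrix.J (Fin m) F := SymplecticGroup.mem_iff'.mp hA
      have h2 : Matrix.J (Fin m) F *ᵥ v = a • ((Matrix.J (Fin m) F *ᵥ v) ᵥ* A) := by
        rw [← Matrix.mulVec_transpose, ← Matrix.mulVec_smul, ← Matrix.mulVec_smul, ← hAv,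
          Matrix.mulVec_mulVec, Matrix.mulVec_mulVec, h1]
      conv_lhs => rw [h2]
      rw [Matrix.smul_vecMul, Matrix.vecMul_vecMul, hAinv, Matrix.vecMul_one]
    unfold Cfsg.sympTransvection
    rw [Matrix.mul_add, Matrix.mul_one, Matrix.add_mul, hAinv, Matrix.mul_smul, Matrix.smul_mul,
      Matrix.mul_vecMulVec, Matrix.vecMulVec_mul, hAv, hw, Matrix.smul_vecMulVec,
      Matrix.vecMulVec_smul, smul_smul, smul_smul]

end Cfsg.Agent.S0767
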