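import Cfsg.Statements.S0769
import Mathlib

set_option autoImplicit false
open Cfsg

namespace Cfsg.Agent.S0769

open Matrix

theorem card_lt_pairs (n : ℕ) :
    Fintype.card {p : Fin n × Fin n // p.2 < p.1} = n * (n - 1) / 2 := by
  rw [Fintype.card_subtype, Finset.card_filter, Fintype.sum_prod_type]
  have h1 : ∀ i : Fin n, ∑ j : Fin n, (if j < i then 1 else 0) = (i : ℕ) := by
    intro i
    rw [← Finset.card_filter]
    have h0 : (Finset.univ.filter (fun j : Fin n => j < i)) = Finset.Iio i := by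
      ext j
      simp
    rw [h0, Fin.card_Iio]
  rw [Finset.sum_congr rfl (fun i _ => h1 i), Fin.sum_univ_eq_sum_range (fun i => i) n,
    Finset.sum_range_id]

theorem lower_det {F : Type*} [Field F] {n : ℕ} (M : Matrix (Fin n) (Fin n) F)
    (hM : ∀ i j : Fin n, i < j → M i j = 0) : M.det = ∏ i, M i i := by
  apply Matrix.det_of_isLowerTriangular
  intro i j hij
  exact hM i j (by simpa using hij)

theorem diag_ne_zero {F : Type*} [Field F] {n : ℕ} (g : GL (Fin n) F)
    (hg : ∀ i j : Fin n, i < j → (g : Matrix (Fin n) (Fin n) F) i j = 0) (i : Fin n) :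
    (g : Matrix (Fin n) (Fin n) F) i i ≠ 0 := by
  have h1 := (Matrix.isUnits_det_units g).ne_zero
  rw [lower_det _ hg, Finset.prod_ne_zero_iff] at h1
  exact h1 i (Finset.mem_univ i)

/-- The matrix built from strictly lower entries and a diagonal. -/
def lowMat {F : Type*} [Field F] {n : ℕ}
    (x : ({p : Fin n × Fin n // p.2 < p.1} → F) × (Fin n → Fˣ)) : Matrix (Fin n) (Fin n) F :=
  Matrix.of fun i j => if h : j < i then x.1 ⟨(i, j), h⟩ else if i = j then (x.2 i : F) else 0

theorem lowMat_lower {F : Type*} [Field F] {n : ℕ}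
    (x : ({p : Fin n × Fin n // p.2 < p.1} → F) × (Fin n → Fˣ)) (i j : Fin n) (hij : i < j) :
    lowMat x i j = 0 := by
  have h1 : ¬ j < i := not_lt.2 hij.le
  have h2 : i ≠ j := ne_of_lt hij
  simp [lowMat, h1, h2]

theorem lowMat_diag {F : Type*} [Field F] {n : ℕ}
    (x : ({p : Fin n × Fin n // p.2 < p.1} → F) × (Fin n → Fˣ)) (i : Fin n) :
    lowMat x i i = (x.2 i : F) := by
  simp [lowMat]

theorem lowMat_low {F : Type*} [Field F] {n : ℕ}
    (x : ({p : Fin n × Fin n // p.2 < p.1} → F) × (Fin n → Fˣ)) (i j : Fin n) (hij : j < i) :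
    lowMat x i j = x.1 ⟨(i, j), hij⟩ := by
  simp [lowMat, hij]

theorem lowMat_det {F : Type*} [Field F] {n : ℕ}
    (x : ({p : Fin n × Fin n // p.2 < p.1} → F) × (Fin n → Fˣ)) : (lowMat x).det ≠ 0 := by
  rw [lower_det _ (lowMat_lower x), Finset.prod_ne_zero_iff]
  intro i _
  rw [lowMat_diag]
  exact (x.2 i).ne_zero

/-- The parametrisation of the lower triangular group. -/
noncomputable def lowerEquiv {F : Type*} [Field F] (n : ℕ) :
    {g : GL (Fin n) F // ∀ i j : Fin n, i < j → (g : Matrix (Fin n) (Fin n) F) i j = 0} ≃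
      ({p : Fin n × Fin n // p.2 < p.1} → F) × (Fin n → Fˣ) where
  toFun g := (fun p => (g.1 : Matrix (Fin n) (Fin n) F) p.1.1 p.1.2,
    fun i => Units.mk0 ((g.1 : Matrix (Fin n) (Fin n) F) i i) (diag_ne_zero g.1 g.2 i))
  invFun x := ⟨Matrix.GeneralLinearGroup.mkOfDetNeZero (lowMat x) (lowMat_det x),
    fun i j hij => lowMat_lower x i j hij⟩
  left_inv := by
    rintro ⟨g, hg⟩
    apply Subtype.ext
    apply Units.ext
    ext i j
    show lowMat _ i j = (g : Matrix (Fin n) (Fin n) F) i j
    rcases lt_trichotomy i j with h | h | h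
    · rw [lowMat_lower _ i j h, hg i j h]
    · subst h
      rw [lowMat_diag]
      rfl
    · rw [lowMat_low _ i j h]
  right_inv := by
    rintro ⟨f, d⟩
    apply Prod.ext
    · funext p
      obtain ⟨⟨i, j⟩, hp⟩ := p
      show lowMat (f, d) i j = f ⟨(i, j), hp⟩
      rw [lowMat_low _ i j hp]
    · funext i
      apply Units.ext
      show lowMat (f, d) i i = d i
      rw [lowMat_diag]

theorem card_lower {F : Type*} [Field F] [Fintype F] (n : ℕ) :
    Nat.card {g : GL (Fin n) F // ∀ i j : Fin n, i < j → (g : Matrix (Fin n) (Fin n) F) i j = 0} =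
      (Fintype.card F) ^ (n * (n - 1) / 2) * (Fintype.card F - 1) ^ n := by
  rw [Nat.card_congr (lowerEquiv n), Nat.card_prod, Nat.card_fun, Nat.card_fun,
    Nat.card_eq_fintype_card (α := {p : Fin n × Fin n // p.2 < p.1}), card_lt_pairs,
    Nat.card_units, Nat.card_eq_fintype_card, Nat.card_eq_fintype_card, Fintype.card_fin]

/-- Order of the Borel subgroup of GL_n(q): the invertible lower-triangular n × n matrices over a field with q elements number q^(n(n-1)/2) (q-1)^n (unitriangular part times the diagonal torus). -/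
theorem result {F : Type*} [Field F] [Fintype F] {q : ℕ} (hF : Fintype.card F = q) (n : ℕ) : Nat.card {g : Matrix.GeneralLinearGroup (Fin n) F // ∀ i j : Fin n, i < j → (g : Matrix (Fin n) (Fin n) F) i j = 0} = q ^ (n * (n - 1) / 2) * (q - 1) ^ n := by
  subst hF
  exact card_lower n

end Cfsg.Agent.S0769
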