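import Cfsg.Statements.S0770
import Mathlib

set_option autoImplicit false
open Cfsg

namespace Cfsg.Agent.S0770

theorem mem_D_iff {F : Type*} [Field F] (n : ℕ) (h : Matrix.GeneralLinearGroup (Fin n) F) :
    h ∈ (Units.map (Matrix.diagonalRingHom (Fin n) F).toMonoidHom).range ↔
      ∀ i j : Fin n, i ≠ j → (h : Matrix (Fin n) (Fin n) F) i j = 0 := by
  constructor
  · rintro ⟨u, rfl⟩ i j hij
    simp [Matrix.diagonal_apply_ne _ hij]
  · intro hd
    have h1 : ∀ i, (h : Matrix (Fin n) (Fin n) F) i i *
        ((h⁻¹ : Matrix.GeneralLinearGroup (Fin n) F) : Matrix (Fin n) (Fin n) F) i i = 1 := by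
      intro i
      have h0 := congrFun (congrFun (congrArg (fun x : Matrix.GeneralLinearGroup (Fin n) F =>
        (x : Matrix (Fin n) (Fin n) F)) (mul_inv_cancel h)) i) i
      simp only [Units.val_mul, Matrix.mul_apply, Units.val_one, Matrix.one_apply_eq] at h0
      rw [Finset.sum_eq_single i] at h0
      · exact h0
      · intro k _ hk
        rw [hd i k (Ne.symm hk), zero_mul]
      · simp
    have h2 : ∀ i, ((h⁻¹ : Matrix.GeneralLinearGroup (Fin n) F) : Matrix (Fin n) (Fin n) F) i i *
        (h : Matrix (Fin n) (Fin n) F) i i = 1 := by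
      intro i
      rw [mul_comm]
      exact h1 i
    refine ⟨⟨fun i => (h : Matrix (Fin n) (Fin n) F) i i,
      fun i => ((h⁻¹ : Matrix.GeneralLinearGroup (Fin n) F) : Matrix (Fin n) (Fin n) F) i i,
      funext h1, funext h2⟩, ?_⟩
    apply Units.ext
    ext i j
    by_cases hij : i = j
    · subst hij
      simp
    · simp [Matrix.diagonal_apply_ne _ hij, hd i j hij]

theorem coe_eq_diagonal {F : Type*} [Field F] (n : ℕ) (h : Matrix.GeneralLinearGroup (Fin n) F)
    (hd : ∀ i j : Fin n, i ≠ j → (h : Matrix (Fin n) (Fin n) F) i j = 0) :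
    (h : Matrix (Fin n) (Fin n) F) = Matrix.diagonal (fun i => (h : Matrix (Fin n) (Fin n) F) i i) := by
  ext i j
  by_cases hij : i = j
  · subst hij
    simp
  · simp [Matrix.diagonal_apply_ne _ hij, hd i j hij]

theorem exists_row_ne_zero {F : Type*} [Field F] (n : ℕ) (g : Matrix.GeneralLinearGroup (Fin n) F)
    (i : Fin n) : ∃ j, (g : Matrix (Fin n) (Fin n) F) i j ≠ 0 := by
  by_contra hcon
  push Not at hcon
  have h0 := congrFun (congrFun (congrArg (fun x : Matrix.GeneralLinearGroup (Fin n) F =>
    (x : Matrix (Fin n) (Fin n) F)) (mul_inv_cancel g)) i) i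
  simp only [Units.val_mul, Matrix.mul_apply, Units.val_one, Matrix.one_apply_eq] at h0
  rw [Finset.sum_eq_zero] at h0
  · exact zero_ne_one h0
  · intro k _
    rw [hcon k, zero_mul]

theorem exists_col_ne_zero {F : Type*} [Field F] (n : ℕ) (g : Matrix.GeneralLinearGroup (Fin n) F)
    (j : Fin n) : ∃ i, (g : Matrix (Fin n) (Fin n) F) i j ≠ 0 := by
  by_contra hcon
  push Not at hcon
  have h0 := congrFun (congrFun (congrArg (fun x : Matrix.GeneralLinearGroup (Fin n) F =>
    (x : Matrix (Fin n) (Fin n) F)) (inv_mul_cancel g)) j) j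
  simp only [Units.val_mul, Matrix.mul_apply, Units.val_one, Matrix.one_apply_eq] at h0
  rw [Finset.sum_eq_zero] at h0
  · exact zero_ne_one h0
  · intro k _
    rw [hcon k, mul_zero]

/-- For a field with at least 3 elements, an invertible matrix normalises the subgroup of invertible diagonal matrices of GL_n if and only if it is monomial (exactly one non-zero entry in each row). -/
theorem result {F : Type*} [Field F] (hF : ∃ a : F, a ≠ 0 ∧ a ≠ 1) (n : ℕ) (g : Matrix.GeneralLinearGroup (Fin n) F) : g ∈ Subgroup.normalizer ((Units.map (Matrix.diagonalRingHom (Fin n) F).toMonoidHom).range : Subgroup (Matrix.GeneralLinearGroup (Fin n) F)) ↔ ∀ i : Fin n, ∃! j : Fin n, (g : Matrix (Fin n) (Fin n) F) i j ≠ 0 := by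
  constructor
  · intro hg i
    obtain ⟨j, hj⟩ := exists_row_ne_zero n g i
    refine ⟨j, hj, ?_⟩
    intro k hk
    by_contra hkj
    obtain ⟨a, ha0, ha1⟩ := hF
    let u : (Fin n → F)ˣ := ⟨Function.update 1 j a, Function.update 1 j a⁻¹, by
      ext l
      by_cases hl : l = j
      · subst hl; simp [mul_inv_cancel₀ ha0]
      · simp [Function.update_of_ne hl], by
      ext l
      by_cases hl : l = j
      · subst hl; simp [inv_mul_cancel₀ ha0]
      · simp [Function.update_of_ne hl]⟩
    have hdD : Units.map (Matrix.diagonalRingHom (Fin n) F).toMonoidHom u ∈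
        (Units.map (Matrix.diagonalRingHom (Fin n) F).toMonoidHom).range := ⟨u, rfl⟩
    have hconj := (Subgroup.mem_normalizer_iff.mp hg _).mp hdD
    rw [mem_D_iff] at hconj
    have hmat : ((g * Units.map (Matrix.diagonalRingHom (Fin n) F).toMonoidHom u * g⁻¹ :
        Matrix.GeneralLinearGroup (Fin n) F) : Matrix (Fin n) (Fin n) F) *
          (g : Matrix (Fin n) (Fin n) F) =
        (g : Matrix (Fin n) (Fin n) F) * Matrix.diagonal (Function.update 1 j a) := by
      have h0 : g * Units.map (Matrix.diagonalRingHom (Fin n) F).toMonoidHom u * g⁻¹ * g =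
          g * Units.map (Matrix.diagonalRingHom (Fin n) F).toMonoidHom u := by group
      have h1 := congrArg (fun x : Matrix.GeneralLinearGroup (Fin n) F =>
        (x : Matrix (Fin n) (Fin n) F)) h0
      simpa [u] using h1
    rw [coe_eq_diagonal n _ hconj] at hmat
    have e1 := congrFun (congrFun hmat i) j
    have e2 := congrFun (congrFun hmat i) k
    rw [Matrix.diagonal_mul, Matrix.mul_diagonal] at e1 e2
    rw [Function.update_self] at e1
    rw [Function.update_of_ne hkj] at e2
    simp only [Pi.one_apply, mul_one] at e2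
    have e3 := mul_right_cancel₀ hk (e2.trans (one_mul _).symm)
    rw [e3, one_mul] at e1
    apply ha1
    have e4 : (g : Matrix (Fin n) (Fin n) F) i j * 1 = (g : Matrix (Fin n) (Fin n) F) i j * a := by
      rw [mul_one]; exact e1
    exact (mul_left_cancel₀ hj e4).symm
  · intro hmono
    choose σ hσ1 hσ2 using hmono
    have hzero : ∀ i l, l ≠ σ i → (g : Matrix (Fin n) (Fin n) F) i l = 0 := by
      intro i l hl
      by_contra h
      exact hl (hσ2 i l h)
    have hsurj : Function.Surjective σ := by
      intro j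
      obtain ⟨i, hi⟩ := exists_col_ne_zero n g j
      exact ⟨i, (hσ2 i j hi).symm⟩
    rw [Subgroup.mem_normalizer_iff]
    intro h
    have hgh : ((g * h * g⁻¹ : Matrix.GeneralLinearGroup (Fin n) F) : Matrix (Fin n) (Fin n) F) *
        (g : Matrix (Fin n) (Fin n) F) = (g : Matrix (Fin n) (Fin n) F) *
          (h : Matrix (Fin n) (Fin n) F) := by
      have h0 : g * h * g⁻¹ * g = g * h := by group
      have h1 := congrArg (fun x : Matrix.GeneralLinearGroup (Fin n) F =>
        (x : Matrix (Fin n) (Fin n) F)) h0
      simpa using h1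
    have hinj : Function.Injective (fun M : Matrix (Fin n) (Fin n) F =>
        M * (g : Matrix (Fin n) (Fin n) F)) := by
      intro M N hMN
      have h1 := congrArg (fun X : Matrix (Fin n) (Fin n) F =>
        X * ((g⁻¹ : Matrix.GeneralLinearGroup (Fin n) F) : Matrix (Fin n) (Fin n) F)) hMN
      simpa [Matrix.mul_assoc] using h1
    constructor
    · intro hD
      rw [mem_D_iff] at hD ⊢
      have hdiag : ((g * h * g⁻¹ : Matrix.GeneralLinearGroup (Fin n) F) :
          Matrix (Fin n) (Fin n) F) =
          Matrix.diagonal (fun i => (h : Matrix (Fin n) (Fin n) F) (σ i) (σ i)) := by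
        apply hinj
        show _ * (g : Matrix (Fin n) (Fin n) F) = _ * (g : Matrix (Fin n) (Fin n) F)
        rw [hgh]
        ext i j
        rw [Matrix.diagonal_mul, Matrix.mul_apply, Finset.sum_eq_single j]
        · by_cases hj : j = σ i
          · rw [hj, mul_comm]
          · rw [hzero i j hj, zero_mul, mul_zero]
        · intro l _ hl
          rw [hD l j hl, mul_zero]
        · simp
      intro i j hij
      rw [hdiag, Matrix.diagonal_apply_ne _ hij]
    · intro hD
      rw [mem_D_iff] at hD ⊢
      rw [coe_eq_diagonal n _ hD] at hgh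
      intro k j hkj
      obtain ⟨i, rfl⟩ := hsurj k
      have e1 := congrFun (congrFun hgh i) j
      rw [Matrix.diagonal_mul, Matrix.mul_apply, Finset.sum_eq_single (σ i), hzero i j (Ne.symm hkj),
        mul_zero] at e1
      · exact (mul_eq_zero.mp e1.symm).resolve_left (hσ1 i)
      · intro l _ hl
        rw [hzero i l hl, zero_mul]
      · simp

end Cfsg.Agent.S0770
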