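import Cfsg.Statements.S0772
import Mathlib
import Cfsg.Agent.Lib.Helper5.Parab

set_option autoImplicit false
open Cfsg

namespace Cfsg.Agent.S0772

open Matrix Cfsg.Agent.Lib.Helper5.Parab

/-- Elementary transvections as elements of the general linear group. -/
noncomputable def tv {F : Type*} [Field F] {n : ℕ} (i j : Fin n) (h : i ≠ j) (c : F) :
    GL (Fin n) F :=
  Matrix.GeneralLinearGroup.mkOfDetNeZero (Matrix.transvection i j c)
    (by rw [Matrix.det_transvection_of_ne _ _ h]; exact one_ne_zero)

theorem tv_coe {F : Type*} [Field F] {n : ℕ} (i j : Fin n) (h : i ≠ j) (c : F) :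
    ((tv i j h c : GL (Fin n) F) : Matrix (Fin n) (Fin n) F) = 1 + Matrix.single i j c := rfl

theorem tv_comm {F : Type*} [Field F] {n : ℕ} (i a j : Fin n) (hia : i ≠ a) (haj : a ≠ j)
    (hij : i ≠ j) (c : F) :
    tv i j hij c * tv a j haj c * tv i a hia 1 = tv i a hia 1 * tv a j haj c := by
  apply Units.ext
  simp only [Units.val_mul, tv_coe]
  simp only [mul_add, add_mul, mul_one, one_mul]
  rw [Matrix.single_mul_single_of_ne (c := c) i j a (Ne.symm haj) c,
    Matrix.single_mul_single_of_ne (c := c) i j i (Ne.symm hij) 1,
    Matrix.single_mul_single_of_ne (c := c) a j i (Ne.symm hij) 1,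
    Matrix.single_mul_single_same]
  simp only [one_mul, mul_one, add_zero, zero_mul, zero_add]
  abel

theorem updateCol_det {F : Type*} [Field F] {n : ℕ} (a : Fin n) (v : Fin n → F) :
    ((1 : Matrix (Fin n) (Fin n) F).updateCol a v).det = v a := by
  rw [← Matrix.cramer_apply, Matrix.cramer_one]
  rfl

/-- Maximal parabolics are maximal: over a finite field, for 0 < k < n the stabiliser in GL_n of the span of the first k coordinate vectors is a maximal proper subgroup. -/
theorem result {F : Type*} [Field F] [Finite F] (n k : ℕ) (hk0 : 0 < k) (hkn : k < n) : IsCoatom (Cfsg.stabilizing (Cfsg.glToMat (Fin n) F) {v : Fin n → F | ∀ i : Fin n, k ≤ (i : ℕ) → v i = 0}) := by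
  have hk : k ≤ n := hkn.le
  constructor
  · intro htop
    have hne : (⟨k, hkn⟩ : Fin n) ≠ ⟨0, by omega⟩ := by
      intro h'
      have := congrArg Fin.val h'
      simp only at this
      omega
    have h1 : tv (⟨k, hkn⟩ : Fin n) ⟨0, by omega⟩ hne (1 : F) ∈
        Cfsg.stabilizing (Cfsg.glToMat (Fin n) F)
          {v : Fin n → F | ∀ i : Fin n, k ≤ (i : ℕ) → v i = 0} := by
      rw [htop]; trivial
    rw [mem_stab_iff n k hk] at h1
    have h2 := h1 ⟨k, hkn⟩ ⟨0, by omega⟩ le_rfl hk0
    rw [tv_coe, Matrix.add_apply, Matrix.one_apply_ne hne, zero_add, Matrix.single_apply_same] at h2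
    exact one_ne_zero h2
  · intro H hPH
    obtain ⟨h, hhH, hhP⟩ := SetLike.exists_of_lt hPH
    have hP_le : ∀ g, g ∈ Cfsg.stabilizing (Cfsg.glToMat (Fin n) F)
          {v : Fin n → F | ∀ i : Fin n, k ≤ (i : ℕ) → v i = 0} → g ∈ H := fun g hg => hPH.le hg
    -- step 1
    have hinvP : h⁻¹ ∉ Cfsg.stabilizing (Cfsg.glToMat (Fin n) F)
          {v : Fin n → F | ∀ i : Fin n, k ≤ (i : ℕ) → v i = 0} := by
      intro hc
      exact hhP (by simpa using Subgroup.inv_mem _ hc)
    rw [mem_stab_iff n k hk] at hinvP
    push Not at hinvP
    obtain ⟨a, b, hak, hbk, hab⟩ := hinvP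
    -- step 2
    set v : Fin n → F := fun y => ((h⁻¹ : GL (Fin n) F) : Matrix (Fin n) (Fin n) F) y b with hv
    set p : GL (Fin n) F := Matrix.GeneralLinearGroup.mkOfDetNeZero
      ((1 : Matrix (Fin n) (Fin n) F).updateCol a v) (by rw [updateCol_det]; exact hab) with hp
    have hpP : p ∈ Cfsg.stabilizing (Cfsg.glToMat (Fin n) F)
          {v : Fin n → F | ∀ i : Fin n, k ≤ (i : ℕ) → v i = 0} := by
      rw [mem_stab_iff n k hk]
      intro x y hx hy
      show ((1 : Matrix (Fin n) (Fin n) F).updateCol a v) x y = 0
      have hya : y ≠ a := by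
        intro h'
        rw [h'] at hy
        omega
      have hxy : x ≠ y := by
        intro h'
        rw [h'] at hx
        omega
      rw [Matrix.updateCol_ne hya, Matrix.one_apply_ne hxy]
    set h' : GL (Fin n) F := h * p with hh'
    have hh'H : h' ∈ H := H.mul_mem hhH (hP_le p hpP)
    have hcol : ∀ x : Fin n, (h' : Matrix (Fin n) (Fin n) F) x a =
        (1 : Matrix (Fin n) (Fin n) F) x b := by
      intro x
      have h1 : (h' : Matrix (Fin n) (Fin n) F) x a =
          ∑ y, (h : Matrix (Fin n) (Fin n) F) x y * v y := by
        rw [hh', Units.val_mul, Matrix.mul_apply]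
        apply Finset.sum_congr rfl
        intro y _
        congr 1
        show ((1 : Matrix (Fin n) (Fin n) F).updateCol a v) y a = v y
        rw [Matrix.updateCol_self]
      rw [h1]
      have h2 : ((h : Matrix (Fin n) (Fin n) F) * ((h⁻¹ : GL (Fin n) F) : Matrix (Fin n) (Fin n) F))
          = 1 := by
        rw [← Units.val_mul, mul_inv_cancel, Units.val_one]
      rw [← h2, Matrix.mul_apply]
    -- step 3
    have hstep3 : ∀ (j : Fin n) (haj : a ≠ j) (c : F), tv a j haj c ∈ H := by
      intro j haj c
      have hq : h' * tv a j haj c * h'⁻¹ ∈ Cfsg.stabilizing (Cfsg.glToMat (Fin n) F)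
          {v : Fin n → F | ∀ i : Fin n, k ≤ (i : ℕ) → v i = 0} := by
        rw [mem_stab_iff n k hk]
        intro x y hx hy
        have hxy : x ≠ y := by
          intro h''
          rw [h''] at hx
          omega
        have hxb : x ≠ b := by
          intro h''
          rw [h''] at hx
          omega
        have e1 : ((h' * tv a j haj c * h'⁻¹ : GL (Fin n) F) : Matrix (Fin n) (Fin n) F) =
            1 + (h' : Matrix (Fin n) (Fin n) F) * Matrix.single a j c *
              ((h'⁻¹ : GL (Fin n) F) : Matrix (Fin n) (Fin n) F) := by
          rw [Units.val_mul, Units.val_mul, tv_coe, mul_add, add_mul, mul_one,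
            ← Units.val_mul, mul_inv_cancel, Units.val_one]
        rw [e1, Matrix.add_apply, Matrix.one_apply_ne hxy, zero_add, Matrix.mul_apply]
        apply Finset.sum_eq_zero
        intro z _
        have e2 : ((h' : Matrix (Fin n) (Fin n) F) * Matrix.single a j c) x z = 0 := by
          rw [Matrix.mul_apply]
          apply Finset.sum_eq_zero
          intro w _
          by_cases hw : w = a
          · subst hw
            rw [hcol, Matrix.one_apply_ne hxb, zero_mul]
          · rw [Matrix.single_apply_of_row_ne (Ne.symm hw), mul_zero]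
        rw [e2, zero_mul]
      have hq' := hP_le _ hq
      have e3 : tv a j haj c = h'⁻¹ * (h' * tv a j haj c * h'⁻¹) * h' := by group
      rw [e3]
      exact H.mul_mem (H.mul_mem (H.inv_mem hh'H) hq') hh'H
    -- step 5
    have hall : ∀ (i j : Fin n) (hij : i ≠ j) (c : F), tv i j hij c ∈ H := by
      intro i j hij c
      by_cases hC : k ≤ (i : ℕ) ∧ (j : ℕ) < k
      · by_cases hia : i = a
        · subst hia
          exact hstep3 j hij c
        · have haj : a ≠ j := by
            intro h''
            rw [← h''] at hC
            omega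
          have hiaP : tv i a hia (1 : F) ∈ H := by
            apply hP_le
            rw [mem_stab_iff n k hk]
            intro x y hx hy
            have hxy : x ≠ y := by
              intro h''
              rw [h''] at hx
              omega
            have hya : a ≠ y := by
              intro h''
              rw [← h''] at hy
              omega
            rw [tv_coe, Matrix.add_apply, Matrix.one_apply_ne hxy, zero_add,
              Matrix.single_apply_of_col_ne _ _ hya]
          have e4 : tv i j hij c = tv i a hia 1 * tv a j haj c * (tv i a hia 1)⁻¹ *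
              (tv a j haj c)⁻¹ := by
            have := tv_comm i a j hia haj hij c
            rw [← this]
            group
          rw [e4]
          exact H.mul_mem (H.mul_mem (H.mul_mem hiaP (hstep3 j haj c)) (H.inv_mem hiaP))
            (H.inv_mem (hstep3 j haj c))
      · apply hP_le
        rw [mem_stab_iff n k hk]
        intro x y hx hy
        have hxy : x ≠ y := by
          intro h''
          rw [h''] at hx
          omega
        rw [tv_coe, Matrix.add_apply, Matrix.one_apply_ne hxy, zero_add]
        by_cases hix : i = x
        · by_cases hjy : j = y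
          · exfalso
            apply hC
            rw [hix, hjy]
            exact ⟨hx, hy⟩
          · rw [Matrix.single_apply_of_col_ne _ _ hjy]
        · rw [Matrix.single_apply_of_row_ne hix]
    -- step 7
    rw [eq_top_iff]
    intro g _
    have key : ∀ M : Matrix (Fin n) (Fin n) F, M.det ≠ 0 →
        ∀ g : GL (Fin n) F, (g : Matrix (Fin n) (Fin n) F) = M → g ∈ H := by
      intro M hM
      refine Matrix.diagonal_transvection_induction_of_det_ne_zero
        (fun M => ∀ g : GL (Fin n) F, (g : Matrix (Fin n) (Fin n) F) = M → g ∈ H) M hM ?_ ?_ ?_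
      · intro D _ g hg
        apply hP_le
        rw [mem_stab_iff n k hk]
        intro x y hx hy
        have hxy : x ≠ y := by
          intro h''
          rw [h''] at hx
          omega
        rw [hg, Matrix.diagonal_apply_ne _ hxy]
      · intro t g hg
        have : g = tv t.i t.j t.hij t.c := by
          apply Units.ext
          rw [hg]
          rfl
        rw [this]
        exact hall _ _ _ _
      · intro A B hA hB ihA ihB g hg
        have : g = Matrix.GeneralLinearGroup.mkOfDetNeZero A hA *
            Matrix.GeneralLinearGroup.mkOfDetNeZero B hB := by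
          apply Units.ext
          rw [hg]
          rfl
        rw [this]
        exact H.mul_mem (ihA _ rfl) (ihB _ rfl)
    exact key _ (Matrix.isUnits_det_units g).ne_zero g rfl

end Cfsg.Agent.S0772
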