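import Cfsg.Statements.S0773
import Mathlib
import Cfsg.Agent.Lib.Helper5.Parab

set_option autoImplicit false
open Cfsg

namespace Cfsg.Agent.S0773

open Matrix Cfsg.Agent.Lib.Helper5.Parab

/-- Inverse transpose followed by reversal of the coordinates. -/
noncomputable def theta {F : Type*} [Field F] (n : ℕ) (g : GL (Fin n) F) : GL (Fin n) F :=
  ⟨((g⁻¹ : GL (Fin n) F) : Matrix (Fin n) (Fin n) F)ᵀ.submatrix Fin.revPerm Fin.revPerm,
   ((g : Matrix (Fin n) (Fin n) F))ᵀ.submatrix Fin.revPerm Fin.revPerm,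
   by rw [Matrix.submatrix_mul_equiv, ← Matrix.transpose_mul, ← Units.val_mul, mul_inv_cancel]; simp,
   by rw [Matrix.submatrix_mul_equiv, ← Matrix.transpose_mul, ← Units.val_mul, inv_mul_cancel]; simp⟩

theorem theta_apply {F : Type*} [Field F] (n : ℕ) (g : GL (Fin n) F) (a b : Fin n) :
    (theta n g : Matrix (Fin n) (Fin n) F) a b =
      ((g⁻¹ : GL (Fin n) F) : Matrix (Fin n) (Fin n) F) b.rev a.rev := rfl

theorem theta_inv_apply {F : Type*} [Field F] (n : ℕ) (g : GL (Fin n) F) (a b : Fin n) :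
    (((theta n g)⁻¹ : GL (Fin n) F) : Matrix (Fin n) (Fin n) F) a b =
      (g : Matrix (Fin n) (Fin n) F) b.rev a.rev := rfl

theorem theta_mul {F : Type*} [Field F] (n : ℕ) (g h : GL (Fin n) F) :
    theta n (g * h) = theta n g * theta n h := by
  apply Units.ext
  ext a b
  rw [theta_apply, Units.val_mul, Matrix.mul_apply, _root_.mul_inv_rev, Units.val_mul, Matrix.mul_apply]
  rw [← Equiv.sum_comp Fin.revPerm]
  apply Finset.sum_congr rfl
  intro j _
  rw [theta_apply, theta_apply, mul_comm]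
  rfl

theorem theta_theta {F : Type*} [Field F] (n : ℕ) (g : GL (Fin n) F) :
    theta n (theta n g) = g := by
  apply Units.ext
  ext a b
  rw [theta_apply, theta_inv_apply, Fin.rev_rev, Fin.rev_rev]

theorem theta_mem {F : Type*} [Field F] (n k : ℕ) (hk : k ≤ n) (g : GL (Fin n) F)
    (hg : g ∈ Cfsg.stabilizing (Cfsg.glToMat (Fin n) F)
      {v : Fin n → F | ∀ i : Fin n, k ≤ (i : ℕ) → v i = 0}) :
    theta n g ∈ Cfsg.stabilizing (Cfsg.glToMat (Fin n) F)
      {v : Fin n → F | ∀ i : Fin n, n - k ≤ (i : ℕ) → v i = 0} := by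
  rw [mem_stab_iff n (n - k) (Nat.sub_le n k)]
  intro a b ha hb
  rw [theta_apply]
  have hg' := Subgroup.inv_mem _ hg
  rw [mem_stab_iff n k hk] at hg'
  have h1 := a.isLt
  have h2 := b.isLt
  apply hg'
  · rw [Fin.val_rev]; omega
  · rw [Fin.val_rev]; omega

theorem iso {F : Type*} [Field F] (n k : ℕ) (hk : k ≤ n) :
    Nonempty (↥(Cfsg.stabilizing (Cfsg.glToMat (Fin n) F)
      {v : Fin n → F | ∀ i : Fin n, k ≤ (i : ℕ) → v i = 0}) ≃*
      ↥(Cfsg.stabilizing (Cfsg.glToMat (Fin n) F)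
      {v : Fin n → F | ∀ i : Fin n, n - k ≤ (i : ℕ) → v i = 0})) := by
  refine ⟨MulEquiv.ofBijective (MonoidHom.mk' (fun x => ⟨theta n x.1, theta_mem n k hk x.1 x.2⟩)
    (fun x y => Subtype.ext (theta_mul n x.1 y.1))) ⟨?_, ?_⟩⟩
  · intro x y hxy
    have h1 : theta n x.1 = theta n y.1 := congrArg Subtype.val hxy
    apply Subtype.ext
    rw [← theta_theta n x.1, h1, theta_theta]
  · rintro ⟨y, hy⟩
    have h1 := theta_mem n (n - k) (Nat.sub_le n k) y hy
    rw [Nat.sub_sub_self hk] at h1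
    exact ⟨⟨theta n y, h1⟩, Subtype.ext (theta_theta n y)⟩

/-- The elements `1 + w ⊗ e_a`. -/
noncomputable def elt {F : Type*} [Field F] {n : ℕ} (a : Fin n) (w : Fin n → F) (hw : w a = 0) :
    GL (Fin n) F :=
  Matrix.GeneralLinearGroup.mkOfDetNeZero (1 + Matrix.vecMulVec w (Pi.single a 1))
    (by
      rw [Matrix.vecMulVec_eq Unit, Matrix.det_one_add_replicateCol_mul_replicateRow,
        single_one_dotProduct, hw, add_zero]
      exact one_ne_zero)

theorem elt_mulVec {F : Type*} [Field F] {n : ℕ} (a : Fin n) (w : Fin n → F) (hw : w a = 0)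
    (u : Fin n → F) :
    ((elt a w hw : GL (Fin n) F) : Matrix (Fin n) (Fin n) F) *ᵥ u = u + u a • w := by
  show (1 + Matrix.vecMulVec w (Pi.single a 1)) *ᵥ u = _
  rw [Matrix.add_mulVec, Matrix.one_mulVec, Matrix.vecMulVec_mulVec, single_one_dotProduct,
    op_smul_eq_smul]

theorem elt_apply {F : Type*} [Field F] {n : ℕ} (a : Fin n) (w : Fin n → F) (hw : w a = 0)
    (x y : Fin n) :
    ((elt a w hw : GL (Fin n) F) : Matrix (Fin n) (Fin n) F) x y =
      (1 : Matrix (Fin n) (Fin n) F) x y + w x * (Pi.single a (1 : F) : Fin n → F) y := rfl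

/-- The coordinate subspace as a submodule. -/
def Wsub (F : Type*) [Field F] (n k : ℕ) : Submodule F (Fin n → F) where
  carrier := {v : Fin n → F | ∀ i : Fin n, k ≤ (i : ℕ) → v i = 0}
  add_mem' := by
    intro a b ha hb i hi
    simp [ha i hi, hb i hi]
  zero_mem' := by
    intro i _
    rfl
  smul_mem' := by
    intro c a ha i hi
    simp [ha i hi]

theorem mem_Wsub {F : Type*} [Field F] (n k : ℕ) (v : Fin n → F) :
    v ∈ Wsub F n k ↔ ∀ i : Fin n, k ≤ (i : ℕ) → v i = 0 := Iff.rfl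

theorem finrank_Wsub {F : Type*} [Field F] (n k : ℕ) (hk : k ≤ n) :
    Module.finrank F (Wsub F n k) = k := by
  have h1 : Wsub F n k =
      LinearMap.ker (LinearMap.funLeft F F (fun i : Fin (n - k) => eqv n k hk (Sum.inr i))) := by
    ext v
    rw [mem_Wsub, LinearMap.mem_ker]
    have h2 := Set.ext_iff.1 (coord_set_eq (F := F) n k hk) v
    simp only [Set.mem_ofPred_eq] at h2
    rw [h2]
    constructor
    · intro h
      funext i
      exact h i
    · intro h i
      exact congrFun h i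
  have h3 : Function.Surjective
      (LinearMap.funLeft F F (fun i : Fin (n - k) => eqv n k hk (Sum.inr i))) := by
    apply LinearMap.funLeft_surjective_of_injective
    intro i j hij
    exact Sum.inr_injective ((eqv n k hk).injective hij)
  have h4 := LinearMap.finrank_range_add_finrank_ker
    (LinearMap.funLeft F F (fun i : Fin (n - k) => eqv n k hk (Sum.inr i)))
  rw [LinearMap.range_eq_top.2 h3, finrank_top, ← h1] at h4
  simp only [Module.finrank_fintype_fun_eq_card, Fintype.card_fin] at h4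
  omega

theorem invariant_eq {F : Type*} [Field F] (n k : ℕ) (hkn : k < n)
    (U : Submodule F (Fin n → F))
    (hU : ∀ p ∈ Cfsg.stabilizing (Cfsg.glToMat (Fin n) F)
      {v : Fin n → F | ∀ i : Fin n, k ≤ (i : ℕ) → v i = 0},
      ∀ u ∈ U, (p : Matrix (Fin n) (Fin n) F) *ᵥ u ∈ U)
    (hU0 : U ≠ ⊥) (hU1 : U ≠ ⊤) : U = Wsub F n k := by
  have hk : k ≤ n := hkn.le
  -- the basic step
  have hstep : ∀ (a : Fin n) (u : Fin n → F), u ∈ U → u a ≠ 0 → ∀ (x : Fin n → F) (hx : x a = 0),
      elt a x hx ∈ Cfsg.stabilizing (Cfsg.glToMat (Fin n) F)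
      {v : Fin n → F | ∀ i : Fin n, k ≤ (i : ℕ) → v i = 0} → x ∈ U := by
    intro a u hu hua x hx hmem
    have h1 := hU _ hmem u hu
    rw [elt_mulVec] at h1
    have h2 : u a • x ∈ U := by
      have := U.sub_mem h1 hu
      simpa using this
    have h3 := U.smul_mem (u a)⁻¹ h2
    rwa [smul_smul, inv_mul_cancel₀ hua, one_smul] at h3
  have hle : U ≤ Wsub F n k := by
    intro u hu
    by_contra hcon
    rw [mem_Wsub] at hcon
    push Not at hcon
    obtain ⟨a, hak, hua⟩ := hcon
    apply hU1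
    rw [eq_top_iff]
    intro z _
    have hx : (z - (z a / u a) • u) a = 0 := by
      simp only [Pi.sub_apply, Pi.smul_apply, smul_eq_mul]
      field_simp
      ring
    have h1 : z - (z a / u a) • u ∈ U := by
      apply hstep a u hu hua _ hx
      rw [mem_stab_iff n k hk]
      intro x y hx' hy'
      have hxy : x ≠ y := by
        intro h''
        rw [h''] at hx'
        omega
      have hya : a ≠ y := by
        intro h''
        rw [← h''] at hy'
        omega
      rw [elt_apply, Matrix.one_apply_ne hxy, Pi.single_eq_of_ne' hya, mul_zero, add_zero]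
    have h2 := U.add_mem h1 (U.smul_mem (z a / u a) hu)
    simpa using h2
  apply le_antisymm hle
  obtain ⟨u, hu, hu0⟩ := Submodule.exists_mem_ne_zero_of_ne_bot hU0
  obtain ⟨b, hub⟩ := Function.ne_iff.1 hu0
  have hub' : u b ≠ 0 := hub
  have huW := hle hu
  rw [mem_Wsub] at huW
  have hbk : (b : ℕ) < k := by
    by_contra hcon
    exact hub' (huW b (by omega))
  intro z hz
  rw [mem_Wsub] at hz
  have hx : (z - (z b / u b) • u) b = 0 := by
    simp only [Pi.sub_apply, Pi.smul_apply, smul_eq_mul]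
    field_simp
    ring
  have h1 : z - (z b / u b) • u ∈ U := by
    apply hstep b u hu hub' _ hx
    rw [mem_stab_iff n k hk]
    intro x y hx' hy'
    have hxy : x ≠ y := by
      intro h''
      rw [h''] at hx'
      omega
    rw [elt_apply, Matrix.one_apply_ne hxy, zero_add]
    have : (z - (z b / u b) • u) x = 0 := by
      simp only [Pi.sub_apply, Pi.smul_apply, smul_eq_mul]
      rw [hz x hx', huW x hx']
      ring
    rw [this, zero_mul]
  have h2 := U.add_mem h1 (U.smul_mem (z b / u b) hu)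
  simpa using h2

/-- The stabilisers in GL_n(F), F finite, of the coordinate subspaces of dimensions k and n − k are isomorphic groups, but when 2k ≠ n (and 0 < k < n) no element of GL_n conjugates one onto the other. -/
theorem result {F : Type*} [Field F] [Finite F] (n k : ℕ) (hk0 : 0 < k) (hkn : k < n) (h2 : 2 * k ≠ n) : Nonempty (↥(Cfsg.stabilizing (Cfsg.glToMat (Fin n) F) {v : Fin n → F | ∀ i : Fin n, k ≤ (i : ℕ) → v i = 0}) ≃* ↥(Cfsg.stabilizing (Cfsg.glToMat (Fin n) F) {v : Fin n → F | ∀ i : Fin n, n - k ≤ (i : ℕ) → v i = 0})) ∧ ∀ g : Matrix.GeneralLinearGroup (Fin n) F, (Cfsg.stabilizing (Cfsg.glToMat (Fin n) F) {v : Fin n → F | ∀ i : Fin n, k ≤ (i : ℕ) → v i = 0}).map (MulAut.conj g).toMonoidHom ≠ Cfsg.stabilizing (Cfsg.glToMat (Fin n) F) {v : Fin n → F | ∀ i : Fin n, n - k ≤ (i : ℕ) → v i = 0} := by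
  have hk : k ≤ n := hkn.le
  refine ⟨iso n k hk, ?_⟩
  intro g hconj
  set L : (Fin n → F) ≃ₗ[F] (Fin n → F) :=
    Matrix.toLin'OfInv (M := ((g⁻¹ : GL (Fin n) F) : Matrix (Fin n) (Fin n) F))
      (M' := (g : Matrix (Fin n) (Fin n) F))
      (by rw [← Units.val_mul, inv_mul_cancel, Units.val_one])
      (by rw [← Units.val_mul, mul_inv_cancel, Units.val_one]) with hL
  have hLapp : ∀ v, L v = (g : Matrix (Fin n) (Fin n) F) *ᵥ v := by
    intro v
    rfl
  set U : Submodule F (Fin n → F) := (Wsub F n (n - k)).comap (L : (Fin n → F) →ₗ[F] (Fin n → F))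
    with hUdef
  have hmemU : ∀ v, v ∈ U ↔ L v ∈ Wsub F n (n - k) := fun v => Iff.rfl
  have hUinv : ∀ p ∈ Cfsg.stabilizing (Cfsg.glToMat (Fin n) F)
      {v : Fin n → F | ∀ i : Fin n, k ≤ (i : ℕ) → v i = 0},
      ∀ u ∈ U, (p : Matrix (Fin n) (Fin n) F) *ᵥ u ∈ U := by
    intro p hp u hu
    have h1 : (MulAut.conj g).toMonoidHom p ∈ Cfsg.stabilizing (Cfsg.glToMat (Fin n) F)
        {v : Fin n → F | ∀ i : Fin n, n - k ≤ (i : ℕ) → v i = 0} := by
      rw [← hconj]
      exact Subgroup.mem_map_of_mem _ hp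
    have h3 := (h1 (L u)).1 ((hmemU u).1 hu)
    rw [hmemU, hLapp]
    have h4 : (Cfsg.glToMat (Fin n) F) ((MulAut.conj g).toMonoidHom p) *ᵥ L u =
        (g : Matrix (Fin n) (Fin n) F) *ᵥ ((p : Matrix (Fin n) (Fin n) F) *ᵥ u) := by
      rw [hLapp]
      show ((g * p * g⁻¹ : GL (Fin n) F) : Matrix (Fin n) (Fin n) F) *ᵥ
        ((g : Matrix (Fin n) (Fin n) F) *ᵥ u) = _
      rw [Matrix.mulVec_mulVec, Matrix.mulVec_mulVec, ← Units.val_mul, ← Units.val_mul]
      congr 2
      group
    rw [h4] at h3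
    exact h3
  have hU0 : U ≠ ⊥ := by
    intro hbot
    have h1 : L.symm (Pi.single (⟨0, by omega⟩ : Fin n) (1 : F)) ∈ U := by
      rw [hmemU, LinearEquiv.apply_symm_apply, mem_Wsub]
      intro i hi
      apply Pi.single_eq_of_ne
      intro h'
      rw [h'] at hi
      simp only at hi
      omega
    rw [hbot, Submodule.mem_bot] at h1
    have h2' := congrArg L h1
    rw [LinearEquiv.apply_symm_apply, map_zero] at h2'
    have h3 := congrFun h2' ⟨0, by omega⟩
    simp at h3
  have hU1 : U ≠ ⊤ := by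
    intro htop
    have h1 : L.symm (Pi.single (⟨n - 1, by omega⟩ : Fin n) (1 : F)) ∈ U := by
      rw [htop]; trivial
    rw [hmemU, LinearEquiv.apply_symm_apply, mem_Wsub] at h1
    have h3 := h1 ⟨n - 1, by omega⟩ (by simp only; omega)
    simp at h3
  have hUW := invariant_eq n k hkn U hUinv hU0 hU1
  have hfin1 : Module.finrank F U = n - k := by
    rw [(LinearEquiv.ofSubmodule' L (Wsub F n (n - k))).finrank_eq]
    exact finrank_Wsub n (n - k) (Nat.sub_le n k)
  rw [hUW, finrank_Wsub n k hk] at hfin1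
  omega

end Cfsg.Agent.S0773
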