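import Cfsg.Statements.S0774
import Mathlib
import Cfsg.Agent.S0769

set_option autoImplicit false
open Cfsg

namespace Cfsg.Agent.S0774

open Matrix

theorem mem_stabilizing_of_maps {H : Type*} [Group H] {ι : Type} [Fintype ι] [DecidableEq ι]
    {F : Type*} [CommRing F] (toMat : H →* Matrix ι ι F) (S : Set (ι → F)) (hS : S.Finite) (h : H)
    (hh : ∀ v ∈ S, toMat h *ᵥ v ∈ S) : h ∈ Cfsg.stabilizing toMat S := by
  intro v
  refine ⟨hh v, fun hv => ?_⟩
  have hinj : Function.Injective (fun v : ι → F => toMat h *ᵥ v) := by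
    intro a b hab
    have h1 := congrArg (fun w => toMat h⁻¹ *ᵥ w) hab
    simp only [Matrix.mulVec_mulVec, ← map_mul, inv_mul_cancel, map_one, Matrix.one_mulVec] at h1
    exact h1
  have hfin : Finite S := hS
  have hf : Function.Injective (fun v : S => (⟨toMat h *ᵥ v.1, hh v.1 v.2⟩ : S)) :=
    fun a b hab => Subtype.ext (hinj (congrArg Subtype.val hab))
  obtain ⟨w, hw⟩ := (Finite.injective_iff_surjective.1 hf) ⟨_, hv⟩
  have h2 : toMat h *ᵥ w.1 = toMat h *ᵥ v := congrArg Subtype.val hw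
  rw [← hinj h2]
  exact w.2

theorem mem_borel_iff {F : Type*} [Field F] [Finite F] (m : ℕ)
    (g : Matrix.symplecticGroup (Fin m) F) :
    g ∈ (⨅ k : Fin m, Cfsg.stabilizing (Cfsg.spToMat m F) {v : Fin m ⊕ Fin m → F | (∀ i : Fin m, (k : ℕ) < (i : ℕ) → v (Sum.inl i) = 0) ∧ ∀ i : Fin m, v (Sum.inr i) = 0}) ↔
      (∀ i j : Fin m, (g : Matrix (Fin m ⊕ Fin m) (Fin m ⊕ Fin m) F) (Sum.inr i) (Sum.inl j) = 0) ∧
      (∀ i j : Fin m, j < i →
        (g : Matrix (Fin m ⊕ Fin m) (Fin m ⊕ Fin m) F) (Sum.inl i) (Sum.inl j) = 0) := by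
  rw [Subgroup.mem_iInf]
  constructor
  · intro h
    have key : ∀ j : Fin m, ((g : Matrix (Fin m ⊕ Fin m) (Fin m ⊕ Fin m) F) *ᵥ
        Pi.single (Sum.inl j) 1) ∈ {v : Fin m ⊕ Fin m → F | (∀ i : Fin m, (j : ℕ) < (i : ℕ) → v (Sum.inl i) = 0) ∧ ∀ i : Fin m, v (Sum.inr i) = 0} := by
      intro j
      refine (h j (Pi.single (Sum.inl j) 1)).1 ⟨fun i hi => ?_, fun i => ?_⟩
      · apply Pi.single_eq_of_ne
        intro h'
        have h'' : i = j := Sum.inl_injective h'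
        rw [h''] at hi
        omega
      · apply Pi.single_eq_of_ne
        exact Sum.inr_ne_inl
    constructor
    · intro i j
      have h1 := (key j).2 i
      rw [Matrix.mulVec_single_one] at h1
      exact h1
    · intro i j hij
      have h1 := (key j).1 i hij
      rw [Matrix.mulVec_single_one] at h1
      exact h1
  · rintro ⟨hC, hA⟩ k
    apply mem_stabilizing_of_maps _ _ (Set.toFinite _)
    rintro v ⟨hv1, hv2⟩
    refine ⟨fun i hi => ?_, fun i => ?_⟩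
    · show ((g : Matrix (Fin m ⊕ Fin m) (Fin m ⊕ Fin m) F) *ᵥ v) (Sum.inl i) = 0
      simp only [Matrix.mulVec, dotProduct, Fintype.sum_sum_type]
      rw [Finset.sum_eq_zero, Finset.sum_eq_zero, add_zero]
      · intro j _
        rw [hv2 j, mul_zero]
      · intro j _
        by_cases hji : j < i
        · rw [hA i j hji, zero_mul]
        · rw [hv1 j (by
            have : (i : ℕ) ≤ (j : ℕ) := not_lt.1 hji
            omega), mul_zero]
    · show ((g : Matrix (Fin m ⊕ Fin m) (Fin m ⊕ Fin m) F) *ᵥ v) (Sum.inr i) = 0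
      simp only [Matrix.mulVec, dotProduct, Fintype.sum_sum_type]
      rw [Finset.sum_eq_zero, Finset.sum_eq_zero, add_zero]
      · intro j _
        rw [hv2 j, mul_zero]
      · intro j _
        rw [hC i j, zero_mul]

theorem card_le_pairs (n : ℕ) :
    Fintype.card {p : Fin n × Fin n // p.1 ≤ p.2} = n * (n + 1) / 2 := by
  rw [Fintype.card_subtype, Finset.card_filter, Fintype.sum_prod_type, Finset.sum_comm]
  have h1 : ∀ j : Fin n, ∑ i : Fin n, (if i ≤ j then 1 else 0) = (j : ℕ) + 1 := by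
    intro j
    rw [← Finset.card_filter]
    have h0 : (Finset.univ.filter (fun i : Fin n => i ≤ j)) = Finset.Iic j := by
      ext i
      simp
    rw [h0, Fin.card_Iic]
  rw [Finset.sum_congr rfl (fun i _ => h1 i), Fin.sum_univ_eq_sum_range (fun i => i + 1) n]
  have h2 : ∑ i ∈ Finset.range n, (i + 1) = ∑ i ∈ Finset.range (n + 1), i := by
    rw [Finset.sum_range_succ' (fun i => i) n]
    simp
  rw [h2, Finset.sum_range_id]
  simp [mul_comm]

/-- Symmetric matrices are parametrised by their upper triangle. -/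
def symEquiv {F : Type*} [Field F] (m : ℕ) :
    {S : Matrix (Fin m) (Fin m) F // Sᵀ = S} ≃ ({p : Fin m × Fin m // p.1 ≤ p.2} → F) where
  toFun S := fun p => S.1 p.1.1 p.1.2
  invFun f := ⟨Matrix.of fun i j => if h : i ≤ j then f ⟨(i, j), h⟩ else
      f ⟨(j, i), le_of_lt (not_le.1 h)⟩, by
    ext i j
    simp only [Matrix.transpose_apply, Matrix.of_apply]
    rcases lt_trichotomy i j with h | h | h
    · have h1 : i ≤ j := h.le
      have h2 : ¬ j ≤ i := not_le.2 h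
      simp [h1, h2]
    · subst h
      rfl
    · have h1 : j ≤ i := h.le
      have h2 : ¬ i ≤ j := not_le.2 h
      simp [h1, h2]⟩
  left_inv := by
    rintro ⟨S, hS⟩
    apply Subtype.ext
    ext i j
    simp only [Matrix.of_apply]
    by_cases h : i ≤ j
    · simp [h]
    · simp only [h, dite_false]
      have := congrFun (congrFun hS i) j
      rw [Matrix.transpose_apply] at this
      exact this
  right_inv := by
    intro f
    funext p
    obtain ⟨⟨i, j⟩, hp⟩ := p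
    have hp' : i ≤ j := hp
    simp [hp']

theorem card_sym {F : Type*} [Field F] [Fintype F] (m : ℕ) :
    Nat.card {S : Matrix (Fin m) (Fin m) F // Sᵀ = S} = (Fintype.card F) ^ (m * (m + 1) / 2) := by
  rw [Nat.card_congr (symEquiv m), Nat.card_fun,
    Nat.card_eq_fintype_card (α := {p : Fin m × Fin m // p.1 ≤ p.2}), card_le_pairs,
    Nat.card_eq_fintype_card]

/-- The matrix of the parametrisation. -/
noncomputable def psiMat {F : Type*} [Field F] (m : ℕ) (L : GL (Fin m) F)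
    (S : Matrix (Fin m) (Fin m) F) : Matrix (Fin m ⊕ Fin m) (Fin m ⊕ Fin m) F :=
  Matrix.fromBlocks (L : Matrix (Fin m) (Fin m) F)ᵀ ((L : Matrix (Fin m) (Fin m) F)ᵀ * S) 0
    ((L⁻¹ : GL (Fin m) F) : Matrix (Fin m) (Fin m) F)

theorem psiMat_mem {F : Type*} [Field F] (m : ℕ) (L : GL (Fin m) F)
    (S : Matrix (Fin m) (Fin m) F) (hS : Sᵀ = S) :
    psiMat m L S ∈ Matrix.symplecticGroup (Fin m) F := by
  rw [psiMat, SymplecticGroup.fromBlocks_mem_iff]
  have h1 : (L : Matrix (Fin m) (Fin m) F) * ((L⁻¹ : GL (Fin m) F) : Matrix (Fin m) (Fin m) F) = 1 := by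
    rw [← Units.val_mul, mul_inv_cancel, Units.val_one]
  refine ⟨by simp, ?_, ?_⟩
  · rw [Matrix.transpose_mul, Matrix.transpose_transpose, hS, Matrix.mul_assoc, h1, Matrix.mul_one,
      ← Matrix.mul_assoc, ← Matrix.transpose_mul, h1, Matrix.transpose_one, Matrix.one_mul]
  · rw [Matrix.transpose_transpose, h1]
    simp

theorem psiMat_injective {F : Type*} [Field F] (m : ℕ) (L L' : GL (Fin m) F)
    (S S' : Matrix (Fin m) (Fin m) F) (h : psiMat m L S = psiMat m L' S') : L = L' ∧ S = S' := by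
  rw [psiMat, psiMat, Matrix.fromBlocks_inj] at h
  obtain ⟨hA, hB, -, -⟩ := h
  have hL : L = L' := Units.ext (Matrix.transpose_injective hA)
  subst hL
  refine ⟨rfl, ?_⟩
  have h1 : ((L⁻¹ : GL (Fin m) F) : Matrix (Fin m) (Fin m) F)ᵀ * (L : Matrix (Fin m) (Fin m) F)ᵀ = 1 := by
    rw [← Matrix.transpose_mul, ← Units.val_mul, mul_inv_cancel, Units.val_one, Matrix.transpose_one]
  have h2 := congrArg (fun M => ((L⁻¹ : GL (Fin m) F) : Matrix (Fin m) (Fin m) F)ᵀ * M) hB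
  simp only [← Matrix.mul_assoc, h1, Matrix.one_mul] at h2
  exact h2

theorem exists_psiMat_eq {F : Type*} [Field F] [Finite F] (m : ℕ)
    (g : Matrix.symplecticGroup (Fin m) F)
    (hC : ∀ i j : Fin m, (g : Matrix (Fin m ⊕ Fin m) (Fin m ⊕ Fin m) F) (Sum.inr i) (Sum.inl j) = 0)
    (hA : ∀ i j : Fin m, j < i →
        (g : Matrix (Fin m ⊕ Fin m) (Fin m ⊕ Fin m) F) (Sum.inl i) (Sum.inl j) = 0) :
    ∃ (L : GL (Fin m) F) (S : Matrix (Fin m) (Fin m) F),
      (∀ i j : Fin m, i < j → (L : Matrix (Fin m) (Fin m) F) i j = 0) ∧ Sᵀ = S ∧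
      psiMat m L S = (g : Matrix (Fin m ⊕ Fin m) (Fin m ⊕ Fin m) F) := by
  obtain ⟨M, hM⟩ := g
  simp only at hC hA
  have h0 : M = Matrix.fromBlocks M.toBlocks₁₁ M.toBlocks₁₂ 0 M.toBlocks₂₂ := by
    conv_lhs => rw [← Matrix.fromBlocks_toBlocks M]
    congr 1
    ext i j
    simp [Matrix.toBlocks₂₁, hC]
  have hM' := hM
  rw [h0, SymplecticGroup.fromBlocks_mem_iff] at hM'
  obtain ⟨-, hBD, hAD⟩ := hM'
  have hAD' : M.toBlocks₁₁ᵀ * M.toBlocks₂₂ = 1 := by
    simpa using hAD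
  have hDA : M.toBlocks₂₂ * M.toBlocks₁₁ᵀ = 1 := mul_eq_one_comm.1 hAD'
  refine ⟨⟨M.toBlocks₁₁ᵀ, M.toBlocks₂₂, hAD', hDA⟩, M.toBlocks₁₂ᵀ * M.toBlocks₂₂, ?_, ?_, ?_⟩
  · intro i j hij
    show M.toBlocks₁₁ᵀ i j = 0
    rw [Matrix.transpose_apply]
    exact hA j i hij
  · rw [Matrix.transpose_mul, Matrix.transpose_transpose, hBD]
  · show Matrix.fromBlocks (M.toBlocks₁₁ᵀ)ᵀ ((M.toBlocks₁₁ᵀ)ᵀ * (M.toBlocks₁₂ᵀ * M.toBlocks₂₂)) 0
      M.toBlocks₂₂ = M
    conv_rhs => rw [h0]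
    congr 1
    rw [Matrix.transpose_transpose, hBD, ← Matrix.mul_assoc]
    have h3 : M.toBlocks₁₁ * M.toBlocks₂₂ᵀ = 1 := by
      have := congrArg Matrix.transpose hDA
      rwa [Matrix.transpose_mul, Matrix.transpose_transpose, Matrix.transpose_one] at this
    rw [h3, Matrix.one_mul]

/-- Borel subgroup of the symplectic group: the elements of Sp_2m(q) stabilising each of the totally isotropic coordinate subspaces ⟨e_0, ..., e_k⟩ (k < m) form a subgroup of order q^(m²) (q − 1)^m. -/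
theorem result {F : Type*} [Field F] [Fintype F] {q : ℕ} (hF : Fintype.card F = q) (m : ℕ) : Nat.card ↥(⨅ k : Fin m, Cfsg.stabilizing (Cfsg.spToMat m F) {v : Fin m ⊕ Fin m → F | (∀ i : Fin m, (k : ℕ) < (i : ℕ) → v (Sum.inl i) = 0) ∧ ∀ i : Fin m, v (Sum.inr i) = 0}) = q ^ (m ^ 2) * (q - 1) ^ m := by
  subst hF
  have hcard : Nat.card ↥(⨅ k : Fin m, Cfsg.stabilizing (Cfsg.spToMat m F) {v : Fin m ⊕ Fin m → F | (∀ i : Fin m, (k : ℕ) < (i : ℕ) → v (Sum.inl i) = 0) ∧ ∀ i : Fin m, v (Sum.inr i) = 0}) =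
      Nat.card ({g : GL (Fin m) F // ∀ i j : Fin m, i < j → (g : Matrix (Fin m) (Fin m) F) i j = 0} ×
        {S : Matrix (Fin m) (Fin m) F // Sᵀ = S}) := by
    symm
    refine Nat.card_congr (Equiv.ofBijective
      (fun x => (⟨⟨psiMat m x.1.1 x.2.1, psiMat_mem m x.1.1 x.2.1 x.2.2⟩, ?_⟩ :
        ↥(⨅ k : Fin m, Cfsg.stabilizing (Cfsg.spToMat m F) {v : Fin m ⊕ Fin m → F | (∀ i : Fin m, (k : ℕ) < (i : ℕ) → v (Sum.inl i) = 0) ∧ ∀ i : Fin m, v (Sum.inr i) = 0}))) ⟨?_, ?_⟩)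
    · rw [mem_borel_iff]
      constructor
      · intro i j
        rfl
      · intro i j hij
        show (x.1.1 : Matrix (Fin m) (Fin m) F)ᵀ i j = 0
        rw [Matrix.transpose_apply]
        exact x.1.2 j i hij
    · rintro ⟨⟨L, hL⟩, ⟨S, hS⟩⟩ ⟨⟨L', hL'⟩, ⟨S', hS'⟩⟩ h
      have h1 : psiMat m L S = psiMat m L' S' := congrArg (fun z => z.1.1) h
      obtain ⟨h2, h3⟩ := psiMat_injective m L L' S S' h1
      subst h2
      subst h3
      rfl
    · rintro ⟨g, hg⟩
      rw [mem_borel_iff] at hg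
      obtain ⟨L, S, hL, hS, hgL⟩ := exists_psiMat_eq m g hg.1 hg.2
      exact ⟨(⟨L, hL⟩, ⟨S, hS⟩), Subtype.ext (Subtype.ext hgL)⟩
  rw [hcard, Nat.card_prod, Cfsg.Agent.S0769.card_lower, card_sym, mul_right_comm, ← pow_add]
  congr 2
  have h1 : 2 ∣ m * (m - 1) := (Nat.even_mul_pred_self m).two_dvd
  have h2 : 2 ∣ m * (m + 1) := (Nat.even_mul_succ_self m).two_dvd
  obtain ⟨a, ha⟩ := h1
  obtain ⟨b, hb⟩ := h2
  rw [ha, hb, Nat.mul_div_cancel_left _ (by norm_num), Nat.mul_div_cancel_left _ (by norm_num)]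
  cases m with
  | zero => simp at ha hb; omega
  | succ k =>
    simp only [Nat.add_sub_cancel] at ha
    nlinarith

end Cfsg.Agent.S0774
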