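import Cfsg.Statements.S0775
import Mathlib
import Cfsg.Agent.Lib.Helper5.SympCount
import Cfsg.Agent.S0774

set_option autoImplicit false
open Cfsg

namespace Cfsg.Agent.S0775

open Cfsg.Agent.Lib.Helper5 Cfsg.Agent.Lib.Helper5.SympCount
open Matrix

/-- Maximal parabolics of the symplectic group: if W is a k-dimensional subspace of F^(2m) on which the symplectic form vanishes identically, its stabiliser in Sp_2m(q) has order q^(k(k+1)/2 + 2k(m−k)) · |Sp_(2m−2k)(q)| · |GL_k(q)|. -/
theorem result {F : Type*} [Field F] [Fintype F] {q : ℕ} (hF : Fintype.card F = q) (m k : ℕ) (hk : k ≤ m) (W : Submodule F (Fin m ⊕ Fin m → F)) (hWk : Module.finrank F W = k) (hW : ∀ u ∈ W, ∀ v ∈ W, Cfsg.sympForm m F u v = 0) : Nat.card ↥(Cfsg.stabilizing (Cfsg.spToMat m F) (W : Set (Fin m ⊕ Fin m → F))) = q ^ (k * (k + 1) / 2 + 2 * k * (m - k)) * (q ^ ((m - k) ^ 2) * ∏ i ∈ Finset.range (m - k), (q ^ (2 * (i + 1)) - 1)) * ∏ i : Fin k, (q ^ k - q ^ (i : ℕ)) := by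
  classical
  have hq : Nat.card F = q := by rw [Nat.card_eq_fintype_card, hF]
  have hq2 : 2 ≤ q := by
    rw [← hq]
    exact Finite.one_lt_card
  have hWc : Nat.card W = q ^ k := by
    rw [Module.natCard_eq_pow_finrank (K := F), hq, hWk]
  have hcard := card_sp_constr F m q hq k W hW hWc
  have hpos := cnt_pos q hq2 m k
  obtain ⟨M₀, hM₀⟩ : ∃ M₀ : Matrix.symplecticGroup (Fin m) F,
      ∀ i : Fin m, (i : ℕ) < k → M₀.1.col (Sum.inr i) ∈ W := by
    have hne : Nonempty {A : Matrix.symplecticGroup (Fin m) F //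
        ∀ i : Fin m, (i : ℕ) < k → A.1.col (Sum.inr i) ∈ W} := by
      rw [← hcard] at hpos
      exact (Nat.card_pos_iff.1 hpos).1
    exact ⟨hne.some.1, hne.some.2⟩
  let w : Fin k → (Fin m ⊕ Fin m → F) := fun i => M₀.1.col (Sum.inr (Fin.castLE hk i))
  have hwW : ∀ i, w i ∈ W := fun i => hM₀ _ (by simp)
  have hli : LinearIndependent F w := by
    have h1 : LinearIndependent F
        (fun i : Fin k => (Pi.basisFun F (Fin m ⊕ Fin m)) (Sum.inr (Fin.castLE hk i))) :=
      (Pi.basisFun F (Fin m ⊕ Fin m)).linearIndependent.comp _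
        (fun a b hab => by simpa using hab)
    have hker : LinearMap.ker (Matrix.mulVecLin M₀.1) = ⊥ := by
      rw [LinearMap.ker_eq_bot]
      intro a b hab
      have h3 := congrArg (fun v => (M₀⁻¹).1 *ᵥ v) hab
      simp only [Matrix.mulVecLin_apply, Matrix.mulVec_mulVec] at h3
      have h4 : (M₀⁻¹).1 * M₀.1 = 1 := congrArg Subtype.val (inv_mul_cancel M₀)
      rw [h4, Matrix.one_mulVec, Matrix.one_mulVec] at h3
      exact h3
    have h2 := h1.map' (Matrix.mulVecLin M₀.1) hker
    have h5 : w = ⇑(Matrix.mulVecLin M₀.1) ∘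
        fun i : Fin k => (Pi.basisFun F (Fin m ⊕ Fin m)) (Sum.inr (Fin.castLE hk i)) := by
      funext i
      simp only [Function.comp_apply, Pi.basisFun_apply, Matrix.mulVecLin_apply,
        Matrix.mulVec_single_one, w]
    rw [h5]
    exact h2
  have hspan : Submodule.span F (Set.range w) = W := by
    apply Submodule.eq_of_le_of_finrank_eq
    · rw [Submodule.span_le]
      rintro _ ⟨i, rfl⟩
      exact hwW i
    · rw [finrank_span_eq_card hli, Fintype.card_fin, hWk]
  have hchar : ∀ A : Matrix.symplecticGroup (Fin m) F,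
      A ∈ Cfsg.stabilizing (Cfsg.spToMat m F) (W : Set (Fin m ⊕ Fin m → F)) ↔
        ∀ i : Fin m, (i : ℕ) < k → (A * M₀).1.col (Sum.inr i) ∈ W := by
    intro A
    have hcol : ∀ i : Fin m, (A * M₀).1.col (Sum.inr i) = A.1 *ᵥ M₀.1.col (Sum.inr i) := by
      intro i
      rw [← Matrix.mulVec_single_one, ← Matrix.mulVec_single_one, Matrix.mulVec_mulVec]
      rfl
    constructor
    · intro hA i hi
      rw [hcol]
      exact (hA _).1 (hM₀ i hi)
    · intro hA
      apply S0774.mem_stabilizing_of_maps _ _ (Set.toFinite _)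
      intro v hv
      have hv' : v ∈ Submodule.span F (Set.range w) := by
        rw [hspan]
        exact hv
      show A.1 *ᵥ v ∈ W
      refine Submodule.span_induction ?_ ?_ ?_ ?_ hv'
      · rintro _ ⟨i, rfl⟩
        have := hA (Fin.castLE hk i) (by simp)
        rw [hcol] at this
        exact this
      · rw [Matrix.mulVec_zero]
        exact W.zero_mem
      · intro x y _ _ hx hy
        rw [Matrix.mulVec_add]
        exact W.add_mem hx hy
      · intro c x _ hx
        rw [Matrix.mulVec_smul]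
        exact W.smul_mem c hx
  have hcl := cnt_closed q k (m - k)
  rw [Nat.add_sub_cancel' hk] at hcl
  rw [← hcl, ← hcard]
  exact Nat.card_congr ((Equiv.mulRight M₀).subtypeEquiv (fun A => hchar A))

end Cfsg.Agent.S0775
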