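import Cfsg.Statements.S0776
import Mathlib
import Cfsg.Agent.S5645
import Cfsg.Agent.S5646
import Cfsg.Agent.Lib.Helper5.Symp
import Cfsg.Agent.Lib.Helper13.AltFrame

set_option autoImplicit false
open Cfsg

namespace Cfsg.Agent.S0776

open Matrix
open Cfsg.Agent.S5645
open Cfsg.Agent.Lib.Helper13.AltFrame

/-- If W ≤ F^(2m) is a 2k-dimensional subspace on which the symplectic form is non-degenerate, then the stabiliser of W in Sp_2m(F) is isomorphic to Sp_2k(F) × Sp_(2m−2k)(F). -/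
theorem result {F : Type*} [Field F] (m k : ℕ) (hk : k ≤ m) (W : Submodule F (Fin m ⊕ Fin m → F)) (hWk : Module.finrank F W = 2 * k) (hW : ∀ u ∈ W, (∀ v ∈ W, Cfsg.sympForm m F u v = 0) → u = 0) : Nonempty (↥(Cfsg.stabilizing (Cfsg.spToMat m F) (W : Set (Fin m ⊕ Fin m → F))) ≃* Matrix.symplecticGroup (Fin k) F × Matrix.symplecticGroup (Fin (m - k)) F) := by
  have hf := symp_isAlt m (F := F)
  have hnd : ∀ w ∈ W, (∀ x ∈ W, Cfsg.sympForm m F x w = 0) → w = 0 := by
    intro w hw h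
    apply hW w hw
    intro v hv
    rw [hf.swap, h v hv, neg_zero]
  obtain ⟨U, hUdef⟩ : ∃ U : Submodule F (Fin m ⊕ Fin m → F), U = Cfsg.Agent.S5645.perp hf W :=
    ⟨_, rfl⟩
  have hUmem : ∀ u ∈ U, ∀ w ∈ W, Cfsg.sympForm m F w u = 0 := by
    intro u hu w hw
    rw [hUdef] at hu
    exact hu w hw
  have hdec : ∀ x : Fin m ⊕ Fin m → F, ∃ w ∈ W, ∃ u ∈ U, x = w + u := by
    intro x
    obtain ⟨w, hw, hxw⟩ := Cfsg.Agent.S5646.decomp hf W hnd x
    exact ⟨w, hw, x - w, by rw [hUdef]; exact hxw, by abel⟩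
  have hUnd : ∀ u ∈ U, (∀ x ∈ U, Cfsg.sympForm m F x u = 0) → u = 0 := by
    intro u hu h
    apply hf.nondeg
    intro y
    obtain ⟨w, hw, u', hu', rfl⟩ := hdec y
    rw [hf.add_right, hf.swap u w, hUmem u hu w hw, neg_zero, zero_add, hf.swap, h u' hu',
      neg_zero]
  obtain ⟨k₁, e₁, Fr₁⟩ := sframe_exists hf _ W hnd le_rfl
  obtain ⟨k₂, e₂, Fr₂⟩ := sframe_exists hf _ U hUnd le_rfl
  have A1 := sframe_aframe hf Fr₁
  have A2 := sframe_aframe hf Fr₂
  have hd1 := aframe_finrank A1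
  have hd2 := aframe_finrank A2
  rw [Fintype.card_sum, Fintype.card_fin] at hd1 hd2
  have hsum : Module.finrank F W + Module.finrank F U = m + m := by
    have h1 : W ⊓ U = ⊥ := by
      rw [eq_bot_iff]
      intro x hx
      rw [Submodule.mem_bot]
      exact hnd x hx.1 (fun w hw => hUmem x hx.2 w hw)
    have h2 : W ⊔ U = ⊤ := by
      rw [eq_top_iff]
      intro x _
      obtain ⟨w, hw, u, hu, rfl⟩ := hdec x
      exact Submodule.add_mem_sup hw hu
    have h3 := Submodule.finrank_sup_add_finrank_inf_eq W U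
    rw [h1, h2, finrank_bot, finrank_top, Module.finrank_pi, add_zero, Fintype.card_sum,
      Fintype.card_fin] at h3
    exact h3.symm
  obtain rfl : k₁ = k := by omega
  obtain rfl : k₂ = m - k₁ := by omega
  have S : ASplit (Cfsg.sympForm m F) W U (Cfsg.sympForm k₁ F) (Cfsg.sympForm (m - k₁) F)
      (Fintype.linearCombination F e₁) (sana hf e₁) (Fintype.linearCombination F e₂)
      (sana hf e₂) := by
    refine ⟨A1, A2, hf.add_left, hf.add_right, fun w hw u hu => hUmem u hu w hw,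
      fun u hu w hw => by rw [hf.swap, hUmem u hu w hw, neg_zero], hdec, ?_, ?_⟩
    · intro u hu
      funext x
      rcases x with i | i
      · exact hUmem u hu _ (Fr₁.mem _)
      · show Cfsg.sympForm m F u (e₁ (Sum.inl i)) = 0
        rw [hf.swap, hUmem u hu _ (Fr₁.mem _), neg_zero]
    · intro w hw
      funext x
      rcases x with i | i
      · show Cfsg.sympForm m F (e₂ (Sum.inr i)) w = 0
        rw [hf.swap, hUmem _ (Fr₂.mem _) w hw, neg_zero]
      · exact hUmem _ (Fr₂.mem _) w hw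
  have hst : ∀ s : ↥(Cfsg.stabilizing (Cfsg.spToMat m F) (W : Set (Fin m ⊕ Fin m → F))),
      (∀ x y, Cfsg.sympForm m F
        (((s : Matrix.symplecticGroup (Fin m) F) : Matrix (Fin m ⊕ Fin m) (Fin m ⊕ Fin m) F) *ᵥ x)
        (((s : Matrix.symplecticGroup (Fin m) F) : Matrix (Fin m ⊕ Fin m) (Fin m ⊕ Fin m) F) *ᵥ y) =
          Cfsg.sympForm m F x y) ∧
      (∀ w ∈ W, ((s : Matrix.symplecticGroup (Fin m) F) :
        Matrix (Fin m ⊕ Fin m) (Fin m ⊕ Fin m) F) *ᵥ w ∈ W) ∧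
      (∀ u ∈ U, ((s : Matrix.symplecticGroup (Fin m) F) :
        Matrix (Fin m ⊕ Fin m) (Fin m ⊕ Fin m) F) *ᵥ u ∈ U) := by
    intro s
    have h1 := Cfsg.Agent.Lib.Helper5.Symp.sympForm_mulVec_of_mem m
      (s : Matrix.symplecticGroup (Fin m) F).2
    have h2 : ∀ v, v ∈ W ↔ ((s : Matrix.symplecticGroup (Fin m) F) :
        Matrix (Fin m ⊕ Fin m) (Fin m ⊕ Fin m) F) *ᵥ v ∈ W := s.2
    refine ⟨h1, fun w hw => (h2 w).mp hw, fun u hu => ?_⟩
    rw [hUdef]
    intro w hw
    have hdet := SymplecticGroup.symplectic_det (s : Matrix.symplecticGroup (Fin m) F).2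
    have hmul := Matrix.mul_nonsing_inv
      ((s : Matrix.symplecticGroup (Fin m) F) : Matrix (Fin m ⊕ Fin m) (Fin m ⊕ Fin m) F) hdet
    have hw'e : ((s : Matrix.symplecticGroup (Fin m) F) :
        Matrix (Fin m ⊕ Fin m) (Fin m ⊕ Fin m) F) *ᵥ
        ((((s : Matrix.symplecticGroup (Fin m) F) :
          Matrix (Fin m ⊕ Fin m) (Fin m ⊕ Fin m) F))⁻¹ *ᵥ w) = w := by
      rw [Matrix.mulVec_mulVec, hmul, Matrix.one_mulVec]
    have hw' : (((s : Matrix.symplecticGroup (Fin m) F) :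
          Matrix (Fin m ⊕ Fin m) (Fin m ⊕ Fin m) F))⁻¹ *ᵥ w ∈ W := by
      rw [h2, hw'e]
      exact hw
    have h3 := h1 ((((s : Matrix.symplecticGroup (Fin m) F) :
          Matrix (Fin m ⊕ Fin m) (Fin m ⊕ Fin m) F))⁻¹ *ᵥ w) u
    rw [hw'e] at h3
    rw [h3]
    exact hUmem u hu _ hw'
  let φ : ↥(Cfsg.stabilizing (Cfsg.spToMat m F) (W : Set (Fin m ⊕ Fin m → F))) →*
      Matrix.symplecticGroup (Fin k₁) F × Matrix.symplecticGroup (Fin (m - k₁)) F :=
    MonoidHom.mk'
    (fun s =>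
      (⟨A₁ (Fintype.linearCombination F e₁) (sana hf e₁)
          ((s : Matrix.symplecticGroup (Fin m) F) : Matrix (Fin m ⊕ Fin m) (Fin m ⊕ Fin m) F),
        Cfsg.Agent.Lib.Helper5.Symp.mem_of_sympForm_mulVec k₁
          (A₁_isom A1 _ (hst s).2.1 (hst s).1)⟩,
       ⟨A₁ (Fintype.linearCombination F e₂) (sana hf e₂)
          ((s : Matrix.symplecticGroup (Fin m) F) : Matrix (Fin m ⊕ Fin m) (Fin m ⊕ Fin m) F),
        Cfsg.Agent.Lib.Helper5.Symp.mem_of_sympForm_mulVec (m - k₁)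
          (A₁_isom A2 _ (hst s).2.2 (hst s).1)⟩))
    (by
      intro s t
      apply Prod.ext
      · apply Subtype.ext
        exact A₁_mul A1 _ _ (hst t).2.1
      · apply Subtype.ext
        exact A₁_mul A2 _ _ (hst t).2.2)
  refine ⟨MulEquiv.ofBijective φ ⟨?_, ?_⟩⟩
  · intro s t hst'
    have h1 : A₁ (Fintype.linearCombination F e₁) (sana hf e₁)
          ((s : Matrix.symplecticGroup (Fin m) F) : Matrix (Fin m ⊕ Fin m) (Fin m ⊕ Fin m) F) =
        A₁ (Fintype.linearCombination F e₁) (sana hf e₁)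
          ((t : Matrix.symplecticGroup (Fin m) F) : Matrix (Fin m ⊕ Fin m) (Fin m ⊕ Fin m) F) :=
      congrArg (fun p : Matrix.symplecticGroup (Fin k₁) F ×
        Matrix.symplecticGroup (Fin (m - k₁)) F =>
        (p.1 : Matrix (Fin k₁ ⊕ Fin k₁) (Fin k₁ ⊕ Fin k₁) F)) hst'
    have h2 : A₁ (Fintype.linearCombination F e₂) (sana hf e₂)
          ((s : Matrix.symplecticGroup (Fin m) F) : Matrix (Fin m ⊕ Fin m) (Fin m ⊕ Fin m) F) =
        A₁ (Fintype.linearCombination F e₂) (sana hf e₂)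
          ((t : Matrix.symplecticGroup (Fin m) F) : Matrix (Fin m ⊕ Fin m) (Fin m ⊕ Fin m) F) :=
      congrArg (fun p : Matrix.symplecticGroup (Fin k₁) F ×
        Matrix.symplecticGroup (Fin (m - k₁)) F =>
        (p.2 : Matrix (Fin (m - k₁) ⊕ Fin (m - k₁)) (Fin (m - k₁) ⊕ Fin (m - k₁)) F)) hst'
    apply Subtype.ext
    apply Subtype.ext
    rw [← Lm_A S _ (hst s).2.1 (hst s).2.2, ← Lm_A S _ (hst t).2.1 (hst t).2.2, h1, h2]
  · rintro ⟨⟨A, hA⟩, ⟨B, hB⟩⟩
    have hAi := Cfsg.Agent.Lib.Helper5.Symp.sympForm_mulVec_of_mem k₁ hA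
    have hBi := Cfsg.Agent.Lib.Helper5.Symp.sympForm_mulVec_of_mem (m - k₁) hB
    have hLi := Lm_isom S A B hAi hBi
    have hLmem := Cfsg.Agent.Lib.Helper5.Symp.mem_of_sympForm_mulVec m hLi
    have hstab : (⟨_, hLmem⟩ : Matrix.symplecticGroup (Fin m) F) ∈
        Cfsg.stabilizing (Cfsg.spToMat m F) (W : Set (Fin m ⊕ Fin m → F)) := by
      intro v
      constructor
      · intro hv
        exact Lm_W S A B v hv
      · intro hv
        obtain ⟨w, hw, u, hu, rfl⟩ := hdec v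
        have hv' : Lm (Fintype.linearCombination F e₁) (sana hf e₁)
            (Fintype.linearCombination F e₂) (sana hf e₂) A B *ᵥ (w + u) ∈ W := hv
        rw [Matrix.mulVec_add] at hv'
        have hgw := Lm_W S A B w hw
        have hgu := Lm_U S A B u hu
        have h0 : Lm (Fintype.linearCombination F e₁) (sana hf e₁)
            (Fintype.linearCombination F e₂) (sana hf e₂) A B *ᵥ u ∈ W := by
          have := W.sub_mem hv' hgw
          rwa [add_sub_cancel_left] at this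
        have h00 := hnd _ h0 (fun x hx => hUmem _ hgu x hx)
        have hu0 : u = 0 := by
          apply hf.nondeg
          intro y
          rw [← hLi u y, h00, hf.zero_left]
        rw [hu0, add_zero]
        exact hw
    refine ⟨⟨⟨_, hLmem⟩, hstab⟩, ?_⟩
    apply Prod.ext
    · apply Subtype.ext
      exact A₁_Lm S A B
    · apply Subtype.ext
      exact A₂_Lm S A B

end Cfsg.Agent.S0776
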