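import Cfsg.Statements.S0777
import Mathlib

set_option autoImplicit false
open Cfsg

namespace Cfsg.Agent.S0777

section helpers

open scoped Matrix

variable {F : Type*} [Field F] {m : ℕ}

def jv (F : Type*) [Field F] {m : ℕ} (x : Fin m ⊕ Fin m) : F :=
  Sum.elim (fun _ => (-1 : F)) (fun _ => 1) x

theorem J_eq (x y : Fin m ⊕ Fin m) :
    Matrix.J (Fin m) F x y = if y = Sum.swap x then jv F x else 0 := by
  rcases x with a | a <;> rcases y with b | b
  · simp [Matrix.J, jv]
  · by_cases h : b = a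
    · subst h; simp [Matrix.J, jv]
    · have h' : a ≠ b := fun e => h e.symm
      simp [Matrix.J, jv, Matrix.one_apply, h, h']
  · by_cases h : b = a
    · subst h; simp [Matrix.J, jv]
    · have h' : a ≠ b := fun e => h e.symm
      simp [Matrix.J, jv, Matrix.one_apply, h, h']
  · simp [Matrix.J, jv]

theorem jv_swap (x : Fin m ⊕ Fin m) : jv F (Sum.swap x) = - jv F x := by
  rcases x with a | a <;> simp [jv]

theorem jv_mul (x : Fin m ⊕ Fin m) : jv F x * jv F x = 1 := by
  rcases x with a | a <;> simp [jv]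

theorem jv_ne (x : Fin m ⊕ Fin m) : jv F x ≠ 0 := by
  intro h
  have := jv_mul (F := F) x
  rw [h] at this
  simp at this

def monM (σ : Fin m ⊕ Fin m → Fin m ⊕ Fin m) (r : Fin m ⊕ Fin m → F) :
    Matrix (Fin m ⊕ Fin m) (Fin m ⊕ Fin m) F :=
  Matrix.of fun i j => if j = σ i then r i else 0

theorem monM_apply (σ : Fin m ⊕ Fin m → Fin m ⊕ Fin m) (r : Fin m ⊕ Fin m → F)
    (i j : Fin m ⊕ Fin m) : monM σ r i j = if j = σ i then r i else 0 := rfl

theorem monM_J (σ : Fin m ⊕ Fin m → Fin m ⊕ Fin m) (r : Fin m ⊕ Fin m → F)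
    (i k : Fin m ⊕ Fin m) :
    (monM σ r * Matrix.J (Fin m) F * (monM σ r)ᵀ) i k =
      r i * Matrix.J (Fin m) F (σ i) (σ k) * r k := by
  rw [Matrix.mul_apply, Finset.sum_eq_single (σ k)]
  · rw [Matrix.mul_apply, Finset.sum_eq_single (σ i)]
    · simp [monM_apply]
    · intro j _ hj
      simp [monM_apply, hj]
    · simp
  · intro l _ hl
    simp [monM_apply, hl]
  · simp

theorem monM_mem_iff (σ : Fin m ⊕ Fin m → Fin m ⊕ Fin m) (r : Fin m ⊕ Fin m → F) :
    monM σ r ∈ Matrix.symplecticGroup (Fin m) F ↔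
      ∀ i k, r i * Matrix.J (Fin m) F (σ i) (σ k) * r k = Matrix.J (Fin m) F i k := by
  rw [SymplecticGroup.mem_iff]
  constructor
  · intro h i k
    rw [← monM_J, h]
  · intro h
    ext i k
    rw [monM_J, h]

theorem row_ne_zero (g : Matrix.symplecticGroup (Fin m) F) (i : Fin m ⊕ Fin m) :
    ∃ j, g.1 i j ≠ 0 := by
  by_contra h
  have h' : ∀ j, g.1 i j = 0 := fun j => by
    by_contra hj
    exact h ⟨j, hj⟩
  have h1 : g.1 * (g⁻¹).1 = 1 := congrArg Subtype.val (mul_inv_cancel g)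
  have h2 := congrFun (congrFun h1 i) i
  rw [Matrix.mul_apply, Matrix.one_apply_eq] at h2
  simp [h'] at h2

theorem mem_T_iff (g : Matrix.symplecticGroup (Fin m) F) :
    g ∈ (⨅ i : Fin m ⊕ Fin m, Cfsg.stabilizing (Cfsg.spToMat m F)
      ((Submodule.span F {(Pi.single i (1 : F) : Fin m ⊕ Fin m → F)} :
        Submodule F (Fin m ⊕ Fin m → F)) : Set (Fin m ⊕ Fin m → F))) ↔
    ∀ i j, i ≠ j → g.1 i j = 0 := by
  rw [Subgroup.mem_iInf]
  have hsp : ∀ (i : Fin m ⊕ Fin m) (w : Fin m ⊕ Fin m → F),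
      w ∈ Submodule.span F {(Pi.single i (1 : F) : Fin m ⊕ Fin m → F)} ↔
        ∀ k, k ≠ i → w k = 0 := by
    intro i w
    rw [Submodule.mem_span_singleton]
    constructor
    · rintro ⟨c, rfl⟩ k hk
      simp [Pi.single_apply, hk]
    · intro hw
      refine ⟨w i, ?_⟩
      ext k
      by_cases hk : k = i
      · subst hk; simp
      · simp [Pi.single_apply, hk, hw k hk]
  constructor
  · intro h i j hij
    have hj : ∀ v, v ∈ ((Submodule.span F {(Pi.single j (1 : F) : Fin m ⊕ Fin m → F)} :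
        Submodule F (Fin m ⊕ Fin m → F)) : Set (Fin m ⊕ Fin m → F)) ↔
        g.1 *ᵥ v ∈ ((Submodule.span F {(Pi.single j (1 : F) : Fin m ⊕ Fin m → F)} :
        Submodule F (Fin m ⊕ Fin m → F)) : Set (Fin m ⊕ Fin m → F)) := h j
    have h1 := (hj (Pi.single j 1)).1 (Submodule.mem_span_singleton_self _)
    rw [SetLike.mem_coe, hsp, Matrix.mulVec_single_one] at h1
    exact h1 i hij
  · intro h i
    have hd : ∀ (v : Fin m ⊕ Fin m → F) (k : Fin m ⊕ Fin m), (g.1 *ᵥ v) k = g.1 k k * v k := by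
      intro v k
      simp only [Matrix.mulVec, dotProduct]
      rw [Finset.sum_eq_single k]
      · intro l _ hl
        rw [h k l (Ne.symm hl), zero_mul]
      · simp
    have hnz : ∀ k, g.1 k k ≠ 0 := by
      intro k
      obtain ⟨j, hj⟩ := row_ne_zero g k
      by_cases hjk : k = j
      · subst hjk; exact hj
      · exact absurd (h k j hjk) hj
    show ∀ v, v ∈ ((Submodule.span F {(Pi.single i (1 : F) : Fin m ⊕ Fin m → F)} :
        Submodule F (Fin m ⊕ Fin m → F)) : Set (Fin m ⊕ Fin m → F)) ↔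
        g.1 *ᵥ v ∈ ((Submodule.span F {(Pi.single i (1 : F) : Fin m ⊕ Fin m → F)} :
        Submodule F (Fin m ⊕ Fin m → F)) : Set (Fin m ⊕ Fin m → F))
    intro v
    rw [SetLike.mem_coe, SetLike.mem_coe, hsp, hsp]
    constructor
    · intro hv k hk
      rw [hd, hv k hk, mul_zero]
    · intro hv k hk
      have := hv k hk
      rw [hd] at this
      exact (mul_eq_zero.1 this).resolve_left (hnz k)

def RowMon (g : Matrix (Fin m ⊕ Fin m) (Fin m ⊕ Fin m) F) : Prop :=
  ∀ i j j', g i j ≠ 0 → g i j' ≠ 0 → j = j'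

def dd (b : Fin m) (c : F) : Fin m ⊕ Fin m → F :=
  Sum.elim (fun a => if a = b then c else 1) (fun a => if a = b then c⁻¹ else 1)

theorem diag_mem (d : Fin m ⊕ Fin m → F) (hd : ∀ b, d (Sum.inl b) * d (Sum.inr b) = 1) :
    Matrix.diagonal d ∈ Matrix.symplecticGroup (Fin m) F := by
  have h0 : Matrix.diagonal d = monM id d := by
    ext i j
    rw [monM_apply, Matrix.diagonal_apply]
    by_cases h : i = j
    · subst h; simp
    · have h' : ¬ j = i := fun e => h e.symm
      simp [h, h']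
  rw [h0, monM_mem_iff]
  intro i k
  simp only [id]
  rw [J_eq]
  by_cases hk : k = Sum.swap i
  · subst hk
    rw [if_pos rfl]
    rcases i with b | b
    · show d (Sum.inl b) * jv F (Sum.inl b) * d (Sum.inr b) = jv F (Sum.inl b)
      linear_combination (jv F (Sum.inl b : Fin m ⊕ Fin m)) * hd b
    · show d (Sum.inr b) * jv F (Sum.inr b) * d (Sum.inl b) = jv F (Sum.inr b)
      linear_combination (jv F (Sum.inr b : Fin m ⊕ Fin m)) * hd b
  · rw [if_neg hk, mul_zero, zero_mul]

theorem exists_c [Fintype F] (hq : 4 ≤ Fintype.card F) : ∃ c : F, c ≠ 0 ∧ c * c ≠ 1 := by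
  classical
  by_contra hcon
  have h1 : ∀ c : F, c = 0 ∨ c = 1 ∨ c = -1 := by
    intro c
    by_contra h
    apply hcon
    refine ⟨c, fun h0 => h (Or.inl h0), fun h2 => h (Or.inr ?_)⟩
    have h3 : (c - 1) * (c + 1) = 0 := by linear_combination h2
    rcases mul_eq_zero.1 h3 with h4 | h4
    · left; linear_combination h4
    · right; linear_combination h4
  have h2 : (Finset.univ : Finset F) ⊆ {0, 1, -1} := by
    intro c _
    rcases h1 c with h | h | h <;> simp [h]
  have h3 := Finset.card_le_card h2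
  have h4 : ({0, 1, -1} : Finset F).card ≤ 3 := Finset.card_le_three
  rw [Finset.card_univ] at h3
  omega

theorem norm_iff [Fintype F] (hq : 4 ≤ Fintype.card F)
    (T : Subgroup (Matrix.symplecticGroup (Fin m) F))
    (hT : ∀ h : Matrix.symplecticGroup (Fin m) F, h ∈ T ↔ ∀ i j, i ≠ j → h.1 i j = 0)
    (g : Matrix.symplecticGroup (Fin m) F) :
    g ∈ Subgroup.normalizer (T : Set (Matrix.symplecticGroup (Fin m) F)) ↔ RowMon g.1 := by
  classical
  constructor
  · intro hg i j j' hj hj'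
    by_contra hne
    obtain ⟨c, hc0, hc1⟩ := exists_c hq
    have key : ∀ d : Fin m ⊕ Fin m → F, (∀ b, d (Sum.inl b) * d (Sum.inr b) = 1) →
        d j = d j' := by
      intro d hd
      let t : Matrix.symplecticGroup (Fin m) F := ⟨Matrix.diagonal d, diag_mem d hd⟩
      have ht : t ∈ T := (hT t).2 (fun a b hab => Matrix.diagonal_apply_ne _ hab)
      have ht' := (Subgroup.mem_normalizer_iff.1 hg t).1 ht
      have hdiag := (hT _).1 ht'
      have h1 : (g * t * g⁻¹).1 * g.1 = g.1 * Matrix.diagonal d := by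
        have : g * t * g⁻¹ * g = g * t := by group
        exact congrArg Subtype.val this
      have e1 : ∀ l, (g * t * g⁻¹).1 i i * g.1 i l = g.1 i l * d l := by
        intro l
        have h2 := congrFun (congrFun h1 i) l
        rw [Matrix.mul_diagonal, Matrix.mul_apply, Finset.sum_eq_single i] at h2
        · exact h2
        · intro x _ hx
          rw [hdiag i x (Ne.symm hx), zero_mul]
        · simp
      have e2 := e1 j
      have e3 := e1 j'
      have e4 : (g * t * g⁻¹).1 i i = d j := by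
        have : ((g * t * g⁻¹).1 i i - d j) * g.1 i j = 0 := by linear_combination e2
        rcases mul_eq_zero.1 this with h | h
        · linear_combination h
        · exact absurd h hj
      have e5 : (g * t * g⁻¹).1 i i = d j' := by
        have : ((g * t * g⁻¹).1 i i - d j') * g.1 i j' = 0 := by linear_combination e3
        rcases mul_eq_zero.1 this with h | h
        · linear_combination h
        · exact absurd h hj'
      rw [← e4, e5]
    have hdd : ∀ b : Fin m, ∀ a, dd b c (Sum.inl a) * dd b c (Sum.inr a) = 1 := by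
      intro b a
      by_cases h : a = b
      · simp [dd, h, mul_inv_cancel₀ hc0]
      · simp [dd, h]
    have hc2 : c ≠ 1 := fun h => hc1 (by rw [h, mul_one])
    have hc3 : c⁻¹ ≠ 1 := fun h => hc2 (by rw [← inv_inv c, h, inv_one])
    have hc4 : c ≠ c⁻¹ := fun h => hc1 (by
      have h5 : c * c⁻¹ = 1 := mul_inv_cancel₀ hc0
      rw [← h] at h5
      exact h5)
    rcases j with a | a <;> rcases j' with a' | a'
    · have h6 := key (dd a c) (hdd a)
      have h' : ¬ a' = a := fun e => hne (by rw [e])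
      simp only [dd, Sum.elim_inl, if_true, if_neg h'] at h6
      exact hc2 h6
    · have h6 := key (dd a c) (hdd a)
      by_cases h' : a' = a
      · simp only [dd, Sum.elim_inl, Sum.elim_inr, if_true, if_pos h'] at h6
        exact hc4 h6
      · simp only [dd, Sum.elim_inl, Sum.elim_inr, if_true, if_neg h'] at h6
        exact hc2 h6
    · have h6 := key (dd a c) (hdd a)
      by_cases h' : a' = a
      · simp only [dd, Sum.elim_inl, Sum.elim_inr, if_true, if_pos h'] at h6
        exact hc4 h6.symm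
      · simp only [dd, Sum.elim_inl, Sum.elim_inr, if_true, if_neg h'] at h6
        exact hc3 h6
    · have h6 := key (dd a c) (hdd a)
      have h' : ¬ a' = a := fun e => hne (by rw [e])
      simp only [dd, Sum.elim_inr, if_true, if_neg h'] at h6
      exact hc3 h6
  · intro hg
    have key : ∀ h ∈ T, g * h * g⁻¹ ∈ T := by
      intro h hh
      rw [hT] at hh ⊢
      choose σ hσ using row_ne_zero g
      have h1 : g.1 * h.1 = Matrix.diagonal (fun i => h.1 (σ i) (σ i)) * g.1 := by
        ext i j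
        rw [Matrix.diagonal_mul, Matrix.mul_apply, Finset.sum_eq_single j]
        · by_cases hj : g.1 i j = 0
          · rw [hj, zero_mul, mul_zero]
          · rw [hg i j (σ i) hj (hσ i), mul_comm]
        · intro x _ hx
          rw [hh x j hx, mul_zero]
        · simp
      have h2 : (g * h * g⁻¹).1 = Matrix.diagonal (fun i => h.1 (σ i) (σ i)) := by
        have h3 : (g * h * g⁻¹).1 = g.1 * h.1 * (g⁻¹).1 := rfl
        have h4 : g.1 * (g⁻¹).1 = 1 := congrArg Subtype.val (mul_inv_cancel g)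
        rw [h3, h1, Matrix.mul_assoc, h4, Matrix.mul_one]
      intro i j hij
      rw [h2, Matrix.diagonal_apply_ne _ hij]
    refine Subgroup.mem_normalizer_iff.2 fun h => ⟨key h, fun hh => ?_⟩
    let f : T → T := fun x => ⟨g * x.1 * g⁻¹, key x.1 x.2⟩
    have hf : Function.Injective f := by
      intro x y hxy
      have h1 : g * x.1 * g⁻¹ = g * y.1 * g⁻¹ := congrArg Subtype.val hxy
      have h2 : x.1 = y.1 := by simpa using h1
      exact Subtype.ext h2
    obtain ⟨x, hx⟩ := Finite.surjective_of_injective hf ⟨g * h * g⁻¹, hh⟩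
    have h1 : g * x.1 * g⁻¹ = g * h * g⁻¹ := congrArg Subtype.val hx
    have h2 : x.1 = h := by simpa using h1
    rw [← h2]
    exact x.2

theorem exists_mon (g : Matrix.symplecticGroup (Fin m) F) (hg : RowMon g.1) :
    ∃ (σ : Fin m ⊕ Fin m → Fin m ⊕ Fin m) (r : Fin m ⊕ Fin m → F),
      (∀ i, r i ≠ 0) ∧ g.1 = monM σ r := by
  choose σ hσ using row_ne_zero g
  refine ⟨σ, fun i => g.1 i (σ i), hσ, ?_⟩
  ext i j
  rw [monM_apply]
  by_cases hj : j = σ i
  · rw [if_pos hj, hj]
  · rw [if_neg hj]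
    by_contra h
    exact hj (hg i j (σ i) h (hσ i))

theorem mon_facts (σ : Fin m ⊕ Fin m → Fin m ⊕ Fin m) (r : Fin m ⊕ Fin m → F)
    (hr : ∀ i, r i ≠ 0) (h : monM σ r ∈ Matrix.symplecticGroup (Fin m) F) :
    (∀ i, σ (Sum.swap i) = Sum.swap (σ i)) ∧ Function.Injective σ ∧
    (∀ i, r i * jv F (σ i) * r (Sum.swap i) = jv F i) := by
  rw [monM_mem_iff] at h
  have h1 : ∀ i, σ (Sum.swap i) = Sum.swap (σ i) := by
    intro i
    have h2 := h i (Sum.swap i)
    rw [J_eq, J_eq, if_pos rfl] at h2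
    by_contra hne
    rw [if_neg hne, mul_zero, zero_mul] at h2
    exact jv_ne i h2.symm
  refine ⟨h1, ?_, ?_⟩
  · intro i k hik
    have h2 := h i (Sum.swap k)
    rw [J_eq, J_eq, h1 k, ← hik, if_pos rfl] at h2
    by_contra hne
    have h3 : ¬ (Sum.swap k = Sum.swap i) := by
      intro e
      have e' := congrArg Sum.swap e
      simp only [Sum.swap_swap] at e'
      exact hne e'.symm
    rw [if_neg h3] at h2
    exact mul_ne_zero (mul_ne_zero (hr i) (jv_ne _)) (hr _) h2
  · intro i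
    have h2 := h i (Sum.swap i)
    rw [J_eq, J_eq, if_pos (h1 i), if_pos rfl] at h2
    exact h2

noncomputable def iot (m : ℕ) : Equiv.Perm (Fin m ⊕ Fin m) := Equiv.sumComm (Fin m) (Fin m)

theorem iot_apply (x : Fin m ⊕ Fin m) : iot m x = Sum.swap x := rfl

theorem cent_iff (σ : Equiv.Perm (Fin m ⊕ Fin m)) :
    σ ∈ Subgroup.centralizer {iot m} ↔ ∀ x, σ (Sum.swap x) = Sum.swap (σ x) := by
  rw [Subgroup.mem_centralizer_iff]
  constructor
  · intro h x
    have h1 := h (iot m) rfl
    have h2 := congrArg (fun τ : Equiv.Perm (Fin m ⊕ Fin m) => τ x) h1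
    simp only [Equiv.Perm.mul_apply, iot_apply] at h2
    exact h2.symm
  · intro h τ hτ
    rw [Set.mem_singleton_iff] at hτ
    subst hτ
    ext x
    simp only [Equiv.Perm.mul_apply, iot_apply]
    exact (h x).symm

def rr (σ : Fin m ⊕ Fin m → Fin m ⊕ Fin m) (a : Fin m → Fˣ) : Fin m ⊕ Fin m → F :=
  Sum.elim (fun b => (a b : F)) (fun b => - jv F (σ (Sum.inl b)) * ((a b)⁻¹ : Fˣ))

theorem rr_ne (σ : Fin m ⊕ Fin m → Fin m ⊕ Fin m) (a : Fin m → Fˣ) (i : Fin m ⊕ Fin m) :
    rr σ a i ≠ 0 := by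
  rcases i with b | b
  · exact Units.ne_zero _
  · exact mul_ne_zero (neg_ne_zero.2 (jv_ne _)) (Units.ne_zero _)

theorem rr_mem (σ : Fin m ⊕ Fin m → Fin m ⊕ Fin m)
    (hσ : ∀ x, σ (Sum.swap x) = Sum.swap (σ x))
    (hinj : Function.Injective σ) (a : Fin m → Fˣ) :
    monM σ (rr σ a) ∈ Matrix.symplecticGroup (Fin m) F := by
  rw [monM_mem_iff]
  intro i k
  rw [J_eq, J_eq]
  by_cases hk : k = Sum.swap i
  · subst hk
    rw [if_pos (hσ i), if_pos rfl]
    rcases i with b | b
    · have h1 := jv_mul (F := F) (σ (Sum.inl b))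
      have h2 : (a b : F) * ((a b)⁻¹ : Fˣ) = 1 := by simp
      have h3 : jv F (Sum.inl b : Fin m ⊕ Fin m) = -1 := rfl
      show (a b : F) * jv F (σ (Sum.inl b)) * (- jv F (σ (Sum.inl b)) * ((a b)⁻¹ : Fˣ))
        = jv F (Sum.inl b)
      rw [h3]
      linear_combination (-((a b : F) * ((a b)⁻¹ : Fˣ))) * h1 - h2
    · have h1 := jv_mul (F := F) (σ (Sum.inl b))
      have h2 : (a b : F) * ((a b)⁻¹ : Fˣ) = 1 := by simp
      have h3 : jv F (Sum.inr b : Fin m ⊕ Fin m) = 1 := rfl
      have h4 : σ (Sum.inr b) = Sum.swap (σ (Sum.inl b)) := hσ (Sum.inl b)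
      show (- jv F (σ (Sum.inl b)) * ((a b)⁻¹ : Fˣ)) * jv F (σ (Sum.inr b)) * (a b : F)
        = jv F (Sum.inr b)
      rw [h3, h4, jv_swap]
      linear_combination ((a b : F) * ((a b)⁻¹ : Fˣ)) * h1 + h2
  · have h5 : ¬ (σ k = Sum.swap (σ i)) := fun h => hk (hinj (h.trans (hσ i).symm))
    rw [if_neg h5, if_neg hk, mul_zero, zero_mul]

noncomputable def Phi
    (p : ↥(Subgroup.centralizer ({iot m} : Set (Equiv.Perm (Fin m ⊕ Fin m)))) × (Fin m → Fˣ)) :
    Matrix.symplecticGroup (Fin m) F :=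
  ⟨monM p.1.1 (rr p.1.1 p.2), rr_mem _ ((cent_iff _).1 p.1.2) p.1.1.injective _⟩

theorem Phi_inj : Function.Injective (Phi (F := F) (m := m)) := by
  rintro ⟨⟨σ, hσ⟩, a⟩ ⟨⟨σ', hσ'⟩, a'⟩ h
  have h1 : monM σ (rr σ a) = monM σ' (rr σ' a') := congrArg Subtype.val h
  have h2 : ∀ i, σ i = σ' i ∧ rr σ a i = rr σ' a' i := by
    intro i
    have h3 := congrFun (congrFun h1 i) (σ i)
    rw [monM_apply, monM_apply, if_pos rfl] at h3
    by_cases h4 : σ i = σ' i
    · rw [if_pos h4] at h3
      exact ⟨h4, h3⟩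
    · rw [if_neg h4] at h3
      exact absurd h3 (rr_ne _ _ _)
  have h5 : σ = σ' := Equiv.ext fun i => (h2 i).1
  subst h5
  have h6 : a = a' := by
    funext b
    exact Units.ext (h2 (Sum.inl b)).2
  subst h6
  rfl

theorem range_iff (g : Matrix.symplecticGroup (Fin m) F) :
    RowMon g.1 ↔ g ∈ Set.range (Phi (F := F) (m := m)) := by
  constructor
  · intro hg
    obtain ⟨σ₀, r₀, hr₀, hgm⟩ := exists_mon g hg
    have hmem : monM σ₀ r₀ ∈ Matrix.symplecticGroup (Fin m) F := hgm ▸ g.2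
    obtain ⟨h1, h2, h3⟩ := mon_facts σ₀ r₀ hr₀ hmem
    let σ : Equiv.Perm (Fin m ⊕ Fin m) :=
      Equiv.ofBijective σ₀ ⟨h2, Finite.surjective_of_injective h2⟩
    have hσ : σ ∈ Subgroup.centralizer {iot m} := (cent_iff σ).2 h1
    let a : Fin m → Fˣ := fun b => Units.mk0 (r₀ (Sum.inl b)) (hr₀ _)
    refine ⟨(⟨σ, hσ⟩, a), ?_⟩
    apply Subtype.ext
    show monM σ₀ (rr σ₀ a) = g.1
    rw [hgm]
    congr 1
    funext i
    rcases i with b | b
    · rfl
    · show - jv F (σ₀ (Sum.inl b)) * ((a b)⁻¹ : Fˣ) = r₀ (Sum.inr b)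
      have h4 := h3 (Sum.inl b)
      have h5 : jv F (Sum.inl b : Fin m ⊕ Fin m) = -1 := rfl
      rw [h5] at h4
      simp only [Sum.swap_inl] at h4
      have h6 := jv_mul (F := F) (σ₀ (Sum.inl b))
      have h7 : (((a b)⁻¹ : Fˣ) : F) = (r₀ (Sum.inl b))⁻¹ := by simp [a]
      rw [h7, eq_comm, ← div_eq_mul_inv, eq_div_iff (hr₀ _)]
      linear_combination (jv F (σ₀ (Sum.inl b))) * h4 -
        (r₀ (Sum.inl b) * r₀ (Sum.inr b)) * h6
  · rintro ⟨⟨⟨σ, hσ⟩, a⟩, rfl⟩
    intro i j j' hj hj'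
    have e1 : j = σ i := by
      by_contra h
      exact hj (by show monM σ (rr σ a) i j = 0; rw [monM_apply, if_neg h])
    have e2 : j' = σ i := by
      by_contra h
      exact hj' (by show monM σ (rr σ a) i j' = 0; rw [monM_apply, if_neg h])
    rw [e1, e2]

theorem iot_cycleType (m : ℕ) : (iot m).cycleType = Multiset.replicate m 2 := by
  have h2 : ∀ n ∈ (iot m).cycleType, n = 2 := by
    intro n hn
    have h3 : n ∣ orderOf (iot m) := Equiv.Perm.dvd_of_mem_cycleType hn
    have h4 : orderOf (iot m) ∣ 2 := by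
      apply orderOf_dvd_of_pow_eq_one
      ext x
      simp [pow_two, iot_apply]
    have h5 : 2 ≤ n := Equiv.Perm.two_le_of_mem_cycleType hn
    have h6 : n ∣ 2 := h3.trans h4
    have h7 := Nat.le_of_dvd (by norm_num) h6
    omega
  have h3 := Multiset.eq_replicate_card.2 h2
  have h4 : (iot m).cycleType.sum = 2 * m := by
    rw [Equiv.Perm.sum_cycleType]
    have h5 : (iot m).support = Finset.univ := by
      ext x
      simp only [Equiv.Perm.mem_support, Finset.mem_univ, iff_true, iot_apply]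
      rcases x with a | a <;> simp
    rw [h5, Finset.card_univ, Fintype.card_sum, Fintype.card_fin]
    ring
  rw [h3, Multiset.sum_replicate, smul_eq_mul] at h4
  have h5 : Multiset.card (iot m).cycleType = m := by omega
  rw [h3, h5]

theorem card_cent (m : ℕ) :
    Nat.card ↥(Subgroup.centralizer ({iot m} : Set (Equiv.Perm (Fin m ⊕ Fin m)))) =
      2 ^ m * m.factorial := by
  rw [Equiv.Perm.nat_card_centralizer, iot_cycleType, Multiset.sum_replicate,
    Multiset.prod_replicate, Fintype.card_sum, Fintype.card_fin, smul_eq_mul]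
  have h1 : m + m - m * 2 = 0 := by omega
  rw [h1, Nat.factorial_zero, one_mul]
  rcases Nat.eq_zero_or_pos m with rfl | hm
  · simp
  · have h2 : (Multiset.replicate m 2).toFinset = {2} := by
      ext x
      simp only [Multiset.mem_toFinset, Multiset.mem_replicate, Finset.mem_singleton]
      constructor
      · exact fun h => h.2
      · exact fun h => ⟨by omega, h⟩
    rw [h2, Finset.prod_singleton, Multiset.count_replicate_self]

theorem main [Fintype F] {q : ℕ} (hF : Fintype.card F = q) (hq : 4 ≤ q) (m : ℕ) :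
    Nat.card ↥(Subgroup.normalizer (⨅ i : Fin m ⊕ Fin m, Cfsg.stabilizing (Cfsg.spToMat m F) ((Submodule.span F {(Pi.single i (1 : F) : Fin m ⊕ Fin m → F)} : Submodule F (Fin m ⊕ Fin m → F)) : Set (Fin m ⊕ Fin m → F)) : Set (Matrix.symplecticGroup (Fin m) F))) = 2 ^ m * Nat.factorial m * (q - 1) ^ m := by
  classical
  subst hF
  have hset : (⨅ i : Fin m ⊕ Fin m, Cfsg.stabilizing (Cfsg.spToMat m F) ((Submodule.span F {(Pi.single i (1 : F) : Fin m ⊕ Fin m → F)} : Submodule F (Fin m ⊕ Fin m → F)) : Set (Fin m ⊕ Fin m → F)) : Set (Matrix.symplecticGroup (Fin m) F)) = ((⨅ i : Fin m ⊕ Fin m, Cfsg.stabilizing (Cfsg.spToMat m F) ((Submodule.span F {(Pi.single i (1 : F) : Fin m ⊕ Fin m → F)} : Submodule F (Fin m ⊕ Fin m → F)) : Set (Fin m ⊕ Fin m → F)) : Subgroup (Matrix.symplecticGroup (Fin m) F)) : Set (Matrix.symplecticGroup (Fin m) F)) := by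
    rw [Subgroup.coe_iInf, Set.iInf_eq_iInter]
  rw [hset]
  have hrange : ∀ g : Matrix.symplecticGroup (Fin m) F,
      g ∈ Subgroup.normalizer (((⨅ i : Fin m ⊕ Fin m, Cfsg.stabilizing (Cfsg.spToMat m F) ((Submodule.span F {(Pi.single i (1 : F) : Fin m ⊕ Fin m → F)} : Submodule F (Fin m ⊕ Fin m → F)) : Set (Fin m ⊕ Fin m → F)) : Subgroup (Matrix.symplecticGroup (Fin m) F)) : Set (Matrix.symplecticGroup (Fin m) F))) ↔
        g ∈ Set.range (Phi (F := F) (m := m)) := by
    intro g
    rw [← range_iff]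
    exact norm_iff hq _ mem_T_iff g
  rw [Nat.card_congr (Equiv.subtypeEquivRight hrange)]
  rw [← Nat.card_congr (Equiv.ofInjective _ Phi_inj), Nat.card_prod, card_cent, Nat.card_fun,
    Nat.card_fin, Nat.card_eq_fintype_card (α := Fˣ), Fintype.card_units]

end helpers


/-- Weyl group of type C_m: for q ≥ 4 the diagonal matrices of Sp_2m(q) form a torus T ≅ (C_(q−1))^m (the elements stabilising every coordinate axis), and the normaliser of T in Sp_2m(q) has order 2^m · m! · (q − 1)^m. -/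
theorem result {F : Type*} [Field F] [Fintype F] {q : ℕ} (hF : Fintype.card F = q) (hq : 4 ≤ q) (m : ℕ) : Nat.card ↥(Subgroup.normalizer (⨅ i : Fin m ⊕ Fin m, Cfsg.stabilizing (Cfsg.spToMat m F) ((Submodule.span F {(Pi.single i (1 : F) : Fin m ⊕ Fin m → F)} : Submodule F (Fin m ⊕ Fin m → F)) : Set (Fin m ⊕ Fin m → F)) : Set (Matrix.symplecticGroup (Fin m) F))) = 2 ^ m * Nat.factorial m * (q - 1) ^ m := by
  exact main hF hq m

end Cfsg.Agent.S0777
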