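import Mathlib
import Cfsg.Statements.S0778

set_option autoImplicit false
open Cfsg

namespace Cfsg.Agent.S0778

open scoped Matrix

/-- The block-diagonal matrix of an invertible matrix. -/
def dg {F : Type*} [Field F] {m : ℕ} (X : Matrix.GeneralLinearGroup (Fin m) F) :
    Matrix (Fin m ⊕ Fin m) (Fin m ⊕ Fin m) F :=
  Matrix.fromBlocks X.1 0 0 ((X⁻¹).1)ᵀ

theorem dg_mem {F : Type*} [Field F] {m : ℕ} (X : Matrix.GeneralLinearGroup (Fin m) F) :
    dg X ∈ Matrix.symplecticGroup (Fin m) F := by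
  rw [SymplecticGroup.mem_iff]
  unfold dg Matrix.J
  rw [Matrix.fromBlocks_transpose, Matrix.fromBlocks_multiply, Matrix.fromBlocks_multiply]
  have h1 : X.1 * (X⁻¹).1 = 1 := by
    rw [← Units.val_mul, mul_inv_cancel, Units.val_one]
  have h2 : ((X⁻¹).1)ᵀ * (X.1)ᵀ = 1 := by
    rw [← Matrix.transpose_mul, h1, Matrix.transpose_one]
  simp only [Matrix.transpose_zero, Matrix.transpose_transpose, Matrix.mul_zero, Matrix.zero_mul,
    Matrix.mul_one, Matrix.mul_neg, Matrix.neg_mul, add_zero, zero_add, neg_zero, h1, h2]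

theorem dg_mul {F : Type*} [Field F] {m : ℕ} (X Y : Matrix.GeneralLinearGroup (Fin m) F) :
    dg (X * Y) = dg X * dg Y := by
  unfold dg
  rw [Matrix.fromBlocks_multiply]
  simp only [Matrix.mul_zero, Matrix.zero_mul, add_zero, zero_add, mul_inv_rev, Units.val_mul,
    Matrix.transpose_mul]

theorem dg_mulVec_inr {F : Type*} [Field F] {m : ℕ} (X : Matrix.GeneralLinearGroup (Fin m) F)
    (v : Fin m ⊕ Fin m → F) (i : Fin m) :
    (dg X *ᵥ v) (Sum.inr i) = (((X⁻¹).1)ᵀ *ᵥ (v ∘ Sum.inr)) i := by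
  unfold dg
  rw [Matrix.fromBlocks_mulVec]
  simp

theorem dg_mulVec_inl {F : Type*} [Field F] {m : ℕ} (X : Matrix.GeneralLinearGroup (Fin m) F)
    (v : Fin m ⊕ Fin m → F) (i : Fin m) :
    (dg X *ᵥ v) (Sum.inl i) = (X.1 *ᵥ (v ∘ Sum.inl)) i := by
  unfold dg
  rw [Matrix.fromBlocks_mulVec]
  simp

theorem dg_stab1 {F : Type*} [Field F] {m : ℕ} (X : Matrix.GeneralLinearGroup (Fin m) F)
    (v : Fin m ⊕ Fin m → F) :
    (∀ i : Fin m, v (Sum.inr i) = 0) ↔ ∀ i : Fin m, (dg X *ᵥ v) (Sum.inr i) = 0 := by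
  have h2 : (X.1)ᵀ * ((X⁻¹).1)ᵀ = 1 := by
    rw [← Matrix.transpose_mul, ← Units.val_mul, inv_mul_cancel, Units.val_one,
      Matrix.transpose_one]
  constructor
  · intro h i
    rw [dg_mulVec_inr]
    have h0 : v ∘ Sum.inr = 0 := funext h
    rw [h0, Matrix.mulVec_zero]
    rfl
  · intro h i
    have h0 : ((X⁻¹).1)ᵀ *ᵥ (v ∘ Sum.inr) = 0 := by
      funext i
      rw [← dg_mulVec_inr]
      exact h i
    have h3 : v ∘ Sum.inr = 0 := by
      have h4 := congrArg (fun w => (X.1)ᵀ *ᵥ w) h0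
      simp only [Matrix.mulVec_mulVec, h2, Matrix.one_mulVec, Matrix.mulVec_zero] at h4
      exact h4
    exact congrFun h3 i

theorem dg_stab2 {F : Type*} [Field F] {m : ℕ} (X : Matrix.GeneralLinearGroup (Fin m) F)
    (v : Fin m ⊕ Fin m → F) :
    (∀ i : Fin m, v (Sum.inl i) = 0) ↔ ∀ i : Fin m, (dg X *ᵥ v) (Sum.inl i) = 0 := by
  have h2 : (X⁻¹).1 * X.1 = 1 := by
    rw [← Units.val_mul, inv_mul_cancel, Units.val_one]
  constructor
  · intro h i
    rw [dg_mulVec_inl]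
    have h0 : v ∘ Sum.inl = 0 := funext h
    rw [h0, Matrix.mulVec_zero]
    rfl
  · intro h i
    have h0 : X.1 *ᵥ (v ∘ Sum.inl) = 0 := by
      funext i
      rw [← dg_mulVec_inl]
      exact h i
    have h3 : v ∘ Sum.inl = 0 := by
      have h4 := congrArg (fun w => (X⁻¹).1 *ᵥ w) h0
      simp only [Matrix.mulVec_mulVec, h2, Matrix.one_mulVec, Matrix.mulVec_zero] at h4
      exact h4
    exact congrFun h3 i

/-- The subgroup of the statement. -/
abbrev HS (F : Type*) [Field F] (m : ℕ) : Subgroup (Matrix.symplecticGroup (Fin m) F) :=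
  Cfsg.stabilizing (Cfsg.spToMat m F) {v : Fin m ⊕ Fin m → F | ∀ i : Fin m, v (Sum.inr i) = 0}
    ⊓ Cfsg.stabilizing (Cfsg.spToMat m F) {v : Fin m ⊕ Fin m → F | ∀ i : Fin m, v (Sum.inl i) = 0}

/-- The embedding of the general linear group. -/
def fH (F : Type*) [Field F] (m : ℕ) : Matrix.GeneralLinearGroup (Fin m) F →* ↥(HS F m) where
  toFun X := ⟨⟨dg X, dg_mem X⟩, ⟨fun v => dg_stab1 X v, fun v => dg_stab2 X v⟩⟩
  map_one' := by
    apply Subtype.ext
    apply Subtype.ext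
    show dg (1 : Matrix.GeneralLinearGroup (Fin m) F) = 1
    unfold dg
    simp
  map_mul' X Y := by
    apply Subtype.ext
    apply Subtype.ext
    exact dg_mul X Y

theorem fH_bij (F : Type*) [Field F] (m : ℕ) : Function.Bijective (fH F m) := by
  constructor
  · intro X Y h
    have h1 : dg X = dg Y := congrArg (fun A : ↥(HS F m) => (A.1.1 : Matrix _ _ F)) h
    unfold dg at h1
    rw [Matrix.fromBlocks_inj] at h1
    exact Units.ext h1.1
  · intro A
    obtain ⟨hA1, hA2⟩ := A.2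
    have hsp := (SymplecticGroup.mem_iff).mp A.1.2
    have h12 : A.1.1.toBlocks₁₂ = 0 := by
      ext i j
      have h := (hA2 (Sum.elim 0 (Pi.single j 1))).mp (fun _ => rfl) i
      have h' : (A.1.1 *ᵥ (Sum.elim 0 (Pi.single j 1))) (Sum.inl i) = 0 := h
      show A.1.1 (Sum.inl i) (Sum.inr j) = 0
      rw [← h']
      simp [Matrix.mulVec, dotProduct, Pi.single_apply]
    have h21 : A.1.1.toBlocks₂₁ = 0 := by
      ext i j
      have h := (hA1 (Sum.elim (Pi.single j 1) 0)).mp (fun _ => rfl) i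
      have h' : (A.1.1 *ᵥ (Sum.elim (Pi.single j 1) 0)) (Sum.inr i) = 0 := h
      show A.1.1 (Sum.inr i) (Sum.inl j) = 0
      rw [← h']
      simp [Matrix.mulVec, dotProduct, Pi.single_apply]
    have hA : A.1.1 = Matrix.fromBlocks A.1.1.toBlocks₁₁ 0 0 A.1.1.toBlocks₂₂ := by
      have h0 := (Matrix.fromBlocks_toBlocks A.1.1).symm
      rw [h12, h21] at h0
      exact h0
    rw [hA] at hsp
    unfold Matrix.J at hsp
    rw [Matrix.fromBlocks_transpose, Matrix.fromBlocks_multiply, Matrix.fromBlocks_multiply,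
      Matrix.fromBlocks_inj] at hsp
    obtain ⟨-, hk, -, -⟩ := hsp
    simp only [Matrix.transpose_zero, Matrix.mul_zero, Matrix.mul_one,
      Matrix.mul_neg, Matrix.neg_mul, add_zero, zero_add, neg_inj] at hk
    have hk' : (A.1.1.toBlocks₂₂)ᵀ * A.1.1.toBlocks₁₁ = 1 := mul_eq_one_comm.mp hk
    refine ⟨⟨A.1.1.toBlocks₁₁, (A.1.1.toBlocks₂₂)ᵀ, hk, hk'⟩, ?_⟩
    apply Subtype.ext
    apply Subtype.ext
    show Matrix.fromBlocks A.1.1.toBlocks₁₁ 0 0 ((A.1.1.toBlocks₂₂)ᵀ)ᵀ = A.1.1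
    rw [Matrix.transpose_transpose]
    exact hA.symm

/-- The elements of Sp_2m(F) stabilising both W = ⟨e_1..e_m⟩ and U = ⟨f_1..f_m⟩ form a subgroup isomorphic to GL_m(F) (block-diagonal matrices diag(X, X^(−ᵀ)) up to the sign convention of J), for m ≥ 1 or m = 0 alike. -/
theorem result {F : Type*} [Field F] (m : ℕ) : Nonempty (↥(Cfsg.stabilizing (Cfsg.spToMat m F) {v : Fin m ⊕ Fin m → F | ∀ i : Fin m, v (Sum.inr i) = 0} ⊓ Cfsg.stabilizing (Cfsg.spToMat m F) {v : Fin m ⊕ Fin m → F | ∀ i : Fin m, v (Sum.inl i) = 0}) ≃* Matrix.GeneralLinearGroup (Fin m) F) := by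
  exact ⟨(MulEquiv.ofBijective (fH F m) (fH_bij F m)).symm⟩

end Cfsg.Agent.S0778
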