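import Mathlib
import Cfsg.Statements.S0779

set_option autoImplicit false
open Cfsg

namespace Cfsg.Agent.S0779

variable {F : Type*} [Field F]

theorem ut_mulVec (n q : ℕ) (v : Fin n → F) (c : F) (x : Fin n → F) :
    (Cfsg.unitaryTransvection n q v c).mulVec x = x + (c * Cfsg.hermForm n F q x v) • v := by
  unfold Cfsg.unitaryTransvection Cfsg.hermForm
  rw [Matrix.add_mulVec, Matrix.one_mulVec, Matrix.smul_mulVec, Matrix.vecMulVec_mulVec]
  congr 1
  ext i
  simp only [Pi.smul_apply, MulOpposite.smul_eq_mul_unop, MulOpposite.unop_op, smul_eq_mul,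
    dotProduct]
  have : ∑ j, v j ^ q * x j = ∑ j, x j * v j ^ q := by
    apply Finset.sum_congr rfl; intro j _; ring
  rw [this]; ring

theorem herm_add_left (n q : ℕ) (u u' w : Fin n → F) :
    Cfsg.hermForm n F q (u + u') w = Cfsg.hermForm n F q u w + Cfsg.hermForm n F q u' w := by
  unfold Cfsg.hermForm
  rw [← Finset.sum_add_distrib]
  apply Finset.sum_congr rfl; intro j _; simp only [Pi.add_apply]; ring

theorem herm_smul_left (n q : ℕ) (a : F) (u w : Fin n → F) :
    Cfsg.hermForm n F q (a • u) w = a * Cfsg.hermForm n F q u w := by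
  unfold Cfsg.hermForm
  rw [Finset.mul_sum]
  apply Finset.sum_congr rfl; intro j _; simp only [Pi.smul_apply, smul_eq_mul]; ring

theorem herm_add_right (n q : ℕ) (hq : ∀ a b : F, (a + b) ^ q = a ^ q + b ^ q) (u w w' : Fin n → F) :
    Cfsg.hermForm n F q u (w + w') = Cfsg.hermForm n F q u w + Cfsg.hermForm n F q u w' := by
  unfold Cfsg.hermForm
  rw [← Finset.sum_add_distrib]
  apply Finset.sum_congr rfl; intro j _; simp only [Pi.add_apply]; rw [hq]; ring

theorem herm_smul_right (n q : ℕ) (a : F) (u w : Fin n → F) :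
    Cfsg.hermForm n F q u (a • w) = a ^ q * Cfsg.hermForm n F q u w := by
  unfold Cfsg.hermForm
  rw [Finset.mul_sum]
  apply Finset.sum_congr rfl; intro j _; simp only [Pi.smul_apply, smul_eq_mul]; ring

theorem frob_exists [Fintype F] {q : ℕ} (hF : Fintype.card F = q ^ 2) :
    ∃ φ : F →+* F, ∀ a, φ a = a ^ q := by
  obtain ⟨p, hchar⟩ := CharP.exists F
  obtain ⟨m, hp, hcard⟩ := FiniteField.card F p
  haveI : Fact p.Prime := ⟨hp⟩
  have hdvd : q ∣ p ^ (m : ℕ) := by
    rw [← hcard, hF]; exact Dvd.intro_left (q ^ 1) (by ring)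
  obtain ⟨k, -, hk⟩ := (Nat.dvd_prime_pow hp).mp hdvd
  refine ⟨iterateFrobenius F p k, ?_⟩
  intro a
  rw [iterateFrobenius_def, hk]

theorem herm_conj [Fintype F] {q : ℕ} (hF : Fintype.card F = q ^ 2) (n : ℕ) (x v : Fin n → F) :
    (Cfsg.hermForm n F q x v) ^ q = Cfsg.hermForm n F q v x := by
  obtain ⟨φ, hφ⟩ := frob_exists hF
  unfold Cfsg.hermForm
  rw [← hφ, map_sum]
  apply Finset.sum_congr rfl
  intro j _
  rw [map_mul, hφ, hφ, ← pow_mul, ← pow_two, ← hF, FiniteField.pow_card, mul_comm]

theorem result {F : Type*} [Field F] [Fintype F] {q : ℕ} (hF : Fintype.card F = q ^ 2) (n : ℕ) (v : Fin n → F) (hv : v ≠ 0) (hv0 : Cfsg.hermForm n F q v v = 0) (c : F) : (∀ x y : Fin n → F, Cfsg.hermForm n F q ((Cfsg.unitaryTransvection n q v c).mulVec x) ((Cfsg.unitaryTransvection n q v c).mulVec y) = Cfsg.hermForm n F q x y) ↔ (c = 0 ∨ c ^ (q - 1) = -1) := by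
  obtain ⟨φ, hφ⟩ := frob_exists hF
  have hq : ∀ a b : F, (a + b) ^ q = a ^ q + b ^ q := by
    intro a b; rw [← hφ, ← hφ, ← hφ, map_add]
  have hq1 : 1 ≤ q := by
    rcases Nat.eq_zero_or_pos q with h | h
    · exfalso
      rw [h] at hF
      have : 0 < Fintype.card F := Fintype.card_pos
      rw [hF] at this
      simp at this
    · exact h
  have key : ∀ x y : Fin n → F,
      Cfsg.hermForm n F q ((Cfsg.unitaryTransvection n q v c).mulVec x)
        ((Cfsg.unitaryTransvection n q v c).mulVec y)
      = Cfsg.hermForm n F q x y + (c ^ q + c) * (Cfsg.hermForm n F q x v * Cfsg.hermForm n F q v y) := by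
    intro x y
    rw [ut_mulVec, ut_mulVec, herm_add_left, herm_add_right n q hq, herm_add_right n q hq,
      herm_smul_left, herm_smul_right, herm_smul_left, herm_smul_right, hv0, mul_pow,
      herm_conj hF n y v]
    ring
  have hcq : c ^ q = c ^ (q - 1) * c := by
    rw [← pow_succ, Nat.sub_add_cancel hq1]
  constructor
  · intro h
    obtain ⟨i, hi⟩ : ∃ i, v i ≠ 0 := by
      by_contra hcon
      push_neg at hcon
      exact hv (funext hcon)
    have h1 := h (Pi.single i 1) (Pi.single i 1)
    rw [key] at h1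
    have h2 : Cfsg.hermForm n F q (Pi.single i 1) v = v i ^ q := by
      unfold Cfsg.hermForm
      rw [Finset.sum_eq_single i]
      · simp
      · intro j _ hj; simp [Pi.single_apply, hj]
      · intro h; exact absurd (Finset.mem_univ i) h
    have h3 : Cfsg.hermForm n F q v (Pi.single i 1) = v i := by
      unfold Cfsg.hermForm
      rw [Finset.sum_eq_single i]
      · simp
      · intro j _ hj
        have : (Pi.single i (1 : F) : Fin n → F) j = 0 := by simp [Pi.single_apply, hj]
        rw [this, zero_pow (by omega), mul_zero]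
      · intro h; exact absurd (Finset.mem_univ i) h
    rw [h2, h3] at h1
    have h4 : (c ^ q + c) * (v i ^ q * v i) = 0 := by
      linear_combination h1
    have h5 : v i ^ q * v i ≠ 0 := mul_ne_zero (pow_ne_zero _ hi) hi
    have h6 : c ^ q + c = 0 := by
      rcases mul_eq_zero.mp h4 with h | h
      · exact h
      · exact absurd h h5
    rw [hcq] at h6
    have h7 : (c ^ (q - 1) + 1) * c = 0 := by linear_combination h6
    rcases mul_eq_zero.mp h7 with h | h
    · right; linear_combination h
    · left; exact h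
  · intro h x y
    rw [key]
    have : c ^ q + c = 0 := by
      rcases h with h | h
      · rw [h, zero_pow (by omega)]; ring
      · rw [hcq, h]; ring
    rw [this]; ring

end Cfsg.Agent.S0779
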