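import Mathlib
import Cfsg.Statements.S0783
import Cfsg.Agent.Lib.Helper2.Unitary
import Cfsg.Agent.Lib.Helper2.Unitary2
import Cfsg.Agent.Lib.Helper2.HermCount

set_option autoImplicit false
open Cfsg

namespace Cfsg.Agent.S0783

open Cfsg.Agent.Lib.Helper2.Unitary Cfsg.Agent.Lib.Helper2.HermCount

/-- The norm-one units. -/
def mu (F : Type*) [Field F] (q : ℕ) : Subgroup Fˣ := (powMonoidHom (q + 1) : Fˣ →* Fˣ).ker

theorem mem_mu {F : Type*} [Field F] {q : ℕ} (c : Fˣ) :
    c ∈ mu F q ↔ (c : F) * (c : F) ^ q = 1 := by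
  rw [mu, MonoidHom.mem_ker, powMonoidHom_apply, Units.ext_iff, Units.val_pow_eq_pow_val,
    Units.val_one, pow_succ']

theorem card_mu {F : Type*} [Field F] [Fintype F] {q : ℕ} (hF : Fintype.card F = q ^ 2) :
    Nat.card (mu F q) = q + 1 := by
  rw [← card_norm_units hF]
  apply Nat.card_congr
  apply Equiv.subtypeEquivRight
  intro c
  rw [mem_mu, pow_succ']

/-- The determinant as a homomorphism from `GU` to the norm-one units. -/
def detMu {F : Type*} [Field F] [Fintype F] {q : ℕ} (hF : Fintype.card F = q ^ 2) (n : ℕ) :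
    ↥(Cfsg.GU n F q) →* ↥(mu F q) :=
  ((Matrix.GeneralLinearGroup.det :
    Matrix.GeneralLinearGroup (Fin n) F →* Fˣ).comp (Subgroup.subtype _)).codRestrict (mu F q)
    (fun g => by
      rw [mem_mu]
      have h := det_norm hF ((mem_GU_iff n q g.1).mp g.2)
      simpa using h)

theorem detMu_val {F : Type*} [Field F] [Fintype F] {q : ℕ} (hF : Fintype.card F = q ^ 2)
    (n : ℕ) (g : ↥(Cfsg.GU n F q)) :
    (((detMu hF n g : ↥(mu F q)) : Fˣ) : F) =
      ((g : Matrix.GeneralLinearGroup (Fin n) F) : Matrix (Fin n) (Fin n) F).det := rfl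

theorem detMu_surjective {F : Type*} [Field F] [Fintype F] {q : ℕ}
    (hF : Fintype.card F = q ^ 2) (n : ℕ) (hn : 1 ≤ n) :
    Function.Surjective (detMu hF n) := by
  classical
  intro c
  have hc := (mem_mu c.1).mp c.2
  have hU : IsU n q (Matrix.diagonal (fun i : Fin n => if i = ⟨0, hn⟩ then ((c.1 : Fˣ) : F) else 1)) := by
    apply isU_diagonal
    intro i
    split_ifs
    · exact hc
    · simp
  refine ⟨(equivU hF n).symm ⟨_, hU⟩, ?_⟩
  apply Subtype.ext
  apply Units.ext
  rw [detMu_val, equivU_symm_val, Matrix.det_diagonal, Finset.prod_ite_eq' Finset.univ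
    (⟨0, hn⟩ : Fin n) (fun _ => ((c.1 : Fˣ) : F))]
  simp

/-- PGU_n(q)/PSU_n(q) is cyclic of order (n, q+1): for n ≥ 2 and |F| = q² there is a surjective homomorphism from GU_n(q) onto the cyclic group of order gcd(n, q + 1) whose kernel is generated by the determinant-one elements together with the centre. -/
theorem result {F : Type*} [Field F] [Fintype F] {q : ℕ} (hF : Fintype.card F = q ^ 2) (n : ℕ) (hn : 2 ≤ n) : ∃ φ : ↥(Cfsg.GU n F q) →* Multiplicative (ZMod (Nat.gcd n (q + 1))), Function.Surjective φ ∧ φ.ker = (Matrix.GeneralLinearGroup.det : Matrix.GeneralLinearGroup (Fin n) F →* Fˣ).ker.subgroupOf (Cfsg.GU n F q) ⊔ Subgroup.center ↥(Cfsg.GU n F q) := by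
  classical
  have hn1 : 1 ≤ n := by omega
  have hq := two_le_q hF
  have : IsCyclic ↥(mu F q) := inferInstance
  -- the subgroup of n-th powers
  let Pn : Subgroup ↥(mu F q) := (powMonoidHom n : ↥(mu F q) →* ↥(mu F q)).range
  have hcardQ : Nat.card (↥(mu F q) ⧸ Pn) = Nat.card (Multiplicative (ZMod (Nat.gcd n (q + 1)))) := by
    have h1 := Subgroup.card_eq_card_quotient_mul_card_subgroup Pn
    have h2 : Nat.card Pn = Nat.card ↥(mu F q) / (Nat.card ↥(mu F q)).gcd n :=
      IsCyclic.card_powMonoidHom_range _ n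
    rw [card_mu hF] at h1 h2
    rw [h2] at h1
    have hd : Nat.gcd (q + 1) n ∣ q + 1 := Nat.gcd_dvd_left _ _
    have hgpos : 0 < Nat.gcd (q + 1) n := Nat.gcd_pos_of_pos_left _ (by omega)
    have h4 : Nat.card (↥(mu F q) ⧸ Pn) = Nat.gcd (q + 1) n := by
      generalize Nat.gcd (q + 1) n = d at h1 hd hgpos
      obtain ⟨e, he⟩ := hd
      have he0 : 0 < e := by
        rcases Nat.eq_zero_or_pos e with h | h
        · rw [h, mul_zero] at he; omega
        · exact h
      rw [he, Nat.mul_div_cancel_left e hgpos] at h1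
      exact (Nat.eq_of_mul_eq_mul_right he0 h1).symm
    have : NeZero (Nat.gcd n (q + 1)) := ⟨(Nat.gcd_pos_of_pos_right _ (by omega)).ne'⟩
    rw [h4, Nat.gcd_comm]
    show _ = Nat.card (ZMod (Nat.gcd n (q + 1)))
    rw [Nat.card_zmod]
  have : IsCyclic (↥(mu F q) ⧸ Pn) :=
    isCyclic_of_surjective (QuotientGroup.mk' Pn) (QuotientGroup.mk'_surjective Pn)
  let e : (↥(mu F q) ⧸ Pn) ≃* Multiplicative (ZMod (Nat.gcd n (q + 1))) :=
    mulEquivOfCyclicCardEq hcardQ
  let φ : ↥(Cfsg.GU n F q) →* Multiplicative (ZMod (Nat.gcd n (q + 1))) :=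
    e.toMonoidHom.comp ((QuotientGroup.mk' Pn).comp (detMu hF n))
  have hker : ∀ g : ↥(Cfsg.GU n F q), g ∈ φ.ker ↔ ∃ c : ↥(mu F q), c ^ n = detMu hF n g := by
    intro g
    rw [MonoidHom.mem_ker]
    show e (QuotientGroup.mk' Pn (detMu hF n g)) = 1 ↔ _
    rw [MulEquiv.map_eq_one_iff, QuotientGroup.mk'_apply, QuotientGroup.eq_one_iff]
    show detMu hF n g ∈ (powMonoidHom n : ↥(mu F q) →* ↥(mu F q)).range ↔ _
    rw [MonoidHom.mem_range]
    rfl
  refine ⟨φ, ?_, ?_⟩
  · exact e.surjective.comp ((QuotientGroup.mk'_surjective Pn).comp (detMu_surjective hF n hn1))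
  · apply le_antisymm
    · -- ker ≤ SU ⊔ Z
      intro g hg
      obtain ⟨c, hc⟩ := (hker g).mp hg
      have hcn := (mem_mu c.1).mp c.2
      let z : ↥(Cfsg.GU n F q) := (equivU hF n).symm
        ⟨((c.1 : Fˣ) : F) • (1 : Matrix (Fin n) (Fin n) F), isU_smul_one n q _ hcn⟩
      have hzval : ((z : Matrix.GeneralLinearGroup (Fin n) F) : Matrix (Fin n) (Fin n) F) =
          ((c.1 : Fˣ) : F) • (1 : Matrix (Fin n) (Fin n) F) := equivU_symm_val hF n _ _
      have hzc : z ∈ Subgroup.center ↥(Cfsg.GU n F q) := by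
        rw [Subgroup.mem_center_iff]
        intro h
        apply Subtype.ext
        apply Units.ext
        show ((h : Matrix.GeneralLinearGroup (Fin n) F) : Matrix (Fin n) (Fin n) F) *
            ((z : Matrix.GeneralLinearGroup (Fin n) F) : Matrix (Fin n) (Fin n) F) =
          ((z : Matrix.GeneralLinearGroup (Fin n) F) : Matrix (Fin n) (Fin n) F) *
            ((h : Matrix.GeneralLinearGroup (Fin n) F) : Matrix (Fin n) (Fin n) F)
        rw [hzval, Matrix.mul_smul, Matrix.smul_mul, Matrix.mul_one, Matrix.one_mul]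
      have hdz : detMu hF n z = c ^ n := by
        apply Subtype.ext
        apply Units.ext
        rw [detMu_val, hzval, Matrix.det_smul, Matrix.det_one, mul_one, Fintype.card_fin]
        simp
      have hgz : g * z⁻¹ ∈ (Matrix.GeneralLinearGroup.det :
          Matrix.GeneralLinearGroup (Fin n) F →* Fˣ).ker.subgroupOf (Cfsg.GU n F q) := by
        rw [Subgroup.mem_subgroupOf, MonoidHom.mem_ker]
        have h1 : detMu hF n (g * z⁻¹) = 1 := by
          rw [map_mul, map_inv, hdz, ← hc, mul_inv_cancel]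
        exact congrArg (fun x : ↥(mu F q) => (x : Fˣ)) h1
      have hsplit : g = (g * z⁻¹) * z := by group
      rw [hsplit]
      exact Subgroup.mul_mem_sup hgz hzc
    · -- SU ⊔ Z ≤ ker
      apply sup_le
      · intro g hg
        rw [Subgroup.mem_subgroupOf, MonoidHom.mem_ker] at hg
        rw [hker]
        refine ⟨1, ?_⟩
        rw [one_pow]
        apply Subtype.ext
        exact hg.symm
      · intro g hg
        rw [hker]
        have hcomm : ∀ A : Matrix (Fin n) (Fin n) F, IsU n q A → A.det = 1 →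
            ((g : Matrix.GeneralLinearGroup (Fin n) F) : Matrix (Fin n) (Fin n) F) * A =
              A * ((g : Matrix.GeneralLinearGroup (Fin n) F) : Matrix (Fin n) (Fin n) F) := by
          intro A hA _
          have h1 := Subgroup.mem_center_iff.mp hg ((equivU hF n).symm ⟨A, hA⟩)
          have h2 := congrArg (fun x : ↥(Cfsg.GU n F q) =>
            ((x : Matrix.GeneralLinearGroup (Fin n) F) : Matrix (Fin n) (Fin n) F)) h1
          simp only [Subgroup.coe_mul, Units.val_mul, equivU_symm_val] at h2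
          exact h2.symm
        have hsc := scalar_of_comm hF n _ hcomm ⟨0, hn1⟩
        have hU : IsU n q ((g : Matrix.GeneralLinearGroup (Fin n) F) : Matrix (Fin n) (Fin n) F) :=
          (mem_GU_iff n q g.1).mp g.2
        have hnorm : ((g : Matrix.GeneralLinearGroup (Fin n) F) : Matrix (Fin n) (Fin n) F)
              ⟨0, hn1⟩ ⟨0, hn1⟩ *
            (((g : Matrix.GeneralLinearGroup (Fin n) F) : Matrix (Fin n) (Fin n) F)
              ⟨0, hn1⟩ ⟨0, hn1⟩) ^ q = 1 := by
          have h := hU (Pi.single ⟨0, hn1⟩ 1) (Pi.single ⟨0, hn1⟩ 1)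
          rw [hsc, Matrix.smul_mulVec, Matrix.one_mulVec, H_smul_left, H_smul_right,
            H_single_right hF] at h
          simpa [mul_assoc] using h
        generalize ((g : Matrix.GeneralLinearGroup (Fin n) F) : Matrix (Fin n) (Fin n) F)
          ⟨0, hn1⟩ ⟨0, hn1⟩ = c at hsc hnorm
        have hc0 : c ≠ 0 := by
          rintro rfl
          simp at hnorm
        refine ⟨⟨Units.mk0 c hc0, (mem_mu _).mpr hnorm⟩, ?_⟩
        apply Subtype.ext
        apply Units.ext
        rw [detMu_val, hsc, Matrix.det_smul, Matrix.det_one, mul_one, Fintype.card_fin]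
        simp

end Cfsg.Agent.S0783
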