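import Mathlib
import Cfsg.Statements.S0784

set_option autoImplicit false
open Cfsg

namespace Cfsg.Agent.S0784

variable {F : Type*} [Field F] {n : ℕ}

theorem polarVec_dot (Q : QuadraticForm F (Fin n → F)) (v x : Fin n → F) :
    Cfsg.polarVec ⇑Q v ⬝ᵥ x = QuadraticMap.polar ⇑Q v x := by
  have h := LinearMap.pi_apply_eq_sum_univ (QuadraticMap.polarBilin Q v) x
  have h2 : QuadraticMap.polar ⇑Q v x = QuadraticMap.polarBilin Q v x := rfl
  rw [h2, h]
  unfold Cfsg.polarVec dotProduct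
  apply Finset.sum_congr rfl
  intro j _
  have h3 : (fun i : Fin n => if j = i then (1 : F) else 0) = Pi.single j 1 := by
    funext i
    simp [Pi.single_apply, eq_comm]
  rw [h3, smul_eq_mul, mul_comm]
  rfl

theorem reflection_mulVec (Q : QuadraticForm F (Fin n → F)) (v x : Fin n → F) :
    (Cfsg.reflectionMatrix ⇑Q v).mulVec x = x - ((Q v)⁻¹ * QuadraticMap.polar ⇑Q v x) • v := by
  unfold Cfsg.reflectionMatrix
  rw [Matrix.sub_mulVec, Matrix.one_mulVec, Matrix.smul_mulVec, Matrix.vecMulVec_mulVec,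
    polarVec_dot]
  congr 1
  ext i
  simp [mul_comm, mul_left_comm]

theorem reflection_isometry (Q : QuadraticForm F (Fin n → F)) (v : Fin n → F) (hv : Q v ≠ 0)
    (x : Fin n → F) : Q ((Cfsg.reflectionMatrix ⇑Q v).mulVec x) = Q x := by
  rw [reflection_mulVec]
  set a := (Q v)⁻¹ * QuadraticMap.polar ⇑Q v x with ha
  have h1 : x - a • v = x + (-a) • v := by rw [neg_smul, sub_eq_add_neg]
  rw [h1, QuadraticMap.map_add ⇑Q, QuadraticMap.map_smul, QuadraticMap.polar_smul_right,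
    QuadraticMap.polar_comm ⇑Q x v]
  have h2 : (Q v)⁻¹ * Q v = 1 := inv_mul_cancel₀ hv
  simp only [smul_eq_mul]
  rw [ha]
  have : -((Q v)⁻¹ * QuadraticMap.polar ⇑Q v x) * -((Q v)⁻¹ * QuadraticMap.polar ⇑Q v x) * Q v
      = ((Q v)⁻¹ * Q v) * ((Q v)⁻¹ * QuadraticMap.polar ⇑Q v x * QuadraticMap.polar ⇑Q v x) := by
    ring
  rw [this, h2]
  ring

theorem reflection_self (Q : QuadraticForm F (Fin n → F)) (v : Fin n → F) (hv : Q v ≠ 0) :
    (Cfsg.reflectionMatrix ⇑Q v).mulVec v = -v := by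
  rw [reflection_mulVec, QuadraticMap.polar_self]
  have h2 : (Q v)⁻¹ * (2 • Q v) = 2 := by
    rw [two_nsmul, ← two_mul]
    field_simp
  rw [h2, two_smul]
  abel

theorem reflection_fix (Q : QuadraticForm F (Fin n → F)) (v x : Fin n → F)
    (h : QuadraticMap.polar ⇑Q v x = 0) : (Cfsg.reflectionMatrix ⇑Q v).mulVec x = x := by
  rw [reflection_mulVec, h]
  simp

theorem reflection_det (Q : QuadraticForm F (Fin n → F)) (v : Fin n → F) (hv : Q v ≠ 0) :
    (Cfsg.reflectionMatrix ⇑Q v).det = -1 := by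
  unfold Cfsg.reflectionMatrix
  have h1 : (1 - (Q v)⁻¹ • Matrix.vecMulVec v (Cfsg.polarVec ⇑Q v) : Matrix (Fin n) (Fin n) F)
      = 1 + Matrix.replicateCol Unit (-(Q v)⁻¹ • v) * Matrix.replicateRow Unit (Cfsg.polarVec ⇑Q v) := by
    rw [← Matrix.vecMulVec_eq Unit, sub_eq_add_neg]
    congr 1
    ext i j
    simp [Matrix.vecMulVec_apply, mul_assoc]
  rw [h1, Matrix.det_one_add_replicateCol_mul_replicateRow, dotProduct_smul, polarVec_dot,
    QuadraticMap.polar_self]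
  have h2 : (Q v)⁻¹ * (2 • Q v) = 2 := by
    rw [two_nsmul, ← two_mul]
    field_simp
  rw [smul_eq_mul, neg_mul, h2]
  ring

theorem result {F : Type*} [Field F] {n : ℕ} (Q : QuadraticForm F (Fin n → F)) (v : Fin n → F) (hv : Q v ≠ 0) : (∀ x, Q ((Cfsg.reflectionMatrix ⇑Q v).mulVec x) = Q x) ∧ (Cfsg.reflectionMatrix ⇑Q v).mulVec v = -v ∧ (∀ x, QuadraticMap.polar ⇑Q v x = 0 → (Cfsg.reflectionMatrix ⇑Q v).mulVec x = x) ∧ (Cfsg.reflectionMatrix ⇑Q v).det = -1 :=
  ⟨reflection_isometry Q v hv, reflection_self Q v hv, fun x h => reflection_fix Q v x h,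
    reflection_det Q v hv⟩

end Cfsg.Agent.S0784
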