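import Mathlib
import Cfsg.Statements.S0785
import Cfsg.Agent.S0784

set_option autoImplicit false
open Cfsg

namespace Cfsg.Agent.S0785

variable {F : Type*} [Field F] {n : ℕ}

theorem det_sq (Q : QuadraticForm F (Fin n → F)) (hQ : (QuadraticMap.polarBilin Q).Nondegenerate)
    (M : Matrix (Fin n) (Fin n) F) (hM : ∀ u, Q (M.mulVec u) = Q u) : M.det = 1 ∨ M.det = -1 := by
  have hcomp : LinearMap.BilinForm.comp (QuadraticMap.polarBilin Q) (Matrix.toLin' M) (Matrix.toLin' M)
      = QuadraticMap.polarBilin Q := by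
    apply LinearMap.ext
    intro u
    apply LinearMap.ext
    intro v
    rw [LinearMap.BilinForm.comp_apply, Matrix.toLin'_apply, Matrix.toLin'_apply,
      QuadraticMap.polarBilin_apply_apply, QuadraticMap.polarBilin_apply_apply]
    unfold QuadraticMap.polar
    rw [← Matrix.mulVec_add, hM, hM, hM]
  have h1 := LinearMap.BilinForm.toMatrix'_comp (QuadraticMap.polarBilin Q) (Matrix.toLin' M)
    (Matrix.toLin' M)
  rw [hcomp, LinearMap.toMatrix'_toLin'] at h1
  have h2 := congrArg Matrix.det h1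
  rw [Matrix.det_mul, Matrix.det_mul, Matrix.det_transpose] at h2
  have hdet : (LinearMap.BilinForm.toMatrix' (QuadraticMap.polarBilin Q)).det ≠ 0 := by
    rw [← Matrix.nondegenerate_iff_det_ne_zero, LinearMap.BilinForm.nondegenerate_toMatrix'_iff]
    exact hQ
  have h3 : M.det * M.det = 1 := by
    have : (LinearMap.BilinForm.toMatrix' (QuadraticMap.polarBilin Q)).det * (M.det * M.det - 1) = 0 := by
      linear_combination -h2
    rcases mul_eq_zero.mp this with h | h
    · exact absurd h hdet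
    · linear_combination h
  exact mul_self_eq_one_iff.mp h3

theorem result {F : Type*} [Field F] {n : ℕ} (Q : QuadraticForm F (Fin n → F)) (hQ : (QuadraticMap.polarBilin Q).Nondegenerate) : (∀ g : ↥(Cfsg.isometryGroup F ⇑Q), ((g : Matrix.GeneralLinearGroup (Fin n) F) : Matrix (Fin n) (Fin n) F).det = 1 ∨ ((g : Matrix.GeneralLinearGroup (Fin n) F) : Matrix (Fin n) (Fin n) F).det = -1) ∧ ((∃ v, Q v ≠ 0) → ∃ g : ↥(Cfsg.isometryGroup F ⇑Q), ((g : Matrix.GeneralLinearGroup (Fin n) F) : Matrix (Fin n) (Fin n) F).det = -1) := by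
  constructor
  · intro g
    apply det_sq Q hQ
    intro u
    exact g.2 u u
  · rintro ⟨v, hv⟩
    have hdet : (Cfsg.reflectionMatrix ⇑Q v).det = -1 := Cfsg.Agent.S0784.reflection_det Q v hv
    have hne : (Cfsg.reflectionMatrix ⇑Q v).det ≠ 0 := by rw [hdet]; simp
    refine ⟨⟨Matrix.GeneralLinearGroup.mkOfDetNeZero (Cfsg.reflectionMatrix ⇑Q v) hne, ?_⟩, ?_⟩
    · intro u _
      exact Cfsg.Agent.S0784.reflection_isometry Q v hv u
    · exact hdet

end Cfsg.Agent.S0785
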