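import Cfsg.Statements.S0786
import Cfsg.Agent.Lib.Helper15.CD2

set_option autoImplicit false
open Cfsg

namespace Cfsg.Agent.S0786

/-- A product of reflections lies in the subgroup generated by the reflections. -/
theorem prodRefl_mem_closure {F : Type*} [Field F] [Fintype F] {n : ℕ}
    (Q : QuadraticForm F (Fin n → F)) (vs : List (Fin n → F)) (hvs : ∀ v ∈ vs, Q v ≠ 0) :
    Cfsg.Agent.Lib.Helper15.Spinor.prodRefl Q vs ∈ Subgroup.closure
      {g : ↥(Cfsg.isometryGroup F ⇑Q) | ∃ v : Fin n → F, Q v ≠ 0 ∧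
        ((g : Matrix.GeneralLinearGroup (Fin n) F) : Matrix (Fin n) (Fin n) F)
          = Cfsg.reflectionMatrix ⇑Q v} := by
  induction vs with
  | nil =>
    rw [Cfsg.Agent.Lib.Helper15.Spinor.prodRefl_nil]
    exact Subgroup.one_mem _
  | cons v vs ih =>
    rw [Cfsg.Agent.Lib.Helper15.Spinor.prodRefl_cons]
    refine Subgroup.mul_mem _ (Subgroup.subset_closure ?_)
      (ih (fun w hw => hvs w (List.mem_cons_of_mem _ hw)))
    exact ⟨v, hvs v (List.mem_cons_self ..),
      Cfsg.Agent.Lib.Helper15.Spinor.coe_reflO Q v (hvs v (List.mem_cons_self ..))⟩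

/-- Generation by reflections: if F is finite, Q is a quadratic form on F^n with non-degenerate polar form, and (|F|, n) ≠ (2, 4), then the isometry group of Q is generated by the reflections r_v, Q(v) ≠ 0. -/
theorem result {F : Type*} [Field F] [Fintype F] {n : ℕ} (Q : QuadraticForm F (Fin n → F)) (hQ : (QuadraticMap.polarBilin Q).Nondegenerate) (h : Fintype.card F ≠ 2 ∨ n ≠ 4) : Subgroup.closure {g : ↥(Cfsg.isometryGroup F ⇑Q) | ∃ v : Fin n → F, Q v ≠ 0 ∧ ((g : Matrix.GeneralLinearGroup (Fin n) F) : Matrix (Fin n) (Fin n) F) = Cfsg.reflectionMatrix ⇑Q v} = ⊤ := by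
  classical
  rw [eq_top_iff]
  intro g _
  have hnd : ∀ x, (∀ y, QuadraticMap.polar ⇑Q x y = 0) → x = 0 := fun x hx => hQ.1 x hx
  have hlist : ∃ vs : List (Fin n → F), (∀ v ∈ vs, Q v ≠ 0) ∧
      g = Cfsg.Agent.Lib.Helper15.Spinor.prodRefl Q vs := by
    by_cases h2 : (2 : F) = 0
    · have hchar : CharP F 2 := CharTwo.of_one_ne_zero_of_two_eq_zero one_ne_zero h2
      exact Cfsg.Agent.Lib.Helper15.CD2.cartan_dieudonne2 Q hnd
        (by rw [Fintype.card_fin]; exact h) g
    · exact Cfsg.Agent.Lib.Helper15.CartanD.cartan_dieudonne h2 Q hQ g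
  obtain ⟨vs, hvs, rfl⟩ := hlist
  exact prodRefl_mem_closure Q vs hvs

end Cfsg.Agent.S0786
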