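import Cfsg.Statements.S0789
import Cfsg.Agent.Lib.Helper15.Dickson

set_option autoImplicit false
open Cfsg

namespace Cfsg.Agent.S0789

/-- Ω has index 2 in O for q even: if F is finite of characteristic two, n ≥ 2, Q is a quadratic form on F^n with non-degenerate polar form, and (|F|, n) ≠ (2, 4), then the commutator subgroup of the isometry group of Q has index 2 in it. -/
theorem result {F : Type*} [Field F] [Fintype F] [CharP F 2] {n : ℕ} (hn : 2 ≤ n) (Q : QuadraticForm F (Fin n → F)) (hQ : (QuadraticMap.polarBilin Q).Nondegenerate) (h : Fintype.card F ≠ 2 ∨ n ≠ 4) : (Cfsg.Omega F ⇑Q).index = 2 := by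
  classical
  have hnd : ∀ x, (∀ y, QuadraticMap.polar ⇑Q x y = 0) → x = 0 := fun x hx => hQ.1 x hx
  have hc : Fintype.card F ≠ 2 ∨ Fintype.card (Fin n) ≠ 4 := by
    rw [Fintype.card_fin]
    exact h
  have hne : Cfsg.Agent.Lib.Helper15.CD2.perp Q ⊥ ≠ ⊥ := by
    intro hbot
    have hmem : (Pi.single (⟨0, by omega⟩ : Fin n) 1 : Fin n → F)
        ∈ Cfsg.Agent.Lib.Helper15.CD2.perp Q ⊥ := by
      rw [Cfsg.Agent.Lib.Helper15.CD2.mem_perp]
      intro s hs
      rw [Submodule.mem_bot] at hs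
      rw [hs]
      simp [QuadraticMap.polar]
    rw [hbot, Submodule.mem_bot] at hmem
    have h1 := congrFun hmem ⟨0, by omega⟩
    simp at h1
  obtain ⟨w, _, hw⟩ := Cfsg.Agent.Lib.Helper15.CD2.exists_nonsing Q hnd ⊥
    (Cfsg.Agent.Lib.Helper15.CD2.splits_bot Q) hne
  refine Subgroup.index_eq_two_iff.2 ⟨Cfsg.Agent.Lib.Helper15.Spinor.reflO Q w, fun b => ?_⟩
  obtain ⟨vs, hvs, rfl⟩ := Cfsg.Agent.Lib.Helper15.CD2.cartan_dieudonne2 Q hnd hc b
  have e : Cfsg.Agent.Lib.Helper15.Spinor.prodRefl Q vs * Cfsg.Agent.Lib.Helper15.Spinor.reflO Q w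
      = Cfsg.Agent.Lib.Helper15.Spinor.prodRefl Q (vs ++ [w]) := by
    rw [Cfsg.Agent.Lib.Helper15.Spinor.prodRefl_append,
      Cfsg.Agent.Lib.Helper15.Spinor.prodRefl_cons, Cfsg.Agent.Lib.Helper15.Spinor.prodRefl_nil,
      mul_one]
  have hvs' : ∀ v ∈ vs ++ [w], Q v ≠ 0 := by
    intro v hv
    rw [List.mem_append, List.mem_singleton] at hv
    rcases hv with hv | rfl
    · exact hvs v hv
    · exact hw
  have h1 := Cfsg.Agent.Lib.Helper15.Dickson.prodRefl_mem_commutator_iff Q hnd hc vs hvs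
  have h2 := Cfsg.Agent.Lib.Helper15.Dickson.prodRefl_mem_commutator_iff Q hnd hc (vs ++ [w]) hvs'
  rw [e]
  change Xor (_ ∈ commutator _) (_ ∈ commutator _)
  rw [h1, h2, List.length_append, List.length_singleton, Nat.even_add_one]
  unfold Xor
  tauto

end Cfsg.Agent.S0789
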