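import Cfsg.Statements.S0787
import Cfsg.Agent.Lib.Helper15.OrthGen
import Cfsg.Agent.Lib.Helper15.CartanD
import Cfsg.Agent.S0789

set_option autoImplicit false
open Cfsg

namespace Cfsg.Agent.S0787

open Cfsg.Agent.Lib.Helper15.Spinor Cfsg.Agent.Lib.Helper15.CD2
  Cfsg.Agent.Lib.Helper15.OrthGen

/-- If generators of a group commute modulo a normal subgroup, the commutator subgroup lies in
it. -/
theorem commutator_le_of_generators {G : Type*} [Group G] (K : Subgroup G) [K.Normal]
    (S : Set G) (hS : Subgroup.closure S = ⊤)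
    (hK : ∀ a ∈ S, ∀ b ∈ S, a * b * a⁻¹ * b⁻¹ ∈ K) : commutator G ≤ K := by
  have h1 : ∀ a ∈ S, ∀ g : G, Commute (QuotientGroup.mk' K a) (QuotientGroup.mk' K g) := by
    intro a ha g
    have hg : g ∈ Subgroup.closure S := by rw [hS]; trivial
    induction hg using Subgroup.closure_induction with
    | mem b hb =>
      have h := hK a ha b hb
      rw [← QuotientGroup.eq_one_iff] at h
      change QuotientGroup.mk' K (a * b * a⁻¹ * b⁻¹) = 1 at h
      rw [map_mul, map_mul, map_mul, map_inv, map_inv, mul_inv_eq_one, mul_inv_eq_iff_eq_mul] at h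
      exact h
    | one => rw [map_one]; exact Commute.one_right _
    | mul x y _ _ hx hy => rw [map_mul]; exact hx.mul_right hy
    | inv x _ hx => rw [map_inv]; exact hx.inv_right
  have h2 : ∀ g h : G, Commute (QuotientGroup.mk' K g) (QuotientGroup.mk' K h) := by
    intro g h
    have hg : g ∈ Subgroup.closure S := by rw [hS]; trivial
    induction hg using Subgroup.closure_induction with
    | mem a ha => exact h1 a ha h
    | one => rw [map_one]; exact Commute.one_left _
    | mul x y _ _ hx hy => rw [map_mul]; exact hx.mul_left hy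
    | inv x _ hx => rw [map_inv]; exact hx.inv_left
  rw [commutator_eq_closure, Subgroup.closure_le]
  rintro _ ⟨g, h, rfl⟩
  change g * h * g⁻¹ * h⁻¹ ∈ K
  rw [← QuotientGroup.eq_one_iff]
  change QuotientGroup.mk' K (g * h * g⁻¹ * h⁻¹) = 1
  rw [map_mul, map_mul, map_mul, map_inv, map_inv, (h2 g h).eq,
    mul_inv_cancel_right, mul_inv_cancel]

/-- A subgroup of index two contained in every subgroup of index two is the only one. -/
theorem unique_index_two {G : Type*} [Group G] (N : Subgroup G) (hN : N.index = 2)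
    (hle : ∀ H : Subgroup G, H.index = 2 → N ≤ H) : ∃! H : Subgroup G, H.index = 2 := by
  refine ⟨N, hN, fun H hH => ?_⟩
  have h1 := hle H hH
  have h2 := Subgroup.relIndex_mul_index h1
  rw [hN, hH] at h2
  have h3 : N.relIndex H = 1 := by omega
  exact le_antisymm (Subgroup.relIndex_eq_one.1 h3) h1

/-- The index of `Ω` in the group of isometries of determinant one is two. -/
theorem relIndex_omega {F : Type*} [Field F] [Fintype F] {n : ℕ} (hn : 2 ≤ n)
    (Q : QuadraticForm F (Fin n → F)) (hQ : (QuadraticMap.polarBilin Q).Nondegenerate)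
    (h : Fintype.card F ≠ 2 ∨ n ≠ 4) :
    (commutator ↥(Cfsg.isometryGroup F ⇑Q)).relIndex (Cfsg.specialIsometryGroup F ⇑Q) = 2 := by
  classical
  have hnd : ∀ x, (∀ y, QuadraticMap.polar ⇑Q x y = 0) → x = 0 := fun x hx => hQ.1 x hx
  have hc : Fintype.card F ≠ 2 ∨ Fintype.card (Fin n) ≠ 4 := by
    rw [Fintype.card_fin]
    exact h
  have hle : commutator ↥(Cfsg.isometryGroup F ⇑Q) ≤ Cfsg.specialIsometryGroup F ⇑Q := by
    unfold Cfsg.specialIsometryGroup
    exact Abelianization.commutator_subset_ker _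
  have hmul := Subgroup.relIndex_mul_index hle
  by_cases h2 : (2 : F) = 0
  · have hchar : CharP F 2 := CharTwo.of_one_ne_zero_of_two_eq_zero one_ne_zero h2
    have htop : Cfsg.specialIsometryGroup F ⇑Q = ⊤ := by
      rw [eq_top_iff]
      intro g _
      obtain ⟨vs, hvs, rfl⟩ := cartan_dieudonne2 Q hnd hc g
      rw [Cfsg.Agent.Lib.Helper15.CartanD.mem_special,
        Cfsg.Agent.Lib.Helper15.CartanD.det_prodRefl Q vs hvs, CharTwo.neg_eq, one_pow]
    have hidx : (commutator ↥(Cfsg.isometryGroup F ⇑Q)).index = 2 :=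
      Cfsg.Agent.S0789.result hn Q hQ h
    rw [htop, Subgroup.index_top, hidx, mul_one] at hmul
    rw [htop]
    exact hmul
  · have hn' : 2 ≤ Fintype.card (Fin n) := by rw [Fintype.card_fin]; exact hn
    have hidx : (commutator ↥(Cfsg.isometryGroup F ⇑Q)).index = 4 :=
      Cfsg.Agent.Lib.Helper15.CartanD.omega_index h2 Q hQ hn'
    have hneg : (-1 : F) ≠ 1 := by
      intro h1
      apply h2
      linear_combination -h1
    have hso : (Cfsg.specialIsometryGroup F ⇑Q).index = 2 := by
      obtain ⟨w, hw⟩ := Cfsg.Agent.Lib.Helper15.CartanD.universal h2 Q hQ hn' 1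
      have hw0 : Q w ≠ 0 := by rw [hw]; exact one_ne_zero
      refine Subgroup.index_eq_two_iff.2 ⟨reflO Q w, fun b => ?_⟩
      obtain ⟨vs, hvs, rfl⟩ := Cfsg.Agent.Lib.Helper15.CartanD.cartan_dieudonne h2 Q hQ b
      have e : prodRefl Q vs * reflO Q w = prodRefl Q (vs ++ [w]) := by
        rw [prodRefl_append, prodRefl_cons, prodRefl_nil, mul_one]
      have hvs' : ∀ v ∈ vs ++ [w], Q v ≠ 0 := by
        intro v hv
        rw [List.mem_append, List.mem_singleton] at hv
        rcases hv with hv | rfl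
        · exact hvs v hv
        · exact hw0
      rw [e, Cfsg.Agent.Lib.Helper15.CartanD.mem_special,
        Cfsg.Agent.Lib.Helper15.CartanD.mem_special,
        Cfsg.Agent.Lib.Helper15.CartanD.det_prodRefl Q _ hvs',
        Cfsg.Agent.Lib.Helper15.CartanD.det_prodRefl Q _ hvs,
        neg_one_pow_eq_one_iff_even hneg, neg_one_pow_eq_one_iff_even hneg, List.length_append,
        List.length_singleton, Nat.even_add_one]
      unfold Xor
      tauto
    rw [hso, hidx] at hmul
    omega


/-- Existence and uniqueness of Ω: if F is finite, n ≥ 2, Q is a quadratic form on F^n with non-degenerate polar form and (|F|, n) ≠ (2, 4), then the group of isometries of determinant one has a unique subgroup of index 2. -/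
theorem result {F : Type*} [Field F] [Fintype F] {n : ℕ} (hn : 2 ≤ n) (Q : QuadraticForm F (Fin n → F)) (hQ : (QuadraticMap.polarBilin Q).Nondegenerate) (h : Fintype.card F ≠ 2 ∨ n ≠ 4) : ∃! H : Subgroup ↥(Cfsg.specialIsometryGroup F ⇑Q), H.index = 2 := by
  classical
  have hnd : ∀ x, (∀ y, QuadraticMap.polar ⇑Q x y = 0) → x = 0 := fun x hx => hQ.1 x hx
  have hc : Fintype.card F ≠ 2 ∨ Fintype.card (Fin n) ≠ 4 := by
    rw [Fintype.card_fin]
    exact h
  obtain ⟨K, hKdef⟩ : ∃ K : Subgroup ↥(Cfsg.isometryGroup F ⇑Q),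
      K = Subgroup.closure {y | ∃ x ∈ Cfsg.specialIsometryGroup F ⇑Q, y = x * x} := ⟨_, rfl⟩
  have hSOn : (Cfsg.specialIsometryGroup F ⇑Q).Normal := by
    unfold Cfsg.specialIsometryGroup
    infer_instance
  have hKn : K.Normal := by
    constructor
    intro k hk g
    have hle : K ≤ K.comap (MulAut.conj g).toMonoidHom := by
      conv_lhs => rw [hKdef]
      rw [Subgroup.closure_le]
      rintro _ ⟨x, hx, rfl⟩
      change g * (x * x) * g⁻¹ ∈ K
      rw [hKdef]
      refine Subgroup.subset_closure ⟨g * x * g⁻¹, hSOn.conj_mem x hx g, ?_⟩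
      group
    exact hle hk
  have hpair : ∀ u v : Fin n → F, Q u ≠ 0 → Q v ≠ 0 →
      reflO Q u * reflO Q v ∈ Cfsg.specialIsometryGroup F ⇑Q := by
    intro u v hu hv
    have e : reflO Q u * reflO Q v = prodRefl Q [u, v] := by
      rw [prodRefl_cons, prodRefl_cons, prodRefl_nil, mul_one]
    have hvs : ∀ x ∈ [u, v], Q x ≠ 0 := by
      intro x hx
      rw [List.mem_cons, List.mem_singleton] at hx
      rcases hx with rfl | rfl
      · exact hu
      · exact hv
    rw [e, Cfsg.Agent.Lib.Helper15.CartanD.mem_special,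
      Cfsg.Agent.Lib.Helper15.CartanD.det_prodRefl Q _ hvs]
    simp
  have hΩK : commutator ↥(Cfsg.isometryGroup F ⇑Q) ≤ K := by
    apply commutator_le_of_generators K {g | ∃ v, Q v ≠ 0 ∧ g = reflO Q v}
    · rw [eq_top_iff]
      rintro g -
      obtain ⟨vs, hvs, rfl⟩ := cd_all Q hnd hc g
      induction vs with
      | nil =>
        rw [prodRefl_nil]
        exact Subgroup.one_mem _
      | cons v vs ih =>
        rw [prodRefl_cons]
        exact Subgroup.mul_mem _ (Subgroup.subset_closure ⟨v, hvs v (List.mem_cons_self ..), rfl⟩)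
          (ih (fun w hw => hvs w (List.mem_cons_of_mem _ hw)))
    · rintro _ ⟨u, hu, rfl⟩ _ ⟨v, hv, rfl⟩
      have hinv1 : (reflO Q u)⁻¹ = reflO Q u := inv_eq_of_mul_eq_one_right (reflO_mul_self Q u)
      have hinv2 : (reflO Q v)⁻¹ = reflO Q v := inv_eq_of_mul_eq_one_right (reflO_mul_self Q v)
      rw [hinv1, hinv2, hKdef]
      refine Subgroup.subset_closure ⟨reflO Q u * reflO Q v, hpair u v hu hv, ?_⟩
      group
  apply unique_index_two ((commutator ↥(Cfsg.isometryGroup F ⇑Q)).subgroupOf
    (Cfsg.specialIsometryGroup F ⇑Q)) (relIndex_omega hn Q hQ h)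
  intro H hH x hx
  have hKH : K ≤ H.map (Cfsg.specialIsometryGroup F ⇑Q).subtype := by
    rw [hKdef, Subgroup.closure_le]
    rintro _ ⟨y, hy, rfl⟩
    exact ⟨⟨y, hy⟩ * ⟨y, hy⟩, Subgroup.mul_self_mem_of_index_two hH _, rfl⟩
  obtain ⟨z, hz, hzx⟩ := hKH (hΩK (Subgroup.mem_subgroupOf.1 hx))
  have hzeq : z = x := Subtype.ext hzx
  rw [← hzeq]
  exact hz

end Cfsg.Agent.S0787
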