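import Mathlib
import Cfsg.Statements.S0793
import Cfsg.Agent.S0784

set_option autoImplicit false
open Cfsg

namespace Cfsg.Agent.S0793

variable {F : Type*} [Field F] {n : ℕ}

theorem siegel_mulVec (Q : QuadraticForm F (Fin n → F)) (u v : Fin n → F) (c : F) (x : Fin n → F) :
    (Cfsg.siegelMatrix ⇑Q u v c).mulVec x
      = x + ((c * QuadraticMap.polar ⇑Q u x) • v + (-(c * QuadraticMap.polar ⇑Q v x)) • u) := by
  unfold Cfsg.siegelMatrix
  rw [Matrix.add_mulVec, Matrix.one_mulVec, Matrix.smul_mulVec, Matrix.sub_mulVec,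
    Matrix.vecMulVec_mulVec, Matrix.vecMulVec_mulVec, Cfsg.Agent.S0784.polarVec_dot,
    Cfsg.Agent.S0784.polarVec_dot]
  congr 1
  ext i
  simp only [Pi.smul_apply, Pi.sub_apply, Pi.add_apply, MulOpposite.smul_eq_mul_unop,
    MulOpposite.unop_op, smul_eq_mul]
  ring

theorem siegel_isometry (Q : QuadraticForm F (Fin n → F)) (u v : Fin n → F) (hu : Q u = 0)
    (hv : Q v = 0) (huv : QuadraticMap.polar ⇑Q u v = 0) (c : F) (x : Fin n → F) :
    Q ((Cfsg.siegelMatrix ⇑Q u v c).mulVec x) = Q x := by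
  rw [siegel_mulVec]
  have hvu : QuadraticMap.polar ⇑Q v u = 0 := by rw [QuadraticMap.polar_comm]; exact huv
  rw [QuadraticMap.map_add ⇑Q, QuadraticMap.map_add ⇑Q, QuadraticMap.map_smul,
    QuadraticMap.map_smul, hu, hv, QuadraticMap.polar_add_right, QuadraticMap.polar_smul_right,
    QuadraticMap.polar_smul_right, QuadraticMap.polar_smul_left, QuadraticMap.polar_smul_right,
    hvu, QuadraticMap.polar_comm ⇑Q x v, QuadraticMap.polar_comm ⇑Q x u]
  simp only [smul_eq_mul]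
  ring

theorem siegel_fix (Q : QuadraticForm F (Fin n → F)) (u v : Fin n → F) (hu : Q u = 0)
    (hv : Q v = 0) (huv : QuadraticMap.polar ⇑Q u v = 0) (c : F) :
    (Cfsg.siegelMatrix ⇑Q u v c).mulVec u = u ∧ (Cfsg.siegelMatrix ⇑Q u v c).mulVec v = v := by
  have hvu : QuadraticMap.polar ⇑Q v u = 0 := by rw [QuadraticMap.polar_comm]; exact huv
  constructor
  · rw [siegel_mulVec, QuadraticMap.polar_self, hu, hvu]
    simp
  · rw [siegel_mulVec, QuadraticMap.polar_self, hv, huv]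
    simp

theorem siegel_mul (Q : QuadraticForm F (Fin n → F)) (u v : Fin n → F) (hu : Q u = 0)
    (hv : Q v = 0) (huv : QuadraticMap.polar ⇑Q u v = 0) (c d : F) :
    Cfsg.siegelMatrix ⇑Q u v c * Cfsg.siegelMatrix ⇑Q u v d = Cfsg.siegelMatrix ⇑Q u v (c + d) := by
  have hvu : QuadraticMap.polar ⇑Q v u = 0 := by rw [QuadraticMap.polar_comm]; exact huv
  have huu : QuadraticMap.polar ⇑Q u u = 0 := by rw [QuadraticMap.polar_self, hu]; simp
  have hvv : QuadraticMap.polar ⇑Q v v = 0 := by rw [QuadraticMap.polar_self, hv]; simp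
  unfold Cfsg.siegelMatrix
  set N := Matrix.vecMulVec v (Cfsg.polarVec ⇑Q u) - Matrix.vecMulVec u (Cfsg.polarVec ⇑Q v) with hN
  have hN2 : N * N = 0 := by
    rw [hN]
    simp only [sub_mul, mul_sub, Matrix.vecMulVec_mul_vecMulVec, Cfsg.Agent.S0784.polarVec_dot,
      huv, hvu, huu, hvv, zero_smul, Matrix.vecMulVec_zero, sub_zero]
  rw [add_mul, mul_add, mul_add, one_mul, one_mul, mul_one, Matrix.smul_mul, Matrix.mul_smul, hN2,
    smul_zero, smul_zero, add_zero, add_smul]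
  abel

theorem result {F : Type*} [Field F] {n : ℕ} (Q : QuadraticForm F (Fin n → F)) (u v : Fin n → F) (hu : Q u = 0) (hv : Q v = 0) (huv : QuadraticMap.polar ⇑Q u v = 0) : (∀ c x, Q ((Cfsg.siegelMatrix ⇑Q u v c).mulVec x) = Q x) ∧ (∀ c, (Cfsg.siegelMatrix ⇑Q u v c).mulVec u = u ∧ (Cfsg.siegelMatrix ⇑Q u v c).mulVec v = v) ∧ ∀ c d, Cfsg.siegelMatrix ⇑Q u v c * Cfsg.siegelMatrix ⇑Q u v d = Cfsg.siegelMatrix ⇑Q u v (c + d) :=
  ⟨fun c x => siegel_isometry Q u v hu hv huv c x, fun c => siegel_fix Q u v hu hv huv c,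
    fun c d => siegel_mul Q u v hu hv huv c d⟩

end Cfsg.Agent.S0793
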