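import Cfsg.Statements.S0794
import Cfsg.Agent.Lib.Helper15.Witt

set_option autoImplicit false
open Cfsg

namespace Cfsg.Agent.S0794

open Cfsg.Agent.Lib.Helper15.Spinor Cfsg.Agent.Lib.Helper15.CD2
  Cfsg.Agent.Lib.Helper15.Witt

/-- The action of a Siegel transformation. -/
theorem act_siegel {F : Type*} [Field F] {n : ℕ} (Q : QuadraticForm F (Fin n → F))
    (u v : Fin n → F) (c : F) (g : ↥(Cfsg.isometryGroup F ⇑Q))
    (hg : ((g : Matrix.GeneralLinearGroup (Fin n) F) : Matrix (Fin n) (Fin n) F)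
      = Cfsg.siegelMatrix ⇑Q u v c) (x : Fin n → F) :
    act Q g x = x + c • (QuadraticMap.polar ⇑Q u x • v - QuadraticMap.polar ⇑Q v x • u) := by
  rw [act_apply, hg]
  unfold Cfsg.siegelMatrix
  rw [Matrix.add_mulVec, Matrix.one_mulVec, Matrix.smul_mulVec, Matrix.sub_mulVec,
    Matrix.vecMulVec_mulVec, Matrix.vecMulVec_mulVec, polarVec_dot, polarVec_dot,
    op_smul_eq_smul, op_smul_eq_smul]

/-- A Siegel transformation is a commutator. -/
theorem siegel_comm {F : Type*} [Field F] [Fintype F] (h2 : (2 : F) ≠ 0) {n : ℕ}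
    (Q : QuadraticForm F (Fin n → F))
    (hnd : ∀ x, (∀ y, QuadraticMap.polar ⇑Q x y = 0) → x = 0) (u v : Fin n → F)
    (hu : Q u = 0) (hv : Q v = 0) (huv : QuadraticMap.polar ⇑Q u v = 0) (c : F)
    (g : ↥(Cfsg.isometryGroup F ⇑Q))
    (hact : ∀ x, act Q g x
      = x + c • (QuadraticMap.polar ⇑Q u x • v - QuadraticMap.polar ⇑Q v x • u)) :
    ∃ h : ↥(Cfsg.isometryGroup F ⇑Q), g = h * g * h⁻¹ * g⁻¹ := by
  classical
  have hvu : QuadraticMap.polar ⇑Q v u = 0 := by rw [QuadraticMap.polar_comm]; exact huv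
  have huu := polar_self_of_sing Q u hu
  have hvv := polar_self_of_sing Q v hv
  by_cases hx : ∃ x, QuadraticMap.polar ⇑Q v x = 0 ∧ QuadraticMap.polar ⇑Q u x ≠ 0
  · obtain ⟨x, hvx, hux⟩ := hx
    obtain ⟨x₁, hx₁def⟩ : ∃ x₁, x₁ = (QuadraticMap.polar ⇑Q u x)⁻¹ • x := ⟨_, rfl⟩
    have hux₁ : QuadraticMap.polar ⇑Q u x₁ = 1 := by
      rw [hx₁def, QuadraticMap.polar_smul_right, smul_eq_mul, inv_mul_cancel₀ hux]
    have hvx₁ : QuadraticMap.polar ⇑Q v x₁ = 0 := by
      rw [hx₁def, QuadraticMap.polar_smul_right, hvx, smul_zero]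
    obtain ⟨f, hfdef⟩ : ∃ f, f = x₁ - Q x₁ • u := ⟨_, rfl⟩
    have hQf : Q f = 0 := by
      rw [hfdef, sub_eq_add_neg, QuadraticMap.map_add ⇑Q, QuadraticMap.map_neg,
        QuadraticMap.map_smul, hu, QuadraticMap.polar_neg_right, QuadraticMap.polar_smul_right,
        QuadraticMap.polar_comm ⇑Q x₁ u, hux₁]
      simp
    have huf : QuadraticMap.polar ⇑Q u f = 1 := by
      rw [hfdef, QuadraticMap.polar_sub_right, QuadraticMap.polar_smul_right, huu, hux₁, smul_zero,
        sub_zero]
    have hvf : QuadraticMap.polar ⇑Q v f = 0 := by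
      rw [hfdef, QuadraticMap.polar_sub_right, QuadraticMap.polar_smul_right, hvu, hvx₁, smul_zero,
        sub_zero]
    have hfu : QuadraticMap.polar ⇑Q f u = 1 := by rw [QuadraticMap.polar_comm]; exact huf
    have hfv : QuadraticMap.polar ⇑Q f v = 0 := by rw [QuadraticMap.polar_comm]; exact hvf
    have hff := polar_self_of_sing Q f hQf
    have hQa : ∀ a : F, Q (u - a • f) = -a := Q_hyp Q u f hu hQf huf
    have hra : ∀ a : F, a ≠ 0 → ∀ y, act Q (reflO Q (u - a • f)) y
        = y - ((-a)⁻¹ * (QuadraticMap.polar ⇑Q u y - a * QuadraticMap.polar ⇑Q f y))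
          • (u - a • f) := by
      intro a ha y
      rw [act_reflO Q _ (by rw [hQa]; exact neg_ne_zero.mpr ha), hQa,
        QuadraticMap.polar_sub_left, QuadraticMap.polar_smul_left, smul_eq_mul]
    obtain ⟨h, hhdef⟩ : ∃ h, h = reflO Q (u - (1 : F) • f) * reflO Q (u - (2 : F) • f) :=
      ⟨_, rfl⟩
    have h₂ : act Q (reflO Q (u - (2 : F) • f)) u = (2 : F) • f := by
      rw [hra 2 h2 u, huu, hfu]
      have e : (-2 : F)⁻¹ * (0 - 2 * 1) = 1 := by
        have h2' : (-2 : F) ≠ 0 := neg_ne_zero.mpr h2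
        rw [mul_one, zero_sub, inv_mul_cancel₀ h2']
      rw [e, one_smul, sub_sub_cancel]
    have h₁ : act Q (reflO Q (u - (1 : F) • f)) f = u := by
      rw [hra 1 one_ne_zero f, huf, hff]
      have e : (-1 : F)⁻¹ * (1 - 1 * 0) = -1 := by
        rw [mul_zero, sub_zero, mul_one, inv_neg, inv_one]
      rw [e, neg_smul, one_smul, one_smul, sub_neg_eq_add, add_sub_cancel]
    have hhu : act Q h u = (2 : F) • u := by
      rw [hhdef, act_mul, h₂, map_smul, h₁]
    have hhv : act Q h v = v := by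
      rw [hhdef, act_mul,
        act_reflO_fix Q _ v (by
          rw [QuadraticMap.polar_sub_left, QuadraticMap.polar_smul_left, huv, hfv, smul_zero,
            sub_zero]),
        act_reflO_fix Q _ v (by
          rw [QuadraticMap.polar_sub_left, QuadraticMap.polar_smul_left, huv, hfv, smul_zero,
            sub_zero])]
    have hkey : h * g = g * g * h := by
      apply act_ext
      intro y
      rw [act_mul, act_mul, act_mul]
      obtain ⟨z, hzdef⟩ : ∃ z, z = act Q h y := ⟨_, rfl⟩
      rw [← hzdef]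
      have hpu : QuadraticMap.polar ⇑Q u z = (2 : F)⁻¹ * QuadraticMap.polar ⇑Q u y := by
        have h3 := act_polar Q h ((2 : F)⁻¹ • u) y
        rw [map_smul, hhu, smul_smul, inv_mul_cancel₀ h2, one_smul, QuadraticMap.polar_smul_left,
          smul_eq_mul, ← hzdef] at h3
        exact h3
      have hpv : QuadraticMap.polar ⇑Q v z = QuadraticMap.polar ⇑Q v y := by
        have h3 := act_polar Q h v y
        rw [hhv, ← hzdef] at h3
        exact h3
      rw [hact y, hact z]
      obtain ⟨p, hp⟩ : ∃ p, p = QuadraticMap.polar ⇑Q u z := ⟨_, rfl⟩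
      obtain ⟨q, hq⟩ : ∃ q, q = QuadraticMap.polar ⇑Q v z := ⟨_, rfl⟩
      rw [← hp, ← hq]
      have hw_u : QuadraticMap.polar ⇑Q u (z + c • (p • v - q • u)) = p := by
        rw [QuadraticMap.polar_add_right, QuadraticMap.polar_smul_right,
          QuadraticMap.polar_sub_right, QuadraticMap.polar_smul_right,
          QuadraticMap.polar_smul_right, huv, huu, ← hp]
        simp
      have hw_v : QuadraticMap.polar ⇑Q v (z + c • (p • v - q • u)) = q := by
        rw [QuadraticMap.polar_add_right, QuadraticMap.polar_smul_right,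
          QuadraticMap.polar_sub_right, QuadraticMap.polar_smul_right,
          QuadraticMap.polar_smul_right, hvv, hvu, ← hq]
        simp
      rw [hact (z + c • (p • v - q • u)), hw_u, hw_v, map_add, map_smul, map_sub, map_smul,
        map_smul, hhv, hhu, ← hzdef, hp, hq, hpu, hpv]
      funext i
      simp only [Pi.add_apply, Pi.smul_apply, Pi.sub_apply, smul_eq_mul]
      field_simp
      ring
    refine ⟨h, ?_⟩
    rw [hkey]
    group
  · have hx' : ∀ x, QuadraticMap.polar ⇑Q v x = 0 → QuadraticMap.polar ⇑Q u x = 0 := by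
      intro x hvx
      by_contra hux
      exact hx ⟨x, hvx, hux⟩
    have hall : ∀ x, QuadraticMap.polar ⇑Q u x • v = QuadraticMap.polar ⇑Q v x • u := by
      by_cases hv0 : v = 0
      · have hu0 : u = 0 := by
          apply hnd
          intro y
          apply hx'
          rw [hv0]
          simp [QuadraticMap.polar]
        intro x
        rw [hv0, hu0, smul_zero]
      · have hex : ∃ y, QuadraticMap.polar ⇑Q v y ≠ 0 := by
          by_contra hno
          exact hv0 (hnd v (fun y => by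
            by_contra hy
            exact hno ⟨y, hy⟩))
        obtain ⟨y, hy⟩ := hex
        obtain ⟨μ, hμdef⟩ : ∃ μ, μ = QuadraticMap.polar ⇑Q u y * (QuadraticMap.polar ⇑Q v y)⁻¹ :=
          ⟨_, rfl⟩
        have hμ : ∀ x, QuadraticMap.polar ⇑Q u x = μ * QuadraticMap.polar ⇑Q v x := by
          intro x
          have h0 := hx' (x - (QuadraticMap.polar ⇑Q v x * (QuadraticMap.polar ⇑Q v y)⁻¹) • y) (by
            rw [QuadraticMap.polar_sub_right, QuadraticMap.polar_smul_right, smul_eq_mul, mul_assoc,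
              inv_mul_cancel₀ hy, mul_one, sub_self])
          rw [QuadraticMap.polar_sub_right, QuadraticMap.polar_smul_right, smul_eq_mul] at h0
          rw [hμdef]
          linear_combination h0
        have hu_eq : u = μ • v := by
          have h0 : u - μ • v = 0 := hnd _ (fun x => by
            rw [QuadraticMap.polar_sub_left, QuadraticMap.polar_smul_left, hμ x, smul_eq_mul,
              sub_self])
          exact sub_eq_zero.1 h0
        intro x
        rw [hμ x]
        conv_rhs => rw [hu_eq]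
        rw [smul_smul, mul_comm]
    have hg1 : g = 1 := by
      apply act_ext
      intro x
      rw [hact, hall, sub_self, smul_zero, add_zero, act_one]
    refine ⟨1, ?_⟩
    rw [hg1]
    group


/-- For q odd, n ≥ 5 and Q with non-degenerate polar form: an isometry whose matrix is a Siegel transformation T_(u,v)(c) (u, v singular and orthogonal) is a commutator in the isometry group, so lies in Ω. -/
theorem result {F : Type*} [Field F] [Fintype F] (h2 : (2 : F) ≠ 0) {n : ℕ} (hn : 5 ≤ n) (Q : QuadraticForm F (Fin n → F)) (hQ : (QuadraticMap.polarBilin Q).Nondegenerate) (u v : Fin n → F) (hu : Q u = 0) (hv : Q v = 0) (huv : QuadraticMap.polar ⇑Q u v = 0) (c : F) (g : ↥(Cfsg.isometryGroup F ⇑Q)) (hg : ((g : Matrix.GeneralLinearGroup (Fin n) F) : Matrix (Fin n) (Fin n) F) = Cfsg.siegelMatrix ⇑Q u v c) : g ∈ commutatorSet ↥(Cfsg.isometryGroup F ⇑Q) ∧ g ∈ Cfsg.Omega F ⇑Q := by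
  have hnd : ∀ x, (∀ y, QuadraticMap.polar ⇑Q x y = 0) → x = 0 := fun x hx => hQ.1 x hx
  obtain ⟨h, hh⟩ := siegel_comm h2 Q hnd u v hu hv huv c g (act_siegel Q u v c g hg)
  have hmem : g ∈ commutatorSet ↥(Cfsg.isometryGroup F ⇑Q) :=
    ⟨h, g, hh.symm⟩
  refine ⟨hmem, ?_⟩
  change g ∈ commutator ↥(Cfsg.isometryGroup F ⇑Q)
  rw [commutator_eq_closure]
  exact Subgroup.subset_closure hmem

end Cfsg.Agent.S0794
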