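import Cfsg.Statements.S0795
import Cfsg.Agent.Lib.Helper15.EichOdd
import Cfsg.Agent.S0794

set_option autoImplicit false
open Cfsg

namespace Cfsg.Agent.S0795

/-- Generation of Ω by root elements: for q odd, n ≥ 5 and Q with non-degenerate polar form on F^n, the commutator subgroup of the isometry group equals the subgroup generated by the isometries whose matrices are Siegel transformations T_(u,v)(c) with u, v singular and orthogonal. -/
theorem result {F : Type*} [Field F] [Fintype F] (h2 : (2 : F) ≠ 0) {n : ℕ} (hn : 5 ≤ n) (Q : QuadraticForm F (Fin n → F)) (hQ : (QuadraticMap.polarBilin Q).Nondegenerate) : Cfsg.Omega F ⇑Q = Subgroup.closure {g : ↥(Cfsg.isometryGroup F ⇑Q) | ∃ (u v : Fin n → F) (c : F), Q u = 0 ∧ Q v = 0 ∧ QuadraticMap.polar ⇑Q u v = 0 ∧ ((g : Matrix.GeneralLinearGroup (Fin n) F) : Matrix (Fin n) (Fin n) F) = Cfsg.siegelMatrix ⇑Q u v c} := by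
  have hcard : 5 ≤ Fintype.card (Fin n) := by rw [Fintype.card_fin]; exact hn
  have hH := Cfsg.Agent.Lib.Helper15.EichOdd.hp2_of_odd h2 Q hQ hcard
  apply le_antisymm
  · refine le_trans (Cfsg.Agent.Lib.Helper15.EichGen.omega_le_sieg Q hQ hcard hH) ?_
    rw [Subgroup.closure_le]
    rintro _ ⟨e, s, he, hs, hes, rfl⟩
    apply Subgroup.subset_closure
    refine ⟨e, s, 1, he, hs, hes, ?_⟩
    apply Cfsg.Agent.Lib.Helper15.Spinor.mat_ext
    intro x
    rw [← Cfsg.Agent.Lib.Helper15.CD2.act_apply,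
      Cfsg.Agent.Lib.Helper15.Eichler.act_eich Q e s he hes, hs]
    unfold Cfsg.siegelMatrix
    rw [Matrix.add_mulVec, Matrix.one_mulVec, Matrix.smul_mulVec, Matrix.sub_mulVec,
      Matrix.vecMulVec_mulVec, Matrix.vecMulVec_mulVec,
      Cfsg.Agent.Lib.Helper15.Spinor.polarVec_dot, Cfsg.Agent.Lib.Helper15.Spinor.polarVec_dot,
      op_smul_eq_smul, op_smul_eq_smul]
    module
  · rw [Subgroup.closure_le]
    rintro g ⟨u, v, c, hu, hv, huv, hg⟩
    exact (Cfsg.Agent.S0794.result h2 hn Q hQ u v hu hv huv c g hg).2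

end Cfsg.Agent.S0795
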