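import Mathlib
import Cfsg.Statements.S0796

set_option autoImplicit false
open Cfsg

namespace Cfsg.Agent.S0796

theorem result {G X : Type*} [Group G] [Finite G] [MulAction G X] [FaithfulSMul G X] (hprim : MulAction.IsPreprimitive G X) (x : X) (A : Subgroup G) (hA : A ≤ MulAction.stabilizer G x) (hAn : (A.subgroupOf (MulAction.stabilizer G x)).Normal) (hgen : Subgroup.normalClosure (A : Set G) = ⊤) (K : Subgroup G) [K.Normal] (hK : K ≠ ⊥) : ∃ (B : Subgroup A) (_ : B.Normal), Nonempty (G ⧸ K ≃* A ⧸ B) := by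
  have hfix : MulAction.fixedPoints K X ≠ Set.univ := by
    intro h
    apply hK
    rw [Subgroup.eq_bot_iff_forall]
    intro k hk
    apply FaithfulSMul.eq_of_smul_eq_smul (α := X)
    intro y
    rw [one_smul]
    have hy : y ∈ MulAction.fixedPoints K X := by rw [h]; exact Set.mem_univ y
    exact hy ⟨k, hk⟩
  have htrans : MulAction.IsPretransitive K X :=
    MulAction.IsQuasiPreprimitive.isPretransitive_of_normal hfix
  have hconj : ∀ a ∈ A, ∀ g : G, g * a * g⁻¹ ∈ K ⊔ A := by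
    intro a ha g
    obtain ⟨k, hk⟩ := MulAction.exists_smul_eq K x (g • x)
    have hs : (k : G)⁻¹ * g ∈ MulAction.stabilizer G x := by
      rw [MulAction.mem_stabilizer_iff, mul_smul, ← hk]
      change (k : G)⁻¹ • ((k : G) • x) = x
      rw [inv_smul_smul]
    have hsa : ((k : G)⁻¹ * g) * a * ((k : G)⁻¹ * g)⁻¹ ∈ A := by
      have := hAn.conj_mem ⟨a, hA ha⟩ (Subgroup.mem_subgroupOf.mpr ha) ⟨(k : G)⁻¹ * g, hs⟩
      exact Subgroup.mem_subgroupOf.mp this
    have e : g * a * g⁻¹ = (k : G) * (((k : G)⁻¹ * g) * a * ((k : G)⁻¹ * g)⁻¹) * (k : G)⁻¹ := by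
      group
    rw [e]
    exact (K ⊔ A).mul_mem ((K ⊔ A).mul_mem (Subgroup.mem_sup_left k.2) (Subgroup.mem_sup_right hsa))
      ((K ⊔ A).inv_mem (Subgroup.mem_sup_left k.2))
  have htop : A ⊔ K = ⊤ := by
    rw [eq_top_iff, ← hgen, sup_comm]
    unfold Subgroup.normalClosure
    rw [Subgroup.closure_le]
    intro y hy
    rw [Group.mem_conjugatesOfSet_iff] at hy
    obtain ⟨a, ha, hay⟩ := hy
    obtain ⟨c, hc⟩ := isConj_iff.mp hay
    rw [← hc]
    exact hconj a ha c
  let φ : A →* G ⧸ K := (QuotientGroup.mk' K).comp A.subtype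
  have hφ : Function.Surjective φ := by
    intro q
    obtain ⟨g, rfl⟩ := QuotientGroup.mk_surjective q
    have hg : g ∈ ((A ⊔ K : Subgroup G) : Set G) := by rw [htop]; trivial
    rw [Subgroup.mul_normal] at hg
    obtain ⟨a, ha, k, hk, rfl⟩ := Set.mem_mul.mp hg
    refine ⟨⟨a, ha⟩, ?_⟩
    change (QuotientGroup.mk a : G ⧸ K) = QuotientGroup.mk (a * k)
    rw [QuotientGroup.eq]
    simpa using hk
  exact ⟨φ.ker, inferInstance, ⟨(QuotientGroup.quotientKerEquivOfSurjective φ hφ).symm⟩⟩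

end Cfsg.Agent.S0796
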