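import Cfsg.Statements.S0797
import Cfsg.Agent.Lib.Helper15.CartanD

set_option autoImplicit false
open Cfsg

namespace Cfsg.Agent.S0797

/-- The commutator subgroup lies in every subgroup of index two. -/
theorem commutator_le_of_index_two {G : Type*} [Group G] (H : Subgroup G) (hH : H.index = 2) :
    commutator G ≤ H := by
  haveI : H.Normal := Subgroup.normal_of_index_eq_two hH
  haveI : Fact (Nat.Prime 2) := ⟨Nat.prime_two⟩
  have hcard : Nat.card (G ⧸ H) = 2 := hH
  haveI : IsCyclic (G ⧸ H) := isCyclic_of_prime_card hcard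
  letI : CommGroup (G ⧸ H) := IsCyclic.commGroup
  have h := Abelianization.commutator_subset_ker (QuotientGroup.mk' H)
  rwa [QuotientGroup.ker_mk'] at h

/-- The four-group `ℤˣ × ℤˣ` has exactly three subgroups of index two. -/
theorem card_index_two_four : Nat.card {K : Subgroup (ℤˣ × ℤˣ) // K.index = 2} = 3 := by
  have hexp : ∀ x : ℤˣ × ℤˣ, x * x = 1 := by decide
  have hcardV : Nat.card (ℤˣ × ℤˣ) = 4 := by
    rw [Nat.card_prod, Nat.card_eq_fintype_card, Fintype.card_units_int]
  have hzp : ∀ x : ℤˣ × ℤˣ, x ≠ 1 → Nat.card (Subgroup.zpowers x) = 2 := by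
    intro x hx
    rw [Nat.card_zpowers]
    haveI : Fact (Nat.Prime 2) := ⟨Nat.prime_two⟩
    exact orderOf_eq_prime (by rw [pow_two]; exact hexp x) hx
  have hidx : ∀ K : Subgroup (ℤˣ × ℤˣ), K.index = 2 ↔ Nat.card K = 2 := by
    intro K
    have h := K.index_mul_card
    rw [hcardV] at h
    constructor
    · intro hK
      rw [hK] at h
      omega
    · intro hK
      rw [hK] at h
      omega
  let f : {x : ℤˣ × ℤˣ // x ≠ 1} → {K : Subgroup (ℤˣ × ℤˣ) // K.index = 2} :=
    fun x => ⟨Subgroup.zpowers x.1, (hidx _).2 (hzp x.1 x.2)⟩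
  have hf : Function.Bijective f := by
    constructor
    · rintro ⟨x, hx⟩ ⟨y, hy⟩ hxy
      have h : Subgroup.zpowers x = Subgroup.zpowers y := congrArg Subtype.val hxy
      have hymem : y ∈ Subgroup.zpowers x := by rw [h]; exact Subgroup.mem_zpowers y
      obtain ⟨k, hk⟩ := Subgroup.mem_zpowers_iff.1 hymem
      apply Subtype.ext
      change x = y
      rcases Int.even_or_odd k with ⟨j, rfl⟩ | ⟨j, rfl⟩
      · exfalso
        apply hy
        rw [← hk, zpow_add, ← mul_zpow, hexp x, one_zpow]
      · rw [← hk, zpow_add, zpow_mul, zpow_ofNat, pow_two, hexp x, one_zpow, one_mul, zpow_one]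
    · rintro ⟨K, hK⟩
      have hK2 := (hidx K).1 hK
      have hne : K ≠ ⊥ := by
        rintro rfl
        rw [Subgroup.card_bot] at hK2
        omega
      obtain ⟨x, hx1⟩ := (Subgroup.ne_bot_iff_exists_ne_one).1 hne
      have hx1' : (x : ℤˣ × ℤˣ) ≠ 1 := fun h => hx1 (Subtype.ext h)
      refine ⟨⟨x, hx1'⟩, ?_⟩
      apply Subtype.ext
      change Subgroup.zpowers (x : ℤˣ × ℤˣ) = K
      apply Subgroup.eq_of_le_of_card_ge
      · rw [Subgroup.zpowers_le]
        exact x.2
      · rw [hK2, hzp _ hx1']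
  rw [← Nat.card_congr (Equiv.ofBijective f hf), Nat.card_eq_fintype_card]
  decide

/-- O^ε_2m(q) ≅ Ω.2² for q odd: if F is finite of odd characteristic, n ≥ 2 is even and Q has non-degenerate polar form on F^n, the isometry group of Q has exactly three subgroups of index 2. -/
theorem result {F : Type*} [Field F] [Fintype F] (h2 : (2 : F) ≠ 0) {n : ℕ} (hn : 2 ≤ n) (heven : Even n) (Q : QuadraticForm F (Fin n → F)) (hQ : (QuadraticMap.polarBilin Q).Nondegenerate) : Nat.card {H : Subgroup ↥(Cfsg.isometryGroup F ⇑Q) // H.index = 2} = 3 := by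
  obtain ⟨Θ, hsurj, hker⟩ := Cfsg.Agent.Lib.Helper15.CartanD.exists_theta h2 Q hQ
    (by rw [Fintype.card_fin]; exact hn)
  rw [← card_index_two_four]
  apply Nat.card_congr
  refine
    { toFun := fun H => ⟨H.1.map Θ, ?_⟩
      invFun := fun K => ⟨K.1.comap Θ, ?_⟩
      left_inv := ?_
      right_inv := ?_ }
  · rw [Subgroup.index_map_eq _ hsurj (by rw [hker]; exact commutator_le_of_index_two H.1 H.2)]
    exact H.2
  · rw [Subgroup.index_comap_of_surjective _ hsurj]
    exact K.2
  · intro H
    apply Subtype.ext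
    exact Subgroup.comap_map_eq_self (by rw [hker]; exact commutator_le_of_index_two H.1 H.2)
  · intro K
    apply Subtype.ext
    exact Subgroup.map_comap_eq_self_of_surjective hsurj K.1

end Cfsg.Agent.S0797
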