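import Cfsg.Statements.S0798
import Cfsg.Agent.Lib.Helper15.ReflIndex

set_option autoImplicit false
open Cfsg

namespace Cfsg.Agent.S0798

/-- For q odd, n ≥ 2 even, Q with non-degenerate polar form (n, |F|) ≠ (4, 3), and a fixed c ≠ 0: the subgroup of the isometry group generated by the reflections r_v with Q(v) ∈ c·(F^×)² has index 2. -/
theorem result {F : Type*} [Field F] [Fintype F] (h2 : (2 : F) ≠ 0) {n : ℕ} (hn : 2 ≤ n) (heven : Even n) (Q : QuadraticForm F (Fin n → F)) (hQ : (QuadraticMap.polarBilin Q).Nondegenerate) (h43 : ¬ (n = 4 ∧ Fintype.card F = 3)) (c : F) (hc : c ≠ 0) : (Subgroup.closure {g : ↥(Cfsg.isometryGroup F ⇑Q) | ∃ (v : Fin n → F) (t : F), t ≠ 0 ∧ Q v = c * t ^ 2 ∧ ((g : Matrix.GeneralLinearGroup (Fin n) F) : Matrix (Fin n) (Fin n) F) = Cfsg.reflectionMatrix ⇑Q v}).index = 2 := by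
  classical
  apply Cfsg.Agent.Lib.Helper15.ReflIndex.refl_index h2 Q hQ (by rw [Fintype.card_fin]; exact hn) ?_ c hc
  rw [Fintype.card_fin]
  by_cases h3 : Fintype.card F = 3
  · right
    obtain ⟨k, hk⟩ := heven
    have h4 : n ≠ 4 := fun h => h43 ⟨h, h3⟩
    omega
  · left
    by_contra hno
    have hall : ∀ τ : F, τ ∈ ({0, 1, -1} : Finset F) := by
      intro τ
      by_contra hτ
      apply hno
      simp only [Finset.mem_insert, Finset.mem_singleton] at hτ
      refine ⟨τ, fun h => hτ (Or.inl h), fun h => ?_⟩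
      have h5 : (τ - 1) * (τ + 1) = 0 := by linear_combination h
      rcases mul_eq_zero.1 h5 with h6 | h6
      · exact hτ (Or.inr (Or.inl (sub_eq_zero.1 h6)))
      · exact hτ (Or.inr (Or.inr (eq_neg_of_add_eq_zero_left h6)))
    have hle : Fintype.card F ≤ ({0, 1, -1} : Finset F).card := by
      rw [← Finset.card_univ]
      exact Finset.card_le_card (fun τ _ => hall τ)
    have h3' : ({0, 1, -1} : Finset F).card ≤ 3 := Finset.card_le_three
    have h1 : 1 < Fintype.card F := Fintype.one_lt_card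
    have hF2 : Fintype.card F ≠ 2 := by
      intro h
      have h0 := Nat.cast_card_eq_zero F
      rw [h] at h0
      exact h2 (by exact_mod_cast h0)
    omega

end Cfsg.Agent.S0798
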