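import Cfsg.Statements.S0800
import Mathlib

set_option autoImplicit false
open Cfsg

namespace Cfsg.Agent.S0800

open Matrix Polynomial in
theorem result {F : Type*} [Field F] [Fintype F] {q : ℕ} (hF : Fintype.card F = q) (p : ℕ) [Fact p.Prime] [CharP F p] (g : Matrix.SpecialLinearGroup (Fin 2) F) (hg : Nat.Coprime (orderOf g) p) : orderOf g ∣ q - 1 ∨ orderOf g ∣ q + 1 := by
  classical
  obtain ⟨k, -, hk0⟩ := FiniteField.card F p
  have hk : q = p ^ (k : ℕ) := hF ▸ hk0
  have hq1 : 1 ≤ q := hF ▸ Fintype.card_pos
  have hpc : ∀ a : F, a ^ q = a := fun a => hF ▸ FiniteField.pow_card a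
  have hpc1 : ∀ a : F, a ≠ 0 → a ^ (q - 1) = 1 := fun a ha => hF ▸ FiniteField.pow_card_sub_one_eq_one a ha
  have hp2 : 2 ≤ p := (Fact.out : p.Prime).two_le
  set M : Matrix (Fin 2) (Fin 2) F := (g : Matrix (Fin 2) (Fin 2) F) with hM
  set t : F := M 0 0 + M 1 1 with ht
  have hdet : M 0 0 * M 1 1 - M 0 1 * M 1 0 = 1 := by
    have := g.2
    rw [Matrix.det_fin_two] at this
    exact this
  -- Cayley–Hamilton
  have hCH : M * M = t • M - 1 := by
    ext i j
    fin_cases i <;> fin_cases j <;>
      simp [Matrix.mul_apply, Fin.sum_univ_two, ht] <;> first | linear_combination hdet | linear_combination (-1 : F) * hdet | ring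
  have hpow : ∀ n : ℕ, M ^ n = 1 → orderOf g ∣ n := by
    intro n hn
    apply orderOf_dvd_of_pow_eq_one
    apply Subtype.ext
    rw [Matrix.SpecialLinearGroup.coe_pow]
    exact hn
  -- M is invertible
  have hMinv : M * (t • 1 - M) = 1 := by
    rw [mul_sub, hCH]; simp
  have hMinv' : (t • 1 - M) * M = 1 := by
    rw [sub_mul, hCH]; simp
  by_cases hroot : ∃ l : F, l * l - t * l + 1 = 0
  · obtain ⟨l, hl⟩ := hroot
    have hl0 : l ≠ 0 := by
      rintro rfl
      simp at hl
    have hfac : (M - l • 1) * (M - (t - l) • 1) = 0 := by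
      have : (M - l • 1) * (M - (t - l) • 1) = M * M - t • M + (l * (t - l)) • (1 : Matrix (Fin 2) (Fin 2) F) := by
        simp only [sub_mul, mul_sub, Matrix.smul_mul, Matrix.mul_smul, Matrix.one_mul, Matrix.mul_one, smul_smul]
        module
      rw [this, hCH]
      have : l * (t - l) = 1 := by linear_combination (-1 : F) * hl
      rw [this]; simp
    left
    by_cases hne : l = t - l
    · -- unipotent-ish case
      rw [← hne] at hfac
      set N := M - l • (1 : Matrix (Fin 2) (Fin 2) F) with hN
      have hMN : M = l • 1 + N := by rw [hN]; abel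
      have hNp : N ^ p = 0 := by
        have : p = 2 + (p - 2) := by omega
        rw [this, pow_add, pow_two, hfac, zero_mul]
      have hMp : M ^ p = (l ^ p) • 1 := by
        rw [hMN, add_pow_char_of_commute p (Commute.smul_left (Commute.one_left N) l), hNp, add_zero, _root_.smul_pow, one_pow]
      have h1 : M ^ (p * (q - 1)) = 1 := by
        rw [pow_mul, hMp, _root_.smul_pow, one_pow, ← pow_mul, mul_comm p, pow_mul,
          hpc1 l hl0, one_pow, one_smul]
      have h2 := hpow _ h1
      exact Nat.Coprime.dvd_of_dvd_mul_left hg h2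
    · -- split semisimple case
      have hd1 : (X - C l : F[X]) ∣ X ^ q - X := by
        rw [Polynomial.dvd_iff_isRoot]
        simp [hpc]
      have hd2 : (X - C (t - l) : F[X]) ∣ X ^ q - X := by
        rw [Polynomial.dvd_iff_isRoot]
        simp only [Polynomial.IsRoot, Polynomial.eval_sub, Polynomial.eval_pow, Polynomial.eval_X]
        rw [hpc, sub_self]
      have hcop : IsCoprime (X - C l : F[X]) (X - C (t - l)) := by
        apply Polynomial.isCoprime_X_sub_C_of_isUnit_sub
        exact (sub_ne_zero.mpr hne).isUnit
      obtain ⟨c, hc⟩ := hcop.mul_dvd hd1 hd2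
      have h3 := congrArg (Polynomial.aeval M) hc
      simp only [map_sub, map_pow, Polynomial.aeval_X, map_mul, Polynomial.aeval_C,
        Algebra.algebraMap_eq_smul_one] at h3
      rw [← sub_smul, hfac, zero_mul, sub_eq_zero] at h3
      have h4 : M ^ (q - 1) = 1 := by
        have h5 : M ^ q = M ^ (q - 1) * M := by
          rw [← pow_succ]; congr 1; omega
        rw [h5] at h3
        calc M ^ (q - 1) = M ^ (q - 1) * M * (t • 1 - M) := by rw [mul_assoc, hMinv, mul_one]
          _ = 1 := by rw [h3, hMinv]
      exact hpow _ h4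
  · -- no root: M^q = M or M^q = M⁻¹
    have hroot' : ∀ l : F, l * l - t * l + 1 ≠ 0 := fun l hl => hroot ⟨l, hl⟩
    -- powers of M are of the form a + b M
    have hform : ∀ n : ℕ, ∃ a b : F, M ^ n = a • 1 + b • M := by
      intro n
      induction n with
      | zero => exact ⟨1, 0, by simp⟩
      | succ n ih =>
        obtain ⟨a, b, hab⟩ := ih
        refine ⟨-b, a + t * b, ?_⟩
        rw [pow_succ, hab, add_mul, Matrix.smul_mul, Matrix.smul_mul, hCH, Matrix.one_mul]
        simp only [smul_sub, smul_smul, add_smul, neg_smul]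
        rw [mul_comm b t]
        abel
    obtain ⟨a, b, hab⟩ := hform q
    -- Frobenius
    have hfrob : M ^ q * M ^ q - t • M ^ q + 1 = 0 := by
      have h0 : (M * M + ((-t) • M + 1)) ^ q = 0 := by
        rw [hCH]
        have : t • M - 1 + (-t • M + 1) = 0 := by
          rw [neg_smul]; abel
        rw [this, zero_pow (by omega)]
      have hc1 : Commute (M * M) ((-t) • M + 1) := by
        apply Commute.add_right
        · exact (Commute.smul_right ((Commute.refl M).mul_left (Commute.refl M)) _)
        · exact Commute.one_right _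
      have hc2 : Commute ((-t) • M) (1 : Matrix (Fin 2) (Fin 2) F) := Commute.one_right _
      rw [hk, add_pow_char_pow_of_commute p k hc1, add_pow_char_pow_of_commute p k hc2, ← hk,
        one_pow, _root_.smul_pow, hpc, (Commute.refl M).mul_pow, neg_smul] at h0
      rw [← h0]; abel
    have hAB : (M ^ q - M) * (M ^ q - (t • 1 - M)) = 0 := by
      have hcomm : M ^ q * M = M * M ^ q := (Commute.pow_self M q).eq
      have : (M ^ q - M) * (M ^ q - (t • 1 - M)) = M ^ q * M ^ q - t • M ^ q + (t • M - M * M) := by
        simp only [sub_mul, mul_sub, Matrix.smul_mul, Matrix.mul_smul, Matrix.one_mul, Matrix.mul_one]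
        rw [hcomm]; abel
      rw [this, hCH]
      rw [← hfrob]; abel
    by_cases hB : M ^ q - (t • 1 - M) = 0
    · right
      rw [sub_eq_zero] at hB
      apply hpow
      rw [pow_succ, hB, hMinv']
    · left
      -- find v with B v ≠ 0
      have : ∃ v : Fin 2 → F, (M ^ q - (t • 1 - M)) *ᵥ v ≠ 0 := by
        by_contra hcon
        push Not at hcon
        apply hB
        ext i j
        have := congrFun (hcon (Pi.single j 1)) i
        simpa using this
      obtain ⟨v, hv⟩ := this
      set u := (M ^ q - (t • 1 - M)) *ᵥ v with hu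
      have hAu : (M ^ q - M) *ᵥ u = 0 := by
        rw [hu, Matrix.mulVec_mulVec, hAB, Matrix.zero_mulVec]
      rw [hab] at hAu
      have hAu' : a • u + (b - 1) • (M *ᵥ u) = 0 := by
        rw [← hAu]
        simp only [Matrix.sub_mulVec, Matrix.add_mulVec, Matrix.smul_mulVec, Matrix.one_mulVec, sub_smul, one_smul]
        abel
      by_cases hb : b - 1 = 0
      · rw [hb, zero_smul, add_zero] at hAu'
        have ha : a = 0 := by
          rcases smul_eq_zero.mp hAu' with h | h
          · exact h
          · exact absurd h hv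
        have hMq : M ^ q = M := by
          rw [hab, ha, sub_eq_zero.mp hb]; simp
        have h4 : M ^ (q - 1) = 1 := by
          have h5 : M ^ q = M ^ (q - 1) * M := by
            rw [← pow_succ]; congr 1; omega
          rw [h5] at hMq
          calc M ^ (q - 1) = M ^ (q - 1) * M * (t • 1 - M) := by rw [mul_assoc, hMinv, mul_one]
            _ = 1 := by rw [hMq, hMinv]
        exact hpow _ h4
      · exfalso
        -- eigenvector u with eigenvalue -a/(b-1)
        have hMu : M *ᵥ u = (-a / (b - 1)) • u := by
          have : (b - 1) • (M *ᵥ u) = (b - 1) • ((-a / (b - 1)) • u) := by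
            rw [smul_smul, mul_div_cancel₀ _ hb, neg_smul]
            exact eq_neg_of_add_eq_zero_right hAu'
          exact smul_right_injective _ hb this
        set l := -a / (b - 1) with hl
        apply hroot' l
        have h6 : (M * M) *ᵥ u = (t • M - 1) *ᵥ u := by rw [hCH]
        rw [← Matrix.mulVec_mulVec, hMu, Matrix.mulVec_smul, hMu, Matrix.sub_mulVec,
          Matrix.smul_mulVec, hMu, Matrix.one_mulVec, smul_smul, smul_smul] at h6
        have h7 : (l * l - t * l + 1) • u = 0 := by
          rw [add_smul, sub_smul, one_smul, h6]; abel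
        rcases smul_eq_zero.mp h7 with h | h
        · exact h
        · exact absurd h hv

end Cfsg.Agent.S0800
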