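import Cfsg.Statements.S0802
import Cfsg.Agent.Lib.Helper16.PSL2A4

set_option autoImplicit false
open Cfsg

namespace Cfsg.Agent.S0802

/-- PSL_2(p^n) has a subgroup isomorphic to A_4 if and only if it is not the case that p = 2 and n is odd. -/
theorem result {F : Type*} [Field F] [Fintype F] (p n : ℕ) [Fact p.Prime] [CharP F p] (hF : Fintype.card F = p ^ n) : (∃ H : Subgroup (Matrix.ProjectiveSpecialLinearGroup (Fin 2) F), Nonempty (H ≃* alternatingGroup (Fin 4))) ↔ ¬ (p = 2 ∧ Odd n) := by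
  constructor
  · rintro ⟨H, ⟨e⟩⟩ ⟨hp, hn⟩
    subst hp
    have h2 : (2 : F) = 0 := by
      have := CharP.cast_eq_zero F 2
      exact_mod_cast this
    obtain ⟨a, ha⟩ := Cfsg.Agent.Lib.Helper16.PSL2A4.no_a4_char2 h2 H e
    exact (Nat.not_even_iff_odd.mpr hn)
      (Cfsg.Agent.Lib.Helper16.PSL2A4.even_of_root h2 hF a ha)
  · intro h
    by_cases hp : p = 2
    · subst hp
      have h2 : (2 : F) = 0 := by
        have := CharP.cast_eq_zero F 2
        exact_mod_cast this
      have hn : Even n := by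
        by_contra h'
        exact h ⟨rfl, Nat.not_even_iff_odd.mp h'⟩
      obtain ⟨a, ha⟩ := Cfsg.Agent.Lib.Helper16.PSL2A4.root_of_even hF hn
      exact Cfsg.Agent.Lib.Helper16.PSL2A4.exists_a4_char2 h2 a ha
    · have hodd : Fintype.card F % 2 = 1 := by
        rw [hF]
        have hp2 : Odd p := (Fact.out : p.Prime).odd_of_ne_two hp
        exact Nat.odd_iff.mp (hp2.pow)
      exact Cfsg.Agent.Lib.Helper16.PSL2A4.exists_a4_odd hodd

end Cfsg.Agent.S0802
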