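import Cfsg.Statements.S0803
import Cfsg.Agent.Lib.Helper16.PSL2S4

set_option autoImplicit false
open Cfsg

namespace Cfsg.Agent.S0803

/-- PSL_2(q) has a subgroup isomorphic to S_4 iff q² ≡ 1 (mod 16). -/
theorem result {F : Type*} [Field F] [Fintype F] {q : ℕ} (hF : Fintype.card F = q) : (∃ H : Subgroup (Matrix.ProjectiveSpecialLinearGroup (Fin 2) F), Nonempty (H ≃* Equiv.Perm (Fin 4))) ↔ q ^ 2 % 16 = 1 := by
  haveI := Cfsg.Agent.Lib.Helper16.PSL2A4.finite_psl (F := F)
  constructor
  · rintro ⟨H, ⟨e⟩⟩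
    by_cases hpar : Fintype.card F % 2 = 0
    · exfalso
      have hch : ringChar F = 2 := FiniteField.even_card_iff_char_two.mpr hpar
      have h2 : (2 : F) = 0 := by
        have := CharP.cast_eq_zero F (ringChar F)
        rw [hch] at this
        exact_mod_cast this
      exact Cfsg.Agent.Lib.Helper16.PSL2S4.no_s4_char2 h2 H e
    · have hodd : Odd (Fintype.card F) := Nat.odd_iff.mpr (by omega)
      have hcard := Cfsg.Agent.Lib.Helper2.Subfield2.card_psl2 (F := F) hodd
      have hH : Nat.card H = 24 := by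
        rw [Nat.card_congr e.toEquiv, Nat.card_perm, Nat.card_fin]
        rfl
      have hdvd : 24 ∣ Nat.card (Matrix.ProjectiveSpecialLinearGroup (Fin 2) F) :=
        hH ▸ Subgroup.card_subgroup_dvd_card H
      rw [hF] at hcard hodd
      obtain ⟨k, hk⟩ := hdvd
      have h16 : 16 ∣ q * (q ^ 2 - 1) := ⟨3 * k, by rw [← hcard, hk]; ring⟩
      have hcop : Nat.Coprime 16 q := by
        have h := Nat.Coprime.pow_left 4 (Nat.coprime_two_left.mpr hodd)
        norm_num at h
        exact h
      have h16' : 16 ∣ q ^ 2 - 1 := hcop.dvd_of_dvd_mul_left h16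
      have hpos : 0 < q ^ 2 := by
        have : 0 < q := hodd.pos
        positivity
      omega
  · intro h
    have hq16 : q % 16 = 1 ∨ q % 16 = 7 ∨ q % 16 = 9 ∨ q % 16 = 15 := by
      have h1 : q ^ 2 % 16 = (q % 16) ^ 2 % 16 := Nat.pow_mod q 2 16
      rw [h] at h1
      have h2 : q % 16 < 16 := Nat.mod_lt _ (by norm_num)
      have key : ∀ v < 16, 1 = v ^ 2 % 16 → (v = 1 ∨ v = 7 ∨ v = 9 ∨ v = 15) := by decide
      exact key _ h2 h1
    have hodd : Fintype.card F % 2 = 1 := by
      rw [hF]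
      omega
    have hsq : IsSquare (2 : F) := by
      rw [FiniteField.isSquare_two_iff, hF]
      omega
    exact Cfsg.Agent.Lib.Helper16.PSL2S4.exists_s4_odd hodd hsq

end Cfsg.Agent.S0803
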