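import Cfsg.Statements.S0807
import Cfsg.Agent.Lib.Helper16.SL2Four2
import Cfsg.Agent.Lib.Helper16.KleinPairs

set_option autoImplicit false
open Cfsg

namespace Cfsg.Agent.S0807

/-- For q odd, twelve times the number of Klein four-subgroups of PSL_2(q) equals the order of PSL_2(q). -/
theorem result {F : Type*} [Field F] [Fintype F] {q : ℕ} (hF : Fintype.card F = q) (hodd : Odd q) : 12 * Nat.card {V : Subgroup (Matrix.ProjectiveSpecialLinearGroup (Fin 2) F) // IsKleinFour V} = Nat.card (Matrix.ProjectiveSpecialLinearGroup (Fin 2) F) := by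
  have hodd' : Fintype.card F % 2 = 1 := by rw [hF]; exact Nat.odd_iff.mp hodd
  have h2 : (2 : F) ≠ 0 := Cfsg.Agent.Lib.Helper14.SL2Odd.two_ne_zero_of_odd hodd'
  haveI : Finite (Matrix.SpecialLinearGroup (Fin 2) F) := inferInstance
  haveI : Finite (Matrix.ProjectiveSpecialLinearGroup (Fin 2) F) :=
    Finite.of_surjective _ (QuotientGroup.mk_surjective
      (s := Subgroup.center (Matrix.SpecialLinearGroup (Fin 2) F)))
  apply Cfsg.Agent.Lib.Helper16.KleinPairs.klein_count
    ((Cfsg.Agent.Lib.Helper16.SL2Four.cs : Matrix.SpecialLinearGroup (Fin 2) F) :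
      Matrix.ProjectiveSpecialLinearGroup (Fin 2) F)
  · exact Cfsg.Agent.Lib.Helper16.SL2Four.orderOf_mk h2 _ Cfsg.Agent.Lib.Helper16.SL2Four.cs_sq
  · intro y hy
    obtain ⟨y₀, rfl, hy₀⟩ := Cfsg.Agent.Lib.Helper16.SL2Four.lift_invol h2 y hy
    exact MonoidHom.map_isConj
      (QuotientGroup.mk' (Subgroup.center (Matrix.SpecialLinearGroup (Fin 2) F)))
      (Cfsg.Agent.Lib.Helper16.SL2Four.isConj_of_sq hodd' _ y₀
        Cfsg.Agent.Lib.Helper16.SL2Four.cs_sq hy₀)
  · exact Cfsg.Agent.Lib.Helper16.SL2Four.psl_half hodd'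

end Cfsg.Agent.S0807
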