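import Cfsg.Statements.S0808
import Cfsg.Agent.Lib.Helper16.SL2Klein3

set_option autoImplicit false
open Cfsg

namespace Cfsg.Agent.S0808

/-- Conjugacy classes of four-groups in PSL_2(q), q odd: if q ≡ 3 or 5 (mod 8) all Klein four-subgroups are conjugate; if q ≡ 1 or 7 (mod 8) there are two Klein four-subgroups which are not conjugate, and every Klein four-subgroup is conjugate to one of them. -/
theorem result {F : Type*} [Field F] [Fintype F] {q : ℕ} (hF : Fintype.card F = q) (hodd : Odd q) : ((q % 8 = 3 ∨ q % 8 = 5) → ∀ V W : Subgroup (Matrix.ProjectiveSpecialLinearGroup (Fin 2) F), IsKleinFour V → IsKleinFour W → ∃ g : Matrix.ProjectiveSpecialLinearGroup (Fin 2) F, W = V.map (MulAut.conj g).toMonoidHom) ∧ ((q % 8 = 1 ∨ q % 8 = 7) → ∃ V₁ V₂ : Subgroup (Matrix.ProjectiveSpecialLinearGroup (Fin 2) F), IsKleinFour V₁ ∧ IsKleinFour V₂ ∧ (¬ ∃ g : Matrix.ProjectiveSpecialLinearGroup (Fin 2) F, V₂ = V₁.map (MulAut.conj g).toMonoidHom) ∧ ∀ W :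 Subgroup (Matrix.ProjectiveSpecialLinearGroup (Fin 2) F), IsKleinFour W → (∃ g : Matrix.ProjectiveSpecialLinearGroup (Fin 2) F, W = V₁.map (MulAut.conj g).toMonoidHom) ∨ (∃ g : Matrix.ProjectiveSpecialLinearGroup (Fin 2) F, W = V₂.map (MulAut.conj g).toMonoidHom)) := by
  have hodd' : Fintype.card F % 2 = 1 := by
    rw [hF]; exact Nat.odd_iff.mp hodd
  have hiff := FiniteField.isSquare_two_iff (F := F)
  rw [hF] at hiff
  refine ⟨fun h V W hV hW => ?_, fun h => ?_⟩
  · have hns : ¬ IsSquare (2 : F) := by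
      rw [hiff]; omega
    exact Cfsg.Agent.Lib.Helper16.SL2Four.klein_all_conj hodd' hns V W hV hW
  · have hsq : IsSquare (2 : F) := by
      rw [hiff]; omega
    obtain ⟨V₁, V₂, h1, h2, h3, h4⟩ := Cfsg.Agent.Lib.Helper16.SL2Four.klein_two_classes hodd' hsq
    exact ⟨V₁, V₂, h1, h2, h3, h4⟩

end Cfsg.Agent.S0808
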