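import Cfsg.Statements.S0809
import Cfsg.Agent.Lib.Helper16.SL2Four

set_option autoImplicit false
open Cfsg

namespace Cfsg.Agent.S0809

/-- In SL_2(q), q odd: any two subgroups of order 4 are conjugate, and the normaliser of a subgroup of order 4 has order 2(q − 1) if q ≡ 1 (mod 4) and 2(q + 1) if q ≡ 3 (mod 4); consequently all involutions of PSL_2(q) are conjugate. -/
theorem result {F : Type*} [Field F] [Fintype F] {q : ℕ} (hF : Fintype.card F = q) (hodd : Odd q) (A : Subgroup (Matrix.SpecialLinearGroup (Fin 2) F)) (hA : Nat.card A = 4) : (∀ B : Subgroup (Matrix.SpecialLinearGroup (Fin 2) F), Nat.card B = 4 → ∃ g : Matrix.SpecialLinearGroup (Fin 2) F, B = A.map (MulAut.conj g).toMonoidHom) ∧ (q % 4 = 1 → Nat.card ↥(Subgroup.normalizer (A : Set (Matrix.SpecialLinearGroup (Fin 2) F))) = 2 * (q - 1)) ∧ (q % 4 = 3 → Nat.card ↥(Subgroup.normalizer (A : Set (Matrix.SpecialLinearGroup (Fin 2) F))) = 2 * (q + 1)) ∧ (∀ x y : Matrix.ProjectiveSpecialLinearGroup (Fin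 2) F, orderOf x = 2 → orderOf y = 2 → IsConj x y) := by
  have hodd' : Fintype.card F % 2 = 1 := by rw [hF]; exact Nat.odd_iff.mp hodd
  have h2 : (2 : F) ≠ 0 := Cfsg.Agent.Lib.Helper14.SL2Odd.two_ne_zero_of_odd hodd'
  have hN := Cfsg.Agent.Lib.Helper16.SL2Four.card_normalizer hodd' A hA
  rw [hF] at hN
  refine ⟨?_, ?_, ?_, ?_⟩
  · intro B hB
    obtain ⟨x, -, hxx, hAx⟩ := Cfsg.Agent.Lib.Helper16.SL2Four.exists_gen h2 A hA
    obtain ⟨y, -, hyy, hBy⟩ := Cfsg.Agent.Lib.Helper16.SL2Four.exists_gen h2 B hB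
    obtain ⟨c, hc⟩ := isConj_iff.mp
      (Cfsg.Agent.Lib.Helper16.SL2Four.isConj_of_sq hodd' x y hxx hyy)
    refine ⟨c, ?_⟩
    rw [hAx, MonoidHom.map_zpowers, hBy]
    show Subgroup.zpowers y = Subgroup.zpowers (c * x * c⁻¹)
    rw [hc]
  · intro h
    have := Cfsg.Agent.Lib.Helper16.SL2Four.roots_ncard_one h2 (by rw [hF]; exact h)
    omega
  · intro h
    have := Cfsg.Agent.Lib.Helper16.SL2Four.roots_ncard_three (F := F) (by rw [hF]; exact h)
    omega
  · intro x y hx hy
    have hcen : ∀ g : Matrix.SpecialLinearGroup (Fin 2) F,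
        g ∈ Subgroup.center (Matrix.SpecialLinearGroup (Fin 2) F) →
        g = 1 ∨ g = Cfsg.Agent.Lib.Helper14.SL2Odd.negOne := by
      intro g hg
      apply Cfsg.Agent.Lib.Helper14.SL2Odd.scalar_cases
      rw [Matrix.SpecialLinearGroup.mem_center_iff] at hg
      obtain ⟨r, -, hr⟩ := hg
      refine ⟨r, ?_⟩
      rw [← hr, Matrix.smul_one_eq_diagonal]
      rfl
    have hnc : (Cfsg.Agent.Lib.Helper14.SL2Odd.negOne : Matrix.SpecialLinearGroup (Fin 2) F) ∈
        Subgroup.center (Matrix.SpecialLinearGroup (Fin 2) F) := by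
      rw [Subgroup.mem_center_iff]
      intro g
      exact Cfsg.Agent.Lib.Helper16.SL2Four.negOne_comm g
    have key : ∀ z : Matrix.ProjectiveSpecialLinearGroup (Fin 2) F, orderOf z = 2 →
        ∃ z₀ : Matrix.SpecialLinearGroup (Fin 2) F,
          (QuotientGroup.mk z₀ : Matrix.ProjectiveSpecialLinearGroup (Fin 2) F) = z ∧
          z₀ * z₀ = Cfsg.Agent.Lib.Helper14.SL2Odd.negOne := by
      intro z hz
      obtain ⟨z₀, rfl⟩ := QuotientGroup.mk_surjective z
      refine ⟨z₀, rfl, ?_⟩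
      have h1 : (QuotientGroup.mk z₀ : Matrix.ProjectiveSpecialLinearGroup (Fin 2) F) ^ 2 = 1 := by
        have h0 := pow_orderOf_eq_one
          (QuotientGroup.mk z₀ : Matrix.ProjectiveSpecialLinearGroup (Fin 2) F)
        rw [hz] at h0
        exact h0
      have h3 : z₀ * z₀ ∈ Subgroup.center (Matrix.SpecialLinearGroup (Fin 2) F) := by
        rw [← QuotientGroup.eq_one_iff, QuotientGroup.mk_mul, ← pow_two]
        exact h1
      have hne : (QuotientGroup.mk z₀ : Matrix.ProjectiveSpecialLinearGroup (Fin 2) F) ≠ 1 := by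
        intro h
        rw [h, orderOf_one] at hz
        omega
      rcases hcen _ h3 with h | h
      · exfalso
        rcases Cfsg.Agent.Lib.Helper16.SL2Four.sq_cases h2 z₀ h with h' | h'
        · apply hne
          rw [h']
          rfl
        · apply hne
          rw [h']
          exact (QuotientGroup.eq_one_iff _).mpr hnc
      · exact h
    obtain ⟨x₀, rfl, hx0⟩ := key x hx
    obtain ⟨y₀, rfl, hy0⟩ := key y hy
    exact MonoidHom.map_isConj
      (QuotientGroup.mk' (Subgroup.center (Matrix.SpecialLinearGroup (Fin 2) F)))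
      (Cfsg.Agent.Lib.Helper16.SL2Four.isConj_of_sq hodd' x₀ y₀ hx0 hy0)

end Cfsg.Agent.S0809
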