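import Mathlib
import Cfsg.Statements.S0826
import Cfsg.Agent.Lib.Helper2.HeartEmb

set_option autoImplicit false
open Cfsg

namespace Cfsg.Agent.S0826

open Cfsg.Agent.Lib.Helper2.HeartEmb in
theorem aux (k : ℕ) (hk : 2 ≤ k) :
    ∃ f : Equiv.Perm (Fin (2 * (k + 1))) →* Matrix.symplecticGroup (Fin k) (ZMod 2),
      Function.Injective f := by
  have hcard : Fintype.card (Fin (2 * (k + 1))) = Fintype.card (Pt k) := by
    rw [Fintype.card_fin, Fintype.card_sum, Fintype.card_prod, Fintype.card_fin, Fintype.card_fin]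
    ring
  let e : Fin (2 * (k + 1)) ≃ Pt k := Fintype.equivOfCardEq hcard
  refine ⟨(heart k).comp e.permCongrHom.toMonoidHom, ?_⟩
  exact (heart_injective hk).comp e.permCongrHom.injective

/-- S_2n ≤ Sp_(2n−2)(2) for n ≥ 3: there is an injective homomorphism from the symmetric group on 2n letters into the symplectic group of degree 2n − 2 over the field with two elements. -/
theorem result (n : ℕ) (hn : 3 ≤ n) : ∃ f : Equiv.Perm (Fin (2 * n)) →* Matrix.symplecticGroup (Fin (n - 1)) (ZMod 2), Function.Injective f := by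
  obtain ⟨k, rfl⟩ : ∃ k, n = k + 1 := ⟨n - 1, by omega⟩
  exact aux k (by omega)

end Cfsg.Agent.S0826
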