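import Mathlib
import Cfsg.Statements.S0827
import Cfsg.Agent.Lib.Helper2.U32Emb
import Cfsg.Agent.S0282

set_option autoImplicit false
open Cfsg

namespace Cfsg.Agent.S0827

open Cfsg.Agent.Lib.Helper2.U32Data in
/-- A ring homomorphism from the model of the field with four elements. -/
theorem exists_iota {F : Type*} [Field F] [Fintype F] (hF : Fintype.card F = 4) :
    Nonempty (R4 →+* F) := by
  classical
  have hF' : Fintype.card F = 2 ^ 2 := by rw [hF]; norm_num
  have : Fact (Nat.Prime 2) := ⟨Nat.prime_two⟩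
  have : CharP F 2 := charP_of_card_eq_prime_pow hF'
  obtain ⟨u, hu0, hu1⟩ : ∃ u : F, u ≠ 0 ∧ u ≠ 1 := by
    by_contra hcon
    push Not at hcon
    have hsub : (Finset.univ : Finset F) ⊆ {0, 1} := by
      intro x _
      by_cases hx : x = 0
      · simp [hx]
      · simp [hcon x hx]
    have := Finset.card_le_card hsub
    rw [Finset.card_univ, hF] at this
    have h2 : ({0, 1} : Finset F).card ≤ 2 := Finset.card_le_two
    omega
  have h3 : u ^ 3 = 1 := by
    have := FiniteField.pow_card_sub_one_eq_one u hu0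
    rw [hF] at this
    exact this
  have h2 : (2 : F) = 0 := by
    have := CharP.cast_eq_zero F 2
    exact_mod_cast this
  have hq : u * u = 1 + u := by
    have h4 : (u - 1) * (u * u + u + 1) = 0 := by linear_combination h3
    rcases mul_eq_zero.mp h4 with h5 | h5
    · exact absurd (sub_eq_zero.mp h5) hu1
    · linear_combination h5 - (1 + u) * h2
  let _ : Algebra (ZMod 2) F := ZMod.algebra F 2
  have hu2 : u * u = (1 : ZMod 2) • (1 : F) + (1 : ZMod 2) • u := by
    rw [one_smul, one_smul]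
    exact hq
  exact ⟨(QuadraticAlgebra.lift ⟨u, hu2⟩ : R4 →ₐ[ZMod 2] F).toRingHom⟩

/-- An element conjugating a subgroup of a finite group into itself normalises it. -/
theorem mem_normalizer_of_conj {G : Type*} [Group G] [Finite G] (N : Subgroup G) (g : G)
    (h : ∀ x ∈ N, g * x * g⁻¹ ∈ N) : g ∈ Subgroup.normalizer (N : Set G) := by
  have hk : ∀ k : ℕ, ∀ x ∈ N, g ^ k * x * (g ^ k)⁻¹ ∈ N := by
    intro k
    induction k with
    | zero =>
      intro x hx
      simpa using hx
    | succ k ih =>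
      intro x hx
      have h1 := h _ (ih x hx)
      have e : g ^ (k + 1) * x * (g ^ (k + 1))⁻¹ = g * (g ^ k * x * (g ^ k)⁻¹) * g⁻¹ := by
        rw [pow_succ']
        group
      rw [e]
      exact h1
  rw [Subgroup.mem_normalizer_iff]
  intro x
  refine ⟨h x, fun hx => ?_⟩
  have hpos := orderOf_pos g
  have hg : g ^ (orderOf g - 1) = g⁻¹ := by
    apply eq_inv_of_mul_eq_one_left
    rw [← pow_succ, Nat.sub_add_cancel hpos, pow_orderOf_eq_one]
  have h1 := hk (orderOf g - 1) _ hx
  rw [hg] at h1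
  have e : g⁻¹ * (g * x * g⁻¹) * g⁻¹⁻¹ = x := by group
  rw [e] at h1
  exact h1

/-- An element of order dividing three and eight is trivial. -/
theorem eq_one_of_pow {G : Type*} [Group G] (x : G) (h3 : x ^ 3 = 1) (h8 : x ^ 8 = 1) : x = 1 := by
  have h9 : x ^ 9 = x := by rw [pow_succ, h8, one_mul]
  rw [← h9, show 9 = 3 * 3 from rfl, pow_mul, h3, one_pow]

/-- The abstract statement: a group of order 72 with two commuting elements of order three
and a quaternion group acting suitably. -/
theorem abstract_main {G : Type*} [Group G] [Finite G] (hG : Nat.card G = 72)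
    (d c : G) (hd3 : d * d * d = 1) (hc3 : c * c * c = 1) (hcd : c * d = d * c)
    (hd1 : d ≠ 1) (hc1 : c ≠ 1) (hdc : d * c ≠ 1) (hddc : d * d * c ≠ 1)
    (ρ : QuaternionGroup 2 →* G) (hρ : Function.Injective ρ)
    (hid : ρ (QuaternionGroup.a 1) * d = c * ρ (QuaternionGroup.a 1))
    (hic : ρ (QuaternionGroup.a 1) * c = d * d * ρ (QuaternionGroup.a 1))
    (hjd : ρ (QuaternionGroup.xa 0) * d = d * d * c * ρ (QuaternionGroup.xa 0))
    (hjc : ρ (QuaternionGroup.xa 0) * c = d * c * ρ (QuaternionGroup.xa 0)) :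
    ∃ (N : Subgroup G) (_ : N.Normal), Nat.card N = 9 ∧ (∀ x ∈ N, x ^ 3 = 1) ∧
      Nonempty (G ⧸ N ≃* QuaternionGroup 2) := by
  classical
  have : Fact (Nat.Prime 3) := ⟨Nat.prime_three⟩
  let N : Subgroup G := Subgroup.closure {d, c}
  have hdN : d ∈ N := Subgroup.subset_closure (by simp)
  have hcN : c ∈ N := Subgroup.subset_closure (by simp)
  -- commutation with the generators
  have hN1 : ∀ x ∈ N, x * d = d * x ∧ x * c = c * x := by
    intro x hx
    induction hx using Subgroup.closure_induction with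
    | mem y hy =>
      rcases hy with rfl | rfl
      · exact ⟨rfl, hcd.symm⟩
      · exact ⟨hcd, rfl⟩
    | one => exact ⟨by rw [one_mul, mul_one], by rw [one_mul, mul_one]⟩
    | mul x y _ _ hx hy =>
      exact ⟨by rw [mul_assoc, hy.1, ← mul_assoc, hx.1, mul_assoc],
        by rw [mul_assoc, hy.2, ← mul_assoc, hx.2, mul_assoc]⟩
    | inv x _ hx =>
      refine ⟨?_, ?_⟩
      · have := hx.1
        calc x⁻¹ * d = x⁻¹ * (d * x) * x⁻¹ := by group
          _ = x⁻¹ * (x * d) * x⁻¹ := by rw [this]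
          _ = d * x⁻¹ := by group
      · have := hx.2
        calc x⁻¹ * c = x⁻¹ * (c * x) * x⁻¹ := by group
          _ = x⁻¹ * (x * c) * x⁻¹ := by rw [this]
          _ = c * x⁻¹ := by group
  have hN2 : ∀ x ∈ N, ∀ y ∈ N, x * y = y * x := by
    intro x hx y hy
    induction hy using Subgroup.closure_induction with
    | mem y hy =>
      rcases hy with rfl | rfl
      · exact (hN1 x hx).1
      · exact (hN1 x hx).2
    | one => rw [one_mul, mul_one]
    | mul y z _ _ hy hz => rw [← mul_assoc, hy, mul_assoc, hz, mul_assoc]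
    | inv y _ hy =>
      calc x * y⁻¹ = y⁻¹ * (y * x) * y⁻¹ := by group
        _ = y⁻¹ * (x * y) * y⁻¹ := by rw [hy]
        _ = y⁻¹ * x := by group
  have hN3 : ∀ x ∈ N, x ^ 3 = 1 := by
    intro x hx
    induction hx using Subgroup.closure_induction with
    | mem y hy =>
      rcases hy with rfl | rfl
      · rw [pow_succ, pow_two]; exact hd3
      · rw [pow_succ, pow_two]; exact hc3
    | one => exact one_pow 3
    | mul x y hx hy hx3 hy3 =>
      have hxy : Commute x y := hN2 x hx y hy
      rw [hxy.mul_pow, hx3, hy3, one_mul]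
    | inv x _ hx3 => rw [inv_pow, hx3, inv_one]
  -- the conjugation action of the two generators of the quaternion group
  have hconj : ∀ g : G, g * d * g⁻¹ ∈ N → g * c * g⁻¹ ∈ N → ∀ x ∈ N, g * x * g⁻¹ ∈ N := by
    intro g h1 h2 x hx
    induction hx using Subgroup.closure_induction with
    | mem y hy =>
      rcases hy with rfl | rfl
      · exact h1
      · exact h2
    | one =>
      have e : g * 1 * g⁻¹ = 1 := by group
      rw [e]
      exact N.one_mem
    | mul x y _ _ hx hy =>
      have e : g * (x * y) * g⁻¹ = (g * x * g⁻¹) * (g * y * g⁻¹) := by group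
      rw [e]
      exact N.mul_mem hx hy
    | inv x _ hx =>
      have e : g * x⁻¹ * g⁻¹ = (g * x * g⁻¹)⁻¹ := by group
      rw [e]
      exact N.inv_mem hx
  have hi : ρ (QuaternionGroup.a 1) ∈ Subgroup.normalizer (N : Set G) := by
    apply mem_normalizer_of_conj
    apply hconj
    · rw [hid, mul_inv_cancel_right]
      exact hcN
    · rw [hic, mul_inv_cancel_right]
      exact N.mul_mem hdN hdN
  have hj : ρ (QuaternionGroup.xa 0) ∈ Subgroup.normalizer (N : Set G) := by
    apply mem_normalizer_of_conj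
    apply hconj
    · rw [hjd, mul_inv_cancel_right]
      exact N.mul_mem (N.mul_mem hdN hdN) hcN
    · rw [hjc, mul_inv_cancel_right]
      exact N.mul_mem hdN hcN
  have hrange : ρ.range ≤ Subgroup.normalizer (N : Set G) := by
    rintro _ ⟨x, rfl⟩
    obtain ⟨e, k, rfl⟩ := Cfsg.Agent.Lib.Helper2.U32Data.q8_word x
    rw [map_mul, map_pow, map_pow]
    exact Subgroup.mul_mem _ (Subgroup.pow_mem _ hj e) (Subgroup.pow_mem _ hi k)
  -- the order of N
  have hNdvd : Nat.card N ∣ 72 := hG ▸ Subgroup.card_subgroup_dvd_card N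
  have hp : IsPGroup 3 N := by
    intro x
    refine ⟨1, ?_⟩
    rw [pow_one]
    apply Subtype.ext
    rw [Subgroup.coe_pow]
    exact hN3 x.1 x.2
  obtain ⟨n, hn⟩ := hp.exists_card_eq
  have hn2 : n ≤ 2 := by
    by_contra hcon
    have h27 : 3 ^ 3 ∣ 72 := (pow_dvd_pow 3 (by omega : 3 ≤ n)).trans (hn ▸ hNdvd)
    norm_num at h27
  have h4 : 4 ≤ Nat.card N := by
    have hsub : ({1, d, c, d * c} : Set G) ⊆ (N : Set G) := by
      intro x hx
      simp only [Set.mem_insert_iff, Set.mem_singleton_iff] at hx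
      rcases hx with rfl | rfl | rfl | rfl
      exacts [N.one_mem, hdN, hcN, N.mul_mem hdN hcN]
    have hcard : ({1, d, c, d * c} : Set G).ncard = 4 := by
      have e1 : c ≠ d * c := fun h => hd1 (by
        have := congrArg (· * c⁻¹) h
        simpa using this.symm)
      have e2 : d ≠ c := fun h => hddc (by rw [← h]; exact hd3)
      have e3 : d ≠ d * c := fun h => hc1 (by
        have := congrArg (d⁻¹ * ·) h
        simpa using this.symm)
      rw [Set.ncard_insert_of_notMem, Set.ncard_insert_of_notMem, Set.ncard_pair e1]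
      · simp only [Set.mem_insert_iff, Set.mem_singleton_iff, not_or]
        exact ⟨e2, e3⟩
      · simp only [Set.mem_insert_iff, Set.mem_singleton_iff, not_or]
        exact ⟨Ne.symm hd1, Ne.symm hc1, Ne.symm hdc⟩
    have := Set.ncard_le_ncard hsub (Set.toFinite _)
    rw [hcard] at this
    exact this
  have hN9 : Nat.card N = 9 := by
    have h4' : 4 ≤ 3 ^ n := hn ▸ h4
    have hn' : n = 2 := by
      interval_cases n
      · norm_num at h4'
      · norm_num at h4'
      · rfl
    rw [hn, hn']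
    norm_num
  -- normality
  have hnorm : Subgroup.normalizer (N : Set G) = ⊤ := by
    apply Subgroup.eq_top_of_card_eq
    have h9 : 9 ∣ Nat.card (Subgroup.normalizer (N : Set G)) := by
      rw [← hN9]
      exact Subgroup.card_dvd_of_le Subgroup.le_normalizer
    have h8 : 8 ∣ Nat.card (Subgroup.normalizer (N : Set G)) := by
      have e : Nat.card ρ.range = 8 := by
        rw [← Nat.card_congr (MonoidHom.ofInjective hρ).toEquiv, Nat.card_eq_fintype_card,
          QuaternionGroup.card]
      rw [← e]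
      exact Subgroup.card_dvd_of_le hrange
    have h72 : 72 ∣ Nat.card (Subgroup.normalizer (N : Set G)) :=
      Nat.Coprime.mul_dvd_of_dvd_of_dvd (by decide : Nat.Coprime 8 9) h8 h9
    have hle : Nat.card (Subgroup.normalizer (N : Set G)) ≤ Nat.card G :=
      Subgroup.card_le_card_group _
    have hpos : 0 < Nat.card (Subgroup.normalizer (N : Set G)) := Nat.card_pos
    rw [hG] at hle ⊢
    exact le_antisymm hle (Nat.le_of_dvd hpos h72)
  have hNn : N.Normal := Subgroup.normalizer_eq_top_iff.mp hnorm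
  refine ⟨N, hNn, hN9, hN3, ?_⟩
  -- the quotient
  let ψ : QuaternionGroup 2 →* G ⧸ N := (QuotientGroup.mk' N).comp ρ
  have hψ : Function.Injective ψ := by
    rw [injective_iff_map_eq_one]
    intro x hx
    have hx' : ρ x ∈ N := (QuotientGroup.eq_one_iff (ρ x)).mp hx
    have h3 : x ^ 3 = 1 := by
      apply hρ
      rw [map_pow, map_one]
      exact hN3 _ hx'
    have h8 : x ^ 8 = 1 := by
      have := pow_card_eq_one' (G := QuaternionGroup 2) (x := x)
      rw [Nat.card_eq_fintype_card, QuaternionGroup.card] at this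
      exact this
    exact eq_one_of_pow x h3 h8
  have hq : Nat.card (G ⧸ N) = 8 := by
    have := Subgroup.card_eq_card_quotient_mul_card_subgroup N
    rw [hG, hN9] at this
    omega
  have hbij : Function.Bijective ψ := by
    apply hψ.bijective_of_nat_card_le
    rw [hq, Nat.card_eq_fintype_card, QuaternionGroup.card]
  exact ⟨(MulEquiv.ofBijective ψ hbij).symm⟩

/-- U_3(2) ≅ 3².Q_8: PSU_3(2) (form over the field with 4 elements) has a normal subgroup N which is elementary abelian of order 9 such that the quotient by N is isomorphic to the quaternion group of order 8. -/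
theorem result {F : Type*} [Field F] [Fintype F] (hF : Fintype.card F = 4) : ∃ (N : Subgroup (Cfsg.PSU 3 F 2)) (_ : N.Normal), Nat.card N = 9 ∧ (∀ x ∈ N, x ^ 3 = 1) ∧ Nonempty (Cfsg.PSU 3 F 2 ⧸ N ≃* QuaternionGroup 2) := by
  classical
  have hF' : Fintype.card F = 2 ^ 2 := by rw [hF]; norm_num
  obtain ⟨ι⟩ := exists_iota hF
  have hG : Nat.card (Cfsg.PSU 3 F 2) = 72 := (Cfsg.Agent.S0282.result hF).1
  have hZ : (QuotientGroup.mk' (Subgroup.center ↥(Cfsg.SU 3 F 2)))
      (Cfsg.Agent.Lib.Helper2.U32Data.Z hF' ι) = 1 :=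
    (QuotientGroup.eq_one_iff _).mpr (Cfsg.Agent.Lib.Helper2.U32Data.Z_central hF' ι)
  have hne : ∀ g : ↥(Cfsg.SU 3 F 2), g ∉ Subgroup.center ↥(Cfsg.SU 3 F 2) →
      (QuotientGroup.mk' (Subgroup.center ↥(Cfsg.SU 3 F 2))) g ≠ 1 :=
    fun g hg h => hg ((QuotientGroup.eq_one_iff g).mp h)
  have hcen : Nat.card (Subgroup.center ↥(Cfsg.SU 3 F 2)) = 3 := by
    rw [Cfsg.Agent.Lib.Helper2.Unitary.card_center_SU hF' 3 (by norm_num)]
    decide
  refine abstract_main hG
    ((QuotientGroup.mk' (Subgroup.center ↥(Cfsg.SU 3 F 2))) (Cfsg.Agent.Lib.Helper2.U32Data.D hF' ι))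
    ((QuotientGroup.mk' (Subgroup.center ↥(Cfsg.SU 3 F 2))) (Cfsg.Agent.Lib.Helper2.U32Data.C hF' ι))
    ?_ ?_ ?_ ?_ ?_ ?_ ?_
    ((QuotientGroup.mk' (Subgroup.center ↥(Cfsg.SU 3 F 2))).comp
      (Cfsg.Agent.Lib.Helper2.U32Data.rho hF' ι)) ?_ ?_ ?_ ?_ ?_
  · rw [← map_mul, ← map_mul, Cfsg.Agent.Lib.Helper2.U32Data.R_d, map_one]
  · rw [← map_mul, ← map_mul, Cfsg.Agent.Lib.Helper2.U32Data.R_c, map_one]
  · rw [← map_mul, ← map_mul, Cfsg.Agent.Lib.Helper2.U32Data.R_cd, map_mul, hZ, one_mul]
  · exact hne _ (Cfsg.Agent.Lib.Helper2.U32Data.D_not_central hF' ι)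
  · exact hne _ (Cfsg.Agent.Lib.Helper2.U32Data.C_not_central hF' ι)
  · rw [← map_mul]
    exact hne _ (Cfsg.Agent.Lib.Helper2.U32Data.DC_not_central hF' ι)
  · rw [← map_mul, ← map_mul]
    exact hne _ (Cfsg.Agent.Lib.Helper2.U32Data.DDC_not_central hF' ι)
  · -- injectivity
    rw [injective_iff_map_eq_one]
    intro x hx
    have hx' : Cfsg.Agent.Lib.Helper2.U32Data.rho hF' ι x ∈ Subgroup.center ↥(Cfsg.SU 3 F 2) :=
      (QuotientGroup.eq_one_iff _).mp hx
    have h3 : x ^ 3 = 1 := by
      apply Cfsg.Agent.Lib.Helper2.U32Data.rho_injective hF' ι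
      rw [map_pow, map_one]
      have := pow_card_eq_one' (G := ↥(Subgroup.center ↥(Cfsg.SU 3 F 2)))
        (x := ⟨Cfsg.Agent.Lib.Helper2.U32Data.rho hF' ι x, hx'⟩)
      rw [hcen] at this
      exact congrArg Subtype.val this
    have h8 : x ^ 8 = 1 := by
      have := pow_card_eq_one' (G := QuaternionGroup 2) (x := x)
      rw [Nat.card_eq_fintype_card, QuaternionGroup.card] at this
      exact this
    exact eq_one_of_pow x h3 h8
  · have h := congrArg (QuotientGroup.mk' (Subgroup.center ↥(Cfsg.SU 3 F 2)))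
      (Cfsg.Agent.Lib.Helper2.U32Data.R_id hF' ι)
    simp only [map_mul, hZ, one_mul] at h
    exact h
  · have h := congrArg (QuotientGroup.mk' (Subgroup.center ↥(Cfsg.SU 3 F 2)))
      (Cfsg.Agent.Lib.Helper2.U32Data.R_ic hF' ι)
    simp only [map_mul, hZ, one_mul] at h
    exact h
  · have h := congrArg (QuotientGroup.mk' (Subgroup.center ↥(Cfsg.SU 3 F 2)))
      (Cfsg.Agent.Lib.Helper2.U32Data.R_jd hF' ι)
    simp only [map_mul] at h
    exact h
  · have h := congrArg (QuotientGroup.mk' (Subgroup.center ↥(Cfsg.SU 3 F 2)))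
      (Cfsg.Agent.Lib.Helper2.U32Data.R_jc hF' ι)
    simp only [map_mul, hZ, one_mul] at h
    exact h

end Cfsg.Agent.S0827
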