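import Cfsg.Statements.S0829
import Mathlib
import Cfsg.Agent.Lib.Helper15.HermLines

set_option autoImplicit false
open Cfsg

namespace Cfsg.Agent.S0829

/-- The unitary quadrangle of PSU_4(q): with |F| = q², the number of 2-dimensional subspaces of F^4 on which the Hermitian form Σ x_i y_i^q vanishes is (q + 1)(q³ + 1). -/
theorem result {F : Type*} [Field F] [Fintype F] {q : ℕ} (hF : Fintype.card F = q ^ 2) : Nat.card {W : Submodule F (Fin 4 → F) // Module.finrank F W = 2 ∧ ∀ u ∈ W, ∀ v ∈ W, Cfsg.hermForm 4 F q u v = 0} = (q + 1) * (q ^ 3 + 1) := by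
  have hq := Cfsg.Agent.Lib.Helper2.HermCount.two_le_q hF
  have hmain := Cfsg.Agent.Lib.Helper15.HermLines.lines_count hF 2
  have hZb := Cfsg.Agent.Lib.Helper15.HermLines.ZU_pos q (2 + 2)
  have hZs := Cfsg.Agent.Lib.Helper15.HermLines.ZU_pos q 2
  have hb := (Cfsg.Agent.Lib.Helper2.HermCount.ZU_closed q hq (2 + 2)).1
  have hs := (Cfsg.Agent.Lib.Helper2.HermCount.ZU_closed q hq 2).1
  generalize (Cfsg.Agent.Lib.Helper2.HermCount.ZU q (2 + 2)).1 = Zb at hmain hZb hb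
  generalize (Cfsg.Agent.Lib.Helper2.HermCount.ZU q 2).1 = Zs at hmain hZs hs
  generalize Nat.card {W : Submodule F (Fin (2 + 2) → F) // Module.finrank F W = 2 ∧
      ∀ u ∈ W, ∀ v ∈ W, Cfsg.hermForm (2 + 2) F q u v = 0} = N at hmain
  show N = (q + 1) * (q ^ 3 + 1)
  have h1 : 1 ≤ (q ^ 2) ^ 2 := Nat.one_le_pow _ _ (by positivity)
  have h2 : q ^ 2 ≤ (q ^ 2) ^ 2 := by nlinarith [Nat.one_le_pow 2 q (by omega)]
  have h3 : q ^ 2 ≤ q ^ 2 * Zs := by nlinarith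
  have hq' : (2 : ℤ) ≤ (q : ℤ) := by exact_mod_cast hq
  zify [h1, h2, h3, hZb] at hmain
  norm_num at hb hs
  have hpos : (0 : ℤ) < (((q : ℤ) ^ 2) ^ 2 - 1) * (((q : ℤ) ^ 2) ^ 2 - (q : ℤ) ^ 2) * (q : ℤ) ^ 2 := by
    have e1 : (0 : ℤ) < ((q : ℤ) ^ 2) ^ 2 - 1 := by nlinarith [pow_pos (show (0:ℤ) < q by linarith) 2]
    have e2 : (0 : ℤ) < ((q : ℤ) ^ 2) ^ 2 - (q : ℤ) ^ 2 := by nlinarith [pow_pos (show (0:ℤ) < q by linarith) 2]
    have e3 : (0 : ℤ) < (q : ℤ) ^ 2 := by positivity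
    exact mul_pos (mul_pos e1 e2) e3
  have key : ((N : ℤ) - (((q + 1) * (q ^ 3 + 1) : ℕ) : ℤ)) *
      ((((q : ℤ) ^ 2) ^ 2 - 1) * (((q : ℤ) ^ 2) ^ 2 - (q : ℤ) ^ 2) * (q : ℤ) ^ 2) = 0 := by
    push_cast
    linear_combination ((q:ℤ)^2) * hmain + ((q:ℤ)^2 * (Zs:ℤ) * q - (q:ℤ)^3) * hb + (((q:ℤ)^8 + (q:ℤ)^5 - (q:ℤ)^4) - q) * (q:ℤ)^2 * hs
  have := (mul_eq_zero.1 key).resolve_right (ne_of_gt hpos)
  exact_mod_cast sub_eq_zero.1 this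

end Cfsg.Agent.S0829
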