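import Cfsg.Statements.S0832
import Cfsg.Agent.Lib.Helper15.PSC

set_option autoImplicit false
open Cfsg

namespace Cfsg.Agent.S0832

open Module Cfsg.Agent.Lib.Helper15.CD2 Cfsg.Agent.Lib.Helper15.Witt
  Cfsg.Agent.Lib.Helper15.StdForms Cfsg.Agent.Lib.Helper15.PSC

section
variable {F : Type*} [Field F] [Fintype F] {ι : Type} [Fintype ι] [DecidableEq ι]

theorem Q_add (Q : QuadraticForm F (ι → F)) (x y : ι → F) :
    Q (x + y) = Q x + Q y + QuadraticMap.polar ⇑Q x y := by
  unfold QuadraticMap.polar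
  ring

theorem ts_sup (Q : QuadraticForm F (ι → F)) (U : Submodule F (ι → F))
    (hU : ∀ u ∈ U, Q u = 0) (v : ι → F) (hv : Q v = 0) (hvP : v ∈ perp Q U) :
    ∀ x ∈ U ⊔ Submodule.span F {v}, Q x = 0 := by
  intro x hx
  obtain ⟨u, hu, y, hy, rfl⟩ := Submodule.mem_sup.1 hx
  obtain ⟨a, rfl⟩ := Submodule.mem_span_singleton.1 hy
  rw [Q_add, hU u hu, QuadraticMap.map_smul, hv, QuadraticMap.polar_smul_right,
    QuadraticMap.polar_comm, hvP u hu]
  simp

theorem finrank_sup_single (U : Submodule F (ι → F)) (v : ι → F) (hv : v ∉ U) :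
    finrank F ↥(U ⊔ Submodule.span F {v}) = finrank F ↥U + 1 := by
  have hv0 : v ≠ 0 := by
    rintro rfl
    exact hv U.zero_mem
  have h1 := Submodule.finrank_sup_add_finrank_inf_eq U (Submodule.span F {v})
  have h2 : U ⊓ Submodule.span F {v} = ⊥ :=
    disjoint_iff.1 ((Submodule.disjoint_span_singleton' hv0).2 hv)
  rw [h2, finrank_bot, finrank_span_singleton hv0] at h1
  omega

end

/-- For the form Σ x_i y_i on F^(2m) over a finite field, m ≥ 1: an (m−1)-dimensional subspace on which the form vanishes is contained in exactly two m-dimensional subspaces on which it vanishes. -/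
theorem result {F : Type*} [Field F] [Finite F] (m : ℕ) (hm : 1 ≤ m) (U : Submodule F (Fin m ⊕ Fin m → F)) (hU : Module.finrank F U + 1 = m ∧ ∀ u ∈ U, Cfsg.quadFormPlus m F u = 0) : Nat.card {W : Submodule F (Fin m ⊕ Fin m → F) // Module.finrank F W = m ∧ (∀ w ∈ W, Cfsg.quadFormPlus m F w = 0) ∧ U ≤ W} = 2 := by

  classical
  have : Fintype F := Fintype.ofFinite F
  obtain ⟨hUk, hUts⟩ := hU
  have hQ := plus_nondeg (F := F) m
  have hcard : Fintype.card (Fin m ⊕ Fin m) = 2 * m := by
    rw [Fintype.card_sum, Fintype.card_fin]; omega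
  have hUts' : ∀ u ∈ U, plusQF m F u = 0 := hUts
  have hnotmax : ¬ Cfsg.IsMaxTotallySingular (Cfsg.quadFormPlus m F) U := by
    rw [max_ts_iff]
    rintro ⟨-, h⟩
    omega
  have hex : ∃ W : Submodule F (Fin m ⊕ Fin m → F), (∀ w ∈ W, plusQF m F w = 0) ∧ U ≤ W ∧ W ≠ U := by
    by_contra hno
    apply hnotmax
    refine ⟨hUts, fun W hW hUW => ?_⟩
    by_contra hne
    exact hno ⟨W, hW, hUW, hne⟩
  obtain ⟨W₁, hW₁ts, hUW₁, hW₁ne⟩ := hex
  obtain ⟨w, hwW, hwU⟩ : ∃ w ∈ W₁, w ∉ U := by
    by_contra hno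
    apply hW₁ne
    apply le_antisymm _ hUW₁
    intro x hx
    by_contra hxU
    exact hno ⟨x, hx, hxU⟩
  have hQw : plusQF m F w = 0 := hW₁ts w hwW
  have hwP : w ∈ perp (plusQF m F) U :=
    fun u hu => polar_of_sing (plusQF m F) W₁ hW₁ts w u hwW (hUW₁ hu)
  obtain ⟨s, hsP, hs⟩ : ∃ s ∈ perp (plusQF m F) U,
      QuadraticMap.polar ⇑(plusQF m F) w s ≠ 0 := by
    by_contra hno
    apply hwU
    rw [← perp_perp (plusQF m F) hQ U]
    intro s hs
    by_contra h
    exact hno ⟨s, hs, h⟩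
  obtain ⟨c, hc⟩ : ∃ c, c = QuadraticMap.polar ⇑(plusQF m F) w s := ⟨_, rfl⟩
  have hc0 : c ≠ 0 := by rw [hc]; exact hs
  obtain ⟨w₂, hw₂⟩ : ∃ w₂, w₂ = s + (-(plusQF m F s / c)) • w := ⟨_, rfl⟩
  have hQw₂ : plusQF m F w₂ = 0 := by
    rw [hw₂, Q_add, QuadraticMap.map_smul, hQw, QuadraticMap.polar_smul_right,
      QuadraticMap.polar_comm, ← hc]
    simp only [smul_eq_mul]
    field_simp
    ring
  have hpw₂ : QuadraticMap.polar ⇑(plusQF m F) w w₂ = c := by
    rw [hw₂, QuadraticMap.polar_add_right, QuadraticMap.polar_smul_right, ← hc,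
      polar_self_of_sing (plusQF m F) w hQw]
    simp
  have hw₂P : w₂ ∈ perp (plusQF m F) U := by
    rw [hw₂]
    exact (perp (plusQF m F) U).add_mem hsP ((perp (plusQF m F) U).smul_mem _ hwP)
  have hA₁ts := ts_sup (plusQF m F) U hUts' w hQw hwP
  have hA₂ts := ts_sup (plusQF m F) U hUts' w₂ hQw₂ hw₂P
  have hw₂U : w₂ ∉ U := by
    intro h
    have := hwP w₂ h
    rw [hpw₂] at this
    exact hc0 this
  have hA₁k : finrank F ↥(U ⊔ Submodule.span F {w}) = m := by
    rw [finrank_sup_single U w hwU]; exact hUk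
  have hA₂k : finrank F ↥(U ⊔ Submodule.span F {w₂}) = m := by
    rw [finrank_sup_single U w₂ hw₂U]; exact hUk
  have hwA₁ : w ∈ U ⊔ Submodule.span F {w} :=
    Submodule.mem_sup_right (Submodule.mem_span_singleton_self w)
  have hw₂A₂ : w₂ ∈ U ⊔ Submodule.span F {w₂} :=
    Submodule.mem_sup_right (Submodule.mem_span_singleton_self w₂)
  have hw₂A₁ : w₂ ∉ U ⊔ Submodule.span F {w} := by
    intro h
    have := polar_of_sing (plusQF m F) _ hA₁ts w w₂ hwA₁ h
    rw [hpw₂] at this
    exact hc0 this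
  have hne : U ⊔ Submodule.span F {w} ≠ U ⊔ Submodule.span F {w₂} := by
    intro h
    apply hw₂A₁
    rw [h]
    exact hw₂A₂
  have hUP : U ≤ perp (plusQF m F) U :=
    fun x hx u hu => polar_of_sing (plusQF m F) U hUts' x u hx hu
  have hP : perp (plusQF m F) U = (U ⊔ Submodule.span F {w}) ⊔ Submodule.span F {w₂} := by
    symm
    apply Submodule.eq_of_le_of_finrank_eq
    · refine sup_le (sup_le hUP ?_) ?_
      · rw [Submodule.span_singleton_le_iff_mem]; exact hwP
      · rw [Submodule.span_singleton_le_iff_mem]; exact hw₂P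
    · rw [finrank_sup_single _ w₂ hw₂A₁, hA₁k, finrank_perp (plusQF m F) hQ, hcard]
      omega
  have hcases : ∀ W : Submodule F (Fin m ⊕ Fin m → F), finrank F W = m →
      (∀ x ∈ W, plusQF m F x = 0) → U ≤ W →
      W = U ⊔ Submodule.span F {w} ∨ W = U ⊔ Submodule.span F {w₂} := by
    intro W hWk hWts hUW
    obtain ⟨x, hxW, hxU⟩ : ∃ x ∈ W, x ∉ U := by
      by_contra hno
      have hWU : W ≤ U := by
        intro x hx
        by_contra hxU
        exact hno ⟨x, hx, hxU⟩
      have := Submodule.finrank_mono hWU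
      omega
    have hxP : x ∈ perp (plusQF m F) U :=
      fun u hu => polar_of_sing (plusQF m F) W hWts x u hxW (hUW hu)
    rw [hP] at hxP
    obtain ⟨y, hy, z, hz, rfl⟩ := Submodule.mem_sup.1 hxP
    obtain ⟨u, hu, y', hy', rfl⟩ := Submodule.mem_sup.1 hy
    obtain ⟨a, rfl⟩ := Submodule.mem_span_singleton.1 hy'
    obtain ⟨b, rfl⟩ := Submodule.mem_span_singleton.1 hz
    have hQx := hWts _ hxW
    rw [Q_add, hA₁ts _ hy, QuadraticMap.map_smul, hQw₂, QuadraticMap.polar_smul_right,
      QuadraticMap.polar_add_left, QuadraticMap.polar_smul_left, hpw₂,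
      QuadraticMap.polar_comm, hw₂P u hu] at hQx
    simp only [smul_eq_mul, mul_zero, add_zero, zero_add] at hQx
    rcases mul_eq_zero.1 hQx with hb | hac
    · subst hb
      left
      symm
      apply Submodule.eq_of_le_of_finrank_eq
      · refine sup_le hUW ?_
        rw [Submodule.span_singleton_le_iff_mem]
        have ha0 : a ≠ 0 := by
          rintro rfl
          apply hxU
          simpa using hu
        have h1 : w = a⁻¹ • ((u + a • w + (0 : F) • w₂) - u) := by
          rw [zero_smul, add_zero, add_sub_cancel_left, smul_smul, inv_mul_cancel₀ ha0, one_smul]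
        rw [h1]
        exact W.smul_mem _ (W.sub_mem hxW (hUW hu))
      · rw [hA₁k, hWk]
    · rcases mul_eq_zero.1 hac with ha | hc'
      · subst ha
        right
        symm
        apply Submodule.eq_of_le_of_finrank_eq
        · refine sup_le hUW ?_
          rw [Submodule.span_singleton_le_iff_mem]
          have hb0 : b ≠ 0 := by
            rintro rfl
            apply hxU
            simpa using hu
          have h1 : w₂ = b⁻¹ • ((u + (0 : F) • w + b • w₂) - u) := by
            rw [zero_smul, add_zero, add_sub_cancel_left, smul_smul, inv_mul_cancel₀ hb0, one_smul]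
          rw [h1]
          exact W.smul_mem _ (W.sub_mem hxW (hUW hu))
        · rw [hA₂k, hWk]
      · exact absurd hc' hc0
  rw [Nat.card_eq_two_iff]
  refine ⟨⟨U ⊔ Submodule.span F {w}, hA₁k, hA₁ts, le_sup_left⟩,
    ⟨U ⊔ Submodule.span F {w₂}, hA₂k, hA₂ts, le_sup_left⟩, ?_, ?_⟩
  · intro h
    exact hne (congrArg Subtype.val h)
  · ext ⟨W, hWk, hWts, hUW⟩
    simp only [Set.mem_insert_iff, Set.mem_singleton_iff, Set.mem_univ, iff_true, Subtype.mk.injEq]
    exact hcases W hWk hWts hUW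

end Cfsg.Agent.S0832
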