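import Cfsg.Statements.S0833
import Mathlib

set_option autoImplicit false

open Cfsg

namespace Cfsg.Agent.S0833

open TensorProduct

variable {F U W : Type*} [Field F] [AddCommGroup U] [Module F U] [FiniteDimensional F U]
  [AddCommGroup W] [Module F W] [FiniteDimensional F W]

theorem tmul_symm (B₁ : LinearMap.BilinForm F U) (B₂ : LinearMap.BilinForm F W)
    (hA₁ : B₁.IsAlt) (hA₂ : B₂.IsAlt) (x y : TensorProduct F U W) :
    (B₁.tmul B₂) x y = (B₁.tmul B₂) y x := by
  induction x using TensorProduct.induction_on with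
  | zero => simp
  | tmul u w =>
    induction y using TensorProduct.induction_on with
    | zero => simp
    | tmul u' w' =>
      rw [LinearMap.BilinForm.tensorDistrib_tmul, LinearMap.BilinForm.tensorDistrib_tmul]
      have h1 : B₁ u u' = -B₁ u' u := by rw [← LinearMap.IsAlt.neg hA₁ u u', neg_neg]
      have h2 : B₂ w w' = -B₂ w' w := by rw [← LinearMap.IsAlt.neg hA₂ w w', neg_neg]
      rw [h1, h2]
      simp
    | add a b ha hb =>
      simp only [map_add, LinearMap.add_apply, ha, hb]
  | add a b ha hb =>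
    simp only [map_add, LinearMap.add_apply, ha, hb]

theorem tmul_sepLeft (B₁ : LinearMap.BilinForm F U) (B₂ : LinearMap.BilinForm F W)
    (h₁ : B₁.Nondegenerate) (h₂ : B₂.Nondegenerate) (hA₁ : B₁.IsAlt) (hA₂ : B₂.IsAlt)
    (x : TensorProduct F U W) (hx : ∀ y, (B₁.tmul B₂) x y = 0) : x = 0 := by
  classical
  let b₁ := Module.finBasis F U
  let b₂ := Module.finBasis F W
  let d₁ := B₁.dualBasis h₁ b₁
  let d₂ := B₂.dualBasis h₂ b₂
  have key : ∀ i j, (b₁.tensorProduct b₂).coord (i, j) =
      (B₁.tmul B₂).flip (d₁ i ⊗ₜ[F] d₂ j) := by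
    intro i j
    apply (b₁.tensorProduct b₂).ext
    rintro ⟨k, l⟩
    rw [Module.Basis.coord_apply, Module.Basis.repr_self, LinearMap.flip_apply,
      Module.Basis.tensorProduct_apply, LinearMap.BilinForm.tensorDistrib_tmul]
    have e1 : B₁ (b₁ k) (d₁ i) = -(if k = i then 1 else 0) := by
      rw [← LinearMap.IsAlt.neg hA₁ (d₁ i) (b₁ k)]
      exact congrArg Neg.neg (LinearMap.BilinForm.apply_dualBasis_left h₁ b₁ i k)
    have e2 : B₂ (b₂ l) (d₂ j) = -(if l = j then 1 else 0) := by
      rw [← LinearMap.IsAlt.neg hA₂ (d₂ j) (b₂ l)]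
      exact congrArg Neg.neg (LinearMap.BilinForm.apply_dualBasis_left h₂ b₂ j l)
    rw [e1, e2, Finsupp.single_apply]
    by_cases hk : k = i <;> by_cases hl : l = j <;> simp [hk, hl, Prod.ext_iff]
  apply (b₁.tensorProduct b₂).ext_elem
  rintro ⟨i, j⟩
  have h1 := congrArg (fun φ => φ x) (key i j)
  simp only [Module.Basis.coord_apply, LinearMap.flip_apply] at h1
  rw [h1, hx]
  simp

theorem exists_isotropic (B₁ : LinearMap.BilinForm F U) (h₁ : B₁.Nondegenerate) (hA₁ : B₁.IsAlt)
    (k : ℕ) (hU : Module.finrank F U = 2 * k) :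
    ∃ L : Submodule F U, Module.finrank F L = k ∧ ∀ x ∈ L, ∀ y ∈ L, B₁ x y = 0 := by
  have hle : ∀ L : Submodule F U, (∀ x ∈ L, ∀ y ∈ L, B₁ x y = 0) → L ≤ B₁.orthogonal L := by
    intro L hL m hm
    rw [LinearMap.BilinForm.mem_orthogonal_iff]
    intro n hn
    exact hL n hn m hm
  have hbound : ∀ L : Submodule F U, (∀ x ∈ L, ∀ y ∈ L, B₁ x y = 0) →
      Module.finrank F L ≤ k := by
    intro L hL
    have h1 := Submodule.finrank_mono (hle L hL)
    rw [LinearMap.BilinForm.finrank_orthogonal h₁, hU] at h1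
    have h2 := Submodule.finrank_le L
    omega
  have hstep : ∀ j ≤ k, ∃ L : Submodule F U, j ≤ Module.finrank F L ∧
      ∀ x ∈ L, ∀ y ∈ L, B₁ x y = 0 := by
    intro j
    induction j with
    | zero => intro _; exact ⟨⊥, by simp, by simp⟩
    | succ j ih =>
      intro hj
      obtain ⟨L, hLj, hL⟩ := ih (by omega)
      by_cases hbig : j + 1 ≤ Module.finrank F L
      · exact ⟨L, hbig, hL⟩
      · have hLeq : Module.finrank F L = j := by omega
        have hne : B₁.orthogonal L ≠ L := by
          intro heq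
          have h1 := LinearMap.BilinForm.finrank_orthogonal h₁ L
          rw [heq, hU] at h1
          omega
        have hlt : L < B₁.orthogonal L := lt_of_le_of_ne (hle L hL) (Ne.symm hne)
        obtain ⟨v, hv, hvL⟩ := SetLike.exists_of_lt hlt
        rw [LinearMap.BilinForm.mem_orthogonal_iff] at hv
        have hv' : ∀ n ∈ L, B₁ v n = 0 := by
          intro n hn
          rw [← LinearMap.IsAlt.neg hA₁ n v, hv n hn, neg_zero]
        refine ⟨L ⊔ Submodule.span F {v}, ?_, ?_⟩
        · have hlt' : L < L ⊔ Submodule.span F {v} := by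
            apply lt_of_le_of_ne le_sup_left
            intro heq
            apply hvL
            rw [heq]
            exact Submodule.mem_sup_right (Submodule.mem_span_singleton_self v)
          have := Submodule.finrank_lt_finrank_of_lt hlt'
          omega
        · intro x hx y hy
          rw [Submodule.mem_sup] at hx hy
          obtain ⟨x1, hx1, x2, hx2, rfl⟩ := hx
          obtain ⟨y1, hy1, y2, hy2, rfl⟩ := hy
          rw [Submodule.mem_span_singleton] at hx2 hy2
          obtain ⟨a, rfl⟩ := hx2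
          obtain ⟨b, rfl⟩ := hy2
          simp only [map_add, LinearMap.add_apply, map_smul, LinearMap.smul_apply, smul_eq_mul]
          rw [hL x1 hx1 y1 hy1, hv x1 hx1, hv' y1 hy1, hA₁ v]
          simp
  obtain ⟨L, hLk, hL⟩ := hstep k le_rfl
  exact ⟨L, le_antisymm (hbound L hL) hLk, hL⟩

/-- If B₁, B₂ are non-degenerate alternating forms on U (dim 2k) and W (dim 2l), then B₁ ⊗ B₂ on U ⊗ W is symmetric, non-degenerate, and vanishes identically on some subspace of dimension 2kl (half of dim U ⊗ W). -/
theorem result {F U W : Type*} [Field F] [Fintype F] [AddCommGroup U] [Module F U] [FiniteDimensional F U] [AddCommGroup W] [Module F W] [FiniteDimensional F W] (B₁ : LinearMap.BilinForm F U) (B₂ : LinearMap.BilinForm F W) (h₁ : B₁.Nondegenerate) (h₂ : B₂.Nondegenerate) (hA₁ : B₁.IsAlt) (hA₂ : B₂.IsAlt) (k l : ℕ) (hU : Module.finrank F U = 2 * k) (hW : Module.finrank F W = 2 * l) : (B₁.tmul B₂).IsSymm ∧ (B₁.tmul B₂).Nondegenerate ∧ (∃ X : Submodule F (TensorProduct F U W), Module.finrank F X = 2 * k * l ∧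 ∀ x ∈ X, ∀ y ∈ X, (B₁.tmul B₂) x y = 0) := by
  have hsymm : (B₁.tmul B₂).IsSymm := by
    rw [LinearMap.isSymm_def]
    intro x y
    exact tmul_symm B₁ B₂ hA₁ hA₂ x y
  refine ⟨hsymm, ?_, ?_⟩
  · refine (LinearMap.IsRefl.nondegenerate_iff_separatingLeft hsymm.isRefl).mpr ?_
    intro x hx
    exact tmul_sepLeft B₁ B₂ h₁ h₂ hA₁ hA₂ x hx
  · obtain ⟨L, hLk, hL⟩ := exists_isotropic B₁ h₁ hA₁ k hU
    have hinj : Function.Injective (L.subtype.rTensor W) :=
      Module.Flat.rTensor_preserves_injective_linearMap L.subtype L.subtype_injective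
    refine ⟨LinearMap.range (L.subtype.rTensor W), ?_, ?_⟩
    · rw [LinearMap.finrank_range_of_inj hinj, Module.finrank_tensorProduct, hLk, hW]
      ring
    · rintro x ⟨a, rfl⟩ y ⟨b, rfl⟩
      induction a using TensorProduct.induction_on with
      | zero => simp
      | tmul u w =>
        induction b using TensorProduct.induction_on with
        | zero => simp
        | tmul u' w' =>
          rw [LinearMap.rTensor_tmul, LinearMap.rTensor_tmul,
            LinearMap.BilinForm.tensorDistrib_tmul]
          have : B₁ (L.subtype u) (L.subtype u') = 0 := hL _ u.2 _ u'.2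
          rw [this, smul_zero]
        | add a b ha hb =>
          rw [map_add, map_add, ha, hb, add_zero]
      | add a b ha hb =>
        rw [map_add, map_add, LinearMap.add_apply, ha, hb, add_zero]

end Cfsg.Agent.S0833
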