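import Cfsg.Statements.S0834
import Mathlib
import Cfsg.Agent.Lib.Helper15.DiscType

set_option autoImplicit false
open Cfsg

namespace Cfsg.Agent.S0834

/-- Over a finite field with 2 ≠ 0: if B₁ on U (dim 2k, k ≥ 1) and B₂ on W (dim 2l, l ≥ 1) are non-degenerate symmetric forms admitting no totally isotropic subspaces of dimensions k, resp. l (minus type), then B₁ ⊗ B₂ admits a totally isotropic subspace of dimension 2kl (plus type). -/
theorem result {F U W : Type*} [Field F] [Fintype F] [AddCommGroup U] [Module F U] [FiniteDimensional F U] [AddCommGroup W] [Module F W] [FiniteDimensional F W] (h2 : (2 : F) ≠ 0) (B₁ : LinearMap.BilinForm F U) (B₂ : LinearMap.BilinForm F W) (h₁ : B₁.Nondegenerate) (h₂ : B₂.Nondegenerate) (hS₁ : B₁.IsSymm) (hS₂ : B₂.IsSymm) (k l : ℕ) (hk : 1 ≤ k) (hl : 1 ≤ l) (hU : Module.finrank F U = 2 * k) (hW : Module.finrank F W = 2 * l) (hm₁ : ¬ (∃ X : Submodule F (U), Module.finrank F X = k ∧ ∀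 x ∈ X, ∀ y ∈ X, (B₁) x y = 0)) (hm₂ : ¬ (∃ X : Submodule F (W), Module.finrank F X = l ∧ ∀ x ∈ X, ∀ y ∈ X, (B₂) x y = 0)) : (∃ X : Submodule F (TensorProduct F U W), Module.finrank F X = 2 * k * l ∧ ∀ x ∈ X, ∀ y ∈ X, (B₁.tmul B₂) x y = 0) := by
  classical
  obtain ⟨b₁⟩ : Nonempty (Module.Basis (Fin (2 * k)) F U) := ⟨Module.finBasisOfFinrankEq F U hU⟩
  obtain ⟨b₂⟩ : Nonempty (Module.Basis (Fin (2 * l)) F W) := ⟨Module.finBasisOfFinrankEq F W hW⟩
  have hd₁ := (LinearMap.BilinForm.nondegenerate_iff_det_ne_zero b₁).1 h₁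
  have hd₂ := (LinearMap.BilinForm.nondegenerate_iff_det_ne_zero b₂).1 h₂
  have hdet := Cfsg.Agent.Lib.Helper15.DiscType.det_tmul B₁ B₂ b₁ b₂
  rw [Fintype.card_fin, Fintype.card_fin] at hdet
  have hS := Cfsg.Agent.Lib.Helper15.DiscType.tmul_symm B₁ B₂ hS₁ hS₂
  have hnd : LinearMap.BilinForm.Nondegenerate (B₁.tmul B₂) := by
    apply (LinearMap.BilinForm.nondegenerate_iff_det_ne_zero (b₁.tensorProduct b₂)).2
    rw [hdet]
    exact mul_ne_zero (pow_ne_zero _ hd₁) (pow_ne_zero _ hd₂)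
  have hfr : Module.finrank F (TensorProduct F U W) = 2 * (2 * k * l) := by
    rw [Module.finrank_tensorProduct, hU, hW]; ring
  have hM : 1 ≤ 2 * k * l := by nlinarith
  have hsq : IsSquare ((-1 : F) ^ (2 * k * l) *
      (LinearMap.BilinForm.toMatrix (b₁.tensorProduct b₂) (B₁.tmul B₂)).det) := by
    rw [hdet]
    refine ⟨(LinearMap.BilinForm.toMatrix b₁ B₁).det ^ l *
      (LinearMap.BilinForm.toMatrix b₂ B₂).det ^ k, ?_⟩
    have : (-1 : F) ^ (2 * k * l) = 1 := by rw [mul_assoc, pow_mul]; simp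
    rw [this]; ring
  exact Cfsg.Agent.Lib.Helper15.DiscType.exists_ti_of_isSquare h2 (B₁.tmul B₂) hS hnd (2 * k * l)
    hM hfr (b₁.tensorProduct b₂) hsq

end Cfsg.Agent.S0834
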