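import Cfsg.Statements.S0835
import Mathlib
import Cfsg.Agent.Lib.Helper15.DiscType

set_option autoImplicit false
open Cfsg

namespace Cfsg.Agent.S0835

/-- Over a finite field with 2 ≠ 0: if B₁ on U (dim 2k, k ≥ 1) is non-degenerate symmetric of minus type (no totally isotropic k-subspace) and B₂ on W (dim 2l + 1) is non-degenerate symmetric, then B₁ ⊗ B₂ (dimension 2k(2l+1)) admits no totally isotropic subspace of dimension k(2l+1) (minus type). -/
theorem result {F U W : Type*} [Field F] [Fintype F] [AddCommGroup U] [Module F U] [FiniteDimensional F U] [AddCommGroup W] [Module F W] [FiniteDimensional F W] (h2 : (2 : F) ≠ 0) (B₁ : LinearMap.BilinForm F U) (B₂ : LinearMap.BilinForm F W) (h₁ : B₁.Nondegenerate) (h₂ : B₂.Nondegenerate) (hS₁ : B₁.IsSymm) (hS₂ : B₂.IsSymm) (k l : ℕ) (hk : 1 ≤ k) (hU : Module.finrank F U = 2 * k) (hW : Module.finrank F W = 2 * l + 1) (hm₁ : ¬ (∃ X : Submodule F (U), Module.finrank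 F X = k ∧ ∀ x ∈ X, ∀ y ∈ X, (B₁) x y = 0)) : ¬ (∃ X : Submodule F (TensorProduct F U W), Module.finrank F X = k * (2 * l + 1) ∧ ∀ x ∈ X, ∀ y ∈ X, (B₁.tmul B₂) x y = 0) := by
  classical
  rintro ⟨X, hX, hti⟩
  obtain ⟨b₁⟩ : Nonempty (Module.Basis (Fin (2 * k)) F U) := ⟨Module.finBasisOfFinrankEq F U hU⟩
  obtain ⟨b₂⟩ : Nonempty (Module.Basis (Fin (2 * l + 1)) F W) :=
    ⟨Module.finBasisOfFinrankEq F W hW⟩
  have hd₁ := (LinearMap.BilinForm.nondegenerate_iff_det_ne_zero b₁).1 h₁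
  have hd₂ := (LinearMap.BilinForm.nondegenerate_iff_det_ne_zero b₂).1 h₂
  have hdet := Cfsg.Agent.Lib.Helper15.DiscType.det_tmul B₁ B₂ b₁ b₂
  rw [Fintype.card_fin, Fintype.card_fin] at hdet
  have hS := Cfsg.Agent.Lib.Helper15.DiscType.tmul_symm B₁ B₂ hS₁ hS₂
  have hfr : Module.finrank F (TensorProduct F U W) = 2 * (k * (2 * l + 1)) := by
    rw [Module.finrank_tensorProduct, hU, hW]; ring
  have hsq := Cfsg.Agent.Lib.Helper15.DiscType.isSquare_of_ti (B₁.tmul B₂) hS (k * (2 * l + 1)) hfr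
    X hX hti (b₁.tensorProduct b₂)
  rw [hdet] at hsq
  have hrew : (-1 : F) ^ (k * (2 * l + 1)) * ((LinearMap.BilinForm.toMatrix b₁ B₁).det ^ (2 * l + 1) *
      (LinearMap.BilinForm.toMatrix b₂ B₂).det ^ (2 * k)) =
      (((-1 : F) ^ k * (LinearMap.BilinForm.toMatrix b₁ B₁).det) ^ l *
        (LinearMap.BilinForm.toMatrix b₂ B₂).det ^ k) ^ 2 *
        ((-1 : F) ^ k * (LinearMap.BilinForm.toMatrix b₁ B₁).det) := by
    rw [pow_mul]; ring
  have hne : ((-1 : F) ^ k * (LinearMap.BilinForm.toMatrix b₁ B₁).det) ^ l *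
        (LinearMap.BilinForm.toMatrix b₂ B₂).det ^ k ≠ 0 :=
    mul_ne_zero (pow_ne_zero _ (mul_ne_zero (pow_ne_zero _ (neg_ne_zero.2 one_ne_zero)) hd₁))
      (pow_ne_zero _ hd₂)
  rw [hrew, Cfsg.Agent.Lib.Helper15.Gram.isSquare_sq_mul _ _ hne] at hsq
  obtain ⟨X', hX', hti'⟩ := Cfsg.Agent.Lib.Helper15.DiscType.exists_ti_of_isSquare h2 B₁ hS₁ h₁ k hk
    hU b₁ hsq
  exact hm₁ ⟨X', hX', hti'⟩

end Cfsg.Agent.S0835
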