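import Mathlib
import Cfsg.Statements.S0836

set_option autoImplicit false
open Cfsg
open scoped commutatorElement

namespace Cfsg.Agent.S0836

theorem comm_of_mul {G : Type*} [Group G] (a b t : G) (h : a * b = t * b * a) :
    t ∈ commutatorSet G := by
  refine ⟨a, b, ?_⟩
  rw [commutatorElement_def, h]
  group

theorem case_three {F : Type*} [Field F] (n : ℕ) (hn : 3 ≤ n) (i j : Fin n) (hij : i ≠ j) (c : F)
    (t : Matrix.SpecialLinearGroup (Fin n) F)
    (ht : (t : Matrix (Fin n) (Fin n) F) = Matrix.transvection i j c) :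
    t ∈ commutatorSet (Matrix.SpecialLinearGroup (Fin n) F) := by
  have hcard : ({i, j} : Finset (Fin n)).card < (Finset.univ : Finset (Fin n)).card := by
    rw [Finset.card_univ, Fintype.card_fin]
    exact lt_of_le_of_lt Finset.card_le_two (by omega)
  obtain ⟨k, -, hk⟩ := Finset.exists_mem_notMem_of_card_lt_card hcard
  have hki : k ≠ i := by
    intro h; apply hk; simp [h]
  have hkj : k ≠ j := by
    intro h; apply hk; simp [h]
  let a : Matrix.SpecialLinearGroup (Fin n) F :=
    ⟨Matrix.transvection i k c, Matrix.det_transvection_of_ne i k hki.symm c⟩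
  let b : Matrix.SpecialLinearGroup (Fin n) F :=
    ⟨Matrix.transvection k j 1, Matrix.det_transvection_of_ne k j hkj 1⟩
  apply comm_of_mul a b t
  apply Subtype.ext
  change Matrix.transvection i k c * Matrix.transvection k j 1
    = (t : Matrix (Fin n) (Fin n) F) * Matrix.transvection k j 1 * Matrix.transvection i k c
  rw [ht]
  unfold Matrix.transvection
  simp only [mul_add, add_mul, mul_one, one_mul, Matrix.single_mul_single_same,
    Matrix.single_mul_single_of_ne _ i j k hkj.symm, Matrix.single_mul_single_of_ne _ i j i hij.symm,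
    Matrix.single_mul_single_of_ne _ k j i hij.symm, add_zero]
  abel

theorem case_two {F : Type*} [Field F] (x : F) (hx0 : x ≠ 0) (hx1 : x ^ 2 ≠ 1) (i j : Fin 2)
    (hij : i ≠ j) (c : F)
    (t : Matrix.SpecialLinearGroup (Fin 2) F)
    (ht : (t : Matrix (Fin 2) (Fin 2) F) = Matrix.transvection i j c) :
    t ∈ commutatorSet (Matrix.SpecialLinearGroup (Fin 2) F) := by
  have hx2 : x ^ 2 - 1 ≠ 0 := sub_ne_zero.mpr hx1
  let d : Fin 2 → F := fun l => if l = i then x else x⁻¹
  have hdet : (Matrix.diagonal d).det = 1 := by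
    rw [Matrix.det_diagonal, Fin.prod_univ_two]
    fin_cases i <;> fin_cases j <;> simp_all [d]
  let a : Matrix.SpecialLinearGroup (Fin 2) F := ⟨Matrix.diagonal d, hdet⟩
  let b : Matrix.SpecialLinearGroup (Fin 2) F :=
    ⟨Matrix.transvection i j (c / (x ^ 2 - 1)), Matrix.det_transvection_of_ne i j hij _⟩
  apply comm_of_mul a b t
  apply Subtype.ext
  change Matrix.diagonal d * Matrix.transvection i j (c / (x ^ 2 - 1))
    = (t : Matrix (Fin 2) (Fin 2) F) * Matrix.transvection i j (c / (x ^ 2 - 1)) * Matrix.diagonal d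
  rw [ht, Matrix.transvection_mul_transvection_same i j hij]
  unfold Matrix.transvection
  rw [mul_add, add_mul, mul_one, one_mul]
  congr 1
  ext r s
  rw [Matrix.diagonal_mul, Matrix.mul_diagonal]
  simp only [Matrix.single_apply]
  by_cases h1 : i = r
  · by_cases h2 : j = s
    · subst h1; subst h2
      have hji : j ≠ i := hij.symm
      simp only [d, if_true, and_self, if_neg hji]
      field_simp
      ring
    · simp [h1, h2]
  · simp [h1]

theorem result {F : Type*} [Field F] (n : ℕ) (hn : 3 ≤ n ∨ (n = 2 ∧ ∃ x : F, x ≠ 0 ∧ x ^ 2 ≠ 1)) (i j : Fin n) (hij : i ≠ j) (c : F) (t : Matrix.SpecialLinearGroup (Fin n) F) (ht : (t : Matrix (Fin n) (Fin n) F) = Matrix.transvection i j c) : t ∈ commutatorSet (Matrix.SpecialLinearGroup (Fin n) F) := by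
  rcases hn with hn | ⟨rfl, x, hx0, hx1⟩
  · exact case_three n hn i j hij c t ht
  · exact case_two x hx0 hx1 i j hij c t ht

end Cfsg.Agent.S0836
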