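import Cfsg.Statements.S0837
import Mathlib
import Cfsg.Agent.S5631
import Cfsg.Agent.S5645
import Cfsg.Agent.S5642
import Cfsg.Agent.Lib.Helper28.SLGen
import Cfsg.Agent.Lib.Helper28.Herm
import Cfsg.Agent.Lib.Helper13.HermSub
import Cfsg.Agent.Lib.Helper13.HermFrame

set_option autoImplicit false
open Cfsg

namespace Cfsg.Agent.S0837

open Matrix
open Cfsg.Agent.S5631 Cfsg.Agent.S5645 Cfsg.Agent.S5642 Cfsg.Agent.Lib.Helper28.SLGen
open Cfsg.Agent.Lib.Helper28.Herm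
open Cfsg.Agent.Lib.Helper13 Cfsg.Agent.Lib.Helper13.HermFrame

section frames

variable {ι : Type} [Fintype ι] [DecidableEq ι] {F : Type*} [Field F]
variable {σ : F →+* F} {f : (ι → F) → (ι → F) → F}

/-- two frames for an orthogonal decomposition `W ⊕ U` -/
structure Split (f : (ι → F) → (ι → F) → F) (W U : Submodule F (ι → F)) (k l : ℕ)
    (e : Fin k → ι → F) (e' : Fin l → ι → F) : Prop where
  FW : Frame f W k e
  FU : Frame f U l e'
  orth : ∀ w ∈ W, ∀ u ∈ U, f w u = 0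
  dec : ∀ x : ι → F, ∃ w ∈ W, ∃ u ∈ U, x = w + u

variable {W U : Submodule F (ι → F)} {k l : ℕ} {e : Fin k → ι → F} {e' : Fin l → ι → F}

theorem ana_U (hf : IsHerm σ f) (S : Split f W U k l e e') (u : ι → F) (hu : u ∈ U) :
    ana hf e u = 0 := by
  funext i
  exact hf.eq_zero_symm (S.orth (e i) (S.FW.mem i) u hu)

theorem ana_W (hf : IsHerm σ f) (S : Split f W U k l e e') (w : ι → F) (hw : w ∈ W) :
    ana hf e' w = 0 := by
  funext j
  exact S.orth w hw (e' j) (S.FU.mem j)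

theorem complete (hf : IsHerm σ f) (S : Split f W U k l e e') (x : ι → F) :
    x = syn e (ana hf e x) + syn e' (ana hf e' x) := by
  obtain ⟨w, hw, u, hu, rfl⟩ := S.dec x
  have h1 : ana hf e (w + u) = ana hf e w := by rw [map_add, ana_U hf S u hu, add_zero]
  have h2 : ana hf e' (w + u) = ana hf e' u := by rw [map_add, ana_W hf S w hw, zero_add]
  rw [h1, h2, syn_ana hf S.FW w hw, syn_ana hf S.FU u hu]

theorem split_form (hf : IsHerm σ f) (S : Split f W U k l e e') (q : ℕ)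
    (hσ : ∀ x, σ x = x ^ q) (a a' : Fin k → F) (b b' : Fin l → F) :
    f (syn e a + syn e' b) (syn e a' + syn e' b') =
      Cfsg.hermForm k F q a a' + Cfsg.hermForm l F q b b' := by
  rw [hf.add_left, hf.add_right, hf.add_right, S.orth _ (syn_mem S.FW a) _ (syn_mem S.FU b'),
    hf.eq_zero_symm (S.orth _ (syn_mem S.FW a') _ (syn_mem S.FU b)), syn_form hf S.FW q hσ,
    syn_form hf S.FU q hσ]
  ring

/-- the matrix of `g` on the span of a frame -/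
noncomputable def A₁ (hf : IsHerm σ f) {m : ℕ} (e : Fin m → ι → F) (g : Matrix ι ι F) :
    Matrix (Fin m) (Fin m) F :=
  LinearMap.toMatrix' ((ana hf e).comp ((Matrix.toLin' g).comp (syn e)))

theorem A₁_mulVec (hf : IsHerm σ f) {m : ℕ} (e : Fin m → ι → F) (g : Matrix ι ι F)
    (a : Fin m → F) : A₁ hf e g *ᵥ a = ana hf e (g *ᵥ syn e a) := by
  rw [A₁, LinearMap.toMatrix'_mulVec]
  rfl

/-- the matrix acting as `A` and `B` on the spans of two frames -/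
noncomputable def Lm (hf : IsHerm σ f) (e : Fin k → ι → F) (e' : Fin l → ι → F)
    (A : Matrix (Fin k) (Fin k) F) (B : Matrix (Fin l) (Fin l) F) : Matrix ι ι F :=
  LinearMap.toMatrix' ((syn e).comp ((Matrix.toLin' A).comp (ana hf e)) +
    (syn e').comp ((Matrix.toLin' B).comp (ana hf e')))

theorem Lm_mulVec (hf : IsHerm σ f) (e : Fin k → ι → F) (e' : Fin l → ι → F)
    (A : Matrix (Fin k) (Fin k) F) (B : Matrix (Fin l) (Fin l) F) (x : ι → F) :
    Lm hf e e' A B *ᵥ x = syn e (A *ᵥ ana hf e x) + syn e' (B *ᵥ ana hf e' x) := by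
  rw [Lm, LinearMap.toMatrix'_mulVec]
  rfl

theorem star (hf : IsHerm σ f) {M : Submodule F (ι → F)} {m : ℕ} {e : Fin m → ι → F}
    (Fr : Frame f M m e) (g : Matrix ι ι F) (hg : ∀ w ∈ M, g *ᵥ w ∈ M) (a : Fin m → F) :
    g *ᵥ syn e a = syn e (A₁ hf e g *ᵥ a) := by
  rw [A₁_mulVec, syn_ana hf Fr _ (hg _ (syn_mem Fr a))]

theorem A₁_mul (hf : IsHerm σ f) {M : Submodule F (ι → F)} {m : ℕ} {e : Fin m → ι → F}
    (Fr : Frame f M m e) (g h : Matrix ι ι F) (hh : ∀ w ∈ M, h *ᵥ w ∈ M) :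
    A₁ hf e (g * h) = A₁ hf e g * A₁ hf e h := by
  rw [Matrix.ext_iff_mulVec]
  intro a
  rw [A₁_mulVec, ← Matrix.mulVec_mulVec, star hf Fr h hh a, ← A₁_mulVec, Matrix.mulVec_mulVec]

theorem A₁_isom (hf : IsHerm σ f) {M : Submodule F (ι → F)} {m : ℕ} {e : Fin m → ι → F}
    (Fr : Frame f M m e) (q : ℕ) (hσ : ∀ x, σ x = x ^ q) (g : Matrix ι ι F)
    (hg : ∀ w ∈ M, g *ᵥ w ∈ M) (hgi : ∀ x y, f (g *ᵥ x) (g *ᵥ y) = f x y) (a b : Fin m → F) :
    Cfsg.hermForm m F q (A₁ hf e g *ᵥ a) (A₁ hf e g *ᵥ b) = Cfsg.hermForm m F q a b := by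
  rw [← syn_form hf Fr q hσ, ← star hf Fr g hg, ← star hf Fr g hg, hgi, syn_form hf Fr q hσ]

theorem Lm_isom (hf : IsHerm σ f) (S : Split f W U k l e e') (q : ℕ) (hσ : ∀ x, σ x = x ^ q)
    (A : Matrix (Fin k) (Fin k) F) (B : Matrix (Fin l) (Fin l) F)
    (hA : ∀ a b, Cfsg.hermForm k F q (A *ᵥ a) (A *ᵥ b) = Cfsg.hermForm k F q a b)
    (hB : ∀ a b, Cfsg.hermForm l F q (B *ᵥ a) (B *ᵥ b) = Cfsg.hermForm l F q a b)
    (x y : ι → F) : f (Lm hf e e' A B *ᵥ x) (Lm hf e e' A B *ᵥ y) = f x y := by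
  rw [Lm_mulVec, Lm_mulVec, split_form hf S q hσ, hA, hB, ← split_form hf S q hσ,
    ← complete hf S x, ← complete hf S y]

theorem Lm_W (hf : IsHerm σ f) (S : Split f W U k l e e')
    (A : Matrix (Fin k) (Fin k) F) (B : Matrix (Fin l) (Fin l) F) (w : ι → F) (hw : w ∈ W) :
    Lm hf e e' A B *ᵥ w ∈ W := by
  rw [Lm_mulVec, ana_W hf S w hw, Matrix.mulVec_zero, map_zero, add_zero]
  exact syn_mem S.FW _

theorem A₁_Lm (hf : IsHerm σ f) (S : Split f W U k l e e')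
    (A : Matrix (Fin k) (Fin k) F) (B : Matrix (Fin l) (Fin l) F) :
    A₁ hf e (Lm hf e e' A B) = A := by
  rw [Matrix.ext_iff_mulVec]
  intro a
  rw [A₁_mulVec, Lm_mulVec, ana_syn hf S.FW, ana_W hf S _ (syn_mem S.FW a), Matrix.mulVec_zero,
    map_zero, add_zero, ana_syn hf S.FW]

theorem A₂_Lm (hf : IsHerm σ f) (S : Split f W U k l e e')
    (A : Matrix (Fin k) (Fin k) F) (B : Matrix (Fin l) (Fin l) F) :
    A₁ hf e' (Lm hf e e' A B) = B := by
  rw [Matrix.ext_iff_mulVec]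
  intro b
  rw [A₁_mulVec, Lm_mulVec, ana_syn hf S.FU, ana_U hf S _ (syn_mem S.FU b), Matrix.mulVec_zero,
    map_zero, zero_add, ana_syn hf S.FU]

theorem Lm_A (hf : IsHerm σ f) (S : Split f W U k l e e') (g : Matrix ι ι F)
    (hgW : ∀ w ∈ W, g *ᵥ w ∈ W) (hgU : ∀ u ∈ U, g *ᵥ u ∈ U) :
    Lm hf e e' (A₁ hf e g) (A₁ hf e' g) = g := by
  rw [Matrix.ext_iff_mulVec]
  intro x
  rw [Lm_mulVec, ← star hf S.FW g hgW, ← star hf S.FU g hgU, ← Matrix.mulVec_add,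
    ← complete hf S x]

end frames


/-- If W ≤ F^n (|F| = q²) is a k-dimensional subspace on which the Hermitian form Σ x_i y_i^q is non-degenerate, then the stabiliser of W in GU_n(q) is isomorphic to GU_k(q) × GU_(n−k)(q). -/
theorem result {F : Type*} [Field F] [Fintype F] {q : ℕ} (hF : Fintype.card F = q ^ 2) (n k : ℕ) (hk : k ≤ n) (W : Submodule F (Fin n → F)) (hWk : Module.finrank F W = k) (hW : ∀ u ∈ W, (∀ v ∈ W, Cfsg.hermForm n F q u v = 0) → u = 0) : Nonempty (↥((Cfsg.stabilizing (Cfsg.glToMat (Fin n) F) (W : Set (Fin n → F))).subgroupOf (Cfsg.GU n F q)) ≃* ↥(Cfsg.GU k F q) × ↥(Cfsg.GU (n - k) F q)) := by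
  have hf := hermForm_isHerm hF n
  have hfk := hermForm_isHerm hF k
  have hfl := hermForm_isHerm hF (n - k)
  have hσ : ∀ x, sigq hF x = x ^ q := fun x => rfl
  have hWnd : HermSub.NDeg (Cfsg.hermForm n F q) W := by
    intro u hu h
    exact hW u hu (fun v hv => hf.eq_zero_symm (h v hv))
  have hUnd := HermSub.perp_ndeg hf hWnd
  have hfr := HermSub.perp_finrank hf hWnd
  rw [Fintype.card_fin, hWk] at hfr
  have hUfr : Module.finrank F (HermSub.perp hf W) = n - k := by omega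
  obtain ⟨e, heM, heo⟩ := onb_exists hf k W hWnd hWk
  obtain ⟨e', he'M, he'o⟩ := onb_exists hf (n - k) _ hUnd hUfr
  have S : Split (Cfsg.hermForm n F q) W (HermSub.perp hf W) k (n - k) e e' :=
    ⟨⟨heM, heo, hWk⟩, ⟨he'M, he'o, hUfr⟩, fun w hw u hu => hu w hw, fun x => by
      obtain ⟨w, hw, hxw⟩ := HermSub.decomp hf hWnd x
      exact ⟨w, hw, x - w, hxw, by abel⟩⟩
  have hst : ∀ s : ↥((Cfsg.stabilizing (Cfsg.glToMat (Fin n) F)
      (W : Set (Fin n → F))).subgroupOf (Cfsg.GU n F q)),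
      (∀ x y, Cfsg.hermForm n F q
        ((((s : ↥(Cfsg.GU n F q)) : GL (Fin n) F) : Matrix (Fin n) (Fin n) F) *ᵥ x)
        ((((s : ↥(Cfsg.GU n F q)) : GL (Fin n) F) : Matrix (Fin n) (Fin n) F) *ᵥ y) =
          Cfsg.hermForm n F q x y) ∧
      (∀ w ∈ W, (((s : ↥(Cfsg.GU n F q)) : GL (Fin n) F) : Matrix (Fin n) (Fin n) F) *ᵥ w ∈ W) ∧
      (∀ u ∈ HermSub.perp hf W,
        (((s : ↥(Cfsg.GU n F q)) : GL (Fin n) F) : Matrix (Fin n) (Fin n) F) *ᵥ u ∈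
          HermSub.perp hf W) := by
    intro s
    have h1 : ∀ x y, Cfsg.hermForm n F q
        ((((s : ↥(Cfsg.GU n F q)) : GL (Fin n) F) : Matrix (Fin n) (Fin n) F) *ᵥ x)
        ((((s : ↥(Cfsg.GU n F q)) : GL (Fin n) F) : Matrix (Fin n) (Fin n) F) *ᵥ y) =
          Cfsg.hermForm n F q x y := (s : ↥(Cfsg.GU n F q)).2
    have h2 : ∀ v, v ∈ W ↔
        (((s : ↥(Cfsg.GU n F q)) : GL (Fin n) F) : Matrix (Fin n) (Fin n) F) *ᵥ v ∈ W :=
      Subgroup.mem_subgroupOf.mp s.2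
    refine ⟨h1, fun w hw => (h2 w).mp hw, fun u hu w hw => ?_⟩
    have hw' : ((((s : ↥(Cfsg.GU n F q)) : GL (Fin n) F)⁻¹ : GL (Fin n) F) :
        Matrix (Fin n) (Fin n) F) *ᵥ w ∈ W := by
      rw [h2, gl_mulVec_inv]
      exact hw
    have h3 := h1 (((((s : ↥(Cfsg.GU n F q)) : GL (Fin n) F)⁻¹ : GL (Fin n) F) :
        Matrix (Fin n) (Fin n) F) *ᵥ w) u
    rw [gl_mulVec_inv] at h3
    rw [h3]
    exact hu _ hw'
  have hi1 : ∀ s : ↥((Cfsg.stabilizing (Cfsg.glToMat (Fin n) F)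
      (W : Set (Fin n → F))).subgroupOf (Cfsg.GU n F q)), ∀ a b,
      Cfsg.hermForm k F q
        (A₁ hf e (((s : ↥(Cfsg.GU n F q)) : GL (Fin n) F) : Matrix (Fin n) (Fin n) F) *ᵥ a)
        (A₁ hf e (((s : ↥(Cfsg.GU n F q)) : GL (Fin n) F) : Matrix (Fin n) (Fin n) F) *ᵥ b) =
          Cfsg.hermForm k F q a b :=
    fun s => A₁_isom hf S.FW q hσ _ (hst s).2.1 (hst s).1
  have hi2 : ∀ s : ↥((Cfsg.stabilizing (Cfsg.glToMat (Fin n) F)
      (W : Set (Fin n → F))).subgroupOf (Cfsg.GU n F q)), ∀ a b,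
      Cfsg.hermForm (n - k) F q
        (A₁ hf e' (((s : ↥(Cfsg.GU n F q)) : GL (Fin n) F) : Matrix (Fin n) (Fin n) F) *ᵥ a)
        (A₁ hf e' (((s : ↥(Cfsg.GU n F q)) : GL (Fin n) F) : Matrix (Fin n) (Fin n) F) *ᵥ b) =
          Cfsg.hermForm (n - k) F q a b :=
    fun s => A₁_isom hf S.FU q hσ _ (hst s).2.2 (hst s).1
  let φ : ↥((Cfsg.stabilizing (Cfsg.glToMat (Fin n) F)
      (W : Set (Fin n → F))).subgroupOf (Cfsg.GU n F q)) →*
      ↥(Cfsg.GU k F q) × ↥(Cfsg.GU (n - k) F q) := MonoidHom.mk'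
    (fun s =>
      (⟨Matrix.GeneralLinearGroup.mkOfDetNeZero _ (det_ne_zero_of_isom hfk _ (hi1 s)), hi1 s⟩,
       ⟨Matrix.GeneralLinearGroup.mkOfDetNeZero _ (det_ne_zero_of_isom hfl _ (hi2 s)), hi2 s⟩))
    (by
      intro s t
      apply Prod.ext
      · apply Subtype.ext
        apply Units.ext
        exact A₁_mul hf S.FW _ _ (hst t).2.1
      · apply Subtype.ext
        apply Units.ext
        exact A₁_mul hf S.FU _ _ (hst t).2.2)
  refine ⟨MulEquiv.ofBijective φ ⟨?_, ?_⟩⟩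
  · intro s t hst'
    have h1 : A₁ hf e (((s : ↥(Cfsg.GU n F q)) : GL (Fin n) F) : Matrix (Fin n) (Fin n) F) =
        A₁ hf e (((t : ↥(Cfsg.GU n F q)) : GL (Fin n) F) : Matrix (Fin n) (Fin n) F) :=
      congrArg (fun p : ↥(Cfsg.GU k F q) × ↥(Cfsg.GU (n - k) F q) =>
        ((p.1 : GL (Fin k) F) : Matrix (Fin k) (Fin k) F)) hst'
    have h2 : A₁ hf e' (((s : ↥(Cfsg.GU n F q)) : GL (Fin n) F) : Matrix (Fin n) (Fin n) F) =
        A₁ hf e' (((t : ↥(Cfsg.GU n F q)) : GL (Fin n) F) : Matrix (Fin n) (Fin n) F) :=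
      congrArg (fun p : ↥(Cfsg.GU k F q) × ↥(Cfsg.GU (n - k) F q) =>
        ((p.2 : GL (Fin (n - k)) F) : Matrix (Fin (n - k)) (Fin (n - k)) F)) hst'
    apply Subtype.ext
    apply Subtype.ext
    apply Units.ext
    rw [← Lm_A hf S _ (hst s).2.1 (hst s).2.2, ← Lm_A hf S _ (hst t).2.1 (hst t).2.2, h1, h2]
  · rintro ⟨⟨A, hA⟩, ⟨B, hB⟩⟩
    have hLi := Lm_isom hf S q hσ (A : Matrix (Fin k) (Fin k) F)
      (B : Matrix (Fin (n - k)) (Fin (n - k)) F) hA hB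
    have hdet := det_ne_zero_of_isom hf _ hLi
    have hgW : Matrix.GeneralLinearGroup.mkOfDetNeZero _ hdet ∈
        Cfsg.stabilizing (Cfsg.glToMat (Fin n) F) (W : Set (Fin n → F)) :=
      stab_of_map_le W _ (by
        rintro _ ⟨v, hv, rfl⟩
        exact Lm_W hf S _ _ v hv)
    refine ⟨⟨⟨Matrix.GeneralLinearGroup.mkOfDetNeZero _ hdet, hLi⟩,
      Subgroup.mem_subgroupOf.mpr hgW⟩, ?_⟩
    apply Prod.ext
    · apply Subtype.ext
      apply Units.ext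
      exact A₁_Lm hf S _ _
    · apply Subtype.ext
      apply Units.ext
      exact A₂_Lm hf S _ _

end Cfsg.Agent.S0837
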