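import Cfsg.Statements.S0838
import Cfsg.Agent.S2623

set_option autoImplicit false
open Cfsg

namespace Cfsg.Agent.S0838

theorem gram_det_ne_zero {F : Type*} [Field F] {n : ℕ} (Q : QuadraticForm F (Fin n → F))
    (h : (QuadraticMap.polarBilin Q).Nondegenerate) :
    (Matrix.of (fun i j : Fin n => QuadraticMap.polar ⇑Q (Pi.single i 1) (Pi.single j 1))).det
      ≠ 0 := by
  classical
  rw [Cfsg.Agent.S2623.gram_eq]
  rw [← Matrix.nondegenerate_iff_det_ne_zero]
  exact LinearMap.BilinForm.nondegenerate_toMatrix'_iff.2 h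

theorem gram_smul {F : Type*} [Field F] {n : ℕ} (Q : QuadraticForm F (Fin n → F)) (c : F) :
    Matrix.of (fun i j : Fin n =>
        QuadraticMap.polar ⇑(c • Q) (Pi.single i 1) (Pi.single j 1))
      = c • Matrix.of (fun i j : Fin n =>
        QuadraticMap.polar ⇑Q (Pi.single i 1) (Pi.single j 1)) := by
  ext i j
  simp only [Matrix.of_apply, Matrix.smul_apply, QuadraticMap.polar, QuadraticMap.smul_apply,
    smul_eq_mul]
  ring

theorem nondeg_smul {F : Type*} [Field F] {n : ℕ} (Q : QuadraticForm F (Fin n → F)) (c : F)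
    (hc : c ≠ 0) (h : (QuadraticMap.polarBilin Q).Nondegenerate) :
    (QuadraticMap.polarBilin (c • Q)).Nondegenerate := by
  have e : ∀ x y, QuadraticMap.polarBilin (c • Q) x y = c * QuadraticMap.polarBilin Q x y := by
    intro x y
    simp only [QuadraticMap.polarBilin_apply_apply, QuadraticMap.polar, QuadraticMap.smul_apply,
      smul_eq_mul]
    ring
  constructor
  · intro x hx
    apply h.1 x
    intro y
    have := hx y
    rw [e] at this
    exact (mul_eq_zero.1 this).resolve_left hc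
  · intro y hy
    apply h.2 y
    intro x
    have := hy x
    rw [e] at this
    exact (mul_eq_zero.1 this).resolve_left hc


/-- Over a finite field with 2 ≠ 0 and n odd: two quadratic forms Q₁, Q₂ on F^n with non-degenerate polar forms are similar — there are an invertible linear map g and a scalar c ≠ 0 with Q₂ (g v) = c · Q₁ v for all v. -/
theorem result {F : Type*} [Field F] [Fintype F] (h2 : (2 : F) ≠ 0) {n : ℕ} (hn : Odd n) (Q₁ Q₂ : QuadraticForm F (Fin n → F)) (h₁ : (QuadraticMap.polarBilin Q₁).Nondegenerate) (h₂ : (QuadraticMap.polarBilin Q₂).Nondegenerate) : ∃ (g : (Fin n → F) ≃ₗ[F] (Fin n → F)) (c : F), c ≠ 0 ∧ ∀ v, Q₂ (g v) = c * Q₁ v := by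
  classical
  have hd₁ := gram_det_ne_zero Q₁ h₁
  have hd₂ := gram_det_ne_zero Q₂ h₂
  obtain ⟨c, hcdef⟩ : ∃ c : F, c = (Matrix.of (fun i j : Fin n =>
      QuadraticMap.polar ⇑Q₁ (Pi.single i 1) (Pi.single j 1))).det * (Matrix.of (fun i j : Fin n =>
      QuadraticMap.polar ⇑Q₂ (Pi.single i 1) (Pi.single j 1))).det := ⟨_, rfl⟩
  have hc : c ≠ 0 := by rw [hcdef]; exact mul_ne_zero hd₁ hd₂
  have key := (Cfsg.Agent.S2623.result h2 (c • Q₁) Q₂ (nondeg_smul Q₁ c hc h₁) h₂).2 (by
    rw [gram_smul, Matrix.det_smul, Fintype.card_fin, mul_assoc, ← hcdef]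
    obtain ⟨k, hk⟩ := hn
    refine ⟨c ^ (k + 1), ?_⟩
    rw [hk]
    ring)
  obtain ⟨g, hg⟩ := key
  exact ⟨g, c, hc, fun v => by rw [hg]; rfl⟩

end Cfsg.Agent.S0838
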