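import Cfsg.Statements.S0843
import Mathlib
import Cfsg.Agent.Lib.Helper13.GenQuat

set_option autoImplicit false
open Cfsg

namespace Cfsg.Agent.S0843
open scoped Pointwise
open Cfsg.Agent.Lib.Helper13.GenQuat

theorem comm_sup {G : Type*} [Group G] {A B : Subgroup G}
    (hA : ∀ x ∈ A, ∀ y ∈ A, x * y = y * x) (hB : ∀ x ∈ B, ∀ y ∈ B, x * y = y * x)
    (hAB : ∀ x ∈ A, ∀ y ∈ B, x * y = y * x) :
    ∀ x ∈ A ⊔ B, ∀ y ∈ A ⊔ B, x * y = y * x := by
  have h1 : ∀ x ∈ A, ∀ y ∈ A ⊔ B, x * y = y * x := by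
    intro x hx y hy
    have hle : A ⊔ B ≤ Subgroup.centralizer ({x} : Set G) := by
      apply sup_le
      · intro z hz
        rw [Subgroup.mem_centralizer_iff]
        intro w hw
        rw [Set.mem_singleton_iff] at hw
        rw [hw]; exact hA x hx z hz
      · intro z hz
        rw [Subgroup.mem_centralizer_iff]
        intro w hw
        rw [Set.mem_singleton_iff] at hw
        rw [hw]; exact hAB x hx z hz
    have := Subgroup.mem_centralizer_iff.mp (hle hy) x rfl
    exact this
  have h2 : ∀ x ∈ B, ∀ y ∈ A ⊔ B, x * y = y * x := by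
    intro x hx y hy
    have hle : A ⊔ B ≤ Subgroup.centralizer ({x} : Set G) := by
      apply sup_le
      · intro z hz
        rw [Subgroup.mem_centralizer_iff]
        intro w hw
        rw [Set.mem_singleton_iff] at hw
        rw [hw]; exact (hAB z hz x hx).symm
      · intro z hz
        rw [Subgroup.mem_centralizer_iff]
        intro w hw
        rw [Set.mem_singleton_iff] at hw
        rw [hw]; exact hB x hx z hz
    have := Subgroup.mem_centralizer_iff.mp (hle hy) x rfl
    exact this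
  intro x hx y hy
  have hle : A ⊔ B ≤ Subgroup.centralizer ({y} : Set G) := by
    apply sup_le
    · intro z hz
      rw [Subgroup.mem_centralizer_iff]
      intro w hw
      rw [Set.mem_singleton_iff] at hw
      rw [hw]; exact (h1 z hz y hy).symm
    · intro z hz
      rw [Subgroup.mem_centralizer_iff]
      intro w hw
      rw [Set.mem_singleton_iff] at hw
      rw [hw]; exact (h2 z hz y hy).symm
  have := Subgroup.mem_centralizer_iff.mp (hle hx) y rfl
  exact this.symm

/-- Every 2-subgroup lies in a subgroup isomorphic to the generalized quaternion group. -/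
theorem exists_quat_le {G : Type*} [Group G] [Finite G] (S : Sylow 2 G) (m : ℕ)
    (e : (S : Subgroup G) ≃* QuaternionGroup m) (R : Subgroup G) (hR : IsPGroup 2 R) :
    ∃ T : Subgroup G, R ≤ T ∧ Nonempty (T ≃* QuaternionGroup m) := by
  obtain ⟨P, hP⟩ := hR.exists_le_sylow
  obtain ⟨g, hg⟩ := MulAction.exists_smul_eq G S P
  refine ⟨(P : Subgroup G), hP, ?_⟩
  rw [← hg]
  exact ⟨(Sylow.equivSMul S g).symm.trans e⟩

theorem setup {G : Type*} [Group G] [Finite G] (S : Sylow 2 G) (n : ℕ)
    (e : (S : Subgroup G) ≃* QuaternionGroup (2 ^ (n + 2))) (D : Subgroup G)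
    (hD : D = ⁅(S : Subgroup G), (S : Subgroup G)⁆) :
    ∃ α : G, α ∈ S ∧ orderOf α = 2 * 2 ^ (n + 2) ∧ D = Subgroup.zpowers (α ^ 2) ∧
      Nat.card D = 2 ^ (n + 2) ∧ Nat.card (S : Subgroup G) = 4 * 2 ^ (n + 2) ∧
      (∀ x ∈ S, x * α ^ 2 = α ^ 2 * x → x ∈ Subgroup.zpowers α) := by
  have hm3 : 3 ≤ 2 ^ (n + 2) := by
    have : 2 ^ 2 ≤ 2 ^ (n + 2) := Nat.pow_le_pow_right (by norm_num) (by omega)
    omega
  obtain ⟨hcard, -, h2, α, hα, hord, hcomm⟩ := struct (S : Subgroup G) (2 ^ (n + 2)) hm3 e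
  refine ⟨α, hα, hord, by rw [hD, hcomm], ?_, hcard, fun x hx hc => h2 α hα hord x hx hc⟩
  rw [hD, hcomm, Nat.card_zpowers, orderOf_pow, hord]
  have : Nat.gcd (2 * 2 ^ (n + 2)) 2 = 2 := Nat.gcd_eq_right (Dvd.intro _ rfl)
  rw [this]
  omega

theorem part1 {G : Type*} [Group G] [Finite G] (S : Sylow 2 G) (n : ℕ)
    (e : (S : Subgroup G) ≃* QuaternionGroup (2 ^ (n + 2))) (D : Subgroup G)
    (hD : D = ⁅(S : Subgroup G), (S : Subgroup G)⁆) (y : G)
    (hy : y ∈ Subgroup.centralizer (D : Set G)) (hdvd : Nat.card D ∣ orderOf y) :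
    D ≤ Subgroup.zpowers y := by
  have hm3 : 3 ≤ 2 ^ (n + 2) := by
    have : 2 ^ 2 ≤ 2 ^ (n + 2) := Nat.pow_le_pow_right (by norm_num) (by omega)
    omega
  obtain ⟨α, hα, hord, hDz, hDcard, -, -⟩ := setup S n e D hD
  rw [hDcard] at hdvd
  obtain ⟨c, hc⟩ := hdvd
  have hy0 : 0 < orderOf y := orderOf_pos y
  have hc0 : c ≠ 0 := by
    rintro rfl
    rw [mul_zero] at hc
    omega
  have hy2 : orderOf (y ^ c) = 2 ^ (n + 2) := by
    rw [orderOf_pow_of_dvd hc0 (Dvd.intro_left _ hc.symm), hc]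
    exact Nat.mul_div_cancel _ (Nat.pos_of_ne_zero hc0)
  have hy2C : y ^ c ∈ Subgroup.centralizer (D : Set G) := Subgroup.pow_mem _ hy _
  have hP1 : IsPGroup 2 (Subgroup.zpowers (y ^ c)) :=
    IsPGroup.of_card (n := n + 2) (by rw [Nat.card_zpowers, hy2])
  have hP2 : IsPGroup 2 D := IsPGroup.of_card hDcard
  have hnorm : Subgroup.zpowers (y ^ c) ≤ Subgroup.normalizer (D : Set G) := by
    rw [Subgroup.zpowers_le]
    exact Subgroup.centralizer_le_normalizer _ hy2C
  have hPR : IsPGroup 2 (Subgroup.zpowers (y ^ c) ⊔ D : Subgroup G) :=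
    IsPGroup.to_sup_of_normal_right' hP1 hP2 hnorm
  have hcommR : ∀ x ∈ Subgroup.zpowers (y ^ c) ⊔ D, ∀ z ∈ Subgroup.zpowers (y ^ c) ⊔ D,
      x * z = z * x := by
    apply comm_sup
    · intro x hx z hz
      obtain ⟨i, rfl⟩ := Subgroup.mem_zpowers_iff.mp hx
      obtain ⟨j, rfl⟩ := Subgroup.mem_zpowers_iff.mp hz
      rw [← zpow_add, ← zpow_add, add_comm]
    · intro x hx z hz
      rw [hDz] at hx hz
      obtain ⟨i, rfl⟩ := Subgroup.mem_zpowers_iff.mp hx
      obtain ⟨j, rfl⟩ := Subgroup.mem_zpowers_iff.mp hz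
      rw [← zpow_add, ← zpow_add, add_comm]
    · intro x hx z hz
      obtain ⟨i, rfl⟩ := Subgroup.mem_zpowers_iff.mp hx
      have hx' : (y ^ c) ^ i ∈ Subgroup.centralizer (D : Set G) := Subgroup.zpow_mem _ hy2C _
      exact (Subgroup.mem_centralizer_iff.mp hx' z hz).symm
  obtain ⟨T, hRT, ⟨e'⟩⟩ := exists_quat_le S _ e _ hPR
  obtain ⟨-, h1, -, -⟩ := struct T (2 ^ (n + 2)) hm3 e'
  have hcyc := h1 _ hRT hcommR
  have heq : D = Subgroup.zpowers (y ^ c) :=
    eq_of_card_eq_of_le_cyclic (Subgroup.zpowers (y ^ c) ⊔ D) D (Subgroup.zpowers (y ^ c)) hcyc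
      le_sup_right le_sup_left (by rw [hDcard, Nat.card_zpowers, hy2])
  rw [heq, Subgroup.zpowers_le]
  exact Subgroup.pow_mem _ (Subgroup.mem_zpowers y) _

theorem part3 {G : Type*} [Group G] (D : Subgroup G) (g y : G)
    (hg : g ∈ Subgroup.normalizer (D : Set G)) (hy : y ∈ Subgroup.centralizer (D : Set G)) :
    g * y * g⁻¹ ∈ Subgroup.centralizer (D : Set G) := by
  rw [Subgroup.mem_centralizer_iff]
  intro d hd
  have hd' : g⁻¹ * d * g ∈ D := (Subgroup.mem_normalizer_iff''.mp hg d).mp hd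
  have := Subgroup.mem_centralizer_iff.mp hy _ hd'
  calc d * (g * y * g⁻¹) = g * ((g⁻¹ * d * g) * y) * g⁻¹ := by group
    _ = g * (y * (g⁻¹ * d * g)) * g⁻¹ := by rw [this]
    _ = g * y * g⁻¹ * d := by group

theorem orderOf_conj' {G : Type*} [Group G] (g y : G) : orderOf (g * y * g⁻¹) = orderOf y := by
  have := orderOf_injective (MulAut.conj g).toMonoidHom (MulAut.conj g).injective y
  simpa using this

/-- Suppose a Sylow 2-subgroup S of the finite group G is generalized quaternion of order at least 16; let D be the commutator subgroup of S and X the set of elements of the centralizer of D whose order is divisible by the order of D. Then D is contained in the cyclic subgroup generated by any element of X; an element of G conjugating some element of X into the centralizer of D normalizes D; and the normalizer of D maps X to itself under conjugation. -/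
theorem result {G : Type*} [Group G] [Finite G] (S : Sylow 2 G) (n : ℕ) (e : (S : Subgroup G) ≃* QuaternionGroup (2 ^ (n + 2))) (D : Subgroup G) (hD : D = ⁅(S : Subgroup G), (S : Subgroup G)⁆) : (∀ y : G, y ∈ Subgroup.centralizer (D : Set G) → Nat.card D ∣ orderOf y → D ≤ Subgroup.zpowers y) ∧ (∀ g y : G, y ∈ Subgroup.centralizer (D : Set G) → Nat.card D ∣ orderOf y → g * y * g⁻¹ ∈ Subgroup.centralizer (D : Set G) → g ∈ Subgroup.normalizer (D : Set G)) ∧ (∀ g y : G, g ∈ Subgroup.normalizer (D : Set G) → y ∈ Subgroup.centralizer (D : Set G) → Nat.card D ∣ orderOf y → g * y * g⁻¹ ∈ Subgroup.centralizer (D : Set G) ∧ Nat.card D ∣ orderOf (g * y * g⁻¹)) := by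
  refine ⟨fun y hy hdvd => part1 S n e D hD y hy hdvd, ?_, ?_⟩
  · intro g y hy hdvd hgy
    have h1 : D ≤ Subgroup.zpowers y := part1 S n e D hD y hy hdvd
    have h2 : D ≤ Subgroup.zpowers (g * y * g⁻¹) :=
      part1 S n e D hD _ hgy (by rw [orderOf_conj']; exact hdvd)
    have h3 : MulAut.conj g • D ≤ Subgroup.zpowers (g * y * g⁻¹) := by
      have : Subgroup.zpowers (g * y * g⁻¹) = MulAut.conj g • Subgroup.zpowers y := by
        rw [Subgroup.zpowers_eq_closure, Subgroup.zpowers_eq_closure, Subgroup.smul_closure,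
          Set.smul_set_singleton, MulAut.smul_def, MulAut.conj_apply]
      rw [this]
      exact Subgroup.pointwise_smul_le_pointwise_smul_iff.mpr h1
    have hcard : Nat.card (MulAut.conj g • D : Subgroup G) = Nat.card D :=
      (Nat.card_congr (Subgroup.equivSMul (MulAut.conj g) D).toEquiv).symm
    have heq : MulAut.conj g • D = D :=
      eq_of_card_eq_of_le_cyclic (Subgroup.zpowers (g * y * g⁻¹)) _ _ inferInstance h3 h2 hcard
    rw [Subgroup.mem_normalizer_iff]
    intro h
    constructor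
    · intro hh
      rw [← heq]
      exact ⟨h, hh, by simp [MulAut.conj_apply]⟩
    · intro hh
      rw [← heq] at hh
      obtain ⟨h', hh', hx⟩ := hh
      have : h' = h := by
        have hx' : g * h' * g⁻¹ = g * h * g⁻¹ := by simpa [MulAut.conj_apply] using hx
        have := mul_left_cancel (mul_right_cancel hx')
        exact this
      rw [← this]; exact hh'
  · intro g y hg hy hdvd
    exact ⟨part3 D g y hg hy, by rw [orderOf_conj']; exact hdvd⟩

end Cfsg.Agent.S0843
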