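import Cfsg.Statements.S0842
import Mathlib
import Cfsg.Agent.S0843
import Cfsg.Agent.Lib.Helper13.GenQuat

set_option autoImplicit false
open Cfsg

namespace Cfsg.Agent.S0842
open scoped Pointwise
open Cfsg.Agent.Lib.Helper13.GenQuat

theorem mem_normalizer_of_smul_eq {G : Type*} [Group G] (D : Subgroup G) (g : G)
    (heq : MulAut.conj g • D = D) : g ∈ Subgroup.normalizer (D : Set G) := by
  rw [Subgroup.mem_normalizer_iff]
  intro h
  constructor
  · intro hh
    rw [← heq]
    exact ⟨h, hh, by simp [MulAut.conj_apply]⟩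
  · intro hh
    rw [← heq] at hh
    obtain ⟨h', hh', hx⟩ := hh
    have : h' = h := by
      have hx' : g * h' * g⁻¹ = g * h * g⁻¹ := by simpa [MulAut.conj_apply] using hx
      have := mul_left_cancel (mul_right_cancel hx')
      exact this
    rw [← this]; exact hh'

/-- Suppose a Sylow 2-subgroup S of the finite group G is generalized quaternion of order at least 16, and let D be the commutator subgroup of S, C its centralizer and N its normalizer in G. Then there is a subgroup K of odd order, contained in C and normalized by N, with K ⊔ S = N and K ⊔ (S ⊓ C) = C, and C has index 2 in N. -/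
theorem result {G : Type*} [Group G] [Finite G] (S : Sylow 2 G) (n : ℕ) (e : (S : Subgroup G) ≃* QuaternionGroup (2 ^ (n + 2))) (D : Subgroup G) (hD : D = ⁅(S : Subgroup G), (S : Subgroup G)⁆) : ∃ K : Subgroup G, Odd (Nat.card K) ∧ K ≤ Subgroup.centralizer (D : Set G) ∧ Subgroup.normalizer (D : Set G) ≤ Subgroup.normalizer (K : Set G) ∧ K ⊔ (S : Subgroup G) = Subgroup.normalizer (D : Set G) ∧ K ⊔ ((S : Subgroup G) ⊓ Subgroup.centralizer (D : Set G)) = Subgroup.centralizer (D : Set G) ∧ ((Subgroup.centralizer (D : Set G)).subgroupOf (Subgroup.normalizer (D : Set G))).index = 2 := by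
  classical
  have hm3 : 3 ≤ 2 ^ (n + 2) := by
    have : 2 ^ 2 ≤ 2 ^ (n + 2) := Nat.pow_le_pow_right (by norm_num) (by omega)
    omega
  obtain ⟨α, hα, hord, hDz, hDcard, hScard, hcent⟩ := Cfsg.Agent.S0843.setup S n e D hD
  set C := Subgroup.centralizer (D : Set G) with hC
  set N := Subgroup.normalizer (D : Set G) with hN
  have hCN : C ≤ N := Subgroup.centralizer_le_normalizer _
  have hαC : α ∈ C := by
    rw [hC, Subgroup.mem_centralizer_iff]
    intro d hd
    rw [SetLike.mem_coe, hDz] at hd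
    obtain ⟨i, rfl⟩ := Subgroup.mem_zpowers_iff.mp hd
    exact (Commute.zpow_left (Commute.pow_left (Commute.refl α) 2) i).eq
  have hα2D : α ^ 2 ∈ (D : Set G) := by
    rw [SetLike.mem_coe, hDz]; exact Subgroup.mem_zpowers _
  have hzC : Subgroup.zpowers α ≤ C := by
    rw [Subgroup.zpowers_le]; exact hαC
  have hA₀ : (S : Subgroup G) ⊓ C = Subgroup.zpowers α := by
    apply le_antisymm
    · rintro x ⟨hxS, hxC⟩
      exact hcent x hxS (Subgroup.mem_centralizer_iff.mp hxC _ hα2D).symm
    · rw [Subgroup.zpowers_le]; exact ⟨hα, hαC⟩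
  have hA₁card : Nat.card ((Subgroup.zpowers α).subgroupOf C) = 2 * 2 ^ (n + 2) := by
    rw [Nat.card_congr (Subgroup.subgroupOfEquivOfLe hzC).toEquiv, Nat.card_zpowers, hord]
  have hA₁ : IsPGroup 2 ((Subgroup.zpowers α).subgroupOf C) := by
    apply IsPGroup.of_card (n := n + 3)
    rw [hA₁card]; ring
  obtain ⟨P, hP⟩ := hA₁.exists_le_sylow
  have hPeq : (P : Subgroup C) = (Subgroup.zpowers α).subgroupOf C := by
    apply le_antisymm _ hP
    intro x hx
    rw [Subgroup.mem_subgroupOf]
    have hP₀ : IsPGroup 2 ((P : Subgroup C).map C.subtype) := P.2.map _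
    obtain ⟨T, hPT, ⟨e'⟩⟩ := Cfsg.Agent.S0843.exists_quat_le S _ e _ hP₀
    obtain ⟨-, -, h2, -⟩ := struct T (2 ^ (n + 2)) hm3 e'
    have hαT : α ∈ T :=
      hPT ⟨⟨α, hαC⟩, hP (by rw [Subgroup.mem_subgroupOf]; exact Subgroup.mem_zpowers α), rfl⟩
    have hxT : (x : G) ∈ T := hPT ⟨x, hx, rfl⟩
    exact h2 α hαT hord x hxT (Subgroup.mem_centralizer_iff.mp x.2 _ hα2D).symm
  have hPcyc : IsCyclic (P : Subgroup C) := by
    rw [hPeq]
    exact (Subgroup.subgroupOfEquivOfLe hzC).isCyclic.mpr inferInstance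
  have hPcard : Nat.card (P : Subgroup C) = 2 * 2 ^ (n + 2) := by
    rw [hPeq, hA₁card]
  have hmin : (Nat.card C).minFac = 2 := by
    rw [Nat.minFac_eq_two_iff]
    have := Subgroup.card_subgroup_dvd_card (P : Subgroup C)
    rw [hPcard] at this
    exact Dvd.dvd.trans (Dvd.intro _ rfl) this
  have hcomp0 := IsCyclic.isComplement' hmin hPcyc
  set τ := MonoidHom.transferSylow P (hPcyc.normalizer_le_centralizer hmin) with hτ
  have hcomp : Subgroup.IsComplement' τ.ker (P : Subgroup C) := hcomp0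
  let K : Subgroup G := τ.ker.map C.subtype
  have hKcard : Nat.card K = Nat.card τ.ker :=
    Subgroup.card_map_of_injective C.subtype_injective
  have hidx : (P : Subgroup C).index = Nat.card τ.ker := hcomp.index_eq_card
  have hKodd : Odd (Nat.card K) := by
    rw [hKcard, ← hidx, ← Nat.not_even_iff_odd, even_iff_two_dvd]
    exact P.not_dvd_index
  have hCcard : Nat.card C = Nat.card K * (2 * 2 ^ (n + 2)) := by
    rw [hKcard, ← hPcard]; exact hcomp.card_mul_card.symm
  have hodd_mem : ∀ x : C, Odd (orderOf x) → x ∈ τ.ker := by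
    intro x hx
    rw [MonoidHom.mem_ker]
    have h1 : orderOf (τ x) ∣ orderOf x := orderOf_map_dvd τ x
    obtain ⟨k, hk⟩ := (IsPGroup.iff_orderOf.mp P.2) (τ x)
    rw [hk] at h1
    have hk0 : k = 0 := by
      by_contra hk0
      have : 2 ∣ orderOf x := Dvd.dvd.trans (dvd_pow_self 2 hk0) h1
      exact (Nat.not_even_iff_odd.mpr hx) (even_iff_two_dvd.mpr this)
    rw [hk0, pow_zero, orderOf_eq_one_iff] at hk
    exact hk
  have hSN : (S : Subgroup G) ≤ N := by
    intro s hs
    apply mem_normalizer_of_smul_eq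
    have hmapS : (S : Subgroup G).map (MulAut.conj s).toMonoidHom = S := by
      ext x
      constructor
      · rintro ⟨y, hy, rfl⟩
        simp only [MulEquiv.coe_toMonoidHom, MulAut.conj_apply]
        exact Subgroup.mul_mem _ (Subgroup.mul_mem _ hs hy) (Subgroup.inv_mem _ hs)
      · intro hx
        refine ⟨s⁻¹ * x * s, Subgroup.mul_mem _ (Subgroup.mul_mem _ (Subgroup.inv_mem _ hs) hx) hs, ?_⟩
        simp only [MulEquiv.coe_toMonoidHom, MulAut.conj_apply]
        group
    have hsm : MulAut.conj s • D = D.map (MulAut.conj s).toMonoidHom := rfl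
    rw [hsm, hD, Subgroup.map_commutator, hmapS]
  have hDcyc : IsCyclic D := by
    rw [hDz]; infer_instance
  have key := Subgroup.card_dvd_of_injective _ (QuotientGroup.kerLift_injective D.normalizerMonoidHom)
  rw [Subgroup.normalizerMonoidHom_ker, ← Subgroup.index, IsCyclic.card_mulAut, hDcard,
    Nat.totient_prime_pow Nat.prime_two (by omega)] at key
  have key' : (C.subgroupOf N).index ∣ 2 ^ (n + 1) := by simpa using key
  obtain ⟨j, hj1, hj⟩ := (Nat.dvd_prime_pow Nat.prime_two).mp key'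
  have hNcard : Nat.card N = Nat.card K * (2 * 2 ^ (n + 2)) * 2 ^ j := by
    have := Subgroup.card_mul_index (C.subgroupOf N)
    rw [hj, Nat.card_congr (Subgroup.subgroupOfEquivOfLe hCN).toEquiv, hCcard] at this
    exact this.symm
  have h1 : 4 * 2 ^ (n + 2) ∣ Nat.card N := by
    rw [← hScard]; exact Subgroup.card_dvd_of_le hSN
  have h2 : Nat.card N ∣ Nat.card G := Subgroup.card_subgroup_dvd_card N
  have h3 : Nat.card G = 4 * 2 ^ (n + 2) * (S : Subgroup G).index := by
    rw [← hScard]; exact (Subgroup.card_mul_index _).symm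
  have h4 : ¬ 2 ∣ (S : Subgroup G).index := S.not_dvd_index
  have hj_ge : 1 ≤ j := by
    by_contra h
    have hj0 : j = 0 := by omega
    subst hj0
    rw [hNcard, pow_zero, mul_one] at h1
    have h5 : (2 * 2 ^ (n + 2)) * 2 ∣ (2 * 2 ^ (n + 2)) * Nat.card K := by
      convert h1 using 1 <;> ring
    have h6 := Nat.dvd_of_mul_dvd_mul_left (by positivity) h5
    exact (Nat.not_even_iff_odd.mpr hKodd) (even_iff_two_dvd.mpr h6)
  have hj_le : j ≤ 1 := by
    by_contra h
    obtain ⟨j', rfl⟩ : ∃ j', j = j' + 2 := ⟨j - 2, by omega⟩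
    have h5 : (4 * 2 ^ (n + 2)) * 2 ∣ Nat.card N := by
      rw [hNcard]; exact ⟨Nat.card K * 2 ^ j', by ring⟩
    have h6 := h5.trans h2
    rw [h3] at h6
    have h7 := Nat.dvd_of_mul_dvd_mul_left (by positivity) h6
    exact h4 h7
  have hj1' : j = 1 := le_antisymm hj_le hj_ge
  refine ⟨K, hKodd, Subgroup.map_subtype_le _, ?_, ?_, ?_, ?_⟩
  · have key2 : ∀ g ∈ N, ∀ k ∈ K, g * k * g⁻¹ ∈ K := by
      intro g hg k hk
      obtain ⟨k₀, hk₀, rfl⟩ := hk
      have hgC : g * (k₀ : G) * g⁻¹ ∈ C := Cfsg.Agent.S0843.part3 D g _ hg k₀.2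
      refine ⟨⟨_, hgC⟩, ?_, rfl⟩
      apply hodd_mem
      have e1 : orderOf (⟨g * (k₀ : G) * g⁻¹, hgC⟩ : C) = orderOf k₀ := by
        rw [← Subgroup.orderOf_coe, ← Subgroup.orderOf_coe k₀]
        exact Cfsg.Agent.S0843.orderOf_conj' g _
      rw [e1]
      have hd : orderOf (⟨k₀, hk₀⟩ : τ.ker) ∣ Nat.card τ.ker := orderOf_dvd_natCard _
      rw [← Subgroup.orderOf_coe] at hd
      have hoddK : Odd (Nat.card τ.ker) := by rw [← hKcard]; exact hKodd
      exact Odd.of_dvd_nat hoddK hd
    intro g hg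
    rw [Subgroup.mem_normalizer_iff]
    intro h
    constructor
    · intro hh; exact key2 g hg h hh
    · intro hh
      have := key2 g⁻¹ (Subgroup.inv_mem _ hg) _ hh
      have e2 : g⁻¹ * (g * h * g⁻¹) * g⁻¹⁻¹ = h := by group
      rw [e2] at this
      exact this
  · apply Subgroup.eq_of_le_of_card_ge (sup_le ((Subgroup.map_subtype_le _).trans hCN) hSN)
    have hcop : Nat.Coprime (Nat.card K) (Nat.card (S : Subgroup G)) := by
      rw [hScard]
      have : 4 * 2 ^ (n + 2) = 2 ^ (n + 4) := by ring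
      rw [this]
      exact Nat.Coprime.pow_right _ (Nat.Coprime.symm (Nat.coprime_two_left.mpr hKodd))
    have hd := Nat.Coprime.mul_dvd_of_dvd_of_dvd hcop
      (Subgroup.card_dvd_of_le (le_sup_left : K ≤ K ⊔ (S : Subgroup G)))
      (Subgroup.card_dvd_of_le (le_sup_right : (S : Subgroup G) ≤ K ⊔ (S : Subgroup G)))
    have : Nat.card N = Nat.card K * Nat.card (S : Subgroup G) := by
      rw [hNcard, hj1', hScard]; ring
    rw [this]
    exact Nat.le_of_dvd Nat.card_pos hd
  · rw [hA₀]
    have h5 := hcomp.sup_eq_top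
    have h6 := congrArg (Subgroup.map C.subtype) h5
    have hPmap : (P : Subgroup C).map C.subtype = Subgroup.zpowers α := by
      rw [hPeq, Subgroup.subgroupOf_map_subtype, inf_of_le_left hzC]
    rw [Subgroup.map_sup, ← MonoidHom.range_eq_map, Subgroup.range_subtype, hPmap] at h6
    exact h6
  · rw [hj, hj1', pow_one]

end Cfsg.Agent.S0842
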