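import Mathlib
import Cfsg.Statements.S0849
import Cfsg.Agent.Lib.Helper6.ClassSum

set_option autoImplicit false
open Cfsg

namespace Cfsg.Agent.S0849

open Cfsg.Agent.Lib.Helper6

theorem ext_coe {G : Type*} [Group G] (H : Subgroup G) (φ : H → ℂ) (h : H) :
    Cfsg.extendByZero H φ (h : G) = φ h := by
  unfold Cfsg.extendByZero
  exact Subtype.val_injective.extend_apply _ _ _

theorem ext_not_mem {G : Type*} [Group G] (H : Subgroup G) (φ : H → ℂ) (y : G) (hy : y ∉ H) :
    Cfsg.extendByZero H φ y = 0 := by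
  unfold Cfsg.extendByZero
  rw [Function.extend_apply' _ _ _ (by simpa using hy)]
  rfl

theorem inv_of_order_two {G : Type*} [Group G] {u a : G} (hu : orderOf u = 2) (h : IsConj u a) :
    a⁻¹ = a := by
  obtain ⟨c, rfl⟩ := isConj_iff.mp h
  have h2 : u ^ 2 = 1 := by rw [← hu]; exact pow_orderOf_eq_one u
  have h3 : u⁻¹ = u := by
    rw [inv_eq_iff_mul_eq_one, ← pow_two]; exact h2
  rw [mul_inv_rev, mul_inv_rev, inv_inv, h3, mul_assoc]

theorem result {G : Type*} [Group G] [Fintype G] (H : Subgroup G) (S : Set G) (hSH : S ⊆ H) (hHS : ∀ h ∈ H, ∀ s ∈ S, h * s * h⁻¹ ∈ S) (hTI : ∀ g : G, g ∉ H → ∀ s ∈ S, g * s * g⁻¹ ∉ S) (hinv : ∀ s ∈ S, s⁻¹ ∈ S) (φ : H → ℂ) (hφ : Cfsg.IsClassFunction H φ) (hφS : ∀ x : H, (x : G) ∉ S → φ x = 0) (u v : G) (hu : orderOf u = 2) (hv : orderOf v = 2) : ∑ᶠ p ∈ {p : G × G | IsConj u p.1 ∧ IsConj v p.2}, Cfsg.indFun H φ (p.1 * p.2) = (H.index : ℂ) * ∑ᶠ p ∈ {p : H × H | IsConj u (p.1 : G) ∧ IsConj v (p.2 : G)}, φ (p.1 * p.2) :=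 by
  classical
  haveI : Fintype H := Fintype.ofFinite H
  rw [finsum_mem_setOf_eq_sum_filter (fun p : G × G => IsConj u p.1 ∧ IsConj v p.2),
    finsum_mem_setOf_eq_sum_filter (fun p : H × H => IsConj u (p.1 : G) ∧ IsConj v (p.2 : G)),
    Finset.sum_filter, Finset.sum_filter]
  set E := Cfsg.extendByZero H φ with hE
  -- the key sum
  have hkey : ∑ p : G × G, (if IsConj u p.1 ∧ IsConj v p.2 then E (p.1 * p.2) else 0)
      = ∑ q : H × H, (if IsConj u (q.1 : G) ∧ IsConj v (q.2 : G) then φ (q.1 * q.2) else 0) := by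
    symm
    apply Fintype.sum_of_injective (fun q : H × H => ((q.1 : G), (q.2 : G)))
    · intro q q' hqq
      simp only [Prod.mk.injEq] at hqq
      exact Prod.ext (Subtype.ext hqq.1) (Subtype.ext hqq.2)
    · intro p hp
      by_cases hA : IsConj u p.1 ∧ IsConj v p.2
      · rw [if_pos hA]
        by_contra hne
        apply hp
        have habH : p.1 * p.2 ∈ H := by
          by_contra hn
          exact hne (ext_not_mem H φ _ hn)
        have habS : p.1 * p.2 ∈ S := by
          by_contra hn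
          apply hne
          have := ext_coe H φ ⟨p.1 * p.2, habH⟩
          rw [hE]
          change Cfsg.extendByZero H φ (p.1 * p.2) = 0
          rw [this]
          exact hφS ⟨p.1 * p.2, habH⟩ hn
        have ha : p.1⁻¹ = p.1 := inv_of_order_two hu hA.1
        have hb : p.2⁻¹ = p.2 := inv_of_order_two hv hA.2
        have h1 : p.1 * (p.1 * p.2) * p.1⁻¹ = (p.1 * p.2)⁻¹ := by
          rw [mul_inv_rev, hb, ha]
          have : p.1 * p.1 = 1 := by
            nth_rewrite 1 [← ha]; exact inv_mul_cancel p.1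
          rw [← mul_assoc, this, one_mul]
        have haH : p.1 ∈ H := by
          by_contra hn
          exact hTI p.1 hn _ habS (by rw [h1]; exact hinv _ habS)
        have hbH : p.2 ∈ H := by
          have : p.2 = p.1⁻¹ * (p.1 * p.2) := by group
          rw [this]
          exact H.mul_mem (H.inv_mem haH) habH
        exact ⟨(⟨p.1, haH⟩, ⟨p.2, hbH⟩), rfl⟩
      · rw [if_neg hA]
    · intro q
      by_cases hA : IsConj u (q.1 : G) ∧ IsConj v (q.2 : G)
      · rw [if_pos hA, if_pos hA]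
        have := ext_coe H φ (q.1 * q.2)
        rw [hE]
        rw [← this]
        rfl
      · rw [if_neg hA, if_neg hA]
  -- reindexing by conjugation
  have hre : ∀ x : G, ∑ p : G × G, (if IsConj u p.1 ∧ IsConj v p.2 then E (x⁻¹ * (p.1 * p.2) * x) else 0)
      = ∑ p : G × G, (if IsConj u p.1 ∧ IsConj v p.2 then E (p.1 * p.2) else 0) := by
    intro x
    let σ : G × G ≃ G × G :=
      { toFun := fun p => (x⁻¹ * p.1 * x, x⁻¹ * p.2 * x)
        invFun := fun p => (x * p.1 * x⁻¹, x * p.2 * x⁻¹)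
        left_inv := fun p => by ext <;> simp [mul_assoc]
        right_inv := fun p => by ext <;> simp [mul_assoc] }
    apply Fintype.sum_equiv σ
    intro p
    have hc1 : IsConj u (x⁻¹ * p.1 * x) ↔ IsConj u p.1 := by
      have : IsConj p.1 (x⁻¹ * p.1 * x) := isConj_iff.mpr ⟨x⁻¹, by simp⟩
      exact ⟨fun h => h.trans this.symm, fun h => h.trans this⟩
    have hc2 : IsConj v (x⁻¹ * p.2 * x) ↔ IsConj v p.2 := by
      have : IsConj p.2 (x⁻¹ * p.2 * x) := isConj_iff.mpr ⟨x⁻¹, by simp⟩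
      exact ⟨fun h => h.trans this.symm, fun h => h.trans this⟩
    have hprod : x⁻¹ * p.1 * x * (x⁻¹ * p.2 * x) = x⁻¹ * (p.1 * p.2) * x := by group
    change _ = if IsConj u (x⁻¹ * p.1 * x) ∧ IsConj v (x⁻¹ * p.2 * x) then
      E (x⁻¹ * p.1 * x * (x⁻¹ * p.2 * x)) else 0
    rw [hprod]
    exact if_congr (and_congr hc1 hc2).symm rfl rfl
  have hL : ∑ p : G × G, (if IsConj u p.1 ∧ IsConj v p.2 then Cfsg.indFun H φ (p.1 * p.2) else 0)
      = (Nat.card H : ℂ)⁻¹ * ((Nat.card G : ℂ)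
        * ∑ p : G × G, (if IsConj u p.1 ∧ IsConj v p.2 then E (p.1 * p.2) else 0)) := by
    have h1 : ∀ p : G × G, (if IsConj u p.1 ∧ IsConj v p.2 then Cfsg.indFun H φ (p.1 * p.2) else 0)
        = (Nat.card H : ℂ)⁻¹ * ∑ x : G, (if IsConj u p.1 ∧ IsConj v p.2 then
            E (x⁻¹ * (p.1 * p.2) * x) else 0) := by
      intro p
      by_cases hA : IsConj u p.1 ∧ IsConj v p.2
      · simp only [if_pos hA, hE]
        rfl
      · simp only [if_neg hA, Finset.sum_const_zero, mul_zero]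
    rw [Finset.sum_congr rfl (fun p _ => h1 p), ← Finset.mul_sum, Finset.sum_comm,
      Finset.sum_congr rfl (fun x _ => hre x), Finset.sum_const, Finset.card_univ, nsmul_eq_mul]
    simp only [Nat.card_eq_fintype_card]
  rw [hL, hkey]
  have hidx : (Nat.card H : ℂ) * (H.index : ℂ) = (Nat.card G : ℂ) := by
    rw [← Nat.cast_mul, Subgroup.card_mul_index]
  have hH : (Nat.card H : ℂ) ≠ 0 := by
    exact_mod_cast (Nat.card_pos (α := H)).ne'
  rw [← hidx]
  field_simp

end Cfsg.Agent.S0849
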