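import Mathlib
import Cfsg.Statements.S0850

set_option autoImplicit false
open Cfsg

namespace Cfsg.Agent.S0850

variable {G : Type*} [Group G]

theorem ext_coe (H : Subgroup G) (φ : H → ℂ) (h : H) :
    Cfsg.extendByZero H φ (h : G) = φ h := by
  unfold Cfsg.extendByZero
  exact Subtype.val_injective.extend_apply _ _ _

theorem ext_not_mem (H : Subgroup G) (φ : H → ℂ) (y : G) (hy : y ∉ H) :
    Cfsg.extendByZero H φ y = 0 := by
  unfold Cfsg.extendByZero
  rw [Function.extend_apply' _ _ _ (by simpa using hy)]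
  rfl

@[reducible] def conjAct (K P : Subgroup G) (hP : P ≤ Subgroup.normalizer (K : Set G)) :
    MulAction P K where
  smul u c := ⟨(u : G) * c * (u : G)⁻¹, (Subgroup.mem_normalizer_iff.mp (hP u.2) c).mp c.2⟩
  one_smul c := by
    apply Subtype.ext
    simp [HSMul.hSMul]
  mul_smul u v c := by
    apply Subtype.ext
    simp [HSMul.hSMul, mul_assoc]

theorem part1 [Finite G] (K : Subgroup G)
    (hTI : ∀ g : G, g ∉ Subgroup.normalizer (K : Set G) → ∀ k ∈ K, g * k * g⁻¹ ∈ K → k = 1)
    (hC : ∀ k ∈ K, k ≠ 1 → Subgroup.centralizer ({k} : Set G) ≤ K)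
    (x : G) (hxN : x ∈ Subgroup.normalizer (K : Set G)) (hxK : x ∉ K) (g : G) :
    g * x * g⁻¹ ∉ K := by
  intro hk
  by_cases hg : g ∈ Subgroup.normalizer (K : Set G)
  · apply hxK
    have := (Subgroup.mem_normalizer_iff.mp (Subgroup.inv_mem _ hg) (g * x * g⁻¹)).mp hk
    simpa [mul_assoc] using this
  · have hx1 : x ≠ 1 := by
      intro h; apply hxK; rw [h]; exact K.one_mem
    have hord : orderOf x ≠ 1 := by
      intro h; exact hx1 (orderOf_eq_one_iff.mp h)
    obtain ⟨p, hp, hpd⟩ := Nat.exists_prime_and_dvd hord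
    haveI : Fact p.Prime := ⟨hp⟩
    obtain ⟨m, hm⟩ := hpd
    set y := x ^ m with hy
    have hyord : orderOf y = p := by
      have hpos : 0 < orderOf x := orderOf_pos x
      have hm0 : m ≠ 0 := by
        intro h; rw [h, mul_zero] at hm; omega
      rw [hy, orderOf_pow' x hm0, hm, Nat.gcd_mul_left_left, Nat.mul_div_cancel _ (Nat.pos_of_ne_zero hm0)]
    have hyN : y ∈ Subgroup.normalizer (K : Set G) := Subgroup.pow_mem _ hxN m
    have hgy : g * y * g⁻¹ ∈ K := by
      have : g * y * g⁻¹ = (g * x * g⁻¹) ^ m := by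
        rw [hy, conj_pow]
      rw [this]; exact K.pow_mem hk m
    have hy1 : y ≠ 1 := by
      intro h
      rw [h, orderOf_one] at hyord
      exact hp.one_lt.ne hyord
    have hgy1 : g * y * g⁻¹ ≠ 1 := by
      intro h
      apply hy1
      have : y = g⁻¹ * (g * y * g⁻¹) * g := by group
      rw [this, h]; group
    have hcent : ∀ c ∈ K, y * c * y⁻¹ = c → c = 1 := by
      intro c hc hcy
      apply hTI g hg c hc
      apply hC (g * y * g⁻¹) hgy hgy1
      rw [Subgroup.mem_centralizer_iff]
      intro h hh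
      rw [Set.mem_singleton_iff] at hh
      rw [hh]
      have e1 : y * c = c * y := by
        calc y * c = y * c * y⁻¹ * y := by group
          _ = c * y := by rw [hcy]
      calc g * y * g⁻¹ * (g * c * g⁻¹) = g * (y * c) * g⁻¹ := by group
        _ = g * (c * y) * g⁻¹ := by rw [e1]
        _ = g * c * g⁻¹ * (g * y * g⁻¹) := by group
    let P : Subgroup G := Subgroup.zpowers y
    have hPN : P ≤ Subgroup.normalizer (K : Set G) := by
      rw [Subgroup.zpowers_le]; exact hyN
    have hPp : IsPGroup p P := by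
      apply IsPGroup.of_card (n := 1)
      rw [pow_one, Nat.card_zpowers, hyord]
    letI : MulAction P K := conjAct K P hPN
    have key := hPp.card_modEq_card_fixedPoints K
    have hfix : Nat.card (MulAction.fixedPoints P K) = 1 := by
      rw [Nat.card_eq_one_iff_unique]
      constructor
      · constructor
        intro a b
        have ha : (a : K) = 1 := by
          apply Subtype.ext
          apply hcent _ a.1.2
          have := congrArg (fun w : K => (w : G)) (a.2 ⟨y, Subgroup.mem_zpowers y⟩)
          exact this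
        have hb : (b : K) = 1 := by
          apply Subtype.ext
          apply hcent _ b.1.2
          have := congrArg (fun w : K => (w : G)) (b.2 ⟨y, Subgroup.mem_zpowers y⟩)
          exact this
        exact Subtype.ext (ha.trans hb.symm)
      · refine ⟨⟨1, ?_⟩⟩
        intro u
        apply Subtype.ext
        change (u : G) * ((1 : K) : G) * (u : G)⁻¹ = ((1 : K) : G)
        simp
    rw [hfix] at key
    have hdvd : p ∣ Nat.card K := by
      have h1 : orderOf (g * y * g⁻¹) = p := by
        have := (MulAut.conj g).orderOf_eq y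
        rw [MulAut.conj_apply] at this
        rw [this, hyord]
      rw [← h1]
      have := orderOf_dvd_natCard (⟨g * y * g⁻¹, hgy⟩ : K)
      rwa [Subgroup.orderOf_mk] at this
    have h0 : Nat.card K ≡ 0 [MOD p] := (Nat.modEq_zero_iff_dvd).mpr hdvd
    have h01 : 0 ≡ 1 [MOD p] := h0.symm.trans key
    have : p ∣ 1 := (Nat.modEq_zero_iff_dvd).mp h01.symm
    exact hp.one_lt.ne' (Nat.dvd_one.mp this)

theorem result {G : Type*} [Group G] [Fintype G] (K : Subgroup G) (hTI : ∀ g : G, g ∉ Subgroup.normalizer (K : Set G) → ∀ k ∈ K, g * k * g⁻¹ ∈ K → k = 1) (hlt : K < Subgroup.normalizer (K : Set G)) (hC : ∀ k ∈ K, k ≠ 1 → Subgroup.centralizer ({k} : Set G) ≤ K) : (∀ x ∈ Subgroup.normalizer (K : Set G), x ∉ K → ∀ g : G, g * x * g⁻¹ ∉ K) ∧ ∀ (ϑ : Subgroup.normalizer (K : Set G) → ℂ), Cfsg.IsClassFunction (Subgroup.normalizer (K : Set G)) ϑ → (∀ x : Subgroup.normalizer (K : Set G), (x : G) ∉ K → ϑ x = 0) → ϑ 1 = 0 → ∀ x : Subgroup.normalizer (K : Set G), Cfsg.indFun (Subgroup.normalizer (K : Set G)) ϑ x = ϑ x := by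
  classical
  refine ⟨fun x hxN hxK g => part1 K hTI hC x hxN hxK g, ?_⟩
  intro ϑ hcf hvan h1 x
  have hNne : (Nat.card (Subgroup.normalizer (K : Set G)) : ℂ) ≠ 0 := by
    exact_mod_cast (Nat.card_pos (α := Subgroup.normalizer (K : Set G))).ne'
  unfold Cfsg.indFun
  by_cases hxK : (x : G) ∈ K
  · by_cases hx1 : x = 1
    · have : ∀ g : G, Cfsg.extendByZero (Subgroup.normalizer (K : Set G)) ϑ (g⁻¹ * (x : G) * g) = 0 := by
        intro g
        rw [hx1]
        have e : g⁻¹ * ((1 : Subgroup.normalizer (K : Set G)) : G) * g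
            = ((1 : Subgroup.normalizer (K : Set G)) : G) := by simp
        rw [e, ext_coe, h1]
      rw [Finset.sum_congr rfl (fun g _ => this g), hx1, h1]
      simp
    · have hxg1 : (x : G) ≠ 1 := by
        intro h; apply hx1; exact Subtype.ext h
      have hterm : ∀ g : G, Cfsg.extendByZero (Subgroup.normalizer (K : Set G)) ϑ (g⁻¹ * (x : G) * g)
          = if g ∈ Subgroup.normalizer (K : Set G) then ϑ x else 0 := by
        intro g
        by_cases hg : g ∈ Subgroup.normalizer (K : Set G)
        · rw [if_pos hg]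
          have e : g⁻¹ * (x : G) * g = (((⟨g, hg⟩ : Subgroup.normalizer (K : Set G))⁻¹ * x
              * (⟨g, hg⟩ : Subgroup.normalizer (K : Set G))⁻¹⁻¹ : Subgroup.normalizer (K : Set G)) : G) := by
            simp
          rw [e, ext_coe, hcf x (⟨g, hg⟩ : Subgroup.normalizer (K : Set G))⁻¹]
        · rw [if_neg hg]
          by_cases hmem : g⁻¹ * (x : G) * g ∈ Subgroup.normalizer (K : Set G)
          · have e : g⁻¹ * (x : G) * g
                = ((⟨g⁻¹ * (x : G) * g, hmem⟩ : Subgroup.normalizer (K : Set G)) : G) := rfl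
            rw [e, ext_coe]
            apply hvan
            intro hk
            apply hxg1
            have hginv : g⁻¹ ∉ Subgroup.normalizer (K : Set G) :=
              fun h => hg (by simpa using (Subgroup.normalizer (K : Set G)).inv_mem h)
            have := hTI g⁻¹ hginv (x : G) hxK (by simpa using hk)
            exact this
          · exact ext_not_mem _ ϑ _ hmem
      rw [Finset.sum_congr rfl (fun g _ => hterm g), ← Finset.sum_filter, Finset.sum_const,
        nsmul_eq_mul]
      have hcard : ((Finset.univ.filter (fun g : G => g ∈ Subgroup.normalizer (K : Set G))).card : ℂ)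
          = (Nat.card (Subgroup.normalizer (K : Set G)) : ℂ) := by
        rw [Nat.card_eq_fintype_card, Fintype.card_subtype]
      rw [hcard]
      field_simp
  · have : ∀ g : G, Cfsg.extendByZero (Subgroup.normalizer (K : Set G)) ϑ (g⁻¹ * (x : G) * g) = 0 := by
      intro g
      by_cases hmem : g⁻¹ * (x : G) * g ∈ Subgroup.normalizer (K : Set G)
      · have e : g⁻¹ * (x : G) * g
            = ((⟨g⁻¹ * (x : G) * g, hmem⟩ : Subgroup.normalizer (K : Set G)) : G) := rfl
        rw [e, ext_coe]
        apply hvan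
        have := part1 K hTI hC (x : G) x.2 hxK g⁻¹
        simpa using this
      · exact ext_not_mem _ ϑ _ hmem
    rw [Finset.sum_congr rfl (fun g _ => this g), hvan x hxK]
    simp

end Cfsg.Agent.S0850
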