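import Cfsg.Statements.S1528
import Cfsg.Agent.Lib.Helper1.CharMisc

set_option autoImplicit false
open Cfsg

namespace Cfsg.Agent.S1528

open Cfsg.Agent.Lib.Helper1

theorem stab {G : Type*} [Group G] [Fintype G] (N : Subgroup G) [hN : N.Normal]
    (hC : ∀ n ∈ N, n ≠ 1 → Subgroup.centralizer ({n} : Set G) ≤ N) (τ : N → ℂ)
    (hτ : Cfsg.IsIrrCharacter N τ) (hτ1 : τ ≠ fun _ => 1) (g : G) :
    (∀ k : N, τ ⟨g * k * g⁻¹, hN.conj_mem k k.2 g⟩ = τ k) ↔ g ∈ N := by
  classical
  have hcf := IsIrrCharacter.isClassFunction hτ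
  constructor
  · intro hg
    by_contra hgN
    have hfix : τ ∘ (conjNormal N g) = τ := by
      funext k
      exact hg k
    have hK' : Fintype N := Fintype.ofFinite N
    have hcard := card_fixed_classes_eq_card_fixed_irr (conjNormal N g)
    have hsub : Subsingleton {C : ConjClasses N //
        ConjClasses.map (conjNormal N g).toMonoidHom C = C} := by
      have hall : ∀ C : {C : ConjClasses N //
          ConjClasses.map (conjNormal N g).toMonoidHom C = C}, C.1 = ConjClasses.mk 1 := by
        rintro ⟨C, hC'⟩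
        obtain ⟨k, rfl⟩ := ConjClasses.mk_surjective C
        have h2 : IsConj (conjNormal N g k) k := ConjClasses.mk_eq_mk_iff_isConj.mp hC'
        obtain ⟨u, hu⟩ := isConj_iff.mp h2
        have h3 : (u : G) * (g * k * g⁻¹) * (u : G)⁻¹ = k := congrArg Subtype.val hu
        have h4 : ((u : G) * g) * k = k * ((u : G) * g) := by
          calc ((u : G) * g) * k = ((u : G) * (g * k * g⁻¹) * (u : G)⁻¹) * ((u : G) * g) := by
                group
            _ = k * ((u : G) * g) := by rw [h3]
        by_contra hk1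
        have hk1' : (k : G) ≠ 1 := by
          intro h
          apply hk1
          have : k = 1 := Subtype.ext h
          show ConjClasses.mk k = ConjClasses.mk 1
          rw [this]
        have h5 : (u : G) * g ∈ Subgroup.centralizer ({(k : G)} : Set G) := by
          rw [Subgroup.mem_centralizer_iff]
          intro y hy
          rw [Set.mem_singleton_iff] at hy
          rw [hy]
          exact h4.symm
        have h6 := hC k k.2 hk1' h5
        apply hgN
        have : g = (u : G)⁻¹ * ((u : G) * g) := by group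
        rw [this]
        exact N.mul_mem (N.inv_mem u.2) h6
      constructor
      intro C D
      apply Subtype.ext
      rw [hall C, hall D]
    have hle : Nat.card {χ : Cfsg.IrrCharacter N //
        (χ : N → ℂ) ∘ (conjNormal N g) = (χ : N → ℂ)} ≤ 1 := by
      rw [← hcard]
      exact Finite.card_le_one_iff_subsingleton.mpr hsub
    have : Finite (Cfsg.IrrCharacter N) := irr_finite
    have hsub2 := Finite.card_le_one_iff_subsingleton.mp hle
    have h7 : (⟨⟨τ, hτ⟩, hfix⟩ : {χ : Cfsg.IrrCharacter N //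
        (χ : N → ℂ) ∘ (conjNormal N g) = (χ : N → ℂ)}) =
        ⟨⟨fun _ => 1, isIrrCharacter_one⟩, rfl⟩ := Subsingleton.elim _ _
    have h8 := congrArg (fun x : {χ : Cfsg.IrrCharacter N //
        (χ : N → ℂ) ∘ (conjNormal N g) = (χ : N → ℂ)} => ((x : Cfsg.IrrCharacter N) : N → ℂ)) h7
    exact hτ1 h8
  · intro hg k
    exact hcf k ⟨g, hg⟩

theorem ind_irr {G : Type*} [Group G] [Fintype G] (N : Subgroup G) [hN : N.Normal]
    (hC : ∀ n ∈ N, n ≠ 1 → Subgroup.centralizer ({n} : Set G) ≤ N) (τ : N → ℂ)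
    (hτ : Cfsg.IsIrrCharacter N τ) (hτ1 : τ ≠ fun _ => 1) :
    Cfsg.IsIrrCharacter G (Cfsg.indFun N τ) := by
  apply IsCharacter.isIrr_of_classInner_self (indFun_isCharacter N (IsIrrCharacter.isCharacter hτ))
  have h1 := Cfsg.Agent.S0193.result N τ hτ
  have h2 : Nat.card {g : G // ∀ h : N, τ ⟨g * h * g⁻¹, hN.conj_mem h h.2 g⟩ = τ h} =
      Nat.card N := by
    apply Nat.card_congr
    exact Equiv.subtypeEquivRight (fun g => stab N hC τ hτ hτ1 g)
  rw [h2] at h1
  have hKne : (Nat.card N : ℂ) ≠ 0 := by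
    have := Nat.card_pos (α := N)
    exact_mod_cast this.ne'
  exact mul_left_cancel₀ hKne (h1.trans (mul_one _).symm)

/-- Let N be a normal subgroup of the finite group G such that every element of G commuting with a non-identity element of N lies in N. If χ is an irreducible character of G with χ n ≠ χ 1 for some n ∈ N, then χ is the function induced from some irreducible character of N. -/
theorem result {G : Type*} [Group G] [Fintype G] (N : Subgroup G) [N.Normal] (hC : ∀ n ∈ N, n ≠ 1 → Subgroup.centralizer ({n} : Set G) ≤ N) (χ : G → ℂ) (hχ : Cfsg.IsIrrCharacter G χ) (hker : ∃ n ∈ N, χ n ≠ χ 1) : ∃ φ : N → ℂ, Cfsg.IsIrrCharacter N φ ∧ χ = Cfsg.indFun N φ := by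
  classical
  have hN' : Fintype N := Fintype.ofFinite N
  have hirr : Fintype (Cfsg.IrrCharacter N) := irrFintype
  have hres : Cfsg.IsCharacter N (fun n : N => χ n) :=
    IsCharacter.restrict (IsIrrCharacter.isCharacter hχ) N
  obtain ⟨m, hm1, hm2⟩ := IsCharacter.eq_sum_irr hres
  -- some nonprincipal constituent
  have hex : ∃ φ : Cfsg.IrrCharacter N, m φ ≠ 0 ∧ (φ : N → ℂ) ≠ (fun _ => 1) := by
    by_contra hcon
    push Not at hcon
    obtain ⟨n, hn, hne⟩ := hker
    apply hne
    have e1 : ∀ x : N, (fun n : N => χ n) x = ∑ ψ : Cfsg.IrrCharacter N, (m ψ : ℂ) := by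
      intro x
      rw [hm2, Finset.sum_apply]
      refine Finset.sum_congr rfl (fun ψ _ => ?_)
      by_cases h0 : m ψ = 0
      · simp [h0]
      · rw [Pi.smul_apply, hcon ψ h0]; simp
    have e2 := e1 ⟨n, hn⟩
    have e3 := e1 1
    simp only at e2 e3
    rw [e2, ← e3]; rfl
  obtain ⟨φ, hφm, hφ1⟩ := hex
  refine ⟨φ, φ.2, ?_⟩
  have hind := ind_irr N hC φ φ.2 hφ1
  have hfr := frobenius_reciprocity N (φ : N → ℂ) (IsIrrCharacter.isClassFunction hχ)
  by_contra hne
  have h0 := classInner_irr_ne hind hχ (fun h => hne h.symm)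
  rw [h0] at hfr
  have h3 := hm1 φ
  have h4 : Cfsg.classInner (φ : N → ℂ) (fun h : N => χ h) = (m φ : ℂ) := by
    rw [← classInner_conj_symm, h3]; simp
  rw [h4] at hfr
  apply hφm
  exact_mod_cast hfr.symm

end Cfsg.Agent.S1528
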