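import Cfsg.Statements.S0851
import Cfsg.Agent.Lib.Helper10.EqDeg
import Cfsg.Agent.Lib.Helper10.IndLin
import Cfsg.Agent.Lib.Helper1.CharMore
import Cfsg.Agent.S1528

set_option autoImplicit false
open Cfsg

namespace Cfsg.Agent.S0851

open scoped ComplexConjugate
open Cfsg.Agent.Lib.Helper10 Cfsg.Agent.Lib.Helper1 Cfsg.Agent.Lib.Helper10.Virt
open Cfsg.Agent.Lib.Helper10.IndLin

/-- The relevant characters of the normalizer `N` of a T.I. subgroup `K` with Frobenius
normalizer, `K` abelian: they vanish off `K` and have degree `[N : K]`. -/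
theorem relevant_props {G : Type*} [Group G] [Fintype G] (K : Subgroup G)
    (hC : ∀ k ∈ K, k ≠ 1 → Subgroup.centralizer ({k} : Set G) ≤ K)
    (hab : ∀ a ∈ K, ∀ b ∈ K, a * b = b * a)
    (χ : ↥(Subgroup.normalizer (K : Set G)) → ℂ)
    (hχ : Cfsg.IsIrrCharacter ↥(Subgroup.normalizer (K : Set G)) χ)
    (hrel : ∃ k : Subgroup.normalizer (K : Set G), (k : G) ∈ K ∧ χ k ≠ χ 1) :
    (∀ x : Subgroup.normalizer (K : Set G), (x : G) ∉ K → χ x = 0) ∧
      χ 1 = ((K.subgroupOf (Subgroup.normalizer (K : Set G))).index : ℂ) := by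
  classical
  haveI : Fintype ↥(Subgroup.normalizer (K : Set G)) := Fintype.ofFinite _
  set KN := K.subgroupOf (Subgroup.normalizer (K : Set G)) with hKN
  haveI : KN.Normal := Subgroup.normal_in_normalizer
  have hC' : ∀ n ∈ KN, n ≠ 1 → Subgroup.centralizer ({n} : Set ↥(Subgroup.normalizer (K : Set G))) ≤ KN := by
    intro n hn hn1 x hx
    rw [hKN, Subgroup.mem_subgroupOf] at hn ⊢
    have hn1' : (n : G) ≠ 1 := fun h => hn1 (Subtype.ext h)
    apply hC (n : G) hn hn1'
    rw [Subgroup.mem_centralizer_singleton_iff] at hx ⊢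
    exact congrArg Subtype.val hx
  obtain ⟨k, hk, hkne⟩ := hrel
  obtain ⟨φ, hφ, rfl⟩ := Cfsg.Agent.S1528.result KN hC' χ hχ
    ⟨k, by rw [hKN, Subgroup.mem_subgroupOf]; exact hk, hkne⟩
  constructor
  · intro x hx
    rw [indFun_apply]
    have h0 : ∀ y : ↥(Subgroup.normalizer (K : Set G)),
        Cfsg.extendByZero KN φ (y⁻¹ * x * y) = 0 := by
      intro y
      apply extendByZero_of_not_mem
      intro hmem
      apply hx
      have h1 : y * (y⁻¹ * x * y) * y⁻¹ ∈ KN := ‹KN.Normal›.conj_mem _ hmem y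
      have h2 : y * (y⁻¹ * x * y) * y⁻¹ = x := by group
      rw [h2, hKN, Subgroup.mem_subgroupOf] at h1
      exact h1
    rw [Finset.sum_congr rfl fun y _ => h0 y]
    simp
  · rw [indFun_one]
    have hcomm : ∀ a b : KN, a * b = b * a := by
      intro a b
      apply Subtype.ext
      apply Subtype.ext
      have ha : ((a : ↥(Subgroup.normalizer (K : Set G))) : G) ∈ K := Subgroup.mem_subgroupOf.mp a.2
      have hb : ((b : ↥(Subgroup.normalizer (K : Set G))) : G) ∈ K := Subgroup.mem_subgroupOf.mp b.2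
      exact hab _ ha _ hb
    rw [irr_degree_one_of_comm hcomm hφ, mul_one]


/-- Let K be a subgroup of the finite group G that meets each conjugate by an element outside its normalizer N trivially, is properly contained in N, and contains the centralizer of each of its non-identity elements (a T.I. subgroup with Frobenius normalizer). Suppose K is abelian, let e be the index of K in N, and call an irreducible character of N relevant when it takes at some element of K a value different from its degree. Then either there is exactly one relevant character and K is an elementary abelian p-group of order e + 1 for some prime p, or there are a sign ε and an injective map f from the relevant characters to the irreducible characters of G such that inducing χ - ξ to G gives ε (f χ - f ξ) for all relevant χ and ξ. -/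
theorem result {G : Type*} [Group G] [Fintype G] (K : Subgroup G) (hTI : ∀ g : G, g ∉ Subgroup.normalizer (K : Set G) → ∀ k ∈ K, g * k * g⁻¹ ∈ K → k = 1) (hlt : K < Subgroup.normalizer (K : Set G)) (hC : ∀ k ∈ K, k ≠ 1 → Subgroup.centralizer ({k} : Set G) ≤ K) (hab : ∀ a ∈ K, ∀ b ∈ K, a * b = b * a) : (Nat.card {χ : Cfsg.IrrCharacter (Subgroup.normalizer (K : Set G)) // ∃ k : Subgroup.normalizer (K : Set G), (k : G) ∈ K ∧ (χ : ↥(Subgroup.normalizer (K : Set G)) → ℂ) k ≠ (χ : ↥(Subgroup.normalizer (K : Set G)) → ℂ) 1} = 1 ∧ ∃ p : ℕ, p.Prime ∧ Cfsg.IsElementaryAbelian p K ∧ Nat.card K = (K.subgroupOf (Subgroup.normalizer (K : Set G))).index + 1) ∨ ∃ (ε : ℂ) (f : {χ : Cfsg.IrrCharacter (Subgroup.normalizer (K : Set G)) // ∃ k : Subgroup.normalizer (K : Set G), (k : G) ∈ K ∧ (χ : ↥(Subgroup.normalizer (K : Set G)) → ℂ) k ≠ (χ : ↥(Subgroup.normalizer (K : Set G)) → ℂ) 1} → Cfsg.IrrCharacter G), (ε = 1 ∨ ε = -1) ∧ Function.Injective f ∧ ∀ χ ξ, Cfsg.indFun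 (Subgroup.normalizer (K : Set G)) ((χ.1 : ↥(Subgroup.normalizer (K : Set G)) → ℂ) - (ξ.1 : ↥(Subgroup.normalizer (K : Set G)) → ℂ)) = ε • ((f χ : G → ℂ) - (f ξ : G → ℂ)) := by
  classical
  right
  haveI : Fintype ↥(Subgroup.normalizer (K : Set G)) := Fintype.ofFinite _
  set S : Set (↥(Subgroup.normalizer (K : Set G)) → ℂ) :=
    {χ | Cfsg.IsIrrCharacter ↥(Subgroup.normalizer (K : Set G)) χ ∧
      ∃ k : Subgroup.normalizer (K : Set G), (k : G) ∈ K ∧ χ k ≠ χ 1} with hS
  have hprops : ∀ χ ∈ S, (∀ x : Subgroup.normalizer (K : Set G), (x : G) ∉ K → χ x = 0) ∧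
      χ 1 = ((K.subgroupOf (Subgroup.normalizer (K : Set G))).index : ℂ) :=
    fun χ hχ => relevant_props K hC hab χ hχ.1 hχ.2
  have hvan : ∀ χ ∈ S, ∀ ξ ∈ S, ∀ x : Subgroup.normalizer (K : Set G), (x : G) ∉ K →
      (χ - ξ) x = 0 := by
    intro χ hχ ξ hξ x hx
    rw [Pi.sub_apply, (hprops χ hχ).1 x hx, (hprops ξ hξ).1 x hx, sub_self]
  have hv1 : ∀ χ ∈ S, ∀ ξ ∈ S, (χ - ξ) 1 = 0 := by
    intro χ hχ ξ hξ
    rw [Pi.sub_apply, (hprops χ hχ).2, (hprops ξ hξ).2, sub_self]
  obtain ⟨ε, f, hε, hfirr, hfinj, hf⟩ := EqDeg.coherent_of_diff S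
    (Cfsg.indFun (Subgroup.normalizer (K : Set G)))
    (fun χ hχ => hχ.1)
    (fun χ hχ ξ hξ => by
      rw [indFun_sub]
      exact isGen_sub (isGen_of_char (indFun_isCharacter _ (IsIrrCharacter.isCharacter hχ.1)))
        (isGen_of_char (indFun_isCharacter _ (IsIrrCharacter.isCharacter hξ.1))))
    (fun χ hχ ξ hξ => by
      rw [indFun_one, hv1 χ hχ ξ hξ, mul_zero])
    (fun χ hχ ξ hξ χ' hχ' ξ' hξ' =>
      indFun_TI_inner (K : Set G) hTI (χ - ξ) (χ' - ξ')
        (isClassFunction_sub (IsIrrCharacter.isClassFunction hχ'.1)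
          (IsIrrCharacter.isClassFunction hξ'.1))
        (hvan χ hχ ξ hξ) (hvan χ' hχ' ξ' hξ') (hv1 χ hχ ξ hξ))
    (fun χ hχ ξ hξ ζ hζ => by
      rw [← indFun_add]
      congr 1
      abel)
  refine ⟨ε, fun χ => ⟨f χ.1.1, hfirr _ ⟨χ.1.2, χ.2⟩⟩, hε, ?_, ?_⟩
  · intro χ ξ h
    have h1 : f χ.1.1 = f ξ.1.1 := congrArg Subtype.val h
    have h2 := hfinj _ ⟨χ.1.2, χ.2⟩ _ ⟨ξ.1.2, ξ.2⟩ h1
    exact Subtype.ext (Subtype.ext h2)
  · intro χ ξ
    exact hf _ ⟨χ.1.2, χ.2⟩ _ ⟨ξ.1.2, ξ.2⟩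

end Cfsg.Agent.S0851
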