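import Cfsg.Statements.S1529
import Cfsg.Agent.Lib.Helper10.Virt

set_option autoImplicit false
open Cfsg

namespace Cfsg.Agent.S1529

open Cfsg.Agent.Lib.Helper1 Cfsg.Agent.Lib.Helper10.Virt
open scoped ComplexConjugate

/-- Let N be a subgroup of the finite group G, S a set of irreducible characters of N with at least two members, and τ₁ a linear isometry on the integer combinations of S with virtual-character values such that τ₁ α vanishes at 1 whenever α ∈ ℤ[S] does. Then there is ε ∈ {1, −1} such that ε • τ₁ χ is an irreducible character of G for every χ ∈ S, and distinct members of S give distinct characters. -/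
theorem result {G : Type*} [Group G] [Fintype G] (N : Subgroup G) [Fintype N] (S : Set (N → ℂ)) (hirr : ∀ χ ∈ S, Cfsg.IsIrrCharacter N χ) (htwo : ∃ χ ∈ S, ∃ ψ ∈ S, χ ≠ ψ) (τ₁ : (N → ℂ) → (G → ℂ)) (hτ₁ : Cfsg.IsLinearIsometryOn (Cfsg.zspan S) τ₁) (h0 : ∀ α ∈ Cfsg.zspan S, α 1 = 0 → τ₁ α 1 = 0) : ∃ ε : ℂ, (ε = 1 ∨ ε = -1) ∧ (∀ χ ∈ S, Cfsg.IsIrrCharacter G (ε • τ₁ χ)) ∧ (∀ χ ∈ S, ∀ ψ ∈ S, τ₁ χ = τ₁ ψ → χ = ψ) := by
  classical
  have hsgn : ∀ χ ∈ S, ∃ (ε : ℂ) (ψ : G → ℂ), (ε = 1 ∨ ε = -1) ∧ Cfsg.IsIrrCharacter G ψ ∧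
      τ₁ χ = ε • ψ := by
    intro χ hχ
    apply norm_one_virtual (hτ₁.2.2.2 χ (zspan_of_mem hχ))
    rw [hτ₁.2.2.1 χ (zspan_of_mem hχ) χ (zspan_of_mem hχ), classInner_irr_self (hirr χ hχ)]
  choose! e p he hp hτe using hsgn
  have hagree : ∀ χ ∈ S, ∀ ψ ∈ S, χ ≠ ψ → e χ = e ψ := by
    intro χ hχ ψ hψ hne
    obtain ⟨a, ha, hχ1⟩ := IsIrrCharacter.degree_pos (hirr χ hχ)
    obtain ⟨b, hb, hψ1⟩ := IsIrrCharacter.degree_pos (hirr ψ hψ)
    obtain ⟨a', ha', hpχ1⟩ := IsIrrCharacter.degree_pos (hp χ hχ)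
    obtain ⟨b', hb', hpψ1⟩ := IsIrrCharacter.degree_pos (hp ψ hψ)
    have hm1 : ((b : ℤ) • χ) ∈ Cfsg.zspan S := zspan_zsmul _ (zspan_of_mem hχ)
    have hm2 : ((-(a : ℤ)) • ψ) ∈ Cfsg.zspan S := zspan_zsmul _ (zspan_of_mem hψ)
    have hα1 : ((b : ℤ) • χ + (-(a : ℤ)) • ψ) 1 = 0 := by
      simp only [Pi.add_apply, Pi.smul_apply, hχ1, hψ1]
      simp
      ring
    have h1 := h0 _ (zspan_add hm1 hm2) hα1
    rw [hτ₁.1 _ hm1 _ hm2, hτ₁.2.1 χ (zspan_of_mem hχ), hτ₁.2.1 ψ (zspan_of_mem hψ),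
      hτe χ hχ, hτe ψ hψ] at h1
    simp only [Pi.add_apply, Pi.smul_apply, hpχ1, hpψ1, smul_eq_mul] at h1
    simp only [zsmul_eq_mul, Int.cast_natCast, Int.cast_neg] at h1
    have hpos : 0 < b * a' + a * b' := by positivity
    rcases he χ hχ with h | h <;> rcases he ψ hψ with h' | h'
    · rw [h, h']
    · exfalso
      rw [h, h'] at h1
      have h2 : ((b * a' + a * b' : ℕ) : ℂ) = 0 := by push_cast; linear_combination h1
      have h3 : b * a' + a * b' = 0 := by exact_mod_cast h2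
      omega
    · exfalso
      rw [h, h'] at h1
      have h2 : ((b * a' + a * b' : ℕ) : ℂ) = 0 := by push_cast; linear_combination -h1
      have h3 : b * a' + a * b' = 0 := by exact_mod_cast h2
      omega
    · rw [h, h']
  obtain ⟨χ₀, hχ₀, ψ₀, hψ₀, hne₀⟩ := htwo
  refine ⟨e χ₀, he χ₀ hχ₀, ?_, ?_⟩
  · intro χ hχ
    have heq : e χ = e χ₀ := by
      by_cases h : χ = χ₀
      · rw [h]
      · exact hagree χ hχ χ₀ hχ₀ h
    rw [hτe χ hχ, heq, smul_smul]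
    have h2 : e χ₀ * e χ₀ = 1 := by rcases he χ₀ hχ₀ with h | h <;> rw [h] <;> norm_num
    rw [h2, one_smul]
    exact hp χ hχ
  · intro χ hχ ψ hψ heq
    by_contra hne
    have h1 := hτ₁.2.2.1 χ (zspan_of_mem hχ) ψ (zspan_of_mem hψ)
    rw [← heq, hτ₁.2.2.1 χ (zspan_of_mem hχ) χ (zspan_of_mem hχ),
      classInner_irr_self (hirr χ hχ), classInner_irr_ne (hirr χ hχ) (hirr ψ hψ) hne] at h1
    exact one_ne_zero h1

end Cfsg.Agent.S1529
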