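import Cfsg.Statements.S0852
import Cfsg.Agent.Lib.Helper10.TIFrob2
import Cfsg.Agent.S1529

set_option autoImplicit false
open Cfsg

namespace Cfsg.Agent.S0852

open scoped ComplexConjugate
open Cfsg.Agent.Lib.Helper10 Cfsg.Agent.Lib.Helper1 Cfsg.Agent.Lib.Helper10.Virt
open Cfsg.Agent.Lib.Helper10.TIFrob

/-- Let K be a subgroup of the finite group G that meets each conjugate by an element outside its normalizer N trivially, is properly contained in N, and contains the centralizer of each of its non-identity elements (a T.I. subgroup with Frobenius normalizer). Let S be the set of irreducible characters of N taking at some element of K a value different from their degree, suppose S has at least two members, and let star be a linear isometry on the integer span of S into the generalized characters of G that agrees with induction on the members vanishing at the identity (so S is coherent, with star as the extending isometry). Then an irreducible character ψ of G is of the form star χ or -star χ for some χ in S if and only if ψ is not constant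 on the non-identity elements of K. -/
theorem result {G : Type*} [Group G] [Fintype G] (K : Subgroup G) (hTI : ∀ g : G, g ∉ Subgroup.normalizer (K : Set G) → ∀ k ∈ K, g * k * g⁻¹ ∈ K → k = 1) (hlt : K < Subgroup.normalizer (K : Set G)) (hC : ∀ k ∈ K, k ≠ 1 → Subgroup.centralizer ({k} : Set G) ≤ K) [Fintype ↥(Subgroup.normalizer (K : Set G))] (S : Set (↥(Subgroup.normalizer (K : Set G)) → ℂ)) (hS : S = {χ : ↥(Subgroup.normalizer (K : Set G)) → ℂ | Cfsg.IsIrrCharacter ↥(Subgroup.normalizer (K : Set G)) χ ∧ ∃ k : ↥(Subgroup.normalizer (K : Set G)), (k : G) ∈ K ∧ χ k ≠ χ 1}) (htwo : ∃ χ ∈ S, ∃ ξ ∈ S, χ ≠ ξ) (star : (↥(Subgroup.normalizer (K : Set G)) → ℂ) → (G → ℂ)) (hstar : Cfsg.IsLinearIsometryOn (Cfsg.zspan S) star) (hext : ∀ α ∈ Cfsg.zspanOn S ({1}ᶜ : Set ↥(Subgroup.normalizer (K : Set G))), star α = Cfsg.indFun (Subgroup.normalizer (K : Set G)) α) (ψ : G → ℂ) (hψ : Cfsg.IsIrrCharacter G ψ) : (∃ χ ∈ S, ψ = star χ ∨ ψ = -star χ) ↔ ∃ a ∈ K, ∃ b ∈ K, a ≠ 1 ∧ b ≠ 1 ∧ ψ a ≠ ψ b := by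
  classical
  have hS' : S = rel (K.subgroupOf (Subgroup.normalizer (K : Set G))) := hS
  subst hS'
  have hCN := hC_sub K hC
  constructor
  · rintro ⟨χ, hχ, h⟩
    obtain ⟨χ₀, hχ₀, ξ₀, hξ₀, hne⟩ := htwo
    have hex : ∃ ξ ∈ rel (K.subgroupOf (Subgroup.normalizer (K : Set G))), ξ ≠ χ := by
      by_cases h1 : χ₀ = χ
      · exact ⟨ξ₀, hξ₀, fun h2 => hne (h1.trans h2.symm)⟩
      · exact ⟨χ₀, hχ₀, h1⟩
    obtain ⟨ξ, hξ, hξne⟩ := hex
    obtain ⟨k, hk, k', hk', hk1, hk'1, hkk⟩ := rel_nonconst _ hCN hχ hξ hξne
    have hc := core_const K star hC hstar hext hχ k hk hk1 k' hk' hk'1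
    have hne' : star χ k ≠ star χ k' := by
      intro h2
      apply hkk
      rw [h2] at hc
      exact sub_right_injective hc
    have hk1' : (k : G) ≠ 1 := by
      intro h2
      apply hk1
      ext
      exact h2
    have hk'1' : (k' : G) ≠ 1 := by
      intro h2
      apply hk'1
      ext
      exact h2
    refine ⟨k, hk, k', hk', hk1', hk'1', ?_⟩
    rcases h with h | h
    · rw [h]
      exact hne'
    · rw [h]
      simp only [Pi.neg_apply]
      intro h2
      exact hne' (neg_injective h2)
  · rintro ⟨a, ha, b, hb, ha1, hb1, hab⟩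
    by_contra hcon
    push_neg at hcon
    have hψcf : Cfsg.IsClassFunction G ψ := IsIrrCharacter.isClassFunction hψ
    have h0 : ∀ α ∈ Cfsg.zspan (rel (K.subgroupOf (Subgroup.normalizer (K : Set G)))),
        α 1 = 0 → star α 1 = 0 := by
      intro α hα h1
      have hmem : α ∈ Cfsg.zspanOn (rel (K.subgroupOf (Subgroup.normalizer (K : Set G))))
          ({1}ᶜ : Set ↥(Subgroup.normalizer (K : Set G))) := by
        refine ⟨hα, fun x hx => ?_⟩
        have hx1 : x = 1 := by simpa using hx
        rw [hx1, h1]
      rw [hext α hmem, indFun_one, h1, mul_zero]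
    obtain ⟨ε, hε, hirr, -⟩ := Cfsg.Agent.S1529.result (Subgroup.normalizer (K : Set G))
      (rel (K.subgroupOf (Subgroup.normalizer (K : Set G)))) (fun χ h => h.1) htwo star hstar h0
    have hzero : ∀ η ∈ rel (K.subgroupOf (Subgroup.normalizer (K : Set G))),
        Cfsg.classInner (star η) ψ = 0 := by
      intro η hη
      have h1 : ε • star η ≠ ψ := by
        rcases hε with rfl | rfl
        · rw [one_smul]
          exact fun h => (hcon η hη).1 h.symm
        · intro h
          apply (hcon η hη).2
          rw [← h]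
          simp
      have h2 := classInner_irr_ne (hirr η hη) hψ h1
      rw [classInner_smul_left] at h2
      rcases mul_eq_zero.mp h2 with h3 | h3
      · rcases hε with rfl | rfl
        · exact absurd h3 one_ne_zero
        · exact absurd h3 (by norm_num)
      · exact h3
    obtain ⟨χ₀, hχ₀, -⟩ := htwo
    have hψN : Cfsg.IsClassFunction ↥(Subgroup.normalizer (K : Set G))
        (fun n : ↥(Subgroup.normalizer (K : Set G)) => ψ n) := by
      intro g h
      have e2 := hψcf (g : G) (h : G)
      show ψ ((h * g * h⁻¹ : ↥(Subgroup.normalizer (K : Set G))) : G) = _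
      have e3 : ((h * g * h⁻¹ : ↥(Subgroup.normalizer (K : Set G))) : G) =
          (h : G) * g * (h : G)⁻¹ := by
        simp
      rw [e3, e2]
    have horth : ∀ η ∈ rel (K.subgroupOf (Subgroup.normalizer (K : Set G))),
        Cfsg.classInner (fun n : ↥(Subgroup.normalizer (K : Set G)) => ψ n) η * χ₀ 1 =
        Cfsg.classInner (fun n : ↥(Subgroup.normalizer (K : Set G)) => ψ n) χ₀ * η 1 := by
      intro η hη
      obtain ⟨c, hc⟩ := IsCharacter.degree_nat (IsIrrCharacter.isCharacter hχ₀.1)
      obtain ⟨d, hd⟩ := IsCharacter.degree_nat (IsIrrCharacter.isCharacter hη.1)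
      have h1 := inner_restrict _ _ star hstar hext hχ₀ hη hc hd hψcf
      rw [hzero η hη, hzero χ₀ hχ₀] at h1
      simp only [mul_zero, sub_zero, map_zero] at h1
      rw [hc, hd]
      linear_combination h1
    have hle : K ≤ Subgroup.normalizer (K : Set G) := Subgroup.le_normalizer
    have hfin := const_of_orth (K.subgroupOf (Subgroup.normalizer (K : Set G)))
      (fun n : ↥(Subgroup.normalizer (K : Set G)) => ψ n) hψN χ₀ hχ₀ horth
      ⟨a, hle ha⟩ ha (by
        intro h
        apply ha1
        exact congrArg Subtype.val h) ⟨b, hle hb⟩ hb (by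
        intro h
        apply hb1
        exact congrArg Subtype.val h)
    exact hab hfin

end Cfsg.Agent.S0852
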