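import Cfsg.Statements.S0854
import Cfsg.Agent.Lib.Helper1.CharClifford3
open Cfsg.Agent.Lib.Helper1
open scoped ComplexConjugate

set_option autoImplicit false
open Cfsg

namespace Cfsg.Agent.S0854

/-- Let H be a normal subgroup of the finite group G, ϑ an irreducible character of H, and T the inertia group of ϑ (the elements g with ϑ(g n g⁻¹) = ϑ(n) for all n in H). If χ is an irreducible character of G whose restriction to H has nonzero inner product with ϑ, then χ is induced from some irreducible character ψ of T, and the restrictions of ψ and of χ to H have the same inner product with ϑ. -/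
theorem result {G : Type*} [Group G] [Fintype G] (H : Subgroup G) [hN : H.Normal] [Fintype H] (ϑ : H → ℂ) (hϑ : Cfsg.IsIrrCharacter H ϑ) (T : Subgroup G) [Fintype T] (hT : ∀ g : G, g ∈ T ↔ ∀ n : H, ϑ ⟨g * n * g⁻¹, hN.conj_mem (n : G) n.2 g⟩ = ϑ n) (hHT : H ≤ T) (χ : G → ℂ) (hχ : Cfsg.IsIrrCharacter G χ) (hcon : Cfsg.classInner (fun n : H => χ n) ϑ ≠ 0) : ∃ ψ : T → ℂ, Cfsg.IsIrrCharacter T ψ ∧ Cfsg.indFun T ψ = χ ∧ Cfsg.classInner (fun n : H => ψ ⟨(n : G), hHT n.2⟩) ϑ = Cfsg.classInner (fun n : H => χ n) ϑ := by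
  classical
  haveI hH'n : (H.subgroupOf T).Normal := Subgroup.normal_subgroupOf
  haveI : Fintype (H.subgroupOf T) := Fintype.ofFinite _
  let e₀ : H.subgroupOf T ≃* H := Subgroup.subgroupOfEquivOfLe hHT
  have hTstab : charStab H ϑ = T := by
    ext g
    rw [mem_charStab, hT]
    constructor
    · intro h n
      exact congrFun h n
    · intro h
      funext n
      exact h n
  have hcf := IsIrrCharacter.isClassFunction hχ
  have hϑ' : Cfsg.IsIrrCharacter (H.subgroupOf T) (ϑ ∘ e₀) := IsIrrCharacter.comp_mulEquiv hϑ e₀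
  have hχT : Cfsg.IsCharacter T (fun t : T => χ t) :=
    IsCharacter.restrict (IsIrrCharacter.isCharacter hχ) T
  have htrans : ∀ F : T → ℂ, Cfsg.classInner (fun n : H.subgroupOf T => F n) (ϑ ∘ e₀) =
      Cfsg.classInner (fun n : H => F ⟨(n : G), hHT n.2⟩) ϑ := by
    intro F
    exact classInner_comp_mulEquiv e₀ (fun n : H => F ⟨(n : G), hHT n.2⟩) ϑ
  have hcon' : Cfsg.classInner (fun n : H.subgroupOf T => (fun t : T => χ t) n) (ϑ ∘ e₀) ≠ 0 := by
    rw [htrans (fun t : T => χ t)]
    exact hcon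
  obtain ⟨ψ, hψ, hψ1, hψ2, a, b, ha, hb, hab⟩ := exists_irr_over (H.subgroupOf T) hχT hϑ' hcon'
  have hinv' : ∀ t : T, conjChar (H.subgroupOf T) (ϑ ∘ e₀) t = ϑ ∘ e₀ := by
    intro t
    funext n
    exact (hT t).mp t.2 (e₀ n)
  have hres := restrict_of_invariant (H.subgroupOf T) hψ hϑ' hψ2 hinv'
  rw [ha] at hres
  obtain ⟨d, hdpos, hd⟩ := IsIrrCharacter.degree_pos hϑ
  have hψd : ψ 1 = ((a * d : ℕ) : ℂ) := by
    have h1 := congrFun hres 1
    simp only [Pi.smul_apply, smul_eq_mul, Function.comp_apply, map_one] at h1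
    rw [hd] at h1
    push_cast
    exact h1
  have hb' : Cfsg.classInner (fun n : H => χ n) ϑ = (b : ℂ) :=
    (htrans (fun t : T => χ t)).symm.trans hb
  have hdeg := clifford_degree H hχ hϑ hcon
  have hFc : (Finset.univ.image (fun g : G => conjChar H ϑ g)).card = T.index := by
    have h1 := card_orbit_mul_card_stab H ϑ
    rw [hTstab] at h1
    have h2 := Subgroup.index_mul_card T
    exact Nat.eq_of_mul_eq_mul_right Nat.card_pos (h1.trans h2.symm)
  rw [hFc, hb', hd] at hdeg
  have hχ1 : χ 1 = ((b * T.index * d : ℕ) : ℂ) := by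
    rw [hdeg]
    push_cast
    ring
  have hind := indFun_isCharacter T (IsIrrCharacter.isCharacter hψ) (G := G)
  have hindχ : Cfsg.classInner (Cfsg.indFun T ψ) χ ≠ 0 := by
    rw [frobenius_reciprocity T ψ hcf]
    intro h0
    apply hψ1
    rw [← classInner_conj_symm, h0, map_zero]
  have hind1 : Cfsg.indFun T ψ 1 = ((T.index * (a * d) : ℕ) : ℂ) := by
    rw [indFun_one, hψd]
    push_cast
    ring
  have hle := degree_le_of_classInner_ne_zero hind hχ hindχ hχ1 hind1
  have hidxpos : 0 < T.index := Nat.pos_of_ne_zero Subgroup.index_ne_zero_of_finite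
  have hab' : a = b := by
    have h1 : b * (T.index * d) ≤ a * (T.index * d) := by
      calc b * (T.index * d) = b * T.index * d := by ring
        _ ≤ T.index * (a * d) := hle
        _ = a * (T.index * d) := by ring
    have h2 : b ≤ a := Nat.le_of_mul_le_mul_right h1 (Nat.mul_pos hidxpos hdpos)
    omega
  refine ⟨ψ, hψ, ?_, ?_⟩
  · apply eq_of_degree_eq hind hχ hindχ
    rw [hind1, hχ1, hab']
    push_cast
    ring
  · rw [← htrans ψ, ha, hb', hab']

end Cfsg.Agent.S0854
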