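import Cfsg.Statements.S0857
import Cfsg.Agent.Lib.Helper1.CharClifford2
open Cfsg.Agent.Lib.Helper1
open scoped ComplexConjugate

set_option autoImplicit false
open Cfsg

namespace Cfsg.Agent.S0857

/-- Let L < K be normal subgroups of the finite group G with no normal subgroup of G strictly between them and with K / L abelian (the commutator subgroup of K lies in L). Let ϑ be an irreducible character of K invariant under conjugation by G. Then the restriction of ϑ to L is irreducible; or it equals e times an irreducible character of L with e ^ 2 equal to the index of L in K; or it is the sum of a family of pairwise distinct irreducible characters of L indexed by a set whose size is the index of L in K. -/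
theorem result {G : Type*} [Group G] [Fintype G] (K L : Subgroup G) [hK : K.Normal] [L.Normal] (hLK : L < K) (hchief : ∀ M : Subgroup G, M.Normal → L ≤ M → M ≤ K → M = L ∨ M = K) (hab : ⁅K, K⁆ ≤ L) (ϑ : K → ℂ) (hϑ : Cfsg.IsIrrCharacter K ϑ) (hinv : ∀ (g : G) (n : K), ϑ ⟨g * n * g⁻¹, hK.conj_mem (n : G) n.2 g⟩ = ϑ n) : Cfsg.IsIrrCharacter L (fun x : L => ϑ ⟨(x : G), hLK.le x.2⟩) ∨ (∃ (φ : L → ℂ) (e : ℕ), Cfsg.IsIrrCharacter L φ ∧ (fun x : L => ϑ ⟨(x : G), hLK.le x.2⟩) = (e : ℂ) • φ ∧ e ^ 2 = L.relIndex K) ∨ (∃ F : Finset (L → ℂ), (∀ φ ∈ F, Cfsg.IsIrrCharacter L φ) ∧ F.card = L.relIndex K ∧ (fun x : L => ϑ ⟨(x : G), hLK.le x.2⟩) = ∑ φ ∈ F, φ) := by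
  classical
  haveI : Fintype K := Fintype.ofFinite K
  haveI hMn : (L.subgroupOf K).Normal := Subgroup.normal_subgroupOf
  haveI : Fintype (L.subgroupOf K) := Fintype.ofFinite _
  have hLn : L.Normal := inferInstance
  have hab' : ∀ a b : K, a * b * a⁻¹ * b⁻¹ ∈ L.subgroupOf K := by
    intro a b
    rw [Subgroup.mem_subgroupOf]
    apply hab
    have := Subgroup.commutator_mem_commutator a.2 b.2
    simpa [commutatorElement_def] using this
  have key := going_down (L.subgroupOf K) hab' (Set.range (fun g : G => conjNormal K g)) ?_ ?_ hϑ ?_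
  · let e : L ≃* (L.subgroupOf K) := (Subgroup.subgroupOfEquivOfLe hLK.le).symm
    have hres : (fun x : L => ϑ ⟨(x : G), hLK.le x.2⟩) =
        (fun m : L.subgroupOf K => ϑ m) ∘ e := by
      funext x
      rfl
    have hinj : Function.Injective (fun φ : (L.subgroupOf K) → ℂ => φ ∘ e) := by
      intro a b h
      funext m
      have := congrFun h (e.symm m)
      simpa using this
    rcases key with h | ⟨φ, n, hφ, hn, hn2⟩ | ⟨F, hF, hFc, hFs⟩
    · left
      rw [hres]
      exact IsIrrCharacter.comp_mulEquiv h e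
    · right; left
      refine ⟨φ ∘ e, n, IsIrrCharacter.comp_mulEquiv hφ e, ?_, hn2⟩
      rw [hres, hn]
      rfl
    · right; right
      refine ⟨F.image (fun φ => φ ∘ e), ?_, ?_, ?_⟩
      · intro φ hφ
        obtain ⟨ψ, hψ, rfl⟩ := Finset.mem_image.mp hφ
        exact IsIrrCharacter.comp_mulEquiv (hF ψ hψ) e
      · rw [Finset.card_image_of_injective _ hinj, hFc]
        rfl
      · rw [hres, hFs, Finset.sum_image (fun a _ b _ h => hinj h)]
        funext x
        simp [Finset.sum_apply]
  · rintro _ ⟨g, rfl⟩ m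
    rw [Subgroup.mem_subgroupOf, Subgroup.mem_subgroupOf]
    constructor
    · intro h
      exact hLn.conj_mem _ h g
    · intro h
      have := hLn.conj_mem _ h g⁻¹
      simpa [conjNormal, mul_assoc] using this
  · intro S hMS hSinv
    have hSn : (S.map K.subtype).Normal := by
      constructor
      rintro _ ⟨s, hs, rfl⟩ g
      exact ⟨conjNormal K g s, hSinv _ ⟨g, rfl⟩ s hs, rfl⟩
    have hL : L ≤ S.map K.subtype := by
      intro x hx
      exact ⟨⟨x, hLK.le hx⟩, hMS (Subgroup.mem_subgroupOf.mpr hx), rfl⟩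
    have hKle : S.map K.subtype ≤ K := by
      rintro _ ⟨s, -, rfl⟩
      exact s.2
    rcases hchief _ hSn hL hKle with h | h
    · left
      apply Subgroup.map_injective K.subtype_injective
      rw [h]
      exact (Subgroup.map_subgroupOf_eq_of_le hLK.le).symm
    · right
      apply Subgroup.map_injective K.subtype_injective
      rw [h, ← MonoidHom.range_eq_map, Subgroup.range_subtype]
  · rintro _ ⟨g, rfl⟩ k
    exact hinv g k

end Cfsg.Agent.S0857
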