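import Mathlib
import Cfsg.Statements.S0860
import Cfsg.Agent.Lib.Helper6.ClassOrth

set_option autoImplicit false
open Cfsg
open scoped ComplexConjugate

namespace Cfsg.Agent.S0860

open Cfsg.Agent.Lib.Helper6

theorem result {G : Type*} [Group G] [Finite G] {A : Type*} [Group A] [MulAction A (Cfsg.IrrCharacter G)] [MulAction A (ConjClasses G)] (hcompat : ∀ (a : A) (χ : Cfsg.IrrCharacter G) (g g' : G), ConjClasses.mk g' = a • ConjClasses.mk g → ((a • χ : Cfsg.IrrCharacter G) : G → ℂ) g' = (χ : G → ℂ) g) (a : A) : Nat.card {χ : Cfsg.IrrCharacter G // a • χ = χ} = Nat.card {C : ConjClasses G // a • C = C} := by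
  classical
  haveI : Fintype G := Fintype.ofFinite G
  haveI : Fintype (Cfsg.IrrCharacter G) := Cfsg.Agent.Lib.Helper1.irrFintype
  haveI : Fintype (ConjClasses G) := Fintype.ofFinite _
  -- the weights
  let w : ConjClasses G → ℂ := fun C => (Nat.card (Subgroup.centralizer ({crep C} : Set G)) : ℂ)
  have hw : ∀ C, w C ≠ 0 := fun C => card_centralizer_ne_zero _
  -- the character values moved by a
  have hmove : ∀ (χ : Cfsg.IrrCharacter G) (C : ConjClasses G),
      ((a⁻¹ • χ : Cfsg.IrrCharacter G) : G → ℂ) (crep C) = (χ : G → ℂ) (crep (a • C)) := by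
    intro χ C
    have := hcompat a (a⁻¹ • χ) (crep C) (crep (a • C)) (by rw [mk_crep, mk_crep])
    rw [smul_inv_smul] at this
    exact this.symm
  -- fixed classes via column orthogonality
  have hcol : ∀ C : ConjClasses G,
      ∑ χ : Cfsg.IrrCharacter G, (χ : G → ℂ) (crep (a • C)) * conj ((χ : G → ℂ) (crep C))
        = if a • C = C then w C else 0 := by
    intro C
    rw [Cfsg.Agent.Lib.Helper1.col_orth]
    by_cases h : a • C = C
    · rw [if_pos h, if_pos ((isConj_crep_iff _ _).mpr h)]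
      simp only [w]
      rw [h]
    · rw [if_neg h, if_neg (fun hc => h ((isConj_crep_iff _ _).mp hc))]
  have hrow : ∀ χ : Cfsg.IrrCharacter G,
      ∑ C : ConjClasses G, (w C)⁻¹ * (((a⁻¹ • χ : Cfsg.IrrCharacter G) : G → ℂ) (crep C)
          * conj ((χ : G → ℂ) (crep C)))
        = if a⁻¹ • χ = χ then 1 else 0 := by
    intro χ
    rw [row_orth_classes (a⁻¹ • χ).2 χ.2]
    by_cases h : a⁻¹ • χ = χ
    · rw [if_pos h, if_pos (congrArg Subtype.val h)]
    · rw [if_neg h, if_neg (fun hc => h (Subtype.ext hc))]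
  have h1 : (Nat.card {χ : Cfsg.IrrCharacter G // a • χ = χ} : ℂ)
      = ∑ χ : Cfsg.IrrCharacter G, if a⁻¹ • χ = χ then (1 : ℂ) else 0 := by
    rw [Nat.card_eq_fintype_card, Fintype.card_subtype, Finset.card_filter]
    push_cast
    apply Finset.sum_congr rfl
    intro χ _
    have : a • χ = χ ↔ a⁻¹ • χ = χ := by
      rw [inv_smul_eq_iff]; exact eq_comm
    by_cases h : a • χ = χ
    · rw [if_pos h, if_pos (this.mp h)]
    · rw [if_neg h, if_neg (fun hc => h (this.mpr hc))]
  have h2 : (Nat.card {C : ConjClasses G // a • C = C} : ℂ)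
      = ∑ C : ConjClasses G, if a • C = C then (1 : ℂ) else 0 := by
    rw [Nat.card_eq_fintype_card, Fintype.card_subtype, Finset.card_filter]
    push_cast
    rfl
  have h3 : ∀ C : ConjClasses G, (if a • C = C then (1 : ℂ) else 0)
      = (w C)⁻¹ * ∑ χ : Cfsg.IrrCharacter G, (χ : G → ℂ) (crep (a • C)) * conj ((χ : G → ℂ) (crep C)) := by
    intro C
    rw [hcol]
    by_cases h : a • C = C
    · rw [if_pos h, if_pos h, inv_mul_cancel₀ (hw C)]
    · rw [if_neg h, if_neg h, mul_zero]
  apply Nat.cast_injective (R := ℂ)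
  rw [h1, h2, Finset.sum_congr rfl (fun C _ => h3 C), ← Finset.sum_congr rfl (fun χ _ => hrow χ),
    Finset.sum_comm]
  apply Finset.sum_congr rfl
  intro C _
  rw [Finset.mul_sum]
  apply Finset.sum_congr rfl
  intro χ _
  rw [hmove]

end Cfsg.Agent.S0860
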