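import Cfsg.Statements.S0861
import Cfsg.Agent.Lib.Helper1.CharPElem
open Cfsg.Agent.Lib.Helper1 Representation
open scoped ComplexConjugate

set_option autoImplicit false
open Cfsg

namespace Cfsg.Agent.S0861

/-- Let P be a normal abelian Sylow p-subgroup of the finite group G and suppose some element g of P has centralizer exactly P. Then the number of irreducible characters of G is at most the order of P, and if equality holds then G / P is abelian (the commutator subgroup lies in P). -/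
theorem result {G : Type*} [Group G] [Finite G] (p : ℕ) [Fact p.Prime] (P : Sylow p G) [(P : Subgroup G).Normal] (hab : ∀ a ∈ P, ∀ b ∈ P, a * b = b * a) (g : G) (hg : g ∈ P) (hC : Subgroup.centralizer ({g} : Set G) = P) : Nat.card (Cfsg.IrrCharacter G) ≤ Nat.card P ∧ (Nat.card (Cfsg.IrrCharacter G) = Nat.card P → commutator G ≤ P) := by
  classical
  have := Fintype.ofFinite G
  have hirr : Fintype (Cfsg.IrrCharacter G) := irrFintype
  have hpp : p.Prime := Fact.out
  haveI hN : NeZero (Nat.card G) := ⟨Nat.card_pos.ne'⟩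
  have hj : ∀ σ : CyclotomicField (Nat.card G) ℚ ≃ₐ[ℚ] CyclotomicField (Nat.card G) ℚ,
      ∃ j : ℕ, j.Coprime (Nat.card G) ∧ σ (cycZeta (Nat.card G)) = cycZeta (Nat.card G) ^ j :=
    fun σ => cyc_aut_zeta (Nat.card G) σ
  choose j hj1 hj2 using hj
  have hgj : ∀ σ, g ^ j σ ∈ (P : Subgroup G) := fun σ => Subgroup.pow_mem _ hg _
  have hcent : ∀ σ, Subgroup.centralizer ({g ^ j σ} : Set G) = P := by
    intro σ
    rw [← hC]
    have hcop : (j σ).Coprime (orderOf g) :=
      Nat.Coprime.coprime_dvd_right (orderOf_dvd_natCard g) (hj1 σ)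
    obtain ⟨m, hm⟩ := exists_pow_eq_self_of_coprime hcop
    ext x
    simp only [Subgroup.mem_centralizer_singleton_iff]
    constructor
    · intro h
      have h2 : Commute x ((g ^ j σ) ^ m) := Commute.pow_right (show Commute x (g ^ j σ) from h) m
      rw [hm] at h2
      exact h2
    · intro h
      exact Commute.pow_right (show Commute x g from h) (j σ)
  have hord : ∀ σ, ∃ a, orderOf (g ^ j σ) = p ^ a := by
    intro σ
    obtain ⟨a, ha⟩ := IsPGroup.iff_orderOf.mp P.isPGroup' ⟨g ^ j σ, hgj σ⟩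
    exact ⟨a, by rw [← ha, Subgroup.orderOf_mk]⟩
  have hnv : ∀ (χ : Cfsg.IrrCharacter G) σ, (χ : G → ℂ) (g ^ j σ) ≠ 0 := by
    intro χ σ
    obtain ⟨m, ρ, hρ, hχ⟩ := χ.2
    haveI := hρ
    obtain ⟨a, ha⟩ := hord σ
    rw [← hχ]
    apply char_ne_zero_of_pElement p ρ _ a ha
    have h1 := ito ρ (P : Subgroup G) hab
    intro hp
    exact P.not_dvd_index (hp.trans h1)
  have hge : ∀ χ : Cfsg.IrrCharacter G,
      ((Finset.univ : Finset (CyclotomicField (Nat.card G) ℚ ≃ₐ[ℚ]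
        CyclotomicField (Nat.card G) ℚ)).card : ℝ) ≤
      ∑ σ : CyclotomicField (Nat.card G) ℚ ≃ₐ[ℚ] CyclotomicField (Nat.card G) ℚ,
        ‖(χ : G → ℂ) (g ^ j σ)‖ ^ 2 := by
    intro χ
    obtain ⟨m, ρ, hρ, hχ⟩ := χ.2
    have h1 := galois_sum_ge (Nat.card G) ρ (fun g => pow_card_eq_one') g j hj2
      (fun σ => by rw [hχ]; exact hnv χ σ)
    rw [hχ] at h1
    exact h1
  have hcol : ∀ σ, ∑ χ : Cfsg.IrrCharacter G, ‖(χ : G → ℂ) (g ^ j σ)‖ ^ 2 = (Nat.card P : ℝ) := by
    intro σ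
    have h1 := col_orth (G := G) (g ^ j σ) (g ^ j σ)
    rw [if_pos (IsConj.refl _), hcent σ] at h1
    have h2 : ∀ χ : Cfsg.IrrCharacter G, (χ : G → ℂ) (g ^ j σ) * conj ((χ : G → ℂ) (g ^ j σ)) =
        ((‖(χ : G → ℂ) (g ^ j σ)‖ ^ 2 : ℝ) : ℂ) := by
      intro χ
      rw [Complex.mul_conj, Complex.normSq_eq_norm_sq]
    simp only [h2] at h1
    exact_mod_cast h1
  have hdouble : ∑ χ : Cfsg.IrrCharacter G,
      ∑ σ : CyclotomicField (Nat.card G) ℚ ≃ₐ[ℚ] CyclotomicField (Nat.card G) ℚ,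
        ‖(χ : G → ℂ) (g ^ j σ)‖ ^ 2 =
      ((Finset.univ : Finset (CyclotomicField (Nat.card G) ℚ ≃ₐ[ℚ]
        CyclotomicField (Nat.card G) ℚ)).card : ℝ) * (Nat.card P : ℝ) := by
    rw [Finset.sum_comm]
    simp only [hcol]
    rw [Finset.sum_const, nsmul_eq_mul]
  have hΓpos : (0 : ℝ) < ((Finset.univ : Finset (CyclotomicField (Nat.card G) ℚ ≃ₐ[ℚ]
        CyclotomicField (Nat.card G) ℚ)).card : ℝ) := by
    have : 0 < (Finset.univ : Finset (CyclotomicField (Nat.card G) ℚ ≃ₐ[ℚ]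
        CyclotomicField (Nat.card G) ℚ)).card := Finset.card_pos.mpr ⟨1, Finset.mem_univ _⟩
    exact_mod_cast this
  have hK : (Finset.univ : Finset (Cfsg.IrrCharacter G)).card = Nat.card (Cfsg.IrrCharacter G) := by
    rw [Finset.card_univ, Nat.card_eq_fintype_card]
  have hle : (Nat.card (Cfsg.IrrCharacter G) : ℝ) *
      ((Finset.univ : Finset (CyclotomicField (Nat.card G) ℚ ≃ₐ[ℚ]
        CyclotomicField (Nat.card G) ℚ)).card : ℝ) ≤
      ((Finset.univ : Finset (CyclotomicField (Nat.card G) ℚ ≃ₐ[ℚ]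
        CyclotomicField (Nat.card G) ℚ)).card : ℝ) * (Nat.card P : ℝ) := by
    rw [← hdouble]
    calc (Nat.card (Cfsg.IrrCharacter G) : ℝ) *
          ((Finset.univ : Finset (CyclotomicField (Nat.card G) ℚ ≃ₐ[ℚ]
            CyclotomicField (Nat.card G) ℚ)).card : ℝ)
        = ∑ χ : Cfsg.IrrCharacter G, ((Finset.univ : Finset (CyclotomicField (Nat.card G) ℚ ≃ₐ[ℚ]
            CyclotomicField (Nat.card G) ℚ)).card : ℝ) := by
          rw [Finset.sum_const, nsmul_eq_mul, hK]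
      _ ≤ _ := Finset.sum_le_sum (fun χ _ => hge χ)
  constructor
  · have h1 : (Nat.card (Cfsg.IrrCharacter G) : ℝ) ≤ Nat.card P := by
      by_contra hcon
      push Not at hcon
      nlinarith
    exact_mod_cast h1
  · intro heq
    have hterm : ∀ χ : Cfsg.IrrCharacter G,
        ∑ σ : CyclotomicField (Nat.card G) ℚ ≃ₐ[ℚ] CyclotomicField (Nat.card G) ℚ,
          ‖(χ : G → ℂ) (g ^ j σ)‖ ^ 2 =
        ((Finset.univ : Finset (CyclotomicField (Nat.card G) ℚ ≃ₐ[ℚ]
          CyclotomicField (Nat.card G) ℚ)).card : ℝ) := by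
      have hsum0 : ∑ χ : Cfsg.IrrCharacter G,
          ((∑ σ : CyclotomicField (Nat.card G) ℚ ≃ₐ[ℚ] CyclotomicField (Nat.card G) ℚ,
            ‖(χ : G → ℂ) (g ^ j σ)‖ ^ 2) -
          ((Finset.univ : Finset (CyclotomicField (Nat.card G) ℚ ≃ₐ[ℚ]
            CyclotomicField (Nat.card G) ℚ)).card : ℝ)) = 0 := by
        rw [Finset.sum_sub_distrib, hdouble, Finset.sum_const, nsmul_eq_mul, hK, heq]
        ring
      intro χ
      have h1 := (Finset.sum_eq_zero_iff_of_nonneg
        (fun χ _ => sub_nonneg.mpr (hge χ))).mp hsum0 χ (Finset.mem_univ _)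
      linarith
    haveI : Fintype (G ⧸ (P : Subgroup G)) := Fintype.ofFinite _
    have hlin : ∀ ψ : Cfsg.IrrCharacter (G ⧸ (P : Subgroup G)),
        (ψ : G ⧸ (P : Subgroup G) → ℂ) 1 = 1 := by
      intro ψ
      have hinf := IsIrrCharacter.inflate (P : Subgroup G) ψ.2
      have h1 := hterm ⟨_, hinf⟩
      have h2 : ∀ σ : CyclotomicField (Nat.card G) ℚ ≃ₐ[ℚ] CyclotomicField (Nat.card G) ℚ,
          ‖(ψ : G ⧸ (P : Subgroup G) → ℂ) ((g ^ j σ : G) : G ⧸ (P : Subgroup G))‖ ^ 2 =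
          ‖(ψ : G ⧸ (P : Subgroup G) → ℂ) 1‖ ^ 2 := by
        intro σ
        rw [(QuotientGroup.eq_one_iff _).mpr (hgj σ)]
      simp only [h2, Finset.sum_const, nsmul_eq_mul] at h1
      obtain ⟨d, hdpos, hd⟩ := IsIrrCharacter.degree_pos ψ.2
      rw [hd, Complex.norm_natCast] at h1
      have h3 : (d : ℝ) ^ 2 = 1 := by
        have h4 : ((Finset.univ : Finset (CyclotomicField (Nat.card G) ℚ ≃ₐ[ℚ]
          CyclotomicField (Nat.card G) ℚ)).card : ℝ) * ((d : ℝ) ^ 2 - 1) = 0 := by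
          linarith
        rcases mul_eq_zero.mp h4 with h | h
        · exact absurd h hΓpos.ne'
        · linarith
      have hd1 : d = 1 := by
        have h5 : d ^ 2 = 1 := by exact_mod_cast h3
        nlinarith
      rw [hd, hd1]
      simp
    have hQab := abelian_of_all_linear hlin
    rw [commutator_def, Subgroup.commutator_le]
    intro x _ y _
    rw [← QuotientGroup.eq_one_iff, commutatorElement_def]
    simp only [QuotientGroup.mk_mul, QuotientGroup.mk_inv]
    rw [hQab (x : G ⧸ (P : Subgroup G)) (y : G ⧸ (P : Subgroup G))]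
    group

end Cfsg.Agent.S0861
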