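import Cfsg.Statements.S0864
import Cfsg.Agent.Lib.Helper1.CharTransfer
open Cfsg.Agent.Lib.Helper1 Representation
open scoped ComplexConjugate

set_option autoImplicit false
open Cfsg

namespace Cfsg.Agent.S0864

/-- Let N be a normal subgroup of the finite group G and λ a character of N of degree 1 invariant under conjugation by G. Suppose that for every prime p dividing the order of λ (in the group of functions under pointwise multiplication) there is a subgroup H containing N, of index prime to p and with the index of N in H a power of p, together with a character of H of degree 1 restricting to λ. Then λ is the restriction of a character of G of degree 1. -/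
theorem result {G : Type*} [Group G] [Finite G] (N : Subgroup G) [hN : N.Normal] (lam : N → ℂ) (hlam : Cfsg.IsCharacter N lam ∧ lam 1 = 1) (hinv : ∀ (g : G) (n : N), lam ⟨g * n * g⁻¹, hN.conj_mem (n : G) n.2 g⟩ = lam n) (hsyl : ∀ p : ℕ, p.Prime → p ∣ orderOf lam → ∃ (H : Subgroup G) (hNH : N ≤ H) (ν : H → ℂ), Nat.Coprime H.index p ∧ (∃ k : ℕ, N.relIndex H = p ^ k) ∧ Cfsg.IsCharacter H ν ∧ ν 1 = 1 ∧ ∀ n : N, ν ⟨(n : G), hNH n.2⟩ = lam n) : ∃ μ : G → ℂ, Cfsg.IsCharacter G μ ∧ μ 1 = 1 ∧ ∀ n : N, μ n = lam n := by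
  classical
  obtain ⟨hchar, hlam1⟩ := hlam
  obtain ⟨ν, hν⟩ := IsCharacter.exists_monoidHom hchar hlam1
  have hlamν : lam = fun n => ((ν n : ℂˣ) : ℂ) := funext hν
  have hord : orderOf lam = orderOf ν := by
    rw [hlamν]
    exact orderOf_coeFun ν
  have hmpos := orderOf_monoidHom_pos ν
  let I : AddSubgroup ℤ :=
    { carrier := {j : ℤ | ∃ μ : G →* ℂˣ, ∀ n : N, μ (n : G) = ν n ^ j}
      zero_mem' := ⟨1, fun n => by simp⟩
      add_mem' := by
        rintro a b ⟨μ₁, h₁⟩ ⟨μ₂, h₂⟩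
        exact ⟨μ₁ * μ₂, fun n => by rw [MonoidHom.mul_apply, h₁, h₂, zpow_add]⟩
      neg_mem' := by
        rintro a ⟨μ₁, h₁⟩
        exact ⟨μ₁⁻¹, fun n => by rw [MonoidHom.inv_apply, h₁, zpow_neg]⟩ }
  have hmI : (orderOf ν : ℤ) ∈ I := ⟨1, fun n => by
    rw [zpow_natCast, ← MonoidHom.pow_apply, pow_orderOf_eq_one]
    rfl⟩
  have hpI : ∀ p : ℕ, p.Prime → p ∣ orderOf ν → ∃ d : ℕ, Nat.Coprime d p ∧ (d : ℤ) ∈ I := by
    intro p hp hpd
    obtain ⟨H, hNH, η, hcop, -, hηc, hη1, hηN⟩ := hsyl p hp (hord ▸ hpd)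
    obtain ⟨ν', hν'⟩ := IsCharacter.exists_monoidHom hηc hη1
    have hinv' : ∀ (g : G) (n : N),
        ν' ⟨g * n * g⁻¹, hNH (hN.conj_mem n n.2 g)⟩ = ν' ⟨n, hNH n.2⟩ := by
      intro g n
      apply Units.ext
      rw [← hν', ← hν']
      have h1 := hηN ⟨g * n * g⁻¹, hN.conj_mem n n.2 g⟩
      have h2 := hηN n
      rw [h2]
      exact h1.trans (hinv g n)
    refine ⟨H.index, hcop, MonoidHom.transfer ν', fun n => ?_⟩
    rw [transfer_normal_apply N H hNH ν' hinv' n, zpow_natCast]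
    congr 1
    apply Units.ext
    rw [← hν', hηN n, hν]
  obtain ⟨⟨g0, hg0⟩, hgen⟩ := (inferInstance : IsAddCyclic I).exists_generator
  have hdvd : ∀ x ∈ I, g0 ∣ x := by
    intro x hx
    obtain ⟨k, hk⟩ := AddSubgroup.mem_zmultiples_iff.mp (hgen ⟨x, hx⟩)
    have h1 := congrArg Subtype.val hk
    simp only [AddSubgroup.coe_zsmul, smul_eq_mul] at h1
    exact ⟨k, by rw [← h1]; ring⟩
  have hunit : g0.natAbs = 1 := by
    by_contra hne
    obtain ⟨q, hq, hqd⟩ := Nat.exists_prime_and_dvd hne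
    have hqm : q ∣ orderOf ν := by
      have h2 : (g0.natAbs : ℤ) ∣ (orderOf ν : ℤ) := Int.natAbs_dvd.mpr (hdvd _ hmI)
      exact hqd.trans (Int.natCast_dvd_natCast.mp h2)
    obtain ⟨d, hdcop, hdI⟩ := hpI q hq hqm
    have h3 : (g0.natAbs : ℤ) ∣ (d : ℤ) := Int.natAbs_dvd.mpr (hdvd _ hdI)
    have h4 : q ∣ d := hqd.trans (Int.natCast_dvd_natCast.mp h3)
    have h5 : q ∣ Nat.gcd d q := Nat.dvd_gcd h4 dvd_rfl
    rw [hdcop] at h5
    exact hq.one_lt.ne' (Nat.dvd_one.mp h5)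
  have h1I : (1 : ℤ) ∈ I := by
    rcases Int.natAbs_eq g0 with h | h
    · rw [hunit] at h
      have h2 : g0 = 1 := by simpa using h
      rw [← h2]
      exact hg0
    · rw [hunit] at h
      have h2 : (1 : ℤ) = -g0 := by
        rw [h]
        simp
      rw [h2]
      exact I.neg_mem hg0
  obtain ⟨μ, hμ⟩ := h1I
  refine ⟨fun g => ((μ g : ℂˣ) : ℂ),
    IsIrrCharacter.isCharacter (isIrrCharacter_of_monoidHom μ), by simp, fun n => ?_⟩
  show ((μ (n : G) : ℂˣ) : ℂ) = lam n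
  rw [hμ n, zpow_one, hν]

end Cfsg.Agent.S0864
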