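import Mathlib
import Cfsg.Statements.S0869

set_option autoImplicit false
open Cfsg

namespace Cfsg.Agent.S0869

theorem result {S : Type*} [Finite S] [Nonempty S] (R : AddSubgroup (S → ℤ)) (hmul : ∀ f ∈ R, ∀ g ∈ R, f * g ∈ R) (h1 : (1 : S → ℤ) ∉ R) : ∃ (x : S) (p : ℕ), p.Prime ∧ ∀ f ∈ R, (p : ℤ) ∣ f x := by
  classical
  by_contra hcon
  push_neg at hcon
  have key : ∀ x : S, ∃ f ∈ R, f x = 1 := by
    intro x
    obtain ⟨n, hn⟩ := Int.subgroup_cyclic (R.map (Pi.evalAddMonoidHom (fun _ : S => ℤ) x))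
    have hmem : ∀ f ∈ R, (n : ℤ) ∣ f x := by
      intro f hf
      have : f x ∈ R.map (Pi.evalAddMonoidHom (fun _ : S => ℤ) x) :=
        AddSubgroup.mem_map.mpr ⟨f, hf, rfl⟩
      rw [hn, AddSubgroup.mem_closure_singleton] at this
      obtain ⟨k, hk⟩ := this
      exact ⟨k, by rw [← hk]; simp [mul_comm]⟩
    have hnat : n.natAbs = 1 := by
      by_contra hne
      obtain ⟨p, hp, hpn⟩ := Nat.exists_prime_and_dvd hne
      obtain ⟨f, hf, hfx⟩ := hcon x p hp
      apply hfx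
      have h1 : (p : ℤ) ∣ n := Int.natCast_dvd.mpr hpn
      exact dvd_trans h1 (hmem f hf)
    have hn1 : (1 : ℤ) ∈ R.map (Pi.evalAddMonoidHom (fun _ : S => ℤ) x) := by
      rw [hn, AddSubgroup.mem_closure_singleton]
      rcases Int.natAbs_eq n with h | h
      · exact ⟨1, by rw [h, hnat]; simp⟩
      · exact ⟨-1, by rw [h, hnat]; simp⟩
    obtain ⟨f, hf, hfx⟩ := AddSubgroup.mem_map.mp hn1
    exact ⟨f, hf, hfx⟩
  choose F hFR hF1 using key
  haveI := Fintype.ofFinite S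
  have hind : ∀ s : Finset S, (1 - ∏ x ∈ s, (1 - F x) : S → ℤ) ∈ R := by
    intro s
    induction s using Finset.induction_on with
    | empty => simpa using R.zero_mem
    | insert a s ha ih =>
      rw [Finset.prod_insert ha]
      have e : (1 - (1 - F a) * ∏ x ∈ s, (1 - F x) : S → ℤ)
          = (1 - ∏ x ∈ s, (1 - F x)) + F a - F a * (1 - ∏ x ∈ s, (1 - F x)) := by ring
      rw [e]
      exact R.sub_mem (R.add_mem ih (hFR a)) (hmul _ (hFR a) _ ih)
  have hz : (∏ x ∈ (Finset.univ : Finset S), (1 - F x) : S → ℤ) = 0 := by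
    funext y
    rw [Finset.prod_apply]
    apply Finset.prod_eq_zero (Finset.mem_univ y)
    simp [hF1 y]
  have := hind Finset.univ
  rw [hz, sub_zero] at this
  exact h1 this

end Cfsg.Agent.S0869
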