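import Cfsg.Statements.S0871
import Mathlib

set_option autoImplicit false
open Cfsg

namespace Cfsg.Agent.S0871

theorem extendByZero_one {G : Type*} [Group G] (H : Subgroup G) [DecidablePred (· ∈ H)] (g : G) :
    Cfsg.extendByZero H (fun _ => (1 : ℂ)) g = if g ∈ H then 1 else 0 := by
  split_ifs with hg
  · exact Function.Injective.extend_apply (Subtype.val_injective (p := (· ∈ H))) (fun _ => (1 : ℂ)) 0 ⟨g, hg⟩
  · exact Function.extend_apply' (f := (Subtype.val : H → G)) (fun _ => (1 : ℂ)) 0 g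
      (by rintro ⟨a, rfl⟩; exact hg a.2)

theorem result {G : Type*} [Group G] [Fintype G] (x : G) (p : ℕ) (hp : p.Prime) : ∃ H : Subgroup G, (∃ C : Subgroup G, C ≤ H ∧ H ≤ Subgroup.normalizer (C : Set G) ∧ IsCyclic C ∧ Nat.Coprime (Nat.card C) p ∧ ∃ k : ℕ, C.relIndex H = p ^ k) ∧ ∃ n : ℕ, Cfsg.indFun H (fun _ => 1) x = (n : ℂ) ∧ ¬ p ∣ n := by
  classical
  have : Fact p.Prime := ⟨hp⟩
  set o := orderOf x with ho
  have ho0 : o ≠ 0 := (orderOf_pos x).ne'
  set k := o.factorization p with hk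
  set m := o / p ^ k with hm
  have hom : p ^ k * m = o := Nat.ordProj_mul_ordCompl_eq_self o p
  have hcop : Nat.Coprime m p := (Nat.coprime_ordCompl hp ho0).symm
  set c := x ^ (p ^ k) with hc
  have hordc : orderOf c = m := by
    rw [hc, orderOf_pow' x (pow_ne_zero _ hp.ne_zero), ← ho]
    have : Nat.gcd o (p ^ k) = p ^ k := Nat.gcd_eq_right (Dvd.intro _ hom)
    rw [this]
  set C : Subgroup G := Subgroup.zpowers c with hC
  have hCcard : Nat.card C = m := by rw [hC, Nat.card_zpowers, hordc]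
  set N : Subgroup G := Subgroup.normalizer (C : Set G) with hN
  have hCN : C ≤ N := Subgroup.le_normalizer
  have hxc : ∀ n ∈ C, x * n * x⁻¹ = n := by
    intro n hn
    obtain ⟨j, rfl⟩ := Subgroup.mem_zpowers_iff.mp hn
    have h1 : Commute x c := (Commute.refl x).pow_right _
    have h2 : Commute x (c ^ j) := h1.zpow_right j
    rw [h2.eq, mul_inv_cancel_right]
  have hxN : x ∈ N := by
    apply Subgroup.mem_normalizer_fintype
    intro n hn
    rw [hxc n hn]; exact hn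
  have hC'n : (C.subgroupOf N).Normal := Subgroup.normal_in_normalizer
  set xb : ↥N ⧸ C.subgroupOf N := QuotientGroup.mk ⟨x, hxN⟩ with hxb
  have hxbpow : xb ^ (p ^ k) = 1 := by
    rw [hxb, ← QuotientGroup.mk_pow, QuotientGroup.eq_one_iff]
    show ((⟨x, hxN⟩ : N) ^ (p ^ k) : N).1 ∈ C
    rw [Subgroup.coe_pow]
    exact Subgroup.mem_zpowers c
  have hZp : IsPGroup p (Subgroup.zpowers xb) := by
    obtain ⟨j, -, hj⟩ := (Nat.dvd_prime_pow hp).mp (orderOf_dvd_of_pow_eq_one hxbpow)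
    apply IsPGroup.of_card (n := j)
    rw [Nat.card_zpowers, hj]
  obtain ⟨P, hP⟩ := hZp.exists_le_sylow
  set H : Subgroup G := ((P : Subgroup (↥N ⧸ C.subgroupOf N)).comap (QuotientGroup.mk' (C.subgroupOf N))).map N.subtype with hH
  have memH : ∀ g : G, g ∈ H ↔ ∃ hg : g ∈ N, (QuotientGroup.mk ⟨g, hg⟩ : ↥N ⧸ C.subgroupOf N) ∈ P := by
    intro g
    rw [hH, Subgroup.mem_map]
    constructor
    · rintro ⟨n, hn, rfl⟩
      exact ⟨n.2, hn⟩
    · rintro ⟨hg, h⟩
      exact ⟨⟨g, hg⟩, h, rfl⟩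
  have hCH : C ≤ H := by
    intro g hg
    rw [memH]
    refine ⟨hCN hg, ?_⟩
    have : (QuotientGroup.mk ⟨g, hCN hg⟩ : ↥N ⧸ C.subgroupOf N) = 1 := by
      rw [QuotientGroup.eq_one_iff]; exact hg
    rw [this]; exact one_mem _
  have hHN : H ≤ N := Subgroup.map_subtype_le _
  have hC'card : Nat.card (C.subgroupOf N) = Nat.card C :=
    Nat.card_congr (Subgroup.subgroupOfEquivOfLe hCN).toEquiv
  have hHcard : Nat.card H = Nat.card C * Nat.card P := by
    rw [hH, Subgroup.card_map_of_injective N.subtype_injective, ← hC'card]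
    exact QuotientGroup.card_preimage_mk (C.subgroupOf N) (P : Set (↥N ⧸ C.subgroupOf N))
  obtain ⟨jP, hjP⟩ := IsPGroup.iff_card.mp P.isPGroup'
  have hrel : C.relIndex H = p ^ jP := by
    have h1 := Subgroup.card_mul_index (C.subgroupOf H)
    have h2 : Nat.card (C.subgroupOf H) = Nat.card C :=
      Nat.card_congr (Subgroup.subgroupOfEquivOfLe hCH).toEquiv
    rw [h2, hHcard] at h1
    have hCpos : 0 < Nat.card C := Nat.card_pos
    have := Nat.eq_of_mul_eq_mul_left hCpos h1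
    rw [← hjP]; exact this
  refine ⟨H, ⟨C, hCH, hHN, inferInstance, by rw [hCcard]; exact hcop, jP, hrel⟩, ?_⟩
  -- the counting
  have key1 : ∀ y : G, y⁻¹ * x * y ∈ H → y ∈ N := by
    intro y hy
    set w := y⁻¹ * c * y with hw
    have hwpow : ∀ j : ℤ, w ^ j = y⁻¹ * c ^ j * y := by
      intro j
      have := conj_zpow (a := y⁻¹) (b := c) (i := j)
      rw [inv_inv] at this
      exact this
    have hwH : w ∈ H := by
      have h1 : (y⁻¹ * x * y) ^ (p ^ k) = w := by
        have := conj_pow (a := y⁻¹) (b := x) (i := p ^ k)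
        rw [inv_inv] at this
        rw [this]
      rw [← h1]; exact pow_mem hy _
    have hordw : orderOf w = m := by
      rw [← hordc]
      have := orderOf_injective (MulAut.conj y⁻¹).toMonoidHom (MulAut.conj y⁻¹).injective c
      rw [← this]
      congr 1
      simp [hw]
    obtain ⟨hwN, hwP⟩ := (memH w).mp hwH
    have hq1 : (QuotientGroup.mk ⟨w, hwN⟩ : ↥N ⧸ C.subgroupOf N) ^ m = 1 := by
      rw [← QuotientGroup.mk_pow]
      have : (⟨w, hwN⟩ : N) ^ m = 1 := by
        apply Subtype.ext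
        rw [Subgroup.coe_pow, Subgroup.coe_one, ← hordw]
        exact pow_orderOf_eq_one w
      rw [this]; rfl
    obtain ⟨j, hj⟩ := P.isPGroup' ⟨_, hwP⟩
    have hq2 : (QuotientGroup.mk ⟨w, hwN⟩ : ↥N ⧸ C.subgroupOf N) ^ (p ^ j) = 1 := by
      have := congrArg Subtype.val hj
      simpa using this
    have hq : (QuotientGroup.mk ⟨w, hwN⟩ : ↥N ⧸ C.subgroupOf N) = 1 := by
      rw [← orderOf_eq_one_iff]
      have d1 := orderOf_dvd_of_pow_eq_one hq1
      have d2 := orderOf_dvd_of_pow_eq_one hq2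
      have : Nat.Coprime m (p ^ j) := hcop.pow_right j
      exact Nat.eq_one_of_dvd_coprimes this d1 d2
    have hwC : w ∈ C := by
      rw [QuotientGroup.eq_one_iff] at hq
      exact hq
    have hzw : Subgroup.zpowers w = C := by
      apply Subgroup.eq_of_le_of_card_ge
      · rw [Subgroup.zpowers_le]; exact hwC
      · rw [hCcard, Nat.card_zpowers, hordw]
    have hyinv : y⁻¹ ∈ N := by
      apply Subgroup.mem_normalizer_fintype
      intro n hn
      obtain ⟨j, rfl⟩ := Subgroup.mem_zpowers_iff.mp hn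
      rw [inv_inv, ← hwpow j]
      show w ^ j ∈ C
      rw [← hzw]
      exact Subgroup.zpow_mem_zpowers w j
    exact (inv_mem_iff (H := N)).mp hyinv
  set SQ : Set (↥N ⧸ C.subgroupOf N) := {q | q⁻¹ * xb * q ∈ P} with hSQ
  have key2 : ∀ n : N, (n : G)⁻¹ * x * n ∈ H ↔ (QuotientGroup.mk n : ↥N ⧸ C.subgroupOf N) ∈ SQ := by
    intro n
    rw [memH]
    have e : ∀ hg : (n : G)⁻¹ * x * n ∈ N, (QuotientGroup.mk ⟨(n : G)⁻¹ * x * n, hg⟩ : ↥N ⧸ C.subgroupOf N)
        = (QuotientGroup.mk n)⁻¹ * xb * QuotientGroup.mk n := by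
      intro hg
      rw [hxb, ← QuotientGroup.mk_inv, ← QuotientGroup.mk_mul, ← QuotientGroup.mk_mul]
      rfl
    constructor
    · rintro ⟨hg, h⟩
      rw [e hg] at h
      exact h
    · intro h
      have hg : (n : G)⁻¹ * x * n ∈ N := N.mul_mem (N.mul_mem (N.inv_mem n.2) hxN) n.2
      exact ⟨hg, by rw [e hg]; exact h⟩
  -- fixed points
  set F : Set ((↥N ⧸ C.subgroupOf N) ⧸ (P : Subgroup (↥N ⧸ C.subgroupOf N))) :=
    MulAction.fixedPoints (Subgroup.zpowers xb) ((↥N ⧸ C.subgroupOf N) ⧸ (P : Subgroup (↥N ⧸ C.subgroupOf N))) with hF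
  have hSQF : SQ = QuotientGroup.mk ⁻¹' F := by
    ext q
    rw [Set.mem_preimage, hF, MulAction.mem_fixedPoints, hSQ, Set.mem_ofPred_eq]
    constructor
    · intro h z
      obtain ⟨j, hj⟩ := Subgroup.mem_zpowers_iff.mp z.2
      show ((z : ↥N ⧸ C.subgroupOf N) • (QuotientGroup.mk q : (↥N ⧸ C.subgroupOf N) ⧸ (P : Subgroup (↥N ⧸ C.subgroupOf N)))) = QuotientGroup.mk q
      rw [MulAction.Quotient.smul_mk, QuotientGroup.eq, smul_eq_mul, ← hj]
      have : (xb ^ j * q)⁻¹ * q = (q⁻¹ * xb * q) ^ (-j) := by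
        have := conj_zpow (a := q⁻¹) (b := xb) (i := -j)
        rw [inv_inv] at this
        rw [this, zpow_neg]; group
      rw [this]
      exact Subgroup.zpow_mem _ h _
    · intro h
      have h1 := h ⟨xb, Subgroup.mem_zpowers xb⟩
      have h2 : ((xb : ↥N ⧸ C.subgroupOf N) • (QuotientGroup.mk q : (↥N ⧸ C.subgroupOf N) ⧸ (P : Subgroup (↥N ⧸ C.subgroupOf N)))) = QuotientGroup.mk q := h1
      rw [MulAction.Quotient.smul_mk, QuotientGroup.eq, smul_eq_mul] at h2
      have : q⁻¹ * xb * q = ((xb * q)⁻¹ * q)⁻¹ := by group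
      rw [this]
      exact Subgroup.inv_mem _ h2
  have hFp : ¬ p ∣ Nat.card F := by
    intro hdvd
    have h1 := hZp.card_modEq_card_fixedPoints ((↥N ⧸ C.subgroupOf N) ⧸ (P : Subgroup (↥N ⧸ C.subgroupOf N)))
    have h2 : p ∣ Nat.card ((↥N ⧸ C.subgroupOf N) ⧸ (P : Subgroup (↥N ⧸ C.subgroupOf N))) :=
      (h1.dvd_iff (dvd_refl p)).mpr hdvd
    exact P.not_dvd_index h2
  have hcount : Nat.card {y : G // y⁻¹ * x * y ∈ H} = Nat.card H * Nat.card F := by
    have e1 : {y : G // y⁻¹ * x * y ∈ H} ≃ ((QuotientGroup.mk : N → ↥N ⧸ C.subgroupOf N) ⁻¹' SQ) :=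
      { toFun := fun y => ⟨⟨y.1, key1 y.1 y.2⟩, (key2 ⟨y.1, key1 y.1 y.2⟩).mp y.2⟩
        invFun := fun n => ⟨n.1.1, (key2 n.1).mpr n.2⟩
        left_inv := fun y => rfl
        right_inv := fun n => rfl }
    rw [Nat.card_congr e1, QuotientGroup.card_preimage_mk, hSQF, QuotientGroup.card_preimage_mk,
      hHcard, hC'card]
    ring
  refine ⟨Nat.card F, ?_, hFp⟩
  show (Nat.card H : ℂ)⁻¹ * ∑ y : G, Cfsg.extendByZero H (fun _ => (1 : ℂ)) (y⁻¹ * x * y) = _
  have hsum : ∑ y : G, Cfsg.extendByZero H (fun _ => (1 : ℂ)) (y⁻¹ * x * y)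
      = (Nat.card {y : G // y⁻¹ * x * y ∈ H} : ℂ) := by
    simp only [extendByZero_one]
    rw [Finset.sum_boole, Nat.card_eq_fintype_card, Fintype.card_subtype]
  rw [hsum, hcount]
  have hH0 : (Nat.card H : ℂ) ≠ 0 := by
    have : 0 < Nat.card H := Nat.card_pos
    exact_mod_cast this.ne'
  push_cast
  field_simp

end Cfsg.Agent.S0871
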