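import Mathlib
import Cfsg.Statements.S0873
import Cfsg.Agent.Lib.Helper1.CharReg

set_option autoImplicit false
open Cfsg

namespace Cfsg.Agent.S0873

universe u

theorem exists_monoidHom_of_isCharacter {G : Type u} [Group G] [Finite G] {χ : G → ℂ}
    (h : Cfsg.IsCharacter G χ) (h1 : χ 1 = 1) : ∃ lam : G →* ℂˣ, ∀ g, χ g = ((lam g : ℂˣ) : ℂ) := by
  obtain ⟨n, ρ, rfl⟩ := h
  have h1' := h1
  rw [Representation.char_one] at h1'
  have hn : Module.finrank ℂ (Fin n → ℂ) = 1 := by exact_mod_cast h1'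
  haveI : ρ.IsIrreducible := Cfsg.Agent.Lib.Helper1.isIrreducible_of_finrank_eq_one ρ hn
  exact Cfsg.Agent.Lib.Helper1.IsIrrCharacter.exists_monoidHom
    (Cfsg.Agent.Lib.Helper1.isIrrCharacter_character ρ) h1

@[reducible] def fiberAct {G : Type u} [Group G] (C P : Subgroup G) [hC : C.Normal]
    (lam : C →* ℂˣ) (z : ℂˣ)
    (hinv : ∀ (g : G) (c : C), lam ⟨g * c * g⁻¹, hC.conj_mem (c : G) c.2 g⟩ = lam c) :
    MulAction P {d : C // lam d = z} where
  smul u d := ⟨⟨(u : G) * d.1 * (u : G)⁻¹, hC.conj_mem (d.1 : G) d.1.2 u⟩, by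
    rw [hinv]; exact d.2⟩
  one_smul d := by
    apply Subtype.ext
    apply Subtype.ext
    simp [HSMul.hSMul]
  mul_smul u v d := by
    apply Subtype.ext
    apply Subtype.ext
    simp [HSMul.hSMul, mul_assoc]

theorem result {G : Type*} [Group G] [Finite G] (p : ℕ) [Fact p.Prime] (C P : Subgroup G) [hC : C.Normal] (hP : IsPGroup p P) (hcop : Nat.Coprime (Nat.card C) p) (hCP : C ⊔ P = ⊤) (lam : C → ℂ) (hlam : Cfsg.IsCharacter C lam ∧ lam 1 = 1) (hinv : ∀ (g : G) (c : C), lam ⟨g * c * g⁻¹, hC.conj_mem (c : G) c.2 g⟩ = lam c) (hker : ∀ c : C, (c : G) ∈ Subgroup.centralizer (P : Set G) → lam c = 1) : lam = fun _ => 1 := by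
  obtain ⟨μ, hμ⟩ := exists_monoidHom_of_isCharacter hlam.1 hlam.2
  have hinvμ : ∀ (g : G) (c : C), μ ⟨g * c * g⁻¹, hC.conj_mem (c : G) c.2 g⟩ = μ c := by
    intro g c
    apply Units.ext
    rw [← hμ, ← hμ]
    exact hinv g c
  funext c
  letI : MulAction P {d : C // μ d = μ c} := fiberAct C P μ (μ c) hinvμ
  have hcard : Nat.card {d : C // μ d = μ c} = Nat.card μ.ker := by
    apply Nat.card_congr
    refine
      { toFun := fun d => ⟨c⁻¹ * d.1, by
          rw [MonoidHom.mem_ker, map_mul, map_inv, d.2, inv_mul_cancel]⟩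
        invFun := fun k => ⟨c * k.1, by
          rw [map_mul, MonoidHom.mem_ker.mp k.2, mul_one]⟩
        left_inv := fun d => by apply Subtype.ext; simp
        right_inv := fun k => by apply Subtype.ext; simp }
  have hnd : ¬ p ∣ Nat.card {d : C // μ d = μ c} := by
    rw [hcard]
    intro hdvd
    have h1 : p ∣ Nat.card C := dvd_trans hdvd (Subgroup.card_subgroup_dvd_card μ.ker)
    have h2 : p ∣ Nat.gcd (Nat.card C) p := Nat.dvd_gcd h1 (dvd_refl p)
    rw [hcop] at h2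
    exact (Fact.out : p.Prime).one_lt.ne' (Nat.dvd_one.mp h2)
  obtain ⟨d, hd⟩ := hP.nonempty_fixed_point_of_prime_not_dvd_card {d : C // μ d = μ c} hnd
  have hdc : (d.1 : G) ∈ Subgroup.centralizer (P : Set G) := by
    rw [Subgroup.mem_centralizer_iff]
    intro u hu
    have h1 := hd ⟨u, hu⟩
    have h2 : u * (d.1 : G) * u⁻¹ = (d.1 : G) := congrArg (fun w : {d : C // μ d = μ c} => ((w.1 : C) : G)) h1
    calc u * (d.1 : G) = u * (d.1 : G) * u⁻¹ * u := by group
      _ = (d.1 : G) * u := by rw [h2]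
  have h3 := hker d.1 hdc
  rw [hμ c, ← d.2, ← hμ]
  exact h3

end Cfsg.Agent.S0873
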