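import Mathlib
import Cfsg.Statements.S0878

set_option autoImplicit false
open Cfsg

namespace Cfsg.Agent.S0878

variable {G Ω : Type*} [Group G] [MulAction G Ω]

theorem three_le_card [Fintype Ω] (hZ : Cfsg.IsZassenhausGroup G Ω) : 3 ≤ Fintype.card Ω := by
  classical
  obtain ⟨hfaith, -, -, ⟨g₀, hg₀, a₀, b₀, hab₀, hga₀, hgb₀⟩, -⟩ := hZ
  by_contra hlt
  push_neg at hlt
  apply hg₀
  apply hfaith.eq_of_smul_eq_smul
  intro c
  rw [one_smul]
  by_cases hca : c = a₀
  · rw [hca, hga₀]
  · by_cases hcb : c = b₀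
    · rw [hcb, hgb₀]
    · exfalso
      have h3 : ({a₀, b₀, c} : Finset Ω).card = 3 := by
        rw [Finset.card_insert_of_notMem, Finset.card_insert_of_notMem, Finset.card_singleton]
        · simpa using Ne.symm hcb
        · simp only [Finset.mem_insert, Finset.mem_singleton, not_or]
          exact ⟨hab₀, Ne.symm hca⟩
      have := Finset.card_le_univ ({a₀, b₀, c} : Finset Ω)
      omega

theorem part1 (a : Ω) (H : Subgroup G) (hHa : H ≤ MulAction.stabilizer G a)
    (hHfix : ∀ u ∈ H, u ≠ 1 → ∀ c : Ω, u • c = c → c = a) (g : G)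
    (hg : g ∉ MulAction.stabilizer G a) (u : G) (hu : u ∈ H) (hgu : g * u * g⁻¹ ∈ H) : u = 1 := by
  by_contra hu1
  apply hg
  have hne : g * u * g⁻¹ ≠ 1 := by
    intro h
    apply hu1
    have : u = g⁻¹ * (g * u * g⁻¹) * g := by group
    rw [this, h]; group
  have hua : u • a = a := MulAction.mem_stabilizer_iff.mp (hHa hu)
  have hfix : (g * u * g⁻¹) • (g • a) = g • a := by
    rw [mul_smul, mul_smul, inv_smul_smul, hua]
  exact MulAction.mem_stabilizer_iff.mpr (hHfix _ hgu hne (g • a) hfix)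

theorem mem_of_fix_only [Finite G] [Fintype Ω] (a : Ω) (H : Subgroup G)
    (h3 : ∀ g : G, ∀ a b c : Ω, a ≠ b → b ≠ c → a ≠ c → g • a = a → g • b = b → g • c = c → g = 1)
    (hHa : H ≤ MulAction.stabilizer G a) (hHcard : Nat.card H + 1 = Fintype.card Ω)
    (hHfix : ∀ u ∈ H, u ≠ 1 → ∀ c : Ω, u • c = c → c = a)
    (s : G) (hs : s ∈ MulAction.stabilizer G a) (hsfix : ∀ c : Ω, s • c = c → c = a) : s ∈ H := by
  classical
  haveI : Fintype H := Fintype.ofFinite H
  by_contra hsH
  have hsa : s • a = a := MulAction.mem_stabilizer_iff.mp hs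
  have hcardX : Fintype.card {b : Ω // b ≠ a} = Nat.card H := by
    have h1 : Fintype.card {b : Ω // b ≠ a} = Fintype.card Ω - 1 := by
      rw [Fintype.card_subtype_compl, Fintype.card_subtype_eq]
    omega
  have hHpos : 0 < Nat.card H := Nat.card_pos
  obtain ⟨b₀⟩ : Nonempty {b : Ω // b ≠ a} := by
    rw [← Fintype.card_pos_iff, hcardX]; exact hHpos
  have hmove : ∀ (u : H) (b : {b : Ω // b ≠ a}), (u : G) • (b : Ω) ≠ a := by
    intro u b h
    have hua : (u : G) • a = a := MulAction.mem_stabilizer_iff.mp (hHa u.2)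
    exact b.2 (MulAction.injective (u : G) (h.trans hua.symm))
  let φ : H → {b : Ω // b ≠ a} := fun u => ⟨(u : G) • (b₀ : Ω), hmove u b₀⟩
  have hφinj : Function.Injective φ := by
    intro u u' huu
    have h1 : (u : G) • (b₀ : Ω) = (u' : G) • (b₀ : Ω) := congrArg Subtype.val huu
    have h2 : ((u' : G)⁻¹ * (u : G)) • (b₀ : Ω) = (b₀ : Ω) := by
      rw [mul_smul, h1, inv_smul_smul]
    have h4 : (u' : G)⁻¹ * (u : G) = 1 := by
      by_contra hne
      exact b₀.2 (hHfix _ (H.mul_mem (H.inv_mem u'.2) u.2) hne _ h2)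
    apply Subtype.ext
    have : (u : G) = (u' : G) * ((u' : G)⁻¹ * (u : G)) := by group
    rw [this, h4, mul_one]
  have hφbij : Function.Bijective φ := by
    rw [Fintype.bijective_iff_injective_and_card]
    refine ⟨hφinj, ?_⟩
    rw [hcardX, Nat.card_eq_fintype_card]
  have htrans : ∀ b c : {b : Ω // b ≠ a}, ∃ u : H, (u : G) • (b : Ω) = (c : Ω) := by
    intro b c
    obtain ⟨u₁, hu₁⟩ := hφbij.2 b
    obtain ⟨u₂, hu₂⟩ := hφbij.2 c
    refine ⟨u₂ * u₁⁻¹, ?_⟩
    have e1 : (u₁ : G) • (b₀ : Ω) = (b : Ω) := congrArg Subtype.val hu₁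
    have e2 : (u₂ : G) • (b₀ : Ω) = (c : Ω) := congrArg Subtype.val hu₂
    rw [Subgroup.coe_mul, Subgroup.coe_inv, mul_smul, ← e1, inv_smul_smul, e2]
  have hsX : ∀ b : {b : Ω // b ≠ a}, s • (b : Ω) ≠ a := by
    intro b h
    exact b.2 (MulAction.injective s (h.trans hsa.symm))
  choose f hf using fun b : {b : Ω // b ≠ a} => htrans b ⟨s • (b : Ω), hsX b⟩
  have hf' : ∀ b : {b : Ω // b ≠ a}, (f b : G) • (b : Ω) = s • (b : Ω) := fun b => hf b
  have hf1 : ∀ b, f b ≠ 1 := by
    intro b h
    have := hf' b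
    rw [h] at this
    simp only [Subgroup.coe_one, one_smul] at this
    exact b.2 (hsfix _ this.symm)
  have hfinj : Function.Injective f := by
    intro b b' hbb
    by_contra hne
    have e1 : ((f b : G)⁻¹ * s) • (b : Ω) = (b : Ω) := by
      rw [mul_smul, ← hf' b, inv_smul_smul]
    have e2 : ((f b : G)⁻¹ * s) • (b' : Ω) = (b' : Ω) := by
      rw [mul_smul, hbb, ← hf' b', inv_smul_smul]
    have e3 : ((f b : G)⁻¹ * s) • a = a := by
      rw [mul_smul, hsa, inv_smul_eq_iff]
      exact (MulAction.mem_stabilizer_iff.mp (hHa (f b).2)).symm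
    have hb : (b : Ω) ≠ (b' : Ω) := fun h => hne (Subtype.ext h)
    have h1 : (f b : G)⁻¹ * s = 1 :=
      h3 _ a (b : Ω) (b' : Ω) (Ne.symm b.2) hb (Ne.symm b'.2) e3 e1 e2
    apply hsH
    have : s = (f b : G) * ((f b : G)⁻¹ * s) := by group
    rw [this, h1, mul_one]
    exact (f b).2
  let F : Option {b : Ω // b ≠ a} → H := fun o => match o with
    | none => 1
    | some b => f b
  have hFinj : Function.Injective F := by
    intro o o' h
    cases o with
    | none =>
      cases o' with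
      | none => rfl
      | some b' => exact absurd h.symm (hf1 b')
    | some b =>
      cases o' with
      | none => exact absurd h (hf1 b)
      | some b' => exact congrArg some (hfinj h)
  have hle := Fintype.card_le_of_injective F hFinj
  rw [Fintype.card_option, hcardX, Nat.card_eq_fintype_card] at hle
  omega

theorem result {G Ω : Type*} [Group G] [Finite G] [MulAction G Ω] [Fintype Ω] (hZ : Cfsg.IsZassenhausGroup G Ω) (a : Ω) (H : Subgroup G) (hHa : H ≤ MulAction.stabilizer G a) (hHcard : Nat.card H + 1 = Fintype.card Ω) (hHfix : ∀ u ∈ H, u ≠ 1 → ∀ c : Ω, u • c = c → c = a) : (∀ g : G, g ∉ MulAction.stabilizer G a → ∀ u ∈ H, g * u * g⁻¹ ∈ H → u = 1) ∧ Subgroup.normalizer (H : Set G) = MulAction.stabilizer G a := by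
  have hp1 := part1 a H hHa hHfix
  refine ⟨hp1, ?_⟩
  have h3 := hZ.2.2.1
  have hn := three_le_card hZ
  -- conjugation by the stabilizer preserves H
  have hconj : ∀ s ∈ MulAction.stabilizer G a, ∀ u ∈ H, s * u * s⁻¹ ∈ H := by
    intro s hs u hu
    by_cases hu1 : u = 1
    · rw [hu1]; simp [H.one_mem]
    · apply mem_of_fix_only a H h3 hHa hHcard hHfix
      · exact Subgroup.mul_mem _ (Subgroup.mul_mem _ hs (hHa hu)) (Subgroup.inv_mem _ hs)
      · intro c hc
        have hsa : s • a = a := MulAction.mem_stabilizer_iff.mp hs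
        have h1 : u • (s⁻¹ • c) = s⁻¹ • c := by
          rw [mul_smul, mul_smul] at hc
          have := congrArg (fun y => s⁻¹ • y) hc
          simp only [inv_smul_smul] at this
          exact this
        have h2 := hHfix u hu hu1 _ h1
        rw [inv_smul_eq_iff, hsa] at h2
        exact h2
  apply le_antisymm
  · intro g hg
    by_contra hga
    -- H is nontrivial
    have hex : ∃ u ∈ H, u ≠ 1 := by
      by_contra hcon
      push_neg at hcon
      have hbot : H = ⊥ := (Subgroup.eq_bot_iff_forall H).mpr hcon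
      rw [hbot] at hHcard
      simp at hHcard
      omega
    obtain ⟨u, hu, hu1⟩ := hex
    exact hu1 (hp1 g hga u hu ((Subgroup.mem_normalizer_iff.mp hg u).mp hu))
  · intro s hs
    rw [Subgroup.mem_normalizer_iff]
    intro u
    constructor
    · exact hconj s hs u
    · intro h
      have := hconj s⁻¹ (Subgroup.inv_mem _ hs) _ h
      simpa [mul_assoc] using this

end Cfsg.Agent.S0878
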