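import Mathlib
import Cfsg.Statements.S0879

set_option autoImplicit false
open Cfsg

namespace Cfsg.Agent.S0879

variable {G Ω : Type*} [Group G] [MulAction G Ω]

theorem swap_or_fix (hZ : Cfsg.IsZassenhausGroup G Ω) {a b : Ω} (hab : a ≠ b) (g x : G)
    (hx1 : x ≠ 1) (hxa : x • a = a) (hxb : x • b = b)
    (hga : (g * x * g⁻¹) • a = a) (hgb : (g * x * g⁻¹) • b = b) :
    (g • a = a ∧ g • b = b) ∨ (g • a = b ∧ g • b = a) := by
  obtain ⟨-, -, h3, -, -⟩ := hZ
  have hne : g * x * g⁻¹ ≠ 1 := by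
    intro h
    apply hx1
    have : x = g⁻¹ * (g * x * g⁻¹) * g := by group
    rw [this, h]; group
  have hfa : (g * x * g⁻¹) • (g • a) = g • a := by
    rw [mul_smul, mul_smul, inv_smul_smul, hxa]
  have hfb : (g * x * g⁻¹) • (g • b) = g • b := by
    rw [mul_smul, mul_smul, inv_smul_smul, hxb]
  have hgab : g • a ≠ g • b := fun h => hab (MulAction.injective g h)
  have ha' : g • a = a ∨ g • a = b := by
    by_contra hcon
    push_neg at hcon
    exact hne (h3 _ a b (g • a) hab (Ne.symm hcon.2) (Ne.symm hcon.1) hga hgb hfa)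
  have hb' : g • b = a ∨ g • b = b := by
    by_contra hcon
    push_neg at hcon
    exact hne (h3 _ a b (g • b) hab (Ne.symm hcon.2) (Ne.symm hcon.1) hga hgb hfb)
  rcases ha' with ha' | ha'
  · rcases hb' with hb' | hb'
    · exact absurd (ha'.trans hb'.symm) hgab
    · exact Or.inl ⟨ha', hb'⟩
  · rcases hb' with hb' | hb'
    · exact Or.inr ⟨ha', hb'⟩
    · exact absurd (ha'.trans hb'.symm) hgab

theorem mem_normalizer_of (a b : Ω) (g : G)
    (h : (g • a = a ∧ g • b = b) ∨ (g • a = b ∧ g • b = a)) :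
    g ∈ Subgroup.normalizer ((MulAction.stabilizer G a ⊓ MulAction.stabilizer G b : Subgroup G) : Set G) := by
  rw [Subgroup.mem_normalizer_iff]
  intro x
  simp only [Subgroup.mem_inf, MulAction.mem_stabilizer_iff]
  have hinv : (g⁻¹ • a = a ∧ g⁻¹ • b = b) ∨ (g⁻¹ • a = b ∧ g⁻¹ • b = a) := by
    rcases h with ⟨h1, h2⟩ | ⟨h1, h2⟩
    · left
      exact ⟨by rw [inv_smul_eq_iff, h1], by rw [inv_smul_eq_iff, h2]⟩
    · right
      exact ⟨by rw [inv_smul_eq_iff, h2], by rw [inv_smul_eq_iff, h1]⟩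
  constructor
  · rintro ⟨hxa, hxb⟩
    rcases hinv with ⟨h1, h2⟩ | ⟨h1, h2⟩
    · constructor
      · rw [mul_smul, mul_smul, h1, hxa]; exact (inv_smul_eq_iff.mp h1).symm
      · rw [mul_smul, mul_smul, h2, hxb]; exact (inv_smul_eq_iff.mp h2).symm
    · constructor
      · rw [mul_smul, mul_smul, h1, hxb]; exact (inv_smul_eq_iff.mp h1).symm
      · rw [mul_smul, mul_smul, h2, hxa]; exact (inv_smul_eq_iff.mp h2).symm
  · rintro ⟨hxa, hxb⟩
    have e1 : ∀ c : Ω, (g * x * g⁻¹) • c = c → x • (g⁻¹ • c) = g⁻¹ • c := by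
      intro c hc
      rw [mul_smul, mul_smul] at hc
      have := congrArg (fun y => g⁻¹ • y) hc
      simp only [inv_smul_smul] at this
      exact this
    have ea := e1 a hxa
    have eb := e1 b hxb
    rcases hinv with ⟨h1, h2⟩ | ⟨h1, h2⟩
    · rw [h1] at ea; rw [h2] at eb; exact ⟨ea, eb⟩
    · rw [h1] at ea; rw [h2] at eb; exact ⟨eb, ea⟩

theorem result {G Ω : Type*} [Group G] [Finite G] [MulAction G Ω] [Fintype Ω] (hZ : Cfsg.IsZassenhausGroup G Ω) {a b : Ω} (hab : a ≠ b) : (∀ g : G, g ∉ Subgroup.normalizer ((MulAction.stabilizer G a ⊓ MulAction.stabilizer G b : Subgroup G) : Set G) → ∀ x ∈ (MulAction.stabilizer G a ⊓ MulAction.stabilizer G b : Subgroup G), g * x * g⁻¹ ∈ (MulAction.stabilizer G a ⊓ MulAction.stabilizer G b : Subgroup G) → x = 1) ∧ ((MulAction.stabilizer G a ⊓ MulAction.stabilizer G b : Subgroup G).subgroupOf (Subgroup.normalizer ((MulAction.stabilizer G a ⊓ MulAction.stabilizer G b : Subgroup G) : Set G))).index = 2 :=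 by
  have h2t := hZ.2.1
  rw [MulAction.is_two_pretransitive_iff] at h2t
  constructor
  · intro g hg x hx hgx
    by_contra hx1
    apply hg
    apply mem_normalizer_of a b g
    simp only [Subgroup.mem_inf, MulAction.mem_stabilizer_iff] at hx hgx
    exact swap_or_fix hZ hab g x hx1 hx.1 hx.2 hgx.1 hgx.2
  · obtain ⟨g₀, hg₀, a₀, b₀, hab₀, hga₀, hgb₀⟩ := hZ.2.2.2.1
    obtain ⟨k, hka, hkb⟩ := h2t hab₀ hab
    -- a nontrivial element of E
    have hx0 : ∃ x : G, x ≠ 1 ∧ x • a = a ∧ x • b = b := by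
      refine ⟨k * g₀ * k⁻¹, ?_, ?_, ?_⟩
      · intro h
        apply hg₀
        have : g₀ = k⁻¹ * (k * g₀ * k⁻¹) * k := by group
        rw [this, h]; group
      · rw [mul_smul, mul_smul, ← hka, inv_smul_smul, hga₀]
      · rw [mul_smul, mul_smul, ← hkb, inv_smul_smul, hgb₀]
    obtain ⟨x₀, hx₀1, hx₀a, hx₀b⟩ := hx0
    obtain ⟨t, hta, htb⟩ := h2t hab (Ne.symm hab)
    have htN : t ∈ Subgroup.normalizer ((MulAction.stabilizer G a ⊓ MulAction.stabilizer G b : Subgroup G) : Set G) :=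
      mem_normalizer_of a b t (Or.inr ⟨hta, htb⟩)
    have hcase : ∀ g ∈ Subgroup.normalizer ((MulAction.stabilizer G a ⊓ MulAction.stabilizer G b : Subgroup G) : Set G),
        (g • a = a ∧ g • b = b) ∨ (g • a = b ∧ g • b = a) := by
      intro g hg
      have hx₀E : x₀ ∈ (MulAction.stabilizer G a ⊓ MulAction.stabilizer G b : Subgroup G) := by
        simp only [Subgroup.mem_inf, MulAction.mem_stabilizer_iff]
        exact ⟨hx₀a, hx₀b⟩
      have := (Subgroup.mem_normalizer_iff.mp hg x₀).mp hx₀E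
      simp only [Subgroup.mem_inf, MulAction.mem_stabilizer_iff] at this
      exact swap_or_fix hZ hab g x₀ hx₀1 hx₀a hx₀b this.1 this.2
    rw [Subgroup.index_eq_two_iff]
    refine ⟨⟨t, htN⟩, ?_⟩
    intro g
    simp only [Subgroup.mem_subgroupOf, Subgroup.coe_mul, Subgroup.mem_inf,
      MulAction.mem_stabilizer_iff]
    rcases hcase g g.2 with ⟨h1, h2⟩ | ⟨h1, h2⟩
    · right
      refine ⟨⟨h1, h2⟩, ?_⟩
      rintro ⟨h3, -⟩
      rw [mul_smul, hta, h2] at h3
      exact hab h3.symm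
    · left
      refine ⟨⟨?_, ?_⟩, ?_⟩
      · rw [mul_smul, hta, h2]
      · rw [mul_smul, htb, h1]
      · rintro ⟨h3, -⟩
        rw [h1] at h3
        exact hab h3.symm

end Cfsg.Agent.S0879
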