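import Mathlib
import Cfsg.Statements.S0883

set_option autoImplicit false
open Cfsg

namespace Cfsg.Agent.S0883

section prelim

variable {G Ω : Type*} [Group G] [MulAction G Ω]

/-- Two-point stabilizers of a 2-transitive action all have the same order. -/
theorem card_two_stab (h2 : MulAction.IsMultiplyPretransitive G Ω 2) {a b c d : Ω} (hab : a ≠ b)
    (hcd : c ≠ d) :
    Nat.card ↥(MulAction.stabilizer G c ⊓ MulAction.stabilizer G d : Subgroup G) =
      Nat.card ↥(MulAction.stabilizer G a ⊓ MulAction.stabilizer G b : Subgroup G) := by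
  obtain ⟨g, hga, hgb⟩ := (MulAction.is_two_pretransitive_iff.mp h2) hab hcd
  have hga' : g⁻¹ • c = a := by rw [← hga, inv_smul_smul]
  have hgb' : g⁻¹ • d = b := by rw [← hgb, inv_smul_smul]
  refine Nat.card_congr
    { toFun := fun k => ⟨g⁻¹ * (k : G) * g, ?_⟩
      invFun := fun k => ⟨g * (k : G) * g⁻¹, ?_⟩
      left_inv := ?_
      right_inv := ?_ }
  · have hk := Subgroup.mem_inf.mp k.2
    refine Subgroup.mem_inf.mpr ⟨?_, ?_⟩
    · rw [MulAction.mem_stabilizer_iff, mul_smul, mul_smul, hga,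
        MulAction.mem_stabilizer_iff.mp hk.1, hga']
    · rw [MulAction.mem_stabilizer_iff, mul_smul, mul_smul, hgb,
        MulAction.mem_stabilizer_iff.mp hk.2, hgb']
  · have hk := Subgroup.mem_inf.mp k.2
    refine Subgroup.mem_inf.mpr ⟨?_, ?_⟩
    · rw [MulAction.mem_stabilizer_iff, mul_smul, mul_smul, hga',
        MulAction.mem_stabilizer_iff.mp hk.1, hga]
    · rw [MulAction.mem_stabilizer_iff, mul_smul, mul_smul, hgb',
        MulAction.mem_stabilizer_iff.mp hk.2, hgb]
  · intro k
    apply Subtype.ext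
    show g * (g⁻¹ * (k : G) * g) * g⁻¹ = k
    group
  · intro k
    apply Subtype.ext
    show g⁻¹ * (g * (k : G) * g⁻¹) * g = k
    group

/-- An involution cannot fix two points when two-point stabilizers have odd order. -/
theorem invol_fix_unique [Finite G] {e : ℕ} (hodd : Odd e)
    (hE : ∀ c d : Ω, c ≠ d →
      Nat.card ↥(MulAction.stabilizer G c ⊓ MulAction.stabilizer G d : Subgroup G) = e)
    {t : G} (ht : orderOf t = 2) {c d : Ω} (hc : t • c = c) (hd : t • d = d) : c = d := by
  by_contra hne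
  have hmem : t ∈ (MulAction.stabilizer G c ⊓ MulAction.stabilizer G d : Subgroup G) :=
    Subgroup.mem_inf.mpr ⟨hc, hd⟩
  have h1 : orderOf (⟨t, hmem⟩ :
      ↥(MulAction.stabilizer G c ⊓ MulAction.stabilizer G d : Subgroup G)) = 2 := by
    rw [Subgroup.orderOf_mk, ht]
  have h2 := orderOf_dvd_natCard (⟨t, hmem⟩ :
      ↥(MulAction.stabilizer G c ⊓ MulAction.stabilizer G d : Subgroup G))
  rw [h1, hE c d hne] at h2
  obtain ⟨k, hk⟩ := hodd
  omega

/-- Elements of the point stabilizer fixing only `a` lie in the regular subgroup `H`. -/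
theorem mem_kernel [Finite G] [Fintype Ω]
    (h3 : ∀ g : G, ∀ a b c : Ω, a ≠ b → b ≠ c → a ≠ c → g • a = a → g • b = b → g • c = c →
      g = 1)
    {a : Ω} (H : Subgroup G) (hHa : H ≤ MulAction.stabilizer G a)
    (hHcard : Nat.card H + 1 = Fintype.card Ω)
    (hHfix : ∀ u ∈ H, u ≠ 1 → ∀ c : Ω, u • c = c → c = a)
    {g : G} (hga : g • a = a) (hg : ∀ c : Ω, g • c = c → c = a) : g ∈ H := by
  classical
  by_contra hgH
  have hcard : Nat.card {c : Ω // c ≠ a} = Nat.card H := by
    rw [Nat.card_eq_fintype_card, Fintype.card_subtype, Finset.filter_ne',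
      Finset.card_erase_of_mem (Finset.mem_univ a), Finset.card_univ]
    omega
  have hreg : ∀ c c' : {c : Ω // c ≠ a}, ∃ k : H, (k : G) • (c : Ω) = c' := by
    intro c c'
    let ψ : H → {c : Ω // c ≠ a} := fun k => ⟨(k : G) • (c : Ω), by
      intro hk
      apply c.2
      have h1 := MulAction.mem_stabilizer_iff.mp (hHa k.2)
      exact smul_left_cancel (k : G) (hk.trans h1.symm)⟩
    have hinj : Function.Injective ψ := by
      intro k1 k2 h12
      have h12' : (k1 : G) • (c : Ω) = (k2 : G) • (c : Ω) := congrArg Subtype.val h12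
      by_contra hne
      have hne' : (k2 : G)⁻¹ * (k1 : G) ≠ 1 := by
        intro h
        apply hne
        apply Subtype.ext
        exact (inv_mul_eq_one.mp h).symm
      have hfix : ((k2 : G)⁻¹ * (k1 : G)) • (c : Ω) = c := by
        rw [mul_smul, h12', inv_smul_smul]
      exact c.2 (hHfix _ (H.mul_mem (H.inv_mem k2.2) k1.2) hne' c hfix)
    have hbij := hinj.bijective_of_nat_card_le (le_of_eq hcard)
    obtain ⟨k, hk⟩ := hbij.2 c'
    exact ⟨k, congrArg Subtype.val hk⟩
  have hex : ∀ c : {c : Ω // c ≠ a}, ∃ k : H, (k : G) • (c : Ω) = g⁻¹ • (c : Ω) := by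
    intro c
    have hne : g⁻¹ • (c : Ω) ≠ a := by
      intro h
      apply c.2
      have h1 : g • (g⁻¹ • (c : Ω)) = g • a := congrArg (fun z => g • z) h
      rw [smul_inv_smul, hga] at h1
      exact h1
    exact hreg c ⟨_, hne⟩
  choose f hf using hex
  have hfinj : Function.Injective f := by
    intro c c' hcc
    by_contra hne
    have hne' : (c : Ω) ≠ c' := fun h => hne (Subtype.ext h)
    have e1 : (g * (f c : G)) • (c : Ω) = c := by rw [mul_smul, hf c, smul_inv_smul]
    have e2 : (g * (f c : G)) • (c' : Ω) = c' := by rw [hcc, mul_smul, hf c', smul_inv_smul]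
    have e3 : (g * (f c : G)) • a = a := by
      rw [mul_smul, MulAction.mem_stabilizer_iff.mp (hHa (f c).2), hga]
    have h1 := h3 _ a c c' (Ne.symm c.2) hne' (Ne.symm c'.2) e3 e1 e2
    apply hgH
    have h2 : g = (f c : G)⁻¹ := eq_inv_of_mul_eq_one_left h1
    rw [h2]
    exact H.inv_mem (f c).2
  have hbij := hfinj.bijective_of_nat_card_le (le_of_eq hcard.symm)
  obtain ⟨c, hc⟩ := hbij.2 1
  have h1 := hf c
  rw [hc, Subgroup.coe_one, one_smul] at h1
  have h2 : g • (c : Ω) = c := by
    have h4 := congrArg (fun z => g • z) h1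
    simpa using h4
  exact c.2 (hg c h2)

/-- Double counting: at most `e` involutions fix a given point. -/
theorem invol_count [Finite G] [Fintype Ω] (h2 : MulAction.IsMultiplyPretransitive G Ω 2)
    {h e : ℕ} (hh : Fintype.card Ω = h + 1) (hhpos : 0 < h) (hodd : Odd e)
    (hE : ∀ c d : Ω, c ≠ d →
      Nat.card ↥(MulAction.stabilizer G c ⊓ MulAction.stabilizer G d : Subgroup G) = e)
    (a : Ω) (S : Finset G) (hS : ∀ t ∈ S, orderOf t = 2 ∧ t • a = a) : S.card ≤ e := by
  classical
  haveI : Fintype G := Fintype.ofFinite G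
  haveI : MulAction.IsPretransitive G Ω := MulAction.isPretransitive_of_is_two_pretransitive
  obtain ⟨Inv, hInv⟩ : ∃ Inv : Finset G,
      Inv = Finset.univ.filter (fun t : G => orderOf t = 2) := ⟨_, rfl⟩
  have hInvmem : ∀ t, t ∈ Inv ↔ orderOf t = 2 := by
    intro t
    rw [hInv]
    simp
  have hfix : ∀ t ∈ Inv, (Finset.univ.filter (fun c : Ω => t • c = c)).card ≤ 1 := by
    intro t ht
    rw [Finset.card_le_one]
    intro c hc d hd
    exact invol_fix_unique hodd hE ((hInvmem t).mp ht) (Finset.mem_filter.mp hc).2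
      (Finset.mem_filter.mp hd).2
  have hmov : ∀ t ∈ Inv, h ≤ (Finset.univ.filter (fun c : Ω => ¬ t • c = c)).card := by
    intro t ht
    have h1 := Finset.card_filter_add_card_filter_not (s := (Finset.univ : Finset Ω))
      (fun c : Ω => t • c = c)
    rw [Finset.card_univ, hh] at h1
    have h2 := hfix t ht
    omega
  have hA : (h + 1) * S.card ≤ Inv.card := by
    have h2 : ∀ c : Ω, S.card ≤ (Inv.filter (fun t => t • c = c)).card := by
      intro c
      obtain ⟨g, hg⟩ := MulAction.exists_smul_eq G a c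
      apply Finset.card_le_card_of_injOn (fun t => g * t * g⁻¹)
      · intro t ht
        have h3 := hS t ht
        have h4 : orderOf (g * t * g⁻¹) = orderOf t := MulEquiv.orderOf_eq (MulAut.conj g) t
        have h5 : (g * t * g⁻¹) • c = c := by
          rw [mul_smul, mul_smul, ← hg, inv_smul_smul, h3.2]
        exact Finset.mem_coe.mpr (Finset.mem_filter.mpr ⟨(hInvmem _).mpr (h4.trans h3.1), h5⟩)
      · intro t1 _ t2 _ h12
        have h12' : g * t1 * g⁻¹ = g * t2 * g⁻¹ := h12
        exact mul_left_cancel (mul_right_cancel h12')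
    calc (h + 1) * S.card = ∑ _c : Ω, S.card := by
          rw [Finset.sum_const, Finset.card_univ, hh, smul_eq_mul]
      _ ≤ ∑ c : Ω, (Inv.filter (fun t => t • c = c)).card := Finset.sum_le_sum (fun c _ => h2 c)
      _ = ∑ t ∈ Inv, (Finset.univ.filter (fun c : Ω => t • c = c)).card := by
          simp only [Finset.card_filter]
          exact Finset.sum_comm
      _ ≤ ∑ _t ∈ Inv, 1 := Finset.sum_le_sum hfix
      _ = Inv.card := by simp
  have hB : Inv.card * h ≤ (h + 1) * (e * h) := by
    have h2 : ∀ c : Ω, (Inv.filter (fun t => ¬ t • c = c)).card ≤ e * h := by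
      intro c
      have h3 := Finset.card_le_mul_card_image_of_maps_to (f := fun t : G => t • c)
        (s := Inv.filter (fun t => ¬ t • c = c)) (t := (Finset.univ : Finset Ω).erase c)
        (fun t ht => Finset.mem_erase.mpr ⟨(Finset.mem_filter.mp ht).2, Finset.mem_univ _⟩) e
        (by
          intro c' hc'
          have hcc : c' ≠ c := (Finset.mem_erase.mp hc').1
          by_cases hemp : (Inv.filter (fun t => ¬ t • c = c)).filter (fun t => t • c = c') = ∅
          · rw [hemp]
            simp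
          · obtain ⟨t0, ht0⟩ := Finset.nonempty_iff_ne_empty.mpr hemp
            have ht0c : t0 • c = c' := (Finset.mem_filter.mp ht0).2
            have ht0o : orderOf t0 = 2 :=
              (hInvmem t0).mp (Finset.mem_filter.mp (Finset.mem_filter.mp ht0).1).1
            have ht0c' : t0 • c' = c := by
              rw [← ht0c, ← mul_smul, ← pow_two, ← ht0o, pow_orderOf_eq_one, one_smul]
            have hcard : (Finset.univ.filter (fun k : G =>
                k ∈ (MulAction.stabilizer G c ⊓ MulAction.stabilizer G c' : Subgroup G))).card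
                  = e := by
              rw [← hE c c' (Ne.symm hcc), Nat.card_eq_fintype_card, Fintype.card_subtype]
            rw [← hcard]
            apply Finset.card_le_card_of_injOn (fun t => t0⁻¹ * t)
            · intro t ht
              have htc : t • c = c' := (Finset.mem_filter.mp ht).2
              have hto : orderOf t = 2 :=
                (hInvmem t).mp (Finset.mem_filter.mp (Finset.mem_filter.mp ht).1).1
              have htc' : t • c' = c := by
                rw [← htc, ← mul_smul, ← pow_two, ← hto, pow_orderOf_eq_one, one_smul]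
              have e1 : (t0⁻¹ * t) • c = c := by
                rw [mul_smul, htc, ← ht0c, inv_smul_smul]
              have e2 : (t0⁻¹ * t) • c' = c' := by
                rw [mul_smul, htc', ← ht0c', inv_smul_smul]
              exact Finset.mem_coe.mpr (Finset.mem_filter.mpr
                ⟨Finset.mem_univ _, Subgroup.mem_inf.mpr ⟨e1, e2⟩⟩)
            · intro t1 _ t2 _ h12
              exact mul_left_cancel h12)
      rw [Finset.card_erase_of_mem (Finset.mem_univ c), Finset.card_univ, hh] at h3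
      simpa using h3
    calc Inv.card * h = ∑ _t ∈ Inv, h := by rw [Finset.sum_const, smul_eq_mul]
      _ ≤ ∑ t ∈ Inv, (Finset.univ.filter (fun c : Ω => ¬ t • c = c)).card :=
          Finset.sum_le_sum hmov
      _ = ∑ c : Ω, (Inv.filter (fun t => ¬ t • c = c)).card := by
          simp only [Finset.card_filter]
          exact Finset.sum_comm
      _ ≤ ∑ _c : Ω, e * h := Finset.sum_le_sum (fun c _ => h2 c)
      _ = (h + 1) * (e * h) := by rw [Finset.sum_const, Finset.card_univ, hh, smul_eq_mul]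
  have h5 : (h + 1) * S.card * h ≤ (h + 1) * (e * h) :=
    (Nat.mul_le_mul_right h hA).trans hB
  have h6 : (h + 1) * h * S.card ≤ (h + 1) * h * e := by
    calc (h + 1) * h * S.card = (h + 1) * S.card * h := by ring
      _ ≤ (h + 1) * (e * h) := h5
      _ = (h + 1) * h * e := by ring
  exact Nat.le_of_mul_le_mul_left h6 (Nat.mul_pos (Nat.succ_pos h) hhpos)

end prelim

theorem result {G Ω : Type*} [Group G] [Finite G] [MulAction G Ω] [Fintype Ω] (hZ : Cfsg.IsZassenhausGroup G Ω) {a b : Ω} (hab : a ≠ b) [IsSimpleGroup G] (h e : ℕ) (hh : Fintype.card Ω = h + 1) (he : Nat.card ↥(MulAction.stabilizer G a ⊓ MulAction.stabilizer G b : Subgroup G) = e) (hodd : Odd e) (hlt : 2 * e < h - 1) (H : Subgroup G) (hHa : H ≤ MulAction.stabilizer G a) (hHcard : Nat.card H + 1 = Fintype.card Ω) (hHfix : ∀ u ∈ H, u ≠ 1 → ∀ c : Ω, u • c = c → c = a) (u : G) (hu : u ∈ H) (hu1 : u ≠ 1) (x y : G) (hx : orderOf x = 2) (hy : orderOf y = 2) (hxy : x * y = u) : orderOf u = 2 := by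
  classical
  obtain ⟨-, h2, h3, -, -⟩ := hZ
  haveI : Fintype G := Fintype.ofFinite G
  have hE : ∀ c d : Ω, c ≠ d →
      Nat.card ↥(MulAction.stabilizer G c ⊓ MulAction.stabilizer G d : Subgroup G) = e :=
    fun c d hcd => (card_two_stab h2 hab hcd).trans he
  have hx2 : x * x = 1 := by rw [← pow_two, ← hx, pow_orderOf_eq_one]
  have hy2 : y * y = 1 := by rw [← pow_two, ← hy, pow_orderOf_eq_one]
  have hxinv : x⁻¹ = x := inv_eq_of_mul_eq_one_right hx2
  have hyinv : y⁻¹ = y := inv_eq_of_mul_eq_one_right hy2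
  have hua : u • a = a := MulAction.mem_stabilizer_iff.mp (hHa hu)
  have hconj : u⁻¹ = x * u * x := by
    rw [← hxy, mul_inv_rev, hxinv, hyinv]
    have e1 : x * (x * y) * x = (x * x) * y * x := by group
    rw [e1, hx2, one_mul]
  have hxa : x • a = a := by
    have h1 : u⁻¹ • (x • a) = x • a := by
      rw [hconj, ← mul_smul, mul_assoc, hx2, mul_one, mul_smul, hua]
    exact hHfix u⁻¹ (H.inv_mem hu) (inv_ne_one.mpr hu1) (x • a) h1
  have hya : y • a = a := by
    have e1 : y = x * u := by
      rw [← hxy, ← mul_assoc, hx2, one_mul]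
    rw [e1, mul_smul, hua, hxa]
  have hxonly : ∀ c : Ω, x • c = c → c = a := fun c hc => invol_fix_unique hodd hE hx hc hxa
  have hyonly : ∀ c : Ω, y • c = c → c = a := fun c hc => invol_fix_unique hodd hE hy hc hya
  have hyH : y ∈ H := mem_kernel h3 H hHa hHcard hHfix hya hyonly
  have hhpos : 0 < h := by
    have h1 : 1 < Fintype.card Ω := Fintype.one_lt_card_iff.mpr ⟨a, b, hab⟩
    omega
  have hxmove : ∀ c : Ω, c ≠ a → x • c ≠ c ∧ x • c ≠ a := by
    intro c hc
    refine ⟨fun h1 => hc (hxonly c h1), fun h1 => hc ?_⟩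
    have h4 : x • c = x • a := h1.trans hxa.symm
    exact smul_left_cancel x h4
  have hcomm : ∀ g : G, g • a = a → g * x = x * g → g ∈ H := by
    intro g hga hgx
    by_cases hg1 : g = 1
    · rw [hg1]
      exact H.one_mem
    · apply mem_kernel h3 H hHa hHcard hHfix hga
      intro c hc
      by_contra hca
      obtain ⟨hm1, hm2⟩ := hxmove c hca
      have h4 : g • (x • c) = x • c := by
        rw [← mul_smul, hgx, mul_smul, hc]
      exact hg1 (h3 g a c (x • c) (Ne.symm hca) (Ne.symm hm1) (Ne.symm hm2) hga hc h4)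
  obtain ⟨S, hS⟩ : ∃ S : Finset G,
      S = Finset.univ.filter (fun t : G => orderOf t = 2 ∧ t • a = a) := ⟨_, rfl⟩
  have hScard : S.card ≤ e := by
    apply invol_count h2 hh hhpos hodd hE a S
    intro t ht
    rw [hS] at ht
    exact (Finset.mem_filter.mp ht).2
  obtain ⟨Ef, hEf⟩ : ∃ Ef : Finset G, Ef = Finset.univ.filter (fun k : G =>
      k ∈ (MulAction.stabilizer G a ⊓ MulAction.stabilizer G b : Subgroup G)) := ⟨_, rfl⟩
  have hEfmem : ∀ k, k ∈ Ef ↔ k • a = a ∧ k • b = b := by
    intro k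
    rw [hEf]
    simp [Subgroup.mem_inf]
  have hEfcard : Ef.card = e := by
    rw [hEf, ← he, Nat.card_eq_fintype_card, Fintype.card_subtype]
  obtain ⟨hb1, hb2⟩ := hxmove b (Ne.symm hab)
  have hOcard : (Ef.image (fun k => k * x * k⁻¹)).card = e := by
    rw [Finset.card_image_of_injOn, hEfcard]
    intro k1 hk1 k2 hk2 h12
    have h12' : k1 * x * k1⁻¹ = k2 * x * k2⁻¹ := h12
    obtain ⟨hk1a, hk1b⟩ := (hEfmem k1).mp (Finset.mem_coe.mp hk1)
    obtain ⟨hk2a, hk2b⟩ := (hEfmem k2).mp (Finset.mem_coe.mp hk2)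
    have hga : (k2⁻¹ * k1) • a = a := by rw [mul_smul, hk1a, ← hk2a, inv_smul_smul, hk2a]
    have hgb : (k2⁻¹ * k1) • b = b := by rw [mul_smul, hk1b, ← hk2b, inv_smul_smul, hk2b]
    have hgx : (k2⁻¹ * k1) * x = x * (k2⁻¹ * k1) := by
      have e1 : (k2⁻¹ * k1) * x = k2⁻¹ * (k1 * x * k1⁻¹) * k1 := by group
      rw [e1, h12']
      group
    have hgxb : (k2⁻¹ * k1) • (x • b) = x • b := by
      rw [← mul_smul, hgx, mul_smul, hgb]
    have h4 := h3 (k2⁻¹ * k1) a b (x • b) hab (Ne.symm hb1) (Ne.symm hb2) hga hgb hgxb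
    exact (inv_mul_eq_one.mp h4).symm
  have hOS : Ef.image (fun k => k * x * k⁻¹) ⊆ S := by
    intro t ht
    obtain ⟨k, hk, rfl⟩ := Finset.mem_image.mp ht
    obtain ⟨hka, hkb⟩ := (hEfmem k).mp hk
    rw [hS]
    refine Finset.mem_filter.mpr ⟨Finset.mem_univ _, ?_, ?_⟩
    · exact (MulEquiv.orderOf_eq (MulAut.conj k) x).trans hx
    · have hka' : k⁻¹ • a = a := by
        have h5 := congrArg (fun z => k⁻¹ • z) hka
        simpa using h5.symm
      rw [mul_smul, mul_smul, hka', hxa, hka]
  have hOeq : Ef.image (fun k => k * x * k⁻¹) = S :=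
    Finset.eq_of_subset_of_card_le hOS (by rw [hOcard]; exact hScard)
  have hmem : y * x * y⁻¹ ∈ S := by
    rw [hS]
    refine Finset.mem_filter.mpr ⟨Finset.mem_univ _, ?_, ?_⟩
    · exact (MulEquiv.orderOf_eq (MulAut.conj y) x).trans hx
    · rw [hyinv, mul_smul, mul_smul, hya, hxa, hya]
  rw [← hOeq] at hmem
  obtain ⟨k, hk, hkx⟩ := Finset.mem_image.mp hmem
  obtain ⟨hka, hkb⟩ := (hEfmem k).mp hk
  have hkx' : k * x * k⁻¹ = y * x * y⁻¹ := hkx
  have hga : (k⁻¹ * y) • a = a := by
    rw [mul_smul, hya, ← hka, inv_smul_smul, hka]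
  have hgx : (k⁻¹ * y) * x = x * (k⁻¹ * y) := by
    have e1 : (k⁻¹ * y) * x = k⁻¹ * (y * x * y⁻¹) * y := by group
    rw [e1, ← hkx']
    group
  have hgH : k⁻¹ * y ∈ H := hcomm _ hga hgx
  have hkH : k ∈ H := by
    have e1 : k = y * (k⁻¹ * y)⁻¹ := by group
    rw [e1]
    exact H.mul_mem hyH (H.inv_mem hgH)
  have hk1 : k = 1 := by
    by_contra hne
    exact hab (hHfix k hkH hne b hkb).symm
  rw [hk1] at hkx'
  have hyx : y * x = x * y := by
    have e1 : y * x = (y * x * y⁻¹) * y := by group
    rw [e1, ← hkx']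
    group
  have hu2 : u ^ 2 = 1 := by
    rw [pow_two, ← hxy]
    have e1 : x * y * (x * y) = x * (y * x) * y := by group
    rw [e1, hyx]
    have e2 : x * (x * y) * y = (x * x) * (y * y) := by group
    rw [e2, hx2, hy2, one_mul]
  haveI : Fact (Nat.Prime 2) := ⟨Nat.prime_two⟩
  exact orderOf_eq_prime hu2 hu1

end Cfsg.Agent.S0883
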