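import Cfsg.Statements.S0893
import Cfsg.Agent.Lib.Helper1.CharExtra
open Cfsg.Agent.Lib.Helper1
open scoped ComplexConjugate

set_option autoImplicit false
open Cfsg

namespace Cfsg.Agent.S0893

/-- Let P be an extraspecial p-group of order p ^ (2 * n + 1), A an abelian subgroup of order p ^ (n + 1), and λ a character of A of degree 1 that is not identically 1 on the elements of A lying in the centre of P. Then the function induced from λ to P is an irreducible character of P and vanishes at every element outside the centre. -/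
theorem result {P : Type*} [Group P] [Fintype P] (p n : ℕ) [Fact p.Prime] (hP : Cfsg.IsExtraspecial p P) (hcard : Nat.card P = p ^ (2 * n + 1)) (A : Subgroup P) (hab : ∀ a ∈ A, ∀ b ∈ A, a * b = b * a) (hA : Nat.card A = p ^ (n + 1)) (lam : A → ℂ) (hlam : Cfsg.IsCharacter A lam ∧ lam 1 = 1) (hZ : ∃ a : A, (a : P) ∈ Subgroup.center P ∧ lam a ≠ 1) : Cfsg.IsIrrCharacter P (Cfsg.indFun A lam) ∧ ∀ x : P, x ∉ Subgroup.center P → Cfsg.indFun A lam x = 0 := by
  classical
  obtain ⟨hchar, hlam1⟩ := hlam
  obtain ⟨mu, hmu⟩ := IsCharacter.exists_monoidHom hchar hlam1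
  obtain ⟨a0, ha0c, ha0⟩ := hZ
  have ha01 : (a0 : P) ≠ 1 := by
    intro h
    apply ha0
    have : a0 = 1 := Subtype.ext h
    rw [this, hlam1]
  have hcen : ∀ z ∈ Subgroup.center P, z ∈ A := by
    intro z hz
    obtain ⟨k, rfl⟩ := extraspecial_center_pow hP ha0c ha01 hz
    exact A.pow_mem a0.2 k
  have hnt : ∀ z (hz : z ∈ Subgroup.center P), z ≠ 1 → lam ⟨z, hcen z hz⟩ ≠ 1 := by
    intro z hz hz1 h1
    obtain ⟨k, hk⟩ := extraspecial_center_pow hP hz hz1 ha0c
    apply ha0
    have : a0 = (⟨z, hcen z hz⟩ : A) ^ k := Subtype.ext (by simpa using hk)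
    rw [this, hmu, map_pow, Units.val_pow_eq_pow_val, ← hmu, h1, one_pow]
  have hext : ∀ (w z : P) (hz : z ∈ Subgroup.center P),
      Cfsg.extendByZero A lam (w * z) = Cfsg.extendByZero A lam w * lam ⟨z, hcen z hz⟩ := by
    intro w z hz
    by_cases hw : w ∈ A
    · have hwz : w * z ∈ A := A.mul_mem hw (hcen z hz)
      rw [extendByZero_of_mem A lam hwz, extendByZero_of_mem A lam hw]
      have : (⟨w * z, hwz⟩ : A) = ⟨w, hw⟩ * ⟨z, hcen z hz⟩ := rfl
      rw [this, hmu, hmu, hmu, map_mul, Units.val_mul]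
    · have hwz : w * z ∉ A := by
        intro h
        apply hw
        have := A.mul_mem h (A.inv_mem (hcen z hz))
        simpa using this
      rw [extendByZero_of_not_mem A lam hwz, extendByZero_of_not_mem A lam hw, zero_mul]
  have hvanish : ∀ x : P, x ∉ Subgroup.center P → Cfsg.indFun A lam x = 0 := by
    intro x hx
    obtain ⟨c, z, hz, hz1, hcz⟩ := extraspecial_exists_conj hP hx
    rw [indFun_apply]
    have hS : ∑ y : P, Cfsg.extendByZero A lam (y⁻¹ * x * y) =
        (∑ y : P, Cfsg.extendByZero A lam (y⁻¹ * x * y)) * lam ⟨z, hcen z hz⟩ := by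
      rw [Finset.sum_mul]
      rw [← Equiv.sum_comp (Equiv.mulLeft c)]
      refine Finset.sum_congr rfl (fun y _ => ?_)
      rw [← hext _ z hz]
      congr 1
      simp only [Equiv.coe_mulLeft]
      have h1 : (c * y)⁻¹ * x * (c * y) = y⁻¹ * (c⁻¹ * x * c) * y := by group
      have hzc := Subgroup.mem_center_iff.mp hz y
      rw [h1, hcz, mul_assoc y⁻¹ (x * z) y, mul_assoc x z y, ← hzc]
      group
    have h1 := hnt z hz hz1
    have h2 : (∑ y : P, Cfsg.extendByZero A lam (y⁻¹ * x * y)) * (1 - lam ⟨z, hcen z hz⟩) = 0 := by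
      rw [mul_sub, mul_one, ← hS, sub_self]
    rcases mul_eq_zero.mp h2 with h | h
    · rw [h, mul_zero]
    · exact absurd (sub_eq_zero.mp h).symm h1
  refine ⟨?_, hvanish⟩
  apply IsCharacter.isIrr_of_classInner_self (indFun_isCharacter A hchar)
  have hppos : 0 < p := (Fact.out : p.Prime).pos
  have hpne : (p : ℂ) ≠ 0 := by exact_mod_cast hppos.ne'
  have hval : ∀ z (hz : z ∈ Subgroup.center P),
      Cfsg.indFun A lam z = (p : ℂ) ^ n * lam ⟨z, hcen z hz⟩ := by
    intro z hz
    rw [indFun_apply]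
    have h1 : ∀ y : P, Cfsg.extendByZero A lam (y⁻¹ * z * y) = lam ⟨z, hcen z hz⟩ := by
      intro y
      have h2 : y⁻¹ * z * y = z := by
        have hzc := Subgroup.mem_center_iff.mp hz y
        rw [mul_assoc, ← hzc]
        group
      rw [h2]
      exact extendByZero_of_mem A lam (hcen z hz)
    simp only [h1, Finset.sum_const, Finset.card_univ, nsmul_eq_mul]
    rw [hA, ← Nat.card_eq_fintype_card, hcard]
    push_cast
    field_simp
    ring
  unfold Cfsg.classInner
  have hsum : ∑ g : P, Cfsg.indFun A lam g * conj (Cfsg.indFun A lam g) =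
      ∑ g ∈ Finset.univ.filter (fun g : P => g ∈ Subgroup.center P), ((p : ℂ) ^ n) ^ 2 := by
    rw [← Finset.sum_subset (Finset.subset_univ
      (Finset.univ.filter (fun g : P => g ∈ Subgroup.center P)))]
    · refine Finset.sum_congr rfl (fun g hg => ?_)
      have hg' : g ∈ Subgroup.center P := (Finset.mem_filter.mp hg).2
      rw [hval g hg', map_mul, hmu]
      have h3 := monoidHom_conj_mul_self mu ⟨g, hcen g hg'⟩
      have h4 : conj ((p : ℂ) ^ n) = (p : ℂ) ^ n := by
        rw [map_pow, Complex.conj_natCast]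
      rw [h4]
      linear_combination ((p : ℂ) ^ n) ^ 2 * h3
    · intro g _ hg
      have hg' : g ∉ Subgroup.center P := by
        intro h
        exact hg (Finset.mem_filter.mpr ⟨Finset.mem_univ _, h⟩)
      rw [hvanish g hg', zero_mul]
  rw [hsum, Finset.sum_const, nsmul_eq_mul]
  have hc : (Finset.univ.filter (fun g : P => g ∈ Subgroup.center P)).card = p := by
    rw [← hP.2, Nat.card_eq_fintype_card, Fintype.card_subtype]
  rw [hc, hcard]
  push_cast
  field_simp
  ring

end Cfsg.Agent.S0893
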