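import Cfsg.Statements.S0894
import Cfsg.Agent.Lib.Helper1.CharExtra
open Cfsg.Agent.Lib.Helper1
open scoped ComplexConjugate

set_option autoImplicit false
open Cfsg

namespace Cfsg.Agent.S0894

/-- Let P be an extraspecial p-group of order p ^ (2 * n + 1). Then every irreducible character of P has degree 1 or p ^ n, and exactly p - 1 of them have degree p ^ n. -/
theorem result {P : Type*} [Group P] [Finite P] (p n : ℕ) [Fact p.Prime] (hP : Cfsg.IsExtraspecial p P) (hcard : Nat.card P = p ^ (2 * n + 1)) : (∀ χ : Cfsg.IrrCharacter P, (χ : P → ℂ) 1 = 1 ∨ (χ : P → ℂ) 1 = (p : ℂ) ^ n) ∧ Nat.card {χ : Cfsg.IrrCharacter P // (χ : P → ℂ) 1 = (p : ℂ) ^ n} = p - 1 := by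
  classical
  have hfin := Fintype.ofFinite P
  have hirr : Fintype (Cfsg.IrrCharacter P) := irrFintype
  have hpp : p.Prime := Fact.out
  have hppos : 0 < p := hpp.pos
  have hpne : (p : ℂ) ≠ 0 := by exact_mod_cast hppos.ne'
  have hZcard : (Finset.univ.filter (fun g : P => g ∈ Subgroup.center P)).card = p := by
    rw [← hP.2, Nat.card_eq_fintype_card, Fintype.card_subtype]
  have hn : n ≠ 0 := by
    intro h0
    subst h0
    have h1 : Subgroup.center P = ⊤ := by
      apply Subgroup.eq_top_of_card_eq
      rw [hP.2, hcard]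
      simp
    have h2 : commutator P = ⊥ := (commutator_eq_bot_iff_center_eq_top P).mpr h1
    have h3 := hP.1.2.2
    rw [h2, h1] at h3
    have h4 : Nat.card P = 1 := by
      rw [← Subgroup.card_top (G := P), ← h3, Subgroup.card_bot]
    rw [hcard] at h4
    simp at h4
    exact hpp.one_lt.ne' h4
  have key : ∀ χ : Cfsg.IrrCharacter P,
      ((χ : P → ℂ) 1 = 1 ∧
        ∑ z ∈ Finset.univ.filter (fun g : P => g ∈ Subgroup.center P), (χ : P → ℂ) z = p) ∨
      ((χ : P → ℂ) 1 = (p : ℂ) ^ n ∧
        ∑ z ∈ Finset.univ.filter (fun g : P => g ∈ Subgroup.center P), (χ : P → ℂ) z = 0) := by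
    intro χ
    have hχ := χ.2
    have hcf := IsIrrCharacter.isClassFunction hχ
    by_cases hc1 : ∀ z ∈ Subgroup.center P, (χ : P → ℂ) z = (χ : P → ℂ) 1
    · left
      have h1 : (χ : P → ℂ) 1 = 1 := IsIrrCharacter.degree_one_of_comm_ker hχ
        (fun x y => hc1 _ (extraspecial_comm_mem_center hP x y))
      refine ⟨h1, ?_⟩
      rw [Finset.sum_congr rfl (fun z hz => (hc1 z (Finset.mem_filter.mp hz).2).trans h1)]
      rw [Finset.sum_const, hZcard]
      simp
    · right
      rw [not_forall] at hc1
      obtain ⟨z1, hz1'⟩ := hc1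
      rw [Classical.not_imp] at hz1'
      obtain ⟨hz1, hz1ne⟩ := hz1'
      obtain ⟨c1, hc1c, hc1m⟩ := IsIrrCharacter.central_mul hχ hz1
      have hc1ne : c1 ≠ 1 := by
        intro h
        apply hz1ne
        have := hc1m 1
        rw [one_mul, h, one_mul] at this
        exact this
      have hsum0 : ∑ z ∈ Finset.univ.filter (fun g : P => g ∈ Subgroup.center P),
          (χ : P → ℂ) z = 0 := by
        have h1 : ∑ z ∈ Finset.univ.filter (fun g : P => g ∈ Subgroup.center P), (χ : P → ℂ) z =
            c1 * ∑ z ∈ Finset.univ.filter (fun g : P => g ∈ Subgroup.center P),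
              (χ : P → ℂ) z := by
          rw [Finset.mul_sum]
          rw [← Finset.sum_congr rfl (fun z _ => hc1m z)]
          symm
          apply Finset.sum_bij (fun z _ => z * z1)
          · intro z hz
            simp only [Finset.mem_filter, Finset.mem_univ, true_and] at hz ⊢
            exact Subgroup.mul_mem _ hz hz1
          · intro a _ b _ h
            exact mul_right_cancel h
          · intro b hb
            simp only [Finset.mem_filter, Finset.mem_univ, true_and] at hb
            refine ⟨b * z1⁻¹, ?_, by simp⟩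
            simp only [Finset.mem_filter, Finset.mem_univ, true_and]
            exact Subgroup.mul_mem _ hb (Subgroup.inv_mem _ hz1)
          · intro z _
            rfl
        have h2 : (1 - c1) * ∑ z ∈ Finset.univ.filter (fun g : P => g ∈ Subgroup.center P),
            (χ : P → ℂ) z = 0 := by
          rw [sub_mul, one_mul, ← h1, sub_self]
        rcases mul_eq_zero.mp h2 with h | h
        · exact absurd (sub_eq_zero.mp h).symm hc1ne
        · exact h
      refine ⟨?_, hsum0⟩
      have hnt : ∀ z ∈ Subgroup.center P, z ≠ 1 → ∀ c : ℂ,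
          (∀ g, (χ : P → ℂ) (g * z) = c * (χ : P → ℂ) g) → c ≠ 1 := by
        intro z hz hzne c hc h1
        subst h1
        obtain ⟨k, hk⟩ := extraspecial_center_pow hP hz hzne hz1
        apply hz1ne
        rw [hk]
        have : ∀ k : ℕ, (χ : P → ℂ) (z ^ k) = (χ : P → ℂ) 1 := by
          intro k
          induction k with
          | zero => simp
          | succ k ih => rw [pow_succ, hc, one_mul, ih]
        exact this k
      have hvan : ∀ x : P, x ∉ Subgroup.center P → (χ : P → ℂ) x = 0 := by
        intro x hx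
        obtain ⟨c, z, hz, hzne, hcz⟩ := extraspecial_exists_conj hP hx
        obtain ⟨cz, hczc, hczm⟩ := IsIrrCharacter.central_mul hχ hz
        have hne := hnt z hz hzne cz hczm
        have h1 : (χ : P → ℂ) (c⁻¹ * x * c) = (χ : P → ℂ) x := by
          have := hcf x c⁻¹
          rwa [inv_inv] at this
        rw [hcz, hczm] at h1
        have h2 : (cz - 1) * (χ : P → ℂ) x = 0 := by rw [sub_mul, h1, one_mul, sub_self]
        rcases mul_eq_zero.mp h2 with h | h
        · exact absurd (sub_eq_zero.mp h) hne
        · exact h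
      obtain ⟨m, hm, hm1⟩ := IsIrrCharacter.degree_pos hχ
      have hnorm : ∀ z ∈ Subgroup.center P,
          (χ : P → ℂ) z * conj ((χ : P → ℂ) z) = (m : ℂ) ^ 2 := by
        intro z hz
        obtain ⟨cz, hczc, hczm⟩ := IsIrrCharacter.central_mul hχ hz
        have h1 := hczm 1
        rw [one_mul] at h1
        rw [h1, map_mul, hm1, Complex.conj_natCast]
        linear_combination (m : ℂ) ^ 2 * hczc
      have hself := classInner_irr_self hχ
      unfold Cfsg.classInner at hself
      rw [← Finset.sum_subset (Finset.subset_univ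
        (Finset.univ.filter (fun g : P => g ∈ Subgroup.center P)))
        (by
          intro g _ hg
          have hg' : g ∉ Subgroup.center P := by
            intro h
            exact hg (Finset.mem_filter.mpr ⟨Finset.mem_univ _, h⟩)
          rw [hvan g hg', zero_mul])] at hself
      rw [Finset.sum_congr rfl (fun z hz => hnorm z (Finset.mem_filter.mp hz).2),
        Finset.sum_const, hZcard, hcard, nsmul_eq_mul] at hself
      rw [hm1]
      have h3 : (m : ℂ) ^ 2 = ((p : ℂ) ^ n) ^ 2 := by
        push_cast at hself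
        field_simp at hself
        have h6 : (p : ℂ) * ((m : ℂ) ^ 2 - ((p : ℂ) ^ n) ^ 2) = 0 := by
          rw [mul_sub, hself]
          ring
        rcases mul_eq_zero.mp h6 with h | h
        · exact absurd h hpne
        · exact sub_eq_zero.mp h
      have h4 : m ^ 2 = (p ^ n) ^ 2 := by exact_mod_cast h3
      have h5 : m = p ^ n := Nat.pow_left_injective (by norm_num : (2 : ℕ) ≠ 0) h4
      rw [h5]
      push_cast
      rfl
  refine ⟨fun χ => ?_, ?_⟩
  · rcases key χ with h | h
    · exact Or.inl h.1
    · exact Or.inr h.1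
  · have hp1 : (p : ℂ) ^ n ≠ 1 := by
      intro h
      have h1 : p ^ n = 1 := by exact_mod_cast h
      rcases Nat.pow_eq_one.mp h1 with h2 | h2
      · exact hpp.one_lt.ne' h2
      · exact hn h2
    have hD1 : ∀ χ : Cfsg.IrrCharacter P, (χ : P → ℂ) 1 = (p : ℂ) ^ n →
        ∑ z ∈ Finset.univ.filter (fun g : P => g ∈ Subgroup.center P), (χ : P → ℂ) z = 0 := by
      intro χ hD
      rcases key χ with h | h
      · exact absurd (hD.symm.trans h.1) hp1
      · exact h.2
    have hD2 : ∀ χ : Cfsg.IrrCharacter P, ¬ (χ : P → ℂ) 1 = (p : ℂ) ^ n →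
        (χ : P → ℂ) 1 = 1 ∧
        ∑ z ∈ Finset.univ.filter (fun g : P => g ∈ Subgroup.center P), (χ : P → ℂ) z = p := by
      intro χ hD
      rcases key χ with h | h
      · exact h
      · exact absurd h.1 hD
    have hs1 := sum_sq_degrees (G := P)
    have hs2 : ∑ χ : Cfsg.IrrCharacter P,
        ∑ z ∈ Finset.univ.filter (fun g : P => g ∈ Subgroup.center P),
          (χ : P → ℂ) z * conj ((χ : P → ℂ) 1) = (Nat.card P : ℂ) := by
      rw [Finset.sum_comm]
      have h1 : ∀ z ∈ Finset.univ.filter (fun g : P => g ∈ Subgroup.center P),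
          ∑ χ : Cfsg.IrrCharacter P, (χ : P → ℂ) z * conj ((χ : P → ℂ) 1) =
            if z = 1 then (Nat.card P : ℂ) else 0 := by
        intro z _
        rw [col_orth]
        by_cases hz : z = 1
        · subst hz
          rw [if_pos (IsConj.refl 1), if_pos rfl]
          congr 1
          have : Subgroup.centralizer ({1} : Set P) = ⊤ := by
            ext x
            simp [Subgroup.mem_centralizer_iff]
          rw [this, Subgroup.card_top]
        · rw [if_neg hz, if_neg]
          intro hc
          exact hz (isConj_one_left.mp hc)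
      rw [Finset.sum_congr rfl h1, Finset.sum_ite_eq', if_pos]
      exact Finset.mem_filter.mpr ⟨Finset.mem_univ _, Subgroup.one_mem _⟩
    have e1 : ∑ χ : Cfsg.IrrCharacter P, (χ : P → ℂ) 1 ^ 2 =
        ∑ χ : Cfsg.IrrCharacter P, (if (χ : P → ℂ) 1 = (p : ℂ) ^ n then ((p : ℂ) ^ n) ^ 2 else 1) := by
      refine Finset.sum_congr rfl (fun χ _ => ?_)
      by_cases hD : (χ : P → ℂ) 1 = (p : ℂ) ^ n
      · rw [if_pos hD, hD]
      · rw [if_neg hD, (hD2 χ hD).1, one_pow]
    have e2 : ∑ χ : Cfsg.IrrCharacter P,
        ∑ z ∈ Finset.univ.filter (fun g : P => g ∈ Subgroup.center P),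
          (χ : P → ℂ) z * conj ((χ : P → ℂ) 1) =
        ∑ χ : Cfsg.IrrCharacter P, (if (χ : P → ℂ) 1 = (p : ℂ) ^ n then 0 else (p : ℂ)) := by
      refine Finset.sum_congr rfl (fun χ _ => ?_)
      rw [← Finset.sum_mul]
      by_cases hD : (χ : P → ℂ) 1 = (p : ℂ) ^ n
      · rw [if_pos hD, hD1 χ hD, zero_mul]
      · rw [if_neg hD, (hD2 χ hD).2, (hD2 χ hD).1, map_one, mul_one]
    rw [e1, Finset.sum_ite, Finset.sum_const, Finset.sum_const, hcard] at hs1
    rw [e2, Finset.sum_ite, Finset.sum_const, Finset.sum_const, hcard] at hs2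
    simp only [nsmul_eq_mul, mul_zero, zero_add, mul_one] at hs1 hs2
    set N2 := (Finset.univ.filter (fun χ : Cfsg.IrrCharacter P => (χ : P → ℂ) 1 = (p : ℂ) ^ n)).card
      with hN2
    set B := (Finset.univ.filter (fun χ : Cfsg.IrrCharacter P => ¬ (χ : P → ℂ) 1 = (p : ℂ) ^ n)).card
      with hB
    have f1 : N2 * (p ^ n) ^ 2 + B = p ^ (2 * n + 1) := by exact_mod_cast hs1
    have f2 : B * p = p ^ (2 * n + 1) := by exact_mod_cast hs2
    have f3 : B = p ^ (2 * n) := by
      have : B * p = p ^ (2 * n) * p := by rw [f2, pow_succ]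
      exact Nat.eq_of_mul_eq_mul_right hppos this
    have f4 : N2 * p ^ (2 * n) = (p - 1) * p ^ (2 * n) := by
      have e : (p ^ n) ^ 2 = p ^ (2 * n) := by rw [← pow_mul, mul_comm]
      rw [e, f3] at f1
      have h1 : N2 * p ^ (2 * n) + p ^ (2 * n) = p ^ (2 * n) * p := by
        rw [f1, pow_succ]
      have h2 : (p - 1) * p ^ (2 * n) + p ^ (2 * n) = p ^ (2 * n) * p := by
        calc (p - 1) * p ^ (2 * n) + p ^ (2 * n) = ((p - 1) + 1) * p ^ (2 * n) := by ring
          _ = p * p ^ (2 * n) := by rw [Nat.sub_add_cancel hppos]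
          _ = p ^ (2 * n) * p := mul_comm _ _
      omega
    have f5 : N2 = p - 1 := Nat.eq_of_mul_eq_mul_right (pow_pos hppos _) f4
    rw [Nat.card_eq_fintype_card, Fintype.card_subtype]
    exact f5

end Cfsg.Agent.S0894
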