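import Cfsg.Statements.S0895
import Cfsg.Agent.Lib.Helper10.FS

set_option autoImplicit false
open Cfsg

namespace Cfsg.Agent.S0895

open Cfsg.Agent.Lib.Helper10 Cfsg.Agent.Lib.Helper1

/-- Let χ be a real-valued irreducible character of a finite group G whose degree is an odd natural number. Then the average over s in G of χ (s * s) equals 1. -/
theorem result {G : Type*} [Group G] [Fintype G] (χ : G → ℂ) (hχ : Cfsg.IsIrrCharacter G χ) (hreal : ∀ g : G, (χ g).im = 0) (d : ℕ) (hd : χ 1 = d) (hodd : Odd d) : (Nat.card G : ℂ)⁻¹ * ∑ s : G, χ (s * s) = 1 := by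
  obtain ⟨n, ρ, hρ, rfl⟩ := hχ
  haveI := hρ
  rcases FS.dichotomy n ρ with ⟨-, -, s, hs⟩ | ⟨M0, ε, hinv, hne, hunit, hε, hind, -, hT, -⟩
  · exact absurd (hreal s) hs
  · rcases hε with h | h
    · have := hind
      rw [h] at this
      exact this
    · exfalso
      have hn : (n : ℂ) = d := by
        rw [← hd, character_apply, map_one, LinearMap.trace_one, Module.finrank_fin_fun]
      have hnd : n = d := by exact_mod_cast hn
      have h1 := hT M0 hinv
      rw [h] at h1
      have h2 : M0.det = (-1) ^ n * M0.det := by
        have := congrArg Matrix.det h1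
        rw [Matrix.det_transpose, neg_one_smul, Matrix.det_neg, Fintype.card_fin] at this
        exact this
      have hoddn : Odd n := hnd ▸ hodd
      rw [Odd.neg_one_pow hoddn] at h2
      have h3 : M0.det = 0 := by linear_combination (1/2 : ℂ) * h2
      have h4 : IsUnit M0.det := (Matrix.isUnit_iff_isUnit_det M0).mp hunit
      rw [h3] at h4
      exact not_isUnit_zero h4

end Cfsg.Agent.S0895
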