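import Mathlib
import Cfsg.Statements.S0901

set_option autoImplicit false
open Cfsg

namespace Cfsg.Agent.S0901

/-- Let M be a maximal ideal of the ring of algebraic integers containing the prime p, and let U be the set of complex roots of unity of order prime to p. Then reduction modulo M is injective on U, and every algebraic integer not in M is congruent modulo M to an element of U (so U maps bijectively onto the nonzero residues). -/
theorem result (p : ℕ) [Fact p.Prime] (M : Ideal Cfsg.AlgInt) (hM : Cfsg.IsPModular p M) : (∀ ε₁ ε₂ : Cfsg.AlgInt, (∃ m : ℕ, ¬ p ∣ m ∧ (ε₁ : ℂ) ^ m = 1) → (∃ m : ℕ, ¬ p ∣ m ∧ (ε₂ : ℂ) ^ m = 1) → ε₁ - ε₂ ∈ M → ε₁ = ε₂) ∧ (∀ a : Cfsg.AlgInt, a ∉ M → ∃ ε : Cfsg.AlgInt, (∃ m : ℕ, ¬ p ∣ m ∧ (ε : ℂ) ^ m = 1) ∧ a - ε ∈ M) := by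
  classical
  have hp : p.Prime := Fact.out
  haveI hmaxI : M.IsMaximal := hM.2.1
  have hcop_mem : ∀ m : ℕ, ¬ p ∣ m → (m : Cfsg.AlgInt) ∈ M → False := by
    intro m hm hmem
    have hc : Nat.Coprime p m := (Nat.Prime.coprime_iff_not_dvd hp).mpr hm
    obtain ⟨a, b, hab⟩ := Nat.isCoprime_iff_coprime.mpr hc
    have h1 : (1 : Cfsg.AlgInt) ∈ M := by
      have h2 : ((a * (p : ℤ) + b * (m : ℤ) : ℤ) : Cfsg.AlgInt) = 1 := by
        rw [hab]; simp
      rw [← h2]
      push_cast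
      exact M.add_mem (M.mul_mem_left _ hM.2.2) (M.mul_mem_left _ hmem)
    exact hmaxI.ne_top ((Ideal.eq_top_iff_one M).mpr h1)
  constructor
  · rintro ε₁ ε₂ ⟨m₁, hm₁, h₁⟩ ⟨m₂, hm₂, h₂⟩ hmem
    have hm : ¬ p ∣ m₁ * m₂ := fun h => (hp.dvd_mul.mp h).elim hm₁ hm₂
    have hm0 : m₁ * m₂ ≠ 0 := fun h => hm (h ▸ dvd_zero p)
    obtain ⟨m, hmdef⟩ : ∃ m : ℕ, m = m₁ * m₂ := ⟨_, rfl⟩
    rw [← hmdef] at hm hm0
    have e₁ : ε₁ ^ m = 1 := by
      apply Subtype.ext
      push_cast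
      rw [hmdef, pow_mul, h₁, one_pow]
    have e₂ : ε₂ ^ m = 1 := by
      apply Subtype.ext
      push_cast
      rw [hmdef, mul_comm, pow_mul, h₂, one_pow]
    obtain ⟨m', hm'⟩ : ∃ m', m = m' + 1 := ⟨m - 1, by omega⟩
    have hinv : ε₁ ^ m' * ε₁ = 1 := by rw [← pow_succ, ← hm', e₁]
    by_contra hne
    have hζm : (ε₂ * ε₁ ^ m') ^ m = 1 := by
      rw [mul_pow, e₂, one_mul, ← pow_mul, mul_comm, pow_mul, e₁, one_pow]
    have hζ1 : ε₂ * ε₁ ^ m' ≠ 1 := by
      intro h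
      apply hne
      have h3 : ε₂ * ε₁ ^ m' * ε₁ = ε₁ := by rw [h, one_mul]
      rw [mul_assoc, hinv, mul_one] at h3
      exact h3.symm
    have hmem1 : 1 - ε₂ * ε₁ ^ m' ∈ M := by
      have h3 : 1 - ε₂ * ε₁ ^ m' = ε₁ ^ m' * (ε₁ - ε₂) := by
        rw [mul_sub, hinv, mul_comm]
      rw [h3]
      exact M.mul_mem_left _ hmem
    have hsum0 : ∑ i ∈ Finset.range m, (ε₂ * ε₁ ^ m') ^ i = 0 := by
      have h3 := mul_geom_sum (ε₂ * ε₁ ^ m') m
      rw [hζm, sub_self] at h3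
      rcases mul_eq_zero.mp h3 with h4 | h4
      · exact absurd (sub_eq_zero.mp h4) hζ1
      · exact h4
    have hmM : (m : Cfsg.AlgInt) ∈ M := by
      have h3 : (m : Cfsg.AlgInt) = ∑ i ∈ Finset.range m, (1 - (ε₂ * ε₁ ^ m') ^ i) := by
        rw [Finset.sum_sub_distrib, hsum0, sub_zero, Finset.sum_const, Finset.card_range,
          nsmul_eq_mul, mul_one]
      rw [h3]
      apply M.sum_mem
      intro i _
      rw [← mul_neg_geom_sum]
      exact M.mul_mem_right _ hmem1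
    exact hcop_mem m hm hmM
  · intro a ha
    letI : Field (Cfsg.AlgInt ⧸ M) := Ideal.Quotient.field M
    have hp0 : ((p : ℕ) : Cfsg.AlgInt ⧸ M) = 0 := by
      have h1 : (Ideal.Quotient.mk M) ((p : ℕ) : Cfsg.AlgInt) = 0 :=
        Ideal.Quotient.eq_zero_iff_mem.mpr hM.2.2
      rwa [map_natCast] at h1
    haveI hchar : CharP (Cfsg.AlgInt ⧸ M) p := (CharP.charP_iff_prime_eq_zero hp).mpr hp0
    have ha0 : (Ideal.Quotient.mk M) a ≠ 0 := fun h => ha (Ideal.Quotient.eq_zero_iff_mem.mp h)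
    -- the image of `a` has finite order
    have hint : IsIntegral ℤ a :=
      (isIntegral_algebraMap_iff (A := Cfsg.AlgInt) (B := ℂ) Subtype.val_injective).mp a.2
    have hint' : IsIntegral ℤ ((Ideal.Quotient.mk M) a) := by
      have := hint.map (Ideal.Quotient.mkₐ ℤ M)
      exact this
    have hfg := hint'.fg_adjoin_singleton
    haveI hfin : Module.Finite ℤ (Algebra.adjoin ℤ {(Ideal.Quotient.mk M) a}) :=
      Module.Finite.iff_fg.mpr hfg
    have htors : Module.IsTorsion ℤ (Algebra.adjoin ℤ {(Ideal.Quotient.mk M) a}) := by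
      intro x
      refine ⟨⟨(p : ℤ), ?_⟩, ?_⟩
      · exact mem_nonZeroDivisors_of_ne_zero (by exact_mod_cast hp.ne_zero)
      · apply Subtype.ext
        show ((p : ℤ) • x : Algebra.adjoin ℤ {(Ideal.Quotient.mk M) a}).1 = 0
        rw [Subalgebra.coe_smul, zsmul_eq_mul]
        push_cast
        rw [hp0, zero_mul]
    haveI : Finite (Algebra.adjoin ℤ {(Ideal.Quotient.mk M) a}) :=
      Module.finite_of_fg_torsion _ htors
    obtain ⟨i, j, hij, hpow⟩ := Finite.exists_ne_map_eq_of_infinite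
      (fun k : ℕ => (⟨(Ideal.Quotient.mk M) a ^ k,
        Subalgebra.pow_mem _ (Algebra.subset_adjoin (Set.mem_singleton _)) k⟩ :
          Algebra.adjoin ℤ {(Ideal.Quotient.mk M) a}))
    have hpow' : (Ideal.Quotient.mk M) a ^ i = (Ideal.Quotient.mk M) a ^ j :=
      congrArg Subtype.val hpow
    have hfo : ∃ n : ℕ, 0 < n ∧ (Ideal.Quotient.mk M) a ^ n = 1 := by
      rcases lt_or_gt_of_ne hij with hlt | hlt
      · refine ⟨j - i, by omega, ?_⟩
        have h1 : (Ideal.Quotient.mk M) a ^ i * (Ideal.Quotient.mk M) a ^ (j - i) =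
            (Ideal.Quotient.mk M) a ^ i * 1 := by
          have e : i + (j - i) = j := by omega
          rw [← pow_add, mul_one, e, hpow']
        exact mul_left_cancel₀ (pow_ne_zero i ha0) h1
      · refine ⟨i - j, by omega, ?_⟩
        have h1 : (Ideal.Quotient.mk M) a ^ j * (Ideal.Quotient.mk M) a ^ (i - j) =
            (Ideal.Quotient.mk M) a ^ j * 1 := by
          have e : j + (i - j) = i := by omega
          rw [← pow_add, mul_one, e, hpow']
        exact mul_left_cancel₀ (pow_ne_zero j ha0) h1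
    have hof : IsOfFinOrder ((Ideal.Quotient.mk M) a) := isOfFinOrder_iff_pow_eq_one.mpr hfo
    obtain ⟨n, hn⟩ : ∃ n : ℕ, n = orderOf ((Ideal.Quotient.mk M) a) := ⟨_, rfl⟩
    have hnpos : 0 < n := by rw [hn]; exact hof.orderOf_pos
    have hpn : ¬ p ∣ n := by
      rintro ⟨k, hk⟩
      have hkpos : 0 < k := by
        rcases Nat.eq_zero_or_pos k with h | h
        · rw [h, mul_zero] at hk; omega
        · exact h
      have h1 : ((Ideal.Quotient.mk M) a ^ k) ^ p = 1 := by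
        rw [← pow_mul, mul_comm, ← hk, hn, pow_orderOf_eq_one]
      have h2 : ((Ideal.Quotient.mk M) a ^ k - 1) ^ p = 0 := by
        rw [sub_pow_char, h1, one_pow, sub_self]
      have h3 : (Ideal.Quotient.mk M) a ^ k = 1 := sub_eq_zero.mp (pow_eq_zero_iff hp.ne_zero |>.mp h2)
      have h4 : n ∣ k := by rw [hn]; exact orderOf_dvd_of_pow_eq_one h3
      have h5 : n ≤ k := Nat.le_of_dvd hkpos h4
      have h6 : 2 * k ≤ p * k := Nat.mul_le_mul_right k hp.two_le
      omega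
    have hanM : a ^ n - 1 ∈ M := by
      apply Ideal.Quotient.eq_zero_iff_mem.mp
      rw [map_sub, map_pow, map_one, hn, pow_orderOf_eq_one, sub_self]
    -- factor over the roots of unity
    have hprim := Complex.isPrimitiveRoot_exp n hnpos.ne'
    have hfac := Polynomial.X_pow_sub_one_eq_prod hnpos hprim
    have hroot_int : ∀ ζ ∈ Polynomial.nthRootsFinset n (1 : ℂ), IsIntegral ℤ ζ := by
      intro ζ hζ
      have h1 : ζ ^ n = 1 := (Polynomial.mem_nthRootsFinset hnpos 1).mp hζ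
      exact IsIntegral.of_pow hnpos (by rw [h1]; exact isIntegral_one)
    let L : ℂ → Cfsg.AlgInt := fun z => if h : IsIntegral ℤ z then ⟨z, h⟩ else 0
    have hL : ∀ ζ ∈ Polynomial.nthRootsFinset n (1 : ℂ), ((L ζ : Cfsg.AlgInt) : ℂ) = ζ := by
      intro ζ hζ
      show ((if h : IsIntegral ℤ ζ then (⟨ζ, h⟩ : Cfsg.AlgInt) else 0 : Cfsg.AlgInt) : ℂ) = ζ
      rw [dif_pos (hroot_int ζ hζ)]
    have hprod : ∏ ζ ∈ Polynomial.nthRootsFinset n (1 : ℂ), (a - L ζ) = a ^ n - 1 := by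
      apply Subtype.ext
      have h1 := congrArg (Polynomial.eval (a : ℂ)) hfac
      rw [Polynomial.eval_prod] at h1
      simp only [Polynomial.eval_sub, Polynomial.eval_pow, Polynomial.eval_X, Polynomial.eval_one,
        Polynomial.eval_C] at h1
      push_cast
      rw [h1]
      apply Finset.prod_congr rfl
      intro ζ hζ
      rw [hL ζ hζ]
    rw [← hprod] at hanM
    obtain ⟨ζ, hζ, hζM⟩ := (Ideal.IsPrime.prod_mem_iff (hp := hmaxI.isPrime)).mp hanM
    refine ⟨L ζ, ⟨n, hpn, ?_⟩, hζM⟩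
    rw [hL ζ hζ]
    exact (Polynomial.mem_nthRootsFinset hnpos 1).mp hζ

end Cfsg.Agent.S0901
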