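import Mathlib
import Cfsg.Statements.S0903

set_option autoImplicit false
open Cfsg

namespace Cfsg.Agent.S0903

variable {G : Type*} [Group G]

abbrev PairSet (c g h : G) : Type _ :=
  {xy : G × G // IsConj g xy.1 ∧ IsConj h xy.2 ∧ xy.1 * xy.2 = c}

@[reducible] def conjAct (P : Subgroup G) (c : G) (hc : c ∈ Subgroup.centralizer (P : Set G)) (g h : G) :
    MulAction P (PairSet c g h) where
  smul u xy := ⟨((u : G) * xy.1.1 * (u : G)⁻¹, (u : G) * xy.1.2 * (u : G)⁻¹),
    xy.2.1.trans (isConj_iff.mpr ⟨u, rfl⟩), xy.2.2.1.trans (isConj_iff.mpr ⟨u, rfl⟩), by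
      have h3 := xy.2.2.2
      have hcu := (Subgroup.mem_centralizer_iff.mp hc) (u : G) u.2
      calc (u : G) * xy.1.1 * (u : G)⁻¹ * ((u : G) * xy.1.2 * (u : G)⁻¹)
          = (u : G) * (xy.1.1 * xy.1.2) * (u : G)⁻¹ := by group
        _ = (u : G) * c * (u : G)⁻¹ := by rw [h3]
        _ = c := by rw [hcu]; group⟩
  one_smul xy := by
    apply Subtype.ext
    apply Prod.ext <;> simp [HSMul.hSMul]
  mul_smul u v xy := by
    apply Subtype.ext
    apply Prod.ext <;> simp [HSMul.hSMul, mul_assoc]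

theorem result {G : Type*} [Group G] [Finite G] (p : ℕ) [Fact p.Prime] (P : Subgroup G) (hP : IsPGroup p P) (c : G) (hc : c ∈ Subgroup.centralizer (P : Set G)) (g h : G) : Nat.card {xy : G × G // IsConj g xy.1 ∧ IsConj h xy.2 ∧ xy.1 * xy.2 = c} ≡ Nat.card {xy : G × G // IsConj g xy.1 ∧ IsConj h xy.2 ∧ xy.1 * xy.2 = c ∧ xy.1 ∈ Subgroup.centralizer (P : Set G) ∧ xy.2 ∈ Subgroup.centralizer (P : Set G)} [MOD p] := by
  letI : MulAction P (PairSet c g h) := conjAct P c hc g h
  have key := hP.card_modEq_card_fixedPoints (PairSet c g h)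
  have hsmul : ∀ (u : P) (xy : PairSet c g h), (u • xy).1 = ((u : G) * xy.1.1 * (u : G)⁻¹, (u : G) * xy.1.2 * (u : G)⁻¹) := fun _ _ => rfl
  have e : (MulAction.fixedPoints P (PairSet c g h)) ≃ {xy : G × G // IsConj g xy.1 ∧ IsConj h xy.2 ∧ xy.1 * xy.2 = c ∧ xy.1 ∈ Subgroup.centralizer (P : Set G) ∧ xy.2 ∈ Subgroup.centralizer (P : Set G)} :=
    { toFun := fun z => ⟨z.1.1, z.1.2.1, z.1.2.2.1, z.1.2.2.2, by
        have hz := z.2
        constructor
        · rw [Subgroup.mem_centralizer_iff]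
          intro u hu
          have := congrArg (fun w : PairSet c g h => w.1.1) (hz ⟨u, hu⟩)
          simp only [hsmul] at this
          calc u * z.1.1.1 = u * z.1.1.1 * u⁻¹ * u := by group
            _ = z.1.1.1 * u := by rw [this]
        · rw [Subgroup.mem_centralizer_iff]
          intro u hu
          have := congrArg (fun w : PairSet c g h => w.1.2) (hz ⟨u, hu⟩)
          simp only [hsmul] at this
          calc u * z.1.1.2 = u * z.1.1.2 * u⁻¹ * u := by group
            _ = z.1.1.2 * u := by rw [this]⟩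
      invFun := fun w => ⟨⟨w.1, w.2.1, w.2.2.1, w.2.2.2.1⟩, by
        intro u
        apply Subtype.ext
        rw [hsmul]
        have h1 := (Subgroup.mem_centralizer_iff.mp w.2.2.2.2.1) (u : G) u.2
        have h2 := (Subgroup.mem_centralizer_iff.mp w.2.2.2.2.2) (u : G) u.2
        apply Prod.ext
        · show (u : G) * w.1.1 * (u : G)⁻¹ = w.1.1
          rw [h1]; group
        · show (u : G) * w.1.2 * (u : G)⁻¹ = w.1.2
          rw [h2]; group⟩
      left_inv := fun z => rfl
      right_inv := fun w => rfl }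
  rw [Nat.card_congr e] at key
  exact key

end Cfsg.Agent.S0903
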