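import Mathlib
import Cfsg.Statements.S0905
import Cfsg.Agent.Lib.Helper6.Aug
import Cfsg.Agent.Lib.Lead.Cores

set_option autoImplicit false
open Cfsg

namespace Cfsg.Agent.S0905

/-- Let F be a field of characteristic p and let g be an element of the finite group G no conjugate of which centralizes O_p(G). Then the class sum of g is a nilpotent element of the group algebra F[G]. -/
theorem result {G : Type*} [Group G] [Finite G] (p : ℕ) [Fact p.Prime] (F : Type*) [Field F] [CharP F p] (g : G) (hg : ∀ x : G, IsConj g x → x ∉ Subgroup.centralizer (Cfsg.pCore p G : Set G)) : IsNilpotent (∑ᶠ x ∈ ConjClasses.carrier (ConjClasses.mk g), MonoidAlgebra.single x (1 : F) : MonoidAlgebra F G) := by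
  classical
  haveI : Fintype G := Fintype.ofFinite G
  haveI := Cfsg.Agent.Lib.Lead.Cores.pCore_normal (G := G) p
  have hQ := Cfsg.Agent.Lib.Lead.Cores.pCore_isPGroup (G := G) p
  let z : MonoidAlgebra (ZMod p) G :=
    ∑ x ∈ Finset.univ.filter (fun x : G => IsConj g x), MonoidAlgebra.single x 1
  have hzc : ∀ y : G, z.coeff y = if IsConj g y then 1 else 0 := by
    intro y
    show (∑ x ∈ Finset.univ.filter (fun x : G => IsConj g x),
      MonoidAlgebra.single x (1 : ZMod p)).coeff y = _
    rw [MonoidAlgebra.coeff_sum, Finset.sum_apply']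
    simp only [MonoidAlgebra.coeff_single, Finsupp.single_apply]
    rw [Finset.sum_ite_eq' ]
    simp only [Finset.mem_filter, Finset.mem_univ, true_and]
  have hc : ∀ h : G, MonoidAlgebra.single h 1 * z = z * MonoidAlgebra.single h 1 := by
    intro h
    apply MonoidAlgebra.ext
    ext y
    rw [MonoidAlgebra.coeff_single_mul_apply, MonoidAlgebra.coeff_mul_single_apply, hzc, hzc,
      one_mul, mul_one]
    have hiff : IsConj g (h⁻¹ * y) ↔ IsConj g (y * h⁻¹) := by
      have e : y * h⁻¹ = h * (h⁻¹ * y) * h⁻¹ := by group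
      rw [e]
      constructor
      · intro hc; exact hc.trans (isConj_iff.mpr ⟨h, rfl⟩)
      · intro hc; exact hc.trans (isConj_iff.mpr ⟨h⁻¹, by group⟩)
    by_cases h1 : IsConj g (h⁻¹ * y)
    · rw [if_pos h1, if_pos (hiff.mp h1)]
    · rw [if_neg h1, if_neg (fun h2 => h1 (hiff.mpr h2))]
  have hz : ∀ x : G,
      ∑ y ∈ Finset.univ.filter (fun y : G => x⁻¹ * y ∈ Cfsg.pCore p G), z.coeff y = 0 := by
    intro x
    simp_rw [hzc]
    rw [← Finset.sum_filter, Finset.filter_filter, Finset.sum_const, nsmul_eq_mul, mul_one]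
    exact (ZMod.natCast_eq_zero_iff _ p).mpr
      (Cfsg.Agent.Lib.Helper6.card_class_coset p _ hQ g hg x)
  have hnil := Cfsg.Agent.Lib.Helper6.central_nilpotent p (Cfsg.pCore p G) hQ z hc hz
  have hmap : (∑ᶠ x ∈ ConjClasses.carrier (ConjClasses.mk g),
      MonoidAlgebra.single x (1 : F) : MonoidAlgebra F G) =
      MonoidAlgebra.mapRingHom G (ZMod.castHom (dvd_refl p) F) z := by
    rw [finsum_mem_eq_finite_toFinset_sum _ (Set.toFinite _)]
    show _ = MonoidAlgebra.mapRingHom G (ZMod.castHom (dvd_refl p) F)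
      (∑ x ∈ Finset.univ.filter (fun x : G => IsConj g x), MonoidAlgebra.single x 1)
    rw [map_sum]
    simp only [MonoidAlgebra.mapRingHom_single, map_one]
    apply Finset.sum_congr
    · ext x
      rw [Set.Finite.mem_toFinset, Finset.mem_filter]
      simp only [Finset.mem_univ, true_and]
      rw [ConjClasses.mem_carrier_iff_mk_eq, ConjClasses.mk_eq_mk_iff_isConj, isConj_comm]
    · intros; rfl
  rw [hmap]
  exact hnil.map _

end Cfsg.Agent.S0905
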