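import Mathlib
import Cfsg.Statements.S0910
import Cfsg.Agent.Lib.Helper6.BlockKer
import Cfsg.Agent.Lib.Helper1.CharGalois

set_option autoImplicit false
open Cfsg

namespace Cfsg.Agent.S0910

/-- Let G be a non-abelian finite simple group and p a prime. If an irreducible character χ lies in the principal block (relative to a maximal ideal of the algebraic integers containing p) and χ 1 is a power of p, then χ is the principal character. -/
theorem result {G : Type*} [Group G] [Finite G] (p : ℕ) [Fact p.Prime] (M : Ideal Cfsg.AlgInt) (hM : Cfsg.IsPModular p M) [IsSimpleGroup G] (hna : ∃ a b : G, a * b ≠ b * a) (χ : Cfsg.IrrCharacter G) (hχ : χ ∈ Cfsg.principalBlock M G) (k : ℕ) (hdeg : (χ : G → ℂ) 1 = (p : ℂ) ^ k) : (χ : G → ℂ) = fun _ => 1 := by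
  classical
  haveI := Fintype.ofFinite G
  have hmax := hM.2.1
  have hp := hM.1
  by_contra hne
  obtain ⟨n, ρ, hρ, hχρ⟩ := χ.2
  haveI := hρ
  have hne' : ρ.character ≠ fun _ => 1 := by rw [hχρ]; exact hne
  have hinj := Cfsg.Agent.Lib.Helper1.injective_of_simple ρ hne'
  have hfin : Module.finrank ℂ (Fin n → ℂ) = n := by simp
  have hn : (n : ℂ) = (p : ℂ) ^ k := by
    rw [← hdeg, ← hχρ, Representation.char_one, hfin]
  have hn' : n = p ^ k := by exact_mod_cast hn
  obtain ⟨a, b, hab⟩ := hna
  by_cases hpG : p ∣ Nat.card G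
  · -- a nontrivial Sylow subgroup and a central element
    let P₀ : Sylow p G := default
    obtain ⟨P, hPdef⟩ : ∃ P : Subgroup G, P = (P₀ : Subgroup G) := ⟨_, rfl⟩
    have hPp : IsPGroup p P := by rw [hPdef]; exact P₀.isPGroup'
    have hidx : ¬ p ∣ P.index := by rw [hPdef]; exact Sylow.not_dvd_index P₀
    have hPnt : Nontrivial P := by
      rw [← Finite.one_lt_card_iff_nontrivial]
      have hcard : Nat.card P = p ^ (Nat.card G).factorization p := by
        rw [hPdef]; exact Sylow.card_eq_multiplicity P₀
      rw [hcard]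
      apply Nat.one_lt_pow _ hp.one_lt
      have : 0 < (Nat.card G).factorization p :=
        hp.factorization_pos_of_dvd Nat.card_pos.ne' hpG
      exact this.ne'
    haveI := hPnt
    have hcnt := IsPGroup.center_nontrivial hPp
    obtain ⟨z, hz⟩ := exists_ne (1 : Subgroup.center P)
    have hzG : ((z : P) : G) ≠ 1 := by
      intro h
      apply hz
      apply Subtype.ext
      apply Subtype.ext
      exact h
    have hPle : P ≤ Subgroup.centralizer ({((z : P) : G)} : Set G) := by
      intro u hu
      rw [Subgroup.mem_centralizer_iff]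
      intro h hh
      rw [Set.mem_singleton_iff] at hh
      rw [hh]
      have := Subgroup.mem_center_iff.mp z.2 ⟨u, hu⟩
      have h2 := congrArg (Subtype.val : P → G) this
      simp only [Subgroup.coe_mul] at h2
      exact h2.symm
    have hidx' : ¬ p ∣ (Subgroup.centralizer ({((z : P) : G)} : Set G)).index :=
      fun h => hidx (h.trans (Subgroup.index_dvd_of_le hPle))
    have hcop : Nat.Coprime (Module.finrank ℂ (Fin n → ℂ))
        (Subgroup.centralizer ({((z : P) : G)} : Set G)).index := by
      rw [hfin, hn']
      exact Nat.Coprime.pow_left k ((Nat.Prime.coprime_iff_not_dvd hp).mpr hidx')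
    rcases Cfsg.Agent.Lib.Helper1.char_zero_or_norm_of_coprime ρ ((z : P) : G) hcop with h0 | h0
    · have hsame : SameBlock M (fun _ : G => (1 : ℂ)) (χ : G → ℂ) := hχ
      have h1 := hsame ((z : P) : G)
      unfold centralChar at h1
      rw [← hχρ, h0] at h1
      simp only [mul_one, div_one, mul_zero, zero_div, sub_zero] at h1
      exact hidx' ((Cfsg.Agent.Lib.Helper6.memLocalIdeal_natCast_iff hM _).mp h1)
    · obtain ⟨ω, hω⟩ := (Cfsg.Agent.Lib.Helper1.norm_char_eq_iff ρ ((z : P) : G)).mp h0
      have hcen : ((z : P) : G) ∈ Subgroup.center G := by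
        rw [Subgroup.mem_center_iff]
        intro g
        apply hinj
        rw [map_mul, map_mul, hω]
        ext v
        simp
      have hcb : Subgroup.center G = ⊥ := by
        rcases (Subgroup.center G).normal_of_characteristic.eq_bot_or_eq_top with h | h
        · exact h
        · exfalso
          apply hab
          have : a ∈ Subgroup.center G := by rw [h]; trivial
          exact (Subgroup.mem_center_iff.mp this b).symm
      rw [hcb, Subgroup.mem_bot] at hcen
      exact hzG hcen
  · -- the degree is one
    obtain ⟨m, hm1, hmdvd, hmpos⟩ := Cfsg.Agent.Lib.Helper1.IsIrrCharacter.degree_dvd_card χ.2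
    have hmn : m = p ^ k := by
      have : (m : ℂ) = (p : ℂ) ^ k := by rw [← hm1, hdeg]
      exact_mod_cast this
    have hk : k = 0 := by
      by_contra hk
      apply hpG
      exact (dvd_pow_self p hk).trans (hmn ▸ hmdvd)
    have hn1 : Module.finrank ℂ (Fin n → ℂ) = 1 := by rw [hfin, hn', hk, pow_zero]
    apply hab
    apply hinj
    rw [map_mul, map_mul]
    exact Cfsg.Agent.Lib.Helper1.end_commute_of_finrank_one hn1 (ρ a) (ρ b)

end Cfsg.Agent.S0910
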