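import Mathlib
import Cfsg.Statements.S0912
import Cfsg.Agent.Lib.Helper6.AugApp
import Cfsg.Agent.Lib.Helper6.Block
import Cfsg.Agent.Lib.Lead.Cores

set_option autoImplicit false
open Cfsg

namespace Cfsg.Agent.S0912

/-- Let B be a block of the finite group G relative to a maximal ideal M of the algebraic integers containing the prime p. Every defect group of B contains the largest normal p-subgroup O_p(G). -/
theorem result {G : Type*} [Group G] [Finite G] (p : ℕ) [Fact p.Prime] (M : Ideal Cfsg.AlgInt) (hM : Cfsg.IsPModular p M) (B : Set (Cfsg.IrrCharacter G)) (hB : Cfsg.IsPBlock M B) (D : Subgroup G) (hD : Cfsg.IsDefectGroup p M B D) : Cfsg.pCore p G ≤ D := by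
  classical
  haveI : Fintype G := Fintype.ofFinite G
  haveI hQn := Cfsg.Agent.Lib.Lead.Cores.pCore_normal (G := G) p
  have hQ := Cfsg.Agent.Lib.Lead.Cores.pCore_isPGroup (G := G) p
  obtain ⟨g, hg, P, rfl⟩ := hD
  obtain ⟨χ₀, rfl⟩ := hB
  have hχ₀ : ¬ Cfsg.MemLocalIdeal M (Cfsg.centralChar (χ₀ : G → ℂ) g) :=
    hg.2.2 χ₀ (Cfsg.Agent.Lib.Helper6.mem_blockOf_self hM.2.1 χ₀)
  have hgc : g ∈ Subgroup.centralizer (Cfsg.pCore p G : Set G) := by
    by_contra h
    exact hχ₀ (Cfsg.Agent.Lib.Helper6.centralChar_mem_of_not_centralizer hM _ hQ χ₀.2 g h)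
  have hle : Cfsg.pCore p G ≤ Subgroup.centralizer ({g} : Set G) := by
    intro q hq
    rw [Subgroup.mem_centralizer_iff]
    intro h hh
    rw [Set.mem_singleton_iff] at hh
    subst hh
    exact ((Subgroup.mem_centralizer_iff.mp hgc) q hq).symm
  haveI : ((Cfsg.pCore p G).subgroupOf (Subgroup.centralizer ({g} : Set G))).Normal :=
    Subgroup.normal_subgroupOf
  have hQ' : IsPGroup p ((Cfsg.pCore p G).subgroupOf (Subgroup.centralizer ({g} : Set G))) :=
    hQ.comap_subtype
  have h1 := hQ'.le_sylow_of_normal P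
  intro q hq
  exact ⟨⟨q, hle hq⟩, h1 (Subgroup.mem_subgroupOf.mpr hq), rfl⟩

end Cfsg.Agent.S0912
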