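import Mathlib
import Cfsg.Statements.S0915
import Cfsg.Agent.Lib.Helper6.AugApp
import Cfsg.Agent.Lib.Lead.Cores
import Cfsg.Agent.Lib.Helper12.PSolvable

set_option autoImplicit false
open Cfsg

namespace Cfsg.Agent.S0915

/-- Let G be a finite p-solvable group with trivial largest normal subgroup of order prime to p. Then any two irreducible characters of G lie in the same block relative to every maximal ideal M of the algebraic integers containing p: G has a single p-block. -/
theorem result {G : Type*} [Group G] [Finite G] (p : ℕ) [Fact p.Prime] (M : Ideal Cfsg.AlgInt) (hM : Cfsg.IsPModular p M) (hsolv : Cfsg.IsPSolvable p G) (hcore : Cfsg.pPrimeCore p G = ⊥) (χ ψ : Cfsg.IrrCharacter G) : Cfsg.SameBlock M (χ : G → ℂ) (ψ : G → ℂ) := by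
  classical
  haveI : Fintype G := Fintype.ofFinite G
  haveI hQn := Cfsg.Agent.Lib.Lead.Cores.pCore_normal (G := G) p
  have hQ := Cfsg.Agent.Lib.Lead.Cores.pCore_isPGroup (G := G) p
  have hhh := Cfsg.Agent.Lib.Helper12.PSolvable.hall_higman hsolv hcore
  intro g
  by_cases hg : g ∈ Cfsg.pCore p G
  · have h1 := Cfsg.Agent.Lib.Helper6.centralChar_sub_index_mem hM _ hQ χ.2 g hg
    have h2 := Cfsg.Agent.Lib.Helper6.centralChar_sub_index_mem hM _ hQ ψ.2 g hg
    have h3 := Cfsg.Agent.Lib.Helper6.MemLocalIdeal.sub hM.2.1 h1 h2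
    have e : Cfsg.centralChar (χ : G → ℂ) g - Cfsg.centralChar (ψ : G → ℂ) g =
        (Cfsg.centralChar (χ : G → ℂ) g - ((Subgroup.centralizer ({g} : Set G)).index : ℂ)) -
        (Cfsg.centralChar (ψ : G → ℂ) g - ((Subgroup.centralizer ({g} : Set G)).index : ℂ)) := by
      ring
    rw [e]
    exact h3
  · have hg' : g ∉ Subgroup.centralizer (Cfsg.pCore p G : Set G) := fun h => hg (hhh h)
    exact Cfsg.Agent.Lib.Helper6.MemLocalIdeal.sub hM.2.1
      (Cfsg.Agent.Lib.Helper6.centralChar_mem_of_not_centralizer hM _ hQ χ.2 g hg')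
      (Cfsg.Agent.Lib.Helper6.centralChar_mem_of_not_centralizer hM _ hQ ψ.2 g hg')

end Cfsg.Agent.S0915
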