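import Cfsg.Statements.S0916
import Mathlib

set_option autoImplicit false
open Cfsg
open scoped Pointwise

namespace Cfsg.Agent.S0916

/-- Sylow conjugacy inside a subgroup `H`, in terms of subgroups of `G`. -/
theorem sylow_conj_aux {G : Type*} [Group G] [Finite G] (p : ℕ) [Fact p.Prime]
    (H : Subgroup G) (S : Sylow p H) (P Q : Subgroup G)
    (hS : (S : Subgroup H).map H.subtype = P) (hQH : Q ≤ H)
    (hcard : Nat.card Q = Nat.card P) :
    ∃ h ∈ H, (∀ a, a ∈ Q → h⁻¹ * a * h ∈ P) ∧ (∀ a, a ∈ P → h * a * h⁻¹ ∈ Q) := by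
  have hcS : Nat.card P = Nat.card (S : Subgroup H) := by
    rw [← hS]
    exact Subgroup.card_map_of_injective H.subtype_injective
  have hcQ' : Nat.card (Q.subgroupOf H) = Nat.card Q :=
    Nat.card_congr (Subgroup.subgroupOfEquivOfLe hQH).toEquiv
  obtain ⟨k, hk⟩ := IsPGroup.iff_card.mp S.isPGroup'
  have hQ' : IsPGroup p (Q.subgroupOf H) := by
    apply IsPGroup.of_card (n := k)
    rw [hcQ', hcard, hcS]; exact hk
  obtain ⟨S', hS'⟩ := hQ'.exists_le_sylow
  have hcS' : Nat.card (S' : Subgroup H) = Nat.card (S : Subgroup H) := by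
    rw [Sylow.card_eq_multiplicity, Sylow.card_eq_multiplicity]
  have hQS' : Q.subgroupOf H = (S' : Subgroup H) := by
    apply Subgroup.eq_of_le_of_card_ge hS'
    rw [hcS', hcQ', hcard, hcS]
  obtain ⟨h, hh⟩ := MulAction.exists_smul_eq H S S'
  have hh' : MulAut.conj h • (S : Subgroup H) = (S' : Subgroup H) := by
    rw [← hh]; rfl
  refine ⟨h, h.2, fun a ha => ?_, fun a ha => ?_⟩
  · have haH : a ∈ H := hQH ha
    have h1 : (⟨a, haH⟩ : H) ∈ (S' : Subgroup H) := by
      rw [← hQS']; exact ha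
    rw [← hh', Subgroup.mem_pointwise_smul_iff_inv_smul_mem] at h1
    rw [← hS]
    refine ⟨_, h1, ?_⟩
    simp [MulAut.smul_def]
  · rw [← hS] at ha
    obtain ⟨s, hs, rfl⟩ := ha
    have h1 : MulAut.conj h • s ∈ MulAut.conj h • (S : Subgroup H) :=
      Subgroup.smul_mem_pointwise_smul _ _ _ hs
    rw [hh', ← hQS'] at h1
    have h2 : ((MulAut.conj h • s : H) : G) ∈ Q := h1
    simpa [MulAut.smul_def] using h2

theorem part2 {G : Type*} [Group G] [Finite G] (p : ℕ) [Fact p.Prime] (P : Subgroup G)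
    (hP : IsPGroup p P) (C N : Subgroup G) (hN : N = Subgroup.normalizer (P : Set G))
    (S : Sylow p (C ⊓ N : Subgroup G))
    (hS : (S : Subgroup ↥(C ⊓ N)).map (C ⊓ N).subtype = P) :
    ∃ S₀ : Sylow p C, (S₀ : Subgroup C).map C.subtype = P := by
  classical
  · have hPCN : P ≤ C ⊓ N := by
      rw [← hS]; exact Subgroup.map_subtype_le _
    have hPC : P ≤ C := hPCN.trans inf_le_left
    have hP' : IsPGroup p (P.subgroupOf C) := hP.comap_subtype
    obtain ⟨S₀, hS₀⟩ := hP'.exists_le_sylow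
    refine ⟨S₀, ?_⟩
    set Q := (S₀ : Subgroup C).map C.subtype with hQ
    have hQC : Q ≤ C := Subgroup.map_subtype_le _
    have hPQ : P ≤ Q := by
      intro a ha
      exact ⟨⟨a, hPC ha⟩, hS₀ ha, rfl⟩
    have hQp : IsPGroup p Q := S₀.isPGroup'.map _
    -- R = Q ⊓ N equals P
    have hR : Q ⊓ N = P := by
      have hRle : Q ⊓ N ≤ C ⊓ N := inf_le_inf_right _ hQC
      have hRp : IsPGroup p ((Q ⊓ N).subgroupOf (C ⊓ N)) :=
        (hQp.to_le inf_le_left).comap_subtype
      have hSR : (S : Subgroup _) ≤ (Q ⊓ N).subgroupOf (C ⊓ N) := by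
        intro s hs
        have h1 : ((s : G)) ∈ P := by
          rw [← hS]; exact ⟨s, hs, rfl⟩
        exact ⟨hPQ h1, s.2.2⟩
      have := S.is_maximal' hRp hSR
      rw [← Subgroup.map_subgroupOf_eq_of_le hRle, this, hS]
    -- normalizer condition in Q
    have : Group.IsNilpotent Q := hQp.isNilpotent
    have hNC := Group.normalizerCondition_of_isNilpotent (G := Q)
    by_contra hne
    have hlt : P.subgroupOf Q < ⊤ := by
      rw [lt_top_iff_ne_top]
      intro htop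
      rw [Subgroup.subgroupOf_eq_top] at htop
      exact hne (le_antisymm htop hPQ)
    have h2 := hNC _ hlt
    obtain ⟨x, hx, hxP⟩ := SetLike.exists_of_lt h2
    apply hxP
    have hxN : (x : G) ∈ N := by
      rw [hN]
      apply Subgroup.mem_normalizer_fintype
      intro a ha
      have h3 := (Subgroup.mem_normalizer_iff.mp hx ⟨a, hPQ ha⟩).mp ha
      exact h3
    have : (x : G) ∈ Q ⊓ N := ⟨x.2, hxN⟩
    rw [hR] at this
    exact this


theorem result {G : Type*} [Group G] [Finite G] (p : ℕ) [Fact p.Prime] (P : Subgroup G) (hP : IsPGroup p P) : (∀ g : G, (∃ S : Sylow p (Subgroup.centralizer ({g} : Set G)), (S : Subgroup (Subgroup.centralizer ({g} : Set G))).map (Subgroup.centralizer ({g} : Set G)).subtype = P) → (∃ c : G, IsConj g c ∧ c ∈ Subgroup.centralizer (P : Set G)) ∧ (∀ c₁ c₂ : G, IsConj g c₁ → IsConj g c₂ → c₁ ∈ Subgroup.centralizer (P : Set G) → c₂ ∈ Subgroup.centralizer (P : Set G) → ∃ n ∈ Subgroup.normalizer (P : Set G), n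 * c₁ * n⁻¹ = c₂)) ∧ (∀ c : G, c ∈ Subgroup.centralizer (P : Set G) → (∃ S : Sylow p (Subgroup.centralizer ({c} : Set G) ⊓ Subgroup.normalizer (P : Set G) : Subgroup G), (S : Subgroup ↥(Subgroup.centralizer ({c} : Set G) ⊓ Subgroup.normalizer (P : Set G))).map (Subgroup.centralizer ({c} : Set G) ⊓ Subgroup.normalizer (P : Set G)).subtype = P) → ∃ S : Sylow p (Subgroup.centralizer ({c} : Set G)), (S : Subgroup (Subgroup.centralizer ({c} : Set G))).map (Subgroup.centralizer ({c} : Set G)).subtype = P) := by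
  classical
  refine ⟨fun g ⟨S, hS⟩ => ⟨?_, ?_⟩, ?_⟩
  · -- g itself
    refine ⟨g, IsConj.refl g, ?_⟩
    rw [Subgroup.mem_centralizer_iff]
    intro a ha
    have ha' : a ∈ (S : Subgroup _).map (Subgroup.centralizer ({g} : Set G)).subtype := by
      rw [hS]; exact ha
    obtain ⟨s, -, rfl⟩ := ha'
    have := s.2
    rw [Subgroup.mem_centralizer_iff] at this
    exact (this g rfl).symm
  · intro c₁ c₂ h1 h2 hc1 hc2
    rw [isConj_iff] at h1 h2
    obtain ⟨x, rfl⟩ := h1
    obtain ⟨y, rfl⟩ := h2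
    -- the conjugate subgroups
    have key : ∀ z : G, z * g * z⁻¹ ∈ Subgroup.centralizer (P : Set G) →
        ∃ Q : Subgroup G, Q ≤ Subgroup.centralizer ({g} : Set G) ∧ Nat.card Q = Nat.card P ∧
          ∀ a, a ∈ Q ↔ z * a * z⁻¹ ∈ P := by
      intro z hz
      refine ⟨P.comap (MulAut.conj z).toMonoidHom, ?_, ?_, ?_⟩
      · intro a ha
        have ha' : z * a * z⁻¹ ∈ P := by simpa using ha
        rw [Subgroup.mem_centralizer_iff] at hz ⊢
        intro b hb
        rw [Set.mem_singleton_iff] at hb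
        subst hb
        have := hz _ ha'
        have h3 : z * (a * b) * z⁻¹ = z * (b * a) * z⁻¹ := by
          calc z * (a * b) * z⁻¹ = (z * a * z⁻¹) * (z * b * z⁻¹) := by group
            _ = (z * b * z⁻¹) * (z * a * z⁻¹) := this
            _ = z * (b * a) * z⁻¹ := by group
        have h4 := mul_left_cancel (mul_right_cancel h3)
        exact h4.symm
      · rw [Subgroup.comap_equiv_eq_map_symm']
        exact Subgroup.card_map_of_injective (MulAut.conj z).symm.injective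
      · intro a
        simp
    obtain ⟨Q₁, hQ₁H, hQ₁c, hQ₁⟩ := key x hc1
    obtain ⟨Q₂, hQ₂H, hQ₂c, hQ₂⟩ := key y hc2
    obtain ⟨h₁, hh₁, H₁, -⟩ := sylow_conj_aux p _ S P Q₁ hS hQ₁H hQ₁c
    obtain ⟨h₂, hh₂, -, H₂⟩ := sylow_conj_aux p _ S P Q₂ hS hQ₂H hQ₂c
    -- n = y h₂ h₁⁻¹ x⁻¹
    have hcomm : ∀ h ∈ Subgroup.centralizer ({g} : Set G), h * g = g * h := by
      intro h hh
      rw [Subgroup.mem_centralizer_iff] at hh
      exact (hh g rfl).symm
    refine ⟨y * h₂ * h₁⁻¹ * x⁻¹, ?_, ?_⟩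
    · apply Subgroup.mem_normalizer_fintype
      intro a ha
      have h5 : x⁻¹ * a * x ∈ Q₁ := by
        rw [hQ₁]
        have : x * (x⁻¹ * a * x) * x⁻¹ = a := by group
        rw [this]; exact ha
      have h6 := H₂ _ (H₁ _ h5)
      rw [hQ₂] at h6
      have : y * h₂ * h₁⁻¹ * x⁻¹ * a * (y * h₂ * h₁⁻¹ * x⁻¹)⁻¹
          = y * (h₂ * (h₁⁻¹ * (x⁻¹ * a * x) * h₁) * h₂⁻¹) * y⁻¹ := by group
      rw [this]; exact h6
    · have e1 := hcomm h₁ hh₁
      have e2 := hcomm h₂ hh₂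
      have e1' : h₁⁻¹ * g * h₁ = g := by rw [mul_assoc, ← e1, inv_mul_cancel_left]
      have e2' : h₂ * g * h₂⁻¹ = g := by rw [e2, mul_assoc, mul_inv_cancel, mul_one]
      calc y * h₂ * h₁⁻¹ * x⁻¹ * (x * g * x⁻¹) * (y * h₂ * h₁⁻¹ * x⁻¹)⁻¹
          = y * (h₂ * (h₁⁻¹ * g * h₁) * h₂⁻¹) * y⁻¹ := by group
        _ = y * g * y⁻¹ := by rw [e1', e2']
  · intro c hc ⟨S, hS⟩
    exact part2 p P hP _ _ rfl S hS

end Cfsg.Agent.S0916
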