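import Mathlib
import Cfsg.Statements.S0917
import Cfsg.Agent.Lib.Helper6.DefConj
import Cfsg.Agent.Lib.Helper6.MinMax
import Cfsg.Agent.S0911

set_option autoImplicit false
open Cfsg

namespace Cfsg.Agent.S0917

/-- Let H be a subgroup of the finite group G, p a prime and M a maximal ideal of the algebraic integers containing p. If the block b of H induces the block B of G relative to M, then every defect group of b (a subgroup of H, viewed in G) is contained in some defect group of B. -/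
theorem result {G : Type*} [Group G] [Finite G] (p : ℕ) [Fact p.Prime] (M : Ideal Cfsg.AlgInt) (hM : Cfsg.IsPModular p M) (H : Subgroup G) (b : Set (Cfsg.IrrCharacter H)) (hb : Cfsg.IsPBlock M b) (B : Set (Cfsg.IrrCharacter G)) (hB : Cfsg.IsPBlock M B) (hind : Cfsg.IsInducedBlock M H b B) (D : Subgroup H) (hD : Cfsg.IsDefectGroup p M b D) : ∃ E : Subgroup G, Cfsg.IsDefectGroup p M B E ∧ D.map H.subtype ≤ E := by
  classical
  haveI : Fintype G := Fintype.ofFinite G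
  haveI : Fintype H := Fintype.ofFinite H
  haveI : Fintype (Cfsg.IrrCharacter G) := Cfsg.Agent.Lib.Helper1.irrFintype
  have hmax := hM.2.1
  obtain ⟨h₀, hdef, PD, rfl⟩ := hD
  have hbblock : Cfsg.IsPBlock M b := hb
  have hBblock : Cfsg.IsPBlock M B := hB
  obtain ⟨ξ₀, hξ₀⟩ := hb
  obtain ⟨χ₀, hχ₀⟩ := hB
  have hξ₀b : ξ₀ ∈ b := by
    rw [hξ₀]; exact Cfsg.Agent.Lib.Helper6.mem_blockOf_self hmax ξ₀
  have hχ₀B : χ₀ ∈ B := by
    rw [hχ₀]; exact Cfsg.Agent.Lib.Helper6.mem_blockOf_self hmax χ₀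
  have hcong := hind.2.2 ξ₀ hξ₀b χ₀ hχ₀B
  have heS : Cfsg.Agent.Lib.Helper6.SVal M (Cfsg.blockCoeff B) :=
    Cfsg.Agent.Lib.Helper6.osima' hmax B hBblock
  have hec := Cfsg.Agent.Lib.Helper6.isClassFunction_blockCoeff B
  have h1 := Cfsg.Agent.Lib.Helper6.omega_res_sub_mem hmax H
    (Cfsg.Agent.Lib.Helper6.irr_isClassFunction χ₀) hcong hec heS
  rw [Cfsg.Agent.Lib.Helper6.omega_blockCoeff, if_pos hχ₀B] at h1
  have h2 : ¬ Cfsg.MemLocalIdeal M (Cfsg.Agent.Lib.Helper6.omega (ξ₀ : H → ℂ)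
      (fun h : H => Cfsg.blockCoeff B (h : G))) := by
    intro h
    have h3 := Cfsg.Agent.Lib.Helper6.MemLocalIdeal.sub hmax h h1
    rw [sub_sub_cancel] at h3
    exact Cfsg.Agent.Lib.Helper6.not_memLocalIdeal_one hmax h3
  have hFc : Cfsg.IsClassFunction H (fun h : H => Cfsg.blockCoeff B (h : G)) := by
    intro h k
    show Cfsg.blockCoeff B ((k * h * k⁻¹ : H) : G) = Cfsg.blockCoeff B (h : G)
    have e : ((k * h * k⁻¹ : H) : G) = (k : G) * (h : G) * (k : G)⁻¹ := by simp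
    rw [e, hec]
  have hFS : Cfsg.Agent.Lib.Helper6.SVal M (fun h : H => Cfsg.blockCoeff B (h : G)) :=
    fun h => heS _
  obtain ⟨h₁, hh₁e, hh₁ω⟩ :=
    Cfsg.Agent.Lib.Helper6.exists_of_omega_not_mem hmax ξ₀.2 hFc hFS h2
  obtain ⟨x, Q, hxQ⟩ :=
    (Cfsg.Agent.S0911.result p M hM b hbblock h₀ hdef PD h₁).2 ⟨ξ₀, hξ₀b, hh₁ω⟩
  obtain ⟨g₀, hg₀⟩ := Cfsg.Agent.Lib.Helper6.exists_defectClass hmax B hBblock
  let E₀ : Sylow p (Subgroup.centralizer ({g₀} : Set G)) := default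
  obtain ⟨y, Q', hyQ'⟩ :=
    (Cfsg.Agent.S0911.result p M hM B hBblock g₀ hg₀ E₀ (h₁ : G)).1 (heS _) hh₁e
  have hQG_p : IsPGroup p (((Q : Subgroup (Subgroup.centralizer ({h₁} : Set H))).map
      (Subgroup.centralizer ({h₁} : Set H)).subtype).map H.subtype) :=
    (Q.isPGroup'.map _).map _
  have hQG_le : ((Q : Subgroup (Subgroup.centralizer ({h₁} : Set H))).map
      (Subgroup.centralizer ({h₁} : Set H)).subtype).map H.subtype ≤
      Subgroup.centralizer ({(h₁ : G)} : Set G) := by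
    intro v hv
    obtain ⟨u, hu, rfl⟩ := Subgroup.mem_map.mp hv
    obtain ⟨w, hw, rfl⟩ := Subgroup.mem_map.mp hu
    rw [Subgroup.mem_centralizer_iff]
    intro t ht
    rw [Set.mem_singleton_iff] at ht
    subst ht
    have h3 := (Subgroup.mem_centralizer_iff.mp w.2) h₁ (Set.mem_singleton h₁)
    exact congrArg Subtype.val h3
  obtain ⟨s, hs⟩ := Cfsg.Agent.Lib.Helper6.subConj_of_sylow (h₁ : G) Q' _ hQG_p hQG_le
  refine ⟨((E₀ : Subgroup (Subgroup.centralizer ({g₀} : Set G))).map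
      (Subgroup.centralizer ({g₀} : Set G)).subtype).map
      (MulAut.conj ((x : G)⁻¹ * s * y)).toMonoidHom,
    Cfsg.Agent.Lib.Helper6.isDefectGroup_conj ⟨g₀, hg₀, E₀, rfl⟩ _, ?_⟩
  intro d hd
  obtain ⟨d', hd', rfl⟩ := Subgroup.mem_map.mp hd
  have h3 : x * d' * x⁻¹ ∈ (Q : Subgroup (Subgroup.centralizer ({h₁} : Set H))).map
      (Subgroup.centralizer ({h₁} : Set H)).subtype :=
    hxQ (Subgroup.mem_map.mpr ⟨d', hd', rfl⟩)
  have h4 := hs (Subgroup.mem_map.mpr ⟨_, h3, rfl⟩)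
  obtain ⟨q, hq, hqe⟩ := Subgroup.mem_map.mp h4
  have h5 := hyQ' hq
  obtain ⟨e, he, hee⟩ := Subgroup.mem_map.mp h5
  rw [Subgroup.mem_map]
  refine ⟨e, he, ?_⟩
  simp only [MulEquiv.coe_toMonoidHom, MulAut.conj_apply, Subgroup.coe_subtype] at hqe hee ⊢
  have e1 : ((x * d' * x⁻¹ : H) : G) = (x : G) * (d' : G) * (x : G)⁻¹ := by simp
  rw [e1] at hqe
  calc (x : G)⁻¹ * s * y * e * ((x : G)⁻¹ * s * y)⁻¹
      = (x : G)⁻¹ * (s * (y * e * y⁻¹) * s⁻¹) * (x : G) := by group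
    _ = (x : G)⁻¹ * ((x : G) * (d' : G) * (x : G)⁻¹) * (x : G) := by rw [hee, hqe]
    _ = (d' : G) := by group

end Cfsg.Agent.S0917
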