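import Mathlib
import Cfsg.Statements.S0919
import Cfsg.Agent.Lib.Helper6.Brauer2

set_option autoImplicit false
open Cfsg

namespace Cfsg.Agent.S0919

/-- Let P be a p-subgroup of the finite group G and H a subgroup with P·C_G(P) ≤ H ≤ N_G(P). Then for every block b of H relative to a maximal ideal M of the algebraic integers containing p, the induced block of b in G is defined: some block B of G has its central character congruent modulo M, at every element, to the central character of b induced to G. -/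
theorem result {G : Type*} [Group G] [Finite G] (p : ℕ) [Fact p.Prime] (M : Ideal Cfsg.AlgInt) (hM : Cfsg.IsPModular p M) (P H : Subgroup G) (hP : IsPGroup p P) (hPH : P ≤ H) (hCH : Subgroup.centralizer (P : Set G) ≤ H) (hHN : H ≤ Subgroup.normalizer (P : Set G)) (b : Set (Cfsg.IrrCharacter H)) (hb : Cfsg.IsPBlock M b) : Cfsg.InducedBlockDefined M H b := by
  classical
  haveI : Fintype G := Fintype.ofFinite G
  haveI : Fintype H := Fintype.ofFinite H
  obtain ⟨ξ₀, rfl⟩ := hb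
  obtain ⟨χ, hχ⟩ := Cfsg.Agent.Lib.Helper6.exists_brauer_block P H hM hP hCH hHN ξ₀
  refine ⟨Cfsg.blockOf M (χ : G → ℂ), ⟨ξ₀, rfl⟩, ⟨χ, rfl⟩, fun ξ hξ χ' hχ' g => ?_⟩
  have h1 := Cfsg.Agent.Lib.Helper6.induced_sub_brauer_mem hM P H hP hPH hHN ξ.2 g
  have h2 : Cfsg.MemLocalIdeal M (Cfsg.brauerCentralChar P H (ξ : H → ℂ) g -
      Cfsg.brauerCentralChar P H (ξ₀ : H → ℂ) g) := by
    rw [← Cfsg.Agent.Lib.Helper6.omega_brTrunc_cind, ← Cfsg.Agent.Lib.Helper6.omega_brTrunc_cind]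
    have hsb : Cfsg.SameBlock M (ξ : H → ℂ) (ξ₀ : H → ℂ) :=
      Cfsg.Agent.Lib.Helper6.sameBlock_symm hξ
    exact Cfsg.Agent.Lib.Helper6.omega_sub_memLocalIdeal hM.2.1
      (Cfsg.Agent.Lib.Helper6.irr_isClassFunction ξ)
      (Cfsg.Agent.Lib.Helper6.irr_isClassFunction ξ₀) hsb
      (Cfsg.Agent.Lib.Helper6.isClassFunction_brTrunc P H hHN
        (Cfsg.Agent.Lib.Helper6.isClassFunction_cind g))
      (Cfsg.Agent.Lib.Helper6.sVal_brTrunc P H hM.2.1 (Cfsg.Agent.Lib.Helper6.sVal_cind hM.2.1 g))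
  have h3 := hχ g
  have h4 : Cfsg.MemLocalIdeal M (Cfsg.centralChar (χ : G → ℂ) g -
      Cfsg.centralChar (χ' : G → ℂ) g) := hχ' g
  have e : Cfsg.inducedCentralChar H (ξ : H → ℂ) g - Cfsg.centralChar (χ' : G → ℂ) g =
      (Cfsg.inducedCentralChar H (ξ : H → ℂ) g - Cfsg.brauerCentralChar P H (ξ : H → ℂ) g) +
      (Cfsg.brauerCentralChar P H (ξ : H → ℂ) g - Cfsg.brauerCentralChar P H (ξ₀ : H → ℂ) g) +
      (Cfsg.brauerCentralChar P H (ξ₀ : H → ℂ) g - Cfsg.centralChar (χ : G → ℂ) g) +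
      (Cfsg.centralChar (χ : G → ℂ) g - Cfsg.centralChar (χ' : G → ℂ) g) := by
    ring
  rw [e]
  exact Cfsg.Agent.Lib.Helper6.MemLocalIdeal.add hM.2.1
    (Cfsg.Agent.Lib.Helper6.MemLocalIdeal.add hM.2.1
      (Cfsg.Agent.Lib.Helper6.MemLocalIdeal.add hM.2.1 h1 h2) h3) h4

end Cfsg.Agent.S0919
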