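import Mathlib
import Cfsg.Statements.S0932

set_option autoImplicit false
open Cfsg

namespace Cfsg.Agent.S0932

open Classical in
theorem fiber_card {G : Type*} [Group G] [Fintype G] (g y : G) :
    (Finset.univ.filter (fun x : G => x⁻¹ * g * x = y)).card
      = if IsConj g y then Nat.card (Subgroup.centralizer ({g} : Set G)) else 0 := by
  split_ifs with hc
  · obtain ⟨c, hc⟩ := isConj_iff.mp hc
    rw [← Fintype.card_subtype, ← Nat.card_eq_fintype_card]
    apply Nat.card_congr
    refine
      { toFun := fun x => ⟨x.1 * c, ?_⟩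
        invFun := fun z => ⟨z.1 * c⁻¹, ?_⟩
        left_inv := fun x => by apply Subtype.ext; simp
        right_inv := fun z => by apply Subtype.ext; simp }
    · have hx := x.2
      rw [Subgroup.mem_centralizer_iff] at ⊢
      intro h hh
      rw [Set.mem_singleton_iff] at hh
      rw [hh]
      have e1 : (x.1 : G)⁻¹ * g * x.1 = c * g * c⁻¹ := hx.trans hc.symm
      calc g * ((x.1 : G) * c) = (x.1 : G) * ((x.1 : G)⁻¹ * g * x.1) * c := by group
        _ = (x.1 : G) * (c * g * c⁻¹) * c := by rw [e1]
        _ = (x.1 : G) * c * g := by group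
    · have hz := Subgroup.mem_centralizer_iff.mp z.2 g (Set.mem_singleton g)
      have h1 : (z.1 : G)⁻¹ * g * z.1 = g := by
        calc (z.1 : G)⁻¹ * g * z.1 = (z.1 : G)⁻¹ * (g * z.1) := by group
          _ = (z.1 : G)⁻¹ * (z.1 * g) := by rw [hz]
          _ = g := by group
      calc ((z.1 : G) * c⁻¹)⁻¹ * g * ((z.1 : G) * c⁻¹)
          = c * ((z.1 : G)⁻¹ * g * z.1) * c⁻¹ := by group
        _ = c * g * c⁻¹ := by rw [h1]
        _ = y := hc
  · apply Finset.card_eq_zero.mpr
    apply Finset.filter_eq_empty_iff.mpr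
    intro x _ hx
    apply hc
    exact isConj_iff.mpr ⟨x⁻¹, by rw [inv_inv]; exact hx⟩

open Classical in
theorem sum_conj {G : Type*} [Group G] [Fintype G] (H : Subgroup G) (ξ : H → ℂ) (g : G) :
    ∑ x : G, extendByZero H ξ (x⁻¹ * g * x)
      = (Nat.card (Subgroup.centralizer ({g} : Set G)) : ℂ)
          * ∑ h : H, if IsConj g (h : G) then ξ h else 0 := by
  have h1 : ∑ x : G, extendByZero H ξ (x⁻¹ * g * x)
      = ∑ x : G, ∑ y : G, if x⁻¹ * g * x = y then extendByZero H ξ y else 0 := by
    apply Finset.sum_congr rfl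
    intro x _
    rw [Finset.sum_ite_eq]
    simp
  rw [h1, Finset.sum_comm]
  have h2 : ∀ y : G, (∑ x : G, if x⁻¹ * g * x = y then extendByZero H ξ y else 0)
      = (if IsConj g y then (Nat.card (Subgroup.centralizer ({g} : Set G)) : ℂ) else 0)
          * extendByZero H ξ y := by
    intro y
    rw [← Finset.sum_filter, Finset.sum_const, fiber_card]
    split_ifs <;> simp
  simp_rw [h2]
  rw [Finset.mul_sum]
  symm
  apply Fintype.sum_of_injective (Subtype.val : H → G) Subtype.val_injective
  · intro y hy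
    have : extendByZero H ξ y = 0 := by
      unfold extendByZero
      rw [Function.extend_apply' _ _ _ (by simpa using hy)]
      rfl
    rw [this, mul_zero]
  · intro h
    have : extendByZero H ξ (h : G) = ξ h := by
      unfold extendByZero
      exact Subtype.val_injective.extend_apply _ _ _
    rw [this]
    split_ifs <;> simp

theorem result {G : Type*} [Group G] [Fintype G] (H : Subgroup G) (ξ : H → ℂ) (hξ : Cfsg.IsCharacter H ξ) (g : G) : Cfsg.inducedCentralChar H ξ g = Cfsg.centralChar (Cfsg.indFun H ξ) g := by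
  classical
  have hA : Cfsg.inducedCentralChar H ξ g = (∑ h : H, if IsConj g (h : G) then ξ h else 0) / ξ 1 := by
    unfold inducedCentralChar
    rw [finsum_mem_def, finsum_eq_sum_of_fintype, Finset.sum_div]
    apply Finset.sum_congr rfl
    intro h _
    by_cases hc : IsConj g (h : G)
    · rw [Set.indicator_of_mem (show h ∈ {h : H | IsConj g (h : G)} from hc), if_pos hc]
    · rw [Set.indicator_of_notMem (show h ∉ {h : H | IsConj g (h : G)} from hc), if_neg hc, zero_div]
  have hB : Cfsg.indFun H ξ g = (Nat.card H : ℂ)⁻¹ * ((Nat.card (Subgroup.centralizer ({g} : Set G)) : ℂ)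
          * ∑ h : H, if IsConj g (h : G) then ξ h else 0) := by
    unfold indFun
    rw [sum_conj]
  have hC : Cfsg.indFun H ξ 1 = (Nat.card H : ℂ)⁻¹ * ((Nat.card G : ℂ) * ξ 1) := by
    unfold indFun
    have : ∀ x : G, extendByZero H ξ (x⁻¹ * 1 * x) = ξ 1 := by
      intro x
      have h1 : x⁻¹ * 1 * x = ((1 : H) : G) := by simp
      rw [h1]
      unfold extendByZero
      exact Subtype.val_injective.extend_apply _ _ _
    simp_rw [this]
    rw [Finset.sum_const, Finset.card_univ, Nat.card_eq_fintype_card]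
    simp
  rw [hA]
  unfold centralChar
  rw [hB, hC]
  have hidx : ((Subgroup.centralizer ({g} : Set G)).index : ℂ) * (Nat.card (Subgroup.centralizer ({g} : Set G)) : ℂ) = (Nat.card G : ℂ) := by
    rw [← Nat.cast_mul, mul_comm, Subgroup.card_mul_index]
  have hH : (Nat.card H : ℂ) ≠ 0 := by
    exact_mod_cast (Nat.card_pos (α := H)).ne'
  have hG : (Nat.card G : ℂ) ≠ 0 := by
    exact_mod_cast (Nat.card_pos (α := G)).ne'
  by_cases h1 : ξ 1 = 0
  · simp [h1]
  · set S := ∑ h : H, if IsConj g (h : G) then ξ h else 0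
    have e1 : ((Subgroup.centralizer ({g} : Set G)).index : ℂ) * ((Nat.card H : ℂ)⁻¹ * ((Nat.card (Subgroup.centralizer ({g} : Set G)) : ℂ) * S))
        = (Nat.card H : ℂ)⁻¹ * ((Nat.card G : ℂ) * S) := by
      rw [← hidx]; ring
    rw [e1]
    field_simp

end Cfsg.Agent.S0932
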