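import Mathlib
import Cfsg.Statements.S0933
import Cfsg.Agent.S0932
import Cfsg.Agent.Lib.Helper6.ClassSum

set_option autoImplicit false
open Cfsg

namespace Cfsg.Agent.S0933

open Cfsg.Agent.Lib.Helper6

theorem result {G : Type*} [Group G] [Fintype G] (p : ℕ) [Fact p.Prime] (M : Ideal Cfsg.AlgInt) (hM : Cfsg.IsPModular p M) (H : Subgroup G) (ξ : Cfsg.IrrCharacter H) (hind : Cfsg.IsIrrCharacter G (Cfsg.indFun H (ξ : H → ℂ))) : Cfsg.IsInducedBlock M H (Cfsg.blockOf M (ξ : H → ℂ)) (Cfsg.blockOf M (Cfsg.indFun H (ξ : H → ℂ))) := by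
  classical
  have hmax := hM.2.1
  refine ⟨⟨ξ, rfl⟩, ⟨⟨Cfsg.indFun H (ξ : H → ℂ), hind⟩, rfl⟩, ?_⟩
  intro ξ' hξ' χ hχ g
  have hξ'b : Cfsg.SameBlock M (ξ : H → ℂ) (ξ' : H → ℂ) := hξ'
  have hχb : Cfsg.SameBlock M (Cfsg.indFun H (ξ : H → ℂ)) (χ : G → ℂ) := hχ
  have hchar : Cfsg.IsCharacter H (ξ : H → ℂ) := by
    obtain ⟨n, ρ, _, h⟩ := ξ.2
    exact ⟨n, ρ, h⟩
  have e1 : Cfsg.inducedCentralChar H (ξ : H → ℂ) g = Cfsg.centralChar (Cfsg.indFun H (ξ : H → ℂ)) g :=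
    Cfsg.Agent.S0932.result H (ξ : H → ℂ) hchar g
  have e2 : Cfsg.inducedCentralChar H (ξ' : H → ℂ) g - Cfsg.centralChar (χ : G → ℂ) g
      = (Cfsg.inducedCentralChar H (ξ' : H → ℂ) g - Cfsg.inducedCentralChar H (ξ : H → ℂ) g)
        + (Cfsg.centralChar (Cfsg.indFun H (ξ : H → ℂ)) g - Cfsg.centralChar (χ : G → ℂ) g) := by
    rw [e1]; ring
  rw [e2]
  refine MemLocalIdeal.add hmax ?_ (hχb g)
  haveI : Fintype H := Fintype.ofFinite H
  unfold Cfsg.inducedCentralChar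
  rw [finsum_mem_setOf_eq_sum_filter (fun h : H => IsConj g (h : G)),
    finsum_mem_setOf_eq_sum_filter (fun h : H => IsConj g (h : G)), ← Finset.sum_sub_distrib]
  have hcf : Cfsg.IsClassFunction H (ξ : H → ℂ) :=
    Cfsg.Agent.Lib.Helper1.IsIrrCharacter.isClassFunction ξ.2
  have hcf' : Cfsg.IsClassFunction H (ξ' : H → ℂ) :=
    Cfsg.Agent.Lib.Helper1.IsIrrCharacter.isClassFunction ξ'.2
  have hD : Cfsg.IsClassFunction H
      (fun h : H => (ξ' : H → ℂ) h / (ξ' : H → ℂ) 1 - (ξ : H → ℂ) h / (ξ : H → ℂ) 1) := by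
    intro h k
    simp only [hcf h k, hcf' h k]
  have hT : ∀ h k : H, IsConj g (h : G) → IsConj g ((k * h * k⁻¹ : H) : G) := by
    intro h k hT
    have : IsConj (h : G) ((k * h * k⁻¹ : H) : G) := by
      rw [isConj_iff]
      exact ⟨(k : G), by simp⟩
    exact hT.trans this
  have hloc : ∀ h : H, Cfsg.MemLocalIdeal M (((Subgroup.centralizer ({h} : Set H)).index : ℂ)
      * ((ξ' : H → ℂ) h / (ξ' : H → ℂ) 1 - (ξ : H → ℂ) h / (ξ : H → ℂ) 1)) := by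
    intro h
    have := MemLocalIdeal.neg (hξ'b h)
    unfold Cfsg.centralChar at this
    have e3 : -(((Subgroup.centralizer ({h} : Set H)).index : ℂ) * (ξ : H → ℂ) h / (ξ : H → ℂ) 1
        - ((Subgroup.centralizer ({h} : Set H)).index : ℂ) * (ξ' : H → ℂ) h / (ξ' : H → ℂ) 1)
        = ((Subgroup.centralizer ({h} : Set H)).index : ℂ)
          * ((ξ' : H → ℂ) h / (ξ' : H → ℂ) 1 - (ξ : H → ℂ) h / (ξ : H → ℂ) 1) := by ring
    rw [e3] at this
    exact this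
  have key := sum_conjStable_memLocalIdeal hmax
    (fun h : H => (ξ' : H → ℂ) h / (ξ' : H → ℂ) 1 - (ξ : H → ℂ) h / (ξ : H → ℂ) 1) hD
    (fun h : H => IsConj g (h : G)) hT hloc
  convert key using 2
  ext h
  simp only [Finset.mem_filter, Finset.mem_univ, true_and]

end Cfsg.Agent.S0933
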