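import Mathlib
import Cfsg.Statements.S0934
import Cfsg.Agent.Lib.Helper6.Block
import Cfsg.Agent.S0932

set_option autoImplicit false
open Cfsg

namespace Cfsg.Agent.S0934

/-- Let H be a subgroup of the finite group G and fix a maximal ideal M of the algebraic integers containing the prime p. If the block b of H induces the block B of G and ξ ∈ b, then there is χ ∈ B whose restriction to H has nonzero inner product with ξ. -/
theorem result {G : Type*} [Group G] [Fintype G] (p : ℕ) [Fact p.Prime] (M : Ideal Cfsg.AlgInt) (hM : Cfsg.IsPModular p M) (H : Subgroup G) [Fintype H] (b : Set (Cfsg.IrrCharacter H)) (B : Set (Cfsg.IrrCharacter G)) (hind : Cfsg.IsInducedBlock M H b B) (ξ : Cfsg.IrrCharacter H) (hξ : ξ ∈ b) : ∃ χ ∈ B, Cfsg.classInner (fun h : H => (χ : G → ℂ) h) (ξ : H → ℂ) ≠ 0 := by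
  classical
  haveI : Fintype (IrrCharacter G) := Cfsg.Agent.Lib.Helper1.irrFintype
  have hmax := hM.2.1
  obtain ⟨hb, hB, h⟩ := hind
  have hS := Cfsg.Agent.Lib.Helper6.osima' hmax B hB
  obtain ⟨χ₀, rfl⟩ := hB
  have hχ₀ := Cfsg.Agent.Lib.Helper6.mem_blockOf_self hmax χ₀
  set Φ : G → ℂ := Cfsg.indFun H (ξ : H → ℂ) with hΦ
  have hΦc : IsClassFunction G Φ := Cfsg.Agent.Lib.Helper1.indFun_isClassFunction H _
  have hξc : IsCharacter H (ξ : H → ℂ) := Cfsg.Agent.Lib.Helper1.IsIrrCharacter.isCharacter ξ.2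
  have hsame : SameBlock M Φ (χ₀ : G → ℂ) := by
    intro g
    rw [hΦ, ← Cfsg.Agent.S0932.result H (ξ : H → ℂ) hξc g]
    exact h ξ hξ χ₀ hχ₀ g
  have h1 := Cfsg.Agent.Lib.Helper6.omega_sub_memLocalIdeal hmax hΦc
    (Cfsg.Agent.Lib.Helper6.irr_isClassFunction χ₀) hsame
    (Cfsg.Agent.Lib.Helper6.isClassFunction_blockCoeff (blockOf M (χ₀ : G → ℂ))) hS
  rw [Cfsg.Agent.Lib.Helper6.omega_blockCoeff, if_pos hχ₀] at h1
  by_contra hcon
  push_neg at hcon
  apply Cfsg.Agent.Lib.Helper6.not_memLocalIdeal_one hmax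
  have h2 : Cfsg.Agent.Lib.Helper6.omega Φ (blockCoeff (blockOf M (χ₀ : G → ℂ))) = 0 := by
    rw [Cfsg.Agent.Lib.Helper6.blockCoeff_eq, Cfsg.Agent.Lib.Helper6.omega_sum]
    apply Finset.sum_eq_zero
    intro χ hχ
    have hχB : χ ∈ blockOf M (χ₀ : G → ℂ) := (Finset.mem_filter.mp hχ).2
    have h3 : Cfsg.classInner Φ (χ : G → ℂ) = 0 := by
      rw [hΦ, Cfsg.Agent.Lib.Helper1.frobenius_reciprocity H (ξ : H → ℂ)
        (Cfsg.Agent.Lib.Helper6.irr_isClassFunction χ),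
        ← Cfsg.Agent.Lib.Helper1.classInner_conj_symm, hcon χ hχB, map_zero]
    have h4 : Cfsg.Agent.Lib.Helper6.omega Φ (Cfsg.Agent.Lib.Helper6.eidem (χ : G → ℂ))
        = (χ : G → ℂ) 1 / Φ 1 * Cfsg.classInner Φ (χ : G → ℂ) := by
      unfold Cfsg.Agent.Lib.Helper6.omega Cfsg.Agent.Lib.Helper6.eidem Cfsg.classInner
      rw [Finset.mul_sum, Finset.mul_sum, Finset.sum_div]
      apply Finset.sum_congr rfl
      intro g _
      ring
    rw [h4, h3, mul_zero]
  rw [h2, zero_sub] at h1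
  have := Cfsg.Agent.Lib.Helper6.MemLocalIdeal.neg h1
  rwa [neg_neg] at this

end Cfsg.Agent.S0934
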