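import Cfsg.Statements.S0945
import Mathlib

set_option autoImplicit false
open Cfsg

namespace Cfsg.Agent.S0945

/-- The two-torsion of a cyclic group of order a power of two. -/
theorem zmod_two_torsion (k : ℕ) (a : ZMod (2 ^ (k + 1))) (ha : 2 * a = 0) :
    a = 0 ∨ a = ((2 ^ k : ℕ) : ZMod (2 ^ (k + 1))) := by
  have hne : NeZero (2 ^ (k + 1)) := ⟨by positivity⟩
  have h1 : ((2 * a.val : ℕ) : ZMod (2 ^ (k + 1))) = 0 := by
    rw [Nat.cast_mul, ZMod.natCast_zmod_val]
    exact_mod_cast ha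
  rw [ZMod.natCast_eq_zero_iff] at h1
  have h2 : 2 ^ k ∣ a.val := by
    have h1' : 2 * 2 ^ k ∣ 2 * a.val := by
      have h6 : 2 * 2 ^ k = 2 ^ (k + 1) := by ring
      rw [h6]; exact h1
    exact Nat.dvd_of_mul_dvd_mul_left (by norm_num) h1'
  obtain ⟨c, hc⟩ := h2
  have hlt : a.val < 2 ^ k * 2 := lt_of_lt_of_eq (ZMod.val_lt a) (pow_succ 2 k)
  have hc2 : c < 2 := by
    by_contra hge
    push Not at hge
    have h3 : 2 ^ k * 2 ≤ 2 ^ k * c := Nat.mul_le_mul_left _ hge
    omega
  have ha' : a = ((a.val : ℕ) : ZMod (2 ^ (k + 1))) := (ZMod.natCast_zmod_val a).symm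
  interval_cases c
  · left; rw [ha', hc]; simp
  · right; rw [ha', hc]; simp

/-- An automorphism of odd order of an abelian two-group fixing all involutions is trivial. -/
theorem aut_eq_one {P : Type*} [Group P] (hcomm : ∀ a b : P, a * b = b * a) (hP : IsPGroup 2 P)
    (α : MulAut P) (n : ℕ) (hn : Odd n) (hαn : α ^ n = 1) (hfix : ∀ x : P, x ^ 2 = 1 → α x = x) :
    α = 1 := by
  have hswap : ∀ w : P, α (α w) = w → α w = w := by
    intro w hw
    have h2 : ∀ j : ℕ, (α ^ (2 * j)) (α w) = α w := by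
      intro j
      induction j with
      | zero => simp
      | succ j ih =>
        have h4 : 2 * (j + 1) = 2 * j + 2 := by ring
        rw [h4, pow_add, MulAut.mul_apply, pow_two, MulAut.mul_apply, hw, ih]
    obtain ⟨j, rfl⟩ := hn
    have h3 : (α ^ (2 * j + 1)) w = w := by rw [hαn]; rfl
    rw [pow_succ, MulAut.mul_apply] at h3
    rw [h2 j] at h3
    exact h3
  have hk : ∀ k : ℕ, ∀ x : P, x ^ (2 ^ k) = 1 → α x = x := by
    intro k
    induction k with
    | zero =>
      intro x hx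
      rw [pow_zero, pow_one] at hx
      rw [hx, map_one]
    | succ k ih =>
      intro x hx
      apply hswap
      have h1 : α (x ^ 2) = x ^ 2 := ih (x ^ 2) (by rw [← pow_mul, ← pow_succ']; exact hx)
      rw [map_pow] at h1
      have ht : (α x * x⁻¹) ^ 2 = 1 := by
        rw [(show Commute (α x) x⁻¹ from hcomm _ _).mul_pow, h1, inv_pow, mul_inv_cancel]
      have h5 := hfix _ ht
      rw [map_mul, map_inv] at h5
      have h6 : α (α x) = α x * x⁻¹ * α x := eq_mul_of_mul_inv_eq h5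
      rw [h6, hcomm (α x) x⁻¹, mul_assoc, ← pow_two, h1, pow_two, inv_mul_cancel_left]
  apply MulEquiv.ext
  intro x
  obtain ⟨k, hk'⟩ := hP x
  exact hk k x hk'

/-- The action of automorphisms on the involutions. -/
def rho (P : Type*) [Group P] : MulAut P →* Equiv.Perm {x : P // x ≠ 1 ∧ x ^ 2 = 1} where
  toFun α :=
    { toFun := fun x => ⟨α x.1, fun h => x.2.1 ((map_eq_one_iff α α.injective).mp h), by
        rw [← map_pow, x.2.2, map_one]⟩
      invFun := fun x => ⟨α.symm x.1, fun h => x.2.1 ((map_eq_one_iff α.symm α.symm.injective).mp h),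
        by rw [← map_pow, x.2.2, map_one]⟩
      left_inv := fun x => Subtype.ext (α.symm_apply_apply x.1)
      right_inv := fun x => Subtype.ext (α.apply_symm_apply x.1) }
  map_one' := by ext x; rfl
  map_mul' α β := by ext x; rfl

theorem card_omega_le {P : Type*} [Group P] [Finite P] (m : ℕ) (hm : 1 ≤ m)
    (e : P ≃* Multiplicative (ZMod (2 ^ m) × ZMod (2 ^ m))) :
    Nat.card {x : P // x ≠ 1 ∧ x ^ 2 = 1} ≤ 3 := by
  classical
  obtain ⟨k, rfl⟩ : ∃ k, m = k + 1 := ⟨m - 1, by omega⟩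
  have htor : ∀ x : P, x ^ 2 = 1 → (2 * (Multiplicative.toAdd (e x)).1 = 0 ∧
      2 * (Multiplicative.toAdd (e x)).2 = 0) := by
    intro x hx
    have h1 : (e x) ^ 2 = 1 := by rw [← map_pow, hx, map_one]
    have h2 : (2 : ℕ) • Multiplicative.toAdd (e x) = 0 := by
      have h3 := congrArg Multiplicative.toAdd h1
      rw [toAdd_pow, toAdd_one] at h3
      exact h3
    constructor
    · have h4 := congrArg Prod.fst h2
      simpa [two_mul, two_nsmul] using h4
    · have h4 := congrArg Prod.snd h2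
      simpa [two_mul, two_nsmul] using h4
  have hcase : ∀ (a b : ZMod (2 ^ (k + 1))), 2 * a = 0 → 2 * b = 0 → (a = 0 ↔ b = 0) → a = b := by
    intro a b ha hb hab
    by_cases c : a = 0
    · rw [c, hab.mp c]
    · have c' : ¬ b = 0 := fun h => c (hab.mpr h)
      rw [(zmod_two_torsion k a ha).resolve_left c, (zmod_two_torsion k b hb).resolve_left c']
  let F : {x : P // x ≠ 1 ∧ x ^ 2 = 1} → {q : Bool × Bool // q ≠ (true, true)} := fun x =>
    ⟨(decide ((Multiplicative.toAdd (e x.1)).1 = 0), decide ((Multiplicative.toAdd (e x.1)).2 = 0)),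
      by
        intro h
        rw [Prod.mk.injEq, decide_eq_true_eq, decide_eq_true_eq] at h
        apply x.2.1
        apply e.injective
        rw [map_one]
        apply Multiplicative.toAdd.injective
        exact Prod.ext h.1 h.2⟩
  have hF : Function.Injective F := by
    intro x x' hxx
    have h1 : (decide ((Multiplicative.toAdd (e x.1)).1 = 0),
        decide ((Multiplicative.toAdd (e x.1)).2 = 0)) =
        (decide ((Multiplicative.toAdd (e x'.1)).1 = 0),
        decide ((Multiplicative.toAdd (e x'.1)).2 = 0)) :=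
      congrArg Subtype.val hxx
    rw [Prod.mk.injEq, decide_eq_decide, decide_eq_decide] at h1
    apply Subtype.ext
    apply e.injective
    apply Multiplicative.toAdd.injective
    have hx := htor x.1 x.2.2
    have hx' := htor x'.1 x'.2.2
    exact Prod.ext (hcase _ _ hx.1 hx'.1 h1.1) (hcase _ _ hx.2 hx'.2 h1.2)
  have h3 : Nat.card {q : Bool × Bool // q ≠ (true, true)} = 3 := by
    rw [Nat.card_eq_fintype_card]; rfl
  have h4 := Nat.card_le_card_of_injective F hF
  omega

theorem aux {G : Type*} [Group G] [Finite G] (P : Sylow 2 G) (m : ℕ) (hm : 1 ≤ m) (e : (P : Subgroup G) ≃* Multiplicative (ZMod (2 ^ m) × ZMod (2 ^ m))) : ((Subgroup.centralizer ((P : Subgroup G) : Set G)).relIndex (Subgroup.normalizer ((P : Subgroup G) : Set G)) = 1 ∨ (Subgroup.centralizer ((P : Subgroup G) : Set G)).relIndex (Subgroup.normalizer ((P : Subgroup G) : Set G)) = 3) ∧ ((Subgroup.centralizer ((P : Subgroup G) : Set G)).relIndex (Subgroup.normalizer ((P : Subgroup G) : Set G))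 ≠ 1 → ∀ z ∈ (P : Subgroup G), z ≠ 1 → Subgroup.centralizer ({z} : Set G) ⊓ Subgroup.normalizer ((P : Subgroup G) : Set G) = Subgroup.centralizer ((P : Subgroup G) : Set G)) := by
  classical
  have hp2 : Fact (Nat.Prime 2) := ⟨Nat.prime_two⟩
  have hp3 : Fact (Nat.Prime 3) := ⟨Nat.prime_three⟩
  have hcomm : ∀ a b : ↥(P : Subgroup G), a * b = b * a := by
    intro a b
    apply e.injective
    rw [map_mul, map_mul, mul_comm]
  have hΩ : Nat.card {x : ↥(P : Subgroup G) // x ≠ 1 ∧ x ^ 2 = 1} ≤ 3 := card_omega_le m hm e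
  obtain ⟨f, hf⟩ : ∃ f : ↥(Subgroup.normalizer ((P : Subgroup G) : Set G)) →*
      MulAut ↥(P : Subgroup G), f = (P : Subgroup G).normalizerMonoidHom := ⟨_, rfl⟩
  have hrel : (Subgroup.centralizer ((P : Subgroup G) : Set G)).relIndex
      (Subgroup.normalizer ((P : Subgroup G) : Set G)) = Nat.card f.range := by
    rw [← Subgroup.index_ker, hf, Subgroup.normalizerMonoidHom_ker]
    rfl
  have hPC : (P : Subgroup G) ≤ Subgroup.centralizer ((P : Subgroup G) : Set G) := by
    intro x hx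
    rw [Subgroup.mem_centralizer_iff]
    intro y hy
    exact congrArg Subtype.val (hcomm ⟨y, hy⟩ ⟨x, hx⟩)
  have hodd : ¬ 2 ∣ Nat.card f.range := by
    rw [← hrel]
    intro h2
    have h1 := Subgroup.relIndex_dvd_of_le_left
      (Subgroup.normalizer ((P : Subgroup G) : Set G)) hPC
    have h3 := Subgroup.relIndex_dvd_index_of_le (Subgroup.le_normalizer (H := (P : Subgroup G)))
    exact P.not_dvd_index (h2.trans (h1.trans h3))
  have hRodd : Odd (Nat.card f.range) := Nat.odd_iff.mpr (by omega)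
  have hker : ∀ α ∈ f.range, rho ↥(P : Subgroup G) α = 1 → α = 1 := by
    intro α hα h1
    apply aut_eq_one hcomm P.2 α (Nat.card f.range) hRodd
    · have h2 := pow_card_eq_one' (G := ↥f.range) (x := ⟨α, hα⟩)
      exact congrArg Subtype.val h2
    · intro x hx
      by_cases hx1 : x = 1
      · rw [hx1, map_one]
      · have h2 := congrArg (fun σ : Equiv.Perm {x : ↥(P : Subgroup G) // x ≠ 1 ∧ x ^ 2 = 1} =>
          ((σ ⟨x, hx1, hx⟩ : {x : ↥(P : Subgroup G) // x ≠ 1 ∧ x ^ 2 = 1}) : ↥(P : Subgroup G))) h1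
        exact h2
  have hinj : Function.Injective ((rho ↥(P : Subgroup G)).comp f.range.subtype) := by
    rw [injective_iff_map_eq_one]
    intro a ha
    exact Subtype.ext (hker a.1 a.2 ha)
  have hdvd6 : Nat.card f.range ∣ 6 := by
    have h1 := Subgroup.card_dvd_of_injective _ hinj
    rw [Nat.card_perm] at h1
    have h2 : (Nat.card {x : ↥(P : Subgroup G) // x ≠ 1 ∧ x ^ 2 = 1}).factorial ∣
        Nat.factorial 3 := Nat.factorial_dvd_factorial hΩ
    exact h1.trans h2
  have h13 : Nat.card f.range = 1 ∨ Nat.card f.range = 3 := by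
    obtain ⟨r, hr⟩ : ∃ r, r = Nat.card f.range := ⟨_, rfl⟩
    rw [← hr] at hdvd6 hodd ⊢
    have hle : r ≤ 6 := Nat.le_of_dvd (by norm_num) hdvd6
    have h0 : 6 % r = 0 := Nat.mod_eq_zero_of_dvd hdvd6
    interval_cases r <;> omega
  rw [hrel]
  refine ⟨h13, ?_⟩
  intro hne1 z hz hz1
  have h3 : Nat.card f.range = 3 := by omega
  apply le_antisymm
  · rintro g ⟨hgz0, hgN0⟩
    have hgz : g ∈ Subgroup.centralizer ({z} : Set G) := hgz0
    have hgN : g ∈ Subgroup.normalizer ((P : Subgroup G) : Set G) := hgN0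
    have hα : f ⟨g, hgN⟩ ∈ f.range := ⟨_, rfl⟩
    have hα3 : (f ⟨g, hgN⟩) ^ 3 = 1 := by
      have h4 := pow_card_eq_one' (G := ↥f.range) (x := ⟨f ⟨g, hgN⟩, hα⟩)
      rw [h3] at h4
      exact congrArg Subtype.val h4
    have hαz : f ⟨g, hgN⟩ ⟨z, hz⟩ = ⟨z, hz⟩ := by
      apply Subtype.ext
      rw [hf]
      show g * z * g⁻¹ = z
      rw [Subgroup.mem_centralizer_singleton_iff] at hgz
      rw [hgz, mul_inv_cancel_right]
    obtain ⟨w, hw⟩ : ∃ w : {x : ↥(P : Subgroup G) // x ≠ 1 ∧ x ^ 2 = 1},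
        f ⟨g, hgN⟩ w.1 = w.1 := by
      have hex : ∃ k, (⟨z, hz⟩ : ↥(P : Subgroup G)) ^ (2 ^ k) = 1 := P.2 ⟨z, hz⟩
      have hk0 : Nat.find hex ≠ 0 := by
        intro h0
        have h5 := Nat.find_spec hex
        rw [h0, pow_zero, pow_one] at h5
        exact hz1 (congrArg Subtype.val h5)
      obtain ⟨k, hk⟩ := Nat.exists_eq_succ_of_ne_zero hk0
      refine ⟨⟨(⟨z, hz⟩ : ↥(P : Subgroup G)) ^ (2 ^ k), ?_, ?_⟩, ?_⟩
      · exact Nat.find_min hex (by rw [hk]; exact Nat.lt_succ_self k)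
      · rw [← pow_mul, ← pow_succ]
        have h5 := Nat.find_spec hex
        rw [hk] at h5
        exact h5
      · show f ⟨g, hgN⟩ ((⟨z, hz⟩ : ↥(P : Subgroup G)) ^ (2 ^ k)) = ⟨z, hz⟩ ^ (2 ^ k)
        rw [map_pow, hαz]
    have hσ : rho ↥(P : Subgroup G) (f ⟨g, hgN⟩) = 1 := by
      have : Fintype {x : ↥(P : Subgroup G) // x ≠ 1 ∧ x ^ 2 = 1} := Fintype.ofFinite _
      obtain ⟨σ, hσdef⟩ : ∃ σ, σ = rho ↥(P : Subgroup G) (f ⟨g, hgN⟩) := ⟨_, rfl⟩
      rw [← hσdef]
      have hσ3 : σ ^ 3 = 1 := by rw [hσdef, ← map_pow, hα3, map_one]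
      have hct := Equiv.Perm.cycleType_of_pow_prime_eq_one hσ3
      have hfp := Equiv.Perm.card_fixedPoints σ
      have hk := Equiv.Perm.sum_cycleType_le σ
      have hsumct : σ.cycleType.sum = Multiset.card σ.cycleType * 3 := by
        rw [hct, Multiset.sum_replicate, smul_eq_mul, Multiset.card_replicate]
      rw [hsumct] at hfp hk
      simp only [Fintype.card_eq_nat_card] at hfp hk
      have hpos : 0 < Nat.card (Function.fixedPoints σ) :=
        Nat.card_pos_iff.mpr ⟨⟨⟨w, by rw [hσdef]; exact Subtype.ext hw⟩⟩, inferInstance⟩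
      have hc0 : Multiset.card σ.cycleType = 0 := by omega
      rw [Multiset.card_eq_zero, Equiv.Perm.cycleType_eq_zero] at hc0
      exact hc0
    have hα1 := hker _ hα hσ
    have hgker : (⟨g, hgN⟩ : ↥(Subgroup.normalizer ((P : Subgroup G) : Set G))) ∈ f.ker := hα1
    rw [hf, Subgroup.normalizerMonoidHom_ker, Subgroup.mem_subgroupOf] at hgker
    exact hgker
  · intro g hg
    exact ⟨Subgroup.centralizer_le (Set.singleton_subset_iff.mpr hz) hg,
      Subgroup.centralizer_le_normalizer _ hg⟩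

/-- Let P be a Sylow 2-subgroup of the finite group G isomorphic to Z/2^m × Z/2^m with m ≥ 1. Then (i) the index of C_G(P) in N_G(P) is 1 or 3, and (ii) if it is not 1, then for every z ≠ 1 in P, C_G(z) ∩ N_G(P) = C_G(P). -/
theorem result {G : Type*} [Group G] [Finite G] (P : Sylow 2 G) (m : ℕ) (hm : 1 ≤ m) (e : (P : Subgroup G) ≃* Multiplicative (ZMod (2 ^ m) × ZMod (2 ^ m))) : ((Subgroup.centralizer (P : Set G)).relIndex (Subgroup.normalizer (P : Set G)) = 1 ∨ (Subgroup.centralizer (P : Set G)).relIndex (Subgroup.normalizer (P : Set G)) = 3) ∧ ((Subgroup.centralizer (P : Set G)).relIndex (Subgroup.normalizer (P : Set G)) ≠ 1 → ∀ z ∈ (P : Subgroup G), z ≠ 1 → Subgroup.centralizer ({z} : Set G) ⊓ Subgroup.normalizer (P : Set G) = Subgroup.centralizer (P : Set G)) := by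
  exact aux P m hm e

end Cfsg.Agent.S0945
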