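import Mathlib
import Cfsg.Statements.S0946
import Cfsg.Agent.S0945
import Cfsg.Agent.Lib.Helper16.Basic

set_option autoImplicit false
open Cfsg

namespace Cfsg.Agent.S0946

open Cfsg.Agent.Lib.Helper16.Basic

theorem exists_conj_mem {G : Type*} [Group G] [Finite G] (P : Sylow 2 G) (s : G)
    (hs : orderOf s = 2) : ∃ g : G, g * s * g⁻¹ ∈ (P : Subgroup G) := by
  have hA : IsPGroup 2 (Subgroup.zpowers s) := by
    apply IsPGroup.of_card (n := 1)
    rw [Nat.card_zpowers, hs, pow_one]
  obtain ⟨g, hg⟩ := exists_conj_le_sylow hA P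
  refine ⟨g, hg ?_⟩
  rw [Subgroup.mem_map]
  exact ⟨s, Subgroup.mem_zpowers s, rfl⟩

theorem result {G : Type*} [Group G] [Finite G] (P : Sylow 2 G) (m : ℕ) (hm : 1 ≤ m) (e : (P : Subgroup G) ≃* Multiplicative (ZMod (2 ^ m) × ZMod (2 ^ m))) : (∃ N : Subgroup G, N.Normal ∧ Subgroup.IsComplement' N (P : Subgroup G)) ∨ ∀ s t : G, orderOf s = 2 → orderOf t = 2 → IsConj s t := by
  classical
  obtain ⟨h13, hB⟩ := Cfsg.Agent.S0945.result P m hm e
  by_cases h1 : (Subgroup.centralizer (P : Set G)).relIndex (Subgroup.normalizer (P : Set G)) = 1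
  · left
    have hP : Subgroup.normalizer (P : Set G) ≤ Subgroup.centralizer (P : Set G) :=
      Subgroup.relIndex_eq_one.1 h1
    exact ⟨(MonoidHom.transferSylow P hP).ker, inferInstance,
      MonoidHom.ker_transferSylow_isComplement' P hP⟩
  · right
    have h3 : (Subgroup.centralizer (P : Set G)).relIndex (Subgroup.normalizer (P : Set G)) = 3 := by
      rcases h13 with h | h
      · exact absurd h h1
      · exact h
    have hB' := hB h1
    set N : Subgroup G := Subgroup.normalizer (P : Set G) with hN
    set C : Subgroup N := (Subgroup.centralizer (P : Set G)).subgroupOf N with hC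
    have hCidx : C.index = 3 := h3
    set I : Set G := {x : G | x ∈ (P : Subgroup G) ∧ x ≠ 1 ∧ x ^ 2 = 1} with hI
    have hIcard : I.ncard ≤ 3 := by
      have h1 := Cfsg.Agent.S0945.card_omega_le m hm e
      have h2 : Nat.card I ≤ Nat.card {x : (P : Subgroup G) // x ≠ 1 ∧ x ^ 2 = 1} := by
        apply Nat.card_le_card_of_injective
          (fun x : I => (⟨⟨x.1, x.2.1⟩, by
            constructor
            · intro h
              exact x.2.2.1 (congrArg Subtype.val h)
            · apply Subtype.ext
              simpa using x.2.2.2⟩ : {x : (P : Subgroup G) // x ≠ 1 ∧ x ^ 2 = 1}))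
        intro x y hxy
        apply Subtype.ext
        have := congrArg (fun w : {x : (P : Subgroup G) // x ≠ 1 ∧ x ^ 2 = 1} => ((w : (P : Subgroup G)) : G)) hxy
        exact this
      rw [← Nat.card_coe_set_eq]
      exact h2.trans h1
    letI act : MulAction N G :=
      MulAction.compHom G ((MulAut.conj : G →* MulAut G).comp N.subtype)
    have hsmul : ∀ (n : N) (x : G), n • x = (n : G) * x * (n : G)⁻¹ := fun n x => rfl
    have horbit : ∀ z ∈ I, MulAction.orbit N z = I := by
      intro z hz
      have hstab : MulAction.stabilizer N z = C := by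
        ext n
        rw [MulAction.mem_stabilizer_iff, hsmul, hC, Subgroup.mem_subgroupOf, ← hB' z hz.1 hz.2.1,
          Subgroup.mem_inf, Subgroup.mem_centralizer_singleton_iff]
        constructor
        · intro h
          refine ⟨?_, n.2⟩
          calc (n : G) * z = ((n : G) * z * (n : G)⁻¹) * (n : G) := by group
            _ = z * (n : G) := by rw [h]
        · rintro ⟨h, -⟩
          rw [h, mul_inv_cancel_right]
      have hcard : (MulAction.orbit N z).ncard = 3 := by
        rw [← MulAction.index_stabilizer, hstab, hCidx]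
      apply Set.eq_of_subset_of_ncard_le
      · rintro x ⟨n, rfl⟩
        change n • z ∈ I
        rw [hsmul]
        refine ⟨?_, ?_, ?_⟩
        · exact (Subgroup.mem_normalizer_iff.1 n.2 z).1 hz.1
        · intro h
          apply hz.2.1
          have : z = (n : G)⁻¹ * ((n : G) * z * (n : G)⁻¹) * (n : G) := by group
          rw [this, h]
          group
        · rw [conj_pow, hz.2.2]
          group
      · rw [hcard]
        exact hIcard
      · exact Set.toFinite _
    have hmemI : ∀ x : G, x ∈ (P : Subgroup G) → orderOf x = 2 → x ∈ I := by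
      intro x hx hox
      refine ⟨hx, ?_, ?_⟩
      · intro h
        rw [h, orderOf_one] at hox
        norm_num at hox
      · rw [← hox]
        exact pow_orderOf_eq_one x
    intro s t hs ht
    obtain ⟨g, hg⟩ := exists_conj_mem P s hs
    obtain ⟨k, hk⟩ := exists_conj_mem P t ht
    have hord : ∀ (g x : G), orderOf (g * x * g⁻¹) = orderOf x := by
      intro g x
      have := MulEquiv.orderOf_eq (MulAut.conj g) x
      rwa [MulAut.conj_apply] at this
    have hs' : g * s * g⁻¹ ∈ I := hmemI _ hg (by rw [hord, hs])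
    have ht' : k * t * k⁻¹ ∈ I := hmemI _ hk (by rw [hord, ht])
    have h4 : k * t * k⁻¹ ∈ MulAction.orbit N (g * s * g⁻¹) := by
      rw [horbit _ hs']; exact ht'
    obtain ⟨n, hn⟩ := h4
    have hn' : (n : G) * (g * s * g⁻¹) * (n : G)⁻¹ = k * t * k⁻¹ := hn
    rw [isConj_iff]
    refine ⟨k⁻¹ * (n : G) * g, ?_⟩
    have h5 : t = k⁻¹ * (k * t * k⁻¹) * k := by group
    rw [h5, ← hn']
    group

end Cfsg.Agent.S0946
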