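import Cfsg.Statements.S0957
import Mathlib

set_option autoImplicit false
open Cfsg

namespace Cfsg.Agent.S0957

theorem dvd_card_of_orbits {P X : Type*} [Group P] [MulAction P X] [Finite X] (m : ℕ)
    (h : ∀ x : X, m ∣ Nat.card (MulAction.orbit P x)) : m ∣ Nat.card X := by
  classical
  rw [Nat.card_congr (MulAction.selfEquivSigmaOrbits P X)]
  have : Fintype (MulAction.orbitRel.Quotient P X) := Fintype.ofFinite _
  rw [Nat.card_sigma]
  apply Finset.dvd_sum
  intro ω _
  exact h _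

theorem card_centralizer_conj {G : Type*} [Group G] (g a : G) :
    Nat.card (Subgroup.centralizer ({g * a * g⁻¹} : Set G)) = Nat.card (Subgroup.centralizer ({a} : Set G)) := by
  symm
  refine Nat.card_congr ((MulAut.conj g).toEquiv.subtypeEquiv ?_)
  intro x
  rw [Subgroup.mem_centralizer_singleton_iff, Subgroup.mem_centralizer_singleton_iff]
  show _ ↔ g * x * g⁻¹ * (g * a * g⁻¹) = g * a * g⁻¹ * (g * x * g⁻¹)
  constructor
  · intro h
    have : g * x * g⁻¹ * (g * a * g⁻¹) = g * (x * a) * g⁻¹ := by group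
    rw [this, h]; group
  · intro h
    have h1 : x * a = g⁻¹ * (g * x * g⁻¹ * (g * a * g⁻¹)) * g := by group
    rw [h1, h]; group

/-- Let P be a Sylow p-subgroup of the finite group G, let g, h ∈ G and let p ^ d be the order of a Sylow p-subgroup of the centralizer of g. Then the number of pairs (y, z) with y conjugate to g, z conjugate to h and z * y⁻¹ ∈ P is divisible by the order of P divided by p ^ d. -/
theorem result {G : Type*} [Group G] [Finite G] (p : ℕ) [Fact p.Prime] (P : Sylow p G) (g h : G) (S : Sylow p (Subgroup.centralizer ({g} : Set G))) : Nat.card P / Nat.card S ∣ Nat.card {yz : G × G // IsConj g yz.1 ∧ IsConj h yz.2 ∧ yz.2 * yz.1⁻¹ ∈ (P : Subgroup G)} := by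
  classical
  have hp : p.Prime := Fact.out
  let _ : MulAction ↥(P : Subgroup G) {yz : G × G // IsConj g yz.1 ∧ IsConj h yz.2 ∧ yz.2 * yz.1⁻¹ ∈ (P : Subgroup G)} :=
    { smul := fun u x => ⟨((u : G) * x.1.1 * (u : G)⁻¹, (u : G) * x.1.2 * (u : G)⁻¹),
        x.2.1.trans (isConj_iff.mpr ⟨u, rfl⟩), x.2.2.1.trans (isConj_iff.mpr ⟨u, rfl⟩), by
          have : (u : G) * x.1.2 * (u : G)⁻¹ * ((u : G) * x.1.1 * (u : G)⁻¹)⁻¹
              = (u : G) * (x.1.2 * x.1.1⁻¹) * (u : G)⁻¹ := by group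
          rw [this]
          exact mul_mem (mul_mem u.2 x.2.2.2) (inv_mem u.2)⟩
      one_smul := fun x => by
        apply Subtype.ext
        apply Prod.ext
        · show ((1 : ↥(P : Subgroup G)) : G) * x.1.1 * ((1 : ↥(P : Subgroup G)) : G)⁻¹ = x.1.1
          simp
        · show ((1 : ↥(P : Subgroup G)) : G) * x.1.2 * ((1 : ↥(P : Subgroup G)) : G)⁻¹ = x.1.2
          simp
      mul_smul := fun u v x => by
        apply Subtype.ext
        apply Prod.ext
        · show ((u * v : ↥(P : Subgroup G)) : G) * x.1.1 * ((u * v : ↥(P : Subgroup G)) : G)⁻¹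
            = (u : G) * ((v : G) * x.1.1 * (v : G)⁻¹) * (u : G)⁻¹
          rw [Subgroup.coe_mul]; group
        · show ((u * v : ↥(P : Subgroup G)) : G) * x.1.2 * ((u * v : ↥(P : Subgroup G)) : G)⁻¹
            = (u : G) * ((v : G) * x.1.2 * (v : G)⁻¹) * (u : G)⁻¹
          rw [Subgroup.coe_mul]; group }
  apply dvd_card_of_orbits (P := ↥(P : Subgroup G))
  intro x
  obtain ⟨⟨y, z⟩, hy, hz, hyz⟩ := x
  -- the stabilizer
  obtain ⟨K, hK⟩ : ∃ K, K = MulAction.stabilizer ↥(P : Subgroup G)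
      (⟨(y, z), hy, hz, hyz⟩ : {yz : G × G // IsConj g yz.1 ∧ IsConj h yz.2 ∧ yz.2 * yz.1⁻¹ ∈ (P : Subgroup G)}) :=
    ⟨_, rfl⟩
  have hidx : K.index = Nat.card (MulAction.orbit ↥(P : Subgroup G)
      (⟨(y, z), hy, hz, hyz⟩ : {yz : G × G // IsConj g yz.1 ∧ IsConj h yz.2 ∧ yz.2 * yz.1⁻¹ ∈ (P : Subgroup G)})) := by
    rw [hK, MulAction.index_stabilizer, Nat.card_coe_set_eq]
  rw [← hidx]
  -- K embeds in the centralizer of y
  have hKle : K.map (P : Subgroup G).subtype ≤ Subgroup.centralizer ({y} : Set G) := by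
    rintro _ ⟨u, hu, rfl⟩
    have hu' : u ∈ K := hu
    rw [hK, MulAction.mem_stabilizer_iff] at hu'
    replace hu := hu'
    have h1 : (u : G) * y * (u : G)⁻¹ = y := congrArg (fun x : {yz : G × G // IsConj g yz.1 ∧ IsConj h yz.2 ∧ yz.2 * yz.1⁻¹ ∈ (P : Subgroup G)} => x.1.1) hu
    rw [Subgroup.mem_centralizer_singleton_iff]
    show (u : G) * y = y * (u : G)
    rw [← mul_inv_eq_iff_eq_mul]
    exact h1
  have hKcard : Nat.card (K.map (P : Subgroup G).subtype) = Nat.card K :=
    Subgroup.card_map_of_injective (Subgroup.subtype_injective _)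
  have hKp : IsPGroup p K := P.isPGroup'.to_subgroup K
  obtain ⟨k, hk⟩ := IsPGroup.iff_card.mp hKp
  obtain ⟨c, hc⟩ := isConj_iff.mp hy
  have hdvd1 : p ^ k ∣ Nat.card (Subgroup.centralizer ({g} : Set G)) := by
    rw [← hk, ← hKcard, ← card_centralizer_conj c g, hc]
    exact Subgroup.card_dvd_of_le hKle
  have hS := S.card_eq_multiplicity
  have hPc := P.card_eq_multiplicity
  have hC0 : Nat.card (Subgroup.centralizer ({g} : Set G)) ≠ 0 := Nat.card_pos.ne'
  have hG0 : Nat.card G ≠ 0 := Nat.card_pos.ne'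
  have hkd : k ≤ (Nat.card (Subgroup.centralizer ({g} : Set G))).factorization p :=
    (hp.pow_dvd_iff_le_factorization hC0).mp hdvd1
  have hda : (Nat.card (Subgroup.centralizer ({g} : Set G))).factorization p ≤ (Nat.card G).factorization p := by
    apply (hp.pow_dvd_iff_le_factorization hG0).mp
    exact (Nat.ordProj_dvd _ p).trans (Subgroup.card_subgroup_dvd_card _)
  have hmul := K.card_mul_index
  rw [hk] at hmul
  obtain ⟨d, hd⟩ : ∃ d, d = (Nat.card (Subgroup.centralizer ({g} : Set G))).factorization p := ⟨_, rfl⟩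
  obtain ⟨a, ha⟩ : ∃ a, a = (Nat.card G).factorization p := ⟨_, rfl⟩
  rw [← hd] at hS hkd hda
  rw [← ha] at hPc hda
  rw [hPc] at hmul
  rw [hPc, hS, Nat.pow_div hda hp.pos]
  have hidx2 : K.index = p ^ (a - k) := by
    have hka : k ≤ a := hkd.trans hda
    have h3 : p ^ k * K.index = p ^ k * p ^ (a - k) := by
      rw [hmul, ← pow_add]; congr 1; omega
    exact Nat.eq_of_mul_eq_mul_left (pow_pos hp.pos k) h3
  rw [hidx2]
  exact pow_dvd_pow p (by omega)

end Cfsg.Agent.S0957
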