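import Mathlib
import Cfsg.Statements.S0959
import Mathlib
import Cfsg.Agent.Lib.Helper6.MinMax

set_option autoImplicit false
open Cfsg

namespace Cfsg.Agent.S0959

/-- Let B be a block of the finite group G with defect group D (relative to a maximal ideal M of the algebraic integers containing the prime p), and let P be a p-subgroup. Then there is an element g whose idempotent coefficient for B is a local integer outside the local ideal at M and which has a conjugate centralizing P, if and only if some conjugate of P is contained in D. -/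
theorem result {G : Type*} [Group G] [Finite G] (p : ℕ) [Fact p.Prime] (M : Ideal Cfsg.AlgInt) (hM : Cfsg.IsPModular p M) (B : Set (Cfsg.IrrCharacter G)) (hB : Cfsg.IsPBlock M B) (D : Subgroup G) (hD : Cfsg.IsDefectGroup p M B D) (P : Subgroup G) (hP : IsPGroup p P) : (∃ g : G, Cfsg.MemLocalRing M (Cfsg.blockCoeff B g) ∧ ¬ Cfsg.MemLocalIdeal M (Cfsg.blockCoeff B g) ∧ ∃ c : G, IsConj g c ∧ c ∈ Subgroup.centralizer (P : Set G)) ↔ ∃ x : G, P.map (MulAut.conj x).toMonoidHom ≤ D := by
  classical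
  haveI := Fintype.ofFinite G
  have hmax := hM.2.1
  obtain ⟨g₀, hg₀, P₀, rfl⟩ := hD
  obtain ⟨hgS, hgJ, hgω⟩ := hg₀
  obtain ⟨χ₁, hχ₁⟩ : ∃ χ₁, χ₁ ∈ B := by
    obtain ⟨χ₀, rfl⟩ := hB
    exact ⟨χ₀, Cfsg.Agent.Lib.Helper6.mem_blockOf_self hmax χ₀⟩
  constructor
  · rintro ⟨g, _, hJ, c, hgc, hc⟩
    have hI := Cfsg.Agent.Lib.Helper6.blockCoeff_inDefIdeal hM
      ((P₀ : Subgroup (Subgroup.centralizer ({g₀} : Set G))).map (Subgroup.centralizer ({g₀} : Set G)).subtype)
      B hB (Cfsg.Agent.Lib.Helper6.isClassFunction_cind g₀) (Cfsg.Agent.Lib.Helper6.sVal_cind hmax g₀)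
      (Cfsg.Agent.Lib.Helper6.inDefIdeal_cind hmax g₀ P₀) χ₁ hχ₁
      (by
        rw [Cfsg.Agent.Lib.Helper6.omega_cind (Cfsg.Agent.Lib.Helper6.irr_isClassFunction χ₁)]
        exact hgω χ₁ hχ₁)
    have hcg : Cfsg.blockCoeff B c = Cfsg.blockCoeff B g := by
      obtain ⟨t, ht⟩ := isConj_iff.mp hgc
      rw [← ht]
      exact Cfsg.Agent.Lib.Helper6.isClassFunction_blockCoeff B g t
    have hsub : Cfsg.Agent.Lib.Helper6.SubConj p
        ((P₀ : Subgroup (Subgroup.centralizer ({g₀} : Set G))).map (Subgroup.centralizer ({g₀} : Set G)).subtype) c := by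
      by_contra hcon
      exact hJ (hcg ▸ hI c hcon)
    obtain ⟨x, hx⟩ := hsub P hP (by
      intro u hu
      rw [Subgroup.mem_centralizer_iff]
      intro y hy
      rw [Set.mem_singleton_iff] at hy
      subst hy
      exact (Subgroup.mem_centralizer_iff.mp hc u hu).symm)
    refine ⟨x⁻¹, ?_⟩
    intro u hu
    obtain ⟨d, hd, rfl⟩ := Subgroup.mem_map.mp hu
    obtain ⟨q, hq, hqd⟩ := Subgroup.mem_map.mp (hx hd)
    have : (MulAut.conj x⁻¹).toMonoidHom d = q := by
      rw [← hqd]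
      simp only [MulEquiv.coe_toMonoidHom, MulAut.conj_apply, inv_inv]
      group
    rw [this]
    exact hq
  · rintro ⟨x, hx⟩
    refine ⟨g₀, hgS, hgJ, x⁻¹ * g₀ * x, isConj_iff.mpr ⟨x⁻¹, by group⟩, ?_⟩
    rw [Subgroup.mem_centralizer_iff]
    intro u hu
    have h1 : (MulAut.conj x).toMonoidHom u ∈ Subgroup.centralizer ({g₀} : Set G) := by
      have := hx (Subgroup.mem_map_of_mem _ hu)
      exact Subgroup.map_subtype_le _ this
    rw [Subgroup.mem_centralizer_iff] at h1
    have h2 := h1 g₀ (Set.mem_singleton _)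
    simp only [MulEquiv.coe_toMonoidHom, MulAut.conj_apply] at h2
    calc u * (x⁻¹ * g₀ * x) = x⁻¹ * (x * u * x⁻¹ * g₀) * x := by group
      _ = x⁻¹ * (g₀ * (x * u * x⁻¹)) * x := by rw [h2]
      _ = x⁻¹ * g₀ * x * u := by group

end Cfsg.Agent.S0959
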