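import Mathlib
import Cfsg.Statements.S0967
import Cfsg.Agent.Lib.Helper6.Inflate
import Cfsg.Agent.Lib.Helper6.BlockKer

set_option autoImplicit false
open Cfsg

namespace Cfsg.Agent.S0967

/-- Let N be a normal subgroup of the finite group G of order prime to p and fix a maximal ideal M of the algebraic integers containing p. If χ is an irreducible character of G ⧸ N and ψ lies in the block of its inflation χ ∘ (quotient map), then ψ is itself inflated from an irreducible character ψ' of G ⧸ N lying in the block of χ. (Over a normal p'-subgroup, blocks of the quotient are whole blocks of G.) -/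
theorem result {G : Type*} [Group G] [Finite G] (p : ℕ) [Fact p.Prime] (M : Ideal Cfsg.AlgInt) (hM : Cfsg.IsPModular p M) (N : Subgroup G) [N.Normal] (hN : ¬ p ∣ Nat.card N) (χ : Cfsg.IrrCharacter (G ⧸ N)) (ψ : Cfsg.IrrCharacter G) (hψ : ψ ∈ Cfsg.blockOf M ((χ : G ⧸ N → ℂ) ∘ QuotientGroup.mk)) : ∃ ψ' : Cfsg.IrrCharacter (G ⧸ N), (ψ : G → ℂ) = (ψ' : G ⧸ N → ℂ) ∘ QuotientGroup.mk ∧ Cfsg.SameBlock M (χ : G ⧸ N → ℂ) (ψ' : G ⧸ N → ℂ) := by
  classical
  haveI : Fintype G := Fintype.ofFinite G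
  have hmax := hM.2.1
  have hχirr : Cfsg.IsIrrCharacter G ((χ : G ⧸ N → ℂ) ∘ QuotientGroup.mk) :=
    Cfsg.Agent.Lib.Helper24.CharQuot.irr_inflate (QuotientGroup.mk' N)
      (QuotientGroup.mk'_surjective N) χ.2
  have hsame : Cfsg.SameBlock M ((χ : G ⧸ N → ℂ) ∘ QuotientGroup.mk) (ψ : G → ℂ) := hψ
  have hker : ∀ g ∈ N, (ψ : G → ℂ) g = (ψ : G → ℂ) 1 :=
    Cfsg.Agent.Lib.Helper6.ker_of_sameBlock hM N hN ⟨_, hχirr⟩ ψ hsame (fun g hg => by
      show (χ : G ⧸ N → ℂ) (QuotientGroup.mk g) = (χ : G ⧸ N → ℂ) (QuotientGroup.mk 1)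
      rw [(QuotientGroup.eq_one_iff g).mpr hg, QuotientGroup.mk_one])
  obtain ⟨ψ', hψ', hψ'eq⟩ := Cfsg.Agent.Lib.Helper24.CharQuot.irr_quotient N ψ.2 hker
  have hfun : ψ' ∘ (QuotientGroup.mk : G → G ⧸ N) = (ψ : G → ℂ) := funext hψ'eq
  refine ⟨⟨ψ', hψ'⟩, hfun.symm, ?_⟩
  apply Cfsg.Agent.Lib.Helper6.sameBlock_quotient hM N hN χ ⟨ψ', hψ'⟩
  show Cfsg.SameBlock M ((χ : G ⧸ N → ℂ) ∘ QuotientGroup.mk) (ψ' ∘ QuotientGroup.mk)
  rw [hfun]
  exact hsame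

end Cfsg.Agent.S0967
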