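import Mathlib
import Cfsg.Statements.S0985

set_option autoImplicit false
open Cfsg

namespace Cfsg.Agent.S0985

theorem result {G : Type*} [Group G] [Finite G] (p k : ℕ) [Fact p.Prime] (h : ¬ Nat.card (Sylow p G) ≡ 1 [MOD p ^ k]) : ∃ P R : Sylow p G, P ≠ R ∧ ((R : Subgroup G).subgroupOf (P : Subgroup G)).index ≤ p ^ (k - 1) := by
  classical
  have hp : p.Prime := Fact.out
  obtain ⟨P⟩ : Nonempty (Sylow p G) := inferInstance
  by_contra hcon
  push Not at hcon
  apply h
  have horb : ∀ R : Sylow p G, Nat.card (MulAction.orbit (P : Subgroup G) R) =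
      ((R : Subgroup G).subgroupOf (P : Subgroup G)).index := by
    intro R
    rw [Nat.card_coe_set_eq, ← MulAction.index_stabilizer]
    congr 1
    ext g
    rw [MulAction.mem_stabilizer_iff, Subgroup.mem_subgroupOf, Subgroup.smul_def,
      Sylow.smul_eq_iff_mem_normalizer]
    constructor
    · intro hg
      have hinf := P.2.inf_normalizer_sylow R
      exact (hinf.le ⟨g.2, hg⟩).2
    · intro hg
      exact Subgroup.le_normalizer hg
  have hfin : Fintype (MulAction.orbitRel.Quotient (P : Subgroup G) (Sylow p G)) :=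
    Fintype.ofFinite _
  have hsum : Nat.card (Sylow p G) =
      ∑ ω : MulAction.orbitRel.Quotient (P : Subgroup G) (Sylow p G),
        (((ω.out : Sylow p G) : Subgroup G).subgroupOf (P : Subgroup G)).index := by
    rw [Nat.card_congr (MulAction.selfEquivSigmaOrbits (P : Subgroup G) (Sylow p G)),
      Nat.card_sigma]
    exact Finset.sum_congr rfl (fun ω _ => horb ω.out)
  have hω0 : ((Quotient.mk'' P : MulAction.orbitRel.Quotient (P : Subgroup G)
      (Sylow p G)).out : Sylow p G) = P := by
    have hmem : ((Quotient.mk'' P : MulAction.orbitRel.Quotient (P : Subgroup G)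
        (Sylow p G)).out : Sylow p G) ∈ MulAction.orbit (P : Subgroup G) P := by
      rw [← MulAction.orbitRel_apply]
      exact Quotient.exact' (Quotient.out_eq' _)
    obtain ⟨g, hg⟩ := hmem
    rw [← hg]
    show (g : G) • P = P
    exact Sylow.smul_eq_iff_mem_normalizer.mpr (Subgroup.le_normalizer g.2)
  rw [hsum, ← Finset.add_sum_erase Finset.univ _ (Finset.mem_univ
    (Quotient.mk'' P : MulAction.orbitRel.Quotient (P : Subgroup G) (Sylow p G))), hω0]
  have h1 : ((P : Subgroup G).subgroupOf (P : Subgroup G)).index = 1 := by simp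
  rw [h1]
  have h2 : p ^ k ∣ ∑ ω ∈ Finset.univ.erase
      (Quotient.mk'' P : MulAction.orbitRel.Quotient (P : Subgroup G) (Sylow p G)),
      (((ω.out : Sylow p G) : Subgroup G).subgroupOf (P : Subgroup G)).index := by
    apply Finset.dvd_sum
    intro ω hω
    have hne : P ≠ ω.out := by
      intro heq
      apply (Finset.mem_erase.mp hω).1
      rw [← Quotient.out_eq' ω, ← heq]
    have hgt := hcon P ω.out hne
    obtain ⟨m, hm⟩ := P.2.exists_card_eq
    have hdvd : (((ω.out : Sylow p G) : Subgroup G).subgroupOf (P : Subgroup G)).index ∣ p ^ m :=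
      hm ▸ Subgroup.index_dvd_card _
    obtain ⟨j, hj, hj'⟩ := (Nat.dvd_prime_pow hp).mp hdvd
    rw [hj'] at hgt ⊢
    have hlt : k - 1 < j := (Nat.pow_lt_pow_iff_right hp.one_lt).mp hgt
    exact pow_dvd_pow p (by omega)
  obtain ⟨c, hc⟩ := h2
  rw [hc]
  show (1 + p ^ k * c) % p ^ k = 1 % p ^ k
  rw [Nat.add_mul_mod_self_left]

end Cfsg.Agent.S0985
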