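import Cfsg.Statements.S0986
import Mathlib

set_option autoImplicit false
open Cfsg

namespace Cfsg.Agent.S0986

/-- Normalizers grow in Sylow subgroups. -/
theorem exists_normalizing {G : Type*} [Group G] [Finite G] {p : ℕ} [Fact p.Prime] (R : Sylow p G)
    (D : Subgroup G) (hDR : D ≤ (R : Subgroup G)) (hne : D ≠ (R : Subgroup G)) :
    ∃ x ∈ (R : Subgroup G), x ∈ Subgroup.normalizer (D : Set G) ∧ x ∉ D := by
  have hnil : Group.IsNilpotent ↥(R : Subgroup G) := R.2.isNilpotent
  have hnc : NormalizerCondition ↥(R : Subgroup G) := Group.normalizerCondition_of_isNilpotent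
  have hlt : D.subgroupOf (R : Subgroup G) < ⊤ := by
    rw [lt_top_iff_ne_top]
    intro h
    rw [Subgroup.subgroupOf_eq_top] at h
    exact hne (le_antisymm hDR h)
  have h2 := hnc _ hlt
  obtain ⟨x, hx1, hx2⟩ := SetLike.exists_of_lt h2
  refine ⟨(x : G), x.2, ?_, ?_⟩
  · rw [Subgroup.mem_normalizer_iff]
    rw [Subgroup.mem_normalizer_iff] at hx1
    intro d
    constructor
    · intro hd
      have := (hx1 ⟨d, hDR hd⟩).mp (by rw [Subgroup.mem_subgroupOf]; exact hd)
      rw [Subgroup.mem_subgroupOf] at this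
      exact this
    · intro hd
      have hdR : d ∈ (R : Subgroup G) := by
        have h3 : d = (x : G)⁻¹ * ((x : G) * d * (x : G)⁻¹) * (x : G) := by group
        rw [h3]
        exact mul_mem (mul_mem (inv_mem x.2) (hDR hd)) x.2
      have := (hx1 ⟨d, hdR⟩).mpr (by rw [Subgroup.mem_subgroupOf]; exact hd)
      rw [Subgroup.mem_subgroupOf] at this
      exact this
  · intro hxD
    exact hx2 (by rw [Subgroup.mem_subgroupOf]; exact hxD)

theorem sylow_eq_of_le {G : Type*} [Group G] {p : ℕ} (P Q : Sylow p G)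
    (h : (P : Subgroup G) ≤ (Q : Subgroup G)) : P = Q :=
  (Sylow.ext (P.is_maximal' Q.2 h)).symm

theorem aux {G : Type*} [Group G] [Finite G] (p : ℕ) [Fact p.Prime] (P Q : Sylow p G) (hPQ : P ≠ Q)
    (D : Subgroup G) (hD : D = (P : Subgroup G) ⊓ (Q : Subgroup G))
    (N : Subgroup G) (hN : N = Subgroup.normalizer (D : Set G))
    (hmax : ∀ P' Q' : Sylow p G, P' ≠ Q' →
      Nat.card ↥((P' : Subgroup G) ⊓ (Q' : Subgroup G)) ≤ Nat.card D) :
    1 < Nat.card (Sylow p ↥N) ∧
    (∀ S T : Sylow p ↥N, S ≠ T → (S : Subgroup ↥N) ⊓ (T : Subgroup ↥N) = D.subgroupOf N) ∧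
    ∀ S : Sylow p ↥N, ∃! T : Sylow p G, (S : Subgroup ↥N).map N.subtype ≤ (T : Subgroup G) := by
  have hDP : D ≤ (P : Subgroup G) := hD ▸ inf_le_left
  have hDQ : D ≤ (Q : Subgroup G) := hD ▸ inf_le_right
  have hDN : D ≤ N := hN ▸ Subgroup.le_normalizer
  have hDneP : D ≠ (P : Subgroup G) := by
    intro h
    exact hPQ (sylow_eq_of_le P Q (h ▸ hDQ))
  have hDneQ : D ≠ (Q : Subgroup G) := by
    intro h
    exact hPQ (sylow_eq_of_le Q P (h ▸ hDP)).symm
  obtain ⟨xP, hxP, hxPN, hxPD⟩ := exists_normalizing P D hDP hDneP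
  obtain ⟨xQ, hxQ, hxQN, hxQD⟩ := exists_normalizing Q D hDQ hDneQ
  rw [← hN] at hxPN hxQN
  have hinj : Function.Injective N.subtype := Subtype.coe_injective
  -- a strict containment gives a strict inequality of cardinalities
  have hcardlt : ∀ (K : Subgroup G) (x : G), D ≤ K → x ∈ K → x ∉ D → Nat.card D < Nat.card K := by
    intro K x hDK hxK hxD
    by_contra hle
    push Not at hle
    exact hxD ((Subgroup.eq_of_le_of_card_ge hDK hle) ▸ hxK)
  -- the normal subgroup D' of N lies in every Sylow subgroup of N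
  have hD'S : ∀ S : Sylow p ↥N, D.subgroupOf N ≤ (S : Subgroup ↥N) := by
    intro S
    have hnorm : (D.subgroupOf N).Normal :=
      (Subgroup.normal_subgroupOf_iff_le_normalizer hDN).mpr (le_of_eq hN)
    have hp : IsPGroup p (D.subgroupOf N) := by
      rw [← Subgroup.comap_subtype]
      exact (P.2.to_le hDP).comap_subtype
    exact hp.le_sylow_of_normal S
  have hcardD' : Nat.card (D.subgroupOf N) = Nat.card D :=
    Nat.card_congr (Subgroup.subgroupOfEquivOfLe hDN).toEquiv
  -- every Sylow subgroup of N is larger than D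
  have hlt : ∀ S : Sylow p ↥N, Nat.card D < Nat.card (S : Subgroup ↥N) := by
    intro S
    have hp : IsPGroup p ((P : Subgroup G).subgroupOf N) := by
      rw [← Subgroup.comap_subtype]
      exact P.2.comap_subtype
    obtain ⟨S', hS'⟩ := hp.exists_le_sylow
    have h1 : Nat.card (S' : Subgroup ↥N) = Nat.card (S : Subgroup ↥N) := by
      rw [Sylow.card_eq_multiplicity, Sylow.card_eq_multiplicity]
    rw [← h1]
    have h2 : Nat.card D < Nat.card ((S' : Subgroup ↥N).map N.subtype) := by
      apply hcardlt _ xP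
      · intro d hd
        exact ⟨⟨d, hDN hd⟩, hD'S S' (by rw [Subgroup.mem_subgroupOf]; exact hd), rfl⟩
      · exact ⟨⟨xP, hxPN⟩, hS' (by rw [Subgroup.mem_subgroupOf]; exact hxP), rfl⟩
      · exact hxPD
    rwa [Subgroup.card_map_of_injective hinj] at h2
  -- existence of a Sylow subgroup of G over a Sylow subgroup of N
  have hex : ∀ S : Sylow p ↥N, ∃ T : Sylow p G, (S : Subgroup ↥N).map N.subtype ≤ (T : Subgroup G) :=
    fun S => (S.2.map N.subtype).exists_le_sylow
  have huniq : ∀ (S : Sylow p ↥N) (T1 T2 : Sylow p G),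
      (S : Subgroup ↥N).map N.subtype ≤ (T1 : Subgroup G) →
      (S : Subgroup ↥N).map N.subtype ≤ (T2 : Subgroup G) → T1 = T2 := by
    intro S T1 T2 h1 h2
    by_contra hne
    have h3 := hmax T1 T2 hne
    have h4 := Subgroup.card_le_of_le (le_inf h1 h2)
    rw [Subgroup.card_map_of_injective hinj] at h4
    have := hlt S
    omega
  refine ⟨?_, ?_, ?_⟩
  · -- two distinct Sylow subgroups of N
    have hpP : IsPGroup p ((P : Subgroup G).subgroupOf N) := by
      rw [← Subgroup.comap_subtype]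
      exact P.2.comap_subtype
    have hpQ : IsPGroup p ((Q : Subgroup G).subgroupOf N) := by
      rw [← Subgroup.comap_subtype]
      exact Q.2.comap_subtype
    obtain ⟨SP, hSP⟩ := hpP.exists_le_sylow
    obtain ⟨SQ, hSQ⟩ := hpQ.exists_le_sylow
    have key : ∀ (R : Sylow p G) (S : Sylow p ↥N) (x : G), D ≤ (R : Subgroup G) →
        x ∈ (R : Subgroup G) → x ∈ N → x ∉ D → (R : Subgroup G).subgroupOf N ≤ (S : Subgroup ↥N) →
        ∀ T : Sylow p G, (S : Subgroup ↥N).map N.subtype ≤ (T : Subgroup G) → T = R := by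
      intro R S x hDR hxR hxN hxD hRS T hT
      by_contra hne
      have h3 := hmax T R hne
      have h4 : Nat.card D < Nat.card ↥((T : Subgroup G) ⊓ (R : Subgroup G)) := by
        apply hcardlt _ x
        · intro d hd
          refine ⟨hT ⟨⟨d, hDN hd⟩, hD'S S (by rw [Subgroup.mem_subgroupOf]; exact hd), rfl⟩, hDR hd⟩
        · exact ⟨hT ⟨⟨x, hxN⟩, hRS (by rw [Subgroup.mem_subgroupOf]; exact hxR), rfl⟩, hxR⟩
        · exact hxD
      omega
    have hne : SP ≠ SQ := by
      intro h
      obtain ⟨T, hT⟩ := hex SP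
      have h1 := key P SP xP hDP hxP hxPN hxPD hSP T hT
      have h2 := key Q SQ xQ hDQ hxQ hxQN hxQD hSQ T (h ▸ hT)
      exact hPQ (h1.symm.trans h2)
    have hnt : Nontrivial (Sylow p ↥N) := ⟨⟨_, _, hne⟩⟩
    exact Finite.one_lt_card_iff_nontrivial.mpr hnt
  · intro S T hST
    obtain ⟨S', hS'⟩ := hex S
    obtain ⟨T', hT'⟩ := hex T
    have hne : S' ≠ T' := by
      intro h
      apply hST
      have hpK : IsPGroup p ((S' : Subgroup G).subgroupOf N) := by
        rw [← Subgroup.comap_subtype]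
        exact S'.2.comap_subtype
      have h1 : (S : Subgroup ↥N) ≤ (S' : Subgroup G).subgroupOf N := by
        intro s hs
        rw [Subgroup.mem_subgroupOf]
        exact hS' ⟨s, hs, rfl⟩
      have h2 : (T : Subgroup ↥N) ≤ (S' : Subgroup G).subgroupOf N := by
        intro s hs
        rw [Subgroup.mem_subgroupOf, h]
        exact hT' ⟨s, hs, rfl⟩
      have h3 := S.is_maximal' hpK h1
      have h4 := T.is_maximal' hpK h2
      exact Sylow.ext (h3.symm.trans h4)
    have h3 := hmax S' T' hne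
    have h4 : ((S : Subgroup ↥N) ⊓ (T : Subgroup ↥N)).map N.subtype ≤
        (S' : Subgroup G) ⊓ (T' : Subgroup G) :=
      le_inf (le_trans (Subgroup.map_mono inf_le_left) hS')
        (le_trans (Subgroup.map_mono inf_le_right) hT')
    have h5 := Subgroup.card_le_of_le h4
    rw [Subgroup.card_map_of_injective hinj] at h5
    have h6 : D.subgroupOf N ≤ (S : Subgroup ↥N) ⊓ (T : Subgroup ↥N) := le_inf (hD'S S) (hD'S T)
    exact (Subgroup.eq_of_le_of_card_ge h6 (by rw [hcardD']; omega)).symm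
  · intro S
    obtain ⟨T, hT⟩ := hex S
    exact ⟨T, hT, fun T' hT' => huniq S T' T hT' hT⟩

/-- Let P and Q be distinct Sylow p-subgroups of a finite group G chosen so that the order of P ∩ Q is as large as possible among intersections of two distinct Sylow p-subgroups, and let N be the normalizer of P ∩ Q. Then N has more than one Sylow p-subgroup, any two distinct Sylow p-subgroups of N intersect exactly in P ∩ Q, and each Sylow p-subgroup of N lies in exactly one Sylow p-subgroup of G. -/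
theorem result {G : Type*} [Group G] [Finite G] (p : ℕ) [Fact p.Prime] (P Q : Sylow p G) (hPQ : P ≠ Q) (hmax : ∀ P' Q' : Sylow p G, P' ≠ Q' → Nat.card ↥((P' : Subgroup G) ⊓ (Q' : Subgroup G)) ≤ Nat.card ↥((P : Subgroup G) ⊓ (Q : Subgroup G))) : 1 < Nat.card (Sylow p ↥(Subgroup.normalizer (((P : Subgroup G) ⊓ (Q : Subgroup G) : Subgroup G) : Set G))) ∧ (∀ S T : Sylow p ↥(Subgroup.normalizer (((P : Subgroup G) ⊓ (Q : Subgroup G) : Subgroup G) : Set G)), S ≠ T → (S : Subgroup _) ⊓ (T : Subgroup _) = ((P : Subgroup G) ⊓ (Q : Subgroup G)).subgroupOf (Subgroup.normalizer (((P : Subgroup G) ⊓ (Q : Subgroup G) : Subgroup G) : Set G))) ∧ ∀ S : Sylow p ↥(Subgroup.normalizer (((P : Subgroup G) ⊓ (Q : Subgroup G) : Subgroup G) : Set G)), ∃! T : Sylow p G, (S : Subgroup _).map (Subgroup.normalizer (((P : Subgroup G) ⊓ (Q : Subgroup G) : Subgroup G) : Set G)).subtype ≤ (T : Subgroup G) := by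
  exact aux p P Q hPQ _ rfl _ rfl hmax

end Cfsg.Agent.S0986
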