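import Mathlib
import Cfsg.Statements.S0987

set_option autoImplicit false
open Cfsg

namespace Cfsg.Agent.S0987

theorem result {G : Type*} [Group G] [Finite G] (p q r : ℕ) (hp : p.Prime) (hq : q.Prime) [Fact r.Prime] (hpq : p < q) (hqr : q < r) (hG : Nat.card G = p * q * r) (R : Sylow r G) : (R : Subgroup G).Normal := by
  have hr : r.Prime := Fact.out
  have hfp : Fact p.Prime := ⟨hp⟩
  have hmin : (Nat.card G).minFac = p := by
    apply le_antisymm
    · apply Nat.minFac_le_of_dvd hp.two_le
      rw [hG]
      exact Dvd.dvd.mul_right (Dvd.intro _ rfl) _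
    · have hm : (Nat.card G).minFac.Prime := Nat.minFac_prime (by
        rw [hG]
        intro h
        have h1 : 2 ≤ p := hp.two_le
        have h2 : 2 ≤ q := hq.two_le
        have h3 : 2 ≤ r := hr.two_le
        have : 2 * 2 * 2 ≤ p * q * r := Nat.mul_le_mul (Nat.mul_le_mul h1 h2) h3
        omega)
      have hd : (Nat.card G).minFac ∣ p * q * r := hG ▸ Nat.minFac_dvd _
      rcases (Nat.Prime.dvd_mul hm).mp hd with h | h
      · rcases (Nat.Prime.dvd_mul hm).mp h with h | h
        · exact le_of_eq ((Nat.prime_dvd_prime_iff_eq hm hp).mp h).symm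
        · have := (Nat.prime_dvd_prime_iff_eq hm hq).mp h
          omega
      · have := (Nat.prime_dvd_prime_iff_eq hm hr).mp h
        omega
  have hfacp : (p * q * r).factorization p = 1 := by
    rw [Nat.factorization_mul (Nat.mul_ne_zero hp.ne_zero hq.ne_zero) hr.ne_zero,
      Nat.factorization_mul hp.ne_zero hq.ne_zero]
    simp only [Finsupp.add_apply]
    rw [hp.factorization_self, Nat.factorization_eq_zero_of_not_dvd, Nat.factorization_eq_zero_of_not_dvd]
    · intro h
      have := (Nat.prime_dvd_prime_iff_eq hp hr).mp h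
      omega
    · intro h
      have := (Nat.prime_dvd_prime_iff_eq hp hq).mp h
      omega
  have hfacr : (p * q * r).factorization r = 1 := by
    rw [Nat.factorization_mul (Nat.mul_ne_zero hp.ne_zero hq.ne_zero) hr.ne_zero,
      Nat.factorization_mul hp.ne_zero hq.ne_zero]
    simp only [Finsupp.add_apply]
    rw [hr.factorization_self, Nat.factorization_eq_zero_of_not_dvd, Nat.factorization_eq_zero_of_not_dvd]
    · intro h
      have := (Nat.prime_dvd_prime_iff_eq hr hq).mp h
      omega
    · intro h
      have := (Nat.prime_dvd_prime_iff_eq hr hp).mp h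
      omega
  obtain ⟨P⟩ : Nonempty (Sylow p G) := inferInstance
  have hPcard : Nat.card P = p := by
    rw [Sylow.card_eq_multiplicity, hG, hfacp, pow_one]
  have hRcard : Nat.card R = r := by
    rw [Sylow.card_eq_multiplicity, hG, hfacr, pow_one]
  have hPcyc : IsCyclic P := isCyclic_of_prime_card hPcard
  have hcomp := IsCyclic.isComplement' hmin hPcyc
  set f := MonoidHom.transferSylow P (hPcyc.normalizer_le_centralizer hmin) with hf
  have hKcard : Nat.card f.ker = q * r := by
    have h1 := hcomp.card_mul_card
    rw [hPcard, hG] at h1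
    have : Nat.card f.ker * p = q * r * p := by rw [h1]; ring
    exact Nat.eq_of_mul_eq_mul_right hp.pos this
  have hRK : (R : Subgroup G) ≤ f.ker := by
    intro g hg
    rw [MonoidHom.mem_ker]
    have h1 : orderOf (f g) ∣ r := by
      have h2 : orderOf g ∣ r := by
        have := orderOf_dvd_natCard (⟨g, hg⟩ : (R : Subgroup G))
        rw [hRcard] at this
        rwa [← Subgroup.orderOf_coe] at this
      exact (orderOf_map_dvd f g).trans h2
    have h3 : orderOf (f g) ∣ p := by
      have := orderOf_dvd_natCard (f g)
      rwa [hPcard] at this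
    have h4 : orderOf (f g) ∣ Nat.gcd r p := Nat.dvd_gcd h1 h3
    have h5 : Nat.gcd r p = 1 := by
      rw [← Nat.coprime_iff_gcd_eq_one]
      apply (Nat.coprime_primes hr hp).mpr
      omega
    rw [h5, Nat.dvd_one, orderOf_eq_one_iff] at h4
    exact h4
  let R' : Sylow r f.ker := R.subtype hRK
  have hR' : (R' : Subgroup f.ker) = (R : Subgroup G).subgroupOf f.ker := Sylow.coe_subtype _ _
  have hR'card : Nat.card (R' : Subgroup f.ker) = r := by
    rw [hR', Nat.card_congr (Subgroup.subgroupOfEquivOfLe hRK).toEquiv]
    exact hRcard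
  have hidx : (R' : Subgroup f.ker).index = q := by
    have h1 := (R' : Subgroup f.ker).card_mul_index
    rw [hR'card, hKcard] at h1
    have : r * (R' : Subgroup f.ker).index = r * q := by rw [h1]; ring
    exact Nat.eq_of_mul_eq_mul_left hr.pos this
  have hn1 : Nat.card (Sylow r f.ker) = 1 := by
    have hd : Nat.card (Sylow r f.ker) ∣ q := hidx ▸ Sylow.card_dvd_index R'
    have hm : Nat.card (Sylow r f.ker) ≡ 1 [MOD r] := card_sylow_modEq_one r f.ker
    rcases (Nat.dvd_prime hq).mp hd with h | h
    · exact h
    · exfalso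
      rw [h] at hm
      have h1 : q % r = 1 % r := hm
      rw [Nat.mod_eq_of_lt hqr, Nat.mod_eq_of_lt hr.one_lt] at h1
      exact hq.ne_one h1
  have hsub : Subsingleton (Sylow r f.ker) := (Nat.card_eq_one_iff_unique.mp hn1).1
  have hchar : (R' : Subgroup f.ker).Characteristic := Sylow.characteristic_of_subsingleton R'
  have hnorm : ((R' : Subgroup f.ker).map f.ker.subtype).Normal :=
    ConjAct.normal_of_characteristic_of_normal
  rw [hR', Subgroup.map_subgroupOf_eq_of_le hRK] at hnorm
  exact hnorm

end Cfsg.Agent.S0987
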