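import Cfsg.Statements.S0988
import Mathlib
import Cfsg.Agent.Lib.Helper13.SylowCount

set_option autoImplicit false
open Cfsg

namespace Cfsg.Agent.S0988

open Cfsg.Agent.Lib.Helper13.SmallSimple Cfsg.Agent.Lib.Helper2.SimpleIndex
open Cfsg.Agent.Lib.Helper13.SylowCount

theorem sylow_facts {G : Type*} [Group G] [Finite G] [IsSimpleGroup G] (l : ℕ)
    [hl : Fact l.Prime] (k m : ℕ)
    (hN : Nat.card G = l ^ k * m) (hm : ¬ l ∣ m) (hk : 0 < k) (h1 : 1 < m) :
    Nat.card (Sylow l G) ∣ m ∧ Nat.card (Sylow l G) % l = 1 ∧ Nat.card (Sylow l G) ≠ 1 ∧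
      Nat.card G ∣ (Nat.card (Sylow l G)).factorial := by
  obtain ⟨P⟩ : Nonempty (Sylow l G) := inferInstance
  have hP := sylow_card_of k m hN hm P
  have hidx := sylow_index_of k m hN hm P
  have hdvd := P.card_dvd_index
  rw [hidx] at hdvd
  have hmod : Nat.card (Sylow l G) % l = 1 := by
    have h := card_sylow_modEq_one l G
    rw [Nat.ModEq, Nat.mod_eq_of_lt hl.out.one_lt] at h
    exact h
  have hpk : 1 < l ^ k := Nat.one_lt_pow hk.ne' hl.out.one_lt
  have h1' : 1 < Nat.card (P : Subgroup G) := by rw [hP]; exact hpk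
  have h2' : Nat.card (P : Subgroup G) < Nat.card G := by rw [hP, hN]; nlinarith
  have hne := card_sylow_ne_one P h1' h2'
  have hfac := card_dvd_factorial_index _ (normalizer_sylow_ne_top P h1' h2')
  have hidxN : (Subgroup.normalizer ((P : Subgroup G) : Set G)).index = Nat.card (Sylow l G) :=
    (Sylow.card_eq_index_normalizer P).symm
  rw [hidxN] at hfac
  exact ⟨hdvd, hmod, hne, hfac⟩

theorem nt1 (p s : ℕ) (hp : p.Prime) (hs : s.Prime) (hlt : p < s) (hmod : p ^ 2 % s = 1) :
    p = 2 ∧ s = 3 := by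
  obtain ⟨k, rfl⟩ : ∃ k, p = k + 1 := ⟨p - 1, by have := hp.two_le; omega⟩
  have h1 : s ∣ (k + 1) ^ 2 - 1 :=
    (Nat.modEq_iff_dvd' (Nat.one_le_pow _ _ (by omega))).mp
      (by rw [Nat.ModEq, hmod, Nat.mod_eq_of_lt hs.one_lt])
  have h2 : (k + 1) ^ 2 - 1 = k * (k + 2) := by
    have h3 : (k + 1) ^ 2 = k * (k + 2) + 1 := by ring
    rw [h3, Nat.add_sub_cancel]
  rw [h2] at h1
  have hk : 0 < k := by have := hp.two_le; omega
  rcases (Nat.Prime.dvd_mul hs).mp h1 with h | h
  · have := Nat.le_of_dvd hk h; omega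
  · have h3 := Nat.le_of_dvd (by omega) h
    have hs' : s = k + 2 := by omega
    subst hs'
    rcases hp.eq_two_or_odd with h4 | h4
    · constructor <;> omega
    · rcases hs.eq_two_or_odd with h5 | h5 <;> omega

theorem caseB {G : Type*} [Group G] [Finite G] [IsSimpleGroup G] (p s : ℕ) (hp : p.Prime)
    (hs : s.Prime) (hsp : s ≠ p) (hG : Nat.card G = p ^ 3 * s) : False := by
  have : Fact p.Prime := ⟨hp⟩
  have : Fact s.Prime := ⟨hs⟩
  have hps : ¬ p ∣ s := fun h => hsp ((Nat.prime_dvd_prime_iff_eq hp hs).mp h).symm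
  have hsp' : ¬ s ∣ p ^ 3 :=
    fun h => hsp ((Nat.prime_dvd_prime_iff_eq hs hp).mp (hs.dvd_of_dvd_pow h))
  obtain ⟨hp1, hp2, hp3, hp4⟩ := sylow_facts p 3 s hG hps (by norm_num) hs.one_lt
  have hG' : Nat.card G = s ^ 1 * p ^ 3 := by rw [hG]; ring
  have hp3' : 1 < p ^ 3 := Nat.one_lt_pow (by norm_num) hp.one_lt
  obtain ⟨hs1, hs2, hs3, hs4⟩ := sylow_facts s 1 (p ^ 3) hG' hsp' (by norm_num) hp3'
  have hnp : Nat.card (Sylow p G) = s := ((Nat.dvd_prime hs).mp hp1).resolve_left hp3
  rw [hnp] at hp2 hp4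
  have hplts : p < s := by
    have h1 : p ∣ s - 1 := (Nat.modEq_iff_dvd' hs.one_lt.le).mp
      (by rw [Nat.ModEq, hp2, Nat.mod_eq_of_lt hp.one_lt])
    have h2 := Nat.le_of_dvd (by have := hs.two_le; omega) h1
    omega
  obtain ⟨j, hj3, hj⟩ := (Nat.dvd_prime_pow hp).mp hs1
  rw [hj] at hs2 hs3 hs4
  interval_cases j
  · exact hs3 (pow_zero p)
  · rw [pow_one, Nat.mod_eq_of_lt hplts] at hs2
    exact hp.one_lt.ne' hs2
  · obtain ⟨rfl, rfl⟩ := nt1 p s hp hs hplts hs2
    rw [hG] at hp4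
    revert hp4
    decide
  · obtain ⟨S⟩ : Nonempty (Sylow s G) := inferInstance
    have hS : Nat.card (S : Subgroup G) = s := by
      have h1 := sylow_card_of 1 (p ^ 3) hG' hsp' S
      rwa [pow_one] at h1
    have hN := card_normalizer_mul S
    rw [hj, hG] at hN
    have hNs : Nat.card (Subgroup.normalizer ((S : Subgroup G) : Set G)) = s := by
      have h2 : Nat.card (Subgroup.normalizer ((S : Subgroup G) : Set G)) * p ^ 3 = s * p ^ 3 := by
        rw [hN]; ring
      exact Nat.eq_of_mul_eq_mul_right (by omega) h2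
    have hco : Nat.Coprime (Nat.card (Subgroup.normalizer ((S : Subgroup G) : Set G))) (s - 1) := by
      rw [hNs, Nat.Prime.coprime_iff_not_dvd hs]
      intro h3
      have h4 := Nat.le_of_dvd (by have := hs.two_le; omega) h3
      have := hs.two_le
      omega
    refine false_of_normalizer_le_centralizer S (by rw [hS]; exact hs.one_lt) ?_
      (normalizer_le_centralizer_of_coprime S hS hco)
    rw [hS, hG]
    nlinarith [hs.pos]

theorem caseC_aux {G : Type*} [Group G] [Finite G] [IsSimpleGroup G] (p q : ℕ) (hp : p.Prime)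
    (hq : q.Prime) (hlt : q < p) (hG : Nat.card G = p ^ 2 * q ^ 2) : False := by
  have : Fact p.Prime := ⟨hp⟩
  have hpq : ¬ p ∣ q ^ 2 := by
    intro h
    have h1 := (Nat.prime_dvd_prime_iff_eq hp hq).mp (hp.dvd_of_dvd_pow h)
    omega
  obtain ⟨h1, h2, h3, h4⟩ := sylow_facts p 2 (q ^ 2) hG hpq (by norm_num)
    (Nat.one_lt_pow (by norm_num) hq.one_lt)
  obtain ⟨j, hj2, hj⟩ := (Nat.dvd_prime_pow hq).mp h1
  rw [hj] at h2 h3 h4
  interval_cases j
  · exact h3 (pow_zero q)
  · rw [pow_one, Nat.mod_eq_of_lt hlt] at h2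
    exact hq.one_lt.ne' h2
  · obtain ⟨rfl, rfl⟩ := nt1 q p hq hp hlt h2
    rw [hG] at h4
    revert h4
    decide

theorem caseC {G : Type*} [Group G] [Finite G] [IsSimpleGroup G] (p q : ℕ) (hp : p.Prime)
    (hq : q.Prime) (hqp : q ≠ p) (hG : Nat.card G = p ^ 2 * q ^ 2) : False := by
  rcases lt_or_gt_of_ne hqp with h | h
  · exact caseC_aux p q hp hq h hG
  · exact caseC_aux q p hq hp h (by rw [hG]; ring)

theorem minFac_eq {p q r : ℕ} (hp : p.Prime) (hq : q.Prime) (hr : r.Prime) (hqp : q < p)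
    (hqr : q < r) : (p ^ 2 * q * r).minFac = q := by
  have hd : q ∣ p ^ 2 * q * r := Dvd.dvd.mul_right (Dvd.intro_left _ rfl) r
  have hne1 : p ^ 2 * q * r ≠ 1 := by
    intro h1
    rw [h1] at hd
    have := Nat.le_of_dvd (by norm_num) hd
    have := hq.two_le
    omega
  apply le_antisymm
  · exact Nat.minFac_le_of_dvd hq.two_le hd
  · have hpr := Nat.minFac_prime hne1
    have hdvd := Nat.minFac_dvd (p ^ 2 * q * r)
    rcases (Nat.Prime.dvd_mul hpr).mp hdvd with h | h
    · rcases (Nat.Prime.dvd_mul hpr).mp h with h | h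
      · have h2 := (Nat.prime_dvd_prime_iff_eq hpr hp).mp (hpr.dvd_of_dvd_pow h)
        omega
      · have h2 := (Nat.prime_dvd_prime_iff_eq hpr hq).mp h
        omega
    · have h2 := (Nat.prime_dvd_prime_iff_eq hpr hr).mp h
      omega

theorem D1 {G : Type*} [Group G] [Finite G] [IsSimpleGroup G] (p q r : ℕ) (hp : p.Prime)
    (hq : q.Prime) (hr : r.Prime) (hqp : q < p) (hqr : q < r)
    (hG : Nat.card G = p ^ 2 * q * r) : False := by
  have hmin : (Nat.card G).minFac = q := by rw [hG]; exact minFac_eq hp hq hr hqp hqr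
  have : Fact q.Prime := ⟨hq⟩
  have hG' : Nat.card G = q ^ 1 * (p ^ 2 * r) := by rw [hG]; ring
  have hnd : ¬ q ∣ p ^ 2 * r := by
    intro h
    rcases (Nat.Prime.dvd_mul hq).mp h with h | h
    · have := (Nat.prime_dvd_prime_iff_eq hq hp).mp (hq.dvd_of_dvd_pow h); omega
    · have := (Nat.prime_dvd_prime_iff_eq hq hr).mp h; omega
  obtain ⟨Q⟩ : Nonempty (Sylow q G) := inferInstance
  have hQ : Nat.card (Q : Subgroup G) = q := by
    have h1 := sylow_card_of 1 (p ^ 2 * r) hG' hnd Q
    rwa [pow_one] at h1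
  have hcyc : IsCyclic ↥(Q : Subgroup G) := isCyclic_of_prime_card hQ
  refine false_of_normalizer_le_centralizer Q (by rw [hQ]; exact hq.one_lt) ?_
    (hcyc.normalizer_le_centralizer hmin)
  rw [hQ, hG']
  have h2 : 1 < p ^ 2 * r := by
    have := hp.two_le
    have := hr.two_le
    nlinarith
  nlinarith [hq.pos]

theorem D2 {G : Type*} [Group G] [Finite G] [IsSimpleGroup G] (p q r : ℕ) (hp : p.Prime)
    (hq : q.Prime) (hr : r.Prime) (hpq : p < q) (hpr : p < r)
    (hG : Nat.card G = p ^ 2 * q * r) : p = 2 ∧ (q = 3 ∨ r = 3) := by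
  classical
  have : Fact p.Prime := ⟨hp⟩
  have hpqr : ¬ p ∣ q * r := by
    intro h
    rcases (Nat.Prime.dvd_mul hp).mp h with h | h
    · have := (Nat.prime_dvd_prime_iff_eq hp hq).mp h; omega
    · have := (Nat.prime_dvd_prime_iff_eq hp hr).mp h; omega
  have hG' : Nat.card G = p ^ 2 * (q * r) := by rw [hG]; ring
  obtain ⟨P⟩ : Nonempty (Sylow p G) := inferInstance
  have hP : Nat.card (P : Subgroup G) = p ^ 2 := sylow_card_of 2 (q * r) hG' hpqr P
  have hidx : (P : Subgroup G).index = q * r := sylow_index_of 2 (q * r) hG' hpqr P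
  have hcomm : ∀ a b : ↥(P : Subgroup G), a * b = b * a :=
    (IsPGroup.isMulCommutative_of_card_eq_prime_sq hP).is_comm.comm
  have hPC : (P : Subgroup G) ≤ Subgroup.centralizer ((P : Subgroup G) : Set G) := by
    intro x hx
    rw [Subgroup.mem_centralizer_iff]
    intro y hy
    exact congrArg Subtype.val (hcomm ⟨y, hy⟩ ⟨x, hx⟩)
  obtain ⟨r0, hr0⟩ : ∃ r0, r0 = (Subgroup.centralizer ((P : Subgroup G) : Set G)).relIndex
      (Subgroup.normalizer ((P : Subgroup G) : Set G)) := ⟨_, rfl⟩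
  have hqr1 : 1 < q * r := by
    have := hq.two_le
    have := hr.two_le
    nlinarith
  have hr0ne : r0 ≠ 1 := by
    intro h1
    rw [hr0, Subgroup.relIndex_eq_one] at h1
    refine false_of_normalizer_le_centralizer P
      (by rw [hP]; exact Nat.one_lt_pow (by norm_num) hp.one_lt) ?_ h1
    rw [hP, hG']
    have : 0 < p ^ 2 := pow_pos hp.pos 2
    nlinarith
  have hr0dvd : r0 ∣ q * r := by
    have h1 := Subgroup.relIndex_dvd_of_le_left
      (Subgroup.normalizer ((P : Subgroup G) : Set G)) hPC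
    have h2 := Subgroup.relIndex_dvd_index_of_le (Subgroup.le_normalizer (H := (P : Subgroup G)))
    rw [hidx] at h2
    exact hr0 ▸ (h1.trans h2)
  obtain ⟨s, hs, hsr0⟩ := Nat.exists_prime_and_dvd hr0ne
  have hsqr : s = q ∨ s = r := by
    rcases (Nat.Prime.dvd_mul hs).mp (hsr0.trans hr0dvd) with h | h
    · left; exact (Nat.prime_dvd_prime_iff_eq hs hq).mp h
    · right; exact (Nat.prime_dvd_prime_iff_eq hs hr).mp h
  have hps : p < s := by
    rcases hsqr with h | h
    · rw [h]; exact hpq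
    · rw [h]; exact hpr
  have : Fact s.Prime := ⟨hs⟩
  obtain ⟨S⟩ : Nonempty (Sylow s ↥(Subgroup.normalizer ((P : Subgroup G) : Set G))) :=
    inferInstance
  have hSC : ¬ (S : Subgroup ↥(Subgroup.normalizer ((P : Subgroup G) : Set G))) ≤
      (Subgroup.centralizer ((P : Subgroup G) : Set G)).subgroupOf
        (Subgroup.normalizer ((P : Subgroup G) : Set G)) := by
    intro hle
    have h1 := Subgroup.index_dvd_of_le hle
    have h2 : s ∣ ((Subgroup.centralizer ((P : Subgroup G) : Set G)).subgroupOf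
        (Subgroup.normalizer ((P : Subgroup G) : Set G))).index := by
      rw [hr0] at hsr0
      exact hsr0
    exact S.not_dvd_index (h2.trans h1)
  obtain ⟨x, hxS, hxC⟩ := SetLike.not_le_iff_exists.mp hSC
  have hxC' : (x : G) ∉ Subgroup.centralizer ((P : Subgroup G) : Set G) :=
    fun h => hxC (Subgroup.mem_subgroupOf.mpr h)
  have hK : IsPGroup s (Subgroup.zpowers x) :=
    S.2.to_le (by rw [Subgroup.zpowers_le]; exact hxS)
  have hmod := hK.card_modEq_card_fixedPoints (α := ↥(P : Subgroup G))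
  rw [hP] at hmod
  obtain ⟨D, hD⟩ : ∃ D : Subgroup ↥(P : Subgroup G),
      D = (Subgroup.centralizer ({(x : G)} : Set G)).subgroupOf (P : Subgroup G) := ⟨_, rfl⟩
  have hfixD : Nat.card (MulAction.fixedPoints (Subgroup.zpowers x) ↥(P : Subgroup G)) =
      Nat.card D := by
    apply Nat.card_congr
    apply Equiv.subtypeEquivRight
    intro y
    rw [hD, Subgroup.mem_subgroupOf, Subgroup.mem_centralizer_singleton_iff,
      MulAction.mem_fixedPoints]
    constructor
    · intro hy
      have h1 := hy ⟨x, Subgroup.mem_zpowers x⟩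
      have h2 : (x : G) * (y : G) * (x : G)⁻¹ = (y : G) := congrArg Subtype.val h1
      calc (y : G) * (x : G) = ((x : G) * (y : G) * (x : G)⁻¹) * (x : G) := by rw [h2]
        _ = (x : G) * (y : G) := by group
    · intro hy k
      obtain ⟨k, hk⟩ := k
      obtain ⟨j, rfl⟩ := Subgroup.mem_zpowers_iff.mp hk
      apply Subtype.ext
      show ((x ^ j : ↥(Subgroup.normalizer ((P : Subgroup G) : Set G))) : G) * (y : G) *
        ((x ^ j : ↥(Subgroup.normalizer ((P : Subgroup G) : Set G))) : G)⁻¹ = (y : G)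
      rw [Subgroup.coe_zpow]
      have h3 : Commute (y : G) ((x : G) ^ j) := Commute.zpow_right hy j
      rw [← h3.eq, mul_inv_cancel_right]
  have hDtop : D ≠ ⊤ := by
    intro htop
    apply hxC'
    rw [Subgroup.mem_centralizer_iff]
    intro y hy
    have hyD : (⟨y, hy⟩ : ↥(P : Subgroup G)) ∈ D := by rw [htop]; exact Subgroup.mem_top _
    rw [hD, Subgroup.mem_subgroupOf, Subgroup.mem_centralizer_singleton_iff] at hyD
    exact hyD
  have hDdvd : Nat.card D ∣ p ^ 2 := hP ▸ Subgroup.card_subgroup_dvd_card D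
  obtain ⟨j, hj2, hj⟩ := (Nat.dvd_prime_pow hp).mp hDdvd
  rw [hfixD, hj] at hmod
  have hmod' : p ^ 2 % s = p ^ j % s := hmod
  interval_cases j
  · rw [pow_zero, Nat.mod_eq_of_lt hs.one_lt] at hmod'
    obtain ⟨h2, h3⟩ := nt1 p s hp hs hps hmod'
    refine ⟨h2, ?_⟩
    rcases hsqr with h | h
    · left; rw [← h, h3]
    · right; rw [← h, h3]
  · exfalso
    rw [pow_one] at hmod'
    have h1 : s ∣ p ^ 2 - p :=
      (Nat.modEq_iff_dvd' (by nlinarith [hp.two_le])).mp (by rw [Nat.ModEq]; exact hmod'.symm)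
    have h2 : p ^ 2 - p = p * (p - 1) := by
      obtain ⟨k, rfl⟩ : ∃ k, p = k + 1 := ⟨p - 1, by have := hp.two_le; omega⟩
      have h3 : (k + 1) ^ 2 = (k + 1) * k + (k + 1) := by ring
      rw [h3, Nat.add_sub_cancel, Nat.add_sub_cancel]
    rw [h2] at h1
    rcases (Nat.Prime.dvd_mul hs).mp h1 with h | h
    · have := Nat.le_of_dvd hp.pos h; omega
    · have := Nat.le_of_dvd (by have := hp.two_le; omega) h; omega
  · exact absurd (D.card_eq_iff_eq_top.mp (by rw [hj, hP])) hDtop

theorem D132 {G : Type*} [Group G] [Finite G] [IsSimpleGroup G] (hG : Nat.card G = 132) :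
    False := by
  classical
  have : Fact (Nat.Prime 11) := ⟨by norm_num⟩
  have : Fact (Nat.Prime 3) := ⟨by norm_num⟩
  have hc11 : ∀ P : Sylow 11 G, Nat.card (P : Subgroup G) = 11 := by
    intro P
    have := sylow_card_of 1 12 (by rw [hG]; norm_num) (by norm_num) P
    simpa using this
  have hc3 : ∀ P : Sylow 3 G, Nat.card (P : Subgroup G) = 3 := by
    intro P
    have := sylow_card_of 1 44 (by rw [hG]; norm_num) (by norm_num) P
    simpa using this
  obtain ⟨a1, a2, a3, a4⟩ := sylow_facts (G := G) 11 1 12 (by rw [hG]; norm_num) (by norm_num)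
    (by norm_num) (by norm_num)
  obtain ⟨b1, b2, b3, b4⟩ := sylow_facts (G := G) 3 1 44 (by rw [hG]; norm_num) (by norm_num)
    (by norm_num) (by norm_num)
  have h11 : Nat.card (Sylow 11 G) = 12 := by
    obtain ⟨n, hn⟩ : ∃ n, n = Nat.card (Sylow 11 G) := ⟨_, rfl⟩
    rw [← hn] at a1 a2 a3 ⊢
    have hle : n ≤ 12 := Nat.le_of_dvd (by norm_num) a1
    have h0 : 12 % n = 0 := Nat.mod_eq_zero_of_dvd a1
    interval_cases n <;> omega
  have h3 : Nat.card (Sylow 3 G) = 22 := by
    obtain ⟨n, hn⟩ : ∃ n, n = Nat.card (Sylow 3 G) := ⟨_, rfl⟩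
    rw [← hn, hG] at b4
    rw [← hn] at b1 b2 b3 ⊢
    have hle : n ≤ 44 := Nat.le_of_dvd (by norm_num) b1
    have h0 : 44 % n = 0 := Nat.mod_eq_zero_of_dvd b1
    have h4 : n ≠ 4 := by
      rintro rfl
      revert b4
      decide
    interval_cases n <;> omega
  have hx11 := card_orderOf_eq_prime hc11
  have hx3 := card_orderOf_eq_prime hc3
  rw [h11] at hx11
  rw [h3] at hx3
  let f : {g : G // orderOf g = 11} ⊕ {g : G // orderOf g = 3} → G :=
    Sum.elim Subtype.val Subtype.val
  have hf : Function.Injective f := by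
    rintro (a | a) (b | b) hab
    · exact congrArg Sum.inl (Subtype.ext hab)
    · exfalso
      have h1 : (a : G) = (b : G) := hab
      have h2 := a.2
      rw [h1, b.2] at h2
      omega
    · exfalso
      have h1 : (a : G) = (b : G) := hab
      have h2 := a.2
      rw [h1, b.2] at h2
      omega
    · exact congrArg Sum.inr (Subtype.ext hab)
  have hle := Nat.card_le_card_of_injective f hf
  rw [Nat.card_sum, hx11, hx3, hG] at hle
  omega

theorem D3 {G : Type*} [Group G] [Finite G] [IsSimpleGroup G] (t : ℕ) (ht : t.Prime)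
    (ht5 : 5 ≤ t) (hG : Nat.card G = 12 * t) : t = 5 := by
  have : Fact t.Prime := ⟨ht⟩
  have hnd : ¬ t ∣ 12 := by
    intro h
    have h' : t ∣ 2 ^ 2 * 3 := h
    rcases (Nat.Prime.dvd_mul ht).mp h' with h | h
    · have := Nat.le_of_dvd (by norm_num) (ht.dvd_of_dvd_pow h); omega
    · have := Nat.le_of_dvd (by norm_num) h; omega
  obtain ⟨h1, h2, h3, h4⟩ := sylow_facts t 1 12 (by rw [hG]; ring) hnd (by norm_num)
    (by norm_num)
  obtain ⟨n, hn⟩ : ∃ n, n = Nat.card (Sylow t G) := ⟨_, rfl⟩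
  rw [← hn] at h1 h2 h3 h4
  have hnle : n ≤ 12 := Nat.le_of_dvd (by norm_num) h1
  have hn0 : 12 % n = 0 := Nat.mod_eq_zero_of_dvd h1
  have hn2 : 2 ≤ n := by
    rcases Nat.eq_zero_or_pos n with h0 | h0
    · rw [h0] at hn0; omega
    · omega
  have htle : t ≤ 11 := by
    have hd : t ∣ n - 1 := (Nat.modEq_iff_dvd' (by omega)).mp
      (by rw [Nat.ModEq, h2, Nat.mod_eq_of_lt ht.one_lt])
    have := Nat.le_of_dvd (by omega) hd
    omega
  by_contra hne
  have h7 : t = 7 ∨ t = 11 := by
    clear hn h4 hnd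
    interval_cases t <;> first | omega | exact absurd ht (by norm_num)
  rcases h7 with rfl | rfl
  · interval_cases n <;> omega
  · exact D132 (by rw [hG])

theorem caseD {G : Type*} [Group G] [Finite G] [IsSimpleGroup G] (p q r : ℕ) (hp : p.Prime)
    (hq : q.Prime) (hr : r.Prime) (hqp : q ≠ p) (hrp : r ≠ p) (hqr : q ≠ r)
    (hG : Nat.card G = p ^ 2 * q * r) : Nat.card G = 60 := by
  have hpq : p < q := by
    by_contra hle
    push Not at hle
    have hqp' : q < p := lt_of_le_of_ne hle hqp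
    rcases lt_or_gt_of_ne hqr with h | h
    · exact D1 p q r hp hq hr hqp' h hG
    · exact D1 p r q hp hr hq (h.trans hqp') h (by rw [hG]; ring)
  have hpr : p < r := by
    by_contra hle
    push Not at hle
    have hrp' : r < p := lt_of_le_of_ne hle hrp
    exact D1 p r q hp hr hq hrp' (hrp'.trans hpq) (by rw [hG]; ring)
  obtain ⟨h2, h3⟩ := D2 p q r hp hq hr hpq hpr hG
  subst h2
  rcases h3 with h3 | h3
  · subst h3
    have hr5 : 5 ≤ r := by
      by_contra hlt
      push Not at hlt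
      interval_cases r
      · exact hqr rfl
      · exact absurd hr (by norm_num)
    have h5 := D3 r hr hr5 (by rw [hG]; ring)
    rw [hG, h5]; norm_num
  · subst h3
    have hq5 : 5 ≤ q := by
      by_contra hlt
      push Not at hlt
      interval_cases q
      · exact hqr rfl
      · exact absurd hq (by norm_num)
    have h5 := D3 q hq hq5 (by rw [hG]; ring)
    rw [hG, h5]; norm_num

/-- If a finite simple group has order p^2 * q * r with p, q and r prime, then its order is 60. -/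
theorem result {G : Type*} [Group G] [Finite G] [IsSimpleGroup G] (p q r : ℕ) (hp : p.Prime) (hq : q.Prime) (hr : r.Prime) (hG : Nat.card G = p ^ 2 * q * r) : Nat.card G = 60 := by
  by_cases hqp : q = p
  · by_cases hrp : r = p
    · exfalso
      subst hqp hrp
      exact not_simple_pgroup (hp := ⟨hp⟩) r 4 (by rw [hG]; ring) (by norm_num)
    · exfalso
      exact caseB p r hp hr hrp (by rw [hG, hqp]; ring)
  · by_cases hrp : r = p
    · exfalso
      exact caseB p q hp hq hqp (by rw [hG, hrp]; ring)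
    · by_cases hqr : q = r
      · exfalso
        exact caseC p q hp hq hqp (by rw [hG, ← hqr]; ring)
      · exact caseD p q r hp hq hr hqp hrp hqr hG

end Cfsg.Agent.S0988
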