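import Cfsg.Statements.S0989
import Mathlib
import Cfsg.Agent.Lib.Helper2.SimpleIndex
import Cfsg.Agent.S1018

set_option autoImplicit false
open Cfsg

namespace Cfsg.Agent.S0989

open Cfsg.Agent.Lib.Helper2.SimpleIndex

/-- In the symmetric group on p or p + 1 letters, p a prime, the normalizer of a Sylow p-subgroup has order p * (p - 1). -/
theorem result {α : Type*} [Fintype α] [DecidableEq α] (p : ℕ) [Fact p.Prime] (hα : Fintype.card α = p ∨ Fintype.card α = p + 1) (P : Sylow p (Equiv.Perm α)) : Nat.card ↥(Subgroup.normalizer ((P : Subgroup (Equiv.Perm α)) : Set (Equiv.Perm α))) = p * (p - 1) := by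
  have hp : p.Prime := Fact.out
  have hp2 := hp.two_le
  -- |P| = p
  have hP : Nat.card (P : Subgroup (Equiv.Perm α)) = p := by
    obtain ⟨m, hm1, hm2⟩ : ∃ m, Nat.card (Equiv.Perm α) = p ^ 1 * m ∧ ¬ p ∣ m := by
      rw [Nat.card_perm, Nat.card_eq_fintype_card, pow_one]
      obtain ⟨q, hq⟩ : ∃ q, p = q + 1 := ⟨p - 1, by omega⟩
      have hq1 : ¬ p ∣ Nat.factorial q := by
        rw [hp.dvd_factorial]; omega
      rcases hα with h | h
      · refine ⟨Nat.factorial q, ?_, hq1⟩
        rw [h, hq, Nat.factorial_succ]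
      · refine ⟨(q + 2) * Nat.factorial q, ?_, ?_⟩
        · rw [h, hq, Nat.factorial_succ, Nat.factorial_succ]; ring
        · intro hd
          rcases (Nat.Prime.dvd_mul hp).mp hd with h1 | h1
          · have h2 : p ∣ 1 := by
              have h3 : q + 2 = p + 1 := by omega
              rw [h3] at h1
              exact (Nat.dvd_add_right (dvd_refl p)).mp h1
            have := Nat.le_of_dvd (by norm_num) h2
            omega
          · exact hq1 h1
    have := sylow_card_of 1 m hm1 hm2 P
    simpa using this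
  obtain ⟨σ, hσP, hσ1⟩ : ∃ σ ∈ (P : Subgroup (Equiv.Perm α)), σ ≠ 1 := by
    have h1 : 1 < Nat.card (P : Subgroup (Equiv.Perm α)) := by rw [hP]; exact hp.one_lt
    rw [Subgroup.one_lt_card_iff_ne_bot, Subgroup.ne_bot_iff_exists_ne_one] at h1
    obtain ⟨⟨σ, hσ⟩, h⟩ := h1
    exact ⟨σ, hσ, fun h' => h (Subtype.ext h')⟩
  -- every non-identity element of P has cycle type {p}
  have hct : ∀ τ ∈ (P : Subgroup (Equiv.Perm α)), τ ≠ 1 → τ.cycleType = {p} := by
    intro τ hτ hτ1
    have hpow : τ ^ p = 1 := by
      have := pow_card_eq_one' (G := ↥(P : Subgroup (Equiv.Perm α))) (x := ⟨τ, hτ⟩)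
      rw [hP] at this
      exact congrArg Subtype.val this
    have h1 := Equiv.Perm.cycleType_of_pow_prime_eq_one hpow
    have h2 := Equiv.Perm.sum_cycleType_le τ
    have h3 : Multiset.card τ.cycleType ≠ 0 := by
      intro h
      rw [Multiset.card_eq_zero, Equiv.Perm.cycleType_eq_zero] at h
      exact hτ1 h
    have h4 : τ.cycleType.sum = Multiset.card τ.cycleType * p := by
      rw [h1, Multiset.sum_replicate, smul_eq_mul, Multiset.card_replicate]
    have h5 : Multiset.card τ.cycleType = 1 := by
      by_contra hne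
      have h6 : 2 ≤ Multiset.card τ.cycleType := by omega
      have h7 : 2 * p ≤ Multiset.card τ.cycleType * p := Nat.mul_le_mul_right p h6
      rcases hα with h | h <;> omega
    rw [h1, h5, Multiset.replicate_one]
  have hcent : Nat.card (Subgroup.centralizer {σ}) = p := by
    rw [Equiv.Perm.nat_card_centralizer, hct σ hσP hσ1]
    rcases hα with h | h <;> simp [h]
  have hcentP : Subgroup.centralizer ((P : Subgroup (Equiv.Perm α)) : Set (Equiv.Perm α)) =
      Subgroup.centralizer {σ} := by
    apply le_antisymm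
    · exact Subgroup.centralizer_le (Set.singleton_subset_iff.mpr hσP)
    · intro g hg
      rw [Subgroup.mem_centralizer_singleton_iff] at hg
      rw [Subgroup.mem_centralizer_iff]
      intro w hw
      obtain ⟨k, rfl⟩ := Cfsg.Agent.S1018.gen (P : Subgroup (Equiv.Perm α)) hP hσP hσ1 w hw
      exact ((Commute.zpow_right (show Commute g σ from hg) k).eq).symm
  obtain ⟨f, hf⟩ : ∃ f : ↥(Subgroup.normalizer ((P : Subgroup (Equiv.Perm α)) : Set (Equiv.Perm α)))
      →* MulAut ↥(P : Subgroup (Equiv.Perm α)), f = (P : Subgroup (Equiv.Perm α)).normalizerMonoidHom :=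
    ⟨_, rfl⟩
  have h1 := f.ker.card_mul_index
  rw [Subgroup.index_ker] at h1
  have hker : Nat.card f.ker = p := by
    rw [hf, Subgroup.normalizerMonoidHom_ker,
      Nat.card_congr (Subgroup.subgroupOfEquivOfLe (Subgroup.centralizer_le_normalizer _)).toEquiv,
      hcentP, hcent]
  have hcyc : IsCyclic (P : Subgroup (Equiv.Perm α)) := isCyclic_of_prime_card hP
  have hrange : Nat.card f.range = p - 1 := by
    apply le_antisymm
    · have h2 := Subgroup.card_le_card_group (H := f.range)
      rw [hcyc.card_mulAut, hP, Nat.totient_prime hp] at h2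
      exact h2
    · have hcard : Nat.card {τ : ↥(P : Subgroup (Equiv.Perm α)) // τ ≠ 1} = p - 1 := by
        have : Fintype ↥(P : Subgroup (Equiv.Perm α)) := Fintype.ofFinite _
        rw [Nat.card_eq_fintype_card, Fintype.card_subtype_compl, Fintype.card_subtype_eq,
          Fintype.card_eq_nat_card, hP]
      have hex : ∀ τ : {τ : ↥(P : Subgroup (Equiv.Perm α)) // τ ≠ 1},
          ∃ a : f.range, (a : MulAut ↥(P : Subgroup (Equiv.Perm α))) ⟨σ, hσP⟩ = τ.1 := by
        rintro ⟨⟨τ, hτ⟩, hτ1⟩
        have hτ1' : τ ≠ 1 := fun h => hτ1 (Subtype.ext h)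
        have hconj : IsConj σ τ := by
          rw [Equiv.Perm.isConj_iff_cycleType_eq, hct σ hσP hσ1, hct τ hτ hτ1']
        obtain ⟨g, hg⟩ := isConj_iff.mp hconj
        have hgN : g ∈ Subgroup.normalizer ((P : Subgroup (Equiv.Perm α)) : Set (Equiv.Perm α)) := by
          have h := Cfsg.Agent.S1018.mem_normalizer_of_conj P hP hσP hσ1 (g := g⁻¹)
            (by rw [inv_inv, hg]; exact hτ)
          simpa using inv_mem h
        refine ⟨⟨f ⟨g, hgN⟩, ⟨_, rfl⟩⟩, ?_⟩
        apply Subtype.ext
        rw [hf]
        exact hg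
      choose φ hφ using hex
      have hinj : Function.Injective φ := by
        intro a b hab
        have h3 := (hφ a).symm.trans
          ((congrArg (fun c : f.range => (c : MulAut ↥(P : Subgroup (Equiv.Perm α))) ⟨σ, hσP⟩) hab).trans
            (hφ b))
        exact Subtype.ext h3
      have h4 := Nat.card_le_card_of_injective φ hinj
      rw [hcard] at h4
      exact h4
  rw [hker, hrange] at h1
  exact h1.symm

end Cfsg.Agent.S0989
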