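import Cfsg.Statements.S0990
import Mathlib

set_option autoImplicit false
open Cfsg

namespace Cfsg.Agent.S0990

/-- Let p be an odd prime and P a Sylow p-subgroup of the symmetric group on a finite set with at least two elements. Then P is contained in the alternating group, and twice the order of the normalizer of P inside the alternating group equals the order of the normalizer of P in the symmetric group. -/
theorem result {α : Type*} [Fintype α] [DecidableEq α] (hα : 2 ≤ Fintype.card α) (p : ℕ) [Fact p.Prime] (hp : p ≠ 2) (P : Sylow p (Equiv.Perm α)) : (P : Subgroup (Equiv.Perm α)) ≤ alternatingGroup α ∧ 2 * Nat.card ↥(Subgroup.normalizer ((((P : Subgroup (Equiv.Perm α)).subgroupOf (alternatingGroup α) : Subgroup ↥(alternatingGroup α)) : Set ↥(alternatingGroup α)))) = Nat.card ↥(Subgroup.normalizer ((P : Subgroup (Equiv.Perm α)) : Set (Equiv.Perm α))) := by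
  have hpp : p.Prime := Fact.out
  have hnt : Nontrivial α := Fintype.one_lt_card_iff_nontrivial.mp (by omega)
  have hle : (P : Subgroup (Equiv.Perm α)) ≤ alternatingGroup α := by
    intro g hg
    rw [Equiv.Perm.mem_alternatingGroup]
    obtain ⟨k, hk⟩ := IsPGroup.iff_orderOf.mp P.isPGroup' ⟨g, hg⟩
    have hk' : orderOf g = p ^ k := by
      rw [← hk]; exact (Subgroup.orderOf_mk g hg).symm
    have h1 : orderOf (Equiv.Perm.sign g) ∣ p ^ k := by
      rw [← hk']; exact orderOf_map_dvd _ g
    have h2 : orderOf (Equiv.Perm.sign g) ∣ 2 := by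
      apply orderOf_dvd_of_pow_eq_one
      exact Int.units_sq _
    have h3 : Nat.Coprime (p ^ k) 2 := by
      apply Nat.Coprime.pow_left
      exact (Nat.coprime_primes hpp Nat.prime_two).mpr hp
    have h4 : orderOf (Equiv.Perm.sign g) = 1 := Nat.eq_one_of_dvd_coprimes h3 h1 h2
    exact orderOf_eq_one_iff.mp h4
  refine ⟨hle, ?_⟩
  have hfr : Subgroup.normalizer ((P : Subgroup (Equiv.Perm α)) : Set (Equiv.Perm α)) ⊔ alternatingGroup α = ⊤ :=
    Sylow.normalizer_sup_eq_top' P hle
  rw [← Subgroup.subgroupOf_normalizer_eq hle]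
  -- relative index of A in N is 2
  have h1 : (alternatingGroup α).relIndex (Subgroup.normalizer ((P : Subgroup (Equiv.Perm α)) : Set (Equiv.Perm α))) = 2 := by
    rw [← Subgroup.relIndex_sup_right, hfr, Subgroup.relIndex_top_right, alternatingGroup.index_eq_two]
  have h2 := ((alternatingGroup α).subgroupOf (Subgroup.normalizer ((P : Subgroup (Equiv.Perm α)) : Set (Equiv.Perm α)))).card_mul_index
  have h3 : ((alternatingGroup α).subgroupOf (Subgroup.normalizer ((P : Subgroup (Equiv.Perm α)) : Set (Equiv.Perm α)))).index = 2 := h1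
  rw [h3] at h2
  have h4 : Nat.card ↥((Subgroup.normalizer ((P : Subgroup (Equiv.Perm α)) : Set (Equiv.Perm α))).subgroupOf (alternatingGroup α))
      = Nat.card ↥((alternatingGroup α).subgroupOf (Subgroup.normalizer ((P : Subgroup (Equiv.Perm α)) : Set (Equiv.Perm α)))) := by
    refine Nat.card_congr
      { toFun := fun x => ⟨⟨x.1.1, x.2⟩, x.1.2⟩
        invFun := fun x => ⟨⟨x.1.1, x.2⟩, x.1.2⟩
        left_inv := fun x => rfl
        right_inv := fun x => rfl }
  rw [h4, ← h2, mul_comm]

end Cfsg.Agent.S0990
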