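import Cfsg.Statements.S0991

set_option autoImplicit false
open Cfsg

namespace Cfsg.Agent.S0991

theorem result {G : Type*} [Group G] [Finite G] [IsSimpleGroup G] (hG : ¬ IsMulCommutative G) (H : Subgroup G) (hH : H ≠ ⊤) : ∃ f : G →* ↥(alternatingGroup (Fin H.index)), Function.Injective f := by
  classical
  let e : G ⧸ H ≃ Fin H.index := Finite.equivFin (G ⧸ H)
  let φ : G →* Equiv.Perm (Fin H.index) :=
    (e.permCongrHom.toMonoidHom).comp (MulAction.toPermHom G (G ⧸ H))
  have hker : φ.ker = ⊥ := by
    rcases (φ.normal_ker).eq_bot_or_eq_top with h | h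
    · exact h
    · exfalso
      apply hH
      rw [eq_top_iff]
      intro g _
      have hg : g ∈ φ.ker := by rw [h]; trivial
      rw [MonoidHom.mem_ker] at hg
      have h1 : MulAction.toPermHom G (G ⧸ H) g = 1 := by
        have : e.permCongrHom (MulAction.toPermHom G (G ⧸ H) g) = 1 := hg
        exact e.permCongrHom.injective (this.trans (map_one _).symm)
      have h2 : g ∈ (MulAction.toPermHom G (G ⧸ H)).ker := h1
      rw [← Subgroup.normalCore_eq_ker] at h2
      exact Subgroup.normalCore_le H h2
  have hinj : Function.Injective φ := (MonoidHom.ker_eq_bot_iff φ).mp hker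
  have hsign : ∀ g, Equiv.Perm.sign (φ g) = 1 := by
    let s : G →* ℤˣ := Equiv.Perm.sign.comp φ
    rcases (s.normal_ker).eq_bot_or_eq_top with h | h
    · exfalso
      apply hG
      have hsinj : Function.Injective s := (MonoidHom.ker_eq_bot_iff s).mp h
      refine ⟨⟨fun a b => ?_⟩⟩
      apply hsinj
      rw [map_mul, map_mul, mul_comm]
    · intro g
      have hg : g ∈ s.ker := by rw [h]; trivial
      exact hg
  refine ⟨φ.codRestrict (alternatingGroup (Fin H.index)) (fun g => ?_), ?_⟩
  · rw [Equiv.Perm.mem_alternatingGroup]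
    exact hsign g
  · intro a b hab
    apply hinj
    have := congrArg Subtype.val hab
    exact this

end Cfsg.Agent.S0991
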