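import Cfsg.Statements.S0992
import Mathlib
import Cfsg.Agent.Lib.Helper13.SylowCount

set_option autoImplicit false
open Cfsg

namespace Cfsg.Agent.S0992

open Cfsg.Agent.Lib.Helper13.SmallSimple Cfsg.Agent.Lib.Helper2.SimpleIndex
open Cfsg.Agent.Lib.Helper13.SylowCount

/-- Let G be a non-abelian finite simple group of even order not divisible by 8, and T a Sylow 2-subgroup. Then T is a Klein four-group and the centralizer of T has index 3 in the normalizer of T. -/
theorem result {G : Type*} [Group G] [Finite G] [IsSimpleGroup G] (hG : ¬ IsMulCommutative G) (h2 : Even (Nat.card G)) (h8 : ¬ 8 ∣ Nat.card G) (T : Sylow 2 G) : IsKleinFour ↥(T : Subgroup G) ∧ (Subgroup.centralizer ((T : Subgroup G) : Set G)).relIndex (Subgroup.normalizer ((T : Subgroup G) : Set G)) = 3 := by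
  have hp2 : Fact (Nat.Prime 2) := ⟨Nat.prime_two⟩
  have hncyc : ¬ IsCyclic G := fun hc => hG IsCyclic.isMulCommutative
  have hpos : 0 < Nat.card G := Nat.card_pos
  have hgt : 2 < Nat.card G := by
    by_contra hle
    obtain ⟨c, hc⟩ := h2
    have h2' : Nat.card G = 2 := by omega
    exact hncyc (isCyclic_of_prime_card (p := 2) h2')
  have h4 := four_dvd_card h2 hgt
  obtain ⟨m, hm⟩ := h4
  have hmodd : ¬ 2 ∣ m := by
    rintro ⟨c, rfl⟩
    exact h8 ⟨c, by rw [hm]; ring⟩
  have hN : Nat.card G = 2 ^ 2 * m := by rw [hm]; norm_num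
  have hT : Nat.card (T : Subgroup G) = 4 := by
    have := sylow_card_of 2 m hN hmodd T
    rw [this]; norm_num
  have hm1 : m ≠ 1 := by
    rintro rfl
    exact not_simple_pgroup 2 2 (by rw [hm]; norm_num) le_rfl
  have hTG : Nat.card (T : Subgroup G) < Nat.card G := by
    rw [hT, hm]
    have : m ≠ 0 := by rintro rfl; omega
    omega
  have hTncyc : ¬ IsCyclic ↥(T : Subgroup G) := by
    intro hc
    have hmin : (Nat.card G).minFac = 2 :=
      (Nat.minFac_eq_two_iff _).mpr (even_iff_two_dvd.mp h2)
    exact false_of_normalizer_le_centralizer T (by rw [hT]; norm_num) hTG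
      (hc.normalizer_le_centralizer hmin)
  constructor
  · refine ⟨hT, ?_⟩
    have hexp : ∀ x : ↥(T : Subgroup G), x ^ 2 = 1 := by
      intro x
      have hd := orderOf_dvd_natCard x
      rw [hT] at hd
      have hne4 : orderOf x ≠ 4 := fun h4 =>
        hTncyc (isCyclic_of_orderOf_eq_card x (by rw [h4, hT]))
      have ho : orderOf x ∣ 2 := by
        obtain ⟨o, ho⟩ : ∃ o, o = orderOf x := ⟨_, rfl⟩
        rw [← ho] at hd hne4 ⊢
        have hle : o ≤ 4 := Nat.le_of_dvd (by norm_num) hd
        have h0 : 4 % o = 0 := Nat.mod_eq_zero_of_dvd hd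
        interval_cases o <;> omega
      exact orderOf_dvd_iff_pow_eq_one.mp ho
    have hdvd : Monoid.exponent ↥(T : Subgroup G) ∣ 2 :=
      Monoid.exponent_dvd_iff_forall_pow_eq_one.mpr hexp
    rcases (Nat.dvd_prime Nat.prime_two).mp hdvd with h1 | h1
    · exfalso
      have hsub : Subsingleton ↥(T : Subgroup G) := Monoid.exp_eq_one_iff.mp h1
      have := Finite.card_le_one_iff_subsingleton.mpr hsub
      omega
    · exact h1
  · obtain ⟨r, hr⟩ : ∃ r, r = (Subgroup.centralizer ((T : Subgroup G) : Set G)).relIndex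
        (Subgroup.normalizer ((T : Subgroup G) : Set G)) := ⟨_, rfl⟩
    rw [← hr]
    have hr1 : r ∣ Nat.card (MulAut ↥(T : Subgroup G)) :=
      hr ▸ relIndex_centralizer_dvd_card_mulAut (T : Subgroup G)
    have hinj : Function.Injective (MulAut.toPerm ↥(T : Subgroup G)) := by
      intro a b hab
      ext x
      exact congrArg (fun f : Equiv.Perm ↥(T : Subgroup G) => (f x : G)) hab
    have hr2 : Nat.card (MulAut ↥(T : Subgroup G)) ∣ 24 := by
      have h3 := Subgroup.card_dvd_of_injective (MulAut.toPerm ↥(T : Subgroup G)) hinj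
      rw [Nat.card_perm, hT] at h3
      exact h3
    have hTC : (T : Subgroup G) ≤ Subgroup.centralizer ((T : Subgroup G) : Set G) := by
      intro x hx
      rw [Subgroup.mem_centralizer_iff]
      intro y hy
      have hcomm := (IsPGroup.isMulCommutative_of_card_eq_prime_sq (p := 2)
        (G := ↥(T : Subgroup G)) (by rw [hT]; norm_num)).is_comm.comm ⟨y, hy⟩ ⟨x, hx⟩
      exact congrArg Subtype.val hcomm
    have hr3 : r ∣ m := by
      have h1 := Subgroup.relIndex_dvd_of_le_left
        (Subgroup.normalizer ((T : Subgroup G) : Set G)) hTC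
      have h2 := Subgroup.relIndex_dvd_index_of_le (Subgroup.le_normalizer (H := (T : Subgroup G)))
      rw [sylow_index_of 2 m hN hmodd T] at h2
      exact hr ▸ (h1.trans h2)
    have hrne : r ≠ 1 := by
      intro h1
      rw [hr, Subgroup.relIndex_eq_one] at h1
      exact false_of_normalizer_le_centralizer T (by rw [hT]; norm_num) hTG h1
    have hrodd : r % 2 = 1 := by
      by_contra hne
      have h2r : 2 ∣ r := by omega
      exact hmodd (h2r.trans hr3)
    have hr24 : r ∣ 24 := hr1.trans hr2
    have hle : r ≤ 24 := Nat.le_of_dvd (by norm_num) hr24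
    have h0 : 24 % r = 0 := Nat.mod_eq_zero_of_dvd hr24
    interval_cases r <;> omega

end Cfsg.Agent.S0992
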