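import Cfsg.Statements.S0995
import Mathlib
import Cfsg.Agent.Lib.Helper13.SylowCount
import Cfsg.Agent.Lib.Helper13.GL2Syl
import Cfsg.Agent.S1018

set_option autoImplicit false
open Cfsg

namespace Cfsg.Agent.S0995

open Cfsg.Agent.Lib.Helper13.SmallSimple Cfsg.Agent.Lib.Helper2.SimpleIndex
open Cfsg.Agent.Lib.Helper13.SylowCount

/-- The size of a conjugacy class times the order of the centralizer is the group order. -/
theorem card_class_mul_card_centralizer {G : Type*} [Group G] [Finite G] (g : G) :
    Nat.card {h : G // ConjClasses.mk h = ConjClasses.mk g} *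
      Nat.card (Subgroup.centralizer ({g} : Set G)) = Nat.card G := by
  rw [Subgroup.nat_card_centralizer_nat_card_stabilizer]
  have h1 := (MulAction.stabilizer (ConjAct G) g).card_mul_index
  rw [MulAction.index_stabilizer, ConjAct.orbit_eq_carrier_conjClasses] at h1
  have h2 : Nat.card {h : G // ConjClasses.mk h = ConjClasses.mk g} =
      (ConjClasses.mk g).carrier.ncard := by
    rw [← Nat.card_coe_set_eq]
    apply Nat.card_congr
    exact Equiv.subtypeEquivRight (fun h => ConjClasses.mem_carrier_iff_mk_eq.symm)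
  rw [h2, mul_comm, h1]
  rfl

/-- Let G be a finite perfect group containing an element z of prime order p whose centralizer is the cyclic group it generates. Let t be the number of conjugacy classes of elements of order p. Then t divides p - 1, the number of Sylow p-subgroups has the form 1 + n * p, and |G| * t = (p - 1) * p * (1 + n * p). -/
theorem result {G : Type*} [Group G] [Finite G] (hperf : commutator G = ⊤) (p : ℕ) [Fact p.Prime] (z : G) (hz : orderOf z = p) (hC : Subgroup.centralizer ({z} : Set G) = Subgroup.zpowers z) : ∃ n t : ℕ, t = Nat.card {c : ConjClasses G // ∃ g : G, ConjClasses.mk g = c ∧ orderOf g = p} ∧ t ∣ p - 1 ∧ Nat.card (Sylow p G) = 1 + n * p ∧ Nat.card G * t = (p - 1) * p * (1 + n * p) := by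
  classical
  have hp : p.Prime := Fact.out
  have hne1 : ∀ g : G, orderOf g = p → g ≠ 1 := by
    rintro g hg rfl
    rw [orderOf_one] at hg
    exact hp.one_lt.ne hg
  have hz1 : z ≠ 1 := hne1 z hz
  have hzcard : Nat.card (Subgroup.zpowers z) = p := by rw [Nat.card_zpowers, hz]
  have hzp : IsPGroup p (Subgroup.zpowers z) :=
    IsPGroup.of_card (n := 1) (by rw [hzcard, pow_one])
  obtain ⟨P0, hP0⟩ := hzp.exists_le_sylow
  have hzP0 : z ∈ (P0 : Subgroup G) := hP0 (Subgroup.mem_zpowers z)
  have hP0le : (P0 : Subgroup G) ≤ Subgroup.zpowers z := by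
    have hnt : Nontrivial ↥(P0 : Subgroup G) :=
      ⟨⟨⟨z, hzP0⟩, 1, fun h => hz1 (congrArg Subtype.val h)⟩⟩
    have hcn : Nontrivial (Subgroup.center ↥(P0 : Subgroup G)) := P0.2.center_nontrivial
    obtain ⟨⟨c, hc⟩, hc1⟩ := exists_ne (1 : Subgroup.center ↥(P0 : Subgroup G))
    have hc1' : (c : G) ≠ 1 := fun h => hc1 (Subtype.ext (Subtype.ext h))
    rw [Subgroup.mem_center_iff] at hc
    have hcz : (c : G) ∈ Subgroup.zpowers z := by
      rw [← hC, Subgroup.mem_centralizer_singleton_iff]
      exact (congrArg Subtype.val (hc ⟨z, hzP0⟩)).symm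
    obtain ⟨k, hk⟩ := Cfsg.Agent.S1018.gen (Subgroup.zpowers z) hzcard hcz hc1' z
      (Subgroup.mem_zpowers z)
    intro y hy
    rw [← hC, Subgroup.mem_centralizer_singleton_iff]
    have hyc : y * (c : G) = (c : G) * y := congrArg Subtype.val (hc ⟨y, hy⟩)
    rw [hk]
    exact (Commute.zpow_right (show Commute y (c : G) from hyc) k).eq
  have hP0eq : (P0 : Subgroup G) = Subgroup.zpowers z := le_antisymm hP0le hP0
  have hcard : ∀ Q : Sylow p G, Nat.card (Q : Subgroup G) = p := by
    intro Q
    rw [Sylow.card_eq_multiplicity, ← Sylow.card_eq_multiplicity P0, hP0eq, hzcard]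
  -- centralizers of elements of order p have order p
  have hcent : ∀ g : G, orderOf g = p → Nat.card (Subgroup.centralizer ({g} : Set G)) = p := by
    intro g hg
    have hg1 : g ≠ 1 := hne1 g hg
    have hgp : IsPGroup p (Subgroup.zpowers g) :=
      IsPGroup.of_card (n := 1) (by rw [Nat.card_zpowers, hg, pow_one])
    obtain ⟨Q, hQ⟩ := hgp.exists_le_sylow
    obtain ⟨h, hh⟩ := MulAction.exists_smul_eq G P0 Q
    have hgQ : g ∈ (Q : Subgroup G) := hQ (Subgroup.mem_zpowers g)
    rw [← hh, Sylow.coe_subgroup_smul, Subgroup.mem_pointwise_smul_iff_inv_smul_mem] at hgQ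
    have hgQ' : h⁻¹ * g * h ∈ (P0 : Subgroup G) := by
      have h7 : (MulAut.conj h)⁻¹ • g = h⁻¹ * g * h := by
        rw [MulAut.smul_def, MulAut.conj_inv_apply]
      rw [← h7]; exact hgQ
    rw [hP0eq] at hgQ'
    have hw1 : h⁻¹ * g * h ≠ 1 := by
      intro h1
      apply hg1
      have h8 : g = h * (h⁻¹ * g * h) * h⁻¹ := by group
      rw [h8, h1]; group
    have hCw : Subgroup.centralizer ({h⁻¹ * g * h} : Set G) =
        Subgroup.centralizer ({z} : Set G) := by
      obtain ⟨k, hk⟩ := Subgroup.mem_zpowers_iff.mp hgQ'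
      obtain ⟨j, hj⟩ := Cfsg.Agent.S1018.gen (Subgroup.zpowers z) hzcard hgQ' hw1 z
        (Subgroup.mem_zpowers z)
      ext x
      rw [Subgroup.mem_centralizer_singleton_iff, Subgroup.mem_centralizer_singleton_iff]
      constructor
      · intro hx
        have h9 := (Commute.zpow_right (show Commute x (h⁻¹ * g * h) from hx) j).eq
        rw [← hj] at h9
        exact h9
      · intro hx
        have h9 := (Commute.zpow_right (show Commute x z from hx) k).eq
        rw [hk] at h9
        exact h9
    have h5 := Cfsg.Agent.Lib.Helper13.GL2Syl.card_centralizer_conj h (h⁻¹ * g * h)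
    have h6 : h * (h⁻¹ * g * h) * h⁻¹ = g := by group
    rw [h6, hCw, hC, hzcard] at h5
    exact h5
  have hX := card_orderOf_eq_prime hcard
  -- the map to classes
  obtain ⟨F, hF⟩ : ∃ F : {g : G // orderOf g = p} →
      {c : ConjClasses G // ∃ g : G, ConjClasses.mk g = c ∧ orderOf g = p},
      ∀ x, (F x).1 = ConjClasses.mk x.1 :=
    ⟨fun g => ⟨ConjClasses.mk g.1, g.1, rfl, g.2⟩, fun x => rfl⟩
  have hfib : ∀ c : {c : ConjClasses G // ∃ g : G, ConjClasses.mk g = c ∧ orderOf g = p},
      Nat.card {x : {g : G // orderOf g = p} // F x = c} * p = Nat.card G := by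
    rintro ⟨c, g0, rfl, hg0⟩
    have e : {x : {g : G // orderOf g = p} // F x = ⟨ConjClasses.mk g0, g0, rfl, hg0⟩} ≃
        {h : G // ConjClasses.mk h = ConjClasses.mk g0} :=
      { toFun := fun x => ⟨x.1.1, (hF x.1).symm.trans (congrArg Subtype.val x.2)⟩
        invFun := fun h => ⟨⟨h.1, by
            obtain ⟨u, hu⟩ := isConj_iff.mp (ConjClasses.mk_eq_mk_iff_isConj.mp h.2)
            have h10 : orderOf (u * h.1 * u⁻¹) = orderOf h.1 :=
              orderOf_injective (MulAut.conj u).toMonoidHom (MulAut.conj u).injective h.1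
            rw [hu] at h10
            exact h10.symm.trans hg0⟩, Subtype.ext ((hF _).trans h.2)⟩
        left_inv := fun x => rfl
        right_inv := fun h => rfl }
    rw [Nat.card_congr e, ← hcent g0 hg0]
    exact card_class_mul_card_centralizer g0
  obtain ⟨t, ht⟩ : ∃ t, t = Nat.card {c : ConjClasses G // ∃ g : G, ConjClasses.mk g = c ∧
      orderOf g = p} := ⟨_, rfl⟩
  have hsum : Nat.card {g : G // orderOf g = p} * p = t * Nat.card G := by
    have : Fintype {c : ConjClasses G // ∃ g : G, ConjClasses.mk g = c ∧ orderOf g = p} :=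
      Fintype.ofFinite _
    rw [Nat.card_congr (Equiv.sigmaFiberEquiv F).symm, Nat.card_sigma, Finset.sum_mul]
    simp only [hfib]
    rw [Finset.sum_const, Finset.card_univ, smul_eq_mul, ht, ← Nat.card_eq_fintype_card]
  -- assemble
  obtain ⟨q, hq⟩ : ∃ q, q = p - 1 := ⟨_, rfl⟩
  rw [← hq] at hX
  rw [← hq]
  have hNP := card_normalizer_mul P0
  obtain ⟨m, hm⟩ : p ∣ Nat.card (Subgroup.normalizer ((P0 : Subgroup G) : Set G)) := by
    have h11 := Subgroup.card_dvd_of_le (Subgroup.le_normalizer (H := (P0 : Subgroup G)))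
    rwa [hcard P0] at h11
  obtain ⟨np, hnp⟩ : ∃ np, np = Nat.card (Sylow p G) := ⟨_, rfl⟩
  rw [← hnp] at hX hNP ⊢
  have hmod : np % p = 1 := by
    have h12 := card_sylow_modEq_one p G
    rw [Nat.ModEq, Nat.mod_eq_of_lt hp.one_lt, ← hnp] at h12
    exact h12
  have hnpdiv : np = 1 + (np / p) * p := by
    have h13 := Nat.div_add_mod np p
    rw [hmod] at h13
    rw [mul_comm] at h13
    omega
  have hnppos : 0 < np := by omega
  rw [hX, ← hNP, hm] at hsum
  have key : np * p * (t * m) = np * p * q := by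
    calc np * p * (t * m) = t * (p * m * np) := by ring
      _ = np * q * p := hsum.symm
      _ = np * p * q := by ring
  have htm : t * m = q := Nat.eq_of_mul_eq_mul_left (Nat.mul_pos hnppos hp.pos) key
  refine ⟨np / p, t, ht, ⟨m, htm.symm⟩, hnpdiv, ?_⟩
  rw [← hnpdiv, ← hNP, hm]
  calc p * m * np * t = np * p * (t * m) := by ring
    _ = np * p * q := key
    _ = q * p * np := by ring

end Cfsg.Agent.S0995
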