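import Mathlib
import Cfsg.Statements.S1004
import Cfsg.Agent.Lib.Helper2.L27Iso
import Cfsg.Agent.Lib.Helper2.L27Syl
import Cfsg.Agent.Lib.Helper13.SmallSimple
import Cfsg.Agent.Lib.Helper2.SimpleIndex
import Cfsg.Agent.S1003

set_option autoImplicit false
open Cfsg

namespace Cfsg.Agent.S1004

/-- Let G be a simple group of order 168 and T a Sylow 2-subgroup. Then T is dihedral of order 8, T is its own normalizer, and T is the centralizer of any non-identity element of T that commutes with every element of T. -/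
theorem result {G : Type*} [Group G] [Finite G] [IsSimpleGroup G] (h : Nat.card G = 168) (T : Sylow 2 G) : Nonempty (↥(T : Subgroup G) ≃* DihedralGroup 4) ∧ Subgroup.normalizer ((T : Subgroup G) : Set G) = T ∧ ∀ z : G, z ∈ (T : Subgroup G) → z ≠ 1 → (∀ t ∈ (T : Subgroup G), t * z = z * t) → Subgroup.centralizer ({z} : Set G) = T := by
  classical
  obtain ⟨e⟩ := Cfsg.Agent.Lib.Helper2.L27Cls.exists_equiv h
  have hT : Nat.card (T : Subgroup G) = 8 :=
    Cfsg.Agent.Lib.Helper2.SimpleIndex.sylow_card_of 3 21 (by rw [h]; norm_num) (by decide) T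
  have key : ∀ z : G, z ∈ (T : Subgroup G) → z ≠ 1 → (∀ t ∈ (T : Subgroup G), t * z = z * t) →
      orderOf z = 2 ∧ Subgroup.centralizer ({z} : Set G) = T := by
    intro z hz hz1 hcomm
    have hle : (T : Subgroup G) ≤ Subgroup.centralizer ({z} : Set G) := by
      intro t ht
      rw [Subgroup.mem_centralizer_singleton_iff]
      exact hcomm t ht
    have hbig : (orderOf z = 3 ∨ orderOf z = 4 ∨ orderOf z = 7) → False := by
      intro h347
      have h1 := Cfsg.Agent.Lib.Helper2.L27Abs.centralizer_eq_zpowers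
        (fun c hc => Cfsg.Agent.Lib.Helper2.L27Cls.t_cent e h347 hc)
      have h2 := Subgroup.card_le_of_le hle
      rw [h1, Nat.card_zpowers, hT] at h2
      omega
    have h2 : orderOf z = 2 := by
      rcases Cfsg.Agent.Lib.Helper2.L27Cls.t_orders e z with h1 | h1 | h1 | h1 | h1
      · exact absurd (orderOf_eq_one_iff.mp h1) hz1
      · exact h1
      · exact (hbig (Or.inl h1)).elim
      · exact (hbig (Or.inr (Or.inl h1))).elim
      · exact (hbig (Or.inr (Or.inr h1))).elim
    refine ⟨h2, ?_⟩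
    have hcl := Cfsg.Agent.Lib.Helper2.L27Abs.card_conj_mul z
    rw [← Cfsg.Agent.Lib.Helper2.L27Abs.card_order_eq_class h2
      (fun t ht => Cfsg.Agent.Lib.Helper2.L27Cls.t_conj2 e h2 ht),
      (Cfsg.Agent.Lib.Helper2.L27Cls.t_counts e h).1, h] at hcl
    have h8 : Nat.card (Subgroup.centralizer ({z} : Set G)) = 8 := by omega
    exact (Subgroup.eq_of_le_of_card_ge hle (by rw [h8, hT])).symm
  have hN : Subgroup.normalizer ((T : Subgroup G) : Set G) = T := by
    have h1 := Cfsg.Agent.Lib.Helper13.SmallSimple.card_normalizer_mul T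
    rw [(Cfsg.Agent.S1003.result h).1, h] at h1
    exact (Subgroup.eq_of_le_of_card_ge Subgroup.le_normalizer (by rw [hT]; omega)).symm
  refine ⟨?_, hN, fun z hz hz1 hcomm => (key z hz hz1 hcomm).2⟩
  have hp : IsPGroup 2 (T : Subgroup G) := T.isPGroup'
  haveI : Nontrivial (T : Subgroup G) := by
    rw [← Finite.one_lt_card_iff_nontrivial, hT]
    norm_num
  haveI hnt : Nontrivial (Subgroup.center (T : Subgroup G)) := hp.center_nontrivial
  obtain ⟨⟨z', hz'c⟩, hz'1⟩ := exists_ne (1 : Subgroup.center (T : Subgroup G))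
  have hz1 : (z' : G) ≠ 1 := by
    intro h0
    exact hz'1 (Subtype.ext (Subtype.ext h0))
  have hcomm : ∀ t ∈ (T : Subgroup G), t * (z' : G) = (z' : G) * t := by
    intro t ht
    exact congrArg Subtype.val (Subgroup.mem_center_iff.mp hz'c ⟨t, ht⟩)
  obtain ⟨hz2, hCz⟩ := key (z' : G) z'.2 hz1 hcomm
  obtain ⟨ψ, hψi, hψc⟩ := Cfsg.Agent.Lib.Helper2.L27Cls.t_dih e hz2
  have hle' : ψ.range ≤ (T : Subgroup G) := by
    rw [← hCz]
    rintro _ ⟨a, rfl⟩
    exact Subgroup.mem_centralizer_singleton_iff.mpr (hψc a)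
  have hr : ψ.range = (T : Subgroup G) :=
    Subgroup.eq_of_le_of_card_ge hle' (by
      rw [hT, ← Nat.card_congr (MonoidHom.ofInjective hψi).toEquiv, DihedralGroup.nat_card])
  exact ⟨(MulEquiv.subgroupCongr hr).symm.trans (MonoidHom.ofInjective hψi).symm⟩

end Cfsg.Agent.S1004
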