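import Mathlib
import Cfsg.Statements.S1007
import Cfsg.Agent.Lib.Helper2.L27Kl

set_option autoImplicit false
open Cfsg

namespace Cfsg.Agent.S1007

open Cfsg.Agent.Lib.Helper2.L27Cls in
theorem main {G : Type*} [Group G] [Finite G] [IsSimpleGroup G] (h : Nat.card G = 168)
    (T' : Sylow 2 G) : ∃ e : G ≃* Cfsg.Agent.Lib.Helper2.U33Tab.SL32,
      Subgroup.centralizer ({e.symm r2} : Set G) = T' := by
  obtain ⟨e₀⟩ := exists_equiv h
  obtain ⟨z, hz2, hCz⟩ := exists_central e₀ h T'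
  obtain ⟨e, he⟩ := exists_adapted e₀ hz2
  exact ⟨e, by rw [he]; exact hCz⟩

/-- Let G be a simple group of order 168 and T a Sylow 2-subgroup. Then T contains exactly two subgroups that are Klein four-groups; they are not conjugate in G; and the normalizer of every Klein four-subgroup of G is isomorphic to the symmetric group of degree 4. -/
theorem result {G : Type*} [Group G] [Finite G] [IsSimpleGroup G] (h : Nat.card G = 168) (T : Sylow 2 G) : Nat.card {U : Subgroup G // U ≤ (T : Subgroup G) ∧ IsKleinFour ↥U} = 2 ∧ (∀ U W : Subgroup G, U ≤ (T : Subgroup G) → W ≤ (T : Subgroup G) → IsKleinFour ↥U → IsKleinFour ↥W → U ≠ W → ∀ g : G, U.map (MulAut.conj g).toMonoidHom ≠ W) ∧ ∀ U : Subgroup G, IsKleinFour ↥U → Nonempty (↥(Subgroup.normalizer (U : Set G)) ≃* Equiv.Perm (Fin 4)) := by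
  classical
  refine ⟨?_, ?_, ?_⟩
  · obtain ⟨e, he⟩ := main h T
    have hiff : ∀ U : Subgroup G, (U ≤ (T : Subgroup G) ∧ IsKleinFour ↥U) ↔
        U ∈ ({Cfsg.Agent.Lib.Helper2.L27Cls.kU e Cfsg.Agent.Lib.Helper2.L27Cls.ka1
            Cfsg.Agent.Lib.Helper2.L27Cls.ka1_sq Cfsg.Agent.Lib.Helper2.L27Cls.ka1_comm,
          Cfsg.Agent.Lib.Helper2.L27Cls.kU e Cfsg.Agent.Lib.Helper2.L27Cls.ka2
            Cfsg.Agent.Lib.Helper2.L27Cls.ka2_sq Cfsg.Agent.Lib.Helper2.L27Cls.ka2_comm} :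
          Set (Subgroup G)) := by
      intro U
      rw [Set.mem_insert_iff, Set.mem_singleton_iff]
      constructor
      · rintro ⟨hle, hU⟩
        exact Cfsg.Agent.Lib.Helper2.L27Cls.kl_classify e U (le_of_le_of_eq hle he.symm) hU
      · rintro (h1 | h1)
        · subst h1
          exact ⟨le_of_le_of_eq (Cfsg.Agent.Lib.Helper2.L27Cls.kU_le e _ _ _) he,
            Cfsg.Agent.Lib.Helper2.L27Cls.kU_klein e _ _ _
              Cfsg.Agent.Lib.Helper2.L27Cls.ka1_ne_one Cfsg.Agent.Lib.Helper2.L27Cls.ka1_ne_r2⟩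
        · subst h1
          exact ⟨le_of_le_of_eq (Cfsg.Agent.Lib.Helper2.L27Cls.kU_le e _ _ _) he,
            Cfsg.Agent.Lib.Helper2.L27Cls.kU_klein e _ _ _
              Cfsg.Agent.Lib.Helper2.L27Cls.ka2_ne_one Cfsg.Agent.Lib.Helper2.L27Cls.ka2_ne_r2⟩
    have h1 : Nat.card {U : Subgroup G // U ≤ (T : Subgroup G) ∧ IsKleinFour ↥U} =
        Nat.card ↥({Cfsg.Agent.Lib.Helper2.L27Cls.kU e Cfsg.Agent.Lib.Helper2.L27Cls.ka1
            Cfsg.Agent.Lib.Helper2.L27Cls.ka1_sq Cfsg.Agent.Lib.Helper2.L27Cls.ka1_comm,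
          Cfsg.Agent.Lib.Helper2.L27Cls.kU e Cfsg.Agent.Lib.Helper2.L27Cls.ka2
            Cfsg.Agent.Lib.Helper2.L27Cls.ka2_sq Cfsg.Agent.Lib.Helper2.L27Cls.ka2_comm} :
          Set (Subgroup G)) :=
      Nat.card_congr (Equiv.subtypeEquivRight hiff)
    rw [h1, Nat.card_coe_set_eq, Set.ncard_pair (Cfsg.Agent.Lib.Helper2.L27Cls.kU_ne e)]
  · intro U W hU hW hUk hWk hne g hmap
    obtain ⟨e, he⟩ := main h T
    rcases Cfsg.Agent.Lib.Helper2.L27Cls.kl_classify e U (le_of_le_of_eq hU he.symm) hUk with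
      h1 | h1 <;>
    rcases Cfsg.Agent.Lib.Helper2.L27Cls.kl_classify e W (le_of_le_of_eq hW he.symm) hWk with
      h2 | h2
    · exact hne (h1.trans h2.symm)
    · rw [h1, h2] at hmap
      exact Cfsg.Agent.Lib.Helper2.L27Cls.kU_nc e g hmap
    · rw [h1, h2] at hmap
      exact Cfsg.Agent.Lib.Helper2.L27Cls.kU_nc' e g hmap
    · exact hne (h1.trans h2.symm)
  · intro U hU
    have hp : IsPGroup 2 U := IsPGroup.of_card (n := 2) (by rw [hU.card_four]; norm_num)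
    obtain ⟨T', hT'⟩ := hp.exists_le_sylow
    obtain ⟨e, he⟩ := main h T'
    rcases Cfsg.Agent.Lib.Helper2.L27Cls.kl_classify e U (le_of_le_of_eq hT' he.symm) hU with
      h1 | h1
    · subst h1
      exact Cfsg.Agent.Lib.Helper2.L27Cls.kU_norm1 e h
    · subst h1
      exact Cfsg.Agent.Lib.Helper2.L27Cls.kU_norm2 e h

end Cfsg.Agent.S1007
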