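import Mathlib
import Cfsg.Statements.S1008
import Cfsg.Agent.Lib.Helper2.L27Max

set_option autoImplicit false
open Cfsg

namespace Cfsg.Agent.S1008

/-- In a simple group of order 168 every maximal subgroup is either isomorphic to the symmetric group of degree 4 or non-abelian of order 21; the maximal subgroups of order 21 form one conjugacy class and those isomorphic to the symmetric group of degree 4 form exactly two conjugacy classes. -/
theorem result {G : Type*} [Group G] [Finite G] [IsSimpleGroup G] (h : Nat.card G = 168) : (∀ M : Subgroup G, IsCoatom M → Nonempty (↥M ≃* Equiv.Perm (Fin 4)) ∨ (Nat.card ↥M = 21 ∧ ¬ IsMulCommutative ↥M)) ∧ (∀ M M' : Subgroup G, IsCoatom M → IsCoatom M' → Nat.card ↥M = 21 → Nat.card ↥M' = 21 → ∃ g : G, M' = M.map (MulAut.conj g).toMonoidHom) ∧ ∃ M₁ M₂ : Subgroup G, IsCoatom M₁ ∧ IsCoatom M₂ ∧ Nonempty (↥M₁ ≃* Equiv.Perm (Fin 4)) ∧ Nonempty (↥M₂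 ≃* Equiv.Perm (Fin 4)) ∧ (∀ g : G, M₂ ≠ M₁.map (MulAut.conj g).toMonoidHom) ∧ ∀ M : Subgroup G, IsCoatom M → Nonempty (↥M ≃* Equiv.Perm (Fin 4)) → ∃ g : G, M = M₁.map (MulAut.conj g).toMonoidHom ∨ M = M₂.map (MulAut.conj g).toMonoidHom := by
  classical
  obtain ⟨e⟩ := Cfsg.Agent.Lib.Helper2.L27Cls.exists_equiv h
  refine ⟨fun M hM => Cfsg.Agent.Lib.Helper2.L27Cls.coatom_cases e h M hM,
    fun M M' hM hM' hc hc' => Cfsg.Agent.Lib.Helper2.L27Cls.conj_21 e h M M' hM hM' hc hc',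
    ?_⟩
  refine ⟨Subgroup.normalizer ((Cfsg.Agent.Lib.Helper2.L27Cls.kU e
      Cfsg.Agent.Lib.Helper2.L27Cls.ka1 Cfsg.Agent.Lib.Helper2.L27Cls.ka1_sq
      Cfsg.Agent.Lib.Helper2.L27Cls.ka1_comm : Subgroup G) : Set G),
    Subgroup.normalizer ((Cfsg.Agent.Lib.Helper2.L27Cls.kU e
      Cfsg.Agent.Lib.Helper2.L27Cls.ka2 Cfsg.Agent.Lib.Helper2.L27Cls.ka2_sq
      Cfsg.Agent.Lib.Helper2.L27Cls.ka2_comm : Subgroup G) : Set G),
    Cfsg.Agent.Lib.Helper2.L27Cls.isCoatom_of_card h _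
      (Cfsg.Agent.Lib.Helper2.L27Cls.kU_range1 e h).1,
    Cfsg.Agent.Lib.Helper2.L27Cls.isCoatom_of_card h _
      (Cfsg.Agent.Lib.Helper2.L27Cls.kU_range2 e h).1,
    Cfsg.Agent.Lib.Helper2.L27Cls.kU_norm1 e h,
    Cfsg.Agent.Lib.Helper2.L27Cls.kU_norm2 e h,
    fun g => Cfsg.Agent.Lib.Helper2.L27Cls.max_not_conj e h g, ?_⟩
  rintro M hM ⟨φ⟩
  exact Cfsg.Agent.Lib.Helper2.L27Cls.s4_conj e h M hM φ

end Cfsg.Agent.S1008
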