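import Mathlib
import Cfsg.Statements.S1009

set_option autoImplicit false
open Cfsg

namespace Cfsg.Agent.S1009

theorem mem_smul_sylow {G : Type*} [Group G] {p : ℕ} (g x : G) (P : Sylow p G) :
    x ∈ ((g • P : Sylow p G) : Subgroup G) ↔ g⁻¹ * x * g ∈ (P : Subgroup G) := by
  rw [Sylow.coe_subgroup_smul, Subgroup.mem_pointwise_smul_iff_inv_smul_mem]
  simp [MulAut.smul_def]

theorem le_normalizer_of_comm {G : Type*} [Group G] (A D : Subgroup G)
    (hA : ∀ a ∈ A, ∀ b ∈ A, a * b = b * a) (hD : D ≤ A) :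
    A ≤ Subgroup.normalizer (D : Set G) := by
  intro s hs
  rw [Subgroup.mem_normalizer_iff]
  intro d
  constructor
  · intro hd
    have : s * d * s⁻¹ = d := by rw [hA s hs d (hD hd)]; group
    rw [this]; exact hd
  · intro hd
    have h1 := hA s⁻¹ (A.inv_mem hs) _ (hD hd)
    have : d = s * d * s⁻¹ := by
      calc d = s⁻¹ * (s * d * s⁻¹) * s := by group
        _ = s * d * s⁻¹ * s⁻¹ * s := by rw [h1]
        _ = s * d * s⁻¹ := by group
    rw [this]; exact hd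

theorem result {G : Type*} [Group G] [Finite G] (p : ℕ) [Fact p.Prime] (hab : ∀ P : Sylow p G, IsMulCommutative ↥(P : Subgroup G)) : ∃ P Q : Sylow p G, (P : Subgroup G) ⊓ (Q : Subgroup G) = ⨅ R : Sylow p G, (R : Subgroup G) := by
  have hcomm : ∀ P : Sylow p G, ∀ a ∈ (P : Subgroup G), ∀ b ∈ (P : Subgroup G), a * b = b * a := by
    intro P a ha b hb
    have := (hab P).is_comm.comm ⟨a, ha⟩ ⟨b, hb⟩
    exact congrArg Subtype.val this
  obtain ⟨⟨S, T⟩, hmin⟩ := Finite.exists_min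
    (fun q : Sylow p G × Sylow p G => Nat.card ↥((q.1 : Subgroup G) ⊓ (q.2 : Subgroup G)))
  refine ⟨S, T, le_antisymm ?_ (le_inf (iInf_le _ S) (iInf_le _ T))⟩
  rw [le_iInf_iff]
  intro P
  set D : Subgroup G := (S : Subgroup G) ⊓ (T : Subgroup G) with hD
  set N : Subgroup G := Subgroup.normalizer (D : Set G) with hN
  have hSN : (S : Subgroup G) ≤ N := le_normalizer_of_comm _ _ (hcomm S) inf_le_left
  have hTN : (T : Subgroup G) ≤ N := le_normalizer_of_comm _ _ (hcomm T) inf_le_right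
  set SN : Sylow p ↥N := S.subtype hSN with hSNdef
  have hcoe : (SN : Subgroup ↥N) = (S : Subgroup G).subgroupOf N := Sylow.coe_subtype S hSN
  have hPp : IsPGroup p ((P : Subgroup G).subgroupOf N) := IsPGroup.comap_subtype P.2
  obtain ⟨R, hR⟩ := IsPGroup.exists_le_sylow hPp
  obtain ⟨x, hx⟩ := MulAction.exists_smul_eq ↥N SN R
  have hkey : ∀ y : ↥N, (y : G) ∈ (P : Subgroup G) → ((x⁻¹ * y * x : ↥N) : G) ∈ (S : Subgroup G) := by
    intro y hy
    have h1 : y ∈ (R : Subgroup ↥N) := hR (Subgroup.mem_subgroupOf.mpr hy)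
    rw [← hx, mem_smul_sylow, hcoe, Subgroup.mem_subgroupOf] at h1
    exact h1
  set P' : Sylow p G := (x : G)⁻¹ • P with hP'
  have hle : (P' : Subgroup G) ⊓ (T : Subgroup G) ≤ D := by
    intro y hy
    rw [Subgroup.mem_inf] at hy
    obtain ⟨hy1, hy2⟩ := hy
    rw [hP', mem_smul_sylow, inv_inv] at hy1
    have h2 := hkey (x * ⟨y, hTN hy2⟩ * x⁻¹) hy1
    have h3 : ((x⁻¹ * (x * ⟨y, hTN hy2⟩ * x⁻¹) * x : ↥N) : G) = y := by
      have : (x⁻¹ * (x * ⟨y, hTN hy2⟩ * x⁻¹) * x : ↥N) = ⟨y, hTN hy2⟩ := by group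
      rw [this]
    rw [h3] at h2
    exact Subgroup.mem_inf.mpr ⟨h2, hy2⟩
  have heq : (P' : Subgroup G) ⊓ (T : Subgroup G) = D :=
    Subgroup.eq_of_le_of_card_ge hle (hmin (P', T))
  intro d hd
  have hxN : (x : G)⁻¹ ∈ N := N.inv_mem x.2
  have hd' : (x : G)⁻¹ * d * (x : G) ∈ D := by
    have := (Subgroup.mem_normalizer_iff.mp hxN d).mp hd
    rwa [inv_inv] at this
  rw [← heq] at hd'
  have h4 := (Subgroup.mem_inf.mp hd').1
  rw [hP', mem_smul_sylow, inv_inv] at h4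
  have : (x : G) * ((x : G)⁻¹ * d * (x : G)) * (x : G)⁻¹ = d := by group
  rwa [this] at h4

end Cfsg.Agent.S1009
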