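import Cfsg.Statements.S4304
import Mathlib
import Cfsg.Agent.Lib.Helper23.SylowSmall
import Cfsg.Agent.Lib.Helper23.SylowCount

set_option autoImplicit false
open Cfsg

namespace Cfsg.Agent.S4304

open Cfsg.Agent.Lib.Helper23.SylowSmall Cfsg.Agent.Lib.Helper23.SylowCount MulAction

instance fact7 : Fact (Nat.Prime 7) := ⟨by norm_num⟩

theorem dvd_six (d : ℕ) (h : d ∣ 6) : d = 1 ∨ d = 2 ∨ d = 3 ∨ d = 6 := by
  have h1 : d ≤ 6 := Nat.le_of_dvd (by norm_num) h
  interval_cases d <;> simp_all

variable {G : Type*} [Group G] [Finite G]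

theorem orbit_ncard (hint : ∀ P Q : Sylow 7 G, P ≠ Q → (P : Subgroup G) ⊓ Q = ⊥)
    (hcard : ∀ P : Sylow 7 G, Nat.card (P : Subgroup G) = 7) (P R : Sylow 7 G) (hPR : P ≠ R) :
    (orbit (P : Subgroup G) R).ncard = 7 := by
  rw [← index_stabilizer, stabilizer_eq, hint P R hPR]
  have : (⊥ : Subgroup G).subgroupOf (P : Subgroup G) = ⊥ := by
    rw [Subgroup.subgroupOf_eq_bot]
    exact disjoint_bot_left
  rw [this, Subgroup.index_bot, hcard P]

theorem not_mem_orbit (P R : Sylow 7 G) (hPR : P ≠ R) : P ∉ orbit (P : Subgroup G) R := by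
  rintro ⟨u, hu⟩
  exact smul_ne_of_ne P R hPR (u : G) (Subgroup.le_normalizer u.2) hu

theorem cover (h15 : Nat.card (Sylow 7 G) = 15)
    (hint : ∀ P Q : Sylow 7 G, P ≠ Q → (P : Subgroup G) ⊓ Q = ⊥)
    (hcard : ∀ P : Sylow 7 G, Nat.card (P : Subgroup G) = 7) (P R R' : Sylow 7 G) (hPR : P ≠ R)
    (hPR' : P ≠ R') (hR' : R' ∉ orbit (P : Subgroup G) R) (X : Sylow 7 G) :
    X = P ∨ X ∈ orbit (P : Subgroup G) R ∨ X ∈ orbit (P : Subgroup G) R' := by
  have hdisj : Disjoint (orbit (P : Subgroup G) R) (orbit (P : Subgroup G) R') := by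
    rw [Set.disjoint_left]
    intro Y hY hY'
    apply hR'
    rw [← orbit_eq_iff] at hY hY'
    rw [← hY, hY']
    exact mem_orbit_self R'
  have h1 : (orbit (P : Subgroup G) R ∪ orbit (P : Subgroup G) R').ncard = 14 := by
    rw [Set.ncard_union_eq hdisj (Set.toFinite _) (Set.toFinite _), orbit_ncard hint hcard P R hPR,
      orbit_ncard hint hcard P R' hPR']
  have h2 : P ∉ orbit (P : Subgroup G) R ∪ orbit (P : Subgroup G) R' := by
    rintro (h | h)
    · exact not_mem_orbit P R hPR h
    · exact not_mem_orbit P R' hPR' h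
  have h3 : (insert P (orbit (P : Subgroup G) R ∪ orbit (P : Subgroup G) R')).ncard = 15 := by
    rw [Set.ncard_insert_of_notMem h2 (Set.toFinite _), h1]
  have h4 : insert P (orbit (P : Subgroup G) R ∪ orbit (P : Subgroup G) R') = Set.univ := by
    apply Set.eq_of_subset_of_ncard_le (Set.subset_univ _) _ (Set.toFinite _)
    rw [Set.ncard_univ, h3, h15]
  have h5 : X ∈ insert P (orbit (P : Subgroup G) R ∪ orbit (P : Subgroup G) R') := by
    rw [h4]; trivial
  rcases h5 with h | h | h
  · exact Or.inl h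
  · exact Or.inr (Or.inl h)
  · exact Or.inr (Or.inr h)

theorem fixes_eq_one (h15 : Nat.card (Sylow 7 G) = 15)
    (hfaith : ∀ g : G, (∀ Q : Sylow 7 G, g • Q = Q) → g = 1)
    (hint : ∀ P Q : Sylow 7 G, P ≠ Q → (P : Subgroup G) ⊓ Q = ⊥)
    (hcard : ∀ P : Sylow 7 G, Nat.card (P : Subgroup G) = 7) (P R : Sylow 7 G) (hPR : P ≠ R)
    (g : G) (hg : g ∈ Subgroup.centralizer ((P : Subgroup G) : Set G)) (hgR : g • R = R) : g = 1 := by
  have hcomm : ∀ u : G, u ∈ (P : Subgroup G) → ∀ n : ℕ, u * g ^ n = g ^ n * u := by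
    intro u hu n
    have := Subgroup.pow_mem _ hg n
    exact Subgroup.mem_centralizer_iff.1 this u hu
  have hgP : g • P = P := by
    rw [Sylow.smul_eq_iff_mem_normalizer]
    exact Subgroup.centralizer_le_normalizer _ hg
  have claim1 : ∀ u : (P : Subgroup G), g • (u • R) = u • R := by
    intro u
    show g • ((u : G) • R) = (u : G) • R
    rw [← mul_smul, ← pow_one g, ← hcomm u u.2 1, pow_one, mul_smul, hgR]
  have claim2 : ∀ X : Sylow 7 G, g ^ 7 • X = X := by
    intro X
    by_cases hXP : X = P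
    · rw [hXP]
      exact Subgroup.pow_mem (stabilizer G P) hgP 7
    by_cases hXR : X ∈ orbit (P : Subgroup G) R
    · obtain ⟨u, rfl⟩ := hXR
      exact Subgroup.pow_mem (stabilizer G (u • R)) (claim1 u) 7
    have hXR' : X ∉ orbit (P : Subgroup G) R := hXR
    rcases cover h15 hint hcard P R X hPR (Ne.symm hXP) hXR' (g • X) with h | h | h
    · exfalso
      apply hXP
      have h1 : g⁻¹ • (g • X) = g⁻¹ • P := congrArg (fun Y => g⁻¹ • Y) h
      rw [inv_smul_smul] at h1
      rw [h1, inv_smul_eq_iff, hgP]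
    · exfalso
      apply hXR
      obtain ⟨u, hu⟩ := h
      have hu' : u • R = g • X := hu
      have h1 : g⁻¹ • (g • X) = g⁻¹ • (u • R) := congrArg (fun Y => g⁻¹ • Y) hu'.symm
      rw [inv_smul_smul] at h1
      have h2 : g⁻¹ • (u • R) = u • R := inv_smul_eq_iff.2 (claim1 u).symm
      rw [h1, h2]
      exact ⟨u, rfl⟩
    · obtain ⟨u, hu⟩ := h
      have hu' : (u : G) • X = g • X := hu
      have hpow : ∀ n : ℕ, g ^ n • X = (u : G) ^ n • X := by
        intro n
        induction n with
        | zero => simp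
        | succ n ih =>
          rw [pow_succ, mul_smul, ← hu', ← mul_smul, ← hcomm u u.2 n, mul_smul, ih, ← mul_smul,
            ← pow_succ']
      rw [hpow 7]
      have h7 : (u : G) ^ 7 = 1 := by
        have h8 : u ^ Nat.card (P : Subgroup G) = 1 := pow_card_eq_one'
        rw [hcard P] at h8
        have := congrArg Subtype.val h8
        simpa using this
      rw [h7, one_smul]
  have h7 : g ^ 7 = 1 := hfaith _ claim2
  have hz : IsPGroup 7 (Subgroup.zpowers g) := by
    rintro ⟨y, hy⟩
    obtain ⟨k, rfl⟩ := Subgroup.mem_zpowers_iff.1 hy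
    refine ⟨1, ?_⟩
    apply Subtype.ext
    show (g ^ k) ^ 7 ^ 1 = 1
    rw [pow_one, ← zpow_natCast, ← zpow_mul, mul_comm, zpow_mul, zpow_natCast, h7, one_zpow]
  have hzN : Subgroup.zpowers g ≤ Subgroup.normalizer ((P : Subgroup G) : Set G) := by
    rw [Subgroup.zpowers_le]
    exact Subgroup.centralizer_le_normalizer _ hg
  have hgP' : g ∈ (P : Subgroup G) := by
    have h8 : Subgroup.zpowers g ⊓ Subgroup.normalizer ((P : Subgroup G) : Set G) =
        Subgroup.zpowers g ⊓ (P : Subgroup G) := hz.inf_normalizer_sylow P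
    rw [inf_eq_left.2 hzN] at h8
    have h9 : Subgroup.zpowers g ≤ (P : Subgroup G) := inf_eq_left.1 h8.symm
    exact h9 (Subgroup.mem_zpowers g)
  have hgR' : g ∈ Subgroup.normalizer ((R : Subgroup G) : Set G) :=
    Sylow.smul_eq_iff_mem_normalizer.1 hgR
  have h10 : g ∈ (P : Subgroup G) ⊓ Subgroup.normalizer ((R : Subgroup G) : Set G) := ⟨hgP', hgR'⟩
  have h11 : (P : Subgroup G) ⊓ Subgroup.normalizer ((R : Subgroup G) : Set G) = (P : Subgroup G) ⊓ R :=
    P.isPGroup'.inf_normalizer_sylow R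
  rw [h11, hint P R hPR] at h10
  exact Subgroup.mem_bot.1 h10

theorem card_centralizer (h15 : Nat.card (Sylow 7 G) = 15)
    (hfaith : ∀ g : G, (∀ Q : Sylow 7 G, g • Q = Q) → g = 1)
    (hint : ∀ P Q : Sylow 7 G, P ≠ Q → (P : Subgroup G) ⊓ Q = ⊥)
    (hcard : ∀ P : Sylow 7 G, Nat.card (P : Subgroup G) = 7) (P : Sylow 7 G) :
    Nat.card (Subgroup.centralizer ((P : Subgroup G) : Set G)) = 7 ∨
      Nat.card (Subgroup.centralizer ((P : Subgroup G) : Set G)) = 14 := by
  set C := Subgroup.centralizer ((P : Subgroup G) : Set G) with hC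
  have hnt : Nontrivial (Sylow 7 G) := by
    rw [← Finite.one_lt_card_iff_nontrivial, h15]; norm_num
  obtain ⟨R, hR⟩ := exists_ne P
  have hPR : P ≠ R := Ne.symm hR
  have hstab : stabilizer C R = ⊥ := by
    rw [eq_bot_iff]
    intro c hc
    rw [mem_stabilizer_iff] at hc
    have : (c : G) = 1 := fixes_eq_one h15 hfaith hint hcard P R hPR c c.2 hc
    exact Subgroup.mem_bot.2 (Subtype.ext this)
  have h1 : (orbit C R).ncard = Nat.card C := by
    rw [← index_stabilizer, hstab, Subgroup.index_bot]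
  have h2 : orbit C R ⊆ {X : Sylow 7 G | X ≠ P} := by
    rintro X ⟨c, rfl⟩
    exact smul_ne_of_ne P R hPR (c : G) (Subgroup.centralizer_le_normalizer _ c.2)
  have h3 : ({X : Sylow 7 G | X ≠ P}).ncard < 15 := by
    have : ({X : Sylow 7 G | X ≠ P}).ncard < (Set.univ : Set (Sylow 7 G)).ncard := by
      apply Set.ncard_lt_ncard _ (Set.toFinite _)
      constructor
      · exact Set.subset_univ _
      · intro h
        exact (h (Set.mem_univ P)) rfl
    rwa [Set.ncard_univ, h15] at this
  have h4 : Nat.card C ≤ 14 := by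
    have := Set.ncard_le_ncard h2 (Set.toFinite _)
    omega
  have hcyc : IsCyclic (P : Subgroup G) := isCyclic_of_prime_card (p := 7) (hcard P)
  have hPC : (P : Subgroup G) ≤ C := by
    intro x hx
    rw [hC, Subgroup.mem_centralizer_iff]
    intro y hy
    have h5 : (⟨y, hy⟩ : (P : Subgroup G)) * ⟨x, hx⟩ = ⟨x, hx⟩ * ⟨y, hy⟩ :=
      (IsCyclic.commGroup (α := (P : Subgroup G))).mul_comm _ _
    exact congrArg Subtype.val h5
  have h5 : 7 ∣ Nat.card C := by
    rw [← hcard P]
    exact Subgroup.card_dvd_of_le hPC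
  have h6 : 0 < Nat.card C := Nat.card_pos
  obtain ⟨k, hk⟩ := h5
  have : k = 1 ∨ k = 2 := by omega
  rcases this with rfl | rfl
  · left; omega
  · right; omega

theorem sign_of_involution {α : Type*} [Fintype α] [DecidableEq α] (σ : Equiv.Perm α)
    (hσ : σ ^ 2 = 1) (hne : σ ≠ 1) (k : ℕ) (hk : Odd k) (hsupp : σ.support.card = 2 * k) :
    Equiv.Perm.sign σ = -1 := by
  have : Fact (Nat.Prime 2) := ⟨Nat.prime_two⟩
  have ho : orderOf σ = 2 := orderOf_eq_prime hσ hne
  obtain ⟨n, hn⟩ := Equiv.Perm.cycleType_prime_order (σ := σ) (by rw [ho]; exact Nat.prime_two)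
  rw [ho] at hn
  have h1 := Equiv.Perm.sum_cycleType σ
  rw [hn, Multiset.sum_replicate, hsupp, smul_eq_mul] at h1
  have h2 : n + 1 = k := by omega
  rw [Equiv.Perm.sign_of_cycleType, hn, Multiset.sum_replicate, Multiset.card_replicate, h2,
    smul_eq_mul]
  have h3 : Odd (k * 2 + k) := by
    obtain ⟨j, rfl⟩ := hk
    exact ⟨3 * j + 1, by ring⟩
  exact h3.neg_one_pow

theorem sylow_card_prime (q : ℕ) [Fact q.Prime] (F : Sylow q G) (h1 : q ∣ Nat.card G)
    (h2 : ¬ q ^ 2 ∣ Nat.card G) : Nat.card (F : Subgroup G) = q := by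
  have hq : q.Prime := Fact.out
  obtain ⟨k, hk⟩ := F.isPGroup'.exists_card_eq
  have h3 : q ∣ Nat.card (F : Subgroup G) := F.dvd_card_of_dvd_card h1
  have hk0 : k ≠ 0 := by
    rintro rfl
    rw [hk, pow_zero] at h3
    exact hq.one_lt.ne' (Nat.dvd_one.1 h3)
  have hk2 : k < 2 := by
    by_contra hcon
    apply h2
    have h4 : q ^ 2 ∣ q ^ k := Nat.pow_dvd_pow q (by omega)
    rw [← hk] at h4
    exact h4.trans (Subgroup.card_subgroup_dvd_card _)
  have : k = 1 := by omega
  rw [hk, this, pow_one]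

theorem aux.{u} : ∀ (n : ℕ) (G : Type u) [Group G] [Finite G], Nat.card G = n →
    Nat.card (Sylow 7 G) ≠ 15 := by
  intro n
  induction n using Nat.strong_induction_on with
  | _ n ih =>
  intro G _ _ hn h15
  have hsub : ∀ M : Subgroup G, (∀ Q : Sylow 7 G, (Q : Subgroup G) ≤ M) → M = ⊤ := by
    intro M hM
    by_contra hne
    have hlt : Nat.card M < n := by
      rw [← hn]
      have h1 := Subgroup.card_mul_index M
      have h2 : M.index ≠ 1 := fun h => hne (Subgroup.index_eq_one.1 h)
      have h3 : M.index ≠ 0 := Subgroup.index_ne_zero_of_finite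
      have h4 : 0 < Nat.card M := Nat.card_pos
      have h5 : 2 ≤ M.index := by omega
      nlinarith
    exact ih _ hlt M rfl ((card_sylow_subgroup_eq M hM).trans h15)
  have hnorm : ∀ M : Subgroup G, M.Normal → ¬ 7 ∣ M.index → M = ⊤ := by
    intro M hM h7
    exact hsub M (fun Q => sylow_le_of_not_dvd_index M h7 Q)
  set K := (MulAction.toPermHom G (Sylow 7 G)).ker with hKdef
  have hKmem : ∀ g : G, g ∈ K ↔ ∀ Q : Sylow 7 G, g • Q = Q := by
    intro g
    rw [hKdef, MonoidHom.mem_ker]
    constructor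
    · intro h Q
      have := congrArg (fun σ : Equiv.Perm (Sylow 7 G) => σ Q) h
      simpa using this
    · intro h
      apply Equiv.ext
      intro Q
      simpa using h Q
  have hK : K = ⊥ := by
    by_contra hne
    have hKnorm : ∀ Q : Sylow 7 G, K ≤ Subgroup.normalizer ((Q : Subgroup G) : Set G) :=
      fun Q g hg => Sylow.smul_eq_iff_mem_normalizer.1 ((hKmem g).1 hg Q)
    have hlt : Nat.card (G ⧸ K) < n := by
      rw [← hn, ← Subgroup.index_eq_card]
      have h1 := Subgroup.card_mul_index K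
      have h2 : 1 < Nat.card K := (Subgroup.one_lt_card_iff_ne_bot K).2 hne
      have h3 : 0 < K.index := Nat.pos_of_ne_zero Subgroup.index_ne_zero_of_finite
      nlinarith
    exact ih _ hlt (G ⧸ K) rfl ((card_sylow_quotient_eq K hKnorm).trans h15)
  have hfaith : ∀ g : G, (∀ Q : Sylow 7 G, g • Q = Q) → g = 1 := by
    intro g hg
    have : g ∈ K := (hKmem g).2 hg
    rw [hK] at this
    exact Subgroup.mem_bot.1 this
  have hlt49 : Nat.card (Sylow 7 G) < 7 ^ 2 := by rw [h15]; norm_num
  have hint : ∀ P Q : Sylow 7 G, P ≠ Q → (P : Subgroup G) ⊓ Q = ⊥ := by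
    intro P Q hPQ
    rw [eq_bot_iff]
    intro x hx
    rw [Subgroup.mem_bot]
    apply hfaith
    intro X
    rw [Sylow.smul_eq_iff_mem_normalizer]
    exact Subgroup.le_normalizer (inf_le_sylow hlt49 P Q hPQ X hx)
  have hnt : Nontrivial (Sylow 7 G) := by
    rw [← Finite.one_lt_card_iff_nontrivial, h15]; norm_num
  have hcard : ∀ P : Sylow 7 G, Nat.card (P : Subgroup G) = 7 := by
    intro P
    obtain ⟨Q, hQ⟩ := exists_ne P
    rw [card_eq_mul_card_inf hlt49 P Q (Ne.symm hQ), hint P Q (Ne.symm hQ), Subgroup.card_bot]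
  obtain ⟨P⟩ : Nonempty (Sylow 7 G) := inferInstance
  set C := Subgroup.centralizer ((P : Subgroup G) : Set G) with hC
  set N := Subgroup.normalizer ((P : Subgroup G) : Set G) with hN
  have hNidx : N.index = 15 := by rw [← h15, Sylow.card_eq_index_normalizer P]; rfl
  have hcyc : IsCyclic (P : Subgroup G) := isCyclic_of_prime_card (p := 7) (hcard P)
  have hd : C.relIndex N ∣ 6 := by
    have h1 := relIndex_centralizer_normalizer_dvd (P : Subgroup G) hcyc
    rw [hcard P] at h1
    have h6 : Nat.totient 7 = 6 := Nat.totient_prime (by norm_num)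
    rwa [h6] at h1
  have hCN : C ≤ N := Subgroup.centralizer_le_normalizer _
  have hCNcard : Nat.card C * C.relIndex N = Nat.card N := by
    have := Subgroup.relIndex_mul_relIndex ⊥ C N bot_le hCN
    rwa [Subgroup.relIndex_bot_left, Subgroup.relIndex_bot_left] at this
  have hNG : Nat.card N * 15 = Nat.card G := by rw [← hNidx]; exact Subgroup.card_mul_index N
  rcases card_centralizer h15 hfaith hint hcard P with hC7 | hC14
  · have hG : Nat.card G = 105 * C.relIndex N := by
      rw [← hNG, ← hCNcard, hC7]; ring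
    have burn : ∀ (q : ℕ) [Fact q.Prime] (F : Sylow q G), Nat.card (F : Subgroup G) = q → q ≠ 7 →
        (q - 1).Coprime (Nat.card G) → False := by
      intro q _ F hF hq7 hcop
      have hq : q.Prime := Fact.out
      have hFcyc : IsCyclic (F : Subgroup G) := isCyclic_of_prime_card (p := q) hF
      have h1 := relIndex_centralizer_normalizer_dvd (F : Subgroup G) hFcyc
      rw [hF, Nat.totient_prime hq] at h1
      have h2 : (Subgroup.centralizer ((F : Subgroup G) : Set G)).relIndex
          (Subgroup.normalizer ((F : Subgroup G) : Set G)) ∣ Nat.card G :=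
        (Subgroup.relIndex_dvd_card _ _).trans (Subgroup.card_subgroup_dvd_card _)
      have h3 := Nat.eq_one_of_dvd_coprimes hcop h1 h2
      have h4 : Subgroup.normalizer ((F : Subgroup G) : Set G) ≤
          Subgroup.centralizer ((F : Subgroup G) : Set G) := Subgroup.relIndex_eq_one.1 h3
      obtain ⟨M, hMn, hMi⟩ := exists_normal_of_normalizer_le F h4
      have h5 : ¬ 7 ∣ M.index := by
        rw [hMi, hF]
        intro h
        exact hq7 ((Nat.prime_dvd_prime_iff_eq (by norm_num) hq).1 h).symm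
      have h6 := hnorm M hMn h5
      rw [h6, Subgroup.index_top, hF] at hMi
      exact hq.one_lt.ne hMi
    have hd4 : C.relIndex N = 1 ∨ C.relIndex N = 2 ∨ C.relIndex N = 3 ∨ C.relIndex N = 6 :=
      dvd_six _ hd
    have f5 : Fact (Nat.Prime 5) := ⟨by norm_num⟩
    have f2 : Fact (Nat.Prime 2) := ⟨by norm_num⟩
    rcases hd4 with h | h | h | h
    · obtain ⟨F⟩ : Nonempty (Sylow 5 G) := inferInstance
      rw [h] at hG
      exact burn 5 F (sylow_card_prime 5 F (by rw [hG]; decide) (by rw [hG]; decide)) (by norm_num)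
        (by rw [hG]; decide)
    · obtain ⟨F⟩ : Nonempty (Sylow 2 G) := inferInstance
      rw [h] at hG
      exact burn 2 F (sylow_card_prime 2 F (by rw [hG]; decide) (by rw [hG]; decide)) (by norm_num)
        (by rw [hG]; decide)
    · obtain ⟨F⟩ : Nonempty (Sylow 5 G) := inferInstance
      rw [h] at hG
      exact burn 5 F (sylow_card_prime 5 F (by rw [hG]; decide) (by rw [hG]; decide)) (by norm_num)
        (by rw [hG]; decide)
    · obtain ⟨F⟩ : Nonempty (Sylow 2 G) := inferInstance
      rw [h] at hG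
      exact burn 2 F (sylow_card_prime 2 F (by rw [hG]; decide) (by rw [hG]; decide)) (by norm_num)
        (by rw [hG]; decide)
  · have h2 : 2 ∣ Nat.card C := by rw [hC14]; norm_num
    obtain ⟨z, hz⟩ := exists_prime_orderOf_dvd_card' 2 h2
    classical
    have : Fintype (Sylow 7 G) := Fintype.ofFinite _
    have hz1 : (z : G) ≠ 1 := by
      intro h
      have : z = 1 := Subtype.ext h
      rw [this, orderOf_one] at hz
      exact absurd hz (by norm_num)
    have hz2 : (z : G) ^ 2 = 1 := by
      have h3 : z ^ 2 = 1 := by rw [← hz]; exact pow_orderOf_eq_one z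
      have := congrArg Subtype.val h3
      simpa using this
    set σ := MulAction.toPermHom G (Sylow 7 G) (z : G) with hσ
    have hσ2 : σ ^ 2 = 1 := by rw [hσ, ← map_pow, hz2, map_one]
    have hfix : ∀ X : Sylow 7 G, σ X = X ↔ X = P := by
      intro X
      constructor
      · intro h
        by_contra hne
        exact hz1 (fixes_eq_one h15 hfaith hint hcard P X (Ne.symm hne) z z.2 h)
      · rintro rfl
        exact Sylow.smul_eq_iff_mem_normalizer.2 (hCN z.2)
    have hsupp : σ.support = Finset.univ.erase P := by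
      ext X
      simp [Equiv.Perm.mem_support, hfix]
    have hsuppcard : σ.support.card = 2 * 7 := by
      rw [hsupp, Finset.card_erase_of_mem (Finset.mem_univ _), Finset.card_univ,
        ← Nat.card_eq_fintype_card, h15]
    have hσne : σ ≠ 1 := by
      intro h
      rw [h] at hsuppcard
      simp at hsuppcard
    have hsign := sign_of_involution σ hσ2 hσne 7 (by decide) hsuppcard
    set φ : G →* ℤˣ := Equiv.Perm.sign.comp (MulAction.toPermHom G (Sylow 7 G)) with hφ
    have hidx : φ.ker.index ∣ 2 := by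
      rw [Subgroup.index_ker]
      have h3 : Nat.card φ.range ∣ Nat.card ℤˣ := Subgroup.card_subgroup_dvd_card _
      rwa [Nat.card_eq_fintype_card (α := ℤˣ), Fintype.card_units_int] at h3
    have h7 : ¬ 7 ∣ φ.ker.index := by
      intro h
      have := Nat.le_of_dvd (by norm_num) (h.trans hidx)
      omega
    have htop := hnorm φ.ker inferInstance h7
    have hzk : (z : G) ∈ φ.ker := by rw [htop]; trivial
    rw [MonoidHom.mem_ker] at hzk
    have hzk' : Equiv.Perm.sign σ = 1 := hzk
    rw [hsign] at hzk'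
    exact absurd hzk' (by decide)

theorem result {G : Type*} [Group G] [Finite G] : Nat.card (Sylow 7 G) ≠ 15 :=
  aux _ G rfl

end Cfsg.Agent.S4304
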