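import Cfsg.Statements.S1010
import Mathlib
import Cfsg.Agent.Lib.Helper23.SylowSmall
import Cfsg.Agent.Lib.Helper23.SylowCount
import Cfsg.Agent.S4304
import Cfsg.Agent.S0034

set_option autoImplicit false
open Cfsg

namespace Cfsg.Agent.S1010

open Cfsg.Agent.Lib.Helper23.SylowSmall Cfsg.Agent.Lib.Helper23.SylowCount MulAction

instance fact5 : Fact (Nat.Prime 5) := ⟨by norm_num⟩
instance fact7' : Fact (Nat.Prime 7) := ⟨by norm_num⟩

section ctx

variable {G : Type*} [Group G] [Finite G]

/-- the situation of a minimal counterexample -/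
structure Ctx (G : Type*) [Group G] [Finite G] : Prop where
  h21 : Nat.card (Sylow 5 G) = 21
  hfaith : ∀ g : G, (∀ Q : Sylow 5 G, g • Q = Q) → g = 1
  hint : ∀ P Q : Sylow 5 G, P ≠ Q → (P : Subgroup G) ⊓ Q = ⊥
  hcard : ∀ P : Sylow 5 G, Nat.card (P : Subgroup G) = 5
  hinv : ∀ g : G, g * g = 1 → Nat.card (MulAction.fixedBy (Sylow 5 G) g) % 4 = 1

theorem p_fix (h : Ctx G) {P R : Sylow 5 G} (hPR : P ≠ R) {u : G}
    (hu : u ∈ (P : Subgroup G)) (huR : u • R = R) : u = 1 := by
  have h1 : u ∈ (P : Subgroup G) ⊓ Subgroup.normalizer ((R : Subgroup G) : Set G) :=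
    ⟨hu, Sylow.smul_eq_iff_mem_normalizer.1 huR⟩
  have h11 : (P : Subgroup G) ⊓ Subgroup.normalizer ((R : Subgroup G) : Set G) =
      (P : Subgroup G) ⊓ R := P.isPGroup'.inf_normalizer_sylow R
  rw [h11, h.hint P R hPR] at h1
  exact Subgroup.mem_bot.1 h1

omit [Finite G] in
theorem five_mem (P : Sylow 5 G) {g : G}
    (hg : g ∈ Subgroup.normalizer ((P : Subgroup G) : Set G)) (h5 : g ^ 5 = 1) :
    g ∈ (P : Subgroup G) := by
  have hz : IsPGroup 5 (Subgroup.zpowers g) := by
    rintro ⟨y, hy⟩
    obtain ⟨k, rfl⟩ := Subgroup.mem_zpowers_iff.1 hy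
    refine ⟨1, ?_⟩
    apply Subtype.ext
    show (g ^ k) ^ 5 ^ 1 = 1
    rw [pow_one, ← zpow_natCast, ← zpow_mul, mul_comm, zpow_mul, zpow_natCast, h5, one_zpow]
  have hzN : Subgroup.zpowers g ≤ Subgroup.normalizer ((P : Subgroup G) : Set G) := by
    rw [Subgroup.zpowers_le]; exact hg
  have h8 : Subgroup.zpowers g ⊓ Subgroup.normalizer ((P : Subgroup G) : Set G) =
      Subgroup.zpowers g ⊓ (P : Subgroup G) := hz.inf_normalizer_sylow P
  rw [inf_eq_left.2 hzN] at h8
  have h9 : Subgroup.zpowers g ≤ (P : Subgroup G) := inf_eq_left.1 h8.symm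
  exact h9 (Subgroup.mem_zpowers g)

theorem smul_self_of_mem (P : Sylow 5 G) {u : G} (hu : u ∈ (P : Subgroup G)) : u • P = P :=
  Sylow.smul_eq_iff_mem_normalizer.2 (Subgroup.le_normalizer hu)

theorem smul_self_of_cent (P : Sylow 5 G) {g : G}
    (hg : g ∈ Subgroup.centralizer ((P : Subgroup G) : Set G)) : g • P = P :=
  Sylow.smul_eq_iff_mem_normalizer.2 (Subgroup.centralizer_le_normalizer _ hg)

/-- the fixed points of an element centralizing `P`, as a `P`-set -/
def fixSub (P : Sylow 5 G) (g : G)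
    (hg : g ∈ Subgroup.centralizer ((P : Subgroup G) : Set G)) :
    SubMulAction (P : Subgroup G) (Sylow 5 G) where
  carrier := MulAction.fixedBy (Sylow 5 G) g
  smul_mem' := by
    intro u X hX
    rw [MulAction.mem_fixedBy] at hX ⊢
    have hc : (u : G) * g = g * (u : G) := Subgroup.mem_centralizer_iff.1 hg u u.2
    show g • ((u : G) • X) = (u : G) • X
    rw [← mul_smul, ← hc, mul_smul, hX]

theorem fx_mod5 (h : Ctx G) (P : Sylow 5 G) {g : G}
    (hg : g ∈ Subgroup.centralizer ((P : Subgroup G) : Set G)) :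
    Nat.card (MulAction.fixedBy (Sylow 5 G) g) % 5 = 1 := by
  have h1 := P.isPGroup'.card_modEq_card_fixedPoints (fixSub P g hg)
  have h2 : Nat.card (MulAction.fixedPoints (P : Subgroup G) (fixSub P g hg)) = 1 := by
    rw [Nat.card_eq_one_iff_exists]
    have hgP : g • P = P := smul_self_of_cent P hg
    refine ⟨⟨⟨P, hgP⟩, ?_⟩, ?_⟩
    · intro u
      apply Subtype.ext
      exact smul_self_of_mem P u.2
    · rintro ⟨⟨X, hX⟩, hfix⟩
      apply Subtype.ext
      apply Subtype.ext
      show X = P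
      by_contra hne
      have hnt : Nontrivial (P : Subgroup G) := by
        rw [← Finite.one_lt_card_iff_nontrivial, h.hcard P]; norm_num
      obtain ⟨u, hu⟩ := exists_ne (1 : (P : Subgroup G))
      have h3 := hfix u
      have huX : (u : G) • X = X := congrArg (fun z : fixSub P g hg => (z : Sylow 5 G)) h3
      exact hu (Subtype.ext (p_fix h (Ne.symm hne) u.2 huX))
  rw [h2] at h1
  have h3 : Nat.card (fixSub P g hg) = Nat.card (MulAction.fixedBy (Sylow 5 G) g) := rfl
  rw [h3] at h1
  exact h1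

theorem fx_le (h : Ctx G) (g : G) : Nat.card (MulAction.fixedBy (Sylow 5 G) g) ≤ 21 := by
  rw [← h.h21]
  exact Nat.card_le_card_of_injective _ Subtype.val_injective

theorem fx_ne (h : Ctx G) {g : G} (hg : g ≠ 1) :
    Nat.card (MulAction.fixedBy (Sylow 5 G) g) ≠ 21 := by
  intro h1
  apply hg
  apply h.hfaith
  have h2 : MulAction.fixedBy (Sylow 5 G) g = Set.univ := by
    apply Set.eq_of_subset_of_ncard_le (Set.subset_univ _) _ (Set.toFinite _)
    rw [Set.ncard_univ, h.h21, ← Nat.card_coe_set_eq, h1]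
  intro Q
  have : Q ∈ MulAction.fixedBy (Sylow 5 G) g := by rw [h2]; trivial
  exact this

omit [Finite G] in
theorem two_le_fx [Finite (Sylow 5 G)] {g : G} {P R : Sylow 5 G} (hP : g • P = P) (hR : g • R = R) (hPR : P ≠ R) :
    2 ≤ Nat.card (MulAction.fixedBy (Sylow 5 G) g) := by
  have : Nontrivial (MulAction.fixedBy (Sylow 5 G) g) :=
    ⟨⟨⟨P, hP⟩, ⟨R, hR⟩, fun e => hPR (congrArg Subtype.val e)⟩⟩
  exact Finite.one_lt_card_iff_nontrivial.2 this

theorem fx_modq (h : Ctx G) {g : G} {q : ℕ} (hq : q.Prime) (hgq : orderOf g = q) :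
    Nat.card (MulAction.fixedBy (Sylow 5 G) g) ≡ 21 [MOD q] := by
  haveI : Fact q.Prime := ⟨hq⟩
  have hz : IsPGroup q (Subgroup.zpowers g) := by
    apply IsPGroup.of_card (n := 1)
    rw [Nat.card_zpowers, hgq, pow_one]
  have h1 := hz.card_modEq_card_fixedPoints (Sylow 5 G)
  rw [h.h21] at h1
  have h2 : Nat.card (MulAction.fixedPoints (Subgroup.zpowers g) (Sylow 5 G)) =
      Nat.card (MulAction.fixedBy (Sylow 5 G) g) := by
    apply Nat.card_congr
    apply Equiv.subtypeEquivRight
    intro X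
    constructor
    · intro hX
      exact hX ⟨g, Subgroup.mem_zpowers g⟩
    · intro hX
      rintro ⟨y, hy⟩
      have h3 : Subgroup.zpowers g ≤ MulAction.stabilizer G X := by
        rw [Subgroup.zpowers_le]; exact hX
      exact h3 hy
  rw [h2] at h1
  exact h1.symm

/-- an element of prime order centralizing `P` and fixing a second point has order 3 and exactly
six fixed points -/
theorem prime_fix (h : Ctx G) (P R : Sylow 5 G) (hPR : P ≠ R) {g : G}
    (hg : g ∈ Subgroup.centralizer ((P : Subgroup G) : Set G)) {q : ℕ} (hq : q.Prime)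
    (hgq : orderOf g = q) (hgR : g • R = R) :
    q = 3 ∧ Nat.card (MulAction.fixedBy (Sylow 5 G) g) = 6 := by
  have hg1 : g ≠ 1 := by
    rintro rfl
    rw [orderOf_one] at hgq
    exact hq.ne_one hgq.symm
  have hgP : g • P = P := smul_self_of_cent P hg
  have f5 := fx_mod5 h P hg
  have f2 := two_le_fx hgP hgR hPR
  have fle := fx_le h g
  have fne := fx_ne h hg1
  have fq := fx_modq h hq hgq
  have hdvd : q ∣ 21 - Nat.card (MulAction.fixedBy (Sylow 5 G) g) :=
    (Nat.modEq_iff_dvd' fle).1 fq
  have hq5 : q ≠ 5 := by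
    rintro rfl
    apply hg1
    have h5 : g ^ 5 = 1 := by rw [← hgq]; exact pow_orderOf_eq_one g
    exact p_fix h hPR (five_mem P (Subgroup.centralizer_le_normalizer _ hg) h5) hgR
  have hq2 : q ≠ 2 := by
    rintro rfl
    have h2 : g * g = 1 := by rw [← pow_two, ← hgq]; exact pow_orderOf_eq_one g
    have := h.hinv g h2
    omega
  generalize Nat.card (MulAction.fixedBy (Sylow 5 G) g) = f at *
  have hf : f = 6 ∨ f = 11 ∨ f = 16 := by omega
  rcases hf with rfl | rfl | rfl
  · have hq15 : q ≤ 15 := Nat.le_of_dvd (by norm_num) hdvd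
    interval_cases q <;> first | exact ⟨rfl, rfl⟩ | (exfalso; omega) | (exfalso; revert hq; decide)
  · have hq10 : q ≤ 10 := Nat.le_of_dvd (by norm_num) hdvd
    exfalso
    interval_cases q <;> first | omega | (revert hq; decide)
  · have hq5' : q ≤ 5 := Nat.le_of_dvd (by norm_num) hdvd
    exfalso
    interval_cases q <;> first | omega | (revert hq; decide)

/-- any nonidentity element centralizing `P` and fixing a second point has exactly six fixed
points -/
theorem fx_six (h : Ctx G) (P R : Sylow 5 G) (hPR : P ≠ R) {g : G}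
    (hg : g ∈ Subgroup.centralizer ((P : Subgroup G) : Set G)) (hg1 : g ≠ 1) (hgR : g • R = R) :
    Nat.card (MulAction.fixedBy (Sylow 5 G) g) = 6 := by
  have ho1 : orderOf g ≠ 1 := fun e => hg1 (orderOf_eq_one_iff.1 e)
  have ho0 : orderOf g ≠ 0 := (orderOf_pos g).ne'
  have hq : (orderOf g).minFac.Prime := Nat.minFac_prime ho1
  have h1 := orderOf_pow_orderOf_div ho0 (Nat.minFac_dvd (orderOf g))
  have hg' : g ^ (orderOf g / (orderOf g).minFac) ∈
      Subgroup.centralizer ((P : Subgroup G) : Set G) := Subgroup.pow_mem _ hg _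
  have hgR' : g ^ (orderOf g / (orderOf g).minFac) • R = R := by
    have : g ∈ MulAction.stabilizer G R := hgR
    exact Subgroup.pow_mem _ this _
  have h2 := (prime_fix h P R hPR hg' hq h1 hgR').2
  have hsub : MulAction.fixedBy (Sylow 5 G) g ⊆
      MulAction.fixedBy (Sylow 5 G) (g ^ (orderOf g / (orderOf g).minFac)) := by
    intro X hX
    have : g ∈ MulAction.stabilizer G X := hX
    exact Subgroup.pow_mem _ this _
  have h3 : Nat.card (MulAction.fixedBy (Sylow 5 G) g) ≤ 6 := by
    rw [← h2, Nat.card_coe_set_eq, Nat.card_coe_set_eq]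
    exact Set.ncard_le_ncard hsub (Set.toFinite _)
  have f5 := fx_mod5 h P hg
  have f2 := two_le_fx (smul_self_of_cent P hg) hgR hPR
  omega

/-- the stabilizer in `C(P)` of a second point has order 1 or 3 -/
theorem card_CR (h : Ctx G) (P R : Sylow 5 G) (hPR : P ≠ R) :
    Nat.card ↥(Subgroup.centralizer ((P : Subgroup G) : Set G) ⊓ MulAction.stabilizer G R) = 1 ∨
    Nat.card ↥(Subgroup.centralizer ((P : Subgroup G) : Set G) ⊓ MulAction.stabilizer G R) = 3 := by
  classical
  set CR : Subgroup G :=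
    Subgroup.centralizer ((P : Subgroup G) : Set G) ⊓ MulAction.stabilizer G R with hCR
  haveI : Fintype (Sylow 5 G) := Fintype.ofFinite _
  haveI : Fintype CR := Fintype.ofFinite _
  have hB := MulAction.sum_card_fixedBy_eq_card_orbits_mul_card_group CR (Sylow 5 G)
  have hval : ∀ a : CR, Fintype.card (MulAction.fixedBy (Sylow 5 G) a) =
      6 + if a = 1 then 15 else 0 := by
    intro a
    by_cases ha : a = 1
    · subst ha
      rw [if_pos rfl, ← Nat.card_eq_fintype_card]
      have : MulAction.fixedBy (Sylow 5 G) (1 : CR) = Set.univ := by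
        ext X; simp
      rw [this, Nat.card_coe_set_eq, Set.ncard_univ, h.h21]
    · rw [if_neg ha, add_zero, ← Nat.card_eq_fintype_card]
      have ha1 : (a : G) ≠ 1 := fun e => ha (Subtype.ext e)
      exact fx_six h P R hPR a.2.1 ha1 a.2.2
  simp only [hval, Finset.sum_add_distrib, Finset.sum_const, Finset.sum_ite_eq', Finset.mem_univ,
    if_true, Finset.card_univ, smul_eq_mul] at hB
  have hdvd : Fintype.card CR ∣ 15 := by
    have h1 : Fintype.card CR ∣ Fintype.card CR * 6 + 15 := ⟨_, by rw [hB, mul_comm]⟩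
    exact (Nat.dvd_add_right (dvd_mul_right _ 6)).1 h1
  have h5 : ¬ 5 ∣ Fintype.card CR := by
    intro h5
    rw [← Nat.card_eq_fintype_card] at h5
    obtain ⟨x, hx⟩ := exists_prime_orderOf_dvd_card' (G := CR) 5 h5
    have hx' : orderOf (x : G) = 5 := by rw [Subgroup.orderOf_coe, hx]
    have := (prime_fix h P R hPR x.2.1 (by norm_num) hx' x.2.2).1
    omega
  rw [Nat.card_eq_fintype_card]
  have hle : Fintype.card CR ≤ 15 := Nat.le_of_dvd (by norm_num) hdvd
  have hpos : 0 < Fintype.card CR := Fintype.card_pos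
  interval_cases (Fintype.card CR) <;> omega

end ctx

section ctx2

variable {G : Type*} [Group G] [Finite G]

omit [Finite G] in
/-- orbit-stabilizer for a subgroup acting on the Sylow subgroups -/
theorem orb_stab [Finite G] (L : Subgroup G) (X : Sylow 5 G) :
    (MulAction.orbit L X).ncard * Nat.card ↥(L ⊓ MulAction.stabilizer G X) = Nat.card L := by
  have h1 : MulAction.stabilizer L X = (L ⊓ MulAction.stabilizer G X).subgroupOf L := by
    ext ⟨u, hu⟩
    rw [MulAction.mem_stabilizer_iff, Subgroup.mem_subgroupOf]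
    show u • X = X ↔ u ∈ L ⊓ MulAction.stabilizer G X
    rw [Subgroup.mem_inf, MulAction.mem_stabilizer_iff]
    exact ⟨fun h => ⟨hu, h⟩, fun h => h.2⟩
  have h2 : Nat.card (MulAction.stabilizer L X) =
      Nat.card ↥(L ⊓ MulAction.stabilizer G X) := by
    rw [h1]
    exact Nat.card_congr (Subgroup.subgroupOfEquivOfLe inf_le_left).toEquiv
  have h3 := Subgroup.card_mul_index (MulAction.stabilizer L X)
  rw [MulAction.index_stabilizer, h2] at h3
  rw [mul_comm]; exact h3

theorem orb_le (h : Ctx G) (P R : Sylow 5 G) (hPR : P ≠ R) (L : Subgroup G)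
    (hL : L ≤ MulAction.stabilizer G P) : (MulAction.orbit L R).ncard ≤ 20 := by
  have h2 : MulAction.orbit L R ⊆ {X : Sylow 5 G | X ≠ P} := by
    rintro X ⟨c, rfl⟩
    intro hc
    apply hPR
    have h1 : (c : G) • P = P := hL c.2
    have h3 : (c : G) • R = (c : G) • P := hc.trans h1.symm
    exact (MulAction.injective (c : G) h3).symm
  have h3 : ({X : Sylow 5 G | X ≠ P}).ncard = 20 := by
    rw [← Nat.card_coe_set_eq]
    have := Cfsg.Agent.S0034.card_ne P
    rw [h.h21] at this
    exact this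
  rw [← h3]
  exact Set.ncard_le_ncard h2 (Set.toFinite _)

theorem p_le_cent (h : Ctx G) (P : Sylow 5 G) :
    (P : Subgroup G) ≤ Subgroup.centralizer ((P : Subgroup G) : Set G) := by
  haveI hcyc : IsCyclic (P : Subgroup G) := isCyclic_of_prime_card (p := 5) (h.hcard P)
  intro x hx
  rw [Subgroup.mem_centralizer_iff]
  intro y hy
  have h5 : (⟨y, hy⟩ : (P : Subgroup G)) * ⟨x, hx⟩ = ⟨x, hx⟩ * ⟨y, hy⟩ :=
    (IsCyclic.commGroup (α := (P : Subgroup G))).mul_comm _ _
  exact congrArg Subtype.val h5

/-- an involution normalizing but not centralizing `P` inverts `P` -/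
theorem inv_of_not_cent (h : Ctx G) (P : Sylow 5 G) {j : G} (hjN : j • P = P)
    (hjC : j ∉ Subgroup.centralizer ((P : Subgroup G) : Set G)) (hj2 : j * j = 1) :
    ∀ u ∈ (P : Subgroup G), j * u * j⁻¹ = u⁻¹ := by
  have hnorm : ∀ x ∈ (P : Subgroup G), j * x * j⁻¹ ∈ (P : Subgroup G) := by
    intro x hx
    exact (Subgroup.mem_normalizer_iff.1 (Sylow.smul_eq_iff_mem_normalizer.1 hjN) x).1 hx
  haveI : IsCyclic (P : Subgroup G) := isCyclic_of_prime_card (p := 5) (h.hcard P)
  let σ : (P : Subgroup G) →* (P : Subgroup G) :=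
    { toFun := fun x => ⟨j * x * j⁻¹, hnorm x x.2⟩
      map_one' := by apply Subtype.ext; simp
      map_mul' := fun x y => by apply Subtype.ext; simp }
  obtain ⟨m, hm⟩ := MonoidHom.map_cyclic σ
  have hσ : ∀ x : (P : Subgroup G), ((σ x : (P : Subgroup G)) : G) = j * x * j⁻¹ :=
    fun x => rfl
  have hjinv : j⁻¹ = j := inv_eq_of_mul_eq_one_right hj2
  have h1 : ∀ g : (P : Subgroup G), g ^ (m * m) = g := by
    intro g
    have e1 : σ (σ g) = g := by
      apply Subtype.ext
      rw [hσ, hσ, hjinv]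
      have : j * (j * (g : G) * j) * j = (j * j) * (g : G) * (j * j) := by group
      rw [this, hj2, one_mul, mul_one]
    rw [hm g, hm (g ^ m), ← zpow_mul] at e1
    exact e1
  obtain ⟨u0, hu0P, hu0⟩ : ∃ u0 ∈ (P : Subgroup G), u0 * j ≠ j * u0 := by
    by_contra hcon
    push Not at hcon
    exact hjC (Subgroup.mem_centralizer_iff.2 hcon)
  have hord : ∀ g : (P : Subgroup G), g ^ 5 = 1 := by
    intro g
    have := pow_card_eq_one' (G := (P : Subgroup G)) (x := g)
    rwa [h.hcard P] at this
  have hu01 : (⟨u0, hu0P⟩ : (P : Subgroup G)) ≠ 1 := by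
    intro e
    have : u0 = 1 := congrArg Subtype.val e
    apply hu0; rw [this, one_mul, mul_one]
  have ho5 : orderOf (⟨u0, hu0P⟩ : (P : Subgroup G)) = 5 := orderOf_eq_prime (hord _) hu01
  have hd1 : (5 : ℤ) ∣ m * m - 1 := by
    have e := h1 ⟨u0, hu0P⟩
    have e' : (⟨u0, hu0P⟩ : (P : Subgroup G)) ^ (m * m - 1) = 1 := by
      rw [zpow_sub_one, e, mul_inv_cancel]
    have := orderOf_dvd_iff_zpow_eq_one.2 e'
    rw [ho5] at this
    exact_mod_cast this
  have hd2 : ¬ (5 : ℤ) ∣ m - 1 := by
    intro hd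
    apply hu0
    have e : (⟨u0, hu0P⟩ : (P : Subgroup G)) ^ (m - 1) = 1 := by
      rw [← orderOf_dvd_iff_zpow_eq_one, ho5]; exact_mod_cast hd
    have e2 : σ ⟨u0, hu0P⟩ = ⟨u0, hu0P⟩ := by
      rw [hm]
      have := zpow_add_one (⟨u0, hu0P⟩ : (P : Subgroup G)) (m - 1)
      rw [sub_add_cancel] at this
      rw [this, e, one_mul]
    have e3 : j * u0 * j⁻¹ = u0 := congrArg Subtype.val e2
    exact (mul_inv_eq_iff_eq_mul.1 e3).symm
  have hd3 : (5 : ℤ) ∣ m + 1 := by
    have hp : Prime (5 : ℤ) := by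
      have := Nat.prime_iff_prime_int.1 (by norm_num : Nat.Prime 5)
      exact_mod_cast this
    have e : m * m - 1 = (m - 1) * (m + 1) := by ring
    rw [e] at hd1
    rcases hp.dvd_or_dvd hd1 with hh | hh
    · exact absurd hh hd2
    · exact hh
  intro u hu
  have e : (⟨u, hu⟩ : (P : Subgroup G)) ^ (m + 1) = 1 := by
    rw [← orderOf_dvd_iff_zpow_eq_one]
    have h5 : orderOf (⟨u, hu⟩ : (P : Subgroup G)) ∣ 5 := orderOf_dvd_of_pow_eq_one (hord _)
    have h5' : ((orderOf (⟨u, hu⟩ : (P : Subgroup G)) : ℕ) : ℤ) ∣ ((5 : ℕ) : ℤ) :=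
      Int.natCast_dvd_natCast.2 h5
    exact h5'.trans (by exact_mod_cast hd3)
  have e2 : σ ⟨u, hu⟩ = (⟨u, hu⟩ : (P : Subgroup G))⁻¹ := by
    rw [hm]
    rw [zpow_add_one] at e
    exact eq_inv_of_mul_eq_one_left e
  have e3 := congrArg Subtype.val e2
  exact e3

/-- an involution normalizing but not centralizing `P` and fixing a second point has exactly five
fixed points, one in each `P`-orbit -/
theorem fx_inv (h : Ctx G) (P R : Sylow 5 G) (hPR : P ≠ R) {j : G} (hjN : j • P = P)
    (hjC : j ∉ Subgroup.centralizer ((P : Subgroup G) : Set G)) (hj2 : j * j = 1)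
    (hjR : j • R = R) :
    Nat.card (MulAction.fixedBy (Sylow 5 G) j) = 5 ∧
      ∀ Y : Sylow 5 G, Y ≠ P → ∃ u ∈ (P : Subgroup G), ∃ X : Sylow 5 G,
        j • X = X ∧ u • X = Y := by
  have hinvP := inv_of_not_cent h P hjN hjC hj2
  let p0 : MulAction.fixedBy (Sylow 5 G) j := ⟨P, hjN⟩
  let F' := {x : MulAction.fixedBy (Sylow 5 G) j // x ≠ p0}
  have hF' : Nat.card F' = Nat.card (MulAction.fixedBy (Sylow 5 G) j) - 1 :=
    Cfsg.Agent.S0034.card_ne p0
  let φ : ↥(P : Subgroup G) × F' → {Y : Sylow 5 G // Y ≠ P} := fun z =>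
    ⟨(z.1 : G) • (z.2.1.1), by
      intro e
      apply z.2.2
      apply Subtype.ext
      show z.2.1.1 = P
      have h1 : (z.1 : G) • P = P := smul_self_of_mem P z.1.2
      exact MulAction.injective (z.1 : G) (e.trans h1.symm)⟩
  have hφ : Function.Injective φ := by
    rintro ⟨u, x⟩ ⟨u', x'⟩ hxx
    have e : (u : G) • (x.1.1) = (u' : G) • (x'.1.1) := congrArg Subtype.val hxx
    have hv : ((u' : G)⁻¹ * (u : G)) • x.1.1 = x'.1.1 := by
      rw [mul_smul, e, inv_smul_smul]
    have hvP : (u' : G)⁻¹ * (u : G) ∈ (P : Subgroup G) :=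
      Subgroup.mul_mem _ (Subgroup.inv_mem _ u'.2) u.2
    have hxfix : j • x.1.1 = x.1.1 := x.1.2
    have hx'fix : j • x'.1.1 = x'.1.1 := x'.1.2
    have hxne : x.1.1 ≠ P := fun e => x.2 (Subtype.ext e)
    obtain ⟨v, hvdef⟩ : ∃ v : G, v = (u' : G)⁻¹ * (u : G) := ⟨_, rfl⟩
    rw [← hvdef] at hv hvP
    have h1 : v⁻¹ • x.1.1 = v • x.1.1 := by
      have e1 : j • (v • x.1.1) = v • x.1.1 := by rw [hv]; exact hx'fix
      have e2 : j * v = v⁻¹ * j := by
        have := hinvP v hvP
        rw [← this]; group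
      rw [← mul_smul, e2, mul_smul, hxfix] at e1
      exact e1
    have h2 : (v * v) • x.1.1 = x.1.1 := by
      rw [mul_smul, ← h1, smul_inv_smul]
    have h3 : v * v = 1 := p_fix h (Ne.symm hxne) (Subgroup.mul_mem _ hvP hvP) h2
    have h4 : v ^ 5 = 1 := by
      have := pow_card_eq_one' (G := (P : Subgroup G)) (x := ⟨v, hvP⟩)
      rw [h.hcard P] at this
      exact congrArg Subtype.val this
    have h5 : v = 1 := by
      have : v ^ 5 = (v * v) ^ 2 * v := by rw [← pow_two v, ← pow_mul, ← pow_succ]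
      rw [this, h3, one_pow, one_mul] at h4
      exact h4
    have huu : (u : G) = (u' : G) := by
      have : (u' : G)⁻¹ * (u : G) = 1 := by rw [← hvdef]; exact h5
      exact (inv_mul_eq_one.1 this).symm
    have hxx' : x.1.1 = x'.1.1 := by
      rw [h5, one_smul] at hv; exact hv
    have e1 : u = u' := Subtype.ext huu
    have e2 : x = x' := Subtype.ext (Subtype.ext hxx')
    rw [e1, e2]
  have hcard20 : Nat.card {Y : Sylow 5 G // Y ≠ P} = 20 := by
    have := Cfsg.Agent.S0034.card_ne P
    rw [h.h21] at this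
    exact this
  have hprod : Nat.card (↥(P : Subgroup G) × F') = 5 * Nat.card F' := by
    rw [Nat.card_prod, h.hcard P]
  have hle : 5 * Nat.card F' ≤ 20 := by
    rw [← hprod, ← hcard20]
    exact Nat.card_le_card_of_injective φ hφ
  have f2 := two_le_fx hjN hjR hPR
  have f4 := h.hinv j hj2
  have hfx : Nat.card (MulAction.fixedBy (Sylow 5 G) j) = 5 := by omega
  refine ⟨hfx, ?_⟩
  intro Y hY
  have hbij : Function.Bijective φ := by
    apply hφ.bijective_of_nat_card_le
    rw [hprod, hcard20, hF', hfx]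
  obtain ⟨⟨u, x⟩, hux⟩ := hbij.2 ⟨Y, hY⟩
  exact ⟨u, u.2, x.1.1, x.1.2, congrArg Subtype.val hux⟩

/-- from an element of `N(P)` outside `C(P)` fixing a second point to an involution of that kind -/
theorem exists_inv (h : Ctx G) (P R : Sylow 5 G) (hPR : P ≠ R) {y : G} (hyN : y • P = P)
    (hyC : y ∉ Subgroup.centralizer ((P : Subgroup G) : Set G)) (hyR : y • R = R) :
    ∃ i : G, i * i = 1 ∧ i • P = P ∧
      i ∉ Subgroup.centralizer ((P : Subgroup G) : Set G) ∧ i • R = R := by
  have hyN' : y ∈ Subgroup.normalizer ((P : Subgroup G) : Set G) :=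
    Sylow.smul_eq_iff_mem_normalizer.1 hyN
  haveI hcyc : IsCyclic (P : Subgroup G) := isCyclic_of_prime_card (p := 5) (h.hcard P)
  have hd : (Subgroup.centralizer ((P : Subgroup G) : Set G)).relIndex
      (Subgroup.normalizer ((P : Subgroup G) : Set G)) ∣ 4 := by
    have h1 := relIndex_centralizer_normalizer_dvd (P : Subgroup G) hcyc
    rw [h.hcard P] at h1
    have h4 : Nat.totient 5 = 4 := Nat.totient_prime (by norm_num)
    rwa [h4] at h1
  haveI hnorm : ((Subgroup.centralizer ((P : Subgroup G) : Set G)).subgroupOf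
      (Subgroup.normalizer ((P : Subgroup G) : Set G))).Normal := by
    rw [← Subgroup.normalizerMonoidHom_ker]
    infer_instance
  have hy4 : y ^ 4 ∈ Subgroup.centralizer ((P : Subgroup G) : Set G) := by
    have h1 := Subgroup.pow_index_mem ((Subgroup.centralizer ((P : Subgroup G) : Set G)).subgroupOf
      (Subgroup.normalizer ((P : Subgroup G) : Set G)))
      (⟨y, hyN'⟩ : Subgroup.normalizer ((P : Subgroup G) : Set G))
    have h2 : y ^ ((Subgroup.centralizer ((P : Subgroup G) : Set G)).relIndex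
        (Subgroup.normalizer ((P : Subgroup G) : Set G))) ∈
        Subgroup.centralizer ((P : Subgroup G) : Set G) := Subgroup.mem_subgroupOf.1 h1
    obtain ⟨k, hk⟩ := hd
    rw [hk, pow_mul]
    exact Subgroup.pow_mem _ h2 _
  have hy12 : y ^ 12 = 1 := by
    have hmem : y ^ 4 ∈ Subgroup.centralizer ((P : Subgroup G) : Set G) ⊓
        MulAction.stabilizer G R := by
      refine ⟨hy4, ?_⟩
      have : y ∈ MulAction.stabilizer G R := hyR
      exact Subgroup.pow_mem _ this _
    have h3 : (⟨y ^ 4, hmem⟩ : ↥(Subgroup.centralizer ((P : Subgroup G) : Set G) ⊓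
        MulAction.stabilizer G R)) ^ 3 = 1 := by
      have := pow_card_eq_one' (G := ↥(Subgroup.centralizer ((P : Subgroup G) : Set G) ⊓
        MulAction.stabilizer G R)) (x := ⟨y ^ 4, hmem⟩)
      rcases card_CR h P R hPR with hc | hc
      · rw [hc, pow_one] at this
        rw [this, one_pow]
      · rw [hc] at this; exact this
    have h4 : (y ^ 4) ^ 3 = 1 := congrArg Subtype.val h3
    rw [← pow_mul] at h4
    exact h4
  have ho12 : orderOf y ∣ 12 := orderOf_dvd_of_pow_eq_one hy12
  rcases Nat.even_or_odd (orderOf y) with ⟨o', ho'⟩ | hodd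
  · have ho0 : 0 < orderOf y := orderOf_pos y
    have hi1 : y ^ o' ≠ 1 := pow_ne_one_of_lt_orderOf (by omega) (by omega)
    have hi2 : y ^ o' * y ^ o' = 1 := by rw [← pow_add, ← ho', pow_orderOf_eq_one]
    have hiR : y ^ o' • R = R := by
      have : y ∈ MulAction.stabilizer G R := hyR
      exact Subgroup.pow_mem _ this _
    refine ⟨y ^ o', hi2, ?_, ?_, hiR⟩
    · have : y ∈ MulAction.stabilizer G P := hyN
      exact Subgroup.pow_mem _ this _
    · intro hiC
      have ho2 : orderOf (y ^ o') = 2 := orderOf_eq_prime (by rw [pow_two]; exact hi2) hi1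
      have := (prime_fix h P R hPR hiC Nat.prime_two ho2 hiR).1
      omega
  · exfalso
    have h3 : orderOf y ∣ 3 := by
      have hle : orderOf y ≤ 12 := Nat.le_of_dvd (by norm_num) ho12
      revert ho12 hodd
      generalize orderOf y = o at hle ⊢
      intro ho12 hodd
      interval_cases o <;>
        first | decide | (exfalso; revert hodd; decide) | (exfalso; revert ho12; decide)
    have hy3 : y ^ 3 = 1 := orderOf_dvd_iff_pow_eq_one.1 h3
    apply hyC
    have : y ^ 4 = y := by rw [pow_succ, hy3, one_mul]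
    rw [← this]; exact hy4

end ctx2

section ctx3

variable {G : Type*} [Group G] [Finite G]

/-- an involution in `N(P)` outside `C(P)` cannot fix a second point -/
theorem inv_false (h : Ctx G) (P R : Sylow 5 G) (hPR : P ≠ R) {i : G} (hi2 : i * i = 1)
    (hiN : i • P = P) (hiC : i ∉ Subgroup.centralizer ((P : Subgroup G) : Set G))
    (hiR : i • R = R) : False := by
  obtain ⟨hfx, -⟩ := fx_inv h P R hPR hiN hiC hi2 hiR
  have hiinv : i⁻¹ = i := inv_eq_of_mul_eq_one_right hi2
  have hi1 : i ≠ 1 := by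
    rintro rfl
    exact hiC (Subgroup.one_mem _)
  have hinvP := inv_of_not_cent h P hiN hiC hi2
  have htrans : ∀ β : Sylow 5 G, i • β = β → ∃ c : G, c * i = i * c ∧ c • P = β := by
    intro β hβ
    by_cases hβP : β = P
    · exact ⟨1, by rw [one_mul, mul_one], by rw [one_smul, hβP]⟩
    obtain ⟨g, hg⟩ := MulAction.exists_smul_eq G P β
    have hginv : g⁻¹ • β = P := by rw [inv_smul_eq_iff, hg]
    obtain ⟨j, hj⟩ : ∃ j : G, j = g⁻¹ * i * g := ⟨_, rfl⟩
    have hj2 : j * j = 1 := by
      rw [hj]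
      have : g⁻¹ * i * g * (g⁻¹ * i * g) = g⁻¹ * (i * i) * g := by group
      rw [this, hi2]; group
    have hjN : j • P = P := by
      rw [hj, mul_smul, mul_smul, hg, hβ, hginv]
    have hX0 : j • (g⁻¹ • P) = g⁻¹ • P := by
      rw [hj, mul_smul, mul_smul, smul_inv_smul, hiN]
    have hX0ne : P ≠ g⁻¹ • P := by
      intro e
      apply hβP
      rw [← hg]
      have : g • P = g • (g⁻¹ • P) := congrArg (fun X => g • X) e
      rw [smul_inv_smul] at this
      exact this
    have hj1 : j ≠ 1 := by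
      intro e
      apply hi1
      have : i = g * j * g⁻¹ := by rw [hj]; group
      rw [this, e]; group
    have hjC : j ∉ Subgroup.centralizer ((P : Subgroup G) : Set G) := by
      intro hjC
      have ho2 : orderOf j = 2 := orderOf_eq_prime (by rw [pow_two]; exact hj2) hj1
      have := (prime_fix h P (g⁻¹ • P) hX0ne hjC Nat.prime_two ho2 hX0).1
      omega
    obtain ⟨-, hsurj⟩ := fx_inv h P (g⁻¹ • P) hX0ne hjN hjC hj2 hX0
    obtain ⟨u, huP, X, hjX, huX⟩ := hsurj R (Ne.symm hPR)
    obtain ⟨j1, hj1def⟩ : ∃ j1 : G, j1 = u * j * u⁻¹ := ⟨_, rfl⟩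
    have hj1R : j1 • R = R := by
      have : u⁻¹ • R = X := by rw [inv_smul_eq_iff, huX]
      rw [hj1def, mul_smul, mul_smul, this, hjX, huX]
    have hj12 : j1 * j1 = 1 := by
      rw [hj1def]
      have : u * j * u⁻¹ * (u * j * u⁻¹) = u * (j * j) * u⁻¹ := by group
      rw [this, hj2]; group
    have huPfix : u • P = P := smul_self_of_mem P huP
    have hj1N : j1 • P = P := by
      have : u⁻¹ • P = P := by rw [inv_smul_eq_iff, huPfix]
      rw [hj1def, mul_smul, mul_smul, this, hjN, huPfix]
    have huC : u ∈ Subgroup.centralizer ((P : Subgroup G) : Set G) := p_le_cent h P huP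
    have hj1C : j1 ∉ Subgroup.centralizer ((P : Subgroup G) : Set G) := by
      intro hc
      apply hjC
      have : j = u⁻¹ * j1 * u := by rw [hj1def]; group
      rw [this]
      exact Subgroup.mul_mem _ (Subgroup.mul_mem _ (Subgroup.inv_mem _ huC) hc) huC
    have hinvP1 := inv_of_not_cent h P hj1N hj1C hj12
    have hj1inv : j1⁻¹ = j1 := inv_eq_of_mul_eq_one_right hj12
    obtain ⟨k, hk⟩ : ∃ k : G, k = j1 * i := ⟨_, rfl⟩
    have hkC : k ∈ Subgroup.centralizer ((P : Subgroup G) : Set G) := by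
      rw [Subgroup.mem_centralizer_iff]
      intro v hv
      have e1 : i * v * i⁻¹ = v⁻¹ := hinvP v hv
      have e2 : j1 * v⁻¹ * j1⁻¹ = v := by
        have := hinvP1 v⁻¹ (Subgroup.inv_mem _ hv)
        rw [inv_inv] at this; exact this
      have e3 : k * v * k⁻¹ = v := by
        rw [hk]
        have : j1 * i * v * (j1 * i)⁻¹ = j1 * (i * v * i⁻¹) * j1⁻¹ := by group
        rw [this, e1, e2]
      exact (mul_inv_eq_iff_eq_mul.1 e3).symm
    have hkR : k • R = R := by rw [hk, mul_smul, hiR, hj1R]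
    have hk3 : k ^ 3 = 1 := by
      have hmem : k ∈ Subgroup.centralizer ((P : Subgroup G) : Set G) ⊓
          MulAction.stabilizer G R := ⟨hkC, hkR⟩
      have := pow_card_eq_one' (G := ↥(Subgroup.centralizer ((P : Subgroup G) : Set G) ⊓
        MulAction.stabilizer G R)) (x := ⟨k, hmem⟩)
      rcases card_CR h P R hPR with hc | hc
      · rw [hc, pow_one] at this
        have hk1 : k = 1 := congrArg Subtype.val this
        rw [hk1, one_pow]
      · rw [hc] at this
        exact congrArg Subtype.val this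
    have hkinv : k⁻¹ = i * j1 := by rw [hk, mul_inv_rev, hiinv, hj1inv]
    have hconj : k * j1 * k⁻¹ = i := by
      rw [hkinv, hk]
      have e2 : j1 * i * j1 * (i * j1) * i = 1 := by
        have : j1 * i * j1 * (i * j1) * i = (j1 * i) ^ 3 := by
          rw [pow_succ, pow_two]; simp only [mul_assoc]
        rw [this, ← hk]; exact hk3
      have := eq_inv_of_mul_eq_one_left e2
      rw [hiinv] at this
      exact this
    obtain ⟨t, ht⟩ : ∃ t : G, t = k * u * g⁻¹ := ⟨_, rfl⟩
    have hti : t * i * t⁻¹ = i := by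
      have : t * i * t⁻¹ = k * (u * (g⁻¹ * i * g) * u⁻¹) * k⁻¹ := by rw [ht]; group
      rw [this, ← hj, ← hj1def]
      exact hconj
    refine ⟨t⁻¹, ?_, ?_⟩
    · have e : t * i = i * t := mul_inv_eq_iff_eq_mul.1 hti
      have : t⁻¹ * i = t⁻¹ * (i * t) * t⁻¹ := by group
      rw [this, ← e]; group
    · have hkP : k • P = P := smul_self_of_cent P hkC
      rw [inv_smul_eq_iff, ht, mul_smul, mul_smul, hginv, huPfix, hkP]
  have horb : MulAction.orbit (Subgroup.centralizer {i} : Subgroup G) P =
      MulAction.fixedBy (Sylow 5 G) i := by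
    ext β
    constructor
    · rintro ⟨c, rfl⟩
      have hc : (c : G) * i = i * (c : G) := Subgroup.mem_centralizer_singleton_iff.1 c.2
      show i • ((c : G) • P) = (c : G) • P
      rw [← mul_smul, ← hc, mul_smul, hiN]
    · intro hβ
      obtain ⟨c, hc, hcP⟩ := htrans β hβ
      exact ⟨⟨c, Subgroup.mem_centralizer_singleton_iff.2 hc⟩, hcP⟩
  have h5Z : 5 ∣ Nat.card (Subgroup.centralizer {i} : Subgroup G) := by
    have h1 := orb_stab (Subgroup.centralizer {i} : Subgroup G) P
    rw [horb, ← Nat.card_coe_set_eq, hfx] at h1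
    exact Dvd.intro _ h1
  obtain ⟨q, hq⟩ := exists_prime_orderOf_dvd_card'
    (G := (Subgroup.centralizer {i} : Subgroup G)) 5 h5Z
  have hq5 : orderOf (q : G) = 5 := by rw [Subgroup.orderOf_coe, hq]
  have hqi : (q : G) * i = i * (q : G) := Subgroup.mem_centralizer_singleton_iff.1 q.2
  have hzq : IsPGroup 5 (Subgroup.zpowers (q : G)) := by
    apply IsPGroup.of_card (n := 1)
    rw [Nat.card_zpowers, hq5, pow_one]
  obtain ⟨Q, hQ⟩ := hzq.exists_le_sylow
  have hQeq : Subgroup.zpowers (q : G) = (Q : Subgroup G) := by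
    apply Subgroup.eq_of_le_of_card_ge hQ
    rw [h.hcard Q, Nat.card_zpowers, hq5]
  have hiQ : i ∈ Subgroup.centralizer ((Q : Subgroup G) : Set G) := by
    rw [Subgroup.mem_centralizer_iff]
    intro x hx
    have hx' : x ∈ Subgroup.zpowers (q : G) := by rw [hQeq]; exact hx
    obtain ⟨n, rfl⟩ := Subgroup.mem_zpowers_iff.1 hx'
    exact ((Commute.zpow_left (show Commute (q : G) i from hqi) n)).eq
  have ho2 : orderOf i = 2 := orderOf_eq_prime (by rw [pow_two]; exact hi2) hi1
  obtain ⟨R', hR'Q, hiR'⟩ : ∃ R' : Sylow 5 G, Q ≠ R' ∧ i • R' = R' := by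
    by_cases hQP : Q = P
    · exact ⟨R, by rw [hQP]; exact hPR, hiR⟩
    · exact ⟨P, hQP, hiN⟩
  have := (prime_fix h Q R' hR'Q hiQ Nat.prime_two ho2 hiR').1
  omega

/-- the Sylow 7 count: forces exactly 15 Sylow 7-subgroups -/
theorem seven_false (h : Ctx G) (P : Sylow 5 G) (w e : ℕ) (hG : Nat.card G = 21 * (w * e))
    (hw : w = 5 ∨ w = 10 ∨ w = 15 ∨ w = 20) (he : e = 1 ∨ e = 3)
    (hC7 : ¬ 7 ∣ Nat.card ↥(Subgroup.centralizer ((P : Subgroup G) : Set G))) : False := by
  have h7 : 7 ∣ Nat.card G := by rw [hG]; exact Dvd.dvd.mul_right (by norm_num) _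
  have h49 : ¬ 7 ^ 2 ∣ Nat.card G := by
    rw [hG]
    rcases hw with rfl | rfl | rfl | rfl <;> rcases he with rfl | rfl <;> decide
  obtain ⟨S⟩ : Nonempty (Sylow 7 G) := inferInstance
  have hS := Cfsg.Agent.S4304.sylow_card_prime 7 S h7 h49
  have hS' : ∀ S' : Sylow 7 G, Nat.card (S' : Subgroup G) = 7 := fun S' => by
    rw [card_sylow_eq S' S, hS]
  have hmod : Nat.card (Sylow 7 G) % 7 = 1 := card_sylow_modEq_one 7 G
  have hdvd : Nat.card (Sylow 7 G) ∣ 3 * (w * e) := by
    have h1 : Nat.card (Sylow 7 G) = (Subgroup.normalizer ((S : Subgroup G) : Set G)).index :=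
      Sylow.card_eq_index_normalizer S
    have h2 := Subgroup.card_mul_index (Subgroup.normalizer ((S : Subgroup G) : Set G))
    have h3 : 7 ∣ Nat.card (Subgroup.normalizer ((S : Subgroup G) : Set G)) := by
      have := Subgroup.card_dvd_of_le (Subgroup.le_normalizer (H := (S : Subgroup G)))
      rwa [hS] at this
    obtain ⟨t, ht⟩ := h3
    rw [ht, ← h1, hG] at h2
    exact ⟨t, by nlinarith⟩
  have h5 : 5 ∣ Nat.card (Sylow 7 G) := by
    by_contra h5
    obtain ⟨S', hS'fix⟩ :=
      P.isPGroup'.nonempty_fixed_point_of_prime_not_dvd_card (Sylow 7 G) h5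
    have hPN : ∀ u ∈ (P : Subgroup G),
        u ∈ Subgroup.normalizer ((S' : Subgroup G) : Set G) := by
      intro u hu
      exact Sylow.smul_eq_iff_mem_normalizer.1 (hS'fix ⟨u, hu⟩)
    haveI hcyc : IsCyclic (S' : Subgroup G) := isCyclic_of_prime_card (p := 7) (hS' S')
    have hd6 : (Subgroup.centralizer ((S' : Subgroup G) : Set G)).relIndex
        (Subgroup.normalizer ((S' : Subgroup G) : Set G)) ∣ 6 := by
      have h1 := relIndex_centralizer_normalizer_dvd (S' : Subgroup G) hcyc
      rw [hS' S'] at h1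
      have h6 : Nat.totient 7 = 6 := Nat.totient_prime (by norm_num)
      rwa [h6] at h1
    haveI hnorm : ((Subgroup.centralizer ((S' : Subgroup G) : Set G)).subgroupOf
        (Subgroup.normalizer ((S' : Subgroup G) : Set G))).Normal := by
      rw [← Subgroup.normalizerMonoidHom_ker]; infer_instance
    have hPC : ∀ u ∈ (P : Subgroup G),
        u ∈ Subgroup.centralizer ((S' : Subgroup G) : Set G) := by
      intro u hu
      have h1 := Subgroup.pow_index_mem
        ((Subgroup.centralizer ((S' : Subgroup G) : Set G)).subgroupOf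
          (Subgroup.normalizer ((S' : Subgroup G) : Set G)))
        (⟨u, hPN u hu⟩ : Subgroup.normalizer ((S' : Subgroup G) : Set G))
      have h2 : u ^ ((Subgroup.centralizer ((S' : Subgroup G) : Set G)).relIndex
          (Subgroup.normalizer ((S' : Subgroup G) : Set G))) ∈
          Subgroup.centralizer ((S' : Subgroup G) : Set G) := Subgroup.mem_subgroupOf.1 h1
      obtain ⟨k, hk⟩ := hd6
      have h3 : u ^ 6 ∈ Subgroup.centralizer ((S' : Subgroup G) : Set G) := by
        rw [hk, pow_mul]; exact Subgroup.pow_mem _ h2 _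
      have h4 : u ^ 5 = 1 := by
        have := pow_card_eq_one' (G := (P : Subgroup G)) (x := ⟨u, hu⟩)
        rw [h.hcard P] at this
        exact congrArg Subtype.val this
      have h5' : u ^ 6 = u := by rw [pow_succ, h4, one_mul]
      rw [h5'] at h3; exact h3
    have hSC : (S' : Subgroup G) ≤ Subgroup.centralizer ((P : Subgroup G) : Set G) := by
      intro s hs
      rw [Subgroup.mem_centralizer_iff]
      intro u hu
      exact (Subgroup.mem_centralizer_iff.1 (hPC u hu) s hs).symm
    apply hC7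
    rw [← hS' S']
    exact Subgroup.card_dvd_of_le hSC
  have h15 : Nat.card (Sylow 7 G) = 15 := by
    generalize Nat.card (Sylow 7 G) = n7 at hmod hdvd h5 ⊢
    rcases hw with rfl | rfl | rfl | rfl <;> rcases he with rfl | rfl
    all_goals
      have hle : n7 ≤ 180 := (Nat.le_of_dvd (by norm_num) hdvd).trans (by norm_num)
      interval_cases n7 <;> omega
  exact Cfsg.Agent.S4304.result h15

theorem ctx_false (h : Ctx G) : False := by
  obtain ⟨P⟩ : Nonempty (Sylow 5 G) := inferInstance
  have hnt : Nontrivial (Sylow 5 G) := by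
    rw [← Finite.one_lt_card_iff_nontrivial, h.h21]; norm_num
  obtain ⟨R, hR⟩ := exists_ne P
  have hPR : P ≠ R := Ne.symm hR
  have hNstab : MulAction.stabilizer G P = Subgroup.normalizer ((P : Subgroup G) : Set G) :=
    Sylow.stabilizer_eq_normalizer P
  have hCN : Subgroup.centralizer ((P : Subgroup G) : Set G) ≤
      Subgroup.normalizer ((P : Subgroup G) : Set G) := Subgroup.centralizer_le_normalizer _
  haveI hcyc : IsCyclic (P : Subgroup G) := isCyclic_of_prime_card (p := 5) (h.hcard P)
  have hd : (Subgroup.centralizer ((P : Subgroup G) : Set G)).relIndex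
      (Subgroup.normalizer ((P : Subgroup G) : Set G)) ∣ 4 := by
    have h1 := relIndex_centralizer_normalizer_dvd (P : Subgroup G) hcyc
    rw [h.hcard P] at h1
    have h4 : Nat.totient 5 = 4 := Nat.totient_prime (by norm_num)
    rwa [h4] at h1
  have hCNcard : Nat.card (Subgroup.centralizer ((P : Subgroup G) : Set G)) *
      (Subgroup.centralizer ((P : Subgroup G) : Set G)).relIndex
        (Subgroup.normalizer ((P : Subgroup G) : Set G)) =
      Nat.card (Subgroup.normalizer ((P : Subgroup G) : Set G)) := by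
    have := Subgroup.relIndex_mul_relIndex ⊥ (Subgroup.centralizer ((P : Subgroup G) : Set G))
      (Subgroup.normalizer ((P : Subgroup G) : Set G)) bot_le hCN
    rwa [Subgroup.relIndex_bot_left, Subgroup.relIndex_bot_left] at this
  have hNidx : (Subgroup.normalizer ((P : Subgroup G) : Set G)).index = 21 := by
    exact (Sylow.card_eq_index_normalizer P).symm.trans h.h21
  have hNG : Nat.card (Subgroup.normalizer ((P : Subgroup G) : Set G)) * 21 = Nat.card G := by
    rw [← hNidx]; exact Subgroup.card_mul_index _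
  have hCstab : Subgroup.centralizer ((P : Subgroup G) : Set G) ≤ MulAction.stabilizer G P := by
    rw [hNstab]; exact hCN
  have hNstab' : Subgroup.normalizer ((P : Subgroup G) : Set G) ≤ MulAction.stabilizer G P := by
    rw [hNstab]
  have hCorb := orb_stab (Subgroup.centralizer ((P : Subgroup G) : Set G)) R
  have hCle := orb_le h P R hPR _ hCstab
  have hNorb := orb_stab (Subgroup.normalizer ((P : Subgroup G) : Set G)) R
  have hNle := orb_le h P R hPR _ hNstab'
  have he := card_CR h P R hPR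
  have h5C : 5 ∣ Nat.card (Subgroup.centralizer ((P : Subgroup G) : Set G)) := by
    have := Subgroup.card_dvd_of_le (p_le_cent h P)
    rwa [h.hcard P] at this
  have hCpos : 0 < Nat.card (Subgroup.centralizer ((P : Subgroup G) : Set G)) := Nat.card_pos
  have hWle : ∀ y ∈ Subgroup.normalizer ((P : Subgroup G) : Set G) ⊓ MulAction.stabilizer G R,
      y ∉ Subgroup.centralizer ((P : Subgroup G) : Set G) → False := by
    intro y hyW hyC
    have hyN : y • P = P := Sylow.smul_eq_iff_mem_normalizer.2 hyW.1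
    obtain ⟨i, hi2, hiN, hiC, hiR⟩ := exists_inv h P R hPR hyN hyC hyW.2
    exact inv_false h P R hPR hi2 hiN hiC hiR
  have hWcard : Nat.card ↥(Subgroup.normalizer ((P : Subgroup G) : Set G) ⊓
      MulAction.stabilizer G R) ≤
      Nat.card ↥(Subgroup.centralizer ((P : Subgroup G) : Set G) ⊓ MulAction.stabilizer G R) := by
    apply Subgroup.card_le_of_le
    intro y hy
    refine ⟨?_, hy.2⟩
    by_contra hyC
    exact hWle y hy hyC
  generalize Nat.card ↥(Subgroup.normalizer ((P : Subgroup G) : Set G) ⊓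
      MulAction.stabilizer G R) = cw at hNorb hWcard
  generalize (MulAction.orbit (Subgroup.normalizer ((P : Subgroup G) : Set G)) R).ncard = bn
    at hNorb hNle
  generalize Nat.card ↥(Subgroup.centralizer ((P : Subgroup G) : Set G) ⊓
      MulAction.stabilizer G R) = e at hCorb he hWcard
  generalize (MulAction.orbit (Subgroup.centralizer ((P : Subgroup G) : Set G)) R).ncard = a
    at hCorb hCle
  generalize (Subgroup.centralizer ((P : Subgroup G) : Set G)).relIndex
      (Subgroup.normalizer ((P : Subgroup G) : Set G)) = d at hd hCNcard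
  have hd0 : 0 < d := Nat.pos_of_ne_zero (fun e0 => by rw [e0] at hd; simp at hd)
  have he0 : 0 < e := by rcases he with he | he <;> omega
  have ha0 : 0 < a := by
    rcases Nat.eq_zero_or_pos a with h0 | h0
    · exfalso
      rw [h0, zero_mul] at hCorb
      omega
    · exact h0
  have h5a : 5 ∣ a := by
    rw [← hCorb] at h5C
    rcases he with he | he
    · rw [he, mul_one] at h5C; exact h5C
    · rw [he] at h5C
      exact (Nat.Coprime.dvd_of_dvd_mul_right (by norm_num) h5C)
  by_cases hda : d * a ≤ 20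
  · have hw : d * a = 5 ∨ d * a = 10 ∨ d * a = 15 ∨ d * a = 20 := by
      have h1 : 5 ∣ d * a := Dvd.dvd.mul_left h5a d
      have h3 : 0 < d * a := Nat.mul_pos hd0 ha0
      omega
    have hG : Nat.card G = 21 * (d * a * e) := by
      rw [← hNG, ← hCNcard, ← hCorb]; ring
    have hC7 : ¬ 7 ∣ Nat.card ↥(Subgroup.centralizer ((P : Subgroup G) : Set G)) := by
      rw [← hCorb]
      intro h7
      obtain ⟨a', ha'⟩ := h5a
      rcases he with he | he
      · rw [he, mul_one] at h7; omega
      · rw [he] at h7; omega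
    exact seven_false h P (d * a) e hG hw he hC7
  · push Not at hda
    have h1 : bn * cw = a * e * d := by
      rw [hNorb, ← hCNcard, ← hCorb]
    have h2 : bn * cw ≤ 20 * e := Nat.mul_le_mul hNle hWcard
    have h3 : 20 * e < a * e * d := by nlinarith
    omega

end ctx3

theorem aux.{u} : ∀ (n : ℕ) (G : Type u) [Group G] [Finite G], Nat.card G = n →
    Nat.card (Sylow 5 G) ≠ 21 := by
  intro n
  induction n using Nat.strong_induction_on with
  | _ n ih =>
  intro G _ _ hn h21
  have hsub : ∀ M : Subgroup G, (∀ Q : Sylow 5 G, (Q : Subgroup G) ≤ M) → M = ⊤ := by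
    intro M hM
    by_contra hne
    have hlt : Nat.card M < n := by
      rw [← hn]
      have h1 := Subgroup.card_mul_index M
      have h2 : M.index ≠ 1 := fun h => hne (Subgroup.index_eq_one.1 h)
      have h3 : M.index ≠ 0 := Subgroup.index_ne_zero_of_finite
      have h4 : 0 < Nat.card M := Nat.card_pos
      have h5 : 2 ≤ M.index := by omega
      nlinarith
    exact ih _ hlt M rfl ((card_sylow_subgroup_eq M hM).trans h21)
  have hnorm : ∀ M : Subgroup G, M.Normal → ¬ 5 ∣ M.index → M = ⊤ := by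
    intro M hM h5
    exact hsub M (fun Q => sylow_le_of_not_dvd_index M h5 Q)
  set K := (MulAction.toPermHom G (Sylow 5 G)).ker with hKdef
  have hKmem : ∀ g : G, g ∈ K ↔ ∀ Q : Sylow 5 G, g • Q = Q := by
    intro g
    rw [hKdef, MonoidHom.mem_ker]
    constructor
    · intro h Q
      have := congrArg (fun σ : Equiv.Perm (Sylow 5 G) => σ Q) h
      simpa using this
    · intro h
      apply Equiv.ext
      intro Q
      simpa using h Q
  have hK : K = ⊥ := by
    by_contra hne
    have hKnorm : ∀ Q : Sylow 5 G, K ≤ Subgroup.normalizer ((Q : Subgroup G) : Set G) :=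
      fun Q g hg => Sylow.smul_eq_iff_mem_normalizer.1 ((hKmem g).1 hg Q)
    have hlt : Nat.card (G ⧸ K) < n := by
      rw [← hn, ← Subgroup.index_eq_card]
      have h1 := Subgroup.card_mul_index K
      have h2 : 1 < Nat.card K := (Subgroup.one_lt_card_iff_ne_bot K).2 hne
      have h3 : 0 < K.index := Nat.pos_of_ne_zero Subgroup.index_ne_zero_of_finite
      nlinarith
    exact ih _ hlt (G ⧸ K) rfl ((card_sylow_quotient_eq K hKnorm).trans h21)
  have hfaith : ∀ g : G, (∀ Q : Sylow 5 G, g • Q = Q) → g = 1 := by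
    intro g hg
    have : g ∈ K := (hKmem g).2 hg
    rw [hK] at this
    exact Subgroup.mem_bot.1 this
  have hlt25 : Nat.card (Sylow 5 G) < 5 ^ 2 := by rw [h21]; norm_num
  have hint : ∀ P Q : Sylow 5 G, P ≠ Q → (P : Subgroup G) ⊓ Q = ⊥ := by
    intro P Q hPQ
    rw [eq_bot_iff]
    intro x hx
    rw [Subgroup.mem_bot]
    apply hfaith
    intro X
    rw [Sylow.smul_eq_iff_mem_normalizer]
    exact Subgroup.le_normalizer (inf_le_sylow hlt25 P Q hPQ X hx)
  have hnt : Nontrivial (Sylow 5 G) := by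
    rw [← Finite.one_lt_card_iff_nontrivial, h21]; norm_num
  have hcard : ∀ P : Sylow 5 G, Nat.card (P : Subgroup G) = 5 := by
    intro P
    obtain ⟨Q, hQ⟩ := exists_ne P
    rw [card_eq_mul_card_inf hlt25 P Q (Ne.symm hQ), hint P Q (Ne.symm hQ), Subgroup.card_bot]
  have hinv : ∀ g : G, g * g = 1 → Nat.card (MulAction.fixedBy (Sylow 5 G) g) % 4 = 1 := by
    classical
    haveI : Fintype (Sylow 5 G) := Fintype.ofFinite _
    intro g hg2
    by_cases hg1 : g = 1
    · subst hg1
      have : MulAction.fixedBy (Sylow 5 G) (1 : G) = Set.univ := by ext X; simp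
      rw [this, Nat.card_coe_set_eq, Set.ncard_univ, h21]
    · set σ := MulAction.toPermHom G (Sylow 5 G) g with hσ
      have hσ2 : σ ^ 2 = 1 := by rw [hσ, ← map_pow, pow_two, hg2, map_one]
      have hσne : σ ≠ 1 := by
        intro e
        apply hg1
        apply hfaith
        intro Q
        have := congrArg (fun τ : Equiv.Perm (Sylow 5 G) => τ Q) e
        simpa [hσ] using this
      set φ : G →* ℤˣ := Equiv.Perm.sign.comp (MulAction.toPermHom G (Sylow 5 G)) with hφ
      have hidx : φ.ker.index ∣ 2 := by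
        rw [Subgroup.index_ker]
        have h3 : Nat.card φ.range ∣ Nat.card ℤˣ := Subgroup.card_subgroup_dvd_card _
        rwa [Nat.card_eq_fintype_card (α := ℤˣ), Fintype.card_units_int] at h3
      have h5 : ¬ 5 ∣ φ.ker.index := by
        intro h
        have := Nat.le_of_dvd (by norm_num) (h.trans hidx)
        omega
      have htop := hnorm φ.ker inferInstance h5
      have hgk : g ∈ φ.ker := by rw [htop]; trivial
      have hsign : Equiv.Perm.sign σ = 1 := MonoidHom.mem_ker.1 hgk
      have : Fact (Nat.Prime 2) := ⟨Nat.prime_two⟩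
      have ho : orderOf σ = 2 := orderOf_eq_prime hσ2 hσne
      obtain ⟨m, hm⟩ := Equiv.Perm.cycleType_prime_order (σ := σ)
        (by rw [ho]; exact Nat.prime_two)
      rw [ho] at hm
      have h1 := Equiv.Perm.sum_cycleType σ
      rw [hm, Multiset.sum_replicate, smul_eq_mul] at h1
      have hs := Equiv.Perm.sign_of_cycleType σ
      rw [hm, Multiset.sum_replicate, Multiset.card_replicate, smul_eq_mul, hsign] at hs
      have heven : Even (m + 1) := by
        by_contra hodd
        rw [Nat.not_even_iff_odd] at hodd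
        have h3 : Odd ((m + 1) * 2 + (m + 1)) := by
          obtain ⟨j, hj⟩ := hodd
          exact ⟨3 * j + 1, by rw [hj]; ring⟩
        rw [h3.neg_one_pow] at hs
        exact absurd hs (by decide)
      have hc : Nat.card (MulAction.fixedBy (Sylow 5 G) g) =
          (Finset.univ.filter (fun x : Sylow 5 G => g • x = x)).card := by
        rw [Nat.card_eq_fintype_card, ← Fintype.card_coe]
        apply Fintype.card_congr
        exact Equiv.subtypeEquivRight (by intro x; simp [MulAction.mem_fixedBy])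
      have hsupp : σ.support = Finset.univ.filter (fun x : Sylow 5 G => ¬ g • x = x) := by
        ext x; simp [Equiv.Perm.mem_support, hσ]
      have hsum := Finset.card_filter_add_card_filter_not
        (s := (Finset.univ : Finset (Sylow 5 G))) (fun x => g • x = x)
      rw [← hc, ← hsupp, Finset.card_univ, ← Nat.card_eq_fintype_card, h21] at hsum
      obtain ⟨j, hj⟩ := heven
      omega
  exact ctx_false ⟨h21, hfaith, hint, hcard, hinv⟩

/-- No finite group has exactly twenty-one Sylow 5-subgroups. -/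
theorem result {G : Type*} [Group G] [Finite G] : Nat.card (Sylow 5 G) ≠ 21 := by
  exact aux _ G rfl

end Cfsg.Agent.S1010
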