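import Mathlib
import Cfsg.Statements.S1013

set_option autoImplicit false
open Cfsg

namespace Cfsg.Agent.S1013

theorem trans_of_normal {α : Type*} [Finite α] {H : Type*} [Group H] [MulAction H α]
    [MulAction.IsPretransitive H α] (hf : ∀ x : H, (∀ a : α, x • a = a) → x = 1)
    (hp : (Nat.card α).Prime) (N : Subgroup H) [N.Normal] (hne : N ≠ ⊥) :
    MulAction.IsPretransitive ↥N α := by
  have : MulAction.IsPreprimitive H α := MulAction.IsPreprimitive.of_prime_card hp
  apply MulAction.IsQuasiPreprimitive.isPretransitive_of_normal (G := H)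
  intro h
  apply hne
  rw [Subgroup.eq_bot_iff_forall]
  intro x hx
  apply hf
  intro a
  have : a ∈ MulAction.fixedPoints ↥N α := by rw [h]; trivial
  exact this ⟨x, hx⟩

theorem dvd_card_of_trans {α : Type*} [Finite α] {H : Type*} [Group H] [Finite H] [MulAction H α]
    [MulAction.IsPretransitive H α] [Nonempty α] : Nat.card α ∣ Nat.card H := by
  obtain ⟨a⟩ := ‹Nonempty α›
  rw [← MulAction.index_stabilizer_of_transitive H a]
  exact Subgroup.index_dvd_card _

theorem not_sq_dvd_fact {p : ℕ} (hp : p.Prime) : ¬ p ^ 2 ∣ p.factorial := by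
  intro h
  have h1 : p.factorial = p * (p - 1).factorial := by
    have : p = (p - 1) + 1 := by have := hp.pos; omega
    conv_lhs => rw [this, Nat.factorial_succ]
    rw [← this]
  rw [h1, pow_two] at h
  have h2 : p ∣ (p - 1).factorial := (Nat.mul_dvd_mul_iff_left hp.pos).mp h
  have h3 := (hp.dvd_factorial).mp h2
  have := hp.pos
  omega

theorem result {α : Type*} [Fintype α] [DecidableEq α] {p : ℕ} [Fact p.Prime] (hα : Fintype.card α = p) (G : Subgroup (Equiv.Perm α)) [MulAction.IsPretransitive ↥G α] (P : Sylow p ↥G) (hn : 1 < Nat.card (Sylow p ↥G)) (ht : (((P : Subgroup ↥G).subgroupOf (Subgroup.normalizer ((P : Subgroup ↥G) : Set ↥G))).index).Prime) : IsSimpleGroup ↥G := by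
  have hp : p.Prime := Fact.out
  have hcα : Nat.card α = p := by rw [Nat.card_eq_fintype_card, hα]
  have hpα : (Nat.card α).Prime := by rw [hcα]; exact hp
  have : Nonempty α := by
    have : 0 < Nat.card α := by rw [hcα]; exact hp.pos
    exact (Nat.card_pos_iff.mp this).1
  have hfG : ∀ x : ↥G, (∀ a : α, x • a = a) → x = 1 := by
    intro x hx
    apply Subtype.ext
    apply Equiv.ext
    intro a
    exact hx a
  have hGdvd : Nat.card ↥G ∣ p.factorial := by
    have := Subgroup.card_subgroup_dvd_card G
    rwa [Nat.card_eq_fintype_card (α := Equiv.Perm α), Fintype.card_perm, hα] at this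
  have hpG : p ∣ Nat.card ↥G := by
    have := dvd_card_of_trans (α := α) (H := ↥G)
    rwa [hcα] at this
  have hnsq : ¬ p ^ 2 ∣ Nat.card ↥G := fun h => not_sq_dvd_fact hp (h.trans hGdvd)
  have hcP : Nat.card ↥(P : Subgroup ↥G) = p := by
    obtain ⟨k, hk⟩ := (IsPGroup.iff_card.mp P.2)
    have h1 : p ∣ Nat.card ↥(P : Subgroup ↥G) := P.dvd_card_of_dvd_card hpG
    have h2 : Nat.card ↥(P : Subgroup ↥G) ∣ Nat.card ↥G := Subgroup.card_subgroup_dvd_card _
    rw [hk] at h1 h2 ⊢
    have hk1 : k ≠ 0 := by
      rintro rfl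
      simp at h1
      exact hp.one_lt.ne' h1
    have hk2 : k < 2 := by
      by_contra hk2
      push Not at hk2
      exact hnsq ((pow_dvd_pow p hk2).trans h2)
    have : k = 1 := by omega
    rw [this, pow_one]
  have hPcomm : ∀ x ∈ (P : Subgroup ↥G), ∀ y ∈ (P : Subgroup ↥G), x * y = y * x := by
    have : IsCyclic ↥(P : Subgroup ↥G) := isCyclic_of_prime_card hcP
    intro x hx y hy
    have := (IsCyclic.isMulCommutative (α := ↥(P : Subgroup ↥G))).is_comm.comm ⟨x, hx⟩ ⟨y, hy⟩
    exact congrArg Subtype.val this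
  have : Nontrivial ↥G := by
    by_contra h
    rw [not_nontrivial_iff_subsingleton] at h
    have : Nat.card ↥G = 1 := Nat.card_unique
    rw [this] at hpG
    exact hp.one_lt.ne' (Nat.dvd_one.mp hpG)
  refine IsSimpleGroup.mk ?_
  intro N hN
  by_cases hne : N = ⊥
  · exact Or.inl hne
  right
  have hNt : MulAction.IsPretransitive ↥N α := trans_of_normal hfG hpα N hne
  have hpN : p ∣ Nat.card ↥N := by
    have := dvd_card_of_trans (α := α) (H := ↥N)
    rwa [hcα] at this
  have hidx : ¬ p ∣ N.index := by
    intro h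
    apply hnsq
    rw [← Subgroup.card_mul_index N, pow_two]
    exact Nat.mul_dvd_mul hpN h
  have hPN : (P : Subgroup ↥G) ≤ N := by
    intro x hx
    have h1 : x ^ N.index ∈ N := Subgroup.pow_index_mem N x
    have h2 : orderOf x ∣ p := by
      have := orderOf_dvd_natCard (⟨x, hx⟩ : ↥(P : Subgroup ↥G))
      rw [hcP] at this
      rwa [Subgroup.orderOf_mk] at this
    have h3 : (N.index).Coprime (orderOf x) := by
      rcases (Nat.dvd_prime hp).mp h2 with h | h
      · rw [h]; exact Nat.coprime_one_right _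
      · rw [h]; exact ((Nat.Prime.coprime_iff_not_dvd hp).mpr hidx).symm
    obtain ⟨m, hm⟩ := exists_pow_eq_self_of_coprime h3
    rw [← hm]
    exact N.pow_mem h1 m
  have hfr : Subgroup.normalizer ((P : Subgroup ↥G) : Set ↥G) ⊔ N = ⊤ :=
    Sylow.normalizer_sup_eq_top' P hPN
  set Nm := Subgroup.normalizer ((P : Subgroup ↥G) : Set ↥G) with hNm
  have hPNm : (P : Subgroup ↥G) ≤ Nm := Subgroup.le_normalizer
  have hmul : (P : Subgroup ↥G).relIndex (N ⊓ Nm) * (N ⊓ Nm).relIndex Nm = (P : Subgroup ↥G).relIndex Nm :=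
    Subgroup.relIndex_mul_relIndex _ _ _ (le_inf hPN hPNm) inf_le_right
  have ht' : ((P : Subgroup ↥G).relIndex Nm).Prime := ht
  rw [← hmul] at ht'
  rcases (Nat.prime_mul_iff.mp ht') with ⟨_, h1⟩ | ⟨_, h1⟩
  · have hle : Nm ≤ N := by
      have := Subgroup.relIndex_eq_one.mp h1
      exact fun x hx => (this hx).1
    rw [sup_eq_right.mpr hle] at hfr
    exact hfr
  · exfalso
    have hle : N ⊓ Nm ≤ (P : Subgroup ↥G) := Subgroup.relIndex_eq_one.mp h1
    set PN : Sylow p ↥N := P.subtype hPN with hPNdef
    have hcoe : (PN : Subgroup ↥N) = (P : Subgroup ↥G).subgroupOf N := Sylow.coe_subtype P hPN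
    have hnc : Subgroup.normalizer ((PN : Subgroup ↥N) : Set ↥N) ≤ Subgroup.centralizer ((PN : Subgroup ↥N) : Set ↥N) := by
      intro x hx
      have hxP : (x : ↥G) ∈ (P : Subgroup ↥G) := by
        apply hle
        rw [Subgroup.mem_inf]
        refine ⟨x.2, ?_⟩
        rw [hNm, Subgroup.mem_normalizer_iff]
        intro y
        constructor
        · intro hy
          by_cases hyN : y ∈ N
          · have := (Subgroup.mem_normalizer_iff.mp hx ⟨y, hyN⟩).mp (by rw [hcoe]; exact hy)
            rw [hcoe] at this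
            exact this
          · exact absurd (hPN hy) hyN
        · intro hy
          have hyN : y ∈ N := by
            have h2 := hPN hy
            have h3 : y = (x : ↥G)⁻¹ * ((x : ↥G) * y * (x : ↥G)⁻¹) * (x : ↥G) := by group
            rw [h3]
            exact N.mul_mem (N.mul_mem (N.inv_mem x.2) h2) x.2
          have := (Subgroup.mem_normalizer_iff.mp hx ⟨y, hyN⟩).mpr (by rw [hcoe]; exact hy)
          rw [hcoe] at this
          exact this
      rw [Subgroup.mem_centralizer_iff]
      intro y hy
      rw [SetLike.mem_coe, hcoe] at hy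
      apply Subtype.ext
      exact hPcomm _ hy _ hxP
    set K := (MonoidHom.transferSylow PN hnc).ker with hK
    have hcompl : Subgroup.IsComplement' K (PN : Subgroup ↥N) := MonoidHom.ker_transferSylow_isComplement' PN hnc
    have hKp : ¬ p ∣ Nat.card ↥K := MonoidHom.not_dvd_card_ker_transferSylow PN hnc
    have hfN : ∀ x : ↥N, (∀ a : α, x • a = a) → x = 1 := by
      intro x hx
      apply Subtype.ext
      exact hfG x.1 hx
    have hKbot : K = ⊥ := by
      by_contra hKne
      have : K.Normal := MonoidHom.normal_ker _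
      have : MulAction.IsPretransitive ↥K α := trans_of_normal hfN hpα K hKne
      have := dvd_card_of_trans (α := α) (H := ↥K)
      rw [hcα] at this
      exact hKp this
    have hcard := hcompl.card_mul_card
    rw [hKbot, Subgroup.card_bot, one_mul] at hcard
    have htop : (PN : Subgroup ↥N) = ⊤ := Subgroup.eq_top_of_card_eq _ hcard
    have hNP : N ≤ (P : Subgroup ↥G) := by
      intro x hx
      have : (⟨x, hx⟩ : ↥N) ∈ (PN : Subgroup ↥N) := by rw [htop]; trivial
      rw [hcoe] at this
      exact this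
    have hEq : (P : Subgroup ↥G) = N := le_antisymm hPN hNP
    have hPnormal : (P : Subgroup ↥G).Normal := by rw [hEq]; exact hN
    have := Sylow.unique_of_normal P hPnormal
    have : Nat.card (Sylow p ↥G) = 1 := Nat.card_unique
    omega

end Cfsg.Agent.S1013
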