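import Cfsg.Statements.S1014
import Mathlib
import Cfsg.Agent.Lib.Helper13.SmallSimple
import Cfsg.Agent.S1018

set_option autoImplicit false
open Cfsg

namespace Cfsg.Agent.S1014

open Cfsg.Agent.Lib.Helper13.SmallSimple Cfsg.Agent.Lib.Helper2.SimpleIndex

/-- No finite simple group has order 1104 = 2^4 * 3 * 23. -/
theorem result {G : Type*} [Group G] [Finite G] [IsSimpleGroup G] : Nat.card G ≠ 1104 := by
  classical
  intro hN
  have : Fact (Nat.Prime 23) := ⟨by norm_num⟩
  have : Fact (Nat.Prime 2) := ⟨by norm_num⟩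
  obtain ⟨P⟩ : Nonempty (Sylow 23 G) := inferInstance
  have hP : Nat.card (P : Subgroup G) = 23 := by
    have := sylow_card_of 1 48 (by rw [hN]; norm_num) (by norm_num) P
    simpa using this
  have hidx : (P : Subgroup G).index = 48 :=
    sylow_index_of 1 48 (by rw [hN]; norm_num) (by norm_num) P
  have hdvd := P.card_dvd_index
  rw [hidx] at hdvd
  have hmod : Nat.card (Sylow 23 G) % 23 = 1 := card_sylow_modEq_one 23 G
  have hne := card_sylow_ne_one P (by rw [hP]; norm_num) (by rw [hP, hN]; norm_num)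
  have hNP := card_normalizer_mul P
  have h24 : Nat.card (Sylow 23 G) = 24 := by
    obtain ⟨n, hn⟩ : ∃ n, n = Nat.card (Sylow 23 G) := ⟨_, rfl⟩
    rw [← hn] at hdvd hmod hne ⊢
    have hle : n ≤ 48 := Nat.le_of_dvd (by norm_num) hdvd
    have h0 : 48 % n = 0 := Nat.mod_eq_zero_of_dvd hdvd
    interval_cases n <;> omega
  rw [h24, hN] at hNP
  obtain ⟨hfix1, hfix2⟩ := Cfsg.Agent.S1018.result 23 P hP
  obtain ⟨N, hNdef⟩ : ∃ N : Subgroup G, N = Subgroup.normalizer ((P : Subgroup G) : Set G) :=
    ⟨_, rfl⟩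
  rw [← hNdef] at hNP hfix1 hfix2
  have hNP' : Nat.card N = 46 := by omega
  have hidxN : N.index = 24 := by
    rw [hNdef]; exact (Sylow.card_eq_index_normalizer P).symm.trans h24
  have hPN : (P : Subgroup G) ≤ N := hNdef ▸ Subgroup.le_normalizer
  by_cases hNC : N ≤ Subgroup.centralizer ((P : Subgroup G) : Set G)
  · exact false_of_normalizer_le_centralizer P (by rw [hP]; norm_num) (by rw [hP, hN]; norm_num)
      (hNdef ▸ hNC)
  -- an involution t ∈ N
  obtain ⟨t, ht⟩ := exists_prime_orderOf_dvd_card' (G := ↥N) 2 (by rw [hNP']; norm_num)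
  have htG : orderOf (t : G) = 2 := by rw [Subgroup.orderOf_coe]; exact ht
  have htC : (t : G) ∉ Subgroup.centralizer ((P : Subgroup G) : Set G) := by
    intro htC
    apply hNC
    have hle : (P : Subgroup G) ⊔ Subgroup.zpowers (t : G) ≤ N :=
      sup_le hPN (by rw [Subgroup.zpowers_le]; exact t.2)
    have h23 : 23 ∣ Nat.card ((P : Subgroup G) ⊔ Subgroup.zpowers (t : G) : Subgroup G) := by
      have := Subgroup.card_dvd_of_le
        (le_sup_left : (P : Subgroup G) ≤ (P : Subgroup G) ⊔ Subgroup.zpowers (t : G))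
      rwa [hP] at this
    have h2 : 2 ∣ Nat.card ((P : Subgroup G) ⊔ Subgroup.zpowers (t : G) : Subgroup G) := by
      have := Subgroup.card_dvd_of_le
        (le_sup_right : Subgroup.zpowers (t : G) ≤ (P : Subgroup G) ⊔ Subgroup.zpowers (t : G))
      rwa [Nat.card_zpowers, htG] at this
    have h46 : 2 * 23 ∣ Nat.card ((P : Subgroup G) ⊔ Subgroup.zpowers (t : G) : Subgroup G) :=
      Nat.Coprime.mul_dvd_of_dvd_of_dvd (by norm_num) h2 h23
    have heq : (P : Subgroup G) ⊔ Subgroup.zpowers (t : G) = N :=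
      Subgroup.eq_of_le_of_card_ge hle (by rw [hNP']; exact Nat.le_of_dvd Nat.card_pos h46)
    rw [← heq]
    refine sup_le ?_ (by rw [Subgroup.zpowers_le]; exact htC)
    intro x hx
    rw [Subgroup.mem_centralizer_iff]
    intro y hy
    have hcyc : IsCyclic (P : Subgroup G) := isCyclic_of_prime_card hP
    have hc := (IsCyclic.isMulCommutative (α := ↥(P : Subgroup G))).is_comm.comm ⟨y, hy⟩ ⟨x, hx⟩
    exact congrArg Subtype.val hc
  have hfixt := hfix2 (t : G) t.2 htC
  -- number of P-orbits on G/N is 2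
  have : Fintype ↥(P : Subgroup G) := Fintype.ofFinite _
  have : Fintype (G ⧸ N) := Fintype.ofFinite _
  have horb : Nat.card (MulAction.orbitRel.Quotient ↥(P : Subgroup G) (G ⧸ N)) = 2 := by
    have : Fintype (Quotient (MulAction.orbitRel ↥(P : Subgroup G) (G ⧸ N))) := Fintype.ofFinite _
    have key := MulAction.sum_card_fixedBy_eq_card_orbits_mul_card_group ↥(P : Subgroup G) (G ⧸ N)
    simp only [Fintype.card_eq_nat_card] at key
    have hsum : ∑ g : ↥(P : Subgroup G), Nat.card (MulAction.fixedBy (G ⧸ N) g) = 46 := by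
      rw [← Finset.add_sum_erase Finset.univ _ (Finset.mem_univ (1 : ↥(P : Subgroup G)))]
      have h1 : Nat.card (MulAction.fixedBy (G ⧸ N) (1 : ↥(P : Subgroup G))) = 24 := by
        rw [MulAction.fixedBy_one_eq_univ, Nat.card_congr (Equiv.Set.univ _),
          ← Subgroup.index_eq_card, hidxN]
      have h2 : ∑ x ∈ Finset.univ.erase (1 : ↥(P : Subgroup G)),
          Nat.card (MulAction.fixedBy (G ⧸ N) x) = 22 := by
        rw [Finset.sum_congr rfl (g := fun _ => 1)]
        · rw [Finset.sum_const, Finset.card_erase_of_mem (Finset.mem_univ _), Finset.card_univ,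
            Fintype.card_eq_nat_card, hP]
          rfl
        · intro x hx
          have hx1 : x ≠ 1 := Finset.ne_of_mem_erase hx
          have hord : orderOf (x : G) = 23 := by
            rw [Subgroup.orderOf_coe]
            have hd := orderOf_dvd_natCard x
            rw [hP] at hd
            rcases (Nat.dvd_prime (by norm_num : Nat.Prime 23)).mp hd with h | h
            · exact absurd (orderOf_eq_one_iff.mp h) hx1
            · exact h
          exact hfix1 (x : G) hord
      rw [h1, h2]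
    rw [hsum, hP] at key
    have : Nat.card (MulAction.orbitRel.Quotient ↥(P : Subgroup G) (G ⧸ N)) =
        Nat.card (Quotient (MulAction.orbitRel ↥(P : Subgroup G) (G ⧸ N))) := rfl
    omega
  rw [horb] at hfixt
  -- the permutation of G/N induced by t
  obtain ⟨σ, hσ⟩ : ∃ σ : Equiv.Perm (G ⧸ N), σ = MulAction.toPermHom G (G ⧸ N) (t : G) :=
    ⟨_, rfl⟩
  have hσ2 : σ ^ 2 = 1 := by rw [hσ, ← map_pow, ← htG, pow_orderOf_eq_one, map_one]
  have hfixeq : Function.fixedPoints σ = MulAction.fixedBy (G ⧸ N) (t : G) := by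
    ext x; rw [hσ]; rfl
  have hsign := Equiv.Perm.sign_of_pow_two_eq_one hσ2
  have hct := Equiv.Perm.cycleType_of_pow_prime_eq_one hσ2
  have hc24 : Fintype.card (G ⧸ N) = 24 := by
    rw [Fintype.card_eq_nat_card, ← Subgroup.index_eq_card, hidxN]
  have hfp := Equiv.Perm.card_fixedPoints σ
  have hk := Equiv.Perm.sum_cycleType_le σ
  have hsumct : σ.cycleType.sum = Multiset.card σ.cycleType * 2 := by
    rw [hct, Multiset.sum_replicate, smul_eq_mul, Multiset.card_replicate]
  rw [hsumct, hc24] at hfp hk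
  simp only [Fintype.card_eq_nat_card] at hfp hsign
  rw [hfixeq] at hfp hsign
  have hmem : (QuotientGroup.mk (1 : G) : G ⧸ N) ∈ MulAction.fixedBy (G ⧸ N) (t : G) := by
    rw [MulAction.mem_fixedBy, Cfsg.Agent.S1018.fixed_iff]
    simp
  have hpos : 0 < Nat.card (MulAction.fixedBy (G ⧸ N) (t : G)) :=
    Nat.card_pos_iff.mpr ⟨⟨⟨_, hmem⟩⟩, inferInstance⟩
  have hfix2' : Nat.card (MulAction.fixedBy (G ⧸ N) (t : G)) = 2 := by omega
  have hc24' : Nat.card (G ⧸ N) = 24 := by rw [← Subgroup.index_eq_card, hidxN]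
  rw [hfix2', hc24'] at hsign
  have hs : Equiv.Perm.sign σ = -1 := by rw [hsign]; decide
  have h1 := hom_int_units_eq_one (by rw [hN]; norm_num)
    (Equiv.Perm.sign.comp (MulAction.toPermHom G (G ⧸ N))) (t : G)
  rw [MonoidHom.comp_apply, ← hσ, hs] at h1
  exact absurd h1 (by decide)

end Cfsg.Agent.S1014
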