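import Cfsg.Statements.S1015
import Mathlib
import Cfsg.Agent.Lib.Helper13.SmallSimple
import Cfsg.Agent.S1018

set_option autoImplicit false
open Cfsg

namespace Cfsg.Agent.S1015

open Cfsg.Agent.Lib.Helper13.SmallSimple Cfsg.Agent.Lib.Helper2.SimpleIndex

/-- A non-identity element of `P` fixing another Sylow subgroup `Q`, when the orbit of `Q` under
`P` is shorter than `|P|`. -/
theorem exists_mem_inf {G : Type*} [Group G] [Finite G] {p : ℕ} [Fact p.Prime] (P Q : Sylow p G)
    (hPQ : Q ≠ P) (hlt : Nat.card (Sylow p G) ≤ Nat.card (P : Subgroup G)) :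
    ∃ u : G, u ≠ 1 ∧ u ∈ (P : Subgroup G) ∧ u ∈ (Q : Subgroup G) := by
  have h1 : (MulAction.stabilizer ↥(P : Subgroup G) Q).index < Nat.card (P : Subgroup G) := by
    rw [MulAction.index_stabilizer]
    have hne : MulAction.orbit ↥(P : Subgroup G) Q ≠ Set.univ := by
      intro h
      have hP : P ∈ MulAction.orbit ↥(P : Subgroup G) Q := by rw [h]; exact Set.mem_univ _
      obtain ⟨v, hv⟩ := hP
      have hv' : (v : G) • Q = P := hv
      have h2 : Q = (v : G)⁻¹ • P := eq_inv_smul_iff.mpr hv'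
      have h3 : (v : G)⁻¹ • P = P :=
        Sylow.smul_eq_iff_mem_normalizer.mpr (Subgroup.le_normalizer (inv_mem v.2))
      exact hPQ (h2.trans h3)
    exact lt_of_lt_of_le (Set.ncard_lt_card hne) hlt
  have h2 := (MulAction.stabilizer ↥(P : Subgroup G) Q).card_mul_index
  have h3 : 1 < Nat.card (MulAction.stabilizer ↥(P : Subgroup G) Q) := by
    by_contra hle
    push Not at hle
    have hpos : 0 < Nat.card (MulAction.stabilizer ↥(P : Subgroup G) Q) := Nat.card_pos
    have h4 : Nat.card (MulAction.stabilizer ↥(P : Subgroup G) Q) = 1 := by omega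
    rw [h4, one_mul] at h2
    omega
  rw [Subgroup.one_lt_card_iff_ne_bot, Subgroup.ne_bot_iff_exists_ne_one] at h3
  obtain ⟨⟨v, hv⟩, hv1⟩ := h3
  refine ⟨(v : G), ?_, v.2, ?_⟩
  · intro h
    apply hv1
    apply Subtype.ext
    apply Subtype.ext
    exact h
  · have hv' : (v : G) • Q = Q := hv
    rw [Sylow.smul_eq_iff_mem_normalizer] at hv'
    obtain ⟨k, hk⟩ := IsPGroup.iff_card.mp P.2
    refine Cfsg.Agent.S1018.mem_of_mem_normalizer Q (v : G) hv' k ?_
    have h5 := pow_card_eq_one' (G := ↥(P : Subgroup G)) (x := v)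
    rw [hk] at h5
    exact_mod_cast congrArg Subtype.val h5

/-- No finite simple group has order 1200 = 2^4 * 3 * 5^2. -/
theorem result {G : Type*} [Group G] [Finite G] [IsSimpleGroup G] : Nat.card G ≠ 1200 := by
  intro hN
  have : Fact (Nat.Prime 5) := ⟨by norm_num⟩
  obtain ⟨P⟩ : Nonempty (Sylow 5 G) := inferInstance
  have hcard : ∀ P : Sylow 5 G, Nat.card (P : Subgroup G) = 25 := by
    intro P
    have := sylow_card_of 2 48 (by rw [hN]; norm_num) (by norm_num) P
    simpa using this
  have hP := hcard P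
  -- every proper subgroup has index ≥ 10
  have hidx10 : ∀ H : Subgroup G, H ≠ ⊤ → 10 ≤ H.index := by
    intro H hH
    have h1 := card_dvd_factorial_index H hH
    rw [hN] at h1
    by_contra hlt
    push Not at hlt
    have h25 : 25 ∣ (H.index).factorial := Dvd.dvd.trans (by norm_num) h1
    have h2 : (H.index).factorial ∣ Nat.factorial 9 := Nat.factorial_dvd_factorial (by omega)
    have h3 : 25 ∣ Nat.factorial 9 := h25.trans h2
    revert h3
    decide
  have hidxP : (P : Subgroup G).index = 48 :=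
    sylow_index_of 2 48 (by rw [hN]; norm_num) (by norm_num) P
  have hdvd := P.card_dvd_index
  rw [hidxP] at hdvd
  have hmod : Nat.card (Sylow 5 G) % 5 = 1 := card_sylow_modEq_one 5 G
  have hge : 10 ≤ Nat.card (Sylow 5 G) := by
    rw [Sylow.card_eq_index_normalizer P]
    exact hidx10 _ (normalizer_sylow_ne_top P (by rw [hP]; norm_num) (by rw [hP, hN]; norm_num))
  have h16 : Nat.card (Sylow 5 G) = 16 := by
    obtain ⟨n, hn⟩ : ∃ n, n = Nat.card (Sylow 5 G) := ⟨_, rfl⟩
    rw [← hn] at hdvd hmod hge ⊢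
    have hle : n ≤ 48 := Nat.le_of_dvd (by norm_num) hdvd
    have h0 : 48 % n = 0 := Nat.mod_eq_zero_of_dvd hdvd
    interval_cases n <;> omega
  -- another Sylow subgroup
  obtain ⟨Q, hQP⟩ : ∃ Q : Sylow 5 G, Q ≠ P := by
    by_contra hall
    push Not at hall
    have hsub : Subsingleton (Sylow 5 G) := ⟨fun a b => (hall a).trans (hall b).symm⟩
    have := Finite.card_le_one_iff_subsingleton.mpr hsub
    omega
  obtain ⟨u, hu1, huP, huQ⟩ := exists_mem_inf P Q hQP (by rw [h16, hP]; norm_num)
  -- D = P ⊓ Q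
  obtain ⟨D, hD⟩ : ∃ D : Subgroup G, D = (P : Subgroup G) ⊓ (Q : Subgroup G) := ⟨_, rfl⟩
  have huD : u ∈ D := by rw [hD]; exact ⟨huP, huQ⟩
  have hDbot : D ≠ ⊥ := by
    intro h
    rw [h, Subgroup.mem_bot] at huD
    exact hu1 huD
  have hDtop : D ≠ ⊤ := by
    intro h
    have h1 : Nat.card D ≤ Nat.card (P : Subgroup G) :=
      Subgroup.card_le_of_le (by rw [hD]; exact inf_le_left)
    rw [h, Subgroup.card_top, hN, hP] at h1
    omega
  have hNtop : Subgroup.normalizer (D : Set G) ≠ ⊤ := by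
    intro h
    have hn : D.Normal := Subgroup.normalizer_eq_top_iff.mp h
    rcases hn.eq_bot_or_eq_top with h3 | h3
    · exact hDbot h3
    · exact hDtop h3
  have hidxN := hidx10 _ hNtop
  have hle : ∀ R : Sylow 5 G, D ≤ (R : Subgroup G) →
      (R : Subgroup G) ≤ Subgroup.normalizer (D : Set G) := by
    intro R hDR
    refine le_trans ?_ (Subgroup.centralizer_le_normalizer (D : Set G))
    intro x hx
    rw [Subgroup.mem_centralizer_iff]
    intro d hd
    have hcomm := IsPGroup.commutative_of_card_eq_prime_sq (p := 5) (G := ↥(R : Subgroup G))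
      (by rw [hcard R]; norm_num) ⟨d, hDR hd⟩ ⟨x, hx⟩
    exact congrArg Subtype.val hcomm
  have hPN := hle P (by rw [hD]; exact inf_le_left)
  have hQN := hle Q (by rw [hD]; exact inf_le_right)
  have hne : P.subtype hPN ≠ Q.subtype hQN := fun h => hQP (Sylow.subtype_injective h).symm
  have hnt : Nontrivial (Sylow 5 ↥(Subgroup.normalizer (D : Set G))) := ⟨⟨_, _, hne⟩⟩
  have h1lt := Finite.one_lt_card_iff_nontrivial.mpr hnt
  have hmod' : Nat.card (Sylow 5 ↥(Subgroup.normalizer (D : Set G))) % 5 = 1 :=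
    card_sylow_modEq_one 5 _
  obtain ⟨P', hP'⟩ : ∃ P' : Sylow 5 ↥(Subgroup.normalizer (D : Set G)), P' = P.subtype hPN :=
    ⟨_, rfl⟩
  have hdvd' := P'.card_dvd_index
  have hcardP' : Nat.card (P' : Subgroup ↥(Subgroup.normalizer (D : Set G))) = 25 := by
    rw [hP', Sylow.coe_subtype, Nat.card_congr (Subgroup.subgroupOfEquivOfLe hPN).toEquiv, hP]
  have h4 := (P' : Subgroup ↥(Subgroup.normalizer (D : Set G))).card_mul_index
  rw [hcardP'] at h4
  have h5 := (Subgroup.normalizer (D : Set G)).card_mul_index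
  rw [hN] at h5
  have h6 : 6 ≤ (P' : Subgroup ↥(Subgroup.normalizer (D : Set G))).index := by
    have hpos : 0 < (P' : Subgroup ↥(Subgroup.normalizer (D : Set G))).index := by
      rcases Nat.eq_zero_or_pos (P' : Subgroup ↥(Subgroup.normalizer (D : Set G))).index with h0 | h0
      · rw [h0] at h4
        have : 0 < Nat.card ↥(Subgroup.normalizer (D : Set G)) := Nat.card_pos
        omega
      · exact h0
    have := Nat.le_of_dvd hpos hdvd'
    omega
  nlinarith

end Cfsg.Agent.S1015
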