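import Mathlib
import Cfsg.Statements.S1019

set_option autoImplicit false
open Cfsg

namespace Cfsg.Agent.S1019

theorem count_conj {G : Type*} [Group G] [Finite G] (x : G) (T : Set G) :
    Nat.card {a : G // a⁻¹ * x * a ∈ T} =
      Nat.card {y : G // IsConj x y ∧ y ∈ T} * Nat.card {c : G // c * x = x * c} := by
  classical
  have hfin : Fintype G := Fintype.ofFinite G
  rw [Nat.card_eq_fintype_card, Nat.card_eq_fintype_card, Nat.card_eq_fintype_card,
    Fintype.card_subtype, Fintype.card_subtype, Fintype.card_subtype]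
  rw [Finset.card_eq_sum_card_fiberwise (f := fun a : G => a⁻¹ * x * a)
    (t := Finset.univ.filter (fun y : G => IsConj x y ∧ y ∈ T))]
  · apply Finset.sum_const_nat
    intro y hy
    simp only [Finset.mem_filter, Finset.mem_univ, true_and] at hy
    obtain ⟨hc, hyT⟩ := hy
    obtain ⟨b, hb⟩ := isConj_iff.mp hc
    apply Finset.card_bij (fun a _ => a * b)
    · intro a ha
      simp only [Finset.mem_filter, Finset.mem_univ, true_and] at ha ⊢
      have h1 : a⁻¹ * x * a = b * x * b⁻¹ := by rw [ha.2, hb]
      have h2 : x * a * b = a * b * x := by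
        have : a * (a⁻¹ * x * a) * b = a * (b * x * b⁻¹) * b := by rw [h1]
        rw [show a * (a⁻¹ * x * a) * b = x * a * b by group,
          show a * (b * x * b⁻¹) * b = a * b * x by group] at this
        exact this
      rw [← mul_assoc, h2]
    · intro a1 _ a2 _ h
      exact mul_right_cancel h
    · intro c hc'
      simp only [Finset.mem_filter, Finset.mem_univ, true_and] at hc'
      refine ⟨c * b⁻¹, ?_, by group⟩
      simp only [Finset.mem_filter, Finset.mem_univ, true_and]
      have h3 : (c * b⁻¹)⁻¹ * x * (c * b⁻¹) = y := by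
        rw [← hb]
        have : (c * b⁻¹)⁻¹ * x * (c * b⁻¹) = b * (c⁻¹ * (x * c)) * b⁻¹ := by group
        rw [this, ← hc']
        group
      exact ⟨by rw [h3]; exact hyT, h3⟩
  · intro a ha
    rw [Finset.mem_coe, Finset.mem_filter] at ha ⊢
    exact ⟨Finset.mem_univ _, isConj_iff.mpr ⟨a⁻¹, by group⟩, ha.2⟩

theorem result {G : Type*} [Group G] [Finite G] (H : Subgroup G) (x : G) (hx : x ∈ H) : Nat.card (MulAction.fixedBy (G ⧸ H) x) * Nat.card {g : G // IsConj x g} = H.index * Nat.card {g : G // IsConj x g ∧ g ∈ H} := by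
  classical
  have h1 := count_conj x (H : Set G)
  have h2 := count_conj x (Set.univ : Set G)
  have h3 := QuotientGroup.card_preimage_mk H (MulAction.fixedBy (G ⧸ H) x)
  have h4 := H.card_mul_index
  have e1 : Nat.card {a : G // a⁻¹ * x * a ∈ (H : Set G)} =
      Nat.card (QuotientGroup.mk ⁻¹' (MulAction.fixedBy (G ⧸ H) x) : Set G) := by
    apply Nat.card_congr
    apply Equiv.subtypeEquivRight
    intro a
    simp only [SetLike.mem_coe, Set.mem_preimage, MulAction.mem_fixedBy]
    rw [MulAction.Quotient.smul_mk, eq_comm, QuotientGroup.eq, smul_eq_mul, mul_assoc]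
  have e2 : Nat.card {a : G // a⁻¹ * x * a ∈ (Set.univ : Set G)} = Nat.card G := by
    apply Nat.card_congr
    exact Equiv.subtypeUnivEquiv (fun a => Set.mem_univ _)
  have e3 : Nat.card {y : G // IsConj x y ∧ y ∈ (Set.univ : Set G)} =
      Nat.card {g : G // IsConj x g} := by
    apply Nat.card_congr
    apply Equiv.subtypeEquivRight
    intro a
    simp
  have e4 : Nat.card {y : G // IsConj x y ∧ y ∈ (H : Set G)} =
      Nat.card {g : G // IsConj x g ∧ g ∈ H} := rfl
  rw [e1, h3, e4] at h1
  rw [e2, e3] at h2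
  have hCpos : 0 < Nat.card {c : G // c * x = x * c} :=
    Nat.card_pos_iff.mpr ⟨⟨⟨1, by simp⟩⟩, inferInstance⟩
  have hHpos : 0 < Nat.card H := Nat.card_pos
  have key : Nat.card (MulAction.fixedBy (G ⧸ H) x) * Nat.card {g : G // IsConj x g} *
      (Nat.card H * Nat.card {c : G // c * x = x * c}) =
      H.index * Nat.card {g : G // IsConj x g ∧ g ∈ H} *
      (Nat.card H * Nat.card {c : G // c * x = x * c}) := by
    calc Nat.card (MulAction.fixedBy (G ⧸ H) x) * Nat.card {g : G // IsConj x g} *
        (Nat.card H * Nat.card {c : G // c * x = x * c})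
        = (Nat.card H * Nat.card (MulAction.fixedBy (G ⧸ H) x)) *
          (Nat.card {g : G // IsConj x g} * Nat.card {c : G // c * x = x * c}) := by ring
      _ = (Nat.card {g : G // IsConj x g ∧ g ∈ H} * Nat.card {c : G // c * x = x * c}) *
          (Nat.card H * H.index) := by rw [h1, ← h2, h4]
      _ = _ := by ring
  exact Nat.eq_of_mul_eq_mul_right (Nat.mul_pos hHpos hCpos) key

end Cfsg.Agent.S1019
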