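import Cfsg.Statements.S1023
import Cfsg.Agent.Lib.Helper7.ConjAll
import Cfsg.Agent.Lib.Helper7.AddAll

set_option autoImplicit false
open Cfsg

namespace Cfsg.Agent.S1023

theorem result {F : Type*} [Field F] (D : Cfsg.Lie.ChevalleyDatum) (hD : D ∈ [Cfsg.Lie.chevG2, Cfsg.Lie.chevB2, Cfsg.Lie.chevD4, Cfsg.Lie.chevF4, Cfsg.Lie.chevE6, Cfsg.Lie.chevE7, Cfsg.Lie.chevE8]) (r : ℕ) (hr : r < D.nroots) (t₁ t₂ : F) :
    D.x F r t₁ * D.x F r t₂ = D.x F r (t₁ + t₂) :=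
  Cfsg.Agent.Lib.Helper7.ChevAdd.add_all D (Cfsg.Agent.Lib.Helper7.ConjAll.conjData_of_mem D hD)
    (Cfsg.Agent.Lib.Helper7.AddAll.addBase_of_mem D hD) r hr t₁ t₂

end Cfsg.Agent.S1023
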