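import Cfsg.Statements.S1026
import Cfsg.Agent.Lib.Helper7.UDataAll

set_option autoImplicit false
open Cfsg Cfsg.Lie Cfsg.Agent.Lib.Helper7.ChevUProd Cfsg.Agent.Lib.Helper7.ChevTorus Cfsg.Agent.Lib.Helper7.ChevGen

namespace Cfsg.Agent.S1026

/-- Every element of `U` has a unique expression `∏_{r ∈ Φ⁺} x_r(t_r)`, the product over the positive roots in increasing index order (the coefficient family `t`, supported on the positive roots, exists and is unique); and conversely every such ordered product is the matrix of an element of `U`. -/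
theorem result {F : Type*} [Field F] (D : Cfsg.Lie.ChevalleyDatum) (hD : D ∈ [Cfsg.Lie.chevG2, Cfsg.Lie.chevB2, Cfsg.Lie.chevD4, Cfsg.Lie.chevF4, Cfsg.Lie.chevE6, Cfsg.Lie.chevE7, Cfsg.Lie.chevE8]) :
    (∀ g : GL D.Idx F, g ∈ D.posUnipotent F →
      ∃! t : ℕ → F, (∀ r, ¬ D.IsPosRoot r → t r = 0) ∧
        (g : Matrix D.Idx D.Idx F) = D.wordMat F (D.posRoots.map fun r => (r, t r))) ∧
    (∀ t : ℕ → F, ∃ g : GL D.Idx F, g ∈ D.posUnipotent F ∧
      (g : Matrix D.Idx D.Idx F) = D.wordMat F (D.posRoots.map fun r => (r, t r))) := by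
  have hU := Cfsg.Agent.Lib.Helper7.UDataAll.udata_of_mem D hD
  have hpr := posRoots_eq D hD
  have hle : D.nroots - D.nroots / 2 ≤ D.nroots - D.nroots / 2 := le_rfl
  have hsub : D.nroots - (D.nroots - D.nroots / 2) = D.nroots / 2 := by
    have := Nat.div_le_self D.nroots 2
    omega
  have hword : ∀ t : ℕ → F, D.posRoots.map (fun r => (r, t r)) = wd t (D.nroots / 2) (D.nroots - D.nroots / 2) := by
    intro t
    rw [hpr]
    rfl
  constructor
  · intro g hg
    rw [← Uge_eq_U D hD, ← hsub] at hg
    obtain ⟨t0, e0⟩ := exists_wd D hD hU _ hle g hg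
    rw [hsub] at e0
    have hc : wd (fun r => if D.IsPosRoot r then t0 r else 0) (D.nroots / 2) (D.nroots - D.nroots / 2) =
        wd t0 (D.nroots / 2) (D.nroots - D.nroots / 2) := by
      apply wd_congr
      intro r h1 h2
      have hp : D.IsPosRoot r := (pos_iff D hD r).mpr ⟨h1, by omega⟩
      simp only [hp, if_true]
    refine ⟨fun r => if D.IsPosRoot r then t0 r else 0, ⟨?_, ?_⟩, ?_⟩
    · intro r hr
      simp only [hr, if_false]
    · rw [hword, hc, e0, wordGL_val]
    · rintro t' ⟨h0, e'⟩
      funext r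
      by_cases hp : D.IsPosRoot r
      · simp only [hp, if_true]
        have e2 : wordGL D hD (wd t' (D.nroots / 2) (D.nroots - D.nroots / 2)) =
            wordGL D hD (wd t0 (D.nroots / 2) (D.nroots - D.nroots / 2)) := by
          apply Units.ext
          rw [wordGL_val, ← hword, ← e', e0, wordGL_val]
        have hp2 := (pos_iff D hD r).mp hp
        have hu := unique_wd D hD hU _ hle t' t0
        rw [hsub] at hu
        exact hu e2 r hp2.1 hp2.2
      · simp only [hp, if_false]
        exact h0 r hp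
  · intro t
    refine ⟨wordGL D hD (D.posRoots.map fun r => (r, t r)), ?_, wordGL_val D hD _⟩
    apply wordGL_mem_of
    intro p hp
    rw [List.mem_map] at hp
    obtain ⟨r, hr, rfl⟩ := hp
    apply Subgroup.subset_closure
    refine ⟨r, t r, ?_, xGL_val D hD r (t r)⟩
    unfold ChevalleyDatum.posRoots at hr
    rw [List.mem_filter] at hr
    simpa using hr.2

end Cfsg.Agent.S1026
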