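import Cfsg.Statements.S1027
import Cfsg.Agent.Lib.Helper7.ChevCell

set_option autoImplicit false
open Cfsg

namespace Cfsg.Agent.S1027

theorem result {F : Type*} [Field F] [Fintype F] (D : Cfsg.Lie.ChevalleyDatum) (hD : D ∈ [Cfsg.Lie.chevG2, Cfsg.Lie.chevB2, Cfsg.Lie.chevD4, Cfsg.Lie.chevF4, Cfsg.Lie.chevE6, Cfsg.Lie.chevE7, Cfsg.Lie.chevE8]) :
    Nat.card (D.posUnipotent F) = Fintype.card F ^ (D.nroots / 2) := by
  exact Cfsg.Agent.Lib.Helper7.ChevCell.card_posUnipotent D hD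

end Cfsg.Agent.S1027
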