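import Cfsg.Statements.S1028
import Cfsg.Agent.Lib.Helper7.TriAll

set_option autoImplicit false
open Cfsg

namespace Cfsg.Agent.S1028

theorem result {F : Type*} [Field F] (D : Cfsg.Lie.ChevalleyDatum) (hD : D ∈ [Cfsg.Lie.chevG2, Cfsg.Lie.chevB2, Cfsg.Lie.chevD4, Cfsg.Lie.chevF4, Cfsg.Lie.chevE6, Cfsg.Lie.chevE7, Cfsg.Lie.chevE8]) (g : GL D.Idx F) (hg : g ∈ D.posUnipotent F) :
    ((g : Matrix D.Idx D.Idx F) - 1) ^ (D.rank + D.nroots) = 0 := by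
  have h := Cfsg.Agent.Lib.Helper7.TriAll.tri_of_mem D hD
  have h1 := Cfsg.Agent.Lib.Helper7.ChevTri.posUnipotent_le_UL (F := F) D h hg
  rw [Cfsg.Agent.Lib.Helper7.Shift.mem_UL] at h1
  exact Cfsg.Agent.Lib.Helper7.Shift.pow_eq_zero_of_sh _ (D.rank + D.nroots)
    (Cfsg.Agent.Lib.Helper7.ChevTri.bfun_lt D.rank D.nroots) h1

end Cfsg.Agent.S1028
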