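import Cfsg.Statements.S1031
import Cfsg.Agent.Lib.Helper7.ConjAll

set_option autoImplicit false
open Cfsg

namespace Cfsg.Agent.S1031

theorem result {F : Type*} [Field F] (D : Cfsg.Lie.ChevalleyDatum) (hD : D ∈ [Cfsg.Lie.chevG2, Cfsg.Lie.chevB2, Cfsg.Lie.chevD4, Cfsg.Lie.chevF4, Cfsg.Lie.chevE6, Cfsg.Lie.chevE7, Cfsg.Lie.chevE8]) (i s : ℕ) (hi : i < D.rank) (hs : s < D.nroots) :
    ∃ η : ℤ, (η = 1 ∨ η = -1) ∧
      ∀ t : F, D.nMat F (D.simple i) 1 * D.x F s t = D.x F (D.reflectRoot i s) ((η : F) * t) * D.nMat F (D.simple i) 1 := by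
  obtain ⟨hc, -⟩ := Cfsg.Agent.Lib.Helper7.ConjAll.conjData_of_mem D hD
  obtain ⟨m, W, hn, -, hcj⟩ := hc i hi
  exact ⟨Cfsg.Agent.Lib.Helper7.ChevN.etaM m s, Cfsg.Agent.Lib.Helper7.ChevN.etaM_cases m s,
    fun t => Cfsg.Agent.Lib.Helper7.ChevConjU.conj_x D i m W hn hcj s hs t⟩

end Cfsg.Agent.S1031
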