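import Cfsg.Statements.S1041

set_option autoImplicit false
open Cfsg

namespace Cfsg.Agent.S1041

theorem posneg_G2 : ∀ r < Cfsg.Lie.chevG2.nroots, Cfsg.Lie.chevG2.IsPosRoot r ∨ Cfsg.Lie.chevG2.IsNegRoot r := by
  decide +kernel

theorem posneg_B2 : ∀ r < Cfsg.Lie.chevB2.nroots, Cfsg.Lie.chevB2.IsPosRoot r ∨ Cfsg.Lie.chevB2.IsNegRoot r := by
  decide +kernel

theorem posneg_D4 : ∀ r < Cfsg.Lie.chevD4.nroots, Cfsg.Lie.chevD4.IsPosRoot r ∨ Cfsg.Lie.chevD4.IsNegRoot r := by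
  decide +kernel

theorem posneg_F4 : ∀ r < Cfsg.Lie.chevF4.nroots, Cfsg.Lie.chevF4.IsPosRoot r ∨ Cfsg.Lie.chevF4.IsNegRoot r := by
  decide +kernel

theorem posneg_E6 : ∀ r < Cfsg.Lie.chevE6.nroots, Cfsg.Lie.chevE6.IsPosRoot r ∨ Cfsg.Lie.chevE6.IsNegRoot r := by
  decide +kernel

theorem posneg_E7 : ∀ r < Cfsg.Lie.chevE7.nroots, Cfsg.Lie.chevE7.IsPosRoot r ∨ Cfsg.Lie.chevE7.IsNegRoot r := by
  decide +kernel

theorem posneg_E8 : ∀ r < Cfsg.Lie.chevE8.nroots, Cfsg.Lie.chevE8.IsPosRoot r ∨ Cfsg.Lie.chevE8.IsNegRoot r := by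
  decide +kernel

theorem posneg (D : Cfsg.Lie.ChevalleyDatum) (hD : D ∈ [Cfsg.Lie.chevG2, Cfsg.Lie.chevB2, Cfsg.Lie.chevD4, Cfsg.Lie.chevF4, Cfsg.Lie.chevE6, Cfsg.Lie.chevE7, Cfsg.Lie.chevE8]) :
    ∀ r < D.nroots, D.IsPosRoot r ∨ D.IsNegRoot r := by
  simp only [List.mem_cons, List.not_mem_nil, or_false] at hD
  rcases hD with rfl | rfl | rfl | rfl | rfl | rfl | rfl
  · exact posneg_G2
  · exact posneg_B2
  · exact posneg_D4
  · exact posneg_F4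
  · exact posneg_E6
  · exact posneg_E7
  · exact posneg_E8

/-- `U` and `V` generate the whole Chevalley group. -/
theorem result {F : Type*} [Field F] (D : Cfsg.Lie.ChevalleyDatum) (hD : D ∈ [Cfsg.Lie.chevG2, Cfsg.Lie.chevB2, Cfsg.Lie.chevD4, Cfsg.Lie.chevF4, Cfsg.Lie.chevE6, Cfsg.Lie.chevE7, Cfsg.Lie.chevE8]) : D.posUnipotent F ⊔ D.negUnipotent F = D.group F := by
  apply le_antisymm
  · rw [sup_le_iff]
    constructor
    · unfold Cfsg.Lie.ChevalleyDatum.posUnipotent Cfsg.Lie.ChevalleyDatum.group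
      apply Subgroup.closure_mono
      rintro g ⟨r, t, hr, hg⟩
      refine ⟨⟨r, hr.1⟩, t, ?_⟩
      rw [hg]
      unfold Cfsg.Lie.ChevalleyDatum.x
      rw [dif_pos hr.1]
    · unfold Cfsg.Lie.ChevalleyDatum.negUnipotent Cfsg.Lie.ChevalleyDatum.group
      apply Subgroup.closure_mono
      rintro g ⟨r, t, hr, hg⟩
      refine ⟨⟨r, hr.1⟩, t, ?_⟩
      rw [hg]
      unfold Cfsg.Lie.ChevalleyDatum.x
      rw [dif_pos hr.1]
  · unfold Cfsg.Lie.ChevalleyDatum.group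
    rw [Subgroup.closure_le]
    rintro g ⟨r, t, hg⟩
    have hx : (g : Matrix D.Idx D.Idx F) = D.x F r.val t := by
      rw [hg]
      unfold Cfsg.Lie.ChevalleyDatum.x
      rw [dif_pos r.isLt]
    rcases posneg D hD r.val r.isLt with h | h
    · apply Subgroup.mem_sup_left
      exact Subgroup.subset_closure ⟨r.val, t, h, hx⟩
    · apply Subgroup.mem_sup_right
      exact Subgroup.subset_closure ⟨r.val, t, h, hx⟩

end Cfsg.Agent.S1041
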