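import Cfsg.Statements.S1044
import Cfsg.Agent.Lib.Helper7.ChevBN3

set_option autoImplicit false
open scoped MatrixGroups
open Cfsg

namespace Cfsg.Agent.S1044

open Cfsg.Lie Cfsg.Agent.Lib.Helper7.ChevTorus Cfsg.Agent.Lib.Helper7.ChevNW Cfsg.Agent.Lib.Helper7.ChevBN3

def pSub {F : Type*} [Field F] (D : ChevalleyDatum)
    (hD : D ∈ [chevG2, chevB2, chevD4, chevF4, chevE6, chevE7, chevE8]) (i : ℕ) (hi : i < D.rank) :
    Subgroup (GL D.Idx F) where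
  carrier := {g | g ∈ D.borelSubgroup F ∨
    ∃ b1 ∈ D.borelSubgroup F, ∃ b2 ∈ D.borelSubgroup F, g = b1 * nI D hD i * b2}
  mul_mem' := by
    rintro x y (hx | ⟨b1, hb1, b2, hb2, rfl⟩) (hy | ⟨b3, hb3, b4, hb4, rfl⟩)
    · exact Or.inl (mul_mem hx hy)
    · exact Or.inr ⟨x * b3, mul_mem hx hb3, b4, hb4, by group⟩
    · exact Or.inr ⟨b1, hb1, b2 * y, mul_mem hb2 hy, by group⟩
    · rcases bn3 D hD i hi (b2 * b3) (mul_mem hb2 hb3) (nI D hD i) (nI_mem_mono D hD i hi) with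
        ⟨c1, hc1, c2, hc2, e⟩ | ⟨c1, hc1, c2, hc2, e⟩
      · left
        have e' : b1 * nI D hD i * b2 * (b3 * nI D hD i * b4) =
            b1 * (nI D hD i * (b2 * b3) * nI D hD i) * b4 := by group
        rw [e', e]
        exact mul_mem (mul_mem hb1 (mul_mem (mul_mem hc1 (H_le_B D (nI_sq_mem D hD i hi))) hc2)) hb4
      · right
        refine ⟨b1 * c1, mul_mem hb1 hc1, c2 * b4, mul_mem hc2 hb4, ?_⟩
        have e' : b1 * nI D hD i * b2 * (b3 * nI D hD i * b4) =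
            b1 * (nI D hD i * (b2 * b3) * nI D hD i) * b4 := by group
        rw [e', e]
        group
  one_mem' := Or.inl (one_mem _)
  inv_mem' := by
    rintro x (hx | ⟨b1, hb1, b2, hb2, rfl⟩)
    · exact Or.inl (inv_mem hx)
    · right
      refine ⟨b2⁻¹ * ((nI D hD i)⁻¹ * (nI D hD i)⁻¹), mul_mem (inv_mem hb2) (H_le_B D (nI_inv_sq_mem D hD i hi)),
        b1⁻¹, inv_mem hb1, ?_⟩
      group

theorem result {F : Type*} [Field F] (D : Cfsg.Lie.ChevalleyDatum) (hD : D ∈ [Cfsg.Lie.chevG2, Cfsg.Lie.chevB2, Cfsg.Lie.chevD4, Cfsg.Lie.chevF4, Cfsg.Lie.chevE6, Cfsg.Lie.chevE7, Cfsg.Lie.chevE8]) (i : ℕ) (hi : i < D.rank) (n : GL D.Idx F)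
    (hn : (n : Matrix D.Idx D.Idx F) = D.nMat F (D.simple i) 1) :
    ∃ P : Subgroup (GL D.Idx F), (P : Set (GL D.Idx F)) =
      (D.borelSubgroup F : Set (GL D.Idx F)) ∪ DoubleCoset.doubleCoset n (D.borelSubgroup F : Set (GL D.Idx F)) (D.borelSubgroup F) := by
  have hne : n = nI D hD i := Units.ext (by rw [hn, nI_val])
  refine ⟨pSub D hD i hi, ?_⟩
  ext g
  rw [Set.mem_union, DoubleCoset.mem_doubleCoset, hne]
  rfl

end Cfsg.Agent.S1044
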