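import Cfsg.Statements.S1045
import Cfsg.Agent.Lib.Helper7.RelAll

set_option autoImplicit false
open scoped MatrixGroups
open Cfsg

namespace Cfsg.Agent.S1045

open Cfsg.Lie Cfsg.Agent.Lib.Helper7.ChevTorus Cfsg.Agent.Lib.Helper7.ChevRel Cfsg.Agent.Lib.Helper7.ChevPerf
  Cfsg.Agent.Lib.Helper7.RelAll

theorem rootSubgroup_le_normalizer {F : Type*} [Field F] (D : ChevalleyDatum)
    (hD : D ∈ [chevG2, chevB2, chevD4, chevF4, chevE6, chevE7, chevE8]) (p a : ℕ)
    (hgen : ∀ r, D.IsPosRoot r → r ≠ p → ∀ u t : F,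
      xGL D hD a u * xGL D hD r t * xGL D hD a (-u) ∈ Up F D p) :
    D.rootSubgroup F a ≤ Subgroup.normalizer (Up F D p : Set (GL D.Idx F)) := by
  unfold ChevalleyDatum.rootSubgroup
  rw [Subgroup.closure_le]
  rintro g ⟨u, hg⟩
  have hgx : g = xGL D hD a u := Units.ext (by rw [hg, xGL_val])
  rw [hgx, SetLike.mem_coe, Subgroup.mem_normalizer_iff]
  intro h
  constructor
  · intro hh
    exact conj_mem_Up D hD p a hgen u h hh
  · intro hh
    have h1 := conj_mem_Up D hD p a hgen (-u) _ hh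
    rw [xGL_neg] at h1
    have e : (xGL D hD a u)⁻¹ * (xGL D hD a u * h * (xGL D hD a u)⁻¹) * (xGL D hD a u)⁻¹⁻¹ = h := by
      group
    rw [e] at h1
    exact h1

theorem Up_sup {F : Type*} [Field F] (D : ChevalleyDatum)
    (hD : D ∈ [chevG2, chevB2, chevD4, chevF4, chevE6, chevE7, chevE8]) (p : ℕ) (hp : D.IsPosRoot p) :
    Up F D p ⊔ D.rootSubgroup F p = D.posUnipotent F := by
  apply le_antisymm
  · apply sup_le
    · unfold Up ChevalleyDatum.posUnipotent
      apply Subgroup.closure_mono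
      rintro g ⟨s, t, hs, -, hg⟩
      exact ⟨s, t, hs, hg⟩
    · unfold ChevalleyDatum.rootSubgroup ChevalleyDatum.posUnipotent
      apply Subgroup.closure_mono
      rintro g ⟨t, hg⟩
      exact ⟨p, t, hp, hg⟩
  · unfold ChevalleyDatum.posUnipotent
    rw [Subgroup.closure_le]
    rintro g ⟨r, t, hr, hg⟩
    by_cases hrp : r = p
    · apply Subgroup.mem_sup_right
      apply Subgroup.subset_closure
      exact ⟨t, by rw [hg, hrp]⟩
    · apply Subgroup.mem_sup_left
      apply Subgroup.subset_closure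
      exact ⟨r, t, hr, hrp, hg⟩

theorem simple_pos (D : ChevalleyDatum) (hD : D ∈ [chevG2, chevB2, chevD4, chevF4, chevE6, chevE7, chevE8])
    (i : ℕ) (hi : i < D.rank) : D.IsPosRoot (D.simple i) := by
  simp only [List.mem_cons, List.not_mem_nil, or_false] at hD
  rcases hD with rfl | rfl | rfl | rfl | rfl | rfl | rfl
  · have hi' : i < 2 := hi
    interval_cases i <;> decide +kernel
  · have hi' : i < 2 := hi
    interval_cases i <;> decide +kernel
  · have hi' : i < 4 := hi
    interval_cases i <;> decide +kernel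
  · have hi' : i < 4 := hi
    interval_cases i <;> decide +kernel
  · have hi' : i < 6 := hi
    interval_cases i <;> decide +kernel
  · have hi' : i < 7 := hi
    interval_cases i <;> decide +kernel
  · have hi' : i < 8 := hi
    interval_cases i <;> decide +kernel

theorem result {F : Type*} [Field F] (D : Cfsg.Lie.ChevalleyDatum) (hD : D ∈ [Cfsg.Lie.chevG2, Cfsg.Lie.chevB2, Cfsg.Lie.chevD4, Cfsg.Lie.chevF4, Cfsg.Lie.chevE6, Cfsg.Lie.chevE7, Cfsg.Lie.chevE8]) (i : ℕ) (hi : i < D.rank) :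
    D.rootSubgroup F (D.simple i) ⊔ D.rootSubgroup F (D.neg (D.simple i)) ≤
        Subgroup.normalizer (Subgroup.closure {g : GL D.Idx F | ∃ (s : ℕ) (t : F), D.IsPosRoot s ∧ s ≠ D.simple i ∧
          (g : Matrix D.Idx D.Idx F) = D.x F s t} : Set (GL D.Idx F)) ∧
      Subgroup.closure {g : GL D.Idx F | ∃ (s : ℕ) (t : F), D.IsPosRoot s ∧ s ≠ D.simple i ∧
          (g : Matrix D.Idx D.Idx F) = D.x F s t} ⊔ D.rootSubgroup F (D.simple i) = D.posUnipotent F := by
  obtain ⟨h1, h2⟩ := norm_all (F := F) D hD i hi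
  exact ⟨sup_le (rootSubgroup_le_normalizer D hD _ _ h1) (rootSubgroup_le_normalizer D hD _ _ h2),
    Up_sup D hD _ (simple_pos D hD i hi)⟩

end Cfsg.Agent.S1045
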