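import Cfsg.Statements.S1046
import Cfsg.Agent.Lib.Helper7.ChevBruhat

set_option autoImplicit false
open Cfsg

namespace Cfsg.Agent.S1046

open Cfsg.Lie Cfsg.Agent.Lib.Helper7.ChevEngine Cfsg.Agent.Lib.Helper7.ChevN
  Cfsg.Agent.Lib.Helper7.ChevConj
  Cfsg.Agent.Lib.Helper7.ChevConjT Cfsg.Agent.Lib.Helper7.ChevConjU Cfsg.Agent.Lib.Helper7.ChevAdd
  Cfsg.Agent.Lib.Helper7.ChevHAll Cfsg.Agent.Lib.Helper7.HBaseAll Cfsg.Agent.Lib.Helper7.ChevTorus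
  Cfsg.Agent.Lib.Helper7.ChevBN Cfsg.Agent.Lib.Helper7.ChevGen Cfsg.Agent.Lib.Helper7.ChevOrb
  Cfsg.Agent.Lib.Helper7.ChevW0 Cfsg.Agent.Lib.Helper7.ChevComm Cfsg.Agent.Lib.Helper7.ChevPerf
  Cfsg.Agent.Lib.Helper7.ChevRel Cfsg.Agent.Lib.Helper7.Shift Cfsg.Agent.Lib.Helper7.Tri2
  Cfsg.Agent.Lib.Helper7.ChevTri Cfsg.Agent.Lib.Helper7.ChevTriNeg Cfsg.Agent.Lib.Helper7.ChevNW
  Cfsg.Agent.Lib.Helper7.W0All Cfsg.Agent.Lib.Helper7.ChevExch Cfsg.Agent.Lib.Helper7.RelAll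
  Cfsg.Agent.Lib.Helper7.ChevBN3 Cfsg.Agent.Lib.Helper7.ChevBNP Cfsg.Agent.Lib.Helper7.ChevBruhat

theorem Un_conj_H {F : Type*} [Field F] (D : ChevalleyDatum)
    (hD : D ∈ [chevG2, chevB2, chevD4, chevF4, chevE6, chevE7, chevE8]) (n h : GL D.Idx F)
    (hh : h ∈ D.diagonalSubgroup F) (x : GL D.Idx F) (hx : x ∈ Un F D n) : h * x * h⁻¹ ∈ Un F D n := by
  obtain ⟨χ, hχ⟩ := H_conj_x D hD h hh
  have key : Un F D n ≤ (Un F D n).comap (MulAut.conj h).toMonoidHom := by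
    show Subgroup.closure _ ≤ _
    rw [Subgroup.closure_le]
    rintro g ⟨r, t, hr, hle, hg⟩
    have hg' : g = xGL D hD r t := Units.ext (by rw [hg, xGL_val])
    subst hg'
    show MulAut.conj h (xGL D hD r t) ∈ Un F D n
    rw [MulAut.conj_apply, hχ r hr.1 t]
    exact Subgroup.subset_closure ⟨r, _, hr, hle, xGL_val D hD _ _⟩
  exact key hx

theorem result {F : Type*} [Field F] (D : Cfsg.Lie.ChevalleyDatum) (hD : D ∈ [Cfsg.Lie.chevG2, Cfsg.Lie.chevB2, Cfsg.Lie.chevD4, Cfsg.Lie.chevF4, Cfsg.Lie.chevE6, Cfsg.Lie.chevE7, Cfsg.Lie.chevE8]) (h₁ h₂ g : GL D.Idx F) (h1 : h₁ ∈ D.diagonalSubgroup F) (h2 : h₂ ∈ D.diagonalSubgroup F)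
    (hg : g ∈ D.group F) (hc : g * h₁ * g⁻¹ = h₂) :
    ∃ n ∈ D.monomialSubgroup F, n * h₁ * n⁻¹ = h₂ := by
  obtain ⟨b, hb, n, hn, u, hu, e⟩ := bruhat_exists D hD g hg
  have hnH : n * h₁ * n⁻¹ ∈ D.diagonalSubgroup F := by
    have hN := Cfsg.Agent.S1038.result (F := F) D hD
    have h3 := hN.conj_mem ⟨h₁, H_le_N D h1⟩ (Subgroup.mem_subgroupOf.mpr h1) ⟨n, hn⟩
    exact Subgroup.mem_subgroupOf.mp h3
  have hu' : h₁⁻¹ * u * h₁ ∈ Un F D n := by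
    have h3 := Un_conj_H D hD n h₁⁻¹ (inv_mem h1) u hu
    rwa [inv_inv] at h3
  have hc' : g * h₁ = h₂ * g := by
    rw [← hc]
    group
  have e3 : (b * (n * h₁ * n⁻¹)) * n * (h₁⁻¹ * u * h₁) = (h₂ * b) * n * u := by
    calc (b * (n * h₁ * n⁻¹)) * n * (h₁⁻¹ * u * h₁) = g * h₁ := by
          rw [e]
          group
      _ = h₂ * g := hc'
      _ = _ := by
          rw [e]
          group
  have key := ((bruhat_unique D hD _ _ n n _ u (mul_mem hb (H_le_B D hnH)) (mul_mem (H_le_B D h2) hb) hn hn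
    hu' hu e3).2 rfl).1
  obtain ⟨u0, hu0, h0, hh0, eb⟩ := B_decomp D hD b hb
  have hUH := (Cfsg.Agent.S1036.result (F := F) D hD).2
  have k2 : u0 * (h0 * (n * h₁ * n⁻¹)) = (h₂ * u0 * h₂⁻¹) * (h₂ * h0) := by
    rw [eb] at key
    rw [← mul_assoc, key]
    group
  have hx2 : (h₂ * u0 * h₂⁻¹)⁻¹ * u0 = h₂ * h0 * (h0 * (n * h₁ * n⁻¹))⁻¹ := by
    calc (h₂ * u0 * h₂⁻¹)⁻¹ * u0
        = (h₂ * u0 * h₂⁻¹)⁻¹ * ((h₂ * u0 * h₂⁻¹) * (h₂ * h0) * (h0 * (n * h₁ * n⁻¹))⁻¹) := by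
          rw [← eq_mul_inv_of_mul_eq k2]
      _ = h₂ * h0 * (h0 * (n * h₁ * n⁻¹))⁻¹ := by group
  have hx1 : (h₂ * u0 * h₂⁻¹)⁻¹ * u0 ∈ D.posUnipotent F :=
    mul_mem (inv_mem (Cfsg.Agent.S1036.conj_mem D hD h₂ (diagonalSubgroup_le_torus D hD h2) u0 hu0)) hu0
  have hx3 : (h₂ * u0 * h₂⁻¹)⁻¹ * u0 ∈ D.diagonalSubgroup F := by
    rw [hx2]
    exact mul_mem (mul_mem h2 hh0) (inv_mem (mul_mem hh0 hnH))
  have hx4 : (h₂ * u0 * h₂⁻¹)⁻¹ * u0 ∈ D.posUnipotent F ⊓ D.diagonalSubgroup F := Subgroup.mem_inf.mpr ⟨hx1, hx3⟩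
  rw [hUH, Subgroup.mem_bot, hx2] at hx4
  have hx5 : h₂ * h0 = h0 * (n * h₁ * n⁻¹) := mul_inv_eq_one.mp hx4
  refine ⟨h0 * n, mul_mem (H_le_N D hh0) hn, ?_⟩
  calc h0 * n * h₁ * (h0 * n)⁻¹ = h0 * (n * h₁ * n⁻¹) * h0⁻¹ := by group
    _ = h₂ * h0 * h0⁻¹ := by rw [← hx5]
    _ = h₂ := by group

end Cfsg.Agent.S1046
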