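import Cfsg.Statements.S1054
import Cfsg.Agent.Lib.Helper7.ChevSimple2

set_option autoImplicit false
open Cfsg

namespace Cfsg.Agent.S1054

open Cfsg.Lie Cfsg.Agent.Lib.Helper7.ChevSimple2

theorem result {F : Type*} [Field F] (D : Cfsg.Lie.ChevalleyDatum)
    (hD : D ∈ [Cfsg.Lie.chevD4, Cfsg.Lie.chevF4, Cfsg.Lie.chevE6, Cfsg.Lie.chevE7, Cfsg.Lie.chevE8]) :
    IsSimpleGroup ↥(D.group F) ∧ ¬ IsMulCommutative ↥(D.group F) := by
  simp only [List.mem_cons, List.not_mem_nil, or_false] at hD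
  rcases hD with rfl | rfl | rfl | rfl | rfl
  · exact simple_of chevD4 (by simp) Cfsg.Agent.S1052.perfD4 _ edgeD4 (fun f h => connD4 f h)
  · exact simple_of chevF4 (by simp) Cfsg.Agent.S1052.perfF4 _ edgeF4 (fun f h => connF4 f h)
  · exact simple_of chevE6 (by simp) Cfsg.Agent.S1052.perfE6 _ edgeE6 (fun f h => connE6 f h)
  · exact simple_of chevE7 (by simp) Cfsg.Agent.S1052.perfE7 _ edgeE7 (fun f h => connE7 f h)
  · exact simple_of chevE8 (by simp) Cfsg.Agent.S1052.perfE8 _ edgeE8 (fun f h => connE8 f h)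

end Cfsg.Agent.S1054
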