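import Cfsg.Statements.S1056
import Cfsg.Agent.Lib.Helper7.ChevSimple2

set_option autoImplicit false
open Cfsg

namespace Cfsg.Agent.S1056

open Cfsg.Lie Cfsg.Agent.Lib.Helper7.ChevSimple2

theorem result {F : Type*} [Field F] (hF : ∃ a : F, a ≠ 0 ∧ a ≠ 1) : IsSimpleGroup ↥(Cfsg.Lie.chevB2.group F) ∧ ¬ IsMulCommutative ↥(Cfsg.Lie.chevB2.group F) := by
  obtain ⟨c, hc0, hc1⟩ := hF
  exact simple_of chevB2 (by simp) (Cfsg.Agent.S1052.perfB2 c hc0 hc1) _ edgeB2 (fun f h => conn2 f h)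

end Cfsg.Agent.S1056
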