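import Cfsg.Statements.S1062
import Cfsg.Agent.Lib.Helper7.ChevOrd2
import Cfsg.Agent.Lib.Helper7.ChainF4
import Cfsg.Agent.S1035

set_option autoImplicit false
open Cfsg

namespace Cfsg.Agent.S1062

theorem result {F : Type*} [Field F] [Fintype F] {q : ℕ} (hq : Fintype.card F = q) : Nat.card ↥(Cfsg.Lie.chevF4.group F) = q ^ 24 * (q ^ 2 - 1) * (q ^ 6 - 1) * (q ^ 8 - 1) * (q ^ 12 - 1) := by
  subst hq
  haveI : Fintype ↥(Cfsg.Agent.Lib.Helper7.ChevWGrp.Wg Cfsg.Lie.chevF4 Cfsg.Agent.Lib.Helper7.ChainF4.hm) :=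
    Fintype.ofFinite _
  have hc : ∀ k : ℕ, ((Fintype.card F ^ k - 1 : ℕ) : ℤ) = (Fintype.card F : ℤ) ^ k - 1 :=
    fun k => Cfsg.Agent.Lib.Helper7.ChevOrd2.cast_pred_pow _ k Fintype.card_pos
  have h5 : ((∑ σ : ↥(Cfsg.Agent.Lib.Helper7.ChevWGrp.Wg Cfsg.Lie.chevF4 Cfsg.Agent.Lib.Helper7.ChainF4.hm),
      Fintype.card F ^ Cfsg.Agent.Lib.Helper7.PoinAbs.Nv
        (Cfsg.Agent.Lib.Helper7.ChevWGrp.sgn Cfsg.Lie.chevF4 Cfsg.Agent.Lib.Helper7.ChainF4.hm)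
        (σ : Equiv.Perm (Fin Cfsg.Lie.chevF4.nroots)) : ℕ) : ℤ) * ((Fintype.card F : ℤ) - 1) ^ 4 =
      ((((Fintype.card F ^ 2 - 1) * (Fintype.card F ^ 6 - 1) * (Fintype.card F ^ 8 - 1) * (Fintype.card F ^ 12 - 1)) : ℕ) : ℤ) := by
    rw [Cfsg.Agent.Lib.Helper7.ChainF4.poincareF4]
    simp only [Nat.cast_mul, hc]
  have h := Cfsg.Agent.Lib.Helper7.ChevOrd2.order_formula (F := F) Cfsg.Lie.chevF4
    Cfsg.Agent.Lib.Helper7.ChainF4.hm (1) 4 _ Cfsg.Agent.S1035.cdF4 h5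
  have hN : Cfsg.Lie.chevF4.nroots / 2 = 24 := rfl
  rw [hN] at h
  simp only [mul_assoc, one_mul] at h ⊢
  exact h

end Cfsg.Agent.S1062
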