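import Cfsg.Statements.S1075
import Mathlib
import Cfsg.Agent.Lib.Helper7.Ree3C
import Cfsg.Agent.S1230
import Cfsg.Agent.S0243

set_option autoImplicit false
open Cfsg

namespace Cfsg.Agent.S1075

open Cfsg.Agent.Lib.Helper7.Ree3A Cfsg.Agent.Lib.Helper7.Ree3B Cfsg.Agent.Lib.Helper7.Ree3C

theorem perfN (h : IsSimpleGroup ↥N3) (P : Sylow 2 ↥N3) : commutator ↥N3 = ⊤ := by
  have := h
  rcases (inferInstance : (commutator ↥N3).Normal).eq_bot_or_eq_top with h0 | h0
  · exfalso
    apply sylN_not_normal P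
    rw [commutator_eq_bot_iff_center_eq_top] at h0
    constructor
    intro n hn g
    have hg : g ∈ Subgroup.center ↥N3 := by
      rw [h0]
      exact Subgroup.mem_top g
    have e : g * n * g⁻¹ = n := by
      rw [← Subgroup.mem_center_iff.mp hg n, mul_inv_cancel_right]
    rw [e]
    exact hn
  · exact h0

theorem derived_eq (h : commutator ↥N3 = ⊤) : commutator ↥R3 = N3 := by
  apply le_antisymm comm_le_N3
  have h1 : (commutator ↥N3).map N3.subtype ≤ commutator ↥R3 := by
    rw [commutator_def, Subgroup.map_commutator, commutator_def]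
    exact Subgroup.commutator_mono le_top le_top
  rw [h, ← MonoidHom.range_eq_map, Subgroup.range_subtype] at h1
  exact h1

theorem main {L : Type*} [Field L] [Fintype L] (hL : Fintype.card L = 8) :
    Nat.card ↥(commutator ↥R3) = 504 ∧
      Nonempty (↥(commutator ↥R3) ≃* Matrix.ProjectiveSpecialLinearGroup (Fin 2) L) := by
  have : Fact (Nat.Prime 2) := ⟨Nat.prime_two⟩
  obtain ⟨P⟩ : Nonempty (Sylow 2 ↥N3) := inferInstance
  obtain ⟨F, iF, iFt, hcard, ⟨e⟩⟩ :=
    Cfsg.Agent.S1230.result P (sylN_not_cyclic P) (sylN_not_normal P) hC3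
  rw [sylN_card] at hcard
  have hs : IsSimpleGroup (Matrix.ProjectiveSpecialLinearGroup (Fin 2) F) :=
    Matrix.ProjectiveSpecialLinearGroup.rank_two_simple
      (by rw [Nat.card_eq_fintype_card, hcard]; norm_num)
  have hsN : IsSimpleGroup ↥N3 := by
    have := hs
    exact e.isSimpleGroup
  have hD : commutator ↥R3 = N3 := derived_eq (perfN hsN P)
  have hcardN : Nat.card ↥N3 = 504 := by
    rw [Nat.card_congr e.toEquiv]
    have hc := Cfsg.Agent.S0243.result (F := F) hcard 2 le_rfl
    have h2 : Nat.gcd 2 (8 - 1) = 1 := by decide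
    rw [h2, Fin.prod_univ_two] at hc
    norm_num [-Nat.card_eq_fintype_card] at hc
    omega
  obtain ⟨e2⟩ := Cfsg.Agent.S1230.psl_congr (FiniteField.ringEquivOfCardEq (K := F) (K' := L) (hcard.trans hL.symm))
  rw [hD]
  exact ⟨hcardN, ⟨e.trans e2⟩⟩

/-- The derived subgroup of ²G₂(3) (θ = identity over the field with three elements) has order 504 = 1512/3 and is isomorphic to PSL₂ over the field with eight elements. -/
theorem result {L : Type*} [Field L] [Fintype L] (hL : Fintype.card L = 8) :
    Nat.card ↥(commutator ↥(Cfsg.Lie.twistedG2 (ZMod 3) 1)) = 504 ∧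
      Nonempty (↥(commutator ↥(Cfsg.Lie.twistedG2 (ZMod 3) 1)) ≃* Matrix.ProjectiveSpecialLinearGroup (Fin 2) L) := by
  exact main hL

end Cfsg.Agent.S1075
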