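import Cfsg.Statements.S1076
import Cfsg.Agent.Lib.Helper7.HBaseAll

set_option autoImplicit false
open Cfsg

namespace Cfsg.Agent.S1076

theorem result {F : Type*} [Field F] (D : Cfsg.Lie.ChevalleyDatum) (hD : D ∈ [Cfsg.Lie.chevG2, Cfsg.Lie.chevB2, Cfsg.Lie.chevD4, Cfsg.Lie.chevF4, Cfsg.Lie.chevE6, Cfsg.Lie.chevE7, Cfsg.Lie.chevE8]) (r : ℕ) (hr : r < D.nroots) (t₁ t₂ : F) (h₁ : t₁ ≠ 0) (h₂ : t₂ ≠ 0) :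
    D.hMat F r t₁ * D.hMat F r t₂ = D.hMat F r (t₁ * t₂) := by
  obtain ⟨hC, hA, hB⟩ := Cfsg.Agent.Lib.Helper7.HBaseAll.all_of_mem D hD
  have hq := (Cfsg.Agent.Lib.Helper7.ChevHAll.hQ_all (F := F) D hC hA hB r hr).1
  rw [hq t₁ h₁, hq t₂ h₂, hq (t₁ * t₂) (mul_ne_zero h₁ h₂), Cfsg.Agent.Lib.Helper7.ChevHAll.hDiag_mul]

end Cfsg.Agent.S1076
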