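import Cfsg.Statements.S1096
import Cfsg.Agent.Lib.Helper7.HBaseAll

set_option autoImplicit false
open Cfsg

namespace Cfsg.Agent.S1096

theorem result {F : Type*} [Field F] (D : Cfsg.Lie.ChevalleyDatum) (hD : D ∈ [Cfsg.Lie.chevG2, Cfsg.Lie.chevB2, Cfsg.Lie.chevD4, Cfsg.Lie.chevF4, Cfsg.Lie.chevE6, Cfsg.Lie.chevE7, Cfsg.Lie.chevE8]) (i j : ℕ) (hi : i < D.rank) (hj : j < D.rank) (t : F) (ht : t ≠ 0) :
    D.nMat F (D.simple i) 1 * D.hMat F (D.simple j) t = D.hMat F (D.reflectRoot i (D.simple j)) t * D.nMat F (D.simple i) 1 := by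
  obtain ⟨hC, hA, hB⟩ := Cfsg.Agent.Lib.Helper7.HBaseAll.all_of_mem D hD
  exact Cfsg.Agent.Lib.Helper7.ChevHAll.n_conj_h D hC hA hB i hi (D.simple j)
    (Cfsg.Agent.Lib.Helper7.HBaseAll.simple_lt D hC j hj) t ht

end Cfsg.Agent.S1096
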