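import Cfsg.Statements.S1098
import Cfsg.Agent.Lib.Helper7.SpecData

set_option autoImplicit false
open Cfsg

namespace Cfsg.Agent.S1098

open Cfsg.Lie Cfsg.Agent.Lib.Helper7.ChevSpec Cfsg.Agent.Lib.Helper7.SpecData

theorem keyB2 : ∀ i < chevB2.rank,
    rhoB2.getD (chevB2.simple i) 0 = chevB2.simple (([(1, 2), (0, 1)] : List (ℕ × ℕ)).getD i (0, 1)).1 ∧
    lamB2.getD (chevB2.simple i) 0 = (([(1, 2), (0, 1)] : List (ℕ × ℕ)).getD i (0, 1)).2 ∧
    chevB2.simple i < chevB2.nroots ∧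
    rhoB2.getD (chevB2.neg (chevB2.simple i)) 0 =
      chevB2.neg (chevB2.simple (([(1, 2), (0, 1)] : List (ℕ × ℕ)).getD i (0, 1)).1) ∧
    lamB2.getD (chevB2.neg (chevB2.simple i)) 0 = (([(1, 2), (0, 1)] : List (ℕ × ℕ)).getD i (0, 1)).2 ∧
    chevB2.neg (chevB2.simple i) < chevB2.nroots := by
  decide +kernel

theorem keyF4 : ∀ i < chevF4.rank,
    rhoF4.getD (chevF4.simple i) 0 =
      chevF4.simple (([(3, 2), (2, 2), (1, 1), (0, 1)] : List (ℕ × ℕ)).getD i (0, 1)).1 ∧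
    lamF4.getD (chevF4.simple i) 0 = (([(3, 2), (2, 2), (1, 1), (0, 1)] : List (ℕ × ℕ)).getD i (0, 1)).2 ∧
    chevF4.simple i < chevF4.nroots ∧
    rhoF4.getD (chevF4.neg (chevF4.simple i)) 0 =
      chevF4.neg (chevF4.simple (([(3, 2), (2, 2), (1, 1), (0, 1)] : List (ℕ × ℕ)).getD i (0, 1)).1) ∧
    lamF4.getD (chevF4.neg (chevF4.simple i)) 0 =
      (([(3, 2), (2, 2), (1, 1), (0, 1)] : List (ℕ × ℕ)).getD i (0, 1)).2 ∧
    chevF4.neg (chevF4.simple i) < chevF4.nroots := by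
  decide +kernel


/-- Graph automorphisms in characteristic 2 (K perfect): for B₂ (a short, b long) `x_a(t) ↦ x_b(t²)`, `x_b(t) ↦ x_a(t)`, and for F₄ (p₁, p₂ short, p₃, p₄ long) `x_{p₁}(t) ↦ x_{p₄}(t²)`, `x_{p₂}(t) ↦ x_{p₃}(t²)`, `x_{p₃}(t) ↦ x_{p₂}(t)`, `x_{p₄}(t) ↦ x_{p₁}(t)`, likewise on the negatives, extend to an automorphism of the group. -/
theorem result {K : Type*} [Field K] [CharP K 2] (hperf : ∀ x : K, ∃ y : K, y ^ 2 = x)
    (p : Cfsg.Lie.ChevalleyDatum × List (ℕ × ℕ))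
    (hp : p ∈ [(Cfsg.Lie.chevB2, [(1, 2), (0, 1)]), (Cfsg.Lie.chevF4, [(3, 2), (2, 2), (1, 1), (0, 1)])]) :
    ∃ α : ↥(p.1.group K) ≃* ↥(p.1.group K), ∀ (g : ↥(p.1.group K)) (i : ℕ) (t : K), i < p.1.rank →
      (((g : GL p.1.Idx K) : Matrix p.1.Idx p.1.Idx K) = p.1.x K (p.1.simple i) t →
        ((α g : GL p.1.Idx K) : Matrix p.1.Idx p.1.Idx K) = p.1.x K (p.1.simple (p.2.getD i (0, 1)).1) (t ^ (p.2.getD i (0, 1)).2)) ∧
      (((g : GL p.1.Idx K) : Matrix p.1.Idx p.1.Idx K) = p.1.x K (p.1.neg (p.1.simple i)) t →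
        ((α g : GL p.1.Idx K) : Matrix p.1.Idx p.1.Idx K) = p.1.x K (p.1.neg (p.1.simple (p.2.getD i (0, 1)).1)) (t ^ (p.2.getD i (0, 1)).2)) := by
  have h2 : ((2 : ℕ) : K) = 0 := CharP.cast_eq_zero K 2
  simp only [List.mem_cons, List.not_mem_nil, or_false] at hp
  rcases hp with rfl | rfl
  · obtain ⟨α, hα⟩ := spec_aut (F := K) chevB2 (by simp) 2 h2 hperf sdB2
    refine ⟨α, ?_⟩
    intro g i t hi
    obtain ⟨k1, k2, k3, k4, k5, k6⟩ := keyB2 i hi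
    constructor
    · intro hg
      have h := hα g _ t k3 hg
      rw [k1, k2] at h
      exact h
    · intro hg
      have h := hα g _ t k6 hg
      rw [k4, k5] at h
      exact h
  · obtain ⟨α, hα⟩ := spec_aut (F := K) chevF4 (by simp) 2 h2 hperf sdF4
    refine ⟨α, ?_⟩
    intro g i t hi
    obtain ⟨k1, k2, k3, k4, k5, k6⟩ := keyF4 i hi
    constructor
    · intro hg
      have h := hα g _ t k3 hg
      rw [k1, k2] at h
      exact h
    · intro hg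
      have h := hα g _ t k6 hg
      rw [k4, k5] at h
      exact h

end Cfsg.Agent.S1098
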