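import Cfsg.Statements.S1105
import Cfsg.Agent.Lib.Helper7.TwCore

set_option autoImplicit false
open Cfsg

namespace Cfsg.Agent.S1105

open Cfsg.Lie Cfsg.Agent.Lib.Helper7.ChevEngine Cfsg.Agent.Lib.Helper7.ChevTorus Cfsg.Agent.Lib.Helper7.ChevW0
  Cfsg.Agent.Lib.Helper7.W0All Cfsg.Agent.Lib.Helper7.TwCore

def mone : Poly := [(-1, 0, 0)]

def blocks : List (List ℕ) := [[1], [3], [1], [0, 5], [2, 4], [3], [1], [0, 5], [2, 4], [3], [1], [0, 5], [2, 4], [3], [1], [0, 5], [2, 4], [3], [1], [0, 5], [2, 4], [3], [0, 5], [2, 4]]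

theorem w0c : w0Check chevE6 wtE6 blocks.flatten = true := by decide +kernel

def wsA : List (List (ℕ × Poly)) := [[(46, one)], [(25, mone)], [(46, one)]]

def wsB : List (List (ℕ × Poly)) := [[(39, one)], [(32, mone)], [(39, one)]]

def wsC : List (List (ℕ × Poly)) := [[(56, one), (36, one)], [(15, mone), (35, mone)], [(56, one), (36, one)]]

def wsD : List (List (ℕ × Poly)) := [[(42, one), (37, one)], [(29, mone), (34, mone)], [(42, one), (37, one)]]

theorem chkA : ∀ k < chevE6.rank + chevE6.nroots,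
    eqCheckP 0 chevE6.rank chevE6.nroots (fnsOf chevE6) (nPolyWord chevE6 [1]) wsA.flatten k = true := by
  decide +kernel

theorem chkB : ∀ k < chevE6.rank + chevE6.nroots,
    eqCheckP 0 chevE6.rank chevE6.nroots (fnsOf chevE6) (nPolyWord chevE6 [3]) wsB.flatten k = true := by
  decide +kernel

theorem chkC : ∀ k < chevE6.rank + chevE6.nroots,
    eqCheckP 0 chevE6.rank chevE6.nroots (fnsOf chevE6) (nPolyWord chevE6 [0, 5]) wsC.flatten k = true := by
  decide +kernel

theorem chkD : ∀ k < chevE6.rank + chevE6.nroots,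
    eqCheckP 0 chevE6.rank chevE6.nroots (fnsOf chevE6) (nPolyWord chevE6 [2, 4]) wsD.flatten k = true := by
  decide +kernel

theorem ent0 : entChk 0 chevE6.rank chevE6.nroots (fnsOf chevE6) [(56, one), (36, one)] 2
    (chevE6.rank + chevE6.simple 0) 1 = true := by decide +kernel

theorem ent1 : entChk 0 chevE6.rank chevE6.nroots (fnsOf chevE6) [(46, one)] 3
    (chevE6.rank + chevE6.simple 1) 1 = true := by decide +kernel

theorem ent2 : entChk 0 chevE6.rank chevE6.nroots (fnsOf chevE6) [(42, one), (37, one)] 0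
    (chevE6.rank + chevE6.simple 2) 1 = true := by decide +kernel

theorem ent3 : entChk 0 chevE6.rank chevE6.nroots (fnsOf chevE6) [(39, one)] 1
    (chevE6.rank + chevE6.simple 3) 1 = true := by decide +kernel

theorem ent4 : entChk 0 chevE6.rank chevE6.nroots (fnsOf chevE6) [(42, one), (37, one)] 3
    (chevE6.rank + chevE6.simple 4) 1 = true := by decide +kernel

theorem ent5 : entChk 0 chevE6.rank chevE6.nroots (fnsOf chevE6) [(56, one), (36, one)] 4
    (chevE6.rank + chevE6.simple 5) 1 = true := by decide +kernel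

theorem blocks_cases : ∀ blk ∈ blocks, blk = [1] ∨ blk = [3] ∨ blk = [0, 5] ∨ blk = [2, 4] := by
  decide


/-- The normal core of `B¹ = G¹ ∩ B` in ²E₆(q) is trivial. -/
theorem result {K : Type*} [Field K] [Fintype K] {q : ℕ} (hq : IsPrimePow q) (hK : Fintype.card K = q ^ 2) :
    ((Cfsg.Lie.chevE6.borelSubgroup K ⊓ Cfsg.Lie.twistedE6 K q).subgroupOf (Cfsg.Lie.twistedE6 K q)).normalCore = ⊥ := by
  have hD : chevE6 ∈ [chevG2, chevB2, chevD4, chevF4, chevE6, chevE7, chevE8] := by simp
  have hneg : (-1 : K) ^ q = -1 := neg_one_pow_card q 2 (by norm_num) hK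
  have h0 : (((0 : ℤ)) : K) = 0 := Int.cast_zero
  have hP : ∀ P : Poly, P = one ∨ P = mone → eval (1 : K) 1 P ^ q = eval (1 : K) 1 P := by
    rintro P (rfl | rfl)
    · simp [eval, evalM, one]
    · simpa [eval, evalM, mone] using hneg
  have single : ∀ (r : ℕ) (P : Poly), r ∈ [e6p2, e6m2, e6p4, e6m4] → (P = one ∨ P = mone) →
      wordGL chevE6 hD (([(r, P)] : List (ℕ × Poly)).map fun x => (x.1, eval (1 : K) 1 x.2)) ∈
        twistedE6 K q := by
    intro r P hr hPP
    exact gen_mem chevE6 hD (e6Words K q) _ (Or.inl ⟨eval (1 : K) 1 P, hP P hPP, r, hr, rfl⟩)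
  have pair : ∀ (rs : ℕ × ℕ) (P : Poly),
      rs ∈ [(e6p1, e6p6), (e6m1, e6m6), (e6p3, e6p5), (e6m3, e6m5)] → (P = one ∨ P = mone) →
      wordGL chevE6 hD (([(rs.1, P), (rs.2, P)] : List (ℕ × Poly)).map fun x => (x.1, eval (1 : K) 1 x.2)) ∈
        twistedE6 K q := by
    intro rs P hrs hPP
    refine gen_mem chevE6 hD (e6Words K q) _ (Or.inr ⟨eval (1 : K) 1 P, rs, hrs, ?_⟩)
    rw [hP P hPP]
    rfl
  have bA : nWordGL (F := K) chevE6 hD [1] ∈ twistedE6 K q := by
    apply block_mem chevE6 hD (twistedE6 K q) 0 h0 [1] wsA 1 1 chkA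
    intro w hw
    simp only [wsA, List.mem_cons, List.not_mem_nil, or_false] at hw
    rcases hw with rfl | rfl | rfl
    · exact single 46 one (by decide) (Or.inl rfl)
    · exact single 25 mone (by decide) (Or.inr rfl)
    · exact single 46 one (by decide) (Or.inl rfl)
  have bB : nWordGL (F := K) chevE6 hD [3] ∈ twistedE6 K q := by
    apply block_mem chevE6 hD (twistedE6 K q) 0 h0 [3] wsB 1 1 chkB
    intro w hw
    simp only [wsB, List.mem_cons, List.not_mem_nil, or_false] at hw
    rcases hw with rfl | rfl | rfl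
    · exact single 39 one (by decide) (Or.inl rfl)
    · exact single 32 mone (by decide) (Or.inr rfl)
    · exact single 39 one (by decide) (Or.inl rfl)
  have bC : nWordGL (F := K) chevE6 hD [0, 5] ∈ twistedE6 K q := by
    apply block_mem chevE6 hD (twistedE6 K q) 0 h0 [0, 5] wsC 1 1 chkC
    intro w hw
    simp only [wsC, List.mem_cons, List.not_mem_nil, or_false] at hw
    rcases hw with rfl | rfl | rfl
    · exact pair (56, 36) one (by decide) (Or.inl rfl)
    · exact pair (15, 35) mone (by decide) (Or.inr rfl)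
    · exact pair (56, 36) one (by decide) (Or.inl rfl)
  have bD : nWordGL (F := K) chevE6 hD [2, 4] ∈ twistedE6 K q := by
    apply block_mem chevE6 hD (twistedE6 K q) 0 h0 [2, 4] wsD 1 1 chkD
    intro w hw
    simp only [wsD, List.mem_cons, List.not_mem_nil, or_false] at hw
    rcases hw with rfl | rfl | rfl
    · exact pair (42, 37) one (by decide) (Or.inl rfl)
    · exact pair (29, 34) mone (by decide) (Or.inr rfl)
    · exact pair (42, 37) one (by decide) (Or.inl rfl)
  have hn0 : nWordGL (F := K) chevE6 hD blocks.flatten ∈ twistedE6 K q := by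
    apply flatten_mem chevE6 hD
    intro blk hb
    rcases blocks_cases blk hb with rfl | rfl | rfl | rfl
    · exact bA
    · exact bB
    · exact bC
    · exact bD
  obtain ⟨hN, hmap⟩ := w0_map (F := K) chevE6 hD wtE6 woE6 blocks.flatten w0c
  have h1 : (((1 : ℤ)) : K) ≠ 0 := by simp
  apply twisted_core chevE6 hD (twistedE6 K q) _ hn0 hN hmap
  intro k hk
  have hk' : k < 6 := hk
  interval_cases k
  · exact test_elem chevE6 hD _ 0 h0 [(56, one), (36, one)] 1 1
      (pair (56, 36) one (by decide) (Or.inl rfl)) (by decide) 0 (by decide) ⟨2, by decide⟩ 1 h1 ent0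
  · exact test_elem chevE6 hD _ 0 h0 [(46, one)] 1 1
      (single 46 one (by decide) (Or.inl rfl)) (by decide) 1 (by decide) ⟨3, by decide⟩ 1 h1 ent1
  · exact test_elem chevE6 hD _ 0 h0 [(42, one), (37, one)] 1 1
      (pair (42, 37) one (by decide) (Or.inl rfl)) (by decide) 2 (by decide) ⟨0, by decide⟩ 1 h1 ent2
  · exact test_elem chevE6 hD _ 0 h0 [(39, one)] 1 1
      (single 39 one (by decide) (Or.inl rfl)) (by decide) 3 (by decide) ⟨1, by decide⟩ 1 h1 ent3
  · exact test_elem chevE6 hD _ 0 h0 [(42, one), (37, one)] 1 1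
      (pair (42, 37) one (by decide) (Or.inl rfl)) (by decide) 4 (by decide) ⟨3, by decide⟩ 1 h1 ent4
  · exact test_elem chevE6 hD _ 0 h0 [(56, one), (36, one)] 1 1
      (pair (56, 36) one (by decide) (Or.inl rfl)) (by decide) 5 (by decide) ⟨4, by decide⟩ 1 h1 ent5

end Cfsg.Agent.S1105
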