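import Cfsg.Statements.S1109
import Cfsg.Agent.Lib.Helper7.TwCore

set_option autoImplicit false
open Cfsg

namespace Cfsg.Agent.S1109

open Cfsg.Lie Cfsg.Agent.Lib.Helper7.ChevEngine Cfsg.Agent.Lib.Helper7.ChevTorus Cfsg.Agent.Lib.Helper7.ChevW0
  Cfsg.Agent.Lib.Helper7.W0All Cfsg.Agent.Lib.Helper7.TwCore

def mone : Poly := [(-1, 0, 0)]

def blocks : List (List ℕ) := [[1], [0, 2, 3], [1], [0, 2, 3], [1], [0, 2, 3]]

theorem w0c : w0Check chevD4 wtD4 blocks.flatten = true := by decide +kernel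

def wsA : List (List (ℕ × Poly)) := [[(14, one)], [(9, mone)], [(14, one)]]

def wsC : List (List (ℕ × Poly)) :=
  [[(18, one), (13, one), (12, one)], [(5, mone), (10, mone), (11, mone)], [(18, one), (13, one), (12, one)]]

theorem chkA : ∀ k < chevD4.rank + chevD4.nroots,
    eqCheckP 0 chevD4.rank chevD4.nroots (fnsOf chevD4) (nPolyWord chevD4 [1]) wsA.flatten k = true := by
  decide +kernel

theorem chkC : ∀ k < chevD4.rank + chevD4.nroots,
    eqCheckP 0 chevD4.rank chevD4.nroots (fnsOf chevD4) (nPolyWord chevD4 [0, 2, 3]) wsC.flatten k = true := by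
  decide +kernel

theorem ent0 : entChk 0 chevD4.rank chevD4.nroots (fnsOf chevD4) [(18, one), (13, one), (12, one)] 1
    (chevD4.rank + chevD4.simple 0) 1 = true := by decide +kernel

theorem ent1 : entChk 0 chevD4.rank chevD4.nroots (fnsOf chevD4) [(14, one)] 0
    (chevD4.rank + chevD4.simple 1) 1 = true := by decide +kernel

theorem ent2 : entChk 0 chevD4.rank chevD4.nroots (fnsOf chevD4) [(18, one), (13, one), (12, one)] 1
    (chevD4.rank + chevD4.simple 2) 1 = true := by decide +kernel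

theorem ent3 : entChk 0 chevD4.rank chevD4.nroots (fnsOf chevD4) [(18, one), (13, one), (12, one)] 1
    (chevD4.rank + chevD4.simple 3) 1 = true := by decide +kernel

theorem blocks_cases : ∀ blk ∈ blocks, blk = [1] ∨ blk = [0, 2, 3] := by
  decide


/-- The normal core of `B¹ = G¹ ∩ B` in ³D₄(q) is trivial. -/
theorem result {K : Type*} [Field K] [Fintype K] {q : ℕ} (hq : IsPrimePow q) (hK : Fintype.card K = q ^ 3) :
    ((Cfsg.Lie.chevD4.borelSubgroup K ⊓ Cfsg.Lie.twistedD4 K q).subgroupOf (Cfsg.Lie.twistedD4 K q)).normalCore = ⊥ := by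
  have hD : chevD4 ∈ [chevG2, chevB2, chevD4, chevF4, chevE6, chevE7, chevE8] := by simp
  have hneg : (-1 : K) ^ q = -1 := neg_one_pow_card q 3 (by norm_num) hK
  have hneg2 : (-1 : K) ^ (q ^ 2) = -1 := by
    rw [pow_two, pow_mul, hneg, hneg]
  have h0 : (((0 : ℤ)) : K) = 0 := Int.cast_zero
  have hP : ∀ P : Poly, P = one ∨ P = mone → eval (1 : K) 1 P ^ q = eval (1 : K) 1 P ∧
      eval (1 : K) 1 P ^ (q ^ 2) = eval (1 : K) 1 P := by
    rintro P (rfl | rfl)
    · simp [eval, evalM, one]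
    · constructor
      · simpa [eval, evalM, mone] using hneg
      · simpa [eval, evalM, mone] using hneg2
  have single : ∀ (r : ℕ) (P : Poly), r ∈ [d4p2, d4m2] → (P = one ∨ P = mone) →
      wordGL chevD4 hD (([(r, P)] : List (ℕ × Poly)).map fun x => (x.1, eval (1 : K) 1 x.2)) ∈
        twistedD4 K q := by
    intro r P hr hPP
    exact gen_mem chevD4 hD (d4Words K q) _ (Or.inl ⟨eval (1 : K) 1 P, (hP P hPP).1, r, hr, rfl⟩)
  have triple : ∀ (rs : ℕ × ℕ × ℕ) (P : Poly),
      rs ∈ [(d4p1, d4p3, d4p4), (d4m1, d4m3, d4m4)] → (P = one ∨ P = mone) →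
      wordGL chevD4 hD (([(rs.1, P), (rs.2.1, P), (rs.2.2, P)] : List (ℕ × Poly)).map
        fun x => (x.1, eval (1 : K) 1 x.2)) ∈ twistedD4 K q := by
    intro rs P hrs hPP
    refine gen_mem chevD4 hD (d4Words K q) _ (Or.inr ⟨eval (1 : K) 1 P, rs, hrs, ?_⟩)
    rw [(hP P hPP).1, (hP P hPP).2]
    rfl
  have bA : nWordGL (F := K) chevD4 hD [1] ∈ twistedD4 K q := by
    apply block_mem chevD4 hD (twistedD4 K q) 0 h0 [1] wsA 1 1 chkA
    intro w hw
    simp only [wsA, List.mem_cons, List.not_mem_nil, or_false] at hw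
    rcases hw with rfl | rfl | rfl
    · exact single 14 one (by decide) (Or.inl rfl)
    · exact single 9 mone (by decide) (Or.inr rfl)
    · exact single 14 one (by decide) (Or.inl rfl)
  have bC : nWordGL (F := K) chevD4 hD [0, 2, 3] ∈ twistedD4 K q := by
    apply block_mem chevD4 hD (twistedD4 K q) 0 h0 [0, 2, 3] wsC 1 1 chkC
    intro w hw
    simp only [wsC, List.mem_cons, List.not_mem_nil, or_false] at hw
    rcases hw with rfl | rfl | rfl
    · exact triple (18, 13, 12) one (by decide) (Or.inl rfl)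
    · exact triple (5, 10, 11) mone (by decide) (Or.inr rfl)
    · exact triple (18, 13, 12) one (by decide) (Or.inl rfl)
  have hn0 : nWordGL (F := K) chevD4 hD blocks.flatten ∈ twistedD4 K q := by
    apply flatten_mem chevD4 hD
    intro blk hb
    rcases blocks_cases blk hb with rfl | rfl
    · exact bA
    · exact bC
  obtain ⟨hN, hmap⟩ := w0_map (F := K) chevD4 hD wtD4 woD4 blocks.flatten w0c
  have h1 : (((1 : ℤ)) : K) ≠ 0 := by simp
  apply twisted_core chevD4 hD (twistedD4 K q) _ hn0 hN hmap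
  intro k hk
  have hk' : k < 4 := hk
  interval_cases k
  · exact test_elem chevD4 hD _ 0 h0 [(18, one), (13, one), (12, one)] 1 1
      (triple (18, 13, 12) one (by decide) (Or.inl rfl)) (by decide) 0 (by decide) ⟨1, by decide⟩ 1 h1 ent0
  · exact test_elem chevD4 hD _ 0 h0 [(14, one)] 1 1
      (single 14 one (by decide) (Or.inl rfl)) (by decide) 1 (by decide) ⟨0, by decide⟩ 1 h1 ent1
  · exact test_elem chevD4 hD _ 0 h0 [(18, one), (13, one), (12, one)] 1 1
      (triple (18, 13, 12) one (by decide) (Or.inl rfl)) (by decide) 2 (by decide) ⟨1, by decide⟩ 1 h1 ent2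
  · exact test_elem chevD4 hD _ 0 h0 [(18, one), (13, one), (12, one)] 1 1
      (triple (18, 13, 12) one (by decide) (Or.inl rfl)) (by decide) 3 (by decide) ⟨1, by decide⟩ 1 h1 ent3

end Cfsg.Agent.S1109
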