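import Cfsg.Statements.S1113
import Cfsg.Agent.Lib.Helper7.TwCore

set_option autoImplicit false
open Cfsg

namespace Cfsg.Agent.S1113

open Cfsg.Lie Cfsg.Agent.Lib.Helper7.ChevEngine Cfsg.Agent.Lib.Helper7.ChevTorus Cfsg.Agent.Lib.Helper7.ChevW0
  Cfsg.Agent.Lib.Helper7.W0All Cfsg.Agent.Lib.Helper7.TwCore

def two : Poly := [(2, 0, 0)]

def blocks : List (List ℕ) := [[0, 3], [1, 2, 1, 2], [0, 3], [1, 2, 1, 2], [0, 3], [1, 2, 1, 2], [0, 3], [1, 2, 1, 2]]

theorem w0c : w0Check chevF4 wtF4 blocks.flatten = true := by decide +kernel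

def wsA : List (List (ℕ × Poly)) := [[(33, one), (24, one)], [(14, one), (23, one)], [(33, one), (24, one)]]

def wsC : List (List (ℕ × Poly)) :=
  [[(27, []), (25, []), (28, one), (30, one)], [(20, one), (22, one), (19, two), (17, one)],
    [(27, one), (25, one), (28, one), (30, [])]]

theorem chkA : ∀ k < chevF4.rank + chevF4.nroots,
    eqCheckP 2 chevF4.rank chevF4.nroots (fnsOf chevF4) (nPolyWord chevF4 [0, 3]) wsA.flatten k = true := by
  decide +kernel

theorem chkC : ∀ k < chevF4.rank + chevF4.nroots,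
    eqCheckP 2 chevF4.rank chevF4.nroots (fnsOf chevF4) (nPolyWord chevF4 [1, 2, 1, 2]) wsC.flatten k = true := by
  decide +kernel

theorem ent0 : entChk 2 chevF4.rank chevF4.nroots (fnsOf chevF4) [(33, one), (24, one)] 1
    (chevF4.rank + chevF4.simple 0) 1 = true := by decide +kernel

theorem ent1 : entChk 2 chevF4.rank chevF4.nroots (fnsOf chevF4) [(27, one), (25, one), (28, one), (30, [])] 0
    (chevF4.rank + chevF4.simple 1) 1 = true := by decide +kernel

theorem ent2 : entChk 2 chevF4.rank chevF4.nroots (fnsOf chevF4) [(27, one), (25, one), (28, one), (30, [])] 3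
    (chevF4.rank + chevF4.simple 2) 1 = true := by decide +kernel

theorem ent3 : entChk 2 chevF4.rank chevF4.nroots (fnsOf chevF4) [(33, one), (24, one)] 2
    (chevF4.rank + chevF4.simple 3) 1 = true := by decide +kernel

theorem blocks_cases : ∀ blk ∈ blocks, blk = [0, 3] ∨ blk = [1, 2, 1, 2] := by
  decide


/-- The normal core of `B¹ = G¹ ∩ B` in ²F₄(2^(2m+1)) is trivial. -/
theorem result {K : Type*} [Field K] [Fintype K] {m : ℕ} (hK : Fintype.card K = 2 ^ (2 * m + 1)) :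
    ((Cfsg.Lie.chevF4.borelSubgroup K ⊓ Cfsg.Lie.twistedF4 K (2 ^ m)).subgroupOf (Cfsg.Lie.twistedF4 K (2 ^ m))).normalCore = ⊥ := by
  have hD : chevF4 ∈ [chevG2, chevB2, chevD4, chevF4, chevE6, chevE7, chevE8] := by simp
  have h2n : ((2 : ℕ) : K) = 0 := char_of_card 2 (2 * m + 1) hK
  have h2 : (((2 : ℤ)) : K) = 0 := by
    have e : (((2 : ℤ)) : K) = ((2 : ℕ) : K) := by norm_num
    rw [e]
    exact h2n
  have he : (2 : ℕ) ^ m ≠ 0 := pow_ne_zero m (by norm_num)
  have z1 : (0 : K) ^ (2 ^ m) = 0 := zero_pow he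
  have z2 : (0 : K) ^ (2 ^ m + 1) = 0 := zero_pow (Nat.succ_ne_zero _)
  have z3 : (0 : K) ^ (2 * 2 ^ m) = 0 := zero_pow (by omega)
  have pairP : wordGL chevF4 hD (([(33, one), (24, one)] : List (ℕ × Poly)).map
      fun x => (x.1, eval (1 : K) 1 x.2)) ∈ twistedF4 K (2 ^ m) := by
    refine gen_mem chevF4 hD (f4Words K (2 ^ m)) _ (Or.inl ⟨1, Or.inl ?_⟩)
    simp [f4PairWord, f4p1, f4p4, eval, evalM, one]
  have pairM : wordGL chevF4 hD (([(14, one), (23, one)] : List (ℕ × Poly)).map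
      fun x => (x.1, eval (1 : K) 1 x.2)) ∈ twistedF4 K (2 ^ m) := by
    refine gen_mem chevF4 hD (f4Words K (2 ^ m)) _ (Or.inl ⟨1, Or.inr ?_⟩)
    simp [f4PairWord, f4m1, f4m4, eval, evalM, one]
  have cU01 : wordGL chevF4 hD (([(27, []), (25, []), (28, one), (30, one)] : List (ℕ × Poly)).map
      fun x => (x.1, eval (1 : K) 1 x.2)) ∈ twistedF4 K (2 ^ m) := by
    refine gen_mem chevF4 hD (f4Words K (2 ^ m)) _ (Or.inr ⟨0, 1, Or.inl ?_⟩)
    simp [b2ClassWord, f4a, f4b, f4ab, f4aab, eval, evalM, one, z1, z2]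
  have cV11 : wordGL chevF4 hD (([(20, one), (22, one), (19, two), (17, one)] : List (ℕ × Poly)).map
      fun x => (x.1, eval (1 : K) 1 x.2)) ∈ twistedF4 K (2 ^ m) := by
    refine gen_mem chevF4 hD (f4Words K (2 ^ m)) _ (Or.inr ⟨1, 1, Or.inr ?_⟩)
    simp [b2ClassWord, f4ma, f4mb, f4mab, f4maab, eval, evalM, one, two, one_add_one_eq_two]
  have cU10 : wordGL chevF4 hD (([(27, one), (25, one), (28, one), (30, [])] : List (ℕ × Poly)).map
      fun x => (x.1, eval (1 : K) 1 x.2)) ∈ twistedF4 K (2 ^ m) := by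
    refine gen_mem chevF4 hD (f4Words K (2 ^ m)) _ (Or.inr ⟨1, 0, Or.inl ?_⟩)
    simp [b2ClassWord, f4a, f4b, f4ab, f4aab, eval, evalM, one, z3]
  have bA : nWordGL (F := K) chevF4 hD [0, 3] ∈ twistedF4 K (2 ^ m) := by
    apply block_mem chevF4 hD (twistedF4 K (2 ^ m)) 2 h2 [0, 3] wsA 1 1 chkA
    intro w hw
    simp only [wsA, List.mem_cons, List.not_mem_nil, or_false] at hw
    rcases hw with rfl | rfl | rfl
    · exact pairP
    · exact pairM
    · exact pairP
  have bC : nWordGL (F := K) chevF4 hD [1, 2, 1, 2] ∈ twistedF4 K (2 ^ m) := by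
    apply block_mem chevF4 hD (twistedF4 K (2 ^ m)) 2 h2 [1, 2, 1, 2] wsC 1 1 chkC
    intro w hw
    simp only [wsC, List.mem_cons, List.not_mem_nil, or_false] at hw
    rcases hw with rfl | rfl | rfl
    · exact cU01
    · exact cV11
    · exact cU10
  have hn0 : nWordGL (F := K) chevF4 hD blocks.flatten ∈ twistedF4 K (2 ^ m) := by
    apply flatten_mem chevF4 hD
    intro blk hb
    rcases blocks_cases blk hb with rfl | rfl
    · exact bA
    · exact bC
  obtain ⟨hN, hmap⟩ := w0_map (F := K) chevF4 hD wtF4 woF4 blocks.flatten w0c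
  have h1 : (((1 : ℤ)) : K) ≠ 0 := by simp
  apply twisted_core chevF4 hD (twistedF4 K (2 ^ m)) _ hn0 hN hmap
  intro k hk
  have hk' : k < 4 := hk
  interval_cases k
  · exact test_elem chevF4 hD _ 2 h2 [(33, one), (24, one)] 1 1 pairP (by decide) 0 (by decide)
      ⟨1, by decide⟩ 1 h1 ent0
  · exact test_elem chevF4 hD _ 2 h2 [(27, one), (25, one), (28, one), (30, [])] 1 1 cU10 (by decide) 1
      (by decide) ⟨0, by decide⟩ 1 h1 ent1
  · exact test_elem chevF4 hD _ 2 h2 [(27, one), (25, one), (28, one), (30, [])] 1 1 cU10 (by decide) 2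
      (by decide) ⟨3, by decide⟩ 1 h1 ent2
  · exact test_elem chevF4 hD _ 2 h2 [(33, one), (24, one)] 1 1 pairP (by decide) 3 (by decide)
      ⟨2, by decide⟩ 1 h1 ent3

end Cfsg.Agent.S1113
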