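import Cfsg.Statements.S1118
import Cfsg.Agent.Lib.Helper8.R1

set_option autoImplicit false
open Cfsg

namespace Cfsg.Agent.S1118

open Cfsg.Agent.Lib.Helper8.R1 MulAction

theorem part1 {G Ω : Type*} [Group G] [MulAction G Ω] {a : Ω} {t : G} {Q : Subgroup G}
    (hS : Cfsg.IsRankOneSetup G Ω a t Q) (X : Set G) (hX : X ⊆ (Q : Set G)) (hne : ∃ x ∈ X, x ≠ 1) :
    Subgroup.normalizer X ≤ MulAction.stabilizer G a := by
  intro g hg
  obtain ⟨x, hx, hx1⟩ := hne
  have h1 : g * x * g⁻¹ ∈ X := (Subgroup.mem_set_normalizer_iff.mp hg x).mp hx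
  have h2 : g * x * g⁻¹ ≠ 1 := by
    intro h; apply hx1
    calc x = g⁻¹ * (g * x * g⁻¹) * g := by group
      _ = 1 := by rw [h]; group
  have h3 : (g * x * g⁻¹) • (g • a) = g • a := by
    rw [mul_smul, mul_smul, inv_smul_smul, mem_stabilizer_iff.mp (hS.le (hX hx))]
  exact mem_stabilizer_iff.mpr (fix_only hS (hX h1) h2 h3)

/-- In the rank-one set-up (`G` finite and doubly transitive on `Ω`, `t` an involution moving `a`, `Q` normal in `G_a` with `G_a = Q D`, `Q ⊓ D = 1` for the two-point stabiliser `D = G_a ⊓ G_{t • a}`, `|Q|` even, `|D|` odd), the normaliser of a subset of `Q` containing a non-identity element lies in `G_a`; consequently `N_G(Q) = N_G(G_a) = G_a`. -/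
theorem result {G Ω : Type*} [Group G] [Finite G] [MulAction G Ω] {a : Ω} {t : G} {Q : Subgroup G}
    (hS : Cfsg.IsRankOneSetup G Ω a t Q) :
    (∀ X : Set G, X ⊆ (Q : Set G) → (∃ x ∈ X, x ≠ 1) → Subgroup.normalizer X ≤ MulAction.stabilizer G a) ∧
      Subgroup.normalizer (Q : Set G) = MulAction.stabilizer G a ∧
      Subgroup.normalizer (MulAction.stabilizer G a : Set G) = MulAction.stabilizer G a := by
  refine ⟨fun X hX hne => part1 hS X hX hne, ?_, ?_⟩
  · apply le_antisymm
    · exact part1 hS _ (le_refl _) (exists_ne_one hS)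
    · intro g hg
      rw [Subgroup.mem_normalizer_iff]
      intro h
      constructor
      · intro hh; exact hS.conj_mem g hg h hh
      · intro hh
        have := hS.conj_mem g⁻¹ (Subgroup.inv_mem _ hg) _ hh
        have e : g⁻¹ * (g * h * g⁻¹) * g⁻¹⁻¹ = h := by group
        rwa [e] at this
  · apply le_antisymm
    · intro g hg
      obtain ⟨x, hx, hx1⟩ := exists_ne_one hS
      have h1 : g⁻¹ * x * g⁻¹⁻¹ ∈ stabilizer G a :=
        (Subgroup.mem_normalizer_iff.mp (Subgroup.inv_mem _ hg) x).mp (hS.le hx)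
      have h3 : x • (g • a) = g • a := by
        have := mem_stabilizer_iff.mp h1
        rw [inv_inv, mul_smul, mul_smul] at this
        calc x • g • a = g • (g⁻¹ • x • g • a) := by rw [smul_inv_smul]
          _ = g • a := by rw [this]
      exact mem_stabilizer_iff.mpr (fix_only hS hx hx1 h3)
    · exact Subgroup.le_normalizer

end Cfsg.Agent.S1118
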