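import Cfsg.Statements.S1119
import Cfsg.Agent.Lib.Helper8.R1

set_option autoImplicit false
open Cfsg

namespace Cfsg.Agent.S1119

open Cfsg.Agent.Lib.Helper8.R1 MulAction

theorem card_omega {G Ω : Type*} [Group G] [Finite G] [MulAction G Ω] {a : Ω} {t : G} {Q : Subgroup G}
    (hS : Cfsg.IsRankOneSetup G Ω a t Q) : Nat.card Ω = Nat.card Q + 1 := by
  let f : Q → {c : Ω // c ≠ a} := fun x => ⟨(x : G) • (t • a), by
    intro h
    have h1 : (x : G)⁻¹ • a = a := by
      have := mem_stabilizer_iff.mp (Subgroup.inv_mem _ (hS.le x.2))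
      exact this
    apply ta_ne hS
    calc t • a = (x : G)⁻¹ • ((x : G) • (t • a)) := by rw [inv_smul_smul]
      _ = a := by rw [h, h1]⟩
  have hf : Function.Bijective f := by
    constructor
    · intro x y hxy
      have h1 : (x : G) • (t • a) = (y : G) • (t • a) := congrArg Subtype.val hxy
      obtain ⟨z, _, hz⟩ := Q_regular hS (ta_ne hS) (c := t • a) (d := (y : G) • (t • a)) (by
        exact (f y).2)
      rw [hz x h1, hz y rfl]
    · rintro ⟨c, hc⟩
      obtain ⟨x, hx, hxc⟩ := exists_Q_smul hS hc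
      exact ⟨⟨x, hx⟩, Subtype.ext hxc⟩
  have e1 : Nat.card Q = Nat.card {c : Ω // c ≠ a} := Nat.card_congr (Equiv.ofBijective f hf)
  have : Finite {c : Ω // c ≠ a} := Finite.of_equiv _ (Equiv.ofBijective f hf)
  rw [e1, ← Finite.card_option]
  classical
  exact Nat.card_congr (Equiv.optionSubtypeNe a).symm

theorem card_stab {G Ω : Type*} [Group G] [Finite G] [MulAction G Ω] {a : Ω} {t : G} {Q : Subgroup G}
    (hS : Cfsg.IsRankOneSetup G Ω a t Q) :
    Nat.card (stabilizer G a) =
      Nat.card Q * Nat.card ↥(stabilizer G a ⊓ stabilizer G (t • a)) := by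
  let f : Q × ↥(stabilizer G a ⊓ stabilizer G (t • a)) → stabilizer G a := fun p =>
    ⟨(p.1 : G) * (p.2 : G), Subgroup.mul_mem _ (hS.le p.1.2) p.2.2.1⟩
  have hf : Function.Bijective f := by
    constructor
    · rintro ⟨⟨q, hq⟩, ⟨d, hd⟩⟩ ⟨⟨q', hq'⟩, ⟨d', hd'⟩⟩ h
      have h1 : q * d = q' * d' := congrArg Subtype.val h
      obtain ⟨h2, h3⟩ := decomp_unique hS hq hq' hd hd' h1
      subst h2; subst h3; rfl
    · rintro ⟨g, hg⟩
      obtain ⟨q, hq, d, hd, rfl⟩ := exists_mul_of_mem_stab hS hg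
      exact ⟨⟨⟨q, hq⟩, ⟨d, hd⟩⟩, rfl⟩
  rw [← Nat.card_prod]
  exact (Nat.card_congr (Equiv.ofBijective f hf)).symm

/-- In the rank-one set-up (`G` finite and doubly transitive on `Ω`, `t` an involution moving `a`, `Q` normal in `G_a` with `G_a = Q D`, `Q ⊓ D = 1` for the two-point stabiliser `D = G_a ⊓ G_{t • a}`, `|Q|` even, `|D|` odd): `Q` acts regularly on `Ω` minus `a`; hence `|Ω| = |Q| + 1`, `|G| = |Q| |D| (|Q| + 1)`, some Sylow 2-subgroup of `G` lies in `Q`, and each `g ∉ G_a` is uniquely `x t y` with `x ∈ G_a`, `y ∈ Q` (canonical form). -/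
theorem result {G Ω : Type*} [Group G] [Finite G] [MulAction G Ω] {a : Ω} {t : G} {Q : Subgroup G}
    (hS : Cfsg.IsRankOneSetup G Ω a t Q) :
    (∀ b c : Ω, b ≠ a → c ≠ a → ∃! x : Q, (x : G) • b = c) ∧
      Nat.card Ω = Nat.card Q + 1 ∧
      Nat.card G = Nat.card Q * Nat.card ↥(MulAction.stabilizer G a ⊓ MulAction.stabilizer G (t • a)) * (Nat.card Q + 1) ∧
      (∃ P : Sylow 2 G, (P : Subgroup G) ≤ Q) ∧
      ∀ g : G, g ∉ MulAction.stabilizer G a → ∃! p : G × G, p.1 ∈ MulAction.stabilizer G a ∧ p.2 ∈ Q ∧ g = p.1 * t * p.2 := by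
  have hcardG : Nat.card G = Nat.card Q * Nat.card ↥(MulAction.stabilizer G a ⊓ MulAction.stabilizer G (t • a)) * (Nat.card Q + 1) := by
    have : IsPretransitive G Ω := by
      have := hS.two_transitive
      exact isPretransitive_of_is_two_pretransitive
    have h1 := index_stabilizer_of_transitive G a
    have h2 := Subgroup.card_mul_index (stabilizer G a)
    rw [h1, card_omega hS, card_stab hS] at h2
    exact h2.symm
  refine ⟨fun b c hb hc => Q_regular hS hb hc, card_omega hS, hcardG, ?_, ?_⟩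
  · have : Fact (Nat.Prime 2) := ⟨Nat.prime_two⟩
    obtain ⟨P₀⟩ : Nonempty (Sylow 2 Q) := inferInstance
    have hc0 : Nat.card P₀ = 2 ^ (Nat.card Q).factorization 2 := P₀.card_eq_multiplicity
    have hc1 : Nat.card ((P₀ : Subgroup Q).map Q.subtype) = 2 ^ (Nat.card G).factorization 2 := by
      rw [Subgroup.card_map_of_injective Q.subtype_injective, hc0]
      congr 1
      have hodd1 : Odd (Nat.card ↥(MulAction.stabilizer G a ⊓ MulAction.stabilizer G (t • a))) := hS.odd_card
      have hodd2 : Odd (Nat.card Q + 1) := hS.even_card.add_one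
      have hQpos : Nat.card Q ≠ 0 := Nat.card_pos.ne'
      rw [hcardG, mul_assoc]
      have hm : Odd (Nat.card ↥(MulAction.stabilizer G a ⊓ MulAction.stabilizer G (t • a)) * (Nat.card Q + 1)) :=
        hodd1.mul hodd2
      have hm0 : Nat.card ↥(MulAction.stabilizer G a ⊓ MulAction.stabilizer G (t • a)) * (Nat.card Q + 1) ≠ 0 :=
        (Odd.pos hm).ne'
      rw [Nat.factorization_mul hQpos hm0]
      have : (Nat.card ↥(MulAction.stabilizer G a ⊓ MulAction.stabilizer G (t • a)) * (Nat.card Q + 1)).factorization 2 = 0 := by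
        apply Nat.factorization_eq_zero_of_not_dvd
        exact fun h => (Nat.not_even_iff_odd.mpr hm) (even_iff_two_dvd.mpr h)
      rw [Finsupp.add_apply, this, add_zero]
    refine ⟨Sylow.ofCard _ hc1, ?_⟩
    rw [Sylow.coe_ofCard]
    exact Subgroup.map_subtype_le _
  · intro g hg
    have hga : g⁻¹ • a ≠ a := by
      intro h
      exact hg (by
        have : g⁻¹ ∈ stabilizer G a := mem_stabilizer_iff.mpr h
        simpa using Subgroup.inv_mem _ this)
    obtain ⟨q, hq, hqa⟩ := exists_Q_smul hS hga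
    refine ⟨(g * q * t, q⁻¹), ⟨?_, Q.inv_mem hq, ?_⟩, ?_⟩
    · show g * q * t ∈ stabilizer G a
      rw [mem_stabilizer_iff, mul_smul, mul_smul, hqa, smul_inv_smul]
    · show g = g * q * t * t * q⁻¹
      rw [mul_assoc (g * q) t t, hS.mul_self]; group
    · rintro ⟨x, y⟩ ⟨hx, hy, hxy⟩
      have h1 : x * t * y = (g * q * t) * t * q⁻¹ := by
        rw [← hxy, mul_assoc (g * q) t t, hS.mul_self]; group
      have hmem : g * q * t ∈ stabilizer G a := by
        rw [mem_stabilizer_iff, mul_smul, mul_smul, hqa, smul_inv_smul]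
      obtain ⟨h2, h3⟩ := canon_unique hS hx hmem hy (Q.inv_mem hq) h1
      simp only [Prod.mk.injEq]
      exact ⟨h2, h3⟩

end Cfsg.Agent.S1119
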