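import Cfsg.Statements.S1121
import Cfsg.Agent.Lib.Helper8.R1
import Cfsg.Agent.Lib.Helper8.Dih

set_option autoImplicit false
open Cfsg

namespace Cfsg.Agent.S1121

open Cfsg.Agent.Lib.Helper8.R1 Cfsg.Agent.Lib.Helper8.Dih MulAction

theorem part1 {G Ω : Type*} [Group G] [Finite G] [MulAction G Ω] {a : Ω} {t : G} {Q : Subgroup G}
    (hS : Cfsg.IsRankOneSetup G Ω a t Q) (s u : G) (hs : s ∈ MulAction.stabilizer G a) (hs1 : s ≠ 1)
    (hss : s * s = 1) (hu : u ∉ MulAction.stabilizer G a) (huu : u * u = 1) :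
    Odd (orderOf (s * u)) := by
  by_contra hodd
  rw [Nat.not_odd_iff_even] at hodd
  obtain ⟨k, hk⟩ := hodd
  obtain ⟨hw1, hw2, hsw, huw⟩ := central_invol_of_even hss huu hk
  generalize (s * u) ^ k = w at *
  have hsQ : s ∈ Q := invol_mem_Q hS hs hss
  have hwa : w • a = a := by
    apply fix_only hS hsQ hs1
    rw [← mul_smul, hsw, mul_smul, mem_stabilizer_iff.mp hs]
  have hwQ : w ∈ Q := invol_mem_Q hS (mem_stabilizer_iff.mpr hwa) hw2
  apply hu
  rw [mem_stabilizer_iff]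
  apply fix_only hS hwQ hw1
  rw [← mul_smul, ← huw, mul_smul, hwa]

theorem conj_t {G Ω : Type*} [Group G] [Finite G] [MulAction G Ω] {a : Ω} {t : G} {Q : Subgroup G}
    (hS : Cfsg.IsRankOneSetup G Ω a t Q) (u : G) (hu1 : u ≠ 1) (huu : u * u = 1) :
    ∃ g : G, g * u * g⁻¹ = t := by
  by_cases hu : u ∈ stabilizer G a
  · exact conj_of_odd huu hS.mul_self (part1 hS u t hu hu1 huu hS.not_mem hS.mul_self)
  · have : Fact (Nat.Prime 2) := ⟨Nat.prime_two⟩
    obtain ⟨s, hs⟩ := exists_prime_orderOf_dvd_card' (G := Q) 2 (even_iff_two_dvd.mp hS.even_card)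
    have hs1 : (s : G) ≠ 1 := by
      intro h
      have : s = 1 := Subtype.ext h
      rw [this, orderOf_one] at hs
      omega
    have hss : (s : G) * (s : G) = 1 := by
      have := pow_orderOf_eq_one s
      rw [hs, pow_two] at this
      exact congrArg Subtype.val this
    obtain ⟨g₁, hg₁⟩ := conj_of_odd hss huu (part1 hS s u (hS.le s.2) hs1 hss hu huu)
    obtain ⟨g₂, hg₂⟩ := conj_of_odd hss hS.mul_self
      (part1 hS s t (hS.le s.2) hs1 hss hS.not_mem hS.mul_self)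
    refine ⟨g₂ * g₁⁻¹, ?_⟩
    rw [← hg₁, ← hg₂]; group

/-- In the rank-one set-up (`G` finite and doubly transitive on `Ω`, `t` an involution moving `a`, `Q` normal in `G_a` with `G_a = Q D`, `Q ⊓ D = 1` for the two-point stabiliser `D = G_a ⊓ G_{t • a}`, `|Q|` even, `|D|` odd): if `s` is an involution of `G_a` and `u` an involution outside `G_a`, then `s u` has odd order; and any two involutions of `G` are conjugate. -/
theorem result {G Ω : Type*} [Group G] [Finite G] [MulAction G Ω] {a : Ω} {t : G} {Q : Subgroup G}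
    (hS : Cfsg.IsRankOneSetup G Ω a t Q) :
    (∀ s u : G, s ∈ MulAction.stabilizer G a → s ≠ 1 → s * s = 1 → u ∉ MulAction.stabilizer G a → u ≠ 1 → u * u = 1 → Odd (orderOf (s * u))) ∧
      ∀ u v : G, u ≠ 1 → u * u = 1 → v ≠ 1 → v * v = 1 → ∃ g : G, g * u * g⁻¹ = v := by
  refine ⟨fun s u hs hs1 hss hu _ huu => part1 hS s u hs hs1 hss hu huu, ?_⟩
  intro u v hu1 huu hv1 hvv
  obtain ⟨g₁, hg₁⟩ := conj_t hS u hu1 huu
  obtain ⟨g₂, hg₂⟩ := conj_t hS v hv1 hvv
  refine ⟨g₂⁻¹ * g₁, ?_⟩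
  have : v = g₂⁻¹ * t * g₂ := by rw [← hg₂]; group
  rw [this, ← hg₁]; group

end Cfsg.Agent.S1121
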