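import Cfsg.Statements.S1122
import Cfsg.Agent.Lib.Helper8.R1SE

set_option autoImplicit false
open Cfsg

namespace Cfsg.Agent.S1122

open Cfsg.Agent.Lib.Helper8.R1SE Cfsg.Agent.Lib.Helper8.R1 MulAction

/-- In the rank-one set-up (`G` finite and doubly transitive on `Ω`, `t` an involution moving `a`, `Q` normal in `G_a` with `G_a = Q D`, `Q ⊓ D = 1` for the two-point stabiliser `D = G_a ⊓ G_{t • a}`, `|Q|` even, `|D|` odd), with `K` the set of elements of `D` inverted by `t`: `|K|` is the number of involutions of `G_a`, and for each involution `s` of `G_a` the `K`-conjugates of `s` are all the involutions of `G_a`. -/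
theorem result {G Ω : Type*} [Group G] [Finite G] [MulAction G Ω] {a : Ω} {t : G} {Q : Subgroup G}
    (hS : Cfsg.IsRankOneSetup G Ω a t Q) :
    Nat.card (Cfsg.invertedBy (MulAction.stabilizer G a ⊓ MulAction.stabilizer G (t • a)) t) = Nat.card (Cfsg.involutionsIn (MulAction.stabilizer G a : Set G)) ∧
      ∀ s ∈ Cfsg.involutionsIn (MulAction.stabilizer G a : Set G), ∀ s' ∈ Cfsg.involutionsIn (MulAction.stabilizer G a : Set G),
        ∃ k ∈ Cfsg.invertedBy (MulAction.stabilizer G a ⊓ MulAction.stabilizer G (t • a)) t, k⁻¹ * s * k = s' := by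
  constructor
  · obtain ⟨z, hzQ, hz1, hzz⟩ := exists_invol_Q hS
    have hz : z ∈ stabilizer G a := hS.le hzQ
    let f : ↥(Cfsg.invertedBy (MulAction.stabilizer G a ⊓ MulAction.stabilizer G (t • a)) t) →
        ↥(Cfsg.involutionsIn (MulAction.stabilizer G a : Set G)) := fun k =>
      ⟨(k : G) * z * (k : G)⁻¹, by
        refine ⟨?_, ?_, ?_⟩
        · exact Subgroup.mul_mem _ (Subgroup.mul_mem _ k.2.1.1 hz) (Subgroup.inv_mem _ k.2.1.1)
        · intro h
          apply hz1
          calc z = (k : G)⁻¹ * ((k : G) * z * (k : G)⁻¹) * (k : G) := by group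
            _ = 1 := by rw [h]; group
        · calc (k : G) * z * (k : G)⁻¹ * ((k : G) * z * (k : G)⁻¹) = (k : G) * (z * z) * (k : G)⁻¹ := by group
            _ = 1 := by rw [hzz]; group⟩
    have hf : Function.Bijective f := by
      constructor
      · rintro ⟨k, hk⟩ ⟨k', hk'⟩ h
        apply Subtype.ext
        exact K_inj hS hz hz1 hzz hk hk' (congrArg Subtype.val h)
      · rintro ⟨s, hs, hs1, hss⟩
        obtain ⟨k, hk, hks⟩ := K_surj hS hz hz1 hzz hs hs1 hss
        exact ⟨⟨k, hk⟩, Subtype.ext hks⟩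
    exact Nat.card_congr (Equiv.ofBijective f hf)
  · rintro s ⟨hs, hs1, hss⟩ s' ⟨hs', hs1', hss'⟩
    obtain ⟨k, hk, hks⟩ := K_surj hS hs' hs1' hss' hs hs1 hss
    refine ⟨k, hk, ?_⟩
    rw [← hks]; group

end Cfsg.Agent.S1122
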