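import Cfsg.Statements.S1123
import Cfsg.Agent.Lib.Helper8.R1SE

set_option autoImplicit false
open Cfsg

namespace Cfsg.Agent.S1123

open Cfsg.Agent.Lib.Helper8.R1SE Cfsg.Agent.Lib.Helper8.R1 MulAction

/-- In the rank-one set-up (`G` finite and doubly transitive on `Ω`, `t` an involution moving `a`, `Q` normal in `G_a` with `G_a = Q D`, `Q ⊓ D = 1` for the two-point stabiliser `D = G_a ⊓ G_{t • a}`, `|Q|` even, `|D|` odd), there is a unique pair `(s, r)` with `s` an involution of `G_a`, `r ∈ Q` and `t s t = r⁻¹ t r`. -/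
theorem result {G Ω : Type*} [Group G] [Finite G] [MulAction G Ω] {a : Ω} {t : G} {Q : Subgroup G}
    (hS : Cfsg.IsRankOneSetup G Ω a t Q) :
    ∃! p : G × G, p.1 ∈ Cfsg.involutionsIn (MulAction.stabilizer G a : Set G) ∧ p.2 ∈ Q ∧
      t * p.1 * t = p.2⁻¹ * t * p.2 := by
  obtain ⟨c, hc, hcu⟩ := invol_fix_unique hS hS.ne_one hS.mul_self
  have hca : c ≠ a := by
    intro h
    rw [h] at hc
    exact ta_ne hS hc
  obtain ⟨⟨r, hrQ⟩, hr, hru⟩ := Q_regular hS (ta_ne hS) hca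
  have hr' : r • t • a = c := hr
  have ht := tinv hS
  have htt := hS.mul_self
  have key : ∀ s' r' : G, s' ∈ Cfsg.involutionsIn (MulAction.stabilizer G a : Set G) → r' ∈ Q →
      t * s' * t = r'⁻¹ * t * r' → r' = r ∧ s' = t * (r⁻¹ * t * r) * t := by
    intro s' r' hs' hr'Q h
    have h1 : (t * s' * t) • (t • a) = t • a := by
      rw [mul_smul, mul_smul, tta hS, mem_stabilizer_iff.mp hs'.1]
    rw [h, mul_smul, mul_smul, inv_smul_eq_iff] at h1
    have h2 := hcu _ h1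
    have h3 := hru ⟨r', hr'Q⟩ h2
    have h4 : r' = r := congrArg Subtype.val h3
    refine ⟨h4, ?_⟩
    rw [← h4, ← h]
    calc s' = (t * t) * s' * (t * t) := by rw [htt, one_mul, mul_one]
      _ = t * (t * s' * t) * t := by group
  refine ⟨(t * (r⁻¹ * t * r) * t, r), ⟨⟨?_, ?_, ?_⟩, hrQ, ?_⟩, ?_⟩
  · show t * (r⁻¹ * t * r) * t ∈ stabilizer G a
    rw [mem_stabilizer_iff, mul_smul, mul_smul, mul_smul, mul_smul, hr', hc, ← hr', inv_smul_smul,
      tta hS]
  · show t * (r⁻¹ * t * r) * t ≠ 1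
    intro h
    apply hS.ne_one
    have h1 : r⁻¹ * t * r = 1 := by
      calc r⁻¹ * t * r = (t * t) * (r⁻¹ * t * r) * (t * t) := by rw [htt, one_mul, mul_one]
        _ = t * (t * (r⁻¹ * t * r) * t) * t := by group
        _ = 1 := by rw [h, mul_one, htt]
    calc t = r * (r⁻¹ * t * r) * r⁻¹ := by group
      _ = 1 := by rw [h1]; group
  · show t * (r⁻¹ * t * r) * t * (t * (r⁻¹ * t * r) * t) = 1
    have hxx : (r⁻¹ * t * r) * (r⁻¹ * t * r) = 1 := by
      calc (r⁻¹ * t * r) * (r⁻¹ * t * r) = r⁻¹ * (t * t) * r := by group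
        _ = 1 := by rw [htt]; group
    calc t * (r⁻¹ * t * r) * t * (t * (r⁻¹ * t * r) * t)
        = t * (r⁻¹ * t * r) * (t * t) * (r⁻¹ * t * r) * t := by group
      _ = t * ((r⁻¹ * t * r) * (r⁻¹ * t * r)) * t := by rw [htt, mul_one]; group
      _ = 1 := by rw [hxx, mul_one, htt]
  · show t * (t * (r⁻¹ * t * r) * t) * t = r⁻¹ * t * r
    calc t * (t * (r⁻¹ * t * r) * t) * t = (t * t) * (r⁻¹ * t * r) * (t * t) := by group
      _ = r⁻¹ * t * r := by rw [htt, one_mul, mul_one]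
  · rintro ⟨s', r'⟩ ⟨hs', hr'Q, h⟩
    obtain ⟨e1, e2⟩ := key s' r' hs' hr'Q h
    rw [e1, e2]

end Cfsg.Agent.S1123
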