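import Cfsg.Statements.S1124
import Cfsg.Agent.Lib.Helper8.IsoInv
import Cfsg.Agent.Lib.Helper8.Conj

set_option autoImplicit false
open Cfsg

namespace Cfsg.Agent.S1124

open Cfsg.Agent.Lib.Helper8.IsoInv Cfsg.Agent.Lib.Helper8.Conj
open scoped Pointwise

theorem odd_orderOf_of_mem {M : Type*} [Group M] [Finite M] (X : Subgroup M) (hodd : Odd (Nat.card X))
    {x : M} (hx : x ∈ X) : Odd (orderOf x) := by
  have h1 : orderOf (⟨x, hx⟩ : X) ∣ Nat.card X := orderOf_dvd_natCard _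
  have h2 : orderOf (⟨x, hx⟩ : X) = orderOf x := Subgroup.orderOf_mk x hx
  rw [h2] at h1
  exact Odd.of_dvd_nat hodd h1

theorem exists_decomp {M : Type*} [Group M] [Finite M]
    (t : M) (ht : orderOf t = 2) (X : Subgroup M) (hodd : Odd (Nat.card X))
    (hnorm : ∀ x ∈ X, t * x * t⁻¹ ∈ X) (x : M) (hx : x ∈ X) :
    ∃ y z : M, y ∈ X ⊓ Subgroup.centralizer {t} ∧ z ∈ Cfsg.invertedBy X t ∧ x = y * z := by
  have htt : t * t = 1 := mul_self_of_orderOf_two ht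
  have hti : t⁻¹ = t := inv_eq_self_of_mul_self htt
  have huX : x⁻¹ * (t * x * t⁻¹) ∈ X := X.mul_mem (X.inv_mem hx) (hnorm x hx)
  have hut : t * (x⁻¹ * (t * x * t⁻¹)) * t⁻¹ = (x⁻¹ * (t * x * t⁻¹))⁻¹ := by
    rw [hti]; simp only [mul_inv_rev, inv_inv, hti, mul_assoc, htt, mul_one]
  obtain ⟨m, hm⟩ := odd_orderOf_of_mem X hodd huX
  generalize hu : x⁻¹ * (t * x * t⁻¹) = u at *
  have hzX : u ^ m ∈ X := X.pow_mem huX m
  have hzt : t * u ^ m * t⁻¹ = (u ^ m)⁻¹ := by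
    rw [← conj_pow, hut, inv_pow]
  have hz2 : u ^ m * u ^ m = u⁻¹ := by
    have h3 : u ^ (2 * m) * u = 1 := by rw [← pow_succ, ← hm, pow_orderOf_eq_one]
    rw [← pow_add, ← two_mul]
    exact eq_inv_of_mul_eq_one_left h3
  refine ⟨x * (u ^ m)⁻¹, u ^ m, Subgroup.mem_inf.mpr ⟨X.mul_mem hx (X.inv_mem hzX), ?_⟩, ⟨hzX, hzt⟩, by group⟩
  rw [Subgroup.mem_centralizer_singleton_iff]
  have h1 : t * (x * (u ^ m)⁻¹) * t⁻¹ = x * (u ^ m)⁻¹ := by
    have e : t * (x * (u ^ m)⁻¹) * t⁻¹ = (t * x * t⁻¹) * (t * u ^ m * t⁻¹)⁻¹ := by group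
    rw [e, hzt, inv_inv]
    have e2 : t * x * t⁻¹ = x * u := by rw [← hu]; group
    rw [e2]
    have e3 : u = (u ^ m * u ^ m)⁻¹ := by rw [hz2, inv_inv]
    calc x * u * u ^ m = x * (u ^ m * u ^ m)⁻¹ * u ^ m := by rw [← e3]
      _ = x * (u ^ m)⁻¹ := by group
  calc x * (u ^ m)⁻¹ * t = (t * (x * (u ^ m)⁻¹) * t⁻¹) * t := by rw [h1]
    _ = t * (x * (u ^ m)⁻¹) := by group

theorem decomp_unique {M : Type*} [Group M] [Finite M]
    (t : M) (X : Subgroup M) (hodd : Odd (Nat.card X))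
    {y z y' z' : M} (hy : y ∈ X ⊓ Subgroup.centralizer {t}) (hz : z ∈ Cfsg.invertedBy X t)
    (hy' : y' ∈ X ⊓ Subgroup.centralizer {t}) (hz' : z' ∈ Cfsg.invertedBy X t)
    (h : y * z = y' * z') : y = y' ∧ z = z' := by
  have hyt : t * y * t⁻¹ = y := by
    have := Subgroup.mem_centralizer_singleton_iff.mp hy.2
    rw [← this]; group
  have hy't : t * y' * t⁻¹ = y' := by
    have := Subgroup.mem_centralizer_singleton_iff.mp hy'.2
    rw [← this]; group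
  have h1 : t * (y * z) * t⁻¹ = y * z⁻¹ := by
    have e : t * (y * z) * t⁻¹ = (t * y * t⁻¹) * (t * z * t⁻¹) := by group
    rw [e, hyt, hz.2]
  have h2 : t * (y' * z') * t⁻¹ = y' * z'⁻¹ := by
    have e : t * (y' * z') * t⁻¹ = (t * y' * t⁻¹) * (t * z' * t⁻¹) := by group
    rw [e, hy't, hz'.2]
  have h3 : (z ^ 2)⁻¹ = (z' ^ 2)⁻¹ := by
    calc (z ^ 2)⁻¹ = (y * z)⁻¹ * (y * z⁻¹) := by rw [pow_two]; group
      _ = (y * z)⁻¹ * (t * (y * z) * t⁻¹) := by rw [h1]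
      _ = (y' * z')⁻¹ * (t * (y' * z') * t⁻¹) := by rw [h]
      _ = (y' * z')⁻¹ * (y' * z'⁻¹) := by rw [h2]
      _ = (z' ^ 2)⁻¹ := by rw [pow_two]; group
  have h4 : z = z' := eq_of_sq_eq_of_odd (odd_orderOf_of_mem X hodd hz.1)
    (odd_orderOf_of_mem X hodd hz'.1) (inv_injective h3)
  subst h4
  exact ⟨mul_right_cancel h, rfl⟩

/-- Let `t` be an element of order 2 of a finite group normalising a subgroup `X` of odd order, `Y = C_X(t)` and `Z` the set of elements of `X` inverted by `t`. Then `(y, z) ↦ y z` is a bijection `Y × Z → X`, so `|X| = |Y| |Z|`, and the subgroup generated by `Z` is normal in `X`. -/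
theorem result {M : Type*} [Group M] [Finite M]
    (t : M) (ht : orderOf t = 2) (X : Subgroup M) (hodd : Odd (Nat.card X))
    (hnorm : ∀ x ∈ X, t * x * t⁻¹ ∈ X) :
    (∀ x ∈ X, ∃! p : M × M, p.1 ∈ X ⊓ Subgroup.centralizer {t} ∧ p.2 ∈ Cfsg.invertedBy X t ∧ x = p.1 * p.2) ∧
      Nat.card X = Nat.card ↥(X ⊓ Subgroup.centralizer {t}) * Nat.card (Cfsg.invertedBy X t) ∧
      ∀ x ∈ X, MulAut.conj x • Subgroup.closure (Cfsg.invertedBy X t) = Subgroup.closure (Cfsg.invertedBy X t) := by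
  refine ⟨?_, ?_, ?_⟩
  · intro x hx
    obtain ⟨y, z, hy, hz, hxyz⟩ := exists_decomp t ht X hodd hnorm x hx
    refine ⟨(y, z), ⟨hy, hz, hxyz⟩, ?_⟩
    rintro ⟨y', z'⟩ ⟨hy', hz', hxyz'⟩
    obtain ⟨h1, h2⟩ := decomp_unique t X hodd hy' hz' hy hz (hxyz'.symm.trans hxyz)
    simp only [Prod.mk.injEq]
    exact ⟨h1, h2⟩
  · let f : ↥(X ⊓ Subgroup.centralizer {t}) × (Cfsg.invertedBy X t) → X := fun p =>
      ⟨(p.1 : M) * (p.2 : M), X.mul_mem p.1.2.1 p.2.2.1⟩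
    have hf : Function.Bijective f := by
      constructor
      · rintro ⟨⟨y, hy⟩, ⟨z, hz⟩⟩ ⟨⟨y', hy'⟩, ⟨z', hz'⟩⟩ h
        have h1 : y * z = y' * z' := congrArg Subtype.val h
        obtain ⟨h2, h3⟩ := decomp_unique t X hodd hy hz hy' hz' h1
        subst h2; subst h3; rfl
      · rintro ⟨x, hx⟩
        obtain ⟨y, z, hy, hz, hxyz⟩ := exists_decomp t ht X hodd hnorm x hx
        exact ⟨⟨⟨y, hy⟩, ⟨z, hz⟩⟩, Subtype.ext hxyz.symm⟩
    rw [← Nat.card_prod]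
    exact (Nat.card_congr (Equiv.ofBijective f hf)).symm
  · intro x hx
    obtain ⟨y, z, hy, hz, hxyz⟩ := exists_decomp t ht X hodd hnorm x hx
    have hyN : y ∈ Subgroup.normalizer ((Subgroup.closure (Cfsg.invertedBy X t) : Subgroup M) : Set M) := by
      rw [mem_normalizer_iff_map_conj]
      apply map_conj_eq_of_le
      rw [MonoidHom.map_closure, Subgroup.closure_le]
      rintro _ ⟨w, hw, rfl⟩
      apply Subgroup.subset_closure
      have hyt : t * y * t⁻¹ = y := by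
        have := Subgroup.mem_centralizer_singleton_iff.mp hy.2
        rw [← this]; group
      refine ⟨X.mul_mem (X.mul_mem hy.1 hw.1) (X.inv_mem hy.1), ?_⟩
      show t * (y * w * y⁻¹) * t⁻¹ = (y * w * y⁻¹)⁻¹
      have e : t * (y * w * y⁻¹) * t⁻¹ = (t * y * t⁻¹) * (t * w * t⁻¹) * (t * y * t⁻¹)⁻¹ := by group
      rw [e, hyt, hw.2]; group
    have hzN : z ∈ Subgroup.normalizer ((Subgroup.closure (Cfsg.invertedBy X t) : Subgroup M) : Set M) :=
      Subgroup.le_normalizer (Subgroup.subset_closure hz)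
    have hxN : x ∈ Subgroup.normalizer ((Subgroup.closure (Cfsg.invertedBy X t) : Subgroup M) : Set M) := by
      rw [hxyz]; exact Subgroup.mul_mem _ hyN hzN
    rw [mem_normalizer_iff_map_conj] at hxN
    exact hxN

end Cfsg.Agent.S1124
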