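import Cfsg.Statements.S1125
import Cfsg.Agent.Lib.Helper8.R1Fix

set_option autoImplicit false
open Cfsg

namespace Cfsg.Agent.S1125

open Cfsg.Agent.Lib.Helper8.R1SE Cfsg.Agent.Lib.Helper8.R1 Cfsg.Agent.Lib.Helper8.R1Fix MulAction
  Cfsg.Agent.Lib.Helper8.IsoInv

/-- In the rank-one set-up (`G` finite and doubly transitive on `Ω`, `t` an involution moving `a`, `Q` normal in `G_a` with `G_a = Q D`, `Q ⊓ D = 1` for the two-point stabiliser `D = G_a ⊓ G_{t • a}`, `|Q|` even, `|D|` odd), let `X ⊆ D` fix at least three points of `Ω`. Then `C_G(X)` is doubly transitive on the fixed-point set of `X`, `|C_Q(X)|` is even, and `C_{G_a}(X) = C_Q(X) C_D(X)`. -/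
theorem result {G Ω : Type*} [Group G] [Finite G] [MulAction G Ω] {a : Ω} {t : G} {Q : Subgroup G}
    (hS : Cfsg.IsRankOneSetup G Ω a t Q)
    (X : Set G) (hX : X ⊆ ((MulAction.stabilizer G a ⊓ MulAction.stabilizer G (t • a)) : Set G))
    (h3 : ∃ b c d : Ω, b ≠ c ∧ b ≠ d ∧ c ≠ d ∧ ∀ x ∈ X, x • b = b ∧ x • c = c ∧ x • d = d) :
    (∀ b₁ b₂ c₁ c₂ : Ω, (∀ x ∈ X, x • b₁ = b₁ ∧ x • b₂ = b₂ ∧ x • c₁ = c₁ ∧ x • c₂ = c₂) →
        b₁ ≠ b₂ → c₁ ≠ c₂ → ∃ g ∈ Subgroup.centralizer X, g • b₁ = c₁ ∧ g • b₂ = c₂) ∧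
      Even (Nat.card ↥(Subgroup.centralizer X ⊓ Q)) ∧
      (Subgroup.centralizer X ⊓ Q) ⊔ (Subgroup.centralizer X ⊓ (MulAction.stabilizer G a ⊓ MulAction.stabilizer G (t • a))) = Subgroup.centralizer X ⊓ MulAction.stabilizer G a := by
  have hXa : ∀ x ∈ X, x • a = a := fun x hx => mem_stabilizer_iff.mp (hX hx).1
  have hXb : ∀ x ∈ X, x • t • a = t • a := fun x hx => mem_stabilizer_iff.mp (hX hx).2
  refine ⟨?_, ?_, ?_⟩
  · intro b₁ b₂ c₁ c₂ hfix hb hc
    exact cent_two_trans hS X h3 b₁ b₂ c₁ c₂ (fun x hx => (hfix x hx).1) (fun x hx => (hfix x hx).2.1)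
      (fun x hx => (hfix x hx).2.2.1) (fun x hx => (hfix x hx).2.2.2) hb hc
  · obtain ⟨g, hg, hga, hgb⟩ := cent_two_trans hS X h3 a (t • a) (t • a) a hXa hXb hXb hXa
      (ta_ne hS).symm (ta_ne hS)
    obtain ⟨w, hw, hww, hwa⟩ := exists_invol_swap hS X hg hga hgb
    have hw1 : w ≠ 1 := by
      rintro rfl
      rw [one_smul] at hwa
      exact ta_ne hS hwa.symm
    obtain ⟨c, hwc, hwcu⟩ := invol_fix_unique hS hw1 hww
    have hca : c ≠ a := by
      rintro rfl
      rw [hwa] at hwc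
      exact ta_ne hS hwc
    have hXc : ∀ x ∈ X, x • c = c := by
      intro x hx
      apply hwcu
      have := Subgroup.mem_centralizer_iff.mp hw x hx
      rw [← mul_smul, ← this, mul_smul, hwc]
    obtain ⟨g', hg', hg'c, _⟩ := cent_two_trans hS X h3 c a a c hXc hXa hXa hXc hca (Ne.symm hca)
    have hz : g' * w * g'⁻¹ ∈ Subgroup.centralizer X ⊓ Q := by
      refine Subgroup.mem_inf.mpr ⟨Subgroup.mul_mem _ (Subgroup.mul_mem _ hg' hw) (Subgroup.inv_mem _ hg'), ?_⟩
      apply invol_mem_Q hS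
      · rw [mem_stabilizer_iff, mul_smul, mul_smul, ← hg'c, inv_smul_smul, hwc]
      · exact conj_mul_self hww g'
    have hz2 : orderOf (⟨g' * w * g'⁻¹, hz⟩ : ↥(Subgroup.centralizer X ⊓ Q)) = 2 := by
      rw [← Subgroup.orderOf_coe]
      apply orderOf_two_of (conj_mul_self hww g')
      intro h
      apply hw1
      calc w = g'⁻¹ * (g' * w * g'⁻¹) * g' := by group
        _ = 1 := by rw [h]; group
    have := orderOf_dvd_natCard (⟨g' * w * g'⁻¹, hz⟩ : ↥(Subgroup.centralizer X ⊓ Q))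
    rw [hz2] at this
    exact even_iff_two_dvd.mpr this
  · apply le_antisymm
    · exact sup_le (inf_le_inf_left _ hS.le) (inf_le_inf_left _ inf_le_left)
    · intro g hg
      obtain ⟨hgC, hga⟩ := Subgroup.mem_inf.mp hg
      have hga' : g • a = a := mem_stabilizer_iff.mp hga
      have hgb : g • t • a ≠ a := by
        intro h
        have h' : g • t • a = g • a := h.trans hga'.symm
        exact ta_ne hS (smul_left_cancel g h')
      obtain ⟨⟨q, hq⟩, hqb, _⟩ := Q_regular hS (ta_ne hS) hgb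
      have hqb' : q • t • a = g • t • a := hqb
      have hqC : q ∈ Subgroup.centralizer X := by
        rw [Subgroup.mem_centralizer_iff]
        intro x hx
        apply Q_comm hS (hX hx).1 hq (ta_ne hS) (hXb x hx)
        rw [hqb']
        exact cent_smul_fix X hgC hXb x hx
      have e : g = q * (q⁻¹ * g) := by group
      rw [e]
      apply Subgroup.mul_mem_sup
      · exact Subgroup.mem_inf.mpr ⟨hqC, hq⟩
      · refine Subgroup.mem_inf.mpr ⟨Subgroup.mul_mem _ (Subgroup.inv_mem _ hqC) hgC, Subgroup.mem_inf.mpr ⟨?_, ?_⟩⟩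
        · exact Subgroup.mul_mem _ (Subgroup.inv_mem _ (hS.le hq)) hga
        · rw [mem_stabilizer_iff, mul_smul, inv_smul_eq_iff, hqb']

end Cfsg.Agent.S1125
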