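import Cfsg.Statements.S1126
import Cfsg.Agent.Lib.Helper8.R1Fix

set_option autoImplicit false
open Cfsg

namespace Cfsg.Agent.S1126

open Cfsg.Agent.Lib.Helper8.R1SE Cfsg.Agent.Lib.Helper8.R1 Cfsg.Agent.Lib.Helper8.R1Fix MulAction
  Cfsg.Agent.Lib.Helper8.IsoInv

/-- In the rank-one set-up (`G` finite and doubly transitive on `Ω`, `t` an involution moving `a`, `Q` normal in `G_a` with `G_a = Q D`, `Q ⊓ D = 1` for the two-point stabiliser `D = G_a ⊓ G_{t • a}`, `|Q|` even, `|D|` odd), a subset `X ⊆ D` fixing at least three points of `Ω` is conjugate by an element of `D` into `V = C_D(t)`. -/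
theorem result {G Ω : Type*} [Group G] [Finite G] [MulAction G Ω] {a : Ω} {t : G} {Q : Subgroup G}
    (hS : Cfsg.IsRankOneSetup G Ω a t Q)
    (X : Set G) (hX : X ⊆ ((MulAction.stabilizer G a ⊓ MulAction.stabilizer G (t • a)) : Set G))
    (h3 : ∃ b c d : Ω, b ≠ c ∧ b ≠ d ∧ c ≠ d ∧ ∀ x ∈ X, x • b = b ∧ x • c = c ∧ x • d = d) :
    ∃ k ∈ (MulAction.stabilizer G a ⊓ MulAction.stabilizer G (t • a)), ∀ x ∈ X, (k * x * k⁻¹) * t = t * (k * x * k⁻¹) := by
  have hXa : ∀ x ∈ X, x • a = a := fun x hx => mem_stabilizer_iff.mp (hX hx).1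
  have hXb : ∀ x ∈ X, x • t • a = t • a := fun x hx => mem_stabilizer_iff.mp (hX hx).2
  obtain ⟨g, hg, hga, hgb⟩ := cent_two_trans hS X h3 a (t • a) (t • a) a hXa hXb hXb hXa
    (ta_ne hS).symm (ta_ne hS)
  obtain ⟨w, hw, hww, hwa⟩ := exists_invol_swap hS X hg hga hgb
  obtain ⟨e, he, hew⟩ := exists_K_conj hS hww hwa
  refine ⟨e⁻¹, Subgroup.inv_mem _ he.1, ?_⟩
  intro x hx
  have h1 : x * w = w * x := Subgroup.mem_centralizer_iff.mp hw x hx
  rw [← hew] at h1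
  rw [inv_inv]
  calc e⁻¹ * x * e * t = e⁻¹ * (x * (e * t * e⁻¹)) * e := by group
    _ = e⁻¹ * ((e * t * e⁻¹) * x) * e := by rw [h1]
    _ = t * (e⁻¹ * x * e) := by group

end Cfsg.Agent.S1126
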