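import Cfsg.Statements.S1127
import Cfsg.Agent.Lib.Helper8.R1Fix
import Cfsg.Agent.S1123

set_option autoImplicit false
open Cfsg

namespace Cfsg.Agent.S1127

open Cfsg.Agent.Lib.Helper8.R1SE Cfsg.Agent.Lib.Helper8.R1 Cfsg.Agent.Lib.Helper8.R1Fix MulAction
  Cfsg.Agent.Lib.Helper8.IsoInv

theorem conj_invol {G : Type*} [Group G] {H : Subgroup G} {s d : G}
    (hs : s ∈ Cfsg.involutionsIn (H : Set G)) (hd : d ∈ H) :
    d * s * d⁻¹ ∈ Cfsg.involutionsIn (H : Set G) := by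
  refine ⟨H.mul_mem (H.mul_mem hd hs.1) (H.inv_mem hd), ?_, conj_mul_self hs.2.2 d⟩
  intro h
  apply hs.2.1
  calc s = d⁻¹ * (d * s * d⁻¹) * d := by group
    _ = 1 := by rw [h]; group

theorem part1_le {G Ω : Type*} [Group G] [Finite G] [MulAction G Ω] {a : Ω} {t : G} {Q : Subgroup G}
    (hS : Cfsg.IsRankOneSetup G Ω a t Q) {s r : G}
    (hs : s ∈ Cfsg.involutionsIn (MulAction.stabilizer G a : Set G)) (hr : r ∈ Q)
    (h : t * s * t = r⁻¹ * t * r) {d : G}
    (hd : d ∈ MulAction.stabilizer G a ⊓ MulAction.stabilizer G (t • a)) (hdt : d * t = t * d) :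
    d * s = s * d := by
  have hu := Cfsg.Agent.S1123.result hS
  have hdt' : d⁻¹ * t = t * d⁻¹ := by
    calc d⁻¹ * t = d⁻¹ * (t * d) * d⁻¹ := by group
      _ = d⁻¹ * (d * t) * d⁻¹ := by rw [hdt]
      _ = t * d⁻¹ := by group
  have h1 : ((s, r) : G × G) = (d * s * d⁻¹, d * r * d⁻¹) := by
    apply hu.unique
    · exact ⟨hs, hr, h⟩
    · refine ⟨conj_invol hs hd.1, hS.conj_mem d hd.1 r hr, ?_⟩
      show t * (d * s * d⁻¹) * t = (d * r * d⁻¹)⁻¹ * t * (d * r * d⁻¹)
      calc t * (d * s * d⁻¹) * t = (t * d) * s * (d⁻¹ * t) := by group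
        _ = (d * t) * s * (t * d⁻¹) := by rw [hdt, hdt']
        _ = d * (t * s * t) * d⁻¹ := by group
        _ = d * (r⁻¹ * t * r) * d⁻¹ := by rw [h]
        _ = d * r⁻¹ * (d⁻¹ * (d * t)) * r * d⁻¹ := by group
        _ = d * r⁻¹ * (d⁻¹ * (t * d)) * r * d⁻¹ := by rw [hdt]
        _ = (d * r * d⁻¹)⁻¹ * t * (d * r * d⁻¹) := by group
  have h2 : s = d * s * d⁻¹ := congrArg Prod.fst h1
  calc d * s = (d * s * d⁻¹) * d := by group
    _ = s * d := by rw [← h2]

theorem part1_ge {G Ω : Type*} [Group G] [Finite G] [MulAction G Ω] {a : Ω} {t : G} {Q : Subgroup G}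
    (hS : Cfsg.IsRankOneSetup G Ω a t Q) {s r : G}
    (hs : s ∈ Cfsg.involutionsIn (MulAction.stabilizer G a : Set G)) (hr : r ∈ Q)
    (h : t * s * t = r⁻¹ * t * r) {d : G}
    (hd : d ∈ MulAction.stabilizer G a ⊓ MulAction.stabilizer G (t • a)) (hds : d * s = s * d) :
    d * t = t * d := by
  have hda : d • a = a := mem_stabilizer_iff.mp hd.1
  have hdb : d • t • a = t • a := mem_stabilizer_iff.mp hd.2
  have hww : (d * t * d⁻¹) * (d * t * d⁻¹) = 1 := conj_mul_self hS.mul_self d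
  have hwa : (d * t * d⁻¹) • a = t • a := by
    rw [mul_smul, mul_smul, inv_smul_eq_iff.mpr hda.symm, hdb]
  obtain ⟨e, he, hew⟩ := exists_K_conj hS hww hwa
  have h1 : (e⁻¹ * d) * t = t * (e⁻¹ * d) := by
    calc (e⁻¹ * d) * t = e⁻¹ * (d * t * d⁻¹) * d := by group
      _ = e⁻¹ * (e * t * e⁻¹) * d := by rw [hew]
      _ = t * (e⁻¹ * d) := by group
  have h2 : e⁻¹ * d ∈ MulAction.stabilizer G a ⊓ MulAction.stabilizer G (t • a) :=
    Subgroup.mul_mem _ (Subgroup.inv_mem _ he.1) hd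
  have h3 := part1_le hS hs hr h h2 h1
  have h4 : e * s * e⁻¹ = 1 * s * 1⁻¹ := by
    have e1 : e⁻¹ * s = s * e⁻¹ := by
      calc e⁻¹ * s = e⁻¹ * (s * d) * d⁻¹ := by group
        _ = e⁻¹ * (d * s) * d⁻¹ := by rw [hds]
        _ = (e⁻¹ * d * s) * d⁻¹ := by group
        _ = s * (e⁻¹ * d) * d⁻¹ := by rw [h3]
        _ = s * e⁻¹ := by group
    calc e * s * e⁻¹ = e * (s * e⁻¹) := by group
      _ = e * (e⁻¹ * s) := by rw [e1]
      _ = 1 * s * 1⁻¹ := by group
  have h5 : (1 : G) ∈ Cfsg.invertedBy (MulAction.stabilizer G a ⊓ MulAction.stabilizer G (t • a)) t := by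
    refine ⟨Subgroup.one_mem _, ?_⟩
    simp
  have h6 := K_inj hS hs.1 hs.2.1 hs.2.2 he h5 h4
  rw [h6] at hew
  calc d * t = (d * t * d⁻¹) * d := by group
    _ = t * d := by rw [← hew]; group

/-- In the rank-one set-up (`G` finite and doubly transitive on `Ω`, `t` an involution moving `a`, `Q` normal in `G_a` with `G_a = Q D`, `Q ⊓ D = 1` for the two-point stabiliser `D = G_a ⊓ G_{t • a}`, `|Q|` even, `|D|` odd): if `s` is an involution of `G_a` and `r ∈ Q` satisfy `t s t = r⁻¹ t r`, then `C_D(t) = C_D(s)`; moreover `C_D(t) ⊓ C_D(K) = C_D(I ∩ G_a)`, where `K` is the set of elements of `D` inverted by `t` and `I ∩ G_a` the set of involutions of `G_a`. -/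
theorem result {G Ω : Type*} [Group G] [Finite G] [MulAction G Ω] {a : Ω} {t : G} {Q : Subgroup G}
    (hS : Cfsg.IsRankOneSetup G Ω a t Q) :
    (∀ s r : G, s ∈ Cfsg.involutionsIn (MulAction.stabilizer G a : Set G) → r ∈ Q → t * s * t = r⁻¹ * t * r →
        (MulAction.stabilizer G a ⊓ MulAction.stabilizer G (t • a)) ⊓ Subgroup.centralizer {t} = (MulAction.stabilizer G a ⊓ MulAction.stabilizer G (t • a)) ⊓ Subgroup.centralizer {s}) ∧
      (MulAction.stabilizer G a ⊓ MulAction.stabilizer G (t • a)) ⊓ Subgroup.centralizer {t} ⊓ Subgroup.centralizer (Cfsg.invertedBy (MulAction.stabilizer G a ⊓ MulAction.stabilizer G (t • a)) t) =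
        (MulAction.stabilizer G a ⊓ MulAction.stabilizer G (t • a)) ⊓ Subgroup.centralizer (Cfsg.involutionsIn (MulAction.stabilizer G a : Set G)) := by
  constructor
  · intro s r hs hr h
    ext d
    constructor
    · rintro ⟨hd, hdt⟩
      exact ⟨hd, Subgroup.mem_centralizer_singleton_iff.mpr
        (part1_le hS hs hr h hd (Subgroup.mem_centralizer_singleton_iff.mp hdt))⟩
    · rintro ⟨hd, hds⟩
      exact ⟨hd, Subgroup.mem_centralizer_singleton_iff.mpr
        (part1_ge hS hs hr h hd (Subgroup.mem_centralizer_singleton_iff.mp hds))⟩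
  · obtain ⟨⟨s, r⟩, ⟨hs, hr, h⟩, _⟩ := Cfsg.Agent.S1123.result hS
    have hs : s ∈ Cfsg.involutionsIn (MulAction.stabilizer G a : Set G) := hs
    have hr : r ∈ Q := hr
    have h : t * s * t = r⁻¹ * t * r := h
    ext d
    constructor
    · rintro ⟨⟨hd, hdt⟩, hdK⟩
      have hdt := Subgroup.mem_centralizer_singleton_iff.mp hdt
      have hdK := Subgroup.mem_centralizer_iff.mp hdK
      refine ⟨hd, ?_⟩
      show d ∈ Subgroup.centralizer (involutionsIn ↑(stabilizer G a))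
      rw [Subgroup.mem_centralizer_iff]
      intro s' hs'
      have hds := part1_le hS hs hr h hd hdt
      obtain ⟨k, hk, hks⟩ := K_surj hS hs.1 hs.2.1 hs.2.2 hs'.1 hs'.2.1 hs'.2.2
      have hkd := hdK k hk
      rw [← hks]
      have hkd' : k⁻¹ * d = d * k⁻¹ := by
        calc k⁻¹ * d = k⁻¹ * (d * k) * k⁻¹ := by group
          _ = k⁻¹ * (k * d) * k⁻¹ := by rw [hkd]
          _ = d * k⁻¹ := by group
      calc k * s * k⁻¹ * d = k * s * (k⁻¹ * d) := by group
        _ = k * s * (d * k⁻¹) := by rw [hkd']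
        _ = k * (s * d) * k⁻¹ := by group
        _ = k * (d * s) * k⁻¹ := by rw [hds]
        _ = (k * d) * s * k⁻¹ := by group
        _ = (d * k) * s * k⁻¹ := by rw [hkd]
        _ = d * (k * s * k⁻¹) := by group
    · rintro ⟨hd, hdI⟩
      have hdI := Subgroup.mem_centralizer_iff.mp hdI
      have hds : d * s = s * d := (hdI s hs).symm
      have hdt := part1_ge hS hs hr h hd hds
      refine ⟨⟨hd, Subgroup.mem_centralizer_singleton_iff.mpr hdt⟩, ?_⟩
      show d ∈ Subgroup.centralizer (invertedBy (stabilizer G a ⊓ stabilizer G (t • a)) t)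
      rw [Subgroup.mem_centralizer_iff]
      intro k hk
      have hdt' : d⁻¹ * t⁻¹ = t⁻¹ * d⁻¹ := by
        rw [← mul_inv_rev, ← mul_inv_rev, hdt]
      have hk' : d * k * d⁻¹ ∈ Cfsg.invertedBy (MulAction.stabilizer G a ⊓ MulAction.stabilizer G (t • a)) t := by
        refine ⟨Subgroup.mul_mem _ (Subgroup.mul_mem _ hd hk.1) (Subgroup.inv_mem _ hd), ?_⟩
        calc t * (d * k * d⁻¹) * t⁻¹ = (t * d) * k * (d⁻¹ * t⁻¹) := by group
          _ = (d * t) * k * (t⁻¹ * d⁻¹) := by rw [hdt, hdt']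
          _ = d * (t * k * t⁻¹) * d⁻¹ := by group
          _ = d * k⁻¹ * d⁻¹ := by rw [hk.2]
          _ = (d * k * d⁻¹)⁻¹ := by group
      have h4 : (d * k * d⁻¹) * s * (d * k * d⁻¹)⁻¹ = k * s * k⁻¹ := by
        have h5 : d⁻¹ * s = s * d⁻¹ := by
          calc d⁻¹ * s = d⁻¹ * (s * d) * d⁻¹ := by group
            _ = d⁻¹ * (d * s) * d⁻¹ := by rw [hds]
            _ = s * d⁻¹ := by group
        have h6 := hdI (k * s * k⁻¹) (conj_invol hs hk.1.1)
        calc (d * k * d⁻¹) * s * (d * k * d⁻¹)⁻¹ = d * k * (d⁻¹ * s) * d * k⁻¹ * d⁻¹ := by group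
          _ = d * k * (s * d⁻¹) * d * k⁻¹ * d⁻¹ := by rw [h5]
          _ = d * (k * s * k⁻¹) * d⁻¹ := by group
          _ = (k * s * k⁻¹ * d) * d⁻¹ := by rw [h6]
          _ = k * s * k⁻¹ := by group
      have h7 := K_inj hS hs.1 hs.2.1 hs.2.2 hk' hk h4
      calc k * d = (d * k * d⁻¹) * d := by rw [h7]
        _ = d * k := by group

end Cfsg.Agent.S1127
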