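import Cfsg.Statements.S1128
import Cfsg.Agent.Lib.Helper8.R1Fix
import Cfsg.Agent.S1125

set_option autoImplicit false
open Cfsg

namespace Cfsg.Agent.S1128

open Cfsg.Agent.Lib.Helper8.R1SE Cfsg.Agent.Lib.Helper8.R1 Cfsg.Agent.Lib.Helper8.R1Fix MulAction
  Cfsg.Agent.Lib.Helper8.IsoInv

theorem aux {G Ω : Type*} [Group G] [Finite G] [MulAction G Ω] {a : Ω} {t : G} {Q : Subgroup G}
    (hS : Cfsg.IsRankOneSetup G Ω a t Q)
    (x : G) (hx : x ∈ Cfsg.invertedBy (MulAction.stabilizer G a ⊓ MulAction.stabilizer G (t • a)) t) (hx1 : x ≠ 1) :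
    Q ⊓ Subgroup.centralizer {x} = ⊥ := by
  rw [Subgroup.eq_bot_iff_forall]
  intro q hq
  obtain ⟨hqQ, hqx⟩ := Subgroup.mem_inf.mp hq
  rw [Subgroup.mem_centralizer_singleton_iff] at hqx
  by_contra hq1
  have hxa : x • a = a := mem_stabilizer_iff.mp hx.1.1
  have hxb : x • t • a = t • a := mem_stabilizer_iff.mp hx.1.2
  have hqa : q • a = a := mem_stabilizer_iff.mp (hS.le hqQ)
  have h3 : ∃ b c d : Ω, b ≠ c ∧ b ≠ d ∧ c ≠ d ∧ ∀ y ∈ ({x} : Set G), y • b = b ∧ y • c = c ∧ y • d = d := by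
    refine ⟨a, t • a, q • t • a, (ta_ne hS).symm, ?_, ?_, ?_⟩
    · intro h
      have h' : q • a = q • t • a := hqa.trans h
      exact ta_ne hS (smul_left_cancel q h').symm
    · intro h
      exact hq1 (Q_fix_eq_one hS (ta_ne hS) hqQ h.symm)
    · intro y hy
      rw [Set.mem_singleton_iff] at hy
      subst hy
      refine ⟨hxa, hxb, ?_⟩
      rw [← mul_smul, ← hqx, mul_smul, hxb]
  have hX : ({x} : Set G) ⊆ ((MulAction.stabilizer G a ⊓ MulAction.stabilizer G (t • a)) : Set G) := by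
    intro y hy
    rw [Set.mem_singleton_iff] at hy
    subst hy
    exact hx.1
  have heven := (Cfsg.Agent.S1125.result hS {x} hX h3).2.1
  have : Fact (Nat.Prime 2) := ⟨Nat.prime_two⟩
  obtain ⟨s, hs⟩ := exists_prime_orderOf_dvd_card' (G := ↥(Subgroup.centralizer {x} ⊓ Q)) 2
    (even_iff_two_dvd.mp heven)
  have hs' : orderOf (s : G) = 2 := by rw [Subgroup.orderOf_coe]; exact hs
  have hsx : x * (s : G) = (s : G) * x := by
    have := (Subgroup.mem_inf.mp s.2).1
    rw [Subgroup.mem_centralizer_singleton_iff] at this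
    exact this.symm
  have hsQ : (s : G) ∈ Q := (Subgroup.mem_inf.mp s.2).2
  have h5 : (1 : G) ∈ Cfsg.invertedBy (MulAction.stabilizer G a ⊓ MulAction.stabilizer G (t • a)) t := by
    refine ⟨Subgroup.one_mem _, ?_⟩
    simp
  have h4 : x * (s : G) * x⁻¹ = 1 * (s : G) * 1⁻¹ := by
    rw [hsx]; group
  exact hx1 (K_inj hS (hS.le hsQ) (ne_one_of_orderOf_two hs') (mul_self_of_orderOf_two hs') hx h5 h4)

/-- In the rank-one set-up (`G` finite and doubly transitive on `Ω`, `t` an involution moving `a`, `Q` normal in `G_a` with `G_a = Q D`, `Q ⊓ D = 1` for the two-point stabiliser `D = G_a ⊓ G_{t • a}`, `|Q|` even, `|D|` odd), with the action faithful and `G` containing two distinct commuting involutions: every non-identity element of `D` inverted by `t` acts fixed-point-freely on `Q`. -/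
theorem result {G Ω : Type*} [Group G] [Finite G] [MulAction G Ω] [FaithfulSMul G Ω] {a : Ω} {t : G} {Q : Subgroup G}
    (hS : Cfsg.IsRankOneSetup G Ω a t Q)
    (h2 : ∃ x y : G, x ≠ 1 ∧ y ≠ 1 ∧ x ≠ y ∧ x * x = 1 ∧ y * y = 1 ∧ x * y = y * x)
    (x : G) (hx : x ∈ Cfsg.invertedBy (MulAction.stabilizer G a ⊓ MulAction.stabilizer G (t • a)) t) (hx1 : x ≠ 1) :
    Q ⊓ Subgroup.centralizer {x} = ⊥ :=
  aux hS x hx hx1

end Cfsg.Agent.S1128
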