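import Cfsg.Statements.S1134
import Cfsg.Agent.S1124
import Cfsg.Agent.S1125

set_option autoImplicit false
open Cfsg

namespace Cfsg.Agent.S1134

open Cfsg.Agent.Lib.Helper8.R1SE Cfsg.Agent.Lib.Helper8.R1 Cfsg.Agent.Lib.Helper8.IsoInv MulAction

theorem comm_of_sq {G : Type*} [Group G] {k x : G} (hodd : Odd (orderOf k))
    (h : k * k * x = x * (k * k)) : k * x = x * k := by
  obtain ⟨m, hm⟩ := hodd
  have hc : Commute (k * k) x := h
  have hk : (k * k) ^ (m + 1) = k := by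
    rw [← pow_two, ← pow_mul]
    have : 2 * (m + 1) = orderOf k + 1 := by omega
    rw [this, pow_succ, pow_orderOf_eq_one, one_mul]
  have := hc.pow_left (m + 1)
  rw [hk] at this
  exact this

theorem D_decomp {G Ω : Type*} [Group G] [Finite G] [MulAction G Ω] {a : Ω} {t : G} {Q : Subgroup G}
    (hS : Cfsg.IsRankOneSetup G Ω a t Q) {d : G}
    (hd : d ∈ stabilizer G a ⊓ stabilizer G (t • a)) :
    ∃ v k : G, v ∈ (stabilizer G a ⊓ stabilizer G (t • a)) ⊓ Subgroup.centralizer {t} ∧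
      k ∈ Cfsg.invertedBy (stabilizer G a ⊓ stabilizer G (t • a)) t ∧ d = v * k := by
  have hnorm : ∀ x ∈ stabilizer G a ⊓ stabilizer G (t • a), t * x * t⁻¹ ∈ stabilizer G a ⊓ stabilizer G (t • a) := by
    intro x hx
    rw [tinv hS]
    exact tDt hS hx
  obtain ⟨p, ⟨hp1, hp2, hp3⟩, -⟩ := (Cfsg.Agent.S1124.result t (orderOf_two_of hS.mul_self hS.ne_one)
    (stabilizer G a ⊓ stabilizer G (t • a)) hS.odd_card hnorm).1 d hd
  exact ⟨p.1, p.2, hp1, hp2, hp3⟩

theorem odd_orderOf_D {G Ω : Type*} [Group G] [Finite G] [MulAction G Ω] {a : Ω} {t : G} {Q : Subgroup G}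
    (hS : Cfsg.IsRankOneSetup G Ω a t Q) {d : G}
    (hd : d ∈ stabilizer G a ⊓ stabilizer G (t • a)) : Odd (orderOf d) :=
  Odd.of_dvd_nat hS.odd_card (Subgroup.orderOf_dvd_natCard _ hd)

/-- In the rank-one set-up (`G` finite and doubly transitive on `Ω`, `t` an involution moving `a`, `Q` normal in `G_a` with `G_a = Q D`, `Q ⊓ D = 1` for the two-point stabiliser `D = G_a ⊓ G_{t • a}`, `|Q|` even, `|D|` odd), with the action faithful and `G` containing two distinct commuting involutions, with `V = C_D(t)`: subsets of `V` conjugate in `G` are conjugate in `V`. -/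
theorem result {G Ω : Type*} [Group G] [Finite G] [MulAction G Ω] [FaithfulSMul G Ω] {a : Ω} {t : G} {Q : Subgroup G}
    (hS : Cfsg.IsRankOneSetup G Ω a t Q)
    (h2 : ∃ x y : G, x ≠ 1 ∧ y ≠ 1 ∧ x ≠ y ∧ x * x = 1 ∧ y * y = 1 ∧ x * y = y * x)
    (X : Set G) (hX : X ⊆ (((MulAction.stabilizer G a ⊓ MulAction.stabilizer G (t • a)) ⊓ Subgroup.centralizer {t} : Subgroup G) : Set G)) (g : G)
    (hY : (fun x => g * x * g⁻¹) '' X ⊆ (((MulAction.stabilizer G a ⊓ MulAction.stabilizer G (t • a)) ⊓ Subgroup.centralizer {t} : Subgroup G) : Set G)) :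
    ∃ v ∈ (MulAction.stabilizer G a ⊓ MulAction.stabilizer G (t • a)) ⊓ Subgroup.centralizer {t}, (fun x => v * x * v⁻¹) '' X = (fun x => g * x * g⁻¹) '' X := by
  obtain ⟨c, hc, hcu⟩ := invol_fix_unique hS hS.ne_one hS.mul_self
  have hca : c ≠ a := by
    intro h
    rw [h] at hc
    exact ta_ne hS hc
  have hcta : c ≠ t • a := by
    intro h
    rw [h, tta hS] at hc
    exact ta_ne hS hc.symm
  have hXD : X ⊆ ((stabilizer G a ⊓ stabilizer G (t • a) : Subgroup G) : Set G) := fun x hx => (hX hx).1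
  have hXt : ∀ x ∈ X, t * x = x * t := by
    intro x hx
    have : x ∈ Subgroup.centralizer {t} := (hX hx).2
    rw [Subgroup.mem_centralizer_singleton_iff] at this
    exact this.symm
  have hXc : ∀ x ∈ X, x • c = c := by
    intro x hx
    apply hcu
    rw [← mul_smul, hXt x hx, mul_smul, hc]
  have h3 : ∃ b c d : Ω, b ≠ c ∧ b ≠ d ∧ c ≠ d ∧ ∀ x ∈ X, x • b = b ∧ x • c = c ∧ x • d = d :=
    ⟨a, t • a, c, (ta_ne hS).symm, hca.symm, hcta.symm, fun x hx =>
      ⟨mem_stabilizer_iff.mp (hXD hx).1, mem_stabilizer_iff.mp (hXD hx).2, hXc x hx⟩⟩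
  have h2t := (Cfsg.Agent.S1125.result hS X hXD h3).1
  have hfix : ∀ x ∈ X, x • a = a ∧ x • t • a = t • a ∧ x • g⁻¹ • a = g⁻¹ • a ∧ x • g⁻¹ • t • a = g⁻¹ • t • a := by
    intro x hx
    have hgx := (hY ⟨x, hx, rfl⟩).1
    have e1 := mem_stabilizer_iff.mp hgx.1
    have e2 := mem_stabilizer_iff.mp hgx.2
    refine ⟨mem_stabilizer_iff.mp (hXD hx).1, mem_stabilizer_iff.mp (hXD hx).2, ?_, ?_⟩
    · rw [mul_smul, mul_smul] at e1
      rw [eq_inv_smul_iff]
      exact e1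
    · rw [mul_smul, mul_smul] at e2
      rw [eq_inv_smul_iff]
      exact e2
  have hne : g⁻¹ • a ≠ g⁻¹ • t • a := by
    intro h
    exact ta_ne hS (smul_left_cancel _ h).symm
  obtain ⟨c', hc', hc'a, hc'ta⟩ := h2t a (t • a) (g⁻¹ • a) (g⁻¹ • t • a) hfix (ta_ne hS).symm hne
  have hdD : g * c' ∈ stabilizer G a ⊓ stabilizer G (t • a) := by
    refine Subgroup.mem_inf.mpr ⟨?_, ?_⟩
    · rw [mem_stabilizer_iff, mul_smul, hc'a, smul_inv_smul]
    · rw [mem_stabilizer_iff, mul_smul, hc'ta, smul_inv_smul]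
  have hconj : ∀ x ∈ X, (g * c') * x * (g * c')⁻¹ = g * x * g⁻¹ := by
    intro x hx
    have := Subgroup.mem_centralizer_iff.mp hc' x hx
    calc (g * c') * x * (g * c')⁻¹ = g * (c' * x) * c'⁻¹ * g⁻¹ := by group
      _ = g * (x * c') * c'⁻¹ * g⁻¹ := by rw [this]
      _ = g * x * g⁻¹ := by group
  obtain ⟨v, k, hv, hk, hdvk⟩ := D_decomp hS hdD
  have hvt : t * v = v * t := by
    have : v ∈ Subgroup.centralizer {t} := hv.2
    rw [Subgroup.mem_centralizer_singleton_iff] at this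
    exact this.symm
  have hkx : ∀ x ∈ X, k * x = x * k := by
    intro x hx
    apply comm_of_sq (odd_orderOf_D hS hk.1)
    have hgx : g * x * g⁻¹ ∈ Subgroup.centralizer {t} := (hY ⟨x, hx, rfl⟩).2
    rw [Subgroup.mem_centralizer_singleton_iff, ← hconj x hx, hdvk] at hgx
    have hxt := hXt x hx
    have hkt : t * k = k⁻¹ * t := by
      have := hk.2
      calc t * k = (t * k * t⁻¹) * t := by group
        _ = k⁻¹ * t := by rw [this]
    have hkt' : t * k⁻¹ = k * t := by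
      calc t * k⁻¹ = k * (k⁻¹ * t) * k⁻¹ := by group
        _ = k * (t * k) * k⁻¹ := by rw [hkt]
        _ = k * t := by group
    have e1 : t * (v * k * x * (v * k)⁻¹) = v * (k⁻¹ * x * k) * v⁻¹ * t := by
      calc t * (v * k * x * (v * k)⁻¹) = (t * v) * k * x * k⁻¹ * v⁻¹ := by group
        _ = v * (t * k) * x * k⁻¹ * v⁻¹ := by rw [hvt]; group
        _ = v * k⁻¹ * (t * x) * k⁻¹ * v⁻¹ := by rw [hkt]; group
        _ = v * k⁻¹ * x * (t * k⁻¹) * v⁻¹ := by rw [hxt]; group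
        _ = v * k⁻¹ * x * k * (t * v⁻¹) := by rw [hkt']; group
        _ = v * k⁻¹ * x * k * (v⁻¹ * t) := by
          have : t * v⁻¹ = v⁻¹ * t := by
            calc t * v⁻¹ = v⁻¹ * (v * t) * v⁻¹ := by group
              _ = v⁻¹ * (t * v) * v⁻¹ := by rw [hvt]
              _ = v⁻¹ * t := by group
          rw [this]
        _ = v * (k⁻¹ * x * k) * v⁻¹ * t := by group
    rw [e1] at hgx
    have e2 : v * (k⁻¹ * x * k) * v⁻¹ = v * k * x * (v * k)⁻¹ := (mul_right_cancel hgx).symm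
    have e3 : k⁻¹ * x * k = k * x * k⁻¹ := by
      have : v * (k⁻¹ * x * k) * v⁻¹ = v * (k * x * k⁻¹) * v⁻¹ := by rw [e2]; group
      exact mul_left_cancel (mul_right_cancel this)
    calc k * k * x = k * (k * x * k⁻¹) * k := by group
      _ = k * (k⁻¹ * x * k) * k := by rw [e3]
      _ = x * (k * k) := by group
  refine ⟨v, hv, ?_⟩
  apply Set.image_congr
  intro x hx
  show v * x * v⁻¹ = g * x * g⁻¹
  rw [← hconj x hx, hdvk]
  calc v * x * v⁻¹ = v * (x * k) * k⁻¹ * v⁻¹ := by group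
    _ = v * (k * x) * k⁻¹ * v⁻¹ := by rw [hkx x hx]
    _ = v * k * x * (v * k)⁻¹ := by group

end Cfsg.Agent.S1134
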