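import Cfsg.Statements.S1137
import Mathlib

set_option autoImplicit false
open Cfsg

namespace Cfsg.Agent.S1137

universe u

variable {P : Type u} [Group P]

/-- the central elements of order at most two -/
def Om (P : Type u) [Group P] : Subgroup P where
  carrier := {x | x ∈ Subgroup.center P ∧ x * x = 1}
  mul_mem' := by
    rintro a b ⟨ha, ha2⟩ ⟨hb, hb2⟩
    refine ⟨Subgroup.mul_mem _ ha hb, ?_⟩
    have h1 : b * a = a * b := Subgroup.mem_center_iff.mp ha b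
    calc a * b * (a * b) = a * (b * a) * b := by group
      _ = a * (a * b) * b := by rw [h1]
      _ = (a * a) * (b * b) := by group
      _ = 1 := by rw [ha2, hb2, one_mul]
  one_mem' := ⟨Subgroup.one_mem _, one_mul 1⟩
  inv_mem' := by
    rintro a ⟨ha, ha2⟩
    refine ⟨Subgroup.inv_mem _ ha, ?_⟩
    have e : a⁻¹ = a := inv_eq_of_mul_eq_one_left ha2
    rw [e, ha2]

theorem mem_Om {x : P} : x ∈ Om P ↔ x ∈ Subgroup.center P ∧ x * x = 1 := Iff.rfl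

instance Om_normal : (Om P).Normal := ⟨fun n hn g => by
  have h : g * n * g⁻¹ = n := by
    have h1 := Subgroup.mem_center_iff.mp hn.1 g
    rw [h1]; group
  rw [h]; exact hn⟩

theorem aut_center (k : MulAut P) {z : P} (hz : z ∈ Subgroup.center P) :
    k z ∈ Subgroup.center P := by
  rw [Subgroup.mem_center_iff]
  intro g
  have h := Subgroup.mem_center_iff.mp hz (k⁻¹ g)
  have h2 := congrArg k h
  rw [map_mul, map_mul, MulAut.apply_inv_self P k g] at h2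
  exact h2

theorem aut_Om (k : MulAut P) {z : P} (hz : z ∈ Om P) : k z ∈ Om P :=
  ⟨aut_center k hz.1, by rw [← map_mul, hz.2, map_one]⟩

theorem Om_map (k : MulAut P) : (Om P).map (k : P →* P) = Om P := by
  ext x
  constructor
  · rintro ⟨y, hy, rfl⟩
    exact aut_Om k hy
  · intro hx
    exact ⟨k⁻¹ x, aut_Om k⁻¹ hx, MulAut.apply_inv_self P k x⟩

/-- the automorphism induced on the quotient -/
def quotAut (k : MulAut P) : MulAut (P ⧸ Om P) :=
  QuotientGroup.congr (Om P) (Om P) k (Om_map k)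

theorem quotAut_mk (k : MulAut P) (x : P) :
    quotAut k (QuotientGroup.mk x) = QuotientGroup.mk (k x) :=
  QuotientGroup.congr_mk _ _ _ _ _

/-- the induced homomorphism on automorphism groups -/
def quotHom : MulAut P →* MulAut (P ⧸ Om P) where
  toFun := quotAut
  map_one' := by
    ext x
    induction x using QuotientGroup.induction_on with
    | H x => rw [quotAut_mk]; rfl
  map_mul' := by
    intro a b
    ext x
    induction x using QuotientGroup.induction_on with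
    | H x => rw [MulAut.mul_apply, quotAut_mk, quotAut_mk, quotAut_mk]; rfl

theorem quotHom_mk (k : MulAut P) (x : P) :
    quotHom k (QuotientGroup.mk x) = QuotientGroup.mk (k x) := quotAut_mk k x

theorem exists_pow_invol (h2 : IsPGroup 2 P) {x : P} (hx : x ≠ 1) :
    ∃ j : ℕ, x ^ (2 ^ j) ≠ 1 ∧ x ^ (2 ^ j) * x ^ (2 ^ j) = 1 := by
  classical
  have hex : ∃ k : ℕ, x ^ 2 ^ k = 1 := h2 x
  have hm0 : Nat.find hex ≠ 0 := by
    intro h0
    have h1 := Nat.find_spec hex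
    rw [h0, pow_zero, pow_one] at h1
    exact hx h1
  refine ⟨Nat.find hex - 1, ?_, ?_⟩
  · exact Nat.find_min hex (by omega)
  · rw [← pow_add]
    have e : 2 ^ (Nat.find hex - 1) + 2 ^ (Nat.find hex - 1) = 2 ^ Nat.find hex := by
      obtain ⟨m, hm⟩ : ∃ m, Nat.find hex = m + 1 := ⟨Nat.find hex - 1, by omega⟩
      rw [hm, Nat.add_sub_cancel, pow_succ]; ring
    rw [e]
    exact Nat.find_spec hex

theorem exists_pow_four (h2 : IsPGroup 2 P) {x : P} (hx : x * x ≠ 1) :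
    ∃ j : ℕ, x ^ (2 ^ j) * x ^ (2 ^ j) ≠ 1 ∧
      (x ^ (2 ^ j) * x ^ (2 ^ j)) * (x ^ (2 ^ j) * x ^ (2 ^ j)) = 1 := by
  obtain ⟨j, h1, h2'⟩ := exists_pow_invol h2 hx
  have e : (x * x) ^ (2 ^ j) = x ^ (2 ^ j) * x ^ (2 ^ j) := (Commute.refl x).mul_pow _
  rw [e] at h1 h2'
  exact ⟨j, h1, h2'⟩

/-- the standing hypotheses -/
structure Data (P : Type u) [Group P] (K : Subgroup (MulAut P)) : Prop where
  fin : Finite P
  two : IsPGroup 2 P
  comm : ∀ a ∈ K, ∀ b ∈ K, a * b = b * a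
  reg : ∀ x y : P, x ≠ 1 → x * x = 1 → y ≠ 1 → y * y = 1 → ∃! k : K, (k : MulAut P) x = y
  inv : ∃ x : P, x ≠ 1 ∧ x * x = 1

variable {K : Subgroup (MulAut P)}

theorem Data.exists_aut (h : Data P K) {x y : P} (hx1 : x ≠ 1) (hx2 : x * x = 1) (hy1 : y ≠ 1)
    (hy2 : y * y = 1) : ∃ k ∈ K, k x = y := by
  obtain ⟨k, hk, _⟩ := h.reg x y hx1 hx2 hy1 hy2
  exact ⟨k.1, k.2, hk⟩

theorem Data.eq_of_apply_eq (h : Data P K) {a b : MulAut P} (ha : a ∈ K) (hb : b ∈ K) {x : P}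
    (hx1 : x ≠ 1) (hx2 : x * x = 1) (hab : a x = b x) : a = b := by
  have hy1 : b x ≠ 1 := by
    intro h0
    apply hx1
    have h3 : (b⁻¹ : MulAut P) (b x) = (b⁻¹ : MulAut P) 1 := by rw [h0]
    rwa [MulAut.inv_apply_self P b x, map_one] at h3
  have hy2 : b x * b x = 1 := by rw [← map_mul, hx2, map_one]
  have hu := (h.reg x (b x) hx1 hx2 hy1 hy2).unique (y₁ := ⟨a, ha⟩) (y₂ := ⟨b, hb⟩) hab rfl
  exact congrArg Subtype.val hu

theorem Data.eq_one_of_fix (h : Data P K) {a : MulAut P} (ha : a ∈ K) {x : P}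
    (hx1 : x ≠ 1) (hx2 : x * x = 1) (hfix : a x = x) : a = 1 :=
  h.eq_of_apply_eq ha K.one_mem hx1 hx2 (by rw [hfix]; rfl)

theorem Data.invol_central (h : Data P K) {x : P} (hx1 : x ≠ 1) (hx2 : x * x = 1) :
    x ∈ Subgroup.center P := by
  have := h.fin
  have : Nontrivial P := ⟨⟨x, 1, hx1⟩⟩
  have hnt := h.two.center_nontrivial
  obtain ⟨⟨z, hz⟩, hz1⟩ := exists_ne (1 : ↥(Subgroup.center P))
  have hz1' : z ≠ 1 := fun h0 => hz1 (Subtype.ext h0)
  obtain ⟨j, hj1, hj2⟩ := exists_pow_invol h.two hz1'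
  obtain ⟨k, _, hk⟩ := h.exists_aut hj1 hj2 hx1 hx2
  rw [← hk]
  exact aut_center k (Subgroup.pow_mem _ hz _)

theorem Data.mem_Om_iff (h : Data P K) {x : P} : x ∈ Om P ↔ x * x = 1 := by
  constructor
  · exact fun hx => hx.2
  · intro hx
    by_cases h1 : x = 1
    · rw [h1]; exact (Om P).one_mem
    · exact ⟨h.invol_central h1 hx, hx⟩

theorem Data.exists_sqrt (h : Data P K) {z₀ : P} (hz₀ : z₀ ∈ Subgroup.center P)
    (hz₀2 : z₀ * z₀ ≠ 1) {i : P} (h1 : i ≠ 1) (h2 : i * i = 1) :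
    ∃ w ∈ Subgroup.center P, w * w = i := by
  obtain ⟨j, hj1, hj2⟩ := exists_pow_four h.two hz₀2
  obtain ⟨k, _, hk⟩ := h.exists_aut hj1 hj2 h1 h2
  refine ⟨k (z₀ ^ 2 ^ j), aut_center k (Subgroup.pow_mem _ hz₀ _), ?_⟩
  rw [← map_mul, hk]

theorem Data.central_of_pow_four (h : Data P K) {z₀ : P} (hz₀ : z₀ ∈ Subgroup.center P)
    (hz₀2 : z₀ * z₀ ≠ 1) {x : P} (hx : (x * x) * (x * x) = 1) : x ∈ Subgroup.center P := by
  by_cases h1 : x * x = 1
  · exact (h.mem_Om_iff.mpr h1).1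
  · obtain ⟨w, hw, hww⟩ := h.exists_sqrt hz₀ hz₀2 h1 hx
    have hwc : ∀ g, g * w = w * g := Subgroup.mem_center_iff.mp hw
    have ht : (x * w⁻¹) * (x * w⁻¹) = 1 := by
      have hwi : w⁻¹ * x = x * w⁻¹ := by
        calc w⁻¹ * x = w⁻¹ * (x * w) * w⁻¹ := by group
          _ = w⁻¹ * (w * x) * w⁻¹ := by rw [hwc x]
          _ = x * w⁻¹ := by group
      calc (x * w⁻¹) * (x * w⁻¹) = x * (w⁻¹ * x) * w⁻¹ := by group
        _ = x * (x * w⁻¹) * w⁻¹ := by rw [hwi]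
        _ = (x * x) * (w * w)⁻¹ := by group
        _ = 1 := by rw [hww, mul_inv_cancel]
    have hmem := (h.mem_Om_iff.mpr ht).1
    have e2 : x = (x * w⁻¹) * w := by group
    rw [e2]
    exact Subgroup.mul_mem _ hmem hw

theorem Data.no_invol_aut (h : Data P K) {r : MulAut P} (hr : r ∈ K) (hr2 : r * r = 1) :
    r = 1 := by
  classical
  by_contra hr1
  have := h.fin
  have hfix : ∀ x : P, r x = x → x = 1 := by
    intro x hx
    by_contra hx1
    obtain ⟨j, hj1, hj2⟩ := exists_pow_invol h.two hx1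
    apply hr1
    exact h.eq_one_of_fix hr hj1 hj2 (by rw [map_pow, hx])
  have : Fintype P := Fintype.ofFinite P
  obtain ⟨f, hfdef⟩ : ∃ f : Function.End P, ∀ x, f x = r x := ⟨fun x => r x, fun x => rfl⟩
  have hf : f ^ 2 ^ 1 = 1 := by
    rw [pow_one, sq]
    funext x
    show f (f x) = x
    rw [hfdef, hfdef, ← MulAut.mul_apply, hr2]; rfl
  have hmod := Equiv.Perm.card_fixedPoints_modEq (p := 2) (n := 1) hf
  have hone : Nat.card ↥(Function.fixedPoints f) = 1 := by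
    rw [Nat.card_eq_one_iff_unique]
    refine ⟨⟨fun a b => Subtype.ext ?_⟩, ⟨⟨1, ?_⟩⟩⟩
    · have ha : r a.1 = a.1 := by rw [← hfdef]; exact a.2
      have hb : r b.1 = b.1 := by rw [← hfdef]; exact b.2
      rw [hfix _ ha, hfix _ hb]
    · show f 1 = 1
      rw [hfdef, map_one]
  obtain ⟨i, hi1, hi2⟩ := h.inv
  have ho : orderOf i = 2 := orderOf_eq_prime (by rw [sq]; exact hi2) hi1
  have hdvd : 2 ∣ Fintype.card P := by rw [← ho]; exact orderOf_dvd_card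
  rw [Fintype.card_eq_nat_card (α := ↥(Function.fixedPoints f)), hone] at hmod
  have h1 : Fintype.card P % 2 = 1 % 2 := hmod
  omega

theorem Data.exists_sq_aut (h : Data P K) : ∀ k ∈ K, ∃ a ∈ K, a * a = k := by
  have := h.fin
  have hinj : Function.Injective (fun a : K => a * a) := by
    intro a b hab
    have hab' : (a : MulAut P) * a = b * b := congrArg Subtype.val hab
    have hr : (a : MulAut P) * (b : MulAut P)⁻¹ = 1 := by
      apply h.no_invol_aut (K.mul_mem a.2 (K.inv_mem b.2))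
      have hc := h.comm a a.2 (b : MulAut P)⁻¹ (K.inv_mem b.2)
      calc (a : MulAut P) * (b : MulAut P)⁻¹ * (a * (b : MulAut P)⁻¹)
          = a * ((b : MulAut P)⁻¹ * a) * (b : MulAut P)⁻¹ := by group
        _ = a * (a * (b : MulAut P)⁻¹) * (b : MulAut P)⁻¹ := by rw [hc]
        _ = (a * a) * ((b : MulAut P) * b)⁻¹ := by group
        _ = 1 := by rw [hab', mul_inv_cancel]
    exact Subtype.ext (mul_inv_eq_one.mp hr)
  have hsurj := Finite.injective_iff_surjective.mp hinj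
  intro k hk
  obtain ⟨a, ha⟩ := hsurj ⟨k, hk⟩
  exact ⟨a.1, a.2, congrArg Subtype.val ha⟩

theorem sq_inv_mul {a b : P} (ha : a ∈ Subgroup.center P) :
    (a⁻¹ * b) * (a⁻¹ * b) = (a * a)⁻¹ * (b * b) := by
  have hc : b * a⁻¹ = a⁻¹ * b := Subgroup.mem_center_iff.mp (Subgroup.inv_mem _ ha) b
  calc (a⁻¹ * b) * (a⁻¹ * b) = a⁻¹ * (b * a⁻¹) * b := by group
    _ = a⁻¹ * (a⁻¹ * b) * b := by rw [hc]
    _ = (a * a)⁻¹ * (b * b) := by group

theorem Data.quot_suzuki (h : Data P K) [hcyc : IsCyclic K] {z₀ : P}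
    (hz₀ : z₀ ∈ Subgroup.center P) (hz₀2 : z₀ * z₀ ≠ 1)
    (htwo : ∃ x y : P, x ≠ y ∧ x ≠ 1 ∧ x * x = 1 ∧ y ≠ 1 ∧ y * y = 1)
    (hna : ∃ a b : P ⧸ Om P, a * b ≠ b * a) : Cfsg.IsSuzukiTwoGroup (P ⧸ Om P) := by
  have := h.fin
  have key : ∀ x : P, (QuotientGroup.mk x : P ⧸ Om P) ≠ 1 →
      (QuotientGroup.mk x : P ⧸ Om P) * QuotientGroup.mk x = 1 →
      x ∈ Subgroup.center P ∧ x * x ≠ 1 ∧ (x * x) * (x * x) = 1 := by
    intro x hx1 hx2
    rw [Ne, QuotientGroup.eq_one_iff] at hx1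
    rw [← QuotientGroup.mk_mul, QuotientGroup.eq_one_iff] at hx2
    exact ⟨h.central_of_pow_four hz₀ hz₀2 hx2.2, fun h0 => hx1 (h.mem_Om_iff.mpr h0), hx2.2⟩
  refine ⟨inferInstance, h.two.to_quotient (Om P), hna, ?_, K.map quotHom, ?_, ?_⟩
  · obtain ⟨x, y, hxy, hx1, hx2, hy1, hy2⟩ := htwo
    obtain ⟨w₁, hw₁, hww₁⟩ := h.exists_sqrt hz₀ hz₀2 hx1 hx2
    obtain ⟨w₂, hw₂, hww₂⟩ := h.exists_sqrt hz₀ hz₀2 hy1 hy2
    refine ⟨QuotientGroup.mk w₁, QuotientGroup.mk w₂, ?_, ?_, ?_, ?_, ?_⟩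
    · intro he
      rw [QuotientGroup.eq] at he
      have h3 := he.2
      rw [sq_inv_mul hw₁, hww₁, hww₂] at h3
      exact hxy (inv_mul_eq_one.mp h3)
    · rw [Ne, QuotientGroup.eq_one_iff]
      intro hm
      apply hx1
      rw [← hww₁]; exact hm.2
    · rw [← QuotientGroup.mk_mul, QuotientGroup.eq_one_iff, hww₁]
      exact h.mem_Om_iff.mpr hx2
    · rw [Ne, QuotientGroup.eq_one_iff]
      intro hm
      apply hy1
      rw [← hww₂]; exact hm.2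
    · rw [← QuotientGroup.mk_mul, QuotientGroup.eq_one_iff, hww₂]
      exact h.mem_Om_iff.mpr hy2
  · exact isCyclic_of_surjective (quotHom.subgroupMap K) (quotHom.subgroupMap_surjective K)
  · intro a b ha1 ha2 hb1 hb2
    induction a using QuotientGroup.induction_on with
    | H x =>
    induction b using QuotientGroup.induction_on with
    | H y =>
    obtain ⟨hxc, hxx1, hxx2⟩ := key x ha1 ha2
    obtain ⟨hyc, hyy1, hyy2⟩ := key y hb1 hb2
    obtain ⟨k, hk, huniq⟩ := h.reg (x * x) (y * y) hxx1 hxx2 hyy1 hyy2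
    refine ⟨⟨quotHom k.1, Subgroup.mem_map_of_mem _ k.2⟩, ?_, ?_⟩
    · show quotHom k.1 (QuotientGroup.mk x) = QuotientGroup.mk y
      rw [quotHom_mk, QuotientGroup.eq]
      apply h.mem_Om_iff.mpr
      rw [sq_inv_mul (aut_center _ hxc), ← map_mul, hk, inv_mul_cancel]
    · intro k' hk'
      obtain ⟨k'', hk''K, hk''eq⟩ := Subgroup.mem_map.mp k'.2
      have h1 : quotHom k'' (QuotientGroup.mk x) = (QuotientGroup.mk y : P ⧸ Om P) := by
        rw [hk''eq]; exact hk'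
      rw [quotHom_mk, QuotientGroup.eq] at h1
      have h2 := h1.2
      rw [sq_inv_mul (aut_center _ hxc), ← map_mul] at h2
      have h3 : k'' (x * x) = y * y := inv_mul_eq_one.mp h2
      have h4 := huniq ⟨k'', hk''K⟩ h3
      apply Subtype.ext
      show k'.1 = quotHom k.1
      rw [← hk''eq, ← h4]

theorem Data.invol_comm (h : Data P K) {a : P} (ha : a * a = 1) (b : P) : a * b = b * a :=
  (Subgroup.mem_center_iff.mp (h.mem_Om_iff.mpr ha).1 b).symm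

theorem Data.hua_abs (h : Data P K) (u : P) (hu1 : u ≠ 1) (hu2 : u * u = 1) (f : MulAut P → P)
    (hf : ∀ a ∈ K, f a * f a = 1) (F1 : ∀ a ∈ K, f a = a (f a⁻¹))
    (F2 : ∀ a ∈ K, ∀ b ∈ K, ∀ c ∈ K, c u = a u * b u → f c = f a * f b) (F3 : f 1 = 1) :
    ∀ a ∈ K, f (a * a) = 1 := by
  intro a ha
  by_cases ha1 : a = 1
  · rw [ha1, one_mul]; exact F3
  have hau2 : a u * a u = 1 := by rw [← map_mul, hu2, map_one]
  have hv1 : a u * u ≠ 1 := by
    intro h0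
    have h3 : a u = u := by
      have e : a u = u⁻¹ := eq_inv_of_mul_eq_one_left h0
      rw [e]; exact inv_eq_of_mul_eq_one_left hu2
    exact ha1 (h.eq_one_of_fix ha hu1 hu2 h3)
  have hv2 : (a u * u) * (a u * u) = 1 := by
    calc (a u * u) * (a u * u) = a u * (u * a u) * u := by group
      _ = a u * (a u * u) * u := by rw [h.invol_comm hu2]
      _ = (a u * a u) * (u * u) := by group
      _ = 1 := by rw [hau2, hu2, one_mul]
  obtain ⟨b, hb, hbu⟩ := h.exists_aut hu1 hu2 hv1 hv2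
  have hab : a * b ∈ K := K.mul_mem ha hb
  have hfb : f b = f a := by
    have h1 := F2 a ha 1 K.one_mem b hb (by rw [hbu]; rfl)
    rw [h1, F3, mul_one]
  have hfab : f (a * b) = f (a * a) * f a := by
    apply F2 (a * a) (K.mul_mem ha ha) a ha (a * b) hab
    rw [MulAut.mul_apply, hbu, map_mul, MulAut.mul_apply]
  have hE : (a⁻¹ : MulAut P) u * (b⁻¹ : MulAut P) u = ((a * b)⁻¹ : MulAut P) u := by
    have h1 : (a * b) ((a⁻¹ : MulAut P) u * (b⁻¹ : MulAut P) u) = u := by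
      rw [map_mul]
      have e1 : (a * b) ((a⁻¹ : MulAut P) u) = b u := by
        rw [← MulAut.mul_apply]
        have e : a * b * a⁻¹ = b := by rw [h.comm a ha b hb]; group
        rw [e]
      have e2 : (a * b) ((b⁻¹ : MulAut P) u) = a u := by
        rw [← MulAut.mul_apply]
        have e : a * b * b⁻¹ = a := by group
        rw [e]
      rw [e1, e2, hbu]
      calc a u * u * a u = a u * (u * a u) := by group
        _ = a u * (a u * u) := by rw [h.invol_comm hu2]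
        _ = (a u * a u) * u := by group
        _ = u := by rw [hau2, one_mul]
    have h2 : ((a * b)⁻¹ : MulAut P) ((a * b) ((a⁻¹ : MulAut P) u * (b⁻¹ : MulAut P) u)) =
        ((a * b)⁻¹ : MulAut P) u := by rw [h1]
    rw [MulAut.inv_apply_self P (a * b)] at h2
    exact h2
  have hfinv : f (a * b)⁻¹ = f a⁻¹ * f b⁻¹ :=
    F2 a⁻¹ (K.inv_mem ha) b⁻¹ (K.inv_mem hb) (a * b)⁻¹ (K.inv_mem hab) hE.symm
  have g1 : f a⁻¹ = (a⁻¹ : MulAut P) (f a) := by
    have h1 := F1 a⁻¹ (K.inv_mem ha)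
    rwa [inv_inv] at h1
  have g2 : f b⁻¹ = (b⁻¹ : MulAut P) (f a) := by
    have h1 := F1 b⁻¹ (K.inv_mem hb)
    rwa [inv_inv, hfb] at h1
  have g3 : f (a * b)⁻¹ = ((a * b)⁻¹ : MulAut P) (f (a * a) * f a) := by
    have h1 := F1 (a * b)⁻¹ (K.inv_mem hab)
    rwa [inv_inv, hfab] at h1
  have H3 : ∀ w : P, w * w = 1 →
      (a⁻¹ : MulAut P) w * (b⁻¹ : MulAut P) w = ((a * b)⁻¹ : MulAut P) w := by
    intro w hw
    by_cases hw1 : w = 1
    · rw [hw1, map_one, map_one, map_one, one_mul]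
    · obtain ⟨c, hc, hcu⟩ := h.exists_aut hu1 hu2 hw1 hw
      rw [← hcu]
      have e1 : (a⁻¹ : MulAut P) (c u) = c ((a⁻¹ : MulAut P) u) := by
        rw [← MulAut.mul_apply, ← MulAut.mul_apply, h.comm a⁻¹ (K.inv_mem ha) c hc]
      have e2 : (b⁻¹ : MulAut P) (c u) = c ((b⁻¹ : MulAut P) u) := by
        rw [← MulAut.mul_apply, ← MulAut.mul_apply, h.comm b⁻¹ (K.inv_mem hb) c hc]
      have e3 : ((a * b)⁻¹ : MulAut P) (c u) = c (((a * b)⁻¹ : MulAut P) u) := by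
        rw [← MulAut.mul_apply, ← MulAut.mul_apply, h.comm (a * b)⁻¹ (K.inv_mem hab) c hc]
      rw [e1, e2, e3, ← map_mul, hE]
  have hfin : ((a * b)⁻¹ : MulAut P) (f (a * a)) = 1 := by
    have e := H3 (f a) (hf a ha)
    rw [← g1, ← g2, ← hfinv, g3, map_mul] at e
    exact mul_eq_right.mp e
  have h3 : (a * b) (((a * b)⁻¹ : MulAut P) (f (a * a))) = (a * b) 1 := by rw [hfin]
  rwa [MulAut.apply_inv_self P (a * b), map_one] at h3

theorem cm_mul {x y y' : P} (hc : x⁻¹ * y⁻¹ * x * y ∈ Subgroup.center P) :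
    x⁻¹ * (y * y')⁻¹ * x * (y * y') = (x⁻¹ * y⁻¹ * x * y) * (x⁻¹ * y'⁻¹ * x * y') := by
  have hcc : ∀ g, g * (x⁻¹ * y⁻¹ * x * y) = (x⁻¹ * y⁻¹ * x * y) * g :=
    Subgroup.mem_center_iff.mp hc
  calc x⁻¹ * (y * y')⁻¹ * x * (y * y')
      = (x⁻¹ * y'⁻¹) * (x * (x⁻¹ * y⁻¹ * x * y)) * y' := by group
    _ = (x⁻¹ * y'⁻¹) * ((x⁻¹ * y⁻¹ * x * y) * x) * y' := by rw [hcc x]
    _ = ((x⁻¹ * y'⁻¹) * (x⁻¹ * y⁻¹ * x * y)) * x * y' := by group
    _ = ((x⁻¹ * y⁻¹ * x * y) * (x⁻¹ * y'⁻¹)) * x * y' := by rw [hcc (x⁻¹ * y'⁻¹)]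
    _ = (x⁻¹ * y⁻¹ * x * y) * (x⁻¹ * y'⁻¹ * x * y') := by group

theorem cm_central {x z : P} (hz : z ∈ Subgroup.center P) : x⁻¹ * z⁻¹ * x * z = 1 := by
  have hz' : x * z = z * x := Subgroup.mem_center_iff.mp hz x
  calc x⁻¹ * z⁻¹ * x * z = x⁻¹ * z⁻¹ * (x * z) := by group
    _ = x⁻¹ * z⁻¹ * (z * x) := by rw [hz']
    _ = 1 := by group

theorem sq_central_of (hc : ∀ x y : P, x⁻¹ * y⁻¹ * x * y ∈ Om P) (x : P) :
    x * x ∈ Subgroup.center P := by
  rw [Subgroup.mem_center_iff]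
  intro y
  have hcm := hc x y
  have hcc : ∀ g, g * (x⁻¹ * y⁻¹ * x * y) = (x⁻¹ * y⁻¹ * x * y) * g :=
    Subgroup.mem_center_iff.mp hcm.1
  have h1 : (x * x)⁻¹ * y⁻¹ * (x * x) * y = 1 := by
    calc (x * x)⁻¹ * y⁻¹ * (x * x) * y
        = x⁻¹ * ((x⁻¹ * y⁻¹ * x * y) * x) * (x⁻¹ * y⁻¹ * x * y) := by group
      _ = x⁻¹ * (x * (x⁻¹ * y⁻¹ * x * y)) * (x⁻¹ * y⁻¹ * x * y) := by rw [← hcc x]
      _ = (x⁻¹ * y⁻¹ * x * y) * (x⁻¹ * y⁻¹ * x * y) := by group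
      _ = 1 := hcm.2
  have h3 : (x * x)⁻¹ * (y⁻¹ * ((x * x) * y)) = 1 := by
    rw [← h1]; simp only [mul_assoc]
  have h4 : x * x = y⁻¹ * ((x * x) * y) := inv_mul_eq_one.mp h3
  calc y * (x * x) = y * (y⁻¹ * ((x * x) * y)) := by rw [← h4]
    _ = (x * x) * y := by rw [mul_inv_cancel_left]

theorem Data.exists_exponent (h : Data P K) {z₀ : P} (hz₀ : z₀ ∈ Subgroup.center P)
    (hz₀2 : z₀ * z₀ ≠ 1) : ∃ a : ℕ, 2 ≤ a ∧ (∀ z ∈ Subgroup.center P, z ^ 2 ^ a = 1) ∧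
      ∃ z₁ ∈ Subgroup.center P, z₁ ^ 2 ^ (a - 1) ≠ 1 := by
  classical
  have := h.fin
  have hex : ∃ a : ℕ, ∀ z ∈ Subgroup.center P, z ^ 2 ^ a = 1 := by
    obtain ⟨n, hn⟩ := IsPGroup.iff_card.mp h.two
    exact ⟨n, fun z _ => by rw [← hn]; exact pow_card_eq_one'⟩
  have h2 : 2 ≤ Nat.find hex := by
    by_contra hlt
    have hs := Nat.find_spec hex z₀ hz₀
    have hcase : Nat.find hex = 0 ∨ Nat.find hex = 1 := by omega
    rcases hcase with h0 | h0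
    · rw [h0, pow_zero, pow_one] at hs
      apply hz₀2
      rw [hs, mul_one]
    · rw [h0, pow_one, sq] at hs
      exact hz₀2 hs
  refine ⟨Nat.find hex, h2, Nat.find_spec hex, ?_⟩
  have hmin := Nat.find_min hex (m := Nat.find hex - 1) (by omega)
  push Not at hmin
  exact hmin

theorem tau_mul (hc : ∀ x y : P, x⁻¹ * y⁻¹ * x * y ∈ Om P) {a : ℕ} (ha : 2 ≤ a) (x y : P) :
    (x * y) ^ 2 ^ a = x ^ 2 ^ a * y ^ 2 ^ a := by
  obtain ⟨b, rfl⟩ : ∃ b, a = b + 2 := ⟨a - 2, by omega⟩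
  have hxx := sq_central_of hc x
  have hcm := hc y x
  have hcy : (y⁻¹ * x⁻¹ * y * x) * y = y * (y⁻¹ * x⁻¹ * y * x) :=
    (Subgroup.mem_center_iff.mp hcm.1 y).symm
  have e1 : (x * y) ^ 2 = (x * x) * (y * y) * (y⁻¹ * x⁻¹ * y * x) := by
    calc (x * y) ^ 2 = x * x * (y * ((y⁻¹ * x⁻¹ * y * x) * y)) := by rw [sq]; group
      _ = x * x * (y * (y * (y⁻¹ * x⁻¹ * y * x))) := by rw [hcy]
      _ = (x * x) * (y * y) * (y⁻¹ * x⁻¹ * y * x) := by group
  have hc1 : Commute ((x * x) * (y * y)) (y⁻¹ * x⁻¹ * y * x) :=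
    Subgroup.mem_center_iff.mp hcm.1 _
  have hc2 : Commute (x * x) (y * y) := (Subgroup.mem_center_iff.mp hxx (y * y)).symm
  have hcpow : (y⁻¹ * x⁻¹ * y * x) ^ 2 ^ (b + 1) = 1 := by
    have e : (y⁻¹ * x⁻¹ * y * x) ^ 2 ^ (b + 1) = ((y⁻¹ * x⁻¹ * y * x) ^ 2) ^ 2 ^ b := by
      rw [← pow_mul]; congr 1; ring
    rw [e, sq, hcm.2, one_pow]
  have ex : (x * x) ^ 2 ^ (b + 1) = x ^ 2 ^ (b + 2) := by
    rw [← sq, ← pow_mul]; congr 1; ring
  have ey : (y * y) ^ 2 ^ (b + 1) = y ^ 2 ^ (b + 2) := by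
    rw [← sq, ← pow_mul]; congr 1; ring
  calc (x * y) ^ 2 ^ (b + 2) = ((x * y) ^ 2) ^ 2 ^ (b + 1) := by
        rw [← pow_mul]; congr 1; ring
    _ = ((x * x) * (y * y) * (y⁻¹ * x⁻¹ * y * x)) ^ 2 ^ (b + 1) := by rw [e1]
    _ = ((x * x) * (y * y)) ^ 2 ^ (b + 1) * (y⁻¹ * x⁻¹ * y * x) ^ 2 ^ (b + 1) := hc1.mul_pow _
    _ = (x * x) ^ 2 ^ (b + 1) * (y * y) ^ 2 ^ (b + 1) := by rw [hcpow, mul_one, hc2.mul_pow]
    _ = x ^ 2 ^ (b + 2) * y ^ 2 ^ (b + 2) := by rw [ex, ey]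

theorem tau_sq (hc : ∀ x y : P, x⁻¹ * y⁻¹ * x * y ∈ Om P) {a : ℕ}
    (hexp : ∀ z ∈ Subgroup.center P, z ^ 2 ^ a = 1) (x : P) :
    x ^ 2 ^ a * x ^ 2 ^ a = 1 := by
  rw [← (Commute.refl x).mul_pow]
  exact hexp _ (sq_central_of hc x)

/-- the power maps on the centre -/
def powHom (P : Type u) [Group P] (n : ℕ) : ↥(Subgroup.center P) →* ↥(Subgroup.center P) where
  toFun z := z ^ n
  map_one' := one_pow n
  map_mul' a b := Commute.mul_pow (mul_comm' a b) n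

theorem Data.ker_tau (h : Data P K) (hc : ∀ x y : P, x⁻¹ * y⁻¹ * x * y ∈ Om P) {a : ℕ}
    (ha : 2 ≤ a) (hexp : ∀ z ∈ Subgroup.center P, z ^ 2 ^ a = 1) {z₁ : P}
    (hz₁ : z₁ ∈ Subgroup.center P) (hz₁' : z₁ ^ 2 ^ (a - 1) ≠ 1) {x : P}
    (hx : x ^ 2 ^ a = 1) : x ∈ Subgroup.center P := by
  have := h.fin
  have h2a : 2 ^ (a - 1) * 2 = 2 ^ a := by
    obtain ⟨b, rfl⟩ : ∃ b, a = b + 1 := ⟨a - 1, by omega⟩
    rw [Nat.add_sub_cancel, pow_succ]
  have hker : (powHom P 2).ker = (powHom P (2 ^ (a - 1))).range := by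
    ext z
    rw [MonoidHom.mem_ker, MonoidHom.mem_range]
    constructor
    · intro hz
      by_cases hz1 : z = 1
      · exact ⟨1, by rw [map_one, hz1]⟩
      · have hzP1 : (z : P) ≠ 1 := fun h0 => hz1 (Subtype.ext h0)
        have hzP2 : (z : P) * (z : P) = 1 := by
          have h3 : ((z ^ 2 : ↥(Subgroup.center P)) : P) = 1 := congrArg Subtype.val hz
          rw [Subgroup.coe_pow, sq] at h3
          exact h3
        have hi2 : z₁ ^ 2 ^ (a - 1) * z₁ ^ 2 ^ (a - 1) = 1 := by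
          rw [← sq, ← pow_mul, h2a]; exact hexp z₁ hz₁
        obtain ⟨k, _, hk⟩ := h.exists_aut hz₁' hi2 hzP1 hzP2
        refine ⟨⟨k z₁, aut_center k hz₁⟩, Subtype.ext ?_⟩
        show (k z₁) ^ 2 ^ (a - 1) = z
        rw [← map_pow, hk]
    · rintro ⟨w, rfl⟩
      apply Subtype.ext
      show ((w : P) ^ 2 ^ (a - 1)) ^ 2 = 1
      rw [← pow_mul, h2a]
      exact hexp w w.2
  have hle : (powHom P 2).range ≤ (powHom P (2 ^ (a - 1))).ker := by
    rintro _ ⟨w, rfl⟩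
    rw [MonoidHom.mem_ker]
    apply Subtype.ext
    show ((w : P) ^ 2) ^ 2 ^ (a - 1) = 1
    rw [← pow_mul, mul_comm, h2a]
    exact hexp w w.2
  have hcard1 : Nat.card ↥(Subgroup.center P) =
      Nat.card (powHom P 2).range * Nat.card (powHom P 2).ker := by
    rw [Subgroup.card_eq_card_quotient_mul_card_subgroup (powHom P 2).ker,
      Nat.card_congr (QuotientGroup.quotientKerEquivRange (powHom P 2)).toEquiv]
  have hcard2 : Nat.card ↥(Subgroup.center P) =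
      Nat.card (powHom P (2 ^ (a - 1))).range * Nat.card (powHom P (2 ^ (a - 1))).ker := by
    rw [Subgroup.card_eq_card_quotient_mul_card_subgroup (powHom P (2 ^ (a - 1))).ker,
      Nat.card_congr (QuotientGroup.quotientKerEquivRange (powHom P (2 ^ (a - 1)))).toEquiv]
  have heq : Nat.card (powHom P 2).range = Nat.card (powHom P (2 ^ (a - 1))).ker := by
    rw [hker] at hcard1
    have hpos : 0 < Nat.card (powHom P (2 ^ (a - 1))).range := Nat.card_pos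
    have h3 := hcard1.symm.trans hcard2
    rw [mul_comm] at h3
    exact Nat.eq_of_mul_eq_mul_left hpos h3
  have hrange : (powHom P 2).range = (powHom P (2 ^ (a - 1))).ker :=
    Subgroup.eq_of_le_of_card_ge hle heq.symm.le
  have hxx := sq_central_of hc x
  have hmem : (⟨x * x, hxx⟩ : ↥(Subgroup.center P)) ∈ (powHom P (2 ^ (a - 1))).ker := by
    rw [MonoidHom.mem_ker]
    apply Subtype.ext
    show (x * x) ^ 2 ^ (a - 1) = 1
    rw [← sq, ← pow_mul, mul_comm, h2a]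
    exact hx
  rw [← hrange] at hmem
  obtain ⟨w, hw⟩ := hmem
  have hw' : (w : P) * (w : P) = x * x := by
    have h3 : ((w ^ 2 : ↥(Subgroup.center P)) : P) = x * x := congrArg Subtype.val hw
    rw [Subgroup.coe_pow, sq] at h3
    exact h3
  have ht : ((w : P)⁻¹ * x) * ((w : P)⁻¹ * x) = 1 := by
    rw [sq_inv_mul w.2, hw', inv_mul_cancel]
  have hmemt := (h.mem_Om_iff.mpr ht).1
  have e : x = (w : P) * ((w : P)⁻¹ * x) := by group
  rw [e]
  exact Subgroup.mul_mem _ w.2 hmemt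

theorem tau_eq (hc : ∀ x y : P, x⁻¹ * y⁻¹ * x * y ∈ Om P) {a : ℕ} (ha : 2 ≤ a)
    (hker : ∀ x : P, x ^ 2 ^ a = 1 → x ∈ Subgroup.center P) {x y : P}
    (hxy : x ^ 2 ^ a = y ^ 2 ^ a) : x⁻¹ * y ∈ Subgroup.center P := by
  apply hker
  rw [tau_mul hc ha, inv_pow, hxy, inv_mul_cancel]

theorem Data.hua_x (h : Data P K) (hc : ∀ x y : P, x⁻¹ * y⁻¹ * x * y ∈ Om P) {a₀ : ℕ}
    (ha₀ : 2 ≤ a₀) (hexp : ∀ z ∈ Subgroup.center P, z ^ 2 ^ a₀ = 1)
    (hker : ∀ x : P, x ^ 2 ^ a₀ = 1 → x ∈ Subgroup.center P) (x : P)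
    (hx : x ∉ Subgroup.center P) : ∀ k ∈ K, x⁻¹ * (k x)⁻¹ * x * k x = 1 := by
  have hu1 : x ^ 2 ^ a₀ ≠ 1 := fun h0 => hx (hker x h0)
  have hu2 : x ^ 2 ^ a₀ * x ^ 2 ^ a₀ = 1 := tau_sq hc hexp x
  have hsq := h.hua_abs (x ^ 2 ^ a₀) hu1 hu2 (fun a => x⁻¹ * (a x)⁻¹ * x * a x)
    (fun a _ => (hc x (a x)).2) ?_ ?_ ?_
  · intro k hk
    obtain ⟨a, ha, rfl⟩ := h.exists_sq_aut k hk
    exact hsq a ha
  · intro a _
    show x⁻¹ * (a x)⁻¹ * x * a x = a (x⁻¹ * ((a⁻¹ : MulAut P) x)⁻¹ * x * (a⁻¹ : MulAut P) x)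
    rw [map_mul, map_mul, map_mul, map_inv, map_inv, MulAut.apply_inv_self P a x]
    have e : (a x)⁻¹ * x⁻¹ * a x * x = (x⁻¹ * (a x)⁻¹ * x * a x)⁻¹ := by group
    rw [e]
    exact (inv_eq_of_mul_eq_one_left (hc x (a x)).2).symm
  · intro a _ b _ c _ hcu
    show x⁻¹ * (c x)⁻¹ * x * c x = (x⁻¹ * (a x)⁻¹ * x * a x) * (x⁻¹ * (b x)⁻¹ * x * b x)
    have h1 : (a x * b x) ^ 2 ^ a₀ = (c x) ^ 2 ^ a₀ := by
      rw [tau_mul hc ha₀, ← map_pow, ← map_pow, ← map_pow, hcu]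
    have hz := tau_eq hc ha₀ hker h1
    have e : c x = (a x * b x) * ((a x * b x)⁻¹ * c x) := by group
    rw [e, cm_mul (hc x (a x * b x)).1, cm_central hz, mul_one, cm_mul (hc x (a x)).1]
  · show x⁻¹ * ((1 : MulAut P) x)⁻¹ * x * (1 : MulAut P) x = 1
    rw [MulAut.one_apply]; group

theorem Data.all_central (h : Data P K) {z₀ : P} (hz₀ : z₀ ∈ Subgroup.center P)
    (hz₀2 : z₀ * z₀ ≠ 1) (hc : ∀ x y : P, x⁻¹ * y⁻¹ * x * y ∈ Om P) :
    ∀ x : P, x ∈ Subgroup.center P := by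
  obtain ⟨a₀, ha₀, hexp, z₁, hz₁, hz₁'⟩ := h.exists_exponent hz₀ hz₀2
  have hker : ∀ x : P, x ^ 2 ^ a₀ = 1 → x ∈ Subgroup.center P :=
    fun x hx => h.ker_tau hc ha₀ hexp hz₁ hz₁' hx
  intro x
  by_contra hx
  apply hx
  rw [Subgroup.mem_center_iff]
  intro y
  by_cases hy : y ∈ Subgroup.center P
  · exact (Subgroup.mem_center_iff.mp hy x).symm
  · have hu1 : x ^ 2 ^ a₀ ≠ 1 := fun h0 => hx (hker x h0)
    have hu2 : x ^ 2 ^ a₀ * x ^ 2 ^ a₀ = 1 := tau_sq hc hexp x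
    have hv1 : y ^ 2 ^ a₀ ≠ 1 := fun h0 => hy (hker y h0)
    have hv2 : y ^ 2 ^ a₀ * y ^ 2 ^ a₀ = 1 := tau_sq hc hexp y
    obtain ⟨k, hk, hku⟩ := h.exists_aut hu1 hu2 hv1 hv2
    have h1 : (k x) ^ 2 ^ a₀ = y ^ 2 ^ a₀ := by rw [← map_pow, hku]
    have hz := tau_eq hc ha₀ hker h1
    have e : y = k x * ((k x)⁻¹ * y) := by group
    have h2 : x⁻¹ * y⁻¹ * x * y = 1 := by
      rw [e, cm_mul (hc x (k x)).1, cm_central hz, mul_one]
      exact h.hua_x hc ha₀ hexp hker x hx k hk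
    calc y * x = y * x * (x⁻¹ * y⁻¹ * x * y) := by rw [h2, mul_one]
      _ = x * y := by group

theorem data_of_suzuki {P : Type u} [Group P] (hS : Cfsg.IsSuzukiTwoGroup P) :
    ∃ K : Subgroup (MulAut P), Data P K ∧ IsCyclic K := by
  obtain ⟨hfin, h2, _, htwo, K, hcyc, hreg⟩ := hS
  refine ⟨K, ⟨hfin, h2, ?_, hreg, ?_⟩, hcyc⟩
  · intro a ha b hb
    have hK : ∀ x y : K, x * y = y * x := fun x y => (IsCyclic.commGroup (α := K)).mul_comm x y
    exact congrArg Subtype.val (hK ⟨a, ha⟩ ⟨b, hb⟩)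
  · obtain ⟨x, y, _, hx1, hx2, _, _⟩ := htwo
    exact ⟨x, hx1, hx2⟩

theorem main : ∀ n : ℕ, ∀ (P : Type u) [Group P], Nat.card P = n → Cfsg.IsSuzukiTwoGroup P →
    ∀ z ∈ Subgroup.center P, z * z = 1 := by
  intro n
  induction n using Nat.strong_induction_on with
  | _ n ih =>
  intro P _ hn hS z₀ hz₀
  by_contra hz₀2
  obtain ⟨K, h, hcyc⟩ := data_of_suzuki hS
  obtain ⟨hfin, h2, hna, htwo, _⟩ := hS
  by_cases hQ : ∃ a b : P ⧸ Om P, a * b ≠ b * a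
  · have hQS := h.quot_suzuki hz₀ hz₀2 htwo hQ
    have hlt : Nat.card (P ⧸ Om P) < n := by
      rw [← hn, Subgroup.card_eq_card_quotient_mul_card_subgroup (Om P)]
      have h1 : 1 < Nat.card (Om P) := by
        rw [Subgroup.one_lt_card_iff_ne_bot]
        obtain ⟨x, hx1, hx2⟩ := h.inv
        intro hbot
        have h3 := h.mem_Om_iff.mpr hx2
        rw [hbot, Subgroup.mem_bot] at h3
        exact hx1 h3
      have h0 : 0 < Nat.card (P ⧸ Om P) := Nat.card_pos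
      nlinarith
    have hQc := ih _ hlt (P ⧸ Om P) rfl hQS
    obtain ⟨a, b, hab⟩ := hna
    have hnt : Nontrivial (P ⧸ Subgroup.center P) := by
      refine ⟨⟨QuotientGroup.mk b, 1, ?_⟩⟩
      rw [Ne, QuotientGroup.eq_one_iff]
      intro hb
      exact hab (Subgroup.mem_center_iff.mp hb a)
    have hP2 : IsPGroup 2 (P ⧸ Subgroup.center P) := h2.to_quotient _
    have hcn := hP2.center_nontrivial
    obtain ⟨⟨c, hc⟩, hc1⟩ := exists_ne (1 : ↥(Subgroup.center (P ⧸ Subgroup.center P)))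
    have hc1' : c ≠ 1 := fun h0 => hc1 (Subtype.ext h0)
    obtain ⟨j, hj1, hj2⟩ := exists_pow_invol hP2 hc1'
    have hjc : c ^ 2 ^ j ∈ Subgroup.center (P ⧸ Subgroup.center P) := Subgroup.pow_mem _ hc _
    obtain ⟨x, hx⟩ := QuotientGroup.mk_surjective (c ^ 2 ^ j)
    rw [← hx] at hj1 hj2 hjc
    have hxnc : x ∉ Subgroup.center P := by rwa [Ne, QuotientGroup.eq_one_iff] at hj1
    have hxx : x * x ∈ Subgroup.center P := by
      rwa [← QuotientGroup.mk_mul, QuotientGroup.eq_one_iff] at hj2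
    have hcomm2 : ∀ y : P, x⁻¹ * y⁻¹ * x * y ∈ Subgroup.center P := by
      intro y
      have h1 := Subgroup.mem_center_iff.mp hjc (QuotientGroup.mk y)
      rw [← QuotientGroup.mk_mul, ← QuotientGroup.mk_mul, QuotientGroup.eq] at h1
      have e : x⁻¹ * y⁻¹ * x * y = (y * x)⁻¹ * (x * y) := by group
      rw [e]; exact h1
    have hcomm3 : ∀ y : P, x⁻¹ * y⁻¹ * x * y ∈ Om P := by
      intro y
      refine ⟨hcomm2 y, ?_⟩
      have hcc : ∀ g, g * (x⁻¹ * y⁻¹ * x * y) = (x⁻¹ * y⁻¹ * x * y) * g :=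
        Subgroup.mem_center_iff.mp (hcomm2 y)
      have hxxc : ∀ g, g * (x * x) = (x * x) * g := Subgroup.mem_center_iff.mp hxx
      calc (x⁻¹ * y⁻¹ * x * y) * (x⁻¹ * y⁻¹ * x * y)
          = x⁻¹ * (x * (x⁻¹ * y⁻¹ * x * y)) * (x⁻¹ * y⁻¹ * x * y) := by group
        _ = x⁻¹ * ((x⁻¹ * y⁻¹ * x * y) * x) * (x⁻¹ * y⁻¹ * x * y) := by rw [hcc x]
        _ = (x * x)⁻¹ * (y⁻¹ * (x * x)) * y := by group
        _ = (x * x)⁻¹ * ((x * x) * y⁻¹) * y := by rw [hxxc y⁻¹]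
        _ = 1 := by group
    have hxQ : (QuotientGroup.mk x : P ⧸ Om P) ∈ Subgroup.center (P ⧸ Om P) := by
      rw [Subgroup.mem_center_iff]
      intro g
      induction g using QuotientGroup.induction_on with
      | H y =>
        rw [← QuotientGroup.mk_mul, ← QuotientGroup.mk_mul, QuotientGroup.eq]
        have e : (y * x)⁻¹ * (x * y) = x⁻¹ * y⁻¹ * x * y := by group
        rw [e]; exact hcomm3 y
    have h3 := hQc _ hxQ
    rw [← QuotientGroup.mk_mul, QuotientGroup.eq_one_iff] at h3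
    exact hxnc (h.central_of_pow_four hz₀ hz₀2 h3.2)
  · push Not at hQ
    have hc : ∀ x y : P, x⁻¹ * y⁻¹ * x * y ∈ Om P := by
      intro x y
      have h1 := hQ (QuotientGroup.mk y) (QuotientGroup.mk x)
      rw [← QuotientGroup.mk_mul, ← QuotientGroup.mk_mul, QuotientGroup.eq] at h1
      have e : x⁻¹ * y⁻¹ * x * y = (y * x)⁻¹ * (x * y) := by group
      rw [e]; exact h1
    have hall := h.all_central hz₀ hz₀2 hc
    obtain ⟨a, b, hab⟩ := hna
    exact hab (Subgroup.mem_center_iff.mp (hall b) a)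

/-- In a Suzuki 2-group `P` (a finite non-abelian 2-group with more than one involution admitting a cyclic group of automorphisms regular on its involutions) the involutions are exactly the non-identity central elements, and `Z(P)` is elementary abelian. -/
theorem result {P : Type*} [Group P] (hP : Cfsg.IsSuzukiTwoGroup P) :
    (∀ x : P, (x ≠ 1 ∧ x * x = 1) ↔ (x ∈ Subgroup.center P ∧ x ≠ 1)) ∧
      ∀ z ∈ Subgroup.center P, z * z = 1 := by
  have hmain := main (Nat.card P) P rfl hP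
  obtain ⟨K, h, _⟩ := data_of_suzuki hP
  exact ⟨fun x => ⟨fun hx => ⟨h.invol_central hx.1 hx.2, hx.1⟩,
    fun hx => ⟨hx.2, hmain x hx.1⟩⟩, hmain⟩

end Cfsg.Agent.S1137
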