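import Cfsg.Statements.S1140
-- import your own Cfsg.Agent.* helpers here
import Mathlib

set_option autoImplicit false
open Cfsg

namespace Cfsg.Agent.S1140

theorem li {F : Type*} [Field F] :
    LinearIndependent F (fun σ : F ≃+* F => ((σ : F →+* F) : F → F)) := by
  have h := linearIndependent_monoidHom F F
  have hj : Function.Injective (fun σ : F ≃+* F => ((σ : F →+* F) : F →* F)) := by
    intro σ τ h
    ext x
    exact DFunLike.congr_fun h x
  exact h.comp _ hj

/-- Coordinates of additive endomorphisms with respect to the automorphisms. -/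
theorem coords {F : Type*} [Field F] [Finite F] [CharP F 2] [Fintype (F ≃+* F)] :
    ∃ coord : (F ≃+* F) → (F →+ F) → F,
      (∀ σ f g, coord σ (f + g) = coord σ f + coord σ g) ∧
      ∀ (f : F →+ F) (x : F), f x = ∑ σ, coord σ f * σ x := by
  classical
  let _ : Algebra (ZMod 2) F := ZMod.algebra F 2
  have : Fact (Nat.Prime 2) := ⟨Nat.prime_two⟩
  have : Module.Finite (ZMod 2) F := Module.Finite.of_finite
  let v : (F ≃+* F) → (F →ₗ[ZMod 2] F) := fun σ => (σ : F →+ F).toZModLinearMap 2
  have hv : LinearIndependent F v := by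
    refine LinearIndependent.of_comp (LinearMap.ltoFun (ZMod 2) F F F) ?_
    exact li
  let e : (F ≃+* F) ≃ (F ≃ₐ[ZMod 2] F) :=
    { toFun := fun σ => AlgEquiv.ofRingEquiv (f := σ) (fun x => by
        have : (σ : F →+* F).comp (algebraMap (ZMod 2) F) = algebraMap (ZMod 2) F :=
          Subsingleton.elim _ _
        exact DFunLike.congr_fun this x)
      invFun := fun τ => τ.toRingEquiv
      left_inv := fun σ => by ext x; rfl
      right_inv := fun τ => by ext x; rfl }
  have hcard : Fintype.card (F ≃+* F) = Module.finrank F (F →ₗ[ZMod 2] F) := by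
    rw [Module.finrank_linearMap, Module.finrank_self, mul_one,
      ← IsGalois.card_aut_eq_finrank (ZMod 2) F, ← Nat.card_eq_fintype_card]
    exact Nat.card_congr e
  have : Nonempty (F ≃+* F) := ⟨RingEquiv.refl F⟩
  let b : Module.Basis (F ≃+* F) F (F →ₗ[ZMod 2] F) :=
    basisOfLinearIndependentOfCardEqFinrank hv hcard
  have hb : ∀ σ, b σ = v σ := fun σ => by
    simp only [b, coe_basisOfLinearIndependentOfCardEqFinrank]
  refine ⟨fun σ f => b.repr (f.toZModLinearMap 2) σ, ?_, ?_⟩
  · intro σ f g
    have : (f + g).toZModLinearMap 2 = f.toZModLinearMap 2 + g.toZModLinearMap 2 := by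
      ext x; rfl
    show (b.repr ((f + g).toZModLinearMap 2)) σ = _
    rw [this, map_add]
    rfl
  · intro f x
    have h1 := b.sum_repr (f.toZModLinearMap 2)
    have h2 := congrArg (fun g : F →ₗ[ZMod 2] F => g x) h1
    simp only [LinearMap.coe_sum, Finset.sum_apply, LinearMap.smul_apply, hb] at h2
    rw [show f x = (f.toZModLinearMap 2) x from rfl, ← h2]
    rfl

/-- For a finite field `F` of characteristic 2, the automorphisms of `F`, viewed as additive maps `F → F`, are linearly independent over `F` (acting on values) every additive endomorphism of `F` is an `F`-linear combination of them, and every biadditive map `F → F → F` is an `F`-combination of the maps `(x, y) ↦ σ(x) τ(y)`. -/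
theorem result {F : Type*} [Field F] [Fintype F] [CharP F 2] :
    LinearIndependent F (fun σ : F ≃+* F => ((σ : F →+* F) : F → F)) ∧
      (∀ f : F →+ F, ∃ (s : Finset (F ≃+* F)) (c : (F ≃+* F) → F), ∀ x : F, f x = ∑ σ ∈ s, c σ * σ x) ∧
      ∀ B : F →+ F →+ F, ∃ (s : Finset ((F ≃+* F) × (F ≃+* F))) (c : (F ≃+* F) × (F ≃+* F) → F),
        ∀ x y : F, B x y = ∑ p ∈ s, c p * (p.1 x * p.2 y) := by
  classical
  have : Finite (F ≃+* F) :=
    Finite.of_injective (fun σ : F ≃+* F => (σ : F → F)) DFunLike.coe_injective
  have : Fintype (F ≃+* F) := Fintype.ofFinite _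
  obtain ⟨coord, hadd, hrep⟩ := coords (F := F)
  refine ⟨li, ?_, ?_⟩
  · intro f
    exact ⟨Finset.univ, fun σ => coord σ f, fun x => hrep f x⟩
  · intro B
    -- g τ : x ↦ coord τ (B x)
    have hg : ∀ τ : F ≃+* F, ∃ g : F →+ F, ∀ x, g x = coord τ (B x) := by
      intro τ
      refine ⟨AddMonoidHom.mk' (fun x => coord τ (B x)) ?_, fun x => rfl⟩
      intro x y
      rw [map_add, hadd]
    choose g hg using hg
    refine ⟨Finset.univ, fun p => coord p.1 (g p.2), ?_⟩
    intro x y
    rw [hrep (B x) y, ← Finset.univ_product_univ, Finset.sum_product_right]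
    refine Finset.sum_congr rfl fun τ _ => ?_
    rw [← hg τ x, hrep (g τ) x, Finset.sum_mul]
    refine Finset.sum_congr rfl fun σ _ => ?_
    ring

end Cfsg.Agent.S1140
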