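import Cfsg.Statements.S1160
import Mathlib
import Cfsg.Agent.S0126

set_option autoImplicit false
open Cfsg

namespace Cfsg.Agent.S1160

section ops

variable {P E : Type*} [Group P] [AddCommGroup E] [DistribMulAction P E]

/-- the partial trace `v ↦ ∑_{k<n} a^k • v` -/
def T (n : ℕ) (a : P) (v : E) : E := ∑ k ∈ Finset.range n, a ^ k • v

theorem T_add (n : ℕ) (a : P) (v w : E) : T n a (v + w) = T n a v + T n a w := by
  unfold T
  rw [← Finset.sum_add_distrib]
  apply Finset.sum_congr rfl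
  intro k _
  rw [smul_add]

theorem T_zero (n : ℕ) (a : P) : T n a (0 : E) = 0 := by
  unfold T
  simp

theorem T_nsmul (n : ℕ) (a : P) (m : ℕ) (v : E) : T n a (m • v) = m • T n a v := by
  induction m with
  | zero => rw [zero_smul, zero_smul, T_zero]
  | succ m ih => rw [succ_nsmul, succ_nsmul, T_add, ih]

theorem T_fixed (n : ℕ) (a : P) (ha : a ^ n = 1) (v : E) : a • T n a v = T n a v := by
  unfold T
  rw [Finset.smul_sum]
  have h1 : ∀ k, a • a ^ k • v = a ^ (k + 1) • v := fun k => by rw [pow_succ', mul_smul]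
  simp only [h1]
  have h2 := Finset.sum_range_succ (fun k => a ^ k • v) n
  have h3 := Finset.sum_range_succ' (fun k => a ^ k • v) n
  rw [h2] at h3
  simp only [ha, pow_zero] at h3
  exact (add_right_cancel h3).symm

theorem T_of_fixed (n : ℕ) (a : P) (v : E) (h : a • v = v) : T n a v = n • v := by
  unfold T
  have h1 : ∀ k : ℕ, a ^ k • v = v := by
    intro k
    induction k with
    | zero => rw [pow_zero, one_smul]
    | succ k ih => rw [pow_succ, mul_smul, h, ih]
  simp only [h1]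
  rw [Finset.sum_const, Finset.card_range]

theorem T_comm (n : ℕ) (a g : P) (h : g * a = a * g) (v : E) :
    g • T n a v = T n a (g • v) := by
  unfold T
  rw [Finset.smul_sum]
  apply Finset.sum_congr rfl
  intro k _
  have : g * a ^ k = a ^ k * g := (show Commute g a from h).pow_right k
  rw [← mul_smul, this, mul_smul]

theorem smul_nsmul' (g : P) (m : ℕ) (v : E) : g • (m • v) = m • (g • v) :=
  map_nsmul (DistribSMul.toAddMonoidHom E g) m v

theorem cancel_nsmul {q : ℕ} (hE : ∀ e : E, q • e = 0) (m : ℕ) (hm : Nat.Coprime m q) (e : E)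
    (h : m • e = 0) : e = 0 := by
  have h1 : ((m : ℤ) • e) = 0 := by rw [natCast_zsmul]; exact h
  have h2 : ((q : ℤ) • e) = 0 := by rw [natCast_zsmul]; exact hE e
  obtain ⟨a, b, hab⟩ := Nat.isCoprime_iff_coprime.2 hm
  have : e = (a * m + b * q : ℤ) • e := by rw [hab, one_smul]
  rw [this, add_smul, mul_smul, mul_smul, h1, h2, smul_zero, smul_zero, add_zero]

theorem sum_reindex {p : ℕ} (hp : p.Prime) (j : ℕ) (hj0 : 0 < j) (hjp : j < p) (f : ℕ → E) :
    ∑ i ∈ Finset.range p, f ((i * j) % p) = ∑ k ∈ Finset.range p, f k := by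
  have hcop : Nat.gcd p j = 1 :=
    (Nat.Prime.coprime_iff_not_dvd hp).2 (Nat.not_dvd_of_pos_of_lt hj0 hjp)
  have hinj : ∀ x ∈ Finset.range p, ∀ y ∈ Finset.range p,
      (x * j) % p = (y * j) % p → x = y := by
    intro i hi i' hi' h
    have h1 : i * j ≡ i' * j [MOD p] := h
    have h2 : i ≡ i' [MOD p] := Nat.ModEq.cancel_right_of_coprime hcop h1
    exact Nat.ModEq.eq_of_lt_of_lt h2 (Finset.mem_range.1 hi) (Finset.mem_range.1 hi')
  have himg : (Finset.range p).image (fun i => (i * j) % p) = Finset.range p := by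
    apply Finset.eq_of_subset_of_card_le
    · intro k hk
      obtain ⟨i, _, rfl⟩ := Finset.mem_image.1 hk
      exact Finset.mem_range.2 (Nat.mod_lt _ hp.pos)
    · rw [Finset.card_image_of_injOn (fun x hx y hy h => hinj x hx y hy h)]
  conv_rhs => rw [← himg]
  rw [Finset.sum_image (fun x hx y hy h => hinj x hx y hy h)]

theorem sum_T {p : ℕ} (hp : p.Prime) (y z : P) (hyz : y * z = z * y) (hz : z ^ p = 1)
    (v : E) (hTz : T p z v = 0) :
    ∑ i ∈ Finset.range p, T p (y * z ^ i) v = p • v := by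
  unfold T at *
  rw [Finset.sum_comm]
  have h1 : ∀ i j : ℕ, (y * z ^ i) ^ j • v = y ^ j • z ^ ((i * j) % p) • v := by
    intro i j
    have hc : Commute y (z ^ i) := (show Commute y z from hyz).pow_right i
    rw [hc.mul_pow, mul_smul, ← pow_mul]
    congr 2
    conv_lhs => rw [← Nat.mod_add_div (i * j) p, pow_add, pow_mul, hz, one_pow, mul_one]
  simp only [h1]
  rw [Finset.sum_eq_single 0]
  · simp
  · intro j hj hj0
    rw [← Finset.smul_sum, sum_reindex hp j (Nat.pos_of_ne_zero hj0) (Finset.mem_range.1 hj)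
      (fun k => z ^ k • v), hTz, smul_zero]
  · intro h
    exact absurd (Finset.mem_range.2 hp.pos) h

end ops

section main

variable {P E : Type*} [Group P] [Finite P] [AddCommGroup E] [DistribMulAction P E]
  {p q : ℕ} [Fact p.Prime]

theorem stab_card_ne (a b : E) (x : P)
    (hle : MulAction.stabilizer P a ≤ MulAction.stabilizer P b)
    (hx : x ∈ MulAction.stabilizer P b) (hxa : x ∉ MulAction.stabilizer P a) :
    Nat.card (MulAction.stabilizer P a) ≠ Nat.card (MulAction.stabilizer P b) := by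
  intro h
  have h1 := Subgroup.eq_of_le_of_card_ge hle (by rw [h])
  apply hxa
  rw [h1]
  exact hx

theorem central_fpf [FaithfulSMul P E] (hpq : p ≠ q) (hq : q.Prime) (hE : ∀ e : E, q • e = 0)
    (hconst : ∀ a b : E, a ≠ 0 → b ≠ 0 →
      Nat.card (MulAction.stabilizer P a) = Nat.card (MulAction.stabilizer P b))
    (z : P) (hzc : ∀ g : P, g * z = z * g) (hz1 : z ≠ 1) (hzp : z ^ p = 1) (a : E)
    (ha : z • a = a) : a = 0 := by
  by_contra ha0
  have hcop : Nat.Coprime p q := (Nat.coprime_primes Fact.out hq).2 hpq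
  obtain ⟨c, hc⟩ : ∃ c : E, z • c ≠ c := by
    by_contra hall
    push Not at hall
    exact hz1 (FaithfulSMul.eq_of_smul_eq_smul (α := E) (fun e => by rw [hall e, one_smul]))
  obtain ⟨b, hb⟩ : ∃ b : E, b = p • c - T p z c := ⟨_, rfl⟩
  have hTb : T p z b = 0 := by
    have h1 : T p z (p • c - T p z c) + T p z (T p z c) = T p z (p • c) := by
      rw [← T_add, sub_add_cancel]
    have h2 : T p z (T p z c) = p • T p z c := T_of_fixed p z _ (T_fixed p z hzp c)
    rw [h2, T_nsmul, ← hb] at h1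
    exact add_eq_right.1 h1
  have hzb : z • b ≠ b := by
    intro h
    have h1 : T p z b = p • b := T_of_fixed p z b h
    rw [hTb] at h1
    have hb0 : b = 0 := cancel_nsmul hE p hcop b h1.symm
    have h2 : p • c = T p z c := sub_eq_zero.1 (hb ▸ hb0)
    have h3 : z • (p • c) = p • c := by
      conv_lhs => rw [h2]
      rw [T_fixed p z hzp c, h2]
    have h4 : p • (z • c - c) = 0 := by
      rw [smul_sub, ← smul_nsmul', h3, sub_self]
    exact hc (sub_eq_zero.1 (cancel_nsmul hE p hcop _ h4))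
  have hab : a + b ≠ 0 := by
    intro h
    apply hzb
    have h1 : b = -a := (neg_eq_of_add_eq_zero_right h).symm
    rw [h1, smul_neg, ha]
  have hle : MulAction.stabilizer P (a + b) ≤ MulAction.stabilizer P a := by
    intro g hg
    rw [MulAction.mem_stabilizer_iff] at hg ⊢
    have h1 : T p z (g • (a + b)) = T p z (a + b) := by rw [hg]
    rw [← T_comm p z g (hzc g), T_add, hTb, add_zero, T_of_fixed p z a ha, smul_nsmul'] at h1
    have h2 : p • (g • a - a) = 0 := by rw [smul_sub, h1, sub_self]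
    exact sub_eq_zero.1 (cancel_nsmul hE p hcop _ h2)
  have hzab : z ∉ MulAction.stabilizer P (a + b) := by
    intro h
    rw [MulAction.mem_stabilizer_iff, smul_add, ha] at h
    exact hzb (add_left_cancel h)
  exact stab_card_ne (a + b) a z hle ha hzab (hconst _ _ hab ha0)

theorem exists_central (hP : IsPGroup p P) (A : Subgroup P) (hA : A.Normal)
    (hcard : p ∣ Nat.card A) : ∃ z ∈ A, z ≠ 1 ∧ ∀ g : P, g * z = z * g := by
  haveI := hA
  have hP' : IsPGroup p (ConjAct P) := hP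
  have h1 : (1 : A) ∈ MulAction.fixedPoints (ConjAct P) A := fun g => smul_one g
  obtain ⟨b, hb, hne⟩ := hP'.exists_fixed_point_of_prime_dvd_card_of_fixed_point A hcard h1
  refine ⟨b.1, b.2, fun h => hne (Subtype.ext h.symm), fun g => ?_⟩
  have h2 := congrArg Subtype.val (hb (ConjAct.toConjAct g))
  rw [ConjAct.Subgroup.val_conj_smul, ConjAct.toConjAct_smul, mul_inv_eq_iff_eq_mul] at h2
  exact h2

theorem order_p {x : P} (hxp : x ^ p = 1) (hx1 : x ≠ 1) : orderOf x = p :=
  orderOf_eq_prime hxp hx1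

theorem same_zpowers {u y : P} (hu : u ^ p = 1) (hu1 : u ≠ 1) (hy : y ^ p = 1) (hy1 : y ≠ 1)
    (h : u ∈ Subgroup.zpowers y) : Subgroup.zpowers u = Subgroup.zpowers y := by
  apply Subgroup.eq_of_le_of_card_ge (by rw [Subgroup.zpowers_le]; exact h)
  rw [Nat.card_zpowers, Nat.card_zpowers, order_p hu hu1, order_p hy hy1]

theorem normal_prime_central (hP : IsPGroup p P) (y : P) (hyp : y ^ p = 1) (hy1 : y ≠ 1)
    (hB : (Subgroup.zpowers y).Normal) : ∀ g : P, g * y = y * g := by
  obtain ⟨z, hz, hz1, hzc⟩ := exists_central hP _ hB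
    (by rw [Nat.card_zpowers, order_p hyp hy1])
  have hzp : z ^ p = 1 := by
    obtain ⟨k, rfl⟩ := Subgroup.mem_zpowers_iff.1 hz
    rw [← zpow_natCast, ← zpow_mul, mul_comm, zpow_mul, zpow_natCast, hyp, one_zpow]
  have h1 := same_zpowers hzp hz1 hyp hy1 hz
  have h2 : y ∈ Subgroup.zpowers z := by rw [h1]; exact Subgroup.mem_zpowers y
  obtain ⟨k, rfl⟩ := Subgroup.mem_zpowers_iff.1 h2
  intro g
  exact (show Commute g z from hzc g).zpow_right k

theorem fix_two
    (hfpf : ∀ z : P, (∀ g : P, g * z = z * g) → z ≠ 1 → z ^ p = 1 → ∀ a : E, z • a = a → a = 0)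
    (A : Subgroup P) (hAcard : Nat.card A = p ^ 2) (hAp : ∀ a ∈ A, a ^ p = 1)
    (z : P) (hzA : z ∈ A) (hzc : ∀ g : P, g * z = z * g) (hz1 : z ≠ 1)
    (y₁ y₂ : P) (h₁ : y₁ ∈ A) (h₂ : y₂ ∈ A) (hy₁ : y₁ ≠ 1) (hn : y₂ ∉ Subgroup.zpowers y₁)
    (v : E) (hv₁ : y₁ • v = v) (hv₂ : y₂ • v = v) : v = 0 := by
  apply hfpf z hzc hz1 (hAp z hzA) v
  have hle : Subgroup.zpowers y₁ ⊔ Subgroup.zpowers y₂ ≤ MulAction.stabilizer P v := by
    rw [sup_le_iff, Subgroup.zpowers_le, Subgroup.zpowers_le]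
    exact ⟨hv₁, hv₂⟩
  have hle' : Subgroup.zpowers y₁ ⊔ Subgroup.zpowers y₂ ≤ A := by
    rw [sup_le_iff, Subgroup.zpowers_le, Subgroup.zpowers_le]
    exact ⟨h₁, h₂⟩
  have hA : Subgroup.zpowers y₁ ⊔ Subgroup.zpowers y₂ = A := by
    apply Subgroup.eq_of_le_of_card_ge hle'
    rw [hAcard]
    have hd : Nat.card ↥(Subgroup.zpowers y₁ ⊔ Subgroup.zpowers y₂) ∣ p ^ 2 := by
      rw [← hAcard]
      exact Subgroup.card_dvd_of_le hle'
    obtain ⟨k, hk, hkc⟩ := (Nat.dvd_prime_pow Fact.out).1 hd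
    have hlt : p < Nat.card ↥(Subgroup.zpowers y₁ ⊔ Subgroup.zpowers y₂) := by
      by_contra hnlt
      push Not at hnlt
      have h3 := Subgroup.eq_of_le_of_card_ge
        (le_sup_left : Subgroup.zpowers y₁ ≤ Subgroup.zpowers y₁ ⊔ Subgroup.zpowers y₂)
        (by rw [Nat.card_zpowers, order_p (hAp y₁ h₁) hy₁]; exact hnlt)
      apply hn
      rw [h3]
      exact Subgroup.mem_sup_right (Subgroup.mem_zpowers y₂)
    rw [hkc] at hlt ⊢
    have hp1 : 1 < p := (Fact.out : p.Prime).one_lt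
    have hk2 : k = 2 := by
      interval_cases k
      · rw [pow_zero] at hlt; omega
      · rw [pow_one] at hlt; omega
      · rfl
    rw [hk2]
  rw [← hA] at hzA
  exact hle hzA

theorem exists_fixed
    (hfpf : ∀ z : P, (∀ g : P, g * z = z * g) → z ≠ 1 → z ^ p = 1 → ∀ a : E, z • a = a → a = 0)
    (hE : ∀ e : E, q • e = 0) (hcop : Nat.Coprime p q)
    (A : Subgroup P) (hAcard : Nat.card A = p ^ 2) (hAp : ∀ a ∈ A, a ^ p = 1)
    (z : P) (hzA : z ∈ A) (hzc : ∀ g : P, g * z = z * g) (hz1 : z ≠ 1)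
    (v : E) (hv : v ≠ 0) :
    ∃ y ∈ A, y ≠ 1 ∧ ∃ v₁ : E, v₁ ≠ 0 ∧ y • v₁ = v₁ := by
  have hp1 : 1 < p := (Fact.out : p.Prime).one_lt
  obtain ⟨y, hyA, hyz⟩ : ∃ y ∈ A, y ∉ Subgroup.zpowers z := by
    by_contra hall
    push Not at hall
    have hle : A ≤ Subgroup.zpowers z := hall
    have h1 := Subgroup.card_le_of_le hle
    rw [hAcard, Nat.card_zpowers, order_p (hAp z hzA) hz1] at h1
    nlinarith
  have hTz : T p z v = 0 := hfpf z hzc hz1 (hAp z hzA) _ (T_fixed p z (hAp z hzA) v)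
  have hsum := sum_T (Fact.out : p.Prime) y z (hzc y) (hAp z hzA) v hTz
  obtain ⟨i, hi, hTi⟩ : ∃ i ∈ Finset.range p, T p (y * z ^ i) v ≠ 0 := by
    by_contra hall
    push Not at hall
    rw [Finset.sum_eq_zero hall] at hsum
    exact hv (cancel_nsmul hE p hcop v hsum.symm)
  have hmem : y * z ^ i ∈ A := A.mul_mem hyA (A.pow_mem hzA i)
  refine ⟨y * z ^ i, hmem, ?_, T p (y * z ^ i) v, hTi, T_fixed p _ (hAp _ hmem) v⟩
  intro h
  apply hyz
  have h1 : y = (z ^ i)⁻¹ := eq_inv_of_mul_eq_one_left h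
  rw [h1]
  exact Subgroup.inv_mem _ (Subgroup.pow_mem _ (Subgroup.mem_zpowers z) i)

end main
section final

variable {P E : Type*} [Group P] [Finite P] [AddCommGroup E] [Finite E] [DistribMulAction P E]
  [FaithfulSMul P E] {p q : ℕ} [Fact p.Prime]

theorem cyclic_of (hp2 : p ≠ 2) (hP : IsPGroup p P) (hq : q.Prime) (hpq : p ≠ q)
    (hE : ∀ e : E, q • e = 0)
    (hconst : ∀ a b : E, a ≠ 0 → b ≠ 0 →
      Nat.card (MulAction.stabilizer P a) = Nat.card (MulAction.stabilizer P b))
    (hnt : Nontrivial P) : IsCyclic P := by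
  by_contra hnc
  obtain ⟨A, hAn, ⟨hAc, hAp⟩, hAcard⟩ := Cfsg.Agent.S0126.result hp2 hP hnc
  have hpp : p.Prime := Fact.out
  have hcop : Nat.Coprime p q := (Nat.coprime_primes hpp hq).2 hpq
  have hfpf : ∀ z : P, (∀ g : P, g * z = z * g) → z ≠ 1 → z ^ p = 1 → ∀ a : E, z • a = a → a = 0 :=
    fun z hzc hz1 hzp a ha => central_fpf hpq hq hE hconst z hzc hz1 hzp a ha
  obtain ⟨z, hzA, hz1, hzc⟩ := exists_central hP A hAn
    (by rw [hAcard]; exact dvd_pow_self p two_ne_zero)
  obtain ⟨g₀, hg₀⟩ := exists_ne (1 : P)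
  obtain ⟨c, hc⟩ : ∃ c : E, g₀ • c ≠ c := by
    by_contra hall
    push Not at hall
    exact hg₀ (FaithfulSMul.eq_of_smul_eq_smul (α := E) (fun e => by rw [hall e, one_smul]))
  have hc0 : c ≠ 0 := by
    rintro rfl
    exact hc (smul_zero g₀)
  have hAcomm : ∀ a ∈ A, ∀ b ∈ A, a * b = b * a := by
    intro a ha b hb
    have := mul_comm' (⟨a, ha⟩ : A) ⟨b, hb⟩
    exact congrArg Subtype.val this
  obtain ⟨y, hyA, hy1, v₁, hv₁, hyv₁⟩ := exists_fixed hfpf hE hcop A hAcard hAp z hzA hzc hz1 c hc0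
  have hyp : y ^ p = 1 := hAp y hyA
  obtain ⟨g, hg⟩ : ∃ g : P, g * y * g⁻¹ ∉ Subgroup.zpowers y := by
    by_contra hall
    push Not at hall
    have hBn : (Subgroup.zpowers y).Normal := by
      constructor
      intro b hb g
      obtain ⟨k, rfl⟩ := Subgroup.mem_zpowers_iff.1 hb
      rw [← conj_zpow]
      exact Subgroup.zpow_mem _ (hall g) k
    exact hv₁ (hfpf y (normal_prime_central hP y hyp hy1 hBn) hy1 hyp v₁ hyv₁)
  obtain ⟨y', hy'⟩ : ∃ y' : P, y' = g * y * g⁻¹ := ⟨_, rfl⟩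
  rw [← hy'] at hg
  have hy'A : y' ∈ A := by rw [hy']; exact hAn.conj_mem y hyA g
  have hy'1 : y' ≠ 1 := by
    intro e
    apply hg
    rw [e]
    exact one_mem _
  have hy'p : y' ^ p = 1 := hAp y' hy'A
  obtain ⟨v₂, hv₂def⟩ : ∃ v₂ : E, v₂ = g • v₁ := ⟨_, rfl⟩
  have hy'v₂ : y' • v₂ = v₂ := by
    rw [hy', hv₂def, ← mul_smul, inv_mul_cancel_right, mul_smul, hyv₁]
  have hL : ∀ y₁ y₂ : P, y₁ ∈ A → y₂ ∈ A → y₁ ≠ 1 → y₂ ∉ Subgroup.zpowers y₁ → ∀ v : E,
      y₁ • v = v → y₂ • v = v → v = 0 :=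
    fun y₁ y₂ h₁ h₂ hy₁ hn v hv₁ hv₂ =>
      fix_two hfpf A hAcard hAp z hzA hzc hz1 y₁ y₂ h₁ h₂ hy₁ hn v hv₁ hv₂
  have hv₂ : v₂ ≠ 0 := by
    intro h
    apply hv₁
    have h1 : v₁ = g⁻¹ • v₂ := by rw [hv₂def, inv_smul_smul]
    rw [h1, h, smul_zero]
  have hyv₂ : y • v₂ ≠ v₂ := fun h => hv₂ (hL y y' hyA hy'A hy1 hg v₂ h hy'v₂)
  have hw : v₁ + v₂ ≠ 0 := by
    intro h
    apply hyv₂
    have h1 : v₂ = -v₁ := (neg_eq_of_add_eq_zero_right h).symm
    rw [h1, smul_neg, hyv₁]
  have hle : MulAction.stabilizer P (v₁ + v₂) ≤ MulAction.stabilizer P v₁ := by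
    intro h hh
    rw [MulAction.mem_stabilizer_iff] at hh ⊢
    rw [smul_add] at hh
    have huA : h * y * h⁻¹ ∈ A := hAn.conj_mem y hyA h
    have hu'A : h * y' * h⁻¹ ∈ A := hAn.conj_mem y' hy'A h
    have hu1 : h * y * h⁻¹ ≠ 1 := by
      intro e
      apply hy1
      have h1 : y = h⁻¹ * (h * y * h⁻¹) * h := by group
      rw [h1, e]
      group
    have hup : (h * y * h⁻¹) ^ p = 1 := hAp _ huA
    have hu'n : h * y' * h⁻¹ ∉ Subgroup.zpowers (h * y * h⁻¹) := by
      intro hmem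
      obtain ⟨k, hk⟩ := Subgroup.mem_zpowers_iff.1 hmem
      apply hg
      rw [Subgroup.mem_zpowers_iff]
      refine ⟨k, ?_⟩
      rw [conj_zpow] at hk
      exact mul_left_cancel (mul_right_cancel hk)
    have hfix1 : (h * y * h⁻¹) • h • v₁ = h • v₁ := by
      rw [← mul_smul, inv_mul_cancel_right, mul_smul, hyv₁]
    have hfix2 : (h * y' * h⁻¹) • h • v₂ = h • v₂ := by
      rw [← mul_smul, inv_mul_cancel_right, mul_smul, hy'v₂]
    have hT := congrArg (T p (h * y * h⁻¹)) hh
    rw [T_add, T_add, T_of_fixed p _ _ hfix1] at hT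
    have hT2 : T p (h * y * h⁻¹) (h • v₂) = 0 := by
      apply hL (h * y * h⁻¹) (h * y' * h⁻¹) huA hu'A hu1 hu'n
      · exact T_fixed p _ hup _
      · rw [T_comm p _ _ (hAcomm _ hu'A _ huA), hfix2]
    rw [hT2, add_zero] at hT
    by_cases hc1 : h * y * h⁻¹ ∈ Subgroup.zpowers y
    · have hT3 : T p (h * y * h⁻¹) v₁ = p • v₁ := by
        apply T_of_fixed
        obtain ⟨k, hk⟩ := Subgroup.mem_zpowers_iff.1 hc1
        rw [← hk]
        exact Subgroup.zpow_mem (MulAction.stabilizer P v₁) hyv₁ k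
      have hT4 : T p (h * y * h⁻¹) v₂ = 0 := by
        apply hL y' (h * y * h⁻¹) hy'A huA hy'1
        · intro hmem
          have e1 := same_zpowers hup hu1 hyp hy1 hc1
          have e2 := same_zpowers hup hu1 hy'p hy'1 hmem
          apply hg
          rw [← e1, e2]
          exact Subgroup.mem_zpowers y'
        · rw [T_comm p _ _ (hAcomm _ hy'A _ huA), hy'v₂]
        · exact T_fixed p _ hup _
      rw [hT3, hT4, add_zero] at hT
      have h2 : p • (h • v₁ - v₁) = 0 := by rw [smul_sub, hT, sub_self]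
      exact sub_eq_zero.1 (cancel_nsmul hE p hcop _ h2)
    · have hT3 : T p (h * y * h⁻¹) v₁ = 0 := by
        apply hL y (h * y * h⁻¹) hyA huA hy1 hc1
        · rw [T_comm p _ _ (hAcomm _ hyA _ huA), hyv₁]
        · exact T_fixed p _ hup _
      rw [hT3, zero_add] at hT
      by_cases hc2 : h * y * h⁻¹ ∈ Subgroup.zpowers y'
      · have hT4 : T p (h * y * h⁻¹) v₂ = p • v₂ := by
          apply T_of_fixed
          obtain ⟨k, hk⟩ := Subgroup.mem_zpowers_iff.1 hc2
          rw [← hk]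
          exact Subgroup.zpow_mem (MulAction.stabilizer P v₂) hy'v₂ k
        rw [hT4] at hT
        have h2 : p • (h • v₁ - v₂) = 0 := by rw [smul_sub, hT, sub_self]
        have h3 : h • v₁ = v₂ := sub_eq_zero.1 (cancel_nsmul hE p hcop _ h2)
        have h4 : h • v₂ = v₁ := by
          rw [h3, add_comm] at hh
          exact add_right_cancel hh
        have h5 : h * h ∈ MulAction.stabilizer P v₁ := by
          rw [MulAction.mem_stabilizer_iff, mul_smul, h3, h4]
        obtain ⟨k, hk⟩ := hP h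
        have hodd : Odd (orderOf h) :=
          Odd.of_dvd_nat ((hpp.odd_of_ne_two hp2).pow) (orderOf_dvd_of_pow_eq_one hk)
        obtain ⟨t, ht⟩ := hodd
        have h6 : (h * h) ^ (t + 1) = h := by
          rw [← pow_two, ← pow_mul]
          have : 2 * (t + 1) = orderOf h + 1 := by omega
          rw [this, pow_succ, pow_orderOf_eq_one, one_mul]
        have h7 := Subgroup.pow_mem _ h5 (t + 1)
        rw [h6] at h7
        exact h7
      · have hT4 : T p (h * y * h⁻¹) v₂ = 0 := by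
          apply hL y' (h * y * h⁻¹) hy'A huA hy'1 hc2
          · rw [T_comm p _ _ (hAcomm _ hy'A _ huA), hy'v₂]
          · exact T_fixed p _ hup _
        rw [hT4] at hT
        have h3 : h • v₁ = 0 := cancel_nsmul hE p hcop _ hT
        exfalso
        apply hv₁
        have h4 : v₁ = h⁻¹ • h • v₁ := by rw [inv_smul_smul]
        rw [h4, h3, smul_zero]
  have hyw : y ∉ MulAction.stabilizer P (v₁ + v₂) := by
    intro h
    rw [MulAction.mem_stabilizer_iff, smul_add, hyv₁] at h
    exact hyv₂ (add_left_cancel h)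
  exact stab_card_ne (v₁ + v₂) v₁ y hle hyv₁ hyw (hconst _ _ hw hv₁)

end final

/-- Let `p ≠ 2` be prime and `P` a finite `p`-group acting faithfully by additive automorphisms on a finite elementary abelian `q`-group `E` (`q` prime), such that `|P_a|` is the same for all `a ≠ 0`. Then `P` is cyclic and every non-identity element of `P` fixes only `0`. -/
theorem result {P E : Type*} [Group P] [Finite P]
    [AddCommGroup E] [Finite E] [DistribMulAction P E] [FaithfulSMul P E]
    {p q : ℕ} [Fact p.Prime] (hp2 : p ≠ 2) (hP : IsPGroup p P) (hq : q.Prime) (hE : ∀ e : E, q • e = 0)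
    (hconst : ∀ a b : E, a ≠ 0 → b ≠ 0 →
      Nat.card (MulAction.stabilizer P a) = Nat.card (MulAction.stabilizer P b)) :
    IsCyclic P ∧ ∀ g : P, g ≠ 1 → ∀ a : E, g • a = a → a = 0 := by
  rcases subsingleton_or_nontrivial P with hs | hnt
  · exact ⟨inferInstance, fun g hg => absurd (Subsingleton.elim g 1) hg⟩
  have hpq : p ≠ q := by
    rintro rfl
    have hEp : IsPGroup p (Multiplicative E) := by
      intro g
      refine ⟨1, ?_⟩
      rw [pow_one]
      exact congrArg Multiplicative.ofAdd (hE (Multiplicative.toAdd g))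
    obtain ⟨n, hn⟩ := IsPGroup.iff_card.1 hEp
    have hcardE : Nat.card E = p ^ n := hn
    obtain ⟨g₀, hg₀⟩ := exists_ne (1 : P)
    rcases n with _ | n
    · have hsub : Subsingleton E := (Nat.card_eq_one_iff_unique.1 (by rw [hcardE, pow_zero])).1
      exact hg₀ (FaithfulSMul.eq_of_smul_eq_smul (α := E) (fun e : E => Subsingleton.elim _ _))
    · have hdvd : p ∣ Nat.card E := by
        rw [hcardE]
        exact dvd_pow_self p (Nat.succ_ne_zero n)
      have h0 : (0 : E) ∈ MulAction.fixedPoints P E := fun g => smul_zero g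
      obtain ⟨b, hb, hb0⟩ := hP.exists_fixed_point_of_prime_dvd_card_of_fixed_point E hdvd h0
      have h1 : MulAction.stabilizer P b = ⊤ := by
        rw [eq_top_iff]
        intro g _
        exact hb g
      have hall : ∀ a : E, a ≠ 0 → ∀ g : P, g • a = a := by
        intro a ha g
        have h2 : MulAction.stabilizer P a = ⊤ := by
          apply Subgroup.eq_top_of_card_eq
          rw [hconst a b ha (Ne.symm hb0), h1, Subgroup.card_top]
        have h3 : g ∈ MulAction.stabilizer P a := by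
          rw [h2]
          trivial
        exact h3
      apply hg₀
      apply FaithfulSMul.eq_of_smul_eq_smul (α := E)
      intro e
      rw [one_smul]
      by_cases he : e = 0
      · rw [he, smul_zero]
      · exact hall e he g₀
  have hcyc := cyclic_of hp2 hP hq hpq hE hconst hnt
  refine ⟨hcyc, fun g hg a ha => ?_⟩
  obtain ⟨k, hk⟩ := hP g
  have hj : ∃ j, g ^ p ^ j ≠ 1 ∧ g ^ p ^ (j + 1) = 1 := by
    induction k with
    | zero =>
      rw [pow_zero, pow_one] at hk
      exact absurd hk hg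
    | succ k ih =>
      by_cases h : g ^ p ^ k = 1
      · exact ih h
      · exact ⟨k, h, hk⟩
  obtain ⟨j, hj1, hj2⟩ := hj
  have hcomm : ∀ x y : P, x * y = y * x := fun x y => mul_comm' x y
  apply central_fpf hpq hq hE hconst (g ^ p ^ j) (fun x => hcomm _ _) hj1
    (by rw [← pow_mul, ← pow_succ]; exact hj2) a
  exact Subgroup.pow_mem (MulAction.stabilizer P a) ha _


end Cfsg.Agent.S1160
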