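import Cfsg.Statements.S1166
import Cfsg.Agent.Lib.Helper8.R1

set_option autoImplicit false
open Cfsg

namespace Cfsg.Agent.S1166

open Cfsg.Agent.Lib.Helper8.R1 MulAction

theorem canon3_unique {G Ω : Type*} [Group G] [MulAction G Ω] {a : Ω} {t : G} {Q : Subgroup G}
    (hS : Cfsg.IsRankOneSetup G Ω a t Q) {g₁ h₁ f₁ g₂ h₂ f₂ : G}
    (hg₁ : g₁ ∈ Q) (hh₁ : h₁ ∈ stabilizer G a ⊓ stabilizer G (t • a)) (hf₁ : f₁ ∈ Q)
    (hg₂ : g₂ ∈ Q) (hh₂ : h₂ ∈ stabilizer G a ⊓ stabilizer G (t • a)) (hf₂ : f₂ ∈ Q)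
    (h : g₁ * h₁ * t * f₁ = g₂ * h₂ * t * f₂) : g₁ = g₂ ∧ h₁ = h₂ ∧ f₁ = f₂ := by
  obtain ⟨h1, h2⟩ := canon_unique hS (Subgroup.mul_mem _ (hS.le hg₁) hh₁.1)
    (Subgroup.mul_mem _ (hS.le hg₂) hh₂.1) hf₁ hf₂ h
  obtain ⟨h3, h4⟩ := decomp_unique hS hg₁ hg₂ hh₁ hh₂ h1
  exact ⟨h3, h4, h2⟩

theorem tt_mul {G Ω : Type*} [Group G] [MulAction G Ω] {a : Ω} {t : G} {Q : Subgroup G}
    (hS : Cfsg.IsRankOneSetup G Ω a t Q) (y : G) : t * (t * y) = y := by
  rw [← mul_assoc, hS.mul_self, one_mul]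

/-- In the rank-one set-up (`G` finite and doubly transitive on `Ω`, `t` an involution moving `a`, `Q` normal in `G_a` with `G_a = Q D`, `Q ⊓ D = 1` for the two-point stabiliser `D = G_a ⊓ G_{t • a}`, `|Q|` even, `|D|` odd), with `t x t = g_x h_x t f_x` and `t y t = g_y h_y t f_y` (`g, f ∈ Q`, `h ∈ D`) for `x, y ∈ Q ∖ 1` with `x y ≠ 1`: then `z = f_x g_y ≠ 1`, and if `t z t = g_z h_z t f_z` and `t (x y) t = g' h' t f'` then `f' = (t h_y t)⁻¹ f_z (t h_y t) f_y` and `h' = h_x h_z h_y` (H6). -/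
theorem result {G Ω : Type*} [Group G] [Finite G] [MulAction G Ω] {a : Ω} {t : G} {Q : Subgroup G}
    (hS : Cfsg.IsRankOneSetup G Ω a t Q)
    (x y gx hx fx gy hy fy : G) (hxQ : x ∈ Q) (hx1 : x ≠ 1) (hyQ : y ∈ Q) (hy1 : y ≠ 1) (hxy : x * y ≠ 1)
    (hgx : gx ∈ Q) (hhx : hx ∈ (MulAction.stabilizer G a ⊓ MulAction.stabilizer G (t • a))) (hfx : fx ∈ Q) (ex : t * x * t = gx * hx * t * fx)
    (hgy : gy ∈ Q) (hhy : hy ∈ (MulAction.stabilizer G a ⊓ MulAction.stabilizer G (t • a))) (hfy : fy ∈ Q) (ey : t * y * t = gy * hy * t * fy) :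
    fx * gy ≠ 1 ∧
      ∀ gz hz fz g' h' f' : G, gz ∈ Q → hz ∈ (MulAction.stabilizer G a ⊓ MulAction.stabilizer G (t • a)) → fz ∈ Q → t * (fx * gy) * t = gz * hz * t * fz →
        g' ∈ Q → h' ∈ (MulAction.stabilizer G a ⊓ MulAction.stabilizer G (t • a)) → f' ∈ Q → t * (x * y) * t = g' * h' * t * f' →
          f' = (t * hy * t)⁻¹ * fz * (t * hy * t) * fy ∧ h' = hx * hz * hy := by
  have hti : t⁻¹ = t := tinv hS
  have htt : t * t = 1 := hS.mul_self
  have e0 : t * (x * y) * t = gx * hx * (t * (fx * gy)) * hy * t * fy := by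
    calc t * (x * y) * t = (t * x * t) * (t * y * t) := by simp only [mul_assoc, tt_mul hS]
      _ = (gx * hx * t * fx) * (gy * hy * t * fy) := by rw [ex, ey]
      _ = gx * hx * (t * (fx * gy)) * hy * t * fy := by group
  have hy' := tDt hS hhy
  refine ⟨?_, ?_⟩
  · intro hz
    apply hxy
    have h1 : t * (x * y) * t ∈ stabilizer G a := by
      rw [e0, hz, mul_one]
      have e1 : gx * hx * t * hy * t * fy = gx * hx * (t * hy * t) * fy := by group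
      rw [e1]
      exact Subgroup.mul_mem _ (Subgroup.mul_mem _ (Subgroup.mul_mem _ (hS.le hgx) hhx.1) hy'.1)
        (hS.le hfy)
    have h2 : (x * y) • (t • a) = t • a := by
      have := mem_stabilizer_iff.mp h1
      rw [mul_smul, mul_smul] at this
      calc (x * y) • t • a = t • (t • (x * y) • t • a) := by rw [← mul_smul t t, htt, one_smul]
        _ = t • a := by rw [this]
    exact Q_fix_eq_one hS (ta_ne hS) (Q.mul_mem hxQ hyQ) h2
  · intro gz hz fz g' h' f' hgz hhz hfz ez hg' hh' hf' e'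
    have e1 : t * (fx * gy) = gz * hz * t * fz * t := by
      rw [← ez]; simp only [mul_assoc, htt, mul_one]
    have e2 : t * (x * y) * t = (gx * (hx * gz * hx⁻¹)) * (hx * hz * hy) * t *
        ((t * hy * t)⁻¹ * fz * (t * hy * t)⁻¹⁻¹ * fy) := by
      rw [e0, e1]
      simp only [mul_inv_rev, inv_inv, hti, mul_assoc, tt_mul hS, mul_inv_cancel_left,
        inv_mul_cancel_left]
    rw [e2] at e'
    obtain ⟨_, h3, h4⟩ := canon3_unique hS hg' hh' hf'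
      (Q.mul_mem hgx (D_normalizes hS _ hhx _ hgz))
      (Subgroup.mul_mem _ (Subgroup.mul_mem _ hhx hhz) hhy)
      (Q.mul_mem (D_normalizes hS _ (Subgroup.inv_mem _ hy') _ hfz) hfy) e'.symm
    rw [inv_inv] at h4
    exact ⟨h4, h3⟩

end Cfsg.Agent.S1166
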