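import Cfsg.Statements.S1168
-- import your own Cfsg.Agent.* helpers here
import Cfsg.Agent.S1140
import Mathlib

set_option autoImplicit false
open Cfsg

namespace Cfsg.Agent.S1168

/-- For a finite field `F` of characteristic 2: if `q : F → F` is quadratic over the prime field, i.e. `(x, y) ↦ q (x + y) + q x + q y` is additive in each variable, then `q x = Σ c_{σ,τ} σ(x) τ(x)` for some coefficients indexed by pairs of field automorphisms. -/
theorem result {F : Type*} [Field F] [Fintype F] [CharP F 2]
    (q : F → F)
    (hq : ∀ x y z : F, q (x + y + z) + q (x + y) + q (x + z) + q (y + z) + q x + q y + q z = 0) :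
    ∃ (s : Finset ((F ≃+* F) × (F ≃+* F))) (c : (F ≃+* F) × (F ≃+* F) → F),
      ∀ x : F, q x = ∑ p ∈ s, c p * (p.1 x * p.2 x) := by
  classical
  let _ : Algebra (ZMod 2) F := ZMod.algebra F 2
  have : Fact (Nat.Prime 2) := ⟨Nat.prime_two⟩
  have : Module.Finite (ZMod 2) F := Module.Finite.of_finite
  have h2 : ∀ x : F, x + x = 0 := CharTwo.add_self_eq_zero
  have hq0 : q 0 = 0 := by
    have h := hq 0 0 0
    simp only [add_zero] at h
    linear_combination h - 3 * h2 (q 0)
  have hadd : ∀ x y z : F, q (x + y + z) + q (x + y) + q z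
      = (q (x + z) + q x + q z) + (q (y + z) + q y + q z) := by
    intro x y z
    linear_combination hq x y z - h2 (q (x + z)) - h2 (q x) - h2 (q (y + z)) - h2 (q y)
      - h2 (q z)
  have hsymm : ∀ x y : F, q (x + y) + q x + q y = q (y + x) + q y + q x := by
    intro x y
    rw [add_comm y x]; ring
  let Badd : F →+ F →+ F := AddMonoidHom.mk'
    (fun x => AddMonoidHom.mk' (fun y => q (x + y) + q x + q y) (by
      intro y z
      have h := hadd y z x
      rw [hsymm x (y + z), hsymm x y, hsymm x z]
      exact h))
    (by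
      intro x y
      ext z
      exact hadd x y z)
  have hBadd : ∀ x y, Badd x y = q (x + y) + q x + q y := fun x y => rfl
  let B : LinearMap.BilinMap (ZMod 2) F F := LinearMap.mk₂ (ZMod 2) (fun x y => Badd x y)
    (fun x y z => by simp only [map_add, AddMonoidHom.add_apply])
    (fun c x y => ZMod.map_smul (Badd.flip y) c x)
    (fun x y z => map_add _ _ _)
    (fun c x y => ZMod.map_smul (Badd x) c y)
  let Q : QuadraticMap (ZMod 2) F F :=
    { toFun := q
      toFun_smul := by
        intro a x
        fin_cases a
        · show q ((0 : ZMod 2) • x) = ((0 : ZMod 2) * 0) • q x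
          rw [zero_smul, zero_mul, zero_smul, hq0]
        · show q ((1 : ZMod 2) • x) = ((1 : ZMod 2) * 1) • q x
          rw [one_smul, one_mul, one_smul]
      exists_companion' := ⟨B, fun x y => by
        show q (x + y) = q x + q y + Badd x y
        rw [hBadd]
        linear_combination - h2 (q x) - h2 (q y)⟩ }
  let bm := Module.finBasis (ZMod 2) F
  let β := Q.toBilin bm
  have hβ : ∀ x, β x x = q x := by
    intro x
    have h := QuadraticMap.toQuadraticMap_toBilin Q bm
    have h' := congrArg (fun Q' : QuadraticMap (ZMod 2) F F => Q' x) h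
    exact h'
  let βadd : F →+ F →+ F := AddMonoidHom.mk' (fun x => (β x).toAddMonoidHom)
    (fun x y => by ext z; simp)
  obtain ⟨s, c, hc⟩ := (Cfsg.Agent.S1140.result (F := F)).2.2 βadd
  refine ⟨s, c, fun x => ?_⟩
  rw [← hβ x]
  exact hc x x

end Cfsg.Agent.S1168
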