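import Cfsg.Statements.S1176
import Cfsg.Agent.Lib.Helper8.IsoInv

set_option autoImplicit false
open Cfsg

namespace Cfsg.Agent.S1176

open Cfsg.Agent.Lib.Helper8.IsoInv
open scoped commutatorElement

/-- Let x₀ be an involution of the finite group G and D its conjugacy class. Assume (a) for each x ∈ D the subgroup W(x) generated by the members of D commuting with x is a 2-group of nilpotency class at most 2, and (b) the product of two distinct commuting members of D again lies in D. Then for all x, y ∈ D, if xy has even order greater than 2, its order is 4. -/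
theorem result {G : Type*} [Group G] [Finite G] (x₀ : G) (hx₀ : orderOf x₀ = 2) (ha : ∀ x : G, IsConj x₀ x → IsPGroup 2 ↥(Subgroup.closure {y : G | IsConj x₀ y ∧ Commute y x}) ∧ ⁅⁅Subgroup.closure {y : G | IsConj x₀ y ∧ Commute y x}, Subgroup.closure {y : G | IsConj x₀ y ∧ Commute y x}⁆, Subgroup.closure {y : G | IsConj x₀ y ∧ Commute y x}⁆ = ⊥) (hb : ∀ x y : G, IsConj x₀ x → IsConj x₀ y → x ≠ y → Commute x y → IsConj x₀ (x * y)) (x y : G) (hx : IsConj x₀ x) (hy : IsConj x₀ y) (heven : Even (orderOf (x * y))) (hgt : 2 < orderOf (x * y)) : orderOf (x * y) = 4 := by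
  have h00 : x₀ * x₀ = 1 := mul_self_of_orderOf_two hx₀
  obtain ⟨c, hc⟩ := isConj_iff.mp hx
  obtain ⟨d, hd⟩ := isConj_iff.mp hy
  have hxx : x * x = 1 := by rw [← hc]; exact conj_mul_self h00 c
  have hyy : y * y = 1 := by rw [← hd]; exact conj_mul_self h00 d
  have hxi : x⁻¹ = x := inv_eq_self_of_mul_self hxx
  have hyi : y⁻¹ = y := inv_eq_self_of_mul_self hyy
  have hyx : y = (d * c⁻¹) * x * (d * c⁻¹)⁻¹ := by rw [← hc, ← hd]; group
  obtain ⟨k, hk⟩ := heven
  have hk2 : 2 ≤ k := by omega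
  obtain ⟨h, hh⟩ := exists_conj_eq_pow_mul x hxx (d * c⁻¹) k
  rw [← hyx] at hh
  have hxr : x * (x * y) * x = (x * y)⁻¹ := by
    rw [mul_inv_rev, hxi, hyi]
    calc x * (x * y) * x = (x * x) * y * x := by group
      _ = y * x := by rw [hxx, one_mul]
  have hyr : y * (x * y) * y = (x * y)⁻¹ := by
    rw [mul_inv_rev, hxi, hyi]
    calc y * (x * y) * y = y * x * (y * y) := by group
      _ = y * x := by rw [hyy, mul_one]
  set r := x * y with hr
  have hu2 : r ^ k * r ^ k = 1 := by rw [← pow_add, ← hk, pow_orderOf_eq_one]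
  have hui : (r ^ k)⁻¹ = r ^ k := inv_eq_self_of_mul_self hu2
  have hu1 : r ^ k ≠ 1 := pow_ne_one_of_lt_orderOf (by omega) (by omega)
  have hxu : x * r ^ k * x = r ^ k := by rw [conj_pow_inverted hxx hxr k, hui]
  have hyu : y * r ^ k * y = r ^ k := by rw [conj_pow_inverted hyy hyr k, hui]
  have hconj1 : IsConj x₀ (r ^ k * x) := by
    rw [isConj_iff]
    refine ⟨h * c, ?_⟩
    rw [← hh, ← hc]; group
  have hne : x ≠ r ^ k * x := by
    intro h1
    apply hu1
    calc r ^ k = r ^ k * x * x⁻¹ := by group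
      _ = x * x⁻¹ := by rw [← h1]
      _ = 1 := by group
  have hcomm : Commute x (r ^ k * x) := by
    show x * (r ^ k * x) = r ^ k * x * x
    rw [← mul_assoc, hxu, mul_assoc, hxx, mul_one]
  have hconju : IsConj x₀ (r ^ k) := by
    have := hb x (r ^ k * x) hx hconj1 hne hcomm
    rwa [← mul_assoc, hxu] at this
  obtain ⟨_, hW⟩ := ha (r ^ k) hconju
  set W := Subgroup.closure {y : G | IsConj x₀ y ∧ Commute y (r ^ k)} with hWdef
  have hxW : x ∈ W := by
    apply Subgroup.subset_closure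
    refine ⟨hx, ?_⟩
    show x * r ^ k = r ^ k * x
    calc x * r ^ k = x * r ^ k * (x * x) := by rw [hxx, mul_one]
      _ = (x * r ^ k * x) * x := by group
      _ = r ^ k * x := by rw [hxu]
  have hyW : y ∈ W := by
    apply Subgroup.subset_closure
    refine ⟨hy, ?_⟩
    show y * r ^ k = r ^ k * y
    calc y * r ^ k = y * r ^ k * (y * y) := by rw [hyy, mul_one]
      _ = (y * r ^ k * y) * y := by group
      _ = r ^ k * y := by rw [hyu]
  have h1 : ⁅⁅x, y⁆, x⁆ ∈ ⁅⁅W, W⁆, W⁆ :=
    Subgroup.commutator_mem_commutator (Subgroup.commutator_mem_commutator hxW hyW) hxW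
  rw [hW, Subgroup.mem_bot] at h1
  have h2 : ⁅x, y⁆ = r ^ 2 := by
    rw [commutatorElement_def, hxi, hyi, pow_two, hr]; group
  rw [h2, commutatorElement_def, hxi] at h1
  have h3 : x * r ^ 2 * x = (r ^ 2)⁻¹ := conj_pow_inverted hxx hxr 2
  have h4 : r ^ 4 = 1 := by
    have h5 : r ^ 2 * (x * (r ^ 2)⁻¹ * x) = 1 := by
      have : r ^ 2 * x * (r ^ 2)⁻¹ * x = r ^ 2 * (x * (r ^ 2)⁻¹ * x) := by group
      rw [← this]; exact h1
    have h6 : x * (r ^ 2)⁻¹ * x = r ^ 2 := by
      have : x * (r ^ 2)⁻¹ * x = (x * r ^ 2 * x)⁻¹ := by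
        rw [mul_inv_rev, mul_inv_rev, hxi]; group
      rw [this, h3, inv_inv]
    rw [h6, ← pow_add] at h5
    exact h5
  have h5 : orderOf r ∣ 4 := orderOf_dvd_of_pow_eq_one h4
  have h6 : orderOf r ≤ 4 := Nat.le_of_dvd (by norm_num) h5
  have h7 : orderOf r = 3 ∨ orderOf r = 4 := by omega
  rcases h7 with h7 | h7
  · rw [h7] at h5; omega
  · exact h7

end Cfsg.Agent.S1176
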