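import Cfsg.Statements.S1177
import Cfsg.Agent.Lib.Helper8.Conj

set_option autoImplicit false
open Cfsg

namespace Cfsg.Agent.S1177

open Cfsg.Agent.Lib.Helper8.Conj

theorem ti_normalizes {G : Type*} [Group G] (A : Subgroup G)
    (hTI : ∀ g : G, A.map (MulAut.conj g).toMonoidHom ⊓ A = ⊥ ∨ A.map (MulAut.conj g).toMonoidHom = A)
    (a : G) (ha : a ∈ A) (ha1 : a ≠ 1) (c : G) (hc : c * a = a * c) : ∀ x ∈ A, c * x * c⁻¹ ∈ A := by
  intro x hx
  rcases hTI c with h | h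
  · exfalso
    apply ha1
    have h1 : a ∈ A.map (MulAut.conj c).toMonoidHom ⊓ A := by
      refine ⟨?_, ha⟩
      have : a = c * a * c⁻¹ := by rw [hc]; group
      rw [this]; exact conj_mem_map_conj c ha
    rw [h] at h1
    exact (Subgroup.mem_bot).mp h1
  · exact conj_mem_of_map_conj_eq h hx

/-- Let A be a nontrivial elementary abelian 2-subgroup of a finite group G which is a T.I. set (each conjugate of A meets A trivially or equals A) and which does not commute elementwise with any conjugate of A other than A itself. Then for every a ∈ A, a ≠ 1, every conjugate of A contained in C_G(a) is equal to A (A is weakly closed in C_G(a)). -/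
theorem result {G : Type*} [Group G] [Finite G] (A : Subgroup G) (hA : Cfsg.IsElementaryAbelian 2 A) (hA1 : A ≠ ⊥) (hTI : ∀ g : G, A.map (MulAut.conj g).toMonoidHom ⊓ A = ⊥ ∨ A.map (MulAut.conj g).toMonoidHom = A) (hb : ∀ g : G, (∀ a ∈ A, ∀ b ∈ A.map (MulAut.conj g).toMonoidHom, a * b = b * a) → A.map (MulAut.conj g).toMonoidHom = A) (a : G) (ha : a ∈ A) (ha1 : a ≠ 1) (g : G) (hg : A.map (MulAut.conj g).toMonoidHom ≤ Subgroup.centralizer ({a} : Set G)) : A.map (MulAut.conj g).toMonoidHom = A := by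
  obtain ⟨hAc, hA2⟩ := hA
  have hAcomm : ∀ x ∈ A, ∀ y ∈ A, x * y = y * x := fun x hx y hy =>
    setLike_mul_comm (s := A) hx hy
  have hAsq : ∀ x ∈ A, x * x = 1 := fun x hx => by rw [← pow_two]; exact hA2 x hx
  have hAinv : ∀ x ∈ A, x⁻¹ = x := fun x hx => inv_eq_of_mul_eq_one_left (hAsq x hx)
  rcases hTI g with hdisj | h
  swap
  · exact h
  have hBmem : ∀ x : G, x ∈ A.map (MulAut.conj g).toMonoidHom ↔ g⁻¹ * x * g ∈ A := fun x => mem_map_conj
  have hBcomm : ∀ x ∈ A.map (MulAut.conj g).toMonoidHom, ∀ y ∈ A.map (MulAut.conj g).toMonoidHom,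
      x * y = y * x := by
    intro x hx y hy
    have h1 := hAcomm _ ((hBmem x).mp hx) _ ((hBmem y).mp hy)
    calc x * y = g * (g⁻¹ * x * g * (g⁻¹ * y * g)) * g⁻¹ := by group
      _ = g * (g⁻¹ * y * g * (g⁻¹ * x * g)) * g⁻¹ := by rw [h1]
      _ = y * x := by group
  have hBsq : ∀ x ∈ A.map (MulAut.conj g).toMonoidHom, x * x = 1 := by
    intro x hx
    have h1 := hAsq _ ((hBmem x).mp hx)
    calc x * x = g * (g⁻¹ * x * g * (g⁻¹ * x * g)) * g⁻¹ := by group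
      _ = 1 := by rw [h1]; group
  have hBinv : ∀ x ∈ A.map (MulAut.conj g).toMonoidHom, x⁻¹ = x :=
    fun x hx => inv_eq_of_mul_eq_one_left (hBsq x hx)
  have hTIB : ∀ b ∈ A.map (MulAut.conj g).toMonoidHom, b ≠ 1 → ∀ y : G, y * b = b * y →
      ∀ x ∈ A.map (MulAut.conj g).toMonoidHom, y * x * y⁻¹ ∈ A.map (MulAut.conj g).toMonoidHom := by
    intro b hbB hb1 y hyb x hx
    rw [hBmem]
    have h1 : g⁻¹ * b * g ≠ 1 := by
      intro h; apply hb1
      calc b = g * (g⁻¹ * b * g) * g⁻¹ := by group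
        _ = 1 := by rw [h]; group
    have h2 : (g⁻¹ * y * g) * (g⁻¹ * b * g) = (g⁻¹ * b * g) * (g⁻¹ * y * g) := by
      calc (g⁻¹ * y * g) * (g⁻¹ * b * g) = g⁻¹ * (y * b) * g := by group
        _ = g⁻¹ * (b * y) * g := by rw [hyb]
        _ = (g⁻¹ * b * g) * (g⁻¹ * y * g) := by group
    have h3 := ti_normalizes A hTI _ ((hBmem b).mp hbB) h1 _ h2 _ ((hBmem x).mp hx)
    have e : g⁻¹ * (y * x * y⁻¹) * g = (g⁻¹ * y * g) * (g⁻¹ * x * g) * (g⁻¹ * y * g)⁻¹ := by group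
    rw [e]; exact h3
  have step1 : ∀ b ∈ A.map (MulAut.conj g).toMonoidHom, ∀ x ∈ A, b * x * b⁻¹ ∈ A := by
    intro b hbB x hx
    have hba : b * a = a * b := by
      have := hg hbB
      rw [Subgroup.mem_centralizer_singleton_iff] at this
      exact this
    exact ti_normalizes A hTI a ha ha1 b hba x hx
  have hdisj' : ∀ x : G, x ∈ A.map (MulAut.conj g).toMonoidHom → x ∈ A → x = 1 := by
    intro x hxB hxA
    have : x ∈ A.map (MulAut.conj g).toMonoidHom ⊓ A := ⟨hxB, hxA⟩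
    rw [hdisj] at this
    exact Subgroup.mem_bot.mp this
  have step2 : ∀ x ∈ A, ∀ b ∈ A.map (MulAut.conj g).toMonoidHom,
      ∀ b' ∈ A.map (MulAut.conj g).toMonoidHom, (x * (b * x * b⁻¹)) * b' = b' * (x * (b * x * b⁻¹)) := by
    intro x hx b hbB b' hb'B
    have hyA : x * (b * x * b⁻¹) ∈ A := A.mul_mem hx (step1 b hbB x hx)
    by_cases hb1 : b = 1
    · subst hb1
      have : x * (1 * x * 1⁻¹) = 1 := by simpa using hAsq x hx
      rw [this]; simp
    · have hyb : (x * (b * x * b⁻¹)) * b = b * (x * (b * x * b⁻¹)) := by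
        have h1 : b * b = 1 := hBsq b hbB
        have h2 : b⁻¹ = b := hBinv b hbB
        have h3 := hAcomm x hx _ (step1 b hbB x hx)
        rw [h2] at h3 ⊢
        calc x * (b * x * b) * b = x * (b * x) * (b * b) := by group
          _ = x * (b * x) := by rw [h1, mul_one]
          _ = (b * b) * x * (b * x) := by rw [h1, one_mul]
          _ = b * ((b * x * b) * x) := by group
          _ = b * (x * (b * x * b)) := by rw [h3]
      have hyn := hTIB b hbB hb1 _ hyb b' hb'B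
      have hcB : (x * (b * x * b⁻¹)) * b' * (x * (b * x * b⁻¹))⁻¹ * b'⁻¹ ∈
          A.map (MulAut.conj g).toMonoidHom := Subgroup.mul_mem _ hyn (Subgroup.inv_mem _ hb'B)
      have hcA : (x * (b * x * b⁻¹)) * b' * (x * (b * x * b⁻¹))⁻¹ * b'⁻¹ ∈ A := by
        have := A.mul_mem hyA (step1 b' hb'B _ (A.inv_mem hyA))
        have e : (x * (b * x * b⁻¹)) * b' * (x * (b * x * b⁻¹))⁻¹ * b'⁻¹ =
            (x * (b * x * b⁻¹)) * (b' * (x * (b * x * b⁻¹))⁻¹ * b'⁻¹) := by group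
        rw [e]; exact this
      have h1 := hdisj' _ hcB hcA
      calc (x * (b * x * b⁻¹)) * b'
          = ((x * (b * x * b⁻¹)) * b' * (x * (b * x * b⁻¹))⁻¹ * b'⁻¹) * b' * (x * (b * x * b⁻¹)) := by group
        _ = b' * (x * (b * x * b⁻¹)) := by rw [h1, one_mul]
  have step3 : ∀ a₁ ∈ A, ∀ b ∈ A.map (MulAut.conj g).toMonoidHom,
      a₁ * b * a₁⁻¹ ∈ A.map (MulAut.conj g).toMonoidHom := by
    intro a₁ ha₁ b hbB
    have hcomm : ∀ a' ∈ A, ∀ z' ∈ A.map (MulAut.conj (g⁻¹ * a₁ * g)).toMonoidHom, a' * z' = z' * a' := by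
      intro a' ha' z' hz'
      have hz'' : a₁⁻¹ * (g * z' * g⁻¹) * a₁ ∈ A.map (MulAut.conj g).toMonoidHom := by
        rw [hBmem]
        have := mem_map_conj.mp hz'
        have e : g⁻¹ * (a₁⁻¹ * (g * z' * g⁻¹) * a₁) * g = (g⁻¹ * a₁ * g)⁻¹ * z' * (g⁻¹ * a₁ * g) := by group
        rw [e]; exact this
      have ha'' : g * a' * g⁻¹ ∈ A.map (MulAut.conj g).toMonoidHom := conj_mem_map_conj g ha'
      set b' := a₁⁻¹ * (g * z' * g⁻¹) * a₁ with hb'
      have hz3 : g * z' * g⁻¹ = (a₁ * (b' * a₁ * b'⁻¹)) * b' := by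
        rw [hb']
        have := hAinv a₁ ha₁
        calc g * z' * g⁻¹ = a₁ * (a₁⁻¹ * (g * z' * g⁻¹) * a₁) * a₁⁻¹ := by group
          _ = a₁ * (a₁⁻¹ * (g * z' * g⁻¹) * a₁) * a₁ := by rw [this]
          _ = _ := by group
      have h5 := step2 a₁ ha₁ b' hz'' (g * a' * g⁻¹) ha''
      have h6 := hBcomm _ ha'' _ hz''
      have h7 : (g * a' * g⁻¹) * (g * z' * g⁻¹) = (g * z' * g⁻¹) * (g * a' * g⁻¹) := by
        rw [hz3]
        calc g * a' * g⁻¹ * (a₁ * (b' * a₁ * b'⁻¹) * b')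
            = (g * a' * g⁻¹ * (a₁ * (b' * a₁ * b'⁻¹))) * b' := by group
          _ = ((a₁ * (b' * a₁ * b'⁻¹)) * (g * a' * g⁻¹)) * b' := by rw [h5]
          _ = (a₁ * (b' * a₁ * b'⁻¹)) * ((g * a' * g⁻¹) * b') := by group
          _ = (a₁ * (b' * a₁ * b'⁻¹)) * (b' * (g * a' * g⁻¹)) := by rw [h6]
          _ = a₁ * (b' * a₁ * b'⁻¹) * b' * (g * a' * g⁻¹) := by group
      calc a' * z' = g⁻¹ * ((g * a' * g⁻¹) * (g * z' * g⁻¹)) * g := by group
        _ = g⁻¹ * ((g * z' * g⁻¹) * (g * a' * g⁻¹)) * g := by rw [h7]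
        _ = z' * a' := by group
    have h8 := hb _ hcomm
    rw [hBmem]
    have h9 := conj_mem_of_map_conj_eq h8 ((hBmem b).mp hbB)
    have e : g⁻¹ * (a₁ * b * a₁⁻¹) * g = (g⁻¹ * a₁ * g) * (g⁻¹ * b * g) * (g⁻¹ * a₁ * g)⁻¹ := by group
    rw [e]; exact h9
  apply hb g
  intro a₁ ha₁ b hbB
  have hcB : a₁ * b * a₁⁻¹ * b⁻¹ ∈ A.map (MulAut.conj g).toMonoidHom :=
    Subgroup.mul_mem _ (step3 a₁ ha₁ b hbB) (Subgroup.inv_mem _ hbB)
  have hcA : a₁ * b * a₁⁻¹ * b⁻¹ ∈ A := by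
    have := A.mul_mem ha₁ (step1 b hbB _ (A.inv_mem ha₁))
    have e : a₁ * b * a₁⁻¹ * b⁻¹ = a₁ * (b * a₁⁻¹ * b⁻¹) := by group
    rw [e]; exact this
  have h1 := hdisj' _ hcB hcA
  calc a₁ * b = (a₁ * b * a₁⁻¹ * b⁻¹) * b * a₁ := by group
    _ = b * a₁ := by rw [h1, one_mul]

end Cfsg.Agent.S1177
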