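import Cfsg.Statements.S1178
import Cfsg.Agent.Lib.Helper8.Conj

set_option autoImplicit false
open Cfsg

namespace Cfsg.Agent.S1178

open Cfsg.Agent.Lib.Helper8.Conj

/-- Let A be a subgroup of a Sylow 2-subgroup S of the finite group G which is weakly closed in S. If a conjugate g A g⁻¹ commutes elementwise with A, then g A g⁻¹ = A. -/
theorem result {G : Type*} [Group G] [Finite G] (S : Sylow 2 G) (A : Subgroup G) (hW : Cfsg.IsWeaklyClosed A (S : Subgroup G)) (g : G) (hc : ∀ a ∈ A, ∀ b ∈ A.map (MulAut.conj g).toMonoidHom, a * b = b * a) : A.map (MulAut.conj g).toMonoidHom = A := by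
  have hA : IsPGroup 2 A := S.2.to_le hW.1
  have hB : IsPGroup 2 (A.map (MulAut.conj g).toMonoidHom) := isPGroup_map_conj hA g
  have hnorm : A.map (MulAut.conj g).toMonoidHom ≤ Subgroup.normalizer (A : Set G) := by
    intro b hb
    rw [Subgroup.mem_normalizer_iff]
    intro a
    have e : ∀ a ∈ A, b * a * b⁻¹ = a := by
      intro a ha
      rw [← hc a ha b hb]; group
    constructor
    · intro ha; rw [e a ha]; exact ha
    · intro ha
      have h1 : b⁻¹ * (b * a * b⁻¹) * b = b * a * b⁻¹ := by
        have := e _ ha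
        calc b⁻¹ * (b * a * b⁻¹) * b = b⁻¹ * (b * (b * a * b⁻¹) * b⁻¹) * b := by rw [this]
          _ = b * a * b⁻¹ := by group
      have h2 : b⁻¹ * (b * a * b⁻¹) * b = a := by group
      rw [← h2, h1]; exact ha
  have hsup : IsPGroup 2 (A.map (MulAut.conj g).toMonoidHom ⊔ A : Subgroup G) :=
    IsPGroup.to_sup_of_normal_right' hB hA hnorm
  obtain ⟨x, hx⟩ := sylow_exists_conj_le S hsup
  have h1 : A.map (MulAut.conj x).toMonoidHom = A := by
    apply hW.2
    exact le_trans (Subgroup.map_mono le_sup_right) hx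
  have h2 : A.map (MulAut.conj (x * g)).toMonoidHom = A := by
    apply hW.2
    rw [map_conj_mul]
    exact le_trans (Subgroup.map_mono le_sup_left) hx
  rw [map_conj_mul] at h2
  have h3 := congrArg (fun K : Subgroup G => K.map (MulAut.conj x⁻¹).toMonoidHom) (h2.trans h1.symm)
  simp only [map_conj_inv_map_conj] at h3
  exact h3

end Cfsg.Agent.S1178
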