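import Cfsg.Statements.S1185
import Cfsg.Agent.Lib.Helper8.IsoInv

set_option autoImplicit false
open Cfsg

namespace Cfsg.Agent.S1185

open Cfsg.Agent.Lib.Helper8.IsoInv

/-- Let z be an isolated involution of the finite group G with centralizer C. Then for every g ∈ G there is exactly one element k in the coset gC that has odd order and is inverted by z. -/
theorem result {G : Type*} [Group G] [Finite G] (z : G) (hz : Cfsg.IsIsolatedInvolution z) (g : G) : ∃! k : G, (Odd (orderOf k) ∧ z * k * z⁻¹ = k⁻¹) ∧ g⁻¹ * k ∈ Subgroup.centralizer ({z} : Set G) := by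
  have hzz : z * z = 1 := mul_self_of_orderOf_two hz.1
  have hzi : z⁻¹ = z := inv_eq_self_of_mul_self hzz
  have key : ∀ k : G, g⁻¹ * k ∈ Subgroup.centralizer ({z} : Set G) ↔ k * z * k⁻¹ = g * z * g⁻¹ := by
    intro k
    rw [Subgroup.mem_centralizer_singleton_iff]
    constructor
    · intro h
      have : k * z * k⁻¹ = g * (g⁻¹ * k * z) * k⁻¹ := by group
      rw [this, h]; group
    · intro h
      have : g⁻¹ * k * z = g⁻¹ * (k * z * k⁻¹) * k := by group
      rw [this, h]; group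
  obtain ⟨m, hm⟩ := exists_pow_conj hz g
  have hodd := odd_orderOf_mul_conj hz g
  have hinv := mul_conj_inverted hzz g
  refine ⟨(z * (g * z * g⁻¹)) ^ m, ⟨⟨?_, ?_⟩, ?_⟩, ?_⟩
  · exact Odd.of_dvd_nat hodd (orderOf_pow_dvd m)
  · rw [hzi]; exact conj_pow_inverted hzz hinv m
  · rw [key]; exact hm
  · rintro k ⟨⟨hk1, hk2⟩, hk3⟩
    rw [key] at hk3
    apply eq_of_sq_eq_of_odd hk1 (Odd.of_dvd_nat hodd (orderOf_pow_dvd m))
    have e1 : ∀ k : G, z * k * z⁻¹ = k⁻¹ → k * z * k⁻¹ = k ^ 2 * z := by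
      intro k hk
      have : z * k⁻¹ * z⁻¹ = k := by
        have : z * k⁻¹ * z⁻¹ = (z * k * z⁻¹)⁻¹ := by group
        rw [this, hk, inv_inv]
      calc k * z * k⁻¹ = k * (z * k⁻¹ * z⁻¹) * z := by group
        _ = k ^ 2 * z := by rw [this, pow_two]
    have e2 := e1 k hk2
    have e3 := e1 ((z * (g * z * g⁻¹)) ^ m) (by rw [hzi]; exact conj_pow_inverted hzz hinv m)
    rw [hk3] at e2
    rw [hm] at e3
    exact mul_right_cancel (e2.symm.trans e3)

end Cfsg.Agent.S1185
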