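import Cfsg.Statements.S1224
import Cfsg.Agent.Lib.Helper8.SE

set_option autoImplicit false
open Cfsg

namespace Cfsg.Agent.S1224

open Cfsg.Agent.Lib.Helper8.IsoInv Cfsg.Agent.Lib.Helper8.SE

theorem smul_mk_eq_iff {G : Type*} [Group G] (H : Subgroup G) (i g₁ g₂ : G) :
    i • (QuotientGroup.mk g₁ : G ⧸ H) = QuotientGroup.mk g₂ ↔ g₂⁻¹ * i * g₁ ∈ H := by
  have e : i • (QuotientGroup.mk g₁ : G ⧸ H) = QuotientGroup.mk (i * g₁) := rfl
  rw [e, QuotientGroup.eq]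
  constructor
  · intro h
    have := H.inv_mem h
    have e2 : ((i * g₁)⁻¹ * g₂)⁻¹ = g₂⁻¹ * i * g₁ := by group
    rwa [e2] at this
  · intro h
    have := H.inv_mem h
    have e2 : (g₂⁻¹ * i * g₁)⁻¹ = (i * g₁)⁻¹ * g₂ := by group
    rwa [e2] at this

/-- Let H be a strongly embedded subgroup of the finite group G and x ≠ y two cosets in G/H. Then the number of involutions i of G with i • x = y equals the number of involutions lying in H. -/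
theorem result {G : Type*} [Group G] [Finite G] (H : Subgroup G) (hH : Cfsg.IsStronglyEmbedded H) (x y : G ⧸ H) (hxy : x ≠ y) : Nat.card {i : G // orderOf i = 2 ∧ i • x = y} = Nat.card {t : G // orderOf t = 2 ∧ t ∈ H} := by
  obtain ⟨g₁, rfl⟩ := QuotientGroup.mk_surjective x
  obtain ⟨g₂, rfl⟩ := QuotientGroup.mk_surjective y
  have hne : g₁⁻¹ * g₂ ∉ H := by
    intro h
    exact hxy (QuotientGroup.eq.mpr h)
  obtain ⟨z₀, hz₀H, hz₀⟩ := exists_invol_mem hH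
  have hz₁ : orderOf (g₁ * z₀ * g₁⁻¹) = 2 := by rw [orderOf_conj_eq]; exact hz₀
  have hz₁fix : g₁⁻¹ * (g₁ * z₀ * g₁⁻¹) * g₁ ∈ H := by
    have : g₁⁻¹ * (g₁ * z₀ * g₁⁻¹) * g₁ = z₀ := by group
    rw [this]; exact hz₀H
  let f : {i : G // orderOf i = 2 ∧ i • (QuotientGroup.mk g₁ : G ⧸ H) = QuotientGroup.mk g₂} →
      {t : G // orderOf t = 2 ∧ t ∈ H} := fun i =>
    ⟨g₂⁻¹ * ((i : G) * (g₁ * z₀ * g₁⁻¹) * (i : G)⁻¹) * g₂, by
      have h1 : g₂⁻¹ * (i : G) * g₁ ∈ H := (smul_mk_eq_iff H _ _ _).mp i.2.2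
      refine ⟨?_, ?_⟩
      · have := orderOf_conj_eq g₂⁻¹ ((i : G) * (g₁ * z₀ * g₁⁻¹) * (i : G)⁻¹)
        rw [inv_inv] at this
        rw [this, orderOf_conj_eq]; exact hz₁
      · have e : g₂⁻¹ * ((i : G) * (g₁ * z₀ * g₁⁻¹) * (i : G)⁻¹) * g₂ =
            (g₂⁻¹ * (i : G) * g₁) * z₀ * (g₂⁻¹ * (i : G) * g₁)⁻¹ := by group
        rw [e]
        exact H.mul_mem (H.mul_mem h1 hz₀H) (H.inv_mem h1)⟩
  have hf : Function.Bijective f := by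
    constructor
    · rintro ⟨i, hi, hix⟩ ⟨i', hi', hix'⟩ h
      have h1 : g₂⁻¹ * (i * (g₁ * z₀ * g₁⁻¹) * i⁻¹) * g₂ = g₂⁻¹ * (i' * (g₁ * z₀ * g₁⁻¹) * i'⁻¹) * g₂ :=
        congrArg Subtype.val h
      have h2 : i * (g₁ * z₀ * g₁⁻¹) * i⁻¹ = i' * (g₁ * z₀ * g₁⁻¹) * i'⁻¹ :=
        mul_left_cancel (mul_right_cancel h1)
      have := swap_unique hH hz₁ hi hi' hz₁fix ((smul_mk_eq_iff H _ _ _).mp hix)
        ((smul_mk_eq_iff H _ _ _).mp hix') hne h2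
      exact Subtype.ext this
    · rintro ⟨t, ht, htH⟩
      have hz' : orderOf (g₂ * t * g₂⁻¹) = 2 := by rw [orderOf_conj_eq]; exact ht
      have hz'fix : g₂⁻¹ * (g₂ * t * g₂⁻¹) * g₂ ∈ H := by
        have : g₂⁻¹ * (g₂ * t * g₂⁻¹) * g₂ = t := by group
        rw [this]; exact htH
      obtain ⟨w, hw, hwx, hwz⟩ := exists_swap hH hz₁ hz' hz₁fix hz'fix hne
      refine ⟨⟨w, hw, (smul_mk_eq_iff H _ _ _).mpr hwx⟩, ?_⟩
      apply Subtype.ext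
      show g₂⁻¹ * (w * (g₁ * z₀ * g₁⁻¹) * w⁻¹) * g₂ = t
      rw [hwz]; group
  exact Nat.card_congr (Equiv.ofBijective f hf)

end Cfsg.Agent.S1224
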