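import Cfsg.Statements.S1228
-- import your own Cfsg.Agent.* helpers here
import Mathlib
import Cfsg.Agent.Lib.Helper8.CIT3

set_option autoImplicit false
open Cfsg

namespace Cfsg.Agent.S1228

open Cfsg.Agent.Lib.Helper8.CIT2 Cfsg.Agent.Lib.Helper8.CIT3

/-- Let G be a finite group with a Sylow 2-subgroup T that is neither cyclic nor normal, such that the centralizer of every involution is an elementary abelian 2-group; put H = N_G(T), let u be an involution outside H and D = H ∩ uHu⁻¹. Then N_G(D) = D ⊔ ⟨u⟩, and a coset gH is fixed by every element of D exactly when gH = H or gH = uH. -/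
theorem result {G : Type*} [Group G] [Finite G] (T : Sylow 2 G) (hnc : ¬ IsCyclic (T : Subgroup G)) (hnn : ¬ (T : Subgroup G).Normal) (hC : ∀ t : G, orderOf t = 2 → IsMulCommutative (Subgroup.centralizer ({t} : Set G)) ∧ ∀ c ∈ Subgroup.centralizer ({t} : Set G), c ^ 2 = 1) (u : G) (hu : orderOf u = 2) (huH : u ∉ Subgroup.normalizer ((T : Subgroup G) : Set G)) : Subgroup.normalizer ((Subgroup.normalizer ((T : Subgroup G) : Set G) ⊓ (Subgroup.normalizer ((T : Subgroup G) : Set G)).map (MulAut.conj u).toMonoidHom : Subgroup G) : Set G) = (Subgroup.normalizer ((T : Subgroup G) : Set G) ⊓ (Subgroup.normalizer ((T : Subgroup G) : Set G)).map (MulAut.conj u).toMonoidHom) ⊔ Subgroup.zpowers u ∧ ∀ g : G, ((∀ d ∈ Subgroup.normalizer ((T : Subgroup G) : Set G) ⊓ (Subgroup.normalizer ((T : Subgroup G) : Set G)).map (MulAut.conj u).toMonoidHom, d • (QuotientGroup.mk g : G ⧸ Subgroup.normalizer ((T : Subgroup G) : Set G)) = QuotientGroup.mk g) ↔ (QuotientGroup.mk g : G ⧸ Subgroup.normalizer ((T : Subgroup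 G) : Set G)) = QuotientGroup.mk 1 ∨ (QuotientGroup.mk g : G ⧸ Subgroup.normalizer ((T : Subgroup G) : Set G)) = QuotientGroup.mk u) := by
  refine ⟨normalizer_DD T hnc hnn hC hu huH, ?_⟩
  intro g
  have key : ∀ d : G, d • (QuotientGroup.mk g : G ⧸ Subgroup.normalizer ((T : Subgroup G) : Set G))
      = QuotientGroup.mk g ↔ g⁻¹ * d⁻¹ * g ∈ NT T := by
    intro d
    rw [MulAction.Quotient.smul_mk, QuotientGroup.eq, smul_eq_mul]
    have e : (d * g)⁻¹ * g = g⁻¹ * d⁻¹ * g := by group
    rw [e]
  constructor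
  · intro h
    have hfix : ∀ d ∈ DD T u, g⁻¹ * d * g ∈ NT T := by
      intro d hd
      have h1 := (key d⁻¹).mp (h d⁻¹ (Subgroup.inv_mem _ hd))
      rwa [inv_inv] at h1
    rcases fix_DD T hnc hnn hC hu huH hfix with h1 | h1
    · left
      rw [QuotientGroup.eq, mul_one]
      exact Subgroup.inv_mem _ h1
    · right
      rw [QuotientGroup.eq]
      have e : g⁻¹ * u = (u⁻¹ * g)⁻¹ := by group
      rw [e]
      exact Subgroup.inv_mem _ h1
  · rintro (h | h)
    · intro d hd
      rw [key]
      have hg : g ∈ NT T := by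
        rw [QuotientGroup.eq, mul_one] at h
        have h2 := Subgroup.inv_mem _ h
        rw [inv_inv] at h2
        exact h2
      exact Subgroup.mul_mem _ (Subgroup.mul_mem _ (Subgroup.inv_mem _ hg)
        (Subgroup.inv_mem _ (DD_le T u hd))) hg
    · intro d hd
      rw [h, MulAction.Quotient.smul_mk, QuotientGroup.eq, smul_eq_mul]
      have e : (d * u)⁻¹ * u = u⁻¹ * d⁻¹ * u := by group
      rw [e]
      exact ((mem_DD_iff T).mp (Subgroup.inv_mem _ hd)).2

end Cfsg.Agent.S1228
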