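import Cfsg.Statements.S1335
import Mathlib

set_option autoImplicit false
open Cfsg

namespace Cfsg.Agent.S1335

theorem pRankLE_of_injective {A B : Type*} [Group A] [Group B] (p k : ℕ) (f : A →* B)
    (hf : Function.Injective f) (h : Cfsg.PRankLE p k B) : Cfsg.PRankLE p k A := by
  intro A' hc hexp
  have h1 := h (A'.map f) ?_ ?_
  · rwa [Nat.card_congr (A'.equivMapOfInjective f hf).toEquiv]
  · constructor
    constructor
    rintro ⟨_, a, ha, rfl⟩ ⟨_, b, hb, rfl⟩
    apply Subtype.ext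
    show f a * f b = f b * f a
    have : (⟨a, ha⟩ : A') * ⟨b, hb⟩ = ⟨b, hb⟩ * ⟨a, ha⟩ := mul_comm' _ _
    have h2 : a * b = b * a := congrArg Subtype.val this
    rw [← map_mul, ← map_mul, h2]
  · rintro _ ⟨a, ha, rfl⟩
    rw [← map_pow, hexp a ha, map_one]

/-- Let H be a subgroup of the finite group G, p a prime, k ≥ 1, P a Sylow p-subgroup of H of p-rank at least k, and suppose N_G(X) ≤ H for every subgroup X ≤ P of p-rank at least k. Then P is a Sylow p-subgroup of G. -/
theorem result {G : Type*} [Group G] [Finite G] {p : ℕ} [Fact p.Prime] (k : ℕ) (hk : 1 ≤ k) (H : Subgroup G) (P : Sylow p ↥H) (hP : ¬ Cfsg.PRankLE p (k - 1) ↥(P : Subgroup ↥H)) (hΓ : (∀ X : Subgroup G, X ≤ (P : Subgroup ↥H).map H.subtype → ¬ Cfsg.PRankLE p (k - 1) ↥X → Subgroup.normalizer (X : Set G) ≤ H)) : ∃ Q : Sylow p G, (Q : Subgroup G) = (P : Subgroup ↥H).map H.subtype := by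
  set P' : Subgroup G := (P : Subgroup ↥H).map H.subtype with hP'
  have hP'p : IsPGroup p P' := P.isPGroup'.map H.subtype
  have hP'H : P' ≤ H := by
    rintro _ ⟨x, _, rfl⟩
    exact x.2
  have hrank : ¬ Cfsg.PRankLE p (k - 1) ↥P' := by
    intro h
    apply hP
    let f : ↥(P : Subgroup ↥H) →* ↥P' :=
      { toFun := fun x => ⟨H.subtype x.1, Subgroup.mem_map_of_mem _ x.2⟩
        map_one' := rfl
        map_mul' := fun _ _ => rfl }
    refine pRankLE_of_injective p (k - 1) f ?_ h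
    intro x y hxy
    have h1 : (H.subtype x.1 : G) = H.subtype y.1 := congrArg (fun z : ↥P' => (z : G)) hxy
    exact Subtype.ext (Subtype.ext h1)
  have hN : Subgroup.normalizer (P' : Set G) ≤ H := hΓ P' le_rfl hrank
  obtain ⟨Q, hQ⟩ := hP'p.exists_le_sylow
  refine ⟨Q, ?_⟩
  by_contra hne
  have hlt : P'.subgroupOf Q < ⊤ := by
    rw [lt_top_iff_ne_top]
    intro h
    apply hne
    rw [Subgroup.subgroupOf_eq_top] at h
    exact le_antisymm h hQ
  have : Group.IsNilpotent ↥(Q : Subgroup G) := Q.isPGroup'.isNilpotent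
  have hnc := Group.normalizerCondition_of_isNilpotent (G := ↥(Q : Subgroup G)) (P'.subgroupOf Q) hlt
  rw [← Subgroup.subgroupOf_normalizer_eq hQ] at hnc
  obtain ⟨y, hy1, hy2⟩ := SetLike.exists_of_lt hnc
  rw [Subgroup.mem_subgroupOf] at hy1 hy2
  set R : Subgroup G := Subgroup.normalizer (P' : Set G) ⊓ Q with hR
  have hRp : IsPGroup p R := Q.isPGroup'.to_le inf_le_right
  have hRH : R ≤ H := inf_le_left.trans hN
  have hPR : P' ≤ R := le_inf Subgroup.le_normalizer hQ
  have hRp' : IsPGroup p (R.subgroupOf H) := hRp.comap_subtype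
  have hle : (P : Subgroup ↥H) ≤ R.subgroupOf H := by
    intro x hx
    rw [Subgroup.mem_subgroupOf]
    exact hPR (Subgroup.mem_map_of_mem _ hx)
  have heq := P.is_maximal' hRp' hle
  have hyR : (y : G) ∈ R := ⟨hy1, y.2⟩
  have : (⟨(y : G), hRH hyR⟩ : ↥H) ∈ R.subgroupOf H := by
    rw [Subgroup.mem_subgroupOf]; exact hyR
  rw [heq] at this
  exact hy2 (Subgroup.mem_map_of_mem H.subtype this)

end Cfsg.Agent.S1335
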