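import Cfsg.Statements.S1231
-- import your own Cfsg.Agent.* helpers here
import Mathlib
import Cfsg.Agent.S1335
import Cfsg.Agent.Lib.Helper8.Conj

set_option autoImplicit false
open Cfsg

namespace Cfsg.Agent.S1231

open Cfsg.Agent.Lib.Helper8.Conj

theorem pRankLE_of_le {G : Type*} [Group G] {p k : ℕ} {A B : Subgroup G} (h : A ≤ B)
    (hB : Cfsg.PRankLE p k ↥B) : Cfsg.PRankLE p k ↥A :=
  Cfsg.Agent.S1335.pRankLE_of_injective p k (Subgroup.inclusion h) (Subgroup.inclusion_injective h) hB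

theorem pRankLE_of_map_conj {G : Type*} [Group G] {p k : ℕ} (A : Subgroup G) (g : G)
    (h : Cfsg.PRankLE p k ↥(A.map (MulAut.conj g).toMonoidHom)) : Cfsg.PRankLE p k ↥A :=
  Cfsg.Agent.S1335.pRankLE_of_injective p k
    (A.equivMapOfInjective _ (MulAut.conj g).injective).toMonoidHom (MulEquiv.injective _) h

theorem pRankLE_of_map_subtype {G : Type*} [Group G] {p k : ℕ} (K : Subgroup G) (Q : Subgroup ↥K)
    (h : Cfsg.PRankLE p k ↥(Q.map K.subtype)) : Cfsg.PRankLE p k ↥Q :=
  Cfsg.Agent.S1335.pRankLE_of_injective p k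
    (Q.equivMapOfInjective _ K.subtype_injective).toMonoidHom (MulEquiv.injective _) h

theorem not_pRankLE_of_elem {X : Type*} [Group X] {p k : ℕ} (A : Subgroup X)
    (hc : IsMulCommutative A) (he : ∀ a ∈ A, a ^ p = 1) (hlt : p ^ k < Nat.card A) :
    ¬ Cfsg.PRankLE p k ↥A := by
  intro h
  have h1 := h ⊤ ⟨⟨fun a b => Subtype.ext (mul_comm' a.1 b.1)⟩⟩
    (fun a _ => Subtype.ext (he a.1 a.2))
  rw [Subgroup.card_top] at h1
  omega

theorem conj_mem_of_normalizer_le {G : Type*} [Group G] {X H : Subgroup G} {c : G}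
    (h : Subgroup.normalizer ((X.map (MulAut.conj c).toMonoidHom : Subgroup G) : Set G) ≤ H)
    {n : G} (hn : n ∈ Subgroup.normalizer (X : Set G)) : c * n * c⁻¹ ∈ H := by
  apply h
  rw [mem_normalizer_iff_map_conj] at hn ⊢
  rw [← map_conj_mul]
  have e : c * n * c⁻¹ * c = c * n := by group
  rw [e, map_conj_mul, hn]

/-- Let H be a subgroup of the finite group G, p a prime, k ≥ 1, and P a Sylow p-subgroup of H whose p-rank is at least k. Then N_G(X) ≤ H for every subgroup X of P of p-rank at least k if and only if H ∩ gHg⁻¹ has p-rank less than k for every g ∉ H. -/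
theorem result {G : Type*} [Group G] [Finite G] {p : ℕ} [Fact p.Prime] (k : ℕ) (hk : 1 ≤ k) (H : Subgroup G) (P : Sylow p ↥H) (hP : ¬ Cfsg.PRankLE p (k - 1) ↥(P : Subgroup ↥H)) : (∀ X : Subgroup G, X ≤ (P : Subgroup ↥H).map H.subtype → ¬ Cfsg.PRankLE p (k - 1) ↥X → Subgroup.normalizer (X : Set G) ≤ H) ↔ (∀ g : G, g ∉ H → Cfsg.PRankLE p (k - 1) ↥(H ⊓ H.map (MulAut.conj g).toMonoidHom)) := by
  have hP'H : (P : Subgroup ↥H).map H.subtype ≤ H := Subgroup.map_subtype_le _
  have hP'p : IsPGroup p ((P : Subgroup ↥H).map H.subtype) := P.2.map _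
  have hP'r : ¬ Cfsg.PRankLE p (k - 1) ↥((P : Subgroup ↥H).map H.subtype) :=
    fun h => hP (pRankLE_of_map_subtype H _ h)
  constructor
  · intro hΓ g hg
    by_contra hrk
    set K : Subgroup G := H ⊓ H.map (MulAut.conj g).toMonoidHom with hKdef
    have hKH : K ≤ H := inf_le_left
    have hKg : K ≤ H.map (MulAut.conj g).toMonoidHom := inf_le_right
    obtain ⟨Q⟩ : Nonempty (Sylow p ↥K) := inferInstance
    -- rank of Q
    have hQr : ¬ Cfsg.PRankLE p (k - 1) ↥(Q : Subgroup ↥K) := by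
      intro hQ
      apply hrk
      intro A hc he
      by_contra hlt
      push Not at hlt
      have hAp : IsPGroup p A := by
        intro a
        refine ⟨1, ?_⟩
        rw [pow_one]
        exact Subtype.ext (he a.1 a.2)
      obtain ⟨x, hx⟩ := sylow_exists_conj_le Q hAp
      exact not_pRankLE_of_elem A hc he hlt (pRankLE_of_map_conj A x (pRankLE_of_le hx hQ))
    -- the normalizer condition for K
    have hΓK : ∀ X : Subgroup G, X ≤ (Q : Subgroup ↥K).map K.subtype →
        ¬ Cfsg.PRankLE p (k - 1) ↥X → Subgroup.normalizer (X : Set G) ≤ K := by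
      intro X hXQ hXr n hn
      have hXK : X ≤ K := hXQ.trans (Subgroup.map_subtype_le _)
      have hXp : IsPGroup p X := (Q.2.map K.subtype).to_le hXQ
      rw [hKdef, Subgroup.mem_inf]
      constructor
      · obtain ⟨h, hh, hle⟩ := sylow_subtype_exists_conj_le P (hXK.trans hKH) hXp
        have h1 := hΓ _ hle (fun hr => hXr (pRankLE_of_map_conj X h hr))
        have h2 := conj_mem_of_normalizer_le h1 hn
        have e : n = h⁻¹ * (h * n * h⁻¹) * h := by group
        rw [e]
        exact H.mul_mem (H.mul_mem (H.inv_mem hh) h2) hh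
      · have hXg : X.map (MulAut.conj g⁻¹).toMonoidHom ≤ H := by
          rw [map_conj_le_iff]
          intro a ha
          have := mem_map_conj.mp (hKg (hXK ha))
          rwa [inv_inv]
        obtain ⟨h, hh, hle⟩ := sylow_subtype_exists_conj_le P hXg (isPGroup_map_conj hXp g⁻¹)
        have h1 := hΓ _ hle (fun hr => hXr (pRankLE_of_map_conj X g⁻¹ (pRankLE_of_map_conj _ h hr)))
        rw [← map_conj_mul] at h1
        have h2 := conj_mem_of_normalizer_le h1 hn
        rw [mem_map_conj]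
        have e : g⁻¹ * n * g = h⁻¹ * (h * g⁻¹ * n * (h * g⁻¹)⁻¹) * h := by group
        rw [e]
        exact H.mul_mem (H.mul_mem (H.inv_mem hh) h2) hh
    obtain ⟨Q₀, hQ₀⟩ := Cfsg.Agent.S1335.result k hk K Q hQr hΓK
    obtain ⟨P₀, hP₀⟩ := Cfsg.Agent.S1335.result k hk H P hP hΓ
    set Q' : Subgroup G := (Q : Subgroup ↥K).map K.subtype with hQ'def
    set P' : Subgroup G := (P : Subgroup ↥H).map H.subtype with hP'def
    have hQ'K : Q' ≤ K := Subgroup.map_subtype_le _
    have hQ'p : IsPGroup p Q' := Q.2.map _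
    have hcard : Nat.card Q' = Nat.card P' := by
      rw [← hQ₀, ← hP₀]
      exact Sylow.card_eq_multiplicity Q₀ |>.trans (Sylow.card_eq_multiplicity P₀).symm
    obtain ⟨h, hh, hle⟩ := sylow_subtype_exists_conj_le P (hQ'K.trans hKH) hQ'p
    have heq1 : Q'.map (MulAut.conj h).toMonoidHom = P' := by
      apply Subgroup.eq_of_le_of_card_ge hle
      rw [card_map_conj, hcard]
    have hQg : Q'.map (MulAut.conj g⁻¹).toMonoidHom ≤ H := by
      rw [map_conj_le_iff]
      intro a ha
      have := mem_map_conj.mp (hKg (hQ'K ha))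
      rwa [inv_inv]
    obtain ⟨h', hh', hle'⟩ := sylow_subtype_exists_conj_le P hQg (isPGroup_map_conj hQ'p g⁻¹)
    have heq2 : (Q'.map (MulAut.conj g⁻¹).toMonoidHom).map (MulAut.conj h').toMonoidHom = P' := by
      apply Subgroup.eq_of_le_of_card_ge hle'
      rw [card_map_conj, card_map_conj, hcard]
    have hx : h' * g⁻¹ * h⁻¹ ∈ Subgroup.normalizer (P' : Set G) := by
      rw [mem_normalizer_iff_map_conj]
      conv_lhs => rw [← heq1]
      rw [← map_conj_mul]
      have e : h' * g⁻¹ * h⁻¹ * h = h' * g⁻¹ := by group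
      rw [e, map_conj_mul, heq2]
    have hxH : h' * g⁻¹ * h⁻¹ ∈ H := hΓ P' le_rfl hP'r hx
    apply hg
    have e : g = h⁻¹ * (h' * g⁻¹ * h⁻¹)⁻¹ * h' := by group
    rw [e]
    exact H.mul_mem (H.mul_mem (H.inv_mem hh) (H.inv_mem hxH)) hh'
  · intro hK X hX hXr n hn
    by_contra hnH
    apply hXr
    refine pRankLE_of_le ?_ (hK n hnH)
    rw [le_inf_iff]
    refine ⟨hX.trans hP'H, ?_⟩
    have h1 : X.map (MulAut.conj n).toMonoidHom = X := mem_normalizer_iff_map_conj.mp hn
    rw [← h1]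
    exact Subgroup.map_mono (hX.trans hP'H)

end Cfsg.Agent.S1231
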