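import Cfsg.Statements.S1241
import Mathlib
import Cfsg.Agent.Lib.Helper8.TrCtl

set_option autoImplicit false
open Cfsg

namespace Cfsg.Agent.S1241

open Cfsg.Agent.Lib.Helper8.TrCtl
open scoped IsMulCommutative

/-- Let G be a finite group, p a prime, H a subgroup of index prime to p, K a subgroup of H normal in H with H/K commutative, and g ∈ H ∖ K an element of p-power order such that for all integers m and all a ∈ G with a g^m a⁻¹ ∈ H one has a g^m a⁻¹ ∈ g^m K. Then g ∉ G'. -/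
theorem result {G : Type*} [Group G] [Finite G] {p : ℕ} [Fact p.Prime] (H K : Subgroup G) (hHK : K ≤ H) (hKn : (K.subgroupOf H).Normal) (hab : ∀ x ∈ H, ∀ y ∈ H, x * y * x⁻¹ * y⁻¹ ∈ K) (hidx : Nat.Coprime p H.index) (g : G) (hgH : g ∈ H) (hgK : g ∉ K) (hgp : ∃ k : ℕ, orderOf g = p ^ k) (hctrl : ∀ (m : ℤ) (a : G), a * g ^ m * a⁻¹ ∈ H → (a * g ^ m * a⁻¹) * (g ^ m)⁻¹ ∈ K) : g ∉ commutator G := by
  intro hgc
  have hcomm : commutator ↥H ≤ K.subgroupOf H := by
    rw [commutator_def, Subgroup.commutator_le]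
    intro x _ y _
    rw [Subgroup.mem_subgroupOf]
    exact hab x x.2 y y.2
  haveI : IsMulCommutative (↥H ⧸ K.subgroupOf H) :=
    Subgroup.Normal.quotient_commutative_iff_commutator_le.mpr hcomm
  have key : ∀ (n : ℕ) (a : G) (h : a⁻¹ * ((⟨g, hgH⟩ : H) : G) ^ n * a ∈ H),
      (QuotientGroup.mk' (K.subgroupOf H)) ⟨a⁻¹ * ((⟨g, hgH⟩ : H) : G) ^ n * a, h⟩ =
        (QuotientGroup.mk' (K.subgroupOf H)) ((⟨g, hgH⟩ : H) ^ n) := by
    intro n a h
    have h1 := hctrl (n : ℤ) a⁻¹ (by rw [inv_inv, zpow_natCast]; exact h)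
    rw [inv_inv, zpow_natCast] at h1
    have h2 : (⟨a⁻¹ * g ^ n * a, h⟩ : H) * ((⟨g, hgH⟩ : H) ^ n)⁻¹ ∈ K.subgroupOf H := by
      rw [Subgroup.mem_subgroupOf]
      exact h1
    have h3 := (QuotientGroup.eq_one_iff _).mpr h2
    rw [QuotientGroup.mk_mul, QuotientGroup.mk_inv, mul_inv_eq_one] at h3
    exact h3
  have hV := transfer_eq_pow_of (QuotientGroup.mk' (K.subgroupOf H)) (⟨g, hgH⟩ : H) key
  have hker : MonoidHom.transfer (QuotientGroup.mk' (K.subgroupOf H)) g = 1 := by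
    have := Abelianization.commutator_subset_ker
      (MonoidHom.transfer (QuotientGroup.mk' (K.subgroupOf H))) hgc
    exact this
  have h1 : (QuotientGroup.mk' (K.subgroupOf H)) (⟨g, hgH⟩ : H) ^ H.index = 1 := by
    rw [← hV]; exact hker
  obtain ⟨k, hk⟩ := hgp
  have h2 : (QuotientGroup.mk' (K.subgroupOf H)) (⟨g, hgH⟩ : H) ^ (p ^ k) = 1 := by
    rw [← map_pow]
    have : (⟨g, hgH⟩ : H) ^ (p ^ k) = 1 := by
      apply Subtype.ext
      show g ^ (p ^ k) = 1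
      rw [← hk]; exact pow_orderOf_eq_one g
    rw [this, map_one]
  have h3 : (QuotientGroup.mk' (K.subgroupOf H)) (⟨g, hgH⟩ : H) = 1 :=
    eq_one_of_pow_coprime h1 h2 (Nat.Coprime.pow_right k hidx.symm)
  have h4 := (QuotientGroup.eq_one_iff _).mp h3
  rw [Subgroup.mem_subgroupOf] at h4
  exact hgK h4

end Cfsg.Agent.S1241
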