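import Cfsg.Statements.S1243
import Cfsg.Agent.Lib.Helper8.Conj

set_option autoImplicit false
open Cfsg

namespace Cfsg.Agent.S1243

open Cfsg.Agent.Lib.Helper8.Conj

/-- Let T be a Sylow p-subgroup of the finite group G and W ≤ T a subgroup weakly closed in T. If d and g d g⁻¹ both centralize W, then g d g⁻¹ = h d h⁻¹ for some h ∈ N_G(W). -/
theorem result {G : Type*} [Group G] [Finite G] {p : ℕ} [Fact p.Prime] (T : Sylow p G) (W : Subgroup G) (hW : Cfsg.IsWeaklyClosed W (T : Subgroup G)) (d g : G) (hd : d ∈ Subgroup.centralizer (W : Set G)) (hgd : g * d * g⁻¹ ∈ Subgroup.centralizer (W : Set G)) : ∃ h ∈ Subgroup.normalizer (W : Set G), h * d * h⁻¹ = g * d * g⁻¹ := by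
  have hWp : IsPGroup p W := T.2.to_le hW.1
  have hW'p : IsPGroup p (W.map (MulAut.conj g⁻¹).toMonoidHom) := isPGroup_map_conj hWp _
  have hWC : W ≤ Subgroup.centralizer ({d} : Set G) := by
    intro w hw
    rw [Subgroup.mem_centralizer_singleton_iff]
    exact ((Subgroup.mem_centralizer_iff.mp hd) w hw)
  have hW'C : W.map (MulAut.conj g⁻¹).toMonoidHom ≤ Subgroup.centralizer ({d} : Set G) := by
    rw [map_conj_le_iff]
    intro w hw
    rw [Subgroup.mem_centralizer_singleton_iff, inv_inv]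
    have h1 : w * (g * d * g⁻¹) = (g * d * g⁻¹) * w := (Subgroup.mem_centralizer_iff.mp hgd) w hw
    calc g⁻¹ * w * g * d = g⁻¹ * (w * (g * d * g⁻¹)) * g := by group
      _ = g⁻¹ * ((g * d * g⁻¹) * w) * g := by rw [h1]
      _ = d * (g⁻¹ * w * g) := by group
  obtain ⟨c, hc, R, _, hRp, hWR, hW'R⟩ := exists_conj_sup_isPGroup _ hWC hW'C hWp hW'p
  obtain ⟨x, hx⟩ := sylow_exists_conj_le T hRp
  have h1 : W.map (MulAut.conj x).toMonoidHom = W :=
    hW.2 x (le_trans (Subgroup.map_mono hWR) hx)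
  have h2 : W.map (MulAut.conj (x * (c * g⁻¹))).toMonoidHom = W := by
    apply hW.2
    rw [map_conj_mul, map_conj_mul]
    exact le_trans (Subgroup.map_mono hW'R) hx
  rw [map_conj_mul] at h2
  have h3 := congrArg (fun K : Subgroup G => K.map (MulAut.conj x⁻¹).toMonoidHom) (h2.trans h1.symm)
  simp only [map_conj_inv_map_conj] at h3
  have h4 := map_conj_inv_eq_of_map_conj_eq h3
  have e : (c * g⁻¹)⁻¹ = g * c⁻¹ := by group
  rw [e] at h4
  refine ⟨g * c⁻¹, mem_normalizer_iff_map_conj.mpr h4, ?_⟩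
  rw [Subgroup.mem_centralizer_singleton_iff] at hc
  calc g * c⁻¹ * d * (g * c⁻¹)⁻¹ = g * (c⁻¹ * (d * c)) * g⁻¹ := by group
    _ = g * (c⁻¹ * (c * d)) * g⁻¹ := by rw [hc]
    _ = g * d * g⁻¹ := by group

end Cfsg.Agent.S1243
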