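import Cfsg.Statements.S1244
import Mathlib
-- import your own Cfsg.Agent.* helpers here

set_option autoImplicit false
open Cfsg

namespace Cfsg.Agent.S1244

open scoped IsMulCommutative

theorem prankLE_sub {G : Type*} [Group G] {p k : ℕ} (H : Subgroup G) (h : Cfsg.PRankLE p k ↥H)
    (A : Subgroup G) (hA : A ≤ H) (hc : ∀ a ∈ A, ∀ b ∈ A, a * b = b * a)
    (he : ∀ a ∈ A, a ^ p = 1) : Nat.card A ≤ p ^ k := by
  have h1 := h (A.subgroupOf H)
    ⟨⟨fun a b => Subtype.ext (Subtype.ext (hc _ (Subgroup.mem_subgroupOf.mp a.2) _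
      (Subgroup.mem_subgroupOf.mp b.2)))⟩⟩
    (fun a ha => Subtype.ext (he _ (Subgroup.mem_subgroupOf.mp ha)))
  rwa [Nat.card_congr (Subgroup.subgroupOfEquivOfLe hA).toEquiv] at h1

theorem not_prankLE_sub {G : Type*} [Group G] {p k : ℕ} (H : Subgroup G)
    (h : ¬ Cfsg.PRankLE p k ↥H) :
    ∃ A : Subgroup G, A ≤ H ∧ (∀ a ∈ A, ∀ b ∈ A, a * b = b * a) ∧ (∀ a ∈ A, a ^ p = 1) ∧
      p ^ k < Nat.card A := by
  unfold Cfsg.PRankLE at h
  push Not at h
  obtain ⟨A, hc, he, hlt⟩ := h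
  refine ⟨A.map H.subtype, ?_, ?_, ?_, ?_⟩
  · rintro _ ⟨a, -, rfl⟩
    exact a.2
  · rintro _ ⟨a, ha, rfl⟩ _ ⟨b, hb, rfl⟩
    have h1 := mul_comm' (⟨a, ha⟩ : A) ⟨b, hb⟩
    have h2 := congrArg (fun x : A => ((x : H) : G)) h1
    simpa using h2
  · rintro _ ⟨a, ha, rfl⟩
    have h1 := he a ha
    have h2 := congrArg (fun x : H => (x : G)) h1
    simpa using h2
  · rwa [Subgroup.card_subtype]

theorem exists_index_two {G A : Type*} [Group G] [Group A] [Finite A] (hA : IsPGroup 2 A)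
    (V : G →* A) (g : G) (hg : V g ≠ 1) : ∃ H : Subgroup G, H.index = 2 := by
  have : Fact (Nat.Prime 2) := ⟨Nat.prime_two⟩
  have hP : IsPGroup 2 V.range := hA.to_subgroup V.range
  obtain ⟨n, hn⟩ := hP.exists_card_eq
  have hn0 : n ≠ 0 := by
    rintro rfl
    rw [pow_zero, Subgroup.card_eq_one] at hn
    have : V g ∈ V.range := ⟨g, rfl⟩
    rw [hn, Subgroup.mem_bot] at this
    exact hg this
  obtain ⟨K, hK⟩ := Sylow.exists_subgroup_card_pow_prime 2 (n := n - 1) (G := V.range)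
    (by rw [hn]; exact pow_dvd_pow 2 (Nat.sub_le n 1))
  refine ⟨K.comap V.rangeRestrict, ?_⟩
  rw [Subgroup.index_comap_of_surjective _ V.rangeRestrict_surjective]
  have h1 := Subgroup.card_mul_index K
  rw [hK, hn] at h1
  have h2 : 2 ^ n = 2 ^ (n - 1) * 2 := by
    rw [← pow_succ]; congr 1; omega
  rw [h2] at h1
  exact Nat.eq_of_mul_eq_mul_left (by positivity) h1

theorem prod_not_mem_iff {A ι : Type*} [CommGroup A] (W K : Subgroup A)
    (h2 : ∀ a ∈ W, ∀ b ∈ W, a ∉ K → b ∉ K → a * b ∈ K) (s : Finset ι) (f : ι → A)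
    [DecidablePred fun i => f i ∉ K] (hf : ∀ i ∈ s, f i ∈ W) :
    (∏ i ∈ s, f i ∉ K ↔ Odd (s.filter (fun i => f i ∉ K)).card) := by
  classical
  induction s using Finset.induction_on with
  | empty => simp
  | insert i s hi ih =>
    have hW : ∏ j ∈ s, f j ∈ W :=
      Subgroup.prod_mem _ (fun j hj => hf j (Finset.mem_insert_of_mem hj))
    have ih' := ih (fun j hj => hf j (Finset.mem_insert_of_mem hj))
    rw [Finset.prod_insert hi, Finset.filter_insert]
    by_cases hiK : f i ∈ K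
    · rw [if_neg (not_not.mpr hiK), Subgroup.mul_mem_cancel_left K hiK]
      exact ih'
    · rw [if_pos hiK, Finset.card_insert_of_notMem (by simp [hi]), Nat.odd_add_one]
      rw [← ih', not_not]
      constructor
      · intro h
        by_contra hP
        exact h (h2 _ (hf i (Finset.mem_insert_self i s)) _ hW hiK hP)
      · intro hP h
        exact hiK ((Subgroup.mul_mem_cancel_right K hP).mp h)

/-- Let G be a finite group with no subgroup of index 2 whose Sylow 2-subgroup S is commutative, and let R ≤ S be a subgroup whose 2-rank is exactly one less than the 2-rank r of S. Then every involution of S is conjugate, by an element of N_G(S), to an element of R. -/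
theorem result {G : Type*} [Group G] [Finite G] (hG : ∀ H : Subgroup G, H.index ≠ 2) (S : Sylow 2 G) (hS : IsMulCommutative (S : Subgroup G)) (r : ℕ) (hr1 : 1 ≤ r) (hSr : Cfsg.PRankLE 2 r (S : Subgroup G) ∧ ¬ Cfsg.PRankLE 2 (r - 1) (S : Subgroup G)) (R : Subgroup G) (hRS : R ≤ S) (hRr : Cfsg.PRankLE 2 (r - 1) R ∧ (r = 1 ∨ ¬ Cfsg.PRankLE 2 (r - 2) R)) (t : G) (ht : orderOf t = 2) (htS : t ∈ S) : ∃ n ∈ Subgroup.normalizer ((S : Subgroup G) : Set G), n * t * n⁻¹ ∈ R := by
  classical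
  by_contra hcon
  push Not at hcon
  have : Fact (Nat.Prime 2) := ⟨Nat.prime_two⟩
  have ht2 : t ^ 2 = 1 := by rw [← ht]; exact pow_orderOf_eq_one t
  have hcomm : ∀ a ∈ (S : Subgroup G), ∀ b ∈ (S : Subgroup G), a * b = b * a := by
    intro a ha b hb
    have h1 := mul_comm' (⟨a, ha⟩ : (S : Subgroup G)) ⟨b, hb⟩
    exact congrArg Subtype.val h1
  let Ω : Subgroup G :=
    { carrier := {g | g ∈ (S : Subgroup G) ∧ g ^ 2 = 1}
      one_mem' := ⟨Subgroup.one_mem _, one_pow 2⟩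
      mul_mem' := by
        rintro a b ⟨ha, ha2⟩ ⟨hb, hb2⟩
        refine ⟨Subgroup.mul_mem _ ha hb, ?_⟩
        rw [Commute.mul_pow (hcomm a ha b hb) 2, ha2, hb2, one_mul]
      inv_mem' := by
        rintro a ⟨ha, ha2⟩
        exact ⟨Subgroup.inv_mem _ ha, by rw [inv_pow, ha2, inv_one]⟩ }
  have hΩmem : ∀ g, g ∈ Ω ↔ g ∈ (S : Subgroup G) ∧ g ^ 2 = 1 := fun g => Iff.rfl
  have hΩS : Ω ≤ S := fun g hg => hg.1
  have hΩc : ∀ a ∈ Ω, ∀ b ∈ Ω, a * b = b * a := fun a ha b hb => hcomm a ha.1 b hb.1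
  have hΩe : ∀ a ∈ Ω, a ^ 2 = 1 := fun a ha => ha.2
  have hΩle : Nat.card Ω ≤ 2 ^ r := prankLE_sub _ hSr.1 Ω hΩS hΩc hΩe
  obtain ⟨A, hAS, hAc, hAe, hAlt⟩ := not_prankLE_sub _ hSr.2
  have hAΩ : A ≤ Ω := fun a ha => ⟨hAS ha, hAe a ha⟩
  have hΩlt : 2 ^ (r - 1) < Nat.card Ω := lt_of_lt_of_le hAlt (Subgroup.card_le_of_le hAΩ)
  have hΩp : IsPGroup 2 Ω := S.2.to_le hΩS
  obtain ⟨k, hk⟩ := hΩp.exists_card_eq
  have hkr : k = r := by
    rw [hk] at hΩle hΩlt
    have h1 : k ≤ r := (Nat.pow_le_pow_iff_right (by norm_num)).mp hΩle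
    have h2 : r - 1 < k := (Nat.pow_lt_pow_iff_right (by norm_num)).mp hΩlt
    omega
  have hΩcard : Nat.card Ω = 2 ^ r := by rw [hk, hkr]
  have hR1le : Nat.card (R ⊓ Ω : Subgroup G) ≤ 2 ^ (r - 1) :=
    prankLE_sub _ hRr.1 (R ⊓ Ω) inf_le_left
      (fun a ha b hb => hΩc a (Subgroup.mem_inf.mp ha).2 b (Subgroup.mem_inf.mp hb).2)
      (fun a ha => hΩe a (Subgroup.mem_inf.mp ha).2)
  have hR1p : IsPGroup 2 (R ⊓ Ω : Subgroup G) := hΩp.to_le inf_le_right
  obtain ⟨j, hj⟩ := hR1p.exists_card_eq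
  have hjr : j = r - 1 := by
    have h1 : j ≤ r - 1 := by
      rw [hj] at hR1le
      exact (Nat.pow_le_pow_iff_right (by norm_num)).mp hR1le
    rcases hRr.2 with h | h
    · omega
    · obtain ⟨B, hBR, hBc, hBe, hBlt⟩ := not_prankLE_sub _ h
      have hBle : B ≤ R ⊓ Ω := fun b hb => Subgroup.mem_inf.mpr ⟨hBR hb, hRS (hBR hb), hBe b hb⟩
      have h3 : 2 ^ (r - 2) < 2 ^ j := by
        rw [← hj]; exact lt_of_lt_of_le hBlt (Subgroup.card_le_of_le hBle)
      have h2 : r - 2 < j := (Nat.pow_lt_pow_iff_right (by norm_num)).mp h3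
      omega
  have hR1card : Nat.card (R ⊓ Ω : Subgroup G) = 2 ^ (r - 1) := by rw [hj, hjr]
  have hidx2 : ((R ⊓ Ω).subgroupOf Ω).index = 2 := by
    have h1 := Subgroup.card_mul_index ((R ⊓ Ω).subgroupOf Ω)
    rw [Nat.card_congr (Subgroup.subgroupOfEquivOfLe (inf_le_right : R ⊓ Ω ≤ Ω)).toEquiv,
      hR1card, hΩcard] at h1
    have h2 : 2 ^ r = 2 ^ (r - 1) * 2 := by
      rw [← pow_succ]; congr 1; omega
    rw [h2] at h1
    exact Nat.eq_of_mul_eq_mul_left (by positivity) h1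
  have hmul : ∀ a ∈ Ω, ∀ b ∈ Ω, a ∉ R → b ∉ R → a * b ∈ R := by
    intro a ha b hb haR hbR
    have h1 := Subgroup.mul_mem_iff_of_index_two hidx2 (a := ⟨a, ha⟩) (b := ⟨b, hb⟩)
    have h3 : (⟨a, ha⟩ : Ω) * ⟨b, hb⟩ ∈ (R ⊓ Ω).subgroupOf Ω := by
      rw [h1]
      constructor
      · intro h; exact absurd (Subgroup.mem_inf.mp (Subgroup.mem_subgroupOf.mp h)).1 haR
      · intro h; exact absurd (Subgroup.mem_inf.mp (Subgroup.mem_subgroupOf.mp h)).1 hbR
    exact (Subgroup.mem_inf.mp (Subgroup.mem_subgroupOf.mp h3)).1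
  have hidxodd : Odd (S : Subgroup G).index := by
    rw [← Nat.not_even_iff_odd, even_iff_two_dvd]
    exact S.not_dvd_index
  have hVt : MonoidHom.transfer (MonoidHom.id ↥(S : Subgroup G)) t ∉ R.subgroupOf S := by
    have : Fintype (Quotient (MulAction.orbitRel (Subgroup.zpowers t) (G ⧸ (S : Subgroup G)))) :=
      Fintype.ofFinite _
    rw [MonoidHom.transfer_eq_prod_quotient_orbitRel_zpowers_quot]
    rw [prod_not_mem_iff (Ω.subgroupOf S) (R.subgroupOf S) ?_ Finset.univ _ ?_]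
    · have hsum := Subgroup.index_eq_sum_minimalPeriod (S : Subgroup G) t
      rw [hsum, Finset.odd_sum_iff_odd_card_odd] at hidxodd
      convert hidxodd using 2
      apply Finset.filter_congr
      intro q _
      have hm2 : Function.minimalPeriod (t • · : G ⧸ (S : Subgroup G) → G ⧸ (S : Subgroup G))
          q.out ∣ 2 := by
        apply Function.IsPeriodicPt.minimalPeriod_dvd
        show (t • · : G ⧸ (S : Subgroup G) → G ⧸ (S : Subgroup G))^[2] q.out = q.out
        simp only [Function.iterate_succ, Function.iterate_zero, Function.comp_apply, id]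
        rw [← mul_smul, ← sq, ht2, one_smul]
      have hmem := QuotientGroup.out_conj_pow_minimalPeriod_mem (S : Subgroup G) t q.out
      rcases (Nat.dvd_prime Nat.prime_two).mp hm2 with h1 | h1
      · -- period one
        rw [Subgroup.mem_subgroupOf]
        simp only [MonoidHom.id_apply]
        rw [h1] at hmem ⊢
        rw [pow_one] at hmem ⊢
        simp only [Nat.odd_iff, Nat.one_mod, iff_true]
        obtain ⟨n, hn, hnq⟩ := Sylow.conj_eq_normalizer_conj_of_mem S t q.out.out htS hmem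
        rw [hnq]
        have := hcon n⁻¹ (Subgroup.inv_mem _ hn)
        rwa [inv_inv] at this
      · rw [Subgroup.mem_subgroupOf]
        simp only [MonoidHom.id_apply]
        rw [h1, ht2]
        simp
    · intro a ha b hb haR hbR
      exact hmul a ha b hb haR hbR
    · intro q _
      rw [Subgroup.mem_subgroupOf, hΩmem]
      refine ⟨Subtype.prop _, ?_⟩
      simp only [MonoidHom.id_apply]
      have h1 : t ^ Function.minimalPeriod (t • · : G ⧸ (S : Subgroup G) → G ⧸ (S : Subgroup G))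
          q.out * t ^ Function.minimalPeriod
          (t • · : G ⧸ (S : Subgroup G) → G ⧸ (S : Subgroup G)) q.out = 1 := by
        rw [← pow_add, ← two_mul, pow_mul, ht2, one_pow]
      rw [sq]
      calc _ = q.out.out⁻¹ * (t ^ Function.minimalPeriod
            (t • · : G ⧸ (S : Subgroup G) → G ⧸ (S : Subgroup G)) q.out * t ^ Function.minimalPeriod
            (t • · : G ⧸ (S : Subgroup G) → G ⧸ (S : Subgroup G)) q.out) * q.out.out := by group
        _ = 1 := by rw [h1]; group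
  have hne : MonoidHom.transfer (MonoidHom.id ↥(S : Subgroup G)) t ≠ 1 := by
    intro h
    rw [h] at hVt
    exact hVt (Subgroup.one_mem _)
  obtain ⟨H, hH⟩ := exists_index_two S.2 (MonoidHom.transfer (MonoidHom.id ↥(S : Subgroup G))) t hne
  exact hG H hH

end Cfsg.Agent.S1244
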