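import Cfsg.Statements.S1248
import Mathlib
import Cfsg.Agent.Lib.Helper8.U34b
import Cfsg.Agent.Lib.Helper8.GL2Syl

set_option autoImplicit false
open Cfsg

namespace Cfsg.Agent.S1248

open Cfsg.Agent.Lib.Helper8.U34 Cfsg.Agent.Lib.Helper8.GL2Syl

/-- Let F be a field with 16 elements and S a Sylow 2-subgroup of PSU(3) over F (the unitary group U₃(4)). Then |S| = 64; the centre Z(S) is a Klein four-group and coincides with the subgroup generated by the involutions of S and with the derived subgroup; and every element of S ⧸ Z(S) squares to the identity, S ⧸ Z(S) having order 16. -/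
theorem result {F : Type*} [Field F] [Fintype F] (hF : Fintype.card F = 16) (S : Sylow 2 (Cfsg.PSU 3 F 4)) : Nat.card S = 64 ∧ IsKleinFour (Subgroup.center (S : Subgroup (Cfsg.PSU 3 F 4))) ∧ Subgroup.center (S : Subgroup (Cfsg.PSU 3 F 4)) = Subgroup.closure {x : (S : Subgroup (Cfsg.PSU 3 F 4)) | orderOf x = 2} ∧ Subgroup.center (S : Subgroup (Cfsg.PSU 3 F 4)) = commutator (S : Subgroup (Cfsg.PSU 3 F 4)) ∧ Nat.card ((S : Subgroup (Cfsg.PSU 3 F 4)) ⧸ Subgroup.center (S : Subgroup (Cfsg.PSU 3 F 4))) = 16 ∧ ∀ x : (S : Subgroup (Cfsg.PSU 3 F 4)) ⧸ Subgroup.center (S : Subgroup (Cfsg.PSU 3 F 4)), x ^ 2 = 1 := by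
  classical
  have hF16 : Fact (Fintype.card F = 16) := ⟨hF⟩
  have hfp : Fact (Nat.Prime 2) := ⟨Nat.prime_two⟩
  have hq : Fintype.card F = 4 ^ 2 := by
    rw [hF]
    norm_num
  have hcenter : Subgroup.center ↥(Cfsg.SU 3 F 4) = ⊥ := by
    have h := Cfsg.Agent.Lib.Helper2.Unitary.card_center_SU hq 3 (by norm_num)
    apply Subgroup.eq_bot_of_card_eq
    rw [h]
    rfl
  have e₀ : Cfsg.PSU 3 F 4 ≃* ↥(Cfsg.SU 3 F 4) :=
    (QuotientGroup.quotientMulEquivOfEq hcenter).trans QuotientGroup.quotientBot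
  have hGU := Cfsg.Agent.S0277.result hq 3
  have hSU := Cfsg.Agent.Lib.Helper2.Unitary.card_SU_mul hq 3 (by norm_num)
  have hprod : (4 ^ (3 * (3 - 1) / 2) * ∏ i ∈ Finset.range 3,
      (if Even i then 4 ^ (i + 1) + 1 else 4 ^ (i + 1) - 1) : ℕ) = 312000 := by
    decide
  have hcardSU : Nat.card ↥(Cfsg.SU 3 F 4) = 62400 := by
    rw [hGU, hprod] at hSU
    omega
  have hfact : (62400 : ℕ).factorization 2 = 6 :=
    fact2 62400 6 975 (by decide) (by norm_num)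
  have hP₀card : Nat.card (Phi : Hs F →* ↥(Cfsg.SU 3 F 4)).range = 64 := by
    rw [← card_Hs (F := F)]
    exact (Nat.card_congr (MonoidHom.ofInjective Phi_injective).toEquiv).symm
  have hP₀syl : Nat.card (Phi : Hs F →* ↥(Cfsg.SU 3 F 4)).range =
      2 ^ (Nat.card ↥(Cfsg.SU 3 F 4)).factorization 2 := by
    rw [hcardSU, hfact, hP₀card]
    norm_num
  have hScard : Nat.card (S : Subgroup (Cfsg.PSU 3 F 4)) = 64 := by
    rw [Sylow.card_eq_multiplicity, Nat.card_congr e₀.toEquiv, hcardSU, hfact]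
    norm_num
  have e1 : (S : Subgroup (Cfsg.PSU 3 F 4)) ≃*
      ((S : Subgroup (Cfsg.PSU 3 F 4)).map e₀.toMonoidHom) := e₀.subgroupMap (S : Subgroup _)
  have hS'card : Nat.card ((S : Subgroup (Cfsg.PSU 3 F 4)).map e₀.toMonoidHom) =
      2 ^ (Nat.card ↥(Cfsg.SU 3 F 4)).factorization 2 := by
    rw [hcardSU, hfact, ← Nat.card_congr e1.toEquiv, hScard]
    norm_num
  obtain ⟨P1, hP1⟩ : ∃ P1 : Sylow 2 ↥(Cfsg.SU 3 F 4),
      (P1 : Subgroup ↥(Cfsg.SU 3 F 4)) = (S : Subgroup (Cfsg.PSU 3 F 4)).map e₀.toMonoidHom :=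
    ⟨Sylow.ofCard _ hS'card, rfl⟩
  obtain ⟨P2, hP2⟩ : ∃ P2 : Sylow 2 ↥(Cfsg.SU 3 F 4),
      (P2 : Subgroup ↥(Cfsg.SU 3 F 4)) = (Phi : Hs F →* ↥(Cfsg.SU 3 F 4)).range :=
    ⟨Sylow.ofCard _ hP₀syl, rfl⟩
  have e2 : (P1 : Subgroup ↥(Cfsg.SU 3 F 4)) ≃* (P2 : Subgroup ↥(Cfsg.SU 3 F 4)) :=
    Sylow.equiv P1 P2
  have e3 : (Phi : Hs F →* ↥(Cfsg.SU 3 F 4)).range ≃* Hs F :=
    (MonoidHom.ofInjective Phi_injective).symm
  exact transport (e1.trans ((MulEquiv.subgroupCongr hP1.symm).trans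
    (e2.trans ((MulEquiv.subgroupCongr hP2).trans e3)))) card_Hs card_center center_sq
    invol_central comm_central central_comm sq_central


end Cfsg.Agent.S1248
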