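import Cfsg.Statements.S1258
import Cfsg.Agent.Lib.Helper9.Central

set_option autoImplicit false
open Cfsg

namespace Cfsg.Agent.S1258

open Cfsg.Agent.Lib.Helper9

/-- If the central quotient of a finite group X is non-abelian simple, then X = X' Z(X) and the commutator subgroup X' is quasisimple. -/
theorem result {X : Type*} [Group X] [Finite X] (hs : IsSimpleGroup (X ⧸ Subgroup.center X)) (hna : ¬ IsMulCommutative (X ⧸ Subgroup.center X)) : commutator X ⊔ Subgroup.center X = ⊤ ∧ Cfsg.IsQuasisimple ↥(commutator X) := by
  have hDn : (commutator X).Normal := inferInstance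
  have hnot : ¬ commutator X ≤ Subgroup.center X := fun h =>
    hna (Subgroup.Normal.quotient_commutative_iff_commutator_le.mpr h)
  have hmap : (commutator X).map (QuotientGroup.mk' (Subgroup.center X)) = ⊤ := by
    have hn : ((commutator X).map (QuotientGroup.mk' (Subgroup.center X))).Normal :=
      hDn.map _ (QuotientGroup.mk'_surjective _)
    rcases hn.eq_bot_or_eq_top with h | h
    · exfalso; apply hnot
      rw [Subgroup.map_eq_bot_iff, QuotientGroup.ker_mk'] at h
      exact h
    · exact h
  have htop : commutator X ⊔ Subgroup.center X = ⊤ := by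
    have h1 := congrArg (Subgroup.comap (QuotientGroup.mk' (Subgroup.center X))) hmap
    rw [Subgroup.comap_map_eq, QuotientGroup.ker_mk', Subgroup.comap_top] at h1
    exact h1
  have hc : ⁅commutator X, Subgroup.center X⁆ = ⊥ :=
    commutator_eq_bot_of_commute (fun a _ b hb => Subgroup.mem_center_iff.mp hb a)
  refine ⟨htop, ?_, ?_⟩
  · rw [Subgroup.isPerfect_iff]
    have h1 := commutator_sup_of_commute hc
    rw [htop] at h1
    have hZZ : ⁅Subgroup.center X, Subgroup.center X⁆ = ⊥ :=
      commutator_eq_bot_of_commute (fun a _ b hb => Subgroup.mem_center_iff.mp hb a)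
    rw [hZZ, sup_bot_eq] at h1
    exact h1.symm
  · let φ : commutator X →* X ⧸ Subgroup.center X :=
      (QuotientGroup.mk' (Subgroup.center X)).comp (commutator X).subtype
    have hsurj : Function.Surjective φ := by
      rw [← MonoidHom.range_eq_top, MonoidHom.range_comp, Subgroup.range_subtype]
      exact hmap
    have hker : φ.ker = Subgroup.center (commutator X) := by
      ext d
      rw [MonoidHom.mem_ker]
      show ((d : X) : X ⧸ Subgroup.center X) = 1 ↔ _
      rw [QuotientGroup.eq_one_iff, Subgroup.mem_center_iff, Subgroup.mem_center_iff]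
      constructor
      · intro h g; apply Subtype.ext; exact h g
      · intro h g
        have hg : g ∈ commutator X ⊔ Subgroup.center X := by rw [htop]; trivial
        obtain ⟨a, ha, b, hb, rfl⟩ := (mem_sup_of_commute hc).mp hg
        have h1 : a * d = d * a := congrArg Subtype.val (h ⟨a, ha⟩)
        have h2 : b * (d : X) = d * b := (Subgroup.mem_center_iff.mp hb d).symm
        rw [mul_assoc, h2, ← mul_assoc, h1, mul_assoc]
    have e1 : commutator X ⧸ φ.ker ≃* X ⧸ Subgroup.center X :=
      QuotientGroup.quotientKerEquivOfSurjective φ hsurj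
    have e2 : commutator X ⧸ Subgroup.center (commutator X) ≃* commutator X ⧸ φ.ker :=
      QuotientGroup.quotientMulEquivOfEq hker.symm
    exact (e2.trans e1).isSimpleGroup

end Cfsg.Agent.S1258
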