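import Cfsg.Statements.S1262
import Cfsg.Agent.Lib.Helper9.Components

set_option autoImplicit false
open Cfsg

namespace Cfsg.Agent.S1262

open Cfsg.Agent.Lib.Helper9

/-- Let L be a component of the finite group G and H a solvable subgroup normalized by L. Then ⁅L, H⁆ = 1. -/
theorem result {G : Type*} [Group G] [Finite G] (L H : Subgroup G) (hL : Cfsg.IsComponent L) (hsolv : Group.IsSolvable ↥H) (hinv : L ≤ Subgroup.normalizer (H : Set G)) : ⁅L, H⁆ = ⊥ := by
  have hLX : L ≤ L ⊔ H := le_sup_left
  have hHX : H ≤ L ⊔ H := le_sup_right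
  have hL' : IsComponent (L.subgroupOf (L ⊔ H)) := isComponent_subgroupOf hL hLX
  have hH'n : (H.subgroupOf (L ⊔ H)).Normal :=
    (Subgroup.normal_subgroupOf_iff_le_normalizer hHX).mpr (sup_le hinv Subgroup.le_normalizer)
  have hH's : Group.IsSolvable (H.subgroupOf (L ⊔ H)) :=
    Group.isSolvable_of_isSolvable_injective (f := (Subgroup.subgroupOfEquivOfLe hHX).toMonoidHom)
      (Subgroup.subgroupOfEquivOfLe hHX).injective
  exact commutator_subgroupOf_eq_bot hLX hHX
    (component_commute_of_solvable hL' hH'n.isSubnormal hH's)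

end Cfsg.Agent.S1262
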