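import Cfsg.Statements.S1263
import Cfsg.Agent.Lib.Helper9.Central

set_option autoImplicit false
open Cfsg

namespace Cfsg.Agent.S1263

open Cfsg.Agent.Lib.Helper9

theorem center_biSup_aux {G : Type*} [Group G] (s : Finset (Subgroup G)) :
    (∀ K ∈ s, ∀ L ∈ s, K ≠ L → ⁅K, L⁆ = ⊥) →
    ∀ z ∈ (⨆ K ∈ s, K), (∀ K ∈ s, ∀ x ∈ K, z * x = x * z) →
      z ∈ ⨆ K ∈ s, (Subgroup.center K).map K.subtype := by
  classical
  induction s using Finset.induction_on with
  | empty =>
    intro _ z hz _
    simp at hz
    subst hz; exact one_mem _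
  | insert K s hKs ih =>
    intro hcomm z hz hzc
    rw [Finset.iSup_insert] at hz ⊢
    have hKE : ⁅K, ⨆ L ∈ s, L⁆ = ⊥ := by
      rw [Subgroup.commutator_comm, Subgroup.commutator_eq_bot_iff_le_centralizer]
      apply iSup₂_le
      intro L hL
      rw [← Subgroup.commutator_eq_bot_iff_le_centralizer]
      apply hcomm L (Finset.mem_insert_of_mem hL) K (Finset.mem_insert_self _ _)
      rintro rfl; exact hKs hL
    obtain ⟨k, hk, e, he, rfl⟩ := (mem_sup_of_commute hKE).mp hz
    have hk_c : ∀ x ∈ K, k * x = x * k := by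
      intro x hx
      have h1 := hzc K (Finset.mem_insert_self _ _) x hx
      have h2 : x * e = e * x := commute_of_commutator_eq_bot hKE hx he
      have h3 : k * x * e = x * k * e := by
        rw [mul_assoc, h2, ← mul_assoc, h1, mul_assoc]
      exact mul_right_cancel h3
    have he_c : ∀ L ∈ s, ∀ x ∈ L, e * x = x * e := by
      intro L hL x hx
      have h1 := hzc L (Finset.mem_insert_of_mem hL) x hx
      have hxE : x ∈ ⨆ L ∈ s, L := (le_iSup₂ (f := fun L _ => L) L hL) hx
      have h2 : k * x = x * k := commute_of_commutator_eq_bot hKE hk hxE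
      have h3 : k * (e * x) = k * (x * e) := by
        rw [← mul_assoc, h1, ← mul_assoc k x e, h2, mul_assoc]
      exact mul_left_cancel h3
    have h3 := ih (fun A hA B hB => hcomm A (Finset.mem_insert_of_mem hA) B
      (Finset.mem_insert_of_mem hB)) e he he_c
    refine Subgroup.mul_mem_sup ⟨⟨k, hk⟩, ?_, rfl⟩ h3
    rw [SetLike.mem_coe, Subgroup.mem_center_iff]
    intro g
    apply Subtype.ext
    exact (hk_c g g.2).symm

/-- For a finite group G, Z(E(G)) is the subgroup generated by the centres Z(L) of the components L of G (all viewed as subgroups of G). -/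
theorem result {G : Type*} [Group G] [Finite G] : (Subgroup.center ↥(Cfsg.layer G)).map (Cfsg.layer G).subtype = ⨆ L : {K : Subgroup G // Cfsg.IsComponent K}, (Subgroup.center ↥(L : Subgroup G)).map (L : Subgroup G).subtype := by
  classical
  have hfin : {K : Subgroup G | IsComponent K}.Finite := Set.toFinite _
  have hE : layer G = ⨆ K ∈ hfin.toFinset, K := by
    unfold layer
    rw [sSup_eq_iSup]
    simp
  have hR : (⨆ L : {K : Subgroup G // Cfsg.IsComponent K},
      (Subgroup.center ↥(L : Subgroup G)).map (L : Subgroup G).subtype) =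
      ⨆ K ∈ hfin.toFinset, (Subgroup.center K).map K.subtype := by
    rw [iSup_subtype]
    simp
  have hcomm : ∀ K ∈ hfin.toFinset, ∀ L ∈ hfin.toFinset, K ≠ L → ⁅K, L⁆ = ⊥ := by
    intro K hK L hL hne
    rw [Set.Finite.mem_toFinset] at hK hL
    exact component_commute hK hL hne
  rw [hR]
  apply le_antisymm
  · rintro z ⟨⟨z, hzE⟩, hz, rfl⟩
    rw [SetLike.mem_coe, Subgroup.mem_center_iff] at hz
    apply center_biSup_aux _ hcomm z (by rw [← hE]; exact hzE)
    intro K hK x hx
    rw [Set.Finite.mem_toFinset] at hK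
    have h1 := hz ⟨x, component_le_layer hK hx⟩
    exact (congrArg Subtype.val h1).symm
  · apply iSup₂_le
    intro K hK
    rw [Set.Finite.mem_toFinset] at hK
    rintro z ⟨⟨z, hzK⟩, hz, rfl⟩
    rw [SetLike.mem_coe, Subgroup.mem_center_iff] at hz
    have hzc : layer G ≤ Subgroup.centralizer ({z} : Set G) := by
      apply sSup_le
      intro L hL x hx
      rw [Subgroup.mem_centralizer_iff]
      intro y hy
      rw [Set.mem_singleton_iff] at hy
      subst hy
      by_cases hKL : K = L
      · subst hKL
        have h1 := hz ⟨x, hx⟩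
        exact (congrArg Subtype.val h1).symm
      · exact commute_of_commutator_eq_bot (component_commute hK hL hKL) hzK hx
    refine ⟨⟨z, component_le_layer hK hzK⟩, ?_, rfl⟩
    rw [SetLike.mem_coe, Subgroup.mem_center_iff]
    intro g
    apply Subtype.ext
    have h2 := hzc g.2
    rw [Subgroup.mem_centralizer_iff] at h2
    exact (h2 z rfl).symm

end Cfsg.Agent.S1263
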