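import Cfsg.Statements.S1264
import Cfsg.Agent.Lib.Helper9.Components

set_option autoImplicit false
open Cfsg

namespace Cfsg.Agent.S1264

open Cfsg.Agent.Lib.Helper9 in
theorem solvable_normal_le_fitting_aux {H : Type*} [Group H] [Finite H]
    (hF : Cfsg.fittingSubgroup H ≤ Subgroup.center H) :
    ∀ (n : ℕ) (M : Subgroup H), Nat.card M = n → M.Normal → Group.IsSolvable M →
      M ≤ Cfsg.fittingSubgroup H := by
  intro n
  induction n using Nat.strong_induction_on with
  | _ n ih =>
    intro M hn hMn hMs
    by_cases hM : M = ⊥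
    · rw [hM]; exact bot_le
    have hnt : Nontrivial M := (Subgroup.nontrivial_iff_ne_bot M).mpr hM
    have hlt : commutator M < ⊤ := Group.IsSolvable.commutator_lt_top_of_nontrivial M
    have hcn : (⁅M, M⁆ : Subgroup H).Normal := Subgroup.commutator_normal M M
    have hmap : (commutator M).map M.subtype = ⁅M, M⁆ := Subgroup.map_subtype_commutator M
    have hcard : Nat.card (⁅M, M⁆ : Subgroup H) < n := by
      rw [← hn, ← hmap,
        ← Nat.card_congr ((commutator M).equivMapOfInjective M.subtype M.subtype_injective).toEquiv]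
      exact card_lt_of_lt_top hlt
    have hle : (⁅M, M⁆ : Subgroup H) ≤ M := Subgroup.commutator_le_left M M
    have hsol : Group.IsSolvable (⁅M, M⁆ : Subgroup H) :=
      Group.isSolvable_of_isSolvable_injective (f := Subgroup.inclusion hle)
        (Subgroup.inclusion_injective hle)
    have h1 := ih _ hcard ⁅M, M⁆ rfl hcn hsol
    have hnil : Group.IsNilpotent M := by
      apply Subgroup.isNilpotent_of_ker_le_center (Abelianization.of (G := M))
      rw [Abelianization.ker_of]
      intro x hx
      have hx' : (x : H) ∈ (⁅M, M⁆ : Subgroup H) := by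
        rw [← hmap]; exact Subgroup.mem_map_of_mem _ hx
      have hc := hF (h1 hx')
      rw [Subgroup.mem_center_iff] at hc ⊢
      intro g
      apply Subtype.ext
      exact hc g
    exact le_fitting hMn hnil

/-- Let G be finite, C = C_G(F(G)) the centralizer of the Fitting subgroup, and N a solvable subgroup of C normalized by C. Then N ≤ Z(F(G)). -/
theorem result {G : Type*} [Group G] [Finite G] (N : Subgroup G) (hN : N ≤ Subgroup.centralizer (Cfsg.fittingSubgroup G : Set G)) (hnorm : Subgroup.centralizer (Cfsg.fittingSubgroup G : Set G) ≤ Subgroup.normalizer (N : Set G)) (hsolv : Group.IsSolvable ↥N) : N ≤ (Subgroup.center ↥(Cfsg.fittingSubgroup G)).map (Cfsg.fittingSubgroup G).subtype := by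
  open Cfsg.Agent.Lib.Helper9 in
  classical
  have hFn : (Cfsg.fittingSubgroup G).Normal := fitting_normal G
  have hCn : (Subgroup.centralizer (Cfsg.fittingSubgroup G : Set G)).Normal :=
    Subgroup.normal_centralizer
  have hFC : Cfsg.fittingSubgroup (Subgroup.centralizer (Cfsg.fittingSubgroup G : Set G)) ≤
      Subgroup.center (Subgroup.centralizer (Cfsg.fittingSubgroup G : Set G)) := by
    intro x hx
    have h1 : (x : G) ∈ (Cfsg.fittingSubgroup (Subgroup.centralizer
        (Cfsg.fittingSubgroup G : Set G))).map (Subgroup.centralizer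
        (Cfsg.fittingSubgroup G : Set G)).subtype := Subgroup.mem_map_of_mem _ hx
    rw [fitting_subtype_eq_inf] at h1
    rw [Subgroup.mem_center_iff]
    intro c
    apply Subtype.ext
    have hc : (c : G) ∈ Subgroup.centralizer (Cfsg.fittingSubgroup G : Set G) := c.2
    rw [Subgroup.mem_centralizer_iff] at hc
    exact (hc _ h1.1).symm
  have hNn : (N.subgroupOf (Subgroup.centralizer (Cfsg.fittingSubgroup G : Set G))).Normal :=
    (Subgroup.normal_subgroupOf_iff_le_normalizer hN).mpr hnorm
  have hNs : Group.IsSolvable (N.subgroupOf (Subgroup.centralizer (Cfsg.fittingSubgroup G : Set G))) :=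
    Group.isSolvable_of_isSolvable_injective (f := (Subgroup.subgroupOfEquivOfLe hN).toMonoidHom)
      (Subgroup.subgroupOfEquivOfLe hN).injective
  have h2 := solvable_normal_le_fitting_aux hFC _
    (N.subgroupOf (Subgroup.centralizer (Cfsg.fittingSubgroup G : Set G))) rfl hNn hNs
  intro n hn
  have h3 : (⟨n, hN hn⟩ : Subgroup.centralizer (Cfsg.fittingSubgroup G : Set G)) ∈
      Cfsg.fittingSubgroup (Subgroup.centralizer (Cfsg.fittingSubgroup G : Set G)) := h2 hn
  have h4 : n ∈ (Cfsg.fittingSubgroup (Subgroup.centralizer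
      (Cfsg.fittingSubgroup G : Set G))).map (Subgroup.centralizer
      (Cfsg.fittingSubgroup G : Set G)).subtype := ⟨⟨n, hN hn⟩, h3, rfl⟩
  rw [fitting_subtype_eq_inf] at h4
  have h5 : n ∈ Cfsg.fittingSubgroup G := h4.1
  refine ⟨⟨n, h5⟩, ?_, rfl⟩
  rw [SetLike.mem_coe, Subgroup.mem_center_iff]
  intro f
  apply Subtype.ext
  have hc := hN hn
  rw [Subgroup.mem_centralizer_iff] at hc
  exact hc _ f.2

end Cfsg.Agent.S1264
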