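import Cfsg.Statements.S1267
import Cfsg.Agent.Lib.Helper9.Local

set_option autoImplicit false
open Cfsg

namespace Cfsg.Agent.S1267

open Cfsg.Agent.Lib.Helper9

/-- Let G be finite and P ≤ O_p(G). Then E(N_G(P)) = E(G). -/
theorem result {G : Type*} [Group G] [Finite G] (p : ℕ) [Fact p.Prime] (P : Subgroup G) (hP : P ≤ Cfsg.pCore p G) : (Cfsg.layer ↥(Subgroup.normalizer ((P : Subgroup G) : Set G))).map (Subgroup.normalizer ((P : Subgroup G) : Set G)).subtype = Cfsg.layer G := by
  have hPp : IsPGroup p P := (pCore_isPGroup p G).to_le hP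
  have hQs : Group.IsSolvable (pCore p G) := isSolvable_of_isPGroup (pCore_isPGroup p G)
  have hCQ : Subgroup.centralizer (pCore p G : Set G) ≤ Subgroup.normalizer (P : Set G) :=
    (Subgroup.centralizer_le hP).trans (Subgroup.centralizer_le_normalizer _)
  have : (pCore p G).Normal := pCore_normal p G
  have hCn : (Subgroup.centralizer (pCore p G : Set G)).Normal := inferInstance
  apply le_antisymm
  · unfold layer
    rw [Subgroup.map_le_iff_le_comap, sSup_le_iff]
    intro L' hL'
    rw [← Subgroup.map_le_iff_le_comap]
    apply le_sSup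
    have h1 := component_normalizer_commute_pCore hPp hL'
    have hLC : L'.map (Subgroup.normalizer (P : Set G)).subtype ≤
        Subgroup.centralizer (pCore p G : Set G) :=
      Subgroup.commutator_eq_bot_iff_le_centralizer.mp h1
    have hsub := isSubnormal_subgroupOf_of_le hCQ hL'.1
    have hsub2 : (L'.map (Subgroup.normalizer (P : Set G)).subtype).IsSubnormal := by
      have h3 := hsub.trans' hCn.isSubnormal
      rwa [Subgroup.map_subgroupOf_eq_of_le hLC] at h3
    exact ⟨hsub2, qs_of_equiv hL'.2 (L'.equivMapOfInjective _ (Subgroup.subtype_injective _))⟩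
  · have h1 : layer G ≤ compIn (Subgroup.normalizer (P : Set G)) := by
      apply sSup_le
      intro K hK
      apply le_sSup
      refine ⟨hK, ?_⟩
      have h2 := component_commute_of_solvable hK (pCore_normal p G).isSubnormal hQs
      exact (Subgroup.commutator_eq_bot_iff_le_centralizer.mp h2).trans hCQ
    exact h1.trans (compIn_le_layer_subtype _)

end Cfsg.Agent.S1267
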