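import Cfsg.Statements.S1281
import Cfsg.Agent.Lib.Helper9.Signalizer

set_option autoImplicit false
open Cfsg

namespace Cfsg.Agent.S1281

open Cfsg.Agent.Lib.Helper9

/-- Let θ be a solvable A-signalizer functor on the finite group G (A a noncyclic elementary abelian p-subgroup) and N a normal subgroup of order prime to p. Then for all non-identity a, b ∈ A, the image of θ a in G / N meets the centralizer of the image of b inside the image of θ b. -/
theorem result {G : Type*} [Group G] [Finite G] (p : ℕ) [Fact p.Prime] (A : Subgroup G) (hA : Cfsg.IsElementaryAbelian p A) (hA2 : p ^ 2 ≤ Nat.card ↥A) (θ : G → Subgroup G) (hθ : Cfsg.IsSolvableSignalizerFunctor p A θ) (N : Subgroup G) [N.Normal] (hN : ¬ p ∣ Nat.card ↥N) (a b : G) (ha : a ∈ A) (ha1 : a ≠ 1) (hb : b ∈ A) (hb1 : b ≠ 1) : (θ a).map (QuotientGroup.mk' N) ⊓ Subgroup.centralizer {QuotientGroup.mk' N b} ≤ (θ b).map (QuotientGroup.mk' N) := by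
  obtain ⟨⟨hθc, hθp, hθA, hθb⟩, -⟩ := hθ
  rintro xb ⟨⟨x, hx, rfl⟩, hxc⟩
  have hbp : b ^ p = 1 := hA.2 b hb
  have hNn : Subgroup.normalizer (N : Set G) = ⊤ := Subgroup.normalizer_eq_top N
  have hbN : b ∈ Subgroup.normalizer (N : Set G) := by rw [hNn]; trivial
  have hbθ : b ∈ Subgroup.normalizer ((θ a : Subgroup G) : Set G) :=
    le_normalizer_of_forall_conj_mem (hθA a ha ha1) hb
  have hmul : ∀ k ∈ θ a ⊔ N, ∃ x ∈ θ a, ∃ y ∈ N, k = x * y := by
    intro k hk
    obtain ⟨x, hx, y, hy, rfl⟩ := Subgroup.mem_sup_of_normal_right.mp hk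
    exact ⟨x, hx, y, hy, rfl⟩
  have hKp : ¬ p ∣ Nat.card ↥(θ a ⊔ N) := by
    intro h
    have h1 := h.trans (card_sup_dvd (θ a) N)
    rcases (Nat.Prime.dvd_mul (Fact.out : p.Prime)).mp h1 with h2 | h2
    · exact hθp a ha ha1 h2
    · exact hN h2
  have hbK : b ∈ Subgroup.normalizer ((θ a ⊔ N : Subgroup G) : Set G) := by
    apply le_normalizer_of_forall_conj_mem (A := Subgroup.zpowers b) _ (Subgroup.mem_zpowers b)
    intro c hc u hu
    obtain ⟨y, hy, n, hn', rfl⟩ := hmul u hu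
    have h1 : c * (y * n) * c⁻¹ = (c * y * c⁻¹) * (c * n * c⁻¹) := by group
    rw [h1]
    exact Subgroup.mul_mem _
      (Subgroup.mem_sup_left (conj_mem_of_mem_normalizer (Subgroup.zpowers_le.mpr hbθ hc) hy))
      (Subgroup.mem_sup_right (conj_mem_of_mem_normalizer (Subgroup.zpowers_le.mpr hbN hc) hn'))
  have hfix : b * x * b⁻¹ * x⁻¹ ∈ N := by
    have h1 : QuotientGroup.mk' N b * QuotientGroup.mk' N x =
        QuotientGroup.mk' N x * QuotientGroup.mk' N b :=
      (Subgroup.mem_centralizer_singleton_iff.mp hxc).symm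
    rw [← QuotientGroup.eq_one_iff]
    have h2 : ((b * x * b⁻¹ * x⁻¹ : G) : G ⧸ N) =
        QuotientGroup.mk' N b * QuotientGroup.mk' N x * (QuotientGroup.mk' N b)⁻¹ *
          (QuotientGroup.mk' N x)⁻¹ := rfl
    rw [h2, h1]
    group
  obtain ⟨c, hc, hcx⟩ := exists_centralizer_singleton_of_conj_mem hbp hKp hbK le_sup_right
    (by rw [hNn]; exact le_top) hbN (Subgroup.mem_sup_left hx) hfix
  obtain ⟨y, hy, n, hn', rfl⟩ := centralizer_singleton_factor hbp hKp hbK le_sup_left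
    le_sup_right hbθ hbN hmul hc
  refine ⟨y, hθb a ha ha1 b hb hb1 hy, ?_⟩
  have h3 : (QuotientGroup.mk' N x)⁻¹ * QuotientGroup.mk' N (y * n) = 1 := by
    rw [← map_inv, ← map_mul]
    exact (QuotientGroup.eq_one_iff _).mpr hcx
  have h4 : QuotientGroup.mk' N n = 1 := (QuotientGroup.eq_one_iff _).mpr hn'.1
  rw [map_mul, h4, mul_one] at h3
  exact (inv_mul_eq_one.mp h3).symm

end Cfsg.Agent.S1281
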