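import Cfsg.Statements.S1286
import Mathlib

set_option autoImplicit false
open Cfsg

namespace Cfsg.Agent.S1286

/-- The transposition `(0 1)`. -/
def pa : Equiv.Perm (Fin 5) := Equiv.swap 0 1
/-- The transposition `(2 3)`. -/
def pb : Equiv.Perm (Fin 5) := Equiv.swap 2 3
/-- A 3-cycle on `{2, 3, 4}`. -/
def c1 : Equiv.Perm (Fin 5) := Equiv.swap 2 3 * Equiv.swap 3 4
/-- A 3-cycle on `{0, 1, 4}`. -/
def c2 : Equiv.Perm (Fin 5) := Equiv.swap 0 1 * Equiv.swap 1 4

/-- The four-group `⟨(0 1), (2 3)⟩`. -/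
def A4 : Subgroup (Equiv.Perm (Fin 5)) where
  carrier := {g | g = 1 ∨ g = pa ∨ g = pb ∨ g = pa * pb}
  mul_mem' := by
    rintro x y (rfl | rfl | rfl | rfl) (rfl | rfl | rfl | rfl) <;>
      show _ = 1 ∨ _ = pa ∨ _ = pb ∨ _ = pa * pb <;> decide
  one_mem' := Or.inl rfl
  inv_mem' := by
    rintro x (rfl | rfl | rfl | rfl) <;>
      show _ = 1 ∨ _ = pa ∨ _ = pb ∨ _ = pa * pb <;> decide

/-- The group of order 3 generated by `c`, for `c` of order 3. -/
def T3 (c : Equiv.Perm (Fin 5)) (hc : c * c * c = 1) : Subgroup (Equiv.Perm (Fin 5)) where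
  carrier := {g | g = 1 ∨ g = c ∨ g = c * c}
  mul_mem' := by
    have h2 : c * c * (c * c) = c := by
      calc c * c * (c * c) = (c * c * c) * c := by group
        _ = c := by rw [hc, one_mul]
    have h3 : c * (c * c) = 1 := by rw [← mul_assoc, hc]
    intro x y hx hy
    have hx' : x = 1 ∨ x = c ∨ x = c * c := hx
    have hy' : y = 1 ∨ y = c ∨ y = c * c := hy
    show x * y = 1 ∨ x * y = c ∨ x * y = c * c
    rcases hx' with h | h | h <;> rcases hy' with h' | h' | h' <;> rw [h, h']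
    · left; rw [one_mul]
    · right; left; rw [one_mul]
    · right; right; rw [one_mul]
    · right; left; rw [mul_one]
    · right; right; rfl
    · left; exact h3
    · right; right; rw [mul_one]
    · left; exact hc
    · right; left; exact h2
  one_mem' := Or.inl rfl
  inv_mem' := by
    have h3 : c * (c * c) = 1 := by rw [← mul_assoc, hc]
    intro x hx
    have hx' : x = 1 ∨ x = c ∨ x = c * c := hx
    show x⁻¹ = 1 ∨ x⁻¹ = c ∨ x⁻¹ = c * c
    rcases hx' with h | h | h <;> rw [h]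
    · left; rw [inv_one]
    · right; right; exact inv_eq_of_mul_eq_one_right h3
    · right; left; exact inv_eq_of_mul_eq_one_right hc

theorem c1_cube : c1 * c1 * c1 = 1 := by decide
theorem c2_cube : c2 * c2 * c2 = 1 := by decide

/-- The functor. -/
def θ0 : Equiv.Perm (Fin 5) → Subgroup (Equiv.Perm (Fin 5)) := fun g =>
  if g = pa then T3 c1 c1_cube else if g = pb then T3 c2 c2_cube else ⊥

theorem θ0_a : θ0 pa = T3 c1 c1_cube := by
  unfold θ0; rw [if_pos rfl]

theorem θ0_b : θ0 pb = T3 c2 c2_cube := by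
  unfold θ0; rw [if_neg (by decide), if_pos rfl]

theorem θ0_ab : θ0 (pa * pb) = ⊥ := by
  unfold θ0; rw [if_neg (by decide), if_neg (by decide)]

theorem card_T3 (c : Equiv.Perm (Fin 5)) (hc : c * c * c = 1) (hc1 : c ≠ 1) :
    Nat.card ↥(T3 c hc) = 3 := by
  have hcc : c * c ≠ 1 := by
    intro h
    rw [h, one_mul] at hc
    exact hc1 hc
  have hcc2 : c * c ≠ c := by
    intro h
    have : c * c = c * 1 := by rw [mul_one]; exact h
    exact hc1 (mul_left_cancel this)
  have h1 : ((T3 c hc : Subgroup (Equiv.Perm (Fin 5))) : Set (Equiv.Perm (Fin 5))) =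
      (({1, c, c * c} : Finset (Equiv.Perm (Fin 5))) : Set (Equiv.Perm (Fin 5))) := by
    ext g
    simp [T3]
  show Nat.card ↥((T3 c hc : Subgroup (Equiv.Perm (Fin 5))) : Set (Equiv.Perm (Fin 5))) = 3
  rw [Nat.card_coe_set_eq, h1, Set.ncard_coe_finset]
  rw [Finset.card_insert_of_notMem, Finset.card_insert_of_notMem, Finset.card_singleton]
  · simp only [Finset.mem_singleton]; exact fun h => hcc2 h.symm
  · simp only [Finset.mem_insert, Finset.mem_singleton]
    rintro (h | h)
    · exact hc1 h.symm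
    · exact hcc h.symm

theorem card_A4 : Nat.card ↥A4 = 4 := by
  have h1 : ((A4 : Subgroup (Equiv.Perm (Fin 5))) : Set (Equiv.Perm (Fin 5))) =
      (({1, pa, pb, pa * pb} : Finset (Equiv.Perm (Fin 5))) : Set (Equiv.Perm (Fin 5))) := by
    ext g
    simp [A4]
  show Nat.card ↥((A4 : Subgroup (Equiv.Perm (Fin 5))) : Set (Equiv.Perm (Fin 5))) = 4
  rw [Nat.card_coe_set_eq, h1, Set.ncard_coe_finset]
  decide

theorem solvable_T3 (c : Equiv.Perm (Fin 5)) (hc : c * c * c = 1) :
    Group.IsSolvable ↥(T3 c hc) := by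
  apply Group.isSolvable_of_comm
  have h3 : c * (c * c) = 1 := by rw [← mul_assoc, hc]
  rintro ⟨x, hx⟩ ⟨y, hy⟩
  apply Subtype.ext
  show x * y = y * x
  rcases hx with rfl | rfl | rfl <;> rcases hy with rfl | rfl | rfl <;> simp [mul_assoc]

theorem signalizer : Cfsg.IsSolvableSignalizerFunctor 2 A4 θ0 := by
  refine ⟨⟨?_, ?_, ?_, ?_⟩, ?_⟩
  · rintro g (rfl | rfl | rfl | rfl) hg
    · exact absurd rfl hg
    · rw [θ0_a]
      rintro y (rfl | rfl | rfl) <;> rw [Subgroup.mem_centralizer_singleton_iff] <;> decide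
    · rw [θ0_b]
      rintro y (rfl | rfl | rfl) <;> rw [Subgroup.mem_centralizer_singleton_iff] <;> decide
    · rw [θ0_ab]; exact bot_le
  · rintro g (rfl | rfl | rfl | rfl) hg
    · exact absurd rfl hg
    · rw [θ0_a, card_T3 c1 c1_cube (by decide)]; decide
    · rw [θ0_b, card_T3 c2 c2_cube (by decide)]; decide
    · rw [θ0_ab, Subgroup.card_bot]; decide
  · rintro g (rfl | rfl | rfl | rfl) hg
    · exact absurd rfl hg
    · rw [θ0_a]
      rintro h (rfl | rfl | rfl | rfl) y (rfl | rfl | rfl) <;>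
        show _ = 1 ∨ _ = c1 ∨ _ = c1 * c1 <;> decide
    · rw [θ0_b]
      rintro h (rfl | rfl | rfl | rfl) y (rfl | rfl | rfl) <;>
        show _ = 1 ∨ _ = c2 ∨ _ = c2 * c2 <;> decide
    · rw [θ0_ab]
      intro h _ y hy
      rw [Subgroup.mem_bot] at hy ⊢
      rw [hy]; group
  · rintro g (rfl | rfl | rfl | rfl) hg h (rfl | rfl | rfl | rfl) hh
    all_goals first
      | exact absurd rfl hg
      | exact absurd rfl hh
      | skip
    · rw [θ0_a]; exact inf_le_left
    · rw [θ0_a, θ0_b]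
      rintro y ⟨(rfl | rfl | rfl), hy⟩
      · exact Subgroup.one_mem _
      · exact absurd (Subgroup.mem_centralizer_singleton_iff.mp hy) (by decide)
      · exact absurd (Subgroup.mem_centralizer_singleton_iff.mp hy) (by decide)
    · rw [θ0_a, θ0_ab]
      rintro y ⟨(rfl | rfl | rfl), hy⟩
      · exact Subgroup.one_mem _
      · exact absurd (Subgroup.mem_centralizer_singleton_iff.mp hy) (by decide)
      · exact absurd (Subgroup.mem_centralizer_singleton_iff.mp hy) (by decide)
    · rw [θ0_b, θ0_a]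
      rintro y ⟨(rfl | rfl | rfl), hy⟩
      · exact Subgroup.one_mem _
      · exact absurd (Subgroup.mem_centralizer_singleton_iff.mp hy) (by decide)
      · exact absurd (Subgroup.mem_centralizer_singleton_iff.mp hy) (by decide)
    · rw [θ0_b]; exact inf_le_left
    · rw [θ0_b, θ0_ab]
      rintro y ⟨(rfl | rfl | rfl), hy⟩
      · exact Subgroup.one_mem _
      · exact absurd (Subgroup.mem_centralizer_singleton_iff.mp hy) (by decide)
      · exact absurd (Subgroup.mem_centralizer_singleton_iff.mp hy) (by decide)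
    · rw [θ0_ab]; exact inf_le_left.trans bot_le
    · rw [θ0_ab]; exact inf_le_left.trans bot_le
    · rw [θ0_ab]; exact inf_le_left
  · rintro g (rfl | rfl | rfl | rfl) hg
    · exact absurd rfl hg
    · rw [θ0_a]; exact solvable_T3 _ _
    · rw [θ0_b]; exact solvable_T3 _ _
    · rw [θ0_ab]; infer_instance

theorem not_complete : ¬ Cfsg.IsCompleteSignalizerFunctor 2 A4 θ0 := by
  rintro ⟨-, Y, -, hY2, hYθ⟩
  have ha : pa ∈ A4 := Or.inr (Or.inl rfl)
  have hb : pb ∈ A4 := Or.inr (Or.inr (Or.inl rfl))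
  have h1 : c1 ∈ Y := by
    have h := hYθ pa ha (by decide)
    have h2 : c1 ∈ θ0 pa := by rw [θ0_a]; exact Or.inr (Or.inl rfl)
    rw [← h] at h2
    exact h2.1
  have h2 : c2 ∈ Y := by
    have h := hYθ pb hb (by decide)
    have h2 : c2 ∈ θ0 pb := by rw [θ0_b]; exact Or.inr (Or.inl rfl)
    rw [← h] at h2
    exact h2.1
  have hw : c1 * c2 * c1 * c2⁻¹ ∈ Y :=
    Y.mul_mem (Y.mul_mem (Y.mul_mem h1 h2) h1) (Y.inv_mem h2)
  have hord : orderOf (c1 * c2 * c1 * c2⁻¹) = 2 :=
    orderOf_eq_prime (by decide) (by decide)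
  apply hY2
  rw [← hord]
  exact Subgroup.orderOf_dvd_natCard Y hw

/-- There exist a finite group X, an elementary abelian subgroup A of order 4 and a solvable A-signalizer functor θ on X for the prime 2 which is not complete. -/
theorem result : ∃ (X : Type) (_ : Group X) (_ : Finite X) (A : Subgroup X) (θ : X → Subgroup X), Cfsg.IsElementaryAbelian 2 A ∧ Nat.card ↥A = 4 ∧ Cfsg.IsSolvableSignalizerFunctor 2 A θ ∧ ¬ Cfsg.IsCompleteSignalizerFunctor 2 A θ :=
  ⟨Equiv.Perm (Fin 5), inferInstance, inferInstance, A4, θ0,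
    ⟨⟨⟨by
      rintro ⟨x, hx⟩ ⟨y, hy⟩
      apply Subtype.ext
      show x * y = y * x
      rcases hx with rfl | rfl | rfl | rfl <;> rcases hy with rfl | rfl | rfl | rfl <;> decide⟩⟩,
      by rintro x (rfl | rfl | rfl | rfl) <;> decide⟩,
    card_A4, signalizer, not_complete⟩

end Cfsg.Agent.S1286
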