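import Cfsg.Statements.S1289
import Cfsg.Agent.Lib.Helper9.PComp

set_option autoImplicit false
open Cfsg

namespace Cfsg.Agent.S1289

open Cfsg.Agent.Lib.Helper9

/-- A p-component K of the finite group X is subnormal, perfect, of order divisible by p, and minimal among the subnormal perfect subgroups of X of order divisible by p. -/
theorem result {X : Type*} [Group X] [Finite X] (p : ℕ) [Fact p.Prime] (K : Subgroup X) (hK : Cfsg.IsPComponent p K) : K.IsSubnormal ∧ ⁅K, K⁆ = K ∧ p ∣ Nat.card ↥K ∧ ∀ H : Subgroup X, H ≤ K → H.IsSubnormal → ⁅H, H⁆ = H → p ∣ Nat.card ↥H → H = K := by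
  refine ⟨hK.1, pComponent_perfect hK, ?_, ?_⟩
  · by_contra h
    exact pComponent_not_coprime hK ((Nat.Prime.coprime_iff_not_dvd Fact.out).mpr h).symm
  · intro H hH_le hHsn hHperf hHp
    have hsurj := QuotientGroup.mk'_surjective (pPrimeCore p X)
    have hble : H.map (QuotientGroup.mk' (pPrimeCore p X)) ≤
        K.map (QuotientGroup.mk' (pPrimeCore p X)) := Subgroup.map_mono hH_le
    have hbsn : ((H.map (QuotientGroup.mk' (pPrimeCore p X))).subgroupOf
        (K.map (QuotientGroup.mk' (pPrimeCore p X)))).IsSubnormal := (hHsn.map hsurj).subgroupOf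
    rcases qs_subnormal_le_center_or_eq_top hK.2.1.2 hbsn with h | h
    · exfalso
      have hab : ⁅H.map (QuotientGroup.mk' (pPrimeCore p X)),
          H.map (QuotientGroup.mk' (pPrimeCore p X))⁆ = ⊥ := by
        apply commutator_eq_bot_of_commute
        intro a ha b hb
        have ha' : (⟨a, hble ha⟩ : K.map (QuotientGroup.mk' (pPrimeCore p X))) ∈
            Subgroup.center _ := h ha
        have h1 := Subgroup.mem_center_iff.mp ha' ⟨b, hble hb⟩
        exact (congrArg Subtype.val h1).symm
      rw [← Subgroup.map_commutator, hHperf, Subgroup.map_eq_bot_iff, QuotientGroup.ker_mk'] at hab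
      have hc : (Nat.card H).Coprime p :=
        Nat.Coprime.coprime_dvd_left (Subgroup.card_dvd_of_le hab) (pPrimeCore_coprime p X)
      exact (Nat.Prime.coprime_iff_not_dvd Fact.out).mp hc.symm hHp
    · rw [Subgroup.subgroupOf_eq_top] at h
      exact hK.2.2 H hHsn hH_le (le_antisymm hble h)

end Cfsg.Agent.S1289
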