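import Cfsg.Statements.S1300
import Mathlib

set_option autoImplicit false
open Cfsg

namespace Cfsg.Agent.S1300

theorem cppc_le_centralizer {G : Type*} [Group G] (p : ℕ) (x : G) :
    Cfsg.centralizerPPrimeCore p x ≤ Subgroup.centralizer ({x} : Set G) := by
  rintro _ ⟨y, _, rfl⟩
  exact y.2

theorem mem_zpowers_two {G : Type*} [Group G] (x : G) (hx : orderOf x = 2) (a : G)
    (ha : a ∈ Subgroup.zpowers x) : a = 1 ∨ a = x := by
  obtain ⟨k, rfl⟩ := ha
  have h := zpow_mod_orderOf x k
  rw [hx] at h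
  show x ^ k = 1 ∨ x ^ k = x
  rw [← h]
  have h2 : k % ((2 : ℕ) : ℤ) = 0 ∨ k % ((2 : ℕ) : ℤ) = 1 := by
    have := Int.emod_two_eq_zero_or_one k
    simpa using this
  rcases h2 with h2 | h2
  · left; rw [h2]; simp
  · right; rw [h2]; simp

theorem half {G : Type*} [Group G] (hk : Cfsg.IsKBalanced 2 1 G) (x y : G)
    (hx : orderOf x = 2) (hy : orderOf y = 2) (hxy : x * y = y * x) :
    Cfsg.centralizerPPrimeCore 2 x ⊓ Subgroup.centralizer {y} ≤
      Cfsg.centralizerPPrimeCore 2 y ⊓ Subgroup.centralizer {x} := by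
  have hA : Cfsg.IsElementaryAbelian 2 (Subgroup.zpowers x) := by
    refine ⟨inferInstance, ?_⟩
    intro a ha
    rcases mem_zpowers_two x hx a ha with rfl | rfl
    · simp
    · rw [← hx]; exact pow_orderOf_eq_one _
  have hcard : Nat.card (Subgroup.zpowers x) = 2 ^ 1 := by
    rw [Nat.card_zpowers, hx]; rfl
  have hcomm : ∀ a ∈ Subgroup.zpowers x, a * y = y * a := by
    intro a ha
    rcases mem_zpowers_two x hx a ha with rfl | rfl
    · simp
    · exact hxy
  have h1 := hk (Subgroup.zpowers x) hA hcard y hy hcomm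
  have h2 : Cfsg.centralizerPPrimeCore 2 x ≤ Cfsg.signalizerDelta 2 (Subgroup.zpowers x) := by
    unfold Cfsg.signalizerDelta
    rw [le_iInf_iff]
    rintro ⟨a, ha, ha1⟩
    rcases mem_zpowers_two x hx a ha with rfl | rfl
    · exact absurd rfl ha1
    · exact le_rfl
  refine le_inf ?_ ?_
  · exact (inf_le_inf_right _ h2).trans h1
  · exact inf_le_left.trans (cppc_le_centralizer 2 x)

/-- For a finite group G, balance in the sense of commuting involutions is the same as 1-balance for the prime 2. -/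
theorem result {G : Type*} [Group G] [Finite G] : Cfsg.IsBalanced G ↔ Cfsg.IsKBalanced 2 1 G := by
  constructor
  · intro hb A hA hcard b hb2 hcomm
    have hne : A ≠ ⊥ := by
      intro h
      rw [h] at hcard
      simp at hcard
    obtain ⟨x, hxA⟩ := (Subgroup.ne_bot_iff_exists_ne_one.mp hne)
    have hxA' : (x : G) ∈ A := x.2
    have hx1' : (x : G) ≠ 1 := fun h => hxA (Subtype.ext h)
    have hx2 : orderOf (x : G) = 2 := by
      haveI : Fact (Nat.Prime 2) := ⟨Nat.prime_two⟩
      exact orderOf_eq_prime (hA.2 _ hxA') hx1'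
    have h1 : Cfsg.signalizerDelta 2 A ≤ Cfsg.centralizerPPrimeCore 2 (x : G) := by
      unfold Cfsg.signalizerDelta
      exact iInf_le (fun a : {a : G // a ∈ A ∧ a ≠ 1} => Cfsg.centralizerPPrimeCore 2 (a : G))
        ⟨(x : G), hxA', hx1'⟩
    have h2 := hb (x : G) b hx2 hb2 (hcomm _ hxA')
    calc Cfsg.signalizerDelta 2 A ⊓ Subgroup.centralizer {b}
        ≤ Cfsg.centralizerPPrimeCore 2 (x : G) ⊓ Subgroup.centralizer {b} := inf_le_inf_right _ h1
      _ = Cfsg.centralizerPPrimeCore 2 b ⊓ Subgroup.centralizer {(x : G)} := h2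
      _ ≤ Cfsg.centralizerPPrimeCore 2 b := inf_le_left
  · intro hk x y hx hy hxy
    exact le_antisymm (half hk x y hx hy hxy) (half hk y x hy hx hxy.symm)

end Cfsg.Agent.S1300
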