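import Cfsg.Statements.S1316
import Cfsg.Agent.Lib.Helper9.Central

set_option autoImplicit false
open Cfsg

namespace Cfsg.Agent.S1316

/-- For a finite group X, E(X) equals the intersection of the derived series of F*(X) (its last term). -/
theorem result {X : Type*} [Group X] [Finite X] : (⨅ n : ℕ, (derivedSeries ↥(Cfsg.generalizedFittingSubgroup X) n).map (Cfsg.generalizedFittingSubgroup X).subtype) = Cfsg.layer X :=
  Cfsg.Agent.Lib.Helper9.iInf_dser_gfitting X

end Cfsg.Agent.S1316
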