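import Cfsg.Statements.S1318
import Cfsg.Agent.Lib.Helper9.Layer

set_option autoImplicit false
open Cfsg

namespace Cfsg.Agent.S1318

/-- Let X be finite and S ≤ F*(X) a subgroup subnormal in F*(X). Then F(S) = F(X) ∩ S (inside X) and S = F(S)E(S). -/
theorem result {X : Type*} [Group X] [Finite X] (S : Subgroup X) (hS : S ≤ Cfsg.generalizedFittingSubgroup X) (hsn : (S.subgroupOf (Cfsg.generalizedFittingSubgroup X)).IsSubnormal) : (Cfsg.fittingSubgroup ↥S).map S.subtype = Cfsg.fittingSubgroup X ⊓ S ∧ Cfsg.fittingSubgroup ↥S ⊔ Cfsg.layer ↥S = ⊤ := by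
  open Cfsg.Agent.Lib.Helper9 in
  have hS' : S.IsSubnormal := Subgroup.IsSubnormal.trans hS hsn (gfitting_normal X).isSubnormal
  refine ⟨fitting_subtype_eq_inf_of_isSubnormal hS', ?_⟩
  rw [eq_top_iff]
  intro x _
  have h1 := subnormal_le_gfitting_decomp hS' hS x.2
  have h2 : compIn S ⊔ (Cfsg.fittingSubgroup X ⊓ S) ≤
      (Cfsg.fittingSubgroup ↥S ⊔ Cfsg.layer ↥S).map S.subtype := by
    rw [Subgroup.map_sup, ← fitting_subtype_eq_inf_of_isSubnormal hS']
    exact sup_le ((compIn_le_layer_subtype S).trans le_sup_right) le_sup_left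
  have h3 := h2 h1
  exact (Subgroup.mem_map_iff_mem S.subtype_injective).mp h3

end Cfsg.Agent.S1318
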