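import Cfsg.Statements.S1320
import Cfsg.Agent.Lib.Helper9.Layer

set_option autoImplicit false
open Cfsg

namespace Cfsg.Agent.S1320

/-- Let B be a normal subgroup of the finite group A. Then F*(A) ∩ B = F*(B). -/
theorem result {A : Type*} [Group A] [Finite A] (B : Subgroup A) [B.Normal] : Cfsg.generalizedFittingSubgroup A ⊓ B = (Cfsg.generalizedFittingSubgroup ↥B).map B.subtype := by
  open Cfsg.Agent.Lib.Helper9 in
  have hBn : B.Normal := inferInstance
  have hFn : (Cfsg.generalizedFittingSubgroup A).Normal := gfitting_normal A
  apply le_antisymm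
  · have hSn : (Cfsg.generalizedFittingSubgroup A ⊓ B).Normal := Subgroup.normal_inf_normal _ _
    have h1 := subnormal_le_gfitting_decomp hSn.isSubnormal
      (inf_le_left : Cfsg.generalizedFittingSubgroup A ⊓ B ≤ Cfsg.generalizedFittingSubgroup A)
    refine h1.trans ?_
    unfold Cfsg.generalizedFittingSubgroup
    rw [Subgroup.map_sup]
    apply sup_le
    · refine le_trans ?_ ((compIn_le_layer_subtype B).trans le_sup_left)
      apply sSup_le
      intro K hK
      exact le_sSup ⟨hK.1, hK.2.trans inf_le_right⟩
    · refine le_trans ?_ le_sup_right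
      rw [fitting_subtype_eq_inf]
      exact inf_le_inf_left _ inf_le_right
  · apply le_inf _ (Subgroup.map_subtype_le _)
    unfold Cfsg.generalizedFittingSubgroup
    rw [Subgroup.map_sup]
    exact sup_le_sup (layer_subtype_le hBn.isSubnormal) (fitting_subtype_le B)

end Cfsg.Agent.S1320
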