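import Cfsg.Statements.S1321
import Cfsg.Agent.Lib.Helper9.Layer

set_option autoImplicit false
open Cfsg

namespace Cfsg.Agent.S1321

/-- Let X be finite and U ≤ X. Then E(X) is generated by C_{E(X)}(U) together with ⁅E(X), U⁆ (indeed it is their product, ⁅E(X), U⁆ being normal in E(X)). -/
theorem result {X : Type*} [Group X] [Finite X] (U : Subgroup X) : Cfsg.layer X = (Cfsg.layer X ⊓ Subgroup.centralizer (U : Set X)) ⊔ ⁅Cfsg.layer X, U⁆ ∧ ⁅Cfsg.layer X, U⁆ ≤ Cfsg.layer X := by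
  open Cfsg.Agent.Lib.Helper9 in
  have hEn : (Cfsg.layer X).Normal := layer_normal X
  have hNE : ⁅Cfsg.layer X, U⁆ ≤ Cfsg.layer X := Subgroup.commutator_le_left _ _
  refine ⟨?_, hNE⟩
  have hnorm : (⁅Cfsg.layer X, U⁆.subgroupOf (Cfsg.layer X ⊔ U)).Normal :=
    Subgroup.normal_subgroupOf_commutator_sup _ _
  rw [Subgroup.normal_subgroupOf_iff_le_normalizer (Subgroup.commutator_le_sup _ _)] at hnorm
  have hNn : (⁅Cfsg.layer X, U⁆.subgroupOf (Cfsg.layer X)).Normal :=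
    (Subgroup.normal_subgroupOf_iff_le_normalizer hNE).mpr (le_sup_left.trans hnorm)
  have hNsn : (⁅Cfsg.layer X, U⁆ : Subgroup X).IsSubnormal :=
    Subgroup.IsSubnormal.trans hNE hNn.isSubnormal hEn.isSubnormal
  apply le_antisymm
  · refine (layer_le_compIn_sup_compOut hNsn).trans ?_
    rw [sup_comm]
    apply sup_le_sup _ (compIn_le _)
    apply le_inf (compOut_le_layer _)
    rw [← Subgroup.commutator_eq_bot_iff_le_centralizer]
    have h1 : ⁅⁅compOut ⁅Cfsg.layer X, U⁆, U⁆, compOut ⁅Cfsg.layer X, U⁆⁆ = ⊥ := by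
      rw [eq_bot_iff, ← compOut_commute ⁅Cfsg.layer X, U⁆,
        Subgroup.commutator_comm (compOut ⁅Cfsg.layer X, U⁆) ⁅Cfsg.layer X, U⁆]
      exact Subgroup.commutator_mono (Subgroup.commutator_mono (compOut_le_layer _) le_rfl) le_rfl
    have h2 : ⁅⁅U, compOut ⁅Cfsg.layer X, U⁆⁆, compOut ⁅Cfsg.layer X, U⁆⁆ = ⊥ := by
      rw [Subgroup.commutator_comm U]; exact h1
    have h3 := Subgroup.commutator_commutator_eq_bot_of_rotate h1 h2
    rw [eq_bot_iff, ← h3]
    exact Subgroup.commutator_mono (compOut_le_commutator _) le_rfl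
  · exact sup_le inf_le_left hNE

end Cfsg.Agent.S1321
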