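import Cfsg.Statements.S1327
import Cfsg.Agent.Lib.Helper9.PComp2

set_option autoImplicit false
open Cfsg

namespace Cfsg.Agent.S1327

open Cfsg.Agent.Lib.Helper9

section aux

variable {X : Type*} [Group X] [Finite X] (p : ℕ) [Fact p.Prime]

/-- The image of a Sylow `p`-subgroup of `O_{p',p}(X)` in `X / O_{p'}(X)` is `O_p(X / O_{p'}(X))`. -/
theorem sylow_map_eq (P : Sylow p ↥(pPrimePCore p X)) :
    (((P : Subgroup ↥(pPrimePCore p X)).map (pPrimePCore p X).subtype).map
      (QuotientGroup.mk' (pPrimeCore p X))) = pCore p (X ⧸ pPrimeCore p X) := by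
  have hM : (pPrimePCore p X).map (QuotientGroup.mk' (pPrimeCore p X)) =
      pCore p (X ⧸ pPrimeCore p X) :=
    Subgroup.map_comap_eq_self_of_surjective (QuotientGroup.mk'_surjective _) _
  apply le_antisymm
  · rw [← hM]; exact Subgroup.map_mono (Subgroup.map_subtype_le _)
  · intro q hq
    have hq' : q ∈ (pPrimePCore p X).map (QuotientGroup.mk' (pPrimeCore p X)) := by
      rw [hM]; exact hq
    have hpg : IsPGroup p ↥((pPrimePCore p X).map (QuotientGroup.mk' (pPrimeCore p X))) := by
      rw [hM]; exact pCore_isPGroup p _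
    have hsurj := (QuotientGroup.mk' (pPrimeCore p X)).subgroupMap_surjective (pPrimePCore p X)
    have htop := (P.mapSurjective hsurj).is_maximal' (hpg.to_subgroup ⊤) le_top
    have h1 : (⟨q, hq'⟩ : ↥((pPrimePCore p X).map (QuotientGroup.mk' (pPrimeCore p X)))) ∈
        (P.mapSurjective hsurj : Subgroup _) := by
      have h2 : (⟨q, hq'⟩ : ↥((pPrimePCore p X).map (QuotientGroup.mk' (pPrimeCore p X)))) ∈
          (⊤ : Subgroup _) := Subgroup.mem_top _
      rw [htop] at h2
      exact h2
    rw [Sylow.coe_mapSurjective] at h1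
    obtain ⟨s, hs, hsq⟩ := h1
    exact ⟨(s : X), ⟨s, hs, rfl⟩, congrArg Subtype.val hsq⟩

theorem constrained_of_pLayer_eq_bot (h : pLayer p X = ⊥) : IsPConstrained p X := by
  intro P
  have hE : layer (X ⧸ pPrimeCore p X) = ⊥ := (pLayer_eq_bot_iff p X).mp h
  have hO : pPrimeCore p (X ⧸ pPrimeCore p X) = ⊥ := pPrimeCore_quotient_eq_bot p X
  have hF : generalizedFittingSubgroup (X ⧸ pPrimeCore p X) = pCore p (X ⧸ pPrimeCore p X) := by
    rw [gfitting_eq_pCore_iff]
    refine ⟨hE, ?_⟩
    intro q hq hqp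
    have : Fact q.Prime := ⟨hq⟩
    rw [eq_bot_iff, ← hO]
    exact le_pPrimeCore (pCore_normal q _)
      (card_coprime_of_isPGroup_of_ne (pCore_isPGroup q _) hqp)
  have hC := centralizer_gfitting_le (X ⧸ pPrimeCore p X)
  rw [hF] at hC
  intro x hx
  show x ∈ (pCore p (X ⧸ pPrimeCore p X)).comap (QuotientGroup.mk' (pPrimeCore p X))
  rw [Subgroup.mem_comap]
  apply hC
  rw [Subgroup.mem_centralizer_iff]
  intro q hq
  rw [SetLike.mem_coe, ← sylow_map_eq p P] at hq
  obtain ⟨s, hs, rfl⟩ := hq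
  rw [Subgroup.mem_centralizer_iff] at hx
  rw [← map_mul, ← map_mul, hx s hs]

theorem pLayer_eq_bot_of_constrained (h : IsPConstrained p X) : pLayer p X = ⊥ := by
  rw [pLayer_eq_bot_iff, eq_bot_iff]
  apply sSup_le
  intro Kb hKb
  exfalso
  apply component_not_isSolvable hKb
  have hQn : (pCore p (X ⧸ pPrimeCore p X)).Normal := pCore_normal p _
  have hQp : IsPGroup p (pCore p (X ⧸ pPrimeCore p X)) := pCore_isPGroup p _
  have hcomm : ⁅Kb, pCore p (X ⧸ pPrimeCore p X)⁆ = ⊥ :=
    component_commute_of_solvable hKb hQn.isSubnormal (isSolvable_of_isPGroup hQp)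
  have hMn : (pPrimePCore p X).Normal := hQn.comap _
  let P : Sylow p ↥(pPrimePCore p X) := default
  have hP := sylow_map_eq p P
  have hPC := h P
  have hPXp : IsPGroup p ↥((P : Subgroup ↥(pPrimePCore p X)).map (pPrimePCore p X).subtype) :=
    P.isPGroup'.map _
  have hdisj : pPrimeCore p X ⊓ (P : Subgroup ↥(pPrimePCore p X)).map (pPrimePCore p X).subtype
      = ⊥ :=
    (Subgroup.disjoint_of_coprime_natCard
      (coprime_of_isPGroup_of_coprime (pPrimeCore_coprime p X) hPXp)).eq_bot
  have hle : Kb ≤ pCore p (X ⧸ pPrimeCore p X) := by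
    intro kb hkb
    obtain ⟨k, rfl⟩ := QuotientGroup.mk'_surjective (pPrimeCore p X) kb
    have hfr := Sylow.normalizer_sup_eq_top P
    have hk : k ∈ Subgroup.normalizer
        (((P : Subgroup ↥(pPrimePCore p X)).map (pPrimePCore p X).subtype : Subgroup X) : Set X) ⊔
        pPrimePCore p X := by rw [hfr]; trivial
    obtain ⟨n, hn, m, hm, rfl⟩ := Subgroup.mem_sup_of_normal_right.mp hk
    have hπm : QuotientGroup.mk' (pPrimeCore p X) m ∈ pCore p (X ⧸ pPrimeCore p X) := hm
    rw [← hP] at hπm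
    obtain ⟨s, hs, hsm⟩ := hπm
    have hy : n * s ∈ Subgroup.normalizer
        (((P : Subgroup ↥(pPrimePCore p X)).map (pPrimePCore p X).subtype : Subgroup X) : Set X) :=
      Subgroup.mul_mem _ hn (Subgroup.le_normalizer hs)
    have hπy : QuotientGroup.mk' (pPrimeCore p X) (n * s) =
        QuotientGroup.mk' (pPrimeCore p X) (n * m) := by
      rw [map_mul, map_mul, hsm]
    have hyc : n * s ∈ Subgroup.centralizer
        (((P : Subgroup ↥(pPrimePCore p X)).map (pPrimePCore p X).subtype : Subgroup X) : Set X) := by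
      rw [Subgroup.mem_centralizer_iff]
      intro t ht
      have h1 : (n * s) * t * (n * s)⁻¹ ∈
          (P : Subgroup ↥(pPrimePCore p X)).map (pPrimePCore p X).subtype :=
        (Subgroup.mem_normalizer_iff.mp hy t).mp ht
      have h2 : (n * s) * t * (n * s)⁻¹ * t⁻¹ ∈
          (P : Subgroup ↥(pPrimePCore p X)).map (pPrimePCore p X).subtype :=
        Subgroup.mul_mem _ h1 (Subgroup.inv_mem _ ht)
      have h3 : (n * s) * t * (n * s)⁻¹ * t⁻¹ ∈ pPrimeCore p X := by
        rw [← QuotientGroup.eq_one_iff, QuotientGroup.mk_mul, QuotientGroup.mk_mul,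
          QuotientGroup.mk_mul, QuotientGroup.mk_inv, QuotientGroup.mk_inv]
        have h4 : QuotientGroup.mk' (pPrimeCore p X) t ∈ pCore p (X ⧸ pPrimeCore p X) := by
          rw [← hP]; exact ⟨t, ht, rfl⟩
        have h5 : QuotientGroup.mk' (pPrimeCore p X) (n * s) ∈ Kb := by rw [hπy]; exact hkb
        have h6 := commute_of_commutator_eq_bot hcomm h5 h4
        change (QuotientGroup.mk' (pPrimeCore p X) (n * s)) *
          (QuotientGroup.mk' (pPrimeCore p X) t) *
          (QuotientGroup.mk' (pPrimeCore p X) (n * s))⁻¹ *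
          (QuotientGroup.mk' (pPrimeCore p X) t)⁻¹ = 1
        rw [h6]; group
      have h7 : (n * s) * t * (n * s)⁻¹ * t⁻¹ ∈ (⊥ : Subgroup X) := by
        rw [← hdisj]; exact ⟨h3, h2⟩
      rw [Subgroup.mem_bot] at h7
      have h8 : (n * s) * t = t * (n * s) := by
        calc (n * s) * t = ((n * s) * t * (n * s)⁻¹ * t⁻¹) * (t * (n * s)) := by group
          _ = t * (n * s) := by rw [h7, one_mul]
      exact h8.symm
    have hyM : n * s ∈ pPrimePCore p X := hPC hyc
    have hyQ : QuotientGroup.mk' (pPrimeCore p X) (n * s) ∈ pCore p (X ⧸ pPrimeCore p X) := hyM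
    rw [hπy] at hyQ
    exact hyQ
  exact isSolvable_of_isPGroup (hQp.to_le hle)

end aux

/-- A finite group X is p-constrained if and only if its p-layer L_{p'}(X) is trivial (equivalently X / O_{p'}(X) has trivial layer). -/
theorem result {X : Type*} [Group X] [Finite X] (p : ℕ) [Fact p.Prime] : Cfsg.IsPConstrained p X ↔ Cfsg.pLayer p X = ⊥ := by
  exact ⟨pLayer_eq_bot_of_constrained p, constrained_of_pLayer_eq_bot p⟩

end Cfsg.Agent.S1327
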