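import Cfsg.Statements.S1331
import Cfsg.Agent.Lib.Helper9.Hyperplane

set_option autoImplicit false
open Cfsg

namespace Cfsg.Agent.S1331

open Cfsg.Agent.Lib.Helper9

/-- Let θ be a solvable A-signalizer functor on the finite group G for the prime p, A elementary abelian of rank at least 3, X a member of the family of θ, and B ≤ A with |B| ≥ p². Then X is generated by the subgroups X ∩ ⋂_{d ∈ D, d ≠ 1} θ d, D ranging over the subgroups of index p in B. -/
theorem result {G : Type*} [Group G] [Finite G] (p : ℕ) [Fact p.Prime] (A : Subgroup G) (hA : Cfsg.IsElementaryAbelian p A) (hA3 : p ^ 3 ≤ Nat.card ↥A) (θ : G → Subgroup G) (hθ : Cfsg.IsSolvableSignalizerFunctor p A θ) (X : Subgroup G) (hX : X ∈ Cfsg.signalizerFamily p A θ) (B : Subgroup G) (hB : B ≤ A) (hB2 : p ^ 2 ≤ Nat.card ↥B) : X = ⨆ D : {D : Subgroup G // D ≤ B ∧ D.relIndex B = p}, X ⊓ Cfsg.signalizerInf (D : Subgroup G) θ := by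
  obtain ⟨hXs, hXp, hXA, hXθ⟩ := hX
  have hp : p.Prime := Fact.out
  have hBe : IsElementaryAbelian p B := by
    refine ⟨?_, fun a ha => hA.2 a (hB ha)⟩
    have := hA.1
    exact ⟨⟨fun x y => Subtype.ext (setLike_mul_comm (hB x.2) (hB y.2))⟩⟩
  have hBp : IsPGroup p B := by
    intro g
    refine ⟨1, ?_⟩
    apply Subtype.ext
    rw [pow_one]
    exact hBe.2 (g : G) g.2
  have hB1 : B ≠ ⊥ := by
    rintro rfl
    rw [Subgroup.card_bot] at hB2
    have h1 : 2 ^ 2 ≤ p ^ 2 := Nat.pow_le_pow_left hp.two_le 2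
    omega
  have hXB : B ≤ Subgroup.normalizer (X : Set G) :=
    hB.trans (le_normalizer_of_forall_conj_mem hXA)
  have key : ∀ D : Subgroup G, D ≤ B → D.relIndex B = p →
      X ⊓ Subgroup.centralizer (D : Set G) ≤ X ⊓ Cfsg.signalizerInf D θ := by
    intro D hD _
    apply le_inf inf_le_left
    unfold Cfsg.signalizerInf
    apply le_iInf
    rintro ⟨a, haD, ha1⟩
    have h1 : X ⊓ Subgroup.centralizer (D : Set G) ≤ X ⊓ Subgroup.centralizer {a} :=
      inf_le_inf_left _ (Subgroup.centralizer_le (Set.singleton_subset_iff.mpr haD))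
    exact h1.trans (hXθ a (hB (hD haD)) ha1)
  apply le_antisymm _ (iSup_le fun _ => inf_le_left)
  have h1 := eq_iSup_centralizer_hyperplane hBe hXp hXB
  conv_lhs => rw [h1]
  apply iSup_le
  rintro ⟨D, hD, hDr⟩
  rcases relIndex_eq_or_le_of_relIndex_le hBp hDr with h2 | h2
  · exact (key D hD h2).trans (le_iSup (fun D : {D : Subgroup G // D ≤ B ∧ D.relIndex B = p} =>
      X ⊓ Cfsg.signalizerInf (D : Subgroup G) θ) ⟨D, hD, h2⟩)
  · obtain ⟨D', hD', hD'r⟩ := exists_hyperplane hBp hB1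
    have h3 : X ⊓ Subgroup.centralizer (D : Set G) ≤ X ⊓ Subgroup.centralizer (D' : Set G) :=
      inf_le_inf_left _ (Subgroup.centralizer_le (hD'.trans h2))
    exact (h3.trans (key D' hD' hD'r)).trans
      (le_iSup (fun D : {D : Subgroup G // D ≤ B ∧ D.relIndex B = p} =>
        X ⊓ Cfsg.signalizerInf (D : Subgroup G) θ) ⟨D', hD', hD'r⟩)

end Cfsg.Agent.S1331
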