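import Mathlib
import Cfsg.Statements.S1338
import Cfsg.Agent.Lib.Helper25.TwoConn

set_option autoImplicit false
open Cfsg

namespace Cfsg.Agent.S1338

/-- A finite 3-group of 3-rank at least 4 is 2-connected for the prime 3: its commuting graph on elementary abelian subgroups of order ≥ 9 is connected. -/
theorem result {P : Type*} [Group P] [Finite P] (hP : IsPGroup 3 P) (hrk : ¬ Cfsg.PRankLE 3 3 P) : Cfsg.IsKConnected 3 2 P :=
  Cfsg.Agent.Lib.Helper25.TwoConn.two_connected hP hrk

end Cfsg.Agent.S1338
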