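import Cfsg.Statements.S1386
import Cfsg.Agent.Lib.Helper9.Signalizer

set_option autoImplicit false
open Cfsg

namespace Cfsg.Agent.S1386
open Cfsg.Agent.Lib.Helper9
open Subgroup

section aux

variable {G : Type*} [Group G]

/-- Membership in the derived subgroup of `S` via the abelianization of `S`. -/
theorem abel_eq_one_iff (S : Subgroup G) (s : ↥S) :
    (Abelianization.of s : Abelianization ↥S) = 1 ↔ (s : G) ∈ ⁅S, S⁆ := by
  rw [← MonoidHom.mem_ker, Abelianization.ker_of, ← Subgroup.map_subtype_commutator]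
  constructor
  · intro h
    exact ⟨s, h, rfl⟩
  · rintro ⟨s', hs', heq⟩
    have : s' = s := Subtype.ext heq
    rw [← this]
    exact hs'

/-- If `W₁ × W₂` is cyclic then `|W₁|` and `|W₂|` are coprime. -/
theorem coprime_of_cyclic_sup [Finite G] {W₁ W₂ : Subgroup G} (hint : W₁ ⊓ W₂ = ⊥)
    (hcomm : ∀ a ∈ W₁, ∀ b ∈ W₂, a * b = b * a) (hcyc : IsCyclic ↥(W₁ ⊔ W₂)) :
    (Nat.card W₁).Coprime (Nat.card W₂) := by
  have hn : W₂ ≤ normalizer (W₁ : Set G) := by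
    refine le_trans ?_ (Subgroup.centralizer_le_normalizer _)
    intro b hb
    rw [Subgroup.mem_centralizer_iff]
    intro a ha
    exact hcomm a ha b hb
  have h1 : Monoid.exponent ↥(W₁ ⊔ W₂) ∣ Nat.lcm (Nat.card W₁) (Nat.card W₂) := by
    apply Monoid.exponent_dvd_of_forall_pow_eq_one
    rintro ⟨g, hg⟩
    obtain ⟨a, ha, b, hb, rfl⟩ := exists_mul_of_mem_sup_of_le_normalizer hn hg
    apply Subtype.ext
    have hc : Commute a b := hcomm a ha b hb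
    have ha1 : a ^ Nat.lcm (Nat.card W₁) (Nat.card W₂) = 1 := by
      apply orderOf_dvd_iff_pow_eq_one.mp
      exact (Subgroup.orderOf_dvd_natCard _ ha).trans (Nat.dvd_lcm_left _ _)
    have hb1 : b ^ Nat.lcm (Nat.card W₁) (Nat.card W₂) = 1 := by
      apply orderOf_dvd_iff_pow_eq_one.mp
      exact (Subgroup.orderOf_dvd_natCard _ hb).trans (Nat.dvd_lcm_right _ _)
    show (a * b) ^ Nat.lcm (Nat.card W₁) (Nat.card W₂) = 1
    rw [hc.mul_pow, ha1, hb1, one_mul]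
  have h2 : Monoid.exponent ↥(W₁ ⊔ W₂) = Nat.card ↥(W₁ ⊔ W₂) := IsCyclic.exponent_eq_card
  have h3 : Nat.card W₁ * Nat.card W₂ ≤ Nat.card ↥(W₁ ⊔ W₂) := by
    rw [← Nat.card_prod]
    have hinj := Subgroup.mul_injective_of_disjoint (disjoint_iff.mpr hint)
    let f : ↥W₁ × ↥W₂ → ↥(W₁ ⊔ W₂) := fun g =>
      ⟨(g.1 : G) * (g.2 : G), Subgroup.mul_mem _ ((le_sup_left : W₁ ≤ W₁ ⊔ W₂) g.1.2)
        ((le_sup_right : W₂ ≤ W₁ ⊔ W₂) g.2.2)⟩
    have hf : Function.Injective f := by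
      intro g g' h
      apply hinj
      exact congrArg Subtype.val h
    exact Nat.card_le_card_of_injective f hf
  have hlpos : 0 < Nat.lcm (Nat.card W₁) (Nat.card W₂) :=
    Nat.lcm_pos Nat.card_pos Nat.card_pos
  have h4 : Nat.card W₁ * Nat.card W₂ ≤ Nat.lcm (Nat.card W₁) (Nat.card W₂) := by
    rw [h2] at h1
    exact h3.trans (Nat.le_of_dvd hlpos h1)
  have h5 := Nat.gcd_mul_lcm (Nat.card W₁) (Nat.card W₂)
  have hgpos : 0 < Nat.gcd (Nat.card W₁) (Nat.card W₂) := Nat.gcd_pos_of_pos_left _ Nat.card_pos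
  show Nat.gcd (Nat.card W₁) (Nat.card W₂) = 1
  by_contra hne
  have h6 : 2 ≤ Nat.gcd (Nat.card W₁) (Nat.card W₂) := by omega
  have h7 : 2 * Nat.lcm (Nat.card W₁) (Nat.card W₂) ≤
      Nat.gcd (Nat.card W₁) (Nat.card W₂) * Nat.lcm (Nat.card W₁) (Nat.card W₂) :=
    Nat.mul_le_mul_right _ h6
  omega

end aux

/-- Let G be a finite group, W₁, W₂ subgroups forming a self-normalizing cyclic pair, S a subgroup with W₂ ≤ S and W₁ a complement to S' in S, and (W₁, U, W₂') type-P data for S. Then W₂' = W₂ (that is, C_{S'}(W₁) = W₂). -/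
theorem result {G : Type*} [Group G] [Finite G] (W₁ W₂ S U W₂' : Subgroup G) (hW : Cfsg.IsSelfNormalizingCyclic W₁ W₂)
    (hSW : Cfsg.IsComplIn ⁅S, S⁆ W₁ S) (hW₂S : W₂ ≤ S) (hP : Cfsg.IsTypePWith S W₁ U W₂') :
    W₂' = W₂ := by
  obtain ⟨hW1, hW2, hint, hcomm, hcyc, hnorm⟩ := hW
  obtain ⟨hS'S, hW₁S, hdisj, hdec⟩ := hSW
  obtain ⟨-, -, hint', hcomm', hcyc', -⟩ := hP.selfNormalizing
  have hcop : (Nat.card W₁).Coprime (Nat.card W₂) := coprime_of_cyclic_sup hint hcomm hcyc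
  obtain ⟨x, hx1⟩ := (Subgroup.ne_bot_iff_exists_ne_one).mp hP.W₁_ne
  have hx' : x.1 ∈ W₁ := x.2
  have hx1' : x.1 ≠ 1 := fun h => hx1 (Subtype.ext h)
  have hcent := hP.W₂_centralizer x.1 hx' hx1'
  -- Step A: `W₂ ≤ S'`
  have hA : W₂ ≤ ⁅S, S⁆ := by
    intro w hw
    obtain ⟨s', hs', w₁, hw₁, hww⟩ := hdec w (hW₂S hw)
    have e1 : (⟨w, hW₂S hw⟩ : ↥S) = ⟨s', hS'S hs'⟩ * ⟨w₁, hW₁S hw₁⟩ := Subtype.ext hww
    have e2 : (Abelianization.of (⟨w, hW₂S hw⟩ : ↥S) : Abelianization ↥S) =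
        Abelianization.of (⟨w₁, hW₁S hw₁⟩ : ↥S) := by
      rw [e1, map_mul, (abel_eq_one_iff S ⟨s', hS'S hs'⟩).mpr hs', one_mul]
    have e3 : (⟨w, hW₂S hw⟩ : ↥S) ^ Nat.card W₂ = 1 := by
      apply Subtype.ext
      show w ^ Nat.card W₂ = 1
      exact orderOf_dvd_iff_pow_eq_one.mp (Subgroup.orderOf_dvd_natCard _ hw)
    have e4 : (Abelianization.of ((⟨w₁, hW₁S hw₁⟩ : ↥S) ^ Nat.card W₂) : Abelianization ↥S) = 1 := by
      rw [map_pow, ← e2, ← map_pow, e3, map_one]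
    have e5 : w₁ ^ Nat.card W₂ ∈ ⁅S, S⁆ := (abel_eq_one_iff S _).mp e4
    have e6 : w₁ ^ Nat.card W₂ = 1 := by
      have : w₁ ^ Nat.card W₂ ∈ ⁅S, S⁆ ⊓ W₁ := Subgroup.mem_inf.mpr ⟨e5, W₁.pow_mem hw₁ _⟩
      rw [hdisj, Subgroup.mem_bot] at this
      exact this
    have e7 : orderOf w₁ ∣ Nat.card W₂ := orderOf_dvd_of_pow_eq_one e6
    have e8 : orderOf w₁ ∣ Nat.card W₁ := Subgroup.orderOf_dvd_natCard _ hw₁
    have e9 : orderOf w₁ ∣ 1 := by
      have := Nat.dvd_gcd e8 e7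
      rwa [Nat.Coprime.gcd_eq_one hcop] at this
    have e10 : w₁ = 1 := orderOf_eq_one_iff.mp (Nat.dvd_one.mp e9)
    rw [hww, e10, mul_one]
    exact hs'
  -- Step B: `W₂ ≤ W₂'`
  have hB : W₂ ≤ W₂' := by
    rw [← hcent]
    intro w hw
    refine Subgroup.mem_inf.mpr ⟨hA hw, ?_⟩
    rw [Subgroup.mem_centralizer_singleton_iff]
    exact (hcomm x.1 hx' w hw).symm
  -- Step C: `W₂' ≤ W₂`
  obtain ⟨b, hb1⟩ := (Subgroup.ne_bot_iff_exists_ne_one).mp hW2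
  have hb' : b.1 ∈ W₂ := b.2
  have hb1' : b.1 ≠ 1 := fun h => hb1 (Subtype.ext h)
  have hsub : ({x.1 * b.1} : Set G) ⊆ (↑(W₁ ⊔ W₂) : Set G) \ (↑W₁ ∪ ↑W₂) := by
    intro y hy
    rw [Set.mem_singleton_iff] at hy
    rw [hy]
    refine ⟨Subgroup.mul_mem _ ((le_sup_left : W₁ ≤ W₁ ⊔ W₂) hx')
      ((le_sup_right : W₂ ≤ W₁ ⊔ W₂) hb'), ?_⟩
    rintro (h | h)
    · have h1 : b.1 ∈ W₁ := by
        have := W₁.mul_mem (W₁.inv_mem hx') h
        rwa [inv_mul_cancel_left] at this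
      have : b.1 ∈ W₁ ⊓ W₂ := Subgroup.mem_inf.mpr ⟨h1, hb'⟩
      rw [hint, Subgroup.mem_bot] at this
      exact hb1' this
    · have h1 : x.1 ∈ W₂ := by
        have := W₂.mul_mem h (W₂.inv_mem hb')
        rwa [mul_inv_cancel_right] at this
      have : x.1 ∈ W₁ ⊓ W₂ := Subgroup.mem_inf.mpr ⟨hx', h1⟩
      rw [hint, Subgroup.mem_bot] at this
      exact hx1' this
  have hN := hnorm {x.1 * b.1} hsub (Set.singleton_nonempty _)
  apply le_antisymm _ hB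
  intro w hw
  have hwS' : w ∈ ⁅S, S⁆ := by
    rw [← hcent] at hw
    exact (Subgroup.mem_inf.mp hw).1
  have hwx : w * x.1 = x.1 * w := (hcomm' x.1 hx' w hw).symm
  have hwb : w * b.1 = b.1 * w := by
    have hcm : IsMulCommutative ↥(W₁ ⊔ W₂') := IsCyclic.isMulCommutative
    have := hcm.is_comm.comm (⟨w, (le_sup_right : W₂' ≤ W₁ ⊔ W₂') hw⟩ : ↥(W₁ ⊔ W₂'))
      ⟨b.1, (le_sup_right : W₂' ≤ W₁ ⊔ W₂') (hB hb')⟩
    exact congrArg Subtype.val this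
  have hwN : w ∈ normalizer ({x.1 * b.1} : Set G) := by
    rw [Subgroup.mem_set_normalizer_iff]
    intro n
    have e : w * (x.1 * b.1) * w⁻¹ = x.1 * b.1 := by
      calc w * (x.1 * b.1) * w⁻¹ = (w * x.1) * b.1 * w⁻¹ := by group
        _ = x.1 * (w * b.1) * w⁻¹ := by rw [hwx]; group
        _ = x.1 * b.1 := by rw [hwb]; group
    constructor
    · intro hn
      rw [Set.mem_singleton_iff] at hn ⊢
      rw [hn, e]
    · intro hn
      rw [Set.mem_singleton_iff] at hn ⊢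
      have e' : w⁻¹ * (x.1 * b.1) * w = x.1 * b.1 := by
        calc w⁻¹ * (x.1 * b.1) * w = w⁻¹ * (w * (x.1 * b.1) * w⁻¹) * w := by rw [e]
          _ = x.1 * b.1 := by group
      have : n = w⁻¹ * (w * n * w⁻¹) * w := by group
      rw [this, hn, e']
  rw [hN] at hwN
  have hn2 : W₂ ≤ normalizer (W₁ : Set G) := by
    refine le_trans ?_ (Subgroup.centralizer_le_normalizer _)
    intro c hc
    rw [Subgroup.mem_centralizer_iff]
    intro a ha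
    exact hcomm a ha c hc
  obtain ⟨a₁, ha₁, b₁, hb₁, hwab⟩ := exists_mul_of_mem_sup_of_le_normalizer hn2 hwN
  have ha₁S : a₁ ∈ ⁅S, S⁆ := by
    have : a₁ = w * b₁⁻¹ := by rw [hwab]; group
    rw [this]
    exact Subgroup.mul_mem _ hwS' (Subgroup.inv_mem _ (hA hb₁))
  have : a₁ ∈ ⁅S, S⁆ ⊓ W₁ := Subgroup.mem_inf.mpr ⟨ha₁S, ha₁⟩
  rw [hdisj, Subgroup.mem_bot] at this
  rw [hwab, this, one_mul]
  exact hb₁

end Cfsg.Agent.S1386
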