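import Cfsg.Statements.S1387
import Cfsg.Agent.Lib.Helper9.Signalizer

set_option autoImplicit false
open Cfsg

namespace Cfsg.Agent.S1387
open Cfsg.Agent.Lib.Helper9
open Subgroup

section aux

universe u

/-- `M_F` is a Hall subgroup of the finite group `M`. -/
theorem fittingHall_coprime (M : Type u) [Group M] [Finite M] :
    (Nat.card (fittingHall M)).Coprime (fittingHall M).index := by
  apply Nat.coprime_of_dvd
  intro p hp hpa hpb
  by_cases h : ∃ N : Subgroup M, (N.Normal ∧ Group.IsNilpotent N ∧ (Nat.card N).Coprime N.index) ∧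
      p ∣ Nat.card N
  · obtain ⟨N, hN, hpN⟩ := h
    have h1 : N ≤ fittingHall M := le_sSup hN
    have h2 : p ∣ N.index := hpb.trans (Subgroup.index_dvd_of_le h1)
    have h3 : p ∣ 1 := by
      have := Nat.dvd_gcd hpN h2
      rwa [Nat.Coprime.gcd_eq_one hN.2.2] at this
    exact hp.one_lt.ne' (Nat.dvd_one.mp h3)
  · push Not at h
    have h1 : fittingHall M ≤ pPrimeCore p M := by
      apply sSup_le
      intro N hN
      exact le_pPrimeCore hN.1 ((Nat.Prime.coprime_iff_not_dvd hp).mpr (h N hN)).symm
    have h2 : p ∣ Nat.card (pPrimeCore p M) := hpa.trans (Subgroup.card_dvd_of_le h1)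
    have h3 : p ∣ 1 := by
      have := Nat.dvd_gcd h2 (dvd_refl p)
      rwa [Nat.Coprime.gcd_eq_one (pPrimeCore_coprime p M)] at this
    exact hp.one_lt.ne' (Nat.dvd_one.mp h3)

variable {G : Type u} [Group G]

theorem card_fittingHallOf (M : Subgroup G) :
    Nat.card (fittingHallOf M) = Nat.card (fittingHall M) :=
  (Nat.card_congr ((fittingHall M).equivMapOfInjective M.subtype
    (Subgroup.subtype_injective M)).toEquiv).symm

/-- For `c ∈ M`, the power `c ^ |M : M_F|` lies in `M_F`. -/
theorem pow_index_mem_fittingHallOf (M : Subgroup G) {c : G} (hc : c ∈ M) :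
    c ^ (fittingHall M).index ∈ fittingHallOf M :=
  ⟨(⟨c, hc⟩ : ↥M) ^ (fittingHall M).index, (fittingHall M).pow_index_mem _, rfl⟩

end aux

/-- Let M be a subgroup of a finite group G with type-P data (W₁, U, W₂) and H = M_F. Then the Fitting subgroup F(M) is generated by H and the centralizer of H in U. -/
theorem result {G : Type*} [Group G] [Finite G] (M W₁ U W₂ : Subgroup G) (hP : Cfsg.IsTypePWith M W₁ U W₂) :
    Cfsg.fittingOf M = Cfsg.fittingHallOf M ⊔ (U ⊓ Subgroup.centralizer (Cfsg.fittingHallOf M : Set G)) := by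
  obtain ⟨hHM', hUM', hHU, hdec⟩ := hP.U_compl
  have hM'M : ⁅M, M⁆ ≤ M := Subgroup.commutator_le_self M
  rw [← hP.fitting_eq]
  apply le_antisymm
  · apply sup_le le_sup_left
    intro c hc
    have hcM : c ∈ M := (Subgroup.mem_inf.mp hc).1
    have hcC : c ∈ centralizer (fittingHallOf M : Set G) := (Subgroup.mem_inf.mp hc).2
    have hcF : c ∈ fittingOf M := by
      rw [← hP.fitting_eq]; exact Subgroup.mem_sup_right hc
    obtain ⟨h, hh, u, hu, hcu⟩ := hdec c (hP.fitting_le hcF)
    have hch : Commute h⁻¹ c := by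
      have := Subgroup.mem_centralizer_iff.mp hcC h hh
      exact (Commute.inv_left (show Commute h c from this))
    have hu_eq : u = h⁻¹ * c := by rw [hcu]; group
    have hcb : c ^ (fittingHall M).index ∈ fittingHallOf M := pow_index_mem_fittingHallOf M hcM
    have hub : u ^ (fittingHall M).index = 1 := by
      have h1 : u ^ (fittingHall M).index ∈ fittingHallOf M := by
        rw [hu_eq, hch.mul_pow]
        exact Subgroup.mul_mem _ (Subgroup.pow_mem _ (Subgroup.inv_mem _ hh) _) hcb
      have h2 : u ^ (fittingHall M).index ∈ fittingHallOf M ⊓ U :=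
        Subgroup.mem_inf.mpr ⟨h1, U.pow_mem hu _⟩
      rw [hHU, Subgroup.mem_bot] at h2
      exact h2
    have hhb : h ^ (fittingHall M).index = c ^ (fittingHall M).index := by
      rw [hu_eq, hch.mul_pow, inv_pow] at hub
      exact (inv_mul_eq_one.mp hub)
    have hcop : ((fittingHall M).index).Coprime (orderOf h) := by
      have h1 : orderOf h ∣ Nat.card (fittingHall M) := by
        rw [← card_fittingHallOf]
        exact Subgroup.orderOf_dvd_natCard _ hh
      exact (Nat.Coprime.coprime_dvd_left h1 (fittingHall_coprime ↥M)).symm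
    obtain ⟨m, hm⟩ := exists_pow_eq_self_of_coprime hcop
    have hhC : h ∈ centralizer (fittingHallOf M : Set G) := by
      rw [← hm, hhb]
      exact Subgroup.pow_mem _ (Subgroup.pow_mem _ hcC _) _
    have huC : u ∈ centralizer (fittingHallOf M : Set G) := by
      rw [hu_eq]
      exact Subgroup.mul_mem _ (Subgroup.inv_mem _ hhC) hcC
    rw [hcu]
    exact Subgroup.mul_mem _ (Subgroup.mem_sup_left hh)
      (Subgroup.mem_sup_right (Subgroup.mem_inf.mpr ⟨hu, huC⟩))
  · exact sup_le_sup_left (inf_le_inf_right _ (hUM'.trans hM'M)) _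

end Cfsg.Agent.S1387
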