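import Cfsg.Statements.S1388
import Cfsg.Agent.Lib.Helper9.Signalizer
import Cfsg.Agent.S1387

set_option autoImplicit false
open Cfsg

namespace Cfsg.Agent.S1388
open Cfsg.Agent.Lib.Helper9
open Subgroup

section aux

universe u

/-- `M_F` is nilpotent for a finite group `M`. -/
theorem fittingHall_isNilpotent (M : Type u) [Group M] [Finite M] :
    Group.IsNilpotent (fittingHall M) := by
  have h1 : fittingHall M ≤ fittingSubgroup M := by
    apply sSup_le
    intro N hN
    exact le_sSup ⟨hN.1, hN.2.1⟩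
  have h2 : Group.IsNilpotent (fittingSubgroup M) := fitting_isNilpotent M
  have h3 : Group.IsNilpotent ((fittingHall M).subgroupOf (fittingSubgroup M)) := inferInstance
  exact Group.nilpotent_of_mulEquiv (Subgroup.subgroupOfEquivOfLe h1)

variable {G : Type u} [Group G]

theorem fittingHallOf_isNilpotent [Finite G] (M : Subgroup G) :
    Group.IsNilpotent (fittingHallOf M) := by
  have := fittingHall_isNilpotent ↥M
  exact Group.nilpotent_of_mulEquiv ((fittingHall M).equivMapOfInjective M.subtype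
    (Subgroup.subtype_injective M))

/-- If the commuting subgroups `A`, `B` are nilpotent and `A ⊔ B = C` then `C` is nilpotent. -/
theorem isNilpotent_of_commuting_sup {A B C : Subgroup G} (hA : Group.IsNilpotent A)
    (hB : Group.IsNilpotent B) (hcomm : ∀ a ∈ A, ∀ b ∈ B, a * b = b * a) (hC : A ⊔ B = C) :
    Group.IsNilpotent C := by
  obtain ⟨f, hf⟩ : ∃ f : ↥A × ↥B →* G, f = MonoidHom.noncommCoprod A.subtype B.subtype
    (fun a b => show Commute (A.subtype a) (B.subtype b) from hcomm a.1 a.2 b.1 b.2) :=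
    ⟨_, rfl⟩
  have hr : f.range = C := by
    rw [hf, MonoidHom.noncommCoprod_range, Subgroup.range_subtype, Subgroup.range_subtype, hC]
  have h1 : Group.IsNilpotent f.range :=
    Group.nilpotent_of_surjective f.rangeRestrict f.rangeRestrict_surjective
  exact Group.nilpotent_of_mulEquiv (MulEquiv.subgroupCongr hr)

/-- A normal nilpotent Hall subgroup of `M` lies in `M_F`; here for the derived subgroup. -/
theorem commutator_le_fittingHallOf (M W₁ : Subgroup G)
    (hnil : Group.IsNilpotent ↥⁅M, M⁆) (hcompl : IsComplIn ⁅M, M⁆ W₁ M)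
    (hhall : (Nat.card W₁).Coprime (W₁.relIndex M)) : ⁅M, M⁆ ≤ fittingHallOf M := by
  obtain ⟨hM'M, hW₁M, hdisj, hdec⟩ := hcompl
  have hmap : (_root_.commutator ↥M).map M.subtype = ⁅M, M⁆ := Subgroup.map_subtype_commutator M
  have hnil' : Group.IsNilpotent (_root_.commutator ↥M) := by
    have e1 := (_root_.commutator ↥M).equivMapOfInjective M.subtype (Subgroup.subtype_injective M)
    have e2 := MulEquiv.subgroupCongr hmap
    exact Group.nilpotent_of_mulEquiv (e1.trans e2).symm
  have hcomp : IsComplement' (_root_.commutator ↥M) (W₁.subgroupOf M) := by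
    apply isComplement'_of_disjoint_and_mul_eq_univ
    · rw [disjoint_iff, eq_bot_iff]
      intro m hm
      have h1 : (m : G) ∈ ⁅M, M⁆ := by
        rw [← hmap]; exact ⟨m, (Subgroup.mem_inf.mp hm).1, rfl⟩
      have h2 : (m : G) ∈ W₁ := Subgroup.mem_subgroupOf.mp (Subgroup.mem_inf.mp hm).2
      have h3 : (m : G) ∈ ⁅M, M⁆ ⊓ W₁ := Subgroup.mem_inf.mpr ⟨h1, h2⟩
      rw [hdisj, Subgroup.mem_bot] at h3
      rw [Subgroup.mem_bot]
      exact Subtype.ext h3
    · rw [Set.eq_univ_iff_forall]
      intro m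
      obtain ⟨a, ha, b, hb, hab⟩ := hdec m.1 m.2
      rw [← hmap] at ha
      obtain ⟨a', ha', rfl⟩ := ha
      exact Set.mem_mul.mpr ⟨a', ha', ⟨b, hW₁M hb⟩, Subgroup.mem_subgroupOf.mpr hb,
        Subtype.ext hab.symm⟩
  have hidx : (_root_.commutator ↥M).index = Nat.card W₁ := by
    rw [hcomp.symm.index_eq_card]
    exact Nat.card_congr (Subgroup.subgroupOfEquivOfLe hW₁M).toEquiv
  have hcard : Nat.card (_root_.commutator ↥M) = W₁.relIndex M := hcomp.index_eq_card.symm
  have hmem : _root_.commutator ↥M ≤ fittingHall ↥M := by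
    apply le_sSup
    refine ⟨inferInstance, hnil', ?_⟩
    rw [hidx, hcard]
    exact hhall.symm
  rw [← hmap]
  exact Subgroup.map_mono hmem

end aux

/-- Let M be a subgroup of a finite group G with type-P data (W₁, U, W₂) and H = M_F. Then the derived subgroup of U centralizes H, and if U ≠ 1 then U does not centralize H. -/
theorem result {G : Type*} [Group G] [Finite G] (M W₁ U W₂ : Subgroup G) (hP : Cfsg.IsTypePWith M W₁ U W₂) :
    ⁅U, U⁆ ≤ Subgroup.centralizer (Cfsg.fittingHallOf M : Set G) ∧ (U ≠ ⊥ → ¬ U ≤ Subgroup.centralizer (Cfsg.fittingHallOf M : Set G)) := by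
  obtain ⟨hHM', hUM', hHU, hdec⟩ := hP.U_compl
  have hn : U ⊓ centralizer (fittingHallOf M : Set G) ≤ normalizer (fittingHallOf M : Set G) :=
    inf_le_right.trans (Subgroup.centralizer_le_normalizer _)
  constructor
  · intro x hx
    have hxU : x ∈ U := Subgroup.commutator_le_self U hx
    have h1 : x ∈ fittingHallOf M ⊔ (U ⊓ centralizer (fittingHallOf M : Set G)) := by
      rw [← Cfsg.Agent.S1387.result M W₁ U W₂ hP, ← hP.fitting_eq]
      exact hP.derived_two_le (Subgroup.commutator_mono hUM' hUM' hx)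
    obtain ⟨h, hh, k, hk, hxk⟩ := exists_mul_of_mem_sup_of_le_normalizer hn h1
    have hhU : h ∈ U := by
      have : h = x * k⁻¹ := by rw [hxk]; group
      rw [this]
      exact U.mul_mem hxU (U.inv_mem (Subgroup.mem_inf.mp hk).1)
    have h2 : h ∈ fittingHallOf M ⊓ U := Subgroup.mem_inf.mpr ⟨hh, hhU⟩
    rw [hHU, Subgroup.mem_bot] at h2
    rw [hxk, h2, one_mul]
    exact (Subgroup.mem_inf.mp hk).2
  · intro hU hUC
    apply hU
    have hsup : fittingHallOf M ⊔ U = ⁅M, M⁆ := by
      apply le_antisymm (sup_le hHM' hUM')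
      intro m hm
      obtain ⟨a, ha, b, hb, rfl⟩ := hdec m hm
      exact Subgroup.mul_mem _ (Subgroup.mem_sup_left ha) (Subgroup.mem_sup_right hb)
    have hnil : Group.IsNilpotent ↥⁅M, M⁆ := by
      apply isNilpotent_of_commuting_sup (fittingHallOf_isNilpotent M) hP.U_nilpotent _ hsup
      intro a ha b hb
      exact (Subgroup.mem_centralizer_iff.mp (hUC hb) a ha)
    have hle : ⁅M, M⁆ ≤ fittingHallOf M :=
      commutator_le_fittingHallOf M W₁ hnil hP.W₁_compl hP.W₁_hall
    rw [eq_bot_iff, ← hHU]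
    exact le_inf (hUM'.trans hle) le_rfl

end Cfsg.Agent.S1388
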