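import Cfsg.Statements.S1441
import Cfsg.Agent.Lib.Helper10.Coprime2
import Cfsg.Agent.S0027

set_option autoImplicit false
open Pointwise
open Cfsg

namespace Cfsg.Agent.S1441

open Cfsg.Agent.Lib.Helper10.Coprime
open Cfsg.Agent.Lib.Helper10.SZ
open scoped commutatorElement

/-- Let G be a finite group, H a solvable subgroup and A a subgroup normalizing H. Suppose there is a chain H = H₀ ≥ H₁ ≥ ⋯ ≥ H_n = 1 of subgroups normal in H and normalized by A such that A acts trivially on each factor H_{i-1}/H_i (that is, [H_{i-1}, A] ≤ H_i). Then every prime dividing the index of C_A(H) in A divides the order of H. -/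
theorem result {G : Type*} [Group G] [Finite G] (H A : Subgroup G) (hH : Group.IsSolvable H) (hA : (A ≤ Subgroup.normalizer (H : Set G)))
    (n : ℕ) (c : Fin (n + 1) → Subgroup G) (hc0 : c 0 = H) (hcn : c (Fin.last n) = ⊥) (hanti : Antitone c)
    (hcN : ∀ i, H ≤ Subgroup.normalizer ((c i : Subgroup G) : Set G)) (hcA : ∀ i, A ≤ Subgroup.normalizer ((c i : Subgroup G) : Set G))
    (htriv : ∀ i : Fin n, ⁅c i.castSucc, A⁆ ≤ c i.succ) :
    ∀ p : ℕ, p.Prime → p ∣ (A ⊓ Subgroup.centralizer (H : Set G)).relIndex A → p ∣ Nat.card H := by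
  intro p hp hdvd
  by_contra hpH
  have hfact : Fact p.Prime := ⟨hp⟩
  obtain ⟨P⟩ : Nonempty (Sylow p A) := inferInstance
  obtain ⟨P', hP'⟩ : ∃ P' : Subgroup G, P' = (P : Subgroup A).map A.subtype := ⟨_, rfl⟩
  have hP'A : P' ≤ A := hP' ▸ Subgroup.map_subtype_le _
  have hP'card : Nat.card P' = p ^ (Nat.card A).factorization p := by
    rw [hP', Subgroup.card_subtype]
    exact P.card_eq_multiplicity
  have hP'H : P' ≤ Subgroup.normalizer (H : Set G) := hP'A.trans hA
  have hcop : (Nat.card P').Coprime (Nat.card H) := by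
    rw [hP'card]
    exact Nat.Coprime.pow_left _ ((Nat.Prime.coprime_iff_not_dvd hp).mpr hpH)
  have hstab := Cfsg.Agent.S0027.result P' H hP'H hcop (Or.inr hH)
  have hall : ∀ (i : ℕ) (hi : i < n + 1), ⁅H, P'⁆ ≤ c ⟨i, hi⟩ := by
    intro i
    induction i with
    | zero =>
      intro hi
      have h0 : c ⟨0, hi⟩ = H := hc0
      rw [h0]
      exact commutator_le_of_le_normalizer H P' hP'H
    | succ i ih =>
      intro hi
      have hi' : i < n := by omega
      have h1 := ih (by omega)
      have h2 : ⁅⁅H, P'⁆, P'⁆ ≤ ⁅c (Fin.castSucc ⟨i, hi'⟩), A⁆ := Subgroup.commutator_mono h1 hP'A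
      rw [hstab] at h2
      exact h2.trans (htriv ⟨i, hi'⟩)
  have hbot : ⁅H, P'⁆ = ⊥ := by
    have := hall n (by omega)
    have h2 : c ⟨n, by omega⟩ = ⊥ := hcn
    rw [h2] at this
    exact le_bot_iff.mp this
  have hPC : P' ≤ A ⊓ Subgroup.centralizer (H : Set G) :=
    le_inf hP'A (Subgroup.le_centralizer_iff.mp (Subgroup.commutator_eq_bot_iff_le_centralizer.mp hbot))
  have h1 : Nat.card (A ⊓ Subgroup.centralizer (H : Set G) : Subgroup G) *
      (A ⊓ Subgroup.centralizer (H : Set G)).relIndex A = Nat.card A :=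
    card_mul_relIndex' inf_le_left
  have h2 : p ^ (Nat.card A).factorization p ∣
      Nat.card (A ⊓ Subgroup.centralizer (H : Set G) : Subgroup G) := by
    rw [← hP'card]
    exact Subgroup.card_dvd_of_le hPC
  have h3 := Nat.mul_dvd_mul h2 hdvd
  rw [h1, ← pow_succ] at h3
  exact Nat.pow_succ_factorization_not_dvd Nat.card_pos.ne' hp h3

end Cfsg.Agent.S1441
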