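import Cfsg.Statements.S1442
import Cfsg.Agent.Lib.Helper10.Coprime2
import Cfsg.Agent.S0027

set_option autoImplicit false
open Pointwise
open Cfsg

namespace Cfsg.Agent.S1442

open Cfsg.Agent.Lib.Helper10.Coprime
open Cfsg.Agent.Lib.Helper10.SZ
open scoped commutatorElement

/-- Let G be a finite group, H a nilpotent subgroup and A a subgroup normalizing H with the orders of A and H coprime. Put C = H ∩ C_G(A). If H ∩ C_G(C) ≤ C then A centralizes H. -/
theorem result {G : Type*} [Group G] [Finite G] (H A : Subgroup G) (hH : Group.IsNilpotent H) (hA : (A ≤ Subgroup.normalizer (H : Set G))) (hcop : (Nat.card A).Coprime (Nat.card H))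
    (hC : H ⊓ Subgroup.centralizer (((H ⊓ Subgroup.centralizer (A : Set G)) : Subgroup G) : Set G) ≤ (H ⊓ Subgroup.centralizer (A : Set G))) :
    A ≤ Subgroup.centralizer (H : Set G) := by
  obtain ⟨C, hCdef⟩ : ∃ C : Subgroup G, C = H ⊓ Subgroup.centralizer (A : Set G) := ⟨_, rfl⟩
  rw [← hCdef] at hC
  have hCH : C ≤ H := hCdef ▸ inf_le_left
  have hCA : C ≤ Subgroup.centralizer (A : Set G) := hCdef ▸ inf_le_right
  have hAC : A ≤ Subgroup.centralizer (C : Set G) := Subgroup.le_centralizer_iff.mp hCA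
  have hACn : A ≤ Subgroup.normalizer (C : Set G) :=
    hAC.trans (Subgroup.centralizer_le_normalizer _)
  by_cases hEq : C = H
  · rw [hEq] at hCA
    exact Subgroup.le_centralizer_iff.mp hCA
  · exfalso
    have hlt : C < H := lt_of_le_of_ne hCH hEq
    have hnc : NormalizerCondition H := Group.normalizerCondition_of_isNilpotent
    have hlt' : C.subgroupOf H < ⊤ := by
      rw [lt_top_iff_ne_top]
      intro h
      rw [Subgroup.subgroupOf_eq_top] at h
      exact (not_le_of_gt hlt) h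
    obtain ⟨x, hx, hxn⟩ := SetLike.exists_of_lt (hnc _ hlt')
    rw [← Subgroup.subgroupOf_normalizer_eq hCH] at hx
    have hxN : (x : G) ∈ Subgroup.normalizer (C : Set G) ⊓ H :=
      Subgroup.mem_inf.mpr ⟨Subgroup.mem_subgroupOf.mp hx, x.2⟩
    have hxC : (x : G) ∉ C := fun h => hxn (Subgroup.mem_subgroupOf.mpr h)
    obtain ⟨N, hN⟩ : ∃ N : Subgroup G, N = Subgroup.normalizer (C : Set G) ⊓ H := ⟨_, rfl⟩
    rw [← hN] at hxN
    have hNH : N ≤ H := hN ▸ inf_le_right
    have hNC : N ≤ Subgroup.normalizer (C : Set G) := hN ▸ inf_le_left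
    have hAN : A ≤ Subgroup.normalizer (N : Set G) :=
      hN ▸ le_normalizer_normalizer_inf A H C hA hACn
    have hCAbot : ⁅C, A⁆ = ⊥ := Subgroup.commutator_eq_bot_iff_le_centralizer.mpr hCA
    have h2 : ⁅⁅C, A⁆, N⁆ = ⊥ := by
      rw [hCAbot]
      exact Subgroup.commutator_bot_left N
    have h1 : ⁅⁅N, C⁆, A⁆ = ⊥ := by
      have h3 : ⁅N, C⁆ ≤ C := by
        rw [Subgroup.commutator_comm]
        exact commutator_le_of_le_normalizer C N hNC
      exact le_bot_iff.mp (hCAbot ▸ Subgroup.commutator_mono h3 le_rfl)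
    have h3 : ⁅⁅A, N⁆, C⁆ = ⊥ := Subgroup.commutator_commutator_eq_bot_of_rotate h1 h2
    have h4 : ⁅N, A⁆ ≤ Subgroup.centralizer (C : Set G) := by
      rw [Subgroup.commutator_comm]
      exact Subgroup.commutator_eq_bot_iff_le_centralizer.mp h3
    have h5 : ⁅N, A⁆ ≤ N := commutator_le_of_le_normalizer N A hAN
    have h6 : ⁅N, A⁆ ≤ C := (le_inf (h5.trans hNH) h4).trans hC
    have h7 : ⁅⁅N, A⁆, A⁆ = ⊥ := le_bot_iff.mp (hCAbot ▸ Subgroup.commutator_mono h6 le_rfl)
    have hcopN : (Nat.card A).Coprime (Nat.card N) :=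
      Nat.Coprime.coprime_dvd_right (Subgroup.card_dvd_of_le hNH) hcop
    have hsolvH : Group.IsSolvable H := inferInstance
    have hstab := Cfsg.Agent.S0027.result A N hAN hcopN (Or.inr (solvable_of_le hNH hsolvH))
    rw [hstab] at h7
    have h8 : N ≤ Subgroup.centralizer (A : Set G) :=
      Subgroup.commutator_eq_bot_iff_le_centralizer.mp h7
    have h9 : N ≤ C := hCdef ▸ le_inf hNH h8
    exact hxC (h9 hxN)

end Cfsg.Agent.S1442
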