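import Cfsg.Statements.S1443
import Cfsg.Agent.Lib.Helper17.OmegaAct
import Cfsg.Agent.Lib.Helper9.Coprime
import Cfsg.Agent.Lib.Helper10.Coprime

set_option autoImplicit false
open Cfsg

namespace Cfsg.Agent.S1443

/-- Let G be a finite group, p an odd prime, H a p-subgroup, E an elementary abelian subgroup of H, and A a subgroup of order coprime to p normalizing H. If A centralizes every element of order p in H ∩ C_G(E), then A centralizes H. -/
theorem result {G : Type*} [Group G] [Finite G] (p : ℕ) [Fact p.Prime] (hp : p ≠ 2) (H E A : Subgroup G) (hH : IsPGroup p H) (hE : E ≤ H) (hEe : Cfsg.IsElementaryAbelian p E)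
    (hA : (A ≤ Subgroup.normalizer (H : Set G))) (hcop : (Nat.card A).Coprime p)
    (hfix : ∀ x ∈ (H ⊓ Subgroup.centralizer (E : Set G)), orderOf x = p → A ≤ Subgroup.centralizer ({x} : Set G)) :
    A ≤ Subgroup.centralizer (H : Set G) := by
  intro a ha
  have hco : (orderOf a).Coprime p :=
    Nat.Coprime.coprime_dvd_left (Subgroup.orderOf_dvd_natCard A ha) hcop
  have hEcomm : ∀ x ∈ E, ∀ y ∈ E, x * y = y * x := by
    intro x hx y hy
    have := hEe.1
    have e : (⟨x, hx⟩ : E) * ⟨y, hy⟩ = ⟨y, hy⟩ * ⟨x, hx⟩ := mul_comm' _ _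
    exact congrArg Subtype.val e
  have hpp : p.Prime := Fact.out
  -- `a` centralizes `E`
  have haE : ∀ e ∈ E, a * e = e * a := by
    intro e he
    by_cases he1 : e = 1
    · rw [he1, mul_one, one_mul]
    · have hord : orderOf e = p := orderOf_eq_prime (hEe.2 e he) he1
      have hmem : e ∈ H ⊓ Subgroup.centralizer (E : Set G) := by
        refine Subgroup.mem_inf.mpr ⟨hE he, ?_⟩
        rw [Subgroup.mem_centralizer_iff]
        intro y hy
        exact hEcomm y hy e he
      exact Subgroup.mem_centralizer_singleton_iff.mp (hfix e hmem hord ha)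
  have haH : a ∈ Subgroup.normalizer (H : Set G) := hA ha
  have hQ : IsPGroup p ↥(H ⊓ Subgroup.centralizer (E : Set G)) := hH.to_le inf_le_left
  have haQ : a ∈ Subgroup.normalizer ((H ⊓ Subgroup.centralizer (E : Set G) : Subgroup G) : Set G) := by
    apply Cfsg.Agent.Lib.Helper10.Coprime.mem_normalizer_of_conj_mem
    intro s hs
    obtain ⟨hs1, hs2⟩ := Subgroup.mem_inf.mp hs
    refine Subgroup.mem_inf.mpr ⟨?_, ?_⟩
    · exact ((Subgroup.mem_set_normalizer_iff).mp haH s).mp hs1
    · rw [Subgroup.mem_centralizer_iff] at hs2 ⊢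
      intro y hy
      have h1 := hs2 y hy
      have h2 := haE y hy
      have h4 : a⁻¹ * y = y * a⁻¹ := by
        calc a⁻¹ * y = a⁻¹ * (y * a) * a⁻¹ := by group
          _ = a⁻¹ * (a * y) * a⁻¹ := by rw [h2]
          _ = y * a⁻¹ := by group
      calc y * (a * s * a⁻¹) = (y * a) * s * a⁻¹ := by group
        _ = (a * y) * s * a⁻¹ := by rw [h2]
        _ = a * (y * s) * a⁻¹ := by group
        _ = a * (s * y) * a⁻¹ := by rw [h1]
        _ = a * s * (y * a⁻¹) := by group
        _ = a * s * (a⁻¹ * y) := by rw [h4]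
        _ = a * s * a⁻¹ * y := by group
  have hcentQ := Cfsg.Agent.Lib.Helper17.OmegaAct.mem_centralizer_of_centralizes_omega hp hco hQ haQ
    (by
      intro x hx hxp
      by_cases hx1 : x = 1
      · rw [hx1, mul_one, one_mul]
      · have hord : orderOf x = p := orderOf_eq_prime hxp hx1
        exact Subgroup.mem_centralizer_singleton_iff.mp (hfix x hx hord ha))
  have hfin := Cfsg.Agent.Lib.Helper9.thompson_AxB hco (hH.to_le hE) hH haE haH
    (hE.trans Subgroup.le_normalizer)
    (by
      intro x hx hxE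
      have hxQ : x ∈ H ⊓ Subgroup.centralizer (E : Set G) := by
        refine Subgroup.mem_inf.mpr ⟨hx, ?_⟩
        rw [Subgroup.mem_centralizer_iff]
        intro y hy
        exact hxE y hy
      rw [Subgroup.mem_centralizer_iff] at hcentQ
      exact (hcentQ x hxQ).symm)
  rw [Subgroup.mem_centralizer_iff]
  intro x hx
  exact (hfin x hx).symm

end Cfsg.Agent.S1443
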