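import Cfsg.Statements.S1447
import Mathlib
import Cfsg.Agent.Lib.Helper8.MetaOdd3
import Cfsg.Agent.S0026
import Cfsg.Agent.S0027
import Cfsg.Agent.S0055

set_option autoImplicit false
open Cfsg

namespace Cfsg.Agent.S1447

open Cfsg.Agent.Lib.Helper8.MetaOdd
open scoped commutatorElement

theorem metacyclic_of_equiv {X Y : Type*} [Group X] [Group Y] (h : Cfsg.IsMetacyclic X)
    (e : X ≃* Y) : Cfsg.IsMetacyclic Y := by
  obtain ⟨N, hN, hNc, hQc⟩ := h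
  have hsurj : Function.Surjective e.toMonoidHom := e.surjective
  have hn : (N.map e.toMonoidHom).Normal := hN.map _ hsurj
  refine ⟨N.map e.toMonoidHom, hn, ?_, ?_⟩
  · exact isCyclic_of_surjective (e.toMonoidHom.subgroupMap N)
      (e.toMonoidHom.subgroupMap_surjective N)
  · have hle : N ≤ (N.map e.toMonoidHom).comap e.toMonoidHom := Subgroup.le_comap_map _ _
    refine isCyclic_of_surjective
      (QuotientGroup.map N (N.map e.toMonoidHom) e.toMonoidHom hle) ?_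
    intro q
    induction q using QuotientGroup.induction_on with
    | H y =>
      obtain ⟨x, rfl⟩ := hsurj y
      exact ⟨QuotientGroup.mk x, rfl⟩

theorem exists_order_p {G : Type*} [Group G] [Finite G] {p : ℕ} [Fact p.Prime] {H : Subgroup G}
    (hH : IsPGroup p H) (hne : H ≠ ⊥) : ∃ x ∈ H, x ≠ 1 ∧ x ^ p = 1 := by
  have hdvd : p ∣ Nat.card H := by
    rcases hH.card_eq_or_dvd with h | h
    · exact absurd (Subgroup.card_eq_one.mp h) hne
    · exact h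
  obtain ⟨x, hx⟩ := exists_prime_orderOf_dvd_card' p hdvd
  refine ⟨x, x.2, ?_, ?_⟩
  · intro h1
    have : x = 1 := Subtype.ext h1
    rw [this, orderOf_one] at hx
    exact (Fact.out : p.Prime).one_lt.ne hx
  · have := pow_orderOf_eq_one x
    rw [hx] at this
    have := congrArg Subtype.val this
    simpa using this

/-- Let G be a finite group, p an odd prime, R a metacyclic p-subgroup and A a subgroup of order coprime to p normalizing R. Then [R, A] is abelian; R is generated by [R, A] and R ∩ C_G(A), which meet trivially; and if R is non-abelian and A does not centralize R, then [R, A] and R ∩ C_G(A) are nontrivial cyclic groups and [R, R] ≤ [R, A]. -/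
theorem result {G : Type*} [Group G] [Finite G] (p : ℕ) [Fact p.Prime] (hp : p ≠ 2) (R A : Subgroup G) (hR : IsPGroup p R) (hRm : Cfsg.IsMetacyclic R)
    (hA : (A ≤ Subgroup.normalizer (R : Set G))) (hcop : (Nat.card A).Coprime p) :
    IsMulCommutative ↥⁅R, A⁆ ∧ ⁅R, A⁆ ⊔ (R ⊓ Subgroup.centralizer (A : Set G)) = R ∧ ⁅R, A⁆ ⊓ (R ⊓ Subgroup.centralizer (A : Set G)) = ⊥ ∧
      (¬ IsMulCommutative R → ¬ A ≤ Subgroup.centralizer (R : Set G) →
        ⁅R, A⁆ ≠ ⊥ ∧ IsCyclic ↥⁅R, A⁆ ∧ (R ⊓ Subgroup.centralizer (A : Set G)) ≠ ⊥ ∧ IsCyclic ↥(R ⊓ Subgroup.centralizer (A : Set G)) ∧ ⁅R, R⁆ ≤ ⁅R, A⁆) := by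
  classical
  have hpp : p.Prime := Fact.out
  have hcopR : (Nat.card A).Coprime (Nat.card R) := by
    obtain ⟨n, hn⟩ := IsPGroup.iff_card.mp hR
    rw [hn]
    exact Nat.Coprime.pow_right n hcop
  have hsolv : Group.IsSolvable R := by
    have := hR.isNilpotent
    infer_instance
  have hR₀R : ⁅R, A⁆ ≤ R :=
    Cfsg.Agent.Lib.Helper10.Coprime.commutator_le_of_le_normalizer R A hA
  have hAR₀ : A ≤ Subgroup.normalizer ((⁅R, A⁆ : Subgroup G) : Set G) :=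
    Cfsg.Agent.Lib.Helper10.Coprime.le_normalizer_commutator_right R A
  have hRR₀ : R ≤ Subgroup.normalizer ((⁅R, A⁆ : Subgroup G) : Set G) :=
    Cfsg.Agent.Lib.Helper10.Coprime.le_normalizer_commutator_left R A
  have h27 : ⁅⁅R, A⁆, A⁆ = ⁅R, A⁆ := Cfsg.Agent.S0027.result A R hA hcopR (Or.inr hsolv)
  have h26 : ⁅R, A⁆ ⊔ (R ⊓ Subgroup.centralizer (A : Set G)) = R :=
    Cfsg.Agent.S0026.result A R hA hcopR (Or.inr hsolv)
  have hR₀p : IsPGroup p ↥⁅R, A⁆ := hR.to_le hR₀R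
  have hR₀m : Cfsg.IsMetacyclic ↥⁅R, A⁆ :=
    metacyclic_of_equiv (metacyclic_subgroup hRm (⁅R, A⁆.subgroupOf R))
      (Subgroup.subgroupOfEquivOfLe hR₀R)
  have hcopR₀ : (Nat.card A).Coprime (Nat.card ↥⁅R, A⁆) :=
    Nat.Coprime.coprime_dvd_right (Subgroup.card_dvd_of_le hR₀R) hcopR
  have hcomm : ∀ x ∈ ⁅R, A⁆, ∀ y ∈ ⁅R, A⁆, x * y = y * x :=
    comm_of_full hp ⁅R, A⁆ A hR₀p hR₀m hAR₀ hcopR₀ h27
  have hcommI : IsMulCommutative ↥⁅R, A⁆ :=
    ⟨⟨fun x y => Subtype.ext (hcomm x x.2 y y.2)⟩⟩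
  have h55 := (Cfsg.Agent.S0055.result A ⁅R, A⁆ hAR₀ hcopR₀).1
  have hint : ⁅R, A⁆ ⊓ (R ⊓ Subgroup.centralizer (A : Set G)) = ⊥ := by
    rw [eq_bot_iff]
    intro x hx
    rw [← h55, h27]
    exact ⟨⟨hx.1, hx.2.2⟩, hx.1⟩
  refine ⟨hcommI, h26, hint, ?_⟩
  intro hna hAc
  have hR₀ne : ⁅R, A⁆ ≠ ⊥ := by
    intro h0
    apply hAc
    intro a ha
    rw [Subgroup.mem_centralizer_iff]
    intro r hr
    have : ⁅r, a⁆ ∈ ⁅R, A⁆ := Subgroup.commutator_mem_commutator hr ha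
    rw [h0, Subgroup.mem_bot, commutatorElement_eq_one_iff_mul_comm] at this
    exact this
  have hCne : R ⊓ Subgroup.centralizer (A : Set G) ≠ ⊥ := by
    intro h0
    apply hna
    rw [h0, sup_bot_eq] at h26
    exact ⟨⟨fun x y => Subtype.ext
      (hcomm x (by rw [h26]; exact x.2) y (by rw [h26]; exact y.2))⟩⟩
  obtain ⟨ρ, hρR₀, hρ1, hρp⟩ := exists_order_p hR₀p hR₀ne
  obtain ⟨ζ, hζC, hζ1, hζp⟩ := exists_order_p (hR.to_le inf_le_left) hCne
  have hζR₀ : ζ ∉ ⁅R, A⁆ := by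
    intro h
    have h1 : ζ ∈ ⁅R, A⁆ ⊓ (R ⊓ Subgroup.centralizer (A : Set G)) := ⟨h, hζC⟩
    rw [hint] at h1
    exact hζ1 h1
  have hρC : ρ ∉ R ⊓ Subgroup.centralizer (A : Set G) := by
    intro h
    have h1 : ρ ∈ ⁅R, A⁆ ⊓ (R ⊓ Subgroup.centralizer (A : Set G)) := ⟨hρR₀, h⟩
    rw [hint] at h1
    exact hρ1 h1
  have hcyc₀ : IsCyclic ↥⁅R, A⁆ := by
    have h1 : IsCyclic ↥(⁅R, A⁆.subgroupOf R) :=
      cyc_of_avoid hp hR hRm (⁅R, A⁆.subgroupOf R) ⟨ζ, hζC.1⟩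
        (Subtype.ext (by simpa using hζp)) (by rw [Subgroup.mem_subgroupOf]; exact hζR₀)
    exact isCyclic_of_surjective (Subgroup.subgroupOfEquivOfLe hR₀R) (MulEquiv.surjective _)
  have hcycC : IsCyclic ↥(R ⊓ Subgroup.centralizer (A : Set G)) := by
    have h1 : IsCyclic ↥((R ⊓ Subgroup.centralizer (A : Set G)).subgroupOf R) :=
      cyc_of_avoid hp hR hRm ((R ⊓ Subgroup.centralizer (A : Set G)).subgroupOf R)
        ⟨ρ, hR₀R hρR₀⟩ (Subtype.ext (by simpa using hρp))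
        (by rw [Subgroup.mem_subgroupOf]; exact hρC)
    exact isCyclic_of_surjective (Subgroup.subgroupOfEquivOfLe inf_le_left)
      (MulEquiv.surjective _)
  refine ⟨hR₀ne, hcyc₀, hCne, hcycC, ?_⟩
  have hnorm : (⁅R, A⁆.subgroupOf R).Normal :=
    (Subgroup.normal_subgroupOf_iff_le_normalizer hR₀R).mpr hRR₀
  have hCcomm : ∀ c ∈ R ⊓ Subgroup.centralizer (A : Set G),
      ∀ c' ∈ R ⊓ Subgroup.centralizer (A : Set G), c * c' = c' * c := by
    intro c hc c' hc'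
    let _ : CommGroup ↥(R ⊓ Subgroup.centralizer (A : Set G)) := hcycC.commGroup
    have h := mul_comm (⟨c, hc⟩ : ↥(R ⊓ Subgroup.centralizer (A : Set G))) ⟨c', hc'⟩
    exact congrArg Subtype.val h
  rw [Subgroup.commutator_le]
  intro x hx y hy
  have hsurj : ∀ z : ↥R, ∃ c : ↥R, (c : G) ∈ R ⊓ Subgroup.centralizer (A : Set G) ∧
      QuotientGroup.mk' (⁅R, A⁆.subgroupOf R) c = QuotientGroup.mk' (⁅R, A⁆.subgroupOf R) z := by
    intro z
    have h1 : ⁅R, A⁆.subgroupOf R ⊔ (R ⊓ Subgroup.centralizer (A : Set G)).subgroupOf R = ⊤ := by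
      rw [← Subgroup.subgroupOf_sup hR₀R inf_le_left, h26, Subgroup.subgroupOf_self]
    have h2 : z ∈ ⁅R, A⁆.subgroupOf R ⊔ (R ⊓ Subgroup.centralizer (A : Set G)).subgroupOf R := by
      rw [h1]
      exact Subgroup.mem_top z
    have h3 := Subgroup.mem_map_of_mem (QuotientGroup.mk' (⁅R, A⁆.subgroupOf R)) h2
    rw [Subgroup.map_sup, QuotientGroup.map_mk'_self, bot_sup_eq] at h3
    obtain ⟨c, hc, hcz⟩ := h3
    exact ⟨c, Subgroup.mem_subgroupOf.mp hc, hcz⟩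
  obtain ⟨c, hc, hcx⟩ := hsurj ⟨x, hx⟩
  obtain ⟨c', hc', hcy⟩ := hsurj ⟨y, hy⟩
  have h5 : QuotientGroup.mk' (⁅R, A⁆.subgroupOf R) ⁅(⟨x, hx⟩ : ↥R), ⟨y, hy⟩⁆ = 1 := by
    rw [map_commutatorElement, ← hcx, ← hcy, ← map_commutatorElement]
    have : ⁅c, c'⁆ = 1 := by
      rw [commutatorElement_eq_one_iff_mul_comm]
      exact Subtype.ext (hCcomm c hc c' hc')
    rw [this, map_one]
  have h6 := (QuotientGroup.eq_one_iff _).mp h5
  exact Subgroup.mem_subgroupOf.mp h6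


end Cfsg.Agent.S1447
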