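import Cfsg.Statements.S1459
import Mathlib
import Cfsg.Agent.S0055
import Cfsg.Agent.Lib.Helper10.Coprime
import Cfsg.Agent.Lib.Lead.FpfAut

set_option autoImplicit false
open Cfsg

namespace Cfsg.Agent.S1459

open scoped commutatorElement

theorem le_normalizer_of_conj {G : Type*} [Group G] {X A : Subgroup G}
    (h : ∀ x ∈ X, ∀ a ∈ A, x * a * x⁻¹ ∈ A) :
    X ≤ Subgroup.normalizer (A : Set G) := by
  intro x hx
  rw [Subgroup.mem_normalizer_iff]
  intro a
  constructor
  · exact h x hx a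
  · intro ha
    have h1 := h x⁻¹ (X.inv_mem hx) _ ha
    have e : x⁻¹ * (x * a * x⁻¹) * x⁻¹⁻¹ = a := by group
    rw [e] at h1; exact h1

theorem hall_eq_comm {G : Type*} [Group G] [Finite G] [Group.IsSolvable G] (H K : Subgroup G)
    (hHn : H.Normal) (hdisj : H ⊓ K = ⊥) (hsup : H ⊔ K = ⊤) (hHG : H ≤ commutator G) :
    H = ⁅H, K⁆ := by
  obtain ⟨N, hN⟩ : ∃ N : Subgroup G, N = ⁅H, K⁆ := ⟨_, rfl⟩
  rw [← hN]
  have hNH : N ≤ H := by rw [hN]; exact Subgroup.commutator_le_left H K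
  have hNn : N.Normal := by
    rw [← Subgroup.normalizer_eq_top_iff, eq_top_iff, ← hsup, hN]
    exact sup_le (Cfsg.Agent.Lib.Helper10.Coprime.le_normalizer_commutator_left H K)
      (Cfsg.Agent.Lib.Helper10.Coprime.le_normalizer_commutator_right H K)
  have hDn : (⁅H, H⁆ : Subgroup G).Normal := inferInstance
  obtain ⟨N₁, hN₁⟩ : ∃ N₁ : Subgroup G, N₁ = N ⊔ ⁅H, H⁆ := ⟨_, rfl⟩
  have hN₁n : N₁.Normal := by rw [hN₁]; infer_instance
  have hN₁H : N₁ ≤ H := by rw [hN₁]; exact sup_le hNH (Subgroup.commutator_le_left H H)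
  obtain ⟨L, hL⟩ : ∃ L : Subgroup G, L = N₁ ⊔ K := ⟨_, rfl⟩
  have hmemL : ∀ x, x ∈ L ↔ ∃ n ∈ N₁, ∃ k ∈ K, n * k = x := by
    intro x; rw [hL]; exact Subgroup.mem_sup_of_normal_left
  have hKL : K ≤ L := by rw [hL]; exact le_sup_right
  have hN₁L : N₁ ≤ L := by rw [hL]; exact le_sup_left
  have hLn : L.Normal := by
    rw [← Subgroup.normalizer_eq_top_iff, eq_top_iff, ← hsup]
    apply sup_le
    · apply le_normalizer_of_conj
      intro h hh x hx
      obtain ⟨n, hn, k, hk, rfl⟩ := (hmemL x).mp hx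
      have e : h * (n * k) * h⁻¹ = (h * n * h⁻¹) * ⁅h, k⁆ * k := by
        rw [commutatorElement_def]; group
      rw [e]
      refine (hmemL _).mpr ⟨(h * n * h⁻¹) * ⁅h, k⁆,
        N₁.mul_mem (hN₁n.conj_mem n hn h) ?_, k, hk, rfl⟩
      rw [hN₁, hN]; exact Subgroup.mem_sup_left (Subgroup.commutator_mem_commutator hh hk)
    · exact hKL.trans Subgroup.le_normalizer
  have hK1 : ∀ h k : G, k ∈ K → (QuotientGroup.mk (h * k) : G ⧸ L) = QuotientGroup.mk h := by
    intro h k hk
    rw [QuotientGroup.eq]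
    have e : (h * k)⁻¹ * h = k⁻¹ := by group
    rw [e]; exact hKL (K.inv_mem hk)
  have hcomm : IsMulCommutative (G ⧸ L) := by
    constructor; constructor
    intro a b
    refine QuotientGroup.induction_on a ?_
    intro g₁
    refine QuotientGroup.induction_on b ?_
    intro g₂
    have hg₁ : g₁ ∈ H ⊔ K := by rw [hsup]; exact Subgroup.mem_top _
    have hg₂ : g₂ ∈ H ⊔ K := by rw [hsup]; exact Subgroup.mem_top _
    obtain ⟨h₁, hh₁, k₁, hk₁, rfl⟩ := Subgroup.mem_sup_of_normal_left.mp hg₁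
    obtain ⟨h₂, hh₂, k₂, hk₂, rfl⟩ := Subgroup.mem_sup_of_normal_left.mp hg₂
    rw [hK1 h₁ k₁ hk₁, hK1 h₂ k₂ hk₂, ← QuotientGroup.mk_mul, ← QuotientGroup.mk_mul,
      QuotientGroup.eq]
    have e : (h₁ * h₂)⁻¹ * (h₂ * h₁) = ⁅h₂⁻¹, h₁⁻¹⁆ := by
      rw [commutatorElement_def]; group
    rw [e]
    apply hN₁L
    rw [hN₁]
    exact Subgroup.mem_sup_right
      (Subgroup.commutator_mem_commutator (H.inv_mem hh₂) (H.inv_mem hh₁))
  have hGL : commutator G ≤ L :=
    Subgroup.Normal.quotient_commutative_iff_commutator_le.mp hcomm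
  have hHN₁ : H ≤ N₁ := by
    intro x hx
    obtain ⟨n, hn, k, hk, rfl⟩ := (hmemL x).mp (hGL (hHG hx))
    have hkH : k ∈ H := by
      have e : k = n⁻¹ * (n * k) := by group
      rw [e]; exact H.mul_mem (H.inv_mem (hN₁H hn)) hx
    have hk1 : k = 1 := by
      have h1 : k ∈ H ⊓ K := Subgroup.mem_inf.mpr ⟨hkH, hk⟩
      rw [hdisj, Subgroup.mem_bot] at h1; exact h1
    rw [hk1, mul_one]; exact hn
  by_contra hne
  have hHN : ¬ H ≤ N := fun h => hne (le_antisymm h hNH)
  have hbar : H.map (QuotientGroup.mk' N) ≠ ⊥ := by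
    intro h
    rw [Subgroup.map_eq_bot_iff, QuotientGroup.ker_mk'] at h
    exact hHN h
  have hlt := Group.IsSolvable.commutator_lt_of_ne_bot hbar
  rw [← Subgroup.map_commutator] at hlt
  have hle : H.map (QuotientGroup.mk' N) ≤ (⁅H, H⁆).map (QuotientGroup.mk' N) := by
    calc H.map (QuotientGroup.mk' N) ≤ N₁.map (QuotientGroup.mk' N) := Subgroup.map_mono hHN₁
      _ = N.map (QuotientGroup.mk' N) ⊔ (⁅H, H⁆).map (QuotientGroup.mk' N) := by
          rw [hN₁, Subgroup.map_sup]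
      _ = (⁅H, H⁆).map (QuotientGroup.mk' N) := by
          rw [(Subgroup.map_eq_bot_iff _).mpr (by rw [QuotientGroup.ker_mk']), bot_sup_eq]
  exact (not_lt_of_ge hle) hlt

theorem cent_le_comm {G : Type*} [Group G] [Finite G] (H K : Subgroup G) (hHn : H.Normal)
    (hcop : (Nat.card K).Coprime (Nat.card H)) (hHK : H = ⁅H, K⁆) :
    H ⊓ Subgroup.centralizer (K : Set G) ≤ ⁅H, H⁆ := by
  obtain ⟨π, hπ⟩ : ∃ π : G →* G ⧸ (⁅H, H⁆ : Subgroup G), π = QuotientGroup.mk' ⁅H, H⁆ :=
    ⟨_, rfl⟩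
  have hVc : IsMulCommutative (H.map π) := by
    constructor; constructor
    rintro ⟨_, ⟨a, ha, rfl⟩⟩ ⟨_, ⟨b, hb, rfl⟩⟩
    apply Subtype.ext
    show π a * π b = π b * π a
    rw [← map_mul, ← map_mul, hπ]
    show (QuotientGroup.mk (a * b) : G ⧸ (⁅H, H⁆ : Subgroup G)) = QuotientGroup.mk (b * a)
    rw [QuotientGroup.eq]
    have e : (a * b)⁻¹ * (b * a) = ⁅b⁻¹, a⁻¹⁆ := by rw [commutatorElement_def]; group
    rw [e]
    exact Subgroup.commutator_mem_commutator (H.inv_mem hb) (H.inv_mem ha)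
  have hAV : K.map π ≤ Subgroup.normalizer ((H.map π : Subgroup _) : Set _) := by
    have h1 : K ≤ Subgroup.normalizer (H : Set G) := by
      rw [Subgroup.normalizer_eq_top_iff.mpr hHn]; exact le_top
    exact (Subgroup.map_mono h1).trans (Subgroup.le_normalizer_map π)
  have hcop' : (Nat.card (K.map π)).Coprime (Nat.card (H.map π)) :=
    Nat.Coprime.coprime_dvd_left (Subgroup.card_map_dvd K π)
      (Nat.Coprime.coprime_dvd_right (Subgroup.card_map_dvd H π) hcop)
  have h55 := (Cfsg.Agent.S0055.result (K.map π) (H.map π) hAV hcop').1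
  have hVA : ⁅H.map π, K.map π⁆ = H.map π := by rw [← Subgroup.map_commutator, ← hHK]
  rw [hVA] at h55
  intro x hx
  obtain ⟨hxH, hxC⟩ := Subgroup.mem_inf.mp hx
  have h1 : π x ∈ (H.map π ⊓ Subgroup.centralizer ((K.map π : Subgroup _) : Set _)) ⊓
      H.map π := by
    refine Subgroup.mem_inf.mpr ⟨Subgroup.mem_inf.mpr
      ⟨Subgroup.mem_map_of_mem π hxH, ?_⟩, Subgroup.mem_map_of_mem π hxH⟩
    rw [Subgroup.mem_centralizer_iff]
    rintro _ ⟨k, hk, rfl⟩
    rw [← map_mul, ← map_mul, Subgroup.mem_centralizer_iff.mp hxC k hk]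
  rw [h55, Subgroup.mem_bot, hπ] at h1
  exact (QuotientGroup.eq_one_iff x).mp h1

theorem derived_coprime_aux {G : Type*} [Group G] [Finite G] (D : Subgroup G)
    (hDeq : D = commutator G) (hnil : Group.IsNilpotent ↥D) (q : ℕ) (hq : q.Prime)
    (hidx : D.index = q) : (Nat.card ↥D).Coprime q := by
  have : Fact q.Prime := ⟨hq⟩
  have hDn : D.Normal := by rw [hDeq]; infer_instance
  obtain ⟨P₀, R₀, hR₀n, hcomp⟩ := Cfsg.Agent.Lib.Lead.FpfAut.npc_of_nilpotent (H := ↥D) q
  have hidxR : R₀.index = Nat.card (P₀ : Subgroup D) := hcomp.symm.index_eq_card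
  have hcardR : Nat.card R₀ = (P₀ : Subgroup D).index := (hcomp.index_eq_card).symm
  have hRcop : (Nat.card R₀).Coprime q := by
    rw [hcardR]; exact ((Nat.Prime.coprime_iff_not_dvd hq).mpr P₀.not_dvd_index).symm
  obtain ⟨a, ha⟩ := IsPGroup.iff_card.mp P₀.isPGroup'
  have hqa : Nat.card (D ⧸ R₀) = q ^ a := by rw [← Subgroup.index_eq_card, hidxR, ha]
  have hkey : ∀ y : D, y ^ Nat.card R₀ = 1 → y ∈ R₀ := by
    intro y hy
    rw [← QuotientGroup.eq_one_iff]
    have h1 : (QuotientGroup.mk y : D ⧸ R₀) ^ Nat.card R₀ = 1 := by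
      rw [← QuotientGroup.mk_pow, hy]; rfl
    have h2 : (QuotientGroup.mk y : D ⧸ R₀) ^ (q ^ a) = 1 := by
      rw [← hqa]; exact pow_card_eq_one'
    have h3 : orderOf (QuotientGroup.mk y : D ⧸ R₀) ∣ Nat.gcd (Nat.card R₀) (q ^ a) :=
      Nat.dvd_gcd (orderOf_dvd_of_pow_eq_one h1) (orderOf_dvd_of_pow_eq_one h2)
    have h4 : Nat.gcd (Nat.card R₀) (q ^ a) = 1 := Nat.Coprime.pow_right a hRcop
    rw [h4] at h3
    exact orderOf_eq_one_iff.mp (Nat.dvd_one.mp h3)
  obtain ⟨R, hR⟩ : ∃ R : Subgroup G, R = R₀.map D.subtype := ⟨_, rfl⟩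
  have hRn : R.Normal := by
    constructor
    intro x hx g
    rw [hR] at hx ⊢
    obtain ⟨r, hr, rfl⟩ := hx
    have hmem : g * (r : G) * g⁻¹ ∈ D := hDn.conj_mem _ r.2 g
    refine ⟨⟨g * (r : G) * g⁻¹, hmem⟩, hkey _ ?_, rfl⟩
    apply Subtype.ext
    rw [Subgroup.coe_pow, Subgroup.coe_one]
    show (g * (r : G) * g⁻¹) ^ Nat.card R₀ = 1
    rw [conj_pow]
    have h1 : (r : D) ^ Nat.card R₀ = 1 := by
      have h := congrArg Subtype.val (pow_card_eq_one' (x := (⟨r, hr⟩ : R₀)))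
      rw [Subgroup.coe_pow, Subgroup.coe_one] at h
      exact h
    have h2 : (r : G) ^ Nat.card R₀ = 1 := by
      have h := congrArg Subtype.val h1
      rw [Subgroup.coe_pow, Subgroup.coe_one] at h
      exact h
    rw [h2]; group
  have hXp : IsPGroup q (G ⧸ R) := by
    intro x
    refine QuotientGroup.induction_on x ?_
    intro g
    refine ⟨a + 1, ?_⟩
    have hg1 : g ^ q ∈ D := by
      rw [← QuotientGroup.eq_one_iff, QuotientGroup.mk_pow]
      have h : Nat.card (G ⧸ D) = q := by rw [← Subgroup.index_eq_card, hidx]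
      rw [← h]; exact pow_card_eq_one'
    have hg2 : (⟨g ^ q, hg1⟩ : D) ^ (q ^ a) ∈ R₀ := by
      rw [← QuotientGroup.eq_one_iff, QuotientGroup.mk_pow, ← hqa]
      exact pow_card_eq_one'
    rw [← QuotientGroup.mk_pow, QuotientGroup.eq_one_iff, hR]
    refine ⟨_, hg2, ?_⟩
    show (g ^ q) ^ (q ^ a) = g ^ q ^ (a + 1)
    rw [← pow_mul, pow_succ']
  have hXnil : Group.IsNilpotent (G ⧸ R) := hXp.isNilpotent
  have hDmap : ∀ d ∈ D, (QuotientGroup.mk d : G ⧸ R) ∈ commutator (G ⧸ R) := by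
    intro d hd
    rw [hDeq, commutator_def] at hd
    have h := Subgroup.mem_map_of_mem (QuotientGroup.mk' R) hd
    rw [Subgroup.map_commutator] at h
    rw [commutator_def]
    exact Subgroup.commutator_mono le_top le_top h
  have hXcyc : IsCyclic ((G ⧸ R) ⧸ commutator (G ⧸ R)) := by
    have : IsCyclic (G ⧸ D) :=
      isCyclic_of_prime_card (p := q) (by rw [← Subgroup.index_eq_card, hidx])
    let f : G ⧸ D →* (G ⧸ R) ⧸ commutator (G ⧸ R) :=
      QuotientGroup.lift D ((QuotientGroup.mk' (commutator (G ⧸ R))).comp (QuotientGroup.mk' R))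
        (by
          intro d hd
          rw [MonoidHom.mem_ker]
          show (QuotientGroup.mk (QuotientGroup.mk d : G ⧸ R) :
            (G ⧸ R) ⧸ commutator (G ⧸ R)) = 1
          rw [QuotientGroup.eq_one_iff]
          exact hDmap d hd)
    apply isCyclic_of_surjective f
    intro y
    refine QuotientGroup.induction_on y ?_
    intro x
    refine QuotientGroup.induction_on x ?_
    intro g
    exact ⟨QuotientGroup.mk g, rfl⟩
  obtain ⟨Y, hY⟩ : ∃ Y : Subgroup (G ⧸ R), Y = ⁅commutator (G ⧸ R), ⊤⁆ := ⟨_, rfl⟩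
  have hYn : Y.Normal := by rw [hY]; infer_instance
  have hYle : Y ≤ commutator (G ⧸ R) := by rw [hY]; exact Subgroup.commutator_le_left _ _
  have hcommXY : IsMulCommutative ((G ⧸ R) ⧸ Y) := by
    let f : (G ⧸ R) ⧸ Y →* (G ⧸ R) ⧸ commutator (G ⧸ R) :=
      QuotientGroup.lift Y (QuotientGroup.mk' _) (by rw [QuotientGroup.ker_mk']; exact hYle)
    apply MonoidHom.isMulCommutative_of_isCyclic_of_ker_le_center f
    intro z
    refine QuotientGroup.induction_on z ?_
    intro x hx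
    have hx' : x ∈ commutator (G ⧸ R) := by
      rw [MonoidHom.mem_ker] at hx
      exact (QuotientGroup.eq_one_iff x).mp hx
    rw [Subgroup.mem_center_iff]
    intro w
    refine QuotientGroup.induction_on w ?_
    intro v
    rw [← QuotientGroup.mk_mul, ← QuotientGroup.mk_mul, QuotientGroup.eq]
    have e : (v * x)⁻¹ * (x * v) = ⁅x⁻¹, v⁻¹⁆ := by rw [commutatorElement_def]; group
    rw [e, hY]
    exact Subgroup.commutator_mem_commutator (Subgroup.inv_mem _ hx') (Subgroup.mem_top _)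
  have hXY : commutator (G ⧸ R) ≤ Y :=
    Subgroup.Normal.quotient_commutative_iff_commutator_le.mp hcommXY
  have hall : ∀ n : ℕ, commutator (G ⧸ R) ≤
      Subgroup.lowerCentralSeries (⊤ : Subgroup (G ⧸ R)) (n + 1) := by
    intro n
    induction n with
    | zero => rw [Subgroup.top_lowerCentralSeries_one]
    | succ k ih =>
      rw [Subgroup.lowerCentralSeries_succ]
      calc commutator (G ⧸ R) ≤ Y := hXY
        _ = ⁅commutator (G ⧸ R), ⊤⁆ := hY
        _ ≤ ⁅Subgroup.lowerCentralSeries (⊤ : Subgroup (G ⧸ R)) (k + 1), ⊤⁆ :=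
          Subgroup.commutator_mono ih le_rfl
  obtain ⟨n, hn⟩ := Subgroup.nilpotent_iff_lowerCentralSeries.mp hXnil
  have hX0 : commutator (G ⧸ R) = ⊥ := by
    rw [eq_bot_iff, ← hn]
    exact (hall n).trans (Subgroup.lowerCentralSeries_antitone _ (Nat.le_succ n))
  have hDR : D ≤ R := by
    intro d hd
    rw [← QuotientGroup.eq_one_iff (N := R)]
    have h1 := hDmap d hd
    rw [hX0, Subgroup.mem_bot] at h1
    exact h1
  have hR₀top : R₀ = ⊤ := by
    rw [eq_top_iff]
    intro d _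
    have h1 := hDR d.2
    rw [hR] at h1
    obtain ⟨r, hr, hre⟩ := h1
    have e : r = d := Subtype.ext hre
    rw [← e]; exact hr
  have hcard : Nat.card D = Nat.card R₀ := by rw [hR₀top]; exact (Subgroup.card_top).symm
  rw [hcard]; exact hRcop

/-- Let G be a finite solvable group. (a) If H is a normal subgroup of order coprime to its index, K is a complement to H, and H ≤ G', then H = [H, K] and H ∩ C_G(K) ≤ [H, H]. (b) If G' is nilpotent and has prime index in G, then the order of G' is coprime to its index and G' = [G, K] (the subgroup generated by commutators of elements of G with elements of K) for every complement K of G'. -/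
theorem result {G : Type*} [Group G] [Finite G] [Group.IsSolvable G] :
    (∀ (H K : Subgroup G), H.Normal → (Nat.card H).Coprime H.index → Subgroup.IsComplement' H K → H ≤ commutator G →
        H = ⁅H, K⁆ ∧ H ⊓ Subgroup.centralizer (K : Set G) ≤ ⁅H, H⁆) ∧
      (Group.IsNilpotent ↥(commutator G) → (commutator G).index.Prime →
        (Nat.card ↥(commutator G)).Coprime (commutator G).index ∧
        ∀ K : Subgroup G, Subgroup.IsComplement' (commutator G) K → commutator G = ⁅(⊤ : Subgroup G), K⁆) := by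
  have hA : ∀ (H K : Subgroup G), H.Normal → (Nat.card H).Coprime H.index →
      Subgroup.IsComplement' H K → H ≤ commutator G →
      H = ⁅H, K⁆ ∧ H ⊓ Subgroup.centralizer (K : Set G) ≤ ⁅H, H⁆ := by
    intro H K hHn hcop hc hHG
    have h1 := hall_eq_comm H K hHn hc.disjoint.eq_bot hc.sup_eq_top hHG
    refine ⟨h1, cent_le_comm H K hHn ?_ h1⟩
    have h2 : H.index = Nat.card K := hc.symm.index_eq_card
    rw [← h2]; exact hcop.symm
  refine ⟨hA, ?_⟩
  intro hnil hprime
  have hcop : (Nat.card ↥(commutator G)).Coprime (commutator G).index :=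
    derived_coprime_aux (commutator G) rfl hnil _ hprime rfl
  refine ⟨hcop, fun K hK => ?_⟩
  have h1 := (hA (commutator G) K inferInstance hcop hK le_rfl).1
  apply le_antisymm
  · calc commutator G = ⁅commutator G, K⁆ := h1
      _ ≤ ⁅(⊤ : Subgroup G), K⁆ := Subgroup.commutator_mono le_top le_rfl
  · rw [commutator_def]; exact Subgroup.commutator_mono le_rfl le_top

end Cfsg.Agent.S1459
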