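import Cfsg.Statements.S1460
import Cfsg.Agent.Lib.Helper10.Coprime2

set_option autoImplicit false
open Pointwise
open Cfsg

namespace Cfsg.Agent.S1460

open Cfsg.Agent.Lib.Helper10.Coprime
open Cfsg.Agent.Lib.Helper10.SZ
open scoped commutatorElement

theorem part3 {G : Type*} [Group G] [Finite G] [Group.IsSolvable G] (K U H : Subgroup G)
    [K.Normal] (hKU : K ⊔ U = ⊤) (hH : H ≤ U) (hcop : (Nat.card H).Coprime (Nat.card K))
    (g : G) (hg : ∀ h ∈ H, g * h * g⁻¹ ∈ U) :
    ∃ u ∈ U, ∃ c ∈ K ⊓ Subgroup.centralizer (H : Set G), g = u * c := by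
  have hgtop : g ∈ U ⊔ K := by
    rw [sup_comm, hKU]
    exact Subgroup.mem_top g
  obtain ⟨u, hu, k, hk, rfl⟩ := Subgroup.mem_sup_of_normal_right.mp hgtop
  have hkU : ∀ h ∈ H, k * h * k⁻¹ ∈ U := by
    intro h hh
    have h1 := U.mul_mem (U.mul_mem (U.inv_mem hu) (hg h hh)) hu
    have h2 : u⁻¹ * (u * k * h * (u * k)⁻¹) * u = k * h * k⁻¹ := by group
    rwa [h2] at h1
  have hD : H ≤ Subgroup.normalizer ((U ⊓ K : Subgroup G) : Set G) :=
    hH.trans (inf_normal_le_normalizer U K)
  have hcopD : (Nat.card (U ⊓ K : Subgroup G)).Coprime (Nat.card H) :=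
    Nat.Coprime.coprime_dvd_left (Subgroup.card_dvd_of_le inf_le_right) hcop.symm
  have hx : ∀ a ∈ H, k⁻¹⁻¹ * a * k⁻¹ * a⁻¹ ∈ U ⊓ K := by
    intro a ha
    rw [inv_inv]
    refine Subgroup.mem_inf.mpr ⟨U.mul_mem (hkU a ha) (U.inv_mem (hH ha)), ?_⟩
    have h1 : a * k⁻¹ * a⁻¹ ∈ K := Subgroup.Normal.conj_mem inferInstance _ (K.inv_mem hk) a
    have h2 := K.mul_mem hk h1
    simpa [mul_assoc] using h2
  obtain ⟨d, hd, hconj⟩ := key_lemma (U ⊓ K) H hD hcopD (Or.inl inferInstance) k⁻¹ hx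
  have hHK : H ≤ Subgroup.normalizer (K : Set G) := by
    rw [Subgroup.normalizer_eq_top]
    exact le_top
  have hdisj : H ⊓ K = ⊥ := (Subgroup.disjoint_of_coprime_natCard hcop).eq_bot
  have hcK : k⁻¹ * d ∈ K := K.mul_mem (K.inv_mem hk) hd.2
  have hcC := mem_centralizer_of_normalizes H K hHK hdisj _ hcK hconj
  refine ⟨u * d, U.mul_mem hu hd.1, (k⁻¹ * d)⁻¹,
    Subgroup.mem_inf.mpr ⟨K.inv_mem hcK, Subgroup.inv_mem _ hcC⟩, by group⟩

/-- Let G be a finite solvable group, K a normal subgroup and U a subgroup with G = KU, and H ≤ U a subgroup whose order is coprime to that of K. Then H ∩ G' = H ∩ U'; N_G(H) is generated by K ∩ C_G(H) and U ∩ N_G(H); and if gHg⁻¹ ≤ U for some g ∈ G then g = u c with u ∈ U and c ∈ K ∩ C_G(H). -/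
theorem result {G : Type*} [Group G] [Finite G] [Group.IsSolvable G] (K U H : Subgroup G) [K.Normal] (hKU : K ⊔ U = ⊤) (hH : H ≤ U) (hcop : (Nat.card H).Coprime (Nat.card K)) :
    H ⊓ commutator G = H ⊓ ⁅U, U⁆ ∧
      Subgroup.normalizer (H : Set G) = (K ⊓ Subgroup.centralizer (H : Set G)) ⊔ (U ⊓ Subgroup.normalizer (H : Set G)) ∧
      ∀ g : G, H.map (MulAut.conj g).toMonoidHom ≤ U → ∃ u ∈ U, ∃ c ∈ K ⊓ Subgroup.centralizer (H : Set G), g = u * c := by
  refine ⟨?_, ?_, ?_⟩
  · apply le_antisymm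
    · intro h hh
      obtain ⟨hhH, hhG⟩ := Subgroup.mem_inf.mp hh
      refine Subgroup.mem_inf.mpr ⟨hhH, ?_⟩
      have hA : commutator G ≤ ⁅U, U⁆ ⊔ K := by
        have h1 : (commutator G).map (QuotientGroup.mk' K) = (⁅U, U⁆).map (QuotientGroup.mk' K) := by
          rw [commutator_def, Subgroup.map_commutator, Subgroup.map_commutator, ← hKU,
            Subgroup.map_sup, QuotientGroup.map_mk'_self, bot_sup_eq]
        have h2 : commutator G ≤ ((commutator G).map (QuotientGroup.mk' K)).comap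
            (QuotientGroup.mk' K) := Subgroup.le_comap_map _ _
        rwa [h1, Subgroup.comap_map_eq, QuotientGroup.ker_mk'] at h2
      obtain ⟨y, hy, z, hz, hyz⟩ := Subgroup.mem_sup_of_normal_right.mp (hA hhG)
      have hyU : y ∈ U := Subgroup.commutator_le_self U hy
      have hhU : h ∈ U := hH hhH
      have hzU : z ∈ U := by
        have h1 : z = y⁻¹ * h := by rw [← hyz]; group
        rw [h1]
        exact U.mul_mem (U.inv_mem hyU) hhU
      have hy' : (⟨y, hyU⟩ : U) ∈ commutator U := by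
        rw [← Subgroup.map_subtype_commutator] at hy
        obtain ⟨w, hw, hw'⟩ := Subgroup.mem_map.mp hy
        have h1 : w = ⟨y, hyU⟩ := Subtype.ext hw'
        rwa [h1] at hw
      have hφ : QuotientGroup.mk' (commutator U) ⟨h, hhU⟩ =
          QuotientGroup.mk' (commutator U) ⟨z, hzU⟩ := by
        have h1 : (⟨h, hhU⟩ : U) = ⟨y, hyU⟩ * ⟨z, hzU⟩ := Subtype.ext hyz.symm
        have hy1 : QuotientGroup.mk' (commutator U) ⟨y, hyU⟩ = 1 :=
          (QuotientGroup.eq_one_iff _).mpr hy'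
        rw [h1, map_mul, hy1, one_mul]
      have hpowH : (QuotientGroup.mk' (commutator U) ⟨h, hhU⟩) ^ Nat.card H = 1 := by
        have h1 : (⟨h, hhH⟩ : H) ^ Nat.card H = 1 := pow_card_eq_one'
        have h2 : h ^ Nat.card H = 1 := by
          have := congrArg Subtype.val h1
          simpa only [Subgroup.coe_pow, Subgroup.coe_one, Subgroup.coe_mk] using this
        rw [← map_pow]
        have h3 : (⟨h, hhU⟩ : U) ^ Nat.card H = 1 := Subtype.ext (by simpa using h2)
        rw [h3, map_one]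
      have hpowK : (QuotientGroup.mk' (commutator U) ⟨h, hhU⟩) ^ Nat.card K = 1 := by
        rw [hφ]
        have h1 : (⟨z, hz⟩ : K) ^ Nat.card K = 1 := pow_card_eq_one'
        have h2 : z ^ Nat.card K = 1 := by
          have := congrArg Subtype.val h1
          simpa only [Subgroup.coe_pow, Subgroup.coe_one, Subgroup.coe_mk] using this
        rw [← map_pow]
        have h3 : (⟨z, hzU⟩ : U) ^ Nat.card K = 1 := Subtype.ext (by simpa using h2)
        rw [h3, map_one]
      have hord : orderOf (QuotientGroup.mk' (commutator U) ⟨h, hhU⟩) = 1 := by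
        have h1 := orderOf_dvd_of_pow_eq_one hpowH
        have h2 := orderOf_dvd_of_pow_eq_one hpowK
        have h3 := Nat.dvd_gcd h1 h2
        rw [Nat.Coprime.gcd_eq_one hcop] at h3
        exact Nat.dvd_one.mp h3
      have hker : (⟨h, hhU⟩ : U) ∈ commutator U :=
        (QuotientGroup.eq_one_iff _).mp (orderOf_eq_one_iff.mp hord)
      rw [← Subgroup.map_subtype_commutator]
      exact Subgroup.mem_map.mpr ⟨⟨h, hhU⟩, hker, rfl⟩
    · refine inf_le_inf_left _ ?_
      rw [commutator_def]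
      exact Subgroup.commutator_mono le_top le_top
  · apply le_antisymm
    · intro g hg
      have hg' : ∀ h ∈ H, g * h * g⁻¹ ∈ U := by
        intro h hh
        exact hH ((Subgroup.mem_set_normalizer_iff.mp hg h).mp hh)
      obtain ⟨u, hu, c, hc, rfl⟩ := part3 K U H hKU hH hcop g hg'
      have hcN : c ∈ Subgroup.normalizer (H : Set G) :=
        Subgroup.centralizer_le_normalizer _ (Subgroup.mem_inf.mp hc).2
      have huN : u ∈ Subgroup.normalizer (H : Set G) := by
        have h1 := Subgroup.mul_mem _ hg (Subgroup.inv_mem _ hcN)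
        rwa [mul_inv_cancel_right] at h1
      rw [sup_comm]
      exact Subgroup.mul_mem_sup (Subgroup.mem_inf.mpr ⟨hu, huN⟩) hc
    · exact sup_le (inf_le_right.trans (Subgroup.centralizer_le_normalizer _)) inf_le_right
  · intro g hg
    apply part3 K U H hKU hH hcop g
    intro h hh
    have h1 : (MulAut.conj g).toMonoidHom h ∈ H.map (MulAut.conj g).toMonoidHom :=
      Subgroup.mem_map_of_mem _ hh
    have h2 := hg h1
    simpa using h2

end Cfsg.Agent.S1460
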