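import Cfsg.Statements.S1461
import Cfsg.Agent.Lib.Helper10.PLength
import Cfsg.Agent.S1460

set_option autoImplicit false
open Pointwise
open Cfsg

namespace Cfsg.Agent.S1461

open Cfsg.Agent.Lib.Helper10.Coprime
open Cfsg.Agent.Lib.Helper10.SZ
open Cfsg.Agent.Lib.Helper10.PLength

/-- Let G be a finite solvable group, p a prime with G = O_{p',p,p'}(G), and S a Sylow p-subgroup. Then: if S ≤ G' then S ≤ [N_G(S), N_G(S)]; if Y ⊆ S and xYx⁻¹ ⊆ S then x = g c for some g ∈ N_G(S) and c centralizing Y; and for every p-subgroup Q there is x ∈ C_G(Q ∩ S) with xQx⁻¹ ≤ S. -/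
theorem result {G : Type*} [Group G] [Finite G] [Group.IsSolvable G] (p : ℕ) [Fact p.Prime] (hpl : Cfsg.PLengthLE p 1 G) (S : Sylow p G) :
    ((S : Subgroup G) ≤ commutator G → (S : Subgroup G) ≤ ⁅Subgroup.normalizer ((S : Subgroup G) : Set G), Subgroup.normalizer ((S : Subgroup G) : Set G)⁆) ∧
      (∀ (Y : Set G) (x : G), Y ⊆ (S : Subgroup G) → (fun y => x * y * x⁻¹) '' Y ⊆ (S : Subgroup G) →
        ∃ g ∈ Subgroup.normalizer ((S : Subgroup G) : Set G), ∃ c ∈ Subgroup.centralizer Y, g * c = x) ∧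
      ∀ Q : Subgroup G, IsPGroup p Q → ∃ x ∈ Subgroup.centralizer ((Q ⊓ (S : Subgroup G) : Subgroup G) : Set G), Q.map (MulAut.conj x).toMonoidHom ≤ (S : Subgroup G) := by
  obtain ⟨K, hKn, hKp, hKS⟩ := plength_one p hpl
  have hKU := hKS S
  have hSU : (S : Subgroup G) ≤ Subgroup.normalizer ((S : Subgroup G) : Set G) :=
    Subgroup.le_normalizer
  have hcopOf : ∀ H : Subgroup G, H ≤ (S : Subgroup G) → (Nat.card H).Coprime (Nat.card K) := by
    intro H hH
    obtain ⟨a, ha⟩ := IsPGroup.iff_card.mp (S.isPGroup'.to_le hH)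
    rw [ha]
    exact Nat.Coprime.pow_left a hKp.symm
  refine ⟨?_, ?_, ?_⟩
  · intro hS
    have h1 := (Cfsg.Agent.S1460.result K (Subgroup.normalizer ((S : Subgroup G) : Set G))
      (S : Subgroup G) hKU hSU (hcopOf _ le_rfl)).1
    have h2 : (S : Subgroup G) ≤ (S : Subgroup G) ⊓ commutator G := le_inf le_rfl hS
    rw [h1] at h2
    exact h2.trans inf_le_right
  · intro Y x hY hxY
    have hH : Subgroup.closure Y ≤ (S : Subgroup G) := (Subgroup.closure_le _).mpr hY
    have hg : ∀ h ∈ Subgroup.closure Y, x * h * x⁻¹ ∈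
        Subgroup.normalizer ((S : Subgroup G) : Set G) := by
      intro h hh
      apply hSU
      have h1 : Subgroup.closure Y ≤ (S : Subgroup G).comap (MulAut.conj x).toMonoidHom := by
        rw [Subgroup.closure_le]
        intro y hy
        have h2 : x * y * x⁻¹ ∈ (S : Subgroup G) := hxY ⟨y, hy, rfl⟩
        exact h2
      have h3 := h1 hh
      simpa using h3
    obtain ⟨u, hu, c, hc, hx⟩ := Cfsg.Agent.S1460.part3 K
      (Subgroup.normalizer ((S : Subgroup G) : Set G)) (Subgroup.closure Y) hKU (hH.trans hSU)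
      (hcopOf _ hH) x hg
    exact ⟨u, hu, c, Subgroup.centralizer_le Subgroup.subset_closure (Subgroup.mem_inf.mp hc).2,
      hx.symm⟩
  · intro Q hQ
    obtain ⟨S', hS'⟩ := hQ.exists_le_sylow
    obtain ⟨g, hg⟩ := MulAction.exists_smul_eq G S' S
    have hgQ : ∀ q ∈ Q, g * q * g⁻¹ ∈ (S : Subgroup G) := by
      intro q hq
      have h1 : q ∈ (S' : Subgroup G) := hS' hq
      have h2 := Subgroup.smul_mem_pointwise_smul q (MulAut.conj g) (S' : Subgroup G) h1
      rw [← Sylow.coe_subgroup_smul, hg] at h2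
      simpa using h2
    have hgD : ∀ h ∈ Q ⊓ (S : Subgroup G), g * h * g⁻¹ ∈
        Subgroup.normalizer ((S : Subgroup G) : Set G) :=
      fun h hh => hSU (hgQ h (Subgroup.mem_inf.mp hh).1)
    obtain ⟨u, hu, c, hc, hx⟩ := Cfsg.Agent.S1460.part3 K
      (Subgroup.normalizer ((S : Subgroup G) : Set G)) (Q ⊓ (S : Subgroup G)) hKU
      (inf_le_right.trans hSU) (hcopOf _ inf_le_right) g hgD
    refine ⟨c, (Subgroup.mem_inf.mp hc).2, ?_⟩
    rintro _ ⟨q, hq, rfl⟩
    have h1 := hgQ q hq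
    have h2 : u⁻¹ * (g * q * g⁻¹) * u ∈ (S : Subgroup G) :=
      (Subgroup.mem_set_normalizer_iff''.mp hu _).mp h1
    have h3 : u⁻¹ * (g * q * g⁻¹) * u = c * q * c⁻¹ := by
      rw [hx]
      group
    rw [h3] at h2
    simpa using h2

end Cfsg.Agent.S1461
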