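import Cfsg.Statements.S1466

set_option autoImplicit false
open Cfsg

namespace Cfsg.Agent.S1466

theorem exists_central_of_normal {G : Type*} [Group G] [Finite G] (p : ℕ) [Fact p.Prime]
    (hG : IsPGroup p G) (N : Subgroup G) [N.Normal] (hN : N ≠ ⊥) :
    ∃ z ∈ N, z ∈ Subgroup.center G ∧ z ≠ 1 := by
  have hG' : IsPGroup p (ConjAct G) := hG.of_equiv ConjAct.toConjAct
  have hNp : IsPGroup p N := hG.to_subgroup N
  have hcard : p ∣ Nat.card N := by
    rcases hNp.card_eq_or_dvd with h | h
    · exact absurd (Subgroup.card_eq_one.mp h) hN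
    · exact h
  have hfix : (1 : N) ∈ MulAction.fixedPoints (ConjAct G) N := by
    intro g
    exact smul_one g
  obtain ⟨b, hb, hb1⟩ := hG'.exists_fixed_point_of_prime_dvd_card_of_fixed_point N hcard hfix
  refine ⟨b, b.2, ?_, ?_⟩
  · rw [Subgroup.mem_center_iff]
    intro g
    have h := hb (ConjAct.toConjAct g)
    have h2 : g * (b : G) * g⁻¹ = b := congrArg Subtype.val h
    calc g * (b : G) = g * b * g⁻¹ * g := by group
      _ = b * g := by rw [h2]
  · intro h
    apply hb1
    exact Subtype.ext h.symm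

theorem exists_self_centralizing {R : Type*} [Group R] [Finite R] (p : ℕ) [Fact p.Prime]
    (hR : IsPGroup p R) :
    ∃ A : Subgroup R, A.Normal ∧ IsMulCommutative A ∧ Subgroup.centralizer (A : Set R) ≤ A := by
  let S : Set (Subgroup R) := {A | A.Normal ∧ IsMulCommutative A}
  have hne : S.Nonempty := ⟨⊥, inferInstance, inferInstance⟩
  obtain ⟨A, hAS, hAmax⟩ := (wellFounded_gt : WellFounded (α := Subgroup R) (· > ·)).has_min S hne
  obtain ⟨hAn, hAc⟩ := hAS
  refine ⟨A, hAn, hAc, ?_⟩
  by_contra hnot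
  haveI := hAn
  haveI : (Subgroup.centralizer (A : Set R)).Normal := Subgroup.normal_centralizer
  let π := QuotientGroup.mk' A
  have hπ : Function.Surjective π := QuotientGroup.mk'_surjective A
  have hQ : IsPGroup p (R ⧸ A) := hR.to_quotient A
  haveI : ((Subgroup.centralizer (A : Set R)).map π).Normal :=
    Subgroup.Normal.map inferInstance π hπ
  have hCne : (Subgroup.centralizer (A : Set R)).map π ≠ ⊥ := by
    intro h
    apply hnot
    intro c hc
    have : π c ∈ (Subgroup.centralizer (A : Set R)).map π := Subgroup.mem_map_of_mem π hc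
    rw [h, Subgroup.mem_bot] at this
    exact (QuotientGroup.eq_one_iff c).mp this
  obtain ⟨z, hzC, hzZ, hz1⟩ := exists_central_of_normal p hQ _ hCne
  obtain ⟨x, hxC, rfl⟩ := hzC
  have hxA : x ∉ A := fun h => hz1 ((QuotientGroup.eq_one_iff x).mpr h)
  let B : Subgroup R := A ⊔ Subgroup.zpowers x
  have hBn : B.Normal := by
    constructor
    intro n hn g
    have hmap : B.map (MulAut.conj g).toMonoidHom ≤ B := by
      rw [Subgroup.map_sup, MonoidHom.map_zpowers]
      apply sup_le
      · rintro _ ⟨a, ha, rfl⟩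
        exact Subgroup.mem_sup_left (hAn.conj_mem a ha g)
      · rw [Subgroup.zpowers_le]
        have h1 : π (g * x * g⁻¹) = π x := by
          rw [map_mul, map_mul, map_inv]
          have := (Subgroup.mem_center_iff.mp hzZ (π g))
          rw [this]
          group
        have h2 : x⁻¹ * (g * x * g⁻¹) ∈ A := by
          rw [← QuotientGroup.eq_one_iff]
          change π (x⁻¹ * (g * x * g⁻¹)) = 1
          rw [map_mul, h1, map_inv]
          group
        have h3 : (MulAut.conj g).toMonoidHom x = x * (x⁻¹ * (g * x * g⁻¹)) := by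
          simp [MulAut.conj_apply]
        rw [h3]
        exact Subgroup.mul_mem _ (Subgroup.mem_sup_right (Subgroup.mem_zpowers x))
          (Subgroup.mem_sup_left h2)
    exact hmap ⟨n, hn, rfl⟩
  have hBc : IsMulCommutative B := by
    have hB : B = Subgroup.closure ((A : Set R) ∪ {x}) := by
      rw [Subgroup.closure_union, Subgroup.closure_eq, ← Subgroup.zpowers_eq_closure]
    rw [hB]
    apply Subgroup.isMulCommutative_closure
    rintro a (ha | ha) b (hb | hb)
    · exact (Subgroup.le_centralizer_iff_isMulCommutative.mpr hAc ha b hb).symm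
    · rw [Set.mem_singleton_iff] at hb
      subst hb
      exact (hxC a ha)
    · rw [Set.mem_singleton_iff] at ha
      subst ha
      exact (hxC b hb).symm
    · rw [Set.mem_singleton_iff] at ha hb
      rw [ha, hb]
  have hAB : A < B := by
    refine lt_of_le_of_ne le_sup_left ?_
    intro h
    apply hxA
    rw [h]
    exact Subgroup.mem_sup_right (Subgroup.mem_zpowers x)
  exact hAmax B ⟨hBn, hBc⟩ hAB

theorem le_puigStep {R : Type*} [Group R] (A X : Subgroup R) (hAn : A.Normal)
    (hAc : IsMulCommutative A) : A ≤ Cfsg.puigStep X := by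
  apply le_sSup
  refine ⟨hAc, ?_⟩
  rw [Subgroup.normalizer_eq_top_iff.mpr hAn]
  exact le_top

theorem le_puigSeq {R : Type*} [Group R] (A : Subgroup R) (hAn : A.Normal)
    (hAc : IsMulCommutative A) (i : ℕ) (hi : 0 < i) : A ≤ Cfsg.puigSeq R i := by
  obtain ⟨j, rfl⟩ : ∃ j, i = j + 1 := ⟨i - 1, by omega⟩
  exact le_puigStep A _ hAn hAc

theorem result {R : Type*} [Group R] [Finite R] (p : ℕ) [Fact p.Prime] (hR : IsPGroup p R) [Nontrivial R] :
    (∀ i : ℕ, 0 < i → Subgroup.center R ≤ Subgroup.centralizer ((Cfsg.puigSeq R i : Subgroup R) : Set R) ∧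
        Subgroup.centralizer ((Cfsg.puigSeq R i : Subgroup R) : Set R) ≤ Cfsg.puigSeq R i) ∧
      (Subgroup.center R ≤ Subgroup.centralizer ((Cfsg.puigLower R : Subgroup R) : Set R) ∧ Subgroup.centralizer ((Cfsg.puigLower R : Subgroup R) : Set R) ≤ Cfsg.puigLower R) ∧
      (Subgroup.center R ≤ Subgroup.centralizer ((Cfsg.puigSubgroup R : Subgroup R) : Set R) ∧ Subgroup.centralizer ((Cfsg.puigSubgroup R : Subgroup R) : Set R) ≤ Cfsg.puigSubgroup R) ∧
      Cfsg.puigSubgroup R ≠ ⊥ ∧ Cfsg.puigLower R ≠ ⊥ := by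
  obtain ⟨A, hAn, hAc, hCA⟩ := exists_self_centralizing p hR
  have key : ∀ L : Subgroup R, A ≤ L →
      Subgroup.center R ≤ Subgroup.centralizer (L : Set R) ∧ Subgroup.centralizer (L : Set R) ≤ L := by
    intro L hAL
    exact ⟨Subgroup.center_le_centralizer _, (Subgroup.centralizer_le hAL).trans (hCA.trans hAL)⟩
  have hlow : A ≤ Cfsg.puigLower R := by
    unfold Cfsg.puigLower
    exact (le_puigSeq A hAn hAc (2 * 1) (by norm_num)).trans
      (le_iSup (fun n : ℕ => Cfsg.puigSeq R (2 * n)) 1)
  have hup : A ≤ Cfsg.puigSubgroup R := by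
    unfold Cfsg.puigSubgroup
    exact le_iInf (fun n => le_puigSeq A hAn hAc (2 * n + 1) (by omega))
  have hnb : ∀ L : Subgroup R, Subgroup.centralizer (L : Set R) ≤ L → L ≠ ⊥ := by
    intro L hL h
    rw [h] at hL
    have htop : (⊤ : Subgroup R) ≤ ⊥ := by
      refine le_trans ?_ hL
      intro x _
      rw [Subgroup.mem_centralizer_iff]
      intro y hy
      rw [Subgroup.coe_bot, Set.mem_singleton_iff] at hy
      rw [hy]; simp
    exact bot_ne_top (le_antisymm bot_le htop)
  exact ⟨fun i hi => key _ (le_puigSeq A hAn hAc i hi), key _ hlow, key _ hup,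
    hnb _ (key _ hup).2, hnb _ (key _ hlow).2⟩

end Cfsg.Agent.S1466
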