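import Cfsg.Statements.S1467

set_option autoImplicit false
open Cfsg

namespace Cfsg.Agent.S1467

theorem puigStep_anti {G : Type*} [Group G] {X Y : Subgroup G} (h : X ≤ Y) :
    Cfsg.puigStep Y ≤ Cfsg.puigStep X := by
  unfold Cfsg.puigStep
  apply sSup_le_sSup
  rintro A ⟨hA, hY⟩
  exact ⟨hA, h.trans hY⟩

theorem puigStep_bot {G : Type*} [Group G] : Cfsg.puigStep (⊥ : Subgroup G) = ⊤ := by
  rw [eq_top_iff]
  intro x _
  have h : Subgroup.zpowers x ≤ Cfsg.puigStep ⊥ := by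
    apply le_sSup
    refine ⟨?_, bot_le⟩
    infer_instance
  exact h (Subgroup.mem_zpowers x)

theorem seq_zero {G : Type*} [Group G] : Cfsg.puigSeq G 0 = ⊥ := rfl

theorem seq_succ {G : Type*} [Group G] (n : ℕ) :
    Cfsg.puigSeq G (n + 1) = Cfsg.puigStep (Cfsg.puigSeq G n) := rfl

theorem seq_one {G : Type*} [Group G] : Cfsg.puigSeq G 1 = ⊤ := by
  rw [seq_succ, seq_zero, puigStep_bot]

theorem even_le_odd {G : Type*} [Group G] (n : ℕ) :
    Cfsg.puigSeq G (2 * n) ≤ Cfsg.puigSeq G (2 * n + 1) ∧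
    Cfsg.puigSeq G (2 * n + 2) ≤ Cfsg.puigSeq G (2 * n + 1) := by
  induction n with
  | zero =>
    refine ⟨?_, ?_⟩
    · rw [seq_zero]; exact bot_le
    · show Cfsg.puigSeq G 2 ≤ Cfsg.puigSeq G 1
      rw [seq_one]; exact le_top
  | succ k ih =>
    have h1 : Cfsg.puigSeq G (2 * (k + 1)) ≤ Cfsg.puigSeq G (2 * (k + 1) + 1) := by
      have : 2 * (k + 1) = 2 * k + 1 + 1 := by ring
      rw [this, seq_succ (2 * k + 1 + 1), seq_succ (2 * k + 1)]
      exact puigStep_anti ih.2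
    refine ⟨h1, ?_⟩
    rw [seq_succ (2 * (k + 1) + 1), seq_succ (2 * (k + 1))]
    exact puigStep_anti h1

theorem even_mono_step {G : Type*} [Group G] (n : ℕ) :
    Cfsg.puigSeq G (2 * n) ≤ Cfsg.puigSeq G (2 * n + 2) ∧
    Cfsg.puigSeq G (2 * n + 3) ≤ Cfsg.puigSeq G (2 * n + 1) := by
  induction n with
  | zero =>
    refine ⟨?_, ?_⟩
    · rw [seq_zero]; exact bot_le
    · show Cfsg.puigSeq G 3 ≤ Cfsg.puigSeq G 1
      rw [seq_one]; exact le_top
  | succ k ih =>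
    have h1 : Cfsg.puigSeq G (2 * (k + 1)) ≤ Cfsg.puigSeq G (2 * (k + 1) + 2) := by
      have e1 : 2 * (k + 1) = 2 * k + 1 + 1 := by ring
      have e2 : 2 * (k + 1) + 2 = 2 * k + 3 + 1 := by ring
      rw [e2, e1, seq_succ (2 * k + 3), seq_succ (2 * k + 1)]
      exact puigStep_anti ih.2
    refine ⟨h1, ?_⟩
    have e3 : 2 * (k + 1) + 3 = 2 * (k + 1) + 2 + 1 := by ring
    rw [e3, seq_succ (2 * (k + 1) + 2), seq_succ (2 * (k + 1))]
    exact puigStep_anti h1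

theorem even_monotone {G : Type*} [Group G] :
    Monotone (fun n : ℕ => Cfsg.puigSeq G (2 * n)) :=
  monotone_nat_of_le_succ (fun n => (even_mono_step n).1)

theorem odd_antitone {G : Type*} [Group G] :
    Antitone (fun n : ℕ => Cfsg.puigSeq G (2 * n + 1)) :=
  antitone_nat_of_succ_le (fun n => (even_mono_step n).2)

theorem even_le_odd_all {G : Type*} [Group G] (n m : ℕ) :
    Cfsg.puigSeq G (2 * n) ≤ Cfsg.puigSeq G (2 * m + 1) := by
  calc Cfsg.puigSeq G (2 * n) ≤ Cfsg.puigSeq G (2 * (max n m)) := even_monotone (le_max_left n m)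
    _ ≤ Cfsg.puigSeq G (2 * (max n m) + 1) := (even_le_odd _).1
    _ ≤ Cfsg.puigSeq G (2 * m + 1) := odd_antitone (le_max_right n m)

theorem result {G : Type*} [Group G] [Finite G] :
    Cfsg.puigSeq G 0 = ⊥ ∧ Cfsg.puigSeq G 1 = ⊤ ∧
      (∀ n m : ℕ, Cfsg.puigSeq G (2 * n) ≤ Cfsg.puigSeq G (2 * n + 2) ∧ Cfsg.puigSeq G (2 * n) ≤ Cfsg.puigSeq G (2 * m + 1) ∧
        Cfsg.puigSeq G (2 * m + 3) ≤ Cfsg.puigSeq G (2 * m + 1)) ∧
      (∃ k : ℕ, ∀ n : ℕ, k ≤ n → Cfsg.puigSeq G (2 * n) = Cfsg.puigLower G ∧ Cfsg.puigSeq G (2 * n + 1) = Cfsg.puigSubgroup G) ∧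
      Cfsg.puigLower G ≤ Cfsg.puigSubgroup G ∧
      Cfsg.puigStep (Cfsg.puigLower G) = Cfsg.puigSubgroup G ∧ Cfsg.puigStep (Cfsg.puigSubgroup G) = Cfsg.puigLower G := by
  have hstab : ∃ k : ℕ, ∀ n : ℕ, k ≤ n → Cfsg.puigSeq G (2 * n) = Cfsg.puigLower G ∧
      Cfsg.puigSeq G (2 * n + 1) = Cfsg.puigSubgroup G := by
    have hwf : WellFoundedGT (Subgroup G) := inferInstance
    have hwf' : WellFoundedGT (Subgroup G)ᵒᵈ := inferInstance
    obtain ⟨k₁, hk₁⟩ := (wellFoundedGT_iff_monotone_chain_condition.mp hwf) ⟨_, even_monotone (G := G)⟩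
    obtain ⟨k₂, hk₂⟩ := (wellFoundedGT_iff_monotone_chain_condition.mp hwf')
      ⟨fun n => OrderDual.toDual (Cfsg.puigSeq G (2 * n + 1)), fun a b hab => odd_antitone (G := G) hab⟩
    refine ⟨max k₁ k₂, fun n hn => ⟨?_, ?_⟩⟩
    · have hk1n : k₁ ≤ n := (le_max_left _ _).trans hn
      unfold Cfsg.puigLower
      apply le_antisymm
      · exact le_iSup (fun n : ℕ => Cfsg.puigSeq G (2 * n)) n
      · apply iSup_le
        intro m
        rcases le_total m n with h | h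
        · exact even_monotone h
        · have e1 := hk₁ m (hk1n.trans h)
          have e2 := hk₁ n hk1n
          simp only [OrderHom.coe_mk] at e1 e2
          rw [← e1, e2]
    · have hk2n : k₂ ≤ n := (le_max_right _ _).trans hn
      unfold Cfsg.puigSubgroup
      apply le_antisymm
      · apply le_iInf
        intro m
        rcases le_total m n with h | h
        · exact odd_antitone h
        · have e1 : Cfsg.puigSeq G (2 * k₂ + 1) = Cfsg.puigSeq G (2 * m + 1) :=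
            congrArg OrderDual.ofDual (hk₂ m (hk2n.trans h))
          have e2 : Cfsg.puigSeq G (2 * k₂ + 1) = Cfsg.puigSeq G (2 * n + 1) :=
            congrArg OrderDual.ofDual (hk₂ n hk2n)
          rw [← e1, e2]
      · exact iInf_le (fun n : ℕ => Cfsg.puigSeq G (2 * n + 1)) n
  obtain ⟨k, hk⟩ := hstab
  refine ⟨seq_zero, seq_one, fun n m => ⟨(even_mono_step n).1, even_le_odd_all n m, (even_mono_step m).2⟩,
    ⟨k, hk⟩, ?_, ?_, ?_⟩
  · rw [← (hk k le_rfl).1, ← (hk k le_rfl).2]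
    exact (even_le_odd k).1
  · rw [← (hk k le_rfl).1, ← (hk k le_rfl).2]
    rfl
  · rw [← (hk k le_rfl).2, ← (hk (k + 1) (Nat.le_succ k)).1]
    rfl

end Cfsg.Agent.S1467
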