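import Cfsg.Statements.S1470
import Mathlib.LinearAlgebra.Charpoly.Basic
import Mathlib.Algebra.Polynomial.Roots
import Mathlib.Data.Set.Card

set_option autoImplicit false
open Cfsg

namespace Cfsg.Agent.S1470

open Polynomial in
theorem norm_sub_eq_eval (p q : ℕ) [Fact p.Prime] (b : GaloisField p q) (t : ZMod p) :
    Algebra.norm (ZMod p) (algebraMap (ZMod p) (GaloisField p q) t - b) =
      (LinearMap.charpoly (Algebra.lmul (ZMod p) (GaloisField p q) b)).eval t := by
  rw [LinearMap.eval_charpoly, Algebra.norm_apply]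
  congr 1
  rw [map_sub, AlgHom.commutes]

theorem result (p q : ℕ) [Fact p.Prime] [Fact q.Prime] (hp : p ≠ 2) (hq : q ≠ 2) (hA : Nat.Coprime ((p ^ q - 1) / (p - 1)) (p - 1))
    (hinv : ∀ a ∈ {a : GaloisField p q | Algebra.norm (ZMod p) a = 1 ∧ Algebra.norm (ZMod p) (2 - a) = 1}, a⁻¹ ∈ {a : GaloisField p q | Algebra.norm (ZMod p) a = 1 ∧ Algebra.norm (ZMod p) (2 - a) = 1})
    (h2 : 2 ≤ Set.ncard {a : GaloisField p q | Algebra.norm (ZMod p) a = 1 ∧ Algebra.norm (ZMod p) (2 - a) = 1}) :
    p ≤ q := by
  have hq0 : q ≠ 0 := (Fact.out : q.Prime).ne_zero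
  haveI : Finite (GaloisField p q) := inferInstance
  obtain ⟨a, haE, ha1⟩ : ∃ a ∈ {a : GaloisField p q | Algebra.norm (ZMod p) a = 1 ∧
      Algebra.norm (ZMod p) (2 - a) = 1}, a ≠ 1 := by
    have h1 : 1 < Set.ncard {a : GaloisField p q | Algebra.norm (ZMod p) a = 1 ∧
      Algebra.norm (ZMod p) (2 - a) = 1} := h2
    rw [Set.one_lt_ncard_iff (Set.toFinite _)] at h1
    obtain ⟨x, y, hx, hy, hxy⟩ := h1
    by_cases h : x = 1
    · exact ⟨y, hy, fun h' => hxy (h.trans h'.symm)⟩
    · exact ⟨x, hx, h⟩
  set b : GaloisField p q := (a - 1)⁻¹ with hb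
  have hb0 : b ≠ 0 := inv_ne_zero (sub_ne_zero.mpr ha1)
  have step : ∀ k : ℕ, b - (k : GaloisField p q) ≠ 0 ∧
      (Algebra.norm (ZMod p) (1 + (b - (k : GaloisField p q))⁻¹) = 1 ∧
        Algebra.norm (ZMod p) (2 - (1 + (b - (k : GaloisField p q))⁻¹)) = 1) := by
    intro k
    induction k with
    | zero =>
      refine ⟨by simpa using hb0, ?_⟩
      have e : 1 + (b - ((0 : ℕ) : GaloisField p q))⁻¹ = a := by
        simp [hb]
      rw [e]
      exact haE
    | succ k ih =>
      obtain ⟨hk0, hkE⟩ := ih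
      have h2a : 2 - (1 + (b - (k : GaloisField p q))⁻¹) =
          (b - ((k + 1 : ℕ) : GaloisField p q)) * (b - (k : GaloisField p q))⁻¹ := by
        push_cast
        field_simp
        ring
      have hne : b - ((k + 1 : ℕ) : GaloisField p q) ≠ 0 := by
        intro h0
        have hn := hkE.2
        rw [h2a, h0, zero_mul, Algebra.norm_zero] at hn
        exact zero_ne_one hn
      refine ⟨hne, ?_⟩
      have e : 1 + (b - ((k + 1 : ℕ) : GaloisField p q))⁻¹ =
          (2 - (1 + (b - (k : GaloisField p q))⁻¹))⁻¹ := by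
        rw [h2a, mul_inv, inv_inv]
        field_simp
        push_cast
        ring
      rw [e]
      have hmem : (2 - (1 + (b - (k : GaloisField p q))⁻¹)) ∈
          {a : GaloisField p q | Algebra.norm (ZMod p) a = 1 ∧ Algebra.norm (ZMod p) (2 - a) = 1} := by
        refine ⟨hkE.2, ?_⟩
        have e2 : 2 - (2 - (1 + (b - (k : GaloisField p q))⁻¹)) = 1 + (b - (k : GaloisField p q))⁻¹ := by
          ring
        rw [e2]
        exact hkE.1
      exact hinv _ hmem
  have hconst : ∀ k : ℕ, Algebra.norm (ZMod p) (b - ((k + 1 : ℕ) : GaloisField p q)) =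
      Algebra.norm (ZMod p) (b - (k : GaloisField p q)) := by
    intro k
    have h1 := (step k).2.2
    have h2a : 2 - (1 + (b - (k : GaloisField p q))⁻¹) =
        (b - ((k + 1 : ℕ) : GaloisField p q)) * (b - (k : GaloisField p q))⁻¹ := by
      have := (step k).1
      push_cast
      field_simp
      ring
    rw [h2a, map_mul] at h1
    have h3 : Algebra.norm (ZMod p) (b - (k : GaloisField p q)) *
        Algebra.norm (ZMod p) ((b - (k : GaloisField p q))⁻¹) = 1 := by
      rw [← map_mul, mul_inv_cancel₀ (step k).1, map_one]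
    calc Algebra.norm (ZMod p) (b - ((k + 1 : ℕ) : GaloisField p q))
        = Algebra.norm (ZMod p) (b - ((k + 1 : ℕ) : GaloisField p q)) *
          (Algebra.norm (ZMod p) (b - (k : GaloisField p q)) *
            Algebra.norm (ZMod p) ((b - (k : GaloisField p q))⁻¹)) := by rw [h3, mul_one]
      _ = (Algebra.norm (ZMod p) (b - ((k + 1 : ℕ) : GaloisField p q)) *
            Algebra.norm (ZMod p) ((b - (k : GaloisField p q))⁻¹)) *
            Algebra.norm (ZMod p) (b - (k : GaloisField p q)) := by ring
      _ = Algebra.norm (ZMod p) (b - (k : GaloisField p q)) := by rw [h1, one_mul]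
  have hconst' : ∀ k : ℕ, Algebra.norm (ZMod p) (b - (k : GaloisField p q)) =
      Algebra.norm (ZMod p) b := by
    intro k
    induction k with
    | zero => simp
    | succ k ih => rw [hconst k, ih]
  have hneg : ∀ x : GaloisField p q, Algebra.norm (ZMod p) (-x) =
      Algebra.norm (ZMod p) (-1 : GaloisField p q) * Algebra.norm (ZMod p) x := by
    intro x
    rw [← map_mul]
    congr 1
    ring
  have heval : ∀ t : ZMod p,
      (LinearMap.charpoly (Algebra.lmul (ZMod p) (GaloisField p q) b)).eval t =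
        Algebra.norm (ZMod p) (-1 : GaloisField p q) * Algebra.norm (ZMod p) b := by
    intro t
    rw [← norm_sub_eq_eval]
    have ht : algebraMap (ZMod p) (GaloisField p q) t = ((t.val : ℕ) : GaloisField p q) := by
      conv_lhs => rw [← ZMod.natCast_zmod_val t]
      rw [map_natCast]
    rw [ht]
    have e : ((t.val : ℕ) : GaloisField p q) - b = -(b - ((t.val : ℕ) : GaloisField p q)) := by ring
    rw [e, hneg, hconst']
  by_contra hlt
  rw [not_le] at hlt
  set f := LinearMap.charpoly (Algebra.lmul (ZMod p) (GaloisField p q) b) with hf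
  have hdeg : f.natDegree = q := by
    rw [hf, LinearMap.charpoly_natDegree, GaloisField.finrank p hq0]
  set c := Algebra.norm (ZMod p) (-1 : GaloisField p q) * Algebra.norm (ZMod p) b with hc
  have hzero : f - Polynomial.C c = 0 := by
    apply Polynomial.eq_zero_of_natDegree_lt_card_of_eval_eq_zero' (f - Polynomial.C c) Finset.univ
    · intro t _
      rw [Polynomial.eval_sub, Polynomial.eval_C, heval t, sub_self]
    · rw [Polynomial.natDegree_sub_C, hdeg, Finset.card_univ, ZMod.card]
      exact hlt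
  have hfc : f = Polynomial.C c := sub_eq_zero.mp hzero
  rw [hfc, Polynomial.natDegree_C] at hdeg
  exact hq0 hdeg.symm

end Cfsg.Agent.S1470
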