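import Cfsg.Statements.S1471
import Mathlib
import Cfsg.Agent.Lib.Helper5.NormPair

set_option autoImplicit false
open Cfsg

namespace Cfsg.Agent.S1471

theorem exists_param (p : ℕ) [Fact p.Prime] :
    ∃ t : ZMod p, ∀ x : ZMod p, x ^ 3 - t * x ^ 2 + (2 * t - 3) * x - 1 ≠ 0 := by
  by_contra hcon
  push Not at hcon
  choose g hg using hcon
  have hg0 : ∀ t, g t ≠ 0 := by
    intro t h
    have h0 := hg t
    rw [h] at h0
    have h1 : (-1 : ZMod p) = 0 := by linear_combination h0
    exact one_ne_zero (neg_eq_zero.mp h1)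
  have hg2 : ∀ t, g t ≠ 2 := by
    intro t h
    have h0 := hg t
    rw [h] at h0
    have h1 : (1 : ZMod p) = 0 := by linear_combination h0
    exact one_ne_zero h1
  have hinj : Function.Injective g := by
    intro t t' h
    have e1 := hg t
    have e2 := hg t'
    rw [← h] at e2
    have h3 : (t - t') * (g t * (2 - g t)) = 0 := by linear_combination e1 - e2
    rcases mul_eq_zero.mp h3 with h4 | h4
    · exact sub_eq_zero.mp h4
    · rcases mul_eq_zero.mp h4 with h5 | h5
      · exact absurd h5 (hg0 t)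
      · exact absurd (sub_eq_zero.mp h5).symm (hg2 t)
  obtain ⟨t₀, ht₀⟩ := (Finite.injective_iff_surjective.mp hinj) 0
  exact hg0 t₀ ht₀

open Polynomial in
theorem exists_root (p : ℕ) [Fact p.Prime] (t : ZMod p)
    (ht : ∀ x : ZMod p, x ^ 3 - t * x ^ 2 + (2 * t - 3) * x - 1 ≠ 0) :
    ∃ a : GaloisField p 3, a ^ 3 - algebraMap (ZMod p) (GaloisField p 3) t * a ^ 2 +
      (2 * algebraMap (ZMod p) (GaloisField p 3) t - 3) * a - 1 = 0 := by
  obtain ⟨f, hf⟩ : ∃ f : (ZMod p)[X],
    f = C 1 * X ^ 3 + C (-t) * X ^ 2 + C (2 * t - 3) * X + C (-1) := ⟨_, rfl⟩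
  have hdeg : f.natDegree = 3 := by rw [hf]; exact natDegree_cubic one_ne_zero
  have hmonic : f.Monic := by rw [Monic, hf]; exact leadingCoeff_cubic one_ne_zero
  have hroots : f.roots = 0 := by
    apply Multiset.eq_zero_of_forall_notMem
    intro x hx
    have h1 := (mem_roots (hmonic.ne_zero)).mp hx
    rw [IsRoot, hf] at h1
    simp only [eval_add, eval_mul, eval_pow, eval_C, eval_X] at h1
    apply ht x
    linear_combination h1
  have key : ∀ x : GaloisField p 3, aeval x f =
      x ^ 3 - algebraMap (ZMod p) (GaloisField p 3) t * x ^ 2 +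
        (2 * algebraMap (ZMod p) (GaloisField p 3) t - 3) * x - 1 := by
    intro x
    rw [hf]
    simp only [map_add, map_mul, map_pow, aeval_C, aeval_X, map_neg, map_one, map_sub,
      map_ofNat]
    ring
  have hirr : Irreducible f :=
    (hmonic.irreducible_iff_roots_eq_zero_of_degree_le_three (by rw [hdeg]; norm_num)
      (by rw [hdeg])).mpr hroots
  have : Fact (Irreducible f) := ⟨hirr⟩
  have hf0 : f ≠ 0 := hmonic.ne_zero
  have : Module.Finite (ZMod p) (AdjoinRoot f) := (AdjoinRoot.powerBasis hf0).finite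
  have : Finite (AdjoinRoot f) := Module.finite_of_finite (ZMod p)
  have hcard : Nat.card (AdjoinRoot f) = p ^ 3 := by
    rw [Module.natCard_eq_pow_finrank (K := ZMod p), Nat.card_zmod,
      (AdjoinRoot.powerBasis hf0).finrank, AdjoinRoot.powerBasis_dim, hdeg]
  have h1 : aeval (AdjoinRoot.root f) f = 0 := by
    rw [AdjoinRoot.aeval_eq, AdjoinRoot.mk_self]
  refine ⟨GaloisField.algEquivGaloisField p 3 hcard (AdjoinRoot.root f), ?_⟩
  have h2 := Polynomial.aeval_algHom_apply
    ((GaloisField.algEquivGaloisField p 3 hcard : AdjoinRoot f ≃ₐ[ZMod p] GaloisField p 3) :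
      AdjoinRoot f →ₐ[ZMod p] GaloisField p 3) (AdjoinRoot.root f) f
  rw [h1, map_zero] at h2
  rw [← key]
  exact h2

theorem exp_three (p : ℕ) (hp : 2 ≤ p) : (p ^ 3 - 1) / (p - 1) = p ^ 2 + p + 1 := by
  obtain ⟨k, rfl⟩ : ∃ k, p = k + 1 := ⟨p - 1, by omega⟩
  have h1 : (k + 1) ^ 3 - 1 = ((k + 1) ^ 2 + (k + 1) + 1) * k := by
    apply Nat.sub_eq_of_eq_add
    ring
  rw [Nat.add_sub_cancel, h1]
  exact Nat.mul_div_cancel _ (by omega)

theorem case_three (p : ℕ) [Fact p.Prime] :
    ∃ a : GaloisField p 3, a ≠ 1 ∧ Algebra.norm (ZMod p) a = 1 ∧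
      Algebra.norm (ZMod p) (2 - a) = 1 := by
  classical
  have hp2 : 2 ≤ p := (Fact.out : p.Prime).two_le
  obtain ⟨t, ht⟩ := exists_param p
  obtain ⟨a, ha⟩ := exists_root p t ht
  obtain ⟨τ, hτ⟩ : ∃ τ : GaloisField p 3, τ = algebraMap (ZMod p) (GaloisField p 3) t :=
    ⟨_, rfl⟩
  rw [← hτ] at ha
  have hτp : τ ^ p = τ := by rw [hτ, ← map_pow, ZMod.pow_card]
  have : Fintype (GaloisField p 3) := Fintype.ofFinite _
  have hcardF : Fintype.card (GaloisField p 3) = p ^ 3 := by
    rw [← Nat.card_eq_fintype_card, GaloisField.card p 3 (by norm_num)]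
  have hap : a ^ p ≠ a := by
    intro h
    by_cases hmem : a ∈ Finset.univ.image (algebraMap (ZMod p) (GaloisField p 3))
    · obtain ⟨x, _, hx⟩ := Finset.mem_image.mp hmem
      apply ht x
      apply (algebraMap (ZMod p) (GaloisField p 3)).injective
      rw [map_zero]
      simp only [map_sub, map_add, map_mul, map_pow, map_one, map_ofNat]
      rw [hx, ← hτ]
      exact ha
    · have hp1 : 1 < p := (Fact.out : p.Prime).one_lt
      have hne := FiniteField.X_pow_card_sub_X_ne_zero (GaloisField p 3) hp1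
      apply hne
      apply Polynomial.eq_zero_of_natDegree_lt_card_of_eval_eq_zero' _
        (insert a (Finset.univ.image (algebraMap (ZMod p) (GaloisField p 3))))
      · intro i hi
        rw [Finset.mem_insert] at hi
        simp only [Polynomial.eval_sub, Polynomial.eval_pow, Polynomial.eval_X]
        rcases hi with rfl | hi
        · rw [h, sub_self]
        · obtain ⟨x, _, rfl⟩ := Finset.mem_image.mp hi
          rw [← map_pow, ZMod.pow_card, sub_self]
      · rw [FiniteField.X_pow_card_sub_X_natDegree_eq (GaloisField p 3) hp1,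
          Finset.card_insert_of_notMem hmem,
          Finset.card_image_of_injective _ (algebraMap (ZMod p) (GaloisField p 3)).injective,
          Finset.card_univ, ZMod.card]
        exact Nat.lt_succ_self p
  obtain ⟨b, hb⟩ : ∃ b : GaloisField p 3, b = a ^ p := ⟨_, rfl⟩
  obtain ⟨c, hc⟩ : ∃ c : GaloisField p 3, c = b ^ p := ⟨_, rfl⟩
  have h2p : (2 : GaloisField p 3) ^ p = 2 := by
    have h := congrArg (algebraMap (ZMod p) (GaloisField p 3)) (ZMod.pow_card (2 : ZMod p))
    rw [map_pow, map_ofNat] at h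
    exact h
  have h3p : (3 : GaloisField p 3) ^ p = 3 := by
    have h := congrArg (algebraMap (ZMod p) (GaloisField p 3)) (ZMod.pow_card (3 : ZMod p))
    rw [map_pow, map_ofNat] at h
    exact h
  have hfrob : ∀ x : GaloisField p 3, x ^ 3 - τ * x ^ 2 + (2 * τ - 3) * x - 1 = 0 →
      (x ^ p) ^ 3 - τ * (x ^ p) ^ 2 + (2 * τ - 3) * (x ^ p) - 1 = 0 := by
    intro x hx
    have h1 : (x ^ 3 - τ * x ^ 2 + (2 * τ - 3) * x - 1) ^ p = 0 ^ p := by rw [hx]
    rw [zero_pow (Fact.out : p.Prime).ne_zero, sub_pow_char, add_pow_char, sub_pow_char,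
      mul_pow, mul_pow, sub_pow_char, mul_pow, hτp, h2p, h3p, one_pow, ← pow_mul, ← pow_mul,
      mul_comm 3 p, mul_comm 2 p, pow_mul, pow_mul] at h1
    exact h1
  have hb_root := hfrob a ha
  rw [← hb] at hb_root
  have hc_root := hfrob b hb_root
  rw [← hc] at hc_root
  have hab : a ≠ b := fun h => hap (by rw [← hb]; exact h.symm)
  have hbc : b ≠ c := by
    intro h
    have h1 : (a ^ p - a) ^ p = 0 := by
      rw [sub_pow_char, ← hb, ← hc, ← h, sub_self]
    exact hap (sub_eq_zero.mp ((pow_eq_zero_iff (Fact.out : p.Prime).ne_zero).mp h1))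
  have hac : a ≠ c := by
    intro h
    have h1 : c ^ p = a := by
      have h2 := FiniteField.pow_card a
      rw [hcardF] at h2
      rw [hc, hb, ← pow_mul, ← pow_mul]
      have e : p * (p * p) = p ^ 3 := by ring
      rw [e]; exact h2
    rw [← h] at h1
    exact hap h1
  have hv1 : a ^ 2 + a * b + b ^ 2 - τ * (a + b) + (2 * τ - 3) = 0 := by
    have h1 : (a - b) * (a ^ 2 + a * b + b ^ 2 - τ * (a + b) + (2 * τ - 3)) = 0 := by
      linear_combination ha - hb_root
    exact (mul_eq_zero.mp h1).resolve_left (sub_ne_zero.mpr hab)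
  have hv2 : a ^ 2 + a * c + c ^ 2 - τ * (a + c) + (2 * τ - 3) = 0 := by
    have h1 : (a - c) * (a ^ 2 + a * c + c ^ 2 - τ * (a + c) + (2 * τ - 3)) = 0 := by
      linear_combination ha - hc_root
    exact (mul_eq_zero.mp h1).resolve_left (sub_ne_zero.mpr hac)
  have hv3 : a + b + c - τ = 0 := by
    have h1 : (b - c) * (a + b + c - τ) = 0 := by linear_combination hv1 - hv2
    exact (mul_eq_zero.mp h1).resolve_left (sub_ne_zero.mpr hbc)
  have habc : a * b * c = 1 := by linear_combination ha + a * b * hv3 - a * hv1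
  have h2abc : (2 - a) * (2 - b) * (2 - c) = 1 := by
    linear_combination (2 * (a + b) - 4) * hv3 - 2 * hv1 - habc
  have hnorm : ∀ x : GaloisField p 3, x ^ (p ^ 2 + p + 1) = 1 →
      Algebra.norm (ZMod p) x = 1 := by
    intro x hx
    apply (algebraMap (ZMod p) (GaloisField p 3)).injective
    rw [FiniteField.algebraMap_norm_eq_pow, map_one, GaloisField.card p 3 (by norm_num),
      Nat.card_zmod, exp_three p hp2]
    exact hx
  refine ⟨a, ?_, hnorm a ?_, hnorm (2 - a) ?_⟩
  · intro h
    apply hap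
    rw [h, one_pow]
  · have e : a ^ (p ^ 2 + p + 1) = c * b * a := by
      rw [pow_add, pow_add, pow_one, hc, hb, ← pow_mul, sq]
    rw [e]; linear_combination habc
  · have e1 : (2 - a) ^ p = 2 - b := by rw [sub_pow_char, h2p, hb]
    have e2 : (2 - b) ^ p = 2 - c := by rw [sub_pow_char, h2p, hc]
    have e : (2 - a) ^ (p ^ 2 + p + 1) = (2 - c) * (2 - b) * (2 - a) := by
      rw [pow_add, pow_add, pow_one, sq, pow_mul, e1, e2]
    rw [e]; linear_combination h2abc

theorem arith_contra (p M v n : ℝ) (hp : 3 ≤ p) (hM : p ^ 4 ≤ M) (hv : M + 1 ≤ v)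
    (hvP : v ≤ p * M) (hn : n ≤ 1)
    (h : ((p * M) * n - v ^ 2) ^ 2 ≤ (p * M - v) ^ 3) : False := by
  have hp0 : 0 < p := by linarith
  have hp3 : 27 ≤ p ^ 3 := by
    have := pow_le_pow_left₀ (by norm_num : (0:ℝ) ≤ 3) hp 3
    norm_num at this
    exact this
  have hp4 : 3 * p ^ 3 ≤ p ^ 4 := by
    have e : p ^ 4 = p * p ^ 3 := by ring
    rw [e]
    exact mul_le_mul_of_nonneg_right hp (by positivity)
  have hM0 : 0 < M := by linarith
  have hMp : p ≤ M := by nlinarith
  have hy : 0 ≤ M * (M - p) := mul_nonneg hM0.le (by linarith)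
  have hx : M * (M - p) < v ^ 2 - p * M * n := by
    have h1 : p * M * n ≤ p * M := by
      have : 0 ≤ p * M := by positivity
      nlinarith
    have h2 : (M + 1) ^ 2 ≤ v ^ 2 := pow_le_pow_left₀ (by linarith) hv 2
    nlinarith
  have h1 : (M * (M - p)) ^ 2 < (v ^ 2 - p * M * n) ^ 2 :=
    pow_lt_pow_left₀ hx hy (by norm_num)
  have h2 : (p * M) ^ 3 ≤ (M * (M - p)) ^ 2 := by
    have h3 : p ^ 3 * M ≤ (M - p) ^ 2 := by
      have h4 : 0 ≤ M - 2 * p - p ^ 3 := by nlinarith
      have h5 : 0 ≤ M * (M - 2 * p - p ^ 3) := mul_nonneg hM0.le h4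
      nlinarith
    have e1 : (p * M) ^ 3 = M ^ 2 * (p ^ 3 * M) := by ring
    have e2 : (M * (M - p)) ^ 2 = M ^ 2 * (M - p) ^ 2 := by ring
    rw [e1, e2]
    exact mul_le_mul_of_nonneg_left h3 (by positivity)
  have h3 : (p * M - v) ^ 3 ≤ (p * M) ^ 3 :=
    pow_le_pow_left₀ (by linarith) (by linarith) 3
  have e : (p * M * n - v ^ 2) ^ 2 = (v ^ 2 - p * M * n) ^ 2 := by ring
  rw [e] at h
  linarith

theorem card_norm_one (p q : ℕ) [Fact p.Prime] (hq : q ≠ 0) [Fintype (GaloisField p q)]
    [DecidableEq (GaloisField p q)] (U : Finset (GaloisField p q))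
    (hU : ∀ a, a ∈ U ↔ Algebra.norm (ZMod p) a = 1) :
    p ^ q - 1 ≤ (p - 1) * U.card := by
  have hpp : p.Prime := Fact.out
  have hcardF : Fintype.card (GaloisField p q) = p ^ q := by
    rw [← Nat.card_eq_fintype_card, GaloisField.card p q hq]
  have h1 := Finset.card_le_mul_card_image (f := fun x : GaloisField p q => x ^ (p - 1))
    (Finset.univ.erase 0) (p - 1) ?_
  · rw [Finset.card_erase_of_mem (Finset.mem_univ _), Finset.card_univ, hcardF] at h1
    refine h1.trans (Nat.mul_le_mul_left _ (Finset.card_le_card ?_))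
    intro y hy
    obtain ⟨x, hx, rfl⟩ := Finset.mem_image.mp hy
    rw [hU, map_pow]
    apply ZMod.pow_card_sub_one_eq_one
    rw [Ne, Algebra.norm_eq_zero_iff]
    exact Finset.ne_of_mem_erase hx
  · intro y _
    have hpos : 0 < p - 1 := by have := hpp.two_le; omega
    refine le_trans (Finset.card_le_card ?_)
      ((Multiset.toFinset_card_le _).trans (Polynomial.card_nthRoots (p - 1) y))
    intro x hx
    rw [Multiset.mem_toFinset, Polynomial.mem_nthRoots hpos]
    exact (Finset.mem_filter.mp hx).2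

/-- Let p and q be odd primes with (p^q − 1)/(p − 1) coprime to p − 1. Then there are at least two elements a of the field with p ^ q elements such that both a and 2 − a have norm 1 to the prime field. -/
theorem result (p q : ℕ) [Fact p.Prime] [Fact q.Prime] (hp : p ≠ 2) (hq : q ≠ 2) (hA : Nat.Coprime ((p ^ q - 1) / (p - 1)) (p - 1)) :
    2 ≤ Set.ncard {a : GaloisField p q | Algebra.norm (ZMod p) a = 1 ∧ Algebra.norm (ZMod p) (2 - a) = 1} := by
  classical
  have hpp : p.Prime := Fact.out
  have hqp : q.Prime := Fact.out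
  have hp3 : 3 ≤ p := by
    have := hpp.two_le; omega
  by_cases hq3 : q = 3
  · subst hq3
    obtain ⟨a, ha1, hNa, hN2a⟩ := case_three p
    have hsub : ({1, a} : Set (GaloisField p 3)) ⊆
        {a : GaloisField p 3 | Algebra.norm (ZMod p) a = 1 ∧
          Algebra.norm (ZMod p) (2 - a) = 1} := by
      intro x hx
      rcases hx with rfl | hx
      · refine ⟨map_one _, ?_⟩
        have e : (2 : GaloisField p 3) - 1 = 1 := by norm_num
        rw [e]; exact map_one _
      · rw [Set.mem_singleton_iff] at hx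
        subst hx
        exact ⟨hNa, hN2a⟩
    calc 2 = Set.ncard ({1, a} : Set (GaloisField p 3)) := (Set.ncard_pair (Ne.symm ha1)).symm
      _ ≤ _ := Set.ncard_le_ncard hsub (Set.toFinite _)
  · have hq5 : 5 ≤ q := by
      have h2 := hqp.two_le
      by_contra hlt
      have h4 : q = 4 := by omega
      subst h4
      exact absurd hqp (by norm_num)
    have : Fintype (GaloisField p q) := Fintype.ofFinite _
    have hcardF : Fintype.card (GaloisField p q) = p ^ q := by
      rw [← Nat.card_eq_fintype_card, GaloisField.card p q hqp.ne_zero]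
    obtain ⟨U, hU⟩ : ∃ U : Finset (GaloisField p q),
      U = Finset.univ.filter (fun a => Algebra.norm (ZMod p) a = 1) := ⟨_, rfl⟩
    have hmem : ∀ a, a ∈ U ↔ Algebra.norm (ZMod p) a = 1 := by
      intro a; rw [hU]; simp
    have hset : {a : GaloisField p q | Algebra.norm (ZMod p) a = 1 ∧
        Algebra.norm (ZMod p) (2 - a) = 1} = ↑(U.filter (fun a => 2 - a ∈ U)) := by
      ext a
      simp [hmem]
    rw [hset, Set.ncard_coe_finset]
    by_contra hlt
    push Not at hlt
    have h20 : (2 : GaloisField p q) ≠ 0 := by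
      intro h
      have h1 : ((2 : ℕ) : GaloisField p q) = 0 := by exact_mod_cast h
      rw [CharP.cast_eq_zero_iff (GaloisField p q) p] at h1
      have := Nat.le_of_dvd (by norm_num) h1
      omega
    have h0U : (0 : GaloisField p q) ∉ U := by
      intro h
      rw [hmem, Algebra.norm_zero] at h
      exact zero_ne_one h
    have hinvU : ∀ a ∈ U, a⁻¹ ∈ U := by
      intro a ha
      have ha0 : a ≠ 0 := fun h => h0U (h ▸ ha)
      rw [hmem] at ha ⊢
      have h1 : Algebra.norm (ZMod p) (a⁻¹) * Algebra.norm (ZMod p) a = 1 := by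
        rw [← map_mul, inv_mul_cancel₀ ha0, map_one]
      rw [ha, mul_one] at h1
      exact h1
    have hb := Lib.Helper5.NormPair.main_bound
      (AddChar.FiniteField.primitiveChar_to_Complex (GaloisField p q))
      (AddChar.FiniteField.primitiveChar_to_Complex_isPrimitive (GaloisField p q)) U
      (fun a ha b hb => by rw [hmem] at ha hb ⊢; rw [map_mul, ha, hb, mul_one])
      (fun a ha => hinvU a ha)
      (fun h => h0U h)
      (by rw [hmem]; exact map_one _) 2 h20
    have hlow := card_norm_one p q hqp.ne_zero U hmem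
    obtain ⟨M, hM⟩ : ∃ M : ℕ, M = p ^ (q - 1) := ⟨_, rfl⟩
    have hPM : p ^ q = p * M := by
      rw [hM, ← pow_succ']
      congr 1
      omega
    have hM4 : p ^ 4 ≤ M := by
      rw [hM]
      exact Nat.pow_le_pow_right (by omega) (by omega)
    have hv : M + 1 ≤ U.card := by
      by_contra hcon
      push Not at hcon
      have h1 : U.card ≤ M := by omega
      have h2 : (p - 1) * U.card ≤ (p - 1) * M := Nat.mul_le_mul_left _ h1
      have h3 : p * M - 1 ≤ (p - 1) * M := by rw [← hPM]; exact hlow.trans h2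
      have h4 : (p - 1) * M = p * M - M := by rw [Nat.sub_mul, one_mul]
      have h5 : 81 ≤ M := by
        refine le_trans ?_ hM4
        calc 81 = 3 ^ 4 := by norm_num
          _ ≤ p ^ 4 := Nat.pow_le_pow_left hp3 4
      have h6 : M ≤ p * M := Nat.le_mul_of_pos_left M (by omega)
      omega
    have hvP : U.card ≤ p * M := by
      rw [← hPM, ← hcardF, ← Finset.card_univ]
      exact Finset.card_le_card (Finset.subset_univ _)
    rw [hcardF, hPM] at hb
    push_cast at hb
    refine arith_contra (p : ℝ) (M : ℝ) (U.card : ℝ)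
      ((U.filter (fun a => 2 - a ∈ U)).card : ℝ) (by exact_mod_cast hp3)
      (by exact_mod_cast hM4) (by exact_mod_cast hv) (by exact_mod_cast hvP)
      (by exact_mod_cast (by omega : (U.filter (fun a => 2 - a ∈ U)).card ≤ 1))
      hb

end Cfsg.Agent.S1471
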