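import Cfsg.Statements.S1475
import Cfsg.Agent.Lib.Helper10.EPPO

set_option autoImplicit false
open Cfsg

namespace Cfsg.Agent.S1475

open Cfsg.Agent.Lib.Helper10.EPPO

universe u

theorem eppo_quot {G : Type*} [Group G] [Finite G]
    (h : ∀ g : G, IsPrimePow (orderOf g) ∨ g = 1) (V : Subgroup G) [V.Normal] :
    ∀ g : G ⧸ V, IsPrimePow (orderOf g) ∨ g = 1 := by
  intro gb
  obtain ⟨g, rfl⟩ := QuotientGroup.mk'_surjective V gb
  by_cases h1 : QuotientGroup.mk' V g = 1
  · right; exact h1
  · left
    have hg1 : g ≠ 1 := by rintro rfl; exact h1 (map_one _)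
    rcases h g with hpp | h'
    · have hdvd : orderOf (QuotientGroup.mk' V g) ∣ orderOf g := orderOf_map_dvd _ g
      obtain ⟨p, k, hp, hk, hpk⟩ := (isPrimePow_nat_iff _).mp hpp
      rw [← hpk] at hdvd
      obtain ⟨j, hj, hjeq⟩ := (Nat.dvd_prime_pow hp).mp hdvd
      rw [hjeq]
      have hj0 : j ≠ 0 := by
        rintro rfl
        rw [pow_zero] at hjeq
        exact h1 (orderOf_eq_one_iff.mp hjeq)
      exact hp.isPrimePow.pow hj0
    · exact absurd h' hg1

theorem eppo_sub {G : Type*} [Group G] (h : ∀ g : G, IsPrimePow (orderOf g) ∨ g = 1)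
    (K : Subgroup G) : ∀ g : K, IsPrimePow (orderOf g) ∨ g = 1 := by
  intro g
  rcases h (g : G) with hpp | h1
  · left; rwa [Subgroup.orderOf_coe] at hpp
  · right; exact Subtype.ext h1

theorem aux : ∀ (n : ℕ) (G : Type u) [Group G] [Finite G], Group.IsSolvable G →
    (∀ g : G, IsPrimePow (orderOf g) ∨ g = 1) → Nat.card G ≤ n →
      (Nat.card G).primeFactors.card ≤ 2 := by
  intro n
  induction n with
  | zero =>
    intro G _ _ _ _ hcard
    have := Nat.card_pos (α := G)
    omega
  | succ n ih =>
    intro G _ _ hsolv h hcard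
    by_contra hgt
    push Not at hgt
    have hnt : Nontrivial G := by
      by_contra hnt
      rw [not_nontrivial_iff_subsingleton] at hnt
      have h1 : Nat.card G = 1 := Nat.card_of_subsingleton 1
      rw [h1] at hgt
      simp at hgt
    have htop : (⊤ : Subgroup G) ≠ ⊥ := top_ne_bot
    obtain ⟨V, p, hVn, hVne, hp, hVp, -, hVab⟩ := exists_normal_abelian_pgroup
      (Nat.card (⊤ : Subgroup G)) ⊤ inferInstance htop inferInstance le_rfl
    haveI := hVn
    haveI : Fact p.Prime := ⟨hp⟩
    have hcardV : 1 < Nat.card V := (Subgroup.one_lt_card_iff_ne_bot V).mpr hVne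
    have hmul : Nat.card G = Nat.card (G ⧸ V) * Nat.card V :=
      Subgroup.card_eq_card_quotient_mul_card_subgroup V
    have hqpos : 0 < Nat.card (G ⧸ V) := Nat.card_pos
    have hqlt : Nat.card (G ⧸ V) ≤ n := by nlinarith
    have hIH := ih (G ⧸ V) inferInstance (eppo_quot h V) hqlt
    obtain ⟨k, hk⟩ := IsPGroup.iff_card.mp hVp
    have hk0 : k ≠ 0 := by
      rintro rfl
      rw [pow_zero] at hk
      omega
    have hpf : (Nat.card G).primeFactors = (Nat.card (G ⧸ V)).primeFactors ∪ {p} := by
      rw [hmul, hk, Nat.primeFactors_mul hqpos.ne' (pow_ne_zero k hp.ne_zero),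
        Nat.primeFactors_prime_pow hk0 hp]
    have hpnot : p ∉ (Nat.card (G ⧸ V)).primeFactors := by
      intro hmem
      rw [hpf, Finset.union_eq_left.mpr (Finset.singleton_subset_iff.mpr hmem)] at hgt
      omega
    have hcard2 : (Nat.card (G ⧸ V)).primeFactors.card = 2 := by
      rw [hpf, Finset.card_union_of_disjoint (Finset.disjoint_singleton_right.mpr hpnot),
        Finset.card_singleton] at hgt
      omega
    have hpnd : ¬ p ∣ Nat.card (G ⧸ V) := fun hd =>
      hpnot (Nat.mem_primeFactors.mpr ⟨hp, hd, hqpos.ne'⟩)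
    have hidx : V.index = Nat.card (G ⧸ V) := rfl
    have hcop : (Nat.card V).Coprime V.index := by
      rw [hk, hidx]
      exact Nat.Coprime.pow_left k ((Nat.Prime.coprime_iff_not_dvd hp).mpr hpnd)
    obtain ⟨K, hK⟩ := Subgroup.exists_right_complement'_of_coprime hcop
    have hKcard : Nat.card K = Nat.card (G ⧸ V) := by
      rw [← hidx]; exact hK.symm.index_eq_card.symm
    have hKnt : (⊤ : Subgroup K) ≠ ⊥ := by
      have h1 : 1 < Nat.card K := by
        rw [hKcard]
        by_contra hle
        have h2 : Nat.card (G ⧸ V) = 1 := by omega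
        rw [h2] at hcard2
        simp at hcard2
      haveI : Nontrivial K := Finite.one_lt_card_iff_nontrivial.mp h1
      exact top_ne_bot
    obtain ⟨M', s, hMn, hMne, hs, hMs, -⟩ :=
      Cfsg.Agent.Lib.Helper10.CNQuot.exists_normal_pgroup_le (Nat.card (⊤ : Subgroup K))
        (⊤ : Subgroup K) inferInstance hKnt inferInstance le_rfl
    haveI : Fact s.Prime := ⟨hs⟩
    obtain ⟨c, hc⟩ := IsPGroup.iff_card.mp hMs
    have hc0 : c ≠ 0 := by
      rintro rfl
      rw [pow_zero] at hc
      have := (Subgroup.one_lt_card_iff_ne_bot M').mpr hMne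
      omega
    have hsK : s ∣ Nat.card K := by
      have h1 : Nat.card M' ∣ Nat.card K := Subgroup.card_subgroup_dvd_card M'
      rw [hc] at h1
      exact (dvd_pow_self s hc0).trans h1
    have hsmem : s ∈ (Nat.card (G ⧸ V)).primeFactors := by
      rw [← hKcard]
      exact Nat.mem_primeFactors.mpr ⟨hs, hsK, Nat.card_pos.ne'⟩
    obtain ⟨t, htmem, hts⟩ := Finset.exists_mem_ne (by omega : 1 < (Nat.card (G ⧸ V)).primeFactors.card) s
    have ht : t.Prime := (Nat.mem_primeFactors.mp htmem).1
    have htK : t ∣ Nat.card K := by rw [hKcard]; exact (Nat.mem_primeFactors.mp htmem).2.1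
    have htp : t ≠ p := by rintro rfl; exact hpnot htmem
    have hsp : s ≠ p := by rintro rfl; exact hpnot hsmem
    haveI : Fact t.Prime := ⟨ht⟩
    obtain ⟨y', hy'⟩ := exists_prime_orderOf_dvd_card' t htK
    have hy : orderOf (y' : G) = t := by rw [Subgroup.orderOf_coe, hy']
    have hy1 : (y' : G) ≠ 1 := by
      intro h1
      rw [h1, orderOf_one] at hy
      exact ht.one_lt.ne hy
    -- orders
    have hordV : ∀ v : V, ∃ j, orderOf (v : G) = p ^ j := by
      intro v
      obtain ⟨j, hj⟩ := (IsPGroup.iff_orderOf.mp hVp) v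
      exact ⟨j, by rw [Subgroup.orderOf_coe, hj]⟩
    have hordM : ∀ m ∈ M'.map K.subtype, ∃ j, orderOf m = s ^ j := by
      rintro m ⟨m', hm', rfl⟩
      obtain ⟨j, hj⟩ := (IsPGroup.iff_orderOf.mp hMs) ⟨m', hm'⟩
      refine ⟨j, ?_⟩
      rw [← hj, Subgroup.orderOf_mk]
      exact Subgroup.orderOf_coe m'
    -- the commutative group structure on `V` and the conjugation action
    letI cg : CommGroup V :=
      { (inferInstance : Group V) with mul_comm := fun a b => Subtype.ext (hVab a a.2 b b.2) }
    have key := frob_lemma (V := V) (MulAut.conjNormal (H := V)) (M'.map K.subtype) (y' : G) t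
      ht.pos (by rw [← hy]; exact pow_orderOf_eq_one _)
      (by
        rintro m ⟨m', hm', rfl⟩
        exact ⟨y' * m' * y'⁻¹, hMn.conj_mem m' hm' y', rfl⟩)
      (by
        intro v hv
        have h1 : (y' : G) * v * (y' : G)⁻¹ = v := by
          have := congrArg Subtype.val hv
          rwa [MulAut.conjNormal_apply] at this
        have hcomm : (y' : G) * v = v * y' := by
          calc (y' : G) * v = (y' : G) * v * (y' : G)⁻¹ * y' := by group
            _ = v * y' := by rw [h1]
        obtain ⟨j, hj⟩ := hordV v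
        have := eppo_no_comm h hcomm
          (by rw [hy, hj]; exact Nat.Coprime.pow_right j ((Nat.coprime_primes ht hp).mpr htp)) hy1
        exact Subtype.ext this)
      (by
        intro v hv
        obtain ⟨m₀, hm₀1⟩ := (Subgroup.ne_bot_iff_exists_ne_one).mp hMne
        have hm₀M : ((m₀ : K) : G) ∈ M'.map K.subtype := ⟨m₀, m₀.2, rfl⟩
        have hm₀1' : ((m₀ : K) : G) ≠ 1 := by
          intro h1
          apply hm₀1
          apply Subtype.ext
          apply Subtype.ext
          exact h1
        have h1 : ((m₀ : K) : G) * v * ((m₀ : K) : G)⁻¹ = v := by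
          have := congrArg Subtype.val (hv _ hm₀M)
          rwa [MulAut.conjNormal_apply] at this
        have hcomm : ((m₀ : K) : G) * v = v * ((m₀ : K) : G) := by
          calc ((m₀ : K) : G) * v = ((m₀ : K) : G) * v * ((m₀ : K) : G)⁻¹ * ((m₀ : K) : G) := by
                group
            _ = v * ((m₀ : K) : G) := by rw [h1]
        obtain ⟨j, hj⟩ := hordV v
        obtain ⟨i, hi⟩ := hordM _ hm₀M
        have := eppo_no_comm h hcomm
          (by
            rw [hi, hj]
            exact Nat.Coprime.pow i j ((Nat.coprime_primes hs hp).mpr hsp)) hm₀1'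
        exact Subtype.ext this)
      (by
        intro m hm i hi0 hit hcm
        have hcomm : (y' : G) ^ i * m = m * (y' : G) ^ i := by
          calc (y' : G) ^ i * m = (y' : G) ^ i * m * ((y' : G) ^ i)⁻¹ * (y' : G) ^ i := by group
            _ = m * (y' : G) ^ i := by rw [hcm]
        obtain ⟨j, hj⟩ := hordM m hm
        have hpow1 : (y' : G) ^ i ≠ 1 := pow_ne_one_of_lt_orderOf hi0.ne' (by rw [hy]; exact hit)
        have hd : orderOf ((y' : G) ^ i) ∣ t := by rw [← hy]; exact orderOf_pow_dvd i
        exact eppo_no_comm h hcomm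
          (by
            rw [hj]
            exact Nat.Coprime.coprime_dvd_left hd
              (Nat.Coprime.pow_right j ((Nat.coprime_primes ht hs).mpr hts))) hpow1)
    -- conclusion
    obtain ⟨v₀, hv₀⟩ := (Subgroup.ne_bot_iff_exists_ne_one).mp hVne
    have h1 := key v₀
    have hcardM : Nat.card (M'.map K.subtype) = s ^ c := by
      rw [Subgroup.card_subtype, hc]
    rw [hcardM] at h1
    have h2 : orderOf v₀ ∣ s ^ c := orderOf_dvd_of_pow_eq_one h1
    obtain ⟨j, hj⟩ := (IsPGroup.iff_orderOf.mp hVp) v₀
    have hj0 : j ≠ 0 := by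
      rintro rfl
      rw [pow_zero] at hj
      exact hv₀ (orderOf_eq_one_iff.mp hj)
    rw [hj] at h2
    have h3 : p ∣ s ^ c := (dvd_pow_self p hj0).trans h2
    have h4 : p = s := (Nat.prime_dvd_prime_iff_eq hp hs).mp (hp.dvd_of_dvd_pow h3)
    exact hsp h4.symm

/-- Let G be a finite solvable group such that the order of every element is a prime power (1 included). Then at most two distinct primes divide the order of G. -/
theorem result {G : Type*} [Group G] [Finite G] [Group.IsSolvable G] (h : ∀ g : G, IsPrimePow (orderOf g) ∨ g = 1) :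
    (Nat.card G).primeFactors.card ≤ 2 := by
  exact aux (Nat.card G) G inferInstance h le_rfl

end Cfsg.Agent.S1475
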