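import Cfsg.Statements.S1476
import Cfsg.Agent.Lib.Helper10.CNSolv2

set_option autoImplicit false
open Cfsg

namespace Cfsg.Agent.S1476

/-- Let G be a finite solvable group in which every non-identity element has nilpotent centralizer. Then either G is nilpotent; or G has a normal subgroup K with a Frobenius complement E (K E = G, K ∩ E = 1, E meets its conjugates by outside elements trivially) such that E is cyclic or E is generated by two elementwise-commuting subgroups, one cyclic of odd order and one isomorphic to a generalized quaternion group; or G is a three-step group with respect to some prime p. -/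
theorem result {G : Type*} [Group G] [Finite G] [Group.IsSolvable G] (hCN : Cfsg.IsCNGroup G) :
    Group.IsNilpotent G ∨
      (∃ K E : Subgroup G, K.Normal ∧ Subgroup.IsComplement' K E ∧ Cfsg.IsFrobeniusComplement E ∧
        (IsCyclic E ∨ ∃ C Q : Subgroup G, C ⊔ Q = E ∧ (∀ a ∈ C, ∀ b ∈ Q, a * b = b * a) ∧ IsCyclic C ∧ Odd (Nat.card C) ∧
          ∃ n : ℕ, Nonempty (↥Q ≃* QuaternionGroup (2 ^ n)))) ∨
      ∃ p : ℕ, p.Prime ∧ Cfsg.IsThreeStepGroup p G := by
  by_cases hnil : Group.IsNilpotent G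
  · exact Or.inl hnil
  right
  rcases subsingleton_or_nontrivial G with hsub | hnt
  · exact absurd (inferInstance : Group.IsNilpotent G) hnil
  have hGtop : (⊤ : Subgroup G) ≠ ⊥ := top_ne_bot
  obtain ⟨V, p, hVn, hV1, hp, hVp, -⟩ :=
    Cfsg.Agent.Lib.Helper10.CNQuot.exists_normal_pgroup_le (Nat.card (⊤ : Subgroup G)) ⊤
      inferInstance hGtop inferInstance le_rfl
  haveI : Fact p.Prime := ⟨hp⟩
  have hVle : V ≤ Cfsg.pCore p G := le_sSup ⟨hVn, hVp⟩
  have hH1 : Cfsg.pCore p G ≠ ⊥ := fun h => hV1 (le_bot_iff.mp (h ▸ hVle))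
  obtain ⟨P⟩ : Nonempty (Sylow p G) := inferInstance
  by_cases hPn : (P : Subgroup G).Normal
  · left
    haveI := hVn
    have hVP : V ≤ P := hVp.le_sylow_of_normal P
    have hP1 : (P : Subgroup G) ≠ ⊥ := fun h => hV1 (le_bot_iff.mp (h ▸ hVP))
    obtain ⟨hK1, hK2, ⟨E, hE, hFrob, hfpf⟩, hquot⟩ :=
      Cfsg.Agent.S1474.result hCN hnil p P hP1 hPn
    haveI := hquot
    have hEnil : Group.IsNilpotent E := Group.nilpotent_of_mulEquiv hE.symm.QuotientMulEquiv
    exact ⟨Cfsg.fittingHall G, E, inferInstance, hE, hFrob,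
      Cfsg.Agent.Lib.Helper10.CNSolv.frob_struct _ E hK1 hfpf hEnil⟩
  · right
    haveI hHn : (Cfsg.pCore p G).Normal := Subgroup.sSup_normal _ (fun _ h => h.1)
    have hHp : IsPGroup p (Cfsg.pCore p G) :=
      Sylow.sSup_of_normal _ (fun _ h => h.2) (fun _ h => h.1)
    exact ⟨p, hp, hH1, Cfsg.Agent.Lib.Helper10.CNSolv.three_step_aux hCN p P hPn
      (Cfsg.pCore p G) hHp hH1 (fun N hN hNp => le_sSup ⟨hN, hNp⟩)⟩

end Cfsg.Agent.S1476
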