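import Cfsg.Statements.S1485
import Mathlib.Algebra.BigOperators.Finprod
import Mathlib.Data.Fintype.BigOperators

set_option autoImplicit false
open Cfsg

namespace Cfsg.Agent.S1485

theorem result {G : Type*} [Group G] [Fintype G] (H : Subgroup G) [hN : H.Normal] (θ : H → ℂ) (hθ : Cfsg.IsIrrCharacter H θ) : (fun h : H => Cfsg.indFun H θ h) = ((Nat.card {g : G // ∀ h : H, θ ⟨g * h * g⁻¹, hN.conj_mem h h.2 g⟩ = θ h} : ℂ) / (Nat.card H : ℂ)) • ∑ᶠ ψ ∈ {ψ : H → ℂ | ∃ g : G, ψ = fun h : H => θ ⟨g * h * g⁻¹, hN.conj_mem h h.2 g⟩}, ψ := by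
  classical
  set c : G → (H → ℂ) := fun g h => θ ⟨g * h * g⁻¹, hN.conj_mem h h.2 g⟩ with hc
  have hcmul : ∀ (a b : G) (h : H), c (a * b) h = c a ⟨b * h * b⁻¹, hN.conj_mem h h.2 b⟩ := by
    intro a b h
    simp only [hc]
    congr 1
    apply Subtype.ext
    simp only [mul_inv_rev]
    group
  have hfib : ∀ g₀ : G, (Finset.univ.filter (fun g => c g = c g₀)).card =
      Nat.card {g : G // ∀ h : H, c g h = θ h} := by
    intro g₀
    rw [Nat.card_eq_fintype_card, ← Fintype.card_subtype]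
    apply Fintype.card_congr
    refine
      { toFun := fun g => ⟨g.1 * g₀⁻¹, ?_⟩
        invFun := fun t => ⟨t.1 * g₀, ?_⟩
        left_inv := ?_
        right_inv := ?_ }
    · intro h
      rw [hcmul]
      have h1 := congrFun g.2 ⟨g₀⁻¹ * h * g₀⁻¹⁻¹, hN.conj_mem h h.2 g₀⁻¹⟩
      rw [h1]
      simp only [hc]
      congr 1
      apply Subtype.ext
      simp only
      group
    · funext h
      rw [hcmul]
      have h1 := t.2 ⟨g₀ * h * g₀⁻¹, hN.conj_mem h h.2 g₀⟩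
      rw [h1]
    · intro g
      apply Subtype.ext
      simp
    · intro t
      apply Subtype.ext
      simp
  have hset : {ψ : H → ℂ | ∃ g : G, ψ = c g} = ↑(Finset.univ.image c) := by
    ext ψ
    simp only [Set.mem_ofPred_eq, Finset.coe_image, Finset.coe_univ, Set.image_univ, Set.mem_range]
    constructor
    · rintro ⟨g, rfl⟩; exact ⟨g, rfl⟩
    · rintro ⟨g, rfl⟩; exact ⟨g, rfl⟩
  have h2 : ∑ x : G, c x = (Nat.card {g : G // ∀ h : H, c g h = θ h}) • ∑ ψ ∈ Finset.univ.image c, ψ := by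
    rw [Finset.sum_comp (fun ψ : H → ℂ => ψ) c, Finset.smul_sum]
    apply Finset.sum_congr rfl
    intro ψ hψ
    obtain ⟨g₀, _, rfl⟩ := Finset.mem_image.mp hψ
    rw [hfib]
  show (fun h : H => Cfsg.indFun H θ h) = ((Nat.card {g : G // ∀ h : H, c g h = θ h} : ℂ) / (Nat.card H : ℂ)) •
    ∑ᶠ ψ ∈ {ψ : H → ℂ | ∃ g : G, ψ = c g}, ψ
  rw [hset, finsum_mem_coe_finset]
  funext h
  have h1 : ∑ x : G, Cfsg.extendByZero H θ (x⁻¹ * h * x) = ∑ x : G, c x h := by
    rw [← Equiv.sum_comp (Equiv.inv G) (fun x => c x h)]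
    refine Finset.sum_congr rfl (fun x _ => ?_)
    have hmem : x⁻¹ * (h : G) * x ∈ H := by
      have := hN.conj_mem h h.2 x⁻¹
      simpa using this
    have e1 : Cfsg.extendByZero H θ (x⁻¹ * h * x) = θ ⟨x⁻¹ * h * x, hmem⟩ :=
      Subtype.val_injective.extend_apply θ 0 ⟨x⁻¹ * h * x, hmem⟩
    rw [e1]
    simp only [hc, Equiv.inv_apply]
    congr 1
    apply Subtype.ext
    simp
  have h3 : ∑ x : G, c x h = (Nat.card {g : G // ∀ h : H, c g h = θ h} : ℂ) *
      (∑ ψ ∈ Finset.univ.image c, ψ) h := by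
    have := congrFun h2 h
    rw [Finset.sum_apply] at this
    rw [this]
    simp [nsmul_eq_mul]
  show Cfsg.indFun H θ h = _
  unfold Cfsg.indFun
  rw [h1, h3]
  simp only [Pi.smul_apply, smul_eq_mul]
  ring

end Cfsg.Agent.S1485
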