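import Cfsg.Statements.S1486
import Cfsg.Agent.Lib.Helper1.CharMisc

set_option autoImplicit false
open Pointwise
open Cfsg

namespace Cfsg.Agent.S1486

open Cfsg.Agent.Lib.Helper1
open scoped ComplexConjugate

theorem extendByZero_conjChar {G : Type*} [Group G] [Fintype G] (H : Subgroup G) [hN : H.Normal]
    (θ : H → ℂ) (g z : G) :
    Cfsg.extendByZero H (conjChar H θ g) z = Cfsg.extendByZero H θ (g * z * g⁻¹) := by
  by_cases hz : z ∈ H
  · rw [extendByZero_of_mem H _ hz, extendByZero_of_mem H θ (hN.conj_mem z hz g)]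
    rfl
  · have hz' : g * z * g⁻¹ ∉ H := by
      intro h
      apply hz
      have := hN.conj_mem _ h g⁻¹
      simpa [mul_assoc] using this
    rw [extendByZero_of_not_mem H _ hz, extendByZero_of_not_mem H θ hz']

theorem indFun_conjChar {G : Type*} [Group G] [Fintype G] (H : Subgroup G) [hN : H.Normal]
    (θ : H → ℂ) (g : G) : Cfsg.indFun H (conjChar H θ g) = Cfsg.indFun H θ := by
  funext x
  rw [indFun_apply, indFun_apply]
  congr 1
  rw [← Equiv.sum_comp (Equiv.mulRight g⁻¹) (fun y => Cfsg.extendByZero H θ (y⁻¹ * x * y))]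
  refine Finset.sum_congr rfl (fun y _ => ?_)
  rw [extendByZero_conjChar]
  congr 1
  simp only [Equiv.coe_mulRight]
  group

/-- Let H be a normal subgroup of the finite group G and θ, φ irreducible characters of H. If φ is a G-conjugate of θ then the functions induced from θ and φ coincide; if φ is not a G-conjugate of θ then the induced functions are orthogonal. -/
theorem result {G : Type*} [Group G] [Fintype G] (H : Subgroup G) [hN : H.Normal] (θ φ : H → ℂ) (hθ : Cfsg.IsIrrCharacter H θ) (hφ : Cfsg.IsIrrCharacter H φ) : ((∃ g : G, φ = fun h : H => θ ⟨g * h * g⁻¹, hN.conj_mem h h.2 g⟩) → Cfsg.indFun H φ = Cfsg.indFun H θ) ∧ ((¬ ∃ g : G, φ = fun h : H => θ ⟨g * h * g⁻¹, hN.conj_mem h h.2 g⟩) → Cfsg.classInner (Cfsg.indFun H φ) (Cfsg.indFun H θ) = 0) := by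
  classical
  have : Fintype H := Fintype.ofFinite H
  constructor
  · rintro ⟨g, rfl⟩
    exact indFun_conjChar H θ g
  · intro hne
    rw [frobenius_reciprocity H φ (indFun_isClassFunction H θ), indFun_restrict_normal,
      classInner_smul_right, classInner_sum_right]
    have h0 : ∀ g : G, Cfsg.classInner φ (conjChar H θ g) = 0 := by
      intro g
      apply classInner_irr_ne hφ (conjChar_irr H hθ g)
      intro h
      exact hne ⟨g, h⟩
    simp [h0]

end Cfsg.Agent.S1486
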