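import Cfsg.Statements.S1487
import Cfsg.Agent.Lib.Helper1.CharMisc

set_option autoImplicit false
open Pointwise
open Cfsg

namespace Cfsg.Agent.S1487

open Cfsg.Agent.Lib.Helper1
open scoped ComplexConjugate

/-- Let A ≤ H be normal subgroups of the finite group G and θ an irreducible character of H. Then θ takes the value θ 1 on all of A if and only if the function induced from θ to G takes its value at 1 on all of A. -/
theorem result {G : Type*} [Group G] [Fintype G] (A H : Subgroup G) [A.Normal] [H.Normal] (hAH : A ≤ H) (θ : H → ℂ) (hθ : Cfsg.IsIrrCharacter H θ) : (∀ a : H, (a : G) ∈ A → θ a = θ 1) ↔ (∀ a : G, a ∈ A → Cfsg.indFun H θ a = Cfsg.indFun H θ 1) := by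
  classical
  have hAn : A.Normal := inferInstance
  have hmem : ∀ a ∈ A, ∀ y : G, y⁻¹ * a * y ∈ A := fun a ha y => by
    have := hAn.conj_mem a ha y⁻¹
    simpa using this
  have hform : ∀ a (ha : a ∈ A), Cfsg.indFun H θ a =
      (Nat.card H : ℂ)⁻¹ * ∑ y : G, θ ⟨y⁻¹ * a * y, hAH (hmem a ha y)⟩ := by
    intro a ha
    rw [indFun_apply]
    congr 1
    refine Finset.sum_congr rfl (fun y _ => ?_)
    exact extendByZero_of_mem H θ (hAH (hmem a ha y))
  have hcardH : (Nat.card H : ℂ) ≠ 0 := by exact_mod_cast (Nat.card_pos (α := H)).ne'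
  have hone : ∀ y : G, (⟨y⁻¹ * 1 * y, hAH (hmem 1 A.one_mem y)⟩ : H) = 1 :=
    fun y => Subtype.ext (by simp)
  constructor
  · intro h a ha
    rw [hform a ha, hform 1 A.one_mem]
    congr 1
    refine Finset.sum_congr rfl (fun y _ => ?_)
    rw [h _ (hmem a ha y), hone y]
  · intro h a ha
    obtain ⟨n, ρ, hρ, rfl⟩ := hθ
    have hd : ρ.character 1 = (n : ℂ) := by
      rw [Representation.char_one]
      simp
    have hnorm : ∀ z : H, ‖ρ.character z‖ ≤ (n : ℝ) := by
      intro z
      have h1 := norm_char_le ρ z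
      rwa [Module.finrank_fin_fun] at h1
    have hle : ∀ z : H, (ρ.character z).re ≤ (n : ℝ) :=
      fun z => (Complex.re_le_norm _).trans (hnorm z)
    have h2 := h (a : G) ha
    rw [hform _ ha, hform 1 A.one_mem] at h2
    have h3 := mul_left_cancel₀ (inv_ne_zero hcardH) h2
    simp only [hone, hd] at h3
    have h5 := congrArg Complex.re h3
    rw [Complex.re_sum, Complex.re_sum] at h5
    simp only [Complex.natCast_re] at h5
    have h6 := (Finset.sum_eq_sum_iff_of_le
      (fun y _ => hle ⟨y⁻¹ * (a : G) * y, hAH (hmem _ ha y)⟩)).mp h5 1 (Finset.mem_univ _)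
    have h7 : (⟨(1 : G)⁻¹ * (a : G) * 1, hAH (hmem _ ha 1)⟩ : H) = a := Subtype.ext (by simp)
    rw [h7] at h6
    have h8 := hnorm a
    have h9 : ‖ρ.character a‖ ^ 2 = (ρ.character a).re ^ 2 + (ρ.character a).im ^ 2 := by
      rw [Complex.sq_norm, Complex.normSq_apply]
      ring
    have h10 : (ρ.character a).im = 0 := by
      have h11 : ‖ρ.character a‖ ^ 2 ≤ (n : ℝ) ^ 2 :=
        pow_le_pow_left₀ (norm_nonneg _) h8 2
      rw [h9, h6] at h11
      nlinarith [sq_nonneg (ρ.character a).im]
    rw [hd]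
    apply Complex.ext
    · simpa using h6
    · simpa using h10

end Cfsg.Agent.S1487
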