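import Cfsg.Statements.S1488
import Mathlib.GroupTheory.Sylow
import Mathlib.GroupTheory.Coset.Card

set_option autoImplicit false
open Cfsg

namespace Cfsg.Agent.S1488

theorem sum_comp_mk {G : Type*} [Group G] [Fintype G] (A : Subgroup G) [Fintype (G ⧸ A)]
    (f : G ⧸ A → ℂ) :
    ∑ x : G, f (QuotientGroup.mk x) = (Nat.card A : ℂ) * ∑ y : G ⧸ A, f y := by
  classical
  rw [← Fintype.sum_fiberwise' (QuotientGroup.mk : G → G ⧸ A) f, Finset.mul_sum]
  refine Finset.sum_congr rfl (fun j _ => ?_)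
  rw [Finset.sum_const, Finset.card_univ, nsmul_eq_mul, ← Nat.card_eq_fintype_card]
  have h := QuotientGroup.card_preimage_mk A ({j} : Set (G ⧸ A))
  have h2 : Nat.card ({j} : Set (G ⧸ A)) = 1 := by simp
  rw [h2, mul_one] at h
  have h3 : Nat.card {i : G // (QuotientGroup.mk i : G ⧸ A) = j} =
      Nat.card ↑(QuotientGroup.mk ⁻¹' ({j} : Set (G ⧸ A))) := rfl
  rw [h3, h]

theorem extend_eq {G : Type*} [Group G] (A H : Subgroup G) [A.Normal] (hAH : A ≤ H)
    (θ : H → ℂ) (θ₁ : ↥(H.map (QuotientGroup.mk' A)) → ℂ)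
    (hθ : ∀ x : H, θ₁ ⟨QuotientGroup.mk' A x, Subgroup.mem_map_of_mem _ x.2⟩ = θ x) (z : G) :
    Cfsg.extendByZero (H.map (QuotientGroup.mk' A)) θ₁ (QuotientGroup.mk' A z) =
      Cfsg.extendByZero H θ z := by
  unfold Cfsg.extendByZero
  by_cases hz : z ∈ H
  · have e1 : Function.extend (Subtype.val : H → G) θ 0 z = θ ⟨z, hz⟩ :=
      Subtype.val_injective.extend_apply θ 0 ⟨z, hz⟩
    have e2 : Function.extend (Subtype.val : ↥(H.map (QuotientGroup.mk' A)) → G ⧸ A) θ₁ 0
        (QuotientGroup.mk' A z) = θ₁ ⟨QuotientGroup.mk' A z, Subgroup.mem_map_of_mem _ hz⟩ :=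
      Subtype.val_injective.extend_apply θ₁ 0 ⟨QuotientGroup.mk' A z, Subgroup.mem_map_of_mem _ hz⟩
    rw [e1, e2]
    exact hθ ⟨z, hz⟩
  · have e1 : Function.extend (Subtype.val : H → G) θ 0 z = 0 := by
      apply Function.extend_apply'
      rintro ⟨⟨w, hw⟩, rfl⟩
      exact hz hw
    have e2 : Function.extend (Subtype.val : ↥(H.map (QuotientGroup.mk' A)) → G ⧸ A) θ₁ 0
        (QuotientGroup.mk' A z) = 0 := by
      apply Function.extend_apply'
      rintro ⟨⟨w, hw⟩, hwz⟩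
      apply hz
      obtain ⟨h, hh, hhw⟩ := hw
      have hwz' : w = QuotientGroup.mk' A z := hwz
      rw [hwz'] at hhw
      have : h⁻¹ * z ∈ A := by
        rw [← QuotientGroup.eq_one_iff, QuotientGroup.mk_mul, QuotientGroup.mk_inv]
        have h3 : (QuotientGroup.mk h : G ⧸ A) = QuotientGroup.mk z := hhw
        rw [h3]
        simp
      have h4 : z = h * (h⁻¹ * z) := by group
      rw [h4]
      exact H.mul_mem hh (hAH this)
    rw [e1, e2]

theorem result {G : Type*} [Group G] [Fintype G] (A H : Subgroup G) [A.Normal] (hAH : A ≤ H) [Fintype (G ⧸ A)] [Fintype ↥(H.map (QuotientGroup.mk' A))] (θ : H → ℂ) (θ₁ : ↥(H.map (QuotientGroup.mk' A)) → ℂ) (hθ : ∀ x : H, θ₁ ⟨QuotientGroup.mk' A x, Subgroup.mem_map_of_mem _ x.2⟩ = θ x) (g : G) : Cfsg.indFun (H.map (QuotientGroup.mk' A)) θ₁ (QuotientGroup.mk' A g) = Cfsg.indFun H θ g := by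
  unfold Cfsg.indFun
  have hsum : ∑ x : G, Cfsg.extendByZero H θ (x⁻¹ * g * x) =
      (Nat.card A : ℂ) * ∑ y : G ⧸ A, Cfsg.extendByZero (H.map (QuotientGroup.mk' A)) θ₁
        (y⁻¹ * QuotientGroup.mk' A g * y) := by
    rw [← sum_comp_mk A (fun y => Cfsg.extendByZero (H.map (QuotientGroup.mk' A)) θ₁
        (y⁻¹ * QuotientGroup.mk' A g * y))]
    refine Finset.sum_congr rfl (fun x _ => ?_)
    rw [← extend_eq A H hAH θ θ₁ hθ]
    rfl
  rw [hsum]
  have hcard : (Nat.card H : ℂ) = (Nat.card A : ℂ) * (Nat.card ↥(H.map (QuotientGroup.mk' A)) : ℂ) := by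
    have h1 : Nat.card (A.subgroupOf H) = Nat.card A :=
      Nat.card_congr (Subgroup.subgroupOfEquivOfLe hAH).toEquiv
    have h2 : Nat.card H = Nat.card (H ⧸ A.subgroupOf H) * Nat.card (A.subgroupOf H) :=
      Subgroup.card_eq_card_quotient_mul_card_subgroup _
    have h3 : Nat.card (H ⧸ A.subgroupOf H) = Nat.card ↥(H.map (QuotientGroup.mk' A)) := by
      have hker : ((QuotientGroup.mk' A).comp H.subtype).ker = A.subgroupOf H := by
        ext x
        simp [MonoidHom.mem_ker, Subgroup.mem_subgroupOf]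
      have e := QuotientGroup.quotientKerEquivRange ((QuotientGroup.mk' A).comp H.subtype)
      have hrange : ((QuotientGroup.mk' A).comp H.subtype).range = H.map (QuotientGroup.mk' A) := by
        rw [MonoidHom.range_comp, Subgroup.range_subtype]
      rw [← hrange, ← Nat.card_congr e.toEquiv]
      exact Nat.card_congr (QuotientGroup.quotientMulEquivOfEq hker.symm).toEquiv
    rw [h2, h3, h1]
    push_cast
    ring
  rw [hcard]
  have hA0 : (Nat.card A : ℂ) ≠ 0 := by
    have : 0 < Nat.card A := Nat.card_pos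
    exact_mod_cast this.ne'
  field_simp

end Cfsg.Agent.S1488
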