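import Cfsg.Statements.S1490
import Cfsg.Agent.Lib.Helper10.Gal
import Cfsg.Agent.S1489

set_option autoImplicit false
open Cfsg

namespace Cfsg.Agent.S1490

open Cfsg.Agent.Lib.Helper1 Cfsg.Agent.Lib.Helper10.Virt Cfsg.Agent.Lib.Helper10.IndLin
open Cfsg.Agent.Lib.Helper10.Gal
open scoped ComplexConjugate

/-- The common core of the two statements on induction from a normal subgroup whose inertia
quotient is abelian. -/
theorem main {G : Type*} [Group G] [Fintype G] (H T : Subgroup G) [hN : H.Normal] (θ : H → ℂ)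
    (hθ : Cfsg.IsIrrCharacter H θ)
    (hT : ∀ g : G, g ∈ T ↔ ∀ h : H, θ ⟨g * h * g⁻¹, hN.conj_mem h h.2 g⟩ = θ h)
    (hab : ∀ x ∈ T, ∀ y ∈ T, x * y * x⁻¹ * y⁻¹ ∈ H) :
    ∃ (e : ℕ) (C : Finset (G → ℂ)), 0 < e ∧ (∀ χ ∈ C, Cfsg.IsIrrCharacter G χ) ∧
      e ^ 2 * C.card * Nat.card H = Nat.card T ∧ Cfsg.indFun H θ = (e : ℂ) • ∑ χ ∈ C, χ ∧
      (∀ χ ∈ C, χ 1 = (T.index : ℂ) * e * θ 1) ∧
      (Nat.Coprime (Nat.card H) (H.relIndex T) → e = 1) := by
  classical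
  haveI : Fintype T := Fintype.ofFinite T
  have hHT : H ≤ T := by
    intro g hg
    rw [hT]
    intro h
    exact IsIrrCharacter.isClassFunction hθ h ⟨g, hg⟩
  obtain ⟨Θ, hΘ⟩ : ∃ Θ : H.subgroupOf T → ℂ,
      Θ = fun x : H.subgroupOf T => θ ⟨(x : T), Subgroup.mem_subgroupOf.mp x.2⟩ := ⟨_, rfl⟩
  have hΘirr : Cfsg.IsIrrCharacter (H.subgroupOf T) Θ := by
    have h := IsIrrCharacter.comp_mulEquiv hθ (Subgroup.subgroupOfEquivOfLe hHT)
    have e : Θ = θ ∘ (Subgroup.subgroupOfEquivOfLe hHT) := by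
      rw [hΘ]
      funext x
      rfl
    rw [e]
    exact h
  have hall : ∀ (t : T) (h : H.subgroupOf T),
      Θ ⟨t * h * t⁻¹, (inferInstance : (H.subgroupOf T).Normal).conj_mem h h.2 t⟩ = Θ h := by
    intro t h
    rw [hΘ]
    exact (hT t).mp t.2 ⟨(h : T), Subgroup.mem_subgroupOf.mp h.2⟩
  have hab' : ∀ x y : T, x * y * x⁻¹ * y⁻¹ ∈ H.subgroupOf T := by
    intro x y
    rw [Subgroup.mem_subgroupOf]
    exact hab x x.2 y y.2
  have hΘ1 : Θ 1 = θ 1 := by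
    rw [hΘ]
    rfl
  have hcardN : Nat.card (H.subgroupOf T) = Nat.card H :=
    Nat.card_congr (Subgroup.subgroupOfEquivOfLe hHT).toEquiv
  obtain ⟨e, C_T, he, hCirr, hcard, hind, hdeg, hconst⟩ :=
    invariant_abelian (H.subgroupOf T) Θ hΘirr hall hab'
  have htrans : Cfsg.indFun T (Cfsg.indFun (H.subgroupOf T) Θ) = Cfsg.indFun H θ := by
    rw [hΘ]
    exact indFun_trans H T hHT θ
  have hcl : ∀ ψ ∈ C_T, ∀ ψ' ∈ C_T, Cfsg.IsIrrCharacter G (Cfsg.indFun T ψ) ∧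
      (Cfsg.indFun T ψ = Cfsg.indFun T ψ' → ψ = ψ') := by
    intro ψ hψ ψ' hψ'
    have h1 := hconst ψ hψ
    have h2 := hconst ψ' hψ'
    rw [hΘ] at h1 h2
    exact Cfsg.Agent.S1489.result H T θ hθ hT hHT ψ ψ' (hCirr ψ hψ) (hCirr ψ' hψ') h1 h2
  have hinj : Set.InjOn (Cfsg.indFun T) (C_T : Set (T → ℂ)) :=
    fun ψ hψ ψ' hψ' h => (hcl ψ hψ ψ' hψ').2 h
  refine ⟨e, C_T.image (Cfsg.indFun T), he, ?_, ?_, ?_, ?_, ?_⟩
  · intro χ hχ
    obtain ⟨ψ, hψ, rfl⟩ := Finset.mem_image.mp hχ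
    exact (hcl ψ hψ ψ hψ).1
  · rw [Finset.card_image_of_injOn hinj, ← hcardN]
    exact hcard
  · rw [Finset.sum_image hinj, ← htrans, hind, indFun_smul, indFun_sum]
  · intro χ hχ
    obtain ⟨ψ, hψ, rfl⟩ := Finset.mem_image.mp hχ
    rw [indFun_one, hdeg ψ hψ, hΘ1]
    ring
  · intro hcop
    obtain ⟨dΘ, hd1, hd2, hd3⟩ := IsIrrCharacter.degree_dvd_card hΘirr
    have hcop' : Nat.Coprime (Nat.card (H.subgroupOf T)) (H.subgroupOf T).index := by
      rw [hcardN]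
      exact hcop
    have h1 : e ∣ dΘ := e_dvd_degree (H.subgroupOf T) Θ dΘ hd1 hcop' e C_T
      (fun ψ hψ => IsIrrCharacter.isCharacter (hCirr ψ hψ)) hind
    have h2 : e ∣ (H.subgroupOf T).index := by
      have h3 := Subgroup.card_mul_index (H.subgroupOf T)
      rw [← hcard] at h3
      have hpos : 0 < Nat.card (H.subgroupOf T) := Nat.card_pos
      have h4 : (H.subgroupOf T).index = e ^ 2 * C_T.card := by
        apply Nat.eq_of_mul_eq_mul_left hpos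
        rw [h3]
        ring
      rw [h4]
      exact ⟨e * C_T.card, by ring⟩
    exact Nat.eq_one_of_dvd_coprimes hcop' (h1.trans hd2) h2

/-- Let H be a normal subgroup of the finite group G, θ an irreducible character of H with inertia group T, and suppose the commutator of any two elements of T lies in H (T/H abelian). Then there are a positive integer e and a finite set C of irreducible characters of G with e ^ 2 * |C| * |H| = |T|, such that the function induced from θ is e times the sum of the members of C and every member of C has degree [G:T] * e * θ(1). -/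
theorem result {G : Type*} [Group G] [Fintype G] (H T : Subgroup G) [hN : H.Normal] (θ : H → ℂ) (hθ : Cfsg.IsIrrCharacter H θ) (hT : ∀ g : G, g ∈ T ↔ ∀ h : H, θ ⟨g * h * g⁻¹, hN.conj_mem h h.2 g⟩ = θ h) (hab : ∀ x ∈ T, ∀ y ∈ T, x * y * x⁻¹ * y⁻¹ ∈ H) : ∃ (e : ℕ) (C : Finset (G → ℂ)), 0 < e ∧ (∀ χ ∈ C, Cfsg.IsIrrCharacter G χ) ∧ e ^ 2 * C.card * Nat.card H = Nat.card T ∧ Cfsg.indFun H θ = (e : ℂ) • ∑ χ ∈ C, χ ∧ ∀ χ ∈ C, χ 1 = (T.index : ℂ) * e * θ 1 := by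
  obtain ⟨e, C, h1, h2, h3, h4, h5, -⟩ := main H T θ hθ hT hab
  exact ⟨e, C, h1, h2, h3, h4, h5⟩

end Cfsg.Agent.S1490
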