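import Cfsg.Statements.S1494
import Cfsg.Agent.Lib.Helper10.Gal

set_option autoImplicit false
open Cfsg

namespace Cfsg.Agent.S1494

open Cfsg.Agent.Lib.Helper1 Cfsg.Agent.Lib.Helper10.Gal
open scoped ComplexConjugate

theorem integral_of_pow {z : ℂ} {n : ℕ} (hn : 0 < n) (h : z ^ n = 1) : IsIntegral ℤ z :=
  IsIntegral.of_pow hn (by rw [h]; exact isIntegral_one)

/-- The statement for characters. -/
theorem char_case {G : Type*} [Group G] [Finite G] (χ : G → ℂ) (hχ : Cfsg.IsCharacter G χ)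
    (p : ℕ) (hp : p.Prime) (x y : G) (hx : orderOf x = p) (hxy : x * y = y * x) :
    ∃ ω : ℂ, IsIntegral ℤ ω ∧
      χ (x * y) - χ y = (1 - Complex.exp (2 * Real.pi * Complex.I / p)) * ω := by
  classical
  obtain ⟨A, hA⟩ : ∃ A : Subgroup G, A = Subgroup.closure ({x, y} : Set G) := ⟨_, rfl⟩
  have hxA : x ∈ A := by
    rw [hA]
    exact Subgroup.subset_closure (by simp)
  have hyA : y ∈ A := by
    rw [hA]
    exact Subgroup.subset_closure (by simp)
  have hcomm : ∀ a b : A, a * b = b * a := by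
    have hc : ∀ a ∈ ({x, y} : Set G), ∀ b ∈ ({x, y} : Set G), a * b = b * a := by
      intro a ha b hb
      rcases ha with rfl | rfl <;> rcases hb with rfl | rfl
      · rfl
      · exact hxy
      · exact hxy.symm
      · rfl
    have key : ∀ a ∈ Subgroup.closure ({x, y} : Set G),
        ∀ b ∈ Subgroup.closure ({x, y} : Set G), a * b = b * a := by
      intro a ha b hb
      have h1 : Subgroup.closure ({x, y} : Set G) ≤ Subgroup.centralizer ({x, y} : Set G) := by
        rw [Subgroup.closure_le]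
        intro g hg
        rw [SetLike.mem_coe, Subgroup.mem_centralizer_iff]
        intro h hh
        exact hc h hh g hg
      have h2 : Subgroup.closure ({x, y} : Set G) ≤
          Subgroup.centralizer (Subgroup.closure ({x, y} : Set G) : Set G) := by
        rw [Subgroup.closure_le]
        intro g hg
        rw [SetLike.mem_coe, Subgroup.mem_centralizer_iff]
        intro h hh
        have := h1 hh
        rw [Subgroup.mem_centralizer_iff] at this
        exact (this g hg).symm
      have := h2 hb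
      rw [Subgroup.mem_centralizer_iff] at this
      exact this a ha
    intro a b
    apply Subtype.ext
    have ha : (a : G) ∈ Subgroup.closure ({x, y} : Set G) := hA ▸ a.2
    have hb : (b : G) ∈ Subgroup.closure ({x, y} : Set G) := hA ▸ b.2
    exact key a ha b hb
  haveI : Fintype A := Fintype.ofFinite A
  letI : Fintype (Cfsg.IrrCharacter A) := irrFintype
  have hres : Cfsg.IsCharacter A (fun a : A => χ a) := IsCharacter.restrict hχ A
  obtain ⟨m, -, hm2⟩ := IsCharacter.eq_sum_irr hres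
  obtain ⟨ε, hε⟩ : ∃ ε : ℂ, ε = Complex.exp (2 * Real.pi * Complex.I / p) := ⟨_, rfl⟩
  rw [← hε]
  have hprim : IsPrimitiveRoot ε p := by
    rw [hε]
    exact Complex.isPrimitiveRoot_exp p hp.ne_zero
  have hεint : IsIntegral ℤ ε := integral_of_pow hp.pos hprim.pow_eq_one
  haveI : NeZero p := ⟨hp.ne_zero⟩
  -- each linear constituent
  have hlam : ∀ lam : Cfsg.IrrCharacter A, ∃ w : ℂ, IsIntegral ℤ w ∧
      (lam : A → ℂ) (⟨x, hxA⟩ * ⟨y, hyA⟩) - (lam : A → ℂ) ⟨y, hyA⟩ = (1 - ε) * w := by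
    intro lam
    have h1 := irr_abelian_degree_one hcomm lam.2
    obtain ⟨l, hl⟩ := IsIrrCharacter.exists_monoidHom lam.2 h1
    have hxp : ((l ⟨x, hxA⟩ : ℂˣ) : ℂ) ^ p = 1 := by
      have : (⟨x, hxA⟩ : A) ^ p = 1 := by
        apply Subtype.ext
        simp only [SubmonoidClass.coe_pow, OneMemClass.coe_one]
        rw [← hx]
        exact pow_orderOf_eq_one x
      rw [← Units.val_pow_eq_pow_val, ← map_pow, this, map_one]
      rfl
    obtain ⟨j, -, hj⟩ := hprim.eq_pow_of_pow_eq_one hxp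
    have hy : ((l ⟨y, hyA⟩ : ℂˣ) : ℂ) ^ orderOf y = 1 := by
      have : (⟨y, hyA⟩ : A) ^ orderOf y = 1 := by
        apply Subtype.ext
        simp only [SubmonoidClass.coe_pow, OneMemClass.coe_one]
        exact pow_orderOf_eq_one y
      rw [← Units.val_pow_eq_pow_val, ← map_pow, this, map_one]
      rfl
    have hyint : IsIntegral ℤ ((l ⟨y, hyA⟩ : ℂˣ) : ℂ) :=
      integral_of_pow (orderOf_pos y) hy
    refine ⟨-(((l ⟨y, hyA⟩ : ℂˣ) : ℂ) * ∑ i ∈ Finset.range j, ε ^ i), ?_, ?_⟩
    · apply IsIntegral.neg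
      apply IsIntegral.mul hyint
      apply IsIntegral.sum
      intro i _
      exact IsIntegral.pow hεint i
    · rw [hl, hl, map_mul, Units.val_mul, ← hj]
      have hg := geom_sum_mul ε j
      linear_combination (-((l ⟨y, hyA⟩ : ℂˣ) : ℂ)) * hg
  choose w hw1 hw2 using hlam
  refine ⟨∑ lam : Cfsg.IrrCharacter A, (m lam : ℂ) * w lam, ?_, ?_⟩
  · apply IsIntegral.sum
    intro lam _
    exact IsIntegral.mul (isIntegral_natCast _) (hw1 lam)
  · have e1 := congrFun hm2 (⟨x, hxA⟩ * ⟨y, hyA⟩)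
    have e2 := congrFun hm2 ⟨y, hyA⟩
    simp only [Subgroup.coe_mul, Finset.sum_apply, Pi.smul_apply, smul_eq_mul] at e1 e2
    rw [e1, e2, ← Finset.sum_sub_distrib, Finset.mul_sum]
    refine Finset.sum_congr rfl (fun lam _ => ?_)
    have := hw2 lam
    linear_combination (m lam : ℂ) * this

/-- Let χ be a generalized character of the finite group G, p a prime, x an element of order p and y an element commuting with x. Then χ(x * y) − χ(y) = (1 − ε) * ω for some algebraic integer ω, where ε = exp(2πi/p). -/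
theorem result {G : Type*} [Group G] [Finite G] (χ : G → ℂ) (hχ : Cfsg.IsGeneralizedCharacter G χ) (p : ℕ) (hp : p.Prime) (x y : G) (hx : orderOf x = p) (hxy : x * y = y * x) : ∃ ω : ℂ, IsIntegral ℤ ω ∧ χ (x * y) - χ y = (1 - Complex.exp (2 * Real.pi * Complex.I / p)) * ω := by
  obtain ⟨χ₁, χ₂, h1, h2, rfl⟩ := hχ
  obtain ⟨ω₁, hω₁, e₁⟩ := char_case χ₁ h1 p hp x y hx hxy
  obtain ⟨ω₂, hω₂, e₂⟩ := char_case χ₂ h2 p hp x y hx hxy
  refine ⟨ω₁ - ω₂, IsIntegral.sub hω₁ hω₂, ?_⟩
  simp only [Pi.sub_apply]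
  linear_combination e₁ - e₂

end Cfsg.Agent.S1494
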