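import Cfsg.Statements.S1495
import Cfsg.Agent.Lib.Helper1.CharInt

set_option autoImplicit false
open Cfsg

namespace Cfsg.Agent.S1495

open Cfsg.Agent.Lib.Helper1

/-- General form: `ε` a primitive `p`-th root of unity. -/
theorem aux (p : ℕ) (hp : p.Prime) (ε : ℂ) (hprim : IsPrimitiveRoot ε p) (n : ℤ) (ω : ℂ)
    (hω : IsIntegral ℤ ω) (h : (n : ℂ) = (1 - ε) * ω) : (p : ℤ) ∣ n := by
  have hεint : IsIntegral ℤ ε := hprim.isIntegral hp.pos
  obtain ⟨q, rfl⟩ : ∃ q, p = q + 2 := ⟨p - 2, by have := hp.two_le; omega⟩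
  have hprod0 := IsPrimitiveRoot.prod_one_sub_pow_eq_order (n := q + 1) (μ := ε) hprim
  have hprod := hprod0
  by_contra hnd
  have hcop : IsCoprime ((q + 2 : ℕ) : ℤ) n :=
    (Nat.prime_iff_prime_int.mp hp).coprime_iff_not_dvd.mpr hnd
  obtain ⟨b, a, hab⟩ := hcop
  have hterm : ∀ k : ℕ, IsIntegral ℤ (1 - ε ^ (k + 1)) := fun k =>
    isIntegral_one.sub (hεint.pow _)
  rw [Finset.prod_range_succ'] at hprod
  have hη₀int : IsIntegral ℤ (∏ k ∈ Finset.range q, (1 - ε ^ (k + 1 + 1))) :=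
    IsIntegral.prod _ (fun k _ => hterm _)
  have hone : (1 - ε) * ((a : ℂ) * ω + b * ∏ k ∈ Finset.range q, (1 - ε ^ (k + 1 + 1))) = 1 := by
    have h1 : ((b * ((q + 2 : ℕ) : ℤ) + a * n : ℤ) : ℂ) = 1 := by rw [hab]; simp
    push_cast at h1 hprod
    simp only [pow_one] at hprod
    rw [h] at h1
    linear_combination h1 + (b : ℂ) * hprod
  have hηint : IsIntegral ℤ ((a : ℂ) * ω + b * ∏ k ∈ Finset.range q, (1 - ε ^ (k + 1 + 1))) :=
    (isIntegral_algebraMap.mul hω).add (isIntegral_algebraMap.mul hη₀int)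
  have hunit : ∀ k ∈ Finset.range (q + 1), ∃ u : ℂ, IsIntegral ℤ u ∧ (1 - ε ^ (k + 1)) * u = 1 := by
    intro k hk
    have hk' : k + 1 < q + 2 := by have := Finset.mem_range.mp hk; omega
    have hcop : Nat.Coprime (k + 1) (q + 2) := by
      rw [Nat.coprime_comm]
      exact (Nat.Prime.coprime_iff_not_dvd hp).mpr (Nat.not_dvd_of_pos_of_lt (by omega) hk')
    obtain ⟨m, -, hm⟩ := Nat.exists_mul_mod_eq_one_of_coprime hcop (by omega)
    have hpow : (ε ^ (k + 1)) ^ m = ε := by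
      rw [← pow_mul, ← Nat.div_add_mod ((k + 1) * m) (q + 2), hm, pow_add, pow_mul,
        hprim.pow_eq_one, one_pow, one_mul, pow_one]
    refine ⟨(∑ i ∈ Finset.range m, (ε ^ (k + 1)) ^ i) *
      ((a : ℂ) * ω + b * ∏ k ∈ Finset.range q, (1 - ε ^ (k + 1 + 1))), ?_, ?_⟩
    · exact (IsIntegral.sum _ (fun i _ => (hεint.pow _).pow _)).mul hηint
    · rw [← mul_assoc, mul_neg_geom_sum, hpow, hone]
  choose! u hu1 hu2 using hunit
  have hfinal : ((q + 2 : ℕ) : ℂ) * ∏ k ∈ Finset.range (q + 1), u k = 1 := by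
    have h2 : ∏ k ∈ Finset.range (q + 1), ((1 - ε ^ (k + 1)) * u k) = 1 :=
      Finset.prod_eq_one hu2
    rw [Finset.prod_mul_distrib, hprod0] at h2
    rw [← h2]; push_cast; ring
  have hint : IsIntegral ℤ (((1 : ℕ) : ℂ) / ((q + 2 : ℕ) : ℂ)) := by
    have hq : ((q + 2 : ℕ) : ℂ) ≠ 0 := by exact_mod_cast (by omega : q + 2 ≠ 0)
    have h3 : ((1 : ℕ) : ℂ) / ((q + 2 : ℕ) : ℂ) = ∏ k ∈ Finset.range (q + 1), u k := by
      rw [div_eq_iff hq, Nat.cast_one, mul_comm, hfinal]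
    rw [h3]
    exact IsIntegral.prod _ (fun k hk => hu1 k hk)
  have h4 := nat_dvd_of_isIntegral_div (by omega : q + 2 ≠ 0) hint
  have h5 := Nat.le_of_dvd one_pos h4
  omega

/-- Let p be a prime, ε = exp(2πi/p), and n an integer such that n = (1 − ε) * ω for some algebraic integer ω. Then p divides n. -/
theorem result (p : ℕ) (hp : p.Prime) (n : ℤ) (ω : ℂ) (hω : IsIntegral ℤ ω) (h : (n : ℂ) = (1 - Complex.exp (2 * Real.pi * Complex.I / p)) * ω) : (p : ℤ) ∣ n := by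
  exact aux p hp _ (Complex.isPrimitiveRoot_exp p hp.ne_zero) n ω hω h

end Cfsg.Agent.S1495
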