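import Cfsg.Statements.S1496
import Mathlib.GroupTheory.Perm.Cycle.Type
import Mathlib.GroupTheory.OrderOfElement
import Mathlib.Data.Nat.ModEq
import Mathlib.Data.Nat.Factorization.Basic

set_option autoImplicit false
open Cfsg

namespace Cfsg.Agent.S1496

theorem conj_mem_of_normalizer {G : Type*} [Group G] (H : Subgroup G) (g : G)
    (hg : g ∈ Subgroup.normalizer (H : Set G)) (z : G) (hz : z ∈ H) : g * z * g⁻¹ ∈ H :=
  (Subgroup.mem_set_normalizer_iff.mp hg z).mp hz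

theorem coset_pow {G : Type*} [Group G] (H : Subgroup G) (g : G)
    (hg : g ∈ Subgroup.normalizer (H : Set G)) (h : G) (hh : h ∈ H) (a : ℕ) :
    (h * g) ^ a * (g ^ a)⁻¹ ∈ H := by
  induction a with
  | zero => simp
  | succ a ih =>
    have hga : g ^ a ∈ Subgroup.normalizer (H : Set G) := Subgroup.pow_mem _ hg a
    have h1 : g ^ a * h * (g ^ a)⁻¹ ∈ H := conj_mem_of_normalizer H _ hga h hh
    have e : (h * g) ^ (a + 1) * (g ^ (a + 1))⁻¹ =
        ((h * g) ^ a * (g ^ a)⁻¹) * (g ^ a * h * (g ^ a)⁻¹) := by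
      rw [pow_succ, pow_succ]
      group
    rw [e]
    exact H.mul_mem ih h1

theorem prime_power_case {G : Type*} [Group G] [Finite G] (H : Subgroup G) (g : G)
    (hg : g ∈ Subgroup.normalizer (H : Set G)) (p k : ℕ) [Fact p.Prime] (hgp : g ^ p ^ k = 1)
    (hp : ¬ p ∣ Nat.card H) (y : G) (hy : y * g⁻¹ ∈ H) (hyp : y ^ p ^ k = 1) :
    ∃ x ∈ H, x * y * x⁻¹ = g := by
  classical
  haveI := Fintype.ofFinite H
  let T : H → H := fun z => ⟨y * z * g⁻¹, by
    have e : y * (z : G) * g⁻¹ = (y * g⁻¹) * (g * z * g⁻¹) := by group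
    rw [e]
    exact H.mul_mem hy (conj_mem_of_normalizer H g hg z z.2)⟩
  have hiter : ∀ (j : ℕ) (z : H), ((T^[j] z : H) : G) = y ^ j * z * (g ^ j)⁻¹ := by
    intro j
    induction j with
    | zero =>
      intro z
      show ((z : H) : G) = _
      simp
    | succ j ih =>
      intro z
      rw [Function.iterate_succ_apply']
      show y * ((T^[j] z : H) : G) * g⁻¹ = _
      rw [ih z, pow_succ', pow_succ]
      group
  let T' : Function.End H := T
  have hpow : ∀ j : ℕ, (T' ^ j : Function.End H) = (T^[j] : H → H) := by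
    intro j
    induction j with
    | zero => rfl
    | succ j ih =>
      rw [pow_succ', ih, Function.iterate_succ']
      rfl
  have hT : T' ^ p ^ k = 1 := by
    rw [hpow]
    funext z
    apply Subtype.ext
    rw [hiter, hyp, hgp]
    simp
    rfl
  have hmod := Equiv.Perm.card_fixedPoints_modEq (f := T') hT
  have hne : Fintype.card (Function.fixedPoints T') ≠ 0 := by
    intro h0
    rw [h0] at hmod
    apply hp
    rw [Nat.card_eq_fintype_card]
    exact (Nat.modEq_zero_iff_dvd).mp hmod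
  obtain ⟨⟨z, hz⟩⟩ := Fintype.card_pos_iff.mp (Nat.pos_of_ne_zero hne)
  have hz' : y * (z : G) * g⁻¹ = z := congrArg Subtype.val hz
  refine ⟨(z : G)⁻¹, H.inv_mem z.2, ?_⟩
  have : y = z * g * (z : G)⁻¹ := by
    calc y = y * z * g⁻¹ * (g * (z : G)⁻¹) := by group
      _ = z * (g * (z : G)⁻¹) := by rw [hz']
      _ = z * g * (z : G)⁻¹ := by group
  rw [this]
  group

theorem main {G : Type*} [Group G] [Finite G] : ∀ (n : ℕ) (H : Subgroup G) (g : G),
    g ∈ Subgroup.normalizer (H : Set G) → g ^ n = 1 → 0 < n → Nat.Coprime n (Nat.card H) →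
    ∀ y : G, y * g⁻¹ ∈ H → y ^ n = 1 → ∃ x ∈ H, x * y * x⁻¹ = g := by
  intro n
  induction n using Nat.strong_induction_on with
  | _ n ih =>
    intro H g hg hgn hn0 hcop y hy hyn
    by_cases hn1 : n = 1
    · subst hn1
      rw [pow_one] at hgn hyn
      exact ⟨1, H.one_mem, by rw [hgn, hyn]; simp⟩
    · let p := n.minFac
      have hpp : p.Prime := Nat.minFac_prime hn1
      haveI : Fact p.Prime := ⟨hpp⟩
      let k := n.factorization p
      let n' := n / p ^ k
      have hpk : p ^ k ∣ n := Nat.ordProj_dvd n p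
      have hnn' : p ^ k * n' = n := Nat.mul_div_cancel' hpk
      have hk0 : 0 < k := hpp.factorization_pos_of_dvd (by omega) (Nat.minFac_dvd n)
      have hn'pos : 0 < n' := Nat.div_pos (Nat.le_of_dvd hn0 hpk) (pow_pos hpp.pos k)
      have hn'lt : n' < n := by
        have h2 : 2 ≤ p ^ k := by
          calc 2 ≤ p := hpp.two_le
            _ = p ^ 1 := (pow_one p).symm
            _ ≤ p ^ k := Nat.pow_le_pow_right hpp.pos hk0
        calc n' < 2 * n' := by omega
          _ ≤ p ^ k * n' := Nat.mul_le_mul_right _ h2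
          _ = n := hnn'
      have hcop' : Nat.Coprime (p ^ k) n' := by
        apply Nat.Coprime.pow_left
        exact Nat.coprime_ordCompl hpp (by omega)
      obtain ⟨a, ha1, ha0⟩ := Nat.chineseRemainder hcop' 1 0
      obtain ⟨b, hb0, hb1⟩ := Nat.chineseRemainder hcop' 0 1
      have hab : a + b ≡ 1 [MOD n] := by
        rw [← hnn']
        apply (Nat.modEq_and_modEq_iff_modEq_mul hcop').mp
        exact ⟨by simpa using ha1.add hb0, by simpa using ha0.add hb1⟩
      have hdvd_a : n ∣ a * p ^ k := by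
        rw [← hnn', mul_comm a]
        exact Nat.mul_dvd_mul_left _ ((Nat.modEq_zero_iff_dvd).mp ha0)
      have hdvd_b : n ∣ b * n' := by
        rw [← hnn', mul_comm b, mul_comm (p ^ k)]
        exact Nat.mul_dvd_mul_left _ ((Nat.modEq_zero_iff_dvd).mp hb0)
      have hpowsum : ∀ w : G, w ^ n = 1 → w ^ a * w ^ b = w := by
        intro w hw
        rw [← pow_add]
        have h1 : w ^ (a + b) = w ^ 1 := by
          rw [pow_eq_pow_iff_modEq]
          exact hab.of_dvd (orderOf_dvd_of_pow_eq_one hw)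
        rw [h1, pow_one]
      have hpow_a : ∀ w : G, w ^ n = 1 → (w ^ a) ^ p ^ k = 1 := by
        intro w hw
        rw [← pow_mul]
        obtain ⟨c, hc⟩ := hdvd_a
        rw [hc, pow_mul, hw, one_pow]
      have hpow_b : ∀ w : G, w ^ n = 1 → (w ^ b) ^ n' = 1 := by
        intro w hw
        rw [← pow_mul]
        obtain ⟨c, hc⟩ := hdvd_b
        rw [hc, pow_mul, hw, one_pow]
      have hyg : y = (y * g⁻¹) * g := by group
      have hya : y ^ a * (g ^ a)⁻¹ ∈ H := by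
        have := coset_pow H g hg (y * g⁻¹) hy a
        rwa [← hyg] at this
      have hyb : y ^ b * (g ^ b)⁻¹ ∈ H := by
        have := coset_pow H g hg (y * g⁻¹) hy b
        rwa [← hyg] at this
      have hga : g ^ a ∈ Subgroup.normalizer (H : Set G) := Subgroup.pow_mem _ hg a
      have hgb : g ^ b ∈ Subgroup.normalizer (H : Set G) := Subgroup.pow_mem _ hg b
      have hpH : ¬ p ∣ Nat.card H := by
        intro hdiv
        have : p ∣ Nat.gcd n (Nat.card H) := Nat.dvd_gcd (Nat.minFac_dvd n) hdiv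
        rw [hcop] at this
        exact hpp.one_lt.ne' (Nat.dvd_one.mp this)
      obtain ⟨x₁, hx₁, hx₁y⟩ := prime_power_case H (g ^ a) hga p k (hpow_a g hgn) hpH (y ^ a) hya
        (hpow_a y hyn)
      let H₁ : Subgroup G := H ⊓ Subgroup.centralizer ({g ^ a} : Set G)
      have hcomm_g : g ^ b * g ^ a = g ^ a * g ^ b := by
        rw [← pow_add, ← pow_add, add_comm]
      have hgbinv : (g ^ b)⁻¹ * g ^ a = g ^ a * (g ^ b)⁻¹ :=
        ((Commute.pow_pow_self g b a).inv_left).eq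
      have hmemH₁ : ∀ z : G, z ∈ H₁ ↔ z ∈ H ∧ z * g ^ a = g ^ a * z := by
        intro z
        simp only [H₁, Subgroup.mem_inf, Subgroup.mem_centralizer_singleton_iff]
      have hgb₁ : g ^ b ∈ Subgroup.normalizer (H₁ : Set G) := by
        rw [Subgroup.mem_set_normalizer_iff]
        intro z
        show z ∈ H₁ ↔ g ^ b * z * (g ^ b)⁻¹ ∈ H₁
        rw [hmemH₁, hmemH₁]
        constructor
        · rintro ⟨hz1, hz2⟩
          refine ⟨conj_mem_of_normalizer H _ hgb z hz1, ?_⟩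
          calc g ^ b * z * (g ^ b)⁻¹ * g ^ a = g ^ b * z * ((g ^ b)⁻¹ * g ^ a) := by group
            _ = g ^ b * (z * g ^ a) * (g ^ b)⁻¹ := by rw [hgbinv]; group
            _ = (g ^ b * g ^ a) * z * (g ^ b)⁻¹ := by rw [hz2]; group
            _ = g ^ a * (g ^ b * z * (g ^ b)⁻¹) := by rw [hcomm_g]; group
        · rintro ⟨hz1, hz2⟩
          have hz1' : z ∈ H := by
            have := conj_mem_of_normalizer H _ (Subgroup.inv_mem _ hgb) _ hz1
            simpa [mul_assoc] using this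
          refine ⟨hz1', ?_⟩
          have e1 : z = (g ^ b)⁻¹ * (g ^ b * z * (g ^ b)⁻¹) * g ^ b := by group
          rw [e1]
          calc (g ^ b)⁻¹ * (g ^ b * z * (g ^ b)⁻¹) * g ^ b * g ^ a
              = (g ^ b)⁻¹ * (g ^ b * z * (g ^ b)⁻¹) * (g ^ b * g ^ a) := by group
            _ = (g ^ b)⁻¹ * ((g ^ b * z * (g ^ b)⁻¹) * g ^ a) * g ^ b := by rw [hcomm_g]; group
            _ = ((g ^ b)⁻¹ * g ^ a) * (g ^ b * z * (g ^ b)⁻¹) * g ^ b := by rw [hz2]; group
            _ = g ^ a * ((g ^ b)⁻¹ * (g ^ b * z * (g ^ b)⁻¹) * g ^ b) := by rw [hgbinv]; group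
      set y₂ := x₁ * y ^ b * x₁⁻¹ with hy₂
      have hy₂comm : y₂ * g ^ a = g ^ a * y₂ := by
        have hc : y ^ b * y ^ a = y ^ a * y ^ b := by
          rw [← pow_add, ← pow_add, add_comm]
        rw [hy₂, ← hx₁y]
        calc x₁ * y ^ b * x₁⁻¹ * (x₁ * y ^ a * x₁⁻¹) = x₁ * (y ^ b * y ^ a) * x₁⁻¹ := by group
          _ = x₁ * (y ^ a * y ^ b) * x₁⁻¹ := by rw [hc]
          _ = x₁ * y ^ a * x₁⁻¹ * (x₁ * y ^ b * x₁⁻¹) := by group
      have hy₂H : y₂ * (g ^ b)⁻¹ ∈ H := by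
        have e : y₂ * (g ^ b)⁻¹ = x₁ * (y ^ b * (g ^ b)⁻¹) * (g ^ b * x₁⁻¹ * (g ^ b)⁻¹) := by
          rw [hy₂]; group
        rw [e]
        exact H.mul_mem (H.mul_mem hx₁ hyb) (conj_mem_of_normalizer H _ hgb _ (H.inv_mem hx₁))
      have hy₂H₁ : y₂ * (g ^ b)⁻¹ ∈ H₁ := by
        rw [hmemH₁]
        refine ⟨hy₂H, ?_⟩
        calc y₂ * (g ^ b)⁻¹ * g ^ a = y₂ * ((g ^ b)⁻¹ * g ^ a) := by group
          _ = (y₂ * g ^ a) * (g ^ b)⁻¹ := by rw [hgbinv]; group
          _ = g ^ a * (y₂ * (g ^ b)⁻¹) := by rw [hy₂comm]; group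
      have hy₂n : y₂ ^ n' = 1 := by
        rw [hy₂, conj_pow, hpow_b y hyn]
        group
      have hcop₁ : Nat.Coprime n' (Nat.card H₁) := by
        have h1 : Nat.card H₁ ∣ Nat.card H := Subgroup.card_dvd_of_le inf_le_left
        have h2 : n' ∣ n := Dvd.intro_left _ hnn'
        exact Nat.Coprime.coprime_dvd_left h2 (Nat.Coprime.coprime_dvd_right h1 hcop)
      obtain ⟨x₂, hx₂, hx₂y⟩ := ih n' hn'lt H₁ (g ^ b) hgb₁ (hpow_b g hgn) hn'pos hcop₁ y₂ hy₂H₁ hy₂n
      refine ⟨x₂ * x₁, H.mul_mem ((hmemH₁ x₂).mp hx₂).1 hx₁, ?_⟩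
      have hx₂' := (hmemH₁ x₂).mp hx₂
      have hx₂c : x₂ * g ^ a = g ^ a * x₂ := hx₂'.2
      have hysplit : y = y ^ a * y ^ b := (hpowsum y hyn).symm
      have hgsplit : g ^ a * g ^ b = g := hpowsum g hgn
      calc x₂ * x₁ * y * (x₂ * x₁)⁻¹
          = x₂ * x₁ * (y ^ a * y ^ b) * (x₂ * x₁)⁻¹ := by rw [← hysplit]
        _ = x₂ * ((x₁ * y ^ a * x₁⁻¹) * (x₁ * y ^ b * x₁⁻¹)) * x₂⁻¹ := by group
        _ = x₂ * (g ^ a * y₂) * x₂⁻¹ := by rw [hx₁y]
        _ = (x₂ * g ^ a) * x₂⁻¹ * (x₂ * y₂ * x₂⁻¹) := by group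
        _ = g ^ a * g ^ b := by rw [hx₂c, hx₂y]; group
        _ = g := hgsplit

theorem result {G : Type*} [Group G] [Finite G] (H : Subgroup G) (g : G) (hg : g ∈ Subgroup.normalizer (H : Set G)) (hcop : Nat.Coprime (orderOf g) (Nat.card H)) (h : G) (hh : h ∈ H) : ∃ x ∈ H, ∃ c ∈ H, c * g = g * c ∧ x * (h * g) * x⁻¹ = c * g := by
  set n := orderOf g with hn
  set m := Nat.card H with hm
  have hn0 : 0 < n := orderOf_pos g
  have hm0 : 0 < m := Nat.card_pos
  set y := h * g with hy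
  obtain ⟨a, ha1, ha0⟩ := Nat.chineseRemainder hcop 1 0
  obtain ⟨b, hb0, hb1⟩ := Nat.chineseRemainder hcop 0 1
  have hyn : y ^ n ∈ H := by
    have := coset_pow H g hg h hh n
    rw [hn, pow_orderOf_eq_one] at this
    simpa [hn] using this
  have hynm : y ^ (n * m) = 1 := by
    rw [pow_mul]
    have h1 : (⟨y ^ n, hyn⟩ : H) ^ m = 1 := by rw [hm]; exact pow_card_eq_one'
    exact congrArg Subtype.val h1
  have hab : a + b ≡ 1 [MOD n * m] := by
    apply (Nat.modEq_and_modEq_iff_modEq_mul hcop).mp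
    exact ⟨by simpa using ha1.add hb0, by simpa using ha0.add hb1⟩
  have hysplit : y ^ a * y ^ b = y := by
    rw [← pow_add]
    have h1 : y ^ (a + b) = y ^ 1 := by
      rw [pow_eq_pow_iff_modEq]
      exact hab.of_dvd (orderOf_dvd_of_pow_eq_one hynm)
    rw [h1, pow_one]
  have hga : g ^ a = g := by
    have h1 : g ^ a = g ^ 1 := by
      rw [pow_eq_pow_iff_modEq]
      exact ha1
    rw [h1, pow_one]
  have hya : y ^ a * g⁻¹ ∈ H := by
    have := coset_pow H g hg h hh a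
    rwa [hga] at this
  have hyan : (y ^ a) ^ n = 1 := by
    rw [← pow_mul]
    obtain ⟨c, hc⟩ := (Nat.modEq_zero_iff_dvd).mp ha0
    rw [hc, mul_comm m c, mul_assoc, mul_comm m n, mul_comm c, pow_mul, hynm, one_pow]
  have hybH : y ^ b ∈ H := by
    obtain ⟨c, hc⟩ := (Nat.modEq_zero_iff_dvd).mp hb0
    rw [hc, pow_mul]
    exact H.pow_mem hyn c
  obtain ⟨x, hx, hxy⟩ := main n H g hg (pow_orderOf_eq_one g) hn0 hcop (y ^ a) hya hyan
  refine ⟨x, hx, x * y ^ b * x⁻¹, ?_, ?_, ?_⟩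
  · exact H.mul_mem (H.mul_mem hx hybH) (H.inv_mem hx)
  · have hc : y ^ b * y ^ a = y ^ a * y ^ b := by
      rw [← pow_add, ← pow_add, add_comm]
    rw [← hxy]
    calc x * y ^ b * x⁻¹ * (x * y ^ a * x⁻¹) = x * (y ^ b * y ^ a) * x⁻¹ := by group
      _ = x * (y ^ a * y ^ b) * x⁻¹ := by rw [hc]
      _ = x * y ^ a * x⁻¹ * (x * y ^ b * x⁻¹) := by group
  · have hc : y ^ b * y ^ a = y ^ a * y ^ b := by
      rw [← pow_add, ← pow_add, add_comm]
    calc x * y * x⁻¹ = x * (y ^ a * y ^ b) * x⁻¹ := by rw [hysplit]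
      _ = x * (y ^ b * y ^ a) * x⁻¹ := by rw [hc]
      _ = x * y ^ b * x⁻¹ * (x * y ^ a * x⁻¹) := by group
      _ = x * y ^ b * x⁻¹ * g := by rw [hxy]

end Cfsg.Agent.S1496
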