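import Cfsg.Statements.S1497

set_option autoImplicit false
open Cfsg

namespace Cfsg.Agent.S1497

theorem result {G : Type*} [Group G] [Finite G] (A : Set G) (hA : A.Nonempty) (h1 : (1 : G) ∉ A) (L : Subgroup G) : (Cfsg.IsTISubset A ∧ Subgroup.normalizer A = L) ↔ Cfsg.DadeHypothesis A L (fun _ => ⊥) := by
  constructor
  · rintro ⟨hTI, hN⟩
    have hmemN : ∀ a ∈ A, ∀ g : G, g * a * g⁻¹ ∈ A → g ∈ L := by
      intro a ha g hg
      by_contra hgL
      rw [← hN] at hgL
      exact h1 (hTI g hgL a ha hg ▸ ha)
    refine
      { one_not_mem := h1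
        subset := ?_
        conj_mem := ?_
        fusion := ?_
        le_centralizer := fun a _ => bot_le
        conj_mem_H := ?_
        inf_eq_bot := fun a _ => bot_inf_eq _
        sup_eq := ?_
        coprime := ?_ }
    · intro a ha
      exact hmemN a ha a (by simpa using ha)
    · intro x hx a ha
      rw [← hN] at hx
      exact (Subgroup.mem_set_normalizer_iff.mp hx a).mp ha
    · intro a ha g hg
      exact ⟨g, hmemN a ha g hg, rfl⟩
    · intro a _ c _ u hu
      rw [Subgroup.mem_bot] at hu
      rw [hu]
      simp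
    · intro a ha
      rw [bot_sup_eq]
      apply le_antisymm inf_le_right
      intro c hc
      refine ⟨hmemN a ha c ?_, hc⟩
      have : a * c = c * a := hc a rfl
      have h2 : c * a * c⁻¹ = a := by rw [← this]; group
      rw [h2]; exact ha
    · intro a _ b _
      simp
  · intro hD
    have hC : ∀ a ∈ A, Subgroup.centralizer ({a} : Set G) ≤ L := by
      intro a ha
      have := hD.sup_eq a ha
      simp only [bot_sup_eq] at this
      intro c hc
      rw [← this] at hc
      exact hc.1
    have hLN : L ≤ Subgroup.normalizer A := by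
      intro x hx
      rw [Subgroup.mem_set_normalizer_iff]
      intro h
      refine ⟨fun hh => hD.conj_mem x hx h hh, fun hh => ?_⟩
      have := hD.conj_mem x⁻¹ (L.inv_mem hx) _ hh
      simpa [mul_assoc] using this
    have hfus : ∀ a ∈ A, ∀ g : G, g * a * g⁻¹ ∈ A → g ∈ L := by
      intro a ha g hg
      obtain ⟨y, hy, hyg⟩ := hD.fusion a ha g hg
      have hc : y⁻¹ * g ∈ Subgroup.centralizer ({a} : Set G) := by
        rw [Subgroup.mem_centralizer_singleton_iff]
        have h2 : a = y⁻¹ * (g * a * g⁻¹) * y := by rw [← hyg]; group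
        calc y⁻¹ * g * a = y⁻¹ * (g * a * g⁻¹) * y * (y⁻¹ * g) := by group
          _ = a * (y⁻¹ * g) := by rw [← h2]
      have := L.mul_mem hy (hC a ha hc)
      simpa using this
    refine ⟨?_, ?_⟩
    · intro g hg x hx hgx
      exact absurd (hLN (hfus x hx g hgx)) hg
    · apply le_antisymm
      · intro g hg
        obtain ⟨a, ha⟩ := hA
        exact hfus a ha g ((Subgroup.mem_set_normalizer_iff.mp hg a).mp ha)
      · exact hLN

end Cfsg.Agent.S1497
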