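import Cfsg.Statements.S1503
import Cfsg.Agent.Lib.Helper10.CycTI

set_option autoImplicit false
open Cfsg

namespace Cfsg.Agent.S1503

open Cfsg.Agent.Lib.Helper1 Cfsg.Agent.Lib.Helper10.CycTI
open scoped ComplexConjugate

/-- Let W₁, W₂ ≤ G with W = W₁ ⊔ W₂ and let χ an orthonormal family of irreducible characters of G up to sign, indexed by the linear characters ω of W, with χ_1 = 1, χ_ω = ω on W outside W₁ ∪ W₂, and the induction identity for (1 − φ)(1 − ψ). If θ is an irreducible character of G orthogonal to χ ω for every linear character ω of W, then θ vanishes at every element of W lying outside W₁ ∪ W₂. -/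
theorem result {G : Type*} [Group G] [Fintype G] (W₁ W₂ : Subgroup G) (hW : Cfsg.IsSelfNormalizingCyclic W₁ W₂) (χ : (↥(W₁ ⊔ W₂) →* ℂˣ) → (G → ℂ)) (hχ : Cfsg.IsCyclicTIFamily W₁ W₂ χ) (θ : G → ℂ) (hθ : Cfsg.IsIrrCharacter G θ) (horth : ∀ ω, Cfsg.classInner θ (χ ω) = 0) (w : ↥(W₁ ⊔ W₂)) (hw₁ : (w : G) ∉ W₁) (hw₂ : (w : G) ∉ W₂) : θ w = 0 := by
  classical
  have hWf : Fintype ↥(W₁ ⊔ W₂) := Fintype.ofFinite _
  have hHf : Fintype (↥(W₁ ⊔ W₂) →* ℂˣ) := Fintype.ofFinite _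
  have hcf := IsIrrCharacter.isClassFunction hθ
  have hcommW : ∀ a b : ↥(W₁ ⊔ W₂), a * b = b * a :=
    fun a b => Subtype.ext (sup_comm_mem W₁ W₂ hW a.2 b.2)
  have horth' : ∀ ω, Cfsg.classInner (χ ω) θ = 0 := fun ω => by
    rw [← classInner_conj_symm, horth ω]; simp
  have hzero : ∀ φ ψ : ↥(W₁ ⊔ W₂) →* ℂˣ, (∀ v : ↥(W₁ ⊔ W₂), (v : G) ∈ W₂ → φ v = 1) →
      (∀ v : ↥(W₁ ⊔ W₂), (v : G) ∈ W₁ → ψ v = 1) →
      Cfsg.classInner (alphaFn φ ψ) (fun v : ↥(W₁ ⊔ W₂) => θ v) = 0 := by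
    intro φ ψ hφ hψ
    rw [← inner_alpha W₁ W₂ χ hχ φ ψ hφ hψ θ hcf, horth' φ, horth' ψ, horth' (φ * ψ)]
    have h1 : Cfsg.classInner (fun _ => (1 : ℂ)) θ = 0 := by
      rw [← hχ.map_one]; exact horth' 1
    rw [h1]; ring
  let Φ := Finset.univ.filter
    (fun φ : ↥(W₁ ⊔ W₂) →* ℂˣ => ∀ v : ↥(W₁ ⊔ W₂), (v : G) ∈ W₂ → φ v = 1)
  let Ψ := Finset.univ.filter
    (fun ψ : ↥(W₁ ⊔ W₂) →* ℂˣ => ∀ v : ↥(W₁ ⊔ W₂), (v : G) ∈ W₁ → ψ v = 1)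
  let g : ↥(W₁ ⊔ W₂) → ℂ := ∑ φ ∈ Φ, ∑ ψ ∈ Ψ,
    ((((φ w)⁻¹ : ℂˣ) : ℂ) * (((ψ w)⁻¹ : ℂˣ) : ℂ)) • alphaFn φ ψ
  have hg0 : Cfsg.classInner g (fun v : ↥(W₁ ⊔ W₂) => θ v) = 0 := by
    simp only [g]
    rw [classInner_sum_left]
    apply Finset.sum_eq_zero
    intro φ hφ
    rw [classInner_sum_left]
    apply Finset.sum_eq_zero
    intro ψ hψ
    rw [classInner_smul_left, hzero φ ψ (Finset.mem_filter.mp hφ).2 (Finset.mem_filter.mp hψ).2,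
      mul_zero]
  have hsumΦ : ∀ u : ↥(W₁ ⊔ W₂), ∑ φ ∈ Φ, ((φ u : ℂˣ) : ℂ) =
      if (u : G) ∈ W₂ then (Φ.card : ℂ) else 0 := by
    intro u
    by_cases hu : (u : G) ∈ W₂
    · rw [if_pos hu]
      rw [Finset.sum_congr rfl (fun φ hφ => by rw [(Finset.mem_filter.mp hφ).2 u hu])]
      simp
    · rw [if_neg hu]
      exact sum_hom_eq_zero hcommW (W₂.subgroupOf (W₁ ⊔ W₂)) u hu
  have hsumΨ : ∀ u : ↥(W₁ ⊔ W₂), ∑ ψ ∈ Ψ, ((ψ u : ℂˣ) : ℂ) =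
      if (u : G) ∈ W₁ then (Ψ.card : ℂ) else 0 := by
    intro u
    by_cases hu : (u : G) ∈ W₁
    · rw [if_pos hu]
      rw [Finset.sum_congr rfl (fun ψ hψ => by rw [(Finset.mem_filter.mp hψ).2 u hu])]
      simp
    · rw [if_neg hu]
      exact sum_hom_eq_zero hcommW (W₁.subgroupOf (W₁ ⊔ W₂)) u hu
  have hinv1 : ((w⁻¹ : ↥(W₁ ⊔ W₂)) : G) ∉ W₁ := by
    intro h
    apply hw₁
    have := W₁.inv_mem h
    simpa using this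
  have hinv2 : ((w⁻¹ : ↥(W₁ ⊔ W₂)) : G) ∉ W₂ := by
    intro h
    apply hw₂
    have := W₂.inv_mem h
    simpa using this
  have hgv : ∀ v : ↥(W₁ ⊔ W₂), g v = if v = w then (Φ.card : ℂ) * (Ψ.card : ℂ) else 0 := by
    intro v
    have e1 : g v = (∑ φ ∈ Φ, (((φ w)⁻¹ : ℂˣ) : ℂ) * (1 - ((φ v : ℂˣ) : ℂ))) *
        (∑ ψ ∈ Ψ, (((ψ w)⁻¹ : ℂˣ) : ℂ) * (1 - ((ψ v : ℂˣ) : ℂ))) := by
      simp only [g, Finset.sum_apply, Pi.smul_apply, smul_eq_mul, alphaFn]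
      rw [Finset.sum_mul_sum]
      refine Finset.sum_congr rfl (fun φ _ => Finset.sum_congr rfl (fun ψ _ => ?_))
      ring
    have e2 : ∑ φ ∈ Φ, (((φ w)⁻¹ : ℂˣ) : ℂ) * (1 - ((φ v : ℂˣ) : ℂ)) =
        -(if ((w⁻¹ * v : ↥(W₁ ⊔ W₂)) : G) ∈ W₂ then (Φ.card : ℂ) else 0) := by
      have h1 : ∀ φ : ↥(W₁ ⊔ W₂) →* ℂˣ, (((φ w)⁻¹ : ℂˣ) : ℂ) * (1 - ((φ v : ℂˣ) : ℂ)) =
          ((φ w⁻¹ : ℂˣ) : ℂ) - ((φ (w⁻¹ * v) : ℂˣ) : ℂ) := by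
        intro φ
        rw [map_mul, map_inv]
        push_cast
        ring
      simp only [h1]
      rw [Finset.sum_sub_distrib, hsumΦ w⁻¹, hsumΦ (w⁻¹ * v), if_neg hinv2, zero_sub]
    have e3 : ∑ ψ ∈ Ψ, (((ψ w)⁻¹ : ℂˣ) : ℂ) * (1 - ((ψ v : ℂˣ) : ℂ)) =
        -(if ((w⁻¹ * v : ↥(W₁ ⊔ W₂)) : G) ∈ W₁ then (Ψ.card : ℂ) else 0) := by
      have h1 : ∀ ψ : ↥(W₁ ⊔ W₂) →* ℂˣ, (((ψ w)⁻¹ : ℂˣ) : ℂ) * (1 - ((ψ v : ℂˣ) : ℂ)) =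
          ((ψ w⁻¹ : ℂˣ) : ℂ) - ((ψ (w⁻¹ * v) : ℂˣ) : ℂ) := by
        intro ψ
        rw [map_mul, map_inv]
        push_cast
        ring
      simp only [h1]
      rw [Finset.sum_sub_distrib, hsumΨ w⁻¹, hsumΨ (w⁻¹ * v), if_neg hinv1, zero_sub]
    rw [e1, e2, e3]
    by_cases hvw : v = w
    · subst hvw
      rw [if_pos rfl]
      have h1 : ((v⁻¹ * v : ↥(W₁ ⊔ W₂)) : G) ∈ W₁ := by
        rw [inv_mul_cancel]; exact W₁.one_mem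
      have h2 : ((v⁻¹ * v : ↥(W₁ ⊔ W₂)) : G) ∈ W₂ := by
        rw [inv_mul_cancel]; exact W₂.one_mem
      rw [if_pos h1, if_pos h2]
      ring
    · rw [if_neg hvw]
      have hnot : ¬ ((((w⁻¹ * v : ↥(W₁ ⊔ W₂)) : G) ∈ W₂) ∧
          (((w⁻¹ * v : ↥(W₁ ⊔ W₂)) : G) ∈ W₁)) := by
        rintro ⟨h2, h1⟩
        have h3 : ((w⁻¹ * v : ↥(W₁ ⊔ W₂)) : G) ∈ W₁ ⊓ W₂ := Subgroup.mem_inf.mpr ⟨h1, h2⟩
        rw [hW.2.2.1, Subgroup.mem_bot] at h3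
        apply hvw
        have h' : (w⁻¹ * v : ↥(W₁ ⊔ W₂)) = 1 := Subtype.ext h3
        exact (inv_mul_eq_one.mp h').symm
      by_cases h2 : ((w⁻¹ * v : ↥(W₁ ⊔ W₂)) : G) ∈ W₂
      · have h1 : ((w⁻¹ * v : ↥(W₁ ⊔ W₂)) : G) ∉ W₁ := fun h1 => hnot ⟨h2, h1⟩
        rw [if_neg h1]; ring
      · rw [if_neg h2]; ring
  unfold Cfsg.classInner at hg0
  rw [Finset.sum_eq_single w] at hg0
  · rw [hgv w, if_pos rfl] at hg0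
    have hΦ : (Φ.card : ℂ) ≠ 0 := by
      have h1 : (1 : ↥(W₁ ⊔ W₂) →* ℂˣ) ∈ Φ :=
        Finset.mem_filter.mpr ⟨Finset.mem_univ _, fun _ _ => rfl⟩
      exact_mod_cast (Finset.card_pos.mpr ⟨1, h1⟩).ne'
    have hΨ : (Ψ.card : ℂ) ≠ 0 := by
      have h1 : (1 : ↥(W₁ ⊔ W₂) →* ℂˣ) ∈ Ψ :=
        Finset.mem_filter.mpr ⟨Finset.mem_univ _, fun _ _ => rfl⟩
      exact_mod_cast (Finset.card_pos.mpr ⟨1, h1⟩).ne'
    have hWne : ((Nat.card ↥(W₁ ⊔ W₂) : ℂ))⁻¹ ≠ 0 := by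
      apply inv_ne_zero
      have := Nat.card_pos (α := ↥(W₁ ⊔ W₂))
      exact_mod_cast this.ne'
    rcases mul_eq_zero.mp hg0 with h | h
    · exact absurd h hWne
    · rcases mul_eq_zero.mp h with h | h
      · exact absurd h (mul_ne_zero hΦ hΨ)
      · simpa using h
  · intro v _ hv
    rw [hgv v, if_neg hv, zero_mul]
  · intro h
    exact absurd (Finset.mem_univ _) h

end Cfsg.Agent.S1503
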