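import Cfsg.Statements.S1505
import Cfsg.Agent.Lib.Helper10.CycTI

set_option autoImplicit false
open Cfsg

namespace Cfsg.Agent.S1505

open Cfsg.Agent.Lib.Helper1 Cfsg.Agent.Lib.Helper10.CycTI
open scoped ComplexConjugate

open Classical in
/-- Let W₁, W₂ ≤ G form a self-normalising cyclic subgroup W = W₁ ⊔ W₂. For nontrivial linear characters φ, φ' of W trivial on W₂ and ψ, ψ' trivial on W₁, put α = (1 − φ)(1 − ψ) and α' = (1 − φ')(1 − ψ'). Then the function induced from α to G has inner product 1 with the principal character, and the inner product of the functions induced from α and α' is 1 + a + b + ab where a = 1 if φ = φ' (else 0) and b = 1 if ψ = ψ' (else 0). -/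
theorem result {G : Type*} [Group G] [Fintype G] (W₁ W₂ : Subgroup G) (hW : Cfsg.IsSelfNormalizingCyclic W₁ W₂) (φ φ' ψ ψ' : ↥(W₁ ⊔ W₂) →* ℂˣ) (hφ : φ ≠ 1) (hφ' : φ' ≠ 1) (hψ : ψ ≠ 1) (hψ' : ψ' ≠ 1) (hφ₂ : ∀ w : ↥(W₁ ⊔ W₂), (w : G) ∈ W₂ → φ w = 1 ∧ φ' w = 1) (hψ₁ : ∀ w : ↥(W₁ ⊔ W₂), (w : G) ∈ W₁ → ψ w = 1 ∧ ψ' w = 1) : Cfsg.classInner (Cfsg.indFun (W₁ ⊔ W₂) (fun w => 1 - (φ w : ℂ) - (ψ w : ℂ) + (φ w : ℂ) * (ψ w : ℂ))) (fun _ => 1) = 1 ∧ Cfsg.classInner (Cfsg.indFun (W₁ ⊔ W₂) (fun w => 1 - (φ w : ℂ) - (ψ w : ℂ) + (φ w : ℂ) * (ψ w : ℂ))) (Cfsg.indFun (W₁ ⊔ W₂) (fun w => 1 - (φ' w : ℂ) - (ψ' w : ℂ) + (φ' w : ℂ) * (ψ' w : ℂ))) = 1 + (if φ = φ' then 1 else 0) + (if ψ = ψ' then 1 else 0) + (if φ = φ' then 1 else 0) * (if ψ = ψ' then 1 else 0) := by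
  have hWf : Fintype ↥(W₁ ⊔ W₂) := Fintype.ofFinite _
  have hφt : ∀ w : ↥(W₁ ⊔ W₂), (w : G) ∈ W₂ → φ w = 1 := fun w hw => (hφ₂ w hw).1
  have hφ't : ∀ w : ↥(W₁ ⊔ W₂), (w : G) ∈ W₂ → φ' w = 1 := fun w hw => (hφ₂ w hw).2
  have hψt : ∀ w : ↥(W₁ ⊔ W₂), (w : G) ∈ W₁ → ψ w = 1 := fun w hw => (hψ₁ w hw).1
  have hψ't : ∀ w : ↥(W₁ ⊔ W₂), (w : G) ∈ W₁ → ψ' w = 1 := fun w hw => (hψ₁ w hw).2
  have t1 : ∀ w : ↥(W₁ ⊔ W₂), (w : G) ∈ W₂ → (1 : ↥(W₁ ⊔ W₂) →* ℂˣ) w = 1 := fun _ _ => rfl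
  have t2 : ∀ w : ↥(W₁ ⊔ W₂), (w : G) ∈ W₁ → (1 : ↥(W₁ ⊔ W₂) →* ℂˣ) w = 1 := fun _ _ => rfl
  have h11 : (1 : ↥(W₁ ⊔ W₂) →* ℂˣ) = 1 * 1 := by ext w; simp
  have hφ1 : φ' = φ' * 1 := by ext w; simp
  have hψ1 : ψ' = 1 * ψ' := by ext w; simp
  have a1 : Cfsg.classInner (alphaFn φ ψ) (lin 1) = 1 := by
    have h := alpha_inner_lin_mul W₁ W₂ φ 1 ψ 1 hφt t1 hψt t2
    rw [← h11] at h
    rw [h]
    simp [hφ, hψ]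
  have a2 : Cfsg.classInner (alphaFn φ ψ) (lin φ') = -(if φ = φ' then 1 else 0) := by
    have h := alpha_inner_lin_mul W₁ W₂ φ φ' ψ 1 hφt hφ't hψt t2
    rw [← hφ1] at h
    rw [h]
    simp [hφ', hψ]
  have a3 : Cfsg.classInner (alphaFn φ ψ) (lin ψ') = -(if ψ = ψ' then 1 else 0) := by
    have h := alpha_inner_lin_mul W₁ W₂ φ 1 ψ ψ' hφt t1 hψt hψ't
    rw [← hψ1] at h
    rw [h]
    simp [hφ, hψ']
  have a4 : Cfsg.classInner (alphaFn φ ψ) (lin (φ' * ψ')) =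
      (if φ = φ' then 1 else 0) * (if ψ = ψ' then 1 else 0) := by
    rw [alpha_inner_lin_mul W₁ W₂ φ φ' ψ ψ' hφt hφ't hψt hψ't]
    by_cases e1 : φ = φ' <;> by_cases e2 : ψ = ψ' <;> simp [e1, e2, hφ', hψ']
  constructor
  · change Cfsg.classInner (Cfsg.indFun (W₁ ⊔ W₂) (alphaFn φ ψ)) (fun _ => 1) = 1
    have hcf : Cfsg.IsClassFunction G (fun _ : G => (1 : ℂ)) := fun _ _ => rfl
    rw [frobenius_reciprocity (W₁ ⊔ W₂) (alphaFn φ ψ) hcf]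
    have e : (fun h : ↥(W₁ ⊔ W₂) => (fun _ : G => (1 : ℂ)) (h : G)) = lin 1 := by
      funext w
      simp [lin]
    rw [e, a1]
  · change Cfsg.classInner (Cfsg.indFun (W₁ ⊔ W₂) (alphaFn φ ψ))
      (Cfsg.indFun (W₁ ⊔ W₂) (alphaFn φ' ψ')) = _
    rw [indFun_V_inner W₁ W₂ hW _ _ (alpha_vanish W₁ W₂ φ ψ hφt hψt)
      (alpha_vanish W₁ W₂ φ' ψ' hφ't hψ't)]
    rw [alpha_eq φ' ψ', classInner_add_right, classInner_sub_right, classInner_sub_right,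
      a1, a2, a3, a4]
    ring_nf

end Cfsg.Agent.S1505
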