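import Cfsg.Statements.S1506
import Cfsg.Agent.Lib.Helper10.CycTI

set_option autoImplicit false
open Cfsg

namespace Cfsg.Agent.S1506

open Cfsg.Agent.Lib.Helper1 Cfsg.Agent.Lib.Helper10.CycTI
open scoped ComplexConjugate

/-- Let W₁, W₂ ≤ G form a self-normalising cyclic subgroup W = W₁ ⊔ W₂ and χ an orthonormal family of irreducible characters of G up to sign, indexed by the linear characters ω of W, with χ_1 = 1, χ_ω = ω on W outside W₁ ∪ W₂, and the induction identity for (1 − φ)(1 − ψ). Let θ be a class function of G vanishing at every element of W outside W₁ ∪ W₂. For linear characters φ, φ' of W trivial on W₂ and ψ, ψ' trivial on W₁, the inner products a(ω) = ⟨θ, χ ω⟩ satisfy a(φψ) + a(φ'ψ') = a(φψ') + a(φ'ψ). -/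
theorem result {G : Type*} [Group G] [Fintype G] (W₁ W₂ : Subgroup G) (hW : Cfsg.IsSelfNormalizingCyclic W₁ W₂) (χ : (↥(W₁ ⊔ W₂) →* ℂˣ) → (G → ℂ)) (hχ : Cfsg.IsCyclicTIFamily W₁ W₂ χ) (θ : G → ℂ) (hθ : Cfsg.IsClassFunction G θ) (hθV : ∀ w : ↥(W₁ ⊔ W₂), (w : G) ∉ W₁ → (w : G) ∉ W₂ → θ w = 0) (φ φ' ψ ψ' : ↥(W₁ ⊔ W₂) →* ℂˣ) (hφ₂ : ∀ w : ↥(W₁ ⊔ W₂), (w : G) ∈ W₂ → φ w = 1 ∧ φ' w = 1) (hψ₁ : ∀ w : ↥(W₁ ⊔ W₂), (w : G) ∈ W₁ → ψ w = 1 ∧ ψ' w = 1) : Cfsg.classInner θ (χ (φ * ψ)) + Cfsg.classInner θ (χ (φ' * ψ')) = Cfsg.classInner θ (χ (φ * ψ')) + Cfsg.classInner θ (χ (φ' * ψ)) := by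
  classical
  have hWf : Fintype ↥(W₁ ⊔ W₂) := Fintype.ofFinite _
  have hφ : ∀ w : ↥(W₁ ⊔ W₂), (w : G) ∈ W₂ → φ w = 1 := fun w hw => (hφ₂ w hw).1
  have hφ' : ∀ w : ↥(W₁ ⊔ W₂), (w : G) ∈ W₂ → φ' w = 1 := fun w hw => (hφ₂ w hw).2
  have hψ : ∀ w : ↥(W₁ ⊔ W₂), (w : G) ∈ W₁ → ψ w = 1 := fun w hw => (hψ₁ w hw).1
  have hψ' : ∀ w : ↥(W₁ ⊔ W₂), (w : G) ∈ W₁ → ψ' w = 1 := fun w hw => (hψ₁ w hw).2
  have e1 := inner_alpha W₁ W₂ χ hχ φ ψ hφ hψ θ hθ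
  have e2 := inner_alpha W₁ W₂ χ hχ φ ψ' hφ hψ' θ hθ
  have e3 := inner_alpha W₁ W₂ χ hχ φ' ψ hφ' hψ θ hθ
  have e4 := inner_alpha W₁ W₂ χ hχ φ' ψ' hφ' hψ' θ hθ
  have hD : Cfsg.classInner (alphaFn φ ψ - alphaFn φ ψ' - alphaFn φ' ψ + alphaFn φ' ψ')
      (fun w : ↥(W₁ ⊔ W₂) => θ w) = 0 := by
    unfold Cfsg.classInner
    rw [Finset.sum_eq_zero, mul_zero]
    intro w _
    by_cases h1 : (w : G) ∈ W₁
    · simp [alphaFn, hψ w h1, hψ' w h1]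
    · by_cases h2 : (w : G) ∈ W₂
      · simp [alphaFn, hφ w h2, hφ' w h2]
      · simp only []
        rw [hθV w h1 h2]; simp
  rw [classInner_add_left, classInner_sub_left, classInner_sub_left, ← e1, ← e2, ← e3, ← e4] at hD
  have hD' : Cfsg.classInner (χ (φ * ψ)) θ - Cfsg.classInner (χ (φ * ψ')) θ -
      Cfsg.classInner (χ (φ' * ψ)) θ + Cfsg.classInner (χ (φ' * ψ')) θ = 0 := by
    linear_combination hD
  have h5 := congrArg conj hD'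
  simp only [map_add, map_sub, map_zero, classInner_conj_symm] at h5
  linear_combination h5

end Cfsg.Agent.S1506
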