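import Cfsg.Statements.S1507
import Cfsg.Agent.Lib.Helper10.CycCount
import Cfsg.Agent.S1506

set_option autoImplicit false
open Cfsg

namespace Cfsg.Agent.S1507

open Cfsg.Agent.Lib.Helper1 Cfsg.Agent.Lib.Helper10.CycTI Cfsg.Agent.Lib.Helper10.CycGal
  Cfsg.Agent.Lib.Helper10.CycCount

/-- The two sets of "coordinate" characters have the expected sizes. -/
theorem card_coord {G : Type*} [Group G] [Finite G] (W₁ W₂ : Subgroup G)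
    (hW : Cfsg.IsSelfNormalizingCyclic W₁ W₂) [Fintype ↥(W₁ ⊔ W₂)]
    [Fintype (↥(W₁ ⊔ W₂) →* ℂˣ)]
    [DecidablePred (fun φ : ↥(W₁ ⊔ W₂) →* ℂˣ => ∀ w : ↥(W₁ ⊔ W₂), (w : G) ∈ W₂ → φ w = 1)]
    [DecidablePred (fun φ : ↥(W₁ ⊔ W₂) →* ℂˣ => ∀ w : ↥(W₁ ⊔ W₂), (w : G) ∈ W₁ → φ w = 1)] :
    (Finset.univ.filter (fun φ : ↥(W₁ ⊔ W₂) →* ℂˣ =>
        ∀ w : ↥(W₁ ⊔ W₂), (w : G) ∈ W₂ → φ w = 1)).card = Nat.card W₁ ∧
    (Finset.univ.filter (fun φ : ↥(W₁ ⊔ W₂) →* ℂˣ =>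
        ∀ w : ↥(W₁ ⊔ W₂), (w : G) ∈ W₁ → φ w = 1)).card = Nat.card W₂ := by
  classical
  obtain ⟨hne1, hne2, hdisj, hcomm, hcyc, hN⟩ := id hW
  have hcommX : ∀ a b : ↥(W₁ ⊔ W₂), a * b = b * a := fun a b =>
    Subtype.ext (sup_comm_mem W₁ W₂ hW a.2 b.2)
  have hcard := card_sup W₁ W₂ hdisj hcomm
  have hK1 : Nat.card (W₁.subgroupOf (W₁ ⊔ W₂)) = Nat.card W₁ :=
    Nat.card_congr (Subgroup.subgroupOfEquivOfLe le_sup_left).toEquiv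
  have hK2 : Nat.card (W₂.subgroupOf (W₁ ⊔ W₂)) = Nat.card W₂ :=
    Nat.card_congr (Subgroup.subgroupOfEquivOfLe le_sup_right).toEquiv
  have h1pos : 0 < Nat.card W₁ := Nat.card_pos
  have h2pos : 0 < Nat.card W₂ := Nat.card_pos
  have e2 := card_triv hcommX (W₂.subgroupOf (W₁ ⊔ W₂))
  have e1 := card_triv hcommX (W₁.subgroupOf (W₁ ⊔ W₂))
  rw [hK2, hcard] at e2
  rw [hK1, hcard] at e1
  constructor
  · have : (Finset.univ.filter (fun φ : ↥(W₁ ⊔ W₂) →* ℂˣ =>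
        ∀ w : ↥(W₁ ⊔ W₂), (w : G) ∈ W₂ → φ w = 1)) =
        (Finset.univ.filter (fun φ : ↥(W₁ ⊔ W₂) →* ℂˣ =>
          ∀ k ∈ W₂.subgroupOf (W₁ ⊔ W₂), φ k = 1)) := by
      apply Finset.filter_congr
      intro φ _
      constructor
      · intro h k hk
        exact h k (Subgroup.mem_subgroupOf.mp hk)
      · intro h w hw
        exact h w (Subgroup.mem_subgroupOf.mpr hw)
    rw [this]
    exact Nat.eq_of_mul_eq_mul_right h2pos e2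
  · have : (Finset.univ.filter (fun φ : ↥(W₁ ⊔ W₂) →* ℂˣ =>
        ∀ w : ↥(W₁ ⊔ W₂), (w : G) ∈ W₁ → φ w = 1)) =
        (Finset.univ.filter (fun φ : ↥(W₁ ⊔ W₂) →* ℂˣ =>
          ∀ k ∈ W₁.subgroupOf (W₁ ⊔ W₂), φ k = 1)) := by
      apply Finset.filter_congr
      intro φ _
      constructor
      · intro h k hk
        exact h k (Subgroup.mem_subgroupOf.mp hk)
      · intro h w hw
        exact h w (Subgroup.mem_subgroupOf.mpr hw)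
    rw [this]
    have e1' : (Finset.univ.filter (fun φ : ↥(W₁ ⊔ W₂) →* ℂˣ =>
          ∀ k ∈ W₁.subgroupOf (W₁ ⊔ W₂), φ k = 1)).card * Nat.card W₁ =
        Nat.card W₂ * Nat.card W₁ := by rw [e1, mul_comm]
    exact Nat.eq_of_mul_eq_mul_right h1pos e1'

open Classical in
/-- Let W₁, W₂ ≤ G form a self-normalising cyclic subgroup W = W₁ ⊔ W₂ of odd order with Nat.card W₁ < Nat.card W₂, and χ an orthonormal family of irreducible characters of G up to sign, indexed by the linear characters ω of W, with χ_1 = 1, χ_ω = ω on W outside W₁ ∪ W₂, and the induction identity for (1 − φ)(1 − ψ). Let θ be a class function of G vanishing on W outside W₁ ∪ W₂, and suppose fewer than 2 · Nat.card W₁ linear characters ω of W have ⟨θ, χ ω⟩ ≠ 0. Then one of: all ⟨θ, χ ω⟩ vanish; or there are ψ₀ and a with ⟨θ, χ ω⟩ = a when ω ψ₀⁻¹ is trivial on W₂ and 0 otherwise;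 or there are φ₀ and a with ⟨θ, χ ω⟩ = a when ω φ₀⁻¹ is trivial on W₁ and 0 otherwise. -/
theorem result {G : Type*} [Group G] [Fintype G] (W₁ W₂ : Subgroup G) (hW : Cfsg.IsSelfNormalizingCyclic W₁ W₂) (hodd : Odd (Nat.card ↥(W₁ ⊔ W₂))) (χ : (↥(W₁ ⊔ W₂) →* ℂˣ) → (G → ℂ)) (hχ : Cfsg.IsCyclicTIFamily W₁ W₂ χ) (hlt : Nat.card W₁ < Nat.card W₂) (θ : G → ℂ) (hθ : Cfsg.IsClassFunction G θ) (hθV : ∀ w : ↥(W₁ ⊔ W₂), (w : G) ∉ W₁ → (w : G) ∉ W₂ → θ w = 0) (hfew : Nat.card {ω : ↥(W₁ ⊔ W₂) →* ℂˣ // Cfsg.classInner θ (χ ω) ≠ 0} < 2 * Nat.card W₁) : (∀ ω, Cfsg.classInner θ (χ ω) = 0) ∨ (∃ (ψ₀ : ↥(W₁ ⊔ W₂) →* ℂˣ) (a : ℂ), ∀ ω, Cfsg.classInner θ (χ ω) = if (∀ w : ↥(W₁ ⊔ W₂), (w : G) ∈ W₂ → (ω * ψ₀⁻¹) w = 1) then a else 0) ∨ (∃ (φ₀ : ↥(W₁ ⊔ W₂) →* ℂˣ) (a : ℂ), ∀ ω, Cfsg.classInner θ (χ ω) = if (∀ w : ↥(W₁ ⊔ W₂), (w : G) ∈ W₁ → (ω * φ₀⁻¹) w = 1) then a else 0) :=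 by
  obtain ⟨hne1, hne2, hdisj, hcomm, hcyc, hN⟩ := id hW
  haveI : Fintype ↥(W₁ ⊔ W₂) := Fintype.ofFinite _
  haveI : Fintype (↥(W₁ ⊔ W₂) →* ℂˣ) := Fintype.ofFinite _
  obtain ⟨hI, hJ⟩ := card_coord W₁ W₂ hW
  have hcard := card_sup W₁ W₂ hdisj hcomm
  -- sizes
  have h1pos : 0 < Nat.card W₁ := Nat.card_pos
  have h1ne : Nat.card W₁ ≠ 1 := fun h => hne1 (Subgroup.eq_bot_of_card_eq W₁ h)
  rw [hcard, Nat.odd_mul] at hodd
  obtain ⟨ho1, ho2⟩ := hodd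
  have h3 : 3 ≤ Nat.card W₁ := by
    rw [Nat.odd_iff] at ho1
    omega
  have h12 : Nat.card W₁ + 2 ≤ Nat.card W₂ := by
    rw [Nat.odd_iff] at ho1 ho2
    omega
  have hfac := exists_factor W₁ W₂ hdisj hcomm
  -- the rectangle rule
  have hrect : ∀ φ ∈ (Finset.univ.filter (fun φ : ↥(W₁ ⊔ W₂) →* ℂˣ =>
        ∀ w : ↥(W₁ ⊔ W₂), (w : G) ∈ W₂ → φ w = 1)),
      ∀ φ' ∈ (Finset.univ.filter (fun φ : ↥(W₁ ⊔ W₂) →* ℂˣ =>
        ∀ w : ↥(W₁ ⊔ W₂), (w : G) ∈ W₂ → φ w = 1)),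
      ∀ ψ ∈ (Finset.univ.filter (fun φ : ↥(W₁ ⊔ W₂) →* ℂˣ =>
        ∀ w : ↥(W₁ ⊔ W₂), (w : G) ∈ W₁ → φ w = 1)),
      ∀ ψ' ∈ (Finset.univ.filter (fun φ : ↥(W₁ ⊔ W₂) →* ℂˣ =>
        ∀ w : ↥(W₁ ⊔ W₂), (w : G) ∈ W₁ → φ w = 1)),
      Cfsg.classInner θ (χ (φ * ψ)) + Cfsg.classInner θ (χ (φ' * ψ')) =
        Cfsg.classInner θ (χ (φ * ψ')) + Cfsg.classInner θ (χ (φ' * ψ)) := by
    intro φ hφ φ' hφ' ψ hψ ψ' hψ'
    rw [Finset.mem_filter] at hφ hφ' hψ hψ'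
    exact Cfsg.Agent.S1506.result W₁ W₂ hW χ hχ θ hθ hθV φ φ' ψ ψ'
      (fun w hw => ⟨hφ.2 w hw, hφ'.2 w hw⟩) (fun w hw => ⟨hψ.2 w hw, hψ'.2 w hw⟩)
  -- the count
  have hcount : (((Finset.univ.filter (fun φ : ↥(W₁ ⊔ W₂) →* ℂˣ =>
        ∀ w : ↥(W₁ ⊔ W₂), (w : G) ∈ W₂ → φ w = 1)) ×ˢ
      (Finset.univ.filter (fun φ : ↥(W₁ ⊔ W₂) →* ℂˣ =>
        ∀ w : ↥(W₁ ⊔ W₂), (w : G) ∈ W₁ → φ w = 1))).filter
        (fun p => Cfsg.classInner θ (χ (p.1 * p.2)) ≠ 0)).card < 2 * Nat.card W₁ := by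
    refine lt_of_le_of_lt ?_ hfew
    rw [Nat.card_eq_fintype_card, Fintype.card_subtype]
    apply Finset.card_le_card_of_injOn (fun p => p.1 * p.2)
    · intro p hp
      rw [Finset.mem_coe, Finset.mem_filter] at hp
      rw [Finset.mem_coe, Finset.mem_filter]
      exact ⟨Finset.mem_univ _, hp.2⟩
    · intro p hp q hq hpq
      rw [Finset.mem_coe, Finset.mem_filter, Finset.mem_product, Finset.mem_filter,
        Finset.mem_filter] at hp hq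
      have := (mul_eq_mul_iff W₁ W₂ p.1 q.1 p.2 q.2 hp.1.1.2 hq.1.1.2 hp.1.2.2 hq.1.2.2).mp hpq
      exact Prod.ext this.1 this.2
  rcases grid _ _ (fun φ ψ => Cfsg.classInner θ (χ (φ * ψ))) hrect (Nat.card W₁) (Nat.card W₂)
    h3 h12 hI.ge hJ.ge hcount with h0 | ⟨ψ₀, hψ₀, a, h⟩ | ⟨φ₀, hφ₀, a, h⟩
  · left
    intro ω
    obtain ⟨φ, ψ, hφ, hψ, rfl⟩ := hfac ω
    exact h0 φ (Finset.mem_filter.mpr ⟨Finset.mem_univ _, hφ⟩) ψ
      (Finset.mem_filter.mpr ⟨Finset.mem_univ _, hψ⟩)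
  · right; left
    rw [Finset.mem_filter] at hψ₀
    refine ⟨ψ₀, a, fun ω => ?_⟩
    obtain ⟨φ, ψ, hφ, hψ, rfl⟩ := hfac ω
    have e := h φ (Finset.mem_filter.mpr ⟨Finset.mem_univ _, hφ⟩) ψ
      (Finset.mem_filter.mpr ⟨Finset.mem_univ _, hψ⟩)
    have hiff : (∀ w : ↥(W₁ ⊔ W₂), (w : G) ∈ W₂ → (φ * ψ * ψ₀⁻¹) w = 1) ↔ ψ = ψ₀ := by
      constructor
      · intro hc
        apply hom_ext_sup
        · intro w hw
          rw [hψ w hw, hψ₀.2 w hw]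
        · intro w hw
          have := hc w hw
          rw [MonoidHom.mul_apply, MonoidHom.mul_apply, MonoidHom.inv_apply, hφ w hw, one_mul,
            mul_inv_eq_one] at this
          exact this
      · rintro rfl w hw
        rw [MonoidHom.mul_apply, MonoidHom.mul_apply, MonoidHom.inv_apply, hφ w hw, one_mul,
          mul_inv_cancel]
    rw [e]
    by_cases hc : ψ = ψ₀
    · rw [if_pos hc, if_pos (hiff.mpr hc)]
    · rw [if_neg hc, if_neg (fun h' => hc (hiff.mp h'))]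
  · right; right
    rw [Finset.mem_filter] at hφ₀
    refine ⟨φ₀, a, fun ω => ?_⟩
    obtain ⟨φ, ψ, hφ, hψ, rfl⟩ := hfac ω
    have e := h φ (Finset.mem_filter.mpr ⟨Finset.mem_univ _, hφ⟩) ψ
      (Finset.mem_filter.mpr ⟨Finset.mem_univ _, hψ⟩)
    have hiff : (∀ w : ↥(W₁ ⊔ W₂), (w : G) ∈ W₁ → (φ * ψ * φ₀⁻¹) w = 1) ↔ φ = φ₀ := by
      constructor
      · intro hc
        apply hom_ext_sup
        · intro w hw
          have := hc w hw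
          rw [MonoidHom.mul_apply, MonoidHom.mul_apply, MonoidHom.inv_apply, hψ w hw, mul_one,
            mul_inv_eq_one] at this
          exact this
        · intro w hw
          rw [hφ w hw, hφ₀.2 w hw]
      · rintro rfl w hw
        rw [MonoidHom.mul_apply, MonoidHom.mul_apply, MonoidHom.inv_apply, hψ w hw, mul_one,
          mul_inv_cancel]
    rw [e]
    by_cases hc : φ = φ₀
    · rw [if_pos hc, if_pos (hiff.mpr hc)]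
    · rw [if_neg hc, if_neg (fun h' => hc (hiff.mp h'))]

end Cfsg.Agent.S1507
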