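import Cfsg.Statements.S1508
import Cfsg.Agent.Lib.Helper10.CycGal

set_option autoImplicit false
open Cfsg

namespace Cfsg.Agent.S1508

open Cfsg.Agent.Lib.Helper1 Cfsg.Agent.Lib.Helper10.CycGal

/-- Let W₁, W₂ ≤ G form a self-normalising cyclic subgroup W = W₁ ⊔ W₂ of odd order and χ an orthonormal family of irreducible characters of G up to sign, indexed by the linear characters ω of W, with χ_1 = 1, χ_ω = ω on W outside W₁ ∪ W₂, and the induction identity for (1 − φ)(1 − ψ). Let ω be a linear character of W and g an element of G whose order is coprime to the order of ω. Then χ ω g is an integer. -/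
theorem result {G : Type*} [Group G] [Fintype G] (W₁ W₂ : Subgroup G) (hW : Cfsg.IsSelfNormalizingCyclic W₁ W₂) (hodd : Odd (Nat.card ↥(W₁ ⊔ W₂))) (χ : (↥(W₁ ⊔ W₂) →* ℂˣ) → (G → ℂ)) (hχ : Cfsg.IsCyclicTIFamily W₁ W₂ χ) (ω : ↥(W₁ ⊔ W₂) →* ℂˣ) (g : G) (hg : Nat.Coprime (orderOf g) (orderOf ω)) : ∃ n : ℤ, χ ω g = n := by
  classical
  have hωW : orderOf ω ∣ Nat.card ↥(W₁ ⊔ W₂) := by
    apply orderOf_dvd_of_pow_eq_one
    apply MonoidHom.ext
    intro w
    rw [MonoidHom.pow_apply, ← map_pow, pow_card_eq_one', map_one, MonoidHom.one_apply]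
  have hωG : orderOf ω ∣ Nat.card G := hωW.trans (Subgroup.card_subgroup_dvd_card _)
  have hinv : ∀ m : ℕ, m.Coprime (Nat.card G) → χ ω (g ^ m) = χ ω g := by
    intro m hm
    obtain ⟨m', hm', h1, h2⟩ := exists_coprime_modEq (Nat.card G) (orderOf g) (orderOf ω) m
      Nat.card_pos (orderOf_dvd_natCard g) hωG hg hm
    have e1 : g ^ m = g ^ m' := pow_eq_pow_iff_modEq.mpr h1.symm
    have e2 : ω ^ m' = ω := by
      apply MonoidHom.ext
      intro w
      rw [MonoidHom.pow_apply]
      have hw : orderOf (ω w) ∣ orderOf ω := by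
        apply orderOf_dvd_of_pow_eq_one
        rw [← MonoidHom.pow_apply, pow_orderOf_eq_one, MonoidHom.one_apply]
      have h3 : (ω w) ^ m' = (ω w) ^ 1 := pow_eq_pow_iff_modEq.mpr (h2.of_dvd hw)
      rw [h3, pow_one]
    rw [e1, family_pow W₁ W₂ hW hodd χ hχ m' hm' ω g, e2]
  rcases hχ.irr_or_neg ω with h | h
  · exact char_int_of_pow_invariant (IsIrrCharacter.isCharacter h) g hinv
  · obtain ⟨z, hz⟩ := char_int_of_pow_invariant (IsIrrCharacter.isCharacter h) g
      (fun m hm => by
        simp only [Pi.neg_apply]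
        rw [hinv m hm])
    refine ⟨-z, ?_⟩
    simp only [Pi.neg_apply] at hz
    push_cast
    linear_combination -hz

end Cfsg.Agent.S1508
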