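import Cfsg.Statements.S1509
import Cfsg.Agent.Lib.Helper1.CharMisc

set_option autoImplicit false
open Pointwise
open Cfsg

namespace Cfsg.Agent.S1509

open Cfsg.Agent.Lib.Helper1
open scoped ComplexConjugate

theorem signed {X : Type*} [Group X] (α : X → ℂ)
    (h : Cfsg.IsIrrCharacter X α ∨ Cfsg.IsIrrCharacter X (-α)) :
    ∃ (ε : ℂ) (A : X → ℂ), (ε = 1 ∨ ε = -1) ∧ Cfsg.IsIrrCharacter X A ∧ α = ε • A := by
  rcases h with h | h
  · exact ⟨1, α, Or.inl rfl, h, by simp⟩
  · exact ⟨-1, -α, Or.inr rfl, h, by simp⟩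

theorem key (u v : ℝ) (hu : u ≠ 0) (e1 e2 e3 e4 : ℂ) (h1 : e1 = 1 ∨ e1 = -1)
    (h2 : e2 = 1 ∨ e2 = -1) (h3 : e3 = 1 ∨ e3 = -1) (na nb : ℕ) (hna : 0 < na) (hnb : 0 < nb)
    (E1 : (u : ℂ) * e1 * e3 + (v : ℂ) * e2 * e4 = 0) (E2 : e1 * na = e2 * nb)
    (E3 : (u : ℂ) * e3 * na = (v : ℂ) * e4 * nb) : False := by
  have h11 : e1 * e1 = 1 := by rcases h1 with rfl | rfl <;> norm_num
  have hs : e1 * e2 = 1 ∨ e1 * e2 = -1 := by
    rcases h1 with rfl | rfl <;> rcases h2 with rfl | rfl <;> norm_num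
  have hna' : (na : ℂ) = e1 * e2 * nb := by
    calc (na : ℂ) = (e1 * e1) * na := by rw [h11, one_mul]
      _ = e1 * (e1 * na) := by ring
      _ = e1 * (e2 * nb) := by rw [E2]
      _ = e1 * e2 * nb := by ring
  rcases hs with hs | hs
  · rw [hs, one_mul] at hna'
    have he : e2 = e1 := by
      calc e2 = (e1 * e1) * e2 := by rw [h11, one_mul]
        _ = e1 * (e1 * e2) := by ring
        _ = e1 := by rw [hs, mul_one]
    have hna0 : (na : ℂ) ≠ 0 := by exact_mod_cast hna.ne'
    have h5 : (u : ℂ) * e3 = (v : ℂ) * e4 := by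
      rw [← hna'] at E3
      exact mul_right_cancel₀ hna0 E3
    rw [he] at E1
    have h6 : e1 * (2 * (u : ℂ) * e3) = 0 := by
      linear_combination E1 + e1 * h5
    have h7 : e1 ≠ 0 := by rcases h1 with rfl | rfl <;> norm_num
    have h8 : e3 ≠ 0 := by rcases h3 with rfl | rfl <;> norm_num
    have h9 : (u : ℂ) ≠ 0 := by exact_mod_cast hu
    rcases mul_eq_zero.mp h6 with h | h
    · exact h7 h
    · exact mul_ne_zero (mul_ne_zero two_ne_zero h9) h8 h
  · rw [hs] at hna'
    have h5 : ((na + nb : ℕ) : ℂ) = 0 := by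
      push_cast
      rw [hna']
      ring
    have h6 : na + nb = 0 := by exact_mod_cast h5
    omega

/-- Let α, β, γ, δ be functions on a finite group X each of which is an irreducible character or the negative of one, and u, v nonzero real numbers. Suppose ⟨α, β⟩ = ⟨γ, δ⟩ = 0, ⟨α − β, uγ − vδ⟩ = 0, α 1 = β 1 and u γ 1 = v δ 1. Then also ⟨α, γ⟩ = ⟨α, δ⟩ = ⟨β, γ⟩ = ⟨β, δ⟩ = 0. -/
theorem result {X : Type*} [Group X] [Fintype X] (α β γ δ : X → ℂ) (hα : Cfsg.IsIrrCharacter X α ∨ Cfsg.IsIrrCharacter X (-α)) (hβ : Cfsg.IsIrrCharacter X β ∨ Cfsg.IsIrrCharacter X (-β)) (hγ : Cfsg.IsIrrCharacter X γ ∨ Cfsg.IsIrrCharacter X (-γ)) (hδ : Cfsg.IsIrrCharacter X δ ∨ Cfsg.IsIrrCharacter X (-δ)) (u v : ℝ) (hu : u ≠ 0) (hv : v ≠ 0) (hab : Cfsg.classInner α β = 0) (hcd : Cfsg.classInner γ δ = 0) (hmix : Cfsg.classInner (α - β) ((u : ℂ) • γ - (v : ℂ) • δ) = 0) (h1 : α 1 = β 1) (h2 : (u : ℂ) * γ 1 = (v : ℂ) * δ 1) : Cfsg.classInner α γ = 0 ∧ Cfsg.classInner α δ = 0 ∧ Cfsg.classInner β γ = 0 ∧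 Cfsg.classInner β δ = 0 := by
  classical
  obtain ⟨ea, A, hea, hA, rfl⟩ := signed α hα
  obtain ⟨eb, B, heb, hB, rfl⟩ := signed β hβ
  obtain ⟨ec, C, hec, hC, rfl⟩ := signed γ hγ
  obtain ⟨ed, D, hed, hD, rfl⟩ := signed δ hδ
  obtain ⟨na, hna, hA1⟩ := IsIrrCharacter.degree_pos hA
  obtain ⟨nb, hnb, hB1⟩ := IsIrrCharacter.degree_pos hB
  obtain ⟨nc, hnc, hC1⟩ := IsIrrCharacter.degree_pos hC
  obtain ⟨nd, hnd, hD1⟩ := IsIrrCharacter.degree_pos hD
  have hcj : ∀ ε : ℂ, (ε = 1 ∨ ε = -1) → conj ε = ε := by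
    rintro ε (rfl | rfl) <;> simp
  have hne : ∀ ε : ℂ, (ε = 1 ∨ ε = -1) → ε ≠ 0 := by
    rintro ε (rfl | rfl) <;> norm_num
  have hu' : (u : ℂ) ≠ 0 := by exact_mod_cast hu
  have hv' : (v : ℂ) ≠ 0 := by exact_mod_cast hv
  simp only [classInner_smul_left, classInner_smul_right, classInner_sub_left,
    classInner_sub_right, hcj _ heb, hcj _ hec, hcj _ hed, Complex.conj_ofReal]
    at hab hcd hmix ⊢
  simp only [Pi.smul_apply, smul_eq_mul, hA1, hB1, hC1, hD1] at h1 h2
  have hAB : A ≠ B := by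
    intro h
    subst h
    rw [classInner_irr_self hA] at hab
    exact mul_ne_zero (hne _ heb) (mul_ne_zero (hne _ hea) one_ne_zero) hab
  have hCD : C ≠ D := by
    intro h
    subst h
    rw [classInner_irr_self hC] at hcd
    exact mul_ne_zero (hne _ hed) (mul_ne_zero (hne _ hec) one_ne_zero) hcd
  have hmix' : (u : ℂ) * ea * ec * Cfsg.classInner A C - (v : ℂ) * ea * ed * Cfsg.classInner A D
      - (u : ℂ) * eb * ec * Cfsg.classInner B C + (v : ℂ) * eb * ed * Cfsg.classInner B D = 0 := by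
    linear_combination hmix
  by_cases hAC : A = C
  · exfalso
    subst hAC
    rw [classInner_irr_self hA, classInner_irr_ne hA hD hCD,
      classInner_irr_ne hB hA (fun h => hAB h.symm)] at hmix'
    by_cases hBD : B = D
    · subst hBD
      rw [classInner_irr_self hB] at hmix'
      have hnn : nc = na := by
        have : (nc : ℂ) = na := by rw [← hC1, hA1]
        exact_mod_cast this
      have hnn' : nd = nb := by
        have : (nd : ℂ) = nb := by rw [← hD1, hB1]
        exact_mod_cast this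
      subst hnn hnn'
      exact key u v hu ea eb ec ed hea heb hec nc nd hna hnb (by linear_combination hmix') h1
        (by linear_combination h2)
    · rw [classInner_irr_ne hB hD hBD] at hmix'
      have h5 : (u : ℂ) * ea * ec = 0 := by linear_combination hmix'
      exact mul_ne_zero (mul_ne_zero hu' (hne _ hea)) (hne _ hec) h5
  · by_cases hAD : A = D
    · exfalso
      subst hAD
      rw [classInner_irr_ne hA hC hAC, classInner_irr_self hA,
        classInner_irr_ne hB hA (fun h => hAB h.symm)] at hmix'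
      by_cases hBC : B = C
      · subst hBC
        rw [classInner_irr_self hB] at hmix'
        have hnn : nc = nb := by
          have : (nc : ℂ) = nb := by rw [← hC1, hB1]
          exact_mod_cast this
        have hnn' : nd = na := by
          have : (nd : ℂ) = na := by rw [← hD1, hA1]
          exact_mod_cast this
        subst hnn hnn'
        exact key u v hu eb ea ec ed heb hea hec nc nd hnb hna (by linear_combination -hmix')
          h1.symm (by linear_combination h2)
      · rw [classInner_irr_ne hB hC hBC] at hmix'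
        have h5 : (v : ℂ) * ea * ed = 0 := by linear_combination -hmix'
        exact mul_ne_zero (mul_ne_zero hv' (hne _ hea)) (hne _ hed) h5
    · by_cases hBC : B = C
      · exfalso
        subst hBC
        rw [classInner_irr_ne hA hB hAC, classInner_irr_ne hA hD hAD, classInner_irr_self hB,
          classInner_irr_ne hB hD hCD] at hmix'
        have h5 : (u : ℂ) * eb * ec = 0 := by linear_combination -hmix'
        exact mul_ne_zero (mul_ne_zero hu' (hne _ heb)) (hne _ hec) h5
      · by_cases hBD : B = D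
        · exfalso
          subst hBD
          rw [classInner_irr_ne hA hC hAC, classInner_irr_ne hA hB hAD,
            classInner_irr_ne hB hC hBC, classInner_irr_self hB] at hmix'
          have h5 : (v : ℂ) * eb * ed = 0 := by linear_combination hmix'
          exact mul_ne_zero (mul_ne_zero hv' (hne _ heb)) (hne _ hed) h5
        · rw [classInner_irr_ne hA hC hAC, classInner_irr_ne hA hD hAD,
            classInner_irr_ne hB hC hBC, classInner_irr_ne hB hD hBD]
          simp

end Cfsg.Agent.S1509
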