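import Cfsg.Statements.S1510
import Mathlib.GroupTheory.Complement
import Mathlib.GroupTheory.OrderOfElement
import Mathlib.Data.Nat.ModEq

set_option autoImplicit false
open Cfsg

namespace Cfsg.Agent.S1510

open scoped Pointwise

theorem comm_of_cyclic {G : Type*} [Group G] (W : Subgroup G) (hW : IsCyclic W) :
    ∀ u ∈ W, ∀ v ∈ W, u * v = v * u := by
  intro u hu v hv
  haveI : IsCyclic W := hW
  haveI : IsMulCommutative W := IsCyclic.isMulCommutative
  exact congrArg Subtype.val (mul_comm' (⟨u, hu⟩ : W) ⟨v, hv⟩)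

theorem mem_sup_of_commute {G : Type*} [Group G] (A B : Subgroup G)
    (h : ∀ a ∈ A, ∀ b ∈ B, a * b = b * a) (x : G) (hx : x ∈ A ⊔ B) :
    ∃ a ∈ A, ∃ b ∈ B, x = a * b := by
  rw [Subgroup.sup_eq_closure] at hx
  induction hx using Subgroup.closure_induction with
  | mem y hy =>
    rcases hy with hy | hy
    · exact ⟨y, hy, 1, B.one_mem, (mul_one y).symm⟩
    · exact ⟨1, A.one_mem, y, hy, (one_mul y).symm⟩
  | one => exact ⟨1, A.one_mem, 1, B.one_mem, (mul_one 1).symm⟩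
  | mul y z _ _ ihy ihz =>
    obtain ⟨a, ha, b, hb, rfl⟩ := ihy
    obtain ⟨a', ha', b', hb', rfl⟩ := ihz
    refine ⟨a * a', A.mul_mem ha ha', b * b', B.mul_mem hb hb', ?_⟩
    calc a * b * (a' * b') = a * (b * a') * b' := by group
      _ = a * (a' * b) * b' := by rw [h a' ha' b hb]
      _ = a * a' * (b * b') := by group
  | inv y _ ihy =>
    obtain ⟨a, ha, b, hb, rfl⟩ := ihy
    refine ⟨a⁻¹, A.inv_mem ha, b⁻¹, B.inv_mem hb, ?_⟩
    rw [mul_inv_rev, h a⁻¹ (A.inv_mem ha) b⁻¹ (B.inv_mem hb)]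

theorem pow_mul_of_commute {G : Type*} [Group G] (a b : G) (hab : a * b = b * a) (m : ℕ)
    (h1 : m ≡ 1 [MOD orderOf a]) (h0 : m ≡ 0 [MOD orderOf b]) : (a * b) ^ m = a := by
  have hc : Commute a b := hab
  rw [hc.mul_pow]
  have e1 : a ^ m = a ^ 1 := pow_eq_pow_iff_modEq.mpr h1
  have e2 : b ^ m = b ^ 0 := pow_eq_pow_iff_modEq.mpr h0
  rw [e1, e2]
  simp

theorem result {L : Type*} [Group L] [Fintype L] (K W₁ W₂ : Subgroup L) [hK : K.Normal] (hKW₁ : K ⊓ W₁ = ⊥) (hKW₁' : K ⊔ W₁ = ⊤) (hW₁ : W₁ ≠ ⊥) (hW₁c : IsCyclic W₁) (hHall : Nat.Coprime (Nat.card W₁) W₁.index) (hW₂ : W₂ ≠ ⊥) (hW₂c : IsCyclic W₂) (hW₂K : W₂ ≤ K) (hC : ∀ x ∈ W₁, x ≠ 1 → K ⊓ Subgroup.centralizer ({x} : Set L) = W₂) (hodd : Odd (Nat.card ↥(W₁ ⊔ W₂))) : Cfsg.IsSelfNormalizingCyclic W₁ W₂ := by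
  have hcompl : Subgroup.IsComplement' K W₁ := by
    apply Subgroup.isComplement'_of_disjoint_and_mul_eq_univ (disjoint_iff.mpr hKW₁)
    rw [← Subgroup.normal_mul, hKW₁']
    rfl
  have hidx : W₁.index = Nat.card K := hcompl.index_eq_card
  have hcop : Nat.Coprime (Nat.card W₁) (Nat.card W₂) := by
    rw [hidx] at hHall
    exact Nat.Coprime.coprime_dvd_right (Subgroup.card_dvd_of_le hW₂K) hHall
  have hdisj : W₁ ⊓ W₂ = ⊥ := by
    rw [eq_bot_iff, ← hKW₁]
    exact le_inf (inf_le_right.trans hW₂K) inf_le_left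
  have hcomm : ∀ a ∈ W₁, ∀ b ∈ W₂, a * b = b * a := by
    intro a ha b hb
    by_cases ha1 : a = 1
    · rw [ha1]; simp
    · have hb' : b ∈ K ⊓ Subgroup.centralizer ({a} : Set L) := by rw [hC a ha ha1]; exact hb
      exact (Subgroup.mem_centralizer_singleton_iff.mp hb'.2).symm
  have hordW₁ : ∀ a ∈ W₁, orderOf a ∣ Nat.card W₁ := fun a ha => W₁.orderOf_dvd_natCard ha
  have hordW₂ : ∀ b ∈ W₂, orderOf b ∣ Nat.card W₂ := fun b hb => W₂.orderOf_dvd_natCard hb
  have hcop' : ∀ a ∈ W₁, ∀ b ∈ W₂, (orderOf a).Coprime (orderOf b) := fun a ha b hb =>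
    Nat.Coprime.coprime_dvd_left (hordW₁ a ha) (Nat.Coprime.coprime_dvd_right (hordW₂ b hb) hcop)
  refine ⟨hW₁, hW₂, hdisj, hcomm, ?_, ?_⟩
  · obtain ⟨⟨w₁, hw₁⟩, hgen₁⟩ := hW₁c
    obtain ⟨⟨w₂, hw₂⟩, hgen₂⟩ := hW₂c
    have hwmem : w₁ * w₂ ∈ W₁ ⊔ W₂ :=
      Subgroup.mul_mem _ (Subgroup.mem_sup_left hw₁) (Subgroup.mem_sup_right hw₂)
    refine ⟨⟨⟨w₁ * w₂, hwmem⟩, ?_⟩⟩
    rintro ⟨x, hx⟩
    obtain ⟨a, ha, b, hb, rfl⟩ := mem_sup_of_commute W₁ W₂ hcomm x hx
    have ha' : (⟨a, ha⟩ : W₁) ∈ Subgroup.zpowers (⟨w₁, hw₁⟩ : W₁) := hgen₁ ⟨a, ha⟩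
    have hb' : (⟨b, hb⟩ : W₂) ∈ Subgroup.zpowers (⟨w₂, hw₂⟩ : W₂) := hgen₂ ⟨b, hb⟩
    rw [← mem_powers_iff_mem_zpowers] at ha' hb'
    obtain ⟨i, hi⟩ := ha'
    obtain ⟨j, hj⟩ := hb'
    have hi' : w₁ ^ i = a := congrArg Subtype.val hi
    have hj' : w₂ ^ j = b := congrArg Subtype.val hj
    obtain ⟨m, hm1, hm2⟩ := Nat.chineseRemainder (hcop' w₁ hw₁ w₂ hw₂) i j
    refine ⟨(m : ℤ), ?_⟩
    apply Subtype.ext
    simp only [zpow_natCast]
    show (w₁ * w₂) ^ m = a * b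
    have hc : Commute w₁ w₂ := hcomm w₁ hw₁ w₂ hw₂
    rw [hc.mul_pow, ← hi', ← hj']
    rw [pow_eq_pow_iff_modEq.mpr hm1, pow_eq_pow_iff_modEq.mpr hm2]
  · intro X hX hXne
    apply le_antisymm
    · intro g hg
      obtain ⟨x, hxX⟩ := hXne
      have hx := hX hxX
      obtain ⟨a, ha, b, hb, hxab⟩ := mem_sup_of_commute W₁ W₂ hcomm x hx.1
      have ha1 : a ≠ 1 := by
        intro h
        apply hx.2
        right
        rw [hxab, h, one_mul]
        exact hb
      have hgx : g * x * g⁻¹ ∈ X := (Subgroup.mem_set_normalizer_iff.mp hg x).mp hxX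
      have hgx' := hX hgx
      obtain ⟨a', ha', b', hb', hgab⟩ := mem_sup_of_commute W₁ W₂ hcomm _ hgx'.1
      have hcopm : (Nat.card W₁).Coprime (Nat.card W₂) := hcop
      obtain ⟨m, hm1, hm0⟩ := Nat.chineseRemainder hcopm 1 0
      have e1 : x ^ m = a := by
        rw [hxab]
        exact pow_mul_of_commute a b (hcomm a ha b hb) m (hm1.of_dvd (hordW₁ a ha))
          (hm0.of_dvd (hordW₂ b hb))
      have e2 : (g * x * g⁻¹) ^ m = a' := by
        rw [hgab]
        exact pow_mul_of_commute a' b' (hcomm a' ha' b' hb') m (hm1.of_dvd (hordW₁ a' ha'))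
          (hm0.of_dvd (hordW₂ b' hb'))
      have hgag : g * a * g⁻¹ ∈ W₁ := by
        rw [← e1, ← conj_pow, e2]
        exact ha'
      have hgtop : g ∈ K ⊔ W₁ := by rw [hKW₁']; exact Subgroup.mem_top g
      have hKW : (↑(K ⊔ W₁) : Set L) = (K : Set L) * (W₁ : Set L) := Subgroup.normal_mul K W₁
      have hg' : g ∈ (K : Set L) * (W₁ : Set L) := by rw [← hKW]; exact hgtop
      obtain ⟨k, hk, w, hw, hkw⟩ := Set.mem_mul.mp hg'
      have hkw' : k * w = g := hkw
      subst hkw'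
      have hk' : k ∈ K := hk
      have hw' : w ∈ W₁ := hw
      have hwa : w * a * w⁻¹ = a := by
        rw [comm_of_cyclic W₁ hW₁c w hw' a ha]
        group
      have hka : k * a * k⁻¹ ∈ W₁ := by
        have e : k * w * a * (k * w)⁻¹ = k * (w * a * w⁻¹) * k⁻¹ := by group
        rw [e, hwa] at hgag
        exact hgag
      have hkc : k * a * k⁻¹ * a⁻¹ ∈ K ⊓ W₁ := by
        refine ⟨?_, W₁.mul_mem hka (W₁.inv_mem ha)⟩
        have e : k * a * k⁻¹ * a⁻¹ = k * (a * k⁻¹ * a⁻¹) := by group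
        rw [e]
        exact K.mul_mem hk' (hK.conj_mem _ (K.inv_mem hk') a)
      rw [hKW₁, Subgroup.mem_bot] at hkc
      have hkW₂ : k ∈ W₂ := by
        rw [← hC a ha ha1]
        refine ⟨hk', ?_⟩
        show k ∈ Subgroup.centralizer ({a} : Set L)
        rw [Subgroup.mem_centralizer_singleton_iff]
        calc k * a = k * a * k⁻¹ * a⁻¹ * (a * k) := by group
          _ = a * k := by rw [hkc, one_mul]
      exact Subgroup.mul_mem _ (Subgroup.mem_sup_right hkW₂) (Subgroup.mem_sup_left hw')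
    · intro w hw
      rw [Subgroup.mem_set_normalizer_iff]
      have hcW : ∀ u ∈ W₁ ⊔ W₂, u * w = w * u := by
        intro u hu
        obtain ⟨a, ha, b, hb, rfl⟩ := mem_sup_of_commute W₁ W₂ hcomm u hu
        obtain ⟨a', ha', b', hb', rfl⟩ := mem_sup_of_commute W₁ W₂ hcomm w hw
        have hcW₁ : a * a' = a' * a := comm_of_cyclic W₁ hW₁c a ha a' ha'
        have hcW₂ : b * b' = b' * b := comm_of_cyclic W₂ hW₂c b hb b' hb'
        calc a * b * (a' * b') = a * (b * a') * b' := by group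
          _ = a * (a' * b) * b' := by rw [hcomm a' ha' b hb]
          _ = (a * a') * (b * b') := by group
          _ = (a' * a) * (b' * b) := by rw [hcW₁, hcW₂]
          _ = a' * (a * b') * b := by group
          _ = a' * (b' * a) * b := by rw [hcomm a ha b' hb']
          _ = a' * b' * (a * b) := by group
      intro h
      constructor
      · intro hh
        have := hcW h (hX hh).1
        have e : w * h * w⁻¹ = h := by rw [← this]; group
        rw [e]; exact hh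
      · intro hh
        have hmem := (hX hh).1
        have := hcW _ hmem
        have e : w * h * w⁻¹ = h := by
          have h2 : w * h * w⁻¹ * w = w * (w * h * w⁻¹) := this
          have h3 : w * h = w * (w * h * w⁻¹) := by
            calc w * h = w * h * w⁻¹ * w := by group
              _ = w * (w * h * w⁻¹) := h2
          exact (mul_left_cancel h3).symm
        rw [e] at hh; exact hh

end Cfsg.Agent.S1510
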