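import Cfsg.Statements.S1512
import Cfsg.Agent.S1496

set_option autoImplicit false
open Cfsg

namespace Cfsg.Agent.S1512

theorem exists_fixed {L : Type*} [Group L] [Finite L] (K : Subgroup L) [hK : K.Normal] (x : L)
    (hx : Nat.Coprime (orderOf x) (Nat.card K)) (c : K)
    (hinv : ConjClasses.map (MulEquiv.toMonoidHom ((MulAut.conjNormal x : MulAut K)))
      (ConjClasses.mk c) = ConjClasses.mk c) :
    ∃ d : K, IsConj c d ∧ (d : L) * x = x * d := by
  have h1 : ConjClasses.mk ((MulAut.conjNormal x : MulAut K) c) = ConjClasses.mk c := hinv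
  rw [ConjClasses.mk_eq_mk_iff_isConj, isConj_iff] at h1
  obtain ⟨h, hh⟩ := h1
  have hh' : (h : L) * (x * c * x⁻¹) * (h : L)⁻¹ = c := by
    have := congrArg Subtype.val hh
    simpa [MulAut.conjNormal_apply] using this
  have hxN : x ∈ Subgroup.normalizer (K : Set L) := by
    rw [Subgroup.normalizer_eq_top]
    exact Subgroup.mem_top x
  obtain ⟨k, hk, c', hc', hc'x, hconj⟩ := Cfsg.Agent.S1496.result K x hxN hx (h : L) h.2
  have hcent : ((h : L) * x) * c = c * ((h : L) * x) := by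
    calc ((h : L) * x) * c = ((h : L) * (x * c * x⁻¹) * (h : L)⁻¹) * ((h : L) * x) := by group
      _ = c * ((h : L) * x) := by rw [hh']
  let d : L := k * c * k⁻¹
  have hdK : d ∈ K := K.mul_mem (K.mul_mem hk c.2) (K.inv_mem hk)
  have hcd : (c' * x) * d = d * (c' * x) := by
    rw [← hconj]
    show k * ((h : L) * x) * k⁻¹ * (k * c * k⁻¹) = k * c * k⁻¹ * (k * ((h : L) * x) * k⁻¹)
    calc k * ((h : L) * x) * k⁻¹ * (k * c * k⁻¹) = k * (((h : L) * x) * c) * k⁻¹ := by group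
      _ = k * (c * ((h : L) * x)) * k⁻¹ := by rw [hcent]
      _ = k * c * k⁻¹ * (k * ((h : L) * x) * k⁻¹) := by group
  have hcop : (orderOf x).Coprime (orderOf c') :=
    Nat.Coprime.coprime_dvd_right (K.orderOf_dvd_natCard hc') hx
  obtain ⟨m, hm1, hm0⟩ := Nat.chineseRemainder hcop 1 0
  have hpow : (c' * x) ^ m = x := by
    have hcomm : Commute c' x := hc'x
    rw [hcomm.mul_pow]
    have e1 : x ^ m = x ^ 1 := pow_eq_pow_iff_modEq.mpr hm1
    have e2 : c' ^ m = c' ^ 0 := pow_eq_pow_iff_modEq.mpr hm0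
    rw [e1, e2]
    simp
  have hxd : x * d = d * x := by
    have hcomm : Commute (c' * x) d := hcd
    have := hcomm.pow_left m
    rw [hpow] at this
    exact this
  refine ⟨⟨d, hdK⟩, ?_, hxd.symm⟩
  rw [isConj_iff]
  exact ⟨⟨k, hk⟩, Subtype.ext rfl⟩

theorem result {L : Type*} [Group L] [Finite L] (K W₂ : Subgroup L) [hK : K.Normal] (x : L) (hx1 : x ≠ 1) (hx : Nat.Coprime (orderOf x) (Nat.card K)) (hC : ∀ y ∈ Subgroup.zpowers x, y ≠ 1 → K ⊓ Subgroup.centralizer ({y} : Set L) = W₂) : Nat.card {C : ConjClasses K // ConjClasses.map (MulEquiv.toMonoidHom ((MulAut.conjNormal x : MulAut K))) C = C} ≤ Nat.card W₂ := by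
  have hW : K ⊓ Subgroup.centralizer ({x} : Set L) = W₂ := hC x (Subgroup.mem_zpowers x) hx1
  have key : ∀ C : {C : ConjClasses K // ConjClasses.map (MulEquiv.toMonoidHom
      ((MulAut.conjNormal x : MulAut K))) C = C},
      ∃ w : W₂, ∃ hw : (w : L) ∈ K, ConjClasses.mk (⟨(w : L), hw⟩ : K) = C.1 := by
    rintro ⟨C, hCinv⟩
    obtain ⟨c, rfl⟩ := ConjClasses.exists_rep C
    obtain ⟨d, hcd, hdx⟩ := exists_fixed K x hx c hCinv
    have hdW : (d : L) ∈ W₂ := by
      rw [← hW]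
      exact ⟨d.2, Subgroup.mem_centralizer_singleton_iff.mpr hdx⟩
    refine ⟨⟨(d : L), hdW⟩, d.2, ?_⟩
    exact (ConjClasses.mk_eq_mk_iff_isConj.mpr hcd).symm
  choose f hf using key
  apply Nat.card_le_card_of_injective f
  intro C C' heq
  obtain ⟨hw, h⟩ := hf C
  obtain ⟨hw', h'⟩ := hf C'
  apply Subtype.ext
  rw [← h, ← h']
  congr 1
  exact Subtype.ext (show ((f C : W₂) : L) = ((f C' : W₂) : L) from
    congrArg (fun w : W₂ => (w : L)) heq)

end Cfsg.Agent.S1512
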