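import Cfsg.Statements.S1513
import Cfsg.Agent.Lib.Helper10.KW
import Cfsg.Agent.S1491

set_option autoImplicit false
open Cfsg

namespace Cfsg.Agent.S1513

open Cfsg.Agent.Lib.Helper1 Cfsg.Agent.Lib.Helper10.KW

/-- Let L be a finite group with K normal with complement W₁ ≠ 1 a cyclic Hall subgroup, and W₂ ≠ 1 a cyclic subgroup of K equal to C_K(x) for every non-identity x ∈ W₁, with W₁W₂ of odd order. For an irreducible character θ of K: if θ is not fixed under conjugation by some element of W₁, then the function induced from θ to L is an irreducible character of L; and the irreducible characters of K fixed by all of W₁ are exactly Nat.card W₂ in number, each inducing to the sum of Nat.card W₁ pairwise distinct irreducible characters of L. -/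
theorem result {L : Type*} [Group L] [Fintype L] (K W₁ W₂ : Subgroup L) [hK : K.Normal] (hKW₁ : K ⊓ W₁ = ⊥) (hKW₁' : K ⊔ W₁ = ⊤) (hW₁ : W₁ ≠ ⊥) (hW₁c : IsCyclic W₁) (hHall : Nat.Coprime (Nat.card W₁) W₁.index) (hW₂ : W₂ ≠ ⊥) (hW₂c : IsCyclic W₂) (hW₂K : W₂ ≤ K) (hC : ∀ x ∈ W₁, x ≠ 1 → K ⊓ Subgroup.centralizer ({x} : Set L) = W₂) (hodd : Odd (Nat.card ↥(W₁ ⊔ W₂))) : (∀ θ : K → ℂ, Cfsg.IsIrrCharacter K θ → (∃ x ∈ W₁, (fun k : K => θ ⟨x * k * x⁻¹, hK.conj_mem (k : L) k.2 x⟩) ≠ θ) → Cfsg.IsIrrCharacter L (Cfsg.indFun K θ)) ∧ Nat.card {θ : Cfsg.IrrCharacter K // ∀ x ∈ W₁, (fun k : K => (θ : K → ℂ) ⟨x * k * x⁻¹, hK.conj_mem (k : L) k.2 x⟩) = θ} = Nat.card W₂ ∧ (∀ θ : K → ℂ, Cfsg.IsIrrCharacter K θ → (∀ x ∈ W₁, (fun k : K => θ ⟨x * k * x⁻¹, hK.conj_mem (k : L) k.2 x⟩) = θ) → ∃ C : Finset (L → ℂ), C.card = Nat.card W₁ ∧ (∀ μ ∈ C, Cfsg.IsIrrCharacter L μ) ∧ Cfsg.indFun K θ = ∑ μ ∈ C, μ) := by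
  classical
  obtain ⟨hidx1, hidx2, hcop⟩ := card_facts K W₁ hKW₁ hKW₁' hHall
  have hab : ∀ x y : L, x * y * x⁻¹ * y⁻¹ ∈ K := comm_mem K W₁ hKW₁' hW₁c
  have hKle : ∀ (θ : K → ℂ), Cfsg.IsIrrCharacter K θ → ∀ T : Subgroup L,
      (∀ g : L, g ∈ T ↔ ∀ h : K, θ ⟨g * h * g⁻¹, hK.conj_mem h h.2 g⟩ = θ h) → K ≤ T := by
    intro θ hθ T hT k hk
    rw [hT]
    intro h
    exact IsIrrCharacter.isClassFunction hθ h ⟨k, hk⟩
  refine ⟨?_, card_fixed_all K W₁ W₂ hKW₁ hcop hW₁ hW₁c hW₂c hW₂K hC, ?_⟩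
  · rintro θ hθ ⟨x, hx, hne⟩
    obtain ⟨T, hT⟩ := exists_inertia K θ
    have hKT : K ≤ T := hKle θ hθ T hT
    have hTK : T ≤ K := by
      intro g hg
      by_contra hgK
      obtain ⟨k, hk, w, hw, rfl⟩ := exists_decomp K W₁ hKW₁' g
      have hwT : w ∈ T := by
        have := T.mul_mem (T.inv_mem (hKT hk)) hg
        rwa [inv_mul_cancel_left] at this
      have hw1 : w ≠ 1 := by
        rintro rfl
        exact hgK (by simpa using hk)
      have hall := fixed_of_fixed K W₁ W₂ hKW₁ hcop hW₁ hW₁c hW₂c hW₂K hC θ hθ w hw hw1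
        ((hT w).mp hwT)
      exact hne (funext (hall x hx))
    have hrel : K.relIndex T = 1 := Subgroup.relIndex_eq_one.mpr hTK
    have hcopT : (Nat.card K).Coprime (K.relIndex T) := by
      rw [hrel]; exact Nat.coprime_one_right _
    obtain ⟨C, hCirr, hCcard, hInd, -⟩ :=
      Cfsg.Agent.S1491.result K T θ hθ hT (fun x _ y _ => hab x y) hcopT
    rw [hrel] at hCcard
    obtain ⟨χ, rfl⟩ := Finset.card_eq_one.mp hCcard
    rw [hInd, Finset.sum_singleton]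
    exact hCirr χ (Finset.mem_singleton_self χ)
  · intro θ hθ hfix
    have hT : ∀ g : L, g ∈ (⊤ : Subgroup L) ↔
        ∀ h : K, θ ⟨g * h * g⁻¹, hK.conj_mem h h.2 g⟩ = θ h := by
      intro g
      refine ⟨fun _ => ?_, fun _ => Subgroup.mem_top g⟩
      obtain ⟨T, hT'⟩ := exists_inertia K θ
      have hKT : K ≤ T := hKle θ hθ T hT'
      have hWT : W₁ ≤ T := fun w hw => (hT' w).mpr (fun h => congrFun (hfix w hw) h)
      have hgT : g ∈ T := by
        have hle : K ⊔ W₁ ≤ T := sup_le hKT hWT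
        rw [hKW₁'] at hle
        exact hle (Subgroup.mem_top g)
      exact (hT' g).mp hgT
    have hcopT : (Nat.card K).Coprime (K.relIndex ⊤) := by
      rw [Subgroup.relIndex_top_right, hidx2]; exact hcop
    obtain ⟨C, hCirr, hCcard, hInd, -⟩ :=
      Cfsg.Agent.S1491.result K ⊤ θ hθ hT (fun x _ y _ => hab x y) hcopT
    exact ⟨C, by rw [hCcard, Subgroup.relIndex_top_right, hidx2], hCirr, hInd⟩

end Cfsg.Agent.S1513
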