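import Cfsg.Statements.S1514
import Cfsg.Agent.Lib.Helper10.Virt

set_option autoImplicit false
open Cfsg

namespace Cfsg.Agent.S1514

open Cfsg.Agent.Lib.Helper1 Cfsg.Agent.Lib.Helper10.Virt
open scoped ComplexConjugate

/-- Let S be a nonempty set of irreducible characters of the finite group L, closed under complex conjugation and containing no real-valued member, and τ a linear isometry on the integer combinations of S vanishing at 1, with values virtual characters of G vanishing at 1. Then there is a choice R making (S, τ, R) a coherence system. -/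
theorem result {L : Type*} [Group L] [Fintype L] {G : Type*} [Group G] [Fintype G] (S : Set (L → ℂ)) (hS : S.Nonempty) (hirr : ∀ χ ∈ S, Cfsg.IsIrrCharacter L χ) (hconj : ∀ χ ∈ S, Cfsg.conjFun χ ∈ S ∧ Cfsg.conjFun χ ≠ χ) (τ : (L → ℂ) → (G → ℂ)) (hτ : Cfsg.IsLinearIsometryOn (Cfsg.zspanOn S {1}ᶜ) τ) (hτ1 : ∀ α ∈ Cfsg.zspanOn S {1}ᶜ, τ α 1 = 0) : ∃ R : (L → ℂ) → Finset (G → ℂ), Cfsg.IsCoherenceSystem S τ R := by
  classical
  have hmem : ∀ χ ∈ S, χ - Cfsg.conjFun χ ∈ Cfsg.zspanOn S {1}ᶜ := by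
    intro χ hχ
    refine ⟨zspan_sub (zspan_of_mem hχ) (zspan_of_mem (hconj χ hχ).1), ?_⟩
    intro x hx
    have hx1 : x = 1 := by simpa using hx
    obtain ⟨n, hn⟩ := IsCharacter.degree_nat (IsIrrCharacter.isCharacter (hirr χ hχ))
    rw [hx1, Pi.sub_apply, Cfsg.conjFun, hn]
    simp
  have hinner : ∀ χ ∈ S, ∀ φ ∈ S, Cfsg.classInner χ φ = if χ = φ then 1 else 0 :=
    fun χ hχ φ hφ => classInner_irr (hirr χ hχ) (hirr φ hφ)
  have hnorm : ∀ χ ∈ S, Cfsg.classInner (τ (χ - Cfsg.conjFun χ)) (τ (χ - Cfsg.conjFun χ)) = 2 := by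
    intro χ hχ
    rw [hτ.2.2.1 _ (hmem χ hχ) _ (hmem χ hχ)]
    rw [classInner_sub_left, classInner_sub_right, classInner_sub_right]
    rw [hinner χ hχ χ hχ, hinner χ hχ _ (hconj χ hχ).1, hinner _ (hconj χ hχ).1 χ hχ,
      hinner _ (hconj χ hχ).1 _ (hconj χ hχ).1]
    rw [if_pos rfl, if_neg (hconj χ hχ).2.symm, if_neg (hconj χ hχ).2, if_pos rfl]
    norm_num
  have hdec : ∀ χ ∈ S, ∃ ψ₁ ψ₂ : G → ℂ, Cfsg.IsIrrCharacter G ψ₁ ∧ Cfsg.IsIrrCharacter G ψ₂ ∧
      ψ₁ ≠ ψ₂ ∧ τ (χ - Cfsg.conjFun χ) = ψ₁ - ψ₂ :=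
    fun χ hχ => norm_two_vanish (hτ.2.2.2 _ (hmem χ hχ)) (hnorm χ hχ) (hτ1 _ (hmem χ hχ))
  choose! p1 p2 hp1 hp2 hpne hpeq using hdec
  have hneq : ∀ χ ∈ S, p1 χ ≠ -p2 χ := fun χ hχ => irr_ne_neg_irr (hp1 χ hχ) (hp2 χ hχ)
  refine ⟨fun χ => {p1 χ, -p2 χ}, ?_⟩
  refine
    { nonempty := hS
      isCharacter := fun χ hχ => IsIrrCharacter.isCharacter (hirr χ hχ)
      conj_mem := fun χ hχ => (hconj χ hχ).1
      conj_ne := fun χ hχ => (hconj χ hχ).2
      isometry := hτ
      map_one := hτ1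
      orthogonal := ?_
      orthonormal := ?_
      virtual := ?_
      sum_eq := ?_
      disjoint := ?_ }
  · intro χ hχ φ hφ hne
    rw [hinner χ hχ φ hφ, if_neg hne]
  · intro χ hχ α hα β hβ
    simp only [Finset.mem_insert, Finset.mem_singleton] at hα hβ
    rcases hα with rfl | rfl <;> rcases hβ with rfl | rfl
    · rw [classInner_irr_self (hp1 χ hχ), if_pos rfl]
    · rw [classInner_neg_right, classInner_irr_ne (hp1 χ hχ) (hp2 χ hχ) (hpne χ hχ),
        if_neg (hneq χ hχ)]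
      simp
    · rw [classInner_neg_left, classInner_irr_ne (hp2 χ hχ) (hp1 χ hχ) (hpne χ hχ).symm,
        if_neg (hneq χ hχ).symm]
      simp
    · rw [classInner_neg_left, classInner_neg_right, classInner_irr_self (hp2 χ hχ), if_pos rfl]
      simp
  · intro χ hχ α hα
    simp only [Finset.mem_insert, Finset.mem_singleton] at hα
    rcases hα with rfl | rfl
    · exact isGen_of_irr (hp1 χ hχ)
    · exact isGen_neg (isGen_of_irr (hp2 χ hχ))
  · intro χ hχ
    rw [Finset.sum_pair (hneq χ hχ), hpeq χ hχ, sub_eq_add_neg]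
  · intro χ hχ φ hφ h1 h2 α hα β hβ
    have h0 : Cfsg.classInner (τ (φ - Cfsg.conjFun φ)) (τ (χ - Cfsg.conjFun χ)) = 0 := by
      rw [hτ.2.2.1 _ (hmem φ hφ) _ (hmem χ hχ)]
      rw [classInner_sub_left, classInner_sub_right, classInner_sub_right, h1, h2]
      rw [classInner_conjFun_left, classInner_conjFun, h1, h2]
      simp
    rw [hpeq φ hφ, hpeq χ hχ] at h0
    rw [classInner_sub_left, classInner_sub_right, classInner_sub_right] at h0
    rw [classInner_irr (hp1 φ hφ) (hp1 χ hχ), classInner_irr (hp1 φ hφ) (hp2 χ hχ),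
      classInner_irr (hp2 φ hφ) (hp1 χ hχ), classInner_irr (hp2 φ hφ) (hp2 χ hχ)] at h0
    have hA := hpne φ hφ
    have hB := hpne χ hχ
    have n11 : ¬ p1 φ = p1 χ := by
      intro e11
      have n12 : ¬ p1 φ = p2 χ := fun e => hB (e11.symm.trans e)
      have n21 : ¬ p2 φ = p1 χ := fun e => hA (e11.trans e.symm)
      rw [if_pos e11, if_neg n12, if_neg n21] at h0
      by_cases e22 : p2 φ = p2 χ
      · rw [if_pos e22] at h0; norm_num at h0
      · rw [if_neg e22] at h0; norm_num at h0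
    have n22 : ¬ p2 φ = p2 χ := by
      intro e22
      have n12 : ¬ p1 φ = p2 χ := fun e => hA (e.trans e22.symm)
      have n21 : ¬ p2 φ = p1 χ := fun e => hB (e.symm.trans e22)
      rw [if_neg n11, if_neg n12, if_neg n21, if_pos e22] at h0
      norm_num at h0
    rw [if_neg n11, if_neg n22] at h0
    have n12 : ¬ p1 φ = p2 χ := by
      intro e12
      rw [if_pos e12] at h0
      by_cases e21 : p2 φ = p1 χ
      · rw [if_pos e21] at h0; norm_num at h0
      · rw [if_neg e21] at h0; norm_num at h0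
    have n21 : ¬ p2 φ = p1 χ := by
      intro e21
      rw [if_neg n12, if_pos e21] at h0
      norm_num at h0
    simp only [Finset.mem_insert, Finset.mem_singleton] at hα hβ
    rcases hα with rfl | rfl <;> rcases hβ with rfl | rfl
    · exact classInner_irr_ne (hp1 φ hφ) (hp1 χ hχ) n11
    · rw [classInner_neg_right, classInner_irr_ne (hp1 φ hφ) (hp2 χ hχ) n12, neg_zero]
    · rw [classInner_neg_left, classInner_irr_ne (hp2 φ hφ) (hp1 χ hχ) n21, neg_zero]
    · rw [classInner_neg_left, classInner_neg_right,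
        classInner_irr_ne (hp2 φ hφ) (hp2 χ hχ) n22]
      simp

end Cfsg.Agent.S1514
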