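import Cfsg.Statements.S1515
import Cfsg.Agent.Lib.Helper10.Virt

set_option autoImplicit false
open Cfsg

namespace Cfsg.Agent.S1515

open Cfsg.Agent.Lib.Helper1 Cfsg.Agent.Lib.Helper10.Virt
open scoped ComplexConjugate

/-- Let (S, τ, R) be a coherence system from L to G, χ ∈ S, and ψ an integer combination of S with ⟨χ, ψ⟩ = ⟨conj χ, ψ⟩ = 0. Let τ₁ be a linear isometry on the integer combinations of χ − ψ and χ − conj χ, with virtual-character values, agreeing with τ on integer multiples of χ − conj χ. Then the sum over α ∈ R χ of the squared absolute values of ⟨τ₁(χ − ψ), α⟩ is at least ⟨χ, χ⟩; and if ⟨τ₁(χ − ψ), τ₁(χ − ψ)⟩ minus that sum is at least ⟨ψ, ψ⟩, then the sum equals ⟨χ, χ⟩ and every ⟨τ₁(χ − ψ), α⟩ with α ∈ R χ is 0 or 1. -/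
theorem result {L : Type*} [Group L] [Fintype L] {G : Type*} [Group G] [Fintype G] (S : Set (L → ℂ)) (τ : (L → ℂ) → (G → ℂ)) (R : (L → ℂ) → Finset (G → ℂ)) (hS : Cfsg.IsCoherenceSystem S τ R) (χ : L → ℂ) (hχ : χ ∈ S) (ψ : L → ℂ) (hψ : ψ ∈ Cfsg.zspan S) (h1 : Cfsg.classInner χ ψ = 0) (h2 : Cfsg.classInner (Cfsg.conjFun χ) ψ = 0) (τ₁ : (L → ℂ) → (G → ℂ)) (hτ₁ : Cfsg.IsLinearIsometryOn (Cfsg.zspan {χ - ψ, χ - Cfsg.conjFun χ}) τ₁) (hagree : ∀ n : ℤ, τ₁ (n • (χ - Cfsg.conjFun χ)) = τ (n • (χ - Cfsg.conjFun χ))) : (Cfsg.classInner χ χ).re ≤ ∑ α ∈ R χ, ‖Cfsg.classInner (τ₁ (χ - ψ)) α‖ ^ 2 ∧ ((Cfsg.classInner ψ ψ).re ≤ (Cfsg.classInner (τ₁ (χ - ψ)) (τ₁ (χ - ψ))).re - ∑ α ∈ R χ, ‖Cfsg.classInner (τ₁ (χ - ψ)) α‖ ^ 2 → (∑ α ∈ R χ, ‖Cfsg.classInner (τ₁ (χ - ψ)) α‖ ^ 2 = (Cfsg.classInner χ χ).re ∧ ∀ α ∈ R χ, Cfsg.classInner (τ₁ (χ - ψ)) α = 0 ∨ Cfsg.classInner (τ₁ (χ - ψ)) α = 1))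 := by
  classical
  have m1 : χ - ψ ∈ Cfsg.zspan {χ - ψ, χ - Cfsg.conjFun χ} :=
    zspan_of_mem (Set.mem_insert _ _)
  have m2 : χ - Cfsg.conjFun χ ∈ Cfsg.zspan {χ - ψ, χ - Cfsg.conjFun χ} :=
    zspan_of_mem (Set.mem_insert_of_mem _ (Set.mem_singleton _))
  have hβ : Cfsg.IsGeneralizedCharacter G (τ₁ (χ - ψ)) := hτ₁.2.2.2 _ m1
  have hint : ∀ α ∈ R χ, ∃ z : ℤ, Cfsg.classInner (τ₁ (χ - ψ)) α = (z : ℂ) :=
    fun α hα => gen_classInner_int hβ (hS.virtual χ hχ α hα)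
  choose! z hz using hint
  obtain ⟨k, hk⟩ := IsCharacter.classInner_nat (hS.isCharacter χ hχ) (hS.isCharacter χ hχ)
  have hχc : Cfsg.classInner χ (Cfsg.conjFun χ) = 0 :=
    hS.orthogonal χ hχ _ (hS.conj_mem χ hχ) (hS.conj_ne χ hχ).symm
  have hψχ : Cfsg.classInner ψ χ = 0 := by
    rw [← classInner_conj_symm, h1]; simp
  have hψχc : Cfsg.classInner ψ (Cfsg.conjFun χ) = 0 := by
    rw [← classInner_conj_symm, h2]; simp
  have hsum : ∑ α ∈ R χ, Cfsg.classInner (τ₁ (χ - ψ)) α = (k : ℂ) := by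
    rw [← classInner_sum_right, ← hS.sum_eq χ hχ]
    have e1 := hagree 1
    rw [one_smul] at e1
    rw [← e1, hτ₁.2.2.1 _ m1 _ m2]
    rw [classInner_sub_left, classInner_sub_right, classInner_sub_right, hk, hχc, hψχ, hψχc]
    ring
  have hsumz : ∑ α ∈ R χ, z α = (k : ℤ) := by
    have e2 : ((∑ α ∈ R χ, z α : ℤ) : ℂ) = ((k : ℤ) : ℂ) := by
      push_cast
      rw [← hsum]
      exact Finset.sum_congr rfl (fun α hα => (hz α hα).symm)
    exact_mod_cast e2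
  have hsq : ∑ α ∈ R χ, ‖Cfsg.classInner (τ₁ (χ - ψ)) α‖ ^ 2 =
      ((∑ α ∈ R χ, z α ^ 2 : ℤ) : ℝ) := by
    push_cast
    refine Finset.sum_congr rfl (fun α hα => ?_)
    rw [hz α hα, Complex.norm_intCast, sq_abs]
  have hle : ∀ α ∈ R χ, z α ≤ z α ^ 2 := by
    intro α _
    rcases le_or_gt (z α) 0 with h | h
    · nlinarith [sq_nonneg (z α)]
    · nlinarith
  have hkre : (Cfsg.classInner χ χ).re = (k : ℝ) := by rw [hk]; simp
  have hge : (k : ℤ) ≤ ∑ α ∈ R χ, z α ^ 2 := by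
    rw [← hsumz]
    exact Finset.sum_le_sum hle
  refine ⟨?_, ?_⟩
  · rw [hkre, hsq]
    exact_mod_cast hge
  · intro hineq
    have hββ : Cfsg.classInner (τ₁ (χ - ψ)) (τ₁ (χ - ψ)) = (k : ℂ) + Cfsg.classInner ψ ψ := by
      rw [hτ₁.2.2.1 _ m1 _ m1]
      rw [classInner_sub_left, classInner_sub_right, classInner_sub_right, hk, h1, hψχ]
      ring
    rw [hββ, hsq] at hineq
    simp only [Complex.add_re, Complex.natCast_re] at hineq
    have hle2 : ((∑ α ∈ R χ, z α ^ 2 : ℤ) : ℝ) ≤ (k : ℝ) := by linarith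
    have hle3 : ∑ α ∈ R χ, z α ^ 2 ≤ (k : ℤ) := by exact_mod_cast hle2
    have heq : ∑ α ∈ R χ, z α ^ 2 = (k : ℤ) := le_antisymm hle3 hge
    refine ⟨?_, ?_⟩
    · rw [hkre, hsq, heq]; simp
    · intro α hα
      have h0 : ∑ α ∈ R χ, (z α ^ 2 - z α) = 0 := by
        rw [Finset.sum_sub_distrib, heq, hsumz]; ring
      have h3 := (Finset.sum_eq_zero_iff_of_nonneg
        (fun α hα => sub_nonneg.mpr (hle α hα))).mp h0 α hα
      have h4 : z α * (z α - 1) = 0 := by ring_nf; ring_nf at h3; linarith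
      rw [hz α hα]
      rcases mul_eq_zero.mp h4 with h | h
      · left; rw [h]; simp
      · right
        have : z α = 1 := by linarith
        rw [this]; simp

end Cfsg.Agent.S1515
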