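import Cfsg.Statements.S1516
import Cfsg.Agent.Lib.Helper10.Coh3

set_option autoImplicit false
open Cfsg

namespace Cfsg.Agent.S1516

open Cfsg.Agent.Lib.Helper1 Cfsg.Agent.Lib.Helper10.Virt Cfsg.Agent.Lib.Helper10.Coh
open Cfsg.Agent.Lib.Helper10.Coh2 Cfsg.Agent.Lib.Helper10.Coh3
open scoped ComplexConjugate

section aux

variable {L : Type*} [Group L] [Fintype L] {G : Type*} [Group G] [Fintype G]
  {S : Set (L → ℂ)} {τ : (L → ℂ) → (G → ℂ)} {R : (L → ℂ) → Finset (G → ℂ)}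

/-- A coherent extension `τ₁` maps `φ` into the span of `R φ`, hence orthogonally to `R χ` for
`φ ∉ {χ, conj χ}`. -/
theorem tau1_orth (hS : Cfsg.IsCoherenceSystem S τ R) {S₁ : Set (L → ℂ)} (hS₁ : S₁ ⊆ S)
    {τ₁ : (L → ℂ) → (G → ℂ)} (hτ₁ : Cfsg.IsLinearIsometryOn (Cfsg.zspan S₁) τ₁)
    (hag : ∀ α ∈ Cfsg.zspanOn S₁ {1}ᶜ, τ₁ α = τ α) {φ : L → ℂ} (hφ : φ ∈ S₁)
    (hφc : Cfsg.conjFun φ ∈ S₁) {χ : L → ℂ} (hχ : χ ∈ S) (h1 : φ ≠ χ)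
    (h2 : φ ≠ Cfsg.conjFun χ) {α : G → ℂ} (hα : α ∈ R χ) : Cfsg.classInner (τ₁ φ) α = 0 := by
  classical
  have hφS : φ ∈ S := hS₁ hφ
  obtain ⟨n, -, hn⟩ := sys_norm hS hφS
  have hgen : Cfsg.IsGeneralizedCharacter G (τ₁ φ) := hτ₁.2.2.2 _ (zspan_of_mem hφ)
  have hint : ∀ γ ∈ R φ, ∃ z : ℤ, Cfsg.classInner (τ₁ φ) γ = (z : ℂ) :=
    fun γ hγ => gen_classInner_int hgen (hS.virtual φ hφS γ hγ)
  choose! z hz using hint
  have hmem : φ - Cfsg.conjFun φ ∈ Cfsg.zspanOn S₁ {1}ᶜ :=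
    ⟨zspan_sub (zspan_of_mem hφ) (zspan_of_mem hφc), (sys_sub_conj_mem hS hφS).2⟩
  have hsum : ∑ γ ∈ R φ, z γ = (n : ℤ) := by
    have e : ((∑ γ ∈ R φ, z γ : ℤ) : ℂ) = ((n : ℤ) : ℂ) := by
      push_cast
      rw [← Finset.sum_congr rfl (fun γ hγ => hz γ hγ), sys_sum_coeff hS hφS, ← hag _ hmem,
        hτ₁.2.2.1 _ (zspan_of_mem hφ) _ hmem.1, classInner_sub_right, hn, sys_orth_conj hS hφS,
        sub_zero]
    exact_mod_cast e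
  have hnorm1 : ∀ i ∈ R φ, Cfsg.classInner (id i : G → ℂ) (id i) = 1 := by
    intro i hi
    rw [id, hS.orthonormal φ hφS i hi i hi, if_pos rfl]
  have horth : ∀ i ∈ R φ, ∀ j ∈ R φ, i ≠ j → Cfsg.classInner (id i : G → ℂ) (id j) = 0 := by
    intro i hi j hj hij
    simp only [id]
    rw [hS.orthonormal φ hφS i hi j hj, if_neg hij]
  have hnormφ : Cfsg.classInner (τ₁ φ) (τ₁ φ) = (n : ℂ) := by
    rw [hτ₁.2.2.1 _ (zspan_of_mem hφ) _ (zspan_of_mem hφ), hn]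
  have hbl := bessel_le (R φ) (τ₁ φ) id z (fun i hi => hz i hi) hnorm1 horth
  rw [hnormφ] at hbl
  have hb : ∑ γ ∈ R φ, z γ ^ 2 ≤ (n : ℤ) := by
    have : ((∑ γ ∈ R φ, z γ ^ 2 : ℤ) : ℝ) ≤ ((n : ℤ) : ℝ) := by simpa using hbl
    exact_mod_cast this
  have hX := sum_le_sum_sq (R φ) z
  rw [hsum] at hX
  have hXe : ∑ γ ∈ R φ, z γ ^ 2 = n := le_antisymm hb hX
  have heq := bessel_eq (R φ) (τ₁ φ) id z (fun i hi => hz i hi) hnorm1 horth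
    (by rw [hnormφ, hXe]; push_cast; rfl)
  rw [heq, classInner_sum_left]
  apply Finset.sum_eq_zero
  intro γ hγ
  rw [classInner_zsmul_left]
  have : Cfsg.classInner (id γ : G → ℂ) α = 0 := sys_R_orth hS hχ hφS h1 h2 hγ hα
  rw [this, mul_zero]

end aux

/-- Let (S, τ, R) be a coherence system from L to G with degrees φ 1 = d φ and squared norms ⟨φ, φ⟩ = n φ for φ ∈ S. Let S₁ ⊆ S be a finite subset closed under complex conjugation such that (S₁, L minus 1, τ) is coherent, let χ ∈ S with χ ∉ S₁ and conj χ ∉ S₁, and let χ₁ ∈ S₁ with d χ₁ dividing d χ and 2 d χ d χ₁ < Σ_{φ ∈ S₁} (d φ)² / n φ. Then S₁ together with χ and conj χ is coherent. -/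
theorem result {L : Type*} [Group L] [Fintype L] {G : Type*} [Group G] [Fintype G] (S : Set (L → ℂ)) (τ : (L → ℂ) → (G → ℂ)) (R : (L → ℂ) → Finset (G → ℂ)) (hS : Cfsg.IsCoherenceSystem S τ R) (d n : (L → ℂ) → ℕ) (hd : ∀ φ ∈ S, φ 1 = (d φ : ℂ)) (hn : ∀ φ ∈ S, Cfsg.classInner φ φ = (n φ : ℂ)) (S₁ : Finset (L → ℂ)) (hS₁ : ↑S₁ ⊆ S) (hS₁c : ∀ φ ∈ S₁, Cfsg.conjFun φ ∈ S₁) (hcoh : Cfsg.IsCoherent (↑S₁ : Set (L → ℂ)) {1}ᶜ τ) (χ : L → ℂ) (hχ : χ ∈ S) (hχ₁ : χ ∉ S₁) (hχ₂ : Cfsg.conjFun χ ∉ S₁) (χ₁ : L → ℂ) (hχ₁S : χ₁ ∈ S₁) (hdvd : d χ₁ ∣ d χ) (hineq : (2 * d χ * d χ₁ : ℝ) < ∑ φ ∈ S₁, ((d φ : ℝ) ^ 2 / (n φ : ℝ))) : Cfsg.IsCoherent (↑S₁ ∪ {χ, Cfsg.conjFun χ} : Set (L → ℂ)) {1}ᶜ τ := by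
  classical
  obtain ⟨-, τ₁, hτ₁, hag⟩ := hcoh
  have hχc : Cfsg.conjFun χ ∈ S := hS.conj_mem χ hχ
  have hS₁' : ∀ φ ∈ S₁, φ ∈ S := fun φ hφ => hS₁ (Finset.mem_coe.mpr hφ)
  have hχ₁S' : χ₁ ∈ S := hS₁' χ₁ hχ₁S
  have hz1 : ∀ φ ∈ S₁, φ ∈ Cfsg.zspan (↑S₁ : Set (L → ℂ)) :=
    fun φ hφ => zspan_of_mem (Finset.mem_coe.mpr hφ)
  have hd0 : ∀ φ ∈ S, d φ ≠ 0 := by
    intro φ hφ h0
    obtain ⟨d', hd'0, hd'⟩ := sys_degree hS hφ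
    have := hd φ hφ
    rw [hd', h0] at this
    exact hd'0 (by exact_mod_cast this)
  have hn0 : ∀ φ ∈ S, n φ ≠ 0 := by
    intro φ hφ h0
    obtain ⟨n', hn'0, hn'⟩ := sys_norm hS hφ
    have := hn φ hφ
    rw [hn', h0] at this
    exact hn'0 (by exact_mod_cast this)
  obtain ⟨a, ha⟩ := hdvd
  have hne1 : ∀ φ ∈ S₁, φ ≠ χ := fun φ hφ e => hχ₁ (e ▸ hφ)
  have hne2 : ∀ φ ∈ S₁, φ ≠ Cfsg.conjFun χ := fun φ hφ e => hχ₂ (e ▸ hφ)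
  have horthχ : ∀ φ ∈ S₁, Cfsg.classInner χ φ = 0 :=
    fun φ hφ => hS.orthogonal χ hχ φ (hS₁' φ hφ) (Ne.symm (hne1 φ hφ))
  have horthχ' : ∀ φ ∈ S₁, Cfsg.classInner φ χ = 0 :=
    fun φ hφ => hS.orthogonal φ (hS₁' φ hφ) χ hχ (hne1 φ hφ)
  have horthχc' : ∀ φ ∈ S₁, Cfsg.classInner φ (Cfsg.conjFun χ) = 0 :=
    fun φ hφ => hS.orthogonal φ (hS₁' φ hφ) _ hχc (hne2 φ hφ)
  have hmemβ : χ - (a : ℤ) • χ₁ ∈ Cfsg.zspanOn S {1}ᶜ := by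
    refine ⟨zspan_sub (zspan_of_mem hχ) (zspan_zsmul _ (zspan_of_mem hχ₁S')), ?_⟩
    intro y hy
    have hy1 : y = 1 := by simpa using hy
    rw [hy1, Pi.sub_apply, Pi.smul_apply, hd χ hχ, hd χ₁ hχ₁S', ha]
    push_cast
    simp
    ring
  obtain ⟨β, hβdef⟩ : ∃ β : G → ℂ, β = τ (χ - (a : ℤ) • χ₁) := ⟨_, rfl⟩
  have hβgen : Cfsg.IsGeneralizedCharacter G β := by
    rw [hβdef]; exact hS.isometry.2.2.2 _ hmemβ
  have hτ₁gen : ∀ φ ∈ S₁, Cfsg.IsGeneralizedCharacter G (τ₁ φ) :=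
    fun φ hφ => hτ₁.2.2.2 _ (hz1 φ hφ)
  have hτ₁in : ∀ φ ∈ S₁, ∀ ψ ∈ S₁, Cfsg.classInner (τ₁ φ) (τ₁ ψ) = Cfsg.classInner φ ψ :=
    fun φ hφ ψ hψ => hτ₁.2.2.1 _ (hz1 φ hφ) _ (hz1 ψ hψ)
  have hxex : ∀ φ ∈ S₁, ∃ x : ℤ, Cfsg.classInner β (τ₁ φ) = (x : ℂ) :=
    fun φ hφ => gen_classInner_int hβgen (hτ₁gen φ hφ)
  choose! x hx using hxex
  have hβnorm : Cfsg.classInner β β = (n χ : ℂ) + (a : ℂ) ^ 2 * (n χ₁ : ℂ) := by
    rw [hβdef, hS.isometry.2.2.1 _ hmemβ _ hmemβ]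
    simp only [classInner_sub_left, classInner_sub_right, classInner_zsmul_left,
      classInner_zsmul_right]
    rw [hn χ hχ, hn χ₁ hχ₁S', horthχ χ₁ hχ₁S, horthχ' χ₁ hχ₁S]
    push_cast
    ring
  -- the relation between the coefficients
  have hrel : ∀ φ ∈ S₁, (d χ₁ : ℤ) * x φ = (d φ : ℤ) * (x χ₁ + a * n χ₁) -
      (if φ = χ₁ then (a : ℤ) * d χ₁ * n χ₁ else 0) := by
    intro φ hφ
    have hφS := hS₁' φ hφ
    have m1 : (d χ₁ : ℤ) • φ ∈ Cfsg.zspan (↑S₁ : Set (L → ℂ)) := zspan_zsmul _ (hz1 φ hφ)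
    have m2 : (d φ : ℤ) • χ₁ ∈ Cfsg.zspan (↑S₁ : Set (L → ℂ)) := zspan_zsmul _ (hz1 χ₁ hχ₁S)
    have hθ1 : ((d χ₁ : ℤ) • φ - (d φ : ℤ) • χ₁) ∈ Cfsg.zspanOn (↑S₁ : Set (L → ℂ)) {1}ᶜ := by
      refine ⟨zspan_sub m1 m2, ?_⟩
      intro y hy
      have hy1 : y = 1 := by simpa using hy
      rw [hy1, Pi.sub_apply, Pi.smul_apply, Pi.smul_apply, hd φ hφS, hd χ₁ hχ₁S']
      simp
      ring
    have hθ2 : ((d χ₁ : ℤ) • φ - (d φ : ℤ) • χ₁) ∈ Cfsg.zspanOn S {1}ᶜ :=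
      ⟨zspan_mono hS₁ hθ1.1, hθ1.2⟩
    have e1 : τ₁ ((d χ₁ : ℤ) • φ - (d φ : ℤ) • χ₁) =
        (d χ₁ : ℤ) • τ₁ φ - (d φ : ℤ) • τ₁ χ₁ := by
      rw [iso_sub hτ₁ m1 m2 (zspan_neg m2), hτ₁.2.1 _ (hz1 φ hφ), hτ₁.2.1 _ (hz1 χ₁ hχ₁S)]
    have e2 : Cfsg.classInner β (τ₁ ((d χ₁ : ℤ) • φ - (d φ : ℤ) • χ₁)) =
        (d χ₁ : ℂ) * x φ - (d φ : ℂ) * x χ₁ := by
      rw [e1, classInner_sub_right, classInner_zsmul_right, classInner_zsmul_right, hx φ hφ,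
        hx χ₁ hχ₁S]
      push_cast
      ring
    have e3 : Cfsg.classInner β (τ₁ ((d χ₁ : ℤ) • φ - (d φ : ℤ) • χ₁)) =
        (a : ℂ) * d φ * n χ₁ - (a : ℂ) * d χ₁ * Cfsg.classInner χ₁ φ := by
      rw [hag _ hθ1, hβdef, hS.isometry.2.2.1 _ hmemβ _ hθ2]
      simp only [classInner_sub_left, classInner_sub_right, classInner_zsmul_left,
        classInner_zsmul_right]
      rw [horthχ φ hφ, horthχ χ₁ hχ₁S, hn χ₁ hχ₁S']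
      push_cast
      ring
    have e4 := e2.symm.trans e3
    by_cases hφ1 : φ = χ₁
    · rw [if_pos hφ1]
      rw [hφ1, hn χ₁ hχ₁S'] at e4
      rw [hφ1]
      have e5 : (((d χ₁ : ℤ) * x χ₁ : ℤ) : ℂ) = (((d χ₁ : ℤ) * (x χ₁ + a * n χ₁) -
          (a : ℤ) * d χ₁ * n χ₁ : ℤ) : ℂ) := by
        push_cast
        ring
      exact_mod_cast e5
    · rw [if_neg hφ1]
      rw [hS.orthogonal χ₁ hχ₁S' φ hφS (Ne.symm hφ1)] at e4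
      have e5 : (((d χ₁ : ℤ) * x φ : ℤ) : ℂ) = (((d φ : ℤ) * (x χ₁ + a * n χ₁) - 0 : ℤ) : ℂ) := by
        push_cast
        linear_combination e4
      exact_mod_cast e5
  -- images under τ₁ are orthogonal to R χ
  have hτ₁R : ∀ φ ∈ S₁, ∀ α ∈ R χ, Cfsg.classInner (τ₁ φ) α = 0 :=
    fun φ hφ α hα => tau1_orth hS hS₁ hτ₁ hag (Finset.mem_coe.mpr hφ)
      (Finset.mem_coe.mpr (hS₁c φ hφ)) hχ (hne1 φ hφ) (hne2 φ hφ) hα
  have hzex : ∀ α ∈ R χ, ∃ z : ℤ, Cfsg.classInner β α = (z : ℂ) :=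
    fun α hα => gen_classInner_int hβgen (hS.virtual χ hχ α hα)
  choose! z hz using hzex
  have hβτ : Cfsg.classInner β (τ (χ - Cfsg.conjFun χ)) = (n χ : ℂ) := by
    rw [hβdef, hS.isometry.2.2.1 _ hmemβ _ (sys_sub_conj_mem hS hχ)]
    simp only [classInner_sub_left, classInner_sub_right, classInner_zsmul_left]
    rw [hn χ hχ, sys_orth_conj hS hχ, horthχ' χ₁ hχ₁S, horthχc' χ₁ hχ₁S]
    ring
  have hsumz : ∑ α ∈ R χ, z α = (n χ : ℤ) := by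
    have e : ((∑ α ∈ R χ, z α : ℤ) : ℂ) = ((n χ : ℤ) : ℂ) := by
      push_cast
      rw [← Finset.sum_congr rfl (fun α hα => hz α hα), sys_sum_coeff hS hχ, hβτ]
    exact_mod_cast e
  -- the orthogonal projection and the inequality
  have hstar : ∑ φ ∈ S₁, ((x φ : ℝ) ^ 2 / (n φ : ℝ)) ≤ (a : ℝ) ^ 2 * n χ₁ := by
    have hΓnorm := bessel_weighted S₁ β τ₁ x n (fun φ hφ => hx φ hφ)
      (fun φ hφ => by rw [hτ₁in φ hφ φ hφ, hn φ (hS₁' φ hφ)])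
      (fun φ hφ => hn0 φ (hS₁' φ hφ))
      (fun φ hφ ψ hψ hne => by
        rw [hτ₁in φ hφ ψ hψ, hS.orthogonal φ (hS₁' φ hφ) ψ (hS₁' ψ hψ) hne])
    have hΓz : ∀ α ∈ R χ, Cfsg.classInner
        (β - ∑ φ ∈ S₁, ((x φ : ℂ) / (n φ : ℂ)) • τ₁ φ) (id α) = (z α : ℂ) := by
      intro α hα
      rw [id, classInner_sub_left, hz α hα, classInner_sum_left, Finset.sum_eq_zero, sub_zero]
      intro φ hφ
      rw [classInner_smul_left, hτ₁R φ hφ α hα, mul_zero]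
    have hbl := bessel_le (R χ) (β - ∑ φ ∈ S₁, ((x φ : ℂ) / (n φ : ℂ)) • τ₁ φ) id z hΓz
      (fun α hα => by rw [id, hS.orthonormal χ hχ α hα α hα, if_pos rfl])
      (fun α hα α' hα' hne => by
        simp only [id]; rw [hS.orthonormal χ hχ α hα α' hα', if_neg hne])
    rw [hΓnorm, hβnorm] at hbl
    have hcast : (∑ φ ∈ S₁, ((x φ : ℂ) ^ 2 / (n φ : ℂ))) =
        ((∑ φ ∈ S₁, ((x φ : ℝ) ^ 2 / (n φ : ℝ)) : ℝ) : ℂ) := by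
      push_cast; rfl
    have hcast2 : (n χ : ℂ) + (a : ℂ) ^ 2 * (n χ₁ : ℂ) =
        (((n χ : ℝ) + (a : ℝ) ^ 2 * (n χ₁ : ℝ) : ℝ) : ℂ) := by
      push_cast; rfl
    rw [hcast, hcast2, ← Complex.ofReal_sub, Complex.ofReal_re] at hbl
    have h1 : (n χ : ℝ) ≤ ((∑ α ∈ R χ, z α ^ 2 : ℤ) : ℝ) := by
      have := sum_le_sum_sq (R χ) z
      rw [hsumz] at this
      exact_mod_cast this
    linarith
  obtain ⟨e, hedef⟩ : ∃ e : ℤ, e = x χ₁ + a * n χ₁ := ⟨_, rfl⟩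
  have hD : (e : ℝ) ^ 2 * ∑ φ ∈ S₁, ((d φ : ℝ) ^ 2 / (n φ : ℝ)) ≤
      2 * a * (d χ₁ : ℝ) ^ 2 * e := by
    have h1 : ∀ φ ∈ S₁, (d χ₁ : ℝ) ^ 2 * ((x φ : ℝ) ^ 2 / (n φ : ℝ)) =
        (e : ℝ) ^ 2 * ((d φ : ℝ) ^ 2 / (n φ : ℝ)) -
          (if φ = χ₁ then 2 * (a : ℝ) * (d χ₁ : ℝ) ^ 2 * e -
            (a : ℝ) ^ 2 * (d χ₁ : ℝ) ^ 2 * n χ₁ else 0) := by
      intro φ hφ
      have hr := hrel φ hφ
      rw [← hedef] at hr
      have hnφ : (n φ : ℝ) ≠ 0 := by exact_mod_cast hn0 φ (hS₁' φ hφ)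
      by_cases hφ1 : φ = χ₁
      · rw [if_pos hφ1] at hr ⊢
        have hr' : (d χ₁ : ℝ) * x φ = (d φ : ℝ) * e - (a : ℝ) * d χ₁ * n χ₁ := by
          exact_mod_cast hr
        have hsq : (d χ₁ : ℝ) ^ 2 * (x φ : ℝ) ^ 2 =
            ((d φ : ℝ) * e - (a : ℝ) * d χ₁ * n χ₁) ^ 2 := by
          rw [← hr']; ring
        rw [hφ1] at hsq hnφ ⊢
        field_simp
        linear_combination hsq
      · rw [if_neg hφ1] at hr ⊢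
        have hr' : (d χ₁ : ℝ) * x φ = (d φ : ℝ) * e := by
          have : (d χ₁ : ℤ) * x φ = (d φ : ℤ) * e := by rw [hr]; ring
          exact_mod_cast this
        have hsq : (d χ₁ : ℝ) ^ 2 * (x φ : ℝ) ^ 2 = ((d φ : ℝ) * e) ^ 2 := by
          rw [← hr']; ring
        rw [sub_zero]
        field_simp
        linear_combination hsq
    have h2 : (d χ₁ : ℝ) ^ 2 * ∑ φ ∈ S₁, ((x φ : ℝ) ^ 2 / (n φ : ℝ)) =
        (e : ℝ) ^ 2 * ∑ φ ∈ S₁, ((d φ : ℝ) ^ 2 / (n φ : ℝ)) -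
          (2 * (a : ℝ) * (d χ₁ : ℝ) ^ 2 * e - (a : ℝ) ^ 2 * (d χ₁ : ℝ) ^ 2 * n χ₁) := by
      rw [Finset.mul_sum, Finset.sum_congr rfl h1, Finset.sum_sub_distrib, ← Finset.mul_sum,
        Finset.sum_ite_eq' S₁ χ₁, if_pos hχ₁S]
    have h3 : (d χ₁ : ℝ) ^ 2 * ∑ φ ∈ S₁, ((x φ : ℝ) ^ 2 / (n φ : ℝ)) ≤
        (d χ₁ : ℝ) ^ 2 * ((a : ℝ) ^ 2 * n χ₁) :=
      mul_le_mul_of_nonneg_left hstar (sq_nonneg _)
    linarith
  have he : e = 0 := by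
    by_contra hne
    have h1 : (e : ℝ) ≤ (e : ℝ) ^ 2 := by exact_mod_cast int_le_sq e
    have hne' : (e : ℝ) ≠ 0 := by exact_mod_cast hne
    have h2 : 0 < (e : ℝ) ^ 2 := by positivity
    have h3 : (2 * (a : ℝ) * (d χ₁ : ℝ) ^ 2) < ∑ φ ∈ S₁, ((d φ : ℝ) ^ 2 / (n φ : ℝ)) := by
      have : (2 * d χ * d χ₁ : ℝ) = 2 * (a : ℝ) * (d χ₁ : ℝ) ^ 2 := by
        rw [ha]; push_cast; ring
      rw [← this]; exact hineq
    have h4 : 0 ≤ 2 * (a : ℝ) * (d χ₁ : ℝ) ^ 2 := by positivity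
    have h5 := mul_le_mul_of_nonneg_left h1 h4
    have h6 := mul_lt_mul_of_pos_left h3 h2
    linarith
  have hx1 : x χ₁ = -((a : ℤ) * n χ₁) := by
    rw [he] at hedef; linarith
  have hxφ : ∀ φ ∈ S₁, φ ≠ χ₁ → x φ = 0 := by
    intro φ hφ hφ1
    have hr := hrel φ hφ
    rw [if_neg hφ1, ← hedef, he, mul_zero, sub_zero] at hr
    rcases mul_eq_zero.mp hr with h | h
    · exact absurd (by exact_mod_cast h) (hd0 χ₁ hχ₁S')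
    · exact h
  -- the image of χ
  obtain ⟨Γ, hΓdef⟩ : ∃ Γ : G → ℂ, Γ = β + (a : ℤ) • τ₁ χ₁ := ⟨_, rfl⟩
  have hΓgen : Cfsg.IsGeneralizedCharacter G Γ := by
    rw [hΓdef]; exact isGen_add hβgen (isGen_zsmul (hτ₁gen χ₁ hχ₁S) _)
  have hΓφ : ∀ φ ∈ S₁, Cfsg.classInner Γ (τ₁ φ) = 0 := by
    intro φ hφ
    rw [hΓdef, classInner_add_left, classInner_zsmul_left, hx φ hφ, hτ₁in χ₁ hχ₁S φ hφ]
    by_cases hφ1 : φ = χ₁
    · rw [hφ1, hx1, hn χ₁ hχ₁S']; push_cast; ring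
    · rw [hxφ φ hφ hφ1, hS.orthogonal χ₁ hχ₁S' φ (hS₁' φ hφ) (Ne.symm hφ1)]; simp
  have hτχ : τ (χ - Cfsg.conjFun χ) = ∑ α ∈ R χ, α := hS.sum_eq χ hχ
  have hΓτ : Cfsg.classInner Γ (τ (χ - Cfsg.conjFun χ)) = (n χ : ℂ) := by
    rw [hΓdef, classInner_add_left, classInner_zsmul_left, hβτ]
    have h2 : Cfsg.classInner (τ₁ χ₁) (τ (χ - Cfsg.conjFun χ)) = 0 := by
      rw [hτχ, classInner_sum_right]
      exact Finset.sum_eq_zero (fun α hα => hτ₁R χ₁ hχ₁S α hα)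
    rw [h2]; ring
  have hτΓ : Cfsg.classInner (τ (χ - Cfsg.conjFun χ)) Γ = (n χ : ℂ) := by
    rw [← classInner_conj_symm, hΓτ, map_natCast]
  have hΓnorm : Cfsg.classInner Γ Γ = (n χ : ℂ) := by
    have h1 : Cfsg.classInner Γ Γ = Cfsg.classInner Γ β + (a : ℂ) * Cfsg.classInner Γ (τ₁ χ₁) := by
      conv_lhs => rw [hΓdef, classInner_add_right, classInner_zsmul_right, ← hΓdef]
      rw [Int.cast_natCast]
    rw [h1, hΓφ χ₁ hχ₁S, mul_zero, add_zero, hΓdef, classInner_add_left, classInner_zsmul_left,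
      hβnorm, ← classInner_conj_symm β (τ₁ χ₁), hx χ₁ hχ₁S, hx1]
    push_cast
    simp
    ring
  have hττ : Cfsg.classInner (τ (χ - Cfsg.conjFun χ)) (τ (χ - Cfsg.conjFun χ)) =
      2 * (n χ : ℂ) := by
    rw [hS.isometry.2.2.1 _ (sys_sub_conj_mem hS hχ) _ (sys_sub_conj_mem hS hχ),
      classInner_sub_left, classInner_sub_right, classInner_sub_right, hn χ hχ,
      sys_orth_conj hS hχ, sys_orth_conj' hS hχ, sys_norm_conj hS hχ, hn χ hχ]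
    ring
  have hτφ : ∀ φ ∈ S₁, Cfsg.classInner (τ (χ - Cfsg.conjFun χ)) (τ₁ φ) = 0 := by
    intro φ hφ
    rw [← classInner_conj_symm, hτχ, classInner_sum_right,
      Finset.sum_eq_zero (fun α hα => hτ₁R φ hφ α hα), map_zero]
  -- the extension
  obtain ⟨T, hTdef⟩ : ∃ T : Finset (L → ℂ), T = insert χ (insert (Cfsg.conjFun χ) S₁) :=
    ⟨_, rfl⟩
  have hTcoe : (↑T : Set (L → ℂ)) = ↑S₁ ∪ {χ, Cfsg.conjFun χ} := by
    rw [hTdef]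
    ext ξ
    simp only [Finset.coe_insert, Set.mem_insert_iff, Finset.mem_coe, Set.mem_union,
      Set.mem_singleton_iff]
    tauto
  have hcases : ∀ ζ ∈ T, ζ = χ ∨ ζ = Cfsg.conjFun χ ∨ ζ ∈ S₁ := by
    intro ζ hζ
    rw [hTdef] at hζ
    rcases Finset.mem_insert.mp hζ with h | h
    · exact Or.inl h
    · rcases Finset.mem_insert.mp h with h | h
      · exact Or.inr (Or.inl h)
      · exact Or.inr (Or.inr h)
  have hTχ : χ ∈ T := by rw [hTdef]; exact Finset.mem_insert_self _ _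
  have hTχc : Cfsg.conjFun χ ∈ T := by
    rw [hTdef]; exact Finset.mem_insert_of_mem (Finset.mem_insert_self _ _)
  have hTφ : ∀ φ ∈ S₁, φ ∈ T := by
    intro φ hφ
    rw [hTdef]; exact Finset.mem_insert_of_mem (Finset.mem_insert_of_mem hφ)
  have hTS : ∀ ξ ∈ T, ξ ∈ S := by
    intro ξ hξ
    rcases hcases ξ hξ with h | h | h
    · rw [h]; exact hχ
    · rw [h]; exact hχc
    · exact hS₁' ξ h
  have horthT : ∀ ξ ∈ T, ∀ η ∈ T, ξ ≠ η → Cfsg.classInner ξ η = 0 :=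
    fun ξ hξ η hη h => hS.orthogonal ξ (hTS ξ hξ) η (hTS η hη) h
  have hneT : ∀ ξ ∈ T, Cfsg.classInner ξ ξ ≠ 0 := fun ξ hξ => sys_norm_ne hS (hTS ξ hξ)
  obtain ⟨ρ, hρχ, hρχc, hρφ⟩ : ∃ ρ : (L → ℂ) → (G → ℂ), ρ χ = Γ ∧
      ρ (Cfsg.conjFun χ) = Γ - τ (χ - Cfsg.conjFun χ) ∧ ∀ φ ∈ S₁, ρ φ = τ₁ φ := by
    refine ⟨fun ξ => if ξ = χ then Γ else if ξ = Cfsg.conjFun χ then
      Γ - τ (χ - Cfsg.conjFun χ) else τ₁ ξ, ?_, ?_, ?_⟩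
    · simp
    · have := hS.conj_ne χ hχ
      simp [this]
    · intro φ hφ
      simp [hne1 φ hφ, hne2 φ hφ]
  have hsymm : ∀ ξ η, Cfsg.classInner (ρ ξ) (ρ η) = Cfsg.classInner ξ η →
      Cfsg.classInner (ρ η) (ρ ξ) = Cfsg.classInner η ξ := by
    intro ξ η h
    rw [← classInner_conj_symm, h, classInner_conj_symm]
  have c1 : Cfsg.classInner (ρ χ) (ρ χ) = Cfsg.classInner χ χ := by
    rw [hρχ, hΓnorm, hn χ hχ]
  have c2 : Cfsg.classInner (ρ χ) (ρ (Cfsg.conjFun χ)) = Cfsg.classInner χ (Cfsg.conjFun χ) := by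
    rw [hρχ, hρχc, classInner_sub_right, hΓnorm, hΓτ, sys_orth_conj hS hχ, sub_self]
  have c3 : Cfsg.classInner (ρ (Cfsg.conjFun χ)) (ρ (Cfsg.conjFun χ)) =
      Cfsg.classInner (Cfsg.conjFun χ) (Cfsg.conjFun χ) := by
    rw [hρχc, classInner_sub_left, classInner_sub_right, classInner_sub_right, hΓnorm, hΓτ,
      hτΓ, hττ, sys_norm_conj hS hχ, hn χ hχ]
    ring
  have c4 : ∀ φ ∈ S₁, Cfsg.classInner (ρ χ) (ρ φ) = Cfsg.classInner χ φ := by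
    intro φ hφ
    rw [hρχ, hρφ φ hφ, hΓφ φ hφ, horthχ φ hφ]
  have c5 : ∀ φ ∈ S₁, Cfsg.classInner (ρ (Cfsg.conjFun χ)) (ρ φ) =
      Cfsg.classInner (Cfsg.conjFun χ) φ := by
    intro φ hφ
    rw [hρχc, hρφ φ hφ, classInner_sub_left, hΓφ φ hφ, hτφ φ hφ, sub_zero]
    exact (hS.orthogonal _ hχc φ (hS₁' φ hφ) (Ne.symm (hne2 φ hφ))).symm
  have c6 : ∀ φ ∈ S₁, ∀ ψ ∈ S₁, Cfsg.classInner (ρ φ) (ρ ψ) = Cfsg.classInner φ ψ := by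
    intro φ hφ ψ hψ
    rw [hρφ φ hφ, hρφ ψ hψ, hτ₁in φ hφ ψ hψ]
  have hρinner : ∀ ξ ∈ T, ∀ η ∈ T, Cfsg.classInner (ρ ξ) (ρ η) = Cfsg.classInner ξ η := by
    intro ξ hξ η hη
    rcases hcases ξ hξ with h1 | h1 | h1 <;> rcases hcases η hη with h2 | h2 | h2
    · rw [h1, h2]; exact c1
    · rw [h1, h2]; exact c2
    · rw [h1]; exact c4 η h2
    · rw [h1, h2]; exact hsymm _ _ c2
    · rw [h1, h2]; exact c3
    · rw [h1]; exact c5 η h2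
    · rw [h2]; exact hsymm _ _ (c4 ξ h1)
    · rw [h2]; exact hsymm _ _ (c5 ξ h1)
    · exact c6 ξ h1 η h2
  have hρgen : ∀ ξ ∈ T, Cfsg.IsGeneralizedCharacter G (ρ ξ) := by
    intro ξ hξ
    rcases hcases ξ hξ with h1 | h1 | h1
    · rw [h1, hρχ]; exact hΓgen
    · rw [h1, hρχc]
      exact isGen_sub hΓgen (hS.isometry.2.2.2 _ (sys_sub_conj_mem hS hχ))
    · rw [hρφ ξ h1]; exact hτ₁gen ξ h1
  have hχU : χ ∈ (↑S₁ ∪ {χ, Cfsg.conjFun χ} : Set (L → ℂ)) := by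
    right; left; rfl
  have hχcU : Cfsg.conjFun χ ∈ (↑S₁ ∪ {χ, Cfsg.conjFun χ} : Set (L → ℂ)) := by
    right; right; rfl
  refine ⟨⟨χ - Cfsg.conjFun χ, ⟨zspan_sub (zspan_of_mem hχU) (zspan_of_mem hχcU),
    (sys_sub_conj_mem hS hχ).2⟩, sub_ne_zero.mpr (hS.conj_ne χ hχ).symm⟩, oext T ρ, ?_, ?_⟩
  · rw [← hTcoe]; exact oext_isometry horthT hneT ρ hρinner hρgen
  · have hall : ∀ θ ∈ Cfsg.zspan (↑S₁ ∪ {χ, Cfsg.conjFun χ} : Set (L → ℂ)),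
        ∃ σ ∈ Cfsg.zspan (↑S₁ : Set (L → ℂ)), ∃ m m' : ℤ,
          θ = σ + m • χ + m' • Cfsg.conjFun χ ∧
          oext T ρ θ = τ₁ σ + m • Γ + m' • (Γ - τ (χ - Cfsg.conjFun χ)) := by
      intro θ hθ
      induction hθ using Submodule.span_induction with
      | mem y hy =>
        rcases hy with hy | hy | hy
        · have hy' : y ∈ S₁ := Finset.mem_coe.mp hy
          refine ⟨y, zspan_of_mem hy, 0, 0, by simp, ?_⟩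
          rw [oext_of_mem horthT hneT ρ (hTφ y hy'), hρφ y hy']; simp
        · rw [hy]
          refine ⟨0, zspan_zero, 1, 0, by simp, ?_⟩
          rw [oext_of_mem horthT hneT ρ hTχ, hρχ, iso_zero hτ₁]; simp
        · rw [Set.mem_singleton_iff.mp hy]
          refine ⟨0, zspan_zero, 0, 1, by simp, ?_⟩
          rw [oext_of_mem horthT hneT ρ hTχc, hρχc, iso_zero hτ₁]; simp
      | zero =>
        exact ⟨0, zspan_zero, 0, 0, by simp, by rw [oext_zero, iso_zero hτ₁]; simp⟩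
      | add y y' _ _ hy hy' =>
        obtain ⟨σ, hσ, m, m', e1, e2⟩ := hy
        obtain ⟨σ', hσ', k, k', e1', e2'⟩ := hy'
        refine ⟨σ + σ', zspan_add hσ hσ', m + k, m' + k', ?_, ?_⟩
        · rw [e1, e1', add_smul, add_smul]; abel
        · rw [oext_add, e2, e2', hτ₁.1 σ hσ σ' hσ', add_smul, add_smul]; abel
      | smul c y _ hy =>
        obtain ⟨σ, hσ, m, m', e1, e2⟩ := hy
        refine ⟨c • σ, zspan_zsmul c hσ, c * m, c * m', ?_, ?_⟩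
        · rw [e1, smul_add, smul_add, mul_smul, mul_smul]
        · rw [oext_zsmul, e2, hτ₁.2.1 σ hσ c, smul_add, smul_add, mul_smul, mul_smul]
    intro θ hθ
    obtain ⟨σ, hσ, m, m', e1, e2⟩ := hall θ hθ.1
    have hθ1 := hθ.2 1 (by simp)
    have hχ₁z : χ₁ ∈ Cfsg.zspan (↑S₁ : Set (L → ℂ)) := hz1 χ₁ hχ₁S
    have hσ'mem : σ + ((m + m') * (a : ℤ)) • χ₁ ∈ Cfsg.zspanOn (↑S₁ : Set (L → ℂ)) {1}ᶜ := by
      refine ⟨zspan_add hσ (zspan_zsmul _ hχ₁z), ?_⟩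
      intro y hy
      have hy1 : y = 1 := by simpa using hy
      rw [hy1]
      have h1 : θ 1 = σ 1 + (m : ℂ) * (d χ : ℂ) + (m' : ℂ) * (d χ : ℂ) := by
        rw [e1]
        simp [hd χ hχ, conjFun_one_nat (hd χ hχ)]
      rw [hθ1, ha] at h1
      rw [Pi.add_apply, Pi.smul_apply, hd χ₁ hχ₁S', zsmul_eq_mul]
      push_cast at h1 ⊢
      linear_combination -h1
    have hσ'S : σ + ((m + m') * (a : ℤ)) • χ₁ ∈ Cfsg.zspanOn S {1}ᶜ :=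
      ⟨zspan_mono hS₁ hσ'mem.1, hσ'mem.2⟩
    have hθdec : θ = (σ + ((m + m') * (a : ℤ)) • χ₁) +
        ((m + m') • (χ - (a : ℤ) • χ₁) + (-m') • (χ - Cfsg.conjFun χ)) := by
      rw [e1]
      simp only [smul_sub, add_smul, mul_smul, neg_smul]
      abel
    have hm1 : (m + m') • (χ - (a : ℤ) • χ₁) ∈ Cfsg.zspanOn S {1}ᶜ := zspanOn_zsmul _ hmemβ
    have hm2 : (-m') • (χ - Cfsg.conjFun χ) ∈ Cfsg.zspanOn S {1}ᶜ :=
      zspanOn_zsmul _ (sys_sub_conj_mem hS hχ)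
    have hτθ : τ θ = τ₁ σ + ((m + m') * (a : ℤ)) • τ₁ χ₁ + ((m + m') • β +
        (-m') • τ (χ - Cfsg.conjFun χ)) := by
      rw [hθdec, hS.isometry.1 _ hσ'S _ (zspanOn_add hm1 hm2), hS.isometry.1 _ hm1 _ hm2,
        hS.isometry.2.1 _ hmemβ, hS.isometry.2.1 _ (sys_sub_conj_mem hS hχ), ← hag _ hσ'mem,
        hτ₁.1 σ hσ _ (zspan_zsmul _ hχ₁z), hτ₁.2.1 _ hχ₁z, ← hβdef]
    rw [e2, hτθ, hΓdef]
    simp only [smul_sub, smul_add, add_smul, mul_smul, neg_smul]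
    abel

end Cfsg.Agent.S1516
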