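import Cfsg.Statements.S1517
import Cfsg.Agent.Lib.Helper10.Coh3

set_option autoImplicit false
open Cfsg

namespace Cfsg.Agent.S1517

open Cfsg.Agent.Lib.Helper1 Cfsg.Agent.Lib.Helper10.Virt Cfsg.Agent.Lib.Helper10.Coh
open Cfsg.Agent.Lib.Helper10.Coh2 Cfsg.Agent.Lib.Helper10.Coh3
open scoped ComplexConjugate

section aux

variable {L : Type*} [Group L] [Fintype L] {G : Type*} [Group G] [Fintype G]
  {S : Set (L → ℂ)} {τ : (L → ℂ) → (G → ℂ)} {R : (L → ℂ) → Finset (G → ℂ)}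

theorem sub_mem (hdeg : ∀ φ ∈ S, ∀ ψ ∈ S, φ 1 = ψ 1) {χ φ : L → ℂ} (hχ : χ ∈ S) (hφ : φ ∈ S) :
    χ - φ ∈ Cfsg.zspanOn S {1}ᶜ := by
  refine ⟨zspan_sub (zspan_of_mem hχ) (zspan_of_mem hφ), ?_⟩
  intro x hx
  have hx1 : x = 1 := by simpa using hx
  rw [hx1, Pi.sub_apply, hdeg χ hχ φ hφ, sub_self]

/-- For `χ, φ ∈ S` with `φ ∉ {χ, conj χ}`, `τ (χ - φ)` is a sum of members of `R χ` minus a sum
of members of `R φ`. -/
theorem decomp (hS : Cfsg.IsCoherenceSystem S τ R) (hdeg : ∀ φ ∈ S, ∀ ψ ∈ S, φ 1 = ψ 1)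
    {χ φ : L → ℂ} (hχ : χ ∈ S) (hφ : φ ∈ S) (h1 : φ ≠ χ) (h2 : φ ≠ Cfsg.conjFun χ) {n : ℕ}
    (hn : Cfsg.classInner χ χ = (n : ℂ)) :
    ∃ (B A : Finset (G → ℂ)), B ⊆ R χ ∧ A ⊆ R φ ∧ B.card = n ∧
      τ (χ - φ) = ∑ α ∈ B, α - ∑ α ∈ A, α := by
  classical
  obtain ⟨m, -, hm⟩ := sys_norm hS hφ
  have hmem := sub_mem hdeg hχ hφ
  have hβgen : Cfsg.IsGeneralizedCharacter G (τ (χ - φ)) := hS.isometry.2.2.2 _ hmem
  have hint : ∀ α ∈ R χ ∪ R φ, ∃ z : ℤ, Cfsg.classInner (τ (χ - φ)) α = (z : ℂ) := by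
    intro α hα
    rcases Finset.mem_union.mp hα with h | h
    · exact gen_classInner_int hβgen (hS.virtual χ hχ α h)
    · exact gen_classInner_int hβgen (hS.virtual φ hφ α h)
  choose! z hz using hint
  have hχφ : Cfsg.classInner χ φ = 0 := hS.orthogonal χ hχ φ hφ (Ne.symm h1)
  have hφχ : Cfsg.classInner φ χ = 0 := hS.orthogonal φ hφ χ hχ h1
  have hφχc : Cfsg.classInner φ (Cfsg.conjFun χ) = 0 :=
    hS.orthogonal φ hφ _ (hS.conj_mem χ hχ) h2
  have h2' : χ ≠ Cfsg.conjFun φ := by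
    intro e; apply h2; rw [e, conjFun_conjFun]
  have hχφc : Cfsg.classInner χ (Cfsg.conjFun φ) = 0 :=
    hS.orthogonal χ hχ _ (hS.conj_mem φ hφ) h2'
  have hnorm : Cfsg.classInner (τ (χ - φ)) (τ (χ - φ)) = ((n + m : ℕ) : ℂ) := by
    rw [hS.isometry.2.2.1 _ hmem _ hmem, classInner_sub_left, classInner_sub_right,
      classInner_sub_right, hn, hm, hχφ, hφχ]
    push_cast; ring
  have hsum1 : ∑ α ∈ R χ, z α = (n : ℤ) := by
    have e : ((∑ α ∈ R χ, z α : ℤ) : ℂ) = ((n : ℤ) : ℂ) := by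
      push_cast
      rw [← Finset.sum_congr rfl (fun α hα => hz α (Finset.mem_union_left _ hα)),
        sys_sum_coeff hS hχ, hS.isometry.2.2.1 _ hmem _ (sys_sub_conj_mem hS hχ),
        classInner_sub_left, classInner_sub_right, classInner_sub_right, hn,
        sys_orth_conj hS hχ, hφχ, hφχc]
      ring
    exact_mod_cast e
  have hsum2 : ∑ α ∈ R φ, z α = -(m : ℤ) := by
    have e : ((∑ α ∈ R φ, z α : ℤ) : ℂ) = ((-(m : ℤ) : ℤ) : ℂ) := by
      push_cast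
      rw [← Finset.sum_congr rfl (fun α hα => hz α (Finset.mem_union_right _ hα)),
        sys_sum_coeff hS hφ, hS.isometry.2.2.1 _ hmem _ (sys_sub_conj_mem hS hφ),
        classInner_sub_left, classInner_sub_right, classInner_sub_right, hm,
        sys_orth_conj hS hφ, hχφ, hχφc]
      ring
    exact_mod_cast e
  have horthRR : ∀ α ∈ R φ, ∀ β ∈ R χ, Cfsg.classInner α β = 0 :=
    fun α hα β hβ => sys_R_orth hS hχ hφ h1 h2 hα hβ
  have hdisj : Disjoint (R χ) (R φ) := by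
    rw [Finset.disjoint_left]
    intro α hα hα'
    have e1 := horthRR α hα' α hα
    rw [hS.orthonormal χ hχ α hα α hα, if_pos rfl] at e1
    exact one_ne_zero e1
  have hnorm1 : ∀ i ∈ R χ ∪ R φ, Cfsg.classInner (id i : G → ℂ) (id i) = 1 := by
    intro i hi
    rcases Finset.mem_union.mp hi with h | h
    · rw [id, hS.orthonormal χ hχ i h i h, if_pos rfl]
    · rw [id, hS.orthonormal φ hφ i h i h, if_pos rfl]
  have horth : ∀ i ∈ R χ ∪ R φ, ∀ j ∈ R χ ∪ R φ, i ≠ j →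
      Cfsg.classInner (id i : G → ℂ) (id j) = 0 := by
    intro i hi j hj hij
    simp only [id]
    rcases Finset.mem_union.mp hi with h | h <;> rcases Finset.mem_union.mp hj with h' | h'
    · rw [hS.orthonormal χ hχ i h j h', if_neg hij]
    · exact sys_R_orth' hS hχ hφ h1 h2 h' h
    · exact horthRR i h j h'
    · rw [hS.orthonormal φ hφ i h j h', if_neg hij]
  have hbl := bessel_le (R χ ∪ R φ) (τ (χ - φ)) id z (fun i hi => hz i hi) hnorm1 horth
  rw [hnorm, Finset.sum_union hdisj] at hbl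
  have hb : ∑ α ∈ R χ, z α ^ 2 + ∑ α ∈ R φ, z α ^ 2 ≤ (n : ℤ) + m := by
    have : (((∑ α ∈ R χ, z α ^ 2 + ∑ α ∈ R φ, z α ^ 2 : ℤ)) : ℝ) ≤ (((n : ℤ) + m : ℤ) : ℝ) := by
      simpa using hbl
    exact_mod_cast this
  have hX := sum_le_sum_sq (R χ) z
  have hY := sum_le_sum_sq (R φ) (fun α => - z α)
  simp only [neg_sq, Finset.sum_neg_distrib] at hY
  rw [hsum1] at hX
  rw [hsum2, neg_neg] at hY
  have hXe : ∑ α ∈ R χ, z α ^ 2 = n := by omega
  have hYe : ∑ α ∈ R φ, z α ^ 2 = m := by omega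
  have hz01 : ∀ α ∈ R χ, z α = 0 ∨ z α = 1 :=
    zero_or_one_of_sum_sq_le (R χ) z (by rw [hXe, hsum1])
  have hz01' : ∀ α ∈ R φ, -z α = 0 ∨ -z α = 1 :=
    zero_or_one_of_sum_sq_le (R φ) (fun α => -z α)
      (by simp only [neg_sq, Finset.sum_neg_distrib]; rw [hYe, hsum2, neg_neg])
  have heq := bessel_eq (R χ ∪ R φ) (τ (χ - φ)) id z (fun i hi => hz i hi) hnorm1 horth
    (by rw [hnorm, Finset.sum_union hdisj, hXe, hYe]; push_cast; ring)
  rw [Finset.sum_union hdisj] at heq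
  refine ⟨(R χ).filter (fun α => z α = 1), (R φ).filter (fun α => z α = -1),
    Finset.filter_subset _ _, Finset.filter_subset _ _, ?_, ?_⟩
  · have : ((Finset.filter (fun α => z α = 1) (R χ)).card : ℤ) = ∑ α ∈ R χ, z α := by
      rw [Finset.card_filter]
      push_cast
      refine Finset.sum_congr rfl (fun α hα => ?_)
      rcases hz01 α hα with h | h <;> simp [h]
    rw [hsum1] at this
    exact_mod_cast this
  · rw [heq, Finset.sum_filter, Finset.sum_filter, sub_eq_add_neg, ← Finset.sum_neg_distrib]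
    congr 1
    · refine Finset.sum_congr rfl (fun α hα => ?_)
      rcases hz01 α hα with h | h <;> simp [h]
    · refine Finset.sum_congr rfl (fun α hα => ?_)
      rcases hz01' α hα with h | h
      · have h' : z α = 0 := by omega
        simp [h']
      · have h' : z α = -1 := by omega
        simp [h']

end aux

/-- Let (S, τ, R) be a coherence system from L to G such that φ 1 = ψ 1 for all φ, ψ ∈ S. Then (S, L minus 1, τ) is coherent. -/
theorem result {L : Type*} [Group L] [Fintype L] {G : Type*} [Group G] [Fintype G] (S : Set (L → ℂ)) (τ : (L → ℂ) → (G → ℂ)) (R : (L → ℂ) → Finset (G → ℂ)) (hS : Cfsg.IsCoherenceSystem S τ R) (hdeg : ∀ φ ∈ S, ∀ ψ ∈ S, φ 1 = ψ 1) : Cfsg.IsCoherent S {1}ᶜ τ := by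
  classical
  obtain ⟨χ₁, hχ₁⟩ := hS.nonempty
  obtain ⟨n₁, hn₁0, hn₁⟩ := sys_norm hS hχ₁
  obtain ⟨d, hd0, hd⟩ := sys_degree hS hχ₁
  refine ⟨⟨χ₁ - Cfsg.conjFun χ₁, sys_sub_conj_mem hS hχ₁,
    sub_ne_zero.mpr (hS.conj_ne χ₁ hχ₁).symm⟩, ?_⟩
  have key : ∃ T₁ : G → ℂ, Cfsg.IsGeneralizedCharacter G T₁ ∧
      Cfsg.classInner T₁ T₁ = (n₁ : ℂ) ∧
      ∀ χ ∈ S, χ ≠ χ₁ → Cfsg.classInner (τ (χ - χ₁)) T₁ = -(n₁ : ℂ) := by
    have hcardR := sys_card_R hS hχ₁ hn₁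
    have gen : ∀ B : Finset (G → ℂ), B ⊆ R χ₁ → B.card = n₁ →
        Cfsg.IsGeneralizedCharacter G (∑ α ∈ B, α) ∧
        Cfsg.classInner (∑ α ∈ B, α) (∑ α ∈ B, α) = (n₁ : ℂ) ∧
        Cfsg.classInner (τ (Cfsg.conjFun χ₁ - χ₁)) (∑ α ∈ B, α) = -(n₁ : ℂ) ∧
        (∀ χ ∈ S, χ ≠ χ₁ → χ ≠ Cfsg.conjFun χ₁ → ∀ α ∈ R χ,
          Cfsg.classInner α (∑ β ∈ B, β) = 0) := by
      intro B hB hBc
      refine ⟨?_, ?_, ?_, ?_⟩
      · exact isGen_sum B (fun α => α) (fun α hα => hS.virtual χ₁ hχ₁ α (hB hα))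
      · rw [sys_sum_inner hS hχ₁ hB hB, Finset.inter_self, hBc]
      · have e : Cfsg.conjFun χ₁ - χ₁ = -(χ₁ - Cfsg.conjFun χ₁) := by abel
        rw [e, iso_neg hS.isometry (sys_sub_conj_mem hS hχ₁), classInner_neg_left,
          hS.sum_eq χ₁ hχ₁, sys_sum_inner hS hχ₁ (subset_refl _) hB,
          Finset.inter_eq_right.mpr hB, hBc]
      · intro χ hχ h1 h2 α hα
        rw [classInner_sum_right]
        apply Finset.sum_eq_zero
        intro β hβ
        exact sys_R_orth hS hχ₁ hχ h1 h2 hα (hB hβ)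
    by_cases hcase : ∃ χ₂ ∈ S, χ₂ ≠ χ₁ ∧ χ₂ ≠ Cfsg.conjFun χ₁
    · obtain ⟨χ₂, hχ₂, h21, h22⟩ := hcase
      obtain ⟨B, A₂, hB, hA₂, hBc, hdec⟩ := decomp hS hdeg hχ₁ hχ₂ h21 h22 hn₁
      obtain ⟨g1, g2, g3, g4⟩ := gen B hB hBc
      refine ⟨∑ α ∈ B, α, g1, g2, ?_⟩
      intro χ hχ hχ1
      by_cases hχc : χ = Cfsg.conjFun χ₁
      · rw [hχc]; exact g3
      · have e : χ - χ₁ = -(χ₁ - χ) := by abel
        rw [e, iso_neg hS.isometry (sub_mem hdeg hχ₁ hχ), classInner_neg_left, neg_inj]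
        have hA₂orth : ∀ α ∈ A₂, Cfsg.classInner α (∑ β ∈ B, β) = 0 :=
          fun α hα => g4 χ₂ hχ₂ h21 h22 α (hA₂ hα)
        by_cases hχ2 : χ = χ₂
        · rw [hχ2, hdec, classInner_sub_left, g2, classInner_sum_left,
            Finset.sum_eq_zero hA₂orth, sub_zero]
        · by_cases hχ2c : χ = Cfsg.conjFun χ₂
          · have e2 : χ₁ - χ = (χ₁ - χ₂) + (χ₂ - Cfsg.conjFun χ₂) := by rw [hχ2c]; abel
            rw [e2, hS.isometry.1 _ (sub_mem hdeg hχ₁ hχ₂) _ (sys_sub_conj_mem hS hχ₂),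
              classInner_add_left, hdec, classInner_sub_left, g2, classInner_sum_left,
              Finset.sum_eq_zero hA₂orth, hS.sum_eq χ₂ hχ₂, classInner_sum_left,
              Finset.sum_eq_zero (fun α hα => g4 χ₂ hχ₂ h21 h22 α hα)]
            ring
          · obtain ⟨B', A', hB', hA', -, hdec'⟩ := decomp hS hdeg hχ₁ hχ hχ1 hχc hn₁
            have eB : ∑ α ∈ B, α = τ (χ₁ - χ₂) + ∑ α ∈ A₂, α := by rw [hdec]; abel
            have hz : Cfsg.classInner (τ (χ₁ - χ)) (∑ α ∈ A₂, α) = 0 := by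
              rw [hdec', classInner_sub_left, classInner_sum_left, classInner_sum_left]
              have z1 : ∑ α ∈ B', Cfsg.classInner α (∑ β ∈ A₂, β) = 0 := by
                apply Finset.sum_eq_zero; intro α hα
                rw [classInner_sum_right]; apply Finset.sum_eq_zero; intro β hβ
                exact sys_R_orth' hS hχ₁ hχ₂ h21 h22 (hA₂ hβ) (hB' hα)
              have z2 : ∑ α ∈ A', Cfsg.classInner α (∑ β ∈ A₂, β) = 0 := by
                apply Finset.sum_eq_zero; intro α hα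
                rw [classInner_sum_right]; apply Finset.sum_eq_zero; intro β hβ
                exact sys_R_orth hS hχ₂ hχ hχ2 hχ2c (hA' hα) (hA₂ hβ)
              rw [z1, z2, sub_zero]
            rw [eB, classInner_add_right, hz,
              hS.isometry.2.2.1 _ (sub_mem hdeg hχ₁ hχ) _ (sub_mem hdeg hχ₁ hχ₂),
              classInner_sub_left, classInner_sub_right, classInner_sub_right, hn₁,
              hS.orthogonal χ₁ hχ₁ χ₂ hχ₂ (Ne.symm h21), hS.orthogonal χ hχ χ₁ hχ₁ hχ1,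
              hS.orthogonal χ hχ χ₂ hχ₂ hχ2]
            ring
    · push Not at hcase
      obtain ⟨B, hB, hBc⟩ := Finset.exists_subset_card_eq (s := R χ₁) (n := n₁)
        (by rw [hcardR]; omega)
      obtain ⟨g1, g2, g3, -⟩ := gen B hB hBc
      refine ⟨∑ α ∈ B, α, g1, g2, ?_⟩
      intro χ hχ hχ1
      have := hcase χ hχ hχ1
      rw [this]; exact g3
  obtain ⟨T₁, hT₁gen, hT₁norm, hT₁⟩ := key
  obtain ⟨T, hT⟩ : ∃ T : Finset (L → ℂ), (↑T : Set (L → ℂ)) = S :=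
    ⟨(sys_finite hS).toFinset, by simp⟩
  have hTmem : ∀ ξ, ξ ∈ T ↔ ξ ∈ S := by
    intro ξ; rw [← hT]; exact Finset.mem_coe.symm
  have horth : ∀ ξ ∈ T, ∀ η ∈ T, ξ ≠ η → Cfsg.classInner ξ η = 0 :=
    fun ξ hξ η hη h => hS.orthogonal ξ ((hTmem ξ).mp hξ) η ((hTmem η).mp hη) h
  have hne : ∀ ξ ∈ T, Cfsg.classInner ξ ξ ≠ 0 :=
    fun ξ hξ => sys_norm_ne hS ((hTmem ξ).mp hξ)
  obtain ⟨ρ, hρdef⟩ : ∃ ρ : (L → ℂ) → (G → ℂ), ∀ χ, ρ χ = τ (χ - χ₁) + T₁ :=
    ⟨fun χ => τ (χ - χ₁) + T₁, fun χ => rfl⟩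
  have hρ₁ : ρ χ₁ = T₁ := by rw [hρdef, sub_self, sys_tau_zero hS, zero_add]
  have hT₁' : ∀ χ ∈ S, χ ≠ χ₁ → Cfsg.classInner T₁ (τ (χ - χ₁)) = -(n₁ : ℂ) := by
    intro χ hχ hne'
    rw [← classInner_conj_symm, hT₁ χ hχ hne']; simp
  have hρinner : ∀ ξ ∈ T, ∀ η ∈ T, Cfsg.classInner (ρ ξ) (ρ η) = Cfsg.classInner ξ η := by
    intro ξ hξ η hη
    have hξS := (hTmem ξ).mp hξ
    have hηS := (hTmem η).mp hη
    by_cases h1 : ξ = χ₁
    · by_cases h2 : η = χ₁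
      · rw [h1, h2, hρ₁, hT₁norm, hn₁]
      · rw [h1, hρ₁, hρdef η, classInner_add_right, hT₁' η hηS h2, hT₁norm,
          hS.orthogonal χ₁ hχ₁ η hηS (Ne.symm h2)]
        ring
    · by_cases h2 : η = χ₁
      · rw [h2, hρ₁, hρdef ξ, classInner_add_left, hT₁ ξ hξS h1, hT₁norm,
          hS.orthogonal ξ hξS χ₁ hχ₁ h1]
        ring
      · rw [hρdef ξ, hρdef η, classInner_add_left, classInner_add_right, classInner_add_right,
          hT₁ ξ hξS h1, hT₁' η hηS h2, hT₁norm,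
          hS.isometry.2.2.1 _ (sub_mem hdeg hξS hχ₁) _ (sub_mem hdeg hηS hχ₁),
          classInner_sub_left, classInner_sub_right, classInner_sub_right,
          hS.orthogonal ξ hξS χ₁ hχ₁ h1, hS.orthogonal χ₁ hχ₁ η hηS (Ne.symm h2), hn₁]
        ring
  have hρgen : ∀ ξ ∈ T, Cfsg.IsGeneralizedCharacter G (ρ ξ) := by
    intro ξ hξ
    rw [hρdef]
    exact isGen_add (hS.isometry.2.2.2 _ (sub_mem hdeg ((hTmem ξ).mp hξ) hχ₁)) hT₁gen
  refine ⟨oext T ρ, ?_, ?_⟩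
  · rw [← hT]; exact oext_isometry horth hne ρ hρinner hρgen
  · have hall : ∀ α ∈ Cfsg.zspan S, ∃ m : ℤ, α - m • χ₁ ∈ Cfsg.zspanOn S {1}ᶜ ∧
        oext T ρ α = τ (α - m • χ₁) + m • T₁ := by
      intro α hα
      induction hα using Submodule.span_induction with
      | mem x hx =>
        refine ⟨1, ?_, ?_⟩
        · rw [one_smul]; exact sub_mem hdeg hx hχ₁
        · rw [one_smul, one_smul, oext_of_mem horth hne ρ ((hTmem x).mpr hx), hρdef]
      | zero =>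
        refine ⟨0, ?_, ?_⟩
        · rw [zero_smul, sub_zero]; exact ⟨zspan_zero, fun _ _ => rfl⟩
        · rw [zero_smul, zero_smul, sub_zero, oext_zero, sys_tau_zero hS, add_zero]
      | add x y _ _ hx hy =>
        obtain ⟨m, hm1, hm2⟩ := hx
        obtain ⟨m', hm1', hm2'⟩ := hy
        have e : x + y - (m + m') • χ₁ = (x - m • χ₁) + (y - m' • χ₁) := by
          rw [add_smul]; abel
        refine ⟨m + m', ?_, ?_⟩
        · rw [e]; exact zspanOn_add hm1 hm1'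
        · rw [e, hS.isometry.1 _ hm1 _ hm1', oext_add, hm2, hm2', add_smul]; abel
      | smul a x _ hx =>
        obtain ⟨m, hm1, hm2⟩ := hx
        have e : a • x - (a * m) • χ₁ = a • (x - m • χ₁) := by rw [smul_sub, mul_smul]
        refine ⟨a * m, ?_, ?_⟩
        · rw [e]; exact zspanOn_zsmul a hm1
        · rw [e, hS.isometry.2.1 _ hm1 a, oext_zsmul, hm2, smul_add, mul_smul]
    intro α hα
    obtain ⟨m, hm1, hm2⟩ := hall α hα.1
    have e1 := hm1.2 1 (by simp)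
    have e2 := hα.2 1 (by simp)
    rw [Pi.sub_apply, e2, Pi.smul_apply, hd, zero_sub, neg_eq_zero] at e1
    have hm0 : m = 0 := by
      have h3 : (m : ℂ) * (d : ℂ) = 0 := by simpa using e1
      rcases mul_eq_zero.mp h3 with h | h
      · exact_mod_cast h
      · exact absurd (by exact_mod_cast h) hd0
    rw [hm2, hm0, zero_smul, zero_smul, sub_zero, add_zero]

end Cfsg.Agent.S1517
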