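import Cfsg.Statements.S1525
import Cfsg.Agent.Lib.Helper10.Dade

set_option autoImplicit false
open Cfsg

namespace Cfsg.Agent.S1525

open Cfsg.Agent.Lib.Helper10.Dade
open scoped ComplexConjugate

theorem pointwise (c d : ℂ) : 2 * (d * conj c).re - ‖d‖ ^ 2 ≤ ‖c‖ ^ 2 := by
  rw [Complex.sq_norm, Complex.sq_norm, Complex.normSq_apply, Complex.normSq_apply,
    Complex.mul_re, Complex.conj_re, Complex.conj_im]
  nlinarith [sq_nonneg (c.re - d.re), sq_nonneg (c.im - d.im)]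

/-- Under the Dade hypothesis for (A, L, H), let χ be a class function of G and let ψ be a function on L whose value at each a ∈ A is the average of χ over the coset a·H(a). Then (1/|G|) Σ |χ g|² over the elements g of G conjugate into some coset a·H(a) with a ∈ A is at least (1/|L|) Σ_{a ∈ A ∩ L} |ψ a|². -/
theorem result {G : Type*} [Group G] [Fintype G] (A : Set G) (L : Subgroup G) [Fintype L] (H : G → Subgroup G) (hD : Cfsg.DadeHypothesis A L H) (χ : G → ℂ) (hχ : Cfsg.IsClassFunction G χ) (ψ : L → ℂ) (hψ : ∀ a : L, (a : G) ∈ A → ψ a = (Nat.card (H a) : ℂ)⁻¹ * ∑ᶠ u ∈ (H a : Set G), χ (a * u)) : (Nat.card L : ℝ)⁻¹ * ∑ᶠ a ∈ {a : L | (a : G) ∈ A}, ‖ψ a‖ ^ 2 ≤ (Nat.card G : ℝ)⁻¹ * ∑ᶠ g ∈ {g : G | ∃ a ∈ A, ∃ u ∈ H a, ∃ x : G, x * g * x⁻¹ = a * u}, ‖χ g‖ ^ 2 := by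
  classical
  have hα := avg_isClassFunction A L H hD χ hχ ψ hψ
  have hαA : ∀ x : L, (x : G) ∉ A → (fun a : L => if (a : G) ∈ A then ψ a else 0) x = 0 :=
    fun x hx => if_neg hx
  have h1 := dade_isometry A L H hD _ hα hαA _ hα
  have h2 := dade_adjoint A L H hD _ hα hαA χ ψ hχ hψ
  set α : L → ℂ := fun a : L => if (a : G) ∈ A then ψ a else 0 with hα_def
  set δ : G → ℂ := Cfsg.dadeIsometry A L H α with hδ_def
  have hG : (0 : ℝ) < (Nat.card G : ℝ) := by
    have := Nat.card_pos (α := G)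
    exact_mod_cast this
  have hL : (0 : ℝ) < (Nat.card L : ℝ) := by
    have := Nat.card_pos (α := L)
    exact_mod_cast this
  -- the left-hand side as a sum
  rw [finsum_mem_eq, finsum_mem_eq]
  simp only [Set.mem_ofPred_eq]
  -- `⟨α, α⟩` and `⟨α, ψ⟩` both equal the left-hand side
  have e1 : Cfsg.classInner α α =
      (((Nat.card L : ℝ)⁻¹ * ∑ a : L, if (a : G) ∈ A then ‖ψ a‖ ^ 2 else 0 : ℝ) : ℂ) := by
    unfold Cfsg.classInner
    push_cast
    congr 1
    refine Finset.sum_congr rfl (fun a _ => ?_)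
    by_cases haA : (a : G) ∈ A
    · rw [if_pos haA, hα_def]
      simp only [if_pos haA]
      rw [Complex.mul_conj, Complex.normSq_eq_norm_sq]
    · rw [if_neg haA, hα_def]
      simp only [if_neg haA]
      simp
  have e2 : Cfsg.classInner α ψ = Cfsg.classInner α α := by
    unfold Cfsg.classInner
    congr 1
    refine Finset.sum_congr rfl (fun a _ => ?_)
    by_cases haA : (a : G) ∈ A
    · rw [hα_def]
      simp only [if_pos haA]
    · rw [hα_def]
      simp only [if_neg haA, zero_mul]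
  rw [e1] at h1
  rw [e2, e1] at h2
  set NL : ℝ := (Nat.card L : ℝ)⁻¹ * ∑ a : L, if (a : G) ∈ A then ‖ψ a‖ ^ 2 else 0 with hNL
  -- real forms
  have r1 : NL = (Nat.card G : ℝ)⁻¹ * ∑ g : G, ‖δ g‖ ^ 2 := by
    apply Complex.ofReal_injective
    rw [← h1]
    unfold Cfsg.classInner
    push_cast
    congr 1
    refine Finset.sum_congr rfl (fun g _ => ?_)
    rw [Complex.mul_conj, Complex.normSq_eq_norm_sq]
    push_cast
    rfl
  have r2 : NL = (Nat.card G : ℝ)⁻¹ * ∑ g : G, (δ g * conj (χ g)).re := by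
    have := congrArg Complex.re h2
    rw [Complex.ofReal_re] at this
    rw [← this]
    unfold Cfsg.classInner
    have hc : ((Nat.card G : ℂ)⁻¹) = (((Nat.card G : ℝ)⁻¹ : ℝ) : ℂ) := by push_cast; rfl
    rw [hc, Complex.re_ofReal_mul, Complex.re_sum]
  have hpt : ∀ g : G, 2 * (δ g * conj (χ g)).re - ‖δ g‖ ^ 2 ≤
      if (∃ a ∈ A, ∃ u ∈ H a, ∃ x : G, x * g * x⁻¹ = a * u) then ‖χ g‖ ^ 2 else 0 := by
    intro g
    by_cases hg : ∃ a ∈ A, ∃ u ∈ H a, ∃ x : G, x * g * x⁻¹ = a * u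
    · rw [if_pos hg]
      exact pointwise (χ g) (δ g)
    · rw [if_neg hg]
      have h0 : δ g = 0 := by
        apply dade_apply_zero
        rintro ⟨a, haA, x, u, hu, hx⟩
        exact hg ⟨a, haA, u, hu, x, hx⟩
      rw [h0]
      simp
  have hsum := Finset.sum_le_sum (fun g (_ : g ∈ (Finset.univ : Finset G)) => hpt g)
  rw [Finset.sum_sub_distrib, ← Finset.mul_sum] at hsum
  have q1 : ∑ g : G, ‖δ g‖ ^ 2 = (Nat.card G : ℝ) * NL := by
    rw [r1]; field_simp
  have q2 : ∑ g : G, (δ g * conj (χ g)).re = (Nat.card G : ℝ) * NL := by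
    rw [r2]; field_simp
  rw [q1, q2] at hsum
  rw [le_inv_mul_iff₀ hG]
  linarith

end Cfsg.Agent.S1525
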