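import Cfsg.Statements.S1527

set_option autoImplicit false
open Cfsg

namespace Cfsg.Agent.S1527

theorem card_ne_one (K : Type*) [Group K] [Finite K] : Nat.card {h : K // h ≠ 1} = Nat.card K - 1 := by
  classical
  haveI := Fintype.ofFinite K
  rw [Nat.card_eq_fintype_card, Nat.card_eq_fintype_card, Fintype.card_subtype_compl,
    Fintype.card_subtype_eq]

theorem card_conj_class {G : Type*} [Group G] [Finite G] (H : Subgroup G)
    (hTI : Cfsg.IsTISubset (H : Set G)) :
    Nat.card {g : G // g ≠ 1 ∧ ∃ x : G, x * g * x⁻¹ ∈ H} =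
      (Subgroup.normalizer (H : Set G)).index * (Nat.card H - 1) := by
  rw [← card_ne_one H, Subgroup.index, ← Nat.card_prod]
  symm
  let N := Subgroup.normalizer (H : Set G)
  let f : (G ⧸ N) × {h : H // h ≠ 1} → {g : G // g ≠ 1 ∧ ∃ x : G, x * g * x⁻¹ ∈ H} :=
    fun qh => ⟨qh.1.out * (qh.2.1 : G) * qh.1.out⁻¹, by
      refine ⟨?_, qh.1.out⁻¹, ?_⟩
      · intro h
        have h1 : (qh.2.1 : G) = 1 := by
          have := congrArg (fun t => qh.1.out⁻¹ * t * qh.1.out) h
          simpa [mul_assoc] using this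
        exact qh.2.2 (Subtype.ext h1)
      · have : qh.1.out⁻¹ * (qh.1.out * (qh.2.1 : G) * qh.1.out⁻¹) * qh.1.out⁻¹⁻¹ = (qh.2.1 : G) := by
          group
        rw [this]
        exact qh.2.1.2⟩
  apply Nat.card_eq_of_bijective f
  constructor
  · rintro ⟨q, ⟨h, hh⟩⟩ ⟨q', ⟨h', hh'⟩⟩ heq
    have heq' : q.out * (h : G) * q.out⁻¹ = q'.out * (h' : G) * q'.out⁻¹ := congrArg Subtype.val heq
    have hconj : (q'.out⁻¹ * q.out) * (h : G) * (q'.out⁻¹ * q.out)⁻¹ = (h' : G) := by
      calc (q'.out⁻¹ * q.out) * (h : G) * (q'.out⁻¹ * q.out)⁻¹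
          = q'.out⁻¹ * (q.out * (h : G) * q.out⁻¹) * q'.out := by group
        _ = q'.out⁻¹ * (q'.out * (h' : G) * q'.out⁻¹) * q'.out := by rw [heq']
        _ = (h' : G) := by group
    have hmem : q'.out⁻¹ * q.out ∈ N := by
      by_contra hnot
      have h1 : (h : G) = 1 := hTI _ hnot (h : G) h.2 (by rw [hconj]; exact h'.2)
      exact hh (Subtype.ext h1)
    have hq : q' = q := by
      have : (QuotientGroup.mk q'.out : G ⧸ N) = QuotientGroup.mk q.out := QuotientGroup.eq.mpr hmem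
      simpa using this
    subst hq
    have h2 : (h : G) = (h' : G) := by
      have := congrArg (fun t => q'.out⁻¹ * t * q'.out) heq'
      simpa [mul_assoc] using this
    have h3 : h = h' := Subtype.ext h2
    subst h3
    rfl
  · rintro ⟨g, hg1, x, hx⟩
    let q : G ⧸ N := QuotientGroup.mk x⁻¹
    have hn : x * q.out ∈ N := by
      have h1 : (QuotientGroup.mk q.out : G ⧸ N) = QuotientGroup.mk x⁻¹ := by simp [q]
      have h2 := QuotientGroup.eq.mp h1.symm
      simpa using h2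
    set n := x * q.out with hn_def
    have hn' : n⁻¹ ∈ N := Subgroup.inv_mem _ hn
    have hmem : n⁻¹ * (x * g * x⁻¹) * n ∈ H := by
      have := (Subgroup.mem_set_normalizer_iff.mp hn' (x * g * x⁻¹)).mp hx
      simpa using this
    have hne : (⟨n⁻¹ * (x * g * x⁻¹) * n, hmem⟩ : H) ≠ 1 := by
      intro h
      have h1 : n⁻¹ * (x * g * x⁻¹) * n = 1 := congrArg Subtype.val h
      apply hg1
      have h2 : x * g * x⁻¹ = 1 := by
        have := congrArg (fun t => n * t * n⁻¹) h1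
        simpa [mul_assoc] using this
      have := congrArg (fun t => x⁻¹ * t * x) h2
      simpa [mul_assoc] using this
    refine ⟨(q, ⟨⟨n⁻¹ * (x * g * x⁻¹) * n, hmem⟩, hne⟩), ?_⟩
    apply Subtype.ext
    show q.out * (n⁻¹ * (x * g * x⁻¹) * n) * q.out⁻¹ = g
    rw [hn_def]
    group

theorem result {G : Type*} [Group G] [Finite G] {ι : Type*} [Fintype ι] (H : ι → Subgroup G) (hcop : ∀ i j, i ≠ j → Nat.Coprime (Nat.card (H i)) (Nat.card (H j))) (hTI : ∀ i, Cfsg.IsTISubset (H i : Set G)) (hcover : ∀ g : G, g ≠ 1 → ∃ i, ∃ x : G, x * g * x⁻¹ ∈ H i) : Nat.card G - 1 = ∑ i, (Subgroup.normalizer (H i : Set G)).index * (Nat.card (H i) - 1) := by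
  rw [← card_ne_one G]
  have hsum : ∑ i, (Subgroup.normalizer (H i : Set G)).index * (Nat.card (H i) - 1) =
      Nat.card (Σ i, {g : G // g ≠ 1 ∧ ∃ x : G, x * g * x⁻¹ ∈ H i}) := by
    rw [Nat.card_sigma]
    exact Finset.sum_congr rfl (fun i _ => (card_conj_class (H i) (hTI i)).symm)
  rw [hsum]
  symm
  let f : (Σ i, {g : G // g ≠ 1 ∧ ∃ x : G, x * g * x⁻¹ ∈ H i}) → {g : G // g ≠ 1} :=
    fun s => ⟨s.2.1, s.2.2.1⟩
  apply Nat.card_eq_of_bijective f
  constructor
  · rintro ⟨i, g, hg1, x, hx⟩ ⟨j, g', hg'1, y, hy⟩ heq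
    have hgg : g = g' := congrArg Subtype.val heq
    subst hgg
    have hij : i = j := by
      by_contra hne
      have h1 : orderOf g ∣ Nat.card (H i) := by
        have := (H i).orderOf_dvd_natCard hx
        rwa [show x * g * x⁻¹ = MulAut.conj x g from rfl, MulEquiv.orderOf_eq] at this
      have h2 : orderOf g ∣ Nat.card (H j) := by
        have := (H j).orderOf_dvd_natCard hy
        rwa [show y * g * y⁻¹ = MulAut.conj y g from rfl, MulEquiv.orderOf_eq] at this
      have h3 : orderOf g = 1 := Nat.eq_one_of_dvd_coprimes (hcop i j hne) h1 h2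
      exact hg1 (orderOf_eq_one_iff.mp h3)
    subst hij
    rfl
  · rintro ⟨g, hg⟩
    obtain ⟨i, x, hx⟩ := hcover g hg
    exact ⟨⟨i, g, hg, x, hx⟩, rfl⟩

end Cfsg.Agent.S1527
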