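import Cfsg.Statements.S1531
import Cfsg.Agent.Lib.Helper10.Coh
import Cfsg.Agent.S1529

set_option autoImplicit false
open Cfsg

namespace Cfsg.Agent.S1531

open Cfsg.Agent.Lib.Helper1 Cfsg.Agent.Lib.Helper10.Virt Cfsg.Agent.Lib.Helper10.Coh
open scoped ComplexConjugate

theorem rect {G : Type*} [Group G] [Fintype G] {A A' B B' : G → ℂ}
    (hA : Cfsg.IsIrrCharacter G A) (hA' : Cfsg.IsIrrCharacter G A')
    (hB : Cfsg.IsIrrCharacter G B) (hB' : Cfsg.IsIrrCharacter G B') (hAA : A ≠ A')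
    (hBB : B ≠ B') (p q r t : ℕ) (hp : 0 < p) (ht : 0 < t)
    (h : (p : ℂ) * Cfsg.classInner A B - q * Cfsg.classInner A B' - r * Cfsg.classInner A' B +
      t * Cfsg.classInner A' B' = 0) : A ≠ B := by
  classical
  rw [classInner_irr hA hB, classInner_irr hA hB', classInner_irr hA' hB,
    classInner_irr hA' hB'] at h
  intro e11
  have n12 : ¬ A = B' := fun e => hBB (e11.symm.trans e)
  have n21 : ¬ A' = B := fun e => hAA (e11.trans e.symm)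
  rw [if_pos e11, if_neg n12, if_neg n21] at h
  by_cases e22 : A' = B'
  · rw [if_pos e22] at h
    have h1 : ((p + t : ℕ) : ℂ) = 0 := by push_cast; linear_combination h
    have h2 : p + t = 0 := by exact_mod_cast h1
    omega
  · rw [if_neg e22] at h
    have h1 : ((p : ℕ) : ℂ) = 0 := by linear_combination h
    have h2 : p = 0 := by exact_mod_cast h1
    omega

theorem comb_mem {N : Type*} [Group N] (T : Set (N → ℂ)) (a b : N → ℂ) (ha : a ∈ T)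
    (hb : b ∈ T) (da db : ℕ) (hda : a 1 = da) (hdb : b 1 = db) :
    ((db : ℤ) • a + (-(da : ℤ)) • b) ∈ Cfsg.zspanOn T {1}ᶜ := by
  refine ⟨zspan_add (zspan_zsmul _ (zspan_of_mem ha)) (zspan_zsmul _ (zspan_of_mem hb)), ?_⟩
  intro x hx
  have hx1 : x = 1 := by simpa using hx
  rw [hx1]
  simp only [Pi.add_apply, Pi.smul_apply, hda, hdb]
  simp
  ring

/-- Let N be a subgroup of the finite group G, S a set of irreducible characters of N, and α a linear isometry on the integer combinations of S vanishing at 1 with values virtual characters of G vanishing at 1. Let X, Y ⊆ S be disjoint, each with at least two members, and σ, τ linear isometries on ℤ[X], ℤ[Y] into virtual characters agreeing with α on the members vanishing at 1. Then ⟨σ χ, τ η⟩ = 0 for χ ∈ X, η ∈ Y; and if for some χ₀ ∈ X, η₀ ∈ Y with degrees c = χ₀ 1, e = η₀ 1 one has α (c • η₀ − e • χ₀) = c • τ η₀ − e • σ χ₀, then (X ∪ Y,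 N minus 1, α) is coherent. -/
theorem result {G : Type*} [Group G] [Fintype G] (N : Subgroup G) [Fintype N] (S X Y : Set (N → ℂ)) (hirr : ∀ ξ ∈ S, Cfsg.IsIrrCharacter N ξ) (hXS : X ⊆ S) (hYS : Y ⊆ S) (hXY : Disjoint X Y) (hX2 : ∃ a ∈ X, ∃ b ∈ X, a ≠ b) (hY2 : ∃ a ∈ Y, ∃ b ∈ Y, a ≠ b) (α : (N → ℂ) → (G → ℂ)) (hα : Cfsg.IsLinearIsometryOn (Cfsg.zspanOn S {1}ᶜ) α) (hα1 : ∀ θ ∈ Cfsg.zspanOn S {1}ᶜ, α θ 1 = 0) (σ τ : (N → ℂ) → (G → ℂ)) (hσ : Cfsg.IsLinearIsometryOn (Cfsg.zspan X) σ) (hσα : ∀ θ ∈ Cfsg.zspanOn X {1}ᶜ, σ θ = α θ) (hτ : Cfsg.IsLinearIsometryOn (Cfsg.zspan Y) τ) (hτα : ∀ θ ∈ Cfsg.zspanOn Y {1}ᶜ, τ θ = α θ) : (∀ χ ∈ X, ∀ η ∈ Y, Cfsg.classInner (σ χ) (τ η) = 0) ∧ ((∃ χ₀ ∈ X, ∃ η₀ ∈ Y, α (χ₀ 1 • η₀ - η₀ 1 • χ₀) = χ₀ 1 • τ η₀ - η₀ 1 • σ χ₀) → Cfsg.IsCoherent (X ∪ Y) {1}ᶜ α) := by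
  classical
  have hirrX : ∀ ξ ∈ X, Cfsg.IsIrrCharacter N ξ := fun ξ h => hirr ξ (hXS h)
  have hirrY : ∀ ξ ∈ Y, Cfsg.IsIrrCharacter N ξ := fun ξ h => hirr ξ (hYS h)
  have hXsub : ∀ θ, θ ∈ Cfsg.zspanOn X {1}ᶜ → θ ∈ Cfsg.zspanOn S {1}ᶜ :=
    fun θ h => ⟨zspan_mono hXS h.1, h.2⟩
  have hYsub : ∀ θ, θ ∈ Cfsg.zspanOn Y {1}ᶜ → θ ∈ Cfsg.zspanOn S {1}ᶜ :=
    fun θ h => ⟨zspan_mono hYS h.1, h.2⟩
  have h0X : ∀ θ ∈ Cfsg.zspan X, θ 1 = 0 → σ θ 1 = 0 := by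
    intro θ hθ h1
    have hmem : θ ∈ Cfsg.zspanOn X {1}ᶜ := ⟨hθ, fun x hx => by
      have hx1 : x = 1 := by simpa using hx
      rw [hx1, h1]⟩
    rw [hσα θ hmem]
    exact hα1 θ (hXsub θ hmem)
  have h0Y : ∀ θ ∈ Cfsg.zspan Y, θ 1 = 0 → τ θ 1 = 0 := by
    intro θ hθ h1
    have hmem : θ ∈ Cfsg.zspanOn Y {1}ᶜ := ⟨hθ, fun x hx => by
      have hx1 : x = 1 := by simpa using hx
      rw [hx1, h1]⟩
    rw [hτα θ hmem]
    exact hα1 θ (hYsub θ hmem)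
  obtain ⟨eX, heX, hXi, hXinj⟩ := Cfsg.Agent.S1529.result N X hirrX hX2 σ hσ h0X
  obtain ⟨eY, heY, hYi, hYinj⟩ := Cfsg.Agent.S1529.result N Y hirrY hY2 τ hτ h0Y
  have heX2 : eX * eX = 1 := by rcases heX with h | h <;> rw [h] <;> norm_num
  have heY2 : eY * eY = 1 := by rcases heY with h | h <;> rw [h] <;> norm_num
  have heYc : conj eY = eY := by rcases heY with h | h <;> rw [h] <;> simp
  have part1 : ∀ χ ∈ X, ∀ η ∈ Y, Cfsg.classInner (σ χ) (τ η) = 0 := by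
    intro χ hχ η hη
    obtain ⟨χ', hχ', hne⟩ : ∃ χ' ∈ X, χ' ≠ χ := by
      obtain ⟨a, ha, b, hb, hab⟩ := hX2
      by_cases h : a = χ
      · exact ⟨b, hb, fun h' => hab (h.trans h'.symm)⟩
      · exact ⟨a, ha, h⟩
    obtain ⟨η', hη', hne'⟩ : ∃ η' ∈ Y, η' ≠ η := by
      obtain ⟨a, ha, b, hb, hab⟩ := hY2
      by_cases h : a = η
      · exact ⟨b, hb, fun h' => hab (h.trans h'.symm)⟩
      · exact ⟨a, ha, h⟩
    obtain ⟨c, hc, hχ1⟩ := IsIrrCharacter.degree_pos (hirrX χ hχ)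
    obtain ⟨c', hc', hχ'1⟩ := IsIrrCharacter.degree_pos (hirrX χ' hχ')
    obtain ⟨e, he, hη1⟩ := IsIrrCharacter.degree_pos (hirrY η hη)
    obtain ⟨e', he', hη'1⟩ := IsIrrCharacter.degree_pos (hirrY η' hη')
    have ha := comb_mem X χ χ' hχ hχ' c c' hχ1 hχ'1
    have hb := comb_mem Y η η' hη hη' e e' hη1 hη'1
    have h0 : Cfsg.classInner (α ((c' : ℤ) • χ + (-(c : ℤ)) • χ'))
        (α ((e' : ℤ) • η + (-(e : ℤ)) • η')) = 0 := by
      rw [hα.2.2.1 _ (hXsub _ ha) _ (hYsub _ hb)]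
      have z : ∀ a ∈ X, ∀ b ∈ Y, Cfsg.classInner a b = 0 := fun a ha b hb =>
        classInner_irr_ne (hirrX a ha) (hirrY b hb)
          (fun h => Set.disjoint_left.mp hXY ha (h ▸ hb))
      simp only [classInner_add_left, classInner_add_right, classInner_zsmul_left,
        classInner_zsmul_right, z χ hχ η hη, z χ hχ η' hη', z χ' hχ' η hη, z χ' hχ' η' hη']
      ring
    rw [← hσα _ ha, ← hτα _ hb] at h0
    rw [hσ.1 _ (zspan_zsmul _ (zspan_of_mem hχ)) _ (zspan_zsmul _ (zspan_of_mem hχ')),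
      hσ.2.1 χ (zspan_of_mem hχ), hσ.2.1 χ' (zspan_of_mem hχ'),
      hτ.1 _ (zspan_zsmul _ (zspan_of_mem hη)) _ (zspan_zsmul _ (zspan_of_mem hη')),
      hτ.2.1 η (zspan_of_mem hη), hτ.2.1 η' (zspan_of_mem hη')] at h0
    simp only [classInner_add_left, classInner_add_right, classInner_zsmul_left,
      classInner_zsmul_right] at h0
    have hAA : eX • σ χ ≠ eX • σ χ' := by
      intro h
      have h2 : σ χ = σ χ' := by
        have := congrArg (fun f => eX • f) h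
        simpa [smul_smul, heX2] using this
      exact hne (hXinj χ hχ χ' hχ' h2).symm
    have hBB : eY • τ η ≠ eY • τ η' := by
      intro h
      have h2 : τ η = τ η' := by
        have := congrArg (fun f => eY • f) h
        simpa [smul_smul, heY2] using this
      exact hne' (hYinj η hη η' hη' h2).symm
    have hrect := rect (hXi χ hχ) (hXi χ' hχ') (hYi η hη) (hYi η' hη') hAA hBB
      (c' * e') (c' * e) (c * e') (c * e) (Nat.mul_pos hc' he') (Nat.mul_pos hc he) (by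
        simp only [classInner_smul_left, classInner_smul_right, heYc]
        push_cast
        push_cast at h0
        linear_combination (eX * eY) * h0)
    have h3 := classInner_irr_ne (hXi χ hχ) (hYi η hη) hrect
    rw [classInner_smul_left, classInner_smul_right, heYc] at h3
    have h4 : eX * eY ≠ 0 := by
      intro h
      have : (eX * eY) * (eX * eY) = 1 := by
        calc (eX * eY) * (eX * eY) = (eX * eX) * (eY * eY) := by ring
          _ = 1 := by rw [heX2, heY2, one_mul]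
      rw [h, zero_mul] at this
      exact zero_ne_one this
    have h5 : (eX * eY) * Cfsg.classInner (σ χ) (τ η) = 0 := by linear_combination h3
    rcases mul_eq_zero.mp h5 with h | h
    · exact absurd h h4
    · exact h
  refine ⟨part1, ?_⟩
  rintro ⟨χ₀, hχ₀, η₀, hη₀, hlink⟩
  have hirrF : Fintype (Cfsg.IrrCharacter N) := irrFintype
  let ρ : (N → ℂ) → (G → ℂ) := fun ξ => if ξ ∈ X then σ ξ else if ξ ∈ Y then τ ξ else 0
  let τ₁ : (N → ℂ) → (G → ℂ) := fun θ =>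
    ∑ ξ : Cfsg.IrrCharacter N, Cfsg.classInner θ (ξ : N → ℂ) • ρ (ξ : N → ℂ)
  have hτ₁add : ∀ a b, τ₁ (a + b) = τ₁ a + τ₁ b := by
    intro a b
    simp only [τ₁, classInner_add_left, add_smul, Finset.sum_add_distrib]
  have hτ₁smul : ∀ (z : ℂ) a, τ₁ (z • a) = z • τ₁ a := by
    intro z a
    simp only [τ₁, classInner_smul_left, Finset.smul_sum, smul_smul]
  have hτ₁zsmul : ∀ (n : ℤ) a, τ₁ (n • a) = n • τ₁ a := by
    intro n a
    rw [zsmul_eq_smul, hτ₁smul, ← zsmul_eq_smul]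
  have hτ₁0 : τ₁ 0 = 0 := by
    simp only [τ₁, classInner_zero_left, zero_smul, Finset.sum_const_zero]
  have hτ₁irr : ∀ ξ : N → ℂ, Cfsg.IsIrrCharacter N ξ → τ₁ ξ = ρ ξ := by
    intro ξ hξ
    simp only [τ₁]
    rw [Finset.sum_eq_single (⟨ξ, hξ⟩ : Cfsg.IrrCharacter N)]
    · rw [classInner_irr_self hξ, one_smul]
    · intro b _ hb
      rw [classInner_irr_ne hξ b.2 (fun h => hb (Subtype.ext h.symm)), zero_smul]
    · intro h
      exact absurd (Finset.mem_univ _) h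
  have hρX : ∀ ξ ∈ X, ρ ξ = σ ξ := fun ξ h => if_pos h
  have hρY : ∀ ξ ∈ Y, ρ ξ = τ ξ := fun ξ h => by
    have hnx : ξ ∉ X := fun hx => Set.disjoint_left.mp hXY hx h
    simp only [ρ]
    rw [if_neg hnx, if_pos h]
  have hσ₁ : ∀ θ ∈ Cfsg.zspan X, σ θ = τ₁ θ := fun θ hθ =>
    iso_eq_of_gens hσ τ₁ hτ₁0 hτ₁add hτ₁zsmul
      (fun t ht => by rw [hτ₁irr t (hirrX t ht), hρX t ht]) hθ
  have hτ₂ : ∀ θ ∈ Cfsg.zspan Y, τ θ = τ₁ θ := fun θ hθ =>
    iso_eq_of_gens hτ τ₁ hτ₁0 hτ₁add hτ₁zsmul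
      (fun t ht => by rw [hτ₁irr t (hirrY t ht), hρY t ht]) hθ
  have hXYirr : ∀ ξ ∈ X ∪ Y, Cfsg.IsIrrCharacter N ξ := by
    rintro ξ (h | h)
    · exact hirrX ξ h
    · exact hirrY ξ h
  have hρorth : ∀ ξ ∈ X ∪ Y, ∀ ξ' ∈ X ∪ Y,
      Cfsg.classInner (ρ ξ) (ρ ξ') = if ξ = ξ' then 1 else 0 := by
    intro ξ hξ ξ' hξ'
    rcases hξ with hξ | hξ <;> rcases hξ' with hξ' | hξ'
    · rw [hρX ξ hξ, hρX ξ' hξ', hσ.2.2.1 ξ (zspan_of_mem hξ) ξ' (zspan_of_mem hξ'),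
        classInner_irr (hirrX ξ hξ) (hirrX ξ' hξ')]
    · rw [hρX ξ hξ, hρY ξ' hξ', part1 ξ hξ ξ' hξ',
        if_neg (fun h : ξ = ξ' => Set.disjoint_left.mp hXY hξ (h ▸ hξ'))]
    · rw [hρY ξ hξ, hρX ξ' hξ', ← classInner_conj_symm, part1 ξ' hξ' ξ hξ,
        if_neg (fun h : ξ = ξ' => Set.disjoint_left.mp hXY hξ' (h ▸ hξ))]
      simp
    · rw [hρY ξ hξ, hρY ξ' hξ', hτ.2.2.1 ξ (zspan_of_mem hξ) ξ' (zspan_of_mem hξ'),
        classInner_irr (hirrY ξ hξ) (hirrY ξ' hξ')]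
  have hcoef0 : ∀ θ ∈ Cfsg.zspan (X ∪ Y), ∀ ξ : Cfsg.IrrCharacter N,
      (ξ : N → ℂ) ∉ X ∪ Y → Cfsg.classInner θ (ξ : N → ℂ) = 0 := by
    intro θ hθ ξ hξ
    apply zspan_orth hθ
    intro t ht
    exact classInner_irr_ne (hXYirr t ht) ξ.2 (fun h => hξ (h ▸ ht))
  have hgen : ∀ θ ∈ Cfsg.zspan (X ∪ Y), Cfsg.IsGeneralizedCharacter N θ := fun θ hθ =>
    zspan_isGen (fun ξ hξ => isGen_of_irr (hXYirr ξ hξ)) hθ
  have hiso : ∀ θ ∈ Cfsg.zspan (X ∪ Y), ∀ θ' ∈ Cfsg.zspan (X ∪ Y),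
      Cfsg.classInner (τ₁ θ) (τ₁ θ') = Cfsg.classInner θ θ' := by
    intro θ hθ θ' hθ'
    have e1 := classFunction_expansion (isGen_isClassFunction (hgen θ hθ))
    have e2 := classFunction_expansion (isGen_isClassFunction (hgen θ' hθ'))
    conv_rhs => rw [e1, e2, classInner_expansion]
    simp only [τ₁]
    rw [classInner_sum_left]
    refine Finset.sum_congr rfl (fun ξ _ => ?_)
    rw [classInner_sum_right]
    by_cases hξ : (ξ : N → ℂ) ∈ X ∪ Y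
    · rw [Finset.sum_eq_single ξ]
      · rw [classInner_smul_left, classInner_smul_right, hρorth _ hξ _ hξ, if_pos rfl]
        ring
      · intro ξ' _ hne
        rw [classInner_smul_left, classInner_smul_right]
        by_cases hξ' : (ξ' : N → ℂ) ∈ X ∪ Y
        · rw [hρorth _ hξ _ hξ', if_neg (fun h => hne (Subtype.ext h.symm))]
          ring
        · rw [hcoef0 θ' hθ' ξ' hξ']
          simp
      · intro h
        exact absurd (Finset.mem_univ _) h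
    · rw [hcoef0 θ hθ ξ hξ, zero_mul]
      apply Finset.sum_eq_zero
      intro ξ' _
      rw [zero_smul, classInner_zero_left]
  have hvirt : ∀ θ ∈ Cfsg.zspan (X ∪ Y), Cfsg.IsGeneralizedCharacter G (τ₁ θ) := by
    intro θ hθ
    apply isGen_sum
    intro ξ _
    by_cases hξ : (ξ : N → ℂ) ∈ X ∪ Y
    · obtain ⟨z, hz⟩ := gen_classInner_int (hgen θ hθ) (isGen_of_irr ξ.2)
      rw [hz]
      apply isGen_intCast_smul
      rcases hξ with h | h
      · rw [hρX _ h]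
        exact hσ.2.2.2 _ (zspan_of_mem h)
      · rw [hρY _ h]
        exact hτ.2.2.2 _ (zspan_of_mem h)
    · rw [hcoef0 θ hθ ξ hξ, zero_smul]
      exact isGen_zero
  have hlin : Cfsg.IsLinearIsometryOn (Cfsg.zspan (X ∪ Y)) τ₁ :=
    ⟨fun a _ b _ => hτ₁add a b, fun a _ n => hτ₁zsmul n a, hiso, hvirt⟩
  refine ⟨?_, τ₁, hlin, ?_⟩
  · obtain ⟨a, ha, b, hb, hab⟩ := hX2
    obtain ⟨da, hda0, hda⟩ := IsIrrCharacter.degree_pos (hirrX a ha)
    obtain ⟨db, hdb0, hdb⟩ := IsIrrCharacter.degree_pos (hirrX b hb)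
    have hm := comb_mem X a b ha hb da db hda hdb
    refine ⟨_, ⟨zspan_mono Set.subset_union_left hm.1, hm.2⟩, ?_⟩
    intro h0
    have h1 : Cfsg.classInner ((db : ℤ) • a + (-(da : ℤ)) • b) a = 0 := by
      rw [h0]
      exact classInner_zero_left a
    rw [classInner_add_left, classInner_zsmul_left, classInner_zsmul_left,
      classInner_irr_self (hirrX a ha),
      classInner_irr_ne (hirrX b hb) (hirrX a ha) (Ne.symm hab)] at h1
    have h2 : ((db : ℕ) : ℂ) = 0 := by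
      push_cast at h1
      linear_combination h1
    have h3 : db = 0 := by exact_mod_cast h2
    omega
  · intro θ hθ
    obtain ⟨hθspan, hθ1⟩ := hθ
    have hθ1' : θ 1 = 0 := hθ1 1 (by simp)
    rw [mem_zspan, Submodule.span_union, Submodule.mem_sup] at hθspan
    obtain ⟨θX, hθX, θY, hθY, rfl⟩ := hθspan
    obtain ⟨m, hm⟩ := gen_one_int (zspan_isGen (fun ξ hξ => isGen_of_irr (hirrX ξ hξ)) hθX)
    obtain ⟨c, hc0, hc⟩ := IsIrrCharacter.degree_pos (hirrX χ₀ hχ₀)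
    obtain ⟨e, he0, he⟩ := IsIrrCharacter.degree_pos (hirrY η₀ hη₀)
    have hθY1 : θY 1 = -(m : ℂ) := by
      have h := hθ1'
      rw [Pi.add_apply, hm] at h
      linear_combination h
    have huX : (((c * e : ℕ) : ℤ) • θX + (-(m * e) : ℤ) • χ₀) ∈ Cfsg.zspanOn X {1}ᶜ := by
      refine ⟨zspan_add (zspan_zsmul _ hθX) (zspan_zsmul _ (zspan_of_mem hχ₀)), fun x hx => ?_⟩
      have hx1 : x = 1 := by simpa using hx
      rw [hx1]
      simp only [Pi.add_apply, Pi.smul_apply, hm, hc]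
      push_cast
      simp
      ring
    have hvY : (((c * e : ℕ) : ℤ) • θY + ((m * c) : ℤ) • η₀) ∈ Cfsg.zspanOn Y {1}ᶜ := by
      refine ⟨zspan_add (zspan_zsmul _ hθY) (zspan_zsmul _ (zspan_of_mem hη₀)), fun x hx => ?_⟩
      have hx1 : x = 1 := by simpa using hx
      rw [hx1]
      simp only [Pi.add_apply, Pi.smul_apply, hθY1, he]
      push_cast
      simp
      ring
    have hlamS : ((c : ℤ) • η₀ + (-(e : ℤ)) • χ₀) ∈ Cfsg.zspanOn S {1}ᶜ := by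
      refine ⟨zspan_add (zspan_zsmul _ (zspan_of_mem (hYS hη₀)))
        (zspan_zsmul _ (zspan_of_mem (hXS hχ₀))), fun x hx => ?_⟩
      have hx1 : x = 1 := by simpa using hx
      rw [hx1]
      simp only [Pi.add_apply, Pi.smul_apply, hc, he]
      push_cast
      simp
      ring
    have hlam_eq : ((c : ℤ) • η₀ + (-(e : ℤ)) • χ₀) = χ₀ 1 • η₀ - η₀ 1 • χ₀ := by
      funext x
      simp [hc, he]
      ring
    have hkey : ((c * e : ℕ) : ℤ) • (θX + θY) =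
        (((c * e : ℕ) : ℤ) • θX + (-(m * e) : ℤ) • χ₀) +
          ((((c * e : ℕ) : ℤ) • θY + ((m * c) : ℤ) • η₀) +
            (-(m : ℤ)) • ((c : ℤ) • η₀ + (-(e : ℤ)) • χ₀)) := by
      funext x
      simp
      ring
    have hθS : θX + θY ∈ Cfsg.zspanOn S {1}ᶜ :=
      ⟨zspan_add (zspan_mono hXS hθX) (zspan_mono hYS hθY), hθ1⟩
    have hA : α (((c * e : ℕ) : ℤ) • (θX + θY)) = ((c * e : ℕ) : ℤ) • α (θX + θY) :=
      hα.2.1 _ hθS _
    have hB : α ((((c * e : ℕ) : ℤ) • θX + (-(m * e) : ℤ) • χ₀) +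
          ((((c * e : ℕ) : ℤ) • θY + ((m * c) : ℤ) • η₀) +
            (-(m : ℤ)) • ((c : ℤ) • η₀ + (-(e : ℤ)) • χ₀))) =
        α (((c * e : ℕ) : ℤ) • θX + (-(m * e) : ℤ) • χ₀) +
          (α (((c * e : ℕ) : ℤ) • θY + ((m * c) : ℤ) • η₀) +
            (-(m : ℤ)) • α ((c : ℤ) • η₀ + (-(e : ℤ)) • χ₀)) := by
      rw [hα.1 _ (hXsub _ huX) _ (zspanOn_add (hYsub _ hvY) (zspanOn_zsmul _ hlamS)),
        hα.1 _ (hYsub _ hvY) _ (zspanOn_zsmul _ hlamS), hα.2.1 _ hlamS]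
    have hC : α (((c * e : ℕ) : ℤ) • θX + (-(m * e) : ℤ) • χ₀) =
        τ₁ (((c * e : ℕ) : ℤ) • θX + (-(m * e) : ℤ) • χ₀) := by
      rw [← hσα _ huX, hσ₁ _ huX.1]
    have hD : α (((c * e : ℕ) : ℤ) • θY + ((m * c) : ℤ) • η₀) =
        τ₁ (((c * e : ℕ) : ℤ) • θY + ((m * c) : ℤ) • η₀) := by
      rw [← hτα _ hvY, hτ₂ _ hvY.1]
    have hE : α ((c : ℤ) • η₀ + (-(e : ℤ)) • χ₀) = τ₁ ((c : ℤ) • η₀ + (-(e : ℤ)) • χ₀) := by
      rw [hlam_eq, hlink]
      rw [sub_eq_add_neg (χ₀ 1 • η₀), ← neg_smul, hτ₁add, hτ₁smul, hτ₁smul,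
        hτ₁irr η₀ (hirrY η₀ hη₀), hτ₁irr χ₀ (hirrX χ₀ hχ₀), hρY η₀ hη₀, hρX χ₀ hχ₀]
      rw [neg_smul, ← sub_eq_add_neg]
    have hce : ((c * e : ℕ) : ℤ) ≠ 0 := by
      have : 0 < c * e := Nat.mul_pos hc0 he0
      exact_mod_cast this.ne'
    have final : ∀ (U V Λ : N → ℂ) (n k : ℤ), n ≠ 0 → n • (θX + θY) = U + (V + k • Λ) →
        α (n • (θX + θY)) = n • α (θX + θY) →
        α (U + (V + k • Λ)) = α U + (α V + k • α Λ) → α U = τ₁ U → α V = τ₁ V → α Λ = τ₁ Λ →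
        τ₁ (θX + θY) = α (θX + θY) := by
      intro U V Λ n k hn hkey hA hB hC hD hE
      apply smul_left_cancel_int hn
      calc n • τ₁ (θX + θY) = τ₁ (n • (θX + θY)) := (hτ₁zsmul _ _).symm
        _ = τ₁ (U + (V + k • Λ)) := by rw [hkey]
        _ = τ₁ U + (τ₁ V + k • τ₁ Λ) := by rw [hτ₁add, hτ₁add, hτ₁zsmul]
        _ = α U + (α V + k • α Λ) := by rw [hC, hD, hE]
        _ = α (U + (V + k • Λ)) := hB.symm
        _ = α (n • (θX + θY)) := by rw [← hkey]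
        _ = n • α (θX + θY) := hA
    exact final _ _ _ _ _ hce hkey hA hB hC hD hE

end Cfsg.Agent.S1531
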