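import Cfsg.Statements.S1536
import Cfsg.Agent.Lib.Helper1.CharMisc

set_option autoImplicit false
open Cfsg

namespace Cfsg.Agent.S1536

open Cfsg.Agent.Lib.Helper1

/-- Let H be a normal subgroup of the finite group M whose order is coprime to its index. For x ∈ M: some non-principal irreducible character of H is unchanged under h ↦ θ(x h x⁻¹) if and only if some non-identity element of H commutes with x. -/
theorem result {M : Type*} [Group M] [Finite M] (H : Subgroup M) [hN : H.Normal] (hHall : Nat.Coprime (Nat.card H) H.index) (x : M) : (∃ θ : H → ℂ, Cfsg.IsIrrCharacter H θ ∧ θ ≠ (fun _ => 1) ∧ (fun h : H => θ ⟨x * h * x⁻¹, hN.conj_mem h h.2 x⟩) = θ) ↔ ∃ h ∈ H, h ≠ 1 ∧ x * h = h * x := by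
  classical
  have hH' : Fintype H := Fintype.ofFinite H
  have hcard := card_fixed_classes_eq_card_fixed_irr (conjNormal H x)
  have hfin : Finite (Cfsg.IrrCharacter H) := irr_finite
  constructor
  · rintro ⟨θ, hθ, hθ1, hfix⟩
    by_contra hcon
    push Not at hcon
    have hfree : ∀ h ∈ H, h * x = x * h → h = 1 := by
      intro h hh hc
      by_contra h1
      exact hcon h hh h1 hc.symm
    have hsub : Subsingleton {C : ConjClasses H //
        ConjClasses.map (conjNormal H x).toMonoidHom C = C} := by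
      have hall : ∀ C : {C : ConjClasses H //
          ConjClasses.map (conjNormal H x).toMonoidHom C = C}, C.1 = ConjClasses.mk 1 := by
        rintro ⟨C, hC⟩
        obtain ⟨k, rfl⟩ := ConjClasses.mk_surjective C
        have h2 : IsConj (conjNormal H x k) k := ConjClasses.mk_eq_mk_iff_isConj.mp hC
        obtain ⟨u, hu⟩ := isConj_iff.mp h2
        have h3 : (u : M) * (x * k * x⁻¹) * (u : M)⁻¹ = k := congrArg Subtype.val hu
        have hmem : x⁻¹ * (u : M) * x ∈ H := by
          have := hN.conj_mem u u.2 x⁻¹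
          simpa using this
        obtain ⟨y, hy⟩ := exists_conj_of_free H x hfree hmem
        have hy' : y * x * y⁻¹ = (u : M) * x := by rw [hy]; group
        have hmem2 : y⁻¹ * (k : M) * y ∈ H := by
          have := hN.conj_mem k k.2 y⁻¹
          simpa using this
        have h4 : (y⁻¹ * (k : M) * y) * x = x * (y⁻¹ * (k : M) * y) := by
          have e1 : ((u : M) * x) * k = k * ((u : M) * x) := by
            calc ((u : M) * x) * k = ((u : M) * (x * k * x⁻¹) * (u : M)⁻¹) * ((u : M) * x) := by
                  group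
              _ = k * ((u : M) * x) := by rw [h3]
          rw [← hy'] at e1
          calc (y⁻¹ * (k : M) * y) * x = y⁻¹ * ((k : M) * (y * x * y⁻¹)) * y := by group
            _ = y⁻¹ * ((y * x * y⁻¹) * (k : M)) * y := by rw [e1]
            _ = x * (y⁻¹ * (k : M) * y) := by group
        have h5 := hfree _ hmem2 h4
        have h6 : (k : M) = 1 := by
          have : (k : M) = y * (y⁻¹ * (k : M) * y) * y⁻¹ := by group
          rw [this, h5]; group
        have h7 : k = 1 := Subtype.ext h6
        show ConjClasses.mk k = ConjClasses.mk 1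
        rw [h7]
      constructor
      intro C D
      apply Subtype.ext
      rw [hall C, hall D]
    have hle : Nat.card {χ : Cfsg.IrrCharacter H //
        (χ : H → ℂ) ∘ (conjNormal H x) = (χ : H → ℂ)} ≤ 1 := by
      rw [← hcard]
      exact Finite.card_le_one_iff_subsingleton.mpr hsub
    have hsub2 := Finite.card_le_one_iff_subsingleton.mp hle
    have hfix' : θ ∘ (conjNormal H x) = θ := hfix
    have h7 : (⟨⟨θ, hθ⟩, hfix'⟩ : {χ : Cfsg.IrrCharacter H //
        (χ : H → ℂ) ∘ (conjNormal H x) = (χ : H → ℂ)}) =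
        ⟨⟨fun _ => 1, isIrrCharacter_one⟩, rfl⟩ := Subsingleton.elim _ _
    have h8 := congrArg (fun z : {χ : Cfsg.IrrCharacter H //
        (χ : H → ℂ) ∘ (conjNormal H x) = (χ : H → ℂ)} => ((z : Cfsg.IrrCharacter H) : H → ℂ)) h7
    exact hθ1 h8
  · rintro ⟨h, hh, h1, hcomm⟩
    have hfinC : Finite {C : ConjClasses H //
        ConjClasses.map (conjNormal H x).toMonoidHom C = C} := inferInstance
    have hnt : Nontrivial {C : ConjClasses H //
        ConjClasses.map (conjNormal H x).toMonoidHom C = C} := by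
      refine ⟨⟨⟨ConjClasses.mk 1, ?_⟩, ⟨ConjClasses.mk ⟨h, hh⟩, ?_⟩, ?_⟩⟩
      · show ConjClasses.mk ((conjNormal H x) 1) = ConjClasses.mk 1
        rw [map_one]
      · show ConjClasses.mk ((conjNormal H x) ⟨h, hh⟩) = ConjClasses.mk ⟨h, hh⟩
        congr 1
        apply Subtype.ext
        show x * h * x⁻¹ = h
        rw [hcomm]; group
      · intro heq
        have h2 : ConjClasses.mk (1 : H) = ConjClasses.mk ⟨h, hh⟩ := congrArg Subtype.val heq
        have h3 : IsConj (1 : H) ⟨h, hh⟩ := ConjClasses.mk_eq_mk_iff_isConj.mp h2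
        have h4 : (⟨h, hh⟩ : H) = 1 := (isConj_one_right.mp h3)
        exact h1 (congrArg Subtype.val h4)
    have hlt : 1 < Nat.card {χ : Cfsg.IrrCharacter H //
        (χ : H → ℂ) ∘ (conjNormal H x) = (χ : H → ℂ)} := by
      rw [← hcard]
      exact Finite.one_lt_card_iff_nontrivial.mpr hnt
    have hnt2 := Finite.one_lt_card_iff_nontrivial.mp hlt
    obtain ⟨a, b, hab⟩ := hnt2
    have key : ∀ c : {χ : Cfsg.IrrCharacter H //
        (χ : H → ℂ) ∘ (conjNormal H x) = (χ : H → ℂ)}, ((c : Cfsg.IrrCharacter H) : H → ℂ) ≠ (fun _ => 1) →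
        ∃ θ : H → ℂ, Cfsg.IsIrrCharacter H θ ∧ θ ≠ (fun _ => 1) ∧ (fun h : H => θ ⟨x * h * x⁻¹, hN.conj_mem h h.2 x⟩) = θ := by
      intro c hc
      exact ⟨c.1.1, c.1.2, hc, c.2⟩
    by_cases ha : ((a : Cfsg.IrrCharacter H) : H → ℂ) = (fun _ => 1)
    · by_cases hb : ((b : Cfsg.IrrCharacter H) : H → ℂ) = (fun _ => 1)
      · exfalso
        apply hab
        apply Subtype.ext
        apply Subtype.ext
        rw [ha, hb]
      · exact key b hb
    · exact key a ha

end Cfsg.Agent.S1536
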