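import Cfsg.Statements.S1546

set_option autoImplicit false
open Cfsg

namespace Cfsg.Agent.S1546

open Finset in
theorem geom_cast (R : Type*) [CommRing R] (p q : ℕ) (hp : 2 ≤ p) :
    (((p ^ q - 1) / (p - 1) : ℕ) : R) = ∑ k ∈ range q, (p : R) ^ k := by
  rw [← Nat.geomSum_eq hp q]
  push_cast
  rfl

theorem geom_cast_of_one (R : Type*) [CommRing R] (p q : ℕ) (hp : 2 ≤ p) (h1 : (p : R) = 1) :
    (((p ^ q - 1) / (p - 1) : ℕ) : R) = (q : R) := by
  rw [geom_cast R p q hp, h1]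
  simp

theorem mul_geom (p q : ℕ) (hp : 2 ≤ p) : (p - 1) * ((p ^ q - 1) / (p - 1)) = p ^ q - 1 := by
  apply Nat.mul_div_cancel'
  exact Nat.sub_one_dvd_pow_sub_one p q |>.trans dvd_rfl |> fun h => by simpa using h

theorem prime_dvd_mod (p q : ℕ) (hp : p.Prime) (hq : q.Prime) (hq2 : q ≠ 2)
    (hpq : p % q ≠ 1) (r : ℕ) (hr : r.Prime) (hrN : r ∣ (p ^ q - 1) / (p - 1)) : r % q = 1 := by
  have hp2 : 2 ≤ p := hp.two_le
  haveI : Fact r.Prime := ⟨hr⟩
  have hq3 : 3 ≤ q := by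
    have := hq.two_le
    omega
  have hN0 : (((p ^ q - 1) / (p - 1) : ℕ) : ZMod r) = 0 := (ZMod.natCast_eq_zero_iff _ _).mpr hrN
  have hpow : (p : ZMod r) ^ q = 1 := by
    have h1 : ((p ^ q - 1 : ℕ) : ZMod r) = 0 := by
      rw [← mul_geom p q hp2, Nat.cast_mul, hN0, mul_zero]
    have h2 : 1 ≤ p ^ q := Nat.one_le_pow _ _ (by omega)
    rw [Nat.cast_sub h2] at h1
    push_cast at h1
    exact sub_eq_zero.mp h1
  have hp1 : (p : ZMod r) ≠ 1 := by
    intro h1
    have h3 := geom_cast_of_one (ZMod r) p q hp2 h1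
    rw [hN0] at h3
    have h4 : r ∣ q := (ZMod.natCast_eq_zero_iff _ _).mp h3.symm
    have h5 : r = q := (Nat.prime_dvd_prime_iff_eq hr hq).mp h4
    subst h5
    have h6 : ((p : ℕ) : ZMod r) = ((1 : ℕ) : ZMod r) := by simpa using h1
    rw [ZMod.natCast_eq_natCast_iff'] at h6
    rw [h6] at hpq
    exact hpq (Nat.mod_eq_of_lt (by omega))
  have hp0 : (p : ZMod r) ≠ 0 := by
    intro h0
    rw [h0, zero_pow (by omega)] at hpow
    exact zero_ne_one hpow
  have hord : orderOf (p : ZMod r) = q := by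
    have hdvd : orderOf (p : ZMod r) ∣ q := orderOf_dvd_of_pow_eq_one hpow
    rcases (Nat.dvd_prime hq).mp hdvd with h | h
    · exfalso
      exact hp1 (orderOf_eq_one_iff.mp h)
    · exact h
  have hdiv : q ∣ r - 1 := hord ▸ ZMod.orderOf_dvd_card_sub_one hp0
  obtain ⟨c, hc⟩ := hdiv
  have hr1 : r = q * c + 1 := by
    have := hr.one_le
    omega
  rw [hr1, Nat.mul_add_mod]
  exact Nat.mod_eq_of_lt (by omega)

theorem result (p q : ℕ) (hp : p.Prime) (hq : q.Prime) (hp2 : p ≠ 2) (hq2 : q ≠ 2) : Odd ((p ^ q - 1) / (p - 1)) ∧ (p % q = 1 → q ∣ (p ^ q - 1) / (p - 1)) ∧ (p % q ≠ 1 → Nat.Coprime ((p ^ q - 1) / (p - 1)) (p - 1) ∧ ∀ x : ℕ, x ∣ (p ^ q - 1) / (p - 1) → x % q = 1) := by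
  have hp2' : 2 ≤ p := hp.two_le
  have hq3 : 3 ≤ q := by
    have := hq.two_le
    omega
  have hpodd : Odd p := hp.odd_of_ne_two hp2
  have hqodd : Odd q := hq.odd_of_ne_two hq2
  have hodd : Odd ((p ^ q - 1) / (p - 1)) := by
    rw [← ZMod.natCast_eq_one_iff_odd]
    have h1 : ((p : ℕ) : ZMod 2) = 1 := (ZMod.natCast_eq_one_iff_odd).mpr hpodd
    rw [geom_cast_of_one (ZMod 2) p q hp2' h1]
    exact (ZMod.natCast_eq_one_iff_odd).mpr hqodd
  refine ⟨hodd, ?_, ?_⟩
  · intro h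
    rw [← ZMod.natCast_eq_zero_iff]
    have h1 : ((p : ℕ) : ZMod q) = 1 := by
      have : ((p : ℕ) : ZMod q) = ((1 : ℕ) : ZMod q) := by
        rw [ZMod.natCast_eq_natCast_iff']
        rw [h]
        exact (Nat.mod_eq_of_lt (by omega)).symm
      simpa using this
    rw [geom_cast_of_one (ZMod q) p q hp2' h1]
    exact ZMod.natCast_self q
  · intro hpq
    refine ⟨?_, ?_⟩
    · rw [Nat.coprime_iff_gcd_eq_one]
      by_contra hne
      obtain ⟨r, hr, hrd⟩ := Nat.exists_prime_and_dvd hne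
      have hrN : r ∣ (p ^ q - 1) / (p - 1) := hrd.trans (Nat.gcd_dvd_left _ _)
      have hrp : r ∣ p - 1 := hrd.trans (Nat.gcd_dvd_right _ _)
      haveI : Fact r.Prime := ⟨hr⟩
      have h1 : ((p : ℕ) : ZMod r) = 1 := by
        have h2 : ((p - 1 : ℕ) : ZMod r) = 0 := (ZMod.natCast_eq_zero_iff _ _).mpr hrp
        rw [Nat.cast_sub (by omega)] at h2
        push_cast at h2
        exact sub_eq_zero.mp h2
      have h3 := geom_cast_of_one (ZMod r) p q hp2' h1
      rw [(ZMod.natCast_eq_zero_iff _ _).mpr hrN] at h3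
      have h4 : r ∣ q := (ZMod.natCast_eq_zero_iff _ _).mp h3.symm
      have h5 : r = q := (Nat.prime_dvd_prime_iff_eq hr hq).mp h4
      subst h5
      have h6 : ((p : ℕ) : ZMod r) = ((1 : ℕ) : ZMod r) := by simpa using h1
      rw [ZMod.natCast_eq_natCast_iff'] at h6
      rw [h6] at hpq
      exact hpq (Nat.mod_eq_of_lt (by omega))
    · intro x
      induction x using Nat.recOnMul with
      | zero =>
        intro h0
        rw [zero_dvd_iff] at h0
        rw [h0] at hodd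
        exact absurd hodd (by decide)
      | one =>
        intro _
        exact Nat.mod_eq_of_lt (by omega)
      | prime r hr =>
        intro hrN
        exact prime_dvd_mod p q hp hq hq2 hpq r hr hrN
      | mul a b iha ihb =>
        intro hab
        have ha := iha ((Dvd.intro _ rfl).trans hab)
        have hb := ihb ((Dvd.intro_left _ rfl).trans hab)
        rw [Nat.mul_mod, ha, hb]
        exact Nat.mod_eq_of_lt (by omega)

end Cfsg.Agent.S1546
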