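import Cfsg.Statements.S1552
import Cfsg.Agent.Lib.Helper3.M24SysSx
import Cfsg.Agent.Lib.Helper3.M24SysStd
import Cfsg.Agent.S1550

set_option autoImplicit false
open scoped Pointwise
open Cfsg

namespace Cfsg.Agent.S1552

open Cfsg.Agent.Lib.Helper3.Golay Cfsg.Agent.Lib.Helper3.Golay2
open Cfsg.Agent.Lib.Helper3.GolayM24 Cfsg.Agent.Lib.Helper3.M24Perm
open Cfsg.Agent.Lib.Helper3.M24Sys Cfsg.Agent.Lib.Helper3.M24Sys2
open Cfsg.Agent.Lib.Helper3.M24SysSx Cfsg.Agent.Lib.Helper3.M24SysStd

/-- A sextet stabiliser has four orbits on the 1771 sextets, of sizes 1, 90, 240, 1440; and the stabiliser is a maximal proper subgroup. -/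
theorem result (S : Finset (Finset Cfsg.GolayPt)) (hS : S ∈ Cfsg.sextets) : ∃ X₁ ∈ Cfsg.sextets, ∃ X₂ ∈ Cfsg.sextets, ∃ X₃ ∈ Cfsg.sextets, (MulAction.orbit ↥(MulAction.stabilizer Cfsg.M24 S) X₁).ncard = 90 ∧ (MulAction.orbit ↥(MulAction.stabilizer Cfsg.M24 S) X₂).ncard = 240 ∧ (MulAction.orbit ↥(MulAction.stabilizer Cfsg.M24 S) X₃).ncard = 1440 ∧ Cfsg.sextets = {S} ∪ MulAction.orbit ↥(MulAction.stabilizer Cfsg.M24 S) X₁ ∪ MulAction.orbit ↥(MulAction.stabilizer Cfsg.M24 S) X₂ ∪ MulAction.orbit ↥(MulAction.stabilizer Cfsg.M24 S) X₃ ∧ IsCoatom (MulAction.stabilizer Cfsg.M24 S) := by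
  obtain ⟨σ, hσ, rfl⟩ := sextet_std hS
  have ha : σ • sxo 8388615 ∈ sextets := sextets_inv σ hσ _ sxo0_mem
  have hT := transport_T (fun a X => psi f100 a X) (psi_smul f100) sextets sextets_inv
    (sxo 8388615) T_sext hσ
  have c0 := (transport_N (fun a X => psi f100 a X) (psi_smul f100) sextets sextets_inv
    (sxo 8388615) hσ _).trans N_sext_1
  have c1 := (transport_N (fun a X => psi f100 a X) (psi_smul f100) sextets sextets_inv
    (sxo 8388615) hσ _).trans N_sext_2
  have c2 := (transport_N (fun a X => psi f100 a X) (psi_smul f100) sextets sextets_inv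
    (sxo 8388615) hσ _).trans N_sext_3
  have c3 := (transport_N (fun a X => psi f100 a X) (psi_smul f100) sextets sextets_inv
    (sxo 8388615) hσ _).trans N_sext_4
  have hlab := transport_L (fun a X => psi f100 a X) (psi_smul f100) sextets sextets_inv
    (sxo 8388615) (fun v => v = 600000030 ∨ v = 120024 ∨ v = 2001816 ∨ v = 41616) Lb_sext hσ
  have e0 : psi f100 (σ • sxo 8388615) (σ • sxo 8388615) = 600000030 := by
    rw [psi_smul]
    exact lab_sext_1
  obtain ⟨X1, h1, X2, h2, X3, h3, r1, r2, r3, r4⟩ := three_orbits_self (σ • sxo 8388615) sextets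
    (psi f100 (σ • sxo 8388615)) sextets_inv (fun τ hτ x _ => psi_inv (mem_stabM.mp hτ).2 x)
    hT ha c0 e0 c1 c2 c3 (by norm_num) (by norm_num) (by norm_num) hlab
  refine ⟨X1, h1, X2, h2, X3, h3, r1, r2, r3, r4, ?_⟩
  refine coatom_of_classes (σ • sxo 8388615) sextets (psi f100 (σ • sxo 8388615))
    (Set.toFinite _) sextets_inv ha (fun x hx => sextet_trans ha hx) hT
    {600000030, 120024, 2001816, 41616}
    (fun l => if l = 600000030 then 1 else if l = 120024 then 90 else
      if l = 2001816 then 240 else 1440)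
    (fun x hx => ?_) (fun l hl => ?_) 600000030 1771 e0 Cfsg.Agent.S1550.result.2
    (by norm_num) (by decide)
  · have := hlab x hx
    simp only [Finset.mem_insert, Finset.mem_singleton]
    exact this
  · simp only [Finset.mem_insert, Finset.mem_singleton] at hl
    rcases hl with rfl | rfl | rfl | rfl
    · rw [if_pos rfl]
      exact c0
    · rw [if_neg (by norm_num), if_pos rfl]
      exact c1
    · rw [if_neg (by norm_num), if_neg (by norm_num), if_pos rfl]
      exact c2
    · rw [if_neg (by norm_num), if_neg (by norm_num), if_neg (by norm_num)]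
      exact c3

end Cfsg.Agent.S1552
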