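import Cfsg.Statements.S1555
import Cfsg.Agent.Lib.Helper28.M24Sext
import Cfsg.Agent.Lib.Helper3.M24Frames
import Cfsg.Agent.Lib.Helper3.M24Mask

set_option autoImplicit false
open scoped Pointwise
open Cfsg

namespace Cfsg.Agent.S1555

open Cfsg.Agent.Lib.Helper3.Golay Cfsg.Agent.Lib.Helper3.Golay2
open Cfsg.Agent.Lib.Helper3.GolayM24 Cfsg.Agent.Lib.Helper3.M24Perm
open Cfsg.Agent.Lib.Helper3.M24Cert Cfsg.Agent.Lib.Helper3.M24Orb
open Cfsg.Agent.Lib.Helper3.M24Cls Cfsg.Agent.Lib.Helper3.M24Frames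
open Cfsg.Agent.Lib.Helper3.M24Mask
open Cfsg.Agent.Lib.Helper28.M24Sext

theorem cnt2 : ((Finset.range 4096).filter
    (fun k => pc (cw k) = 8 ∧ cw 345 &&& cw k = 3)).card = 16 := by
  decide +kernel

theorem std2 : {b : Finset GolayPt | b ∈ octads ∧ ms (cw 345) ∩ b = ms 3}.ncard = 16 := by
  have h : {b : Finset GolayPt | b ∈ octads ∧ ms (cw 345) ∩ b = ms 3} =
      supp '' {k | k < 4096 ∧ pc (cw k) = 8 ∧ cw 345 &&& cw k = 3} := by
    ext b
    unfold octads
    rw [wordsOfWeight_eq]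
    constructor
    · rintro ⟨⟨k, ⟨hk, hw⟩, rfl⟩, hi⟩
      refine ⟨k, ⟨hk, hw, ?_⟩, rfl⟩
      rw [← ms_cw, ms_and] at hi
      exact ms_injOn (lt_of_le_of_lt Nat.and_le_right (cw_lt k)) (by norm_num) hi
    · rintro ⟨k, ⟨hk, hw, hi⟩, rfl⟩
      refine ⟨⟨k, ⟨hk, hw⟩, rfl⟩, ?_⟩
      rw [← ms_cw, ms_and, hi]
  rw [h, Set.ncard_image_of_injOn]
  · rw [← cnt2, ← Set.ncard_coe_finset]
    congr 1
    ext k
    simp
  · intro k hk k' hk' h
    exact supp_injOn k hk.1 k' hk'.1 h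

/-- Bottom row of the Leech triangle: an octad is met in a prescribed pair of its points by exactly 16 octads and in a prescribed 4-subset by exactly 4 octads. -/
theorem result (o : Finset Cfsg.GolayPt) (ho : o ∈ Cfsg.octads) (s : Finset Cfsg.GolayPt) (hs : s ⊆ o) : (s.card = 2 → {o' : Finset Cfsg.GolayPt | o' ∈ Cfsg.octads ∧ o ∩ o' = s}.ncard = 16) ∧ (s.card = 4 → {o' : Finset Cfsg.GolayPt | o' ∈ Cfsg.octads ∧ o ∩ o' = s}.ncard = 4) := by
  refine ⟨fun h2 => ?_, fun h4 => ?_⟩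
  · obtain ⟨p, q, hpq, rfl⟩ := Finset.card_eq_two.mp h2
    have hp : p ∈ o := hs (by simp)
    have hq : q ∈ o := hs (by simp)
    obtain ⟨σ, hσ, rfl, e0, e1⟩ := octad_flag2 ho hp hq hpq
    have e3 : ({p, q} : Finset GolayPt) = σ • ms 3 := by
      have h3 : ms 3 = {pt 0, pt 1} := ms_b2 (i := 0) (j := 1) (by norm_num) (by norm_num)
      rw [h3, Finset.smul_finset_insert, Finset.smul_finset_singleton, Equiv.Perm.smul_def,
        Equiv.Perm.smul_def, e0, e1]
    rw [e3, ← std2]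
    apply ncard_transport σ
    intro b
    rw [smul_mem_octads_iff hσ, ← Finset.smul_finset_inter, smul_left_cancel_iff]
  · have hso : o ∈ octThrough s := mem_octThrough.mpr ⟨ho, hs⟩
    have e : {o' : Finset GolayPt | o' ∈ octads ∧ o ∩ o' = s} =
        (((octThrough s).erase o : Finset (Finset GolayPt)) : Set (Finset GolayPt)) := by
      ext o'
      simp only [Set.mem_setOf_eq, Finset.coe_erase, Set.mem_diff, Finset.mem_coe,
        mem_octThrough, Set.mem_singleton_iff]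
      constructor
      · rintro ⟨h1, h2⟩
        refine ⟨⟨h1, h2 ▸ Finset.inter_subset_right⟩, ?_⟩
        rintro rfl
        rw [Finset.inter_self] at h2
        rw [← h2, ho.2] at h4
        omega
      · rintro ⟨⟨h1, h2⟩, h3⟩
        exact ⟨h1, inter_eq_of_through h4 hso (mem_octThrough.mpr ⟨h1, h2⟩) (Ne.symm h3)⟩
    rw [e, Set.ncard_coe_finset, Finset.card_erase_of_mem hso, card_octThrough h4]

end Cfsg.Agent.S1555
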