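import Cfsg.Statements.S1557
import Cfsg.Agent.Lib.Helper28.M24Sext

set_option autoImplicit false
open scoped Pointwise
open Cfsg

namespace Cfsg.Agent.S1557

open Cfsg.Agent.Lib.Helper28.M24Sext Cfsg.Agent.Lib.Helper28.M24Mask
open Cfsg.Agent.Lib.Helper3.Golay Cfsg.Agent.Lib.Helper3.Golay2

/-- The complement of the union of two disjoint octads is an octad, and the code has exactly 3795 trios of pairwise disjoint octads. -/
theorem result : (∀ o o' : Finset Cfsg.GolayPt, o ∈ Cfsg.octads → o' ∈ Cfsg.octads → Disjoint o o' → (o ∪ o')ᶜ ∈ Cfsg.octads) ∧ Cfsg.trios.ncard = 3795 := by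
  refine ⟨fun o o' ho ho' hd => ?_, ?_⟩
  · rw [mem_octads]
    refine ⟨?_, ?_⟩
    · have h1 := symmDiff_mem_supports ho.1 ho'.1
      have h2 : symmDiff o o' = o ∪ o' := by
        ext p
        have : p ∈ o → p ∉ o' := fun hp => Finset.disjoint_left.mp hd hp
        simp only [Finset.mem_symmDiff, Finset.mem_union]
        tauto
      rw [h2] at h1
      exact compl_mem_supports h1
    · rw [Finset.card_compl, Finset.card_union_of_disjoint hd, ho.2, ho'.2, card_golayPt]
  · rw [ncard_eq_length trios trioIdx trioOf nodup_trioIdx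
      (fun x hx y hy e => trioOf_inj hx hy e)
      (fun T => ⟨fun hT => exists_trioIdx hT, fun ⟨x, hx, e⟩ => e ▸ trioOf_mem hx⟩)]
    decide +kernel

end Cfsg.Agent.S1557
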