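import Cfsg.Statements.S1559
import Cfsg.Agent.Lib.Helper3.M24SysTr
import Cfsg.Agent.Lib.Helper3.M24SysStd
import Cfsg.Agent.S1557

set_option autoImplicit false
open scoped Pointwise
open Cfsg

namespace Cfsg.Agent.S1559

open Cfsg.Agent.Lib.Helper3.Golay Cfsg.Agent.Lib.Helper3.Golay2
open Cfsg.Agent.Lib.Helper3.GolayM24 Cfsg.Agent.Lib.Helper3.M24Perm
open Cfsg.Agent.Lib.Helper3.M24Sys Cfsg.Agent.Lib.Helper3.M24Sys2
open Cfsg.Agent.Lib.Helper3.M24SysTr Cfsg.Agent.Lib.Helper3.M24SysStd

/-- A trio stabiliser has five orbits on the 3795 trios, of sizes 1, 42, 56, 1008, 2688; and the stabiliser is a maximal proper subgroup. -/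
theorem result (T : Finset (Finset Cfsg.GolayPt)) (hT : T ∈ Cfsg.trios) : ∃ X₁ ∈ Cfsg.trios, ∃ X₂ ∈ Cfsg.trios, ∃ X₃ ∈ Cfsg.trios, ∃ X₄ ∈ Cfsg.trios, (MulAction.orbit ↥(MulAction.stabilizer Cfsg.M24 T) X₁).ncard = 42 ∧ (MulAction.orbit ↥(MulAction.stabilizer Cfsg.M24 T) X₂).ncard = 56 ∧ (MulAction.orbit ↥(MulAction.stabilizer Cfsg.M24 T) X₃).ncard = 1008 ∧ (MulAction.orbit ↥(MulAction.stabilizer Cfsg.M24 T) X₄).ncard = 2688 ∧ Cfsg.trios = {T} ∪ MulAction.orbit ↥(MulAction.stabilizer Cfsg.M24 T) X₁ ∪ MulAction.orbit ↥(MulAction.stabilizer Cfsg.M24 T) X₂ ∪ MulAction.orbit ↥(MulAction.stabilizer Cfsg.M24 T) X₃ ∪ MulAction.orbit ↥(MulAction.stabilizer Cfsg.M24 T) X₄ ∧ IsCoatom (MulAction.stabilizer Cfsg.M24 T) := by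
  obtain ⟨σ, hσ, rfl⟩ := trio_std hT
  have ha : σ • tro 512015 ∈ trios := trios_inv σ hσ _ tro0_mem
  have hT' := transport_T (fun a X => psi f100 a X) (psi_smul f100) trios trios_inv
    (tro 512015) T_trio hσ
  have c0 := (transport_N (fun a X => psi f100 a X) (psi_smul f100) trios trios_inv
    (tro 512015) hσ _).trans N_trio_1
  have c1 := (transport_N (fun a X => psi f100 a X) (psi_smul f100) trios trios_inv
    (tro 512015) hσ _).trans N_trio_2
  have c2 := (transport_N (fun a X => psi f100 a X) (psi_smul f100) trios trios_inv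
    (tro 512015) hσ _).trans N_trio_3
  have c3 := (transport_N (fun a X => psi f100 a X) (psi_smul f100) trios trios_inv
    (tro 512015) hσ _).trans N_trio_4
  have c4 := (transport_N (fun a X => psi f100 a X) (psi_smul f100) trios trios_inv
    (tro 512015) hσ _).trans N_trio_5
  have hlab := transport_L (fun a X => psi f100 a X) (psi_smul f100) trios trios_inv
    (tro 512015) (fun v => v = 30000000000000006 ∨ v = 10000000400000004 ∨ v = 600000003 ∨
      v = 400040001 ∨ v = 300060000) Lb_trio hσ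
  have e0 : psi f100 (σ • tro 512015) (σ • tro 512015) = 30000000000000006 := by
    rw [psi_smul]
    exact lab_trio_1
  obtain ⟨X1, h1, X2, h2, X3, h3, X4, h4, r1, r2, r3, r4, r5⟩ := four_orbits_self
    (σ • tro 512015) trios (psi f100 (σ • tro 512015)) trios_inv
    (fun τ hτ x _ => psi_inv (mem_stabM.mp hτ).2 x)
    hT' ha c0 e0 c1 c2 c3 c4 (by norm_num) (by norm_num) (by norm_num) (by norm_num) hlab
  refine ⟨X1, h1, X2, h2, X3, h3, X4, h4, r1, r2, r3, r4, r5, ?_⟩
  refine coatom_of_classes (σ • tro 512015) trios (psi f100 (σ • tro 512015))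
    (Set.toFinite _) trios_inv ha (fun x hx => trio_trans ha hx) hT'
    {30000000000000006, 10000000400000004, 600000003, 400040001, 300060000}
    (fun l => if l = 30000000000000006 then 1 else if l = 10000000400000004 then 42 else
      if l = 600000003 then 56 else if l = 400040001 then 1008 else 2688)
    (fun x hx => ?_) (fun l hl => ?_) 30000000000000006 3795 e0 Cfsg.Agent.S1557.result.2
    (by norm_num) (by decide)
  · have := hlab x hx
    simp only [Finset.mem_insert, Finset.mem_singleton]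
    exact this
  · simp only [Finset.mem_insert, Finset.mem_singleton] at hl
    rcases hl with rfl | rfl | rfl | rfl | rfl
    · rw [if_pos rfl]
      exact c0
    · rw [if_neg (by norm_num), if_pos rfl]
      exact c1
    · rw [if_neg (by norm_num), if_neg (by norm_num), if_pos rfl]
      exact c2
    · rw [if_neg (by norm_num), if_neg (by norm_num), if_neg (by norm_num), if_pos rfl]
      exact c3
    · rw [if_neg (by norm_num), if_neg (by norm_num), if_neg (by norm_num), if_neg (by norm_num)]
      exact c4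

end Cfsg.Agent.S1559
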