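import Cfsg.Statements.S1562
import Cfsg.Agent.Lib.Helper3.M24Triad

set_option autoImplicit false
open scoped Pointwise
open Cfsg

namespace Cfsg.Agent.S1562

open Cfsg.Agent.Lib.Helper3.Golay Cfsg.Agent.Lib.Helper3.Golay2
open Cfsg.Agent.Lib.Helper3.GolayM24 Cfsg.Agent.Lib.Helper3.M24Perm
open Cfsg.Agent.Lib.Helper3.M24Cert Cfsg.Agent.Lib.Helper3.M24Trans
open Cfsg.Agent.Lib.Helper3.M24Cls Cfsg.Agent.Lib.Helper3.M24Triad

/-- Orbits of a triad stabiliser on the triads disjoint from it: the 210 triads inside a common octad with it form one orbit and the remaining 1120 another. -/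
theorem result (T : Finset Cfsg.GolayPt) (hT : T.card = 3) : {U : Finset Cfsg.GolayPt | U.card = 3 ∧ Disjoint T U ∧ (∃ o ∈ Cfsg.octads, T ∪ U ⊆ o)}.ncard = 210 ∧ {U : Finset Cfsg.GolayPt | U.card = 3 ∧ Disjoint T U ∧ ¬ (∃ o ∈ Cfsg.octads, T ∪ U ⊆ o)}.ncard = 1120 ∧ ∀ U U' : Finset Cfsg.GolayPt, U.card = 3 → U'.card = 3 → Disjoint T U → Disjoint T U' → ((∃ o ∈ Cfsg.octads, T ∪ U ⊆ o) ↔ (∃ o ∈ Cfsg.octads, T ∪ U' ⊆ o)) → ∃ g : Equiv.Perm Cfsg.GolayPt, g ∈ Cfsg.M24 ∧ g • T = T ∧ g • U = U' := by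
  classical
  have key : ∀ U : Finset Cfsg.GolayPt, Disjoint T U →
      tlab T U = if ∃ o ∈ Cfsg.octads, T ∪ U ⊆ o then 1 else 2 := by
    intro U hd
    unfold tlab
    rw [if_pos (by rw [Finset.card_eq_zero, ← Finset.disjoint_iff_inter_eq_empty]; exact hd)]
  have key2 : ∀ U : Finset Cfsg.GolayPt, tlab T U = 1 ∨ tlab T U = 2 → Disjoint T U := by
    intro U h
    by_contra hd
    have h1 : (T ∩ U).card ≠ 0 := by
      rw [Ne, Finset.card_eq_zero, ← Finset.disjoint_iff_inter_eq_empty]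
      exact hd
    unfold tlab at h
    rw [if_neg h1] at h
    omega
  obtain ⟨c1, c2, -, -, -⟩ := triad_count hT
  refine ⟨?_, ?_, ?_⟩
  · rw [← c1]
    congr 1
    ext U
    simp only [Set.mem_ofPred_eq]
    constructor
    · rintro ⟨h3, hd, ho⟩
      exact ⟨h3, by rw [key U hd, if_pos ho]⟩
    · rintro ⟨h3, hl⟩
      have hd := key2 U (Or.inl hl)
      rw [key U hd] at hl
      refine ⟨h3, hd, ?_⟩
      by_contra ho
      rw [if_neg ho] at hl
      omega
  · rw [← c2]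
    congr 1
    ext U
    simp only [Set.mem_ofPred_eq]
    constructor
    · rintro ⟨h3, hd, ho⟩
      exact ⟨h3, by rw [key U hd, if_neg ho]⟩
    · rintro ⟨h3, hl⟩
      have hd := key2 U (Or.inr hl)
      rw [key U hd] at hl
      refine ⟨h3, hd, ?_⟩
      intro ho
      rw [if_pos ho] at hl
      omega
  · intro U U' hU hU' hd hd' hiff
    apply triad_trans hT hU hU'
    rw [key U hd, key U' hd']
    by_cases ho : ∃ o ∈ Cfsg.octads, T ∪ U ⊆ o
    · rw [if_pos ho, if_pos (hiff.mp ho)]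
    · rw [if_neg ho, if_neg (fun h => ho (hiff.mpr h))]

end Cfsg.Agent.S1562
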