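import Cfsg.Statements.S1564
import Cfsg.Agent.Lib.Helper3.M24Triad
import Cfsg.Agent.Lib.Helper3.Coatom

set_option autoImplicit false
open scoped Pointwise
open Cfsg

namespace Cfsg.Agent.S1564

open Cfsg.Agent.Lib.Helper3.Golay Cfsg.Agent.Lib.Helper3.Golay2
open Cfsg.Agent.Lib.Helper3.GolayM24 Cfsg.Agent.Lib.Helper3.M24Perm
open Cfsg.Agent.Lib.Helper3.M24Cert Cfsg.Agent.Lib.Helper3.M24Trans
open Cfsg.Agent.Lib.Helper3.M24Cls Cfsg.Agent.Lib.Helper3.M24Triad

/-- The stabiliser of a set of three points (setwise) is a maximal proper subgroup of the group of the length-24 code. -/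
theorem result (s : Finset Cfsg.GolayPt) (hs : s.card = 3) : IsCoatom (MulAction.stabilizer Cfsg.M24 s) := by
  classical
  obtain ⟨c1, c2, c3, c4, c5⟩ := triad_count hs
  refine Cfsg.Agent.Lib.Helper3.Coatom.coatom_of_suborbits (G := ↥M24)
    (MulAction.stabilizer M24 s) s {x | x.card = 3} {s} (Set.toFinite _)
    (fun g => by
      show (g • s).card = 3
      rw [Finset.card_smul_finset]
      exact hs)
    (fun x hx => by
      obtain ⟨σ, hσ, e⟩ := triad_std hs
      obtain ⟨τ, hτ, e'⟩ := triad_std hx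
      refine ⟨⟨τ * σ⁻¹, M24.mul_mem hτ (M24.inv_mem hσ)⟩, ?_⟩
      show (τ * σ⁻¹) • s = x
      rw [mul_smul, ← e, inv_smul_smul, e'])
    (fun g hg => MulAction.mem_stabilizer_iff.mpr hg)
    (fun k hk => MulAction.mem_stabilizer_iff.mp hk)
    (fun b hb => ⟨1, Subgroup.one_mem _, by rw [one_smul]; exact hb.symm⟩)
    (fun x => tlab s x)
    (fun x hx y hy h => by
      obtain ⟨g, hg, e1, e2⟩ := triad_trans hs hx hy h
      exact ⟨⟨g, hg⟩, MulAction.mem_stabilizer_iff.mpr e1, e2⟩)
    {1, 2, 3, 4, 5}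
    (fun l => if l = 1 then 210 else if l = 2 then 1120 else if l = 3 then 630
      else if l = 4 then 63 else 1)
    (fun x hx => ?_) (fun l hl => ?_) 5 2024 1 ?_
    (by rw [ncard_card_eq]; decide) (Set.ncard_singleton s) (by norm_num) (by decide)
  · have h1 : (s ∩ x).card ≤ 3 := by
      rw [← hs]
      exact Finset.card_le_card Finset.inter_subset_left
    simp only [Finset.mem_insert, Finset.mem_singleton]
    show tlab s x = 1 ∨ tlab s x = 2 ∨ tlab s x = 3 ∨ tlab s x = 4 ∨ tlab s x = 5
    unfold tlab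
    split_ifs <;> omega
  · simp only [Finset.mem_insert, Finset.mem_singleton] at hl
    rcases hl with rfl | rfl | rfl | rfl | rfl
    · exact c1
    · exact c2
    · exact c3
    · exact c4
    · exact c5
  · show tlab s s = 5
    unfold tlab
    rw [Finset.inter_self, hs]
    simp

end Cfsg.Agent.S1564
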