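import Cfsg.Statements.S1565
import Cfsg.Agent.Lib.Helper3.M24Meet
import Cfsg.Agent.Lib.Helper3.Coatom

set_option autoImplicit false
open scoped Pointwise
open Cfsg

namespace Cfsg.Agent.S1565

open Cfsg.Agent.Lib.Helper3.Golay Cfsg.Agent.Lib.Helper3.Golay2
open Cfsg.Agent.Lib.Helper3.M24Trans Cfsg.Agent.Lib.Helper3.M24Orb Cfsg.Agent.Lib.Helper3.M24Meet

/-- The stabiliser of an octad is a maximal proper subgroup of the group of the length-24 code. -/
theorem result (o : Finset Cfsg.GolayPt) (ho : o ∈ Cfsg.octads) : IsCoatom (MulAction.stabilizer Cfsg.M24 o) := by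
  classical
  refine Cfsg.Agent.Lib.Helper3.Coatom.coatom_of_suborbits (G := ↥M24) (MulAction.stabilizer M24 o)
    o octads {o} (Set.toFinite _) (fun g => smul_mem_octads g.2 ho)
    (fun s hs => by
      obtain ⟨g, hg, e⟩ := octad_trans ho hs
      exact ⟨⟨g, hg⟩, e⟩)
    (fun g hg => MulAction.mem_stabilizer_iff.mpr hg)
    (fun k hk => MulAction.mem_stabilizer_iff.mp hk)
    (fun b hb => ⟨1, Subgroup.one_mem _, by rw [one_smul]; exact hb.symm⟩)
    (fun x => (o ∩ x).card)
    (fun x hx y hy h => by
      obtain ⟨g, hg, e1, e2⟩ := octad_stab_orbits o x y ho hx hy h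
      exact ⟨⟨g, hg⟩, MulAction.mem_stabilizer_iff.mpr e1, e2⟩)
    {0, 2, 4, 8} (fun l => if l = 0 then 30 else if l = 2 then 448 else if l = 4 then 280 else 1)
    (fun x hx => ?_) (fun l hl => ?_) 8 759 1 (by rw [Finset.inter_self]; exact ho.2)
    ncard_octads (Set.ncard_singleton o) (by norm_num) (by decide)
  · by_cases hxo : o = x
    · subst hxo
      rw [Finset.inter_self, ho.2]
      decide
    · rcases octads_inter_cases ho hx hxo with h | h | h <;> rw [h] <;> decide
  · obtain ⟨h0, h2, h4, h8⟩ := octad_meet_ncard ho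
    simp only [Finset.mem_insert, Finset.mem_singleton] at hl
    rcases hl with rfl | rfl | rfl | rfl
    · exact h0
    · exact h2
    · exact h4
    · exact h8

end Cfsg.Agent.S1565
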