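import Cfsg.Statements.S1566
import Cfsg.Agent.Lib.Helper3.M24Meet
import Cfsg.Agent.Lib.Helper3.Coatom

set_option autoImplicit false
open scoped Pointwise
open Cfsg

namespace Cfsg.Agent.S1566

open Cfsg.Agent.Lib.Helper3.Golay Cfsg.Agent.Lib.Helper3.Golay2
open Cfsg.Agent.Lib.Helper3.M24Trans Cfsg.Agent.Lib.Helper3.M24Dod
open Cfsg.Agent.Lib.Helper3.M24Orb Cfsg.Agent.Lib.Helper3.M24Meet

theorem smul_compl' (g : ↥M24) (s : Finset GolayPt) : g • sᶜ = (g • s)ᶜ := by
  ext x
  rw [Finset.mem_compl, ← Finset.inv_smul_mem_iff, ← Finset.inv_smul_mem_iff, Finset.mem_compl]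

/-- The setwise stabiliser of a dodecad together with its complement is a maximal proper subgroup of the group of the length-24 code. -/
theorem result (d : Finset Cfsg.GolayPt) (hd : d ∈ Cfsg.dodecads) : IsCoatom (MulAction.stabilizer Cfsg.M24 ({d, dᶜ} : Finset (Finset Cfsg.GolayPt))) := by
  classical
  have hdc : dᶜ ∈ dodecads := ⟨compl_mem_supports hd.1, by
    rw [Finset.card_compl, hd.2, card_golayPt]⟩
  have hne : d ≠ dᶜ := fun h => by
    have h1 : d.card = dᶜ.card := by rw [← h]
    rw [Finset.card_compl, hd.2, card_golayPt] at h1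
    have h2 : d ∩ d = ∅ := by
      nth_rewrite 2 [h]
      exact Finset.inter_compl d
    rw [Finset.inter_self] at h2
    rw [h2] at hd
    have h3 := hd.2
    simp at h3
  have hKmem : ∀ g : ↥M24, (g • d = d ∨ g • d = dᶜ) →
      g ∈ MulAction.stabilizer M24 ({d, dᶜ} : Finset (Finset Cfsg.GolayPt)) := by
    intro g hg
    rw [MulAction.mem_stabilizer_iff, Finset.smul_finset_insert, Finset.smul_finset_singleton,
      smul_compl']
    rcases hg with hg | hg
    · rw [hg]
    · rw [hg, compl_compl, Finset.pair_comm]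
  refine Cfsg.Agent.Lib.Helper3.Coatom.coatom_of_suborbits (G := ↥M24)
    (MulAction.stabilizer M24 ({d, dᶜ} : Finset (Finset Cfsg.GolayPt)))
    d dodecads {d, dᶜ} (Set.toFinite _) (fun g => smul_mem_dodecads g.2 hd)
    (fun s hs => by
      obtain ⟨g, hg, e⟩ := dodecad_trans hd hs
      exact ⟨⟨g, hg⟩, e⟩)
    (fun g hg => hKmem g (Or.inl hg))
    (fun k hk => by
      have h1 : k • d ∈ k • ({d, dᶜ} : Finset (Finset Cfsg.GolayPt)) :=
        Finset.smul_mem_smul_finset (Finset.mem_insert_self _ _)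
      rw [MulAction.mem_stabilizer_iff.mp hk, Finset.mem_insert, Finset.mem_singleton] at h1
      exact h1)
    (fun b hb => by
      rcases hb with rfl | hb
      · exact ⟨1, Subgroup.one_mem _, one_smul _ _⟩
      · obtain ⟨g, hg, e⟩ := dodecad_trans hd hdc
        exact ⟨⟨g, hg⟩, hKmem _ (Or.inr e), by rw [hb]; exact e⟩)
    (fun x => (d ∩ x).card)
    (fun x hx y hy h => by
      obtain ⟨g, hg, e1, e2⟩ := dodecad_stab_orbits d x y hd hx hy h
      exact ⟨⟨g, hg⟩, hKmem _ (Or.inl e1), e2⟩)
    {0, 4, 6, 8, 12} (fun l => if l = 4 then 495 else if l = 6 then 1584 else if l = 8 then 495 else 1)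
    (fun x hx => ?_) (fun l hl => ?_) 12 2576 2 (by rw [Finset.inter_self]; exact hd.2)
    ncard_dodecads (Set.ncard_pair hne) (by norm_num) (by decide)
  · rcases dodecad_inter_cases hd hx with h | h | h | h | h <;> rw [h] <;> decide
  · obtain ⟨h0, h4, h6, h8, h12⟩ := dodecad_meet_ncard hd
    simp only [Finset.mem_insert, Finset.mem_singleton] at hl
    rcases hl with rfl | rfl | rfl | rfl | rfl
    · exact h0
    · exact h4
    · exact h6
    · exact h8
    · exact h12

end Cfsg.Agent.S1566
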