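import Cfsg.Statements.S1568
import Cfsg.Agent.Lib.Helper11.LeechGF2

set_option autoImplicit false
open Cfsg

namespace Cfsg.Agent.S1568

open Cfsg.Agent.Lib.Helper11.LeechGF

/-- Marker: a coordinate outside `{0, 2, -2}`. -/
def mk1 (v : ℤ) : ℕ := if v = 0 ∨ v = 2 ∨ v = -2 then 0 else 1

/-- Marker: a coordinate `± 3`. -/
def mk2 (v : ℤ) : ℕ := if v = 3 ∨ v = -3 then 1 else 0

/-- Marker: a coordinate `± 4`. -/
def mk3 (v : ℤ) : ℕ := if v = 4 ∨ v = -4 then 1 else 0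

/-- Marker: a coordinate `± 5`. -/
def mk4 (v : ℤ) : ℕ := if v = 5 ∨ v = -5 then 1 else 0

theorem mk1_le (v : ℤ) : mk1 v ≤ 1 := by unfold mk1; split_ifs <;> omega
theorem mk2_le (v : ℤ) : mk2 v ≤ 1 := by unfold mk2; split_ifs <;> omega
theorem mk3_le (v : ℤ) : mk3 v ≤ 1 := by unfold mk3; split_ifs <;> omega
theorem mk4_le (v : ℤ) : mk4 v ≤ 1 := by unfold mk4; split_ifs <;> omega

theorem num1 : gwT mk1 48 {0} 0 + 759 * gwT mk1 48 {0} 8 + 2576 * gwT mk1 48 {0} 12 +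
    759 * gwT mk1 48 {0} 16 + gwT mk1 48 {0} 24 = 5275648 := by
  decide +kernel

theorem num2 : gwT mk2 48 (Finset.Icc 3 24) 0 + 759 * gwT mk2 48 (Finset.Icc 3 24) 8 +
    2576 * gwT mk2 48 (Finset.Icc 3 24) 12 + 759 * gwT mk2 48 (Finset.Icc 3 24) 16 +
    gwT mk2 48 (Finset.Icc 3 24) 24 = 8290304 := by
  decide +kernel

theorem num3 : gwT mk3 48 (Finset.Icc 1 24) 0 + 759 * gwT mk3 48 (Finset.Icc 1 24) 8 +
    2576 * gwT mk3 48 (Finset.Icc 1 24) 12 + 759 * gwT mk3 48 (Finset.Icc 1 24) 16 +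
    gwT mk3 48 (Finset.Icc 1 24) 24 = 3108864 := by
  decide +kernel

theorem num4 : gwT mk4 48 (Finset.Icc 1 24) 0 + 759 * gwT mk4 48 (Finset.Icc 1 24) 8 +
    2576 * gwT mk4 48 (Finset.Icc 1 24) 12 + 759 * gwT mk4 48 (Finset.Icc 1 24) 16 +
    gwT mk4 48 (Finset.Icc 1 24) 24 = 98304 := by
  decide +kernel

theorem sum_mk_card (x : GolayPt → ℤ) (a : ℤ) :
    ∑ i, (if x i = a ∨ x i = -a then 1 else 0) =
      (Finset.univ.filter fun i => x i = a ∨ x i = -a).card := by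
  rw [Finset.card_filter]

theorem exists_iff_card (x : GolayPt → ℤ) (a : ℤ) (ha : 0 ≤ a) :
    (∃ i, |x i| = a) ↔ (Finset.univ.filter fun i => x i = a ∨ x i = -a).card ∈ Finset.Icc 1 24 := by
  rw [Finset.mem_Icc]
  constructor
  · rintro ⟨i, hi⟩
    refine ⟨Finset.card_pos.mpr ⟨i, ?_⟩, ?_⟩
    · rw [Finset.mem_filter]
      exact ⟨Finset.mem_univ _, (abs_eq ha).mp hi⟩
    · rw [← card_pt]; exact Finset.card_le_univ _
  · rintro ⟨h, _⟩
    obtain ⟨i, hi⟩ := Finset.card_pos.mp h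
    rw [Finset.mem_filter] at hi
    exact ⟨i, (abs_eq ha).mpr hi.2⟩

theorem exists3_iff_card (x : GolayPt → ℤ) (a : ℤ) (ha : 0 ≤ a) :
    (∃ i j k, i ≠ j ∧ j ≠ k ∧ i ≠ k ∧ |x i| = a ∧ |x j| = a ∧ |x k| = a) ↔
      (Finset.univ.filter fun i => x i = a ∨ x i = -a).card ∈ Finset.Icc 3 24 := by
  rw [Finset.mem_Icc]
  have hm : ∀ i, i ∈ (Finset.univ.filter fun i => x i = a ∨ x i = -a) ↔ |x i| = a := by
    intro i
    rw [Finset.mem_filter, abs_eq ha]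
    simp
  constructor
  · rintro ⟨i, j, k, hij, hjk, hik, hi, hj, hk⟩
    refine ⟨?_, ?_⟩
    · have : 2 < (Finset.univ.filter fun i => x i = a ∨ x i = -a).card :=
        Finset.two_lt_card.mpr ⟨i, (hm i).mpr hi, j, (hm j).mpr hj, k, (hm k).mpr hk, hij, hik, hjk⟩
      omega
    · rw [← card_pt]; exact Finset.card_le_univ _
  · rintro ⟨h, _⟩
    have h2 : 2 < (Finset.univ.filter fun i => x i = a ∨ x i = -a).card := by omega
    obtain ⟨i, hi, j, hj, k, hk, hij, hik, hjk⟩ := Finset.two_lt_card.mp h2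
    exact ⟨i, j, k, hij, hjk, hik, (hm i).mp hi, (hm j).mp hj, (hm k).mp hk⟩

theorem all_iff_sum (x : GolayPt → ℤ) :
    (∀ i, x i = 0 ∨ x i = 2 ∨ x i = -2) ↔ ∑ i, mk1 (x i) ∈ ({0} : Finset ℕ) := by
  rw [Finset.mem_singleton, Finset.sum_eq_zero_iff]
  refine forall_congr' fun i => ?_
  unfold mk1
  constructor
  · intro h _
    rw [if_pos h]
  · intro h
    by_contra hc
    have := h (Finset.mem_univ i)
    rw [if_neg hc] at this
    omega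

theorem result : {x : Cfsg.GolayPt → ℤ | x ∈ Cfsg.leechLattice ∧ Cfsg.sqNorm x = 48 ∧ ∀ i, x i = 0 ∨ x i = 2 ∨ x i = -2}.ncard = 5275648 ∧ {x : Cfsg.GolayPt → ℤ | x ∈ Cfsg.leechLattice ∧ Cfsg.sqNorm x = 48 ∧ ∃ i j k, i ≠ j ∧ j ≠ k ∧ i ≠ k ∧ |x i| = 3 ∧ |x j| = 3 ∧ |x k| = 3}.ncard = 8290304 ∧ {x : Cfsg.GolayPt → ℤ | x ∈ Cfsg.leechLattice ∧ Cfsg.sqNorm x = 48 ∧ ∃ i, |x i| = 4}.ncard = 3108864 ∧ {x : Cfsg.GolayPt → ℤ | x ∈ Cfsg.leechLattice ∧ Cfsg.sqNorm x = 48 ∧ ∃ i, |x i| = 5}.ncard = 98304 := by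
  have e1 := count_evalT mk1 mk1_le 48 (by norm_num) {0} (by simp)
  have e2 := count_evalT mk2 mk2_le 48 (by norm_num) (Finset.Icc 3 24)
    (fun a ha => (Finset.mem_Icc.mp ha).2)
  have e3 := count_evalT mk3 mk3_le 48 (by norm_num) (Finset.Icc 1 24)
    (fun a ha => (Finset.mem_Icc.mp ha).2)
  have e4 := count_evalT mk4 mk4_le 48 (by norm_num) (Finset.Icc 1 24)
    (fun a ha => (Finset.mem_Icc.mp ha).2)
  rw [num1] at e1
  rw [num2] at e2
  rw [num3] at e3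
  rw [num4] at e4
  refine ⟨?_, ?_, ?_, ?_⟩
  · rw [← e1]
    congr 1
    ext x
    simp only [Set.mem_ofPred_eq, Nat.cast_ofNat]
    rw [all_iff_sum]
  · rw [← e2]
    congr 1
    ext x
    simp only [Set.mem_ofPred_eq, Nat.cast_ofNat]
    rw [exists3_iff_card x 3 (by norm_num), ← sum_mk_card]
    rfl
  · rw [← e3]
    congr 1
    ext x
    simp only [Set.mem_ofPred_eq, Nat.cast_ofNat]
    rw [exists_iff_card x 4 (by norm_num), ← sum_mk_card]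
    rfl
  · rw [← e4]
    congr 1
    ext x
    simp only [Set.mem_ofPred_eq, Nat.cast_ofNat]
    rw [exists_iff_card x 5 (by norm_num), ← sum_mk_card]
    rfl

end Cfsg.Agent.S1568
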