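import Cfsg.Statements.S1578
import Cfsg.Agent.Lib.Helper11.LeechCo3

set_option autoImplicit false
open Cfsg

namespace Cfsg.Agent.S1578

theorem result (u : ↥Cfsg.leechLattice) (hu : Cfsg.sqNorm (u : Cfsg.GolayPt → ℤ) = 48) : {v : ↥Cfsg.leechLattice | Cfsg.sqNorm (v : Cfsg.GolayPt → ℤ) = 32 ∧ Cfsg.sqNorm ((u - v) : Cfsg.GolayPt → ℤ) = 32}.ncard = 552 := by
  exact Cfsg.Agent.Lib.Helper11.LeechXi.pairs_count u hu

end Cfsg.Agent.S1578
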