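import Cfsg.Statements.S1579
import Cfsg.Agent.Lib.Helper11.LeechSt8

set_option autoImplicit false
open Cfsg

namespace Cfsg.Agent.S1579

theorem result (u v v' : ↥Cfsg.leechLattice) (hu : Cfsg.sqNorm (u : Cfsg.GolayPt → ℤ) = 48) (hv : Cfsg.sqNorm (v : Cfsg.GolayPt → ℤ) = 32 ∧ Cfsg.sqNorm ((u - v) : Cfsg.GolayPt → ℤ) = 32) (hv' : Cfsg.sqNorm (v' : Cfsg.GolayPt → ℤ) = 32 ∧ Cfsg.sqNorm ((u - v') : Cfsg.GolayPt → ℤ) = 32) : ∃ g : ↥Cfsg.Co0, g • u = u ∧ g • v = v' := by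
  obtain ⟨g, hg, h1, h2⟩ := Cfsg.Agent.Lib.Helper11.LeechSt.trans552 u v v' hu hv.1 hv.2
    hv'.1 hv'.2
  exact ⟨⟨g, hg⟩, h1, h2⟩

end Cfsg.Agent.S1579
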