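import Cfsg.Statements.S1585
import Cfsg.Agent.Lib.Helper11.LeechSt48

set_option autoImplicit false
open Cfsg

namespace Cfsg.Agent.S1585

theorem result (v w : ↥Cfsg.leechLattice) (hv : Cfsg.sqNorm (v : Cfsg.GolayPt → ℤ) = 48) (hw : Cfsg.sqNorm (w : Cfsg.GolayPt → ℤ) = 48) (hvw : Cfsg.dotInt (v : Cfsg.GolayPt → ℤ) (w : Cfsg.GolayPt → ℤ) = -32) : ∃ g : ↥Cfsg.Co0, g • v = w ∧ g • w = v := by
  have dneg1 : ∀ a b : Cfsg.GolayPt → ℤ,
      Cfsg.dotInt (-(a + b)) a = -(Cfsg.sqNorm a + Cfsg.dotInt a b) := by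
    intro a b
    unfold Cfsg.dotInt Cfsg.sqNorm
    rw [← Finset.sum_add_distrib, ← Finset.sum_neg_distrib]
    refine Finset.sum_congr rfl fun i _ => ?_
    simp only [Pi.neg_apply, Pi.add_apply]
    ring
  have dneg2 : ∀ a b : Cfsg.GolayPt → ℤ,
      Cfsg.dotInt (-(a + b)) b = -(Cfsg.dotInt a b + Cfsg.sqNorm b) := by
    intro a b
    unfold Cfsg.dotInt Cfsg.sqNorm
    rw [← Finset.sum_add_distrib, ← Finset.sum_neg_distrib]
    refine Finset.sum_congr rfl fun i _ => ?_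
    simp only [Pi.neg_apply, Pi.add_apply]
    ring
  have hx : Cfsg.sqNorm ((-(v + w) : ↥Cfsg.leechLattice) : Cfsg.GolayPt → ℤ) = 32 := by
    have nneg : ∀ a b : Cfsg.GolayPt → ℤ,
        Cfsg.sqNorm (-(a + b)) = Cfsg.sqNorm a + Cfsg.sqNorm b + 2 * Cfsg.dotInt a b := by
      intro a b
      unfold Cfsg.dotInt Cfsg.sqNorm
      rw [Finset.mul_sum, ← Finset.sum_add_distrib, ← Finset.sum_add_distrib]
      refine Finset.sum_congr rfl fun i _ => ?_
      simp only [Pi.neg_apply, Pi.add_apply]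
      ring
    rw [AddSubgroup.coe_neg, AddSubgroup.coe_add, nneg, hv, hw, hvw]
    norm_num
  have h1 : Cfsg.dotInt ((-(v + w) : ↥Cfsg.leechLattice) : Cfsg.GolayPt → ℤ)
      (v : Cfsg.GolayPt → ℤ) = -16 := by
    rw [AddSubgroup.coe_neg, AddSubgroup.coe_add, dneg1, hv, hvw]
    norm_num
  have h2 : Cfsg.dotInt ((-(v + w) : ↥Cfsg.leechLattice) : Cfsg.GolayPt → ℤ)
      (w : Cfsg.GolayPt → ℤ) = -16 := by
    rw [AddSubgroup.coe_neg, AddSubgroup.coe_add, dneg2, hw, hvw]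
    norm_num
  obtain ⟨g, hg, e1, e2⟩ :=
    Cfsg.Agent.Lib.Helper11.LeechSt.pair48 (-(v + w)) v w hx hv hw h1 h2
  refine ⟨⟨g, hg⟩, e2, ?_⟩
  show g w = v
  have e3 : g (v + w) = v + w := by
    have h := Cfsg.Agent.Lib.Helper11.Co0Mono.perm_neg g hg.1 (v + w)
    rw [e1] at h
    exact (neg_injective h).symm
  rw [hg.1, e2] at e3
  exact add_left_cancel (a := w) (by rw [e3, add_comm])

end Cfsg.Agent.S1585
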