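import Cfsg.Statements.S1587

set_option autoImplicit false
open Matrix
open Cfsg

namespace Cfsg.Agent.S1587

theorem bsymm (B : Matrix (Fin 24) (Fin 24) ℤ) (hsymm : B.IsSymm) (x y : Fin 24 → ℤ) :
    x ⬝ᵥ (B *ᵥ y) = y ⬝ᵥ (B *ᵥ x) := by
  rw [Matrix.dotProduct_mulVec, ← Matrix.mulVec_transpose, hsymm.eq, dotProduct_comm]

theorem qge4 (B : Matrix (Fin 24) (Fin 24) ℤ) (hpos : ∀ x : Fin 24 → ℤ, x ≠ 0 → 0 < x ⬝ᵥ (B *ᵥ x)) (heven : ∀ x : Fin 24 → ℤ, (2 : ℤ) ∣ x ⬝ᵥ (B *ᵥ x)) (h2 : ∀ x : Fin 24 → ℤ, x ⬝ᵥ (B *ᵥ x) ≠ 2) (z : Fin 24 → ℤ) (hz : z ≠ 0) : 4 ≤ z ⬝ᵥ (B *ᵥ z) := by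
  have h1 := hpos z hz
  have h3 := heven z
  have h4 := h2 z
  omega

theorem result (B : Matrix (Fin 24) (Fin 24) ℤ) (hsymm : B.IsSymm) (hpos : ∀ x : Fin 24 → ℤ, x ≠ 0 → 0 < x ⬝ᵥ (B *ᵥ x)) (heven : ∀ x : Fin 24 → ℤ, (2 : ℤ) ∣ x ⬝ᵥ (B *ᵥ x)) (h2 : ∀ x : Fin 24 → ℤ, x ⬝ᵥ (B *ᵥ x) ≠ 2) (x y : Fin 24 → ℤ) (hx : x ⬝ᵥ (B *ᵥ x) = 8) (hy : y ⬝ᵥ (B *ᵥ y) = 8) (hc : ∀ i, (2 : ℤ) ∣ (x - y) i) : y = x ∨ y = -x ∨ x ⬝ᵥ (B *ᵥ y) = 0 := by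
  choose z hz using hc
  have hxy : x - y = (2 : ℤ) • z := by
    funext i
    rw [hz i]
    simp
  have hyx := bsymm B hsymm y x
  have e1 : (x - y) ⬝ᵥ (B *ᵥ (x - y)) = 16 - 2 * (x ⬝ᵥ (B *ᵥ y)) := by
    rw [Matrix.mulVec_sub, sub_dotProduct, dotProduct_sub, dotProduct_sub, hx, hy, hyx]
    ring
  have e2 : ((2 : ℤ) • z) ⬝ᵥ (B *ᵥ ((2 : ℤ) • z)) = 4 * (z ⬝ᵥ (B *ᵥ z)) := by
    rw [Matrix.mulVec_smul, smul_dotProduct, dotProduct_smul]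
    simp only [smul_eq_mul]
    ring
  rw [hxy, e2] at e1
  have hxpy : x + y = (2 : ℤ) • (x - z) := by
    have : y = x - (2 : ℤ) • z := by rw [← hxy]; abel
    rw [this]
    funext i
    simp
    ring
  have e3 : (x + y) ⬝ᵥ (B *ᵥ (x + y)) = 16 + 2 * (x ⬝ᵥ (B *ᵥ y)) := by
    rw [Matrix.mulVec_add, add_dotProduct, dotProduct_add, dotProduct_add, hx, hy, hyx]
    ring
  have e4 : ((2 : ℤ) • (x - z)) ⬝ᵥ (B *ᵥ ((2 : ℤ) • (x - z))) = 4 * ((x - z) ⬝ᵥ (B *ᵥ (x - z))) := by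
    rw [Matrix.mulVec_smul, smul_dotProduct, dotProduct_smul]
    simp only [smul_eq_mul]
    ring
  rw [hxpy, e4] at e3
  by_cases hz0 : z = 0
  · left
    rw [hz0, smul_zero] at hxy
    exact (sub_eq_zero.mp hxy).symm
  by_cases hw0 : x - z = 0
  · right; left
    rw [hw0, smul_zero] at hxpy
    exact (eq_neg_of_add_eq_zero_right hxpy)
  right; right
  have hq1 := qge4 B hpos heven h2 z hz0
  have hq2 := qge4 B hpos heven h2 (x - z) hw0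
  omega

end Cfsg.Agent.S1587
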