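import Cfsg.Statements.S1590
import Cfsg.Agent.Lib.Helper11.TGolay

set_option autoImplicit false
open Cfsg

namespace Cfsg.Agent.S1590

open Cfsg.Agent.Lib.Helper11.TGolay

theorem check_weights : (List.range 729).all (fun n => Nat.beq n 0 ||
    (Nat.beq (pc12 (sup n)) 6 || Nat.beq (pc12 (sup n)) 9 || Nat.beq (pc12 (sup n)) 12)) = true := by
  decide +kernel

theorem count6 : ((Finset.range 729).filter (fun n => pc12 (sup n) = 6)).card = 264 := by
  decide +kernel
theorem count9 : ((Finset.range 729).filter (fun n => pc12 (sup n) = 9)).card = 440 := by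
  decide +kernel
theorem count12 : ((Finset.range 729).filter (fun n => pc12 (sup n) = 12)).card = 24 := by
  decide +kernel

lemma ncard_weight (w : ℕ) :
    {x : ArrayPt → ZMod 3 | x ∈ ternaryGolayCode ∧ (ternarySupport x).card = w}.ncard
      = ((Finset.range 729).filter (fun n => pc12 (sup n) = w)).card := by
  have h1 : {x : ArrayPt → ZMod 3 | x ∈ ternaryGolayCode ∧ (ternarySupport x).card = w}
      = tw '' {n | n < 729 ∧ pc12 (sup n) = w} := by
    ext x
    simp only [Set.mem_ofPred_eq, mem_iff, Set.mem_image]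
    constructor
    · rintro ⟨⟨n, hn, rfl⟩, hw⟩
      exact ⟨n, ⟨hn, by rw [← card_supp_tw n hn]; exact hw⟩, rfl⟩
    · rintro ⟨n, ⟨hn, hw⟩, rfl⟩
      exact ⟨⟨n, hn, rfl⟩, by rw [card_supp_tw n hn]; exact hw⟩
  rw [h1, Set.InjOn.ncard_image]
  · rw [← Set.ncard_coe_finset]
    congr 1
    ext k
    simp
  · intro k hk k' hk' h
    exact tw_injOn k hk.1 k' hk'.1 h

theorem result : Nat.card ↥Cfsg.ternaryGolayCode = 729 ∧ (∀ x ∈ Cfsg.ternaryGolayCode, x ≠ 0 → (Cfsg.ternarySupport x).card = 6 ∨ (Cfsg.ternarySupport x).card = 9 ∨ (Cfsg.ternarySupport x).card = 12) ∧ {x : Cfsg.ArrayPt → ZMod 3 | x ∈ Cfsg.ternaryGolayCode ∧ (Cfsg.ternarySupport x).card = 6}.ncard = 264 ∧ {x : Cfsg.ArrayPt → ZMod 3 | x ∈ Cfsg.ternaryGolayCode ∧ (Cfsg.ternarySupport x).card = 9}.ncard = 440 ∧ {x : Cfsg.ArrayPt → ZMod 3 | x ∈ Cfsg.ternaryGolayCode ∧ (Cfsg.ternarySupport x).card = 12}.ncard = 24 := by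
  refine ⟨natCard_code, ?_, ?_, ?_, ?_⟩
  · intro x hx h0
    obtain ⟨n, hn, rfl⟩ := (mem_iff x).mp hx
    rw [card_supp_tw n hn]
    have h := check_weights
    rw [List.all_eq_true] at h
    have h2 := h n (List.mem_range.mpr hn)
    simp only [Bool.or_eq_true] at h2
    rcases h2 with h2 | (h2 | h2) | h2
    · exfalso
      apply h0
      rw [Nat.eq_of_beq_eq_true h2, tw_zero]
    · left; exact Nat.eq_of_beq_eq_true h2
    · right; left; exact Nat.eq_of_beq_eq_true h2
    · right; right; exact Nat.eq_of_beq_eq_true h2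
  · exact (ncard_weight 6).trans count6
  · exact (ncard_weight 9).trans count9
  · exact (ncard_weight 12).trans count12

end Cfsg.Agent.S1590
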