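import Cfsg.Statements.S1591
import Cfsg.Agent.Lib.Helper11.TGolay

set_option autoImplicit false
open Cfsg

namespace Cfsg.Agent.S1591

theorem result (x y : Cfsg.ArrayPt → ZMod 3) (hx : x ∈ Cfsg.ternaryGolayCode) (hy : y ∈ Cfsg.ternaryGolayCode) : ∑ p, x p * y p = 0 := by
  obtain ⟨m, _, rfl⟩ := (Cfsg.Agent.Lib.Helper11.TGolay.mem_iff x).mp hx
  obtain ⟨n, _, rfl⟩ := (Cfsg.Agent.Lib.Helper11.TGolay.mem_iff y).mp hy
  exact Cfsg.Agent.Lib.Helper11.TGolay.dot_tw_tw m n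

end Cfsg.Agent.S1591
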