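import Cfsg.Statements.S1592
import Cfsg.Agent.Lib.Helper11.TGolay

set_option autoImplicit false
open Cfsg

namespace Cfsg.Agent.S1592

open Cfsg.Agent.Lib.Helper11.TGolay

/-- the 132 hexads as bit masks -/
def blockList : List ℕ := [63, 222, 237, 243, 347, 366, 373, 413, 427, 438, 455, 504, 591, 630, 633, 667, 679, 700, 725, 746, 791, 813, 826, 860, 867, 910, 945, 969, 978, 996, 1117, 1127, 1146, 1175, 1198, 1209, 1227, 1268, 1295, 1331, 1340, 1366, 1385, 1434, 1445, 1484, 1489, 1506, 1566, 1579, 1589, 1619, 1644, 1677, 1714, 1734, 1752, 1761, 1817, 1830, 1861, 1866, 1904, 1923, 1940, 1960, 2135, 2155, 2172, 2191, 2229, 2234, 2265, 2278, 2334, 2343, 2361, 2381, 2418, 2451, 2476, 2506, 2516, 2529, 2589, 2606, 2611, 2650, 2661, 2710, 2729, 2755, 2764, 2800, 2827, 2868, 2886, 2897, 2920, 2949, 2968, 2978, 3099, 3117, 3126, 3150, 3185, 3228, 3235, 3269, 3282, 3304, 3349, 3370, 3395, 3416, 3428, 3462, 3465, 3504, 3591, 3640, 3657, 3668, 3682, 3722, 3729, 3748, 3852, 3858, 3873, 4032]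

/-- numbers of weight-6 words having these supports -/
def blockWit : List ℕ := [134, 393, 289, 410, 439, 318, 335, 154, 32, 102, 269, 459, 284, 429, 379, 112, 17, 117, 415, 276, 97, 37, 141, 369, 247, 51, 83, 299, 327, 252, 479, 259, 354, 95, 39, 137, 301, 342, 49, 85, 144, 417, 272, 114, 10, 279, 325, 249, 156, 34, 100, 332, 306, 47, 87, 264, 432, 245, 110, 12, 262, 303, 405, 5, 90, 27, 346, 305, 441, 43, 91, 138, 353, 255, 120, 14, 109, 307, 330, 89, 45, 273, 423, 244, 146, 48, 86, 462, 263, 105, 29, 250, 315, 324, 35, 99, 258, 407, 270, 11, 135, 3, 142, 38, 96, 294, 406, 126, 4, 254, 411, 297, 101, 33, 248, 378, 261, 15, 28, 81, 13, 108, 271, 333, 246, 30, 82, 9, 36, 84, 1, 243]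

theorem blockList_eq : blockWit.map sup = blockList := by decide +kernel

theorem blockWit_lt : blockWit.all (fun n => Nat.blt n 729) = true := by decide +kernel

theorem blockList_pc : blockList.all (fun b => Nat.beq (pc12 b) 6) = true := by decide +kernel

theorem blockList_nodup : blockList.Nodup := by decide +kernel

theorem blockList_length : blockList.length = 132 := by decide +kernel

theorem blocks_complete : (List.range 729).all (fun n => !(Nat.beq (pc12 (sup n)) 6) ||
    blockList.contains (sup n)) = true := by decide +kernel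

theorem steiner_check : (List.range 4096).all (fun m => !(Nat.beq (pc12 m) 5) ||
    Nat.beq (blockList.filter (fun b => Nat.beq (Nat.land m b) m)).length 1) = true := by
  decide +kernel

/-- the set of hexads -/
def hexads : Set (Finset ArrayPt) :=
  {h : Finset ArrayPt | ∃ x ∈ ternaryGolayCode, ternarySupport x = h ∧ h.card = 6}

lemma block_wit (b : ℕ) (hb : b ∈ blockList) : ∃ n < 729, sup n = b ∧ pc12 (sup n) = 6 := by
  rw [← blockList_eq, List.mem_map] at hb
  obtain ⟨n, hn, rfl⟩ := hb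
  have h1 := blockWit_lt
  rw [List.all_eq_true] at h1
  have h2 := blockList_pc
  rw [List.all_eq_true] at h2
  have hb' : sup n ∈ blockList := by rw [← blockList_eq]; exact List.mem_map.mpr ⟨n, hn, rfl⟩
  exact ⟨n, Nat.le_of_ble_eq_true (h1 n hn), rfl, Nat.eq_of_beq_eq_true (h2 _ hb')⟩

lemma block_lt (b : ℕ) (hb : b ∈ blockList) : b < 4096 := by
  obtain ⟨n, hn, rfl, _⟩ := block_wit b hb
  exact sup_lt n hn

lemma mem_hexads (h : Finset ArrayPt) : h ∈ hexads ↔ ∃ b ∈ blockList, ofMask b = h := by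
  constructor
  · rintro ⟨x, hx, rfl, hcard⟩
    obtain ⟨n, hn, rfl⟩ := (mem_iff x).mp hx
    rw [card_supp_tw n hn] at hcard
    have hc := blocks_complete
    rw [List.all_eq_true] at hc
    have h2 := hc n (List.mem_range.mpr hn)
    rw [hcard] at h2
    simp only [Nat.beq_refl, Bool.not_true, Bool.false_or, List.contains_iff_mem] at h2
    exact ⟨sup n, h2, (supp_tw n hn).symm⟩
  · rintro ⟨b, hb, rfl⟩
    obtain ⟨n, hn, rfl, hpc⟩ := block_wit b hb
    exact ⟨tw n, tw_mem n, supp_tw n hn, by rw [card_ofMask]; exact hpc⟩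

theorem result : Cfsg.IsSteinerSystem 5 6 {h : Finset Cfsg.ArrayPt | ∃ x ∈ Cfsg.ternaryGolayCode, Cfsg.ternarySupport x = h ∧ h.card = 6} ∧ {h : Finset Cfsg.ArrayPt | ∃ x ∈ Cfsg.ternaryGolayCode, Cfsg.ternarySupport x = h ∧ h.card = 6}.ncard = 132 := by
  classical
  have hH : {h : Finset Cfsg.ArrayPt | ∃ x ∈ Cfsg.ternaryGolayCode, Cfsg.ternarySupport x = h ∧ h.card = 6}
      = hexads := rfl
  rw [hH]
  refine ⟨⟨?_, ?_⟩, ?_⟩
  · rintro b ⟨x, _, rfl, hcard⟩
    exact hcard
  · intro s hs
    obtain ⟨m, hm, rfl⟩ := exists_mask s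
    rw [card_ofMask] at hs
    have hc := steiner_check
    rw [List.all_eq_true] at hc
    have h2 := hc m (List.mem_range.mpr hm)
    rw [hs] at h2
    simp only [Nat.beq_refl, Bool.not_true, Bool.false_or] at h2
    have h3 : (blockList.filter (fun b => Nat.beq (Nat.land m b) m)).length = 1 :=
      Nat.eq_of_beq_eq_true h2
    obtain ⟨b0, hb0⟩ := List.length_eq_one_iff.mp h3
    have hmem : ∀ b, b ∈ blockList ∧ m &&& b = m ↔ b = b0 := by
      intro b
      have : b ∈ blockList.filter (fun b => Nat.beq (Nat.land m b) m) ↔ b = b0 := by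
        rw [hb0, List.mem_singleton]
      rw [List.mem_filter] at this
      rw [← this]
      constructor
      · rintro ⟨h1, h2⟩
        refine ⟨h1, ?_⟩
        show Nat.beq (m &&& b) m = true
        rw [h2]; exact Nat.beq_refl m
      · rintro ⟨h1, h2⟩
        exact ⟨h1, Nat.eq_of_beq_eq_true h2⟩
    obtain ⟨hb0L, hb0m⟩ := (hmem b0).mpr rfl
    refine ⟨ofMask b0, ⟨(mem_hexads _).mpr ⟨b0, hb0L, rfl⟩, (ofMask_subset m b0 hm).mpr hb0m⟩, ?_⟩
    rintro h ⟨hh, hsub⟩
    obtain ⟨b1, hb1, rfl⟩ := (mem_hexads h).mp hh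
    have := (hmem b1).mp ⟨hb1, (ofMask_subset m b1 hm).mp hsub⟩
    rw [this]
  · have hset : hexads = ofMask '' (↑blockList.toFinset : Set ℕ) := by
      ext h
      rw [mem_hexads]
      constructor
      · rintro ⟨b, hb, rfl⟩
        exact ⟨b, by simpa using hb, rfl⟩
      · rintro ⟨b, hb, rfl⟩
        exact ⟨b, by simpa using hb, rfl⟩
    rw [hset, Set.InjOn.ncard_image, Set.ncard_coe_finset, List.toFinset_card_of_nodup blockList_nodup,
      blockList_length]
    intro a ha b hb hab
    have ha' : a ∈ blockList := by simpa using ha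
    have hb' : b ∈ blockList := by simpa using hb
    exact ofMask_injOn a (block_lt a ha') b (block_lt b hb') hab

end Cfsg.Agent.S1592
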