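import Cfsg.Statements.S1593
import Cfsg.Agent.Lib.Helper11.TGolay

set_option autoImplicit false
open Cfsg

namespace Cfsg.Agent.S1593

open Cfsg.Agent.Lib.Helper11.TGolay

lemma link (c : ArrayPt → (ZMod 3)ˣ)
    (h : ∀ x ∈ ternaryGolayCode, monomialMap 1 c x ∈ ternaryGolayCode) (k : ℕ) (hk : k < 6) :
    (c (1, 2) : ZMod 3) * B k (1, 2) = (c (0, 0) : ZMod 3) * B k (0, 0) + (c (0, 1) : ZMod 3) * B k (0, 1)
      + (c (0, 2) : ZMod 3) * B k (0, 2) + 2 * ((c (1, 0) : ZMod 3) * B k (1, 0))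
      + 2 * ((c (1, 1) : ZMod 3) * B k (1, 1)) ∧
    (c (2, 1) : ZMod 3) * B k (2, 1) = 2 * ((c (0, 1) : ZMod 3) * B k (0, 1)) + (c (0, 2) : ZMod 3) * B k (0, 2)
      + 2 * ((c (1, 0) : ZMod 3) * B k (1, 0)) + (c (1, 1) : ZMod 3) * B k (1, 1)
      + (c (2, 0) : ZMod 3) * B k (2, 0) ∧
    (c (2, 2) : ZMod 3) * B k (2, 2) = (c (0, 0) : ZMod 3) * B k (0, 0) + 2 * ((c (0, 1) : ZMod 3) * B k (0, 1))
      + (c (1, 0) : ZMod 3) * B k (1, 0) + 2 * ((c (1, 1) : ZMod 3) * B k (1, 1))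
      + (c (2, 0) : ZMod 3) * B k (2, 0) ∧
    (c (3, 0) : ZMod 3) * B k (3, 0) = (c (0, 0) : ZMod 3) * B k (0, 0) + 2 * ((c (0, 1) : ZMod 3) * B k (0, 1))
      + 2 * ((c (0, 2) : ZMod 3) * B k (0, 2)) + 2 * ((c (1, 0) : ZMod 3) * B k (1, 0))
      + 2 * ((c (2, 0) : ZMod 3) * B k (2, 0)) ∧
    (c (3, 1) : ZMod 3) * B k (3, 1) = (c (0, 0) : ZMod 3) * B k (0, 0) + (c (0, 2) : ZMod 3) * B k (0, 2)
      + (c (1, 0) : ZMod 3) * B k (1, 0) + (c (1, 1) : ZMod 3) * B k (1, 1)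
      + 2 * ((c (2, 0) : ZMod 3) * B k (2, 0)) ∧
    (c (3, 2) : ZMod 3) * B k (3, 2) = 2 * ((c (0, 0) : ZMod 3) * B k (0, 0)) + 2 * ((c (0, 1) : ZMod 3) * B k (0, 1))
      + (c (0, 2) : ZMod 3) * B k (0, 2) + 2 * ((c (1, 1) : ZMod 3) * B k (1, 1))
      + 2 * ((c (2, 0) : ZMod 3) * B k (2, 0)) :=
  word_eqs _ (h (B k) (B_mem k hk))

theorem result (c : Cfsg.ArrayPt → (ZMod 3)ˣ) (h : (∀ x ∈ Cfsg.ternaryGolayCode, Cfsg.monomialMap 1 c x ∈ Cfsg.ternaryGolayCode)) : (∀ p, c p = 1) ∨ (∀ p, c p = -1) := by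
  obtain ⟨a5, -, a8, a9, a10, -⟩ := link c h 0 (by norm_num)
  obtain ⟨b5, -, -, -, -, -⟩ := link c h 1 (by norm_num)
  obtain ⟨c5, c7, -, -, -, c11⟩ := link c h 2 (by norm_num)
  obtain ⟨-, -, d8, -, -, -⟩ := link c h 3 (by norm_num)
  obtain ⟨-, -, -, -, e10, -⟩ := link c h 4 (by norm_num)
  obtain ⟨-, -, f8, -, -, -⟩ := link c h 5 (by norm_num)
  obtain ⟨v0, v1, v2, v3, v4, v5, v6, v7, v8, v9, v10, v11⟩ := B0_vals
  simp only [v0, v1, v2, v3, v4, v5, v6, v7, v8, v9, v10, v11, mul_one, mul_zero, add_zero,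
    zero_add] at a5 a8 a9 a10
  clear v0 v1 v2 v3 v4 v5 v6 v7 v8 v9 v10 v11
  obtain ⟨v0, v1, v2, v3, v4, v5, v6, v7, v8, v9, v10, v11⟩ := B1_vals
  simp only [v0, v1, v2, v3, v4, v5, v6, v7, v8, v9, v10, v11, mul_one, mul_zero, add_zero,
    zero_add] at b5
  clear v0 v1 v2 v3 v4 v5 v6 v7 v8 v9 v10 v11
  obtain ⟨v0, v1, v2, v3, v4, v5, v6, v7, v8, v9, v10, v11⟩ := B2_vals
  simp only [v0, v1, v2, v3, v4, v5, v6, v7, v8, v9, v10, v11, mul_one, mul_zero, add_zero,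
    zero_add] at c5 c7 c11
  clear v0 v1 v2 v3 v4 v5 v6 v7 v8 v9 v10 v11
  obtain ⟨v0, v1, v2, v3, v4, v5, v6, v7, v8, v9, v10, v11⟩ := B3_vals
  simp only [v0, v1, v2, v3, v4, v5, v6, v7, v8, v9, v10, v11, mul_one, mul_zero, add_zero,
    zero_add] at d8
  clear v0 v1 v2 v3 v4 v5 v6 v7 v8 v9 v10 v11
  obtain ⟨v0, v1, v2, v3, v4, v5, v6, v7, v8, v9, v10, v11⟩ := B4_vals
  simp only [v0, v1, v2, v3, v4, v5, v6, v7, v8, v9, v10, v11, mul_one, mul_zero, add_zero,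
    zero_add] at e10
  clear v0 v1 v2 v3 v4 v5 v6 v7 v8 v9 v10 v11
  obtain ⟨v0, v1, v2, v3, v4, v5, v6, v7, v8, v9, v10, v11⟩ := B5_vals
  simp only [v0, v1, v2, v3, v4, v5, v6, v7, v8, v9, v10, v11, mul_one, mul_zero, add_zero,
    zero_add] at f8
  clear v0 v1 v2 v3 v4 v5 v6 v7 v8 v9 v10 v11
  have q5 : c (1, 2) = c (0, 0) := Units.ext a5
  have q8 : c (2, 2) = c (0, 0) := Units.ext a8
  have q9 : c (3, 0) = c (0, 0) := Units.ext a9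
  have q10 : c (3, 1) = c (0, 0) := Units.ext a10
  have q1 : c (0, 1) = c (0, 0) := by rw [← q5]; exact (Units.ext b5).symm
  have q2 : c (0, 2) = c (0, 0) := by rw [← q5]; exact (Units.ext c5).symm
  have q7 : c (2, 1) = c (0, 0) := by rw [← q2]; exact Units.ext c7
  have q11 : c (3, 2) = c (0, 0) := by rw [← q2]; exact Units.ext c11
  have q3 : c (1, 0) = c (0, 0) := by rw [← q8]; exact (Units.ext d8).symm
  have q4 : c (1, 1) = c (0, 0) := by rw [← q10]; exact (Units.ext e10).symm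
  have q6 : c (2, 0) = c (0, 0) := by rw [← q8]; exact (Units.ext f8).symm
  have hall : ∀ p, c p = c (0, 0) := forall_pt rfl q1 q2 q3 q4 q5 q6 q7 q8 q9 q10 q11
  rcases units3 (c (0, 0)) with h0 | h0
  · left; intro p; rw [hall p, h0]
  · right; intro p; rw [hall p, h0]

end Cfsg.Agent.S1593
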