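import Cfsg.Statements.S1594
import Cfsg.Agent.Lib.Helper11.TGolay
import Cfsg.Agent.S1592
import Cfsg.Agent.S1593

set_option autoImplicit false
open Cfsg

namespace Cfsg.Agent.S1594

open Cfsg.Agent.Lib.Helper11.TGolay Cfsg.Agent.S1592
open scoped Pointwise

/-! ### points and tables -/

def ptA (i : ℕ) : ArrayPt := (⟨(i / 3) % 4, Nat.mod_lt _ (by norm_num)⟩, ((i % 3 : ℕ) : ZMod 3))

theorem pidx_ptA : ∀ i < 12, pidx (ptA i) = i := by decide

theorem ptA_pidx : ∀ p : ArrayPt, ptA (pidx p) = p := by decide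

def entA (T i : ℕ) : ℕ := Nat.mod (Nat.div T (Nat.pow 16 i)) 16

def tfunA (T : ℕ) (p : ArrayPt) : ArrayPt := ptA (entA T (pidx p))

def goodA (T : ℕ) : Bool :=
  (List.range 12).all (fun i => Nat.blt (entA T i) 12) &&
    (List.range 12).all (fun i => (List.range 12).all (fun j =>
      Nat.beq i j || !(Nat.beq (entA T i) (entA T j))))

theorem goodA_lt {T : ℕ} (h : goodA T = true) : ∀ i < 12, entA T i < 12 := by
  intro i hi
  simp only [goodA, Bool.and_eq_true, List.all_eq_true] at h
  have := h.1 i (List.mem_range.mpr hi)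
  simpa using this

theorem goodA_inj {T : ℕ} (h : goodA T = true) : Function.Injective (tfunA T) := by
  intro p q hpq
  unfold tfunA at hpq
  have h1 : entA T (pidx p) = entA T (pidx q) := by
    have := congrArg pidx hpq
    rwa [pidx_ptA _ (goodA_lt h _ (pidx_lt p)), pidx_ptA _ (goodA_lt h _ (pidx_lt q))] at this
  apply pidx_injective
  simp only [goodA, Bool.and_eq_true, List.all_eq_true] at h
  have h2 := h.2 (pidx p) (List.mem_range.mpr (pidx_lt p)) (pidx q)
    (List.mem_range.mpr (pidx_lt q))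
  rw [h1] at h2
  simpa using h2

theorem goodA_bij {T : ℕ} (h : goodA T = true) : Function.Bijective (tfunA T) :=
  Finite.injective_iff_bijective.mp (goodA_inj h)

/-- the permutation of the twelve points given by a packed table -/
noncomputable def tpA (T : ℕ) : Equiv.Perm ArrayPt :=
  if h : Function.Bijective (tfunA T) then Equiv.ofBijective (tfunA T) h else 1

theorem tpA_apply {T : ℕ} (h : goodA T = true) (p : ArrayPt) :
    tpA T p = ptA (entA T (pidx p)) := by
  unfold tpA
  rw [dif_pos (goodA_bij h)]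
  rfl

/-! ### monomial maps -/

def Pres (σ : Equiv.Perm ArrayPt) (c : ArrayPt → (ZMod 3)ˣ) : Prop :=
  ∀ x ∈ ternaryGolayCode, monomialMap σ c x ∈ ternaryGolayCode

theorem mono_sum (σ : Equiv.Perm ArrayPt) (c : ArrayPt → (ZMod 3)ˣ) (s : Finset ℕ)
    (f : ℕ → ArrayPt → ZMod 3) :
    monomialMap σ c (∑ k ∈ s, f k) = ∑ k ∈ s, monomialMap σ c (f k) := by
  funext i
  simp only [monomialMap, Finset.sum_apply, Finset.mul_sum]

theorem mono_smul (σ : Equiv.Perm ArrayPt) (c : ArrayPt → (ZMod 3)ˣ) (a : ZMod 3)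
    (x : ArrayPt → ZMod 3) : monomialMap σ c (a • x) = a • monomialMap σ c x := by
  funext i
  simp only [monomialMap, Pi.smul_apply, smul_eq_mul]
  ring

theorem pres_of_basis {σ : Equiv.Perm ArrayPt} {c : ArrayPt → (ZMod 3)ˣ}
    (h : ∀ k < 6, monomialMap σ c (B k) ∈ ternaryGolayCode) : Pres σ c := by
  intro x hx
  obtain ⟨n, hn, rfl⟩ := (mem_iff x).mp hx
  rw [tw_eq, mono_sum]
  apply Submodule.sum_mem
  intro k hk
  rw [mono_smul]
  exact Submodule.smul_mem _ _ (h k (Finset.mem_range.mp hk))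

theorem mono_comp (σ τ : Equiv.Perm ArrayPt) (c d : ArrayPt → (ZMod 3)ˣ) (x : ArrayPt → ZMod 3) :
    monomialMap σ c (monomialMap τ d x) = monomialMap (σ * τ) (fun i => c i * d (σ.symm i)) x := by
  funext i
  simp only [monomialMap, Units.val_mul]
  rw [mul_assoc]
  rfl

theorem pres_mul {σ τ : Equiv.Perm ArrayPt} {c d : ArrayPt → (ZMod 3)ˣ} (h1 : Pres σ c)
    (h2 : Pres τ d) : Pres (σ * τ) (fun i => c i * d (σ.symm i)) := by
  intro x hx
  rw [← mono_comp]
  exact h1 _ (h2 x hx)

theorem pres_one : Pres 1 (fun _ => 1) := by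
  intro x hx
  have : monomialMap (1 : Equiv.Perm ArrayPt) (fun _ => (1 : (ZMod 3)ˣ)) x = x := by
    funext i
    simp only [monomialMap, Units.val_one, one_mul]
    rfl
  rwa [this]

theorem pres_neg {σ : Equiv.Perm ArrayPt} {c : ArrayPt → (ZMod 3)ˣ} (h : Pres σ c) :
    Pres σ (fun i => -c i) := by
  intro x hx
  have : monomialMap σ (fun i => -c i) x = -monomialMap σ c x := by
    funext i
    simp [monomialMap]
  rw [this]
  exact Submodule.neg_mem _ (h x hx)

theorem mem_supp (x : ArrayPt → ZMod 3) (p : ArrayPt) : p ∈ ternarySupport x ↔ x p ≠ 0 := by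
  simp [ternarySupport]

theorem supp_mono (σ : Equiv.Perm ArrayPt) (c : ArrayPt → (ZMod 3)ˣ) (x : ArrayPt → ZMod 3) :
    ternarySupport (monomialMap σ c x) = σ • ternarySupport x := by
  ext i
  rw [← Finset.inv_smul_mem_iff, mem_supp, mem_supp]
  have h1 : σ⁻¹ • i = σ.symm i := rfl
  rw [h1]
  show (c i : ZMod 3) * x (σ.symm i) ≠ 0 ↔ x (σ.symm i) ≠ 0
  constructor
  · intro h h0
    exact h (by rw [h0, mul_zero])
  · intro h h0
    rcases mul_eq_zero.mp h0 with h2 | h2
    · exact (Units.ne_zero _) h2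
    · exact h h2

theorem mono_surj {σ : Equiv.Perm ArrayPt} {c : ArrayPt → (ZMod 3)ˣ} (h : Pres σ c)
    (y : ArrayPt → ZMod 3) (hy : y ∈ ternaryGolayCode) :
    ∃ x ∈ ternaryGolayCode, monomialMap σ c x = y := by
  let L : ↥ternaryGolayCode → ↥ternaryGolayCode := fun x => ⟨monomialMap σ c x.1, h x.1 x.2⟩
  have hinj : Function.Injective L := by
    intro x x' hxx
    have h1 : monomialMap σ c x.1 = monomialMap σ c x'.1 := congrArg Subtype.val hxx
    apply Subtype.ext
    funext j
    have h2 := congrFun h1 (σ j)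
    simp only [monomialMap, Equiv.symm_apply_apply] at h2
    exact mul_left_cancel₀ (Units.ne_zero _) h2
  obtain ⟨x, hx⟩ := (Finite.injective_iff_surjective.mp hinj) ⟨y, hy⟩
  exact ⟨x.1, x.2, congrArg Subtype.val hx⟩

/-! ### witnesses -/

def sgnN (s j : ℕ) : ℕ := if s.testBit j then 2 else 1

def csign (s : ℕ) : ArrayPt → (ZMod 3)ˣ := fun p => if s.testBit (pidx p) then -1 else 1

theorem csign_val (s : ℕ) (p : ArrayPt) :
    ((csign s p : (ZMod 3)ˣ) : ZMod 3) = ((sgnN s (pidx p) : ℕ) : ZMod 3) := by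
  unfold csign sgnN
  split_ifs <;> decide

def yv (Ti s k j : ℕ) : ℕ := Nat.mod (Nat.mul (sgnN s j) (gm k (entA Ti j))) 3

def nOf (Ti s k : ℕ) : ℕ :=
  yv Ti s k 0 + 3 * yv Ti s k 1 + 9 * yv Ti s k 2 + 27 * yv Ti s k 3 + 81 * yv Ti s k 4 +
    243 * yv Ti s k 6

def monChk (Ti s : ℕ) : Bool :=
  goodA Ti && (List.range 6).all (fun k => (List.range 12).all (fun j =>
    Nat.beq (coord (nOf Ti s k) j) (yv Ti s k j)))

theorem monChk_good {Ti s : ℕ} (h : monChk Ti s = true) : goodA Ti = true := by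
  simp only [monChk, Bool.and_eq_true] at h
  exact h.1

theorem monChk_sound {Ti s : ℕ} (h : monChk Ti s = true) : Pres (tpA Ti)⁻¹ (csign s) := by
  have hg := monChk_good h
  apply pres_of_basis
  intro k hk
  have e : monomialMap (tpA Ti)⁻¹ (csign s) (B k) = tw (nOf Ti s k) := by
    funext p
    have h1 : ((tpA Ti)⁻¹ : Equiv.Perm ArrayPt).symm p = tpA Ti p := rfl
    simp only [monomialMap, h1]
    rw [tpA_apply hg, csign_val]
    show ((sgnN s (pidx p) : ℕ) : ZMod 3) * ((gm k (pidx (ptA (entA Ti (pidx p)))) : ℕ) : ZMod 3) =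
      ((coord (nOf Ti s k) (pidx p) : ℕ) : ZMod 3)
    rw [pidx_ptA _ (goodA_lt hg _ (pidx_lt p))]
    simp only [monChk, Bool.and_eq_true, List.all_eq_true] at h
    have h2 := h.2 k (List.mem_range.mpr hk) (pidx p) (List.mem_range.mpr (pidx_lt p))
    rw [Nat.eq_of_beq_eq_true h2]
    show _ = (((sgnN s (pidx p) * gm k (entA Ti (pidx p))) % 3 : ℕ) : ZMod 3)
    rw [ZMod.natCast_mod, Nat.cast_mul]
  rw [e]
  exact tw_mem _

/-- the permutation parts of monomial automorphisms -/
def AA : Set (Equiv.Perm ArrayPt) := {σ | ∃ c, Pres σ c}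

theorem AA_one : (1 : Equiv.Perm ArrayPt) ∈ AA := ⟨_, pres_one⟩

theorem AA_mul {σ τ : Equiv.Perm ArrayPt} (h1 : σ ∈ AA) (h2 : τ ∈ AA) : σ * τ ∈ AA := by
  obtain ⟨c, hc⟩ := h1
  obtain ⟨d, hd⟩ := h2
  exact ⟨_, pres_mul hc hd⟩

def witOK (F : List ℕ) (b : ℕ) (w : ℕ × ℕ) (t : ℕ) : Bool :=
  monChk w.1 w.2 && F.all (fun i => Nat.beq (entA w.1 i) i) && Nat.beq (entA w.1 t) b

def levelOK (F : List ℕ) (b : ℕ) (wits : List (ℕ × ℕ)) : Bool :=
  (List.range 12).all (fun t => F.contains t || wits.any (fun w => witOK F b w t))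

theorem level_sound {F : List ℕ} {b : ℕ} {wits : List (ℕ × ℕ)} (h : levelOK F b wits = true)
    (hF : ∀ i ∈ F, i < 12) (t : ArrayPt) (ht : ∀ i ∈ F, ptA i ≠ t) :
    ∃ α ∈ AA, (∀ i ∈ F, α (ptA i) = ptA i) ∧ α (ptA b) = t := by
  have h1 := List.all_eq_true.mp h (pidx t) (List.mem_range.mpr (pidx_lt t))
  have h2 : F.contains (pidx t) = false := by
    cases hc : F.contains (pidx t) with
    | false => rfl
    | true =>
      exfalso
      have : pidx t ∈ F := by simpa using hc
      exact ht _ this (ptA_pidx t)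
  rw [h2, Bool.false_or] at h1
  obtain ⟨w, hw, h3⟩ := List.any_eq_true.mp h1
  simp only [witOK, Bool.and_eq_true, List.all_eq_true] at h3
  obtain ⟨⟨hm, hfix⟩, htb⟩ := h3
  have hg := monChk_good hm
  refine ⟨(tpA w.1)⁻¹, ⟨_, monChk_sound hm⟩, ?_, ?_⟩
  · intro i hi
    rw [Equiv.Perm.inv_eq_iff_eq, tpA_apply hg, pidx_ptA i (hF i hi),
      Nat.eq_of_beq_eq_true (hfix i hi)]
  · rw [Equiv.Perm.inv_eq_iff_eq, tpA_apply hg, Nat.eq_of_beq_eq_true htb]

theorem extend {F : List ℕ} {b : ℕ}
    (hlev : ∀ t : ArrayPt, (∀ i ∈ F, ptA i ≠ t) →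
      ∃ α ∈ AA, (∀ i ∈ F, α (ptA i) = ptA i) ∧ α (ptA b) = t)
    {β : Equiv.Perm ArrayPt} (hβ : β ∈ AA) (y : ArrayPt) (hy : ∀ i ∈ F, β (ptA i) ≠ y) :
    ∃ β' ∈ AA, (∀ i ∈ F, β' (ptA i) = β (ptA i)) ∧ β' (ptA b) = y := by
  obtain ⟨α, hα, h1, h2⟩ := hlev (β⁻¹ y) (by
    intro i hi hc
    apply hy i hi
    rw [hc]
    exact β.apply_symm_apply y)
  refine ⟨β * α, AA_mul hβ hα, ?_, ?_⟩
  · intro i hi
    rw [Equiv.Perm.mul_apply, h1 i hi]
  · rw [Equiv.Perm.mul_apply, h2]
    exact β.apply_symm_apply y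

def wits1 : List (ℕ × ℕ) := [(205163983024656, 0), (114875801285121, 0), (186601419583521, 0), (200838984500001, 1331), (167656838677281, 1940), (188465698652961, 667), (203798352446241, 1581), (95138016215841, 993), (129331828900641, 1224), (151774303765281, 349), (106195122340641, 1271), (8479751947041, 430)]

def wits2 : List (ℕ × ℕ) := [(205163983024656, 0), (148896472117536, 0), (118230153958176, 1331), (134787001041696, 1940), (148135453475616, 667), (113630368056096, 1581), (100781785563936, 993), (164384360514336, 1224), (184818442388256, 349), (195118630322976, 1271), (27948870026016, 430)]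

def wits3 : List (ℕ × ℕ) := [(205163983024656, 0), (167926364906256, 1331), (184072505803536, 1940), (203992259183376, 667), (169717554103056, 1581), (97264529457936, 993), (111817503752976, 1224), (135422825480976, 349), (143646984323856, 1271), (42435747726096, 430)]

def wits4 : List (ℕ × ℕ) := [(205163983024656, 0), (147865428247056, 0), (171139535290896, 0), (202694063505936, 6), (99399427965456, 5), (129277051159056, 3), (115692283773456, 6), (179793663050256, 3), (61273455280656, 5)]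

def wits5 : List (ℕ × ℕ) := [(205163983024656, 0), (132399770186256, 0), (153208536773136, 6), (95285065495056, 5), (164327252963856, 3), (183942805598736, 6), (110731096240656, 3), (80841396400656, 5)]

def pairData : List (ℕ × ℕ × List ℕ) := [(6, 7, [222, 237, 243]), (6, 8, [347, 366, 373]), (6, 9, [591, 630, 633]), (6, 10, [1117, 1127, 1146]), (6, 11, [2135, 2155, 2172])]

theorem lev1 : levelOK [] 0 wits1 = true := by decide +kernel

theorem lev2 : levelOK [0] 1 wits2 = true := by decide +kernel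

theorem lev3 : levelOK [1, 0] 2 wits3 = true := by decide +kernel

theorem lev4 : levelOK [2, 1, 0] 3 wits4 = true := by decide +kernel

theorem lev5 : levelOK [3, 2, 1, 0] 4 wits5 = true := by decide +kernel

def base5 : Fin 5 ↪ ArrayPt := ⟨fun k => ptA k.val, by decide⟩

theorem trans5 (e : Fin 5 ↪ ArrayPt) : ∃ α ∈ AA, ∀ k : Fin 5, α (base5 k) = e k := by
  obtain ⟨β1, hβ1, -, b1⟩ := extend (level_sound lev1 (by simp)) AA_one (e 0) (by simp)
  obtain ⟨β2, hβ2, a2, b2⟩ := extend (level_sound lev2 (by simp)) hβ1 (e 1) (by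
    intro i hi
    simp only [List.mem_singleton] at hi
    subst hi
    rw [b1]
    exact fun h => absurd (e.injective h) (by decide))
  have c1 : β2 (ptA 0) = e 0 := by rw [a2 0 (by simp), b1]
  obtain ⟨β3, hβ3, a3, b3⟩ := extend (level_sound lev3 (by
    intro i hi
    simp only [List.mem_cons, List.not_mem_nil, or_false] at hi
    omega)) hβ2 (e 2) (by
    intro i hi
    simp only [List.mem_cons, List.not_mem_nil, or_false] at hi
    rcases hi with rfl | rfl
    · rw [b2]
      exact fun h => absurd (e.injective h) (by decide)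
    · rw [c1]
      exact fun h => absurd (e.injective h) (by decide))
  have d1 : β3 (ptA 0) = e 0 := by rw [a3 0 (by simp), c1]
  have d2 : β3 (ptA 1) = e 1 := by rw [a3 1 (by simp), b2]
  obtain ⟨β4, hβ4, a4, b4⟩ := extend (level_sound lev4 (by
    intro i hi
    simp only [List.mem_cons, List.not_mem_nil, or_false] at hi
    omega)) hβ3 (e 3) (by
    intro i hi
    simp only [List.mem_cons, List.not_mem_nil, or_false] at hi
    rcases hi with rfl | rfl | rfl
    · rw [b3]
      exact fun h => absurd (e.injective h) (by decide)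
    · rw [d2]
      exact fun h => absurd (e.injective h) (by decide)
    · rw [d1]
      exact fun h => absurd (e.injective h) (by decide))
  have f1 : β4 (ptA 0) = e 0 := by rw [a4 0 (by simp), d1]
  have f2 : β4 (ptA 1) = e 1 := by rw [a4 1 (by simp), d2]
  have f3 : β4 (ptA 2) = e 2 := by rw [a4 2 (by simp), b3]
  obtain ⟨β5, hβ5, a5, b5⟩ := extend (level_sound lev5 (by
    intro i hi
    simp only [List.mem_cons, List.not_mem_nil, or_false] at hi
    omega)) hβ4 (e 4) (by
    intro i hi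
    simp only [List.mem_cons, List.not_mem_nil, or_false] at hi
    rcases hi with rfl | rfl | rfl | rfl
    · rw [b4]
      exact fun h => absurd (e.injective h) (by decide)
    · rw [f3]
      exact fun h => absurd (e.injective h) (by decide)
    · rw [f2]
      exact fun h => absurd (e.injective h) (by decide)
    · rw [f1]
      exact fun h => absurd (e.injective h) (by decide))
  refine ⟨β5, hβ5, fun k => ?_⟩
  fin_cases k
  · show β5 (ptA 0) = e 0
    rw [a5 0 (by simp), f1]
  · show β5 (ptA 1) = e 1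
    rw [a5 1 (by simp), f2]
  · show β5 (ptA 2) = e 2
    rw [a5 2 (by simp), f3]
  · show β5 (ptA 3) = e 3
    rw [a5 3 (by simp), b4]
  · show β5 (ptA 4) = e 4
    exact b5

/-! ### monomial automorphisms preserve the hexads -/

theorem hexads_finite : hexads.Finite := by
  have h : hexads ⊆ ↑(blockList.toFinset.image ofMask) := by
    intro x hx
    obtain ⟨b, hb, rfl⟩ := (mem_hexads x).mp hx
    rw [Finset.mem_coe, Finset.mem_image]
    exact ⟨b, List.mem_toFinset.mpr hb, rfl⟩
  exact Set.Finite.subset (Finset.finite_toSet _) h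

theorem AA_sub {σ : Equiv.Perm ArrayPt} (hσ : σ ∈ AA) : σ • hexads = hexads := by
  obtain ⟨c, hc⟩ := hσ
  have hsub : σ • hexads ⊆ hexads := by
    rintro _ ⟨h, ⟨x, hx, rfl, hcard⟩, rfl⟩
    refine ⟨monomialMap σ c x, hc x hx, supp_mono σ c x, ?_⟩
    show (σ • ternarySupport x).card = 6
    rw [Finset.card_smul_finset]
    exact hcard
  exact Set.eq_of_subset_of_ncard_le hsub (by rw [Set.ncard_smul_set]) hexads_finite

/-! ### an automorphism of the hexad system fixing five points is trivial -/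

def img (f : ℕ → ℕ) (m : ℕ) : ℕ :=
  ((List.range 12).filter (fun i => m.testBit i)).foldl (fun acc i => acc ||| 2 ^ (f i)) 0

theorem foldl_or_testBit (f : ℕ → ℕ) (l : List ℕ) (a j : ℕ) :
    (l.foldl (fun acc i => acc ||| 2 ^ (f i)) a).testBit j =
      (a.testBit j || l.any (fun i => decide (f i = j))) := by
  induction l generalizing a with
  | nil => simp
  | cons x l ih =>
    rw [List.foldl_cons, ih, Nat.testBit_or, Nat.testBit_two_pow, List.any_cons, Bool.or_assoc]

theorem img_testBit (f : ℕ → ℕ) (m j : ℕ) :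
    (img f m).testBit j = true ↔ ∃ i < 12, m.testBit i = true ∧ f i = j := by
  unfold img
  rw [foldl_or_testBit, Nat.zero_testBit, Bool.false_or, List.any_eq_true]
  constructor
  · rintro ⟨i, hi, h⟩
    rw [List.mem_filter, List.mem_range] at hi
    exact ⟨i, hi.1, hi.2, by simpa using h⟩
  · rintro ⟨i, hi, hm, h⟩
    exact ⟨i, List.mem_filter.mpr ⟨List.mem_range.mpr hi, hm⟩, by simpa using h⟩

theorem img_congr {f g : ℕ → ℕ} {m : ℕ} (h : ∀ i < 12, m.testBit i = true → f i = g i) :
    img f m = img g m := by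
  apply Nat.eq_of_testBit_eq
  intro j
  rw [Bool.eq_iff_iff, img_testBit, img_testBit]
  constructor
  · rintro ⟨i, hi, hm, hf⟩
    exact ⟨i, hi, hm, by rw [← h i hi hm]; exact hf⟩
  · rintro ⟨i, hi, hm, hf⟩
    exact ⟨i, hi, hm, by rw [h i hi hm]; exact hf⟩

theorem img_lt {f : ℕ → ℕ} (hf : ∀ i < 12, f i < 12) (m : ℕ) : img f m < 4096 := by
  apply Nat.lt_pow_two_of_testBit (n := 12)
  intro j hj
  by_contra hc
  rw [Bool.not_eq_false, img_testBit] at hc
  obtain ⟨i, hi, _, h⟩ := hc
  have := hf i hi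
  omega

theorem smul_ofMask (τ : Equiv.Perm ArrayPt) (m : ℕ) :
    τ • ofMask m = ofMask (img (fun i => pidx (τ (ptA i))) m) := by
  ext q
  rw [mem_ofMask, img_testBit, Finset.mem_smul_finset]
  constructor
  · rintro ⟨p, hp, rfl⟩
    rw [mem_ofMask] at hp
    exact ⟨pidx p, pidx_lt p, hp, by rw [ptA_pidx]; rfl⟩
  · rintro ⟨i, hi, hm, h⟩
    refine ⟨ptA i, ?_, pidx_injective h⟩
    rw [mem_ofMask, pidx_ptA i hi]
    exact hm

theorem img_mem {τ : Equiv.Perm ArrayPt} (hτ : τ • hexads = hexads) {m : ℕ}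
    (hm : m ∈ blockList) : img (fun i => pidx (τ (ptA i))) m ∈ blockList := by
  have h1 : ofMask m ∈ hexads := (mem_hexads _).mpr ⟨m, hm, rfl⟩
  have h2 : τ • ofMask m ∈ τ • hexads := Set.smul_mem_smul_set h1
  rw [hτ] at h2
  obtain ⟨b, hb, e⟩ := (mem_hexads _).mp h2
  rw [smul_ofMask] at e
  have h3 := ofMask_injOn b (block_lt b hb) _ (img_lt (fun i _ => pidx_lt _) m) e
  rw [← h3]
  exact hb

def g1 (i0 v : ℕ) : ℕ → ℕ := fun i => if i = i0 then v else i

def g2 (i0 j0 v w : ℕ) : ℕ → ℕ := fun i => if i = i0 then v else if i = j0 then w else i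

theorem chk6 : (List.range 12).all (fun v =>
    !(blockList.contains (img (g1 5 v) 63)) || Nat.beq v 5) = true := by decide +kernel

theorem m63 : (63 : ℕ) ∈ blockList := by decide +kernel

theorem bits63 : ∀ i < 12, Nat.testBit 63 i = true → i < 6 := by decide

def pairOK (d : ℕ × ℕ × List ℕ) : Bool :=
  Nat.blt d.1 12 && Nat.blt d.2.1 12 && Nat.ble 6 d.1 && Nat.ble 6 d.2.1 &&
    !(Nat.beq d.1 d.2.1) &&
    d.2.2.all (fun m => blockList.contains m && (List.range 12).all (fun k =>
      !(m.testBit k) || Nat.blt k 6 || Nat.beq k d.1 || Nat.beq k d.2.1)) &&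
    (List.range 12).all (fun v => (List.range 12).all (fun w =>
      !(d.2.2.all (fun m => blockList.contains (img (g2 d.1 d.2.1 v w) m))) ||
        (Nat.beq v d.1 && Nat.beq w d.2.1) || (Nat.beq v d.2.1 && Nat.beq w d.1)))

theorem chkPairs : pairData.all pairOK = true := by decide +kernel

theorem pair_lemma {f : ℕ → ℕ} (hf : ∀ m ∈ blockList, img f m ∈ blockList)
    (hfix : ∀ k < 6, f k = k) (hlt : ∀ k < 12, f k < 12) {i j : ℕ} {ms : List ℕ}
    (hd : (i, j, ms) ∈ pairData) : (f i = i ∧ f j = j) ∨ (f i = j ∧ f j = i) := by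
  have h := List.all_eq_true.mp chkPairs _ hd
  simp only [pairOK, Bool.and_eq_true, List.all_eq_true] at h
  obtain ⟨⟨⟨⟨⟨⟨hi, hj⟩, hi6⟩, hj6⟩, hne⟩, hms⟩, hall⟩ := h
  have hi' : i < 12 := by simpa using hi
  have hj' : j < 12 := by simpa using hj
  have hi6' : 6 ≤ i := by simpa using hi6
  have hj6' : 6 ≤ j := by simpa using hj6
  have hne' : i ≠ j := by
    intro hij
    subst hij
    rw [Nat.beq_refl] at hne
    exact absurd hne (by decide)
  have h1 := hall (f i) (List.mem_range.mpr (hlt i hi')) (f j) (List.mem_range.mpr (hlt j hj'))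
  have h2 : ∀ m ∈ ms, blockList.contains (img (g2 i j (f i) (f j)) m) = true := by
    intro m hm
    obtain ⟨hmb, hbits⟩ := hms m hm
    have hmb' : m ∈ blockList := by simpa using hmb
    have e : img f m = img (g2 i j (f i) (f j)) m := by
      apply img_congr
      intro k hk hkm
      have h3 := hbits k (List.mem_range.mpr hk)
      rw [hkm] at h3
      simp only [Bool.not_true, Bool.false_or, Bool.or_eq_true] at h3
      unfold g2
      rcases h3 with (h3 | h3) | h3
      · have hk6 : k < 6 := by simpa using h3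
        rw [if_neg (by omega), if_neg (by omega), hfix k hk6]
      · have hki : k = i := by simpa using h3
        rw [if_pos hki, hki]
      · have hkj : k = j := by simpa using h3
        rw [if_neg (by omega), if_pos hkj, hkj]
    rw [← e]
    simpa using hf m hmb'
  have h4 : (ms.all fun m => blockList.contains (img (g2 i j (f i) (f j)) m)) = true :=
    List.all_eq_true.mpr h2
  rw [h4] at h1
  simp only [Bool.not_true, Bool.false_or, Bool.or_eq_true, Bool.and_eq_true] at h1
  rcases h1 with ⟨a, b⟩ | ⟨a, b⟩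
  · left
    exact ⟨by simpa using a, by simpa using b⟩
  · right
    exact ⟨by simpa using a, by simpa using b⟩

theorem sharp {τ : Equiv.Perm ArrayPt} (hτ : τ • hexads = hexads)
    (hfix : ∀ k : Fin 5, τ (base5 k) = base5 k) : τ = 1 := by
  have hf : ∀ m ∈ blockList, img (fun i => pidx (τ (ptA i))) m ∈ blockList :=
    fun m hm => img_mem hτ hm
  have hlt : ∀ k < 12, (fun i => pidx (τ (ptA i))) k < 12 := fun k _ => pidx_lt _
  have h5 : ∀ k < 5, pidx (τ (ptA k)) = k := by
    intro k hk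
    have := hfix ⟨k, hk⟩
    have e : base5 ⟨k, hk⟩ = ptA k := rfl
    rw [e] at this
    rw [this, pidx_ptA k (by omega)]
  have h6 : pidx (τ (ptA 5)) = 5 := by
    have h1 := hf 63 m63
    have e : img (fun i => pidx (τ (ptA i))) 63 = img (g1 5 (pidx (τ (ptA 5)))) 63 := by
      apply img_congr
      intro k hk hkm
      have hk6 := bits63 k hk hkm
      unfold g1
      by_cases hk5 : k = 5
      · rw [if_pos hk5, hk5]
      · rw [if_neg hk5]
        exact h5 k (by omega)
    rw [e] at h1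
    have h2 := List.all_eq_true.mp chk6 _ (List.mem_range.mpr (pidx_lt (τ (ptA 5))))
    have h3 : blockList.contains (img (g1 5 (pidx (τ (ptA 5)))) 63) = true := by simpa using h1
    rw [h3] at h2
    simpa using h2
  have hfix6 : ∀ k < 6, (fun i => pidx (τ (ptA i))) k = k := by
    intro k hk
    by_cases hk5 : k = 5
    · rw [hk5]
      exact h6
    · exact h5 k (by omega)
  have p7 := pair_lemma hf hfix6 hlt (i := 6) (j := 7) (ms := [222, 237, 243]) (by decide)
  have p8 := pair_lemma hf hfix6 hlt (i := 6) (j := 8) (ms := [347, 366, 373]) (by decide)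
  have p9 := pair_lemma hf hfix6 hlt (i := 6) (j := 9) (ms := [591, 630, 633]) (by decide)
  have p10 := pair_lemma hf hfix6 hlt (i := 6) (j := 10) (ms := [1117, 1127, 1146]) (by decide)
  have p11 := pair_lemma hf hfix6 hlt (i := 6) (j := 11) (ms := [2135, 2155, 2172]) (by decide)
  have e6 : pidx (τ (ptA 6)) = 6 := by
    rcases p7 with ⟨h, _⟩ | ⟨h, _⟩
    · exact h
    · rcases p8 with ⟨h', _⟩ | ⟨h', _⟩
      · exact h'
      · omega
  have e7 : pidx (τ (ptA 7)) = 7 := by
    rcases p7 with ⟨_, h⟩ | ⟨h, _⟩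
    · exact h
    · omega
  have e8 : pidx (τ (ptA 8)) = 8 := by
    rcases p8 with ⟨_, h⟩ | ⟨h, _⟩
    · exact h
    · omega
  have e9 : pidx (τ (ptA 9)) = 9 := by
    rcases p9 with ⟨_, h⟩ | ⟨h, _⟩
    · exact h
    · omega
  have e10 : pidx (τ (ptA 10)) = 10 := by
    rcases p10 with ⟨_, h⟩ | ⟨h, _⟩
    · exact h
    · omega
  have e11 : pidx (τ (ptA 11)) = 11 := by
    rcases p11 with ⟨_, h⟩ | ⟨h, _⟩
    · exact h
    · omega
  have hall : ∀ k < 12, pidx (τ (ptA k)) = k := by
    intro k hk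
    interval_cases k
    · exact h5 0 (by norm_num)
    · exact h5 1 (by norm_num)
    · exact h5 2 (by norm_num)
    · exact h5 3 (by norm_num)
    · exact h5 4 (by norm_num)
    · exact h6
    · exact e6
    · exact e7
    · exact e8
    · exact e9
    · exact e10
    · exact e11
  ext1 p
  apply pidx_injective
  have := hall (pidx p) (pidx_lt p)
  rw [ptA_pidx] at this
  exact this

/-! ### assembling -/

theorem aut_eq : {σ : Equiv.Perm ArrayPt | ∃ c : ArrayPt → (ZMod 3)ˣ, Pres σ c} =
    (MulAction.stabilizer (Equiv.Perm ArrayPt) hexads : Set (Equiv.Perm ArrayPt)) := by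
  ext σ
  rw [SetLike.mem_coe, MulAction.mem_stabilizer_iff]
  constructor
  · intro h
    exact AA_sub h
  · intro h
    obtain ⟨α, hα, hk⟩ := trans5 (base5.trans σ.toEmbedding)
    have hα' := AA_sub hα
    have h1 : (α⁻¹ * σ) • hexads = hexads := by
      rw [mul_smul, h, inv_smul_eq_iff, hα']
    have h2 : α⁻¹ * σ = 1 := sharp h1 (fun k => by
      rw [Equiv.Perm.mul_apply, Equiv.Perm.inv_eq_iff_eq, hk k]
      rfl)
    have h3 : σ = α := by
      rw [inv_mul_eq_one] at h2
      exact h2.symm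
    rw [h3]
    exact hα

theorem units_ne : (1 : (ZMod 3)ˣ) ≠ -1 := by decide

theorem card_mon : Nat.card {f : Equiv.Perm ArrayPt × (ArrayPt → (ZMod 3)ˣ) // Pres f.1 f.2} =
    190080 := by
  let Φ : {f : Equiv.Perm ArrayPt × (ArrayPt → (ZMod 3)ˣ) // Pres f.1 f.2} →
      (Fin 5 ↪ ArrayPt) × (ZMod 3)ˣ := fun f => (base5.trans f.1.1.toEmbedding, f.1.2 (ptA 0))
  have hinj : Function.Injective Φ := by
    rintro ⟨⟨σ, c⟩, hf⟩ ⟨⟨σ', c'⟩, hg⟩ hfg
    have e1 : ∀ k : Fin 5, σ (base5 k) = σ' (base5 k) := by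
      intro k
      have := congrArg (fun z : (Fin 5 ↪ ArrayPt) × (ZMod 3)ˣ => z.1 k) hfg
      exact this
    have e2 : c (ptA 0) = c' (ptA 0) := congrArg Prod.snd hfg
    have hσ : σ • hexads = hexads := AA_sub ⟨c, hf⟩
    have hσ' : σ' • hexads = hexads := AA_sub ⟨c', hg⟩
    have h1 : (σ⁻¹ * σ') • hexads = hexads := by
      rw [mul_smul, hσ', inv_smul_eq_iff, hσ]
    have h2 : σ⁻¹ * σ' = 1 := sharp h1 (fun k => by
      rw [Equiv.Perm.mul_apply, Equiv.Perm.inv_eq_iff_eq, e1 k])
    have h3 : σ' = σ := by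
      rw [inv_mul_eq_one] at h2
      exact h2.symm
    subst h3
    have hd : ∀ x ∈ ternaryGolayCode,
        monomialMap 1 (fun i => c' i * (c i)⁻¹) x ∈ ternaryGolayCode := by
      intro y hy
      obtain ⟨x, hx, rfl⟩ := mono_surj hf y hy
      have : monomialMap 1 (fun i => c' i * (c i)⁻¹) (monomialMap σ' c x) = monomialMap σ' c' x := by
        funext i
        simp only [monomialMap, Units.val_mul]
        have h4 : (1 : Equiv.Perm ArrayPt).symm i = i := rfl
        rw [h4, mul_assoc, ← mul_assoc ((↑(c i)⁻¹ : ZMod 3)), ← Units.val_mul, inv_mul_cancel,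
          Units.val_one, one_mul]
      rw [this]
      exact hg x hx
    have hc : c' = c := by
      rcases Cfsg.Agent.S1593.result _ hd with h5 | h5
      · funext p
        have := h5 p
        rwa [mul_inv_eq_one] at this
      · exfalso
        have := h5 (ptA 0)
        rw [← e2, mul_inv_cancel] at this
        exact units_ne this
    subst hc
    rfl
  have hsurj : Function.Surjective Φ := by
    rintro ⟨e, u⟩
    obtain ⟨α, ⟨c, hc⟩, hk⟩ := trans5 e
    by_cases hu : c (ptA 0) = u
    · refine ⟨⟨(α, c), hc⟩, ?_⟩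
      exact Prod.ext (DFunLike.ext _ _ (fun k => hk k)) hu
    · refine ⟨⟨(α, fun i => -c i), pres_neg hc⟩, ?_⟩
      refine Prod.ext (DFunLike.ext _ _ (fun k => hk k)) ?_
      · show -c (ptA 0) = u
        rcases units3 (c (ptA 0)) with h1 | h1 <;> rcases units3 u with h2 | h2
        · exact absurd (h1.trans h2.symm) hu
        · rw [h1, h2]
        · rw [h1, h2, neg_neg]
        · exact absurd (h1.trans h2.symm) hu
  rw [Nat.card_congr (Equiv.ofBijective Φ ⟨hinj, hsurj⟩), Nat.card_prod, Nat.card_eq_fintype_card,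
    Nat.card_eq_fintype_card, Fintype.card_embedding_eq]
  decide

theorem result : Nat.card {f : Equiv.Perm Cfsg.ArrayPt × (Cfsg.ArrayPt → (ZMod 3)ˣ) // (∀ x ∈ Cfsg.ternaryGolayCode, Cfsg.monomialMap f.1 f.2 x ∈ Cfsg.ternaryGolayCode)} = 190080 ∧ {σ : Equiv.Perm Cfsg.ArrayPt | ∃ c : Cfsg.ArrayPt → (ZMod 3)ˣ, (∀ x ∈ Cfsg.ternaryGolayCode, Cfsg.monomialMap σ c x ∈ Cfsg.ternaryGolayCode)} = (Cfsg.setSystemAut {h : Finset Cfsg.ArrayPt | ∃ x ∈ Cfsg.ternaryGolayCode, Cfsg.ternarySupport x = h ∧ h.card = 6} : Set (Equiv.Perm Cfsg.ArrayPt)) := by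
  exact ⟨card_mon, aut_eq⟩

end Cfsg.Agent.S1594
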