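import Cfsg.Statements.S1595
import Cfsg.Agent.Lib.Helper3.Steiner

set_option autoImplicit false
open Cfsg

namespace Cfsg.Agent.S1595

open Finset Cfsg.Agent.Lib.Helper3.Steiner

variable {α : Type*} [Fintype α] [DecidableEq α]

/-- number of blocks meeting `b` exactly in `t` -/
noncomputable def N (B : Set (Finset α)) (b t : Finset α) : ℕ :=
  ((blocks B).filter (fun c => b ∩ c = t)).card

lemma total (B : Set (Finset α)) (b s : Finset α) (hb6 : b.card = 6) :
    ((blocks B).filter (fun c => s ⊆ c)).card
      = ∑ j ∈ range 7, ((blocks B).filter (fun c => s ⊆ c ∧ (b ∩ c).card = j)).card := by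
  rw [Finset.card_eq_sum_card_fiberwise (f := fun c => (b ∩ c).card) (t := range 7)]
  · apply Finset.sum_congr rfl
    intro j _
    rw [Finset.filter_filter]
  · intro c _
    simp only [coe_range, Set.mem_Iio]
    have : (b ∩ c).card ≤ b.card := Finset.card_le_card Finset.inter_subset_left
    omega

lemma fiber_lt (B : Set (Finset α)) (b s : Finset α) (j : ℕ) (hj : j < s.card) :
    ((blocks B).filter (fun c => s ⊆ c ∧ (b ∩ c).card = j)).card = 0 ∨ ¬ s ⊆ b := by
  by_cases hs : s ⊆ b
  · left
    rw [Finset.card_eq_zero, Finset.filter_eq_empty_iff]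
    rintro c _ ⟨h1, h2⟩
    have : s.card ≤ (b ∩ c).card := Finset.card_le_card (Finset.subset_inter hs h1)
    omega
  · right; exact hs

lemma fiber_eq (B : Set (Finset α)) (b s : Finset α) (hs : s ⊆ b) :
    ((blocks B).filter (fun c => s ⊆ c ∧ (b ∩ c).card = s.card)).card = N B b s := by
  unfold N
  congr 1
  apply Finset.filter_congr
  intro c _
  constructor
  · rintro ⟨h1, h2⟩
    exact (Finset.eq_of_subset_of_card_le (Finset.subset_inter hs h1) (le_of_eq h2)).symm
  · intro h
    subst h
    exact ⟨Finset.inter_subset_right, rfl⟩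

lemma fiber_gt (B : Set (Finset α)) (b s : Finset α) (hs : s ⊆ b) (j : ℕ) (hj : s.card ≤ j) (n : ℕ)
    (hn : ∀ t ⊆ b, t.card = j → N B b t = n) :
    ((blocks B).filter (fun c => s ⊆ c ∧ (b ∩ c).card = j)).card
      = Nat.choose (b.card - s.card) (j - s.card) * n := by
  rw [Finset.card_eq_sum_card_fiberwise (f := fun c => b ∩ c)
    (t := (powersetCard j b).filter (fun U => s ⊆ U))]
  · rw [← card_filter_superset s b hs j hj, Finset.card_eq_sum_ones, Finset.sum_mul]
    apply Finset.sum_congr rfl
    intro t ht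
    rw [mem_filter, mem_powersetCard] at ht
    rw [one_mul, ← hn t ht.1.1 ht.1.2]
    unfold N
    congr 1
    rw [Finset.filter_filter]
    apply Finset.filter_congr
    intro c _
    constructor
    · rintro ⟨_, h⟩; exact h
    · intro h
      refine ⟨⟨?_, ?_⟩, h⟩
      · exact (ht.2.trans (h ▸ Finset.inter_subset_right))
      · rw [h]; exact ht.1.2
  · intro c hc
    rw [Finset.mem_coe, mem_filter] at hc
    rw [Finset.mem_coe, mem_filter, mem_powersetCard]
    exact ⟨⟨Finset.inter_subset_left, hc.2.2⟩, Finset.subset_inter hs hc.2.1⟩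

/-- the values of the Leech triangle on the diagonal -/
def nv : ℕ → ℕ
  | 6 => 1
  | 5 => 0
  | 4 => 3
  | 3 => 2
  | 2 => 3
  | _ => 0

lemma step (B : Set (Finset α)) (b s : Finset α) (hb6 : b.card = 6) (hs : s ⊆ b)
    (hn : ∀ j, s.card < j → j < 7 → ∀ t ⊆ b, t.card = j → N B b t = nv j) :
    ((blocks B).filter (fun c => s ⊆ c)).card
      = ∑ j ∈ range 7, (if j < s.card then 0 else if j = s.card then N B b s
          else Nat.choose (6 - s.card) (j - s.card) * nv j) := by
  rw [total B b s hb6]
  apply Finset.sum_congr rfl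
  intro j hj
  rw [mem_range] at hj
  split_ifs with h1 h2
  · exact (fiber_lt B b s j h1).resolve_right (not_not.mpr hs)
  · rw [h2]; exact fiber_eq B b s hs
  · rw [fiber_gt B b s hs j (by omega) (nv j) (hn j (by omega) hj), hb6]

theorem result {α : Type*} [Fintype α] [DecidableEq α] (hα : Fintype.card α = 12) {B : Set (Finset α)} (hB : Cfsg.IsSteinerSystem 5 6 B) (b : Finset α) (hb : b ∈ B) : (∀ c ∈ B, c ≠ b → (b ∩ c).card = 0 ∨ (b ∩ c).card = 2 ∨ (b ∩ c).card = 3 ∨ (b ∩ c).card = 4) ∧ ∀ s ⊆ b, (s.card = 2 → {c : Finset α | c ∈ B ∧ b ∩ c = s}.ncard = 3) ∧ (s.card = 3 → {c : Finset α | c ∈ B ∧ b ∩ c = s}.ncard = 2) ∧ (s.card = 4 → {c : Finset α | c ∈ B ∧ b ∩ c = s}.ncard = 3) := by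
  classical
  obtain ⟨hcard, huniq⟩ := id hB
  have hb6 : b.card = 6 := hcard b hb
  have hM : ∀ T : Finset α, T.card ≤ 5 →
      ((blocks B).filter (fun c => T ⊆ c)).card * Nat.choose (6 - T.card) (5 - T.card)
        = Nat.choose (12 - T.card) (5 - T.card) := by
    intro T hT
    have := card_through hB T hT
    rwa [hα] at this
  have h6 : ∀ t ⊆ b, t.card = 6 → N B b t = 1 := by
    intro t ht htc
    have htb : t = b := Finset.eq_of_subset_of_card_le ht (by omega)
    subst htb
    unfold N
    rw [Finset.card_eq_one]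
    refine ⟨t, ?_⟩
    ext c
    rw [mem_filter, mem_singleton, mem_blocks]
    constructor
    · rintro ⟨hc, h⟩
      have h1 : t ⊆ c := by rw [← h]; exact Finset.inter_subset_right
      exact (Finset.eq_of_subset_of_card_le h1 (by rw [hcard c hc, htc])).symm
    · rintro rfl
      exact ⟨hb, Finset.inter_self _⟩
  have h5 : ∀ t ⊆ b, t.card = 5 → N B b t = 0 := by
    intro t ht htc
    have hs := step B b t hb6 ht (by
      intro j hj1 hj2 u hu huc
      have : j = 6 := by omega
      subst this
      exact h6 u hu huc)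
    have hm := hM t (by omega)
    rw [hs] at hm
    simp [Finset.sum_range_succ, htc, nv] at hm
    omega
  have h4 : ∀ t ⊆ b, t.card = 4 → N B b t = 3 := by
    intro t ht htc
    have hs := step B b t hb6 ht (by
      intro j hj1 hj2 u hu huc
      have : j = 5 ∨ j = 6 := by omega
      rcases this with rfl | rfl
      · exact h5 u hu huc
      · exact h6 u hu huc)
    have hm := hM t (by omega)
    rw [hs] at hm
    simp [Finset.sum_range_succ, htc, nv, Nat.choose] at hm
    omega
  have h3 : ∀ t ⊆ b, t.card = 3 → N B b t = 2 := by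
    intro t ht htc
    have hs := step B b t hb6 ht (by
      intro j hj1 hj2 u hu huc
      have : j = 4 ∨ j = 5 ∨ j = 6 := by omega
      rcases this with rfl | rfl | rfl
      · exact h4 u hu huc
      · exact h5 u hu huc
      · exact h6 u hu huc)
    have hm := hM t (by omega)
    rw [hs] at hm
    simp [Finset.sum_range_succ, htc, nv, Nat.choose] at hm
    omega
  have h2 : ∀ t ⊆ b, t.card = 2 → N B b t = 3 := by
    intro t ht htc
    have hs := step B b t hb6 ht (by
      intro j hj1 hj2 u hu huc
      have : j = 3 ∨ j = 4 ∨ j = 5 ∨ j = 6 := by omega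
      rcases this with rfl | rfl | rfl | rfl
      · exact h3 u hu huc
      · exact h4 u hu huc
      · exact h5 u hu huc
      · exact h6 u hu huc)
    have hm := hM t (by omega)
    rw [hs] at hm
    simp [Finset.sum_range_succ, htc, nv, Nat.choose] at hm
    omega
  have h1 : ∀ t ⊆ b, t.card = 1 → N B b t = 0 := by
    intro t ht htc
    have hs := step B b t hb6 ht (by
      intro j hj1 hj2 u hu huc
      have : j = 2 ∨ j = 3 ∨ j = 4 ∨ j = 5 ∨ j = 6 := by omega
      rcases this with rfl | rfl | rfl | rfl | rfl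
      · exact h2 u hu huc
      · exact h3 u hu huc
      · exact h4 u hu huc
      · exact h5 u hu huc
      · exact h6 u hu huc)
    have hm := hM t (by omega)
    rw [hs] at hm
    simp [Finset.sum_range_succ, htc, nv, Nat.choose] at hm
    omega
  have hset : ∀ s : Finset α, {c : Finset α | c ∈ B ∧ b ∩ c = s}.ncard = N B b s := by
    intro s
    unfold N
    rw [← Set.ncard_coe_finset]
    congr 1
    ext c
    simp [mem_blocks]
  refine ⟨?_, ?_⟩
  · intro c hc hcb
    have hpos : 0 < N B b (b ∩ c) := by
      unfold N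
      rw [Finset.card_pos]
      exact ⟨c, by rw [mem_filter, mem_blocks]; exact ⟨hc, rfl⟩⟩
    have hle : (b ∩ c).card ≤ 6 := by
      rw [← hb6]; exact Finset.card_le_card Finset.inter_subset_left
    have hsub : b ∩ c ⊆ b := Finset.inter_subset_left
    have hne6 : (b ∩ c).card ≠ 6 := by
      intro h
      have h1 : b ∩ c = b := Finset.eq_of_subset_of_card_le hsub (by omega)
      have h2 : b ⊆ c := by rw [← h1]; exact Finset.inter_subset_right
      exact hcb (Finset.eq_of_subset_of_card_le h2 (by rw [hcard c hc, hb6])).symm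
    have hne5 : (b ∩ c).card ≠ 5 := by
      intro h
      have := h5 _ hsub h
      omega
    have hne1 : (b ∩ c).card ≠ 1 := by
      intro h
      have := h1 _ hsub h
      omega
    omega
  · intro s hs
    refine ⟨fun h => ?_, fun h => ?_, fun h => ?_⟩
    · rw [hset]; exact h2 s hs h
    · rw [hset]; exact h3 s hs h
    · rw [hset]; exact h4 s hs h

end Cfsg.Agent.S1595
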