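import Cfsg.Statements.S1600
import Cfsg.Agent.Lib.Helper3.M24Frames
import Cfsg.Agent.Lib.Helper3.M24Simple3

set_option autoImplicit false
open scoped Pointwise
open Cfsg

namespace Cfsg.Agent.S1600

open Cfsg.Agent.Lib.Helper3.Golay Cfsg.Agent.Lib.Helper3.Golay2
open Cfsg.Agent.Lib.Helper3.GolayM24 Cfsg.Agent.Lib.Helper3.M24Perm
open Cfsg.Agent.Lib.Helper3.M24Cert Cfsg.Agent.Lib.Helper3.M24Trans
open Cfsg.Agent.Lib.Helper3.M24Oct Cfsg.Agent.Lib.Helper3.M24Dod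
open Cfsg.Agent.Lib.Helper3.M24Orb Cfsg.Agent.Lib.Helper3.M24Cls
open Cfsg.Agent.Lib.Helper3.M24ClsA Cfsg.Agent.Lib.Helper3.M24Frames
open Cfsg.Agent.Lib.Helper3.SimpleTools Cfsg.Agent.Lib.Helper3.M24Simple3

/-- The pointwise stabiliser of three points of a dodecad inside the dodecad stabiliser (order 72) is transitive on the complementary dodecad. -/
theorem result (d : Finset Cfsg.GolayPt) (hd : d ∈ Cfsg.dodecads) (p q r : Cfsg.GolayPt) (hp : p ∈ d) (hq : q ∈ d) (hr : r ∈ d) (hpq : p ≠ q) (hpr : p ≠ r) (hqr : q ≠ r) : Nat.card ↥(MulAction.stabilizer Cfsg.M24 d ⊓ MulAction.stabilizer Cfsg.M24 p ⊓ MulAction.stabilizer Cfsg.M24 q ⊓ MulAction.stabilizer Cfsg.M24 r) = 72 ∧ ∀ x ∉ d, ∀ y ∉ d, ∃ g ∈ (MulAction.stabilizer Cfsg.M24 d ⊓ MulAction.stabilizer Cfsg.M24 p ⊓ MulAction.stabilizer Cfsg.M24 q ⊓ MulAction.stabilizer Cfsg.M24 r), ((g : ↥Cfsg.M24) : Equiv.Perm Cfsg.GolayPt)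 x = y := by
  obtain ⟨σ, hσ, rfl, rfl, rfl, rfl⟩ := dodecad_frame3 hd hp hq hr hpq hpr hqr
  have hK : ∀ x : ↥M24, x ∈ (MulAction.stabilizer M24 (σ • ms (cw 1)) ⊓
      MulAction.stabilizer M24 (σ (pt 0)) ⊓ MulAction.stabilizer M24 (σ (pt 1)) ⊓
      MulAction.stabilizer M24 (σ (pt 2))) ↔
      σ⁻¹ * (x : Equiv.Perm GolayPt) * σ ∈ fixG [cw 1] [2, 1, 0] := by
    intro x
    rw [Subgroup.mem_inf, Subgroup.mem_inf, Subgroup.mem_inf, MulAction.mem_stabilizer_iff,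
      MulAction.mem_stabilizer_iff, MulAction.mem_stabilizer_iff, MulAction.mem_stabilizer_iff,
      mem_fixG]
    simp only [List.mem_singleton, forall_eq, List.forall_mem_cons, List.not_mem_nil,
      false_imp_iff, implies_true, and_true]
    rw [conj_pt rfl, conj_pt rfl, conj_pt rfl, conj_set rfl]
    exact ⟨fun hx => ⟨conj_mem hσ x, hx.1.1.1, hx.2, hx.1.2, hx.1.1.2⟩,
      fun hx => ⟨⟨⟨hx.2.1, hx.2.2.2.2⟩, hx.2.2.2.1⟩, hx.2.2.1⟩⟩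
  refine ⟨?_, ?_⟩
  · rw [Nat.card_congr (conjEquiv (fixG [cw 1] [2, 1, 0]) (fun g hg => hg.1) σ hσ _ hK).toEquiv,
      card_M9]
  · intro x hx y hy
    obtain ⟨τ, hτ, e⟩ := M9_trans (x := σ⁻¹ x) (y := σ⁻¹ y)
      (by rw [← Finset.inv_smul_mem_iff] at hx; exact hx)
      (by rw [← Finset.inv_smul_mem_iff] at hy; exact hy)
    refine ⟨⟨σ * τ * σ⁻¹, M24.mul_mem (M24.mul_mem hσ hτ.1) (M24.inv_mem hσ)⟩, (hK _).mpr ?_, ?_⟩
    · have h1 : σ⁻¹ * (σ * τ * σ⁻¹) * σ = τ := by group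
      simp only [h1]
      exact hτ
    · show (σ * τ * σ⁻¹) x = y
      rw [Equiv.Perm.mul_apply, Equiv.Perm.mul_apply, e]
      simp

end Cfsg.Agent.S1600
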