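import Cfsg.Statements.S1603
import Cfsg.Agent.Lib.Helper3.M24Dod
import Cfsg.Agent.Lib.Helper3.M24Gen
import Cfsg.Agent.Lib.Helper11.M24Conj
import Cfsg.Agent.Lib.Helper11.GL23

set_option autoImplicit false
open scoped Pointwise
open Cfsg

namespace Cfsg.Agent.S1603

open Cfsg.Agent.Lib.Helper3.Golay Cfsg.Agent.Lib.Helper3.Golay2
open Cfsg.Agent.Lib.Helper3.M24Perm Cfsg.Agent.Lib.Helper3.M24Cert
open Cfsg.Agent.Lib.Helper3.M24Cert2
open Cfsg.Agent.Lib.Helper3.M24Trans Cfsg.Agent.Lib.Helper3.M24Dod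
open Cfsg.Agent.Lib.Helper3.M24Gen
open Cfsg.Agent.Lib.Helper11.M24Conj Cfsg.Agent.Lib.Helper11.GL23

def T0 : ℕ := 970499966350631336865513127433832480

def cg : List ℕ := [235742061483406767849477376128910432, 608288895615245987645162920685438016]

def prsC1 : List (ℕ × List ℕ) := [(984818244535754528103549039458486304, []), (608288895615245987645162920685438016, [1]), (235742061483406767849477376128910432, [0])]

def prsC2 : List (ℕ × List ℕ) := [(984818244535754528103549039458486304, []), (601915135321570999558303616165022752, [0, 1])]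

def prsC3 : List (ℕ × List ℕ) := [(984818244535754528103549039458486304, []), (719923664328491199848526586197411872, [0, 0, 1, 1, 0]), (608405391266436187982588441666881568, [1, 0, 1, 0]), (715872302521680643580706198532491296, [0, 1, 0, 1]), (970499966350631336865513127433832480, [1, 1, 1, 1]), (227578386318009578406903204956702752, [1, 1]), (609271311764373893382231684089481248, [0, 1, 1, 0, 0]), (232652365823391711183829569059784736, [1, 0, 1, 1, 1, 0])]

def candA : List (ℕ × ℕ) := [(735500604421669808992593446508235808, 944576703234065857180591671912828960), (969202056781860934635753244362607648, 642126156913901256092130605344032160), (233950865888990746377447415904013344, 984818244535754528103549039458486304), (965346966670364367458681901213092896, 897428461058281338735267456929505312), (721064549862662597311266359538158624, 234560405285478607637062076013421600), (601915135321570999558303616165022752, 984818244535754528103549039458486304), (235366405754860650836778140353760288,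 984818244535754528103549039458486304), (606675048206788974183023727349926944, 984818244535754528103549039458486304)]

def candB : ℕ × ℕ := (648333173198446926654847902756766784, 721384076527011638328414689371140608)

/-! ### table-level predicates -/

def isInv (T : ℕ) : Bool := (List.range 24).all (fun i => Nat.beq (ent T (ent T i)) i)

def isId (T : ℕ) : Bool := (List.range 24).all (fun i => Nat.beq (ent T i) i)

theorem tp_idx {T : ℕ} (h : good T = true) (p : GolayPt) : tp T p = pt (ent T (idx p)) := by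
  have := tp_pt h (idx_lt p)
  rwa [pt_idx] at this

theorem isInv_of {T : ℕ} (hg : good T = true) (h : tp T * tp T = 1) : isInv T = true := by
  rw [isInv, List.all_eq_true]
  intro i hi
  have hi' : i < 24 := List.mem_range.mp hi
  have h1 : tp T (tp T (pt i)) = pt i := by
    have := congrArg (fun σ : Equiv.Perm GolayPt => σ (pt i)) h
    simpa using this
  rw [tp_pt hg hi', tp_pt hg (good_lt hg i hi')] at h1
  rw [pt_injOn (good_lt hg _ (good_lt hg i hi')) hi' h1]
  exact Nat.beq_refl _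

theorem isId_of {T : ℕ} (hg : good T = true) (h : isId T = true) : tp T = 1 := by
  ext p
  rw [tp_idx hg, Nat.eq_of_beq_eq_true (List.all_eq_true.mp h (idx p)
    (List.mem_range.mpr (idx_lt p))), pt_idx]
  rfl

theorem T0_good : good T0 = true := by decide +kernel

theorem T0_fix : inFix [cw 1] [3, 2, 1, 0] T0 = true := by decide +kernel

theorem T0_sq : tp T0 * tp T0 = 1 := tp_mul_eq_one T0_good T0_good (by decide +kernel)

theorem T0_ne : tp T0 ≠ 1 := by
  intro h
  have h1 := congrArg (fun σ : Equiv.Perm GolayPt => σ (pt 4)) h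
  simp only [Equiv.Perm.one_apply] at h1
  rw [tp_pt T0_good (by norm_num)] at h1
  exact absurd (pt_injOn (good_lt T0_good 4 (by norm_num)) (by norm_num) h1) (by decide +kernel)

theorem q8_check : dts5.all (fun T => isId T || !(isInv T) || Nat.beq T T0) = true := by
  decide +kernel

/-- the pointwise stabiliser of four points of the dodecad has a unique involution -/
theorem uniq_inv {h : Equiv.Perm GolayPt} (hh : h ∈ fixG [cw 1] [3, 2, 1, 0]) (h2 : h * h = 1)
    (h1 : h ≠ 1) : h = tp T0 := by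
  obtain ⟨T, hT, hfix, rfl⟩ := level_enum dl5 (by decide) fixd5_bot hh
  have hg := inFix_good hfix
  have c := List.all_eq_true.mp q8_check T hT
  rw [isInv_of hg h2] at c
  simp only [Bool.not_true, Bool.or_false, Bool.or_eq_true] at c
  rcases c with c | c
  · exact absurd (isId_of hg c) h1
  · rw [Nat.eq_of_beq_eq_true c]

/-! ### the centraliser in the standard position -/

theorem cl1 : levelCheck [cw 1, 14] [0] (prsC1.map Prod.fst) 1 14 3 = true := by decide +kernel

theorem cl2 : levelCheck [cw 1, 14] [1, 0] (prsC2.map Prod.fst) 2 12 2 = true := by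
  decide +kernel

theorem cl3 : levelCheck [cw 1, 14] [2, 1, 0] (prsC3.map Prod.fst) 4 340816 8 = true := by
  decide +kernel

theorem ms14 : ms 14 = {pt 1, pt 2, pt 3} := by
  ext p
  revert p
  decide

theorem cbot : fixG [cw 1, 14] [4, 2, 1, 0] = ⊥ := by
  rw [eq_bot_iff]
  intro g hg
  rw [← fixd5_bot]
  rw [mem_fixG] at hg ⊢
  obtain ⟨hM, hD, hF⟩ := hg
  refine ⟨hM, fun D hD' => hD D (by
    simp only [List.mem_cons, List.not_mem_nil, or_false] at hD' ⊢
    exact Or.inl hD'), ?_⟩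
  have h14 : g • ms 14 = ms 14 := hD 14 (by simp)
  have h0 : g (pt 0) = pt 0 := hF 0 (by simp)
  have h1 : g (pt 1) = pt 1 := hF 1 (by simp)
  have h2 : g (pt 2) = pt 2 := hF 2 (by simp)
  have h4 : g (pt 4) = pt 4 := hF 4 (by simp)
  have h3 : g (pt 3) = pt 3 := by
    have hm : g (pt 3) ∈ ms 14 := by
      rw [← h14]
      exact Finset.smul_mem_smul_finset (s := ms 14) (a := g) (by rw [ms14]; simp)
    rw [ms14] at hm
    simp only [Finset.mem_insert, Finset.mem_singleton] at hm
    rcases hm with h | h | h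
    · exfalso
      rw [← h1] at h
      exact absurd (g.injective h) (by decide)
    · exfalso
      rw [← h2] at h
      exact absurd (g.injective h) (by decide)
    · exact h
  intro i hi
  simp only [List.mem_cons, List.not_mem_nil, or_false] at hi
  rcases hi with rfl | rfl | rfl | rfl | rfl <;> assumption

theorem card_C0 : Nat.card (fixG [cw 1, 14] [0]) = 48 := by
  rw [level_card cl1 (by decide), level_card cl2 (by decide), level_card cl3 (by decide), cbot,
    Subgroup.card_bot]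

theorem cg_good : ∀ T ∈ cg, good T = true := by decide +kernel

theorem wC1 : prsC1.all (fun pw => good pw.1 && wordIs cg pw.2 pw.1) = true := by decide +kernel

theorem wC2 : prsC2.all (fun pw => good pw.1 && wordIs cg pw.2 pw.1) = true := by decide +kernel

theorem wC3 : prsC3.all (fun pw => good pw.1 && wordIs cg pw.2 pw.1) = true := by decide +kernel

theorem cwords_mem {prs : List (ℕ × List ℕ)}
    (h : prs.all (fun pw => good pw.1 && wordIs cg pw.2 pw.1) = true)
    (H : Subgroup (Equiv.Perm GolayPt)) (hH : ∀ T ∈ cg, tp T ∈ H) :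
    ∀ T ∈ prs.map Prod.fst, tp T ∈ H := by
  intro T hT
  obtain ⟨pw, hpw, rfl⟩ := List.mem_map.mp hT
  have h1 := List.all_eq_true.mp h pw hpw
  rw [Bool.and_eq_true] at h1
  exact word_mem cg_good h1.1 h1.2 H hH

theorem C0_le (H : Subgroup (Equiv.Perm GolayPt)) (hH : ∀ T ∈ cg, tp T ∈ H) :
    fixG [cw 1, 14] [0] ≤ H := by
  intro g hg
  refine strip_step H cl1 (by decide) (fun T hT _ => cwords_mem wC1 H hH T hT) ?_ g hg
  refine strip_step H cl2 (by decide) (fun T hT _ => cwords_mem wC2 H hH T hT) ?_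
  refine strip_step H cl3 (by decide) (fun T hT _ => cwords_mem wC3 H hH T hT) ?_
  intro g hg
  rw [cbot, Subgroup.mem_bot] at hg
  rw [hg]
  exact H.one_mem

def etaL : List ℕ := [0, 6, 9, 4, 13, 8, 12, 16, 18]

def etaI (v : Fin 2 → ZMod 3) : ℕ := etaL.getD (3 * (v 0).val + (v 1).val) 0

def eta (v : Fin 2 → ZMod 3) : GolayPt := pt (etaI v)

theorem etaI_lt : ∀ v, etaI v < 24 := by decide

theorem etaI_inj : Function.Injective etaI := by decide

theorem eta_inj : Function.Injective eta := fun v w h =>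
  etaI_inj (pt_injOn (etaI_lt v) (etaI_lt w) h)

theorem lin0 : ∀ v : Fin 2 → ZMod 3, ent (cg.getD 0 0) (etaI v) =
    etaI (Matrix.mulVec !![1, 1; 0, 1] v) := by decide

theorem lin1 : ∀ v : Fin 2 → ZMod 3, ent (cg.getD 1 0) (etaI v) =
    etaI (Matrix.mulVec !![0, 1; 1, 1] v) := by decide

theorem cg_lin : ∀ T ∈ cg, tp T ∈ Lin eta := by
  intro T hT
  have hgood := cg_good T hT
  simp only [cg, List.mem_cons, List.not_mem_nil, or_false] at hT
  rcases hT with rfl | rfl
  · refine ⟨Matrix.GeneralLinearGroup.mkOfDetNeZero !![1, 1; 0, 1]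
      (by rw [Matrix.det_fin_two_of]; decide), fun v => ?_⟩
    rw [eta, tp_pt hgood (etaI_lt v)]
    exact congrArg pt (lin0 v)
  · refine ⟨Matrix.GeneralLinearGroup.mkOfDetNeZero !![0, 1; 1, 1]
      (by rw [Matrix.det_fin_two_of]; decide), fun v => ?_⟩
    rw [eta, tp_pt hgood (etaI_lt v)]
    exact congrArg pt (lin1 v)

def vs : Fin 5 → (Fin 2 → ZMod 3) := ![![0, 0], ![0, 1], ![0, 2], ![1, 0], ![1, 1]]

theorem vs_inj : Function.Injective vs := by decide

def x9 : Fin 5 ↪ GolayPt := ⟨fun i => eta (vs i), eta_inj.comp vs_inj⟩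

theorem x9_mem : ∀ i, x9 i ∈ ms (cw 1) := by decide

theorem C0_iso : Nonempty (↥(fixG [cw 1, 14] [0]) ≃* GL (Fin 2) (ZMod 3)) := by
  apply gl23_iso eta eta_inj _ (C0_le _ cg_lin) _ card_C0
  intro g hg hfix
  rw [mem_fixG] at hg
  exact m12_unique d0_mem x9 x9_mem hg.1 (hg.2.1 _ (by simp)) (fun i => hfix _)

theorem fixchk : (List.range 24).all (fun i => !((cw 1).testBit i) || !(Nat.beq (ent T0 i) i) ||
    Nat.blt i 4) = true := by decide +kernel

theorem fix14 : (List.range 24).all (fun i => !(Nat.testBit 14 i) ||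
    (Nat.beq (ent T0 i) i && (cw 1).testBit i)) = true := by decide +kernel

theorem z0_fix {q : GolayPt} (hq : q ∈ ms 14) : tp T0 q = q ∧ q ∈ ms (cw 1) := by
  rw [mem_ms] at hq
  have h := List.all_eq_true.mp fix14 (idx q) (List.mem_range.mpr (idx_lt q))
  rw [hq] at h
  simp only [Bool.not_true, Bool.false_or, Bool.and_eq_true] at h
  refine ⟨?_, mem_ms.mpr h.2⟩
  rw [tp_idx T0_good, Nat.eq_of_beq_eq_true h.1, pt_idx]

theorem mem_C0_of_comm {g : Equiv.Perm GolayPt} (hg : g ∈ fixG [cw 1] [0])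
    (hc : g * tp T0 = tp T0 * g) : g ∈ fixG [cw 1, 14] [0] := by
  rw [mem_fixG] at hg ⊢
  obtain ⟨hM, hD, hF⟩ := hg
  have hd0 : g • ms (cw 1) = ms (cw 1) := hD _ (by simp)
  have h0 : g (pt 0) = pt 0 := hF 0 (by simp)
  refine ⟨hM, ?_, hF⟩
  intro D hD'
  simp only [List.mem_cons, List.not_mem_nil, or_false] at hD'
  rcases hD' with rfl | rfl
  · exact hd0
  · apply Finset.eq_of_subset_of_card_le
    · intro y hy
      obtain ⟨q, hq, rfl⟩ := Finset.mem_smul_finset.mp hy
      obtain ⟨hq1, hq2⟩ := z0_fix hq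
      have h1 : tp T0 (g q) = g q := by
        have := congrArg (fun σ : Equiv.Perm GolayPt => σ q) hc
        simp only [Equiv.Perm.mul_apply] at this
        rw [← this, hq1]
      have h2 : g q ∈ ms (cw 1) := by
        rw [← hd0]
        exact Finset.smul_mem_smul_finset hq2
      have h3 : g q ≠ pt 0 := by
        intro h
        rw [← h0] at h
        have := g.injective h
        rw [this] at hq
        exact absurd hq (by decide)
      rw [tp_idx T0_good] at h1
      have h4 := pt_injOn (good_lt T0_good _ (idx_lt _)) (idx_lt _) (h1.trans (pt_idx _).symm)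
      have h5 := List.all_eq_true.mp fixchk (idx (g q)) (List.mem_range.mpr (idx_lt _))
      rw [mem_ms.mp h2, h4] at h5
      simp only [Bool.not_true, Bool.false_or, Nat.beq_refl] at h5
      have h6 : idx (g q) < 4 := by simpa using h5
      have h7 : idx (g q) ≠ 0 := by
        intro h
        apply h3
        rw [← pt_idx (g q), h]
      show g • q ∈ ms 14
      rw [Equiv.Perm.smul_def, mem_ms]
      generalize idx (g q) = j at h6 h7
      interval_cases j
      · exact absurd rfl h7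
      · decide
      · decide
      · decide
    · rw [Finset.card_smul_finset]

theorem comm_of_mem_C0 {g : Equiv.Perm GolayPt} (hg : g ∈ fixG [cw 1, 14] [0]) :
    g * tp T0 = tp T0 * g := by
  rw [mem_fixG] at hg
  obtain ⟨hM, hD, hF⟩ := hg
  have hd0 : g • ms (cw 1) = ms (cw 1) := hD _ (by simp)
  have h14 : g • ms 14 = ms 14 := hD _ (by simp)
  have h0 : g (pt 0) = pt 0 := hF 0 (by simp)
  have hz := tp_mem_fixG T0_fix
  rw [mem_fixG] at hz
  have key : g * tp T0 * g⁻¹ = tp T0 := by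
    apply uniq_inv
    · rw [mem_fixG]
      refine ⟨mul_mem (mul_mem hM hz.1) (inv_mem hM), ?_, ?_⟩
      · intro D hD'
        simp only [List.mem_singleton] at hD'
        subst hD'
        rw [mul_smul, mul_smul, inv_smul_eq_iff.mpr hd0.symm, hz.2.1 _ (by simp), hd0]
      · intro i hi
        have hcase : pt i = pt 0 ∨ pt i ∈ ms 14 := by
          simp only [List.mem_cons, List.not_mem_nil, or_false] at hi
          rcases hi with rfl | rfl | rfl | rfl
          · exact Or.inr (by decide)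
          · exact Or.inr (by decide)
          · exact Or.inr (by decide)
          · exact Or.inl rfl
        rw [Equiv.Perm.mul_apply, Equiv.Perm.mul_apply]
        rcases hcase with h | h
        · rw [h]
          have e1 : g⁻¹ (pt 0) = pt 0 := by
            rw [Equiv.Perm.inv_eq_iff_eq, h0]
          rw [e1, hz.2.2 0 (by simp), h0]
        · have e1 : g⁻¹ (pt i) ∈ ms 14 := by
            have : g⁻¹ • pt i ∈ g⁻¹ • ms 14 := Finset.smul_mem_smul_finset h
            rwa [inv_smul_eq_iff.mpr h14.symm] at this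
          rw [(z0_fix e1).1]
          exact Equiv.apply_symm_apply g _
    · calc g * tp T0 * g⁻¹ * (g * tp T0 * g⁻¹) = g * (tp T0 * tp T0) * g⁻¹ := by group
        _ = 1 := by rw [T0_sq]; group
    · intro h
      apply T0_ne
      calc tp T0 = g⁻¹ * (g * tp T0 * g⁻¹) * g := by group
        _ = 1 := by rw [h]; group
  calc g * tp T0 = g * tp T0 * g⁻¹ * g := by group
    _ = tp T0 * g := by rw [key]

/-! ### conjugating an involution to the standard one -/

theorem det5 {g g' : Equiv.Perm GolayPt} (hg : g ∈ fixG [cw 1] []) (hg' : g' ∈ fixG [cw 1] [])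
    (h : ∀ i ∈ ([4, 3, 2, 1, 0] : List ℕ), g (pt i) = g' (pt i)) : g = g' := by
  have h1 : g'⁻¹ * g ∈ fixG [cw 1] [4, 3, 2, 1, 0] := by
    rw [mem_fixG] at hg hg' ⊢
    refine ⟨mul_mem (inv_mem hg'.1) hg.1, ?_, ?_⟩
    · intro D hD
      rw [mul_smul, hg.2.1 D hD, inv_smul_eq_iff, hg'.2.1 D hD]
    · intro i hi
      rw [Equiv.Perm.mul_apply, h i hi]
      exact Equiv.symm_apply_apply g' _
  rw [fixd5_bot, Subgroup.mem_bot, inv_mul_eq_one] at h1
  exact h1.symm

def conjOK (T W : ℕ) : Bool :=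
  (List.range 24).all (fun i => Nat.beq (ent T (ent W i)) (ent W (ent T0 i)))

theorem conj_of {T W : ℕ} (hT : good T = true) (hW : good W = true) (h : conjOK T W = true) :
    (tp W)⁻¹ * tp T * tp W = tp T0 := by
  have key : tp T * tp W = tp W * tp T0 := by
    ext p
    rw [Equiv.Perm.mul_apply, Equiv.Perm.mul_apply, tp_idx hW,
      tp_pt hT (good_lt hW _ (idx_lt p)), tp_idx T0_good,
      tp_pt hW (good_lt T0_good _ (idx_lt p)),
      Nat.eq_of_beq_eq_true (List.all_eq_true.mp h (idx p) (List.mem_range.mpr (idx_lt p)))]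
  rw [mul_assoc, key, ← mul_assoc, inv_mul_cancel, one_mul]

def candOK (a1 a2 a3 j : ℕ) (c : ℕ × ℕ) : Bool :=
  inFix [cw 1] [0] c.1 && Nat.beq (ent c.1 1) a1 && Nat.beq (ent c.1 2) a2 &&
    Nat.beq (ent c.1 3) a3 && Nat.beq (ent c.1 4) j &&
    (!(isInv c.1) || (inFix [cw 1] [0] c.2 && conjOK c.1 c.2))

theorem chkA : (List.range 24).all (fun j => !((cw 1).testBit j) || Nat.blt j 4 ||
    candA.any (candOK 1 3 2 j)) = true := by decide +kernel

theorem chkB : candOK 2 1 4 3 candB = true := by decide +kernel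

theorem norm_of_cand {g : Equiv.Perm GolayPt} (hg : g ∈ fixG [cw 1] [0]) (h2 : g * g = 1)
    {a1 a2 a3 j : ℕ} {c : ℕ × ℕ} (hc : candOK a1 a2 a3 j c = true)
    (e1 : g (pt 1) = pt a1) (e2 : g (pt 2) = pt a2) (e3 : g (pt 3) = pt a3)
    (e4 : g (pt 4) = pt j) : ∃ w ∈ fixG [cw 1] [0], w⁻¹ * g * w = tp T0 := by
  simp only [candOK, Bool.and_eq_true] at hc
  obtain ⟨⟨⟨⟨⟨hf, b1⟩, b2⟩, b3⟩, b4⟩, hinv⟩ := hc
  have hgood := inFix_good hf
  have hT := tp_mem_fixG hf
  have e : g = tp c.1 := by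
    apply det5 (fixG_le_nil _ _ hg) (fixG_le_nil _ _ hT)
    intro i hi
    simp only [List.mem_cons, List.not_mem_nil, or_false] at hi
    rcases hi with rfl | rfl | rfl | rfl | rfl
    · rw [e4, tp_pt hgood (by norm_num), Nat.eq_of_beq_eq_true b4]
    · rw [e3, tp_pt hgood (by norm_num), Nat.eq_of_beq_eq_true b3]
    · rw [e2, tp_pt hgood (by norm_num), Nat.eq_of_beq_eq_true b2]
    · rw [e1, tp_pt hgood (by norm_num), Nat.eq_of_beq_eq_true b1]
    · rw [(mem_fixG.mp hg).2.2 0 (by simp), (mem_fixG.mp hT).2.2 0 (by simp)]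
  subst e
  have hi := isInv_of hgood h2
  rw [hi] at hinv
  simp only [Bool.not_true, Bool.false_or, Bool.and_eq_true] at hinv
  exact ⟨tp c.2, tp_mem_fixG hinv.1, conj_of hgood (inFix_good hinv.1) hinv.2⟩

theorem d0_bits5 : ∀ i : Fin 5, (cw 1).testBit i.val = true := by decide

theorem exists_ne3 {d : Finset GolayPt} (hd : d ∈ dodecads) (a b c : GolayPt) :
    ∃ y ∈ d, y ≠ a ∧ y ≠ b ∧ y ≠ c := by
  by_contra hcon
  have hsub : d ⊆ {a, b, c} := by
    intro y hy
    by_contra h
    simp only [Finset.mem_insert, Finset.mem_singleton, not_or] at h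
    exact hcon ⟨y, hy, h.1, h.2.1, h.2.2⟩
  have h1 := Finset.card_le_card hsub
  have h3 := Finset.card_le_three (a := a) (b := b) (c := c)
  rw [hd.2] at h1
  omega

theorem exists_ne4 {d : Finset GolayPt} (hd : d ∈ dodecads) (a b c e : GolayPt) :
    ∃ y ∈ d, y ≠ a ∧ y ≠ b ∧ y ≠ c ∧ y ≠ e := by
  by_contra hcon
  have hsub : d ⊆ {a, b, c, e} := by
    intro y hy
    by_contra h
    simp only [Finset.mem_insert, Finset.mem_singleton, not_or] at h
    exact hcon ⟨y, hy, h.1, h.2.1, h.2.2.1, h.2.2.2⟩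
  have h1 := Finset.card_le_card hsub
  have h3 := Finset.card_le_four (a := a) (b := b) (c := c) (d := e)
  rw [hd.2] at h1
  omega

/-- in the frame `u`, the involution is conjugate to the standard one -/
theorem finish {d : Finset GolayPt} {p : GolayPt} {X u : Equiv.Perm GolayPt} (hu : u ∈ M24)
    (hud : u • ms (cw 1) = d) (u0 : u (pt 0) = p)
    (h : ∃ w ∈ fixG [cw 1] [0], w⁻¹ * (u⁻¹ * X * u) * w = tp T0) :
    ∃ τ ∈ M24, τ • ms (cw 1) = d ∧ τ (pt 0) = p ∧ τ⁻¹ * X * τ = tp T0 := by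
  obtain ⟨w, hw, hwc⟩ := h
  refine ⟨u * w, mul_mem hu (mem_fixG.mp hw).1, ?_, ?_, ?_⟩
  · rw [mul_smul, (mem_fixG.mp hw).2.1 (cw 1) (by simp), hud]
  · rw [Equiv.Perm.mul_apply, (mem_fixG.mp hw).2.2 0 (by simp), u0]
  · rw [← hwc]
    group

theorem inv_normal {d : Finset GolayPt} {p : GolayPt} {X : Equiv.Perm GolayPt}
    (hd : d ∈ dodecads) (hp : p ∈ d) (hX : X ∈ M24) (hXd : X • d = d) (hXp : X p = p)
    (h2 : X * X = 1) (h1 : X ≠ 1) :
    ∃ τ ∈ M24, τ • ms (cw 1) = d ∧ τ (pt 0) = p ∧ τ⁻¹ * X * τ = tp T0 := by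
  have hmem : ∀ y ∈ d, X y ∈ d := fun y hy => by
    have : X • y ∈ X • d := Finset.smul_mem_smul_finset hy
    rwa [hXd] at this
  have hXX : ∀ y, X (X y) = y := fun y => by
    have := congrArg (fun σ : Equiv.Perm GolayPt => σ y) h2
    simpa using this
  have hmoved : ∃ e ∈ d, X e ≠ e := by
    by_contra hcon
    have hcon' : ∀ e ∈ d, X e = e := fun e he => by
      by_contra h
      exact hcon ⟨e, he, h⟩
    obtain ⟨σ, hσ, hσd⟩ := dodecad_orbit hd
    let x : Fin 5 ↪ GolayPt := ⟨fun i => σ (pt i.val), fun i j hij => by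
      have := pt_injOn (by omega) (by omega) (σ.injective hij)
      exact Fin.ext this⟩
    have hx : ∀ i, x i ∈ d := fun i => by
      rw [← hσd]
      exact Finset.smul_mem_smul_finset ((pt_mem_ms (by omega)).mpr (d0_bits5 i))
    exact h1 (m12_unique hd x hx hX hXd (fun i => hcon' _ (hx i)))
  obtain ⟨e, he, hne⟩ := hmoved
  obtain ⟨f, hf⟩ : ∃ f, X e = f := ⟨_, rfl⟩
  have hfd : f ∈ d := hf ▸ hmem e he
  have hfe : X f = e := by rw [← hf]; exact hXX e
  have hfne : f ≠ e := fun h => hne (by rw [hf, h])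
  have hep : e ≠ p := fun h => hne (by rw [h, hXp])
  have hfp : f ≠ p := fun h => hep (by rw [← hfe, h, hXp])
  obtain ⟨e2, he2, h2p, h2e, h2f⟩ := exists_ne3 hd p e f
  have hg : ∀ u : Equiv.Perm GolayPt, u ∈ M24 → u • ms (cw 1) = d → u (pt 0) = p →
      u⁻¹ * X * u ∈ fixG [cw 1] [0] ∧ (u⁻¹ * X * u) * (u⁻¹ * X * u) = 1 := by
    intro u hu hud u0
    constructor
    · rw [mem_fixG]
      refine ⟨mul_mem (mul_mem (inv_mem hu) hX) hu, ?_, ?_⟩
      · intro D hD
        simp only [List.mem_singleton] at hD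
        subst hD
        exact (conj_smul_iff hud).mpr hXd
      · intro i hi
        simp only [List.mem_singleton] at hi
        subst hi
        exact (conj_smul_iff (show u • pt 0 = p from u0)).mpr hXp
    · calc u⁻¹ * X * u * (u⁻¹ * X * u) = u⁻¹ * (X * X) * u := by group
        _ = 1 := by rw [h2]; group
  have val : ∀ (u : Equiv.Perm GolayPt) (i : ℕ) (y : GolayPt), u (pt i) = y → ∀ k, X y = u (pt k) →
      (u⁻¹ * X * u) (pt i) = pt k := by
    intro u i y hy k hk
    rw [Equiv.Perm.mul_apply, Equiv.Perm.mul_apply, hy, hk]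
    exact Equiv.symm_apply_apply u _
  by_cases hfix : X e2 = e2
  · obtain ⟨b, hb, hbp, hbe2, hbe, hbf⟩ := exists_ne4 hd p e2 e f
    let x : Fin 5 ↪ GolayPt := ⟨![p, e2, e, f, b], by
      intro i j hij
      fin_cases i <;> fin_cases j <;> simp_all⟩
    have hx : ∀ i, x i ∈ d := by
      intro i
      fin_cases i
      · exact hp
      · exact he2
      · exact he
      · exact hfd
      · exact hb
    obtain ⟨u, hu, hud, hux⟩ := exists_frame hd x hx
    have u0 : u (pt 0) = p := hux 0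
    have u1 : u (pt 1) = e2 := hux 1
    have u2 : u (pt 2) = e := hux 2
    have u3 : u (pt 3) = f := hux 3
    obtain ⟨hg1, hg2⟩ := hg u hu hud u0
    have g0 : (u⁻¹ * X * u) (pt 0) = pt 0 := (mem_fixG.mp hg1).2.2 0 (by simp)
    have g1 : (u⁻¹ * X * u) (pt 1) = pt 1 := val u 1 e2 u1 1 (by rw [hfix, u1])
    have g2 : (u⁻¹ * X * u) (pt 2) = pt 3 := val u 2 e u2 3 (by rw [hf, u3])
    have g3 : (u⁻¹ * X * u) (pt 3) = pt 2 := val u 3 f u3 2 (by rw [hfe, u2])
    have hy4 : (u⁻¹ * X * u) (pt 4) ∈ ms (cw 1) := by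
      have hD := (mem_fixG.mp hg1).2.1 (cw 1) (by simp)
      have : (u⁻¹ * X * u) • pt 4 ∈ (u⁻¹ * X * u) • ms (cw 1) :=
        Finset.smul_mem_smul_finset ((pt_mem_ms (by norm_num)).mpr (by decide))
      rwa [hD] at this
    obtain ⟨y4, hy4def⟩ : ∃ y4, (u⁻¹ * X * u) (pt 4) = y4 := ⟨_, rfl⟩
    rw [hy4def] at hy4
    have hj : (u⁻¹ * X * u) (pt 4) = pt (idx y4) := by rw [hy4def, pt_idx]
    have hj4 : ¬ idx y4 < 4 := by
      intro hlt
      have hcases : idx y4 = 0 ∨ idx y4 = 1 ∨ idx y4 = 2 ∨ idx y4 = 3 := by omega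
      rcases hcases with h | h | h | h
      · rw [h, ← g0] at hj
        exact absurd ((u⁻¹ * X * u).injective hj) (by decide)
      · rw [h, ← g1] at hj
        exact absurd ((u⁻¹ * X * u).injective hj) (by decide)
      · rw [h, ← g3] at hj
        exact absurd ((u⁻¹ * X * u).injective hj) (by decide)
      · rw [h, ← g2] at hj
        exact absurd ((u⁻¹ * X * u).injective hj) (by decide)
    have hc := List.all_eq_true.mp chkA (idx y4) (List.mem_range.mpr (idx_lt y4))
    rw [mem_ms.mp hy4] at hc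
    simp only [Bool.not_true, Bool.false_or, Bool.or_eq_true] at hc
    rcases hc with hc | hc
    · exact absurd (by simpa using hc) hj4
    · obtain ⟨c, _, hc'⟩ := List.any_eq_true.mp hc
      exact finish hu hud u0 (norm_of_cand hg1 hg2 hc' g1 g2 g3 hj)
  · obtain ⟨f2, hf2⟩ : ∃ f2, X e2 = f2 := ⟨_, rfl⟩
    have hf2d : f2 ∈ d := hf2 ▸ hmem e2 he2
    have hf2e2 : X f2 = e2 := by rw [← hf2]; exact hXX e2
    have hf2ne : f2 ≠ e2 := fun h => hfix (by rw [hf2, h])
    have hf2p : f2 ≠ p := fun h => h2p (by rw [← hf2e2, h, hXp])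
    have hf2e : f2 ≠ e := fun h => h2f (by rw [← hf2e2, h, hf])
    have hf2f : f2 ≠ f := fun h => h2e (by rw [← hf2e2, h, hfe])
    let x : Fin 5 ↪ GolayPt := ⟨![p, e, f, e2, f2], by
      intro i j hij
      fin_cases i <;> fin_cases j <;> simp_all⟩
    have hx : ∀ i, x i ∈ d := by
      intro i
      fin_cases i
      · exact hp
      · exact he
      · exact hfd
      · exact he2
      · exact hf2d
    obtain ⟨u, hu, hud, hux⟩ := exists_frame hd x hx
    have u0 : u (pt 0) = p := hux 0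
    have u1 : u (pt 1) = e := hux 1
    have u2 : u (pt 2) = f := hux 2
    have u3 : u (pt 3) = e2 := hux 3
    have u4 : u (pt 4) = f2 := hux 4
    obtain ⟨hg1, hg2⟩ := hg u hu hud u0
    have g1 : (u⁻¹ * X * u) (pt 1) = pt 2 := val u 1 e u1 2 (by rw [hf, u2])
    have g2 : (u⁻¹ * X * u) (pt 2) = pt 1 := val u 2 f u2 1 (by rw [hfe, u1])
    have g3 : (u⁻¹ * X * u) (pt 3) = pt 4 := val u 3 e2 u3 4 (by rw [hf2, u4])
    have g4 : (u⁻¹ * X * u) (pt 4) = pt 3 := val u 4 f2 u4 3 (by rw [hf2e2, u3])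
    exact finish hu hud u0 (norm_of_cand hg1 hg2 chkB g1 g2 g3 g4)

theorem result (d : Finset Cfsg.GolayPt) (hd : d ∈ Cfsg.dodecads) (p : Cfsg.GolayPt) (hp : p ∈ d) (x : ↥(MulAction.stabilizer Cfsg.M24 d ⊓ MulAction.stabilizer Cfsg.M24 p)) (hx : orderOf x = 2) : Nonempty (↥(Subgroup.centralizer ({x} : Set ↥(MulAction.stabilizer Cfsg.M24 d ⊓ MulAction.stabilizer Cfsg.M24 p))) ≃* GL (Fin 2) (ZMod 3)) := by
  have hx2 := orderOf_eq_prime_iff.mp hx
  have hXM : ((x : ↥Cfsg.M24) : Equiv.Perm Cfsg.GolayPt) ∈ Cfsg.M24 := (x : ↥Cfsg.M24).2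
  have hxN := x.2
  rw [Subgroup.mem_inf] at hxN
  have hXd : ((x : ↥Cfsg.M24) : Equiv.Perm Cfsg.GolayPt) • d = d := hxN.1
  have hXp : ((x : ↥Cfsg.M24) : Equiv.Perm Cfsg.GolayPt) p = p := hxN.2
  have hX2 : ((x : ↥Cfsg.M24) : Equiv.Perm Cfsg.GolayPt) *
      ((x : ↥Cfsg.M24) : Equiv.Perm Cfsg.GolayPt) = 1 := by
    have := congrArg (fun y : ↥(MulAction.stabilizer Cfsg.M24 d ⊓ MulAction.stabilizer Cfsg.M24 p)
      => ((y : ↥Cfsg.M24) : Equiv.Perm Cfsg.GolayPt)) hx2.1
    simpa [pow_two] using this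
  have hX1 : ((x : ↥Cfsg.M24) : Equiv.Perm Cfsg.GolayPt) ≠ 1 := fun h =>
    hx2.2 (Subtype.ext (Subtype.ext h))
  obtain ⟨τ, hτ, hτd, hτp, hτX⟩ := inv_normal hd hp hXM hXd hXp hX2 hX1
  have hXeq : ((x : ↥Cfsg.M24) : Equiv.Perm Cfsg.GolayPt) =
      τ * Cfsg.Agent.Lib.Helper3.M24Perm.tp T0 * τ⁻¹ := by
    rw [← hτX]
    group
  have hE : Nonempty (↥(Subgroup.centralizer ({x} : Set ↥(MulAction.stabilizer Cfsg.M24 d ⊓
      MulAction.stabilizer Cfsg.M24 p))) ≃*
      ↥(Cfsg.Agent.Lib.Helper3.M24Cert.fixG [Cfsg.Agent.Lib.Helper3.Golay.cw 1, 14] [0])) := by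
    apply Cfsg.Agent.Lib.Helper11.GL23.conj_iso2 Cfsg.M24
      (MulAction.stabilizer Cfsg.M24 d ⊓ MulAction.stabilizer Cfsg.M24 p)
      (Subgroup.centralizer ({x} : Set ↥(MulAction.stabilizer Cfsg.M24 d ⊓
        MulAction.stabilizer Cfsg.M24 p)))
      (Cfsg.Agent.Lib.Helper3.M24Cert.fixG [Cfsg.Agent.Lib.Helper3.Golay.cw 1, 14] [0]) τ
    · intro k hk
      simp only [Subgroup.mem_centralizer_iff, Set.mem_singleton_iff, forall_eq] at hk
      have hkN := k.2
      rw [Subgroup.mem_inf] at hkN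
      have hc : ((x : ↥Cfsg.M24) : Equiv.Perm Cfsg.GolayPt) *
          ((k : ↥Cfsg.M24) : Equiv.Perm Cfsg.GolayPt) =
          ((k : ↥Cfsg.M24) : Equiv.Perm Cfsg.GolayPt) *
          ((x : ↥Cfsg.M24) : Equiv.Perm Cfsg.GolayPt) := by
        have := congrArg (fun y : ↥(MulAction.stabilizer Cfsg.M24 d ⊓
          MulAction.stabilizer Cfsg.M24 p) => ((y : ↥Cfsg.M24) : Equiv.Perm Cfsg.GolayPt)) hk
        simpa using this
      apply mem_C0_of_comm
      · rw [Cfsg.Agent.Lib.Helper3.M24Cert.mem_fixG]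
        refine ⟨mul_mem (mul_mem (inv_mem hτ) (k : ↥Cfsg.M24).2) hτ, ?_, ?_⟩
        · intro D hD
          simp only [List.mem_singleton] at hD
          subst hD
          exact (Cfsg.Agent.Lib.Helper11.M24Conj.conj_smul_iff hτd).mpr hkN.1
        · intro i hi
          simp only [List.mem_singleton] at hi
          subst hi
          exact (Cfsg.Agent.Lib.Helper11.M24Conj.conj_smul_iff
            (show τ • Cfsg.Agent.Lib.Helper3.M24Perm.pt 0 = p from hτp)).mpr hkN.2
      · rw [← hτX]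
        calc τ⁻¹ * ((k : ↥Cfsg.M24) : Equiv.Perm Cfsg.GolayPt) * τ *
              (τ⁻¹ * ((x : ↥Cfsg.M24) : Equiv.Perm Cfsg.GolayPt) * τ)
            = τ⁻¹ * (((k : ↥Cfsg.M24) : Equiv.Perm Cfsg.GolayPt) *
              ((x : ↥Cfsg.M24) : Equiv.Perm Cfsg.GolayPt)) * τ := by group
          _ = τ⁻¹ * (((x : ↥Cfsg.M24) : Equiv.Perm Cfsg.GolayPt) *
              ((k : ↥Cfsg.M24) : Equiv.Perm Cfsg.GolayPt)) * τ := by rw [hc]
          _ = τ⁻¹ * ((x : ↥Cfsg.M24) : Equiv.Perm Cfsg.GolayPt) * τ *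
              (τ⁻¹ * ((k : ↥Cfsg.M24) : Equiv.Perm Cfsg.GolayPt) * τ) := by group
    · intro y hy
      have hyc := comm_of_mem_C0 hy
      rw [Cfsg.Agent.Lib.Helper3.M24Cert.mem_fixG] at hy
      obtain ⟨hyM, hyD, hyF⟩ := hy
      have hYM : τ * y * τ⁻¹ ∈ Cfsg.M24 := mul_mem (mul_mem hτ hyM) (inv_mem hτ)
      have hYd : (τ * y * τ⁻¹) • d = d := by
        rw [← hτd, mul_smul, mul_smul, inv_smul_smul, hyD _ (by simp)]
      have hYp : (τ * y * τ⁻¹) p = p := by
        rw [← hτp, Equiv.Perm.mul_apply, Equiv.Perm.mul_apply]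
        show τ (y (τ.symm (τ (Cfsg.Agent.Lib.Helper3.M24Perm.pt 0)))) = _
        rw [Equiv.symm_apply_apply, hyF 0 (by simp)]
      refine ⟨⟨⟨τ * y * τ⁻¹, hYM⟩, Subgroup.mem_inf.mpr ⟨hYd, hYp⟩⟩, ?_, rfl⟩
      simp only [Subgroup.mem_centralizer_iff, Set.mem_singleton_iff, forall_eq]
      apply Subtype.ext
      apply Subtype.ext
      show ((x : ↥Cfsg.M24) : Equiv.Perm Cfsg.GolayPt) * (τ * y * τ⁻¹) =
        τ * y * τ⁻¹ * ((x : ↥Cfsg.M24) : Equiv.Perm Cfsg.GolayPt)
      rw [hXeq]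
      calc τ * Cfsg.Agent.Lib.Helper3.M24Perm.tp T0 * τ⁻¹ * (τ * y * τ⁻¹)
          = τ * (Cfsg.Agent.Lib.Helper3.M24Perm.tp T0 * y) * τ⁻¹ := by group
        _ = τ * (y * Cfsg.Agent.Lib.Helper3.M24Perm.tp T0) * τ⁻¹ := by rw [hyc]
        _ = τ * y * τ⁻¹ * (τ * Cfsg.Agent.Lib.Helper3.M24Perm.tp T0 * τ⁻¹) := by group
  obtain ⟨E⟩ := hE
  obtain ⟨E'⟩ := C0_iso
  exact ⟨E.trans E'⟩

end Cfsg.Agent.S1603
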