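import Cfsg.Statements.S5619
import Cfsg.Agent.Lib.Helper3.M24Dod
import Cfsg.Agent.Lib.Helper3.M24Frames
import Cfsg.Agent.Lib.Helper3.M24Gen
import Cfsg.Agent.Lib.Helper3.M24Cert2
import Cfsg.Agent.Lib.Helper11.M24Conj
import Cfsg.Agent.Lib.Helper18.UniqueInvolution
import Cfsg.Agent.S1603

set_option autoImplicit false
open scoped Pointwise
open Cfsg

namespace Cfsg.Agent.S5619

open Cfsg.Agent.Lib.Helper3.Golay Cfsg.Agent.Lib.Helper3.Golay2
open Cfsg.Agent.Lib.Helper3.M24Perm Cfsg.Agent.Lib.Helper3.M24Cert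
open Cfsg.Agent.Lib.Helper3.M24Cert2
open Cfsg.Agent.Lib.Helper3.M24Trans Cfsg.Agent.Lib.Helper3.M24Dod
open Cfsg.Agent.Lib.Helper3.M24Gen Cfsg.Agent.Lib.Helper3.M24Frames
open Cfsg.Agent.Lib.Helper11.M24Conj

def tsN : List ℕ := [984818244535754528103549039458486304, 487607080158395075740321133224921120, 984769902586367543974814854303385632, 928952864966028496604741530750814240, 984534996141977609297800625156032544, 928718206277989008510816407558424608, 487655643029606470073469406179395616, 487373122709212905255923294881187872, 929000492124499343650182431580424224]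

def TX : ℕ := 719923664328491199848526586197411872

def TXi : ℕ := 715872302521680643580706198532491296

def TY : ℕ := 232652365823391711183829569059784736

def TYi : ℕ := 227578386318009578406903204956702752

theorem lN : levelCheck [cw 1] [2, 1, 0] tsN 3 340824 9 = true := by decide +kernel

theorem tsN_fix : ∀ T ∈ tsN, inFix [cw 1] [2, 1, 0] T = true := by decide +kernel

theorem tsN_good {T : ℕ} (h : T ∈ tsN) : good T = true := inFix_good (tsN_fix T h)

theorem dts5_fix : ∀ T ∈ dts5, inFix [cw 1] [3, 2, 1, 0] T = true := by decide +kernel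

theorem dts5_good {T : ℕ} (h : T ∈ dts5) : good T = true := inFix_good (dts5_fix T h)

def mulChk (A B C : ℕ) : Bool :=
  (List.range 24).all (fun i => Nat.beq (ent A (ent B i)) (ent C i))

theorem mul_of_chk {A B C : ℕ} (hA : good A = true) (hB : good B = true) (hC : good C = true)
    (h : mulChk A B C = true) : tp A * tp B = tp C := by
  apply Equiv.ext
  intro p
  rw [Equiv.Perm.mul_apply, Cfsg.Agent.S1603.tp_idx hB p, tp_pt hA (good_lt hB _ (idx_lt p)),
    Cfsg.Agent.S1603.tp_idx hC p, Nat.eq_of_beq_eq_true (List.all_eq_true.mp h (idx p)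
      (List.mem_range.mpr (idx_lt p)))]

def conjChk (A B C : ℕ) : Bool :=
  (List.range 24).all (fun i => Nat.beq (ent A (ent B i)) (ent C (ent A i)))

theorem conj_of_chk {A B C : ℕ} (hA : good A = true) (hB : good B = true) (hC : good C = true)
    (h : conjChk A B C = true) : tp A * tp B = tp C * tp A := by
  apply Equiv.ext
  intro p
  rw [Equiv.Perm.mul_apply, Equiv.Perm.mul_apply, Cfsg.Agent.S1603.tp_idx hB p,
    tp_pt hA (good_lt hB _ (idx_lt p)), Cfsg.Agent.S1603.tp_idx hA p,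
    tp_pt hC (good_lt hA _ (idx_lt p)), Nat.eq_of_beq_eq_true (List.all_eq_true.mp h (idx p)
      (List.mem_range.mpr (idx_lt p)))]

def cubeChk (A : ℕ) : Bool :=
  (List.range 24).all (fun i => Nat.beq (ent A (ent A (ent A i))) i)

theorem cube_of_chk {A : ℕ} (hA : good A = true) (h : cubeChk A = true) :
    tp A * (tp A * tp A) = 1 := by
  apply Equiv.ext
  intro p
  rw [Equiv.Perm.mul_apply, Equiv.Perm.mul_apply, Cfsg.Agent.S1603.tp_idx hA p,
    tp_pt hA (good_lt hA _ (idx_lt p)), tp_pt hA (good_lt hA _ (good_lt hA _ (idx_lt p))),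
    Nat.eq_of_beq_eq_true (List.all_eq_true.mp h (idx p) (List.mem_range.mpr (idx_lt p))),
    pt_idx]
  rfl

theorem N_mul : tsN.all (fun A => tsN.all (fun B => tsN.any (fun C => mulChk A B C))) = true := by
  decide +kernel

theorem N_conj : dts5.all (fun A => tsN.all (fun B => tsN.any (fun C => conjChk A B C))) = true := by
  decide +kernel

theorem N_cube : tsN.all cubeChk = true := by decide +kernel

theorem N_inj : tsN.all (fun A => tsN.all (fun B =>
    !(Nat.beq (ent A 3) (ent B 3)) || Nat.beq A B)) = true := by decide +kernel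

theorem N_mul_mem {g h : Equiv.Perm GolayPt} (hg : ∃ T ∈ tsN, g = tp T)
    (hh : ∃ T ∈ tsN, h = tp T) : ∃ T ∈ tsN, g * h = tp T := by
  obtain ⟨A, hA, rfl⟩ := hg
  obtain ⟨B, hB, rfl⟩ := hh
  have h1 := List.all_eq_true.mp (List.all_eq_true.mp N_mul A hA) B hB
  obtain ⟨C, hC, h2⟩ := List.any_eq_true.mp h1
  exact ⟨C, hC, mul_of_chk (tsN_good hA) (tsN_good hB) (tsN_good hC) h2⟩

theorem N_cube_eq {g : Equiv.Perm GolayPt} (hg : ∃ T ∈ tsN, g = tp T) : g * (g * g) = 1 := by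
  obtain ⟨A, hA, rfl⟩ := hg
  exact cube_of_chk (tsN_good hA) (List.all_eq_true.mp N_cube A hA)

/-- the normal subgroup of order 9 -/
def N9 : Subgroup (Equiv.Perm GolayPt) where
  carrier := {g | ∃ T ∈ tsN, g = tp T}
  mul_mem' := fun hg hh => N_mul_mem hg hh
  one_mem' := ⟨984818244535754528103549039458486304, by decide,
    (Cfsg.Agent.S1603.isId_of (by decide +kernel) (by decide +kernel)).symm⟩
  inv_mem' := by
    intro g hg
    have h3 := N_cube_eq hg
    have h4 : g⁻¹ = g * g := inv_eq_of_mul_eq_one_right h3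
    show ∃ T ∈ tsN, g⁻¹ = tp T
    rw [h4]
    exact N_mul_mem hg hg

theorem mem_N9 {g : Equiv.Perm GolayPt} : g ∈ N9 ↔ ∃ T ∈ tsN, g = tp T := Iff.rfl

theorem N9_le : N9 ≤ fixG [cw 1] [2, 1, 0] := by
  rintro _ ⟨T, hT, rfl⟩
  exact tp_mem_fixG (tsN_fix T hT)

theorem card_N9 : Nat.card N9 = 9 := by
  classical
  have h1 : (N9 : Set (Equiv.Perm GolayPt)) = ↑(tsN.toFinset.image tp) := by
    ext g
    rw [SetLike.mem_coe, mem_N9, Finset.mem_coe, Finset.mem_image]
    constructor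
    · rintro ⟨T, hT, rfl⟩
      exact ⟨T, List.mem_toFinset.mpr hT, rfl⟩
    · rintro ⟨T, hT, rfl⟩
      exact ⟨T, List.mem_toFinset.mp hT, rfl⟩
  rw [← SetLike.coe_sort_coe, Nat.card_coe_set_eq, h1, Set.ncard_coe_finset,
    Finset.card_image_of_injOn]
  · decide
  · intro A hA B hB h
    have hA' : A ∈ tsN := List.mem_toFinset.mp hA
    have hB' : B ∈ tsN := List.mem_toFinset.mp hB
    have h2 : tp A (pt 3) = tp B (pt 3) := by rw [h]
    rw [tp_pt (tsN_good hA') (by norm_num), tp_pt (tsN_good hB') (by norm_num)] at h2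
    have h3 := pt_injOn (good_lt (tsN_good hA') 3 (by norm_num))
      (good_lt (tsN_good hB') 3 (by norm_num)) h2
    have h4 := List.all_eq_true.mp (List.all_eq_true.mp N_inj A hA') B hB'
    rw [h3] at h4
    simpa using h4

theorem N9_conj {g : Equiv.Perm GolayPt} (hg : g ∈ fixG [cw 1] [2, 1, 0])
    {x : Equiv.Perm GolayPt} (hx : x ∈ N9) : g * x * g⁻¹ ∈ N9 := by
  obtain ⟨T, hT, hfix, h2⟩ := level_strip lN (by decide) hg
  obtain ⟨T2, hT2, hfix2, e⟩ := level_enum dl5 (by decide) fixd5_bot h2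
  obtain ⟨B, hB, rfl⟩ := hx
  have h1 := List.all_eq_true.mp (List.all_eq_true.mp N_conj T2 hT2) B hB
  obtain ⟨C, hC, h3⟩ := List.any_eq_true.mp h1
  have h4 := conj_of_chk (dts5_good hT2) (tsN_good hB) (tsN_good hC) h3
  have hg' : g = tp T * tp T2 := by rw [← e, mul_inv_cancel_left]
  have h5 : g * tp B * g⁻¹ = tp T * tp C * (tp T)⁻¹ := by
    rw [hg', mul_assoc (tp T), h4]
    group
  rw [h5]
  exact N9.mul_mem (N9.mul_mem ⟨T, hT, rfl⟩ ⟨C, hC, rfl⟩) (N9.inv_mem ⟨T, hT, rfl⟩)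

theorem card_P8 : Nat.card (fixG [cw 1] [3, 2, 1, 0]) = 8 := by
  have h1 := level_card dl4 (by decide)
  rw [card_M9] at h1
  omega

theorem TX_fix : inFix [cw 1] [3, 2, 1, 0] TX = true := by decide +kernel

theorem TXi_fix : inFix [cw 1] [3, 2, 1, 0] TXi = true := by decide +kernel

theorem TY_fix : inFix [cw 1] [3, 2, 1, 0] TY = true := by decide +kernel

theorem hXX : tp TX * tp TX = tp Cfsg.Agent.S1603.T0 :=
  mul_of_chk (inFix_good TX_fix) (inFix_good TX_fix) Cfsg.Agent.S1603.T0_good (by decide +kernel)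

theorem hYY : tp TY * tp TY = tp Cfsg.Agent.S1603.T0 :=
  mul_of_chk (inFix_good TY_fix) (inFix_good TY_fix) Cfsg.Agent.S1603.T0_good (by decide +kernel)

theorem hYX : tp TY * tp TX = tp TXi * tp TY :=
  conj_of_chk (inFix_good TY_fix) (inFix_good TX_fix) (inFix_good TXi_fix) (by decide +kernel)

theorem hXXi : tp TX * tp TXi = 1 :=
  tp_mul_eq_one (inFix_good TX_fix) (inFix_good TXi_fix) (by decide +kernel)

theorem P8_iso : Nonempty (↥(fixG [cw 1] [3, 2, 1, 0]) ≃* QuaternionGroup 2) := by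
  let x : ↥(fixG [cw 1] [3, 2, 1, 0]) := ⟨tp TX, tp_mem_fixG TX_fix⟩
  let y : ↥(fixG [cw 1] [3, 2, 1, 0]) := ⟨tp TY, tp_mem_fixG TY_fix⟩
  have hx2 : x ^ 2 ≠ 1 := by
    intro h
    have h1 := congrArg Subtype.val h
    rw [pow_two] at h1
    have h2 : tp TX * tp TX = 1 := h1
    rw [hXX] at h2
    exact Cfsg.Agent.S1603.T0_ne h2
  have hx4 : x ^ 4 = 1 := by
    apply Subtype.ext
    show tp TX ^ 4 = 1
    rw [show (4 : ℕ) = 2 + 2 from rfl, pow_add, pow_two, hXX, Cfsg.Agent.S1603.T0_sq]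
  have hord : orderOf x = 2 * 2 := by
    have := orderOf_eq_prime_pow (x := x) (p := 2) (n := 1) (by simpa using hx2) (by simpa using hx4)
    simpa using this
  have hy : y ^ 2 = x ^ 2 := by
    apply Subtype.ext
    show tp TY ^ 2 = tp TX ^ 2
    rw [pow_two, pow_two, hXX, hYY]
  have hxinv : x⁻¹ = ⟨tp TXi, tp_mem_fixG TXi_fix⟩ := by
    apply inv_eq_of_mul_eq_one_right
    apply Subtype.ext
    exact hXXi
  have hyx : y * x * y⁻¹ = x⁻¹ := by
    rw [hxinv, mul_inv_eq_iff_eq_mul]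
    apply Subtype.ext
    exact hYX
  have hyx' : y ∉ Subgroup.zpowers x := by
    intro hmem
    obtain ⟨k, hk⟩ := Subgroup.mem_zpowers_iff.mp hmem
    have hc : y * x = x * y := by
      rw [← hk]
      exact ((Commute.refl x).zpow_left k).eq
    have h1 : y * x * y⁻¹ = x := by rw [hc, mul_inv_cancel_right]
    rw [hyx] at h1
    apply hx2
    rw [pow_two]
    nth_rewrite 1 [← h1]
    exact inv_mul_cancel x
  exact Cfsg.Agent.Lib.Helper18.UniqueInvolution.quat_equiv 2 (by norm_num) x y hord hy hyx hyx'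
    (by rw [card_P8])

theorem abstract72 {H H0 : Type*} [Group H] [Group H0] [Finite H0] (E : H ≃* H0)
    (hc : Nat.card H0 = 72) (N : Subgroup H0) (hN : N.Normal) (hN9 : Nat.card N = 9)
    (hN3 : ∀ x ∈ N, x ^ 3 = 1) (P0 : Subgroup H0) (hP : Nonempty (P0 ≃* QuaternionGroup 2)) :
    (∀ Q : Sylow 3 H, (Q : Subgroup H).Normal ∧ Nat.card Q = 9 ∧
      ∀ x ∈ (Q : Subgroup H), x ^ 3 = 1) ∧
    ∀ P : Sylow 2 H, Nonempty (P ≃* QuaternionGroup 2) := by
  have : Finite H := Finite.of_equiv H0 E.symm.toEquiv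
  have hcH : Nat.card H = 72 := by rw [Nat.card_congr E.toEquiv, hc]
  have e72 : (72 : ℕ) = 2 ^ 3 * 3 ^ 2 := by norm_num
  have f3 : (72 : ℕ).factorization 3 = 2 := by
    rw [e72, Nat.factorization_mul (by norm_num) (by norm_num), Nat.factorization_pow,
      Nat.factorization_pow, Nat.prime_two.factorization, Nat.prime_three.factorization]
    simp
  have f2 : (72 : ℕ).factorization 2 = 3 := by
    rw [e72, Nat.factorization_mul (by norm_num) (by norm_num), Nat.factorization_pow,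
      Nat.factorization_pow, Nat.prime_two.factorization, Nat.prime_three.factorization]
    simp
  constructor
  · intro Q
    let N1 : Subgroup H := N.map E.symm.toMonoidHom
    have hN1 : N1.Normal := hN.map _ E.symm.surjective
    have hN1c : Nat.card N1 = 9 := by
      rw [← hN9]
      exact Nat.card_congr (E.symm.subgroupMap N).symm.toEquiv
    have hN13 : ∀ x ∈ N1, x ^ 3 = 1 := by
      rintro _ ⟨y, hy, rfl⟩
      rw [← map_pow, hN3 y hy, map_one]
    have hQc : Nat.card Q = 9 := by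
      rw [Sylow.card_eq_multiplicity, hcH, f3]
      norm_num
    have hp : IsPGroup 3 N1 := IsPGroup.of_card (n := 2) (by rw [hN1c]; norm_num)
    have hle : N1 ≤ Q := hp.le_sylow_of_normal Q
    have heq : N1 = Q := Subgroup.eq_of_le_of_card_ge hle (by rw [hQc, hN1c])
    rw [← heq]
    exact ⟨hN1, hN1c, hN13⟩
  · intro P
    obtain ⟨eP⟩ := hP
    let P1 : Subgroup H := P0.map E.symm.toMonoidHom
    have e1 : P1 ≃* QuaternionGroup 2 := (E.symm.subgroupMap P0).symm.trans eP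
    have hP1c : Nat.card P1 = 2 ^ (Nat.card H).factorization 2 := by
      rw [Nat.card_congr e1.toEquiv, Nat.card_eq_fintype_card, QuaternionGroup.card, hcH, f2]
      norm_num
    let S : Sylow 2 H := Sylow.ofCard P1 hP1c
    obtain ⟨g, hg⟩ := MulAction.exists_smul_eq H S P
    have e2 : S ≃* P := by
      rw [← hg]
      exact S.equivSMul g
    exact ⟨e2.symm.trans e1⟩

theorem result (d : Finset Cfsg.GolayPt) (hd : d ∈ Cfsg.dodecads) (p q r : Cfsg.GolayPt) (hp : p ∈ d) (hq : q ∈ d) (hr : r ∈ d) (hpq : p ≠ q) (hpr : p ≠ r) (hqr : q ≠ r) : (∀ Q : Sylow 3 ↥(MulAction.stabilizer Cfsg.M24 d ⊓ MulAction.stabilizer Cfsg.M24 p ⊓ MulAction.stabilizer Cfsg.M24 q ⊓ MulAction.stabilizer Cfsg.M24 r), (Q : Subgroup ↥(MulAction.stabilizer Cfsg.M24 d ⊓ MulAction.stabilizer Cfsg.M24 p ⊓ MulAction.stabilizer Cfsg.M24 q ⊓ MulAction.stabilizer Cfsg.M24 r)).Normal ∧ Nat.card ↥Q = 9 ∧ ∀ x ∈ (Q : Subgroup ↥(MulAction.stabilizer Cfsg.M24 d ⊓ MulAction.stabilizer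 Cfsg.M24 p ⊓ MulAction.stabilizer Cfsg.M24 q ⊓ MulAction.stabilizer Cfsg.M24 r)), x ^ 3 = 1) ∧ ∀ P : Sylow 2 ↥(MulAction.stabilizer Cfsg.M24 d ⊓ MulAction.stabilizer Cfsg.M24 p ⊓ MulAction.stabilizer Cfsg.M24 q ⊓ MulAction.stabilizer Cfsg.M24 r), Nonempty (↥P ≃* QuaternionGroup 2) := by
  obtain ⟨u, hu, hud, hup, huq, hur⟩ :=
    Cfsg.Agent.Lib.Helper3.M24Frames.dodecad_frame3 hd hp hq hr hpq hpr hqr
  obtain ⟨E⟩ := Cfsg.Agent.Lib.Helper11.M24Conj.conj_iso Cfsg.M24 hu
    (Cfsg.Agent.Lib.Helper3.M24Cert.fixG [Cfsg.Agent.Lib.Helper3.Golay.cw 1] [2, 1, 0])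
    (fun g hg => (Cfsg.Agent.Lib.Helper3.M24Cert.mem_fixG.mp hg).1)
    (MulAction.stabilizer Cfsg.M24 d ⊓ MulAction.stabilizer Cfsg.M24 p ⊓
      MulAction.stabilizer Cfsg.M24 q ⊓ MulAction.stabilizer Cfsg.M24 r) (by
    intro g
    rw [Subgroup.mem_inf, Subgroup.mem_inf, Subgroup.mem_inf,
      Cfsg.Agent.Lib.Helper3.M24Cert.mem_fixG]
    constructor
    · rintro ⟨⟨⟨h1, h2⟩, h3⟩, h4⟩
      refine ⟨mul_mem (mul_mem (inv_mem hu) g.2) hu, ?_, ?_⟩
      · intro D hD
        simp only [List.mem_singleton] at hD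
        subst hD
        exact (Cfsg.Agent.Lib.Helper11.M24Conj.conj_smul_iff hud).mpr h1
      · intro i hi
        simp only [List.mem_cons, List.not_mem_nil, or_false] at hi
        rcases hi with rfl | rfl | rfl
        · exact (Cfsg.Agent.Lib.Helper11.M24Conj.conj_smul_iff
            (show u • Cfsg.Agent.Lib.Helper3.M24Perm.pt 2 = r from hur)).mpr h4
        · exact (Cfsg.Agent.Lib.Helper11.M24Conj.conj_smul_iff
            (show u • Cfsg.Agent.Lib.Helper3.M24Perm.pt 1 = q from huq)).mpr h3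
        · exact (Cfsg.Agent.Lib.Helper11.M24Conj.conj_smul_iff
            (show u • Cfsg.Agent.Lib.Helper3.M24Perm.pt 0 = p from hup)).mpr h2
    · rintro ⟨_, hD, hF⟩
      exact ⟨⟨⟨(Cfsg.Agent.Lib.Helper11.M24Conj.conj_smul_iff hud).mp (hD _ (by simp)),
        (Cfsg.Agent.Lib.Helper11.M24Conj.conj_smul_iff
          (show u • Cfsg.Agent.Lib.Helper3.M24Perm.pt 0 = p from hup)).mp
          (show (u⁻¹ * (g : Equiv.Perm Cfsg.GolayPt) * u) • Cfsg.Agent.Lib.Helper3.M24Perm.pt 0 =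
            Cfsg.Agent.Lib.Helper3.M24Perm.pt 0 from hF 0 (by simp))⟩,
        (Cfsg.Agent.Lib.Helper11.M24Conj.conj_smul_iff
          (show u • Cfsg.Agent.Lib.Helper3.M24Perm.pt 1 = q from huq)).mp
          (show (u⁻¹ * (g : Equiv.Perm Cfsg.GolayPt) * u) • Cfsg.Agent.Lib.Helper3.M24Perm.pt 1 =
            Cfsg.Agent.Lib.Helper3.M24Perm.pt 1 from hF 1 (by simp))⟩,
        (Cfsg.Agent.Lib.Helper11.M24Conj.conj_smul_iff
          (show u • Cfsg.Agent.Lib.Helper3.M24Perm.pt 2 = r from hur)).mp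
          (show (u⁻¹ * (g : Equiv.Perm Cfsg.GolayPt) * u) • Cfsg.Agent.Lib.Helper3.M24Perm.pt 2 =
            Cfsg.Agent.Lib.Helper3.M24Perm.pt 2 from hF 2 (by simp))⟩)
  have hfin : Finite ↥(Cfsg.Agent.Lib.Helper3.M24Cert.fixG [Cfsg.Agent.Lib.Helper3.Golay.cw 1]
      [2, 1, 0]) := inferInstance
  refine abstract72 E (by rw [Cfsg.Agent.Lib.Helper3.M24Frames.card_M9])
    (N9.subgroupOf _) ⟨fun n hn g => ?_⟩ ?_ ?_
    ((Cfsg.Agent.Lib.Helper3.M24Cert.fixG [Cfsg.Agent.Lib.Helper3.Golay.cw 1] [3, 2, 1, 0]).subgroupOf _)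
    ?_
  · rw [Subgroup.mem_subgroupOf] at hn ⊢
    exact N9_conj g.2 hn
  · rw [Nat.card_congr (Subgroup.subgroupOfEquivOfLe N9_le).toEquiv, card_N9]
  · intro x hx
    rw [Subgroup.mem_subgroupOf] at hx
    apply Subtype.ext
    have h3 := N_cube_eq hx
    rw [Subgroup.coe_pow, Subgroup.coe_one, pow_succ, pow_two, mul_assoc]
    exact h3
  · obtain ⟨e⟩ := P8_iso
    have hle : Cfsg.Agent.Lib.Helper3.M24Cert.fixG [Cfsg.Agent.Lib.Helper3.Golay.cw 1] [3, 2, 1, 0] ≤
        Cfsg.Agent.Lib.Helper3.M24Cert.fixG [Cfsg.Agent.Lib.Helper3.Golay.cw 1] [2, 1, 0] := by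
      intro g hg
      rw [Cfsg.Agent.Lib.Helper3.M24Cert.mem_fixG] at hg ⊢
      exact ⟨hg.1, hg.2.1, fun i hi => hg.2.2 i (List.mem_cons_of_mem _ hi)⟩
    exact ⟨(Subgroup.subgroupOfEquivOfLe hle).trans e⟩

end Cfsg.Agent.S5619
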