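import Cfsg.Statements.S1601
import Cfsg.Agent.Lib.Helper3.M24Dod
import Cfsg.Agent.Lib.Helper3.M24Frames
import Cfsg.Agent.Lib.Helper3.M24Gen
import Cfsg.Agent.Lib.Helper3.M24Cert2
import Cfsg.Agent.Lib.Helper11.M24Conj
import Cfsg.Agent.Lib.Helper11.Quartet3
import Cfsg.Agent.Lib.Helper8.PSL2Rec
import Cfsg.Agent.Lib.Helper2.SLGen
import Cfsg.Agent.S0243
import Cfsg.Agent.S5619

set_option autoImplicit false
open scoped Pointwise
open Cfsg

namespace Cfsg.Agent.S1601

open Cfsg.Agent.Lib.Helper3.Golay Cfsg.Agent.Lib.Helper3.Golay2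
open Cfsg.Agent.Lib.Helper3.M24Perm Cfsg.Agent.Lib.Helper3.M24Cert
open Cfsg.Agent.Lib.Helper3.M24Cert2
open Cfsg.Agent.Lib.Helper3.M24Trans Cfsg.Agent.Lib.Helper3.M24Dod
open Cfsg.Agent.Lib.Helper3.M24Gen Cfsg.Agent.Lib.Helper3.M24Frames
open Cfsg.Agent.Lib.Helper11.M24Conj Cfsg.Agent.Lib.Helper11.Quartet
open Cfsg.Agent.Lib.Helper8.PSL2Rec
open Matrix OnePoint

/-! ### a recognition lemma for `PSL₂` by cardinality -/

theorem recognize_card {K : Type*} [Field K] [DecidableEq K] {G X : Type*} [Group G] [Finite G]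
    [MulAction G X] (η : OnePoint K → X) (hη : Function.Injective η)
    (h1 : ∀ g : G, ∃ A : Matrix.SpecialLinearGroup (Fin 2) K,
      ∀ p, g • η p = η ((Matrix.SpecialLinearGroup.toGL A) • p))
    (h2 : ∀ A : Matrix.SpecialLinearGroup (Fin 2) K, ∃ g : G,
      ∀ p, g • η p = η ((Matrix.SpecialLinearGroup.toGL A) • p))
    (hcard : Nat.card G ≤ Nat.card (Matrix.ProjectiveSpecialLinearGroup (Fin 2) K)) :
    Nonempty (G ≃* Matrix.ProjectiveSpecialLinearGroup (Fin 2) K) := by
  classical
  choose f hf using h1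
  have hwd : ∀ (g : G) (A : Matrix.SpecialLinearGroup (Fin 2) K),
      (∀ p, g • η p = η ((Matrix.SpecialLinearGroup.toGL A) • p)) →
      (QuotientGroup.mk A : Matrix.ProjectiveSpecialLinearGroup (Fin 2) K) =
        QuotientGroup.mk (f g) := by
    intro g A hA
    rw [QuotientGroup.eq, ← act_trivial_iff]
    intro p
    rw [map_mul, mul_smul, map_inv, inv_smul_eq_iff]
    apply hη
    rw [← hf g p, ← hA p]
  let φ : G →* Matrix.ProjectiveSpecialLinearGroup (Fin 2) K :=
    { toFun := fun g => QuotientGroup.mk (f g)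
      map_one' := by
        symm
        apply hwd
        intro p
        rw [one_smul, map_one, one_smul]
      map_mul' := by
        intro a b
        symm
        rw [← QuotientGroup.mk_mul]
        apply hwd
        intro p
        rw [mul_smul, hf b p, hf a, map_mul, mul_smul] }
  have hsurj : Function.Surjective φ := by
    intro q
    induction q using QuotientGroup.induction_on with
    | H A =>
      obtain ⟨g, hg⟩ := h2 A
      exact ⟨g, (hwd g A hg).symm⟩
  exact ⟨MulEquiv.ofBijective φ (hsurj.bijective_of_nat_card_le hcard)⟩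

instance fact11 : Fact (Nat.Prime 11) := ⟨by norm_num⟩

theorem card_psl : Nat.card (Matrix.ProjectiveSpecialLinearGroup (Fin 2) (ZMod 11)) = 660 := by
  have h := Cfsg.Agent.S0243.result (F := ZMod 11) (q := 11) (ZMod.card 11) 2 (le_refl 2)
  rw [Fin.prod_univ_two] at h
  norm_num at h
  rw [Nat.card_eq_fintype_card]
  omega

/-! ### the projective line over `ZMod 11` -/

abbrev SL := Matrix.SpecialLinearGroup (Fin 2) (ZMod 11)

def ix : OnePoint (ZMod 11) → ℕ
  | Option.none => 11
  | Option.some k => k.val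

theorem ix_infty : ix ∞ = 11 := rfl

theorem ix_coe (k : ZMod 11) : ix (k : OnePoint (ZMod 11)) = k.val := rfl

theorem ix_lt (p : OnePoint (ZMod 11)) : ix p < 12 := by
  cases p with
  | infty => rw [ix_infty]; norm_num
  | coe k =>
    rw [ix_coe]
    have := ZMod.val_lt k
    omega

theorem ix_inj : Function.Injective ix := by
  intro p q h
  cases p with
  | infty =>
    cases q with
    | infty => rfl
    | coe k =>
      rw [ix_infty, ix_coe] at h
      have := ZMod.val_lt k
      omega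
  | coe k =>
    cases q with
    | infty =>
      rw [ix_infty, ix_coe] at h
      have := ZMod.val_lt k
      omega
    | coe k' =>
      rw [ix_coe, ix_coe] at h
      rw [ZMod.val_injective 11 h]

def uT (c : ZMod 11) : SL :=
  Matrix.SpecialLinearGroup.transvection (show (0 : Fin 2) ≠ 1 by decide) c

def lT (c : ZMod 11) : SL :=
  Matrix.SpecialLinearGroup.transvection (show (1 : Fin 2) ≠ 0 by decide) c

theorem uT_add (c d : ZMod 11) : uT (c + d) = uT c * uT d := by
  apply Subtype.ext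
  show Matrix.transvection 0 1 (c + d) = Matrix.transvection 0 1 c * Matrix.transvection 0 1 d
  rw [Matrix.transvection_mul_transvection_same (i := (0 : Fin 2)) (j := 1) (by decide) c d]

theorem lT_add (c d : ZMod 11) : lT (c + d) = lT c * lT d := by
  apply Subtype.ext
  show Matrix.transvection 1 0 (c + d) = Matrix.transvection 1 0 c * Matrix.transvection 1 0 d
  rw [Matrix.transvection_mul_transvection_same (i := (1 : Fin 2)) (j := 0) (by decide) c d]

theorem uT_zero : uT 0 = 1 := Matrix.SpecialLinearGroup.transvection_coeff_zero _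

theorem lT_zero : lT 0 = 1 := Matrix.SpecialLinearGroup.transvection_coeff_zero _

theorem uT_ent (c : ZMod 11) : (uT c) 0 0 = 1 ∧ (uT c) 0 1 = c ∧ (uT c) 1 0 = 0 ∧ (uT c) 1 1 = 1 := by
  refine ⟨?_, ?_, ?_, ?_⟩ <;>
    simp [uT, Matrix.SpecialLinearGroup.transvection_coe]

theorem lT_ent (c : ZMod 11) : (lT c) 0 0 = 1 ∧ (lT c) 0 1 = 0 ∧ (lT c) 1 0 = c ∧ (lT c) 1 1 = 1 := by
  refine ⟨?_, ?_, ?_, ?_⟩ <;>
    simp [lT, Matrix.SpecialLinearGroup.transvection_coe]

def mA : List ℕ := [1, 2, 3, 4, 5, 6, 7, 8, 9, 10, 0, 11]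

def mC : List ℕ := [0, 6, 8, 9, 3, 10, 4, 5, 7, 2, 11, 1]

theorem mA_spec : ∀ k : ZMod 11, (k + 1).val = mA.getD k.val 0 := by decide

theorem mC_spec : ∀ k : ZMod 11, k + 1 ≠ 0 →
    k = ((mC.getD k.val 0 : ℕ) : ZMod 11) * (k + 1) ∧
      ((mC.getD k.val 0 : ℕ) : ZMod 11).val = mC.getD k.val 0 := by decide

theorem uT_act (p : OnePoint (ZMod 11)) :
    ix ((Matrix.SpecialLinearGroup.toGL (uT 1)) • p) = mA.getD (ix p) 0 := by
  obtain ⟨e00, e01, e10, e11⟩ := uT_ent 1
  cases p with
  | infty =>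
    rw [act_infty, if_pos e10]
    rfl
  | coe k =>
    rw [act_coe, e10, e11, e00, e01, zero_mul, zero_add, if_neg one_ne_zero, one_mul, div_one,
      ix_coe, ix_coe]
    exact mA_spec k

theorem lT_act (p : OnePoint (ZMod 11)) :
    ix ((Matrix.SpecialLinearGroup.toGL (lT 1)) • p) = mC.getD (ix p) 0 := by
  obtain ⟨e00, e01, e10, e11⟩ := lT_ent 1
  cases p with
  | infty =>
    rw [act_infty, if_neg (by rw [e10]; exact one_ne_zero), e00, e10, div_one]
    rfl
  | coe k =>
    rw [act_coe, e10, e11, e00, e01, one_mul, add_zero]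
    by_cases hk : k + 1 = 0
    · rw [if_pos hk, ix_infty, ix_coe]
      have : k = 10 := by
        revert hk
        revert k
        decide
      rw [this]
      rfl
    · rw [if_neg hk, ix_coe, ix_coe]
      obtain ⟨h1, h2⟩ := mC_spec k hk
      rw [(div_eq_iff hk).mpr h1, h2]

/-! ### data -/

def TA : ℕ := 844703613840941743307095726143969408

def TC : ℕ := 305840637445416651702319390386107520

def famL : List (List ℕ) := [[640, 2050, 5120, 16392, 33024, 393216, 532480, 1048592, 2097156, 4259840, 8388672], [130, 2304, 16400, 98304, 131080, 263168, 528384, 1056768, 2097664, 4194308, 8388672], [1088, 2050, 4224, 16388, 32784, 131584, 524296, 1056768, 2097408, 4456448, 8454144], [1026, 10240, 16400, 33024, 65664, 131584, 524352, 1310720, 2101248, 4194312, 8388612], [2064, 5120, 16896, 65664, 131074, 294912, 524296, 1048640, 2105344, 4194308, 8388864], [144, 1088, 2304, 16392, 139264, 294912, 589824, 1048580, 2101248, 4194306, 8389120], [640, 1040, 10240, 16388, 32776, 131136,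 528384, 1114112, 2359296, 4194306, 8388864], [1040, 2056, 8320, 16896, 98304, 393216, 524352, 1048580, 2097408, 4198400, 8388610], [130, 1280, 2056, 20480, 33280, 131136, 589824, 1048592, 2105344, 4456448, 8388612], [1026, 2052, 8320, 20480, 32784, 131080, 524544, 1048640, 2359296, 4259840, 8389120], [2064, 4224, 16448, 33280, 139264, 263168, 524544, 1114112, 2097156, 4194312, 8388610], [144, 1280, 2052, 16448, 32776, 131074, 532480, 1310720, 2097664, 4198400, 8454144]]

def prs1 : List (ℕ × List ℕ) := [(984818244535754528103549039458486304, []), (608201311319099426928308990142584896, [1, 0, 0]), (721252275717580563342683219794605152, [0, 0]), (844703613840941743307095726143969408, [0]), (446105541529537014764523856820969664, [0, 1, 0, 1]), (443239779335529290771923993398522112, [1, 0, 0, 0]), (965268212504371536791655442989334816, [0, 1, 1, 0, 0]), (309651076620157958555806789537965440, [0, 0, 0]), (894960456413323416535933664901506464, [1, 1, 0, 0]), (648442991700660216637553694355099136,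 [1, 0, 0, 0, 1]), (442296251517752603648612174979832384, [1, 1])]

def prs2 : List (ℕ × List ℕ) := [(984818244535754528103549039458486304, []), (936499234695269838538088192772836384, [0, 1, 1, 0, 1, 0]), (466643320923896738200143674542002208, [1, 1, 0, 0, 0, 0]), (736837720314198190023097926713350176, [1, 0, 1, 0, 1, 0, 0]), (970459361523271695787015306425278496, [0, 1, 0, 0, 1, 1]), (965056821765719142683987426599674912, [1, 0, 0, 1, 1, 0, 1]), (444536507135642151014395478973886496, [0, 1, 0, 0, 1, 0]), (479825369478197834079599192072041504, [0, 1, 1]), (319959650499534135224324587090165792, [0, 1, 0]), (719767698105099020210953098786916384, [1, 1, 1, 0, 0, 1])]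

def prs6 : List (ℕ × List ℕ) := [(970499966350631336865513127433832480, [0, 1, 0, 0, 0, 1, 0, 0, 0, 0]), (928952864966028496604741530750814240, [1, 1, 0, 0, 1, 1, 1]), (487373122709212905255923294881187872, [1, 1, 1, 0, 0, 0, 0, 1, 0]), (486349973926430203268823274221996064, [1, 0, 1, 0, 0, 0, 0, 0, 0]), (984818244535754528103549039458486304, []), (944293816565412651426207388111472672, [1, 1, 0, 0, 0, 1])]

def letters : List ℕ := [TA, TC]

theorem letters_good : ∀ T ∈ letters, good T = true := by decide +kernel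

theorem TA_fix : inFix [cw 1] [5, 0] TA = true := by decide +kernel

theorem TC_fix : inFix [cw 1] [5, 0] TC = true := by decide +kernel

theorem card_H0 : Nat.card (fixG [cw 1] [5, 0]) = 660 := by
  have h := card_M11
  rw [level_card el1 (by decide)] at h
  omega

theorem l1 : levelCheck [cw 1] [5, 0] (prs1.map Prod.fst) 1 340830 11 = true := by decide +kernel

theorem l2 : levelCheck [cw 1] [1, 5, 0] (prs2.map Prod.fst) 2 340828 10 = true := by
  decide +kernel

theorem w1 : prs1.all (fun pw => good pw.1 && wordIs letters pw.2 pw.1) = true := by decide +kernel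

theorem w2 : prs2.all (fun pw => good pw.1 && wordIs letters pw.2 pw.1) = true := by decide +kernel

theorem w6 : Cfsg.Agent.S5619.tsN.all (fun T => dts5.all (fun T2 =>
    !(Nat.beq (ent T (ent T2 5)) 5) || prs6.any (fun pw =>
      Cfsg.Agent.S5619.mulChk T T2 pw.1 && good pw.1 && wordIs letters pw.2 pw.1))) = true := by
  decide +kernel

/-! ### the twelve matchings -/

def eta (p : OnePoint (ZMod 11)) : Finset (Finset GolayPt) := qset (famL.getD (ix p) [])

def actChk (T : ℕ) (m : List ℕ) : Bool :=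
  (List.range 12).all (fun i =>
    sameL ((famL.getD i []).map (apm T)) (famL.getD (m.getD i 0) []))

theorem act_of_chk {T : ℕ} {m : List ℕ} (hg : good T = true) (h : actChk T m = true)
    (p : OnePoint (ZMod 11)) : tp T • eta p = qset (famL.getD (m.getD (ix p) 0) []) := by
  unfold eta
  rw [smul_qset hg]
  exact qset_congr (List.all_eq_true.mp h (ix p) (List.mem_range.mpr (ix_lt p)))

theorem chkA : actChk TA mA = true := by decide +kernel

theorem chkC : actChk TC mC = true := by decide +kernel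

theorem fam_lt : famL.all (fun l => l.all (fun a => Nat.blt a 16777216)) = true := by
  decide +kernel

theorem fam_ne : (List.range 12).all (fun i => (List.range 12).all (fun j =>
    !(sameL (famL.getD i []) (famL.getD j [])) || Nat.beq i j)) = true := by decide +kernel

theorem qset_inj {l l' : List ℕ} (hl : ∀ a ∈ l, a < 2 ^ 24) (hl' : ∀ a ∈ l', a < 2 ^ 24)
    (h : qset l = qset l') : sameL l l' = true := by
  have key : ∀ {m m' : List ℕ}, (∀ a ∈ m, a < 2 ^ 24) → (∀ a ∈ m', a < 2 ^ 24) →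
      qset m = qset m' → ∀ a ∈ m, a ∈ m' := by
    intro m m' hm hm' e a ha
    have h1 : ms a ∈ qset m' := by
      rw [← e]
      exact ms_mem_qset ha
    obtain ⟨b, hb, hab⟩ := mem_qset.mp h1
    rw [← ms_inj (hm' b hb) (hm a ha) hab]
    exact hb
  simp only [sameL, Bool.and_eq_true, List.all_eq_true, List.contains_iff_mem]
  exact ⟨key hl hl' h, key hl' hl h.symm⟩

theorem famL_lt (i : ℕ) : ∀ a ∈ famL.getD i [], a < 2 ^ 24 := by
  intro a ha
  by_cases hi : i < famL.length
  · have h1 : famL.getD i [] ∈ famL := by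
      rw [List.getD_eq_getElem _ _ hi]
      exact List.getElem_mem hi
    have h2 := List.all_eq_true.mp (List.all_eq_true.mp fam_lt _ h1) a ha
    simpa using h2
  · rw [List.getD_eq_default _ _ (by omega)] at ha
    simp at ha

theorem eta_inj : Function.Injective eta := by
  intro p q h
  apply ix_inj
  have h1 := qset_inj (famL_lt (ix p)) (famL_lt (ix q)) h
  have h2 := List.all_eq_true.mp (List.all_eq_true.mp fam_ne (ix p)
    (List.mem_range.mpr (ix_lt p))) (ix q) (List.mem_range.mpr (ix_lt q))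
  rw [h1] at h2
  simpa using h2

/-- the permutations acting on the twelve matchings as a Möbius transformation -/
def R : Subgroup (Equiv.Perm GolayPt) where
  carrier := {g | ∃ A : SL, ∀ p, g • eta p = eta ((Matrix.SpecialLinearGroup.toGL A) • p)}
  mul_mem' := by
    rintro g h ⟨A, hA⟩ ⟨B, hB⟩
    exact ⟨A * B, fun p => by rw [mul_smul, hB, hA, map_mul, mul_smul]⟩
  one_mem' := ⟨1, fun p => by rw [one_smul, map_one, one_smul]⟩
  inv_mem' := by
    rintro g ⟨A, hA⟩
    refine ⟨A⁻¹, fun p => ?_⟩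
    rw [inv_smul_eq_iff, hA, ← mul_smul, ← map_mul, mul_inv_cancel, map_one, one_smul]

theorem TA_act (p : OnePoint (ZMod 11)) :
    tp TA • eta p = eta ((Matrix.SpecialLinearGroup.toGL (uT 1)) • p) := by
  rw [act_of_chk (letters_good TA (by simp [letters])) chkA p]
  unfold eta
  rw [uT_act]

theorem TC_act (p : OnePoint (ZMod 11)) :
    tp TC • eta p = eta ((Matrix.SpecialLinearGroup.toGL (lT 1)) • p) := by
  rw [act_of_chk (letters_good TC (by simp [letters])) chkC p]
  unfold eta
  rw [lT_act]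

theorem letters_mem : ∀ T ∈ letters, tp T ∈ R := by
  intro T hT
  simp only [letters, List.mem_cons, List.not_mem_nil, or_false] at hT
  rcases hT with rfl | rfl
  · exact ⟨uT 1, TA_act⟩
  · exact ⟨lT 1, TC_act⟩

theorem words_mem' {prs : List (ℕ × List ℕ)}
    (h : prs.all (fun pw => good pw.1 && wordIs letters pw.2 pw.1) = true) :
    ∀ T ∈ prs.map Prod.fst, tp T ∈ R := by
  intro T hT
  obtain ⟨pw, hpw, rfl⟩ := List.mem_map.mp hT
  have h1 := List.all_eq_true.mp h pw hpw
  rw [Bool.and_eq_true] at h1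
  exact word_mem letters_good h1.1 h1.2 R letters_mem

theorem H0_le : fixG [cw 1] [5, 0] ≤ R := by
  intro g hg
  refine strip_step R l1 (by decide) (fun T hT _ => words_mem' w1 T hT) ?_ g hg
  refine strip_step R l2 (by decide) (fun T hT _ => words_mem' w2 T hT) ?_
  intro g hg
  have hg' : g ∈ fixG [cw 1] [2, 1, 0] := by
    rw [mem_fixG] at hg ⊢
    refine ⟨hg.1, hg.2.1, fun i hi => hg.2.2 i ?_⟩
    simp only [List.mem_cons, List.not_mem_nil, or_false] at hi ⊢
    rcases hi with rfl | rfl | rfl <;> simp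
  have h5 : g (pt 5) = pt 5 := (mem_fixG.mp hg).2.2 5 (by simp)
  obtain ⟨T, hT, hfix, h2⟩ := level_strip Cfsg.Agent.S5619.lN (by decide) hg'
  obtain ⟨T2, hT2, hfix2, e⟩ := level_enum dl5 (by decide) fixd5_bot h2
  have hgT := Cfsg.Agent.S5619.tsN_good hT
  have hgT2 := Cfsg.Agent.S5619.dts5_good hT2
  have hg'' : g = tp T * tp T2 := by rw [← e, mul_inv_cancel_left]
  rw [hg'', Equiv.Perm.mul_apply, tp_pt hgT2 (by norm_num),
    tp_pt hgT (good_lt hgT2 5 (by norm_num))] at h5
  have h6 := pt_injOn (good_lt hgT _ (good_lt hgT2 5 (by norm_num))) (by norm_num) h5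
  have h7 := List.all_eq_true.mp (List.all_eq_true.mp w6 T hT) T2 hT2
  rw [h6] at h7
  simp only [Nat.beq_refl, Bool.not_true, Bool.false_or, List.any_eq_true,
    Bool.and_eq_true] at h7
  obtain ⟨pw, hpw, ⟨h8, h9⟩, h10⟩ := h7
  rw [hg'', Cfsg.Agent.S5619.mul_of_chk hgT hgT2 h9 h8]
  exact word_mem letters_good h9 h10 R letters_mem

theorem real_all (g : ↥(fixG [cw 1] [5, 0])) :
    ∃ A : SL, ∀ p, g • eta p = eta ((Matrix.SpecialLinearGroup.toGL A) • p) :=
  H0_le g.2

theorem real_surj (A : SL) : ∃ g : ↥(fixG [cw 1] [5, 0]),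
    ∀ p, g • eta p = eta ((Matrix.SpecialLinearGroup.toGL A) • p) := by
  have hmul : ∀ A B : SL,
      (∃ g : ↥(fixG [cw 1] [5, 0]), ∀ p, g • eta p = eta ((Matrix.SpecialLinearGroup.toGL A) • p)) →
      (∃ g : ↥(fixG [cw 1] [5, 0]), ∀ p, g • eta p = eta ((Matrix.SpecialLinearGroup.toGL B) • p)) →
      ∃ g : ↥(fixG [cw 1] [5, 0]),
        ∀ p, g • eta p = eta ((Matrix.SpecialLinearGroup.toGL (A * B)) • p) := by
    rintro A B ⟨g, hg⟩ ⟨h, hh⟩
    exact ⟨g * h, fun p => by rw [mul_smul, hh, hg, map_mul, mul_smul]⟩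
  have hone : ∃ g : ↥(fixG [cw 1] [5, 0]),
      ∀ p, g • eta p = eta ((Matrix.SpecialLinearGroup.toGL (1 : SL)) • p) :=
    ⟨1, fun p => by rw [one_smul, map_one, one_smul]⟩
  have hu1 : ∃ g : ↥(fixG [cw 1] [5, 0]),
      ∀ p, g • eta p = eta ((Matrix.SpecialLinearGroup.toGL (uT 1)) • p) :=
    ⟨⟨tp TA, tp_mem_fixG TA_fix⟩, TA_act⟩
  have hl1 : ∃ g : ↥(fixG [cw 1] [5, 0]),
      ∀ p, g • eta p = eta ((Matrix.SpecialLinearGroup.toGL (lT 1)) • p) :=
    ⟨⟨tp TC, tp_mem_fixG TC_fix⟩, TC_act⟩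
  have hu : ∀ n : ℕ, ∃ g : ↥(fixG [cw 1] [5, 0]),
      ∀ p, g • eta p = eta ((Matrix.SpecialLinearGroup.toGL (uT (n : ZMod 11))) • p) := by
    intro n
    induction n with
    | zero => rw [Nat.cast_zero, uT_zero]; exact hone
    | succ n ih => rw [Nat.cast_succ, uT_add]; exact hmul _ _ ih hu1
  have hl : ∀ n : ℕ, ∃ g : ↥(fixG [cw 1] [5, 0]),
      ∀ p, g • eta p = eta ((Matrix.SpecialLinearGroup.toGL (lT (n : ZMod 11))) • p) := by
    intro n
    induction n with
    | zero => rw [Nat.cast_zero, lT_zero]; exact hone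
    | succ n ih => rw [Nat.cast_succ, lT_add]; exact hmul _ _ ih hl1
  refine Cfsg.Agent.Lib.Helper2.SLGen.transvection_induction
    (fun A => ∃ g : ↥(fixG [cw 1] [5, 0]),
      ∀ p, g • eta p = eta ((Matrix.SpecialLinearGroup.toGL A) • p)) ?_ hmul A
  intro i j hij c
  have hc : ((c.val : ℕ) : ZMod 11) = c := ZMod.natCast_zmod_val c
  fin_cases i <;> fin_cases j
  · exact absurd rfl hij
  · have := hu c.val
    rw [hc] at this
    exact this
  · have := hl c.val
    rw [hc] at this
    exact this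
  · exact absurd rfl hij

theorem std_iso : Nonempty (↥(fixG [cw 1] [5, 0]) ≃*
    Matrix.ProjectiveSpecialLinearGroup (Fin 2) (ZMod 11)) :=
  recognize_card eta eta_inj real_all real_surj (by rw [card_H0, card_psl])

theorem result (d : Finset Cfsg.GolayPt) (hd : d ∈ Cfsg.dodecads) (p q : Cfsg.GolayPt) (hp : p ∈ d) (hq : q ∉ d) : Nonempty (↥(MulAction.stabilizer Cfsg.M24 d ⊓ MulAction.stabilizer Cfsg.M24 p ⊓ MulAction.stabilizer Cfsg.M24 q) ≃* Matrix.ProjectiveSpecialLinearGroup (Fin 2) (ZMod 11)) := by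
  obtain ⟨h, hh, hhd, hhp⟩ := Cfsg.Agent.Lib.Helper3.M24Dod.exists_std hd hp
  have hq' : h⁻¹ q ∈ Cfsg.Agent.Lib.Helper3.M24Perm.ms 16436384 := by
    rw [Cfsg.Agent.Lib.Helper3.M24Perm.mem_ms]
    apply Cfsg.Agent.Lib.Helper3.M24Frames.compl_d0 _ (Cfsg.Agent.Lib.Helper3.Golay.idx_lt _)
    have h1 : h⁻¹ q ∉ Cfsg.Agent.Lib.Helper3.M24Perm.ms (Cfsg.Agent.Lib.Helper3.Golay.cw 1) := by
      intro hc
      apply hq
      rw [← hhd]
      have h2 : h • (h⁻¹ q) = q := h.apply_symm_apply q
      rw [← h2]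
      exact Finset.smul_mem_smul_finset hc
    rw [Cfsg.Agent.Lib.Helper3.M24Perm.mem_ms] at h1
    simpa using h1
  obtain ⟨g, hg, hg5⟩ := Cfsg.Agent.Lib.Helper3.M24Cert.level_sup Cfsg.Agent.Lib.Helper3.M24Dod.el1 hq'
  rw [Cfsg.Agent.Lib.Helper3.M24Cert.mem_fixG] at hg
  obtain ⟨hgM, hgD, hgF⟩ := hg
  have hu : h * g ∈ Cfsg.M24 := mul_mem hh hgM
  have hud : (h * g) • Cfsg.Agent.Lib.Helper3.M24Perm.ms (Cfsg.Agent.Lib.Helper3.Golay.cw 1) = d := by
    rw [mul_smul, hgD _ (by simp), hhd]
  have hup : (h * g) • Cfsg.Agent.Lib.Helper3.M24Perm.pt 0 = p := by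
    rw [mul_smul]
    show h (g (Cfsg.Agent.Lib.Helper3.M24Perm.pt 0)) = p
    rw [hgF 0 (by simp), hhp]
  have huq : (h * g) • Cfsg.Agent.Lib.Helper3.M24Perm.pt 5 = q := by
    rw [mul_smul]
    show h (g (Cfsg.Agent.Lib.Helper3.M24Perm.pt 5)) = q
    rw [hg5]
    exact h.apply_symm_apply q
  obtain ⟨E⟩ := Cfsg.Agent.Lib.Helper11.M24Conj.conj_iso Cfsg.M24 hu
    (Cfsg.Agent.Lib.Helper3.M24Cert.fixG [Cfsg.Agent.Lib.Helper3.Golay.cw 1] [5, 0])
    (fun g hg => (Cfsg.Agent.Lib.Helper3.M24Cert.mem_fixG.mp hg).1)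
    (MulAction.stabilizer Cfsg.M24 d ⊓ MulAction.stabilizer Cfsg.M24 p ⊓
      MulAction.stabilizer Cfsg.M24 q) (by
    intro x
    rw [Subgroup.mem_inf, Subgroup.mem_inf, Cfsg.Agent.Lib.Helper3.M24Cert.mem_fixG]
    constructor
    · rintro ⟨⟨h1, h2⟩, h3⟩
      refine ⟨mul_mem (mul_mem (inv_mem hu) x.2) hu, ?_, ?_⟩
      · intro D hD
        simp only [List.mem_singleton] at hD
        subst hD
        exact (Cfsg.Agent.Lib.Helper11.M24Conj.conj_smul_iff hud).mpr h1
      · intro i hi
        simp only [List.mem_cons, List.not_mem_nil, or_false] at hi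
        rcases hi with rfl | rfl
        · exact (Cfsg.Agent.Lib.Helper11.M24Conj.conj_smul_iff huq).mpr h3
        · exact (Cfsg.Agent.Lib.Helper11.M24Conj.conj_smul_iff hup).mpr h2
    · rintro ⟨_, hD, hF⟩
      exact ⟨⟨(Cfsg.Agent.Lib.Helper11.M24Conj.conj_smul_iff hud).mp (hD _ (by simp)),
        (Cfsg.Agent.Lib.Helper11.M24Conj.conj_smul_iff hup).mp
          (show ((h * g)⁻¹ * (x : Equiv.Perm Cfsg.GolayPt) * (h * g)) •
            Cfsg.Agent.Lib.Helper3.M24Perm.pt 0 =
            Cfsg.Agent.Lib.Helper3.M24Perm.pt 0 from hF 0 (by simp))⟩,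
        (Cfsg.Agent.Lib.Helper11.M24Conj.conj_smul_iff huq).mp
          (show ((h * g)⁻¹ * (x : Equiv.Perm Cfsg.GolayPt) * (h * g)) •
            Cfsg.Agent.Lib.Helper3.M24Perm.pt 5 =
            Cfsg.Agent.Lib.Helper3.M24Perm.pt 5 from hF 5 (by simp))⟩)
  obtain ⟨E'⟩ := std_iso
  exact ⟨E.trans E'⟩

end Cfsg.Agent.S1601
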