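import Cfsg.Statements.S1602
import Cfsg.Agent.Lib.Helper3.M24Dod
import Cfsg.Agent.Lib.Helper3.Coatom
import Cfsg.Agent.Lib.Helper11.M24Conj

set_option autoImplicit false
open scoped Pointwise
open Cfsg

namespace Cfsg.Agent.S1602

open Cfsg.Agent.Lib.Helper3.Golay Cfsg.Agent.Lib.Helper3.Golay2
open Cfsg.Agent.Lib.Helper3.M24Perm Cfsg.Agent.Lib.Helper3.M24Cert
open Cfsg.Agent.Lib.Helper3.M24Trans Cfsg.Agent.Lib.Helper3.M24Dod
open Cfsg.Agent.Lib.Helper3.Coatom Cfsg.Agent.Lib.Helper11.M24Conj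

def tsL1 : List ℕ := [891385682027558266148352467872712736, 939097954425202037746734604489067808, 815788267742358612871122029918099872, 817110407467849866843631507639181728, 850671444367908957498699167874271616]

def tsL2 : List ℕ := [984778947275340660717821982278781344, 891385682027558266148352467872712736, 845642509955190970370790031463025024, 984522506754647797731288993272236544]

def tsL3 : List ℕ := [845928014986720888753639071069341984, 984778947275340660717821982278781344, 891437857390963374943912918542027264]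

def tsL4 : List ℕ := [984818244535754528103549039458486304, 845928014986720888753639071069341984]

theorem l1 : levelCheck [cw 1, 160, 262476] [0] tsL1 2 262476 5 = true := by decide +kernel

theorem l2 : levelCheck [cw 1, 160, 262476] [2, 0] tsL2 3 262472 4 = true := by decide +kernel

theorem l3 : levelCheck [cw 1, 160, 262476] [3, 2, 0] tsL3 6 262464 3 = true := by decide +kernel

theorem l4 : levelCheck [cw 1, 160, 262476] [6, 3, 2, 0] tsL4 8 262400 2 = true := by
  decide +kernel

def x5 : Fin 5 ↪ GolayPt := ⟨fun i => pt (![0, 2, 3, 6, 8] i), by decide⟩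

theorem x5_mem : ∀ i, x5 i ∈ ms (cw 1) := by decide

def y5 : Fin 5 ↪ GolayPt := ⟨fun i => pt (![2, 3, 6, 8, 18] i), by decide⟩

theorem y5_mem : ∀ i, y5 i ∈ ms (cw 1) := by decide

theorem y5_in : ∀ i, y5 i ∈ ms 262476 := by decide

theorem bot5 : fixG [cw 1, 160, 262476] [8, 6, 3, 2, 0] = ⊥ := by
  rw [eq_bot_iff]
  intro g hg
  rw [mem_fixG] at hg
  obtain ⟨hM, hD, hF⟩ := hg
  rw [Subgroup.mem_bot]
  refine m12_unique d0_mem x5 x5_mem hM (hD (cw 1) (by simp)) (fun i => ?_)
  fin_cases i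
  · exact hF 0 (by simp)
  · exact hF 2 (by simp)
  · exact hF 3 (by simp)
  · exact hF 6 (by simp)
  · exact hF 8 (by simp)

theorem card_G0' : Nat.card (fixG [cw 1, 160, 262476] [0]) = 120 := by
  rw [level_card l1 (by decide), level_card l2 (by decide), level_card l3 (by decide),
    level_card l4 (by decide), bot5, Subgroup.card_bot]

theorem ms160 : ms 160 = {pt 5, pt 7} := by
  ext p
  revert p
  decide

theorem card60 : Nat.card (fixG [cw 1] [7, 5, 0]) = 60 := by
  have h := card_M11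
  rw [level_card el1 (by decide), level_card el2 (by decide)] at h
  omega

theorem card_G0_le : Nat.card (fixG [cw 1, 160] [0]) ≤ 120 := by
  have hK : fixG [cw 1, 160] [5, 0] ≤ fixG [cw 1] [7, 5, 0] := by
    intro g hg
    rw [mem_fixG] at hg ⊢
    obtain ⟨hM, hD, hF⟩ := hg
    have h5 : g (pt 5) = pt 5 := hF 5 (by simp)
    have h0 : g (pt 0) = pt 0 := hF 0 (by simp)
    have h160 : g • ms 160 = ms 160 := hD 160 (by simp)
    have h7 : g (pt 7) = pt 7 := by
      have hm : g (pt 7) ∈ ms 160 := by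
        rw [← h160]
        exact Finset.smul_mem_smul_finset (s := ms 160) (a := g) (by rw [ms160]; simp)
      rw [ms160] at hm
      simp only [Finset.mem_insert, Finset.mem_singleton] at hm
      rcases hm with h | h
      · exfalso
        rw [← h5] at h
        exact absurd (g.injective h) (by decide)
      · exact h
    refine ⟨hM, fun D hD' => hD D (by
      simp only [List.mem_cons, List.not_mem_nil, or_false] at hD' ⊢
      exact Or.inl hD'), ?_⟩
    intro i hi
    simp only [List.mem_cons, List.not_mem_nil, or_false] at hi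
    rcases hi with rfl | rfl | rfl <;> assumption
  have h := card_orbit_mul (G := Equiv.Perm GolayPt) (fixG [cw 1, 160] [0])
    (fixG [cw 1, 160] [5, 0]) (pt 5) {y | ∃ g ∈ fixG [cw 1, 160] [0], g • pt 5 = y}
    (fun g => mem_fixG_cons) (fun g hg => ⟨g, hg, rfl⟩) (fun s hs => hs)
  have h1 : {y | ∃ g ∈ fixG [cw 1, 160] [0], g • pt 5 = y} ⊆ (↑(ms 160) : Set GolayPt) := by
    rintro y ⟨g, hg, rfl⟩
    rw [mem_fixG] at hg
    have h160 : g • ms 160 = ms 160 := hg.2.1 160 (by simp)
    rw [Finset.mem_coe, ← h160]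
    exact Finset.smul_mem_smul_finset (by rw [ms160]; simp)
  have h2 := Set.ncard_le_ncard h1 (Finset.finite_toSet _)
  rw [Set.ncard_coe_finset, card_ms] at h2
  have h3 : pc 160 = 2 := by decide
  have h4 := Subgroup.card_le_of_le hK
  rw [card60] at h4
  rw [h]
  calc _ ≤ 2 * 60 := Nat.mul_le_mul (h3 ▸ h2) h4
    _ = 120 := by norm_num

theorem G0_eq : fixG [cw 1, 160] [0] = fixG [cw 1, 160, 262476] [0] := by
  symm
  apply Subgroup.eq_of_le_of_card_ge
  · intro g hg
    rw [mem_fixG] at hg ⊢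
    exact ⟨hg.1, fun D hD => hg.2.1 D (by
      simp only [List.mem_cons, List.not_mem_nil, or_false] at hD ⊢
      rcases hD with rfl | rfl
      · exact Or.inl rfl
      · exact Or.inr (Or.inl rfl)), hg.2.2⟩
  · rw [card_G0']
    exact card_G0_le

theorem std_iso : Nonempty (↥(fixG [cw 1, 160] [0]) ≃* Equiv.Perm (Fin 5)) := by
  apply perm_iso_of_faithful (fixG [cw 1, 160] [0]) (ms 262476) 5 (by rw [card_ms]; decide)
  · intro g hg x
    rw [G0_eq, mem_fixG] at hg
    have h : g • ms 262476 = ms 262476 := hg.2.1 262476 (by simp)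
    constructor
    · intro hx
      rw [← h] at hx
      exact (Finset.smul_mem_smul_finset_iff g).mp hx
    · intro hx
      rw [← h]
      exact Finset.smul_mem_smul_finset hx
  · intro g hg hfix
    rw [mem_fixG] at hg
    exact m12_unique d0_mem y5 y5_mem hg.1 (hg.2.1 _ (by simp)) (fun i => hfix _ (y5_in i))
  · rw [G0_eq, card_G0']
    rfl

theorem result (d : Finset Cfsg.GolayPt) (hd : d ∈ Cfsg.dodecads) (p q q' : Cfsg.GolayPt) (hp : p ∈ d) (hq : q ∉ d) (hq' : q' ∉ d) (hqq' : q ≠ q') : Nonempty (↥(MulAction.stabilizer Cfsg.M24 d ⊓ MulAction.stabilizer Cfsg.M24 p ⊓ MulAction.stabilizer Cfsg.M24 ({q, q'} : Finset Cfsg.GolayPt)) ≃* Equiv.Perm (Fin 5)) := by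
  have hex : ∃ r, r ∉ d ∧ r ≠ q ∧ r ≠ q' := by
    by_contra hcon0
    have hcon : ∀ r, r ∉ d → r ≠ q → r = q' := fun r h1 h2 => by
      by_contra h3
      exact hcon0 ⟨r, h1, h2, h3⟩
    have hsub : dᶜ ⊆ {q, q'} := by
      intro r hr
      rw [Finset.mem_compl] at hr
      by_contra h
      simp only [Finset.mem_insert, Finset.mem_singleton, not_or] at h
      exact h.2 (hcon r hr h.1)
    have h1 := Finset.card_le_card hsub
    rw [Finset.card_compl, Cfsg.Agent.Lib.Helper3.Golay2.card_golayPt, hd.2] at h1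
    have h2 := Finset.card_le_two (a := q) (b := q')
    omega
  obtain ⟨r, hr, hrq, hrq'⟩ := hex
  let x : Fin 3 ↪ Cfsg.GolayPt := ⟨![q, q', r], by
    intro i j hij
    fin_cases i <;> fin_cases j <;> simp_all⟩
  have hx : ∀ i, x i ∉ d := by
    intro i
    fin_cases i
    · exact hq
    · exact hq'
    · exact hr
  obtain ⟨u, hu, hud, hup, hux⟩ := Cfsg.Agent.Lib.Helper3.M24Dod.exists_frame3 hd hp x hx
  have e5 : u (Cfsg.Agent.Lib.Helper3.M24Perm.pt 5) = q := hux 0
  have e7 : u (Cfsg.Agent.Lib.Helper3.M24Perm.pt 7) = q' := hux 1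
  have hpair : u • Cfsg.Agent.Lib.Helper3.M24Perm.ms 160 = {q, q'} := by
    rw [ms160, Finset.smul_finset_def]
    simp only [Finset.image_insert, Finset.image_singleton, Equiv.Perm.smul_def, e5, e7]
  obtain ⟨E⟩ := Cfsg.Agent.Lib.Helper11.M24Conj.conj_iso Cfsg.M24 hu
    (Cfsg.Agent.Lib.Helper3.M24Cert.fixG [Cfsg.Agent.Lib.Helper3.Golay.cw 1, 160] [0])
    (fun g hg => (Cfsg.Agent.Lib.Helper3.M24Cert.mem_fixG.mp hg).1)
    (MulAction.stabilizer Cfsg.M24 d ⊓ MulAction.stabilizer Cfsg.M24 p ⊓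
      MulAction.stabilizer Cfsg.M24 ({q, q'} : Finset Cfsg.GolayPt)) (by
    intro g
    rw [Subgroup.mem_inf, Subgroup.mem_inf, Cfsg.Agent.Lib.Helper3.M24Cert.mem_fixG]
    constructor
    · rintro ⟨⟨h1, h2⟩, h3⟩
      refine ⟨mul_mem (mul_mem (inv_mem hu) g.2) hu, ?_, ?_⟩
      · intro D hD
        simp only [List.mem_cons, List.not_mem_nil, or_false] at hD
        rcases hD with rfl | rfl
        · exact (Cfsg.Agent.Lib.Helper11.M24Conj.conj_smul_iff hud).mpr h1
        · exact (Cfsg.Agent.Lib.Helper11.M24Conj.conj_smul_iff hpair).mpr h3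
      · intro i hi
        simp only [List.mem_singleton] at hi
        subst hi
        exact (Cfsg.Agent.Lib.Helper11.M24Conj.conj_smul_iff
          (show u • Cfsg.Agent.Lib.Helper3.M24Perm.pt 0 = p from hup)).mpr h2
    · rintro ⟨_, hD, hF⟩
      exact ⟨⟨(Cfsg.Agent.Lib.Helper11.M24Conj.conj_smul_iff hud).mp (hD _ (by simp)),
        (Cfsg.Agent.Lib.Helper11.M24Conj.conj_smul_iff
          (show u • Cfsg.Agent.Lib.Helper3.M24Perm.pt 0 = p from hup)).mp
          (show (u⁻¹ * (g : Equiv.Perm Cfsg.GolayPt) * u) • Cfsg.Agent.Lib.Helper3.M24Perm.pt 0 =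
            Cfsg.Agent.Lib.Helper3.M24Perm.pt 0 from hF 0 (by simp))⟩,
        (Cfsg.Agent.Lib.Helper11.M24Conj.conj_smul_iff hpair).mp (hD _ (by simp))⟩)
  obtain ⟨E'⟩ := std_iso
  exact ⟨E.trans E'⟩

end Cfsg.Agent.S1602
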