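import Cfsg.Statements.S1604
import Cfsg.Agent.Lib.Helper3.M24Frames

set_option autoImplicit false
open scoped Pointwise
open Cfsg

namespace Cfsg.Agent.S1604

open Cfsg.Agent.Lib.Helper3.Golay Cfsg.Agent.Lib.Helper3.Golay2
open Cfsg.Agent.Lib.Helper3.GolayM24 Cfsg.Agent.Lib.Helper3.M24Perm
open Cfsg.Agent.Lib.Helper3.M24Cert Cfsg.Agent.Lib.Helper3.M24Trans
open Cfsg.Agent.Lib.Helper3.M24Oct Cfsg.Agent.Lib.Helper3.M24Dod
open Cfsg.Agent.Lib.Helper3.M24Orb Cfsg.Agent.Lib.Helper3.M24Cls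
open Cfsg.Agent.Lib.Helper3.M24ClsA Cfsg.Agent.Lib.Helper3.M24Frames

/-- A hexad stabiliser in the two-point stabiliser has orbits of sizes 1, 16, 60 on the 77 hexads: the 16 hexads disjoint from it and the 60 meeting it in two points. -/
theorem result (p q : Cfsg.GolayPt) (hpq : p ≠ q) (o o' o'' : Finset Cfsg.GolayPt) (ho : o ∈ Cfsg.octads) (ho' : o' ∈ Cfsg.octads) (ho'' : o'' ∈ Cfsg.octads) (hp : p ∈ o ∧ p ∈ o' ∧ p ∈ o'') (hq : q ∈ o ∧ q ∈ o' ∧ q ∈ o'') (h : (o ∩ o').card = (o ∩ o'').card) : {x : Finset Cfsg.GolayPt | x ∈ Cfsg.octads ∧ p ∈ x ∧ q ∈ x ∧ (o ∩ x).card = 2}.ncard = 16 ∧ {x : Finset Cfsg.GolayPt | x ∈ Cfsg.octads ∧ p ∈ x ∧ q ∈ x ∧ (o ∩ x).card = 4}.ncard = 60 ∧ ∃ g : Equiv.Perm Cfsg.GolayPt, g ∈ Cfsg.M24 ∧ g p = p ∧ g q = q ∧ g • o = o ∧ g • o' = o'' := by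
  obtain ⟨σ, hσ, rfl, rfl, rfl⟩ := octad_flag2 ho hp.1 hq.1 hpq
  have hc : ∀ i : ℕ, {x : Finset Cfsg.GolayPt | x ∈ Cfsg.octads ∧ σ (pt 0) ∈ x ∧ σ (pt 1) ∈ x ∧
      (σ • ms (cw 345) ∩ x).card = i}.ncard =
      ((Finset.range 4096).filter (fun k => labF 8 345 [0, 1] [] k = i + 1)).card := by
    intro i
    rw [← labF_count 8 345 [0, 1] [] i (by decide) (by decide)]
    apply ncard_transport σ
    intro b
    rw [smul_mem_octads_iff hσ, apply_mem_smul_iff, apply_mem_smul_iff, card_smul_inter_smul]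
    simp [octads, and_assoc]
  refine ⟨by rw [hc 2]; exact cnt_a1604_3, by rw [hc 4]; exact cnt_a1604_5, ?_⟩
  have hinv := M24.inv_mem hσ
  obtain ⟨g, hg, h1, h2, h3⟩ := std_pull hσ (trans_a1604 (b := σ⁻¹ • o') (b' := σ⁻¹ • o'')
    ((smul_mem_octads_iff hinv _).mpr ho') ((smul_mem_octads_iff hinv _).mpr ho'')
    (by simpa [pt_mem_inv_smul_iff] using ⟨hp.2.1, hq.2.1⟩) (by simp)
    (by simpa [pt_mem_inv_smul_iff] using ⟨hp.2.2, hq.2.2⟩) (by simp)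
    (by rw [card_inter_inv_smul, card_inter_inv_smul]; exact h))
  exact ⟨g, hg, h2 0 (by simp), h2 1 (by simp), h1 _ (by simp), h3⟩

end Cfsg.Agent.S1604
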