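import Cfsg.Statements.S1605
import Cfsg.Agent.Lib.Helper3.M24Frames

set_option autoImplicit false
open scoped Pointwise
open Cfsg

namespace Cfsg.Agent.S1605

open Cfsg.Agent.Lib.Helper3.Golay Cfsg.Agent.Lib.Helper3.Golay2
open Cfsg.Agent.Lib.Helper3.GolayM24 Cfsg.Agent.Lib.Helper3.M24Perm
open Cfsg.Agent.Lib.Helper3.M24Cert Cfsg.Agent.Lib.Helper3.M24Trans
open Cfsg.Agent.Lib.Helper3.M24Oct Cfsg.Agent.Lib.Helper3.M24Dod
open Cfsg.Agent.Lib.Helper3.M24Orb Cfsg.Agent.Lib.Helper3.M24Cls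
open Cfsg.Agent.Lib.Helper3.M24ClsA Cfsg.Agent.Lib.Helper3.M24Frames

/-- The two-point stabiliser acts on the 176 octads through the first point avoiding the second with rank 3 and subdegrees 1, 70, 105 (intersections 8, 2, 4). -/
theorem result (p q : Cfsg.GolayPt) (hpq : p ≠ q) : {x : Finset Cfsg.GolayPt | (x ∈ Cfsg.octads ∧ p ∈ x ∧ q ∉ x)}.ncard = 176 ∧ (∀ o o' : Finset Cfsg.GolayPt, (o ∈ Cfsg.octads ∧ p ∈ o ∧ q ∉ o) → (o' ∈ Cfsg.octads ∧ p ∈ o' ∧ q ∉ o') → ∃ g : Equiv.Perm Cfsg.GolayPt, g ∈ Cfsg.M24 ∧ g p = p ∧ g q = q ∧ g • o = o') ∧ ∀ o : Finset Cfsg.GolayPt, (o ∈ Cfsg.octads ∧ p ∈ o ∧ q ∉ o) → {x : Finset Cfsg.GolayPt | (x ∈ Cfsg.octads ∧ p ∈ x ∧ q ∉ x) ∧ (o ∩ x).card = 2}.ncard = 70 ∧ {x : Finset Cfsg.GolayPt | (x ∈ Cfsg.octads ∧ p ∈ x ∧ q ∉ x) ∧ (o ∩ x).card = 4}.ncard = 105 ∧ ∀ o' o'' : Finset Cfsg.GolayPt, (o' ∈ Cfsg.octads ∧ p ∈ o' ∧ q ∉ o') → (o'' ∈ Cfsg.octads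 ∧ p ∈ o'' ∧ q ∉ o'') → (o ∩ o').card = (o ∩ o'').card → ∃ g : Equiv.Perm Cfsg.GolayPt, g ∈ Cfsg.M24 ∧ g p = p ∧ g q = q ∧ g • o = o ∧ g • o' = o'' := by
  have cw0 : ms (cw 0) = ∅ := by
    have h0 : cw 0 = 0 := by decide +kernel
    rw [h0]
    ext z
    simp [mem_ms]
  refine ⟨?_, ?_, ?_⟩
  · obtain ⟨σ, hσ, rfl, rfl⟩ := trans2 (pt 0) (pt 5) p q (by decide) hpq
    rw [← cnt_a1605u_1, ← labF_count 8 0 [0] [5] 0 (by decide) (by decide)]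
    apply ncard_transport σ
    intro b
    rw [smul_mem_octads_iff hσ, apply_mem_smul_iff, apply_mem_smul_iff]
    simp [octads, cw0]
  · rintro o o' ⟨ho, hp, hq⟩ ⟨ho', hp', hq'⟩
    obtain ⟨σ, hσ, rfl, rfl⟩ := trans2 (pt 0) (pt 5) p q (by decide) hpq
    have hinv := M24.inv_mem hσ
    obtain ⟨g, hg, h1, h2, h3⟩ := std_pull hσ (trans_a1605u (b := σ⁻¹ • o) (b' := σ⁻¹ • o')
      ((smul_mem_octads_iff hinv _).mpr ho) ((smul_mem_octads_iff hinv _).mpr ho')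
      (by simpa [pt_mem_inv_smul_iff] using hp) (by simpa [pt_mem_inv_smul_iff] using hq)
      (by simpa [pt_mem_inv_smul_iff] using hp') (by simpa [pt_mem_inv_smul_iff] using hq')
      (by rw [cw0]; simp))
    exact ⟨g, hg, h2 0 (by simp), h2 5 (by simp), h3⟩
  · rintro o ⟨ho, hp, hq⟩
    obtain ⟨σ, hσ, rfl, rfl, rfl⟩ := octad_flag_anti ho hp hq
    have hc : ∀ i : ℕ, {x : Finset Cfsg.GolayPt | (x ∈ Cfsg.octads ∧ σ (pt 0) ∈ x ∧
        σ (pt 5) ∉ x) ∧ (σ • ms (cw 345) ∩ x).card = i}.ncard =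
        ((Finset.range 4096).filter (fun k => labF 8 345 [0] [5] k = i + 1)).card := by
      intro i
      rw [← labF_count 8 345 [0] [5] i (by decide) (by decide)]
      apply ncard_transport σ
      intro b
      rw [smul_mem_octads_iff hσ, apply_mem_smul_iff, apply_mem_smul_iff, card_smul_inter_smul]
      simp [octads, and_assoc]
    refine ⟨by rw [hc 2]; exact cnt_a1605_3, by rw [hc 4]; exact cnt_a1605_5, ?_⟩
    rintro o' o'' ⟨ho', hp', hq'⟩ ⟨ho'', hp'', hq''⟩ h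
    have hinv := M24.inv_mem hσ
    obtain ⟨g, hg, h1, h2, h3⟩ := std_pull hσ (trans_a1605 (b := σ⁻¹ • o') (b' := σ⁻¹ • o'')
      ((smul_mem_octads_iff hinv _).mpr ho') ((smul_mem_octads_iff hinv _).mpr ho'')
      (by simpa [pt_mem_inv_smul_iff] using hp') (by simpa [pt_mem_inv_smul_iff] using hq')
      (by simpa [pt_mem_inv_smul_iff] using hp'') (by simpa [pt_mem_inv_smul_iff] using hq'')
      (by rw [card_inter_inv_smul, card_inter_inv_smul]; exact h))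
    exact ⟨g, hg, h2 0 (by simp), h2 5 (by simp), h1 _ (by simp), h3⟩

end Cfsg.Agent.S1605
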