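import Cfsg.Statements.S1607
import Cfsg.Agent.Lib.Helper3.M24Frames

set_option autoImplicit false
open scoped Pointwise
open Cfsg

namespace Cfsg.Agent.S1607

open Cfsg.Agent.Lib.Helper3.Golay Cfsg.Agent.Lib.Helper3.Golay2
open Cfsg.Agent.Lib.Helper3.GolayM24 Cfsg.Agent.Lib.Helper3.M24Perm
open Cfsg.Agent.Lib.Helper3.M24Cert Cfsg.Agent.Lib.Helper3.M24Trans
open Cfsg.Agent.Lib.Helper3.M24Oct Cfsg.Agent.Lib.Helper3.M24Dod
open Cfsg.Agent.Lib.Helper3.M24Orb Cfsg.Agent.Lib.Helper3.M24Cls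
open Cfsg.Agent.Lib.Helper3.M24ClsA Cfsg.Agent.Lib.Helper3.M24Frames

/-- The point stabiliser acts on the 253 heptads of its S(4, 7, 23) with rank 3 and subdegrees 1, 112, 140 (intersections 8, 2, 4). -/
theorem result (x : Cfsg.GolayPt) (o : Finset Cfsg.GolayPt) (ho : o ∈ Cfsg.octads) (hx : x ∈ o) : {o' : Finset Cfsg.GolayPt | o' ∈ Cfsg.octads ∧ x ∈ o' ∧ (o ∩ o').card = 2}.ncard = 112 ∧ {o' : Finset Cfsg.GolayPt | o' ∈ Cfsg.octads ∧ x ∈ o' ∧ (o ∩ o').card = 4}.ncard = 140 ∧ ∀ o' o'' : Finset Cfsg.GolayPt, o' ∈ Cfsg.octads → o'' ∈ Cfsg.octads → x ∈ o' → x ∈ o'' → (o ∩ o').card = (o ∩ o'').card → ∃ g : Equiv.Perm Cfsg.GolayPt, g ∈ Cfsg.M24 ∧ g x = x ∧ g • o = o ∧ g • o' = o'' := by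
  obtain ⟨σ, hσ, rfl, rfl⟩ := octad_flag ho hx
  have hc : ∀ i : ℕ, {o' : Finset Cfsg.GolayPt | o' ∈ Cfsg.octads ∧ σ (pt 0) ∈ o' ∧
      (σ • ms (cw 345) ∩ o').card = i}.ncard =
      ((Finset.range 4096).filter (fun k => labF 8 345 [0] [] k = i + 1)).card := by
    intro i
    rw [← labF_count 8 345 [0] [] i (by decide) (by decide)]
    apply ncard_transport σ
    intro b
    rw [smul_mem_octads_iff hσ, apply_mem_smul_iff, card_smul_inter_smul]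
    simp [octads]
  refine ⟨by rw [hc 2]; exact cnt_a1607_3, by rw [hc 4]; exact cnt_a1607_5, ?_⟩
  intro o' o'' ho' ho'' hx' hx'' h
  have hinv := M24.inv_mem hσ
  obtain ⟨g, hg, h1, h2, h3⟩ := std_pull hσ (trans_a1607 (b := σ⁻¹ • o') (b' := σ⁻¹ • o'')
    ((smul_mem_octads_iff hinv _).mpr ho') ((smul_mem_octads_iff hinv _).mpr ho'')
    (by simpa [pt_mem_inv_smul_iff] using hx') (by simp)
    (by simpa [pt_mem_inv_smul_iff] using hx'') (by simp)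
    (by rw [card_inter_inv_smul, card_inter_inv_smul]; exact h))
  exact ⟨g, hg, h2 0 (by simp), h1 _ (by simp), h3⟩

end Cfsg.Agent.S1607
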