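import Cfsg.Statements.S1610

set_option autoImplicit false
open Cfsg

namespace Cfsg.Agent.S1610

def add4 : Fin 4 → Fin 4 → Fin 4 :=
  fun a b => ![![0, 1, 2, 3], ![1, 0, 3, 2], ![2, 3, 0, 1], ![3, 2, 1, 0]] a b

def mul4 : Fin 4 → Fin 4 → Fin 4 :=
  fun a b => ![![0, 0, 0, 0], ![0, 1, 2, 3], ![0, 2, 3, 1], ![0, 3, 1, 2]] a b

def γ1 : Fin 6 → Fin 4 := ![2, 3, 3, 2, 3, 2]
def γ2 : Fin 6 → Fin 4 := ![3, 2, 2, 3, 3, 2]
def γ3 : Fin 6 → Fin 4 := ![3, 2, 3, 2, 2, 3]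

/-- the model word with coefficients `p` -/
def wd (p : Fin 4 × Fin 4 × Fin 4) : Fin 6 → Fin 4 :=
  fun i => add4 (add4 (mul4 p.1 (γ1 i)) (mul4 p.2.1 (γ2 i))) (mul4 p.2.2 (γ3 i))

def wt (p : Fin 4 × Fin 4 × Fin 4) : ℕ := (Finset.univ.filter (fun i => wd p i ≠ 0)).card

theorem wd_injective : ∀ p q : Fin 4 × Fin 4 × Fin 4, wd p = wd q → p = q := by
  decide +kernel

theorem wt_cases : ∀ p : Fin 4 × Fin 4 × Fin 4, wd p = 0 ∨ wt p = 4 ∨ wt p = 6 := by
  decide +kernel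

theorem count4 : (Finset.univ.filter (fun p : Fin 4 × Fin 4 × Fin 4 => wt p = 4)).card = 45 := by
  decide +kernel

theorem count6 : (Finset.univ.filter (fun p : Fin 4 × Fin 4 × Fin 4 => wt p = 6)).card = 18 := by
  decide +kernel

theorem add4_eq_zero : ∀ a b : Fin 4, add4 a b = 0 → a = b := by decide

section
variable {F : Type*} [Field F]

/-- the four elements of the field -/
def e (ω : F) : Fin 4 → F := ![0, 1, ω, ω + 1]

lemma two_eq_zero [Fintype F] (hF : Fintype.card F = 4) : (2 : F) = 0 := by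
  have h4 : ((4 : ℕ) : F) = 0 := by rw [← hF]; exact Nat.cast_card_eq_zero F
  have h : (2 : F) ^ 2 = 0 := by
    have : (2 : F) ^ 2 = ((4 : ℕ) : F) := by norm_num
    rw [this, h4]
  exact pow_eq_zero_iff (two_ne_zero) |>.mp h

lemma sq_eq (ω : F) (h2 : (2 : F) = 0) (hω : ω ^ 2 + ω + 1 = 0) : ω ^ 2 = ω + 1 := by
  linear_combination hω - (ω + 1) * h2

lemma e_add (ω : F) (h2 : (2 : F) = 0) (a b : Fin 4) : e ω (add4 a b) = e ω a + e ω b := by
  fin_cases a <;> fin_cases b <;> simp [e, add4] <;>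
    first
    | ring1
    | linear_combination (-1 : F) * h2
    | linear_combination (-ω) * h2
    | linear_combination (-(ω + 1)) * h2
    | linear_combination h2
    | linear_combination ω * h2
    | linear_combination (ω + 1) * h2

lemma e_mul (ω : F) (h2 : (2 : F) = 0) (hsq : ω ^ 2 = ω + 1) (a b : Fin 4) :
    e ω (mul4 a b) = e ω a * e ω b := by
  fin_cases a <;> fin_cases b <;> simp [e, mul4] <;>
    first
    | linear_combination (-1 : F) * hsq
    | linear_combination (-1 : F) * hsq - ω * h2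
    | linear_combination (-1 : F) * hsq - (ω + 1) * h2
    | linear_combination hsq
    | linear_combination hsq + ω * h2
    | linear_combination hsq + (ω + 1) * h2

lemma e_eq_zero (ω : F) (h2 : (2 : F) = 0) (hω : ω ^ 2 + ω + 1 = 0) (a : Fin 4) :
    e ω a = 0 ↔ a = 0 := by
  have h0 : ω ≠ 0 := by
    rintro rfl
    simp at hω
  have h1 : ω + 1 ≠ 0 := by
    intro h
    have : ω ^ 2 = 0 := by linear_combination hω - h
    have : ω = 0 := pow_eq_zero_iff (two_ne_zero) |>.mp this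
    exact h0 this
  fin_cases a <;> simp [e, h0, h1]

lemma e_injective (ω : F) (h2 : (2 : F) = 0) (hω : ω ^ 2 + ω + 1 = 0) :
    Function.Injective (e ω) := by
  intro a b h
  apply add4_eq_zero
  rw [← e_eq_zero ω h2 hω, e_add ω h2, h]
  linear_combination (e ω b) * h2

lemma e_surjective [Fintype F] (hF : Fintype.card F = 4) (ω : F) (h2 : (2 : F) = 0)
    (hω : ω ^ 2 + ω + 1 = 0) : Function.Surjective (e ω) := by
  have hb : Function.Bijective (e ω) := by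
    rw [Fintype.bijective_iff_injective_and_card]
    exact ⟨e_injective ω h2 hω, by rw [hF]; rfl⟩
  exact hb.2

/-- the field word with coefficients `p` -/
def Φ (ω : F) (p : Fin 4 × Fin 4 × Fin 4) : Fin 6 → F := fun i => e ω (wd p i)

lemma Φ_injective (ω : F) (h2 : (2 : F) = 0) (hω : ω ^ 2 + ω + 1 = 0) :
    Function.Injective (Φ ω) := by
  intro p q h
  apply wd_injective
  funext i
  exact e_injective ω h2 hω (congrFun h i)

lemma Φ_eq (ω : F) (h2 : (2 : F) = 0) (hω : ω ^ 2 + ω + 1 = 0) (p : Fin 4 × Fin 4 × Fin 4) :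
    Φ ω p = e ω p.1 • ![ω, ω ^ 2, ω ^ 2, ω, ω ^ 2, ω] + e ω p.2.1 • ![ω ^ 2, ω, ω, ω ^ 2, ω ^ 2, ω]
      + e ω p.2.2 • ![ω ^ 2, ω, ω ^ 2, ω, ω, ω ^ 2] := by
  have hsq := sq_eq ω h2 hω
  have g1 : ∀ i, (![ω, ω ^ 2, ω ^ 2, ω, ω ^ 2, ω] : Fin 6 → F) i = e ω (γ1 i) := by
    intro i; fin_cases i <;> simp [e, γ1, hsq]
  have g2 : ∀ i, (![ω ^ 2, ω, ω, ω ^ 2, ω ^ 2, ω] : Fin 6 → F) i = e ω (γ2 i) := by
    intro i; fin_cases i <;> simp [e, γ2, hsq]
  have g3 : ∀ i, (![ω ^ 2, ω, ω ^ 2, ω, ω, ω ^ 2] : Fin 6 → F) i = e ω (γ3 i) := by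
    intro i; fin_cases i <;> simp [e, γ3, hsq]
  funext i
  simp only [Pi.add_apply, Pi.smul_apply, smul_eq_mul]
  rw [g1, g2, g3, ← e_mul ω h2 hsq, ← e_mul ω h2 hsq, ← e_mul ω h2 hsq, ← e_add ω h2, ← e_add ω h2]
  rfl

lemma mem_hexacode_iff [Fintype F] (hF : Fintype.card F = 4) (ω : F) (h2 : (2 : F) = 0)
    (hω : ω ^ 2 + ω + 1 = 0) (x : Fin 6 → F) :
    x ∈ hexacode F ω ↔ ∃ p, x = Φ ω p := by
  unfold hexacode
  rw [Submodule.mem_span_triple]
  constructor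
  · rintro ⟨a, b, c, rfl⟩
    obtain ⟨α, rfl⟩ := e_surjective hF ω h2 hω a
    obtain ⟨β, rfl⟩ := e_surjective hF ω h2 hω b
    obtain ⟨γ, rfl⟩ := e_surjective hF ω h2 hω c
    exact ⟨(α, β, γ), (Φ_eq ω h2 hω (α, β, γ)).symm⟩
  · rintro ⟨p, rfl⟩
    exact ⟨e ω p.1, e ω p.2.1, e ω p.2.2, (Φ_eq ω h2 hω p).symm⟩

lemma weight_Φ [DecidableEq F] (ω : F) (h2 : (2 : F) = 0) (hω : ω ^ 2 + ω + 1 = 0)
    (p : Fin 4 × Fin 4 × Fin 4) :
    (Finset.univ.filter fun i => Φ ω p i ≠ 0).card = wt p := by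
  unfold wt
  congr 1
  apply Finset.filter_congr
  intro i _
  show e ω (wd p i) ≠ 0 ↔ wd p i ≠ 0
  rw [Ne, e_eq_zero ω h2 hω]

lemma ncard_weight [Fintype F] [DecidableEq F] (hF : Fintype.card F = 4) (ω : F) (h2 : (2 : F) = 0)
    (hω : ω ^ 2 + ω + 1 = 0) (w : ℕ) :
    {x : Fin 6 → F | x ∈ hexacode F ω ∧ (Finset.univ.filter fun i => x i ≠ 0).card = w}.ncard
      = (Finset.univ.filter (fun p : Fin 4 × Fin 4 × Fin 4 => wt p = w)).card := by
  have h1 : {x : Fin 6 → F | x ∈ hexacode F ω ∧ (Finset.univ.filter fun i => x i ≠ 0).card = w}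
      = Φ ω '' {p | wt p = w} := by
    ext x
    simp only [Set.mem_ofPred_eq, mem_hexacode_iff hF ω h2 hω, Set.mem_image]
    constructor
    · rintro ⟨⟨p, rfl⟩, hw⟩
      exact ⟨p, by rw [← weight_Φ ω h2 hω]; exact hw, rfl⟩
    · rintro ⟨p, hw, rfl⟩
      exact ⟨⟨p, rfl⟩, by rw [weight_Φ ω h2 hω]; exact hw⟩
  rw [h1, Set.ncard_image_of_injective _ (Φ_injective ω h2 hω), ← Set.ncard_coe_finset]
  congr 1
  ext p
  simp

end

theorem result (F : Type*) [Field F] [Fintype F] [DecidableEq F] (hF : Fintype.card F = 4) (ω : F) (hω : ω ^ 2 + ω + 1 = 0) : Nat.card ↥(Cfsg.hexacode F ω) = 64 ∧ (∀ x ∈ Cfsg.hexacode F ω, x ≠ 0 → (Finset.univ.filter fun i => x i ≠ 0).card = 4 ∨ (Finset.univ.filter fun i => x i ≠ 0).card = 6) ∧ {x : Fin 6 → F | x ∈ Cfsg.hexacode F ω ∧ (Finset.univ.filter fun i => x i ≠ 0).card = 4}.ncard = 45 ∧ {x : Fin 6 → F | x ∈ Cfsg.hexacode F ω ∧ (Finset.univ.filter fun i => x i ≠ 0).card =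 6}.ncard = 18 := by
  have h2 := two_eq_zero hF
  refine ⟨?_, ?_, ?_, ?_⟩
  · have hset : ((hexacode F ω : Submodule F (Fin 6 → F)) : Set (Fin 6 → F)) = Set.range (Φ ω) := by
      ext x
      rw [SetLike.mem_coe, mem_hexacode_iff hF ω h2 hω, Set.mem_range]
      constructor
      · rintro ⟨p, rfl⟩; exact ⟨p, rfl⟩
      · rintro ⟨p, rfl⟩; exact ⟨p, rfl⟩
    have h1 : Nat.card ↥(hexacode F ω)
        = ((hexacode F ω : Submodule F (Fin 6 → F)) : Set (Fin 6 → F)).ncard :=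
      (Nat.card_coe_set_eq _)
    rw [h1, hset, ← Set.image_univ, Set.ncard_image_of_injective _ (Φ_injective ω h2 hω),
      Set.ncard_univ, Nat.card_eq_fintype_card]
    rfl
  · intro x hx h0
    obtain ⟨p, rfl⟩ := (mem_hexacode_iff hF ω h2 hω x).mp hx
    rw [weight_Φ ω h2 hω]
    rcases wt_cases p with h | h
    · exfalso
      apply h0
      funext i
      show e ω (wd p i) = 0
      rw [h]
      rfl
    · exact h
  · exact (ncard_weight hF ω h2 hω 4).trans count4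
  · exact (ncard_weight hF ω h2 hω 6).trans count6

end Cfsg.Agent.S1610
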