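import Cfsg.Statements.S1611
import Cfsg.Agent.S1610

set_option autoImplicit false
open Cfsg

namespace Cfsg.Agent.S1611

open Cfsg.Agent.S1610

def inv4 : Fin 4 → Fin 4 := ![0, 1, 3, 2]

/-- decode a model word from its first three coordinates -/
def dec4 (w : Fin 6 → Fin 4) : Fin 4 × Fin 4 × Fin 4 :=
  (add4 (mul4 2 (w 0)) (mul4 3 (w 1)), add4 (add4 (mul4 3 (w 0)) (mul4 3 (w 1))) (w 2),
    add4 (w 1) (w 2))

def kap (σ : Equiv.Perm (Fin 6)) (p : Fin 4 × Fin 4 × Fin 4) : Fin 6 → Fin 4 :=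
  fun i => mul4 (wd p i) (inv4 (γ1 (σ.symm i)))

def tw2 (σ : Equiv.Perm (Fin 6)) (p : Fin 4 × Fin 4 × Fin 4) : Fin 6 → Fin 4 :=
  fun i => mul4 (kap σ p i) (γ2 (σ.symm i))

def tw3 (σ : Equiv.Perm (Fin 6)) (p : Fin 4 × Fin 4 × Fin 4) : Fin 6 → Fin 4 :=
  fun i => mul4 (kap σ p i) (γ3 (σ.symm i))

/-- parity checks of the model code -/
def par (w : Fin 6 → Fin 4) : Prop :=
  w 3 = add4 (add4 (w 0) (w 1)) (w 2) ∧ w 4 = add4 (add4 (mul4 3 (w 0)) (mul4 2 (w 1))) (w 2) ∧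
    w 5 = add4 (add4 (mul4 2 (w 0)) (mul4 3 (w 1))) (w 2)

instance (w : Fin 6 → Fin 4) : Decidable (par w) := by
  unfold par; infer_instance

theorem par_wd : ∀ q : Fin 4 × Fin 4 × Fin 4, par (wd q) := by decide +kernel

theorem wd_dec : ∀ a b c : Fin 4,
    wd (add4 (mul4 2 a) (mul4 3 b), add4 (add4 (mul4 3 a) (mul4 3 b)) c, add4 b c)
      = ![a, b, c, add4 (add4 a b) c, add4 (add4 (mul4 3 a) (mul4 2 b)) c,
          add4 (add4 (mul4 2 a) (mul4 3 b)) c] := by decide +kernel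

theorem par_iff (w : Fin 6 → Fin 4) : par w ↔ ∃ q, wd q = w := by
  constructor
  · rintro ⟨h3, h4, h5⟩
    refine ⟨dec4 w, ?_⟩
    have h := wd_dec (w 0) (w 1) (w 2)
    have h' : wd (dec4 w) = ![w 0, w 1, w 2, add4 (add4 (w 0) (w 1)) (w 2),
        add4 (add4 (mul4 3 (w 0)) (mul4 2 (w 1))) (w 2),
        add4 (add4 (mul4 2 (w 0)) (mul4 3 (w 1))) (w 2)] := h
    rw [h', ← h3, ← h4, ← h5]
    funext i
    fin_cases i <;> rfl
  · rintro ⟨q, rfl⟩
    exact par_wd q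

def ok (σ : Equiv.Perm (Fin 6)) (p : Fin 4 × Fin 4 × Fin 4) : Prop :=
  (∀ i, wd p i ≠ 0) ∧ par (tw2 σ p) ∧ par (tw3 σ p)

instance (σ : Equiv.Perm (Fin 6)) (p : Fin 4 × Fin 4 × Fin 4) : Decidable (ok σ p) := by
  unfold ok; infer_instance

set_option maxRecDepth 100000 in
theorem D1 : ∀ p, ok 1 p → ∀ i j, kap 1 p i = kap 1 p j := by decide +kernel

set_option maxRecDepth 100000 in
theorem D34 : ∀ σ : Equiv.Perm (Fin 6),
    (Finset.univ.filter (fun p => ok σ p)).card = if Equiv.Perm.sign σ = 1 then 3 else 0 := by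
  decide +kernel

set_option maxRecDepth 100000 in
theorem card_even : (Finset.univ.filter (fun σ : Equiv.Perm (Fin 6) => Equiv.Perm.sign σ = 1)).card
    = 360 := by
  decide +kernel

theorem D3 (σ : Equiv.Perm (Fin 6)) : (∃ p, ok σ p) ↔ Equiv.Perm.sign σ = 1 := by
  have h := D34 σ
  constructor
  · rintro ⟨p, hp⟩
    by_contra hs
    rw [if_neg hs, Finset.card_eq_zero] at h
    have : p ∈ Finset.univ.filter (fun p => ok σ p) := by simp [hp]
    rw [h] at this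
    simp at this
  · intro hs
    rw [if_pos hs] at h
    have hne : (Finset.univ.filter (fun p => ok σ p)).Nonempty := by
      rw [← Finset.card_pos, h]; norm_num
    obtain ⟨p, hp⟩ := hne
    exact ⟨p, (Finset.mem_filter.mp hp).2⟩

/-- the valid pairs -/
def okSet : Finset (Equiv.Perm (Fin 6) × (Fin 4 × Fin 4 × Fin 4)) :=
  Finset.univ.filter (fun x => ok x.1 x.2)

set_option maxRecDepth 100000 in
theorem mem_okSet (x : Equiv.Perm (Fin 6) × (Fin 4 × Fin 4 × Fin 4)) : x ∈ okSet ↔ ok x.1 x.2 :=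
  Finset.mem_filter.trans (and_iff_right (Finset.mem_univ _))

theorem card_ok : okSet.card = 1080 := by
  unfold okSet
  rw [Finset.card_filter, Fintype.sum_prod_type]
  have h : ∀ σ : Equiv.Perm (Fin 6), (∑ p : Fin 4 × Fin 4 × Fin 4, if ok σ p then 1 else 0)
      = if Equiv.Perm.sign σ = 1 then 3 else 0 := by
    intro σ
    rw [← Finset.card_filter]
    exact D34 σ
  rw [Finset.sum_congr rfl (fun σ _ => h σ), Finset.sum_ite, Finset.sum_const, Finset.sum_const,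
    card_even]
  simp

theorem L1 : ∀ (a : Fin 4) (j : Fin 6), a ≠ 0 →
    mul4 a (γ1 j) ≠ 0 ∧ mul4 (mul4 a (γ1 j)) (inv4 (γ1 j)) = a := by decide

theorem L2 : ∀ (w : Fin 4) (j : Fin 6), mul4 (mul4 w (inv4 (γ1 j))) (γ1 j) = w := by decide

theorem L3 : ∀ (w : Fin 4) (j : Fin 6), w ≠ 0 → mul4 w (inv4 (γ1 j)) ≠ 0 := by decide

theorem wd100 : ∀ i, wd (1, 0, 0) i = γ1 i := by decide
theorem wd010 : ∀ i, wd (0, 1, 0) i = γ2 i := by decide
theorem wd001 : ∀ i, wd (0, 0, 1) i = γ3 i := by decide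

section
variable {F : Type*} [Field F]

open Classical in
/-- the unit of `F` attached to a nonzero model element -/
noncomputable def unitOf (ω : F) (a : Fin 4) : Fˣ :=
  if h : e ω a = 0 then 1 else Units.mk0 (e ω a) h

lemma unitOf_coe (ω : F) (h2 : (2 : F) = 0) (hω : ω ^ 2 + ω + 1 = 0) (a : Fin 4) (ha : a ≠ 0) :
    ((unitOf ω a : Fˣ) : F) = e ω a := by
  have h : ¬ e ω a = 0 := fun h => ha ((e_eq_zero ω h2 hω a).mp h)
  unfold unitOf
  rw [dif_neg h]
  rfl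

lemma mono_zero (σ : Equiv.Perm (Fin 6)) (c : Fin 6 → Fˣ) :
    monomialMap σ c (0 : Fin 6 → F) = 0 := by
  funext i; simp [monomialMap]

lemma mono_add (σ : Equiv.Perm (Fin 6)) (c : Fin 6 → Fˣ) (x y : Fin 6 → F) :
    monomialMap σ c (x + y) = monomialMap σ c x + monomialMap σ c y := by
  funext i; simp [monomialMap, mul_add]

lemma mono_smul (σ : Equiv.Perm (Fin 6)) (c : Fin 6 → Fˣ) (a : F) (x : Fin 6 → F) :
    monomialMap σ c (a • x) = a • monomialMap σ c x := by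
  funext i; simp [monomialMap, mul_left_comm]

lemma gen1 (ω : F) (h2 : (2 : F) = 0) (hω : ω ^ 2 + ω + 1 = 0) :
    (![ω, ω ^ 2, ω ^ 2, ω, ω ^ 2, ω] : Fin 6 → F) = fun i => e ω (γ1 i) := by
  have h := Φ_eq ω h2 hω (1, 0, 0)
  simp only [e, Matrix.cons_val_zero, Matrix.cons_val_one, one_smul, zero_smul, add_zero] at h
  rw [← h]
  funext i
  show e ω (wd (1, 0, 0) i) = _
  rw [wd100]

lemma gen2 (ω : F) (h2 : (2 : F) = 0) (hω : ω ^ 2 + ω + 1 = 0) :
    (![ω ^ 2, ω, ω, ω ^ 2, ω ^ 2, ω] : Fin 6 → F) = fun i => e ω (γ2 i) := by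
  have h := Φ_eq ω h2 hω (0, 1, 0)
  simp only [e, Matrix.cons_val_zero, Matrix.cons_val_one, one_smul, zero_smul, add_zero,
    zero_add] at h
  rw [← h]
  funext i
  show e ω (wd (0, 1, 0) i) = _
  rw [wd010]

lemma gen3 (ω : F) (h2 : (2 : F) = 0) (hω : ω ^ 2 + ω + 1 = 0) :
    (![ω ^ 2, ω, ω ^ 2, ω, ω, ω ^ 2] : Fin 6 → F) = fun i => e ω (γ3 i) := by
  have h := Φ_eq ω h2 hω (0, 0, 1)
  simp only [e, Matrix.cons_val_zero, Matrix.cons_val_one, one_smul, zero_smul, add_zero,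
    zero_add] at h
  rw [← h]
  funext i
  show e ω (wd (0, 0, 1) i) = _
  rw [wd001]

lemma pres_iff [Fintype F] (hF : Fintype.card F = 4) (ω : F) (h2 : (2 : F) = 0)
    (hω : ω ^ 2 + ω + 1 = 0) (σ : Equiv.Perm (Fin 6)) (c : Fin 6 → Fˣ) :
    (∀ x ∈ hexacode F ω, monomialMap σ c x ∈ hexacode F ω) ↔
      ∃ p, ok σ p ∧ ∀ i, (c i : F) = e ω (kap σ p i) := by
  have hsq := sq_eq ω h2 hω
  have hinj := e_injective ω h2 hω
  constructor
  · intro h
    have hg1 : (fun i => e ω (γ1 i)) ∈ hexacode F ω := by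
      rw [← gen1 ω h2 hω]; exact Submodule.subset_span (by simp)
    have hg2 : (fun i => e ω (γ2 i)) ∈ hexacode F ω := by
      rw [← gen2 ω h2 hω]; exact Submodule.subset_span (by simp)
    have hg3 : (fun i => e ω (γ3 i)) ∈ hexacode F ω := by
      rw [← gen3 ω h2 hω]; exact Submodule.subset_span (by simp)
    obtain ⟨p, hp⟩ := (mem_hexacode_iff hF ω h2 hω _).mp (h _ hg1)
    obtain ⟨q2, hq2⟩ := (mem_hexacode_iff hF ω h2 hω _).mp (h _ hg2)
    obtain ⟨q3, hq3⟩ := (mem_hexacode_iff hF ω h2 hω _).mp (h _ hg3)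
    have key : ∀ i, wd p i ≠ 0 ∧ (c i : F) = e ω (kap σ p i) := by
      intro i
      obtain ⟨κ, hκ⟩ := e_surjective hF ω h2 hω (c i : F)
      have hκ0 : κ ≠ 0 := by
        intro h0
        rw [h0] at hκ
        have : e ω 0 = 0 := (e_eq_zero ω h2 hω 0).mpr rfl
        rw [this] at hκ
        exact (c i).ne_zero hκ.symm
      have h1 : (c i : F) * e ω (γ1 (σ.symm i)) = e ω (wd p i) := congrFun hp i
      rw [← hκ, ← e_mul ω h2 hsq] at h1
      have h3 := hinj h1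
      obtain ⟨h4, h5⟩ := L1 κ (σ.symm i) hκ0
      rw [h3] at h4 h5
      refine ⟨h4, ?_⟩
      rw [← hκ]
      show e ω κ = e ω (mul4 (wd p i) (inv4 (γ1 (σ.symm i))))
      rw [h5]
    refine ⟨p, ⟨fun i => (key i).1, ?_, ?_⟩, fun i => (key i).2⟩
    · have : tw2 σ p = wd q2 := by
        funext i
        apply hinj
        have h1 : (c i : F) * e ω (γ2 (σ.symm i)) = e ω (wd q2 i) := congrFun hq2 i
        rw [(key i).2, ← e_mul ω h2 hsq] at h1
        exact h1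
      rw [this]; exact par_wd q2
    · have : tw3 σ p = wd q3 := by
        funext i
        apply hinj
        have h1 : (c i : F) * e ω (γ3 (σ.symm i)) = e ω (wd q3 i) := congrFun hq3 i
        rw [(key i).2, ← e_mul ω h2 hsq] at h1
        exact h1
      rw [this]; exact par_wd q3
  · rintro ⟨p, ⟨hnz, h2', h3'⟩, hc⟩ x hx
    unfold hexacode at hx
    induction hx using Submodule.span_induction with
    | mem y hy =>
      rcases hy with rfl | rfl | rfl
      · rw [gen1 ω h2 hω]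
        apply (mem_hexacode_iff hF ω h2 hω _).mpr
        refine ⟨p, ?_⟩
        funext i
        show (c i : F) * e ω (γ1 (σ.symm i)) = e ω (wd p i)
        rw [hc i, ← e_mul ω h2 hsq]
        show e ω (mul4 (mul4 (wd p i) (inv4 (γ1 (σ.symm i)))) (γ1 (σ.symm i))) = _
        rw [L2]
      · rw [gen2 ω h2 hω]
        apply (mem_hexacode_iff hF ω h2 hω _).mpr
        obtain ⟨q, hq⟩ := (par_iff _).mp h2'
        refine ⟨q, ?_⟩
        funext i
        show (c i : F) * e ω (γ2 (σ.symm i)) = e ω (wd q i)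
        rw [hc i, ← e_mul ω h2 hsq, hq]
        rfl
      · rw [gen3 ω h2 hω]
        apply (mem_hexacode_iff hF ω h2 hω _).mpr
        obtain ⟨q, hq⟩ := (par_iff _).mp h3'
        refine ⟨q, ?_⟩
        funext i
        show (c i : F) * e ω (γ3 (σ.symm i)) = e ω (wd q i)
        rw [hc i, ← e_mul ω h2 hsq, hq]
        rfl
    | zero => rw [mono_zero]; exact Submodule.zero_mem _
    | add y z _ _ hy hz => rw [mono_add]; exact Submodule.add_mem _ hy hz
    | smul a y _ hy => rw [mono_smul]; exact Submodule.smul_mem _ a hy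

end

set_option maxRecDepth 100000 in

theorem result (F : Type*) [Field F] [Fintype F] [DecidableEq F] (hF : Fintype.card F = 4) (ω : F) (hω : ω ^ 2 + ω + 1 = 0) : Nat.card {f : Equiv.Perm (Fin 6) × (Fin 6 → Fˣ) // (∀ x ∈ Cfsg.hexacode F ω, Cfsg.monomialMap f.1 f.2 x ∈ Cfsg.hexacode F ω)} = 1080 ∧ (∀ c : Fin 6 → Fˣ, (∀ x ∈ Cfsg.hexacode F ω, Cfsg.monomialMap 1 c x ∈ Cfsg.hexacode F ω) → ∀ i j, c i = c j) ∧ {σ : Equiv.Perm (Fin 6) | ∃ c : Fin 6 → Fˣ, (∀ x ∈ Cfsg.hexacode F ω, Cfsg.monomialMap σ c x ∈ Cfsg.hexacode F ω)} = (alternatingGroup (Fin 6) : Set (Equiv.Perm (Fin 6))) := by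
  have h2 := two_eq_zero hF
  have hsq := sq_eq ω h2 hω
  have hinj := e_injective ω h2 hω
  have hkne : ∀ (σ : Equiv.Perm (Fin 6)) (p : Fin 4 × Fin 4 × Fin 4), ok σ p → ∀ i, kap σ p i ≠ 0 :=
    fun σ p hp i => L3 _ _ (hp.1 i)
  refine ⟨?_, ?_, ?_⟩
  · -- the count
    have hset : {f : Equiv.Perm (Fin 6) × (Fin 6 → Fˣ) |
        ∀ x ∈ Cfsg.hexacode F ω, Cfsg.monomialMap f.1 f.2 x ∈ Cfsg.hexacode F ω}
        = (fun x : Equiv.Perm (Fin 6) × (Fin 4 × Fin 4 × Fin 4) =>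
            (x.1, fun i => unitOf ω (kap x.1 x.2 i))) ''
          (↑okSet : Set (Equiv.Perm (Fin 6) × (Fin 4 × Fin 4 × Fin 4))) := by
      ext f
      constructor
      · intro hf
        obtain ⟨p, hok, hc⟩ := (pres_iff hF ω h2 hω f.1 f.2).mp hf
        refine ⟨(f.1, p), Finset.mem_coe.mpr ((mem_okSet (f.1, p)).mpr hok), ?_⟩
        refine Prod.ext rfl ?_
        funext i
        apply Units.ext
        show ((unitOf ω (kap f.1 p i) : Fˣ) : F) = (f.2 i : F)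
        rw [unitOf_coe ω h2 hω _ (hkne f.1 p hok i), hc i]
      · rintro ⟨x, hx, rfl⟩
        have hok : ok x.1 x.2 := (mem_okSet x).mp (Finset.mem_coe.mp hx)
        exact (pres_iff hF ω h2 hω _ _).mpr
          ⟨x.2, hok, fun i => unitOf_coe ω h2 hω _ (hkne x.1 x.2 hok i)⟩
    have hcard : Nat.card {f : Equiv.Perm (Fin 6) × (Fin 6 → Fˣ) //
        (∀ x ∈ Cfsg.hexacode F ω, Cfsg.monomialMap f.1 f.2 x ∈ Cfsg.hexacode F ω)}
        = {f : Equiv.Perm (Fin 6) × (Fin 6 → Fˣ) |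
        ∀ x ∈ Cfsg.hexacode F ω, Cfsg.monomialMap f.1 f.2 x ∈ Cfsg.hexacode F ω}.ncard :=
      Nat.card_coe_set_eq _
    rw [hcard, hset, Set.InjOn.ncard_image, Set.ncard_coe_finset, card_ok]
    rintro ⟨σ, p⟩ hx ⟨σ', p'⟩ hx' h
    have hok : ok σ p := (mem_okSet (σ, p)).mp (Finset.mem_coe.mp hx)
    have hok' : ok σ' p' := (mem_okSet (σ', p')).mp (Finset.mem_coe.mp hx')
    have hσ : σ = σ' := congrArg Prod.fst h
    subst hσ
    have hfun : (fun i => unitOf ω (kap σ p i)) = (fun i => unitOf ω (kap σ p' i)) :=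
      congrArg Prod.snd h
    have hp : p = p' := by
      apply wd_injective
      funext i
      have h1 : ((unitOf ω (kap σ p i) : Fˣ) : F) = ((unitOf ω (kap σ p' i) : Fˣ) : F) :=
        congrArg (fun u : Fˣ => (u : F)) (congrFun hfun i)
      rw [unitOf_coe ω h2 hω _ (hkne σ p hok i), unitOf_coe ω h2 hω _ (hkne σ p' hok' i)] at h1
      have h3 : kap σ p i = kap σ p' i := hinj h1
      have h4 := L2 (wd p i) (σ.symm i)
      have h5 := L2 (wd p' i) (σ.symm i)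
      have h6 : mul4 (wd p i) (inv4 (γ1 (σ.symm i))) = mul4 (wd p' i) (inv4 (γ1 (σ.symm i))) := h3
      rw [← h4, h6, h5]
    rw [hp]
  · intro c hc i j
    obtain ⟨p, hok, hcp⟩ := (pres_iff hF ω h2 hω 1 c).mp hc
    apply Units.ext
    rw [hcp i, hcp j, D1 p hok i j]
  · ext σ
    constructor
    · rintro ⟨c, hc⟩
      obtain ⟨p, hok, _⟩ := (pres_iff hF ω h2 hω σ c).mp hc
      exact Equiv.Perm.mem_alternatingGroup.mpr ((D3 σ).mp ⟨p, hok⟩)
    · intro hσ
      obtain ⟨p, hok⟩ := (D3 σ).mpr (Equiv.Perm.mem_alternatingGroup.mp hσ)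
      exact ⟨fun i => unitOf ω (kap σ p i), (pres_iff hF ω h2 hω _ _).mpr
        ⟨p, hok, fun i => unitOf_coe ω h2 hω _ (hkne σ p hok i)⟩⟩

end Cfsg.Agent.S1611
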