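import Mathlib
import Cfsg.Statements.S1629
import Cfsg.Agent.Lib.Helper2.OrthTransp
import Cfsg.Agent.Lib.Helper15.StdForms

set_option autoImplicit false
open scoped MatrixGroups
open Cfsg

namespace Cfsg.Agent.S1629

/-- The orthogonal transvections of the plus-type orthogonal group in dimension 2m ≥ 6 over the field with two elements form a generating conjugacy class of 3-transpositions. -/
theorem result (m : ℕ) (hm : 3 ≤ m) : Cfsg.IsThreeTranspositionClass {g : ↥(Cfsg.isometryGroup (ZMod 2) (Cfsg.quadFormPlus m (ZMod 2))) | (((g : GL (Fin m ⊕ Fin m) (ZMod 2)) : Matrix (Fin m ⊕ Fin m) (Fin m ⊕ Fin m) (ZMod 2)) - 1).rank = 1} := by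
  have hv0 : Cfsg.Agent.Lib.Helper15.StdForms.plusQF m (ZMod 2)
      (Pi.single (Sum.inl ⟨0, by omega⟩) 1 + Pi.single (Sum.inr ⟨0, by omega⟩) 1) ≠ 0 := by
    rw [Cfsg.Agent.Lib.Helper15.StdForms.plusQF_apply]
    unfold Cfsg.quadFormPlus
    rw [Finset.sum_eq_single (⟨0, by omega⟩ : Fin m)]
    · simp
    · intro b _ hb
      simp [hb]
    · intro h
      exact absurd (Finset.mem_univ _) h
  exact Cfsg.Agent.Lib.Helper2.OrthTransp.main (Cfsg.Agent.Lib.Helper15.StdForms.plusQF m (ZMod 2))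
    (Cfsg.Agent.Lib.Helper15.StdForms.plus_sep m)
    (by rw [Fintype.card_sum, Fintype.card_fin]; omega) _ hv0

end Cfsg.Agent.S1629
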