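import Mathlib
import Cfsg.Statements.S1630
import Cfsg.Agent.Lib.Helper2.OrthTransp
import Cfsg.Agent.Lib.Helper15.StdForms

set_option autoImplicit false
open scoped MatrixGroups
open Cfsg

namespace Cfsg.Agent.S1630

theorem aux (m : ℕ) (hm : 2 ≤ m) (Q' : ((Fin m ⊕ Fin m) ⊕ Fin 2 → ZMod 2) → ZMod 2)
    (hQ' : Q' = ⇑(Cfsg.Agent.Lib.Helper15.StdForms.minusQF m (ZMod 2) 1 1)) :
    Cfsg.IsThreeTranspositionClass {g : ↥(Cfsg.isometryGroup (ZMod 2) Q') |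
      (((g : GL ((Fin m ⊕ Fin m) ⊕ Fin 2) (ZMod 2)) :
        Matrix ((Fin m ⊕ Fin m) ⊕ Fin 2) ((Fin m ⊕ Fin m) ⊕ Fin 2) (ZMod 2)) - 1).rank = 1} := by
  subst hQ'
  have hab : ∀ z₁ z₂ : ZMod 2, z₁ ^ 2 + 1 * z₁ * z₂ + 1 * z₂ ^ 2 = 0 → z₁ = 0 ∧ z₂ = 0 := by
    decide
  have hv0 : Cfsg.Agent.Lib.Helper15.StdForms.minusQF m (ZMod 2) 1 1
      (Pi.single (Sum.inr 0) 1) ≠ 0 := by
    rw [Cfsg.Agent.Lib.Helper15.StdForms.minusQF_apply]
    unfold Cfsg.quadFormMinus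
    simp
  exact Cfsg.Agent.Lib.Helper2.OrthTransp.main
    (Cfsg.Agent.Lib.Helper15.StdForms.minusQF m (ZMod 2) 1 1)
    (fun x hx => Cfsg.Agent.Lib.Helper15.StdForms.minus_sep m 1 1 hab x
      (by rw [← Cfsg.Agent.Lib.Helper15.StdForms.coe_minusQF]; exact hx))
    (by rw [Fintype.card_sum, Fintype.card_sum, Fintype.card_fin, Fintype.card_fin]; omega) _ hv0

/-- The orthogonal transvections of the minus-type orthogonal group in dimension ≥ 6 over the field with two elements form a generating conjugacy class of 3-transpositions. -/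
theorem result (m : ℕ) (hm : 2 ≤ m) : Cfsg.IsThreeTranspositionClass {g : ↥(Cfsg.isometryGroup (ZMod 2) (Cfsg.quadFormMinus m (ZMod 2) 1 1)) | (((g : GL ((Fin m ⊕ Fin m) ⊕ Fin 2) (ZMod 2)) : Matrix ((Fin m ⊕ Fin m) ⊕ Fin 2) ((Fin m ⊕ Fin m) ⊕ Fin 2) (ZMod 2)) - 1).rank = 1} := by
  exact aux m hm _ (Cfsg.Agent.Lib.Helper15.StdForms.coe_minusQF m 1 1).symm

end Cfsg.Agent.S1630
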