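import Cfsg.Statements.S1631
import Mathlib
import Cfsg.Agent.S5631
import Cfsg.Agent.S5645
import Cfsg.Agent.S5642
import Cfsg.Agent.S0781
import Cfsg.Agent.S0780
import Cfsg.Agent.S2579
import Cfsg.Agent.S2644
import Cfsg.Agent.Lib.Helper28.SLGen
import Cfsg.Agent.Lib.Helper28.Herm
import Cfsg.Agent.Lib.Helper13.HermSub
import Cfsg.Agent.Lib.Helper13.HermSimple

set_option autoImplicit false
open scoped MatrixGroups
open Cfsg

namespace Cfsg.Agent.S1631

open Matrix
open Cfsg.Agent.S5631 Cfsg.Agent.S5645 Cfsg.Agent.S5642 Cfsg.Agent.Lib.Helper28.SLGen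
open Cfsg.Agent.Lib.Helper28.Herm
open Cfsg.Agent.Lib.Helper13.HermSimple
open Cfsg.Agent.S0780 (suToGL suToGL_coe suToGL_inj lift_su)
open Cfsg.Agent.S0781 (ut_mulVec)

theorem two_eq_zero {F : Type*} [Field F] [Fintype F] (hF : Fintype.card F = 4) :
    (2 : F) = 0 := by
  obtain ⟨p, hp⟩ := CharP.exists F
  have hpr : p.Prime := CharP.char_is_prime F p
  haveI : Fact p.Prime := ⟨hpr⟩
  obtain ⟨k, -, hk⟩ := FiniteField.card F p
  rw [hF] at hk
  have hdvd : p ∣ 2 ^ 2 := by
    have h1 : p ∣ p ^ (k : ℕ) := dvd_pow_self p k.ne_zero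
    rw [← hk] at h1
    exact h1
  have hp2 : p = 2 := (Nat.prime_dvd_prime_iff_eq hpr Nat.prime_two).mp (hpr.dvd_of_dvd_pow hdvd)
  subst hp2
  have := CharP.cast_eq_zero F 2
  exact_mod_cast this

theorem coe_mul' {F : Type*} [Field F] {n q : ℕ} (A B : ↥(Cfsg.SU n F q)) :
    (((A * B : ↥(Cfsg.SU n F q)) : Matrix.SpecialLinearGroup (Fin n) F) :
      Matrix (Fin n) (Fin n) F) =
    ((A : Matrix.SpecialLinearGroup (Fin n) F) : Matrix (Fin n) (Fin n) F) *
      ((B : Matrix.SpecialLinearGroup (Fin n) F) : Matrix (Fin n) (Fin n) F) := rfl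

theorem coe_one' {F : Type*} [Field F] {n q : ℕ} :
    (((1 : ↥(Cfsg.SU n F q)) : Matrix.SpecialLinearGroup (Fin n) F) :
      Matrix (Fin n) (Fin n) F) = 1 := rfl

/-- a nontrivial unitary transvection differs from the identity by a matrix of rank one -/
theorem rank_ut {F : Type*} [Field F] (n q : ℕ) (A : ↥(Cfsg.SU n F q)) (v : Fin n → F) (c : F)
    (hA : ((A : Matrix.SpecialLinearGroup (Fin n) F) : Matrix (Fin n) (Fin n) F) =
      Cfsg.unitaryTransvection n q v c) (hne : A ≠ 1) :
    (((A : Matrix.SpecialLinearGroup (Fin n) F) : Matrix (Fin n) (Fin n) F) - 1).rank = 1 := by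
  have hle : (((A : Matrix.SpecialLinearGroup (Fin n) F) : Matrix (Fin n) (Fin n) F) - 1).rank
      ≤ 1 := by
    rw [hA, Cfsg.unitaryTransvection, add_sub_cancel_left, ← Matrix.smul_vecMulVec]
    exact Matrix.rank_vecMulVec_le _ _
  have hne0 : (((A : Matrix.SpecialLinearGroup (Fin n) F) : Matrix (Fin n) (Fin n) F) - 1).rank
      ≠ 0 := by
    intro h
    have h1 : Module.finrank F ↥(LinearMap.range
        (((A : Matrix.SpecialLinearGroup (Fin n) F) : Matrix (Fin n) (Fin n) F) - 1).mulVecLin)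
        = 0 := h
    rw [Submodule.finrank_eq_zero] at h1
    apply hne
    apply Subtype.ext
    apply Subtype.ext
    rw [coe_one', Matrix.ext_iff_mulVec]
    intro x
    have h3 : (((A : Matrix.SpecialLinearGroup (Fin n) F) : Matrix (Fin n) (Fin n) F) - 1) *ᵥ x
        ∈ LinearMap.range
        (((A : Matrix.SpecialLinearGroup (Fin n) F) : Matrix (Fin n) (Fin n) F) - 1).mulVecLin :=
      ⟨x, rfl⟩
    rw [h1, Submodule.mem_bot, Matrix.sub_mulVec, sub_eq_zero] at h3
    exact h3
  omega

/-- the rank one elements of `SU_n(2)` are the unitary transvections with parameter one -/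
theorem mem_D_form {F : Type*} [Field F] [Fintype F] (hF4 : Fintype.card F = 4)
    (hF : Fintype.card F = 2 ^ 2) (n : ℕ) (g : ↥(Cfsg.SU n F 2))
    (hg : (((g : Matrix.SpecialLinearGroup (Fin n) F) : Matrix (Fin n) (Fin n) F) - 1).rank = 1) :
    Cfsg.IsTransvection ((g : Matrix.SpecialLinearGroup (Fin n) F) : Matrix (Fin n) (Fin n) F) ∧
    ∃ u : Fin n → F, u ≠ 0 ∧ Cfsg.hermForm n F 2 u u = 0 ∧
      ((g : Matrix.SpecialLinearGroup (Fin n) F) : Matrix (Fin n) (Fin n) F) =
        Cfsg.unitaryTransvection n 2 u 1 := by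
  obtain ⟨u, φ, hN⟩ := Cfsg.Agent.S2579.rank_one_decomp _ hg
  have hM : ((g : Matrix.SpecialLinearGroup (Fin n) F) : Matrix (Fin n) (Fin n) F) =
      1 + vecMulVec u φ := by
    rw [← hN]
    abel
  have hdet : ((g : Matrix.SpecialLinearGroup (Fin n) F) : Matrix (Fin n) (Fin n) F).det = 1 :=
    (g : Matrix.SpecialLinearGroup (Fin n) F).2
  rw [hM, Cfsg.Agent.S2579.det_tv] at hdet
  have hφu : φ ⬝ᵥ u = 0 := by linear_combination hdet
  have hT : Cfsg.IsTransvection
      ((g : Matrix.SpecialLinearGroup (Fin n) F) : Matrix (Fin n) (Fin n) F) := by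
    refine ⟨hg, ?_⟩
    rw [hN, vecMulVec_mul_vecMulVec, hφu]
    simp
  obtain ⟨u', c, hu0, hc0, huu, hc, hS⟩ := Cfsg.Agent.S2644.tv_unitary hF _
    (fun x y => g.2 x y) hT
  have h2 := two_eq_zero hF4
  have hc1 : c = 1 := by
    have h3 : c * (1 + c) = 0 := by linear_combination hc
    rcases mul_eq_zero.mp h3 with h | h
    · exact absurd h hc0
    · linear_combination h - h2
  subst hc1
  exact ⟨hT, u', hu0, huu, hS⟩

/-- The unitary transvections of SU(n, 2), n ≥ 4, form a generating conjugacy class of 3-transpositions. -/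
theorem result (F : Type) [Field F] [Fintype F] [DecidableEq F] (hF : Fintype.card F = 4) (n : ℕ) (hn : 4 ≤ n) : Cfsg.IsThreeTranspositionClass {g : ↥(Cfsg.SU n F 2) | (((g : Matrix.SpecialLinearGroup (Fin n) F) : Matrix (Fin n) (Fin n) F) - 1).rank = 1} := by
  have hF' : Fintype.card F = 2 ^ 2 := by
    rw [hF]
    norm_num
  have hf := hermForm_isHerm hF' n
  have h2 := two_eq_zero hF
  have hne : Nonempty (Fin n) := ⟨⟨0, by omega⟩⟩
  have hact : ∀ g : ↥(Cfsg.SU n F 2), ∀ u : Fin n → F,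
      ((g : Matrix.SpecialLinearGroup (Fin n) F) : Matrix (Fin n) (Fin n) F) =
        Cfsg.unitaryTransvection n 2 u 1 →
      ∀ x, ((suToGL n 2 g : GL (Fin n) F) : Matrix (Fin n) (Fin n) F) *ᵥ x =
        x + Cfsg.hermForm n F 2 x u • u := by
    intro g u hg x
    rw [suToGL_coe, hg, ut_mulVec, one_mul]
  refine ⟨⟨?_, ?_⟩, ?_, ?_⟩
  · intro d hd
    obtain ⟨-, u, hu0, huu, hdu⟩ := mem_D_form hF hF' n d hd
    have : Fact (Nat.Prime 2) := ⟨Nat.prime_two⟩
    apply orderOf_eq_prime
    · apply suToGL_inj n 2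
      rw [map_pow, map_one, pow_two]
      apply gl_ext
      intro x
      rw [Units.val_mul, ← Matrix.mulVec_mulVec, hact d u hdu, hact d u hdu, Units.val_one,
        Matrix.one_mulVec, hf.add_left, hf.smul_left, huu, mul_zero, add_zero]
      linear_combination (norm := module) h2 • (Cfsg.hermForm n F 2 x u • u)
    · rintro rfl
      have h3 : (((1 : ↥(Cfsg.SU n F 2)) : Matrix.SpecialLinearGroup (Fin n) F) :
          Matrix (Fin n) (Fin n) F) - 1 = 0 := by rw [coe_one', sub_self]
      have h4 : ((((1 : ↥(Cfsg.SU n F 2)) : Matrix.SpecialLinearGroup (Fin n) F) :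
          Matrix (Fin n) (Fin n) F) - 1).rank = 1 := hd
      rw [h3, Matrix.rank_zero] at h4
      exact zero_ne_one h4
  · intro d hd e he
    obtain ⟨-, u, hu0, huu, hdu⟩ := mem_D_form hF hF' n d hd
    obtain ⟨-, v, hv0, hvv, hev⟩ := mem_D_form hF hF' n e he
    have hT : ∀ x, ((suToGL n 2 (d * e) : GL (Fin n) F) : Matrix (Fin n) (Fin n) F) *ᵥ x =
        x + Cfsg.hermForm n F 2 x v • v +
          (Cfsg.hermForm n F 2 x u + Cfsg.hermForm n F 2 x v * Cfsg.hermForm n F 2 v u) • u := by
      intro x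
      rw [map_mul, Units.val_mul, ← Matrix.mulVec_mulVec, hact e v hev, hact d u hdu,
        hf.add_left, hf.smul_left]
    by_cases hβ : Cfsg.hermForm n F 2 u v = 0
    · left
      have hβ' : Cfsg.hermForm n F 2 v u = 0 := hf.eq_zero_symm hβ
      apply suToGL_inj n 2
      rw [map_pow, map_one, pow_two]
      apply gl_ext
      intro x
      rw [Units.val_mul, ← Matrix.mulVec_mulVec, hT, hT, Units.val_one, Matrix.one_mulVec]
      simp only [hf.add_left, hf.smul_left, huu, hvv, hβ, hβ', mul_zero, add_zero, zero_add]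
      linear_combination (norm := module)
        h2 • (Cfsg.hermForm n F 2 x v • v + Cfsg.hermForm n F 2 x u • u)
    · right
      have hββ : Cfsg.hermForm n F 2 u v * Cfsg.hermForm n F 2 v u = 1 := by
        have h3 := FiniteField.pow_card_sub_one_eq_one (Cfsg.hermForm n F 2 u v) hβ
        rw [hF] at h3
        rw [hf.herm v u, sigq_apply]
        have e : (4 - 1 : ℕ) = 3 := rfl
        rw [e] at h3
        linear_combination h3
      have ha : ∀ y, Cfsg.hermForm n F 2
          (((suToGL n 2 (d * e) : GL (Fin n) F) : Matrix (Fin n) (Fin n) F) *ᵥ y) u =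
          Cfsg.hermForm n F 2 y u + Cfsg.hermForm n F 2 y v * Cfsg.hermForm n F 2 v u := by
        intro y
        rw [hT]
        simp only [hf.add_left, hf.smul_left, huu]
        ring
      have hb : ∀ y, Cfsg.hermForm n F 2
          (((suToGL n 2 (d * e) : GL (Fin n) F) : Matrix (Fin n) (Fin n) F) *ᵥ y) v =
          Cfsg.hermForm n F 2 y u * Cfsg.hermForm n F 2 u v := by
        intro y
        rw [hT]
        simp only [hf.add_left, hf.smul_left, hvv]
        linear_combination (Cfsg.hermForm n F 2 y v) * hββ + (Cfsg.hermForm n F 2 y v) * h2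
      apply suToGL_inj n 2
      rw [map_pow, map_one, pow_succ, pow_two]
      apply gl_ext
      intro x
      rw [Units.val_mul, Units.val_mul, ← Matrix.mulVec_mulVec, ← Matrix.mulVec_mulVec,
        hT (((suToGL n 2 (d * e) : GL (Fin n) F) : Matrix (Fin n) (Fin n) F) *ᵥ
          (((suToGL n 2 (d * e) : GL (Fin n) F) : Matrix (Fin n) (Fin n) F) *ᵥ x)),
        ha (((suToGL n 2 (d * e) : GL (Fin n) F) : Matrix (Fin n) (Fin n) F) *ᵥ x),
        hb (((suToGL n 2 (d * e) : GL (Fin n) F) : Matrix (Fin n) (Fin n) F) *ᵥ x),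
        hT (((suToGL n 2 (d * e) : GL (Fin n) F) : Matrix (Fin n) (Fin n) F) *ᵥ x),
        ha x, hb x, hT x, Units.val_one, Matrix.one_mulVec]
      linear_combination (norm := module)
        hββ • (Cfsg.hermForm n F 2 x v • v +
          (3 * Cfsg.hermForm n F 2 x u +
            Cfsg.hermForm n F 2 x v * Cfsg.hermForm n F 2 v u) • u) +
        h2 • ((Cfsg.hermForm n F 2 x v +
            Cfsg.hermForm n F 2 x u * Cfsg.hermForm n F 2 u v) • v +
          (3 * Cfsg.hermForm n F 2 x u +
            2 * Cfsg.hermForm n F 2 x v * Cfsg.hermForm n F 2 v u) • u)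
  · obtain ⟨x, hx, hx0⟩ : ∃ x : Fin n → F, Cfsg.hermForm n F 2 x x = 0 ∧ x ≠ 0 := by
      obtain ⟨v₁, v₂, h1, h2', e⟩ := Cfsg.Agent.Lib.Helper13.HermSub.sum_two_iso hf
        (by rw [Fintype.card_fin]; omega) (fun _ => (1 : F))
      by_cases hv1 : v₁ = 0
      · refine ⟨v₂, h2', ?_⟩
        rintro rfl
        rw [hv1, add_zero] at e
        have := congrFun e ⟨0, by omega⟩
        simp at this
      · exact ⟨v₁, h1, hv1⟩
    obtain ⟨x', hx', hxx'⟩ := exists_partner hf x hx hx0
    have hx'x : Cfsg.hermForm n F 2 x' x = 1 := by rw [hf.herm, hxx', map_one]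
    have h0 := uT_dot hf x 1 hx
    obtain ⟨A, hA1, hA2⟩ := lift_su n 2 (tvG x ((1 : F) • rep (Cfsg.hermForm n F 2) x) h0)
      (uT_isom hf x 1 hx (by rw [map_one]; linear_combination h2) h0)
      (det_eq_one_of_mem_SL _ (tvG_mem_SL _ _ h0))
    have hAm : ((A : Matrix.SpecialLinearGroup (Fin n) F) : Matrix (Fin n) (Fin n) F) =
        Cfsg.unitaryTransvection n 2 x 1 := by
      rw [hA2, Matrix.ext_iff_mulVec]
      intro y
      rw [uT_mulVec hf, ut_mulVec]
    have hAne : A ≠ 1 := by
      rintro rfl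
      have h4 := hact 1 x hAm x'
      rw [map_one, Units.val_one, Matrix.one_mulVec, hx'x, one_smul] at h4
      apply hx0
      have := congrArg (fun w => w - x') h4
      simp only [sub_self, add_sub_cancel_left] at this
      exact this.symm
    have hAD := rank_ut n 2 A x 1 hAm hAne
    refine ⟨A, hAD, ?_⟩
    ext e
    constructor
    · intro he
      have hTA := (mem_D_form hF hF' n A hAD).1
      have hTe := (mem_D_form hF hF' n e he).1
      show IsConj A e
      exact Cfsg.Agent.S2644.result hF' (by omega) A e hTA hTe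
    · intro he
      have he' : IsConj A e := he
      rw [isConj_iff] at he'
      obtain ⟨c, hc⟩ := he'
      show (((e : Matrix.SpecialLinearGroup (Fin n) F) : Matrix (Fin n) (Fin n) F) - 1).rank = 1
      have h1 : ((c : Matrix.SpecialLinearGroup (Fin n) F) : Matrix (Fin n) (Fin n) F) *
          ((c⁻¹ : ↥(Cfsg.SU n F 2)) : Matrix.SpecialLinearGroup (Fin n) F) = 1 := by
        rw [← coe_mul', mul_inv_cancel, coe_one']
      have h3 : ((e : Matrix.SpecialLinearGroup (Fin n) F) : Matrix (Fin n) (Fin n) F) - 1 =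
          ((c : Matrix.SpecialLinearGroup (Fin n) F) : Matrix (Fin n) (Fin n) F) *
          (((A : Matrix.SpecialLinearGroup (Fin n) F) : Matrix (Fin n) (Fin n) F) - 1) *
          ((c⁻¹ : ↥(Cfsg.SU n F 2)) : Matrix.SpecialLinearGroup (Fin n) F) := by
        rw [← hc, coe_mul', coe_mul', Matrix.mul_sub, Matrix.sub_mul, mul_one, h1]
      rw [h3, Matrix.rank_mul_eq_left_of_isUnit_det, Matrix.rank_mul_eq_right_of_isUnit_det]
      · exact hAD
      · rw [(c : Matrix.SpecialLinearGroup (Fin n) F).2]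
        exact isUnit_one
      · rw [((c⁻¹ : ↥(Cfsg.SU n F 2)) : Matrix.SpecialLinearGroup (Fin n) F).2]
        exact isUnit_one
  · have hgen := Cfsg.Agent.S0780.result hF' n (by omega) (by omega)
    rw [eq_top_iff, ← hgen, Subgroup.closure_le]
    rintro A ⟨v, c, hv, hA⟩
    rw [SetLike.mem_coe]
    by_cases hA1 : A = 1
    · rw [hA1]
      exact Subgroup.one_mem _
    · exact Subgroup.subset_closure (rank_ut n 2 A v c hA hA1)

end Cfsg.Agent.S1631
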