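import Cfsg.Statements.S1636
import Cfsg.Agent.Lib.Helper3.Golay

set_option autoImplicit false
open Cfsg

namespace Cfsg.Agent.S1636

open Cfsg.Agent.Lib.Helper3.Golay

/-- decode the low 23 bits of a mask as a word on `ZMod 23` -/
def dec23 (n : ℕ) : ZMod 23 → ZMod 2 := fun x => if n.testBit (ZMod.val x) then 1 else 0

lemma dec23_eq (n : ℕ) (x : ZMod 23) : dec23 n x = dec n (some x) := rfl

lemma dec23_zero : dec23 0 = 0 := by
  funext x; simp [dec23]

lemma dec23_xor (a b : ℕ) : dec23 (a ^^^ b) = dec23 a + dec23 b := by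
  funext x
  simp only [dec23, Pi.add_apply, Nat.testBit_xor]
  cases a.testBit (ZMod.val x) <;> cases b.testBit (ZMod.val x) <;> decide

/-- the punctured code -/
def punct : Set (ZMod 23 → ZMod 2) :=
  {u : ZMod 23 → ZMod 2 | ∃ w ∈ Cfsg.golayCode, ∀ x : ZMod 23, u x = w (some x)}

lemma mem_punct_iff (u : ZMod 23 → ZMod 2) : u ∈ punct ↔ ∃ k < 4096, u = dec23 (cw k) := by
  constructor
  · rintro ⟨w, hw, h⟩
    obtain ⟨k, hk, rfl⟩ := (mem_golayCode_iff w).mp hw
    exact ⟨k, hk, funext fun x => h x⟩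
  · rintro ⟨k, hk, rfl⟩
    exact ⟨dec (cw k), dec_cw_mem k, fun x => rfl⟩

/-- popcount of the low 23 bits -/
def pc23 (n : ℕ) : ℕ := pc (Nat.mod n 8388608)

lemma hammingNorm_dec23 (n : ℕ) : hammingNorm (dec23 n) = pc23 n := by
  unfold pc23
  rw [← card_filter_testBit]
  unfold hammingNorm
  have : (Finset.univ.filter (fun p : GolayPt => (Nat.mod n 8388608).testBit (idx p) = true))
      = (Finset.univ.filter (fun x : ZMod 23 => dec23 n x ≠ 0)).map Function.Embedding.some := by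
    ext p
    have h23 : (8388608 : ℕ) = 2 ^ 23 := by norm_num
    cases p with
    | none =>
      have hn : ¬ (Nat.mod n 8388608).testBit (idx none) = true := by
        show ¬ (n % 8388608).testBit 23 = true
        rw [h23, Nat.testBit_mod_two_pow]; simp
      rw [Finset.mem_filter, Finset.mem_map]
      constructor
      · rintro ⟨_, h⟩; exact absurd h hn
      · rintro ⟨a, _, ha⟩; exact absurd ha (by simp)
    | some x =>
      have hx : ZMod.val x < 23 := ZMod.val_lt x
      have hs : (Nat.mod n 8388608).testBit (idx (some x)) = n.testBit (ZMod.val x) := by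
        show (n % 8388608).testBit (ZMod.val x) = _
        rw [h23, Nat.testBit_mod_two_pow]
        simp [hx]
      rw [Finset.mem_filter, Finset.mem_map, hs]
      constructor
      · rintro ⟨_, h⟩
        refine ⟨x, ?_, rfl⟩
        rw [Finset.mem_filter]
        refine ⟨Finset.mem_univ _, ?_⟩
        simp [dec23, h]
      · rintro ⟨a, ha, hax⟩
        have : a = x := by simpa using hax
        subst this
        rw [Finset.mem_filter] at ha
        refine ⟨Finset.mem_univ _, ?_⟩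
        by_contra hc
        apply ha.2
        simp [dec23, hc]
  rw [this, Finset.card_map]

theorem check_min : (List.range 4096).all (fun k => Nat.beq k 0 || Nat.ble 7 (pc23 (cw k))) = true := by
  decide +kernel

lemma min_weight (k : ℕ) (hk : k < 4096) (hk0 : k ≠ 0) : 7 ≤ pc23 (cw k) := by
  have h := check_min
  rw [List.all_eq_true] at h
  have h2 := h k (List.mem_range.mpr hk)
  simp only [Bool.or_eq_true] at h2
  rcases h2 with h2 | h2
  · exact absurd (Nat.eq_of_beq_eq_true h2) hk0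
  · exact Nat.le_of_ble_eq_true h2

lemma dec23_cw_injOn : ∀ k < 4096, ∀ k' < 4096, dec23 (cw k) = dec23 (cw k') → k = k' := by
  intro k hk k' hk' h
  have h1 : dec23 (cw (k ^^^ k')) = 0 := by
    rw [cw_xor, dec23_xor, h]
    funext x
    have : ∀ a : ZMod 2, a + a = 0 := by decide
    exact this _
  have h2 : k ^^^ k' < 4096 := Nat.xor_lt_two_pow (n := 12) hk hk'
  by_contra hne
  have h3 : k ^^^ k' ≠ 0 := fun h0 => hne (Nat.xor_eq_zero_iff.mp h0)
  have h4 := min_weight _ h2 h3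
  rw [← hammingNorm_dec23, h1, hammingNorm_zero] at h4
  omega

lemma punct_eq_image : punct = (fun k => dec23 (cw k)) '' {k | k < 4096} := by
  ext u
  rw [mem_punct_iff]
  constructor
  · rintro ⟨k, hk, rfl⟩; exact ⟨k, hk, rfl⟩
  · rintro ⟨k, hk, rfl⟩; exact ⟨k, hk, rfl⟩

lemma ncard_punct : punct.ncard = 4096 := by
  rw [punct_eq_image, Set.InjOn.ncard_image]
  · have h3 : {k : ℕ | k < 4096} = ↑(Finset.range 4096) := by
      ext k; simp
    rw [h3, Set.ncard_coe_finset, Finset.card_range]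
  · intro k hk k' hk' h
    exact dec23_cw_injOn k hk k' hk' h

lemma ncard_weight (n : ℕ) : {u : ZMod 23 → ZMod 2 | u ∈ punct ∧ hammingNorm u = n}.ncard
    = ((Finset.range 4096).filter (fun k => pc23 (cw k) = n)).card := by
  have h1 : {u : ZMod 23 → ZMod 2 | u ∈ punct ∧ hammingNorm u = n}
      = (fun k => dec23 (cw k)) '' {k | k < 4096 ∧ pc23 (cw k) = n} := by
    ext u
    simp only [Set.mem_ofPred_eq, mem_punct_iff, Set.mem_image]
    constructor
    · rintro ⟨⟨k, hk, rfl⟩, hn⟩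
      exact ⟨k, ⟨hk, by rw [← hammingNorm_dec23]; exact hn⟩, rfl⟩
    · rintro ⟨k, ⟨hk, hn⟩, rfl⟩
      exact ⟨⟨k, hk, rfl⟩, by rw [hammingNorm_dec23]; exact hn⟩
  rw [h1, Set.InjOn.ncard_image]
  · rw [← Set.ncard_coe_finset]
    congr 1
    ext k
    simp
  · intro k hk k' hk' h
    exact dec23_cw_injOn k hk.1 k' hk'.1 h

theorem count7 : ((Finset.range 4096).filter (fun k => pc23 (cw k) = 7)).card = 253 := by
  decide +kernel
theorem count8 : ((Finset.range 4096).filter (fun k => pc23 (cw k) = 8)).card = 506 := by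
  decide +kernel
theorem count11 : ((Finset.range 4096).filter (fun k => pc23 (cw k) = 11)).card = 1288 := by
  decide +kernel
theorem count12 : ((Finset.range 4096).filter (fun k => pc23 (cw k) = 12)).card = 1288 := by
  decide +kernel
theorem count15 : ((Finset.range 4096).filter (fun k => pc23 (cw k) = 15)).card = 506 := by
  decide +kernel
theorem count16 : ((Finset.range 4096).filter (fun k => pc23 (cw k) = 16)).card = 253 := by
  decide +kernel

lemma punct_min_weight (u : ZMod 23 → ZMod 2) (hu : u ∈ punct) (h0 : u ≠ 0) : 7 ≤ hammingNorm u := by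
  obtain ⟨k, hk, rfl⟩ := (mem_punct_iff u).mp hu
  rw [hammingNorm_dec23]
  apply min_weight k hk
  rintro rfl
  apply h0
  rw [cw_zero, dec23_zero]

theorem result : {u : ZMod 23 → ZMod 2 | ∃ w ∈ Cfsg.golayCode, ∀ x : ZMod 23, u x = w (some x)}.ncard = 4096 ∧ {u : ZMod 23 → ZMod 2 | u ∈ {u : ZMod 23 → ZMod 2 | ∃ w ∈ Cfsg.golayCode, ∀ x : ZMod 23, u x = w (some x)} ∧ hammingNorm u = 7}.ncard = 253 ∧ {u : ZMod 23 → ZMod 2 | u ∈ {u : ZMod 23 → ZMod 2 | ∃ w ∈ Cfsg.golayCode, ∀ x : ZMod 23, u x = w (some x)} ∧ hammingNorm u = 8}.ncard = 506 ∧ {u : ZMod 23 → ZMod 2 | u ∈ {u : ZMod 23 → ZMod 2 | ∃ w ∈ Cfsg.golayCode, ∀ x : ZMod 23, u x = w (some x)} ∧ hammingNorm u = 11}.ncard = 1288 ∧ {u : ZMod 23 → ZMod 2 | u ∈ {u : ZMod 23 → ZMod 2 | ∃ w ∈ Cfsg.golayCode, ∀ x : ZMod 23, u x = w (some x)} ∧ hammingNorm u = 12}.ncard = 1288 ∧ {u : ZMod 23 → ZMod 2 | u ∈ {u : ZMod 23 → ZMod 2 | ∃ w ∈ Cfsg.golayCode, ∀ x : ZMod 23, u x = w (some x)} ∧ hammingNorm u = 15}.ncard = 506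 ∧ {u : ZMod 23 → ZMod 2 | u ∈ {u : ZMod 23 → ZMod 2 | ∃ w ∈ Cfsg.golayCode, ∀ x : ZMod 23, u x = w (some x)} ∧ hammingNorm u = 16}.ncard = 253 ∧ ∀ u ∈ {u : ZMod 23 → ZMod 2 | ∃ w ∈ Cfsg.golayCode, ∀ x : ZMod 23, u x = w (some x)}, u ≠ 0 → 7 ≤ hammingNorm u := by
  refine ⟨ncard_punct, ?_, ?_, ?_, ?_, ?_, ?_, ?_⟩
  · exact (ncard_weight 7).trans count7
  · exact (ncard_weight 8).trans count8
  · exact (ncard_weight 11).trans count11
  · exact (ncard_weight 12).trans count12
  · exact (ncard_weight 15).trans count15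
  · exact (ncard_weight 16).trans count16
  · intro u hu h0
    exact punct_min_weight u hu h0

end Cfsg.Agent.S1636
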