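import Cfsg.Statements.S1637
import Cfsg.Agent.S1636

set_option autoImplicit false
open Cfsg

namespace Cfsg.Agent.S1637

open Cfsg.Agent.Lib.Helper3.Golay Cfsg.Agent.S1636

lemma zadd_self (e : ZMod 23 → ZMod 2) : e + e = 0 := by
  funext x
  have : ∀ a : ZMod 2, a + a = 0 := by decide
  exact this _

lemma zsub_eq_add (a b : ZMod 23 → ZMod 2) : a - b = a + b := by
  funext x
  have : ∀ a b : ZMod 2, a - b = a + b := by decide
  exact this _ _

lemma zneg (a : ZMod 23 → ZMod 2) : -a = a := by
  funext x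
  have : ∀ a : ZMod 2, -a = a := by decide
  exact this _

lemma dist_eq (a b : ZMod 23 → ZMod 2) : hammingDist a b = hammingNorm (a + b) := by
  rw [hammingDist_eq_hammingNorm, zneg]

lemma norm_add_le (e e' : ZMod 23 → ZMod 2) : hammingNorm (e + e') ≤ hammingNorm e + hammingNorm e' := by
  rw [← dist_eq]
  have := hammingDist_triangle e 0 e'
  rwa [hammingDist_zero_right, hammingDist_zero_left] at this

/-- indicator word of a finite set -/
def ind (s : Finset (ZMod 23)) : ZMod 23 → ZMod 2 := fun x => if x ∈ s then 1 else 0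

lemma ind_injective : Function.Injective ind := by
  intro s t h
  ext x
  have := congrFun h x
  simp only [ind] at this
  by_cases hs : x ∈ s <;> by_cases ht : x ∈ t <;> simp_all

lemma hammingNorm_ind (s : Finset (ZMod 23)) : hammingNorm (ind s) = s.card := by
  unfold hammingNorm
  congr 1
  ext x
  simp [ind]

/-- the ball of radius 3 around 0 -/
noncomputable def ball3 : Finset (ZMod 23 → ZMod 2) :=
  Finset.univ.filter (fun e => hammingNorm e ≤ 3)

lemma card_ball3 : 2048 ≤ ball3.card := by
  classical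
  have h1 : ((Finset.range 4).biUnion
      (fun j => Finset.powersetCard j (Finset.univ : Finset (ZMod 23)))).card = 2048 := by
    rw [Finset.card_biUnion]
    · simp only [Finset.card_powersetCard, Finset.card_univ, ZMod.card]
      decide
    · exact (Finset.pairwise_disjoint_powersetCard _).set_pairwise _
  rw [← h1]
  apply Finset.card_le_card_of_injOn ind
  · intro s hs
    rw [Finset.mem_coe, Finset.mem_biUnion] at hs
    obtain ⟨j, hj, hs⟩ := hs
    rw [Finset.mem_range] at hj
    rw [Finset.mem_powersetCard] at hs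
    rw [Finset.mem_coe, ball3, Finset.mem_filter]
    refine ⟨Finset.mem_univ _, ?_⟩
    rw [hammingNorm_ind, hs.2]
    omega
  · exact ind_injective.injOn

set_option maxRecDepth 100000 in
lemma exists_close (u : ZMod 23 → ZMod 2) : ∃ k < 4096, hammingNorm (u + dec23 (cw k)) ≤ 3 := by
  classical
  let Φ : ℕ × (ZMod 23 → ZMod 2) → (ZMod 23 → ZMod 2) := fun p => dec23 (cw p.1) + p.2
  have hinj : Set.InjOn Φ (↑((Finset.range 4096) ×ˢ ball3)) := by
    rintro ⟨k, e⟩ hke ⟨k', e'⟩ hke' h
    rw [Finset.mem_coe, Finset.mem_product, Finset.mem_range, ball3, Finset.mem_filter] at hke hke'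
    have h' : dec23 (cw k) + e = dec23 (cw k') + e' := h
    have h1 : dec23 (cw (k ^^^ k')) = e + e' := by
      rw [cw_xor, dec23_xor]
      calc dec23 (cw k) + dec23 (cw k') = (dec23 (cw k) + e) + (dec23 (cw k') + e) := by
            rw [add_add_add_comm, zadd_self, add_zero]
        _ = (dec23 (cw k') + e') + (dec23 (cw k') + e) := by rw [h']
        _ = e + e' := by
            rw [add_add_add_comm, zadd_self, zero_add, add_comm]
    have h2 : k ^^^ k' < 4096 := Nat.xor_lt_two_pow (n := 12) hke.1 hke'.1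
    have hk : k = k' := by
      by_contra hne
      have h3 : k ^^^ k' ≠ 0 := fun h0 => hne (Nat.xor_eq_zero_iff.mp h0)
      have h4 := min_weight _ h2 h3
      rw [← hammingNorm_dec23, h1] at h4
      have h5 := norm_add_le e e'
      have h6 : hammingNorm e ≤ 3 := hke.2.2
      have h7 : hammingNorm e' ≤ 3 := hke'.2.2
      omega
    subst hk
    have he : e = e' := add_left_cancel h'
    rw [he]
  have hcard : (((Finset.range 4096) ×ˢ ball3).image Φ).card = 4096 * ball3.card := by
    rw [Finset.card_image_of_injOn hinj, Finset.card_product, Finset.card_range]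
  have huniv : ((Finset.range 4096) ×ˢ ball3).image Φ = Finset.univ := by
    apply Finset.eq_univ_of_card
    have hV : Fintype.card (ZMod 23 → ZMod 2) = 8388608 := by
      simp [ZMod.card]
    apply le_antisymm (Finset.card_le_univ _)
    rw [hcard, hV]
    have := card_ball3
    omega
  have hu : u ∈ ((Finset.range 4096) ×ˢ ball3).image Φ := by rw [huniv]; exact Finset.mem_univ _
  rw [Finset.mem_image] at hu
  obtain ⟨⟨k, e⟩, hke, hΦ⟩ := hu
  rw [Finset.mem_product, Finset.mem_range, ball3, Finset.mem_filter] at hke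
  refine ⟨k, hke.1, ?_⟩
  have : u + dec23 (cw k) = e := by
    rw [← hΦ]
    show dec23 (cw k) + e + dec23 (cw k) = e
    rw [add_comm, ← add_assoc, zadd_self, zero_add]
  rw [this]
  exact hke.2.2

theorem result (u : ZMod 23 → ZMod 2) : ∃! c : ZMod 23 → ZMod 2, c ∈ {u : ZMod 23 → ZMod 2 | ∃ w ∈ Cfsg.golayCode, ∀ x : ZMod 23, u x = w (some x)} ∧ hammingDist u c ≤ 3 := by
  obtain ⟨k, hk, hk3⟩ := exists_close u
  have hmem : ∀ c : ZMod 23 → ZMod 2,
      c ∈ {u : ZMod 23 → ZMod 2 | ∃ w ∈ Cfsg.golayCode, ∀ x : ZMod 23, u x = w (some x)}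
        ↔ ∃ k < 4096, c = dec23 (cw k) := mem_punct_iff
  refine ⟨dec23 (cw k), ⟨(hmem _).mpr ⟨k, hk, rfl⟩, ?_⟩, ?_⟩
  · rw [dist_eq]
    exact hk3
  · rintro c ⟨hc, hc3⟩
    obtain ⟨k', hk', rfl⟩ := (hmem c).mp hc
    by_contra hne
    have hkk : k' ≠ k := fun h => hne (by rw [h])
    have h2 : k' ^^^ k < 4096 := Nat.xor_lt_two_pow (n := 12) hk' hk
    have h3 : k' ^^^ k ≠ 0 := fun h0 => hkk (Nat.xor_eq_zero_iff.mp h0)
    have h4 := min_weight _ h2 h3
    rw [← hammingNorm_dec23, cw_xor, dec23_xor] at h4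
    have h5 : dec23 (cw k') + dec23 (cw k) = (u + dec23 (cw k')) + (u + dec23 (cw k)) := by
      rw [add_add_add_comm, zadd_self, zero_add]
    rw [h5] at h4
    have h6 := norm_add_le (u + dec23 (cw k')) (u + dec23 (cw k))
    rw [dist_eq] at hc3
    omega

end Cfsg.Agent.S1637
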