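import Cfsg.Statements.S1635
import Cfsg.Agent.S1637
import Cfsg.Agent.Lib.Helper3.Golay2

set_option autoImplicit false
open Cfsg

namespace Cfsg.Agent.S1635

open Cfsg.Agent.Lib.Helper3.Golay Cfsg.Agent.Lib.Helper3.Golay2 Cfsg.Agent.Lib.Helper3.Steiner
open Cfsg.Agent.S1636

lemma gadd_self (e : GolayPt → ZMod 2) : e + e = 0 := by
  funext x
  have : ∀ a : ZMod 2, a + a = 0 := by decide
  exact this _

lemma gsub_eq_add (a b : GolayPt → ZMod 2) : a - b = a + b := by
  funext x
  have : ∀ a b : ZMod 2, a - b = a + b := by decide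
  exact this _ _

/-- indicator word of a set of points -/
def indG (s : Finset GolayPt) : GolayPt → ZMod 2 := fun p => if p ∈ s then 1 else 0

lemma support_indG (s : Finset GolayPt) : support₂ (indG s) = s := by
  ext p
  simp [support₂, indG]

lemma indG_support (c : GolayPt → ZMod 2) : indG (support₂ c) = c := by
  funext p
  simp only [indG, support₂, Finset.mem_filter, Finset.mem_univ, true_and]
  rcases zmod2_cases (c p) with h | h <;> simp [h]

lemma wt_le_restrict (v : GolayPt → ZMod 2) :
    hammingNorm v ≤ hammingNorm (fun x : ZMod 23 => v (some x)) + 1 := by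
  unfold hammingNorm
  have hsub : Finset.univ.filter (fun p : GolayPt => v p ≠ 0) ⊆
      insert none ((Finset.univ.filter (fun x : ZMod 23 => v (some x) ≠ 0)).map
        Function.Embedding.some) := by
    intro p hp
    rw [Finset.mem_filter] at hp
    cases p with
    | none => exact Finset.mem_insert_self _ _
    | some x =>
      apply Finset.mem_insert_of_mem
      rw [Finset.mem_map]
      exact ⟨x, by rw [Finset.mem_filter]; exact ⟨Finset.mem_univ _, hp.2⟩, rfl⟩
  refine (Finset.card_le_card hsub).trans ?_
  refine (Finset.card_insert_le _ _).trans ?_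
  rw [Finset.card_map]

lemma exists_leader (w : GolayPt → ZMod 2) :
    ∃ v : GolayPt → ZMod 2, hammingNorm v ≤ 4 ∧ w - v ∈ golayCode := by
  obtain ⟨k, hk, h3⟩ := Cfsg.Agent.S1637.exists_close (fun x => w (some x))
  refine ⟨w + dec (cw k), ?_, ?_⟩
  · have := wt_le_restrict (w + dec (cw k))
    have h4 : (fun x : ZMod 23 => (w + dec (cw k)) (some x))
        = (fun x => w (some x)) + dec23 (cw k) := rfl
    rw [h4] at this
    omega
  · have : w - (w + dec (cw k)) = dec (cw k) := by
      rw [gsub_eq_add, ← add_assoc, gadd_self, zero_add]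
    rw [this]; exact dec_cw_mem k

lemma two_leaders (w v v' : GolayPt → ZMod 2) (h4 : hammingNorm v ≤ 4) (h4' : hammingNorm v' ≤ 4)
    (hv : w - v ∈ golayCode) (hv' : w - v' ∈ golayCode) (hne : v ≠ v') :
    hammingNorm v = 4 ∧ hammingNorm v' = 4 ∧ support₂ (v + v') ∈ octads ∧
      support₂ v ⊆ support₂ (v + v') ∧ support₂ v' ⊆ support₂ (v + v') := by
  have hc : v + v' ∈ golayCode := by
    have : v + v' = (w - v) + (w - v') := by
      rw [gsub_eq_add, gsub_eq_add, add_add_add_comm, gadd_self, zero_add]
    rw [this]
    exact Submodule.add_mem _ hv hv'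
  have hc0 : v + v' ≠ 0 := by
    intro h0
    apply hne
    have : v = v + (v' + v') := by rw [gadd_self, add_zero]
    rw [this, ← add_assoc, h0, zero_add]
  have hb : support₂ (v + v') ∈ supports (golayCode : Set (GolayPt → ZMod 2)) := ⟨_, hc, rfl⟩
  have hcard0 : (support₂ (v + v')).card ≠ 0 := by
    intro h0
    rw [Finset.card_eq_zero] at h0
    apply hc0
    rw [← indG_support (v + v'), h0]
    funext p
    simp [indG]
  have hcases := card_cases hb
  have hsd := card_symmDiff_add (support₂ v) (support₂ v')
  rw [← support_add] at hsd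
  rw [hammingNorm_eq_card_support] at h4 h4' ⊢
  rw [hammingNorm_eq_card_support]
  have hi : (support₂ v ∩ support₂ v').card = 0 := by omega
  have hdisj : Disjoint (support₂ v) (support₂ v') := by
    rw [Finset.disjoint_iff_inter_eq_empty]
    exact Finset.card_eq_zero.mp hi
  refine ⟨by omega, by omega, ⟨hb, by omega⟩, ?_, ?_⟩
  · rw [support_add]
    intro p hp
    rw [Finset.mem_symmDiff]
    exact Or.inl ⟨hp, fun hp' => Finset.disjoint_left.mp hdisj hp hp'⟩
  · rw [support_add]
    intro p hp
    rw [Finset.mem_symmDiff]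
    exact Or.inr ⟨hp, fun hp' => Finset.disjoint_left.mp hdisj hp' hp⟩

theorem result (w : Cfsg.GolayPt → ZMod 2) : ({v : Cfsg.GolayPt → ZMod 2 | hammingNorm v ≤ 4 ∧ w - v ∈ Cfsg.golayCode}.ncard = 1 ∧ ∃ v : Cfsg.GolayPt → ZMod 2, hammingNorm v ≤ 3 ∧ w - v ∈ Cfsg.golayCode) ∨ ({v : Cfsg.GolayPt → ZMod 2 | hammingNorm v ≤ 4 ∧ w - v ∈ Cfsg.golayCode}.ncard = 6 ∧ ∀ v : Cfsg.GolayPt → ZMod 2, w - v ∈ Cfsg.golayCode → hammingNorm v ≤ 4 → hammingNorm v = 4) := by
  classical
  obtain ⟨v0, hv04, hv0C⟩ := exists_leader w
  by_cases hex : ∃ v : GolayPt → ZMod 2, hammingNorm v ≤ 3 ∧ w - v ∈ golayCode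
  · left
    obtain ⟨v1, hv13, hv1C⟩ := hex
    refine ⟨?_, v1, hv13, hv1C⟩
    have : {v : GolayPt → ZMod 2 | hammingNorm v ≤ 4 ∧ w - v ∈ golayCode} = {v1} := by
      ext v
      constructor
      · rintro ⟨h4, hC⟩
        by_contra hne
        have := (two_leaders w v v1 h4 (by omega) hC hv1C hne).2.1
        omega
      · intro h
        rw [Set.mem_singleton_iff] at h
        subst h
        exact ⟨by omega, hv1C⟩
    rw [this, Set.ncard_singleton]
  · right
    have hall : ∀ v : GolayPt → ZMod 2, w - v ∈ golayCode → hammingNorm v ≤ 4 → hammingNorm v = 4 := by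
      intro v hC h4
      by_contra hne
      exact hex ⟨v, by omega, hC⟩
    refine ⟨?_, hall⟩
    have hv0 : hammingNorm v0 = 4 := hall v0 hv0C hv04
    have hT0card : (support₂ v0).card = 4 := by rw [← hammingNorm_eq_card_support]; exact hv0
    have hA : ((blocks octads).filter (fun o => support₂ v0 ⊆ o)).card = 5 := by
      have := card_through octads_steiner (support₂ v0) (by omega)
      rw [card_golayPt, hT0card] at this
      norm_num at this
      omega
    have hL : {v : GolayPt → ZMod 2 | hammingNorm v ≤ 4 ∧ w - v ∈ golayCode}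
        = insert v0 ((fun o => v0 + indG o) ''
          (((blocks octads).filter (fun o => support₂ v0 ⊆ o) : Finset (Finset GolayPt)) :
            Set (Finset GolayPt))) := by
      ext v
      constructor
      · rintro ⟨h4, hC⟩
        by_cases hv : v = v0
        · left; exact hv
        · right
          obtain ⟨_, _, hoct, _, hsub⟩ := two_leaders w v v0 h4 hv04 hC hv0C hv
          refine ⟨support₂ (v + v0), ?_, ?_⟩
          · rw [Finset.mem_coe, Finset.mem_filter, mem_blocks]; exact ⟨hoct, hsub⟩
          · show v0 + indG (support₂ (v + v0)) = v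
            rw [indG_support, add_comm v v0, ← add_assoc, gadd_self, zero_add]
      · rintro (h | ⟨o, ho, h⟩)
        · rw [h]; exact ⟨hv04, hv0C⟩
        · rw [← h]
          rw [Finset.mem_coe, Finset.mem_filter, mem_blocks] at ho
          obtain ⟨ho, hTo⟩ := ho
          refine ⟨?_, ?_⟩
          · show hammingNorm (v0 + indG o) ≤ 4
            rw [hammingNorm_eq_card_support, support_add, support_indG]
            have := card_symmDiff_add (support₂ v0) o
            have h2 : support₂ v0 ∩ o = support₂ v0 := Finset.inter_eq_left.mpr hTo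
            rw [h2, hT0card, ho.2] at this
            omega
          · show w - (v0 + indG o) ∈ golayCode
            have h1 : w - (v0 + indG o) = (w - v0) + indG o := by
              rw [gsub_eq_add, gsub_eq_add, add_assoc]
            rw [h1]
            apply Submodule.add_mem _ hv0C
            obtain ⟨c, hc, hco⟩ := ho.1
            rw [← hco, indG_support]; exact hc
    have hnot : v0 ∉ (fun o => v0 + indG o) ''
          (((blocks octads).filter (fun o => support₂ v0 ⊆ o) : Finset (Finset GolayPt)) :
            Set (Finset GolayPt)) := by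
      rintro ⟨o, ho, h⟩
      have h' : v0 + indG o = v0 + 0 := by rw [add_zero]; exact h
      have h0 : indG o = 0 := add_left_cancel h'
      have hoe : o = ∅ := by rw [← support_indG o, h0, support_zero]
      rw [Finset.mem_coe, Finset.mem_filter, mem_blocks] at ho
      have h8 := ho.1.2
      rw [hoe] at h8
      simp at h8
    have hinj : Set.InjOn (fun o => v0 + indG o)
          (((blocks octads).filter (fun o => support₂ v0 ⊆ o) : Finset (Finset GolayPt)) :
            Set (Finset GolayPt)) := by
      intro o _ o' _ h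
      have h' : v0 + indG o = v0 + indG o' := h
      have h2 := add_left_cancel h'
      rw [← support_indG o, h2, support_indG]
    rw [hL, Set.ncard_insert_of_notMem hnot, Set.InjOn.ncard_image hinj, Set.ncard_coe_finset, hA]

end Cfsg.Agent.S1635
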