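import Cfsg.Statements.S1638
import Cfsg.Agent.Lib.Helper3.M24Quad

set_option autoImplicit false
open scoped Pointwise
open Cfsg

namespace Cfsg.Agent.S1638

open Cfsg.Agent.Lib.Helper3.Golay Cfsg.Agent.Lib.Helper3.Golay2
open Cfsg.Agent.Lib.Helper3.GolayM24 Cfsg.Agent.Lib.Helper3.M24Perm
open Cfsg.Agent.Lib.Helper3.M24Cert Cfsg.Agent.Lib.Helper3.M24Trans
open Cfsg.Agent.Lib.Helper3.M24Cls Cfsg.Agent.Lib.Helper3.M24Triad
open Cfsg.Agent.Lib.Helper3.M24Quad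

/-- Fix two points p ≠ q and a pair s of two further points. Among the pairs avoiding p, q and disjoint from s, exactly 30 lie in an octad together with p, q and s and exactly 160 do not; and any two pairs other than s that meet s in equally many points and agree on that octad property are carried to one another by an element of the group of the length-24 code fixing p, q and s. -/
theorem result (p q : Cfsg.GolayPt) (hpq : p ≠ q) (s : Finset Cfsg.GolayPt) (hs : (s.card = 2 ∧ p ∉ s ∧ q ∉ s)) : {t : Finset Cfsg.GolayPt | (t.card = 2 ∧ p ∉ t ∧ q ∉ t) ∧ Disjoint s t ∧ (∃ o ∈ Cfsg.octads, p ∈ o ∧ q ∈ o ∧ s ∪ t ⊆ o)}.ncard = 30 ∧ {t : Finset Cfsg.GolayPt | (t.card = 2 ∧ p ∉ t ∧ q ∉ t) ∧ Disjoint s t ∧ ¬ (∃ o ∈ Cfsg.octads, p ∈ o ∧ q ∈ o ∧ s ∪ t ⊆ o)}.ncard = 160 ∧ ∀ t t' : Finset Cfsg.GolayPt, (t.card = 2 ∧ p ∉ t ∧ q ∉ t) → (t'.card = 2 ∧ p ∉ t' ∧ q ∉ t') → t ≠ s → t' ≠ s → (s ∩ t).card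 = (s ∩ t').card → ((∃ o ∈ Cfsg.octads, p ∈ o ∧ q ∈ o ∧ s ∪ t ⊆ o) ↔ (∃ o ∈ Cfsg.octads, p ∈ o ∧ q ∈ o ∧ s ∪ t' ⊆ o)) → ∃ g : Equiv.Perm Cfsg.GolayPt, g ∈ Cfsg.M24 ∧ g p = p ∧ g q = q ∧ g • s = s ∧ g • t = t' := by
  classical
  obtain ⟨hs2, hps, hqs⟩ := hs
  have hoct : ∀ t : Finset Cfsg.GolayPt, (∃ o ∈ Cfsg.octads, p ∈ o ∧ q ∈ o ∧ s ∪ t ⊆ o) ↔
      ∃ o ∈ Cfsg.octads, insert p (insert q (s ∪ t)) ⊆ o := by
    intro t
    simp only [Finset.insert_subset_iff]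
  have key : ∀ t : Finset Cfsg.GolayPt, (t.card = 2 ∧ p ∉ t ∧ q ∉ t) → t ≠ s →
      qlab p q s t = 1 + 2 * (s ∩ t).card +
        (if ∃ o ∈ Cfsg.octads, p ∈ o ∧ q ∈ o ∧ s ∪ t ⊆ o then 1 else 0) := by
    intro t ht hne
    unfold qlab
    rw [if_pos ⟨ht.1, ht.2.1, ht.2.2, hne⟩]
    simp only [hoct]
  have key0 : ∀ t : Finset Cfsg.GolayPt, qlab p q s t ≠ 0 →
      (t.card = 2 ∧ p ∉ t ∧ q ∉ t) ∧ t ≠ s := by
    intro t h
    by_contra hc
    apply h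
    unfold qlab
    rw [if_neg (fun hh => hc ⟨⟨hh.1, hh.2.1, hh.2.2.1⟩, hh.2.2.2⟩)]
  have hdis : ∀ t : Finset Cfsg.GolayPt, t.card = 2 → Disjoint s t →
      t ≠ s ∧ (s ∩ t).card = 0 := by
    intro t ht hd
    refine ⟨?_, by rw [Finset.card_eq_zero, ← Finset.disjoint_iff_inter_eq_empty]; exact hd⟩
    rintro rfl
    rw [Finset.disjoint_self_iff_empty] at hd
    rw [hd] at ht
    simp at ht
  obtain ⟨c1, c2, -⟩ := q_count hpq hs2 hps hqs
  refine ⟨?_, ?_, ?_⟩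
  · rw [← c2]
    congr 1
    ext t
    simp only [Set.mem_ofPred_eq]
    constructor
    · rintro ⟨hu, hd, ho⟩
      obtain ⟨hne, h0⟩ := hdis t hu.1 hd
      rw [key t hu hne, h0, if_pos ho]
    · intro hl
      obtain ⟨hu, hne⟩ := key0 t (by rw [hl]; norm_num)
      rw [key t hu hne] at hl
      by_cases ho : ∃ o ∈ Cfsg.octads, p ∈ o ∧ q ∈ o ∧ s ∪ t ⊆ o
      · rw [if_pos ho] at hl
        refine ⟨hu, ?_, ho⟩
        rw [Finset.disjoint_iff_inter_eq_empty, ← Finset.card_eq_zero]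
        omega
      · rw [if_neg ho] at hl
        omega
  · rw [← c1]
    congr 1
    ext t
    simp only [Set.mem_ofPred_eq]
    constructor
    · rintro ⟨hu, hd, ho⟩
      obtain ⟨hne, h0⟩ := hdis t hu.1 hd
      rw [key t hu hne, h0, if_neg ho]
    · intro hl
      obtain ⟨hu, hne⟩ := key0 t (by rw [hl]; norm_num)
      rw [key t hu hne] at hl
      by_cases ho : ∃ o ∈ Cfsg.octads, p ∈ o ∧ q ∈ o ∧ s ∪ t ⊆ o
      · rw [if_pos ho] at hl
        omega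
      · rw [if_neg ho] at hl
        refine ⟨hu, ?_, ho⟩
        rw [Finset.disjoint_iff_inter_eq_empty, ← Finset.card_eq_zero]
        omega
  · intro t t' ht ht' hne hne' hc hiff
    apply q_trans hpq hs2 hps hqs
    · rw [key t ht hne]
      omega
    · rw [key t ht hne, key t' ht' hne', hc]
      by_cases ho : ∃ o ∈ Cfsg.octads, p ∈ o ∧ q ∈ o ∧ s ∪ t ⊆ o
      · rw [if_pos ho, if_pos (hiff.mp ho)]
      · rw [if_neg ho, if_neg (fun h => ho (hiff.mpr h))]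

end Cfsg.Agent.S1638
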