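import Cfsg.Statements.S1639
import Cfsg.Agent.Lib.Helper3.M24Frames

set_option autoImplicit false
open scoped Pointwise
open Cfsg

namespace Cfsg.Agent.S1639

open Cfsg.Agent.Lib.Helper3.Golay Cfsg.Agent.Lib.Helper3.Golay2
open Cfsg.Agent.Lib.Helper3.GolayM24 Cfsg.Agent.Lib.Helper3.M24Perm
open Cfsg.Agent.Lib.Helper3.M24Cert Cfsg.Agent.Lib.Helper3.M24Trans
open Cfsg.Agent.Lib.Helper3.M24Oct Cfsg.Agent.Lib.Helper3.M24Dod
open Cfsg.Agent.Lib.Helper3.M24Orb Cfsg.Agent.Lib.Helper3.M24Cls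
open Cfsg.Agent.Lib.Helper3.M24ClsA Cfsg.Agent.Lib.Helper3.M24Frames

/-- The point stabiliser acts on the 1288 dodecads through the point with rank 4 and subdegrees 1, 165, 330, 792, distinguished by intersection 4, 8, 6 with the fixed dodecad. -/
theorem result (x : Cfsg.GolayPt) (d : Finset Cfsg.GolayPt) (hd : d ∈ Cfsg.dodecads) (hx : x ∈ d) : {d' : Finset Cfsg.GolayPt | d' ∈ Cfsg.dodecads ∧ x ∈ d' ∧ (d ∩ d').card = 4}.ncard = 165 ∧ {d' : Finset Cfsg.GolayPt | d' ∈ Cfsg.dodecads ∧ x ∈ d' ∧ (d ∩ d').card = 8}.ncard = 330 ∧ {d' : Finset Cfsg.GolayPt | d' ∈ Cfsg.dodecads ∧ x ∈ d' ∧ (d ∩ d').card = 6}.ncard = 792 ∧ ∀ d' d'' : Finset Cfsg.GolayPt, d' ∈ Cfsg.dodecads → d'' ∈ Cfsg.dodecads → x ∈ d' → x ∈ d'' → (d ∩ d').card = (d ∩ d'').card → ∃ g : Equiv.Perm Cfsg.GolayPt, g ∈ Cfsg.M24 ∧ g x = x ∧ g • d = d ∧ g • d' = d'' := by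
  obtain ⟨σ, hσ, rfl, rfl⟩ := exists_std hd hx
  have hc : ∀ i : ℕ, {d' : Finset Cfsg.GolayPt | d' ∈ Cfsg.dodecads ∧ σ (pt 0) ∈ d' ∧
      (σ • ms (cw 1) ∩ d').card = i}.ncard =
      ((Finset.range 4096).filter (fun k => labF 12 1 [0] [] k = i + 1)).card := by
    intro i
    rw [← labF_count 12 1 [0] [] i (by decide) (by decide)]
    apply ncard_transport σ
    intro b
    rw [smul_mem_dodecads_iff hσ, apply_mem_smul_iff, card_smul_inter_smul]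
    simp [dodecads]
  refine ⟨by rw [hc 4]; exact cnt_a1639_5, by rw [hc 8]; exact cnt_a1639_9,
    by rw [hc 6]; exact cnt_a1639_7, ?_⟩
  intro d' d'' hd' hd'' hx' hx'' h
  have hinv := M24.inv_mem hσ
  obtain ⟨g, hg, h1, h2, h3⟩ := std_pull hσ (trans_a1639 (b := σ⁻¹ • d') (b' := σ⁻¹ • d'')
    ((smul_mem_dodecads_iff hinv _).mpr hd') ((smul_mem_dodecads_iff hinv _).mpr hd'')
    (by simpa [pt_mem_inv_smul_iff] using hx') (by simp)
    (by simpa [pt_mem_inv_smul_iff] using hx'') (by simp)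
    (by rw [card_inter_inv_smul, card_inter_inv_smul]; exact h))
  exact ⟨g, hg, h2 0 (by simp), h1 _ (by simp), h3⟩

end Cfsg.Agent.S1639
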