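import Cfsg.Statements.S1640
import Cfsg.Agent.Lib.Helper11.LeechSt48
import Cfsg.Agent.Lib.Helper11.LeechCo3b

set_option autoImplicit false
open Cfsg

namespace Cfsg.Agent.S1640

theorem result (u : ↥Cfsg.leechLattice) (hu : Cfsg.sqNorm (u : Cfsg.GolayPt → ℤ) = 48) : {x : ↥Cfsg.leechLattice | Cfsg.sqNorm (x : Cfsg.GolayPt → ℤ) = 32 ∧ Cfsg.dotInt (u : Cfsg.GolayPt → ℤ) (x : Cfsg.GolayPt → ℤ) = -16}.ncard = 11178 ∧ ∀ x ∈ {x : ↥Cfsg.leechLattice | Cfsg.sqNorm (x : Cfsg.GolayPt → ℤ) = 32 ∧ Cfsg.dotInt (u : Cfsg.GolayPt → ℤ) (x : Cfsg.GolayPt → ℤ) = -16}, ∀ x' ∈ {x : ↥Cfsg.leechLattice | Cfsg.sqNorm (x : Cfsg.GolayPt → ℤ) = 32 ∧ Cfsg.dotInt (u : Cfsg.GolayPt → ℤ) (x : Cfsg.GolayPt → ℤ) = -16}, ∃ g : ↥Cfsg.Co0, g • u = u ∧ g • x = x' := by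
  refine ⟨Cfsg.Agent.Lib.Helper11.LeechXi.count11178 u hu, ?_⟩
  rintro x ⟨hx1, hx2⟩ x' ⟨hx1', hx2'⟩
  obtain ⟨g, hg, e1, e2⟩ :=
    Cfsg.Agent.Lib.Helper11.LeechSt.trans11178 u x x' hu hx1 hx1' hx2 hx2'
  exact ⟨⟨g, hg⟩, e1, e2⟩

end Cfsg.Agent.S1640
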