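import Cfsg.Statements.S1642
import Cfsg.Agent.Lib.Helper11.LeechHS

set_option autoImplicit false
open Cfsg

namespace Cfsg.Agent.S1642

theorem result (v w : ↥Cfsg.leechLattice) (hv : Cfsg.sqNorm (v : Cfsg.GolayPt → ℤ) = 48) (hw : Cfsg.sqNorm (w : Cfsg.GolayPt → ℤ) = 48) (hvw : Cfsg.dotInt (v : Cfsg.GolayPt → ℤ) (w : Cfsg.GolayPt → ℤ) = -32) : ∃ g : ↥Cfsg.Co0, g • v = v ∧ g • w = w ∧ orderOf g = 2 ∧ ∀ x ∈ {x : ↥Cfsg.leechLattice | Cfsg.sqNorm (x : Cfsg.GolayPt → ℤ) = 32 ∧ Cfsg.dotInt (v : Cfsg.GolayPt → ℤ) (x : Cfsg.GolayPt → ℤ) = 24 ∧ Cfsg.dotInt (w : Cfsg.GolayPt → ℤ) (x : Cfsg.GolayPt → ℤ) = -24}, g • x ≠ x := by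
  obtain ⟨h, hh, e1, e2⟩ := Cfsg.Agent.Lib.Helper11.LeechSt.trans33 v w
    Cfsg.Agent.Lib.Helper11.LeechSt.vD Cfsg.Agent.Lib.Helper11.LeechSt.wD hv hw
    Cfsg.Agent.Lib.Helper11.LeechXi.sqNorm_VD Cfsg.Agent.Lib.Helper11.LeechSt.sqNorm_wD hvw
    Cfsg.Agent.Lib.Helper11.LeechSt.dot_vD_wD
  obtain ⟨H, hH⟩ : ∃ H : ↥Cfsg.Co0, H = ⟨h, hh⟩ := ⟨_, rfl⟩
  obtain ⟨G0, hG0⟩ : ∃ G0 : ↥Cfsg.Co0, G0 = ⟨Cfsg.Agent.Lib.Helper11.LeechSt.gD,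
    Cfsg.Agent.Lib.Helper11.LeechSt.gD_mem⟩ := ⟨_, rfl⟩
  have a1 : H • v = Cfsg.Agent.Lib.Helper11.LeechSt.vD := by rw [hH]; exact e1
  have a1' : H • w = Cfsg.Agent.Lib.Helper11.LeechSt.wD := by rw [hH]; exact e2
  have a2 : G0 • Cfsg.Agent.Lib.Helper11.LeechSt.vD = Cfsg.Agent.Lib.Helper11.LeechSt.vD := by
    rw [hG0]; exact Cfsg.Agent.Lib.Helper11.LeechSt.gD_vD
  have a2' : G0 • Cfsg.Agent.Lib.Helper11.LeechSt.wD = Cfsg.Agent.Lib.Helper11.LeechSt.wD := by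
    rw [hG0]; exact Cfsg.Agent.Lib.Helper11.LeechSt.gD_wD
  have g2 : G0 * G0 = 1 := by
    rw [hG0]; exact Subtype.ext Cfsg.Agent.Lib.Helper11.LeechSt.gD_sq
  have gne : G0 ≠ 1 := by
    rw [hG0]
    intro hcon
    exact Cfsg.Agent.Lib.Helper11.LeechSt.gD_ne (congrArg Subtype.val hcon)
  refine ⟨H⁻¹ * G0 * H, ?_, ?_, ?_, ?_⟩
  · rw [mul_smul, mul_smul, a1, a2, ← a1, inv_smul_smul]
  · rw [mul_smul, mul_smul, a1', a2', ← a1', inv_smul_smul]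
  · have hsq : (H⁻¹ * G0 * H) ^ 2 = 1 := by
      rw [pow_two]
      calc (H⁻¹ * G0 * H) * (H⁻¹ * G0 * H) = H⁻¹ * (G0 * G0) * H := by group
        _ = 1 := by rw [g2]; group
    have hne : H⁻¹ * G0 * H ≠ 1 := by
      intro hcon
      apply gne
      calc G0 = H * (H⁻¹ * G0 * H) * H⁻¹ := by group
        _ = 1 := by rw [hcon]; group
    exact orderOf_eq_prime hsq hne
  · rintro x ⟨hx1, hx2, hx3⟩ hfix
    have hfix2 : G0 • (H • x) = H • x := by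
      have h3 := congrArg (fun t => H • t) hfix
      beta_reduce at h3
      rw [mul_smul, mul_smul, smul_inv_smul] at h3
      exact h3
    have hHx : H • x = h x := by rw [hH]; rfl
    rw [hHx, hG0] at hfix2
    apply Cfsg.Agent.Lib.Helper11.LeechSt.gD_nofix (h x) (by rw [hh.2]; exact hx1) hfix2
    have h4 := Cfsg.Agent.Lib.Helper11.LeechIP.dot_co0 hh v x
    rw [e1, hx2] at h4
    exact h4

end Cfsg.Agent.S1642
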