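import Cfsg.Statements.S1691
import Mathlib

set_option autoImplicit false
open Cfsg

namespace Cfsg.Agent.S1691

open Cfsg.Spor

theorem node_mem (x : Fi24.Gen) : x ∈ coxNodes Fi24.edges := by
  cases x <;> decide

theorem sq_one (x : Fi24.Gen) : (PresentedGroup.of x : Fi24) ^ 2 = 1 := by
  have hmem : (FreeGroup.of x * FreeGroup.of x) ^ coxLabel Fi24.edges x x ∈
      (coxRelators Fi24.edges ∪ {r | r ∈ Fi24.extra}) := by
    left
    exact ⟨x, node_mem x, x, node_mem x, rfl⟩
  have h := PresentedGroup.one_of_mem hmem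
  have hl : coxLabel Fi24.edges x x = 1 := by simp [coxLabel]
  rw [hl, pow_one, map_mul] at h
  rw [pow_two]
  exact h

theorem edge_rel (x y : Fi24.Gen) (hl : coxLabel Fi24.edges x y = 3) :
    ((PresentedGroup.of x : Fi24) * PresentedGroup.of y) ^ 3 = 1 := by
  have hmem : (FreeGroup.of x * FreeGroup.of y) ^ coxLabel Fi24.edges x y ∈
      (coxRelators Fi24.edges ∪ {r | r ∈ Fi24.extra}) := by
    left
    exact ⟨x, node_mem x, y, node_mem y, rfl⟩
  have h := PresentedGroup.one_of_mem hmem
  rw [hl, map_pow, map_mul] at h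
  exact h

noncomputable def q (x : Fi24.Gen) : Abelianization Fi24 :=
  Abelianization.of (PresentedGroup.of x : Fi24)

theorem q_sq (x : Fi24.Gen) : q x ^ 2 = 1 := by
  unfold q
  rw [← map_pow, sq_one, map_one]

theorem q_edge (x y : Fi24.Gen) (hl : coxLabel Fi24.edges x y = 3) : q x = q y := by
  have h := edge_rel x y hl
  have h2 : (q x * q y) ^ 3 = 1 := by
    unfold q
    rw [← map_mul, ← map_pow, h, map_one]
  rw [mul_pow] at h2
  have hx : q x ^ 3 = q x := by
    rw [pow_succ, q_sq, one_mul]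
  have hy : q y ^ 3 = q y := by
    rw [pow_succ, q_sq, one_mul]
  rw [hx, hy] at h2
  have hyinv : (q y)⁻¹ = q y := by
    rw [inv_eq_iff_mul_eq_one, ← pow_two, q_sq]
  rw [← hyinv]
  exact eq_inv_of_mul_eq_one_left h2

theorem q_all (x : Fi24.Gen) : q x = q Fi24.Gen.a := by
  have hlk : q Fi24.Gen.l = q Fi24.Gen.k := q_edge _ _ (by decide)
  have hka : q Fi24.Gen.k = q Fi24.Gen.a := q_edge _ _ (by decide)
  have hab : q Fi24.Gen.a = q Fi24.Gen.b := q_edge _ _ (by decide)
  have hbc : q Fi24.Gen.b = q Fi24.Gen.c := q_edge _ _ (by decide)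
  have hcd : q Fi24.Gen.c = q Fi24.Gen.d := q_edge _ _ (by decide)
  have hde : q Fi24.Gen.d = q Fi24.Gen.e := q_edge _ _ (by decide)
  have hdh : q Fi24.Gen.d = q Fi24.Gen.h := q_edge _ _ (by decide)
  have hef : q Fi24.Gen.e = q Fi24.Gen.f := q_edge _ _ (by decide)
  have hfg : q Fi24.Gen.f = q Fi24.Gen.g := q_edge _ _ (by decide)
  have hgj : q Fi24.Gen.g = q Fi24.Gen.j := q_edge _ _ (by decide)
  have hhi : q Fi24.Gen.h = q Fi24.Gen.i := q_edge _ _ (by decide)
  cases x
  · rw [hlk, hka]
  · rw [hka]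
  · rfl
  · rw [← hab]
  · rw [← hbc, ← hab]
  · rw [← hcd, ← hbc, ← hab]
  · rw [← hde, ← hcd, ← hbc, ← hab]
  · rw [← hef, ← hde, ← hcd, ← hbc, ← hab]
  · rw [← hfg, ← hef, ← hde, ← hcd, ← hbc, ← hab]
  · rw [← hgj, ← hfg, ← hef, ← hde, ← hcd, ← hbc, ← hab]
  · rw [← hdh, ← hcd, ← hbc, ← hab]
  · rw [← hhi, ← hdh, ← hcd, ← hbc, ← hab]

theorem sgn_rel : ∀ r ∈ (coxRelators Fi24.edges ∪ {r | r ∈ Fi24.extra}),
    FreeGroup.lift (fun _ : Fi24.Gen => Multiplicative.ofAdd (1 : ZMod 2)) r = 1 := by
  intro r hr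
  have hs : (Multiplicative.ofAdd (1 : ZMod 2)) * Multiplicative.ofAdd 1 = 1 := by decide
  rcases hr with ⟨x, _, y, _, rfl⟩ | hr
  · simp only [map_pow, map_mul, FreeGroup.lift_apply_of]
    rw [hs, one_pow]
  · simp only [Fi24.extra, Set.mem_ofPred_eq, List.mem_cons, List.mem_nil_iff, or_false] at hr
    rcases hr with rfl | rfl
    · simp only [map_mul, map_pow, map_inv, FreeGroup.lift_apply_of]
      decide
    · simp only [map_mul, map_pow, map_inv, FreeGroup.lift_apply_of]
      decide

noncomputable def sgnHom : Fi24 →* Multiplicative (ZMod 2) :=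
  PresentedGroup.toGroup sgn_rel

theorem all_mem (g : Fi24) : Abelianization.of g ∈ Subgroup.zpowers (q Fi24.Gen.a) := by
  have := PresentedGroup.generated_by (coxRelators Fi24.edges ∪ {r | r ∈ Fi24.extra})
    ((Subgroup.zpowers (q Fi24.Gen.a)).comap Abelianization.of)
    (fun x => by
      rw [Subgroup.mem_comap]
      show q x ∈ _
      rw [q_all x]
      exact Subgroup.mem_zpowers _) g
  exact this

theorem ab_cases' (g : Fi24) :
    Abelianization.of g = 1 ∨ Abelianization.of g = q Fi24.Gen.a := by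
  obtain ⟨n, hn⟩ := Subgroup.mem_zpowers_iff.mp (all_mem g)
  have h2 := q_sq Fi24.Gen.a
  rcases Int.emod_two_eq_zero_or_one n with h | h
  · left
    have : n = 2 * (n / 2) := by omega
    rw [← hn, this, zpow_mul, zpow_ofNat, h2, one_zpow]
  · right
    have : n = 2 * (n / 2) + 1 := by omega
    rw [← hn, this, zpow_add, zpow_mul, zpow_ofNat, h2, one_zpow, one_mul, zpow_one]

theorem ab_cases (z : Abelianization Fi24) : z = 1 ∨ z = q Fi24.Gen.a := by
  obtain ⟨g, rfl⟩ := QuotientGroup.mk_surjective z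
  exact ab_cases' g

theorem result : (commutator Cfsg.Spor.Fi24).index = 2 := by
  classical
  let f : Bool → Abelianization Fi24 := fun b => if b then q Fi24.Gen.a else 1
  have hf : Function.Surjective f := by
    intro z
    rcases ab_cases z with h | h
    · exact ⟨false, by simp [f, h]⟩
    · exact ⟨true, by simp [f, h]⟩
  haveI : Finite (Abelianization Fi24) := Finite.of_surjective f hf
  have hcard : Nat.card (Abelianization Fi24) = 2 := by
    apply le_antisymm
    · have := Nat.card_le_card_of_surjective f hf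
      simpa using this
    · let s : Abelianization Fi24 →* Multiplicative (ZMod 2) := Abelianization.lift sgnHom
      have hs : Function.Surjective s := by
        intro z
        have hz : z = 1 ∨ z = Multiplicative.ofAdd (1 : ZMod 2) := by
          revert z; decide
        rcases hz with h | h
        · exact ⟨1, by rw [map_one, h]⟩
        · refine ⟨q Fi24.Gen.a, ?_⟩
          rw [h]
          show Abelianization.lift sgnHom (Abelianization.of (PresentedGroup.of Fi24.Gen.a)) = _
          rw [Abelianization.lift_apply_of]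
          exact PresentedGroup.toGroup.of sgn_rel
      have := Nat.card_le_card_of_surjective s hs
      simpa using this
  exact hcard

end Cfsg.Agent.S1691
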