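import Cfsg.Statements.S1757
import Mathlib

set_option autoImplicit false
open Cfsg

namespace Cfsg.Agent.S1757

open scoped Pointwise commutatorElement

theorem card_sup_le {G : Type*} [Group G] [Finite G] (H K : Subgroup G)
    (hLE : K ≤ Subgroup.normalizer (H : Set G)) :
    Nat.card ↥(H ⊔ K) ≤ Nat.card ↥H * Nat.card ↥K := by
  have hset : (↑(H ⊔ K) : Set G) = (H : Set G) * (K : Set G) :=
    Subgroup.coe_mul_of_right_le_normalizer_left H K hLE
  let f : ↥H × ↥K → ↥(H ⊔ K) := fun x =>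
    ⟨(x.1 : G) * (x.2 : G), Subgroup.mul_mem _ (le_sup_left (a := H) x.1.2) (le_sup_right (b := K) x.2.2)⟩
  have hf : Function.Surjective f := by
    rintro ⟨y, hy⟩
    have hy' : y ∈ (H : Set G) * (K : Set G) := by rw [← hset]; exact hy
    obtain ⟨h, hh, k, hk, rfl⟩ := hy'
    exact ⟨(⟨h, hh⟩, ⟨k, hk⟩), rfl⟩
  have := Nat.card_le_card_of_surjective f hf
  rwa [Nat.card_prod] at this

theorem card_sup_ge {G : Type*} [Group G] [Finite G] (H K : Subgroup G)
    (hHK : H ⊓ K = ⊥) :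
    Nat.card ↥H * Nat.card ↥K ≤ Nat.card ↥(H ⊔ K) := by
  let f : ↥H × ↥K → ↥(H ⊔ K) := fun x =>
    ⟨(x.1 : G) * (x.2 : G), Subgroup.mul_mem _ (le_sup_left (a := H) x.1.2) (le_sup_right (b := K) x.2.2)⟩
  have hf : Function.Injective f := by
    rintro ⟨⟨h, hh⟩, ⟨k, hk⟩⟩ ⟨⟨h', hh'⟩, ⟨k', hk'⟩⟩ hxy
    have e : h * k = h' * k' := congrArg Subtype.val hxy
    have e2 : h'⁻¹ * h = k' * k⁻¹ := by
      rw [inv_mul_eq_iff_eq_mul, ← mul_assoc, ← e, mul_inv_cancel_right]
    have hm : h'⁻¹ * h ∈ H ⊓ K := by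
      refine Subgroup.mem_inf.mpr ⟨H.mul_mem (H.inv_mem hh') hh, ?_⟩
      rw [e2]
      exact K.mul_mem hk' (K.inv_mem hk)
    rw [hHK, Subgroup.mem_bot] at hm
    have h1 : h = h' := by
      have := inv_mul_eq_one.mp hm
      exact this.symm
    subst h1
    have h2 : k = k' := mul_left_cancel e
    subst h2
    rfl
  have := Nat.card_le_card_of_injective f hf
  rwa [Nat.card_prod] at this

theorem exists_normalizer_of_lt {G : Type*} [Group G] [Finite G] (p : ℕ) [Fact p.Prime]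
    (P H : Subgroup G) (hP : IsPGroup p ↥P) (hHP : H < P) :
    ∃ x ∈ P, x ∉ H ∧ x ∈ Subgroup.normalizer (H : Set G) := by
  have : Group.IsNilpotent ↥P := hP.isNilpotent
  have hnc := Group.normalizerCondition_of_isNilpotent (G := ↥P)
  have hlt : H.subgroupOf P < ⊤ := by
    rw [lt_top_iff_ne_top]
    intro h
    rw [Subgroup.subgroupOf_eq_top] at h
    exact absurd (le_antisymm hHP.le h) hHP.ne
  have h2 := hnc (H.subgroupOf P) hlt
  obtain ⟨x, hxN, hxH⟩ := SetLike.exists_of_lt h2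
  refine ⟨x, x.2, ?_, ?_⟩
  · intro hx; exact hxH (Subgroup.mem_subgroupOf.mpr hx)
  · rw [Subgroup.mem_normalizer_iff]
    intro h
    constructor
    · intro hh
      have := (Subgroup.mem_normalizer_iff.mp hxN ⟨h, hHP.le hh⟩).mp (Subgroup.mem_subgroupOf.mpr hh)
      exact Subgroup.mem_subgroupOf.mp this
    · intro hh
      have hx' := inv_mem hxN
      have hP' : (x : G) * h * (x : G)⁻¹ ∈ P := hHP.le hh
      have := (Subgroup.mem_normalizer_iff.mp hx' ⟨(x : G) * h * (x : G)⁻¹, hP'⟩).mp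
        (Subgroup.mem_subgroupOf.mpr hh)
      have h3 := Subgroup.mem_subgroupOf.mp this
      simpa [mul_assoc] using h3

theorem result {G : Type*} [Group G] [Finite G] (p : ℕ) [Fact p.Prime] (A B : Subgroup G)
    (hA : IsPGroup p ↥A) (hB : IsPGroup p ↥B)
    (hAti : ∀ g : G, A.map (MulAut.conj g).toMonoidHom = A ∨ A.map (MulAut.conj g).toMonoidHom ⊓ A = ⊥)
    (hBti : ∀ g : G, B.map (MulAut.conj g).toMonoidHom = B ∨ B.map (MulAut.conj g).toMonoidHom ⊓ B = ⊥)
    (hle : Nat.card ↥A ≤ Nat.card ↥B) (hAB : A ⊓ B = ⊥) (hN : B ≤ Subgroup.normalizer (A : Set G)) : ⁅A, B⁆ = ⊥ := by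
  classical
  have hP : IsPGroup p ↥(A ⊔ B) := IsPGroup.to_sup_of_normal_left' hA hB hN
  have key : A ⊔ B ≤ Subgroup.normalizer (B : Set G) := by
    by_contra hcon
    have hNlt : Subgroup.normalizer (B : Set G) ⊓ (A ⊔ B) < A ⊔ B := by
      refine lt_of_le_of_ne inf_le_right ?_
      intro h
      exact hcon (h ▸ inf_le_left)
    obtain ⟨x, hxP, hxN, hxnorm⟩ := exists_normalizer_of_lt p (A ⊔ B) _ hP hNlt
    have hxB : x ∉ Subgroup.normalizer (B : Set G) := fun h => hxN (Subgroup.mem_inf.mpr ⟨h, hxP⟩)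
    have hne : B.map (MulAut.conj x).toMonoidHom ≠ B := by
      intro h
      exact hxB (Subgroup.mem_normalizer_iff_map_conj_eq.mpr h)
    have hti : B.map (MulAut.conj x).toMonoidHom ⊓ B = ⊥ := (hBti x).resolve_left hne
    have hBN : B ≤ Subgroup.normalizer (B : Set G) ⊓ (A ⊔ B) :=
      le_inf Subgroup.le_normalizer le_sup_right
    have hB'N : B.map (MulAut.conj x).toMonoidHom ≤ Subgroup.normalizer (B : Set G) ⊓ (A ⊔ B) := by
      rintro y hy
      obtain ⟨b, hb, rfl⟩ := Subgroup.mem_map.mp hy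
      have := (Subgroup.mem_normalizer_iff.mp hxnorm b).mp (hBN hb)
      simpa using this
    have hcard' : Nat.card ↥(B.map (MulAut.conj x).toMonoidHom) = Nat.card ↥B :=
      Nat.card_congr (B.equivMapOfInjective _ (MulAut.conj x).injective).symm.toEquiv
    have h1 := card_sup_ge (B.map (MulAut.conj x).toMonoidHom) B hti
    rw [hcard'] at h1
    have h2 : Nat.card ↥(B.map (MulAut.conj x).toMonoidHom ⊔ B) ≤
        Nat.card ↥(Subgroup.normalizer (B : Set G) ⊓ (A ⊔ B)) :=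
      Subgroup.card_le_of_le (sup_le hB'N hBN)
    have h3 := card_sup_le A B hN
    have h4 : Nat.card ↥A * Nat.card ↥B ≤ Nat.card ↥B * Nat.card ↥B :=
      Nat.mul_le_mul_right _ hle
    have h5 : Nat.card ↥(A ⊔ B) ≤ Nat.card ↥(Subgroup.normalizer (B : Set G) ⊓ (A ⊔ B)) := by
      omega
    exact hNlt.ne (Subgroup.eq_of_le_of_card_ge inf_le_right h5)
  have hAn : A ≤ Subgroup.normalizer (B : Set G) := le_trans le_sup_left key
  rw [eq_bot_iff, ← hAB]
  rw [Subgroup.commutator_le]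
  intro a ha b hb
  refine Subgroup.mem_inf.mpr ⟨?_, ?_⟩
  · have h1 : b * a⁻¹ * b⁻¹ ∈ A := (Subgroup.mem_normalizer_iff.mp (hN hb) a⁻¹).mp (A.inv_mem ha)
    have : ⁅a, b⁆ = a * (b * a⁻¹ * b⁻¹) := by
      rw [commutatorElement_def]; group
    rw [this]
    exact A.mul_mem ha h1
  · have h1 : a * b * a⁻¹ ∈ B := (Subgroup.mem_normalizer_iff.mp (hAn ha) b).mp hb
    rw [commutatorElement_def]
    exact B.mul_mem h1 (B.inv_mem hb)

end Cfsg.Agent.S1757
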