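import Cfsg.Statements.S1717
import Cfsg.Agent.S1757
import Cfsg.Agent.Lib.Helper16.Basic

set_option autoImplicit false
open Cfsg

namespace Cfsg.Agent.S1717

abbrev SL5 := Matrix.SpecialLinearGroup (Fin 5) (ZMod 2)
abbrev M5 := Matrix (Fin 5) (Fin 5) (ZMod 2)

lemma comm_single (t x : SL5) (i j : Fin 5)
    (ht : (t : M5) = Matrix.transvection i j 1) (h : x * t = t * x) :
    Commute (Matrix.single i j (1 : ZMod 2)) (x : M5) := by
  have h2 : (x : M5) * (t : M5) = (t : M5) * (x : M5) := by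
    have := congrArg (fun y : SL5 => (y : M5)) h
    simpa using this
  rw [ht, Matrix.transvection, Matrix.mul_add, Matrix.add_mul, Matrix.mul_one, Matrix.one_mul] at h2
  exact (add_left_cancel h2).symm

def tv (i j : Fin 5) (h : i ≠ j) : SL5 :=
  ⟨Matrix.transvection i j 1, Matrix.det_transvection_of_ne i j h 1⟩

lemma tv_coe (i j : Fin 5) (h : i ≠ j) : ((tv i j h : SL5) : M5) = Matrix.transvection i j 1 := rfl

lemma zmod2_eq_one : ∀ x : ZMod 2, x ≠ 0 → x = 1 := by decide

lemma entry00 (x : SL5) (hcol : ∀ k : Fin 5, k ≠ 0 → (x : M5) k 0 = 0) : (x : M5) 0 0 = 1 := by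
  apply zmod2_eq_one
  intro h0
  have hdet : (x : M5).det = 0 := by
    apply Matrix.det_eq_zero_of_column_eq_zero 0
    intro i
    by_cases hi : i = 0
    · rw [hi]; exact h0
    · exact hcol i hi
  have := x.2
  rw [hdet] at this
  exact zero_ne_one this

def emb : Fin 3 → Fin 5 := ![2, 3, 4]

lemma emb_ne_zero (i : Fin 3) : emb i ≠ 0 := by fin_cases i <;> decide
lemma emb_ne_one (i : Fin 3) : emb i ≠ 1 := by fin_cases i <;> decide

/-- the middle block homomorphism -/
def mid (s : SL5) (hs : (s : M5) = Matrix.transvection 0 1 1) :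
    ↥(Subgroup.centralizer ({s} : Set SL5)) →* Matrix (Fin 3) (Fin 3) (ZMod 2) where
  toFun g := ((g : SL5) : M5).submatrix emb emb
  map_one' := by
    ext i j
    fin_cases i <;> fin_cases j <;> simp [emb, Matrix.one_apply]
  map_mul' := by
    intro g h
    have hg := comm_single s g.1 0 1 hs (Subgroup.mem_centralizer_singleton_iff.mp g.2)
    have hh := comm_single s h.1 0 1 hs (Subgroup.mem_centralizer_singleton_iff.mp h.2)
    ext i j
    have h1 : ((g : SL5) : M5) (emb i) 0 = 0 :=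
      Matrix.col_eq_zero_of_commute_single hg (emb_ne_zero i)
    have h2 : ((h : SL5) : M5) 1 (emb j) = 0 :=
      Matrix.row_eq_zero_of_commute_single hh (emb_ne_one j)
    simp only [Subgroup.coe_mul, Matrix.SpecialLinearGroup.coe_mul, Matrix.submatrix_apply,
      Matrix.mul_apply, Fin.sum_univ_five, Fin.sum_univ_three, h1, h2]
    simp [emb]

def F (a b2 b3 b4 c2 c3 c4 : ZMod 2) : M5 :=
  !![1, a, b2, b3, b4; 0, 1, 0, 0, 0; 0, c2, 1, 0, 0; 0, c3, 0, 1, 0; 0, c4, 0, 0, 1]

lemma F_pow : ∀ a b2 b3 b4 c2 c3 c4 : ZMod 2, (F a b2 b3 b4 c2 c3 c4) ^ 4 = 1 := by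
  decide +kernel

lemma ker_pow (s : SL5) (hs : (s : M5) = Matrix.transvection 0 1 1)
    (g : ↥(Subgroup.centralizer ({s} : Set SL5))) (hg : g ∈ (mid s hs).ker) : g ^ 4 = 1 := by
  have hc := comm_single s g.1 0 1 hs (Subgroup.mem_centralizer_singleton_iff.mp g.2)
  have hcol : ∀ k : Fin 5, k ≠ 0 → ((g : SL5) : M5) k 0 = 0 := fun k hk =>
    Matrix.col_eq_zero_of_commute_single hc hk
  have hrow : ∀ k : Fin 5, k ≠ 1 → ((g : SL5) : M5) 1 k = 0 := fun k hk =>
    Matrix.row_eq_zero_of_commute_single hc hk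
  have h00 := entry00 g.1 hcol
  have h11 : ((g : SL5) : M5) 1 1 = 1 := by
    rw [← Matrix.diag_eq_of_commute_single hc]; exact h00
  have hmid : ∀ i j : Fin 3, ((g : SL5) : M5) (emb i) (emb j) = (1 : Matrix (Fin 3) (Fin 3) (ZMod 2)) i j := by
    intro i j
    have h : (mid s hs) g = 1 := MonoidHom.mem_ker.mp hg
    have h' := congrArg (fun M : Matrix (Fin 3) (Fin 3) (ZMod 2) => M i j) h
    exact h'
  have hF : ((g : SL5) : M5) = F (((g : SL5) : M5) 0 1) (((g : SL5) : M5) 0 2) (((g : SL5) : M5) 0 3)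
      (((g : SL5) : M5) 0 4) (((g : SL5) : M5) 2 1) (((g : SL5) : M5) 3 1) (((g : SL5) : M5) 4 1) := by
    have e00 := hmid 0 0
    have e01 := hmid 0 1
    have e02 := hmid 0 2
    have e10 := hmid 1 0
    have e11 := hmid 1 1
    have e12 := hmid 1 2
    have e20 := hmid 2 0
    have e21 := hmid 2 1
    have e22 := hmid 2 2
    simp [emb] at e00 e01 e02 e10 e11 e12 e20 e21 e22
    have c1 := hcol 1 (by decide)
    have c2 := hcol 2 (by decide)
    have c3 := hcol 3 (by decide)
    have c4 := hcol 4 (by decide)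
    have r0 := hrow 0 (by decide)
    have r2 := hrow 2 (by decide)
    have r3 := hrow 3 (by decide)
    have r4 := hrow 4 (by decide)
    ext i j
    fin_cases i <;> fin_cases j <;> simp [F, *]
  apply Subtype.ext
  apply Subtype.ext
  rw [Subgroup.coe_pow, Matrix.SpecialLinearGroup.coe_pow, hF, F_pow]
  rfl

lemma tv_mem (s : SL5) (hs : (s : M5) = Matrix.transvection 0 1 1) (i j : Fin 5) (h : i ≠ j)
    (hc : Matrix.transvection i j (1 : ZMod 2) * Matrix.transvection 0 1 1
      = Matrix.transvection 0 1 1 * Matrix.transvection i j 1) :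
    tv i j h ∈ Subgroup.centralizer ({s} : Set SL5) := by
  rw [Subgroup.mem_centralizer_singleton_iff]
  apply Subtype.ext
  rw [Matrix.SpecialLinearGroup.coe_mul, Matrix.SpecialLinearGroup.coe_mul, hs, tv_coe]
  exact hc

lemma tv_ker (s : SL5) (hs : (s : M5) = Matrix.transvection 0 1 1) (i j : Fin 5) (h : i ≠ j)
    (hm : tv i j h ∈ Subgroup.centralizer ({s} : Set SL5))
    (hd : (Matrix.transvection i j (1 : ZMod 2)).submatrix emb emb
      = (1 : Matrix (Fin 3) (Fin 3) (ZMod 2))) :
    (⟨tv i j h, hm⟩ : ↥(Subgroup.centralizer ({s} : Set SL5))) ∈ (mid s hs).ker := by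
  rw [MonoidHom.mem_ker]
  exact hd

lemma c02 : Matrix.transvection (0 : Fin 5) 2 (1 : ZMod 2) * Matrix.transvection 0 1 1
      = Matrix.transvection 0 1 1 * Matrix.transvection 0 2 1 := by decide +kernel
lemma c03 : Matrix.transvection (0 : Fin 5) 3 (1 : ZMod 2) * Matrix.transvection 0 1 1
      = Matrix.transvection 0 1 1 * Matrix.transvection 0 3 1 := by decide +kernel
lemma c04 : Matrix.transvection (0 : Fin 5) 4 (1 : ZMod 2) * Matrix.transvection 0 1 1
      = Matrix.transvection 0 1 1 * Matrix.transvection 0 4 1 := by decide +kernel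
lemma c21 : Matrix.transvection (2 : Fin 5) 1 (1 : ZMod 2) * Matrix.transvection 0 1 1
      = Matrix.transvection 0 1 1 * Matrix.transvection 2 1 1 := by decide +kernel
lemma c31 : Matrix.transvection (3 : Fin 5) 1 (1 : ZMod 2) * Matrix.transvection 0 1 1
      = Matrix.transvection 0 1 1 * Matrix.transvection 3 1 1 := by decide +kernel
lemma c41 : Matrix.transvection (4 : Fin 5) 1 (1 : ZMod 2) * Matrix.transvection 0 1 1
      = Matrix.transvection 0 1 1 * Matrix.transvection 4 1 1 := by decide +kernel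

lemma d02 : (Matrix.transvection (0 : Fin 5) 2 (1 : ZMod 2)).submatrix emb emb
      = (1 : Matrix (Fin 3) (Fin 3) (ZMod 2)) := by decide +kernel
lemma d03 : (Matrix.transvection (0 : Fin 5) 3 (1 : ZMod 2)).submatrix emb emb
      = (1 : Matrix (Fin 3) (Fin 3) (ZMod 2)) := by decide +kernel
lemma d04 : (Matrix.transvection (0 : Fin 5) 4 (1 : ZMod 2)).submatrix emb emb
      = (1 : Matrix (Fin 3) (Fin 3) (ZMod 2)) := by decide +kernel
lemma d21 : (Matrix.transvection (2 : Fin 5) 1 (1 : ZMod 2)).submatrix emb emb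
      = (1 : Matrix (Fin 3) (Fin 3) (ZMod 2)) := by decide +kernel
lemma d31 : (Matrix.transvection (3 : Fin 5) 1 (1 : ZMod 2)).submatrix emb emb
      = (1 : Matrix (Fin 3) (Fin 3) (ZMod 2)) := by decide +kernel
lemma d41 : (Matrix.transvection (4 : Fin 5) 1 (1 : ZMod 2)).submatrix emb emb
      = (1 : Matrix (Fin 3) (Fin 3) (ZMod 2)) := by decide +kernel

lemma zmod2_cases : ∀ y : ZMod 2, y = 0 ∨ y = 1 := by decide

lemma center_cases (s : SL5) (hs : (s : M5) = Matrix.transvection 0 1 1) (x : SL5)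
    (h01 : Commute (Matrix.single (0 : Fin 5) 1 (1 : ZMod 2)) (x : M5))
    (h02 : Commute (Matrix.single (0 : Fin 5) 2 (1 : ZMod 2)) (x : M5))
    (h03 : Commute (Matrix.single (0 : Fin 5) 3 (1 : ZMod 2)) (x : M5))
    (h04 : Commute (Matrix.single (0 : Fin 5) 4 (1 : ZMod 2)) (x : M5))
    (h21 : Commute (Matrix.single (2 : Fin 5) 1 (1 : ZMod 2)) (x : M5))
    (h31 : Commute (Matrix.single (3 : Fin 5) 1 (1 : ZMod 2)) (x : M5))
    (h41 : Commute (Matrix.single (4 : Fin 5) 1 (1 : ZMod 2)) (x : M5)) :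
    x = 1 ∨ x = s := by
  have hcol : ∀ k : Fin 5, k ≠ 0 → (x : M5) k 0 = 0 := fun k hk =>
    Matrix.col_eq_zero_of_commute_single h01 hk
  have hrow1 : ∀ k : Fin 5, k ≠ 1 → (x : M5) 1 k = 0 := fun k hk =>
    Matrix.row_eq_zero_of_commute_single h01 hk
  have hrow2 : ∀ k : Fin 5, k ≠ 2 → (x : M5) 2 k = 0 := fun k hk =>
    Matrix.row_eq_zero_of_commute_single h02 hk
  have hrow3 : ∀ k : Fin 5, k ≠ 3 → (x : M5) 3 k = 0 := fun k hk =>
    Matrix.row_eq_zero_of_commute_single h03 hk
  have hrow4 : ∀ k : Fin 5, k ≠ 4 → (x : M5) 4 k = 0 := fun k hk =>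
    Matrix.row_eq_zero_of_commute_single h04 hk
  have hcol2 : ∀ k : Fin 5, k ≠ 2 → (x : M5) k 2 = 0 := fun k hk =>
    Matrix.col_eq_zero_of_commute_single h21 hk
  have hcol3 : ∀ k : Fin 5, k ≠ 3 → (x : M5) k 3 = 0 := fun k hk =>
    Matrix.col_eq_zero_of_commute_single h31 hk
  have hcol4 : ∀ k : Fin 5, k ≠ 4 → (x : M5) k 4 = 0 := fun k hk =>
    Matrix.col_eq_zero_of_commute_single h41 hk
  have h00 := entry00 x hcol
  have h11 : (x : M5) 1 1 = 1 := by
    rw [← Matrix.diag_eq_of_commute_single h01]; exact h00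
  have h22 : (x : M5) 2 2 = 1 := by
    rw [← Matrix.diag_eq_of_commute_single h02]; exact h00
  have h33 : (x : M5) 3 3 = 1 := by
    rw [← Matrix.diag_eq_of_commute_single h03]; exact h00
  have h44 : (x : M5) 4 4 = 1 := by
    rw [← Matrix.diag_eq_of_commute_single h04]; exact h00
  have e10 := hcol 1 (by decide)
  have e20 := hcol 2 (by decide)
  have e30 := hcol 3 (by decide)
  have e40 := hcol 4 (by decide)
  have e12 := hrow1 2 (by decide)
  have e13 := hrow1 3 (by decide)
  have e14 := hrow1 4 (by decide)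
  have e21 := hrow2 1 (by decide)
  have e23 := hrow2 3 (by decide)
  have e24 := hrow2 4 (by decide)
  have e31 := hrow3 1 (by decide)
  have e32 := hrow3 2 (by decide)
  have e34 := hrow3 4 (by decide)
  have e41 := hrow4 1 (by decide)
  have e42 := hrow4 2 (by decide)
  have e43 := hrow4 3 (by decide)
  have e02 := hcol2 0 (by decide)
  have e03 := hcol3 0 (by decide)
  have e04 := hcol4 0 (by decide)
  rcases zmod2_cases ((x : M5) 0 1) with h | h
  · left
    apply Subtype.ext
    ext i j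
    fin_cases i <;> fin_cases j <;> simp [Matrix.one_apply, *]
  · right
    apply Subtype.ext
    rw [hs]
    ext i j
    fin_cases i <;> fin_cases j <;>
      simp [Matrix.transvection, Matrix.one_apply, Matrix.single_apply, *]

/-- General Sylow lemma: if the centre of a Sylow 2-subgroup `T` of `C_G(z)` is `{1, z}`,
then `T` is a Sylow 2-subgroup of `G`. -/
lemma sylow_of_center {G : Type*} [Group G] [Finite G] (z : G)
    (T : Sylow 2 (Subgroup.centralizer ({z} : Set G)))
    (hzT : ∀ hz : z ∈ Subgroup.centralizer ({z} : Set G),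
      (⟨z, hz⟩ : ↥(Subgroup.centralizer ({z} : Set G))) ∈ (T : Subgroup _))
    (hcen : ∀ w : ↥(Subgroup.centralizer ({z} : Set G)), w ∈ (T : Subgroup _) →
      (∀ y ∈ (T : Subgroup _), w * y = y * w) → w = 1 ∨ (w : G) = z) :
    ¬ 2 ∣ ((T : Subgroup (Subgroup.centralizer ({z} : Set G))).map
      (Subgroup.subtype (Subgroup.centralizer ({z} : Set G)))).index := by
  classical
  have : Fact (Nat.Prime 2) := ⟨Nat.prime_two⟩
  intro hdvd
  have hzC : z ∈ Subgroup.centralizer ({z} : Set G) := Subgroup.mem_centralizer_singleton_iff.mpr rfl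
  have hTp : IsPGroup 2 ↥((T : Subgroup (Subgroup.centralizer ({z} : Set G))).map
      (Subgroup.subtype (Subgroup.centralizer ({z} : Set G)))) := T.2.map _
  obtain ⟨S, hS⟩ := hTp.exists_le_sylow
  have hne : (T : Subgroup (Subgroup.centralizer ({z} : Set G))).map
      (Subgroup.subtype (Subgroup.centralizer ({z} : Set G))) ≠ S := by
    intro h
    rw [h] at hdvd
    exact S.not_dvd_index hdvd
  have hlt := lt_of_le_of_ne hS hne
  obtain ⟨g, hgS, hgT, hgN⟩ := Cfsg.Agent.S1757.exists_normalizer_of_lt 2 (S : Subgroup G) _ S.2 hlt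
  have hzT' : z ∈ (T : Subgroup (Subgroup.centralizer ({z} : Set G))).map
      (Subgroup.subtype (Subgroup.centralizer ({z} : Set G))) := ⟨⟨z, hzC⟩, hzT hzC, rfl⟩
  have h1 : g * z * g⁻¹ ∈ (T : Subgroup (Subgroup.centralizer ({z} : Set G))).map
      (Subgroup.subtype (Subgroup.centralizer ({z} : Set G))) :=
    (Subgroup.mem_normalizer_iff.mp hgN z).mp hzT'
  obtain ⟨w, hwT, hw⟩ := h1
  have hw' : (w : G) = g * z * g⁻¹ := hw
  have hwc : ∀ y ∈ (T : Subgroup (Subgroup.centralizer ({z} : Set G))), w * y = y * w := by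
    intro y hy
    apply Subtype.ext
    show (w : G) * (y : G) = (y : G) * (w : G)
    rw [hw']
    have hy' : g⁻¹ * (y : G) * g ∈ (T : Subgroup (Subgroup.centralizer ({z} : Set G))).map
        (Subgroup.subtype (Subgroup.centralizer ({z} : Set G))) := by
      have := (Subgroup.mem_normalizer_iff.mp (inv_mem hgN) (y : G)).mp ⟨y, hy, rfl⟩
      simpa using this
    obtain ⟨v, hvT, hv⟩ := hy'
    have hvz : (v : G) * z = z * (v : G) := Subgroup.mem_centralizer_singleton_iff.mp v.2
    have hv' : (v : G) = g⁻¹ * (y : G) * g := hv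
    rw [hv'] at hvz
    calc g * z * g⁻¹ * (y : G) = g * (z * (g⁻¹ * (y : G) * g)) * g⁻¹ := by group
      _ = g * ((g⁻¹ * (y : G) * g) * z) * g⁻¹ := by rw [hvz]
      _ = (y : G) * (g * z * g⁻¹) := by group
  have hgz : g * z * g⁻¹ = z := by
    rcases hcen w hwT hwc with h | h
    · rw [← hw', h]
      have h2 : g * z * g⁻¹ = 1 := by rw [← hw', h]; rfl
      have h3 : z = 1 := by
        have : z = g⁻¹ * (g * z * g⁻¹) * g := by group
        rw [this, h2]; group
      rw [h3]; rfl
    · rw [← hw', h]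
  have hgC : g ∈ Subgroup.centralizer ({z} : Set G) := by
    rw [Subgroup.mem_centralizer_singleton_iff]
    calc g * z = g * z * g⁻¹ * g := by group
      _ = z * g := by rw [hgz]
  have hle : (T : Subgroup (Subgroup.centralizer ({z} : Set G))).map
      (Subgroup.subtype (Subgroup.centralizer ({z} : Set G))) ⊔ Subgroup.zpowers g ≤ S :=
    sup_le hS (by rw [Subgroup.zpowers_le]; exact hgS)
  have hR : IsPGroup 2 ↥(((T : Subgroup (Subgroup.centralizer ({z} : Set G))).map
      (Subgroup.subtype (Subgroup.centralizer ({z} : Set G))) ⊔ Subgroup.zpowers g).subgroupOf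
        (Subgroup.centralizer ({z} : Set G))) := (S.2.to_le hle).comap_subtype
  have hTR : (T : Subgroup (Subgroup.centralizer ({z} : Set G))) ≤
      ((T : Subgroup (Subgroup.centralizer ({z} : Set G))).map
      (Subgroup.subtype (Subgroup.centralizer ({z} : Set G))) ⊔ Subgroup.zpowers g).subgroupOf
        (Subgroup.centralizer ({z} : Set G)) := by
    intro y hy
    rw [Subgroup.mem_subgroupOf]
    exact Subgroup.mem_sup_left ⟨y, hy, rfl⟩
  have hRT := T.is_maximal' hR hTR
  have hgR : (⟨g, hgC⟩ : ↥(Subgroup.centralizer ({z} : Set G))) ∈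
      ((T : Subgroup (Subgroup.centralizer ({z} : Set G))).map
      (Subgroup.subtype (Subgroup.centralizer ({z} : Set G))) ⊔ Subgroup.zpowers g).subgroupOf
        (Subgroup.centralizer ({z} : Set G)) := by
    rw [Subgroup.mem_subgroupOf]
    exact Subgroup.mem_sup_right (Subgroup.mem_zpowers g)
  rw [hRT] at hgR
  exact hgT ⟨⟨g, hgC⟩, hgR, rfl⟩

theorem result {G : Type*} [Group G] [Finite G] (s : Matrix.SpecialLinearGroup (Fin 5) (ZMod 2)) (hs : (s : Matrix (Fin 5) (Fin 5) (ZMod 2)) = Matrix.transvection 0 1 1) (z : G) (hz : orderOf z = 2) (e : (Subgroup.centralizer ({z} : Set G)) ≃* Subgroup.centralizer ({s} : Set (Matrix.SpecialLinearGroup (Fin 5) (ZMod 2)))) (T : Sylow 2 (Subgroup.centralizer ({z} : Set G))) : ¬ 2 ∣ ((T : Subgroup (Subgroup.centralizer ({z} : Set G))).map (Subgroup.subtype (Subgroup.centralizer ({z} : Set G)))).index := by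
  classical
  have : Fact (Nat.Prime 2) := ⟨Nat.prime_two⟩
  have hQn : ((mid s hs).ker.comap e.toMonoidHom).Normal :=
    Subgroup.Normal.comap (MonoidHom.normal_ker _) _
  have hQp : IsPGroup 2 ↥((mid s hs).ker.comap e.toMonoidHom) := by
    rintro ⟨g, hg⟩
    refine ⟨2, ?_⟩
    apply Subtype.ext
    apply e.injective
    show e (g ^ 2 ^ 2) = e 1
    rw [map_pow, map_one]
    exact ker_pow s hs (e g) hg
  have hQT : (mid s hs).ker.comap e.toMonoidHom ≤ T :=
    Cfsg.Agent.Lib.Helper16.Basic.normal_isPGroup_le_sylow hQn hQp T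
  have hcenter : ∀ x : ↥(Subgroup.centralizer ({z} : Set G)), x ∈ (T : Subgroup _) →
      (∀ y ∈ (T : Subgroup _), x * y = y * x) → x = 1 ∨ ((e x : ↥(Subgroup.centralizer ({s} : Set SL5))) : SL5) = s := by
    intro x hx hcomm
    have key : ∀ (i j : Fin 5) (h : i ≠ j) (hm : tv i j h ∈ Subgroup.centralizer ({s} : Set SL5)),
        (⟨tv i j h, hm⟩ : ↥(Subgroup.centralizer ({s} : Set SL5))) ∈ (mid s hs).ker →
        Commute (Matrix.single i j (1 : ZMod 2)) (((e x : ↥(Subgroup.centralizer ({s} : Set SL5))) : SL5) : M5) := by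
      intro i j h hm hq
      have h1 : e.symm ⟨tv i j h, hm⟩ ∈ (mid s hs).ker.comap e.toMonoidHom := by
        show e (e.symm _) ∈ (mid s hs).ker
        rw [e.apply_symm_apply]; exact hq
      have h2 := hcomm _ (hQT h1)
      have h3 : e x * ⟨tv i j h, hm⟩ = ⟨tv i j h, hm⟩ * e x := by
        have := congrArg e h2
        rwa [map_mul, map_mul, e.apply_symm_apply] at this
      have h4 : ((e x : ↥(Subgroup.centralizer ({s} : Set SL5))) : SL5) * tv i j h = tv i j h * ((e x : ↥(Subgroup.centralizer ({s} : Set SL5))) : SL5) :=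
        congrArg Subtype.val h3
      exact comm_single (tv i j h) _ i j (tv_coe i j h) h4
    have h01 := comm_single s (e x).1 0 1 hs (Subgroup.mem_centralizer_singleton_iff.mp (e x).2)
    have hc := center_cases s hs (e x).1 h01
      (key 0 2 (by decide) (tv_mem s hs 0 2 _ c02) (tv_ker s hs 0 2 _ _ d02))
      (key 0 3 (by decide) (tv_mem s hs 0 3 _ c03) (tv_ker s hs 0 3 _ _ d03))
      (key 0 4 (by decide) (tv_mem s hs 0 4 _ c04) (tv_ker s hs 0 4 _ _ d04))
      (key 2 1 (by decide) (tv_mem s hs 2 1 _ c21) (tv_ker s hs 2 1 _ _ d21))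
      (key 3 1 (by decide) (tv_mem s hs 3 1 _ c31) (tv_ker s hs 3 1 _ _ d31))
      (key 4 1 (by decide) (tv_mem s hs 4 1 _ c41) (tv_ker s hs 4 1 _ _ d41))
    rcases hc with hc | hc
    · left
      apply e.injective
      rw [map_one]
      exact Subtype.ext hc
    · right; exact hc
  have hzC : z ∈ Subgroup.centralizer ({z} : Set G) := Subgroup.mem_centralizer_singleton_iff.mpr rfl
  have hzne : (⟨z, hzC⟩ : ↥(Subgroup.centralizer ({z} : Set G))) ≠ 1 := by
    intro h
    have h1 : z = 1 := congrArg Subtype.val h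
    rw [h1, orderOf_one] at hz
    exact absurd hz (by norm_num)
  have hzcentral : ∀ y : ↥(Subgroup.centralizer ({z} : Set G)),
      (⟨z, hzC⟩ : ↥(Subgroup.centralizer ({z} : Set G))) * y = y * ⟨z, hzC⟩ := by
    intro y
    apply Subtype.ext
    exact (Subgroup.mem_centralizer_singleton_iff.mp y.2).symm
  have hzT : (⟨z, hzC⟩ : ↥(Subgroup.centralizer ({z} : Set G))) ∈ (T : Subgroup _) := by
    have hn : (Subgroup.zpowers (⟨z, hzC⟩ : ↥(Subgroup.centralizer ({z} : Set G)))).Normal := by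
      constructor
      intro n hn g
      obtain ⟨k, rfl⟩ := Subgroup.mem_zpowers_iff.mp hn
      have hc : Commute g ((⟨z, hzC⟩ : ↥(Subgroup.centralizer ({z} : Set G))) ^ k) :=
        Commute.zpow_right (hzcentral g).symm k
      rw [hc.eq, mul_inv_cancel_right]
      exact hn
    have hp : IsPGroup 2 ↥(Subgroup.zpowers (⟨z, hzC⟩ : ↥(Subgroup.centralizer ({z} : Set G)))) := by
      apply IsPGroup.of_card (n := 1)
      rw [Nat.card_zpowers, ← Subgroup.orderOf_coe]
      simpa using hz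
    exact Cfsg.Agent.Lib.Helper16.Basic.normal_isPGroup_le_sylow hn hp T (Subgroup.mem_zpowers _)
  have hzs : ((e ⟨z, hzC⟩ : ↥(Subgroup.centralizer ({s} : Set SL5))) : SL5) = s :=
    (hcenter _ hzT (fun y _ => hzcentral y)).resolve_left hzne
  apply sylow_of_center z T (fun _ => hzT)
  intro w hwT hwc
  rcases hcenter w hwT hwc with h | h
  · left; exact h
  · right
    have h2 : e w = e ⟨z, hzC⟩ := Subtype.ext (h.trans hzs.symm)
    have h3 := e.injective h2
    rw [h3]

end Cfsg.Agent.S1717
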