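import Cfsg.Statements.S1754

set_option autoImplicit false
open Cfsg

namespace Cfsg.Agent.S1754

theorem map_center_equiv {H K : Type*} [Group H] [Group K] (e : H ≃* K) :
    (Subgroup.center H).map e.toMonoidHom = Subgroup.center K := by
  ext x
  simp only [Subgroup.mem_map, Subgroup.mem_center_iff]
  constructor
  · rintro ⟨y, hy, rfl⟩ g
    obtain ⟨g', rfl⟩ := e.surjective g
    show e g' * e y = e y * e g'
    rw [← map_mul, ← map_mul, hy g']
  · intro hx
    refine ⟨e.symm x, fun g => ?_, by simp⟩
    apply e.injective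
    simp [hx (e g)]

theorem isQuasisimple_congr {H K : Type*} [Group H] [Group K] (e : H ≃* K)
    (h : Cfsg.IsQuasisimple H) : Cfsg.IsQuasisimple K := by
  obtain ⟨hp, hs⟩ := h
  refine ⟨?_, ?_⟩
  · have := hp
    exact Group.IsPerfect.ofSurjective (f := e.toMonoidHom) e.surjective
  · let e' : K ⧸ Subgroup.center K ≃* H ⧸ Subgroup.center H :=
      QuotientGroup.congr (Subgroup.center K) (Subgroup.center H) e.symm (map_center_equiv e.symm)
    have := hs
    exact e'.isSimpleGroup

theorem result {G : Type*} [Group G] [Finite G]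
    (A : Subgroup G) (hA : Cfsg.IsStandardSubgroup A) (t : G) (ht : orderOf t = 2) (htA : t ∈ Subgroup.centralizer (A : Set G)) :
    Subgroup.centralizer ({t} : Set G) ≤ Subgroup.normalizer (A : Set G) ∧
      Cfsg.IsComponent (A.subgroupOf (Subgroup.centralizer ({t} : Set G))) := by
  obtain ⟨hq, ⟨heven, htight⟩, hcomm, hnorm⟩ := hA
  have h1 : Subgroup.centralizer ({t} : Set G) ≤ Subgroup.normalizer (A : Set G) := by
    intro g hg
    rw [hnorm]
    by_contra hgn
    have hodd := htight g hgn
    have htg : g * t * g⁻¹ = t := by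
      have := Subgroup.mem_centralizer_iff.mp hg t (Set.mem_singleton t)
      rw [← this, mul_inv_cancel_right]
    have hmem : t ∈ Subgroup.centralizer (A : Set G) ⊓
        (Subgroup.centralizer (A : Set G)).map (MulAut.conj g).toMonoidHom := by
      refine Subgroup.mem_inf.mpr ⟨htA, Subgroup.mem_map.mpr ⟨t, htA, ?_⟩⟩
      simpa using htg
    have hdvd : 2 ∣ Nat.card ↥(Subgroup.centralizer (A : Set G) ⊓
        (Subgroup.centralizer (A : Set G)).map (MulAut.conj g).toMonoidHom) := by
      have := orderOf_dvd_natCard (⟨t, hmem⟩ : ↥(Subgroup.centralizer (A : Set G) ⊓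
        (Subgroup.centralizer (A : Set G)).map (MulAut.conj g).toMonoidHom))
      rwa [Subgroup.orderOf_mk, ht] at this
    exact (Nat.not_even_iff_odd.mpr hodd) (even_iff_two_dvd.mpr hdvd)
  have hAC : A ≤ Subgroup.centralizer ({t} : Set G) := by
    intro a ha
    rw [Subgroup.mem_centralizer_iff]
    intro h hh
    rw [Set.mem_singleton_iff] at hh
    subst hh
    exact (Subgroup.mem_centralizer_iff.mp htA a ha).symm
  refine ⟨h1, ?_, ?_⟩
  · have hn : (A.subgroupOf (Subgroup.centralizer ({t} : Set G))).Normal :=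
      (Subgroup.normal_subgroupOf_iff_le_normalizer hAC).mpr h1
    exact Subgroup.Normal.isSubnormal hn
  · exact isQuasisimple_congr (Subgroup.subgroupOfEquivOfLe hAC).symm hq

end Cfsg.Agent.S1754
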