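import Cfsg.Statements.S1755
import Mathlib

set_option autoImplicit false
open Cfsg

namespace Cfsg.Agent.S1755

theorem cyc_invol_unique {H : Type*} [Group H] [Finite H] [IsCyclic H] (x y : H)
    (hx : orderOf x = 2) (hy : orderOf y = 2) : x = y := by
  classical
  haveI := Fintype.ofFinite H
  by_contra hne
  have h := IsCyclic.card_pow_eq_one_le (α := H) (n := 2) (by norm_num)
  have hx2 : x ^ 2 = 1 := by rw [← hx]; exact pow_orderOf_eq_one x
  have hy2 : y ^ 2 = 1 := by rw [← hy]; exact pow_orderOf_eq_one y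
  have hx1 : x ≠ 1 := by intro h1; rw [h1, orderOf_one] at hx; omega
  have hy1 : y ≠ 1 := by intro h1; rw [h1, orderOf_one] at hy; omega
  have hsub : ({1, x, y} : Finset H) ⊆ Finset.univ.filter (fun a : H => a ^ 2 = 1) := by
    intro a ha
    simp only [Finset.mem_insert, Finset.mem_singleton] at ha
    rcases ha with rfl | rfl | rfl <;> simp [hx2, hy2]
  have hc : ({1, x, y} : Finset H).card = 3 := by
    rw [Finset.card_insert_of_notMem, Finset.card_insert_of_notMem, Finset.card_singleton]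
    · simpa using hne
    · simp [Ne.symm hx1, Ne.symm hy1]
  have h3 := Finset.card_le_card hsub
  have h4 : (Finset.univ.filter (fun a : H => a ^ 2 = 1)).card ≤ 2 := by
    convert h using 2
  omega

theorem exists_pow_order_two {H : Type*} [Group H] (b : H) (hb : b ≠ 1) (k : ℕ)
    (hk : b ^ (2 ^ k) = 1) : ∃ n : ℕ, orderOf (b ^ n) = 2 := by
  have hdvd : orderOf b ∣ 2 ^ k := orderOf_dvd_of_pow_eq_one hk
  obtain ⟨m, hm, hmeq⟩ := (Nat.dvd_prime_pow Nat.prime_two).mp hdvd
  have hm1 : m ≠ 0 := by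
    intro h0
    rw [h0, pow_zero] at hmeq
    exact hb (orderOf_eq_one_iff.mp hmeq)
  obtain ⟨m', rfl⟩ := Nat.exists_eq_succ_of_ne_zero hm1
  refine ⟨2 ^ m', ?_⟩
  rw [orderOf_pow_of_dvd (by positivity) (by rw [hmeq]; exact pow_dvd_pow 2 (Nat.le_succ m')), hmeq,
    pow_succ, Nat.mul_div_cancel_left _ (by positivity)]

theorem main {G : Type*} [Group G] [Finite G] (z : G) (hz : orderOf z = 2) (C : Subgroup G)
    (hC : C = Subgroup.centralizer ({z} : Set G)) (Q : Subgroup ↥C) (hQn : Q.Normal)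
    (hQ2 : IsPGroup 2 ↥Q)
    (hcyc : ∀ A : Subgroup ↥Q, A.Characteristic → IsMulCommutative ↥A → IsCyclic ↥A)
    (zQ : ↥Q) (hzQ : ((zQ : ↥C) : G) = z)
    (B : Subgroup ↥Q) (hBc : B.Characteristic) (hBa : IsMulCommutative ↥B) (g : G) :
    ((B.map Q.subtype).map C.subtype).map (MulAut.conj g).toMonoidHom =
        (B.map Q.subtype).map C.subtype ∨
    ((B.map Q.subtype).map C.subtype).map (MulAut.conj g).toMonoidHom ⊓
        (B.map Q.subtype).map C.subtype = ⊥ := by
  classical
  have hzQord : orderOf zQ = 2 := by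
    rw [← hz, ← hzQ, Subgroup.orderOf_coe, Subgroup.orderOf_coe]
  have hzQcen : zQ ∈ Subgroup.center ↥Q := by
    rw [Subgroup.mem_center_iff]
    intro q
    apply Subtype.ext
    apply Subtype.ext
    show ((q : ↥C) : G) * ((zQ : ↥C) : G) = ((zQ : ↥C) : G) * ((q : ↥C) : G)
    rw [hzQ]
    have hq : ((q : ↥C) : G) ∈ Subgroup.centralizer ({z} : Set G) := hC ▸ (q : ↥C).2
    exact Subgroup.mem_centralizer_singleton_iff.mp hq
  have hcenc : IsCyclic ↥(Subgroup.center ↥Q) := hcyc _ inferInstance inferInstance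
  have hBcyc : IsCyclic ↥B := hcyc B hBc hBa
  have hBn : B.Normal := Subgroup.normal_of_characteristic B
  have huniq : ∀ b ∈ B, orderOf b = 2 → b = zQ := by
    intro b hb hbo
    have hbcen : b ∈ Subgroup.center ↥Q := by
      rw [Subgroup.mem_center_iff]
      intro q
      have hconj : q * b * q⁻¹ ∈ B := hBn.conj_mem b hb q
      have hord : orderOf (q * b * q⁻¹) = 2 := by
        have := (MulAut.conj q).orderOf_eq b
        rw [MulAut.conj_apply] at this
        rw [this, hbo]
      have h1 := cyc_invol_unique (H := ↥B) ⟨q * b * q⁻¹, hconj⟩ ⟨b, hb⟩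
        (by rw [← Subgroup.orderOf_coe]; exact hord) (by rw [← Subgroup.orderOf_coe]; exact hbo)
      have h2 : q * b * q⁻¹ = b := congrArg Subtype.val h1
      exact mul_inv_eq_iff_eq_mul.mp h2
    have h1 := cyc_invol_unique (H := ↥(Subgroup.center ↥Q)) ⟨b, hbcen⟩ ⟨zQ, hzQcen⟩
      (by rw [← Subgroup.orderOf_coe]; exact hbo) (by rw [← Subgroup.orderOf_coe]; exact hzQord)
    exact congrArg Subtype.val h1
  have key : ∀ b ∈ B, b ≠ 1 → ∃ n : ℕ, b ^ n = zQ := by
    intro b hb hb1
    obtain ⟨k, hk⟩ := hQ2 b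
    obtain ⟨n, hn⟩ := exists_pow_order_two b hb1 k hk
    exact ⟨n, huniq _ (B.pow_mem hb n) hn⟩
  by_cases hg : g ∈ C
  · left
    have hconj : ∀ c : ↥C, ∀ w ∈ (B.map Q.subtype).map C.subtype,
        (c : G) * w * (c : G)⁻¹ ∈ (B.map Q.subtype).map C.subtype := by
      intro c w hw
      obtain ⟨y, hy, rfl⟩ := Subgroup.mem_map.mp hw
      obtain ⟨b, hb, rfl⟩ := Subgroup.mem_map.mp hy
      have hφ : B.map (MulAut.conjNormal c : MulAut ↥Q).toMonoidHom = B :=
        (Subgroup.characteristic_iff_map_eq.mp hBc) _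
      have hb' : (MulAut.conjNormal c : MulAut ↥Q) b ∈ B := by
        rw [← hφ]
        exact Subgroup.mem_map_of_mem _ hb
      refine Subgroup.mem_map.mpr ⟨_, Subgroup.mem_map.mpr ⟨_, hb', rfl⟩, ?_⟩
      simp [MulAut.conjNormal_apply]
    apply le_antisymm
    · rintro w hw
      obtain ⟨y, hy, rfl⟩ := Subgroup.mem_map.mp hw
      simpa using hconj ⟨g, hg⟩ y hy
    · intro w hw
      refine Subgroup.mem_map.mpr ⟨g⁻¹ * w * g, ?_, ?_⟩
      · have := hconj ⟨g⁻¹, C.inv_mem hg⟩ w hw
        simpa using this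
      · simp [mul_assoc]
  · right
    rw [eq_bot_iff]
    intro w hw
    obtain ⟨hw1, hw2⟩ := Subgroup.mem_inf.mp hw
    rw [Subgroup.mem_bot]
    by_contra hw_ne
    obtain ⟨y2, hy2, hy2w⟩ := Subgroup.mem_map.mp hw1
    obtain ⟨c2, hc2, rfl⟩ := Subgroup.mem_map.mp hy2
    obtain ⟨b2, hb2, rfl⟩ := Subgroup.mem_map.mp hc2
    obtain ⟨c1, hc1, hc1w⟩ := Subgroup.mem_map.mp hw2
    obtain ⟨b1, hb1, rfl⟩ := Subgroup.mem_map.mp hc1
    have hc1w' : ((b1 : ↥C) : G) = w := hc1w
    have hy2w' : g * ((b2 : ↥C) : G) * g⁻¹ = w := hy2w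
    have hb1ne : b1 ≠ 1 := by
      rintro rfl
      apply hw_ne
      rw [← hc1w']
      rfl
    obtain ⟨n, hn⟩ := key b1 hb1 hb1ne
    have hwn : w ^ n = z := by
      rw [← hc1w', ← hzQ, ← hn]
      rfl
    have hwn2 : g * (((b2 ^ n : ↥Q) : ↥C) : G) * g⁻¹ = z := by
      rw [← hwn, ← hy2w', conj_pow]
      rfl
    have hb2o : orderOf (b2 ^ n) = 2 := by
      rw [← Subgroup.orderOf_coe, ← Subgroup.orderOf_coe]
      have := (MulAut.conj g).orderOf_eq (((b2 ^ n : ↥Q) : ↥C) : G)
      rw [MulAut.conj_apply, hwn2, hz] at this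
      exact this.symm
    have hb2z : b2 ^ n = zQ := huniq _ (B.pow_mem hb2 n) hb2o
    have hgz : g * z * g⁻¹ = z := by
      rw [hb2z, hzQ] at hwn2
      exact hwn2
    apply hg
    rw [hC, Subgroup.mem_centralizer_singleton_iff]
    exact mul_inv_eq_iff_eq_mul.mp hgz

theorem result {G : Type*} [Group G] [Finite G] (z : G) (hz : orderOf z = 2) (hQ : Cfsg.IsOfSymplecticType ↥(Cfsg.generalizedFittingSubgroup ↥(Subgroup.centralizer ({z} : Set G))))
    (B : Subgroup ↥(Cfsg.generalizedFittingSubgroup ↥(Subgroup.centralizer ({z} : Set G)))) (hBc : B.Characteristic) (hBa : IsMulCommutative ↥B) (g : G) :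
    ((B.map (Cfsg.generalizedFittingSubgroup ↥(Subgroup.centralizer ({z} : Set G))).subtype).map (Subgroup.centralizer ({z} : Set G)).subtype).map (MulAut.conj g).toMonoidHom =
        (B.map (Cfsg.generalizedFittingSubgroup ↥(Subgroup.centralizer ({z} : Set G))).subtype).map (Subgroup.centralizer ({z} : Set G)).subtype ∨
      ((B.map (Cfsg.generalizedFittingSubgroup ↥(Subgroup.centralizer ({z} : Set G))).subtype).map (Subgroup.centralizer ({z} : Set G)).subtype).map (MulAut.conj g).toMonoidHom ⊓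
        (B.map (Cfsg.generalizedFittingSubgroup ↥(Subgroup.centralizer ({z} : Set G))).subtype).map (Subgroup.centralizer ({z} : Set G)).subtype = ⊥ := by
  classical
  obtain ⟨hQ2, hQcyc⟩ := hQ
  haveI : Fact (Nat.Prime 2) := ⟨Nat.prime_two⟩
  have hlayer : Cfsg.layer ↥(Subgroup.centralizer ({z} : Set G)) = ⊥ := by
    unfold Cfsg.layer
    rw [eq_bot_iff]
    apply sSup_le
    intro K hK
    exfalso
    have hKQ : K ≤ Cfsg.generalizedFittingSubgroup ↥(Subgroup.centralizer ({z} : Set G)) :=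
      le_trans (le_sSup hK) le_sup_left
    obtain ⟨hsub, hperf, hsimp⟩ := hK
    have hK2 : IsPGroup 2 ↥K := hQ2.to_le hKQ
    have hnil : Group.IsNilpotent ↥K := hK2.isNilpotent
    by_cases hnt : Nontrivial ↥K
    · exact Group.IsPerfect.not_isNilpotent (G := ↥K) hnil
    · rw [not_nontrivial_iff_subsingleton] at hnt
      have hnq : Nontrivial (↥K ⧸ Subgroup.center ↥K) := hsimp.toNontrivial
      obtain ⟨a, b, hab⟩ := hnq
      apply hab
      induction a using QuotientGroup.induction_on with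
      | H a =>
        induction b using QuotientGroup.induction_on with
        | H b => rw [Subsingleton.elim a b]
  have hQF : Cfsg.generalizedFittingSubgroup ↥(Subgroup.centralizer ({z} : Set G)) =
      Cfsg.fittingSubgroup ↥(Subgroup.centralizer ({z} : Set G)) := by
    unfold Cfsg.generalizedFittingSubgroup
    rw [hlayer, bot_sup_eq]
  have hQn : (Cfsg.generalizedFittingSubgroup ↥(Subgroup.centralizer ({z} : Set G))).Normal := by
    rw [hQF]
    exact Subgroup.sSup_normal _ (fun _ h => h.1)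
  have hzC : z ∈ Subgroup.centralizer ({z} : Set G) := Subgroup.mem_centralizer_singleton_iff.mpr rfl
  have hzQ : (⟨z, hzC⟩ : ↥(Subgroup.centralizer ({z} : Set G))) ∈
      Cfsg.generalizedFittingSubgroup ↥(Subgroup.centralizer ({z} : Set G)) := by
    rw [hQF]
    have hcen : Subgroup.zpowers (⟨z, hzC⟩ : ↥(Subgroup.centralizer ({z} : Set G))) ≤
        Subgroup.center _ := by
      rw [Subgroup.zpowers_le, Subgroup.mem_center_iff]
      intro c'
      apply Subtype.ext
      exact Subgroup.mem_centralizer_singleton_iff.mp c'.2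
    have hle : Subgroup.zpowers (⟨z, hzC⟩ : ↥(Subgroup.centralizer ({z} : Set G))) ≤
        Cfsg.fittingSubgroup _ := by
      apply le_sSup
      refine ⟨⟨?_⟩, ?_⟩
      · intro n hn c
        have := Subgroup.mem_center_iff.mp (hcen hn) c
        rw [this, mul_inv_cancel_right]
        exact hn
      · exact ⟨⟨1, Subgroup.upperCentralSeries_one_eq_top_iff.mpr inferInstance⟩⟩
    exact hle (Subgroup.mem_zpowers _)
  exact main z hz _ rfl _ hQn hQ2 hQcyc ⟨⟨z, hzC⟩, hzQ⟩ rfl B hBc hBa g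

end Cfsg.Agent.S1755
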