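import Cfsg.Statements.S1756
import Mathlib

set_option autoImplicit false
open Cfsg

namespace Cfsg.Agent.S1756

theorem two_eq {Z : Type*} [Group Z] (h : Nat.card Z = 2) {a b : Z} (ha : a ≠ 1) (hb : b ≠ 1) :
    a = b := by
  obtain ⟨y, -, hy⟩ := (Nat.card_eq_two_iff' (1 : Z)).mp h
  rw [hy a ha, hy b hb]

theorem two_mul {Z : Type*} [Group Z] (h : Nat.card Z = 2) {a b : Z} (ha : a ≠ 1) (hb : b ≠ 1) :
    a * b = 1 := by
  by_contra hab
  have h1 : a * b = a := two_eq h hab ha
  exact hb (by simpa using h1)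

open Classical in
noncomputable def eps (Z : Type*) [Group Z] (h : Nat.card Z = 2) : Z →* ℂˣ where
  toFun a := if a = 1 then 1 else -1
  map_one' := by simp
  map_mul' a b := by
    by_cases ha : a = 1
    · subst ha
      simp
    · by_cases hb : b = 1
      · subst hb
        simp
      · simp [ha, hb, two_mul h ha hb]

theorem eps_eq_one {Z : Type*} [Group Z] (h : Nat.card Z = 2) (a : Z) (ha : eps Z h a = 1) :
    a = 1 := by
  by_contra hne
  have h1 : eps Z h a = -1 := by
    simp [eps, hne]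
  rw [h1] at ha
  have h2 := congrArg (fun u : ℂˣ => (u : ℂ)) ha
  norm_num at h2

theorem eps_injective {Z : Type*} [Group Z] (h : Nat.card Z = 2) :
    Function.Injective (eps Z h) := by
  rw [injective_iff_map_eq_one]
  exact eps_eq_one h

theorem exists_inner {P : Type*} [Group P] [Finite P]
    (hcomm : commutator P = Subgroup.center P) (hcard : Nat.card (Subgroup.center P) = 2)
    (lam : P →* ↥(Subgroup.center P)) :
    ∃ y : P, ∀ q : P, (lam q : P) = y * q * y⁻¹ * q⁻¹ := by
  classical
  have hc : ∀ y q : P, y * q * y⁻¹ * q⁻¹ ∈ Subgroup.center P := by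
    intro y q
    rw [← hcomm]
    exact Subgroup.commutator_mem_commutator (Subgroup.mem_top y) (Subgroup.mem_top q)
  have hε : Function.Injective (eps ↥(Subgroup.center P) hcard) := eps_injective hcard
  let κ : P → (P →* ↥(Subgroup.center P)) := fun y =>
    { toFun := fun q => ⟨y * q * y⁻¹ * q⁻¹, hc y q⟩
      map_one' := by
        apply Subtype.ext
        simp
      map_mul' := fun q q' => by
        apply Subtype.ext
        show y * (q * q') * y⁻¹ * (q * q')⁻¹ = (y * q * y⁻¹ * q⁻¹) * (y * q' * y⁻¹ * q'⁻¹)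
        have h1 := Subgroup.mem_center_iff.mp (hc y q') q⁻¹
        calc y * (q * q') * y⁻¹ * (q * q')⁻¹
            = y * q * y⁻¹ * ((y * q' * y⁻¹ * q'⁻¹) * q⁻¹) := by group
          _ = y * q * y⁻¹ * (q⁻¹ * (y * q' * y⁻¹ * q'⁻¹)) := by rw [h1]
          _ = (y * q * y⁻¹ * q⁻¹) * (y * q' * y⁻¹ * q'⁻¹) := by group }
  have hκ : ∀ y q, ((κ y q : ↥(Subgroup.center P)) : P) = y * q * y⁻¹ * q⁻¹ := fun y q => rfl
  let Ψ : P →* (P →* ℂˣ) :=
    { toFun := fun y => (eps ↥(Subgroup.center P) hcard).comp (κ y)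
      map_one' := by
        ext q
        have : κ 1 q = 1 := by
          apply Subtype.ext
          rw [hκ]
          simp
        simp [this]
      map_mul' := fun y y' => by
        ext q
        have : κ (y * y') q = κ y q * κ y' q := by
          apply Subtype.ext
          rw [Subgroup.coe_mul, hκ, hκ, hκ]
          have h1 := Subgroup.mem_center_iff.mp (hc y' q) y
          calc y * y' * q * (y * y')⁻¹ * q⁻¹
              = (y * (y' * q * y'⁻¹ * q⁻¹)) * q * y⁻¹ * q⁻¹ := by group
            _ = ((y' * q * y'⁻¹ * q⁻¹) * y) * q * y⁻¹ * q⁻¹ := by rw [h1]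
            _ = (y' * q * y'⁻¹ * q⁻¹) * (y * q * y⁻¹ * q⁻¹) := by group
            _ = (y * q * y⁻¹ * q⁻¹) * (y' * q * y'⁻¹ * q⁻¹) :=
                (Subgroup.mem_center_iff.mp (hc y' q) (y * q * y⁻¹ * q⁻¹)).symm
        simp [this] }
  have hΨ : ∀ y q, Ψ y q = eps ↥(Subgroup.center P) hcard (κ y q) := fun y q => rfl
  have hker : Ψ.ker = Subgroup.center P := by
    ext y
    rw [MonoidHom.mem_ker, Subgroup.mem_center_iff]
    constructor
    · intro h g
      have h1 : Ψ y g = 1 := by rw [h]; rfl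
      rw [hΨ] at h1
      have h2 := eps_eq_one hcard _ h1
      have h3 := congrArg Subtype.val h2
      rw [hκ] at h3
      have h4 : y * g * y⁻¹ * g⁻¹ = 1 := h3
      have h5 : y * g * y⁻¹ = g := mul_inv_eq_one.mp h4
      exact (mul_inv_eq_iff_eq_mul.mp h5).symm
    · intro h
      ext q
      rw [hΨ]
      have : κ y q = 1 := by
        apply Subtype.ext
        rw [hκ, ← h q]
        simp
      simp [this]
  have : NeZero ((Monoid.exponent (Abelianization P) : ℕ) : ℂ) :=
    ⟨Nat.cast_ne_zero.mpr Monoid.exponent_ne_zero_of_finite⟩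
  have hfin : Finite (P →* ℂˣ) := Finite.of_equiv _ (Abelianization.lift (G := P) (A := ℂˣ)).symm
  have hcardE : Nat.card (P →* ℂˣ) = Nat.card (Abelianization P) := by
    rw [Nat.card_congr (Abelianization.lift (G := P) (A := ℂˣ))]
    exact CommGroup.card_monoidHom_of_hasEnoughRootsOfUnity (Abelianization P) ℂ
  have hcardR : Nat.card Ψ.range = Nat.card (P →* ℂˣ) := by
    rw [← Subgroup.index_ker, hker, ← hcomm, hcardE]
    rfl
  have htop : Ψ.range = ⊤ := Subgroup.eq_top_of_card_eq _ hcardR
  have hmem : (eps ↥(Subgroup.center P) hcard).comp lam ∈ Ψ.range := by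
    rw [htop]
    exact Subgroup.mem_top _
  obtain ⟨y, hy⟩ := hmem
  refine ⟨y, fun q => ?_⟩
  have h1 : Ψ y q = ((eps ↥(Subgroup.center P) hcard).comp lam) q := by rw [hy]
  rw [hΨ] at h1
  have h2 : κ y q = lam q := hε h1
  rw [← h2, hκ]

theorem central_of_index_two {P : Type*} [Group P] [Finite P] (θ : P →* P)
    (hθ : ∀ q, θ (θ q) = q) (F : Subgroup P) (hF : ∀ q, q ∈ F ↔ θ q = q) (hi : F.index ≤ 2) :
    ∀ q, θ q * q⁻¹ ∈ Subgroup.center P := by
  intro x
  by_cases hx : x ∈ F
  · rw [(hF x).mp hx, mul_inv_cancel]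
    exact Subgroup.one_mem _
  · have hi2 : F.index = 2 := by
      have h0 : F.index ≠ 0 := Subgroup.index_ne_zero_of_finite
      have h1 : F.index ≠ 1 := by
        intro h1
        rw [Subgroup.index_eq_one] at h1
        exact hx (h1 ▸ Subgroup.mem_top x)
      omega
    have hnorm : F.Normal := Subgroup.normal_of_index_eq_two hi2
    have hθx : θ x = θ x * x⁻¹ * x := by group
    generalize hc : θ x * x⁻¹ = c at hθx ⊢
    have hθxF : θ x ∉ F := by
      intro h
      have h1 := (hF _).mp h
      rw [hθ] at h1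
      exact hx ((hF x).mpr h1.symm)
    have hcF : c ∈ F := by
      rw [← hc, Subgroup.mul_mem_iff_of_index_two hi2]
      constructor
      · intro h
        exact absurd h hθxF
      · intro h
        exact absurd (F.inv_mem_iff.mp h) hx
    have hθc : θ c = c := (hF c).mp hcF
    have hcc : c * c = 1 := by
      have h := hθ x
      rw [hθx, map_mul, hθc, hθx] at h
      have h' : c * c * x = 1 * x := by rw [mul_assoc, h, one_mul]
      exact mul_right_cancel h'
    have hcinv : c⁻¹ = c := inv_eq_of_mul_eq_one_left hcc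
    have hcF' : ∀ h ∈ F, c * h = h * c := by
      intro h hh
      have h' : x⁻¹ * h * x ∈ F := by
        have := hnorm.conj_mem h hh x⁻¹
        simpa using this
      have e0 : x * (x⁻¹ * h * x) * x⁻¹ = h := by group
      have e1 : θ (x * (x⁻¹ * h * x) * x⁻¹) = h := by
        rw [e0]
        exact (hF h).mp hh
      rw [map_mul, map_mul, (hF _).mp h', map_inv, hθx] at e1
      have e2 : c * h * c⁻¹ = c * x * (x⁻¹ * h * x) * (c * x)⁻¹ := by group
      rw [e1] at e2
      exact mul_inv_eq_iff_eq_mul.mp e2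
    have hcx : c * x = x * c := by
      have hxx : x * x ∈ F := (Subgroup.mul_mem_iff_of_index_two hi2).mpr Iff.rfl
      have e := (hF _).mp hxx
      rw [map_mul, hθx] at e
      have e3 : c * (x * c) * x = x * x := by
        rw [← e]
        group
      have e4 : c * (x * c) = x := mul_right_cancel e3
      have e5 : x * c = c⁻¹ * x := eq_inv_mul_of_mul_eq e4
      rw [e5, hcinv]
    rw [Subgroup.mem_center_iff]
    intro g
    by_cases hg : g ∈ F
    · exact (hcF' g hg).symm
    · have hxg : x⁻¹ * g ∈ F := by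
        rw [Subgroup.mul_mem_iff_of_index_two hi2]
        constructor
        · intro h
          exact absurd (F.inv_mem_iff.mp h) hx
        · intro h
          exact absurd h hg
      have h1 := hcF' _ hxg
      calc g * c = x * (x⁻¹ * g * c) := by group
        _ = x * (c * (x⁻¹ * g)) := by rw [h1]
        _ = (x * c) * (x⁻¹ * g) := by group
        _ = (c * x) * (x⁻¹ * g) := by rw [hcx]
        _ = c * g := by group

theorem result {G : Type*} [Group G] [Finite G] (Q : Subgroup G)
    (hQ : Cfsg.IsExtraspecial 2 ↥Q) (t : G) (ht : orderOf t = 2) (htN : t ∈ Subgroup.normalizer (Q : Set G))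
    (hi : (Subgroup.centralizer ({t} : Set G) ⊓ Q).relIndex Q ≤ 2) :
    t ∈ Q ⊔ Subgroup.centralizer (Q : Set G) := by
  classical
  obtain ⟨⟨hp, hfr, hcomm⟩, hcard⟩ := hQ
  have htt : t * t = 1 := by
    rw [← pow_two, ← ht, pow_orderOf_eq_one]
  have htinv : t⁻¹ = t := inv_eq_of_mul_eq_one_left htt
  let θ : ↥Q →* ↥Q :=
    { toFun := fun q => ⟨t * q * t⁻¹, (Subgroup.mem_normalizer_iff.mp htN q).mp q.2⟩
      map_one' := by
        apply Subtype.ext
        simp
      map_mul' := fun a b => by
        apply Subtype.ext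
        simp [mul_assoc] }
  have hθ_val : ∀ q : ↥Q, ((θ q : ↥Q) : G) = t * q * t⁻¹ := fun q => rfl
  have hθθ : ∀ q, θ (θ q) = q := by
    intro q
    apply Subtype.ext
    rw [hθ_val, hθ_val, htinv]
    calc t * (t * (q : G) * t) * t = (t * t) * q * (t * t) := by group
      _ = q := by rw [htt, one_mul, mul_one]
  have hF : ∀ q : ↥Q, q ∈ (Subgroup.centralizer ({t} : Set G) ⊓ Q).subgroupOf Q ↔ θ q = q := by
    intro q
    rw [Subgroup.mem_subgroupOf, Subgroup.mem_inf, Subgroup.mem_centralizer_singleton_iff]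
    constructor
    · rintro ⟨h, -⟩
      apply Subtype.ext
      rw [hθ_val, ← h, mul_inv_cancel_right]
    · intro h
      have h1 := congrArg Subtype.val h
      rw [hθ_val] at h1
      exact ⟨(mul_inv_eq_iff_eq_mul.mp h1).symm, q.2⟩
  have hcen := central_of_index_two θ hθθ _ hF hi
  let lam : ↥Q →* ↥(Subgroup.center ↥Q) :=
    { toFun := fun q => ⟨θ q * q⁻¹, hcen q⟩
      map_one' := by
        apply Subtype.ext
        simp
      map_mul' := fun a b => by
        apply Subtype.ext
        show θ (a * b) * (a * b)⁻¹ = θ a * a⁻¹ * (θ b * b⁻¹)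
        have hb := Subgroup.mem_center_iff.mp (hcen b) a⁻¹
        rw [map_mul]
        calc θ a * θ b * (a * b)⁻¹ = θ a * ((θ b * b⁻¹) * a⁻¹) := by group
          _ = θ a * (a⁻¹ * (θ b * b⁻¹)) := by rw [hb]
          _ = θ a * a⁻¹ * (θ b * b⁻¹) := by group }
  obtain ⟨y, hy⟩ := exists_inner hcomm hcard lam
  have hconj : ∀ q : ↥Q, t * (q : G) * t⁻¹ = y * q * (y : G)⁻¹ := by
    intro q
    have h1 : θ q * q⁻¹ = y * q * y⁻¹ * q⁻¹ := hy q
    have h2 : θ q = y * q * y⁻¹ := mul_right_cancel h1
    have h3 := congrArg Subtype.val h2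
    rw [hθ_val] at h3
    simpa using h3
  have hmem : (y : G)⁻¹ * t ∈ Subgroup.centralizer (Q : Set G) := by
    rw [Subgroup.mem_centralizer_iff]
    intro q hq
    have h1 := hconj ⟨q, hq⟩
    have h1' : t * q * t⁻¹ = y * q * (y : G)⁻¹ := h1
    calc q * ((y : G)⁻¹ * t) = (y : G)⁻¹ * ((y : G) * q * (y : G)⁻¹) * t := by group
      _ = (y : G)⁻¹ * (t * q * t⁻¹) * t := by rw [h1']
      _ = (y : G)⁻¹ * t * q := by group
  have e : t = (y : G) * ((y : G)⁻¹ * t) := by group
  rw [e]
  exact Subgroup.mul_mem_sup y.2 hmem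

end Cfsg.Agent.S1756
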