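import Cfsg.Statements.S1780

set_option autoImplicit false
open Cfsg

namespace Cfsg.Agent.S1780

theorem result {A : Type*} [CommGroup A] [Finite A]
    (hA : IsPGroup 2 A) (t : MulAut A) (ht : ∃ k : ℕ, orderOf t = 2 ^ k) (hC : ∀ a : A, t (t a) = a → t a = a) :
    ∀ a : A, t a = a := by
  classical
  obtain ⟨k, hk⟩ := ht
  have htk : t ^ (2 ^ k) = 1 := by rw [← hk]; exact pow_orderOf_eq_one t
  let φ : A → A := fun a => t a * a⁻¹
  have hφ : ∀ a, t a = a * φ a := by
    intro a
    simp only [φ]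
    rw [mul_comm a, inv_mul_cancel_right]
  have hφ1 : ∀ a, φ a = 1 ↔ t a = a := by
    intro a
    simp only [φ]
    exact mul_inv_eq_one
  have hφmul : ∀ a b, φ (a * b) = φ a * φ b := by
    intro a b
    simp only [φ, map_mul, mul_inv]
    exact mul_mul_mul_comm _ _ _ _
  have hφone : φ 1 = 1 := by simp [φ]
  have hφsq : ∀ a, (φ a) ^ 2 = φ (a ^ 2) := by
    intro a
    rw [pow_two, pow_two, hφmul]
  have hV : ∀ v, v ^ 2 = 1 → (φ v) ^ 2 = 1 := by
    intro v hv
    rw [hφsq, hv, hφone]
  have hVn : ∀ n v, v ^ 2 = 1 → (φ^[n] v) ^ 2 = 1 := by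
    intro n
    induction n with
    | zero => intro v hv; simpa using hv
    | succ n ih =>
      intro v hv
      rw [Function.iterate_succ_apply']
      exact hV _ (ih v hv)
  have hform : ∀ j, ∀ v, v ^ 2 = 1 → (t ^ (2 ^ j)) v = v * φ^[2 ^ j] v := by
    intro j
    induction j with
    | zero =>
      intro v _
      simp only [pow_zero, pow_one, Function.iterate_one]
      exact hφ v
    | succ j ih =>
      intro v hv
      have h1 : (t ^ (2 ^ (j + 1))) v = (t ^ (2 ^ j)) ((t ^ (2 ^ j)) v) := by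
        rw [pow_succ, pow_mul, pow_two]
        rfl
      have hw : (φ^[2 ^ j] v) ^ 2 = 1 := hVn _ v hv
      rw [h1, ih v hv, map_mul, ih v hv, ih _ hw]
      have h2 : φ^[2 ^ (j + 1)] v = φ^[2 ^ j] (φ^[2 ^ j] v) := by
        rw [← Function.iterate_add_apply]
        congr 1
        ring
      rw [h2]
      have h3 : φ^[2 ^ j] v * φ^[2 ^ j] v = 1 := by rw [← pow_two]; exact hw
      calc v * φ^[2 ^ j] v * (φ^[2 ^ j] v * φ^[2 ^ j] (φ^[2 ^ j] v))
          = v * (φ^[2 ^ j] v * φ^[2 ^ j] v) * φ^[2 ^ j] (φ^[2 ^ j] v) := by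
            simp only [mul_assoc]
        _ = v * φ^[2 ^ j] (φ^[2 ^ j] v) := by rw [h3, mul_one]
  have hkill : ∀ v, v ^ 2 = 1 → φ^[2 ^ k] v = 1 := by
    intro v hv
    have h := hform k v hv
    rw [htk] at h
    have h' : v = v * φ^[2 ^ k] v := h
    exact (mul_eq_left.mp h'.symm)
  have htt : ∀ w, w ^ 2 = 1 → t (t w) = w * φ (φ w) := by
    intro w hw
    have h := hform 1 w hw
    have e : (t ^ (2 ^ 1)) w = t (t w) := by
      rw [pow_one, pow_two]; rfl
    rw [e] at h
    rw [h]
    rfl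
  have hdesc : ∀ n v, v ^ 2 = 1 → φ^[n + 1] v = 1 → φ v = 1 := by
    intro n
    induction n with
    | zero => intro v _ h; simpa using h
    | succ n ih =>
      intro v hv h
      apply ih v hv
      rw [Function.iterate_succ_apply', Function.iterate_succ_apply'] at h
      have hw : (φ^[n] v) ^ 2 = 1 := hVn n v hv
      have h4 := htt _ hw
      rw [h, mul_one] at h4
      have h5 := hC _ h4
      rw [Function.iterate_succ_apply']
      exact (hφ1 _).mpr h5
  have h6 : ∀ v, v ^ 2 = 1 → t v = v := by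
    intro v hv
    have hpos : 0 < 2 ^ k := by positivity
    obtain ⟨m, hm⟩ := Nat.exists_eq_succ_of_ne_zero hpos.ne'
    have h := hkill v hv
    rw [hm] at h
    exact (hφ1 v).mp (hdesc m v hv h)
  have h7 : ∀ a, t (a ^ 2) = a ^ 2 → t a = a := by
    intro a ha
    apply hC
    have hsq : (φ a) ^ 2 = 1 := by
      rw [hφsq]
      exact (hφ1 _).mpr ha
    have h8 := h6 _ hsq
    rw [hφ a, map_mul, hφ a, h8]
    calc a * φ a * φ a = a * (φ a) ^ 2 := by rw [pow_two, mul_assoc]
      _ = a := by rw [hsq, mul_one]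
  have h9 : ∀ n a, a ^ (2 ^ n) = 1 → t a = a := by
    intro n
    induction n with
    | zero =>
      intro a ha
      simp only [pow_zero, pow_one] at ha
      rw [ha, map_one]
    | succ n ih =>
      intro a ha
      apply h7
      apply ih
      rw [← pow_mul, ← pow_succ']
      exact ha
  intro a
  obtain ⟨n, hn⟩ := hA a
  exact h9 n a hn

end Cfsg.Agent.S1780
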