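import Cfsg.Statements.S1781
import Mathlib
import Cfsg.Agent.S1780
import Cfsg.Agent.S1757

set_option autoImplicit false
open Cfsg

namespace Cfsg.Agent.S1781

open scoped IsMulCommutative commutatorElement

theorem ti_conj {G : Type*} [Group G] (A : Subgroup G)
    (hti : ∀ h : G, A.map (MulAut.conj h).toMonoidHom = A ∨
      A.map (MulAut.conj h).toMonoidHom ⊓ A = ⊥) (g : G) :
    ∀ h : G, (A.map (MulAut.conj g).toMonoidHom).map (MulAut.conj h).toMonoidHom =
        A.map (MulAut.conj g).toMonoidHom ∨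
      (A.map (MulAut.conj g).toMonoidHom).map (MulAut.conj h).toMonoidHom ⊓
        A.map (MulAut.conj g).toMonoidHom = ⊥ := by
  intro h
  have e : (A.map (MulAut.conj g).toMonoidHom).map (MulAut.conj h).toMonoidHom =
      (A.map (MulAut.conj (g⁻¹ * h * g)).toMonoidHom).map (MulAut.conj g).toMonoidHom := by
    rw [Subgroup.map_map, Subgroup.map_map]
    congr 1
    ext x
    simp [mul_assoc]
  rcases hti (g⁻¹ * h * g) with h1 | h1
  · left
    rw [e, h1]
  · right
    rw [e, ← Subgroup.map_inf _ _ _ (MulAut.conj g).injective, h1, Subgroup.map_bot]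

theorem core {G : Type*} [Group G] [Finite G] (A B : Subgroup G)
    (hA2 : IsPGroup 2 ↥A) (hB2 : IsPGroup 2 ↥B) (hBa : IsMulCommutative ↥B)
    (hAti : ∀ h : G, A.map (MulAut.conj h).toMonoidHom = A ∨
      A.map (MulAut.conj h).toMonoidHom ⊓ A = ⊥)
    (hBti : ∀ h : G, B.map (MulAut.conj h).toMonoidHom = B ∨
      B.map (MulAut.conj h).toMonoidHom ⊓ B = ⊥)
    (hcard : Nat.card ↥A ≤ Nat.card ↥B) (hAB : A ⊓ B = ⊥)
    (d : G) (hdA : d ∈ A) (hdN : d ∈ Subgroup.normalizer (B : Set G)) (hd2 : d ^ 2 ≠ 1) :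
    ⁅A, B⁆ = ⊥ := by
  have : Fact (Nat.Prime 2) := ⟨Nat.prime_two⟩
  have hc : ∀ d' ∈ A, d' ≠ 1 → ∀ b : G, b * d' = d' * b →
      b ∈ Subgroup.normalizer (A : Set G) := by
    intro d' hd' hd'1 b hb
    rw [Subgroup.mem_normalizer_iff_map_conj_eq]
    rcases hAti b with h | h
    · exact h
    · exfalso
      have hmem : d' ∈ A.map (MulAut.conj b).toMonoidHom ⊓ A := by
        refine Subgroup.mem_inf.mpr ⟨Subgroup.mem_map.mpr ⟨d', hd', ?_⟩, hd'⟩
        show b * d' * b⁻¹ = d'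
        rw [hb, mul_inv_cancel_right]
      rw [h, Subgroup.mem_bot] at hmem
      exact hd'1 hmem
  have hd1 : d ≠ 1 := by
    rintro rfl
    exact hd2 (one_pow 2)
  let t : MulAut ↥B :=
    { toFun := fun b => ⟨d * b * d⁻¹, (Subgroup.mem_normalizer_iff.mp hdN b).mp b.2⟩
      invFun := fun b => ⟨d⁻¹ * b * d, by
        have := (Subgroup.mem_normalizer_iff.mp (inv_mem hdN) b).mp b.2
        simpa using this⟩
      left_inv := fun b => by
        apply Subtype.ext
        simp [mul_assoc]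
      right_inv := fun b => by
        apply Subtype.ext
        simp [mul_assoc]
      map_mul' := fun a b => by
        apply Subtype.ext
        simp [mul_assoc] }
  have ht_apply : ∀ b : ↥B, ((t b : ↥B) : G) = d * b * d⁻¹ := fun b => rfl
  have htpow : ∀ n : ℕ, ∀ b : ↥B, (((t ^ n) b : ↥B) : G) = d ^ n * b * (d ^ n)⁻¹ := by
    intro n
    induction n with
    | zero => intro b; simp
    | succ n ih =>
      intro b
      rw [pow_succ, MulAut.mul_apply, ih, ht_apply, pow_succ]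
      group
  have htord : ∃ k : ℕ, orderOf t = 2 ^ k := by
    obtain ⟨m, hm⟩ := hA2 ⟨d, hdA⟩
    have hm' : d ^ (2 ^ m) = 1 := by
      have := congrArg Subtype.val hm
      simpa using this
    have h1 : t ^ (2 ^ m) = 1 := by
      ext b
      rw [htpow, hm']
      simp
    obtain ⟨k, -, hk⟩ := (Nat.dvd_prime_pow Nat.prime_two).mp (orderOf_dvd_of_pow_eq_one h1)
    exact ⟨k, hk⟩
  have hfix : ∀ b : ↥B, t (t b) = b → t b = b := by
    intro b hb
    have h1 : d ^ 2 * b * (d ^ 2)⁻¹ = b := by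
      have h0 : d * (d * (b : G) * d⁻¹) * d⁻¹ = (b : G) := by
        have := congrArg Subtype.val hb
        rw [ht_apply, ht_apply] at this
        exact this
      have e : d ^ 2 * b * (d ^ 2)⁻¹ = d * (d * (b : G) * d⁻¹) * d⁻¹ := by
        simp [pow_two, mul_assoc]
      rw [e, h0]
    have h2 : (b : G) * d ^ 2 = d ^ 2 * b := (mul_inv_eq_iff_eq_mul.mp h1).symm
    have hbN : (b : G) ∈ Subgroup.normalizer (A : Set G) :=
      hc (d ^ 2) (A.pow_mem hdA 2) hd2 b h2
    have hcomm : d * b * d⁻¹ * (b : G)⁻¹ ∈ A ⊓ B := by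
      refine Subgroup.mem_inf.mpr ⟨?_, ?_⟩
      · have h3 : (b : G) * d⁻¹ * (b : G)⁻¹ ∈ A :=
          (Subgroup.mem_normalizer_iff.mp hbN d⁻¹).mp (A.inv_mem hdA)
        have e : d * b * d⁻¹ * (b : G)⁻¹ = d * ((b : G) * d⁻¹ * (b : G)⁻¹) := by group
        rw [e]
        exact A.mul_mem hdA h3
      · have h3 : d * b * d⁻¹ ∈ B := (Subgroup.mem_normalizer_iff.mp hdN b).mp b.2
        exact B.mul_mem h3 (B.inv_mem b.2)
    rw [hAB, Subgroup.mem_bot] at hcomm
    apply Subtype.ext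
    rw [ht_apply]
    exact mul_inv_eq_one.mp hcomm
  have hall := Cfsg.Agent.S1780.result (A := ↥B) hB2 t htord hfix
  have hBN : B ≤ Subgroup.normalizer (A : Set G) := by
    intro b hb
    apply hc d hdA hd1 b
    have := congrArg Subtype.val (hall ⟨b, hb⟩)
    rw [ht_apply] at this
    exact (mul_inv_eq_iff_eq_mul.mp this).symm
  exact Cfsg.Agent.S1757.result 2 A B hA2 hB2 hAti hBti hcard hAB hBN

theorem result {G : Type*} [Group G] [Finite G] (A : Subgroup G)
    (hA2 : IsPGroup 2 ↥A) (hAa : IsMulCommutative ↥A)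
    (hti : ∀ h : G, A.map (MulAut.conj h).toMonoidHom = A ∨ A.map (MulAut.conj h).toMonoidHom ⊓ A = ⊥)
    (g : G) (hg : A.map (MulAut.conj g).toMonoidHom ≠ A) :
    Cfsg.IsElementaryAbelian 2 (A ⊓ Subgroup.normalizer ((A.map (MulAut.conj g).toMonoidHom : Subgroup G) : Set G)) ∨
      ⁅A, A.map (MulAut.conj g).toMonoidHom⁆ = ⊥ := by
  classical
  by_cases hD : ∀ d ∈ A ⊓ Subgroup.normalizer
      ((A.map (MulAut.conj g).toMonoidHom : Subgroup G) : Set G), d ^ 2 = 1
  · left
    refine ⟨⟨⟨?_⟩⟩, hD⟩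
    rintro ⟨a, ha⟩ ⟨b, hb⟩
    apply Subtype.ext
    have h := hAa.is_comm.comm ⟨a, (Subgroup.mem_inf.mp ha).1⟩ ⟨b, (Subgroup.mem_inf.mp hb).1⟩
    have h' : a * b = b * a := congrArg Subtype.val h
    exact h'
  · right
    push Not at hD
    obtain ⟨d, hdD, hd2⟩ := hD
    obtain ⟨hdA, hdN⟩ := Subgroup.mem_inf.mp hdD
    have hAB : A ⊓ A.map (MulAut.conj g).toMonoidHom = ⊥ := by
      rcases hti g with h | h
      · exact absurd h hg
      · rw [inf_comm]
        exact h
    have hcard : Nat.card ↥A ≤ Nat.card ↥(A.map (MulAut.conj g).toMonoidHom) :=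
      le_of_eq (Nat.card_congr (A.equivMapOfInjective _ (MulAut.conj g).injective).toEquiv)
    exact core A (A.map (MulAut.conj g).toMonoidHom) hA2 (hA2.map _) inferInstance hti
      (ti_conj A hti g) hcard hAB d hdA hdN hd2

end Cfsg.Agent.S1781
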