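import Cfsg.Statements.S1782
import Mathlib
import Cfsg.Agent.S1757

set_option autoImplicit false
open Cfsg

namespace Cfsg.Agent.S1782

theorem frattini_eq_bot_of_exp_two {R : Type*} [Group R] [Finite R] (h2 : ∀ r : R, r ^ 2 = 1) :
    frattini R = ⊥ := by
  have hmm : ∀ r : R, r * r = 1 := fun r => by rw [← pow_two]; exact h2 r
  have hinv : ∀ r : R, r⁻¹ = r := fun r => inv_eq_of_mul_eq_one_left (hmm r)
  have hcomm : ∀ a b : R, a * b = b * a := by
    intro a b
    calc a * b = (a * b)⁻¹ := (hinv _).symm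
      _ = b⁻¹ * a⁻¹ := mul_inv_rev a b
      _ = b * a := by rw [hinv, hinv]
  rw [eq_bot_iff]
  intro x hx
  rw [Subgroup.mem_bot]
  by_contra hx1
  have hne : ({H : Subgroup R | x ∉ H} : Set (Subgroup R)).Nonempty :=
    ⟨⊥, fun h => hx1 (Subgroup.mem_bot.mp h)⟩
  obtain ⟨H, hH, hmaxH⟩ := (Set.toFinite {H : Subgroup R | x ∉ H}).exists_maximal hne
  have hH' : x ∉ H := hH
  have hmax : ∀ L : Subgroup R, H < L → x ∈ L := by
    intro L hL
    by_contra hxL
    exact absurd (hmaxH hxL hL.le) (not_le_of_gt hL)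
  have key : ∀ g : R, g ∉ H → g * x ∈ H := by
    intro g hg
    let L : Subgroup R :=
      { carrier := {y | y ∈ H ∨ g * y ∈ H}
        mul_mem' := by
          rintro y y' (hy | hy) (hy' | hy')
          · exact Or.inl (H.mul_mem hy hy')
          · right
            have e : g * (y * y') = y * (g * y') := by
              rw [← mul_assoc, hcomm g y, mul_assoc]
            rw [e]
            exact H.mul_mem hy hy'
          · right
            rw [← mul_assoc]
            exact H.mul_mem hy hy'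
          · left
            have e : y * y' = (g * y) * (g * y') := by
              rw [hcomm g y, mul_assoc, ← mul_assoc g g y', hmm, one_mul]
            rw [e]
            exact H.mul_mem hy hy'
        one_mem' := Or.inl H.one_mem
        inv_mem' := by
          intro y hy
          rw [hinv]
          exact hy }
    have hlt : H < L := by
      refine lt_of_le_of_ne (fun y hy => Or.inl hy) ?_
      intro hHL
      apply hg
      rw [hHL]
      right
      rw [hmm]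
      exact H.one_mem
    rcases hmax L hlt with h | h
    · exact absurd h hH'
    · exact h
  have hco : IsCoatom H := by
    refine ⟨fun htop => hH' (htop ▸ Subgroup.mem_top x), fun L hL => ?_⟩
    rw [eq_top_iff]
    intro g _
    obtain ⟨g', hg'L, hg'H⟩ := SetLike.exists_of_lt hL
    have hxL : x ∈ L := by
      have h1 := hL.le (key g' hg'H)
      have h2 := L.mul_mem (L.inv_mem hg'L) h1
      simpa using h2
    by_cases hg : g ∈ H
    · exact hL.le hg
    · have h1 := hL.le (key g hg)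
      have h2 := L.mul_mem h1 (L.inv_mem hxL)
      simpa using h2
  exact hH' (frattini_le_coatom hco hx)

theorem exists_sq_ne_one {S : Type*} [Group S] [Finite S] (R : Subgroup S)
    (hΦ : frattini ↥R ≠ ⊥) : ∃ r ∈ R, r ^ 2 ≠ 1 := by
  by_contra hne
  push Not at hne
  apply hΦ
  apply frattini_eq_bot_of_exp_two
  intro r
  apply Subtype.ext
  simpa using hne r r.2

theorem exists_pow_not_mem {S : Type*} [Group S] (hS : IsPGroup 2 S) (N B : Subgroup S) (x : S)
    (hxB : x ∈ B) (hxN : x ∉ N) : ∃ y ∈ B, y ∉ N ∧ y * y ∈ N := by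
  obtain ⟨m, hm⟩ := hS x
  induction m generalizing x with
  | zero =>
    simp only [pow_zero, pow_one] at hm
    subst hm
    exact absurd N.one_mem hxN
  | succ m ih =>
    by_cases h : x * x ∈ N
    · exact ⟨x, hxB, hxN, h⟩
    · apply ih (x * x) (B.mul_mem hxB hxB) h
      rw [← pow_two, ← pow_mul, ← pow_succ']
      exact hm

theorem exists_normal_proper {S : Type*} [Group S] [Finite S] (hS : IsPGroup 2 S)
    (U A : Subgroup S) (hAU : A ≤ U) (hne : A ≠ U) :
    ∃ M : Subgroup S, A ≤ M ∧ Nat.card M < Nat.card U ∧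
      ∀ u ∈ U, ∀ x ∈ M, u * x * u⁻¹ ∈ M := by
  have : Fact (Nat.Prime 2) := ⟨Nat.prime_two⟩
  have hU : IsPGroup 2 U := hS.to_subgroup U
  have hnil : Group.IsNilpotent U := hU.isNilpotent
  have hA' : A.subgroupOf U ≠ ⊤ := by
    intro h
    exact hne (le_antisymm hAU (Subgroup.subgroupOf_eq_top.mp h))
  obtain ⟨M', hM', hAM'⟩ := (eq_top_or_exists_le_coatom (A.subgroupOf U)).resolve_left hA'
  have hM'n : M'.Normal :=
    Subgroup.NormalizerCondition.normal_of_coatom M' Group.normalizerCondition_of_isNilpotent hM'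
  refine ⟨M'.map U.subtype, ?_, ?_, ?_⟩
  · intro a ha
    exact ⟨⟨a, hAU ha⟩, hAM' (Subgroup.mem_subgroupOf.mpr ha), rfl⟩
  · rw [Subgroup.card_map_of_injective U.subtype_injective]
    rcases lt_or_eq_of_le (Subgroup.card_le_card_group M') with h1 | h1
    · exact h1
    · exact absurd (Subgroup.eq_top_of_card_eq M' h1) hM'.1
  · rintro u hu _ ⟨x, hx, rfl⟩
    exact ⟨⟨u, hu⟩ * x * ⟨u, hu⟩⁻¹, hM'n.conj_mem x hx ⟨u, hu⟩, rfl⟩

theorem comm_of_commutator_eq_bot {S : Type*} [Group S] {A B : Subgroup S} (h : ⁅A, B⁆ = ⊥)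
    {a b : S} (ha : a ∈ A) (hb : b ∈ B) : a * b = b * a := by
  have h1 := Subgroup.commutator_eq_bot_iff_le_centralizer.mp h ha
  exact (Subgroup.mem_centralizer_iff.mp h1 b hb).symm

theorem main {S : Type*} [Group S] [Finite S] (hS : IsPGroup 2 S)
    (Δ : Set (Subgroup S)) (hinv : ∀ s : S, ∀ R ∈ Δ, R.map (MulAut.conj s).toMonoidHom ∈ Δ)
    (hsq : ∀ R ∈ Δ, ∃ r ∈ R, r ^ 2 ≠ 1) (hord : ∀ R ∈ Δ, ∀ T ∈ Δ, Nat.card ↥R = Nat.card ↥T)
    (hti : ∀ R ∈ Δ, ∀ T ∈ Δ, R = T ∨ R ⊓ T = ⊥) :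
    ∀ n : ℕ, ∀ U : Subgroup S, Nat.card U ≤ n → ∀ A ∈ Δ, ∀ B ∈ Δ, A ≤ U → B ≤ U → A ≠ B →
      ⁅A, B⁆ = ⊥ := by
  have : Fact (Nat.Prime 2) := ⟨Nat.prime_two⟩
  intro n
  induction n with
  | zero =>
    intro U hU
    have := Nat.card_pos (α := U)
    omega
  | succ n ih =>
    intro U hU A hA B hB hAU hBU hne
    by_contra hcomm
    have hAB : A ⊓ B = ⊥ := (hti A hA B hB).resolve_left hne
    have key : ∀ A ∈ Δ, ∀ B ∈ Δ, A ≤ U → B ≤ U → A ≠ B →
        ∀ b ∈ U, A.map (MulAut.conj b).toMonoidHom ≠ A →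
          ⁅A, A.map (MulAut.conj b).toMonoidHom⁆ = ⊥ := by
      intro A hA B hB hAU hBU hne b hb hneq
      have hAB : A ⊓ B = ⊥ := (hti A hA B hB).resolve_left hne
      have hAneU : A ≠ U := by
        intro h
        obtain ⟨r, hr, hr2⟩ := hsq B hB
        have hrA : r ∈ A := h ▸ hBU hr
        have : r ∈ A ⊓ B := ⟨hrA, hr⟩
        rw [hAB, Subgroup.mem_bot] at this
        rw [this] at hr2
        exact hr2 (one_pow 2)
      obtain ⟨M, hAM, hMlt, hMn⟩ := exists_normal_proper hS U A hAU hAneU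
      apply ih M (by omega) A hA _ (hinv b A hA) hAM ?_ (Ne.symm hneq)
      rintro _ ⟨a, ha, rfl⟩
      exact hMn b hb a (hAM ha)
    have tiA : ∀ h : S, A.map (MulAut.conj h).toMonoidHom = A ∨
        A.map (MulAut.conj h).toMonoidHom ⊓ A = ⊥ := fun s => hti _ (hinv s A hA) A hA
    have tiB : ∀ h : S, B.map (MulAut.conj h).toMonoidHom = B ∨
        B.map (MulAut.conj h).toMonoidHom ⊓ B = ⊥ := fun s => hti _ (hinv s B hB) B hB
    have hBN : ¬ B ≤ Subgroup.normalizer (A : Set S) := by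
      intro h
      exact hcomm (Cfsg.Agent.S1757.result 2 A B (hS.to_subgroup A) (hS.to_subgroup B) tiA tiB
        (hord A hA B hB).le hAB h)
    have hAN : ¬ A ≤ Subgroup.normalizer (B : Set S) := by
      intro h
      have h1 := Cfsg.Agent.S1757.result 2 B A (hS.to_subgroup B) (hS.to_subgroup A) tiB tiA
        (hord B hB A hA).le (inf_comm A B ▸ hAB) h
      rw [Subgroup.commutator_comm] at h1
      exact hcomm h1
    obtain ⟨a0, ha0A, ha0N⟩ := SetLike.not_le_iff_exists.mp hAN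
    obtain ⟨b0, hb0B, hb0N⟩ := SetLike.not_le_iff_exists.mp hBN
    have sq : ∀ a ∈ A, a ∉ Subgroup.normalizer (B : Set S) → a * a = 1 := by
      intro a haA haN
      obtain ⟨b, hbB, hbN, hb2⟩ := exists_pow_not_mem hS (Subgroup.normalizer (A : Set S)) B b0
        hb0B hb0N
      have hbA : A.map (MulAut.conj b).toMonoidHom ≠ A :=
        fun h => hbN (Subgroup.mem_normalizer_iff_map_conj_eq.mpr h)
      have haB : B.map (MulAut.conj a).toMonoidHom ≠ B :=
        fun h => haN (Subgroup.mem_normalizer_iff_map_conj_eq.mpr h)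
      have c1 := key A hA B hB hAU hBU hne b (hBU hbB) hbA
      have c2 := key B hB A hA hBU hAU (Ne.symm hne) a (hAU haA) haB
      have huA' : b * a⁻¹ * b⁻¹ ∈ A.map (MulAut.conj b).toMonoidHom :=
        ⟨a⁻¹, A.inv_mem haA, rfl⟩
      have hvB' : a * b * a⁻¹ ∈ B.map (MulAut.conj a).toMonoidHom := ⟨b, hbB, rfl⟩
      have e1 : a * (b * a⁻¹ * b⁻¹) = (b * a⁻¹ * b⁻¹) * a := comm_of_commutator_eq_bot c1 haA huA'
      have e2 : b⁻¹ * (a * b * a⁻¹) = (a * b * a⁻¹) * b⁻¹ :=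
        comm_of_commutator_eq_bot c2 (B.inv_mem hbB) hvB'
      generalize hu : b * a⁻¹ * b⁻¹ = u at e1 huA'
      generalize hv : a * b * a⁻¹ = v at e2 hvB'
      have hc : a * u = v * b⁻¹ := by
        rw [← hu, ← hv]
        group
      have k : (a * a) * (u * u) = (v * v) * (b⁻¹ * b⁻¹) := by
        calc (a * a) * (u * u) = a * (a * u) * u := by group
          _ = a * (u * a) * u := by rw [e1]
          _ = (a * u) * (a * u) := by group
          _ = (v * b⁻¹) * (v * b⁻¹) := by rw [hc]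
          _ = v * (b⁻¹ * v) * b⁻¹ := by group
          _ = v * (v * b⁻¹) * b⁻¹ := by rw [e2]
          _ = (v * v) * (b⁻¹ * b⁻¹) := by group
      have hA1 : (a * a) * (u * u) ∈ A := by
        rw [k]
        have e : v * v * (b⁻¹ * b⁻¹) = a * ((b * b) * a⁻¹ * (b * b)⁻¹) := by
          rw [← hv]
          group
        rw [e]
        exact A.mul_mem haA ((Subgroup.mem_normalizer_iff.mp hb2 a⁻¹).mp (A.inv_mem haA))
      have huu : u * u ∈ A := by
        have h1 := A.mul_mem (A.inv_mem (A.mul_mem haA haA)) hA1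
        rwa [inv_mul_cancel_left] at h1
      have huu' : u * u ∈ A.map (MulAut.conj b).toMonoidHom := Subgroup.mul_mem _ huA' huA'
      have hu1 : u * u = 1 := by
        have hbot := (tiA b).resolve_left hbA
        have hmem : u * u ∈ A.map (MulAut.conj b).toMonoidHom ⊓ A := ⟨huu', huu⟩
        rwa [hbot, Subgroup.mem_bot] at hmem
      have h1 : u * u = b * (a * a)⁻¹ * b⁻¹ := by
        rw [← hu]
        group
      rw [h1] at hu1
      have h2 : (a * a)⁻¹ = 1 := by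
        have h3 := congrArg (fun t => b⁻¹ * t * b) hu1
        simpa [mul_assoc] using h3
      exact inv_eq_one.mp h2
    obtain ⟨h, hhA, hh2⟩ := hsq A hA
    have hhN : h ∈ Subgroup.normalizer (B : Set S) := by
      by_contra hn
      exact hh2 (by rw [pow_two]; exact sq h hhA hn)
    have hh1 : h ∉ (⊥ : Subgroup S) := by
      intro hb
      rw [Subgroup.mem_bot] at hb
      rw [hb] at hh2
      exact hh2 (one_pow 2)
    obtain ⟨h1, hh1mem, hh1ne, hh1sq⟩ := exists_pow_not_mem hS ⊥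
      (A ⊓ Subgroup.normalizer (B : Set S)) h ⟨hhA, hhN⟩ hh1
    rw [Subgroup.mem_bot] at hh1sq
    obtain ⟨hh1A, hh1N⟩ := hh1mem
    have ha2 : a0 * a0 = 1 := sq a0 ha0A ha0N
    have hah : a0 * h1 ∉ Subgroup.normalizer (B : Set S) := by
      intro hmem
      apply ha0N
      have h3 := Subgroup.mul_mem _ hmem (Subgroup.inv_mem _ hh1N)
      rwa [mul_inv_cancel_right] at h3
    have hah2 : (a0 * h1) * (a0 * h1) = 1 := sq (a0 * h1) (A.mul_mem ha0A hh1A) hah
    have hcomm1 : a0 * h1 = h1 * a0 := by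
      have e : a0 * h1 = (a0 * h1)⁻¹ := (inv_eq_of_mul_eq_one_left hah2).symm
      rw [e, mul_inv_rev, inv_eq_of_mul_eq_one_left ha2, inv_eq_of_mul_eq_one_left hh1sq]
    have hb0A : A.map (MulAut.conj b0).toMonoidHom ≠ A :=
      fun h => hb0N (Subgroup.mem_normalizer_iff_map_conj_eq.mpr h)
    have ha0B : B.map (MulAut.conj a0).toMonoidHom ≠ B :=
      fun h => ha0N (Subgroup.mem_normalizer_iff_map_conj_eq.mpr h)
    have c1 := key A hA B hB hAU hBU hne b0 (hBU hb0B) hb0A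
    have huA' : b0 * h1⁻¹ * b0⁻¹ ∈ A.map (MulAut.conj b0).toMonoidHom :=
      ⟨h1⁻¹, A.inv_mem hh1A, rfl⟩
    have e1 : a0 * (b0 * h1⁻¹ * b0⁻¹) = (b0 * h1⁻¹ * b0⁻¹) * a0 :=
      comm_of_commutator_eq_bot c1 ha0A huA'
    have hyB : h1 * b0 * h1⁻¹ * b0⁻¹ ∈ B :=
      B.mul_mem ((Subgroup.mem_normalizer_iff.mp hh1N b0).mp hb0B) (B.inv_mem hb0B)
    have hy : a0 * (h1 * b0 * h1⁻¹ * b0⁻¹) * a0⁻¹ = h1 * b0 * h1⁻¹ * b0⁻¹ := by
      calc a0 * (h1 * b0 * h1⁻¹ * b0⁻¹) * a0⁻¹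
          = (a0 * h1) * (b0 * h1⁻¹ * b0⁻¹) * a0⁻¹ := by group
        _ = (h1 * a0) * (b0 * h1⁻¹ * b0⁻¹) * a0⁻¹ := by rw [hcomm1]
        _ = h1 * (a0 * (b0 * h1⁻¹ * b0⁻¹)) * a0⁻¹ := by group
        _ = h1 * ((b0 * h1⁻¹ * b0⁻¹) * a0) * a0⁻¹ := by rw [e1]
        _ = h1 * b0 * h1⁻¹ * b0⁻¹ := by group
    have hy1 : h1 * b0 * h1⁻¹ * b0⁻¹ = 1 := by
      have hbot := (tiB a0).resolve_left ha0B
      have hmem : h1 * b0 * h1⁻¹ * b0⁻¹ ∈ B.map (MulAut.conj a0).toMonoidHom ⊓ B :=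
        ⟨⟨_, hyB, hy⟩, hyB⟩
      rwa [hbot, Subgroup.mem_bot] at hmem
    have hfix : b0 * h1 * b0⁻¹ = h1 := by
      have e : b0 * h1 * b0⁻¹ = (h1 * b0 * h1⁻¹ * b0⁻¹)⁻¹ * h1 := by group
      rw [e, hy1, inv_one, one_mul]
    have hh1one : h1 = 1 := by
      have hbot := (tiA b0).resolve_left hb0A
      have hmem : h1 ∈ A.map (MulAut.conj b0).toMonoidHom ⊓ A := ⟨⟨h1, hh1A, hfix⟩, hh1A⟩
      rwa [hbot, Subgroup.mem_bot] at hmem
    exact hh1ne (Subgroup.mem_bot.mpr hh1one)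

theorem result {S : Type*} [Group S] [Finite S] (hS : IsPGroup 2 S)
    (Δ : Set (Subgroup S)) (hinv : ∀ s : S, ∀ R ∈ Δ, R.map (MulAut.conj s).toMonoidHom ∈ Δ)
    (hΦ : ∀ R ∈ Δ, frattini ↥R ≠ ⊥) (hord : ∀ R ∈ Δ, ∀ T ∈ Δ, Nat.card ↥R = Nat.card ↥T)
    (hti : ∀ R ∈ Δ, ∀ T ∈ Δ, R = T ∨ R ⊓ T = ⊥) :
    ∀ R ∈ Δ, ∀ T ∈ Δ, R ≠ T → ⁅R, T⁆ = ⊥ := by
  intro R hR T hT hne
  have hsq : ∀ R ∈ Δ, ∃ r ∈ R, r ^ 2 ≠ 1 := fun R hR => exists_sq_ne_one R (hΦ R hR)
  exact main hS Δ hinv hsq hord hti (Nat.card S) ⊤ (le_of_eq Subgroup.card_top) R hR T hT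
    le_top le_top hne

end Cfsg.Agent.S1782
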