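import Cfsg.Statements.S1784
import Mathlib
import Cfsg.Agent.S1756
import Cfsg.Agent.Lib.Helper9.Components

set_option autoImplicit false
open Cfsg

namespace Cfsg.Agent.S1784

open Cfsg.Agent.S1756 (eps eps_eq_one eps_injective two_eq two_mul)

section abstract

variable {P : Type*} [Group P]

theorem comm_mem (hcomm : commutator P = Subgroup.center P) (x y : P) :
    x * y * x⁻¹ * y⁻¹ ∈ Subgroup.center P := by
  rw [← hcomm]
  exact Subgroup.commutator_mem_commutator (Subgroup.mem_top x) (Subgroup.mem_top y)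

noncomputable def kap (hcomm : commutator P = Subgroup.center P) (y : P) :
    P →* ↥(Subgroup.center P) where
  toFun q := ⟨y * q * y⁻¹ * q⁻¹, comm_mem hcomm y q⟩
  map_one' := by
    apply Subtype.ext
    simp
  map_mul' q q' := by
    apply Subtype.ext
    show y * (q * q') * y⁻¹ * (q * q')⁻¹ = (y * q * y⁻¹ * q⁻¹) * (y * q' * y⁻¹ * q'⁻¹)
    have h1 := Subgroup.mem_center_iff.mp (comm_mem hcomm y q') q⁻¹
    calc y * (q * q') * y⁻¹ * (q * q')⁻¹
        = y * q * y⁻¹ * ((y * q' * y⁻¹ * q'⁻¹) * q⁻¹) := by group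
      _ = y * q * y⁻¹ * (q⁻¹ * (y * q' * y⁻¹ * q'⁻¹)) := by rw [h1]
      _ = (y * q * y⁻¹ * q⁻¹) * (y * q' * y⁻¹ * q'⁻¹) := by group

theorem kap_val (hcomm : commutator P = Subgroup.center P) (y q : P) :
    ((kap hcomm y q : ↥(Subgroup.center P)) : P) = y * q * y⁻¹ * q⁻¹ := rfl

noncomputable def Psi (hcomm : commutator P = Subgroup.center P)
    (hcard : Nat.card (Subgroup.center P) = 2) : P →* (P →* ℂˣ) where
  toFun y := (eps ↥(Subgroup.center P) hcard).comp (kap hcomm y)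
  map_one' := by
    apply MonoidHom.ext
    intro q
    have : kap hcomm 1 q = 1 := by
      apply Subtype.ext
      rw [kap_val]
      simp
    rw [MonoidHom.comp_apply, this, map_one, MonoidHom.one_apply]
  map_mul' y y' := by
    apply MonoidHom.ext
    intro q
    have : kap hcomm (y * y') q = kap hcomm y q * kap hcomm y' q := by
      apply Subtype.ext
      rw [Subgroup.coe_mul, kap_val, kap_val, kap_val]
      have h1 := Subgroup.mem_center_iff.mp (comm_mem hcomm y' q) y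
      calc y * y' * q * (y * y')⁻¹ * q⁻¹
          = (y * (y' * q * y'⁻¹ * q⁻¹)) * q * y⁻¹ * q⁻¹ := by group
        _ = ((y' * q * y'⁻¹ * q⁻¹) * y) * q * y⁻¹ * q⁻¹ := by rw [h1]
        _ = (y' * q * y'⁻¹ * q⁻¹) * (y * q * y⁻¹ * q⁻¹) := by group
        _ = (y * q * y⁻¹ * q⁻¹) * (y' * q * y'⁻¹ * q⁻¹) :=
            (Subgroup.mem_center_iff.mp (comm_mem hcomm y' q) (y * q * y⁻¹ * q⁻¹)).symm
    rw [MonoidHom.comp_apply, this, map_mul, MonoidHom.mul_apply, MonoidHom.comp_apply,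
      MonoidHom.comp_apply]

theorem Psi_apply (hcomm : commutator P = Subgroup.center P)
    (hcard : Nat.card (Subgroup.center P) = 2) (y q : P) :
    Psi hcomm hcard y q = eps ↥(Subgroup.center P) hcard (kap hcomm y q) := rfl

theorem Psi_eq_one_iff (hcomm : commutator P = Subgroup.center P)
    (hcard : Nat.card (Subgroup.center P) = 2) (y q : P) :
    Psi hcomm hcard y q = 1 ↔ y * q = q * y := by
  rw [Psi_apply]
  constructor
  · intro h
    have h2 := eps_eq_one hcard _ h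
    have h3 : y * q * y⁻¹ * q⁻¹ = 1 := congrArg Subtype.val h2
    have h5 : y * q * y⁻¹ = q := mul_inv_eq_one.mp h3
    exact mul_inv_eq_iff_eq_mul.mp h5
  · intro h
    have : kap hcomm y q = 1 := by
      apply Subtype.ext
      rw [kap_val, h]
      simp
    rw [this, map_one]

theorem Psi_ker (hcomm : commutator P = Subgroup.center P)
    (hcard : Nat.card (Subgroup.center P) = 2) :
    (Psi hcomm hcard).ker = Subgroup.center P := by
  ext y
  rw [MonoidHom.mem_ker, Subgroup.mem_center_iff]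
  constructor
  · intro h g
    have h1 : Psi hcomm hcard y g = 1 := by
      rw [h]
      rfl
    exact ((Psi_eq_one_iff hcomm hcard y g).mp h1).symm
  · intro h
    apply MonoidHom.ext
    intro q
    rw [MonoidHom.one_apply]
    exact (Psi_eq_one_iff hcomm hcard y q).mpr (h q).symm

theorem core [Finite P]
    (hcomm : commutator P = Subgroup.center P) (hcard : Nat.card (Subgroup.center P) = 2)
    (θ : P →* P) (hθ : ∀ q, θ (θ q) = q) (hθne : ∃ q, θ q ≠ q)
    (P₀ : Subgroup P) (hP₀ : ∀ q, q ∈ P₀ ↔ θ q * q⁻¹ ∈ Subgroup.center P) :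
    Subgroup.closure (Set.range fun q => θ q * q⁻¹) =
      P₀ ⊓ Subgroup.centralizer (P₀ : Set P) := by
  classical
  have b_mul_left : ∀ x x' y, Psi hcomm hcard (x * x') y =
      Psi hcomm hcard x y * Psi hcomm hcard x' y := fun x x' y => by
    rw [map_mul, MonoidHom.mul_apply]
  have b_mul_right : ∀ x y y', Psi hcomm hcard x (y * y') =
      Psi hcomm hcard x y * Psi hcomm hcard x y' := fun x y y' => map_mul _ _ _
  have b_inv_left : ∀ x y, Psi hcomm hcard x⁻¹ y = (Psi hcomm hcard x y)⁻¹ := fun x y => by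
    rw [map_inv, MonoidHom.inv_apply]
  have b_one_iff := Psi_eq_one_iff hcomm hcard
  have b_central : ∀ u ∈ Subgroup.center P, ∀ y, Psi hcomm hcard y u = 1 :=
    fun u hu y => (b_one_iff y u).mpr (Subgroup.mem_center_iff.mp hu y)
  have eps_sq : ∀ a : ↥(Subgroup.center P),
      eps ↥(Subgroup.center P) hcard a * eps ↥(Subgroup.center P) hcard a = 1 := by
    intro a
    rw [← map_mul]
    by_cases ha : a = 1
    · rw [ha, mul_one, map_one]
    · rw [two_mul hcard ha ha, map_one]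
  have b_sq : ∀ x y, Psi hcomm hcard x y * Psi hcomm hcard x y = 1 := fun x y => by
    rw [Psi_apply]
    exact eps_sq _
  have hsq_central : ∀ x : P, x * x ∈ Subgroup.center P := by
    intro x
    rw [Subgroup.mem_center_iff]
    intro g
    have h1 : Psi hcomm hcard (x * x) g = 1 := by
      rw [b_mul_left]
      exact b_sq x g
    exact ((b_one_iff _ _).mp h1).symm
  have hθZ : ∀ u ∈ Subgroup.center P, θ u = u := by
    intro u hu
    by_cases hu1 : u = 1
    · rw [hu1, map_one]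
    · have hθu : θ u ∈ Subgroup.center P := by
        rw [Subgroup.mem_center_iff]
        intro g
        have e := Subgroup.mem_center_iff.mp hu (θ g)
        have e' := congrArg θ e
        rw [map_mul, map_mul, hθ] at e'
        exact e'
      have hθu1 : θ u ≠ 1 := by
        intro h
        apply hu1
        have e := congrArg θ h
        rw [hθ, map_one] at e
        exact e
      have e := two_eq hcard (a := ⟨θ u, hθu⟩) (b := ⟨u, hu⟩)
        (fun h => hθu1 (congrArg Subtype.val h)) (fun h => hu1 (congrArg Subtype.val h))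
      exact congrArg Subtype.val e
  have b_θ : ∀ x y, Psi hcomm hcard (θ x) (θ y) = Psi hcomm hcard x y := by
    intro x y
    rw [Psi_apply, Psi_apply]
    congr 1
    apply Subtype.ext
    rw [kap_val, kap_val]
    have e := hθZ _ (comm_mem hcomm x y)
    rw [← e]
    simp only [map_mul, map_inv]
  have hcP₀ : ∀ q, θ q * q⁻¹ ∈ P₀ := by
    intro q
    rw [hP₀]
    have e : θ (θ q * q⁻¹) * (θ q * q⁻¹)⁻¹ = (q * (θ q)⁻¹) * (q * (θ q)⁻¹) := by
      rw [map_mul, hθ, map_inv, mul_inv_rev, inv_inv]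
    rw [e]
    exact hsq_central _
  have hcC : ∀ q, ∀ p ∈ P₀, Psi hcomm hcard (θ q * q⁻¹) p = 1 := by
    intro q p hp
    have hu : θ p * p⁻¹ ∈ Subgroup.center P := (hP₀ p).mp hp
    have h1 : Psi hcomm hcard (θ q) p = Psi hcomm hcard q p := by
      calc Psi hcomm hcard (θ q) p = Psi hcomm hcard (θ (θ q)) (θ p) := (b_θ (θ q) p).symm
        _ = Psi hcomm hcard q (θ p) := by rw [hθ]
        _ = Psi hcomm hcard q ((θ p * p⁻¹) * p) := by rw [inv_mul_cancel_right]
        _ = Psi hcomm hcard q (θ p * p⁻¹) * Psi hcomm hcard q p := b_mul_right _ _ _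
        _ = Psi hcomm hcard q p := by rw [b_central _ hu, one_mul]
    rw [b_mul_left, b_inv_left, h1, mul_inv_cancel]
  have hK_le : Subgroup.closure (Set.range fun q => θ q * q⁻¹) ≤
      P₀ ⊓ Subgroup.centralizer (P₀ : Set P) := by
    rw [Subgroup.closure_le]
    rintro _ ⟨q, rfl⟩
    exact Subgroup.mem_inf.mpr ⟨hcP₀ q, Subgroup.mem_centralizer_iff.mpr
      (fun p hp => ((b_one_iff _ _).mp (hcC q p hp)).symm)⟩
  have hKmem : ∀ q, θ q * q⁻¹ ∈ Subgroup.closure (Set.range fun q => θ q * q⁻¹) :=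
    fun q => Subgroup.subset_closure ⟨q, rfl⟩
  have hKnorm : ∀ y q, y * (θ q * q⁻¹) * y⁻¹ ∈
      Subgroup.closure (Set.range fun q => θ q * q⁻¹) := by
    intro y q
    have e : y * (θ q * q⁻¹) * y⁻¹ = (θ y * y⁻¹)⁻¹ * (θ (y * q) * (y * q)⁻¹) := by
      rw [map_mul]
      group
    rw [e]
    exact Subgroup.mul_mem _ (Subgroup.inv_mem _ (hKmem y)) (hKmem (y * q))
  obtain ⟨q0, hq0⟩ := hθne
  have hc0 : θ q0 * q0⁻¹ ≠ 1 := fun h => hq0 (mul_inv_eq_one.mp h)
  have hZK : ∀ u ∈ Subgroup.center P, u ∈ Subgroup.closure (Set.range fun q => θ q * q⁻¹) := by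
    have hex : ∃ w ∈ Subgroup.center P, w ≠ 1 ∧
        w ∈ Subgroup.closure (Set.range fun q => θ q * q⁻¹) := by
      by_cases hcz : θ q0 * q0⁻¹ ∈ Subgroup.center P
      · exact ⟨_, hcz, hc0, hKmem q0⟩
      · rw [Subgroup.mem_center_iff] at hcz
        push Not at hcz
        obtain ⟨y, hy⟩ := hcz
        refine ⟨y * (θ q0 * q0⁻¹) * y⁻¹ * (θ q0 * q0⁻¹)⁻¹, comm_mem hcomm y _, ?_,
          Subgroup.mul_mem _ (hKnorm y q0) (Subgroup.inv_mem _ (hKmem q0))⟩
        intro h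
        apply hy
        have h5 := mul_inv_eq_one.mp h
        exact mul_inv_eq_iff_eq_mul.mp h5
    obtain ⟨w, hwZ, hw1, hwK⟩ := hex
    intro u hu
    by_cases hu1 : u = 1
    · rw [hu1]
      exact Subgroup.one_mem _
    · have e := two_eq hcard (a := ⟨u, hu⟩) (b := ⟨w, hwZ⟩)
        (fun h => hu1 (congrArg Subtype.val h)) (fun h => hw1 (congrArg Subtype.val h))
      have e' : u = w := congrArg Subtype.val e
      rw [e']
      exact hwK
  let Φ : P →* (P →* ℂˣ) :=
    { toFun := fun q => Psi hcomm hcard (θ q * q⁻¹)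
      map_one' := by simp
      map_mul' := fun q q' => by
        have e : θ (q * q') * (q * q')⁻¹ = (θ q * q⁻¹) * (q * (θ q' * q'⁻¹) * q⁻¹) := by
          rw [map_mul]
          group
        have e2 : Psi hcomm hcard (q * (θ q' * q'⁻¹) * q⁻¹) = Psi hcomm hcard (θ q' * q'⁻¹) := by
          calc Psi hcomm hcard (q * (θ q' * q'⁻¹) * q⁻¹)
              = Psi hcomm hcard q * Psi hcomm hcard (θ q' * q'⁻¹) * (Psi hcomm hcard q)⁻¹ := by
                rw [map_mul (Psi hcomm hcard) (q * (θ q' * q'⁻¹)) q⁻¹,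
                  map_mul (Psi hcomm hcard) q (θ q' * q'⁻¹), map_inv]
            _ = Psi hcomm hcard (θ q' * q'⁻¹) := by
                apply MonoidHom.ext
                intro w
                rw [MonoidHom.mul_apply, MonoidHom.mul_apply, MonoidHom.inv_apply,
                  mul_right_comm, mul_inv_cancel, one_mul]
        rw [e, map_mul (Psi hcomm hcard) (θ q * q⁻¹) _, e2] }
  have hΦ : ∀ q, Φ q = Psi hcomm hcard (θ q * q⁻¹) := fun q => rfl
  have hΦker : Φ.ker = P₀ := by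
    ext q
    rw [MonoidHom.mem_ker, hP₀, hΦ, ← MonoidHom.mem_ker, Psi_ker]
  let I₂ : Subgroup (P →* ℂˣ) :=
    { carrier := {χ | ∀ p ∈ P₀, χ p = 1}
      mul_mem' := fun {a b} ha hb p hp => by
        rw [MonoidHom.mul_apply, ha p hp, hb p hp, one_mul]
      one_mem' := fun p _ => rfl
      inv_mem' := fun {a} ha p hp => by
        rw [MonoidHom.inv_apply, ha p hp, inv_one] }
  have hI₂ : ∀ χ : P →* ℂˣ, χ ∈ I₂ ↔ ∀ p ∈ P₀, χ p = 1 := fun χ => Iff.rfl
  have hΦI : Φ.range ≤ I₂ := by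
    rintro _ ⟨q, rfl⟩
    rw [hI₂]
    intro p hp
    exact hcC q p hp
  have hZP₀ : Subgroup.center P ≤ P₀ := fun u hu => (hP₀ u).mpr (by
    rw [hθZ u hu, mul_inv_cancel]
    exact Subgroup.one_mem _)
  have : NeZero ((Monoid.exponent (Abelianization P) : ℕ) : ℂ) :=
    ⟨Nat.cast_ne_zero.mpr Monoid.exponent_ne_zero_of_finite⟩
  have hfin : Finite (P →* ℂˣ) := Finite.of_equiv _ (Abelianization.lift (G := P) (A := ℂˣ)).symm
  have hsurj : Function.Surjective (Abelianization.of : P →* Abelianization P) :=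
    fun x => QuotientGroup.mk_surjective x
  have hidx : (P₀.map (Abelianization.of : P →* Abelianization P)).index = P₀.index :=
    Subgroup.index_map_eq P₀ hsurj (by
      rw [Abelianization.ker_of, hcomm]
      exact hZP₀)
  have hdual : Nat.card (MonoidHom.domRestrictHom
      (P₀.map (Abelianization.of : P →* Abelianization P)) ℂˣ).ker =
      (P₀.map (Abelianization.of : P →* Abelianization P)).index :=
    CommGroup.card_domRestrictHom_ker (M := ℂ) _
  have hI₂card : Nat.card I₂ ≤ P₀.index := by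
    rw [← hidx, ← hdual]
    let f : ↥I₂ → ↥(MonoidHom.domRestrictHom
        (P₀.map (Abelianization.of : P →* Abelianization P)) ℂˣ).ker := fun χ =>
      ⟨Abelianization.lift χ.1, by
        rw [MonoidHom.mem_ker]
        apply MonoidHom.ext
        rintro ⟨h, hh⟩
        obtain ⟨p, hp, rfl⟩ := hh
        show Abelianization.lift χ.1 (Abelianization.of p) = 1
        rw [Abelianization.lift_apply_of]
        exact (hI₂ _).mp χ.2 p hp⟩
    apply Nat.card_le_card_of_injective f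
    intro χ χ' h
    have h1 : Abelianization.lift χ.1 = Abelianization.lift χ'.1 := congrArg Subtype.val h
    exact Subtype.ext (Abelianization.lift.injective h1)
  have hrange : Φ.range = I₂ := Subgroup.eq_of_le_of_card_ge hΦI (by
    rw [← Subgroup.index_ker, hΦker]
    exact hI₂card)
  apply le_antisymm hK_le
  intro x hx
  obtain ⟨hxP₀, hxC⟩ := Subgroup.mem_inf.mp hx
  have hΨx : Psi hcomm hcard x ∈ I₂ := by
    rw [hI₂]
    intro p hp
    exact (b_one_iff x p).mpr ((Subgroup.mem_centralizer_iff.mp hxC p hp).symm)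
  rw [← hrange] at hΨx
  obtain ⟨q, hq⟩ := hΨx
  rw [hΦ] at hq
  have hmem : x * (θ q * q⁻¹)⁻¹ ∈ Subgroup.center P := by
    rw [← Psi_ker hcomm hcard, MonoidHom.mem_ker, map_mul, map_inv, hq, mul_inv_cancel]
  have e : x = (x * (θ q * q⁻¹)⁻¹) * (θ q * q⁻¹) := by group
  rw [e]
  exact Subgroup.mul_mem _ (hZK _ hmem) (hKmem q)

end abstract

theorem aux {G : Type*} [Group G] [Finite G] (z : G) (hz : orderOf z = 2) (C : Subgroup G)
    (hC : ∀ g : G, g ∈ C ↔ g * z = z * g) (Qt : Subgroup ↥C) (hQn : Qt.Normal)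
    (hQc : Subgroup.centralizer (Qt : Set ↥C) ≤ Qt)
    (hcomm : commutator ↥Qt = Subgroup.center ↥Qt) (hcard : Nat.card (Subgroup.center ↥Qt) = 2)
    (α : G) (hα : orderOf α = 2) (hαC : α ∈ C) (hαQ : α ∉ Qt.map C.subtype)
    (Q₀ : Subgroup G) (hQ₀ : ∀ q : G, q ∈ Q₀ ↔
      (q ∈ Qt.map C.subtype ∧ α * q * α⁻¹ * q⁻¹ ∈ Subgroup.zpowers z)) :
    Subgroup.closure ((fun q : G => α * q * α⁻¹ * q⁻¹) '' ((Qt.map C.subtype : Subgroup G) : Set G))
        = (Subgroup.center ↥Q₀).map Q₀.subtype ∧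
      (¬ Q₀ ≤ (Qt.map C.subtype ⊓ Subgroup.centralizer ({α} : Set G)) ⊔ Subgroup.zpowers z →
        ∃ q ∈ Qt.map C.subtype, q * α * q⁻¹ = α * z) := by
  classical
  have hzz : z * z = 1 := by
    rw [← pow_two, ← hz, pow_orderOf_eq_one]
  have hz1 : z ≠ 1 := by
    rintro rfl
    rw [orderOf_one] at hz
    exact absurd hz (by norm_num)
  have hαα : α * α = 1 := by
    rw [← pow_two, ← hα, pow_orderOf_eq_one]
  have hαinv : α⁻¹ = α := inv_eq_of_mul_eq_one_left hαα
  have hzC : z ∈ C := (hC z).mpr rfl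
  have hzCcen : ∀ g : ↥C, g * (⟨z, hzC⟩ : ↥C) = ⟨z, hzC⟩ * g := by
    intro g
    apply Subtype.ext
    exact (hC g).mp g.2
  have hzQt : (⟨z, hzC⟩ : ↥C) ∈ Qt := by
    apply hQc
    rw [Subgroup.mem_centralizer_iff]
    intro h _
    exact hzCcen h
  have hzPcen : (⟨⟨z, hzC⟩, hzQt⟩ : ↥Qt) ∈ Subgroup.center ↥Qt := by
    rw [Subgroup.mem_center_iff]
    intro g
    apply Subtype.ext
    exact hzCcen g.1
  have hzP1 : (⟨⟨z, hzC⟩, hzQt⟩ : ↥Qt) ≠ 1 :=
    fun h => hz1 (congrArg (fun x : ↥Qt => ((x : ↥C) : G)) h)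
  let ι : ↥Qt →* G := C.subtype.comp Qt.subtype
  have hι : Function.Injective ι := fun a b h => Subtype.ext (Subtype.ext h)
  have hιz : ι ⟨⟨z, hzC⟩, hzQt⟩ = z := rfl
  have hιQ : ∀ g : G, g ∈ Qt.map C.subtype ↔ ∃ p : ↥Qt, ι p = g := by
    intro g
    constructor
    · rintro ⟨c, hc, rfl⟩
      exact ⟨⟨c, hc⟩, rfl⟩
    · rintro ⟨p, rfl⟩
      exact ⟨p.1, p.2, rfl⟩
  have hcen : ∀ p : ↥Qt, p ∈ Subgroup.center ↥Qt ↔ ι p ∈ Subgroup.zpowers z := by
    intro p
    constructor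
    · intro hp
      by_cases hp1 : p = 1
      · rw [hp1, map_one]
        exact Subgroup.one_mem _
      · have e := two_eq hcard (a := ⟨p, hp⟩) (b := ⟨⟨⟨z, hzC⟩, hzQt⟩, hzPcen⟩)
          (fun h => hp1 (congrArg Subtype.val h)) (fun h => hzP1 (congrArg Subtype.val h))
        have e' : p = ⟨⟨z, hzC⟩, hzQt⟩ := congrArg Subtype.val e
        rw [e', hιz]
        exact Subgroup.mem_zpowers z
    · rintro ⟨k, hk⟩
      have e : p = (⟨⟨z, hzC⟩, hzQt⟩ : ↥Qt) ^ k := hι (by
        rw [map_zpow, hιz]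
        exact hk.symm)
      rw [e]
      exact Subgroup.zpow_mem _ hzPcen k
  let θ : ↥Qt →* ↥Qt :=
    { toFun := fun q => ⟨⟨α, hαC⟩ * q * (⟨α, hαC⟩ : ↥C)⁻¹, hQn.conj_mem q q.2 ⟨α, hαC⟩⟩
      map_one' := by
        apply Subtype.ext
        simp
      map_mul' := fun a b => by
        apply Subtype.ext
        simp [mul_assoc] }
  have hιθ : ∀ q, ι (θ q) = α * ι q * α⁻¹ := fun q => rfl
  have hθ : ∀ q, θ (θ q) = q := by
    intro q
    apply hι
    rw [hιθ, hιθ, hαinv]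
    calc α * (α * ι q * α) * α = (α * α) * ι q * (α * α) := by group
      _ = ι q := by rw [hαα, one_mul, mul_one]
  have hθne : ∃ q, θ q ≠ q := by
    by_contra hall
    push Not at hall
    apply hαQ
    have hmem : (⟨α, hαC⟩ : ↥C) ∈ Qt := by
      apply hQc
      rw [Subgroup.mem_centralizer_iff]
      intro h hh
      have e := hall ⟨h, hh⟩
      have e' : (⟨α, hαC⟩ : ↥C) * h * (⟨α, hαC⟩ : ↥C)⁻¹ = h := congrArg Subtype.val e
      exact (mul_inv_eq_iff_eq_mul.mp e').symm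
    exact ⟨⟨α, hαC⟩, hmem, rfl⟩
  have hP₀ : ∀ q, q ∈ Q₀.comap ι ↔ θ q * q⁻¹ ∈ Subgroup.center ↥Qt := by
    intro q
    rw [Subgroup.mem_comap, hQ₀, hcen, map_mul, map_inv, hιθ]
    constructor
    · exact fun h => h.2
    · exact fun h => ⟨(hιQ _).mpr ⟨q, rfl⟩, h⟩
  have hcore := core hcomm hcard θ hθ hθne (Q₀.comap ι) hP₀
  have hQ₀Q : ∀ x ∈ Q₀, ∃ p ∈ Q₀.comap ι, ι p = x := by
    intro x hx
    obtain ⟨p, rfl⟩ := (hιQ x).mp ((hQ₀ x).mp hx).1
    exact ⟨p, hx, rfl⟩
  constructor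
  · have h1 : Subgroup.closure ((fun q : G => α * q * α⁻¹ * q⁻¹) ''
        ((Qt.map C.subtype : Subgroup G) : Set G)) =
        (Subgroup.closure (Set.range fun q : ↥Qt => θ q * q⁻¹)).map ι := by
      rw [MonoidHom.map_closure]
      congr 1
      ext x
      constructor
      · rintro ⟨g, hg, rfl⟩
        obtain ⟨p, rfl⟩ := (hιQ g).mp hg
        exact ⟨θ p * p⁻¹, ⟨p, rfl⟩, by rw [map_mul, map_inv, hιθ]⟩
      · rintro ⟨_, ⟨p, rfl⟩, rfl⟩
        exact ⟨ι p, (hιQ _).mpr ⟨p, rfl⟩, by rw [map_mul, map_inv, hιθ]⟩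
    rw [h1, hcore]
    ext x
    constructor
    · rintro ⟨p, hp, rfl⟩
      obtain ⟨hpP₀, hpC⟩ := Subgroup.mem_inf.mp hp
      refine ⟨⟨ι p, hpP₀⟩, ?_, rfl⟩
      show (⟨ι p, hpP₀⟩ : ↥Q₀) ∈ Subgroup.center ↥Q₀
      rw [Subgroup.mem_center_iff]
      rintro ⟨w, hw⟩
      apply Subtype.ext
      obtain ⟨p', hp', rfl⟩ := hQ₀Q w hw
      show ι p' * ι p = ι p * ι p'
      rw [← map_mul, ← map_mul, Subgroup.mem_centralizer_iff.mp hpC p' hp']
    · rintro ⟨⟨y, hy⟩, hyc, rfl⟩
      obtain ⟨p, hp, hpy⟩ := hQ₀Q y hy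
      refine ⟨p, Subgroup.mem_inf.mpr ⟨hp, ?_⟩, hpy⟩
      rw [Subgroup.mem_centralizer_iff]
      intro p' hp'
      apply hι
      rw [map_mul, map_mul, hpy]
      have hyc' : (⟨y, hy⟩ : ↥Q₀) ∈ Subgroup.center ↥Q₀ := hyc
      have e := Subgroup.mem_center_iff.mp hyc' ⟨ι p', hp'⟩
      exact congrArg Subtype.val e
  · intro hnot
    obtain ⟨q, hqQ₀, hqn⟩ := SetLike.not_le_iff_exists.mp hnot
    obtain ⟨hqQ, hu⟩ := (hQ₀ q).mp hqQ₀
    refine ⟨q, hqQ, ?_⟩
    have hu1 : α * q * α⁻¹ * q⁻¹ ≠ 1 := by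
      intro h
      apply hqn
      apply Subgroup.mem_sup_left
      refine Subgroup.mem_inf.mpr ⟨hqQ, ?_⟩
      rw [Subgroup.mem_centralizer_singleton_iff]
      have h5 : α * q * α⁻¹ = q := mul_inv_eq_one.mp h
      exact (mul_inv_eq_iff_eq_mul.mp h5).symm
    have huz : α * q * α⁻¹ * q⁻¹ = z := by
      obtain ⟨k, hk⟩ := hu
      have hk' : z ^ k = α * q * α⁻¹ * q⁻¹ := hk
      rcases Int.emod_two_eq_zero_or_one k with hk0 | hk1
      · exfalso
        apply hu1
        rw [← hk']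
        obtain ⟨m, rfl⟩ : ∃ m, k = 2 * m := ⟨k / 2, by omega⟩
        rw [zpow_mul, zpow_two, hzz, one_zpow]
      · rw [← hk']
        obtain ⟨m, rfl⟩ : ∃ m, k = 2 * m + 1 := ⟨k / 2, by omega⟩
        rw [zpow_add, zpow_mul, zpow_two, hzz, one_zpow, one_mul, zpow_one]
    have h5 : α * q * α⁻¹ = z * q := mul_inv_eq_iff_eq_mul.mp huz
    rw [hαinv] at h5
    have e : α * (α * q * α) = q * α := by
      rw [← mul_assoc, ← mul_assoc, hαα, one_mul]
    calc q * α * q⁻¹ = α * (α * q * α) * q⁻¹ := by rw [e]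
      _ = α * (z * q) * q⁻¹ := by rw [h5]
      _ = α * z := by group

theorem result {G : Type*} [Group G] [Finite G] (z : G) (hz : orderOf z = 2) (hQ : Cfsg.IsOfSymplecticType ↥(Cfsg.generalizedFittingSubgroup ↥(Subgroup.centralizer ({z} : Set G)))) (hE : Cfsg.IsExtraspecial 2 ↥(Cfsg.generalizedFittingSubgroup ↥(Subgroup.centralizer ({z} : Set G))))
    (α : G) (hα : orderOf α = 2) (hαC : α ∈ Subgroup.centralizer ({z} : Set G)) (hαQ : α ∉ (Cfsg.generalizedFittingSubgroup ↥(Subgroup.centralizer ({z} : Set G))).map (Subgroup.centralizer ({z} : Set G)).subtype)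
    (Q₀ : Subgroup G) (hQ₀ : ∀ q : G, q ∈ Q₀ ↔ (q ∈ (Cfsg.generalizedFittingSubgroup ↥(Subgroup.centralizer ({z} : Set G))).map (Subgroup.centralizer ({z} : Set G)).subtype ∧ α * q * α⁻¹ * q⁻¹ ∈ Subgroup.zpowers z)) :
    Subgroup.closure ((fun q : G => α * q * α⁻¹ * q⁻¹) '' ((Cfsg.generalizedFittingSubgroup ↥(Subgroup.centralizer ({z} : Set G))).map (Subgroup.centralizer ({z} : Set G)).subtype : Set G)) = (Subgroup.center ↥Q₀).map Q₀.subtype ∧
      (¬ Q₀ ≤ ((Cfsg.generalizedFittingSubgroup ↥(Subgroup.centralizer ({z} : Set G))).map (Subgroup.centralizer ({z} : Set G)).subtype ⊓ Subgroup.centralizer ({α} : Set G)) ⊔ Subgroup.zpowers z →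
        ∃ q ∈ (Cfsg.generalizedFittingSubgroup ↥(Subgroup.centralizer ({z} : Set G))).map (Subgroup.centralizer ({z} : Set G)).subtype, q * α * q⁻¹ = α * z) := by
  obtain ⟨⟨hp, hfr, hcomm⟩, hcard⟩ := hE
  exact aux z hz (Subgroup.centralizer ({z} : Set G))
    (fun g => Subgroup.mem_centralizer_singleton_iff)
    (Cfsg.generalizedFittingSubgroup ↥(Subgroup.centralizer ({z} : Set G)))
    (Cfsg.Agent.Lib.Helper9.gfitting_normal _)
    (Cfsg.Agent.Lib.Helper9.centralizer_gfitting_le _) hcomm hcard α hα hαC hαQ Q₀ hQ₀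

end Cfsg.Agent.S1784
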