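import Cfsg.Statements.S1785
import Mathlib

set_option autoImplicit false
open Cfsg

namespace Cfsg.Agent.S1785

def EA {X : Type*} [Group X] (A : Subgroup X) : Prop :=
  (∀ a ∈ A, ∀ b ∈ A, a * b = b * a) ∧ ∀ a ∈ A, a * a = 1

theorem ea_iff {X : Type*} [Group X] (A : Subgroup X) :
    Cfsg.IsElementaryAbelian 2 A ↔ EA A := by
  constructor
  · rintro ⟨hc, h2⟩
    refine ⟨fun a ha b hb => ?_, fun a ha => by rw [← pow_two]; exact h2 a ha⟩
    have := hc.is_comm.comm ⟨a, ha⟩ ⟨b, hb⟩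
    exact congrArg Subtype.val this
  · rintro ⟨hc, h2⟩
    exact ⟨⟨⟨fun a b => Subtype.ext (hc a a.2 b b.2)⟩⟩, fun a ha => by rw [pow_two]; exact h2 a ha⟩

theorem EA.mono {X : Type*} [Group X] {A B : Subgroup X} (h : EA B) (hle : A ≤ B) : EA A :=
  ⟨fun a ha b hb => h.1 a (hle ha) b (hle hb), fun a ha => h.2 a (hle ha)⟩

theorem EA.le_centralizer {X : Type*} [Group X] {M A B : Subgroup X} (h : EA M) (hA : A ≤ M)
    (hB : B ≤ M) : A ≤ Subgroup.centralizer (B : Set X) :=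
  fun x hx => Subgroup.mem_centralizer_iff.mpr (fun y hy => h.1 y (hB hy) x (hA hx))

theorem ea_sup {X : Type*} [Group X] {H K : Subgroup X} (hH : EA H) (hK : EA K)
    (hHK : K ≤ Subgroup.centralizer (H : Set X)) : EA (H ⊔ K) := by
  have hHK' : H ≤ Subgroup.centralizer (K : Set X) := Subgroup.le_centralizer_iff.mp hHK
  have hH' : H ≤ Subgroup.centralizer (H : Set X) := hH.le_centralizer le_rfl le_rfl
  have hK' : K ≤ Subgroup.centralizer (K : Set X) := hK.le_centralizer le_rfl le_rfl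
  have hc : H ⊔ K ≤ Subgroup.centralizer ((H ⊔ K : Subgroup X) : Set X) := by
    refine sup_le ?_ ?_
    · rw [Subgroup.le_centralizer_iff]
      exact sup_le hH' hHK
    · rw [Subgroup.le_centralizer_iff]
      exact sup_le hHK' hK'
  have comm : ∀ a ∈ H ⊔ K, ∀ b ∈ H ⊔ K, a * b = b * a :=
    fun a ha b hb => (Subgroup.mem_centralizer_iff.mp (hc ha) b hb).symm
  refine ⟨comm, ?_⟩
  let T : Subgroup X :=
    { carrier := {x | x ∈ H ⊔ K ∧ x * x = 1}
      mul_mem' := by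
        rintro x y ⟨hx, hx2⟩ ⟨hy, hy2⟩
        refine ⟨Subgroup.mul_mem _ hx hy, ?_⟩
        calc x * y * (x * y) = x * (y * x) * y := by group
          _ = x * (x * y) * y := by rw [comm y hy x hx]
          _ = (x * x) * (y * y) := by group
          _ = 1 := by rw [hx2, hy2, one_mul]
      one_mem' := ⟨Subgroup.one_mem _, one_mul 1⟩
      inv_mem' := by
        rintro x ⟨hx, hx2⟩
        refine ⟨Subgroup.inv_mem _ hx, ?_⟩
        rw [← mul_inv_rev, hx2, inv_one] }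
  have hT : H ⊔ K ≤ T :=
    sup_le (fun a ha => ⟨Subgroup.mem_sup_left ha, hH.2 a ha⟩)
      (fun a ha => ⟨Subgroup.mem_sup_right ha, hK.2 a ha⟩)
  exact fun a ha => (hT ha).2

theorem card_pow {X : Type*} [Group X] [Finite X] (hX : IsPGroup 2 X) (C : Subgroup X) :
    ∃ k, Nat.card C = 2 ^ k := by
  have : Fact (Nat.Prime 2) := ⟨Nat.prime_two⟩
  exact IsPGroup.iff_card.mp (hX.to_subgroup C)

theorem a32 (k : ℕ) (h : 32 ≤ (2 ^ k) ^ 2) : 8 ≤ 2 ^ k := by
  rcases Nat.lt_or_ge k 3 with h3 | h3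
  · interval_cases k <;> norm_num at h
  · calc 8 = 2 ^ 3 := rfl
      _ ≤ 2 ^ k := Nat.pow_le_pow_right (by norm_num) h3

theorem a8 (k : ℕ) (h : 8 ≤ (2 ^ k) ^ 2) : 4 ≤ 2 ^ k := by
  rcases Nat.lt_or_ge k 2 with h3 | h3
  · interval_cases k <;> norm_num at h
  · calc 4 = 2 ^ 2 := rfl
      _ ≤ 2 ^ k := Nat.pow_le_pow_right (by norm_num) h3

theorem a4 (k : ℕ) (h : 4 ≤ (2 ^ k) ^ 2) : 2 ≤ 2 ^ k := by
  rcases Nat.lt_or_ge k 1 with h3 | h3
  · interval_cases k
    norm_num at h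
  · calc 2 = 2 ^ 1 := rfl
      _ ≤ 2 ^ k := Nat.pow_le_pow_right (by norm_num) h3

theorem exists_between {X : Type*} [Group X] [Finite X] (hX : IsPGroup 2 X) (H D : Subgroup X)
    (hHD : H ≤ D) (i j : ℕ) (hH : Nat.card H = 2 ^ i) (hD : 2 ^ j ≤ Nat.card D) (hij : i ≤ j) :
    ∃ K : Subgroup X, H ≤ K ∧ K ≤ D ∧ Nat.card K = 2 ^ j := by
  have : Fact (Nat.Prime 2) := ⟨Nat.prime_two⟩
  obtain ⟨k, hk⟩ := card_pow hX D
  have hjk : j ≤ k := by
    rw [hk] at hD
    exact (Nat.pow_le_pow_iff_right (by norm_num)).mp hD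
  have hdvd : 2 ^ j ∣ Nat.card ↥D := by
    rw [hk]
    exact pow_dvd_pow 2 hjk
  have hH' : Nat.card ↥(H.subgroupOf D) = 2 ^ i := by
    rw [Nat.card_congr (Subgroup.subgroupOfEquivOfLe hHD).toEquiv, hH]
  obtain ⟨K', hK', hHK'⟩ :=
    Sylow.exists_subgroup_card_pow_prime_le 2 hdvd (H.subgroupOf D) hH' hij
  refine ⟨K'.map D.subtype, ?_, ?_, ?_⟩
  · intro x hx
    exact ⟨⟨x, hHD hx⟩, hHK' (Subgroup.mem_subgroupOf.mpr hx), rfl⟩
  · rintro _ ⟨y, -, rfl⟩
    exact y.2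
  · rw [Subgroup.card_map_of_injective D.subtype_injective, hK']

theorem fix_invol {X : Type*} [Group X] [Finite X] (D : Subgroup X) (hD : EA D) (b : X)
    (hb : ∀ d ∈ D, b * d * b⁻¹ ∈ D) (hbb : ∀ d ∈ D, (b * b) * d = d * (b * b)) :
    Nat.card D ≤ Nat.card ↥(D ⊓ Subgroup.centralizer ({b} : Set X)) ^ 2 := by
  obtain ⟨hc, h2⟩ := hD
  let φ : ↥D →* ↥D :=
    { toFun := fun d => ⟨d * (b * d * b⁻¹), D.mul_mem d.2 (hb d d.2)⟩
      map_one' := by
        apply Subtype.ext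
        simp
      map_mul' := fun d d' => by
        apply Subtype.ext
        show (d : X) * d' * (b * (d * d') * b⁻¹) = d * (b * d * b⁻¹) * (d' * (b * d' * b⁻¹))
        have e := hc d' d'.2 (b * d * b⁻¹) (hb d d.2)
        calc (d : X) * d' * (b * (d * d') * b⁻¹)
            = d * ((d' : X) * (b * d * b⁻¹)) * (b * d' * b⁻¹) := by group
          _ = d * ((b * d * b⁻¹) * d') * (b * d' * b⁻¹) := by rw [e]
          _ = d * (b * d * b⁻¹) * (d' * (b * d' * b⁻¹)) := by group }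
  have hφ : ∀ d : ↥D, ((φ d : ↥D) : X) = d * (b * d * b⁻¹) := fun d => rfl
  have hker : φ.ker.map D.subtype ≤ D ⊓ Subgroup.centralizer ({b} : Set X) := by
    rintro _ ⟨d, hd, rfl⟩
    refine Subgroup.mem_inf.mpr ⟨d.2, ?_⟩
    rw [Subgroup.mem_centralizer_singleton_iff]
    have h1 : (d : X) * (b * d * b⁻¹) = 1 := by
      have := congrArg Subtype.val (MonoidHom.mem_ker.mp hd)
      rw [hφ] at this
      exact this
    have h3 : b * d * b⁻¹ = (d : X) := by
      have e : b * d * b⁻¹ = (d : X)⁻¹ := eq_inv_of_mul_eq_one_right h1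
      rw [e]
      exact inv_eq_of_mul_eq_one_left (h2 d d.2)
    show (d : X) * b = b * d
    calc (d : X) * b = (b * d * b⁻¹) * b := by rw [h3]
      _ = b * d := by group
  have hrange : φ.range.map D.subtype ≤ D ⊓ Subgroup.centralizer ({b} : Set X) := by
    rintro _ ⟨_, ⟨d, rfl⟩, rfl⟩
    refine Subgroup.mem_inf.mpr ⟨(φ d).2, ?_⟩
    rw [Subgroup.mem_centralizer_singleton_iff]
    show ((φ d : ↥D) : X) * b = b * ((φ d : ↥D) : X)
    rw [hφ]
    have e1 := hbb d d.2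
    have e2 := hc d d.2 (b * d * b⁻¹) (hb d d.2)
    calc (d : X) * (b * d * b⁻¹) * b = (b * d * b⁻¹) * d * b := by rw [e2]
      _ = b * d * b⁻¹ * ((d : X) * (b * b)) * b⁻¹ := by group
      _ = b * d * b⁻¹ * ((b * b) * d) * b⁻¹ := by rw [e1]
      _ = b * (d * (b * d * b⁻¹)) := by group
  have hcard : Nat.card φ.ker * Nat.card φ.range = Nat.card ↥D := by
    rw [← Subgroup.index_ker]
    exact Subgroup.card_mul_index φ.ker
  have h1 : Nat.card φ.ker ≤ Nat.card ↥(D ⊓ Subgroup.centralizer ({b} : Set X)) := by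
    rw [← Subgroup.card_map_of_injective D.subtype_injective]
    exact Subgroup.card_le_of_le hker
  have h2' : Nat.card φ.range ≤ Nat.card ↥(D ⊓ Subgroup.centralizer ({b} : Set X)) := by
    rw [← Subgroup.card_map_of_injective D.subtype_injective]
    exact Subgroup.card_le_of_le hrange
  calc Nat.card ↥D = Nat.card φ.ker * Nat.card φ.range := hcard.symm
    _ ≤ Nat.card ↥(D ⊓ Subgroup.centralizer ({b} : Set X)) *
        Nat.card ↥(D ⊓ Subgroup.centralizer ({b} : Set X)) := Nat.mul_le_mul h1 h2'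
    _ = Nat.card ↥(D ⊓ Subgroup.centralizer ({b} : Set X)) ^ 2 := (pow_two _).symm

theorem fix_sq {X : Type*} [Group X] [Finite X] (D B' B : Subgroup X) (hD : EA D)
    (hBD : ∀ b ∈ B, ∀ d ∈ D, b * d * b⁻¹ ∈ D) (hle : B' ≤ B)
    (hcard : Nat.card B = 2 * Nat.card B') :
    Nat.card ↥(D ⊓ Subgroup.centralizer (B' : Set X)) ≤
      Nat.card ↥(D ⊓ Subgroup.centralizer (B : Set X)) ^ 2 := by
  have hpos : 0 < Nat.card B' := Nat.card_pos
  have hidx : (B'.subgroupOf B).index = 2 := by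
    have h1 := Subgroup.card_mul_index (B'.subgroupOf B)
    rw [Nat.card_congr (Subgroup.subgroupOfEquivOfLe hle).toEquiv, hcard] at h1
    exact Nat.eq_of_mul_eq_mul_left hpos (by rw [h1, mul_comm])
  obtain ⟨b, hbB, hbB'⟩ : ∃ b ∈ B, b ∉ B' := by
    by_contra hcon
    push Not at hcon
    have e : B = B' := le_antisymm hcon hle
    rw [e] at hcard
    omega
  have hmem : ∀ x y : X, ∀ hx : x ∈ B, ∀ hy : y ∈ B, (x * y ∈ B' ↔ (x ∈ B' ↔ y ∈ B')) := by
    intro x y hx hy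
    have := Subgroup.mul_mem_iff_of_index_two hidx (a := ⟨x, hx⟩) (b := ⟨y, hy⟩)
    simpa [Subgroup.mem_subgroupOf] using this
  have hbb : b * b ∈ B' := (hmem b b hbB hbB).mpr Iff.rfl
  have hbinv : b⁻¹ ∉ B' := fun h => hbB' (by simpa using B'.inv_mem h)
  have hconj : ∀ x ∈ B', b⁻¹ * x * b ∈ B' := by
    intro x hx
    rw [hmem (b⁻¹ * x) b (B.mul_mem (B.inv_mem hbB) (hle hx)) hbB]
    constructor
    · intro h
      rw [hmem b⁻¹ x (B.inv_mem hbB) (hle hx)] at h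
      exact absurd (h.mpr hx) hbinv
    · intro h
      exact absurd h hbB'
  have hcos : ∀ y ∈ B, y ∉ B' → b⁻¹ * y ∈ B' := by
    intro y hy hy'
    rw [hmem b⁻¹ y (B.inv_mem hbB) hy]
    exact ⟨fun h => absurd h hbinv, fun h => absurd h hy'⟩
  have hD'ea : EA (D ⊓ Subgroup.centralizer (B' : Set X)) := hD.mono inf_le_left
  have hnorm : ∀ d ∈ D ⊓ Subgroup.centralizer (B' : Set X),
      b * d * b⁻¹ ∈ D ⊓ Subgroup.centralizer (B' : Set X) := by
    intro d hd
    obtain ⟨hdD, hdC⟩ := Subgroup.mem_inf.mp hd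
    refine Subgroup.mem_inf.mpr ⟨hBD b hbB d hdD, ?_⟩
    rw [Subgroup.mem_centralizer_iff]
    intro x hx
    have e := Subgroup.mem_centralizer_iff.mp hdC (b⁻¹ * x * b) (hconj x hx)
    calc x * (b * d * b⁻¹) = b * ((b⁻¹ * x * b) * d) * b⁻¹ := by group
      _ = b * (d * (b⁻¹ * x * b)) * b⁻¹ := by rw [e]
      _ = b * d * b⁻¹ * x := by group
  have hsq : ∀ d ∈ D ⊓ Subgroup.centralizer (B' : Set X), (b * b) * d = d * (b * b) := by
    intro d hd
    obtain ⟨-, hdC⟩ := Subgroup.mem_inf.mp hd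
    exact Subgroup.mem_centralizer_iff.mp hdC (b * b) hbb
  have h1 := fix_invol (D ⊓ Subgroup.centralizer (B' : Set X)) hD'ea b hnorm hsq
  have h2 : D ⊓ Subgroup.centralizer (B' : Set X) ⊓ Subgroup.centralizer ({b} : Set X) ≤
      D ⊓ Subgroup.centralizer (B : Set X) := by
    intro d hd
    obtain ⟨hd', hdb⟩ := Subgroup.mem_inf.mp hd
    obtain ⟨hdD, hdC⟩ := Subgroup.mem_inf.mp hd'
    refine Subgroup.mem_inf.mpr ⟨hdD, ?_⟩
    rw [Subgroup.mem_centralizer_iff]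
    intro y hy
    rw [Subgroup.mem_centralizer_singleton_iff] at hdb
    by_cases hy' : y ∈ B'
    · exact Subgroup.mem_centralizer_iff.mp hdC y hy'
    · have e := Subgroup.mem_centralizer_iff.mp hdC (b⁻¹ * y) (hcos y hy hy')
      calc y * d = b * ((b⁻¹ * y) * d) := by group
        _ = b * (d * (b⁻¹ * y)) := by rw [e]
        _ = (b * d) * (b⁻¹ * y) := by group
        _ = (d * b) * (b⁻¹ * y) := by rw [hdb]
        _ = d * y := by group
  exact h1.trans (Nat.pow_le_pow_left (Subgroup.card_le_of_le h2) 2)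

def R {X : Type*} [Group X] (C D : Subgroup X) : Prop :=
  EA C ∧ Nat.card C = 8 ∧ EA D ∧ Nat.card D = 8 ∧ C ≤ Subgroup.centralizer (D : Set X)

theorem R_symm {X : Type*} [Group X] {C D : Subgroup X} (h : R C D) : R D C := by
  obtain ⟨h1, h2, h3, h4, h5⟩ := h
  exact ⟨h3, h4, h1, h2, Subgroup.le_centralizer_iff.mp h5⟩

theorem card_zpowers_two {X : Type*} [Group X] (v : X) (hv : v * v = 1) (hv1 : v ≠ 1) :
    Nat.card (Subgroup.zpowers v) = 2 := by
  rw [Nat.card_zpowers]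
  have : Fact (Nat.Prime 2) := ⟨Nat.prime_two⟩
  exact orderOf_eq_prime (by rw [pow_two]; exact hv) hv1

section main

variable {X : Type*} [Group X] [Finite X] (hX : IsPGroup 2 X) (E : Subgroup X)
  (hEn : ∀ b : X, ∀ d ∈ E, b * d * b⁻¹ ∈ E) (hE : EA E) (hE32 : 32 ≤ Nat.card ↥E)

include hX hEn hE hE32

theorem ce_two (K : Subgroup X) (hK : Nat.card K = 2) :
    8 ≤ Nat.card ↥(E ⊓ Subgroup.centralizer (K : Set X)) := by
  have h1 := fix_sq E ⊥ K hE (fun b _ d hd => hEn b d hd) bot_le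
    (by rw [hK, Subgroup.card_bot])
  have h2 : E ≤ E ⊓ Subgroup.centralizer ((⊥ : Subgroup X) : Set X) := by
    intro d hd
    refine Subgroup.mem_inf.mpr ⟨hd, ?_⟩
    rw [Subgroup.mem_centralizer_iff]
    intro h hh
    rw [Subgroup.mem_bot.mp hh, one_mul, mul_one]
  have h3 : 32 ≤ Nat.card ↥(E ⊓ Subgroup.centralizer (K : Set X)) ^ 2 :=
    hE32.trans ((Subgroup.card_le_of_le h2).trans h1)
  obtain ⟨k, hk⟩ := card_pow hX (E ⊓ Subgroup.centralizer (K : Set X))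
  rw [hk] at h3 ⊢
  exact a32 k h3

theorem ce_four (K V : Subgroup X) (hKV : K ≤ V) (hK : Nat.card K = 2) (hV : Nat.card V = 4) :
    4 ≤ Nat.card ↥(E ⊓ Subgroup.centralizer (V : Set X)) := by
  have h1 := fix_sq E K V hE (fun b _ d hd => hEn b d hd) hKV (by rw [hK, hV])
  have h3 : 8 ≤ Nat.card ↥(E ⊓ Subgroup.centralizer (V : Set X)) ^ 2 :=
    (ce_two hX E hEn hE hE32 K hK).trans h1
  obtain ⟨k, hk⟩ := card_pow hX (E ⊓ Subgroup.centralizer (V : Set X))
  rw [hk] at h3 ⊢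
  exact a8 k h3

theorem ce_eight (V A : Subgroup X) (hVA : V ≤ A) (hV : Nat.card V = 4) (hA : Nat.card A = 8) :
    2 ≤ Nat.card ↥(E ⊓ Subgroup.centralizer (A : Set X)) := by
  obtain ⟨K, -, hKV, hK⟩ := exists_between hX ⊥ V bot_le 0 1 (by rw [Subgroup.card_bot]; rfl)
    (by rw [hV]; norm_num) (by norm_num)
  have h0 := ce_four hX E hEn hE hE32 K V hKV (by rw [hK]; rfl) hV
  have h1 := fix_sq E V A hE (fun b _ d hd => hEn b d hd) hVA (by rw [hV, hA])
  have h3 : 4 ≤ Nat.card ↥(E ⊓ Subgroup.centralizer (A : Set X)) ^ 2 := h0.trans h1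
  obtain ⟨k, hk⟩ := card_pow hX (E ⊓ Subgroup.centralizer (A : Set X))
  rw [hk] at h3 ⊢
  exact a4 k h3

theorem ce_eight' (Z A : Subgroup X) (hZA : Z ≤ A) (hZE : Z ≤ E) (hZ : Nat.card Z = 2)
    (hA : Nat.card A = 8) : 4 ≤ Nat.card ↥(E ⊓ Subgroup.centralizer (A : Set X)) := by
  obtain ⟨V, hZV, hVA, hV⟩ := exists_between hX Z A hZA 1 2 (by rw [hZ]; rfl)
    (by rw [hA]; norm_num) (by norm_num)
  have hV4 : Nat.card V = 4 := by rw [hV]; rfl
  have h0 := fix_sq E Z V hE (fun b _ d hd => hEn b d hd) hZV (by rw [hZ, hV4])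
  have h2 : E ≤ E ⊓ Subgroup.centralizer (Z : Set X) :=
    fun d hd => Subgroup.mem_inf.mpr ⟨hd, hE.le_centralizer le_rfl hZE hd⟩
  have h3 : 32 ≤ Nat.card ↥(E ⊓ Subgroup.centralizer (V : Set X)) ^ 2 :=
    hE32.trans ((Subgroup.card_le_of_le h2).trans h0)
  obtain ⟨k, hk⟩ := card_pow hX (E ⊓ Subgroup.centralizer (V : Set X))
  have h4 : 8 ≤ Nat.card ↥(E ⊓ Subgroup.centralizer (V : Set X)) := by
    rw [hk] at h3 ⊢
    exact a32 k h3
  have h1 := fix_sq E V A hE (fun b _ d hd => hEn b d hd) hVA (by rw [hV4, hA])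
  have h5 : 8 ≤ Nat.card ↥(E ⊓ Subgroup.centralizer (A : Set X)) ^ 2 := h4.trans h1
  obtain ⟨k', hk'⟩ := card_pow hX (E ⊓ Subgroup.centralizer (A : Set X))
  rw [hk'] at h5 ⊢
  exact a8 k' h5

theorem conn (F0 : Subgroup X) (hF0E : F0 ≤ E) (hF0 : Nat.card F0 = 8) (A : Subgroup X)
    (hA : EA A) (hcA : Nat.card A = 8) : Relation.ReflTransGen R A F0 := by
  have hF0ea : EA F0 := hE.mono hF0E
  obtain ⟨V0, -, hV0A, hV0⟩ := exists_between hX ⊥ A bot_le 0 2 (by rw [Subgroup.card_bot]; rfl)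
    (by rw [hcA]; norm_num) (by norm_num)
  have hce := ce_eight hX E hEn hE hE32 V0 A hV0A (by rw [hV0]; rfl) hcA
  have hne : E ⊓ Subgroup.centralizer (A : Set X) ≠ ⊥ :=
    (Subgroup.one_lt_card_iff_ne_bot _).mp (by omega)
  obtain ⟨e, he1⟩ := (Subgroup.ne_bot_iff_exists_ne_one.mp hne)
  have he1' : (e : X) ≠ 1 := fun h => he1 (Subtype.ext h)
  obtain ⟨heE, heC⟩ := Subgroup.mem_inf.mp e.2
  have hZ2 : Nat.card (Subgroup.zpowers (e : X)) = 2 :=
    card_zpowers_two (e : X) (hE.2 e heE) he1'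
  have hZE : Subgroup.zpowers (e : X) ≤ E := Subgroup.zpowers_le.mpr heE
  have hZea : EA (Subgroup.zpowers (e : X)) := hE.mono hZE
  have hZC : Subgroup.zpowers (e : X) ≤ Subgroup.centralizer (A : Set X) :=
    Subgroup.zpowers_le.mpr heC
  have hU1 : EA (A ⊔ Subgroup.zpowers (e : X)) := ea_sup hA hZea hZC
  obtain ⟨A', hZA', hA'U1, hA'⟩ := exists_between hX (Subgroup.zpowers (e : X))
    (A ⊔ Subgroup.zpowers (e : X)) le_sup_right 1 3 (by rw [hZ2]; rfl)
    (by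
      have := Subgroup.card_le_of_le (le_sup_left : A ≤ A ⊔ Subgroup.zpowers (e : X))
      rw [hcA] at this
      exact this) (by norm_num)
  have hA'8 : Nat.card A' = 8 := by rw [hA']; rfl
  have hA'ea : EA A' := hU1.mono hA'U1
  have r1 : R A A' := ⟨hA, hcA, hA'ea, hA'8, hU1.le_centralizer le_sup_left hA'U1⟩
  have hce' := ce_eight' hX E hEn hE hE32 (Subgroup.zpowers (e : X)) A' hZA' hZE hZ2 hA'8
  obtain ⟨W, -, hWC, hW⟩ := exists_between hX ⊥ (E ⊓ Subgroup.centralizer (A' : Set X)) bot_le 0 2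
    (by rw [Subgroup.card_bot]; rfl) hce' (by norm_num)
  have hW4 : Nat.card W = 4 := by rw [hW]; rfl
  have hWE : W ≤ E := hWC.trans inf_le_left
  have hWA' : W ≤ Subgroup.centralizer (A' : Set X) := hWC.trans inf_le_right
  have hWea : EA W := hE.mono hWE
  by_cases hA'E : A' ≤ E
  · have r2 : R A' F0 := ⟨hA'ea, hA'8, hF0ea, hF0, hE.le_centralizer hA'E hF0E⟩
    exact (Relation.ReflTransGen.single r1).trans (Relation.ReflTransGen.single r2)
  · obtain ⟨v, hvA', hvE⟩ := SetLike.not_le_iff_exists.mp hA'E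
    have hv1 : v ≠ 1 := fun h => hvE (h ▸ E.one_mem)
    have hZv2 : Nat.card (Subgroup.zpowers v) = 2 := card_zpowers_two v (hA'ea.2 v hvA') hv1
    have hZvA' : Subgroup.zpowers v ≤ A' := Subgroup.zpowers_le.mpr hvA'
    have hZvea : EA (Subgroup.zpowers v) := hA'ea.mono hZvA'
    have hZvW : Subgroup.zpowers v ≤ Subgroup.centralizer (W : Set X) :=
      Subgroup.le_centralizer_iff.mp (hWA'.trans (Subgroup.centralizer_le hZvA'))
    have hU2 : EA (W ⊔ Subgroup.zpowers v) := ea_sup hWea hZvea hZvW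
    have hU2c : 8 ≤ Nat.card ↥(W ⊔ Subgroup.zpowers v) := by
      have hdvd := Subgroup.card_dvd_of_le (le_sup_left : W ≤ W ⊔ Subgroup.zpowers v)
      rw [hW4] at hdvd
      have hpos : 0 < Nat.card ↥(W ⊔ Subgroup.zpowers v) := Nat.card_pos
      by_contra hlt
      have h4 : Nat.card ↥(W ⊔ Subgroup.zpowers v) = 4 := by
        obtain ⟨c, hc⟩ := hdvd
        omega
      have heq : W = W ⊔ Subgroup.zpowers v :=
        Subgroup.eq_of_le_of_card_ge le_sup_left (by rw [h4, hW4])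
      exact hvE (hWE (heq.ge (Subgroup.mem_sup_right (Subgroup.mem_zpowers v))))
    obtain ⟨A'', hWA'', hA''U2, hA''⟩ := exists_between hX W (W ⊔ Subgroup.zpowers v) le_sup_left
      2 3 (by rw [hW4]; rfl) hU2c (by norm_num)
    have hA''8 : Nat.card A'' = 8 := by rw [hA'']; rfl
    have hA''ea : EA A'' := hU2.mono hA''U2
    have hU2A' : W ⊔ Subgroup.zpowers v ≤ Subgroup.centralizer (A' : Set X) :=
      sup_le hWA' (hA'ea.le_centralizer hZvA' le_rfl)
    have r2 : R A' A'' :=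
      ⟨hA'ea, hA'8, hA''ea, hA''8, Subgroup.le_centralizer_iff.mp (hA''U2.trans hU2A')⟩
    have hD1 := ce_two hX E hEn hE hE32 (Subgroup.zpowers v) hZv2
    have hWD1 : W ≤ E ⊓ Subgroup.centralizer ((Subgroup.zpowers v : Subgroup X) : Set X) :=
      le_inf hWE (Subgroup.le_centralizer_iff.mp hZvW)
    obtain ⟨F, hWF, hFD1, hF⟩ := exists_between hX W
      (E ⊓ Subgroup.centralizer ((Subgroup.zpowers v : Subgroup X) : Set X)) hWD1 2 3
      (by rw [hW4]; rfl) hD1 (by norm_num)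
    have hF8 : Nat.card F = 8 := by rw [hF]; rfl
    have hFE : F ≤ E := hFD1.trans inf_le_left
    have hFea : EA F := hE.mono hFE
    have hU2F : W ⊔ Subgroup.zpowers v ≤ Subgroup.centralizer (F : Set X) :=
      sup_le (hE.le_centralizer hWE hFE)
        (Subgroup.le_centralizer_iff.mp (hFD1.trans inf_le_right))
    have r3 : R A'' F := ⟨hA''ea, hA''8, hFea, hF8, hA''U2.trans hU2F⟩
    have r4 : R F F0 := ⟨hFea, hF8, hF0ea, hF0, hE.le_centralizer hFE hF0E⟩
    exact (((Relation.ReflTransGen.single r1).trans (Relation.ReflTransGen.single r2)).trans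
      (Relation.ReflTransGen.single r3)).trans (Relation.ReflTransGen.single r4)

theorem part_b (V : Subgroup X) (hV : EA V) (hcV : Nat.card V = 4) :
    ∃ A : Subgroup X, V ≤ A ∧ EA A ∧ Nat.card A = 8 := by
  obtain ⟨K, -, hKV, hK⟩ := exists_between hX ⊥ V bot_le 0 1 (by rw [Subgroup.card_bot]; rfl)
    (by rw [hcV]; norm_num) (by norm_num)
  have hce := ce_four hX E hEn hE hE32 K V hKV (by rw [hK]; rfl) hcV
  have hCea : EA (E ⊓ Subgroup.centralizer (V : Set X)) := hE.mono inf_le_left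
  have hU : EA (V ⊔ (E ⊓ Subgroup.centralizer (V : Set X))) := ea_sup hV hCea inf_le_right
  have hUc : 8 ≤ Nat.card ↥(V ⊔ (E ⊓ Subgroup.centralizer (V : Set X))) := by
    have hdvd := Subgroup.card_dvd_of_le
      (le_sup_left : V ≤ V ⊔ (E ⊓ Subgroup.centralizer (V : Set X)))
    rw [hcV] at hdvd
    have hpos : 0 < Nat.card ↥(V ⊔ (E ⊓ Subgroup.centralizer (V : Set X))) := Nat.card_pos
    by_contra hlt
    have h4 : Nat.card ↥(V ⊔ (E ⊓ Subgroup.centralizer (V : Set X))) = 4 := by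
      obtain ⟨c, hc⟩ := hdvd
      omega
    have heq : V = V ⊔ (E ⊓ Subgroup.centralizer (V : Set X)) :=
      Subgroup.eq_of_le_of_card_ge le_sup_left (by rw [h4, hcV])
    have hCV : E ⊓ Subgroup.centralizer (V : Set X) ≤ V := le_sup_right.trans heq.ge
    have heq2 : E ⊓ Subgroup.centralizer (V : Set X) = V :=
      Subgroup.eq_of_le_of_card_ge hCV (by rw [hcV]; exact hce)
    have hVE : V ≤ E := heq2.ge.trans inf_le_left
    have hEV : E ≤ V := (le_inf le_rfl (hE.le_centralizer le_rfl hVE)).trans heq2.le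
    have := Subgroup.card_le_of_le hEV
    omega
  obtain ⟨A, hVA, hAU, hA⟩ := exists_between hX V (V ⊔ (E ⊓ Subgroup.centralizer (V : Set X)))
    le_sup_left 2 3 (by rw [hcV]; rfl) hUc (by norm_num)
  exact ⟨A, hVA, hU.mono hAU, by rw [hA]; rfl⟩

end main

theorem result {X : Type*} [Group X] [Finite X]
    (hX : IsPGroup 2 X) (E : Subgroup X) [E.Normal] (hE : Cfsg.IsElementaryAbelian 2 E) (hE32 : 32 ≤ Nat.card ↥E) :
    (∀ A B : Subgroup X, Cfsg.IsElementaryAbelian 2 A → Nat.card ↥A = 8 → Cfsg.IsElementaryAbelian 2 B → Nat.card ↥B = 8 →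
        Relation.ReflTransGen
          (fun C D : Subgroup X => Cfsg.IsElementaryAbelian 2 C ∧ Nat.card ↥C = 8 ∧ Cfsg.IsElementaryAbelian 2 D ∧ Nat.card ↥D = 8 ∧ ⁅C, D⁆ = ⊥)
          A B) ∧
      (∀ V : Subgroup X, Cfsg.IsElementaryAbelian 2 V → Nat.card ↥V = 4 →
        ∃ A : Subgroup X, V ≤ A ∧ Cfsg.IsElementaryAbelian 2 A ∧ Nat.card ↥A = 8) := by
  have hEn : ∀ b : X, ∀ d ∈ E, b * d * b⁻¹ ∈ E := fun b d hd => Subgroup.Normal.conj_mem ‹_› d hd b
  have hE' : EA E := (ea_iff E).mp hE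
  refine ⟨fun A B hA hcA hB hcB => ?_, fun V hV hcV => ?_⟩
  · obtain ⟨F0, -, hF0E, hF0⟩ := exists_between hX ⊥ E bot_le 0 3
      (by rw [Subgroup.card_bot]; rfl) (by norm_num; omega) (by norm_num)
    have hF08 : Nat.card F0 = 8 := by rw [hF0]; rfl
    have h1 := conn hX E hEn hE' hE32 F0 hF0E hF08 A ((ea_iff A).mp hA) hcA
    have h2 := conn hX E hEn hE' hE32 F0 hF0E hF08 B ((ea_iff B).mp hB) hcB
    have hs : Std.Symm (R (X := X)) := ⟨fun _ _ h => R_symm h⟩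
    have h3 : Relation.ReflTransGen R A B :=
      h1.trans ((Relation.ReflTransGen.stdSymm (r := R (X := X))).symm _ _ h2)
    exact Relation.ReflTransGen.mono (fun C D h => ⟨(ea_iff C).mpr h.1, h.2.1,
      (ea_iff D).mpr h.2.2.1, h.2.2.2.1,
      Subgroup.commutator_eq_bot_iff_le_centralizer.mpr h.2.2.2.2⟩) _ _ h3
  · obtain ⟨A, hVA, hA, hcA⟩ := part_b hX E hEn hE' hE32 V ((ea_iff V).mp hV) hcV
    exact ⟨A, hVA, (ea_iff A).mpr hA, hcA⟩

end Cfsg.Agent.S1785
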