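import Cfsg.Statements.S1850
import Cfsg.Agent.Lib.Helper12.CharP

set_option autoImplicit false
open Cfsg

namespace Cfsg.Agent.S1850

/-- Let G be a non-abelian finite simple QTKE-group and T a Sylow 2-subgroup of G. If U is a nontrivial 2-subgroup of G with U ∩ Z(T) ≠ 1, then F*(N_G(U)) = O₂(N_G(U)). -/
theorem result {G : Type*} [Group G] [Finite G] [IsSimpleGroup G]
    (hG : ¬ IsMulCommutative G) (hQ : Cfsg.IsQTKE G) (T : Sylow 2 G) (U : Subgroup G)
    (hU : IsPGroup 2 ↥U) (hZ : U ⊓ ((T : Subgroup G) ⊓ Subgroup.centralizer ((T : Subgroup G) : Set G)) ≠ ⊥) :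
    Subgroup.normalizer (U : Set G) ∈ Cfsg.calHe G := by
  have : Fact (Nat.Prime 2) := ⟨Nat.prime_two⟩
  have hZU : U ⊓ ((T : Subgroup G) ⊓ Subgroup.centralizer ((T : Subgroup G) : Set G)) ≤ U :=
    inf_le_left
  have hZp : IsPGroup 2 ↥(U ⊓ ((T : Subgroup G) ⊓
      Subgroup.centralizer ((T : Subgroup G) : Set G))) := hU.to_le hZU
  have hTN : (T : Subgroup G) ≤ Subgroup.normalizer
      ((U ⊓ ((T : Subgroup G) ⊓ Subgroup.centralizer ((T : Subgroup G) : Set G)) : Subgroup G) :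
        Set G) := by
    intro t ht
    apply Cfsg.Agent.Lib.Helper10.Coprime.mem_normalizer_of_conj_mem
    intro z hz
    have h1 := Subgroup.mem_centralizer_iff.mp (Subgroup.mem_inf.mp (Subgroup.mem_inf.mp hz).2).2 t ht
    have e : t * z * t⁻¹ = z := by
      rw [h1]
      group
    rw [e]
    exact hz
  have h0 := hQ.2.2 _ ⟨_, hZp, hZ, rfl⟩ ⟨T, hTN⟩
  have h1 := Cfsg.Agent.Lib.Helper12.CharP.charp_normalizer_of_le U hU _ _ hZU rfl h0
  exact Cfsg.Agent.Lib.Helper12.CharP.gfitting_eq_pCore_of_centralizer_le 2 h1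

end Cfsg.Agent.S1850
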