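import Cfsg.Statements.S1958
import Cfsg.Agent.Lib.Helper12.Balance

set_option autoImplicit false
open Cfsg

namespace Cfsg.Agent.S1958

open Cfsg.Agent.Lib.Helper12.Balance

theorem half {G : Type*} [Group G] [Finite G] (p : ℕ) [Fact p.Prime] (x y : G)
    (hx : orderOf x = p) (hxy : x * y = y * x)
    (hCy : Group.IsSolvable ↥(Subgroup.centralizer ({y} : Set G))) :
    Cfsg.centralizerPPrimeCore p x ⊓ Subgroup.centralizer {y} ≤
      Cfsg.centralizerPPrimeCore p y ⊓ Subgroup.centralizer {x} := by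
  haveI := hCy
  have hxX : x ∈ Subgroup.centralizer ({y} : Set G) := by
    rw [Subgroup.mem_centralizer_iff]
    intro z hz
    rw [Set.mem_singleton_iff] at hz
    rw [hz]
    exact hxy.symm
  have hcle : Cfsg.centralizerPPrimeCore p x ≤ Subgroup.centralizer {x} := Subgroup.map_subtype_le _
  have hKn : (Cfsg.pPrimeCore p ↥(Subgroup.centralizer ({x} : Set G))).Normal := inferInstance
  have h1 : (Cfsg.centralizerPPrimeCore p x ⊓ Subgroup.centralizer {y}).subgroupOf
      (Subgroup.centralizer ({y} : Set G)) ≤ Cfsg.pPrimeCore p ↥(Subgroup.centralizer ({y} : Set G)) := by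
    apply le_pPrimeCore_of_centralizer (⟨x, hxX⟩ : ↥(Subgroup.centralizer ({y} : Set G)))
      ⟨1, by rw [pow_one, Subgroup.orderOf_mk, hx]⟩
    · intro d hd
      have hd' : (d : G) ∈ Cfsg.centralizerPPrimeCore p x ⊓ Subgroup.centralizer {y} :=
        Subgroup.mem_subgroupOf.mp hd
      have h2 := (Subgroup.mem_centralizer_iff.mp (hcle (Subgroup.mem_inf.mp hd').1)) x
        (Set.mem_singleton x)
      rw [Subgroup.mem_centralizer_iff]
      intro z hz
      rw [Set.mem_singleton_iff] at hz
      rw [hz]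
      exact Subtype.ext h2
    · have h2 := Cfsg.Agent.Lib.Helper10.Coprime.card_subgroupOf_dvd
        (Cfsg.centralizerPPrimeCore p x ⊓ Subgroup.centralizer {y})
        (Subgroup.centralizer ({y} : Set G))
      have h3 : Nat.card ↥(Cfsg.centralizerPPrimeCore p x ⊓ Subgroup.centralizer {y}) ∣
          Nat.card ↥(Cfsg.centralizerPPrimeCore p x) := Subgroup.card_dvd_of_le inf_le_left
      have h4 : (Nat.card ↥(Cfsg.centralizerPPrimeCore p x)).Coprime p := by
        unfold Cfsg.centralizerPPrimeCore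
        rw [Subgroup.card_map_of_injective (Subgroup.subtype_injective _)]
        exact Cfsg.Agent.Lib.Helper9.pPrimeCore_coprime p _
      exact Nat.Coprime.coprime_dvd_left (h2.trans h3) h4
    · intro c hc
      have hcx : x * (c : G) = (c : G) * x := by
        have := (Subgroup.mem_centralizer_iff.mp hc) ⟨x, hxX⟩ (Set.mem_singleton _)
        exact congrArg Subtype.val this
      have hcCx : (c : G) ∈ Subgroup.centralizer ({x} : Set G) := by
        rw [Subgroup.mem_centralizer_iff]
        intro z hz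
        rw [Set.mem_singleton_iff] at hz
        rw [hz]
        exact hcx
      apply Cfsg.Agent.Lib.Helper10.Coprime.mem_normalizer_of_conj_mem
      intro s hs
      have hs' : (s : G) ∈ Cfsg.centralizerPPrimeCore p x ⊓ Subgroup.centralizer {y} :=
        Subgroup.mem_subgroupOf.mp hs
      obtain ⟨s₀, hs₀, hs₀eq⟩ := (Subgroup.mem_inf.mp hs').1
      apply Subgroup.mem_subgroupOf.mpr
      refine Subgroup.mem_inf.mpr ⟨?_, (c * s * c⁻¹).2⟩
      refine ⟨(⟨(c : G), hcCx⟩ : ↥(Subgroup.centralizer ({x} : Set G))) * s₀ *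
        (⟨(c : G), hcCx⟩ : ↥(Subgroup.centralizer ({x} : Set G)))⁻¹, hKn.conj_mem s₀ hs₀ _, ?_⟩
      show (c : G) * (s₀ : G) * (c : G)⁻¹ = (c : G) * (s : G) * (c : G)⁻¹
      have : (s₀ : G) = (s : G) := hs₀eq
      rw [this]
  intro g hg
  obtain ⟨hg1, hg2⟩ := Subgroup.mem_inf.mp hg
  refine Subgroup.mem_inf.mpr ⟨?_, hcle hg1⟩
  exact ⟨⟨g, hg2⟩, h1 (Subgroup.mem_subgroupOf.mpr hg), rfl⟩

/-- Let `G` be a finite group, `p` a prime, and `x, y` commuting elements of order `p` whose centralizers `C_G(x)` and `C_G(y)` are both solvable. Then `O_{p'}(C_G(x)) ∩ C_G(y) = O_{p'}(C_G(y)) ∩ C_G(x)` (balance). -/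
theorem result {G : Type*} [Group G] [Finite G]
    (p : ℕ) [Fact p.Prime] (x y : G) (hx : orderOf x = p) (hy : orderOf y = p) (hxy : x * y = y * x)
    (hCx : Group.IsSolvable ↥(Subgroup.centralizer ({x} : Set G))) (hCy : Group.IsSolvable ↥(Subgroup.centralizer ({y} : Set G))) :
    Cfsg.centralizerPPrimeCore p x ⊓ Subgroup.centralizer {y} = Cfsg.centralizerPPrimeCore p y ⊓ Subgroup.centralizer {x} := by
  exact le_antisymm (half p x y hx hxy hCy) (half p y x hy hxy.symm hCx)

end Cfsg.Agent.S1958
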