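import Cfsg.Statements.S1962
import Cfsg.Agent.Lib.Helper12.TransferCtl

set_option autoImplicit false
open Cfsg

namespace Cfsg.Agent.S1962

open Cfsg.Agent.Lib.Helper12.SylowBasic Cfsg.Agent.Lib.Helper12.Alperin
  Cfsg.Agent.Lib.Helper12.WellPlaced Cfsg.Agent.Lib.Helper12.TransferCtl

open scoped commutatorElement

/-- Local-to-global control of transfer through well-placed subgroups. Let p be a prime, G a finite group with Sylow p-subgroup S, and W a conjugacy functor for p on G. If W controls transfer in N_G(T) for every nonidentity subgroup T of S that is well placed in S with respect to W, then W controls transfer in G: S ∩ G' = S ∩ (N_G(W(S)))'. -/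
theorem result {G : Type*} [Group G] [Finite G] {p : ℕ} [Fact p.Prime] (S : Sylow p G) (W : Subgroup G → Subgroup G) (hW : Cfsg.IsConjugacyFunctor p W) (hloc : ∀ T : Subgroup G, T ≠ ⊥ → Cfsg.IsWellPlaced p W (S : Subgroup G) T → Cfsg.ControlsTransferIn p W (Subgroup.normalizer ((T : Subgroup G) : Set G))) : Cfsg.ControlsTransferIn p W ⊤ := by
  have hSp : IsPGroup p ↥(S : Subgroup G) := S.isPGroup'
  refine ⟨S, le_top, hSp, sylow_relIndex_top S, ?_⟩
  have key : ∀ (l : List (Subgroup G × G)) (B : Subgroup G),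
      Chain (fun T x => IsWellPlaced p W (S : Subgroup G) T ∧
        x ∈ Subgroup.normalizer ((T : Subgroup G) : Set G)) B l →
      ∀ b ∈ B, b⁻¹ * ((lprod l)⁻¹ * b * lprod l) ∈
        (S : Subgroup G) ⊓ ⁅Subgroup.normalizer ((W (S : Subgroup G) : Subgroup G) : Set G),
          Subgroup.normalizer ((W (S : Subgroup G) : Subgroup G) : Set G)⁆ := by
    intro l
    induction l with
    | nil =>
      intro B _ b _
      simp [lprod_nil]
    | cons tx l ih =>
      intro B hc b hb
      have h2 := ih (rc tx.2 B) hc.2.2 (tx.2⁻¹ * b * tx.2) (rc_mem _ _ hb)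
      have hbT : b ∈ tx.1 := hc.2.1 hb
      have h1 : b⁻¹ * (tx.2⁻¹ * b * tx.2) ∈
          (S : Subgroup G) ⊓ ⁅Subgroup.normalizer ((W (S : Subgroup G) : Subgroup G) : Set G),
            Subgroup.normalizer ((W (S : Subgroup G) : Subgroup G) : Set G)⁆ := by
        by_cases hT : tx.1 = ⊥
        · have hb1 : b = 1 := by
            rw [hT] at hbT
            exact Subgroup.mem_bot.mp hbT
          subst hb1
          simp
        · apply climbT S hW hloc tx.1 hT hc.1.1 _ 0 rfl
          have hN : tx.1 ≤ Subgroup.normalizer ((tx.1 : Subgroup G) : Set G) :=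
            Subgroup.le_normalizer
          have hyb : tx.2⁻¹ * b * tx.2 ∈ tx.1 := by
            have := ((Subgroup.mem_normalizer_iff.mp (Subgroup.inv_mem _ hc.1.2)) b).mp hbT
            simpa using this
          refine Subgroup.mem_inf.mpr ⟨Subgroup.mem_inf.mpr ⟨?_, ?_⟩, ?_⟩
          · exact hc.1.1.1 (Subgroup.mul_mem _ (Subgroup.inv_mem _ hbT) hyb)
          · exact hN (Subgroup.mul_mem _ (Subgroup.inv_mem _ hbT) hyb)
          · have e : b⁻¹ * (tx.2⁻¹ * b * tx.2) = ⁅b⁻¹, tx.2⁻¹⁆ := by
              simp [commutatorElement_def, mul_assoc]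
            rw [e]
            exact Subgroup.commutator_mem_commutator (hN (Subgroup.inv_mem _ hbT))
              (Subgroup.inv_mem _ hc.1.2)
      have e : b⁻¹ * ((lprod (tx :: l))⁻¹ * b * lprod (tx :: l)) =
          b⁻¹ * (tx.2⁻¹ * b * tx.2) *
            ((tx.2⁻¹ * b * tx.2)⁻¹ * ((lprod l)⁻¹ * (tx.2⁻¹ * b * tx.2) * lprod l)) := by
        rw [lprod_cons]
        group
      rw [e]
      exact Subgroup.mul_mem _ h1 h2
  apply le_antisymm
  · rw [top_inf_eq]
    apply inf_commutator_le_of_focal ⊤ (S : Subgroup G) _ le_top hSp (sylow_relIndex_top S)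
    intro x hx u _ hxu
    have hux : u * x * u⁻¹ ∈ (S : Subgroup G) := by
      have h3 : (x⁻¹ * ⁅x, u⁆)⁻¹ ∈ (S : Subgroup G) :=
        Subgroup.inv_mem _ (Subgroup.mul_mem _ (Subgroup.inv_mem _ hx) hxu)
      have e : (x⁻¹ * ⁅x, u⁆)⁻¹ = u * x * u⁻¹ := by
        simp [commutatorElement_def, mul_assoc]
      rwa [e] at h3
    have hBS : Subgroup.closure {x} ≤ (S : Subgroup G) := by
      rw [Subgroup.closure_le]
      intro y hy
      rw [Set.mem_singleton_iff] at hy
      rw [hy]
      exact hx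
    have hBg : rc u⁻¹ (Subgroup.closure {x}) ≤ (S : Subgroup G) := by
      apply rc_closure_le
      rintro _ ⟨a, ha, rfl⟩
      rw [Set.mem_singleton_iff] at ha
      rw [ha]
      show u⁻¹⁻¹ * x * u⁻¹ ∈ (S : Subgroup G)
      rw [inv_inv]
      exact hux
    obtain ⟨l, hc, hl⟩ := dec_wp S hW (Subgroup.closure {x}) hBS u⁻¹ hBg
    have h4 := key l _ hc x⁻¹ (Subgroup.inv_mem _ (Subgroup.subset_closure rfl))
    rw [hl] at h4
    have e : x⁻¹⁻¹ * (u⁻¹⁻¹ * x⁻¹ * u⁻¹) = ⁅x, u⁆ := by
      simp [commutatorElement_def, mul_assoc]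
    rwa [e] at h4
  · exact inf_le_inf_left _ (Subgroup.commutator_mono le_top le_top)

end Cfsg.Agent.S1962
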