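import Cfsg.Statements.S1965
import Cfsg.Agent.Lib.Helper12.Alperin

set_option autoImplicit false
open Cfsg

namespace Cfsg.Agent.S1965

open Cfsg.Agent.Lib.Helper12.Alperin

/-- Let p be a prime, G a finite group with Sylow p-subgroup S and 𝓕 a set of subgroups of S. Suppose that every subgroup T of S is G-conjugate to some member U of 𝓕 for which N_S(U) is a Sylow p-subgroup of N_G(U). Then 𝓕 is a conjugation family for S in G. -/
theorem result {G : Type*} [Group G] [Finite G] {p : ℕ} [Fact p.Prime] (S : Sylow p G) (𝓕 : Set (Subgroup G)) (h𝓕 : ∀ U ∈ 𝓕, U ≤ (S : Subgroup G)) (h : ∀ T : Subgroup G, T ≤ (S : Subgroup G) → ∃ U ∈ 𝓕, (∃ g : G, T.map (MulAut.conj g).toMonoidHom = U) ∧ ¬ p ∣ ((S : Subgroup G) ⊓ Subgroup.normalizer ((U : Subgroup G) : Set G)).relIndex (Subgroup.normalizer ((U : Subgroup G) : Set G))) : Cfsg.IsConjugationFamily 𝓕 (S : Subgroup G) := by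
  refine ⟨h𝓕, ?_⟩
  intro A g _ hAS hAg
  have hBS : Subgroup.closure A ≤ (S : Subgroup G) := (Subgroup.closure_le _).mpr hAS
  have hBg : rc g (Subgroup.closure A) ≤ (S : Subgroup G) := by
    have h1 : Subgroup.closure A ≤ rc g⁻¹ (S : Subgroup G) := by
      rw [Subgroup.closure_le]
      intro a ha
      have h2 : g⁻¹ * a * g ∈ (S : Subgroup G) := hAg ⟨a, ha, rfl⟩
      show a ∈ rc g⁻¹ (S : Subgroup G)
      rw [mem_rc_iff]
      simpa using h2
    have h3 := rc_mono g h1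
    rwa [rc_rc_inv] at h3
  have hdec : Dec (fun T x => T ∈ 𝓕 ∧ x ∈ Subgroup.normalizer ((T : Subgroup G) : Set G))
      (Subgroup.closure A) g := by
    apply dec_of_local S _ _ _ hBS g hBg
    intro B hB _
    obtain ⟨U, hU, ⟨g₀, hg₀⟩, hfn⟩ := h B hB
    have e : rc g₀⁻¹ B = U := by rw [rc_inv_def]; exact hg₀
    refine ⟨g₀⁻¹, ?_, ?_, ?_⟩
    · rw [e]; exact h𝓕 U hU
    · rw [e]; exact hfn
    · rw [e]
      intro m hm
      exact Dec.single ⟨hU, hm⟩ le_rfl
  obtain ⟨n, T, x, hprod, hR, h0, hstep⟩ := hdec.exists_fin A Subgroup.subset_closure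
  exact ⟨n, T, x, hprod, fun i => (hR i).1, fun i => (hR i).2, h0, hstep⟩

end Cfsg.Agent.S1965
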