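import Cfsg.Statements.S1966
import Cfsg.Agent.Lib.Helper12.SylowBasic

set_option autoImplicit false
open Cfsg

namespace Cfsg.Agent.S1966

/-- Let p be a prime, G a finite group with Sylow p-subgroup S and 𝓕 a conjugation family for S in G. Then the members of 𝓕 containing O_p(G) still form a conjugation family for S in G. -/
theorem result {G : Type*} [Group G] [Finite G] {p : ℕ} [Fact p.Prime] (S : Sylow p G) (𝓕 : Set (Subgroup G)) (h : Cfsg.IsConjugationFamily 𝓕 (S : Subgroup G)) : Cfsg.IsConjugationFamily {T : Subgroup G | T ∈ 𝓕 ∧ Cfsg.pCore p G ≤ T} (S : Subgroup G) := by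
  have hQn : (Cfsg.pCore p G).Normal := Cfsg.Agent.Lib.Helper12.SylowBasic.pCore_normal' p
  have hQS : Cfsg.pCore p G ≤ (S : Subgroup G) := Cfsg.Agent.Lib.Helper12.SylowBasic.pCore_le_sylow S
  refine ⟨fun T hT => h.1 T hT.1, ?_⟩
  intro A g hne hAS hAg
  have hA'S : A ∪ ((Cfsg.pCore p G : Subgroup G) : Set G) ⊆ ((S : Subgroup G) : Set G) :=
    Set.union_subset hAS hQS
  have hA'g : (fun a => g⁻¹ * a * g) '' (A ∪ ((Cfsg.pCore p G : Subgroup G) : Set G)) ⊆
      ((S : Subgroup G) : Set G) := by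
    rintro _ ⟨a, ha | ha, rfl⟩
    · exact hAg ⟨a, ha, rfl⟩
    · apply hQS
      have := hQn.conj_mem a ha g⁻¹
      simpa using this
  obtain ⟨n, T, x, hprod, hT, hx, h0, hstep⟩ :=
    h.2 (A ∪ ((Cfsg.pCore p G : Subgroup G) : Set G)) g (hne.mono Set.subset_union_left) hA'S hA'g
  refine ⟨n, T, x, hprod, ?_, hx, fun h => Set.subset_union_left.trans (h0 h),
    fun i h => (Set.image_mono Set.subset_union_left).trans (hstep i h)⟩
  intro i
  refine ⟨hT i, ?_⟩
  obtain ⟨k, hk⟩ := i
  cases k with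
  | zero =>
    intro q hq
    exact h0 hk (Set.mem_union_right _ hq)
  | succ j =>
    intro q hq
    have hj : j < n := Nat.lt_of_succ_lt hk
    have := hstep ⟨j, hj⟩ hk
    apply this
    refine ⟨((List.ofFn x).take (j + 1)).prod * q * (((List.ofFn x).take (j + 1)).prod)⁻¹, ?_, ?_⟩
    · exact Set.mem_union_right _ (hQn.conj_mem q hq _)
    · group

end Cfsg.Agent.S1966
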