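import Cfsg.Statements.S1967
import Cfsg.Agent.Lib.Helper12.SylowBasic

set_option autoImplicit false
open Cfsg

namespace Cfsg.Agent.S1967

open Cfsg.Agent.Lib.Helper12.SylowBasic

/-- Let p be a prime, G a finite group with Sylow p-subgroup S and W a conjugacy functor for p on G. Then W controls strong fusion in G if and only if, whenever T ≤ S and g ∈ G satisfy gTg⁻¹ ≤ S, one can write g = n c with n ∈ N_G(W(S)) and c ∈ C_G(T). -/
theorem result {G : Type*} [Group G] [Finite G] {p : ℕ} [Fact p.Prime] (S : Sylow p G) (W : Subgroup G → Subgroup G) (hW : Cfsg.IsConjugacyFunctor p W) : Cfsg.ControlsStrongFusionIn p W ⊤ ↔ ∀ (T : Subgroup G) (g : G), T ≤ (S : Subgroup G) → T.map (MulAut.conj g).toMonoidHom ≤ (S : Subgroup G) → ∃ n ∈ Subgroup.normalizer ((W (S : Subgroup G) : Subgroup G) : Set G), ∃ c ∈ Subgroup.centralizer (T : Set G), g = n * c := by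
  constructor
  · rintro ⟨T', -, hT'p, hidx, hctl⟩ T g hTS hTg
    rw [Subgroup.relIndex_top_right] at hidx
    obtain ⟨k, hk⟩ := MulAction.exists_smul_eq G (hT'p.toSylow hidx) S
    have hS : (S : Subgroup G) = T'.map (MulAut.conj k).toMonoidHom := by
      ext y
      rw [← hk, mem_smul_sylow_iff, mem_map_conj_iff, IsPGroup.toSylow_coe]
    have hWS : W (S : Subgroup G) = (W T').map (MulAut.conj k).toMonoidHom := by
      rw [hS]; exact (hW T' hT'p).2.2 k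
    have hAT' : (fun a => k⁻¹ * a * k) '' (T : Set G) ⊆ T' := by
      rintro _ ⟨t, ht, rfl⟩
      have h1 : t ∈ (S : Subgroup G) := hTS ht
      rw [hS, mem_map_conj_iff] at h1
      exact h1
    have hAh : (fun a => (k⁻¹ * g * k) * a * (k⁻¹ * g * k)⁻¹) '' ((fun a => k⁻¹ * a * k) '' (T : Set G)) ⊆ T' := by
      rintro _ ⟨_, ⟨t, ht, rfl⟩, rfl⟩
      have h1 : g * t * g⁻¹ ∈ (S : Subgroup G) := hTg (conj_mem_map_conj T g t ht)
      rw [hS, mem_map_conj_iff] at h1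
      have e : (k⁻¹ * g * k) * (k⁻¹ * t * k) * (k⁻¹ * g * k)⁻¹ = k⁻¹ * (g * t * g⁻¹) * k := by group
      show (k⁻¹ * g * k) * (k⁻¹ * t * k) * (k⁻¹ * g * k)⁻¹ ∈ T'
      rw [e]; exact h1
    obtain ⟨x, hx, hxa⟩ := hctl _ (k⁻¹ * g * k) (Subgroup.mem_top _) hAT' hAh
    have hxN : x ∈ Subgroup.normalizer ((W T' : Subgroup G) : Set G) := hx.2
    refine ⟨k * x * k⁻¹, ?_, (k * x * k⁻¹)⁻¹ * g, ?_, by group⟩
    · rw [Subgroup.mem_normalizer_iff]
      intro y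
      rw [hWS, mem_map_conj_iff, mem_map_conj_iff]
      rw [(Subgroup.mem_normalizer_iff.mp hxN) (k⁻¹ * y * k)]
      have e : k⁻¹ * (k * x * k⁻¹ * y * (k * x * k⁻¹)⁻¹) * k = x * (k⁻¹ * y * k) * x⁻¹ := by group
      rw [e]
    · rw [Subgroup.mem_centralizer_iff]
      intro t ht
      have h1 := hxa (k⁻¹ * t * k) ⟨t, ht, rfl⟩
      have h2 : k * x * k⁻¹ * t * (k * x * k⁻¹)⁻¹ = g * t * g⁻¹ := by
        calc k * x * k⁻¹ * t * (k * x * k⁻¹)⁻¹ = k * (x * (k⁻¹ * t * k) * x⁻¹) * k⁻¹ := by group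
          _ = k * ((k⁻¹ * g * k) * (k⁻¹ * t * k) * (k⁻¹ * g * k)⁻¹) * k⁻¹ := by rw [h1]
          _ = g * t * g⁻¹ := by group
      calc t * ((k * x * k⁻¹)⁻¹ * g) = (k * x * k⁻¹)⁻¹ * (k * x * k⁻¹ * t * (k * x * k⁻¹)⁻¹) * (k * x * k⁻¹) * ((k * x * k⁻¹)⁻¹ * g) := by group
        _ = (k * x * k⁻¹)⁻¹ * (g * t * g⁻¹) * (k * x * k⁻¹) * ((k * x * k⁻¹)⁻¹ * g) := by rw [h2]
        _ = (k * x * k⁻¹)⁻¹ * g * t := by group
  · intro H
    refine ⟨(S : Subgroup G), le_top, S.isPGroup', sylow_relIndex_top S, ?_⟩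
    intro A h _ hAS hAh
    have h1 : Subgroup.closure A ≤ (S : Subgroup G) := (Subgroup.closure_le _).mpr hAS
    have h2 : (Subgroup.closure A).map (MulAut.conj h).toMonoidHom ≤ (S : Subgroup G) := by
      rw [MonoidHom.map_closure, Subgroup.closure_le]
      rintro _ ⟨a, ha, rfl⟩
      have := hAh ⟨a, ha, rfl⟩
      simpa [MulAut.conj_apply] using this
    obtain ⟨n, hn, c, hc, hnc⟩ := H (Subgroup.closure A) h h1 h2
    refine ⟨n, ⟨Subgroup.mem_top _, hn⟩, ?_⟩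
    intro a ha
    have hca : a * c = c * a := (Subgroup.mem_centralizer_iff.mp hc) a (Subgroup.subset_closure ha)
    rw [hnc]
    calc n * a * n⁻¹ = n * (a * c) * c⁻¹ * n⁻¹ := by group
      _ = n * (c * a) * c⁻¹ * n⁻¹ := by rw [hca]
      _ = n * c * a * (n * c)⁻¹ := by group

end Cfsg.Agent.S1967
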