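import Cfsg.Statements.S1971
import Cfsg.Agent.Lib.Helper12.TransferCtl
import Cfsg.Agent.Lib.Helper16.Residual
import Cfsg.Agent.Lib.Helper12.NPC
import Cfsg.Agent.Lib.Helper9.Cores
import Mathlib

set_option autoImplicit false
universe u
open Cfsg

namespace Cfsg.Agent.S1971

open Cfsg.Agent.Lib.Helper12.TransferCtl Cfsg.Agent.Lib.Helper12.WellPlaced

theorem induced_map (W : ∀ (Q : Type u) [Group Q], Subgroup Q) {p : ℕ}
    (hW : Cfsg.IsCharPFunctor.{u} p W) {X₁ X₂ : Type u} [Group X₁] [Group X₂]
    (e : X₁ →* X₂) (he : Function.Injective e) (T : Subgroup X₁) [Finite ↥T] (hT : IsPGroup p ↥T) :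
    Cfsg.inducedFunctor W (T.map e) = (Cfsg.inducedFunctor W T).map e := by
  unfold Cfsg.inducedFunctor
  have h := hW.2 ↥T ↥(T.map e) hT (T.equivMapOfInjective e he)
  rw [← h, Subgroup.map_map, Subgroup.map_map]
  congr 1

theorem isConj_induced (W : ∀ (Q : Type u) [Group Q], Subgroup Q) {p : ℕ}
    (hW : Cfsg.IsCharPFunctor.{u} p W) (X : Type u) [Group X] [Finite X] :
    Cfsg.IsConjugacyFunctor p (Cfsg.inducedFunctor (G := X) W) := by
  intro P hP
  refine ⟨Subgroup.map_subtype_le _, ?_, ?_⟩
  · intro hne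
    have hnt : Nontrivial ↥P := (Subgroup.nontrivial_iff_ne_bot P).mpr hne
    have h1 := hW.1 ↥P hP hnt
    intro h2
    apply h1
    exact (Subgroup.map_eq_bot_iff_of_injective _ P.subtype_injective).mp h2
  · intro g
    exact induced_map W hW (MulAut.conj g).toMonoidHom (MulAut.conj g).injective P hP

theorem ctl_iso (W : ∀ (Q : Type u) [Group Q], Subgroup Q) {p : ℕ}
    (hW : Cfsg.IsCharPFunctor.{u} p W) {X₁ X₂ : Type u} [Group X₁] [Group X₂] [Finite X₁]
    (e : X₁ ≃* X₂)
    (h : Cfsg.ControlsTransferIn p (Cfsg.inducedFunctor (G := X₁) W) ⊤) :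
    Cfsg.ControlsTransferIn p (Cfsg.inducedFunctor (G := X₂) W) ⊤ := by
  obtain ⟨T, -, hTp, hidx, hT⟩ := h
  refine ⟨T.map e.toMonoidHom, le_top, hTp.map _, ?_, ?_⟩
  · rw [Subgroup.relIndex_top_right] at hidx ⊢
    have h1 := Subgroup.index_map_equiv T e
    change (T.map e.toMonoidHom).index = T.index at h1
    rw [h1]
    exact hidx
  · rw [induced_map W hW e.toMonoidHom e.injective T hTp]
    rw [top_inf_eq] at hT ⊢
    rw [← Subgroup.map_equiv_normalizer_eq, ← Subgroup.map_commutator,
      ← Subgroup.map_inf _ _ _ e.injective, ← hT, Subgroup.map_inf _ _ _ e.injective,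
      Subgroup.map_commutator, Subgroup.map_top_of_surjective _ e.surjective]

/-- transfer is controlled in every section -/
def SecCtl (p : ℕ) (W : ∀ (Q : Type u) [Group Q], Subgroup Q) (H : Type u) [Group H] : Prop :=
  ∀ (X : Type u) [Group X] (K : Subgroup H) (f : ↥K →* X), Function.Surjective f →
    Cfsg.ControlsTransferIn p (Cfsg.inducedFunctor (G := X) W) (⊤ : Subgroup X)

theorem secCtl_of (W : ∀ (Q : Type u) [Group Q], Subgroup Q) {p : ℕ}
    (hW : Cfsg.IsCharPFunctor.{u} p W) {G : Type u} [Group G] [Finite G]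
    (hctl : ∀ (K R : Subgroup G) [hR : (R.subgroupOf K).Normal],
      Cfsg.ControlsTransferIn p (Cfsg.inducedFunctor (G := (↥K ⧸ R.subgroupOf K)) W) ⊤) :
    SecCtl p W G := by
  intro X _ K f hf
  have hRK : (f.ker.map K.subtype).subgroupOf K = f.ker :=
    Subgroup.comap_map_eq_self_of_injective K.subtype_injective _
  have : ((f.ker.map K.subtype).subgroupOf K).Normal := by rw [hRK]; infer_instance
  have h := hctl K (f.ker.map K.subtype)
  exact ctl_iso W hW ((QuotientGroup.quotientMulEquivOfEq hRK).trans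
    (QuotientGroup.quotientKerEquivOfSurjective f hf)) h

theorem secCtl_sub {p : ℕ} {W : ∀ (Q : Type u) [Group Q], Subgroup Q} {H : Type u} [Group H]
    (h : SecCtl p W H) (L : Subgroup H) : SecCtl p W ↥L := by
  intro X _ K f hf
  exact h X (K.map L.subtype)
    (f.comp (K.equivMapOfInjective L.subtype L.subtype_injective).symm.toMonoidHom)
    (hf.comp (K.equivMapOfInjective L.subtype L.subtype_injective).symm.surjective)

theorem secCtl_quot {p : ℕ} {W : ∀ (Q : Type u) [Group Q], Subgroup Q} {H : Type u} [Group H]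
    (h : SecCtl p W H) (M : Subgroup H) [M.Normal] : SecCtl p W (H ⧸ M) := by
  intro X _ K f hf
  exact h X (K.comap (QuotientGroup.mk' M))
    (f.comp ((QuotientGroup.mk' M).subgroupComap K))
    (hf.comp (MonoidHom.subgroupComap_surjective_of_surjective _ _
      (QuotientGroup.mk'_surjective M)))

theorem L_hom {p : ℕ} [Fact p.Prime] {X Q : Type*} [Group X] [Group Q] [Finite Q]
    (hQ : IsPGroup p Q) [Nontrivial Q] (f : X →* Q) (hf : Function.Surjective f) :
    ∃ N : Subgroup X, N.Normal ∧ N.index = p := by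
  have hp : p.Prime := Fact.out
  obtain ⟨n, hn⟩ := IsPGroup.iff_card.mp hQ
  have hn0 : n ≠ 0 := by
    rintro rfl
    have : 1 < Nat.card Q := Finite.one_lt_card
    rw [hn, pow_zero] at this
    omega
  obtain ⟨m, rfl⟩ := Nat.exists_eq_succ_of_ne_zero hn0
  obtain ⟨M, hM⟩ := Sylow.exists_subgroup_card_pow_prime (G := Q) p (n := m)
    (by rw [hn]; exact pow_dvd_pow p (Nat.le_succ m))
  have hidx : M.index = p := by
    have h1 := M.card_mul_index
    rw [hM, hn, pow_succ] at h1
    exact Nat.eq_of_mul_eq_mul_left (pow_pos hp.pos m) h1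
  have hMn : M.Normal := by
    apply Subgroup.normal_of_index_eq_minFac_card
    rw [hidx, hn, Nat.Prime.pow_minFac hp (Nat.succ_ne_zero m)]
  refine ⟨M.comap f, hMn.comap f, ?_⟩
  rw [Subgroup.index_comap_of_surjective M hf, hidx]

theorem L_abel {p : ℕ} [Fact p.Prime] {X : Type*} [Group X] [Finite X] (s : X)
    (hs : ∃ k : ℕ, s ^ p ^ k = 1) (hns : s ∉ commutator X) :
    ∃ N : Subgroup X, N.Normal ∧ N.index = p := by
  have hp : p.Prime := Fact.out
  obtain ⟨k, hk⟩ := hs
  set A := Abelianization X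
  set a : A := Abelianization.of s with ha
  have ha1 : a ≠ 1 := by
    intro h
    apply hns
    rw [← Abelianization.ker_of]
    exact MonoidHom.mem_ker.mpr h
  have hak : a ^ p ^ k = 1 := by
    rw [ha, ← map_pow, hk, map_one]
  have hc0 : Nat.card A ≠ 0 := Nat.card_pos.ne'
  set m := Nat.card A / p ^ (Nat.card A).factorization p with hm
  have hmc : m.Coprime p := Nat.coprime_ordCompl hp hc0 |>.symm
  have hmul : p ^ (Nat.card A).factorization p * m = Nat.card A :=
    Nat.ordProj_mul_ordCompl_eq_self _ _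
  let φ : A →* A := powMonoidHom m
  have hQ : IsPGroup p ↥φ.range := by
    rintro ⟨y, x, rfl⟩
    refine ⟨(Nat.card A).factorization p, ?_⟩
    apply Subtype.ext
    show (x ^ m) ^ p ^ (Nat.card A).factorization p = 1
    rw [← pow_mul, mul_comm, hmul, pow_card_eq_one']
  have ham : a ^ m ≠ 1 := by
    intro h
    have h1 : orderOf a ∣ m := orderOf_dvd_of_pow_eq_one h
    have h2 : orderOf a ∣ p ^ k := orderOf_dvd_of_pow_eq_one hak
    have h3 : orderOf a ∣ 1 := by
      have := Nat.dvd_gcd h1 h2
      rwa [Nat.Coprime.pow_right k hmc] at this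
    exact ha1 (orderOf_eq_one_iff.mp (Nat.dvd_one.mp h3))
  have : Nontrivial ↥φ.range := by
    refine ⟨⟨⟨a ^ m, a, rfl⟩, 1, ?_⟩⟩
    intro h
    exact ham (congrArg Subtype.val h)
  exact L_hom hQ (φ.rangeRestrict.comp Abelianization.of)
    (φ.rangeRestrict_surjective.comp (QuotientGroup.mk_surjective))


open Cfsg.Agent.Lib.Helper12.NPC in
theorem main (W : ∀ (Q : Type u) [Group Q], Subgroup Q) {p : ℕ} [Fact p.Prime]
    (hW : Cfsg.IsCharPFunctor.{u} p W) :
    ∀ n : ℕ, ∀ (H : Type u) [Group H] [Finite H], Nat.card H = n → SecCtl p W H →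
      ∀ S : Sylow p H, (S : Subgroup H) ≠ ⊥ →
      (∀ g ∈ Subgroup.normalizer ((S : Subgroup H) : Set H), (orderOf g).Coprime p →
        g ∈ Subgroup.centralizer ((S : Subgroup H) : Set H)) →
      ∃ N : Subgroup H, N.Normal ∧ N.index = p := by
  intro n
  induction n using Nat.strong_induction_on with
  | _ n ih =>
  intro H _ _ hcard hsec S hS hN
  have hp : p.Prime := Fact.out
  have hconj := isConj_induced W hW H
  obtain ⟨hW₁le, hW₁ne, -⟩ := hconj S S.isPGroup'
  have hW₁ne' := hW₁ne hS
  have hNSNm : Subgroup.normalizer ((S : Subgroup H) : Set H) ≤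
      Subgroup.normalizer ((Cfsg.inducedFunctor W (S : Subgroup H) : Subgroup H) : Set H) :=
    normalizer_le_normalizer_W hconj S.isPGroup'
  generalize hW₁ : Cfsg.inducedFunctor W (S : Subgroup H) = W₁ at hW₁le hW₁ne' hNSNm
  generalize hNm : Subgroup.normalizer (W₁ : Set H) = Nm at hNSNm
  have hSNm : (S : Subgroup H) ≤ Nm := Subgroup.le_normalizer.trans hNSNm
  by_cases hNmtop : Nm = ⊤
  · -- W₁ normal
    have hW₁n : W₁.Normal := Subgroup.normalizer_eq_top_iff.mp (hNm.trans hNmtop)
    by_cases hSW : (S : Subgroup H) ≤ W₁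
    · -- S = W₁ normal
      have hSeq : (S : Subgroup H) = W₁ := le_antisymm hSW hW₁le
      have hSn : (S : Subgroup H).Normal := hSeq ▸ hW₁n
      have hNStop : Subgroup.normalizer ((S : Subgroup H) : Set H) = ⊤ :=
        Subgroup.normalizer_eq_top_iff.mpr hSn
      have hOn : (pResidual p H).Normal := Cfsg.Agent.Lib.Helper16.Residual.pResidual_normal H p
      obtain ⟨k, hk⟩ := IsPGroup.iff_card.mp S.isPGroup'
      have hS1 : 1 < Nat.card ↥(S : Subgroup H) := (Subgroup.one_lt_card_iff_ne_bot _).mpr hS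
      by_cases hO : pResidual p H = ⊤
      · have hcent : Subgroup.centralizer ((S : Subgroup H) : Set H) = ⊤ := by
          rw [eq_top_iff, ← hO]
          unfold pResidual
          rw [Subgroup.closure_le]
          intro g hg
          exact hN g (by rw [hNStop]; trivial) hg
        have hP : Subgroup.normalizer ((S : Subgroup H) : Set H) ≤
            Subgroup.centralizer ((S : Subgroup H) : Set H) := by
          rw [hcent]; exact le_top
        have hcompl := MonoidHom.ker_transferSylow_isComplement' S hP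
        have hidx : (MonoidHom.transferSylow S hP).ker.index = Nat.card ↥(S : Subgroup H) :=
          hcompl.symm.index_eq_card
        have hcq : Nat.card (H ⧸ (MonoidHom.transferSylow S hP).ker) = p ^ k := by
          rw [← Subgroup.index_eq_card, hidx, hk]
        have hQ : IsPGroup p (H ⧸ (MonoidHom.transferSylow S hP).ker) := IsPGroup.of_card hcq
        have : Nontrivial (H ⧸ (MonoidHom.transferSylow S hP).ker) := by
          rw [← Finite.one_lt_card_iff_nontrivial, hcq, ← hk]
          exact hS1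
        exact L_hom hQ (QuotientGroup.mk' _) (QuotientGroup.mk'_surjective _)
      · have hQ : IsPGroup p (H ⧸ pResidual p H) :=
          Cfsg.Agent.Lib.Helper16.Residual.quotient_pResidual_isPGroup hOn
        have : Nontrivial (H ⧸ pResidual p H) := by
          rw [← Finite.one_lt_card_iff_nontrivial, ← Subgroup.index_eq_card]
          have h1 : (pResidual p H).index ≠ 1 := fun h => hO (Subgroup.index_eq_one.mp h)
          have h0 : (pResidual p H).index ≠ 0 := Subgroup.index_ne_zero_of_finite
          omega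
        exact L_hom hQ (QuotientGroup.mk' _) (QuotientGroup.mk'_surjective _)
    · -- quotient by W₁
      have hlt : Nat.card (H ⧸ W₁) < n := by
        rw [← hcard, Subgroup.card_eq_card_quotient_mul_card_subgroup W₁]
        have h1 : 1 < Nat.card ↥W₁ := (Subgroup.one_lt_card_iff_ne_bot _).mpr hW₁ne'
        have h2 : 0 < Nat.card (H ⧸ W₁) := Nat.card_pos
        nlinarith
      let Sq : Sylow p (H ⧸ W₁) := S.mapSurjective (QuotientGroup.mk'_surjective W₁)
      have hSq : (Sq : Subgroup (H ⧸ W₁)) = (S : Subgroup H).map (QuotientGroup.mk' W₁) := rfl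
      have hSqne : (Sq : Subgroup (H ⧸ W₁)) ≠ ⊥ := by
        rw [hSq]
        intro h
        rw [Subgroup.map_eq_bot_iff, QuotientGroup.ker_mk'] at h
        exact hSW h
      have hcomap : ((S : Subgroup H).map (QuotientGroup.mk' W₁)).comap (QuotientGroup.mk' W₁)
          = S := by
        rw [Subgroup.comap_map_eq, QuotientGroup.ker_mk']
        exact sup_eq_left.mpr hW₁le
      have hNq : ∀ g ∈ Subgroup.normalizer ((Sq : Subgroup (H ⧸ W₁)) : Set (H ⧸ W₁)),
          (orderOf g).Coprime p →
          g ∈ Subgroup.centralizer ((Sq : Subgroup (H ⧸ W₁)) : Set (H ⧸ W₁)) := by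
        intro gq hgq hco
        obtain ⟨g, rfl⟩ := QuotientGroup.mk'_surjective W₁ gq
        have hgN : g ∈ Subgroup.normalizer ((S : Subgroup H) : Set H) := by
          rw [Subgroup.mem_normalizer_iff] at hgq ⊢
          intro h
          have := hgq (QuotientGroup.mk' W₁ h)
          rw [hSq] at this
          rw [← hcomap, Subgroup.mem_comap, Subgroup.mem_comap]
          rw [map_mul, map_mul, map_inv]
          exact this
        obtain ⟨a, ha⟩ := exists_pow_coprime (p := p) g
        obtain ⟨j, hj⟩ := exists_pow_eq_self_of_coprime (x := QuotientGroup.mk' W₁ g)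
          (n := p ^ a) (Nat.Coprime.pow_left a hco.symm)
        have hg2N : (g ^ p ^ a) ^ j ∈ Subgroup.normalizer ((S : Subgroup H) : Set H) :=
          Subgroup.pow_mem _ (Subgroup.pow_mem _ hgN _) _
        have hg2co : (orderOf ((g ^ p ^ a) ^ j)).Coprime p :=
          Nat.Coprime.coprime_dvd_left (orderOf_pow_dvd j) ha
        have hg2C := hN _ hg2N hg2co
        rw [← hj, ← map_pow, ← map_pow]
        rw [Subgroup.mem_centralizer_iff]
        intro xq hxq
        rw [SetLike.mem_coe, hSq] at hxq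
        obtain ⟨x, hx, rfl⟩ := hxq
        rw [← map_mul, ← map_mul]
        congr 1
        exact (Subgroup.mem_centralizer_iff.mp hg2C) x hx
      obtain ⟨Nq, hNqn, hNqi⟩ := ih _ hlt (H ⧸ W₁) rfl (secCtl_quot hsec W₁) Sq hSqne hNq
      refine ⟨Nq.comap (QuotientGroup.mk' W₁), hNqn.comap _, ?_⟩
      rw [Subgroup.index_comap_of_surjective _ (QuotientGroup.mk'_surjective W₁), hNqi]
  · have hlt : Nat.card ↥Nm < n := by
      rw [← hcard]
      exact Cfsg.Agent.Lib.Helper9.card_lt_of_lt_top (lt_top_iff_ne_top.mpr hNmtop)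
    let S' : Sylow p ↥Nm := S.subtype hSNm
    have hS' : (S' : Subgroup ↥Nm) = (S : Subgroup H).subgroupOf Nm := rfl
    have hS'ne : (S' : Subgroup ↥Nm) ≠ ⊥ := by
      rw [hS']
      intro h
      rw [Subgroup.subgroupOf_eq_bot, disjoint_iff, inf_eq_left.mpr hSNm] at h
      exact hS h
    have hN' : ∀ g ∈ Subgroup.normalizer ((S' : Subgroup ↥Nm) : Set ↥Nm),
        (orderOf g).Coprime p → g ∈ Subgroup.centralizer ((S' : Subgroup ↥Nm) : Set ↥Nm) := by
      intro g hg hco
      have hgN : (g : H) ∈ Subgroup.normalizer ((S : Subgroup H) : Set H) := by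
        rw [Subgroup.mem_normalizer_iff] at hg ⊢
        intro h
        constructor
        · intro hh
          have := (hg ⟨h, hSNm hh⟩).mp (by rw [hS']; exact Subgroup.mem_subgroupOf.mpr hh)
          rw [hS'] at this
          exact Subgroup.mem_subgroupOf.mp this
        · intro hh
          have hh' : h ∈ Nm := by
            have h1 : (g : H)⁻¹ * ((g : H) * h * (g : H)⁻¹) * (g : H) ∈ Nm :=
              Nm.mul_mem (Nm.mul_mem (Nm.inv_mem g.2) (hSNm hh)) g.2
            simpa [mul_assoc] using h1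
          have := (hg ⟨h, hh'⟩).mpr (by rw [hS']; exact Subgroup.mem_subgroupOf.mpr hh)
          rw [hS'] at this
          exact Subgroup.mem_subgroupOf.mp this
      have hco' : (orderOf (g : H)).Coprime p := by rw [Subgroup.orderOf_coe]; exact hco
      have hC := hN _ hgN hco'
      rw [Subgroup.mem_centralizer_iff] at hC ⊢
      intro h hh
      rw [SetLike.mem_coe, hS'] at hh
      apply Subtype.ext
      exact hC _ (Subgroup.mem_subgroupOf.mp hh)
    obtain ⟨N₀, hN₀n, hN₀i⟩ := ih _ hlt ↥Nm rfl (secCtl_sub hsec Nm) S' hS'ne hN'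
    have hnot : ¬ (S' : Subgroup ↥Nm) ≤ N₀ := by
      intro hle
      have h1 := Subgroup.index_dvd_of_le hle
      rw [hN₀i] at h1
      exact S'.not_dvd_index h1
    obtain ⟨s', hs'S, hs'N⟩ := SetLike.not_le_iff_exists.mp hnot
    have hcomm : commutator ↥Nm ≤ N₀ := by
      have hcd : Nat.card (↥Nm ⧸ N₀) = p := by rw [← Subgroup.index_eq_card, hN₀i]
      have : IsCyclic (↥Nm ⧸ N₀) := isCyclic_of_prime_card hcd
      let _ : CommGroup (↥Nm ⧸ N₀) := IsCyclic.commGroup
      have := Abelianization.commutator_subset_ker (QuotientGroup.mk' N₀)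
      rwa [QuotientGroup.ker_mk'] at this
    have hctlTop : Cfsg.ControlsTransferIn p (Cfsg.inducedFunctor (G := H) W) ⊤ :=
      hsec H ⊤ (Subgroup.topEquiv : (⊤ : Subgroup H) ≃* H).toMonoidHom
        (Subgroup.topEquiv : (⊤ : Subgroup H) ≃* H).surjective
    have hidxS : ¬ p ∣ (S : Subgroup H).relIndex ⊤ := by
      rw [Subgroup.relIndex_top_right]; exact S.not_dvd_index
    have hfoc := controlsTransferIn_sylow hconj hctlTop (S : Subgroup H) le_top S.isPGroup' hidxS
    rw [top_inf_eq, hW₁, hNm] at hfoc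
    have hs'S' : (s' : H) ∈ (S : Subgroup H) := Subgroup.mem_subgroupOf.mp hs'S
    apply L_abel (p := p) (s' : H)
    · obtain ⟨k, hk⟩ := S.isPGroup' ⟨(s' : H), hs'S'⟩
      exact ⟨k, by simpa using congrArg Subtype.val hk⟩
    · intro hmem
      have h1 : (s' : H) ∈ (S : Subgroup H) ⊓ ⁅(⊤ : Subgroup H), ⊤⁆ := ⟨hs'S', hmem⟩
      rw [hfoc] at h1
      have h2 : (s' : H) ∈ ⁅Nm, Nm⁆ := h1.2
      rw [← Subgroup.map_subtype_commutator] at h2
      obtain ⟨t, ht, hts⟩ := h2
      have : t = s' := Subtype.ext hts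
      exact hs'N (hcomm (this ▸ ht))

/-- Let p be a prime, G a finite group with nontrivial Sylow p-subgroup S, and W an isomorphism-invariant p-group functor (W assigns to every group Q a subgroup W(Q), nontrivial whenever Q is a nontrivial finite p-group, and every isomorphism from a finite p-group Q onto a group R carries W(Q) onto W(R)) that controls transfer in every section of G. If N_G(S)/C_G(S) is a p-group (every element of N_G(S) of order prime to p centralizes S), then G has a normal subgroup of index p. -/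
theorem result {G : Type u} [Group G] [Finite G] {p : ℕ} [Fact p.Prime] (W : ∀ (Q : Type u) [Group Q], Subgroup Q) (hW : Cfsg.IsCharPFunctor.{u} p W) (hctl : ∀ (K R : Subgroup G) [hR : (R.subgroupOf K).Normal], Cfsg.ControlsTransferIn p (Cfsg.inducedFunctor (G := (↥K ⧸ R.subgroupOf K)) W) ⊤) (S : Sylow p G) (hS : (S : Subgroup G) ≠ ⊥) (hN : ∀ g ∈ Subgroup.normalizer (((S : Subgroup G) : Subgroup G) : Set G), (orderOf g).Coprime p → g ∈ Subgroup.centralizer ((S : Subgroup G) : Set G)) : ∃ N : Subgroup G, N.Normal ∧ N.index = p := by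
  exact main W hW _ G rfl (secCtl_of W hW hctl) S hS hN

end Cfsg.Agent.S1971
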