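import Cfsg.Statements.S1979
import Cfsg.Agent.S1975

set_option autoImplicit false
open Cfsg

namespace Cfsg.Agent.S1979

open scoped commutatorElement

section transport
variable {X P : Type*} [Group X] [Group P] (f : X →* P) (hf : Function.Injective f)
include hf

theorem zmap (B : Subgroup X) :
    (B ⊓ Subgroup.centralizer (B : Set X)).map f =
      B.map f ⊓ Subgroup.centralizer ((B.map f : Subgroup P) : Set P) := by
  ext x
  constructor
  · rintro ⟨b, hb, rfl⟩
    obtain ⟨hbB, hbC⟩ := Subgroup.mem_inf.mp hb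
    refine Subgroup.mem_inf.mpr ⟨⟨b, hbB, rfl⟩, ?_⟩
    rw [Subgroup.mem_centralizer_iff]
    rintro _ ⟨b', hb', rfl⟩
    have := (Subgroup.mem_centralizer_iff.mp hbC) b' hb'
    rw [← map_mul, ← map_mul, this]
  · intro hx
    obtain ⟨⟨b, hbB, rfl⟩, hxC⟩ := Subgroup.mem_inf.mp hx
    refine ⟨b, Subgroup.mem_inf.mpr ⟨hbB, ?_⟩, rfl⟩
    rw [Subgroup.mem_centralizer_iff]
    intro b' hb'
    have := (Subgroup.mem_centralizer_iff.mp hxC) (f b') ⟨b', hb', rfl⟩
    rw [← map_mul, ← map_mul] at this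
    exact hf this

theorem cls_map (B : Subgroup X) :
    B.map f ∈ Cfsg.classTwoSubgroups P ↔ B ∈ Cfsg.classTwoSubgroups X := by
  show ⁅B.map f, B.map f⁆ ≤ Subgroup.centralizer ((B.map f : Subgroup P) : Set P) ↔
    ⁅B, B⁆ ≤ Subgroup.centralizer (B : Set X)
  rw [← Subgroup.commutator_eq_bot_iff_le_centralizer, ← Subgroup.commutator_eq_bot_iff_le_centralizer,
    ← Subgroup.map_commutator, ← Subgroup.map_commutator, Subgroup.map_eq_bot_iff_of_injective _ hf]

theorem le_Z_map (W B : Subgroup X) :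
    W.map f ≤ B.map f ⊓ Subgroup.centralizer ((B.map f : Subgroup P) : Set P) ↔
      W ≤ B ⊓ Subgroup.centralizer (B : Set X) := by
  rw [← zmap f hf, Subgroup.map_le_map_iff_of_injective hf]

theorem upper_map (B Y : Subgroup X) :
    B.map f ∈ Cfsg.kUpperStarFamily (Y.map f) ↔ B ∈ Cfsg.kUpperStarFamily Y := by
  show (B.map f ∈ Cfsg.classTwoSubgroups P ∧ ⁅B.map f, Y.map f⁆ ≤
      B.map f ⊓ Subgroup.centralizer ((B.map f : Subgroup P) : Set P)) ↔
    (B ∈ Cfsg.classTwoSubgroups X ∧ ⁅B, Y⁆ ≤ B ⊓ Subgroup.centralizer (B : Set X))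
  rw [cls_map f hf, ← Subgroup.map_commutator, le_Z_map f hf]

theorem norm_map (Y B : Subgroup X) :
    Y.map f ≤ Subgroup.normalizer ((B.map f : Subgroup P) : Set P) ↔
      Y ≤ Subgroup.normalizer (B : Set X) := by
  constructor
  · intro h y hy
    have h1 := h ⟨y, hy, rfl⟩
    rw [Subgroup.mem_normalizer_iff] at h1 ⊢
    intro b
    have h2 := h1 (f b)
    constructor
    · intro hb
      obtain ⟨b', hb', hbb⟩ := h2.mp ⟨b, hb, rfl⟩
      have : b' = y * b * y⁻¹ := hf (by rw [hbb, map_mul, map_mul, map_inv])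
      rw [← this]
      exact hb'
    · intro hb
      obtain ⟨b', hb', hbb⟩ := h2.mpr ⟨y * b * y⁻¹, hb, by rw [map_mul, map_mul, map_inv]⟩
      have : b' = b := hf hbb
      rw [← this]
      exact hb'
  · rintro h _ ⟨y, hy, rfl⟩
    have h1 := h hy
    rw [Subgroup.mem_normalizer_iff] at h1 ⊢
    intro x
    constructor
    · rintro ⟨b, hb, rfl⟩
      exact ⟨y * b * y⁻¹, (h1 b).mp hb, by rw [map_mul, map_mul, map_inv]⟩
    · rintro ⟨b', hb', hbb⟩
      have e : x = f (y⁻¹ * b' * y) := by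
        rw [map_mul, map_mul, map_inv, hbb]
        group
      rw [e]
      refine ⟨_, ?_, rfl⟩
      have := (h1 (y⁻¹ * b' * y)).mpr (by
        have e2 : y * (y⁻¹ * b' * y) * y⁻¹ = b' := by group
        rw [e2]; exact hb')
      exact this

theorem lower_map (B Y : Subgroup X) :
    B.map f ∈ Cfsg.kLowerStarFamily (Y.map f) ↔ B ∈ Cfsg.kLowerStarFamily Y := by
  constructor
  · rintro ⟨h1, h2, h3⟩
    refine ⟨(cls_map f hf B).mp h1, (norm_map f hf Y B).mp h2, ?_⟩
    intro A hA hAY hBA hBAA hZAA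
    rw [← le_Z_map f hf, Subgroup.map_commutator]
    apply h3 (A.map f) ((cls_map f hf A).mpr hA) (Subgroup.map_mono hAY) ((norm_map f hf B A).mpr hBA)
    · rw [← Subgroup.map_commutator, ← Subgroup.map_commutator, hBAA, Subgroup.map_bot]
    · rw [← zmap f hf, ← Subgroup.map_commutator, ← Subgroup.map_commutator, hZAA, Subgroup.map_bot]
  · rintro ⟨h1, h2, h3⟩
    refine ⟨(cls_map f hf B).mpr h1, (norm_map f hf Y B).mpr h2, ?_⟩
    intro A' hA' hAY hBA hBAA hZAA
    have hr : A' ≤ f.range := hAY.trans (Subgroup.map_le_range f Y)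
    obtain ⟨A, rfl⟩ : ∃ A : Subgroup X, A.map f = A' := ⟨A'.comap f, Subgroup.map_comap_eq_self hr⟩
    rw [← Subgroup.map_commutator, le_Z_map f hf]
    apply h3 A ((cls_map f hf A).mp hA') ((Subgroup.map_le_map_iff_of_injective hf).mp hAY)
      ((norm_map f hf B A).mp hBA)
    · rw [← Subgroup.map_commutator, ← Subgroup.map_commutator,
        Subgroup.map_eq_bot_iff_of_injective _ hf] at hBAA
      exact hBAA
    · rw [← zmap f hf, ← Subgroup.map_commutator, ← Subgroup.map_commutator,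
        Subgroup.map_eq_bot_iff_of_injective _ hf] at hZAA
      exact hZAA

end transport

theorem map_sSup_le {X P : Type*} [Group X] [Group P] (f : X →* P) (S : Set (Subgroup X))
    (T : Subgroup P) (h : ∀ B ∈ S, B.map f ≤ T) : (sSup S).map f ≤ T := by
  rw [Subgroup.map_le_iff_le_comap]
  apply sSup_le
  intro B hB
  rw [← Subgroup.map_le_iff_le_comap]
  exact h B hB

theorem interleave {P : Type*} [Group P] (Q : Subgroup P)
    (hQ : ∀ n : ℕ, Cfsg.kSeqEven P n ≤ Q ∧ Cfsg.kSeqOdd P (n + 1) ≤ Q) (n : ℕ) :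
    (Cfsg.kSeqOdd P (n + 1) ≤ (Cfsg.kSeqOdd ↥Q n).map Q.subtype ∧
      (Cfsg.kSeqOdd ↥Q n).map Q.subtype ≤ Cfsg.kSeqOdd P n) ∧
    (Cfsg.kSeqEven P n ≤ (Cfsg.kSeqEven ↥Q n).map Q.subtype ∧
      (Cfsg.kSeqEven ↥Q n).map Q.subtype ≤ Cfsg.kSeqEven P (n + 1)) := by
  have hinj : Function.Injective Q.subtype := Subgroup.subtype_injective Q
  have step : ∀ n, (Cfsg.kSeqOdd P (n + 1) ≤ (Cfsg.kSeqOdd ↥Q n).map Q.subtype ∧
      (Cfsg.kSeqOdd ↥Q n).map Q.subtype ≤ Cfsg.kSeqOdd P n) →
      (Cfsg.kSeqEven P n ≤ (Cfsg.kSeqEven ↥Q n).map Q.subtype ∧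
      (Cfsg.kSeqEven ↥Q n).map Q.subtype ≤ Cfsg.kSeqEven P (n + 1)) := by
    intro n ⟨h1, h2⟩
    constructor
    · apply sSup_le
      intro B hB
      have hBQ : B ≤ Q := (le_sSup hB).trans (hQ n).1
      have hB' : (B.subgroupOf Q).map Q.subtype ∈
          Cfsg.kLowerStarFamily ((Cfsg.kSeqOdd ↥Q n).map Q.subtype) := by
        rw [Subgroup.map_subgroupOf_eq_of_le hBQ]
        exact Cfsg.Agent.S1975.lower_antitone h2 hB
      have hB'' := (lower_map Q.subtype hinj _ _).mp hB'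
      rw [← Subgroup.map_subgroupOf_eq_of_le hBQ]
      exact Subgroup.map_mono (le_sSup hB'')
    · apply map_sSup_le
      intro B hB
      have hB' := (lower_map Q.subtype hinj _ _).mpr hB
      exact le_sSup (Cfsg.Agent.S1975.lower_antitone h1 hB')
  induction n with
  | zero =>
    have h0 : (Cfsg.kSeqOdd P (0 + 1) ≤ (Cfsg.kSeqOdd ↥Q 0).map Q.subtype ∧
      (Cfsg.kSeqOdd ↥Q 0).map Q.subtype ≤ Cfsg.kSeqOdd P 0) := by
      constructor
      · show Cfsg.kSeqOdd P (0 + 1) ≤ (⊤ : Subgroup ↥Q).map Q.subtype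
        rw [← MonoidHom.range_eq_map, Subgroup.range_subtype]
        exact (hQ 0).2
      · show _ ≤ (⊤ : Subgroup P)
        exact le_top
    exact ⟨h0, step 0 h0⟩
  | succ n ih =>
    obtain ⟨_, h3, h4⟩ := ih
    have h0 : (Cfsg.kSeqOdd P (n + 1 + 1) ≤ (Cfsg.kSeqOdd ↥Q (n + 1)).map Q.subtype ∧
      (Cfsg.kSeqOdd ↥Q (n + 1)).map Q.subtype ≤ Cfsg.kSeqOdd P (n + 1)) := by
      constructor
      · rw [Cfsg.Agent.S1975.odd_succ P (n + 1)]
        apply sSup_le
        intro B hB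
        have hBQ : B ≤ Q := by
          refine le_trans ?_ (hQ (n + 1)).2
          rw [Cfsg.Agent.S1975.odd_succ P (n + 1)]
          exact le_sSup hB
        have hB' : (B.subgroupOf Q).map Q.subtype ∈
            Cfsg.kUpperStarFamily ((Cfsg.kSeqEven ↥Q n).map Q.subtype) := by
          rw [Subgroup.map_subgroupOf_eq_of_le hBQ]
          exact Cfsg.Agent.S1975.upper_antitone h4 hB
        have hB'' := (upper_map Q.subtype hinj _ _).mp hB'
        rw [← Subgroup.map_subgroupOf_eq_of_le hBQ, Cfsg.Agent.S1975.odd_succ ↥Q n]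
        exact Subgroup.map_mono (le_sSup hB'')
      · rw [Cfsg.Agent.S1975.odd_succ ↥Q n, Cfsg.Agent.S1975.odd_succ P n]
        apply map_sSup_le
        intro B hB
        have hB' := (upper_map Q.subtype hinj _ _).mpr hB
        exact le_sSup (Cfsg.Agent.S1975.upper_antitone h3 hB')
    exact ⟨h0, step (n + 1) h0⟩

/-- Let P be a finite p-group and Q a subgroup of P containing every term of the K-sequence of P of nonnegative index (every even-indexed term and every odd-indexed term after the initial term P). Then the K-infinity subgroups of Q, computed in Q and viewed in P, equal those of P. -/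
theorem result {P : Type*} [Group P] [Finite P] {p : ℕ} [Fact p.Prime] (hP : IsPGroup p P) (Q : Subgroup P) (hQ : ∀ n : ℕ, Cfsg.kSeqEven P n ≤ Q ∧ Cfsg.kSeqOdd P (n + 1) ≤ Q) : (Cfsg.kInfLower ↥Q).map Q.subtype = Cfsg.kInfLower P ∧ (Cfsg.kInfUpper ↥Q).map Q.subtype = Cfsg.kInfUpper P := by
  have hinj : Function.Injective Q.subtype := Subgroup.subtype_injective Q
  have key := interleave Q hQ
  constructor
  · show (⨆ n, Cfsg.kSeqEven ↥Q n).map Q.subtype = ⨆ n, Cfsg.kSeqEven P n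
    rw [Subgroup.map_iSup]
    apply le_antisymm
    · apply iSup_le
      intro n
      exact (key n).2.2.trans (le_iSup (Cfsg.kSeqEven P) (n + 1))
    · apply iSup_le
      intro n
      exact (key n).2.1.trans (le_iSup (fun n => (Cfsg.kSeqEven ↥Q n).map Q.subtype) n)
  · show (⨅ n, Cfsg.kSeqOdd ↥Q n).map Q.subtype = ⨅ n, Cfsg.kSeqOdd P n
    rw [Subgroup.map_iInf _ hinj]
    apply le_antisymm
    · apply le_iInf
      intro n
      exact (iInf_le (fun n => (Cfsg.kSeqOdd ↥Q n).map Q.subtype) n).trans (key n).1.2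
    · apply le_iInf
      intro n
      exact (iInf_le (Cfsg.kSeqOdd P) (n + 1)).trans (key n).1.1

end Cfsg.Agent.S1979
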