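import Cfsg.Statements.S1981
import Cfsg.Agent.S1980

set_option autoImplicit false
open Cfsg

namespace Cfsg.Agent.S1981

/-- Let P be a finite p-group generated by its abelian normal subgroups. Then both K-infinity subgroups of P equal P. -/
theorem result {P : Type*} [Group P] [Finite P] {p : ℕ} [Fact p.Prime] (hP : IsPGroup p P) (hgen : ⨆ A ∈ {A : Subgroup P | A.Normal ∧ IsMulCommutative ↥A}, A = ⊤) : Cfsg.kInfLower P = ⊤ ∧ Cfsg.kInfUpper P = ⊤ := by
  have key : ∀ A : Subgroup P, A.Normal → IsMulCommutative ↥A →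
      ∀ n : ℕ, A ≤ Cfsg.kSeqEven P n ∧ A ≤ Cfsg.kSeqOdd P n := by
    intro A hAn hA n
    have h := (Cfsg.Agent.S1980.result hP A hA).2
    refine ⟨le_sSup (h n).1, ?_⟩
    cases n with
    | zero => exact le_top
    | succ m => exact le_sSup (h m).2
  have hE : ∀ n : ℕ, Cfsg.kSeqEven P n = ⊤ := by
    intro n
    rw [eq_top_iff, ← hgen]
    exact iSup₂_le fun A hA => (key A hA.1 hA.2 n).1
  have hO : ∀ n : ℕ, Cfsg.kSeqOdd P n = ⊤ := by
    intro n
    rw [eq_top_iff, ← hgen]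
    exact iSup₂_le fun A hA => (key A hA.1 hA.2 n).2
  constructor
  · show (⨆ n, Cfsg.kSeqEven P n) = ⊤
    simp [hE]
  · show (⨅ n, Cfsg.kSeqOdd P n) = ⊤
    simp [hO]

end Cfsg.Agent.S1981
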