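import Mathlib
import Cfsg.Statements.S1989
import Cfsg.Agent.S1987
import Cfsg.Agent.Lib.Helper9.QdStab
import Cfsg.Agent.Lib.Helper9.QdNot
import Cfsg.Agent.Lib.Helper12.KInf

set_option autoImplicit false
universe u
open Cfsg

namespace Cfsg.Agent.S1989

open Cfsg.Agent.Lib.Helper9.QdStab Cfsg.Agent.Lib.Helper9.QdNot

/-- Let p be an odd prime and G a finite group. Then Qd(p) (the natural semidirect product of an elementary abelian group of order p² by SL₂(p)) is not involved in G if and only if, in every section K/R of G and for every Sylow p-subgroup T of K/R, the lower K-infinity subgroup of T controls strong fusion in K/R. -/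
theorem result {G : Type u} [Group G] [Finite G] {p : ℕ} [Fact p.Prime] (hp : p ≠ 2) : ¬ Cfsg.Involves ↥(Cfsg.qd p) G ↔ ∀ (K R : Subgroup G) [hR : (R.subgroupOf K).Normal], ∀ T : Sylow p (↥K ⧸ R.subgroupOf K), Cfsg.ControlsStrongFusion p (Cfsg.inducedFunctor (G := (↥K ⧸ R.subgroupOf K)) Cfsg.kInfLower (T : Subgroup (↥K ⧸ R.subgroupOf K))) := by
  constructor
  · intro h K R hR T
    have hX : ¬ Cfsg.Involves ↥(Cfsg.qd p) (↥K ⧸ R.subgroupOf K) :=
      qd_free_quotient (qd_free_subgroup h K) (QuotientGroup.mk' _)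
        (QuotientGroup.mk'_surjective _)
    exact Cfsg.Agent.S1987.result hp (sections_pstable_of_qd_free hp hX) T
  · intro h hinv
    obtain ⟨K, R, hR, ⟨e⟩⟩ := hinv
    obtain ⟨T⟩ : Nonempty (Sylow p (↥K ⧸ R.subgroupOf K)) := inferInstance
    have hW := Cfsg.Agent.Lib.Helper12.KInf.isChar_kInfLower.{u} p
    refine not_controls_of_equiv e T (Cfsg.kInfLower ↥(T : Subgroup (↥K ⧸ R.subgroupOf K)))
      ?_ ?_ (h K R T)
    · intro hnt
      exact hW.1 _ T.isPGroup' hnt
    · rw [Subgroup.characteristic_iff_map_eq]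
      intro φ
      exact hW.2 _ _ T.isPGroup' φ

end Cfsg.Agent.S1989
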