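import Cfsg.Statements.S1993
import Cfsg.Agent.S1969
import Cfsg.Agent.S1972
import Cfsg.Agent.S4226
import Cfsg.Agent.Lib.Helper12.KInf
import Cfsg.Agent.Lib.Helper12.KInfQuartic
import Cfsg.Agent.Lib.Helper12.QStab
import Cfsg.Agent.Lib.Helper12.KInfStable

set_option autoImplicit false
universe u
open Cfsg

namespace Cfsg.Agent.S1993

open Cfsg.Agent.Lib.Helper12.SylowBasic Cfsg.Agent.Lib.Helper12.SecFusion
  Cfsg.Agent.Lib.Helper12.TransferCtl Cfsg.Agent.Lib.Helper12.SecTransfer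
  Cfsg.Agent.Lib.Helper12.KInf Cfsg.Agent.Lib.Helper12.KInfQuartic
  Cfsg.Agent.Lib.Helper12.QuarticFilt
open scoped Pointwise commutatorElement

theorem hloc_kinf_upper {p : ℕ} [Fact p.Prime] (hp : 5 ≤ p) {Y : Type u} [Group Y] [Finite Y]
    (T : Sylow p Y)
    (hWn : ¬ (Cfsg.inducedFunctor Cfsg.kInfUpper (T : Subgroup Y)).Normal) :
    ∃ g : Y, g ∈ (T : Subgroup Y) ∧ g ∉ Cfsg.pCore p Y ∧ ∀ U V : Subgroup Y,
      Cfsg.IsChiefFactor U V → U ≤ Cfsg.pCore p Y →
        Cfsg.iterCommutator U (Subgroup.zpowers g) (p - 1) ≤ V := by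
  obtain ⟨g, hgT, hgP, hq, -⟩ := quartic T (Or.inr hWn)
  refine ⟨g, hgT, hgP, fun U V hUV hUP => ?_⟩
  haveI := hUV.2.2.1
  exact iter_le_of_le _ U V (by omega : 4 ≤ p - 1) (hq U V hUV hUP)

/-- Let p be a prime, G a finite group with Sylow p-subgroup S, and K the upper K-infinity subgroup of S. If p ≥ 5 then S ∩ G' = S ∩ (N_G(K))'; and if p is odd and every section of G is p-stable in the normalizer form, then K controls strong fusion in G. -/
theorem result {G : Type u} [Group G] [Finite G] {p : ℕ} [Fact p.Prime] (S : Sylow p G) : (5 ≤ p → (S : Subgroup G) ⊓ commutator G = (S : Subgroup G) ⊓ ⁅Subgroup.normalizer ((Cfsg.inducedFunctor Cfsg.kInfUpper (S : Subgroup G) : Subgroup G) : Set G), Subgroup.normalizer ((Cfsg.inducedFunctor Cfsg.kInfUpper (S : Subgroup G) : Subgroup G) : Set G)⁆) ∧ (p ≠ 2 → (∀ (K R : Subgroup G) [hR : (R.subgroupOf K).Normal], Cfsg.IsNormalizerPStable p (↥K ⧸ R.subgroupOf K)) → Cfsg.ControlsStrongFusion p (Cfsg.inducedFunctor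 Cfsg.kInfUpper (S : Subgroup G))) := by
  constructor
  · intro hp
    haveI hbn : ((⊥ : Subgroup G).subgroupOf ⊤).Normal := by
      rw [Subgroup.bot_subgroupOf]; infer_instance
    have hW : Cfsg.IsCharPFunctor.{u} p Cfsg.kInfUpper := isChar_kInfUpper p
    have hctl := Cfsg.Agent.S1972.result (G := G) (p := p) Cfsg.kInfUpper hW
      (fun K R hR _ T hWn => hloc_kinf_upper hp T hWn) ⊤ ⊥
    obtain ⟨e⟩ : Nonempty ((↥(⊤ : Subgroup G) ⧸ (⊥ : Subgroup G).subgroupOf ⊤) ≃* G) :=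
      ⟨((QuotientGroup.quotientMulEquivOfEq (Subgroup.bot_subgroupOf _)).trans
        (QuotientGroup.quotientBot)).trans Subgroup.topEquiv⟩
    have h3 := Cfsg.Agent.S4226.genT_transport S Cfsg.kInfUpper hW e hctl
    apply le_antisymm
    · have hMT : MT {Cfsg.kInfUpper} ⊤ (S : Subgroup G) ≤
          (S : Subgroup G) ⊓
            ⁅⊤ ⊓ Subgroup.normalizer ((Cfsg.inducedFunctor (G := G) Cfsg.kInfUpper
                (S : Subgroup G) : Subgroup G) : Set G),
              ⊤ ⊓ Subgroup.normalizer ((Cfsg.inducedFunctor (G := G) Cfsg.kInfUpper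
                (S : Subgroup G) : Subgroup G) : Set G)⁆ := by
        unfold MT
        refine iSup₂_le (fun W' hW' => ?_)
        rw [Set.mem_singleton_iff.mp hW']
      have h4 := h3.trans hMT
      rw [top_inf_eq] at h4
      exact h4
    · exact inf_le_inf_left _ (Subgroup.commutator_mono le_top le_top)
  · intro hp hst
    have hq : Cfsg.Agent.Lib.Helper12.QStab.QStab p G :=
      Cfsg.Agent.Lib.Helper12.QStab.qstab_of_sections hst
    have hHyp : Cfsg.Agent.S1969.Hyp p Cfsg.kInfUpper G := by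
      intro Y _ K f hf hc T
      haveI : Finite Y := Finite.of_surjective f hf
      exact (Cfsg.Agent.Lib.Helper12.KInfStable.kinf_normal_of_stable
        (Cfsg.Agent.Lib.Helper12.QStab.qstab_section hq K f hf) hc T).2
    have hmain := Cfsg.Agent.S1969.main Cfsg.kInfUpper
      (Cfsg.Agent.Lib.Helper12.KInf.isChar_kInfUpper p) _ G rfl hHyp S
    have hconj := Cfsg.Agent.S1969.isConj_induced Cfsg.kInfUpper
      (Cfsg.Agent.Lib.Helper12.KInf.isChar_kInfUpper p) G
    refine ⟨S, (hconj S S.isPGroup').1, fun A hA => ⟨hA, fun g hg => ?_⟩⟩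
    obtain ⟨x, hx, hx2⟩ := hmain A g (Subgroup.mem_top _) hA (fun a ha => hg ⟨a, ha, rfl⟩)
    exact ⟨x, hx, fun a ha => (hx2 a ha).symm⟩

end Cfsg.Agent.S1993
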