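import Cfsg.Statements.S1996
import Cfsg.Agent.Lib.Helper12.SecFusion

set_option autoImplicit false
universe u
open Cfsg

namespace Cfsg.Agent.S1996

open Cfsg.Agent.Lib.Helper12.SecFusion Cfsg.Agent.Lib.Helper12.SylowBasic
  Cfsg.Agent.Lib.Helper12.Alperin Cfsg.Agent.Lib.Helper12.WellPlaced
open Cfsg.Agent.S1969 (isConj_induced)

/-- Let p be a prime, G a finite group and W₁, W₂ two isomorphism-invariant p-group functors (W assigns to every group Q a subgroup W(Q), nontrivial whenever Q is a nontrivial finite p-group, and every isomorphism from a finite p-group Q onto a group R carries W(Q) onto W(R)). Suppose that G* = N_{G*}(W₁(S*)) N_{G*}(W₂(S*)) whenever G* = K/R is a section of G with C_{G*}(O_p(G*)) ≤ O_p(G*) and S* is a Sylow p-subgroup of G*. Then the pair {W₁, W₂} controls strong fusion in G. -/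
theorem result {G : Type u} [Group G] [Finite G] {p : ℕ} [Fact p.Prime] (W₁ W₂ : ∀ (Q : Type u) [Group Q], Subgroup Q) (hW₁ : Cfsg.IsCharPFunctor.{u} p W₁) (hW₂ : Cfsg.IsCharPFunctor.{u} p W₂) (hfac : ∀ (K R : Subgroup G) [hR : (R.subgroupOf K).Normal], Subgroup.centralizer ((Cfsg.pCore p (↥K ⧸ R.subgroupOf K) : Subgroup (↥K ⧸ R.subgroupOf K)) : Set (↥K ⧸ R.subgroupOf K)) ≤ Cfsg.pCore p (↥K ⧸ R.subgroupOf K) → ∀ T : Sylow p (↥K ⧸ R.subgroupOf K), ∀ x : (↥K ⧸ R.subgroupOf K), ∃ a ∈ Subgroup.normalizer ((Cfsg.inducedFunctor (G := (↥K ⧸ R.subgroupOf K)) W₁ (T : Subgroup (↥K ⧸ R.subgroupOf K)) : Subgroup (↥K ⧸ R.subgroupOf K)) : Set (↥K ⧸ R.subgroupOf K)), ∃ b ∈ Subgroup.normalizer ((Cfsg.inducedFunctor (G := (↥K ⧸ R.subgroupOf K)) W₂ (T : Subgroup (↥K ⧸ R.subgroupOf K)) : Subgroup (↥K ⧸ R.subgroupOf K)) : Set (↥K ⧸ R.subgroupOf K)), x = a * b) : Cfsg.FamilyControlsStrongFusionIn p {Cfsg.inducedFunctor (G := G) W₁,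 Cfsg.inducedFunctor (G := G) W₂} ⊤ := by
  have h𝓦 : ∀ W ∈ ({W₁, W₂} : Set (∀ (Q : Type u) [Group Q], Subgroup Q)),
      Cfsg.IsCharPFunctor.{u} p W := by
    intro W hW
    rcases hW with rfl | rfl
    · exact hW₁
    · exact hW₂
  have key := family_controls ({W₁, W₂} : Set (∀ (Q : Type u) [Group Q], Subgroup Q)) h𝓦 (G := G) ?_
  · rw [Set.image_pair] at key
    exact key
  · intro K R hR hc T B hB g _ hgB
    obtain ⟨a, ha, b, hb, rfl⟩ := hfac K R hc T g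
    have hTp : IsPGroup p ↥(T : Subgroup (↥K ⧸ R.subgroupOf K)) := T.isPGroup'
    have hT1 : (T : Subgroup (↥K ⧸ R.subgroupOf K)) ≤ Subgroup.normalizer
        ((Cfsg.inducedFunctor W₁ (T : Subgroup (↥K ⧸ R.subgroupOf K)) :
          Subgroup (↥K ⧸ R.subgroupOf K)) : Set (↥K ⧸ R.subgroupOf K)) :=
      Subgroup.le_normalizer.trans (normalizer_le_normalizer_W (isConj_induced W₁ hW₁ _) hTp)
    have hT2 : (T : Subgroup (↥K ⧸ R.subgroupOf K)) ≤ Subgroup.normalizer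
        ((Cfsg.inducedFunctor W₂ (T : Subgroup (↥K ⧸ R.subgroupOf K)) :
          Subgroup (↥K ⧸ R.subgroupOf K)) : Set (↥K ⧸ R.subgroupOf K)) :=
      Subgroup.le_normalizer.trans (normalizer_le_normalizer_W (isConj_induced W₂ hW₂ _) hTp)
    have hN1 : Subgroup.normalizer
        ((Cfsg.inducedFunctor W₁ (T : Subgroup (↥K ⧸ R.subgroupOf K)) :
          Subgroup (↥K ⧸ R.subgroupOf K)) : Set (↥K ⧸ R.subgroupOf K)) ∈
        NF ({W₁, W₂} : Set (∀ (Q : Type u) [Group Q], Subgroup Q))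
          (T : Subgroup (↥K ⧸ R.subgroupOf K)) := ⟨W₁, Or.inl rfl, rfl⟩
    have hN2 : Subgroup.normalizer
        ((Cfsg.inducedFunctor W₂ (T : Subgroup (↥K ⧸ R.subgroupOf K)) :
          Subgroup (↥K ⧸ R.subgroupOf K)) : Set (↥K ⧸ R.subgroupOf K)) ∈
        NF ({W₁, W₂} : Set (∀ (Q : Type u) [Group Q], Subgroup Q))
          (T : Subgroup (↥K ⧸ R.subgroupOf K)) := ⟨W₂, Or.inr rfl, rfl⟩
    -- `B^a` lies in both normalizers
    have h1 : rc a B ≤ Subgroup.normalizer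
        ((Cfsg.inducedFunctor W₁ (T : Subgroup (↥K ⧸ R.subgroupOf K)) :
          Subgroup (↥K ⧸ R.subgroupOf K)) : Set (↥K ⧸ R.subgroupOf K)) := by
      rw [rc_le_iff]
      intro x hx
      exact Subgroup.mul_mem _ (Subgroup.mul_mem _ (Subgroup.inv_mem _ ha) (hT1 (hB hx))) ha
    have h2 : rc a B ≤ Subgroup.normalizer
        ((Cfsg.inducedFunctor W₂ (T : Subgroup (↥K ⧸ R.subgroupOf K)) :
          Subgroup (↥K ⧸ R.subgroupOf K)) : Set (↥K ⧸ R.subgroupOf K)) := by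
      have e : rc a B = rc b⁻¹ (rc (a * b) B) := by
        rw [rc_mul, rc_inv_rc]
      rw [e, rc_le_iff]
      intro x hx
      have := Subgroup.mul_mem _ (Subgroup.mul_mem _ (Subgroup.inv_mem _ (Subgroup.inv_mem _ hb))
        (hT2 (hgB hx))) (Subgroup.inv_mem _ hb)
      exact this
    obtain ⟨c, hc, hcT⟩ := exists_conj_le_of_le T _ (le_inf hT1 hT2) (rc a B) (le_inf h1 h2)
      (rc_isPGroup a (hTp.to_le hB))
    have h3 : rc (a * c⁻¹) B ≤ (T : Subgroup (↥K ⧸ R.subgroupOf K)) := by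
      rw [rc_mul, rc_le_iff]
      intro x hx
      have := hcT x hx
      rwa [inv_inv]
    have r1 : RealN (NF ({W₁, W₂} : Set (∀ (Q : Type u) [Group Q], Subgroup Q))
        (T : Subgroup (↥K ⧸ R.subgroupOf K))) (T : Subgroup (↥K ⧸ R.subgroupOf K)) B (a * c⁻¹) :=
      RealN.single hB hN1 (Subgroup.mul_mem _ ha (Subgroup.inv_mem _ hc.1))
    have r2 : RealN (NF ({W₁, W₂} : Set (∀ (Q : Type u) [Group Q], Subgroup Q))
        (T : Subgroup (↥K ⧸ R.subgroupOf K))) (T : Subgroup (↥K ⧸ R.subgroupOf K))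
        (rc (a * c⁻¹) B) (c * b) :=
      RealN.single h3 hN2 (Subgroup.mul_mem _ hc.2 hb)
    have r := r1.comp r2
    have e : a * c⁻¹ * (c * b) = a * b := by group
    rwa [e] at r

end Cfsg.Agent.S1996
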