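import Cfsg.Statements.S1998
import Cfsg.Agent.Lib.Helper12.MinTransfer

set_option autoImplicit false
universe u
open Cfsg

namespace Cfsg.Agent.S1998

open Cfsg.Agent.Lib.Helper12.SylowBasic Cfsg.Agent.Lib.Helper12.Alperin
  Cfsg.Agent.Lib.Helper12.WellPlaced Cfsg.Agent.Lib.Helper12.SecFusion
  Cfsg.Agent.Lib.Helper12.TransferCtl Cfsg.Agent.Lib.Helper12.SecTransfer
  Cfsg.Agent.Lib.Helper12.EngelTransfer Cfsg.Agent.Lib.Helper12.MinTransfer
open scoped Pointwise commutatorElement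
open Cfsg.Agent.S1969 (induced_map' isConj_induced)

theorem psec_of_sections (𝓦 : Set (∀ (Q : Type u) [Group Q], Subgroup Q)) {p : ℕ} [Fact p.Prime]
    (h𝓦 : ∀ W ∈ 𝓦, Cfsg.IsCharPFunctor.{u} p W) {G : Type u} [Group G] [Finite G]
    (hsec : ∀ (K R : Subgroup G) [hR : (R.subgroupOf K).Normal], (K = ⊤ → R ≠ ⊥) → Cfsg.FamilyControlsTransferIn p ((fun W => Cfsg.inducedFunctor (G := (↥K ⧸ R.subgroupOf K)) W) '' 𝓦) ⊤) :
    PSec p 𝓦 G := by
  intro Y _ K f hf hcard T
  have hRK : (f.ker.map K.subtype).subgroupOf K = f.ker :=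
    Subgroup.comap_map_eq_self_of_injective K.subtype_injective _
  have hnorm : ((f.ker.map K.subtype).subgroupOf K).Normal := by rw [hRK]; infer_instance
  have hYfin : Finite Y := Finite.of_surjective f hf
  let e : (↥K ⧸ (f.ker.map K.subtype).subgroupOf K) ≃* Y :=
    (QuotientGroup.quotientMulEquivOfEq hRK).trans (QuotientGroup.quotientKerEquivOfSurjective f hf)
  have hes : Function.Surjective e.symm.toMonoidHom := e.symm.surjective
  have hcond : K = ⊤ → f.ker.map K.subtype ≠ ⊥ := by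
    intro hK hbot
    have hker : f.ker = ⊥ := by
      rw [← hRK, hbot]
      exact Subgroup.bot_subgroupOf K
    have hinj : Function.Injective f := (MonoidHom.ker_eq_bot_iff f).mp hker
    have h1 : Nat.card ↥K = Nat.card Y := Nat.card_eq_of_bijective f ⟨hinj, hf⟩
    have h2 : Nat.card ↥K = Nat.card G := by
      rw [hK]
      exact Subgroup.card_top
    omega
  have hF := hsec K (f.ker.map K.subtype) hcond
  have key := genT_of_fam 𝓦 h𝓦 hF (T.mapSurjective hes)
  have h1 : ((T.mapSurjective hes : Sylow p _) : Subgroup _) =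
      (T : Subgroup Y).map e.symm.toMonoidHom := rfl
  rw [h1] at key
  have h2 := genT_of_equiv 𝓦 h𝓦 e _ (T.isPGroup'.map _) key
  rwa [map_symm_map] at h2

/-- Let p be a prime, G a finite group with Sylow p-subgroup S, and 𝓦 a nonempty set of isomorphism-invariant p-group functors (W assigns to every group Q a subgroup W(Q), nontrivial whenever Q is a nontrivial finite p-group, and every isomorphism from a finite p-group Q onto a group R carries W(Q) onto W(R)). Suppose the induced conjugacy functors control transfer in every section of G other than G itself, but not in G. Let T be the subgroup generated by the S ∩ (N_G(W(S)))', W ∈ 𝓦, and M = N_G(T ∩ O_p(G)). Then: C_G(O_p(G)) ≤ O_p(G); M is a proper subgroup of G containing every proper subgroup of G that contains S (the unique maximal subgroup over S); [O_p(G), M] ≤ O_p(G) ∩ M' ≤ O_p(G) ∩ T; and every element u of S outside O_p(G) satisfies [X, u, …, u] ≰ Y with p − 1 entries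 u, for some chief factor X/Y of G with X ≤ O_p(G). -/
theorem result {G : Type u} [Group G] [Finite G] {p : ℕ} [Fact p.Prime] (S : Sylow p G) (𝓦 : Set (∀ (Q : Type u) [Group Q], Subgroup Q)) (h𝓦 : ∀ W ∈ 𝓦, Cfsg.IsCharPFunctor.{u} p W) (hne : 𝓦.Nonempty) (hsec : ∀ (K R : Subgroup G) [hR : (R.subgroupOf K).Normal], (K = ⊤ → R ≠ ⊥) → Cfsg.FamilyControlsTransferIn p ((fun W => Cfsg.inducedFunctor (G := (↥K ⧸ R.subgroupOf K)) W) '' 𝓦) ⊤) (hG : ¬ Cfsg.FamilyControlsTransferIn p ((fun W => Cfsg.inducedFunctor (G := G) W) '' 𝓦) ⊤) (T M : Subgroup G) (hT : T = (⨆ W ∈ 𝓦, (S : Subgroup G) ⊓ ⁅Subgroup.normalizer ((Cfsg.inducedFunctor (G := G) W (S : Subgroup G) : Subgroup G) : Set G), Subgroup.normalizer ((Cfsg.inducedFunctor (G := G) W (S : Subgroup G) : Subgroup G) : Set G)⁆)) (hM : M = Subgroup.normalizer ((T ⊓ Cfsg.pCore p G : Subgroup G) : Set G)) : Subgroup.centralizer ((Cfsg.pCore p G : Subgroup G) : Set G) ≤ Cfsg.pCore p G ∧ (M ≠ ⊤ ∧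 ∀ H : Subgroup G, (S : Subgroup G) ≤ H → H ≠ ⊤ → H ≤ M) ∧ (⁅Cfsg.pCore p G, M⁆ ≤ Cfsg.pCore p G ⊓ ⁅M, M⁆ ∧ Cfsg.pCore p G ⊓ ⁅M, M⁆ ≤ Cfsg.pCore p G ⊓ T) ∧ ∀ u : G, u ∈ (S : Subgroup G) → u ∉ Cfsg.pCore p G → ∃ U V : Subgroup G, Cfsg.IsChiefFactor U V ∧ U ≤ Cfsg.pCore p G ∧ ¬ Cfsg.iterCommutator U (Subgroup.zpowers u) (p - 1) ≤ V := by
  have hT' : T = MT 𝓦 ⊤ (S : Subgroup G) := by
    rw [hT]
    unfold MT
    simp only [top_inf_eq]
  have hG' : ¬ GenT 𝓦 ⊤ (S : Subgroup G) := fun h =>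
    hG (fam_of_genT 𝓦 ⊤ (S : Subgroup G) le_top S.isPGroup' (sylow_relIndex_top S) h)
  obtain ⟨h1, h2, h3, U, V, hch, hUP, hE⟩ :=
    min_counterexample 𝓦 h𝓦 hne S (psec_of_sections 𝓦 h𝓦 hsec) hG' T M hT' hM
  exact ⟨h1, h2, h3, fun u hu hup => ⟨U, V, hch, hUP, fun h => hup (hE u hu h)⟩⟩

end Cfsg.Agent.S1998
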