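import Cfsg.Statements.S2003
import Cfsg.Agent.Lib.Helper12.ChiefFilt

set_option autoImplicit false
open Cfsg

namespace Cfsg.Agent.S2003

/-- Let p be a prime, G a finite group, P a normal p-subgroup of G and Q a critical subgroup of P: a characteristic subgroup with Q/Z(Q) elementary abelian, [P, Q] ≤ Z(Q), C_P(Q) = Z(Q), and such that every automorphism of P of order prime to p fixing Q elementwise is trivial. Let g ∈ G and i, j ≥ 1, and suppose that [X, g, …, g] ≤ Y with i entries g for every chief factor X/Y of G with X ≤ Q, and with j entries g for every chief factor X/Y of G with X ≤ Z(Q). Then [X, g, …, g] ≤ Y with i + j − 1 entries g for every chief factor X/Y of G with X ≤ P. -/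
theorem result {G : Type*} [Group G] [Finite G] {p : ℕ} [Fact p.Prime] (P : Subgroup G) [P.Normal] (hP : IsPGroup p ↥P) (Q : Subgroup G) (hQP : Q ≤ P) (hQchar : (Q.subgroupOf P).Characteristic) (hQ1 : ∀ a ∈ Q, a ^ p ∈ Q ⊓ Subgroup.centralizer ((Q : Subgroup G) : Set G)) (hQ2 : ⁅Q, Q⁆ ≤ Subgroup.centralizer ((Q : Subgroup G) : Set G)) (hQ3 : ⁅P, Q⁆ ≤ Q ⊓ Subgroup.centralizer ((Q : Subgroup G) : Set G)) (hQ4 : P ⊓ Subgroup.centralizer ((Q : Subgroup G) : Set G) = Q ⊓ Subgroup.centralizer ((Q : Subgroup G) : Set G)) (hQ5 : ∀ φ : MulAut ↥P, (orderOf φ).Coprime p → (∀ a : ↥P, (a : G) ∈ Q → φ a = a) → φ = 1) (g : G) (i j : ℕ) (hi : 1 ≤ i) (hj : 1 ≤ j) (hQi : ∀ U V : Subgroup G, Cfsg.IsChiefFactor U V → U ≤ Q → Cfsg.iterCommutator U (Subgroup.zpowers g) i ≤ V) (hZj : ∀ U V : Subgroup G, Cfsg.IsChiefFactor U V → U ≤ Q ⊓ Subgroup.centralizer ((Q : Subgroup G) : Set G) → Cfsg.iterCommutator U (Subgroup.zpowers g) j ≤ V) : ∀ U V : Subgroup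 G, Cfsg.IsChiefFactor U V → U ≤ P → Cfsg.iterCommutator U (Subgroup.zpowers g) (i + j - 1) ≤ V := by
  haveI hQn : Q.Normal := by
    refine ⟨fun a ha x => ?_⟩
    have hx : (⟨a, hQP ha⟩ : ↥P) ∈ Q.subgroupOf P := Subgroup.mem_subgroupOf.mpr ha
    rw [← hQchar.fixed (MulAut.conjNormal x : MulAut ↥P)] at hx
    have h2 : ((MulAut.conjNormal x : MulAut ↥P) ⟨a, hQP ha⟩ : G) ∈ Q :=
      Subgroup.mem_subgroupOf.mp (Subgroup.mem_comap.mp hx)
    rwa [MulAut.conjNormal_apply] at h2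
  haveI hZn : (Q ⊓ Subgroup.centralizer (Q : Set G)).Normal := inferInstance
  obtain ⟨N, hN0, hNn, hNanti, hNZ, hNch, hNc⟩ :=
    Cfsg.Agent.Lib.Helper12.ChiefFilt.exists_chief_series
      (Q ⊓ Subgroup.centralizer (Q : Set G)) Q inf_le_left
  have hNQ : ∀ s, N s ≤ Q := fun s =>
    hN0 ▸ Cfsg.Agent.Lib.Helper12.ChiefFilt.N_antitone N hNanti (Nat.zero_le s)
  have hTn : ∃ c : ℕ, P.lowerCentralSeries c = ⊥ :=
    (Subgroup.isNilpotent_iff_lowerCentralSeries P).mp hP.isNilpotent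
  intro U V hUV hUP
  refine Cfsg.Agent.Lib.Helper12.ChiefFilt.filt_chief P Q
    (Q ⊓ Subgroup.centralizer (Q : Set G)) (Subgroup.zpowers g) N i j hi hj hNn hNanti hN0
    ?_ ?_ ?_ hNZ hNc hQ3 inf_le_right ?_ hQi U V hUV hUP
  · intro m
    rcases hNch m with h | h
    · rw [h, Subgroup.commutator_bot_left]; exact bot_le
    · exact Cfsg.Agent.Lib.Helper12.ChiefFilt.chief_central h P hTn ((hNQ m).trans hQP)
  · intro m
    rcases hNch m with h | h
    · rw [h, Cfsg.Agent.Lib.Helper12.ChiefFilt.iter_bot]; exact bot_le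
    · exact hQi _ _ h (hNQ m)
  · intro m hm
    rcases hNch m with h | h
    · rw [h, Cfsg.Agent.Lib.Helper12.ChiefFilt.iter_bot]; exact bot_le
    · exact hZj _ _ h hm
  · rw [hQ4]; exact inf_le_left

end Cfsg.Agent.S2003
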