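import Cfsg.Statements.S2007
import Cfsg.Agent.Lib.Helper12.NPC

set_option autoImplicit false
open Cfsg

namespace Cfsg.Agent.S2007

/-- Let p be a prime, G a finite group with Sylow p-subgroup S, and T a normal subgroup of S containing C_S(T). If N_G(T)/C_G(T) is a p-group (every element of N_G(T) of order prime to p centralizes T), then N_G(T) has a normal p-complement. -/
theorem result {G : Type*} [Group G] [Finite G] {p : ℕ} [Fact p.Prime] (S : Sylow p G) (T : Subgroup G) (hTS : T ≤ (S : Subgroup G)) (hTn : (S : Subgroup G) ≤ Subgroup.normalizer ((T : Subgroup G) : Set G)) (hC : (S : Subgroup G) ⊓ Subgroup.centralizer ((T : Subgroup G) : Set G) ≤ T) (hN : ∀ g ∈ Subgroup.normalizer ((T : Subgroup G) : Set G), (orderOf g).Coprime p → g ∈ Subgroup.centralizer ((T : Subgroup G) : Set G)) : Cfsg.HasNormalPComplement p ↥(Subgroup.normalizer ((T : Subgroup G) : Set G)) := by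
  set N : Subgroup G := Subgroup.normalizer ((T : Subgroup G) : Set G) with hNdef
  have hTN : T ≤ N := Subgroup.le_normalizer
  have hT' : (T.subgroupOf N).Normal := Subgroup.normal_in_normalizer
  apply Cfsg.Agent.Lib.Helper12.NPC.npc_of_centralizer_condition (S.subtype hTn) (T.subgroupOf N)
  · intro x hx
    have h1 : (x : G) ∈ (S : Subgroup G) := by
      have := (Subgroup.mem_inf.mp hx).1
      rw [Sylow.coe_subtype, Subgroup.mem_subgroupOf] at this
      exact this
    have h2 : (x : G) ∈ Subgroup.centralizer ((T : Subgroup G) : Set G) := by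
      rw [Subgroup.mem_centralizer_iff]
      intro t ht
      have h3 := (Subgroup.mem_centralizer_iff.mp (Subgroup.mem_inf.mp hx).2) ⟨t, hTN ht⟩
        (by rw [SetLike.mem_coe, Subgroup.mem_subgroupOf]; exact ht)
      exact congrArg Subtype.val h3
    rw [Subgroup.mem_subgroupOf]
    exact hC ⟨h1, h2⟩
  · intro x hx
    have h1 : (x : G) ∈ Subgroup.centralizer ((T : Subgroup G) : Set G) := by
      apply hN _ x.2
      rw [Subgroup.orderOf_coe]; exact hx
    rw [Subgroup.mem_centralizer_iff]
    intro t ht
    rw [SetLike.mem_coe, Subgroup.mem_subgroupOf] at ht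
    apply Subtype.ext
    exact (Subgroup.mem_centralizer_iff.mp h1) _ ht

end Cfsg.Agent.S2007
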