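import Cfsg.Statements.S2009

set_option autoImplicit false
open Cfsg

namespace Cfsg.Agent.S2009

theorem inverts_of_fixed_point_free {H : Type*} [Group H] [Finite H] (e : H) (he : e * e = 1)
    (N : Subgroup H) [hN : N.Normal] (hfix : N ⊓ Subgroup.centralizer ({e} : Set H) = ⊥) :
    ∀ n ∈ N, e * n * e⁻¹ = n⁻¹ := by
  have hmem : ∀ n : N, (n : H)⁻¹ * (e * (n : H) * e⁻¹) ∈ N := fun n =>
    N.mul_mem (N.inv_mem n.2) (hN.conj_mem _ n.2 e)
  let f : N → N := fun n => ⟨(n : H)⁻¹ * (e * (n : H) * e⁻¹), hmem n⟩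
  have hinj : Function.Injective f := by
    intro n m hnm
    have h1 : (n : H)⁻¹ * (e * (n : H) * e⁻¹) = (m : H)⁻¹ * (e * (m : H) * e⁻¹) :=
      congrArg Subtype.val hnm
    have h2 : (m : H) * (n : H)⁻¹ ∈ N ⊓ Subgroup.centralizer ({e} : Set H) := by
      refine Subgroup.mem_inf.mpr ⟨N.mul_mem m.2 (N.inv_mem n.2), ?_⟩
      rw [Subgroup.mem_centralizer_iff]
      intro y hy
      rw [Set.mem_singleton_iff] at hy
      subst hy
      have h3 : (m : H) * (n : H)⁻¹ = y * ((m : H) * (n : H)⁻¹) * y⁻¹ := by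
        calc (m : H) * (n : H)⁻¹ = (m : H) * ((n : H)⁻¹ * (y * (n : H) * y⁻¹)) * (y * (n : H)⁻¹ * y⁻¹) := by group
          _ = (m : H) * ((m : H)⁻¹ * (y * (m : H) * y⁻¹)) * (y * (n : H)⁻¹ * y⁻¹) := by rw [h1]
          _ = y * ((m : H) * (n : H)⁻¹) * y⁻¹ := by group
      calc y * ((m : H) * (n : H)⁻¹) = y * ((m : H) * (n : H)⁻¹) * y⁻¹ * y := by group
        _ = (m : H) * (n : H)⁻¹ * y := by rw [← h3]
    rw [hfix, Subgroup.mem_bot] at h2
    have h4 : (m : H) = (n : H) := by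
      calc (m : H) = (m : H) * (n : H)⁻¹ * (n : H) := by group
        _ = (n : H) := by rw [h2]; group
    exact Subtype.ext h4.symm
  have hsurj : Function.Surjective f := Finite.injective_iff_surjective.mp hinj
  intro x hx
  obtain ⟨n, hn⟩ := hsurj ⟨x, hx⟩
  have h1 : (n : H)⁻¹ * (e * (n : H) * e⁻¹) = x := congrArg Subtype.val hn
  have he' : e⁻¹ = e := inv_eq_of_mul_eq_one_left he
  have hee : e⁻¹ * e⁻¹ = 1 := by rw [← mul_inv_rev, he, inv_one]
  rw [← h1]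
  calc e * ((n : H)⁻¹ * (e * (n : H) * e⁻¹)) * e⁻¹ = e * (n : H)⁻¹ * e * (n : H) * (e⁻¹ * e⁻¹) := by group
    _ = e * (n : H)⁻¹ * e * (n : H) := by rw [hee, mul_one]
    _ = e * (n : H)⁻¹ * e⁻¹ * (n : H) := by rw [he']
    _ = ((n : H)⁻¹ * (e * (n : H) * e⁻¹))⁻¹ := by group

theorem klein_exists {H : Type*} [Group H] [Finite H] (E : Subgroup H) (hE : IsKleinFour ↥E) :
    ∃ e₁ e₂ : E, e₁ ≠ 1 ∧ e₂ ≠ 1 ∧ e₂ ≠ e₁ := by
  have hcard : Nat.card E = 4 := hE.card_four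
  have : Nontrivial E := by
    rw [← Finite.one_lt_card_iff_nontrivial]; omega
  obtain ⟨e₁, he₁⟩ := exists_ne (1 : E)
  have hz : Subgroup.zpowers e₁ ≠ ⊤ := by
    intro htop
    have h1 : Nat.card (Subgroup.zpowers e₁) = 4 := by
      rw [htop, Subgroup.card_top]; exact hcard
    rw [Nat.card_zpowers] at h1
    have h2 : orderOf e₁ ∣ 2 := orderOf_dvd_of_pow_eq_one (by rw [pow_two]; exact IsKleinFour.mul_self e₁)
    have h3 := Nat.le_of_dvd (by norm_num) h2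
    omega
  obtain ⟨e₂, he₂⟩ : ∃ e₂ : E, e₂ ∉ Subgroup.zpowers e₁ := by
    by_contra hcon
    exact hz (eq_top_iff.mpr fun x _ => by_contra fun hx => hcon ⟨x, hx⟩)
  have he₂1 : e₂ ≠ 1 := fun h => he₂ (h ▸ Subgroup.one_mem _)
  have he₂₁ : e₂ ≠ e₁ := fun h => he₂ (h ▸ Subgroup.mem_zpowers e₁)
  exact ⟨e₁, e₂, he₁, he₂1, he₂₁⟩

theorem core {H : Type*} [Group H] [Finite H] (z : H) (hN : ∀ N : Subgroup H, N.Normal → N ≠ ⊤ → N ⊓ Subgroup.centralizer ({z} : Set H) = ⊥) (E : Subgroup H) (hE : IsKleinFour ↥E) (hc : ∀ e ∈ E, e ≠ 1 → IsConj z e)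
    (N : Subgroup H) (hNn : N.Normal) (hNt : N ≠ ⊤) : N = ⊥ := by
  have hsq : ∀ e ∈ E, e * e = 1 := by
    intro e he
    have := IsKleinFour.mul_self (⟨e, he⟩ : E)
    exact congrArg Subtype.val this
  have hfix : ∀ e ∈ E, e ≠ 1 → N ⊓ Subgroup.centralizer ({e} : Set H) = ⊥ := by
    intro e he he1
    obtain ⟨g, hg⟩ := isConj_iff.mp (hc e he he1)
    rw [eq_bot_iff]
    intro n hn
    have h1 : g⁻¹ * n * g ∈ N ⊓ Subgroup.centralizer ({z} : Set H) := by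
      refine Subgroup.mem_inf.mpr ⟨?_, ?_⟩
      · have := hNn.conj_mem n hn.1 g⁻¹
        simpa using this
      · rw [Subgroup.mem_centralizer_iff]
        intro y hy
        rw [Set.mem_singleton_iff] at hy
        subst hy
        have h2 : e * n = n * e := (Subgroup.mem_centralizer_iff.mp hn.2) e (Set.mem_singleton _)
        rw [← hg] at h2
        calc y * (g⁻¹ * n * g) = g⁻¹ * ((g * y * g⁻¹) * n) * g := by group
          _ = g⁻¹ * (n * (g * y * g⁻¹)) * g := by rw [h2]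
          _ = g⁻¹ * n * g * y := by group
    rw [hN N hNn hNt, Subgroup.mem_bot] at h1
    rw [Subgroup.mem_bot]
    calc n = g * (g⁻¹ * n * g) * g⁻¹ := by group
      _ = 1 := by rw [h1]; group
  have hinv : ∀ e ∈ E, e ≠ 1 → ∀ n ∈ N, e * n * e⁻¹ = n⁻¹ := fun e he he1 =>
    inverts_of_fixed_point_free e (hsq e he) N (hfix e he he1)
  obtain ⟨e₁, e₂, he₁, he₂1, he₂₁⟩ := klein_exists E hE
  have he₃ : e₁ * e₂ ≠ 1 := by
    intro h
    have h1 : e₁ = e₂⁻¹ := eq_inv_of_mul_eq_one_left h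
    rw [IsKleinFour.inv_eq_self] at h1
    exact he₂₁ h1.symm
  have c1 : (e₁ : H) ≠ 1 := fun h => he₁ (Subtype.ext h)
  have c2 : (e₂ : H) ≠ 1 := fun h => he₂1 (Subtype.ext h)
  have c3 : (e₁ : H) * (e₂ : H) ≠ 1 := fun h => he₃ (Subtype.ext h)
  have i1 := hinv e₁ e₁.2 c1
  have i2 := hinv e₂ e₂.2 c2
  have i3 := hinv ((e₁ : H) * (e₂ : H)) (E.mul_mem e₁.2 e₂.2) c3
  rw [eq_bot_iff]
  intro n hn
  have h1 : (e₁ : H) * (e₂ : H) * n * ((e₁ : H) * (e₂ : H))⁻¹ = n := by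
    calc (e₁ : H) * (e₂ : H) * n * ((e₁ : H) * (e₂ : H))⁻¹ = (e₁ : H) * ((e₂ : H) * n * (e₂ : H)⁻¹) * (e₁ : H)⁻¹ := by group
      _ = (e₁ : H) * n⁻¹ * (e₁ : H)⁻¹ := by rw [i2 n hn]
      _ = n⁻¹⁻¹ := i1 n⁻¹ (N.inv_mem hn)
      _ = n := inv_inv n
  have h2 : n ∈ N ⊓ Subgroup.centralizer ({(e₁ : H) * (e₂ : H)} : Set H) := by
    refine Subgroup.mem_inf.mpr ⟨hn, ?_⟩
    rw [Subgroup.mem_centralizer_iff]
    intro y hy
    rw [Set.mem_singleton_iff] at hy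
    subst hy
    calc (e₁ : H) * (e₂ : H) * n = ((e₁ : H) * (e₂ : H) * n * ((e₁ : H) * (e₂ : H))⁻¹) * ((e₁ : H) * (e₂ : H)) := by group
      _ = n * ((e₁ : H) * (e₂ : H)) := by rw [h1]
  rw [hfix _ (E.mul_mem e₁.2 e₂.2) c3] at h2
  exact h2

/-- Let H be a finite group and z an involution such that every proper normal subgroup of H meets the centralizer of z trivially, and suppose z lies in a Klein four-subgroup E of H all three of whose involutions are conjugate to z in H. Then H is simple. -/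
theorem result {H : Type*} [Group H] [Finite H] (z : H) (hz : orderOf z = 2) (hN : ∀ N : Subgroup H, N.Normal → N ≠ ⊤ → N ⊓ Subgroup.centralizer ({z} : Set H) = ⊥) (E : Subgroup H) (hE : IsKleinFour ↥E) (hzE : z ∈ E) (hc : ∀ e ∈ E, e ≠ 1 → IsConj z e) : IsSimpleGroup H := by
  haveI : Nontrivial H := ⟨⟨z, 1, fun h => by rw [h, orderOf_one] at hz; norm_num at hz⟩⟩
  refine IsSimpleGroup.mk (fun N hNn => ?_)
  by_cases hNt : N = ⊤
  · exact Or.inr hNt
  · exact Or.inl (core z hN E hE hc N hNn hNt)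

end Cfsg.Agent.S2009
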