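import Cfsg.Statements.S2008
import Cfsg.Agent.S2009

set_option autoImplicit false
open Cfsg

namespace Cfsg.Agent.S2008

/-- Let H be a finite group and z an involution such that every proper normal subgroup of H meets the centralizer of z trivially, and suppose z lies in a Klein four-subgroup E of H all three of whose involutions are conjugate to z in H. Then H has no non-trivial abelian normal subgroup. -/
theorem result {H : Type*} [Group H] [Finite H] (z : H) (hz : orderOf z = 2) (hN : ∀ N : Subgroup H, N.Normal → N ≠ ⊤ → N ⊓ Subgroup.centralizer ({z} : Set H) = ⊥) (E : Subgroup H) (hE : IsKleinFour ↥E) (hzE : z ∈ E) (hc : ∀ e ∈ E, e ≠ 1 → IsConj z e) (N : Subgroup H) [N.Normal] (hab : IsMulCommutative ↥N) : N = ⊥ := by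
  by_cases hNt : N = ⊤
  · exfalso
    have hcomm : ∀ a b : H, a * b = b * a := by
      intro a b
      have ha : a ∈ N := hNt ▸ Subgroup.mem_top a
      have hb : b ∈ N := hNt ▸ Subgroup.mem_top b
      have := isMulCommutative_iff.mp hab ⟨a, ha⟩ ⟨b, hb⟩
      exact congrArg Subtype.val this
    obtain ⟨e₁, e₂, he₁, he₂1, he₂₁⟩ := Cfsg.Agent.S2009.klein_exists E hE
    have key : ∀ e : E, e ≠ 1 → (e : H) = z := by
      intro e he
      have he' : (e : H) ≠ 1 := fun h => he (Subtype.ext h)
      obtain ⟨g, hg⟩ := isConj_iff.mp (hc e e.2 he')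
      rw [← hg, hcomm g z, mul_assoc, mul_inv_cancel, mul_one]
    exact he₂₁ (Subtype.ext ((key e₂ he₂1).trans (key e₁ he₁).symm))
  · exact Cfsg.Agent.S2009.core z hN E hE hc N inferInstance hNt

end Cfsg.Agent.S2008
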