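import Mathlib
import Cfsg.Statements.S3954
import Cfsg.Agent.Lib.Helper21.SchurBasic
import Cfsg.Agent.Lib.Helper21.SchurCover

set_option autoImplicit false
open Cfsg

namespace Cfsg.Agent.S3954

open Cfsg.Agent.Lib.Helper21.SchurCover Cfsg.Agent.Lib.Helper21.SchurBasic

theorem exists_injective_of_surjective {B I : Type*} [CommGroup B] [CommGroup I] [Finite B]
    (F : B →* I) (hF : Function.Surjective F) : ∃ j : I →* B, Function.Injective j := by
  have : Finite I := Finite.of_surjective F hF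
  have : NeZero ((Monoid.exponent B : ℕ) : ℂ) :=
    ⟨Nat.cast_ne_zero.mpr Monoid.exponent_ne_zero_of_finite⟩
  have : NeZero ((Monoid.exponent I : ℕ) : ℂ) :=
    ⟨Nat.cast_ne_zero.mpr Monoid.exponent_ne_zero_of_finite⟩
  obtain ⟨eB⟩ := CommGroup.monoidHom_mulEquiv_of_hasEnoughRootsOfUnity B ℂ
  obtain ⟨eI⟩ := CommGroup.monoidHom_mulEquiv_of_hasEnoughRootsOfUnity I ℂ
  let d : (I →* ℂˣ) →* (B →* ℂˣ) :=
    { toFun := fun χ => χ.comp F
      map_one' := rfl
      map_mul' := fun _ _ => rfl }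
  have hd : Function.Injective d := by
    intro χ χ' h
    exact (MonoidHom.cancel_right hF).mp h
  refine ⟨eB.toMonoidHom.comp (d.comp eI.symm.toMonoidHom), ?_⟩
  exact eB.injective.comp (hd.comp eI.symm.injective)

theorem exists_subgroup_equiv {A B : Type*} [CommGroup A] [CommGroup B] [Finite B]
    (F : B →* A) (K : Subgroup A) (hK : K ≤ F.range) : ∃ C : Subgroup B, Nonempty (K ≃* C) := by
  obtain ⟨j, hj⟩ := exists_injective_of_surjective F.rangeRestrict F.rangeRestrict_surjective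
  let K' : Subgroup F.range := K.subgroupOf F.range
  have hinj : Function.Injective (j.comp K'.subtype) := hj.comp Subtype.val_injective
  exact ⟨(j.comp K'.subtype).range,
    ⟨(Subgroup.subgroupOfEquivOfLe hK).symm.trans (MonoidHom.ofInjective hinj)⟩⟩

theorem result {G : Type*} [Group G] [Finite G] (U : Subgroup G) {A B : Type*} [CommGroup A] [CommGroup B] (hA : Cfsg.HasSchurMultiplier G A) (hB : Cfsg.HasSchurMultiplier U B) : ∃ C : Subgroup B, Nonempty ((powMonoidHom U.index : A →* A).range ≃* C) := by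
  have hBfin : Finite B := finite_mult_of_hasSchurMultiplier hB
  obtain ⟨⟨Γ, _, _, σ, hσ, ⟨e⟩⟩, _⟩ := hA
  obtain ⟨hsurj, hcen, hcomm⟩ := hσ
  have hσUs : Function.Surjective (σ.subgroupComap U) :=
    σ.subgroupComap_surjective_of_surjective U hsurj
  have hσUk : ∀ x : U.comap σ, x ∈ (σ.subgroupComap U).ker ↔ (x : Γ) ∈ σ.ker := by
    intro x
    rw [MonoidHom.mem_ker, MonoidHom.mem_ker]
    constructor
    · intro h
      exact congrArg Subtype.val h
    · intro h
      exact Subtype.ext h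
  have hσUc : (σ.subgroupComap U).ker ≤ Subgroup.center (U.comap σ) := by
    intro x hx
    have := hcen ((hσUk x).mp hx)
    rw [Subgroup.mem_center_iff] at this ⊢
    intro g
    exact Subtype.ext (this g)
  obtain ⟨f, hf⟩ := surj_of_central_of_has hB (σ.subgroupComap U) hσUs hσUc
  have hidx : (U.comap σ).index = U.index := Subgroup.index_comap_of_surjective U hsurj
  rw [← hidx]
  have htr : ∀ a ∈ σ.ker, ∃ h : a ^ (U.comap σ).index ∈ U.comap σ,
      (⟨a ^ (U.comap σ).index, h⟩ : U.comap σ) ∈ commutator (U.comap σ) := by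
    intro a ha
    have hz := hcen ha
    rw [Subgroup.mem_center_iff] at hz
    have key : ∀ (k : ℕ) (g₀ : Γ), g₀⁻¹ * a ^ k * g₀ ∈ U.comap σ →
        g₀⁻¹ * a ^ k * g₀ = a ^ k := by
      intro k g₀ _
      have hc : Commute g₀ (a ^ k) := Commute.pow_right (hz g₀) k
      rw [mul_assoc, ← hc.eq, inv_mul_cancel_left]
    have h1 := MonoidHom.transfer_eq_pow
      (Abelianization.of : (U.comap σ) →* Abelianization (U.comap σ)) a key
    have h2 : MonoidHom.transfer
        (Abelianization.of : (U.comap σ) →* Abelianization (U.comap σ)) a = 1 :=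
      Abelianization.commutator_subset_ker _ (hcomm ha)
    rw [h2] at h1
    refine ⟨MonoidHom.transfer_eq_pow_aux a key, ?_⟩
    rw [← Abelianization.ker_of, MonoidHom.mem_ker]
    exact h1.symm
  have hfmem : ∀ b, ((f b : U.comap σ) : Γ) ∈ σ.ker := fun b =>
    (hσUk _).mp (Subgroup.mem_inf.mp ((hf (f b)).mpr ⟨b, rfl⟩)).1
  let F : B →* A := e.toMonoidHom.comp (((U.comap σ).subtype.comp f).codRestrict σ.ker hfmem)
  apply exists_subgroup_equiv F
  rintro _ ⟨α, rfl⟩
  obtain ⟨a, rfl⟩ := e.surjective α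
  obtain ⟨h, hc⟩ := htr a.1 a.2
  have hk : (⟨(a : Γ) ^ (U.comap σ).index, h⟩ : U.comap σ) ∈ (σ.subgroupComap U).ker := by
    rw [hσUk]
    exact Subgroup.pow_mem _ a.2 _
  obtain ⟨b, hb⟩ := (hf _).mp (Subgroup.mem_inf.mpr ⟨hk, hc⟩)
  refine ⟨b, ?_⟩
  show e _ = (e a) ^ (U.comap σ).index
  rw [← map_pow]
  congr 1
  apply Subtype.ext
  show ((f b : U.comap σ) : Γ) = _
  rw [hb]
  rfl

end Cfsg.Agent.S3954
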