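import Cfsg.Statements.S3964
import Cfsg.Agent.Lib.Helper21.SchurBasic

set_option autoImplicit false
open Cfsg

namespace Cfsg.Agent.S3964

open Cfsg.Agent.Lib.Helper21.SchurBasic

theorem mem_rot_iff (n : ℕ) [NeZero n] (g : DihedralGroup n) :
    g ∈ Subgroup.zpowers (DihedralGroup.r (1 : ZMod n)) ↔ ∃ i : ZMod n, g = DihedralGroup.r i := by
  constructor
  · rintro ⟨k, rfl⟩
    exact ⟨(k : ZMod n), DihedralGroup.r_one_zpow k⟩
  · rintro ⟨i, rfl⟩
    refine ⟨(i.val : ℤ), ?_⟩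
    simp only
    rw [DihedralGroup.r_one_zpow]
    simp

theorem rot_normal (n : ℕ) [NeZero n] : (Subgroup.zpowers (DihedralGroup.r (1 : ZMod n))).Normal := by
  constructor
  intro x hx g
  rw [mem_rot_iff] at hx ⊢
  obtain ⟨i, rfl⟩ := hx
  cases g with
  | r j => exact ⟨i, by simp⟩
  | sr j => exact ⟨-i, by simp⟩

theorem result (n : ℕ) (hn : Odd n) : Cfsg.HasCyclicSchurMultiplier (DihedralGroup n) 1 := by
  have : NeZero n := ⟨hn.pos.ne'⟩
  apply trivial_of_forall_ker_eq_bot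
  intro Γ _ _ σ hσ
  have := rot_normal n
  obtain ⟨ξ, hξ⟩ := hσ.1 (DihedralGroup.sr 0)
  rw [eq_bot_iff]
  intro k hk
  have hgen : ∀ g : DihedralGroup n, g ∈ Subgroup.zpowers (DihedralGroup.r (1 : ZMod n)) ∨
      g * (σ ξ)⁻¹ ∈ Subgroup.zpowers (DihedralGroup.r (1 : ZMod n)) := by
    intro g
    rw [hξ]
    cases g with
    | r j => left; rw [mem_rot_iff]; exact ⟨j, rfl⟩
    | sr j => right; rw [mem_rot_iff]; exact ⟨0 - j, by simp⟩
  obtain ⟨b, hb, hkb⟩ := stem_ker_form σ hσ (Subgroup.zpowers (DihedralGroup.r (1 : ZMod n))) ξ hgen k hk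
  rw [mem_rot_iff] at hb
  obtain ⟨i, hi⟩ := hb
  have h1 : σ k = 1 := hk
  rw [hkb, map_mul, map_mul, map_mul, map_inv, map_inv, hi, hξ] at h1
  simp only [DihedralGroup.r_mul_sr, DihedralGroup.inv_r, DihedralGroup.sr_mul_r, DihedralGroup.inv_sr,
    DihedralGroup.sr_mul_sr, DihedralGroup.one_def] at h1
  have h2 : (0 : ZMod n) - (0 - i + -i) = 0 := by
    injection h1
  have h3 : (2 : ZMod n) * i = 0 := by
    have : (0 : ZMod n) - (0 - i + -i) = 2 * i := by ring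
    rw [← this]; exact h2
  have h4 : i = 0 := by
    have hu : IsUnit (2 : ZMod n) := by
      have : ((2 : ℕ) : ZMod n) = 2 := by norm_cast
      rw [← this]
      rw [ZMod.isUnit_iff_coprime]
      exact Nat.coprime_two_left.mpr hn
    exact (hu.mul_right_eq_zero).mp h3
  have hbk : b ∈ σ.ker := by
    rw [MonoidHom.mem_ker, hi, h4, DihedralGroup.r_zero]
  have hbc := hσ.2.1 hbk
  rw [Subgroup.mem_center_iff] at hbc
  rw [Subgroup.mem_bot, hkb, ← hbc ξ]
  group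

end Cfsg.Agent.S3964
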