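import Mathlib
import Cfsg.Statements.S3966

set_option autoImplicit false
open Cfsg

namespace Cfsg.Agent.S3966

open scoped commutatorElement

theorem inv_a {n : ℕ} (i : ZMod (2 * n)) : (QuaternionGroup.a i)⁻¹ = QuaternionGroup.a (-i) := rfl

theorem inv_xa {n : ℕ} (i : ZMod (2 * n)) :
    (QuaternionGroup.xa i)⁻¹ = QuaternionGroup.xa ((n : ZMod (2 * n)) + i) := rfl

theorem two_n_zero (n : ℕ) : (n : ZMod (2 * n)) + n = 0 := by
  have : ((2 * n : ℕ) : ZMod (2 * n)) = 0 := ZMod.natCast_self _
  rw [← this]
  push_cast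
  ring

def red (n : ℕ) : ZMod (2 * n) →+* ZMod n := ZMod.castHom (dvd_mul_left n 2) (ZMod n)

theorem red_n (n : ℕ) : red n (n : ZMod (2 * n)) = 0 := by
  rw [map_natCast]
  exact ZMod.natCast_self n

def toDihedral (n : ℕ) : QuaternionGroup n →* DihedralGroup n where
  toFun := fun g => match g with
    | .a i => .r (red n i)
    | .xa i => .sr (red n i)
  map_one' := by
    show DihedralGroup.r (red n 0) = 1
    rw [map_zero]
    rfl
  map_mul' := by
    rintro (i | i) (j | j)
    · show DihedralGroup.r (red n (i + j)) = DihedralGroup.r (red n i) * DihedralGroup.r (red n j)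
      rw [DihedralGroup.r_mul_r, map_add]
    · show DihedralGroup.sr (red n (j - i)) = DihedralGroup.r (red n i) * DihedralGroup.sr (red n j)
      rw [DihedralGroup.r_mul_sr, map_sub]
    · show DihedralGroup.sr (red n (i + j)) = DihedralGroup.sr (red n i) * DihedralGroup.r (red n j)
      rw [DihedralGroup.sr_mul_r, map_add]
    · show DihedralGroup.r (red n ((n : ZMod (2 * n)) + j - i)) =
        DihedralGroup.sr (red n i) * DihedralGroup.sr (red n j)
      rw [DihedralGroup.sr_mul_sr, map_sub, map_add, red_n, zero_add]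

theorem toDihedral_a (n : ℕ) (i : ZMod (2 * n)) :
    toDihedral n (QuaternionGroup.a i) = DihedralGroup.r (red n i) := rfl

theorem toDihedral_xa (n : ℕ) (i : ZMod (2 * n)) :
    toDihedral n (QuaternionGroup.xa i) = DihedralGroup.sr (red n i) := rfl

theorem red_eq_zero_iff (n : ℕ) [NeZero n] (i : ZMod (2 * n)) :
    red n i = 0 ↔ i = 0 ∨ i = (n : ZMod (2 * n)) := by
  have : NeZero (2 * n) := ⟨by have := NeZero.ne n; omega⟩
  constructor
  · intro h
    have h1 : red n i = ((i.val : ℕ) : ZMod n) := by
      conv_lhs => rw [← ZMod.natCast_zmod_val i]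
      rw [map_natCast]
    rw [h1, ZMod.natCast_eq_zero_iff] at h
    have hlt : i.val < 2 * n := ZMod.val_lt i
    obtain ⟨c, hc⟩ := h
    have hn : 0 < n := Nat.pos_of_ne_zero (NeZero.ne n)
    have hc2 : c < 2 := by
      by_contra hcc
      push Not at hcc
      have : n * 2 ≤ n * c := Nat.mul_le_mul_left n hcc
      omega
    interval_cases c
    · left
      rw [← ZMod.natCast_zmod_val i, hc]
      simp
    · right
      rw [← ZMod.natCast_zmod_val i, hc]
      simp
  · rintro (rfl | rfl)
    · exact map_zero _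
    · exact red_n n

theorem red_surj (n : ℕ) [NeZero n] (j : ZMod n) : ∃ i : ZMod (2 * n), red n i = j := by
  refine ⟨((j.val : ℕ) : ZMod (2 * n)), ?_⟩
  rw [map_natCast]
  exact ZMod.natCast_zmod_val j

theorem n_ne_zero (n : ℕ) [NeZero n] : (n : ZMod (2 * n)) ≠ 0 := by
  intro h
  rw [ZMod.natCast_eq_zero_iff] at h
  have hn : 0 < n := Nat.pos_of_ne_zero (NeZero.ne n)
  have := Nat.le_of_dvd hn h
  omega

theorem mem_ker_iff (n : ℕ) [NeZero n] (g : QuaternionGroup n) :
    g ∈ (toDihedral n).ker ↔ g = 1 ∨ g = QuaternionGroup.a (n : ZMod (2 * n)) := by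
  rw [MonoidHom.mem_ker]
  cases g with
  | a i =>
    rw [toDihedral_a, DihedralGroup.one_def, QuaternionGroup.one_def]
    constructor
    · intro h
      have h' : red n i = 0 := by injection h
      rcases (red_eq_zero_iff n i).mp h' with h1 | h1
      · left; rw [h1]
      · right; rw [h1]
    · rintro (h | h)
      · have : i = 0 := by injection h
        rw [this, map_zero]
      · have : i = (n : ZMod (2 * n)) := by injection h
        rw [this, red_n]
  | xa i =>
    rw [toDihedral_xa, DihedralGroup.one_def, QuaternionGroup.one_def]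
    constructor
    · intro h
      cases h
    · rintro (h | h) <;> cases h

theorem a_n_central (n : ℕ) : QuaternionGroup.a (n : ZMod (2 * n)) ∈ Subgroup.center (QuaternionGroup n) := by
  rw [Subgroup.mem_center_iff]
  have h2 := two_n_zero n
  rintro (j | j)
  · rw [QuaternionGroup.a_mul_a, QuaternionGroup.a_mul_a, add_comm]
  · rw [QuaternionGroup.xa_mul_a, QuaternionGroup.a_mul_xa]
    congr 1
    have : (n : ZMod (2 * n)) = - n := by
      rw [eq_neg_iff_add_eq_zero]; exact h2
    rw [sub_eq_add_neg, ← this]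

theorem a_n_mem_commutator (n : ℕ) (hn : Even n) :
    QuaternionGroup.a (n : ZMod (2 * n)) ∈ commutator (QuaternionGroup n) := by
  obtain ⟨m, hm⟩ := hn
  have h2 := two_n_zero n
  have key : ⁅QuaternionGroup.a (m : ZMod (2 * n)), QuaternionGroup.xa (0 : ZMod (2 * n))⁆ =
      QuaternionGroup.a (n : ZMod (2 * n)) := by
    rw [commutatorElement_def, inv_a, inv_xa, QuaternionGroup.a_mul_xa, QuaternionGroup.xa_mul_a,
      QuaternionGroup.xa_mul_xa]
    congr 1
    have e : (n : ZMod (2 * n)) = (m : ZMod (2 * n)) + m := by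
      rw [hm]; push_cast; ring
    calc (n : ZMod (2 * n)) + (n + 0) - (0 - m + -m) = (n + n) + (m + m) := by ring
      _ = n := by rw [h2, zero_add, ← e]
  rw [← key]
  exact Subgroup.commutator_mem_commutator (Subgroup.mem_top _) (Subgroup.mem_top _)

theorem result (n : ℕ) [NeZero n] (hn : Even n) : ∃ σ : QuaternionGroup n →* DihedralGroup n, Cfsg.IsStemExtension σ ∧ Nat.card σ.ker = 2 := by
  refine ⟨toDihedral n, ⟨?_, ?_, ?_⟩, ?_⟩
  · rintro (j | j)
    · obtain ⟨i, hi⟩ := red_surj n j
      exact ⟨QuaternionGroup.a i, by rw [toDihedral_a, hi]⟩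
    · obtain ⟨i, hi⟩ := red_surj n j
      exact ⟨QuaternionGroup.xa i, by rw [toDihedral_xa, hi]⟩
  · intro g hg
    rcases (mem_ker_iff n g).mp hg with rfl | rfl
    · exact Subgroup.one_mem _
    · exact a_n_central n
  · intro g hg
    rcases (mem_ker_iff n g).mp hg with rfl | rfl
    · exact Subgroup.one_mem _
    · exact a_n_mem_commutator n hn
  · rw [Nat.card_eq_two_iff]
    refine ⟨⟨1, Subgroup.one_mem _⟩, ⟨QuaternionGroup.a (n : ZMod (2 * n)), (mem_ker_iff n _).mpr (Or.inr rfl)⟩, ?_, ?_⟩
    · intro h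
      have h1 : (1 : QuaternionGroup n) = QuaternionGroup.a (n : ZMod (2 * n)) := congrArg Subtype.val h
      rw [QuaternionGroup.one_def] at h1
      have h2 : (0 : ZMod (2 * n)) = n := by injection h1
      exact n_ne_zero n h2.symm
    · ext ⟨g, hg⟩
      simp only [Set.mem_insert_iff, Set.mem_singleton_iff, Set.mem_univ, iff_true]
      rcases (mem_ker_iff n g).mp hg with h | h
      · left; exact Subtype.ext h
      · right; exact Subtype.ext h

end Cfsg.Agent.S3966
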