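import Mathlib
import Cfsg.Statements.S3965
import Cfsg.Agent.Lib.Helper21.SchurBasic
import Cfsg.Agent.S3964
import Cfsg.Agent.S3966

set_option autoImplicit false
open Cfsg

namespace Cfsg.Agent.S3965

open Cfsg.Agent.Lib.Helper21.SchurBasic

theorem two_mul_eq_zero_iff (n : ℕ) [NeZero n] (hn : Even n) (i : ZMod n) :
    i + i = 0 → i = 0 ∨ i = ((n / 2 : ℕ) : ZMod n) := by
  intro h
  have h1 : ((i.val + i.val : ℕ) : ZMod n) = 0 := by
    push_cast
    rw [ZMod.natCast_zmod_val]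
    exact h
  rw [ZMod.natCast_eq_zero_iff] at h1
  have hlt : i.val < n := ZMod.val_lt i
  obtain ⟨c, hc⟩ := h1
  obtain ⟨m, hm⟩ := hn
  have hn0 : 0 < n := Nat.pos_of_ne_zero (NeZero.ne n)
  have hc2 : c < 2 := by
    by_contra hcc
    push Not at hcc
    have : n * 2 ≤ n * c := Nat.mul_le_mul_left n hcc
    omega
  interval_cases c
  · left
    have : i.val = 0 := by omega
    rw [← ZMod.natCast_zmod_val i, this]
    simp
  · right
    have : i.val = n / 2 := by omega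
    rw [← ZMod.natCast_zmod_val i, this]

theorem ker_subset (n : ℕ) [NeZero n] (hn : Even n) (Γ : Type) [Group Γ] [Finite Γ]
    (σ : Γ →* DihedralGroup n) (hσ : Cfsg.IsStemExtension σ) :
    ∃ c : Γ, ∀ k ∈ σ.ker, k = 1 ∨ k = c := by
  have := Cfsg.Agent.S3964.rot_normal n
  obtain ⟨ξ, hξ⟩ := hσ.1 (DihedralGroup.sr 0)
  obtain ⟨b₀, hb₀⟩ := hσ.1 (DihedralGroup.r ((n / 2 : ℕ) : ZMod n))
  refine ⟨b₀ * ξ * b₀⁻¹ * ξ⁻¹, ?_⟩
  intro k hk
  have hgen : ∀ g : DihedralGroup n, g ∈ Subgroup.zpowers (DihedralGroup.r (1 : ZMod n)) ∨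
      g * (σ ξ)⁻¹ ∈ Subgroup.zpowers (DihedralGroup.r (1 : ZMod n)) := by
    intro g
    rw [hξ]
    cases g with
    | r j => left; rw [Cfsg.Agent.S3964.mem_rot_iff]; exact ⟨j, rfl⟩
    | sr j => right; rw [Cfsg.Agent.S3964.mem_rot_iff]; exact ⟨0 - j, by simp⟩
  obtain ⟨b, hb, hkb⟩ := stem_ker_form σ hσ (Subgroup.zpowers (DihedralGroup.r (1 : ZMod n))) ξ hgen k hk
  rw [Cfsg.Agent.S3964.mem_rot_iff] at hb
  obtain ⟨i, hi⟩ := hb
  have h1 : σ k = 1 := hk
  rw [hkb, map_mul, map_mul, map_mul, map_inv, map_inv, hi, hξ] at h1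
  simp only [DihedralGroup.r_mul_sr, DihedralGroup.inv_r, DihedralGroup.sr_mul_r, DihedralGroup.inv_sr,
    DihedralGroup.sr_mul_sr, DihedralGroup.one_def] at h1
  have h2 : (0 : ZMod n) - (0 - i + -i) = 0 := by
    injection h1
  have h3 : i + i = 0 := by
    have : (0 : ZMod n) - (0 - i + -i) = i + i := by ring
    rw [← this]; exact h2
  rcases two_mul_eq_zero_iff n hn i h3 with h4 | h4
  · left
    have hbk : b ∈ σ.ker := by
      rw [MonoidHom.mem_ker, hi, h4, DihedralGroup.r_zero]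
    have hbc := hσ.2.1 hbk
    rw [Subgroup.mem_center_iff] at hbc
    rw [hkb, ← hbc ξ]
    group
  · right
    have hbk : b * b₀⁻¹ ∈ σ.ker := by
      rw [MonoidHom.mem_ker, map_mul, map_inv, hi, h4, hb₀, mul_inv_cancel]
    have hbc := hσ.2.1 hbk
    rw [Subgroup.mem_center_iff] at hbc
    rw [hkb]
    have e : b * ξ * b⁻¹ * ξ⁻¹ = ((b * b₀⁻¹) * (b₀ * ξ * b₀⁻¹)) * (b * b₀⁻¹)⁻¹ * ξ⁻¹ := by group
    rw [e, ← hbc (b₀ * ξ * b₀⁻¹)]
    group

theorem result (n : ℕ) [NeZero n] (hn : Even n) : Cfsg.HasCyclicSchurMultiplier (DihedralGroup n) 2 := by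
  constructor
  · obtain ⟨σ, hσ, hcard⟩ := Cfsg.Agent.S3966.result n hn
    refine ⟨QuaternionGroup n, inferInstance, inferInstance, σ, hσ, ?_⟩
    have hp : Fact (Nat.Prime 2) := ⟨Nat.prime_two⟩
    have hc : IsCyclic σ.ker := isCyclic_of_prime_card hcard
    have hz : Nat.card (Multiplicative (ZMod 2)) = 2 := by
      rw [Nat.card_eq_fintype_card]
      exact ZMod.card 2
    have hcz : IsCyclic (Multiplicative (ZMod 2)) := isCyclic_of_prime_card hz
    exact ⟨mulEquivOfCyclicCardEq (hcard.trans hz.symm)⟩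
  · intro Γ _ _ σ hσ
    apply exists_surjective_of_card_le_two
    obtain ⟨c, hc⟩ := ker_subset n hn Γ σ hσ
    have hsub : (σ.ker : Set Γ) ⊆ {1, c} := by
      intro k hk
      rcases hc k hk with h | h
      · left; exact h
      · right; exact h
    have h1 : Nat.card σ.ker = (σ.ker : Set Γ).ncard := rfl
    rw [h1]
    calc (σ.ker : Set Γ).ncard ≤ ({1, c} : Set Γ).ncard := Set.ncard_le_ncard hsub (Set.toFinite _)
      _ ≤ ({c} : Set Γ).ncard + 1 := Set.ncard_insert_le 1 {c}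
      _ = 2 := by rw [Set.ncard_singleton]

end Cfsg.Agent.S3965
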