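import Cfsg.Statements.S3979
import Cfsg.Agent.Lib.Helper21.SchurBasic

set_option autoImplicit false
open Cfsg

namespace Cfsg.Agent.S3979

open Cfsg.Agent.Lib.Helper21.SchurBasic

/-- A finite cyclic group has trivial Schur multiplier: every finite stem extension of it is an isomorphism, said through `HasCyclicSchurMultiplier G 1`. -/
theorem result {G : Type*} [Group G] [Finite G] [IsCyclic G] : Cfsg.HasCyclicSchurMultiplier G 1 := by
  apply trivial_of_forall_ker_eq_bot
  intro Γ _ _ σ hσ
  have hcm := MonoidHom.isMulCommutative_of_isCyclic_of_ker_le_center σ hσ.2.1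
  exact ker_eq_bot_of_comm σ hσ (isMulCommutative_iff.mp hcm)

end Cfsg.Agent.S3979
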