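import Mathlib
import Cfsg.Statements.S2087
import Cfsg.Agent.Lib.Helper21.SchurCover
import Cfsg.Agent.Lib.Helper2.L27Syl
import Cfsg.Agent.Lib.Helper2.Fano7
import Cfsg.Agent.S3954
import Cfsg.Agent.S3965
import Cfsg.Agent.S3979
import Cfsg.Agent.S0243

set_option autoImplicit false
open Cfsg

namespace Cfsg.Agent.S2087

open Cfsg.Agent.Lib.Helper21.SchurCover

universe u v w

theorem card_mult_le {H : Type u} [Group H] [Finite H] {D : Type v} [Group D] {A : Type w}
    [CommGroup A] [Finite A] (φ : H ≃* D) (hA : Cfsg.HasSchurMultiplier D A) :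
    Nat.card (Mult H) ≤ Nat.card A := by
  obtain ⟨Γ, _, _, σ, hσ, ⟨e⟩⟩ := (hasSchurMultiplier_mult H).1
  have hker : (φ.toMonoidHom.comp σ).ker = σ.ker := by
    ext x
    simp [MonoidHom.mem_ker]
  have hσ' : Cfsg.IsStemExtension (φ.toMonoidHom.comp σ) :=
    ⟨φ.surjective.comp hσ.1, hker ▸ hσ.2.1, hker ▸ hσ.2.2⟩
  obtain ⟨f, hf⟩ := surj_of_stem_of_has hA (φ.toMonoidHom.comp σ) hσ'
  rw [← Nat.card_congr e.toEquiv, ← hker]
  exact Nat.card_le_card_of_surjective f hf

theorem pow_index_eq_one {G : Type u} [Group G] [Finite G] (U : Subgroup G) [IsCyclic U]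
    (a : Mult G) : a ^ U.index = 1 := by
  have hB : Cfsg.HasCyclicSchurMultiplier U 1 := Cfsg.Agent.S3979.result
  obtain ⟨C, ⟨e⟩⟩ := Cfsg.Agent.S3954.result U (hasSchurMultiplier_mult G) hB
  have hs : Subsingleton (Multiplicative (ZMod 1)) := inferInstanceAs (Subsingleton (ZMod 1))
  have h1 : e ⟨a ^ U.index, ⟨a, rfl⟩⟩ = e 1 := Subsingleton.elim _ _
  have h2 := e.injective h1
  exact congrArg Subtype.val h2

theorem card_range_pow_le {G : Type u} [Group G] [Finite G] (U : Subgroup G)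
    (φ : U ≃* DihedralGroup 4) :
    Nat.card (powMonoidHom U.index : Mult G →* Mult G).range ≤ 2 := by
  have hD : Cfsg.HasCyclicSchurMultiplier (DihedralGroup 4) 2 :=
    Cfsg.Agent.S3965.result 4 ⟨2, rfl⟩
  have hz : Nat.card (Multiplicative (ZMod 2)) = 2 := by
    rw [Nat.card_eq_fintype_card]
    rfl
  have hcard : Nat.card (Mult U) ≤ 2 := hz ▸ card_mult_le φ hD
  obtain ⟨C, ⟨e⟩⟩ := Cfsg.Agent.S3954.result U (hasSchurMultiplier_mult G)
    (hasSchurMultiplier_mult U)
  calc Nat.card (powMonoidHom U.index : Mult G →* Mult G).range = Nat.card C :=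
        Nat.card_congr e.toEquiv
    _ ≤ Nat.card (Mult U) := Subgroup.card_le_card_group C
    _ ≤ 2 := hcard

open Cfsg.Agent.Lib.Helper2.U33Tab Cfsg.Agent.Lib.Helper2.L27Cls in
theorem main_aux {G : Type u} [Group G] [Finite G] (hc : Nat.card G = 168) (e : G ≃* SL32)
    {Γ : Type v} [Group Γ] (σ : Γ →* G) (hσ : Cfsg.IsStemExtension σ) (z : Γ) (hz : z ∈ σ.ker)
    (hz1 : z ≠ 1) : Cfsg.HasCyclicSchurMultiplier G 2 := by
  have hA := hasSchurMultiplier_mult G
  have h3 : Fact (Nat.Prime 3) := ⟨by norm_num⟩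
  have h7 : Fact (Nat.Prime 7) := ⟨by norm_num⟩
  obtain ⟨x3, hx3⟩ := exists_prime_orderOf_dvd_card' 3 (by rw [hc]; norm_num : 3 ∣ Nat.card G)
  obtain ⟨x7, hx7⟩ := exists_prime_orderOf_dvd_card' 7 (by rw [hc]; norm_num : 7 ∣ Nat.card G)
  have hi3 : (Subgroup.zpowers x3).index = 56 := by
    have := (Subgroup.zpowers x3).card_mul_index
    rw [Nat.card_zpowers, hx3, hc] at this
    omega
  have hi7 : (Subgroup.zpowers x7).index = 24 := by
    have := (Subgroup.zpowers x7).card_mul_index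
    rw [Nat.card_zpowers, hx7, hc] at this
    omega
  have hp56 : ∀ a : Mult G, a ^ 56 = 1 := fun a =>
    hi3 ▸ pow_index_eq_one (Subgroup.zpowers x3) a
  have hp24 : ∀ a : Mult G, a ^ 24 = 1 := fun a =>
    hi7 ▸ pow_index_eq_one (Subgroup.zpowers x7) a
  have hp8 : ∀ a : Mult G, a ^ 8 = 1 := by
    intro a
    have h1 : a ^ 56 = a ^ 8 * (a ^ 24) ^ 2 := by rw [← pow_mul, ← pow_add]
    rw [hp56, hp24, one_pow, mul_one] at h1
    exact h1.symm
  let f2 : DihedralGroup 4 →* G := e.symm.toMonoidHom.comp fD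
  have hf2 : Function.Injective f2 := e.symm.injective.comp fD_injective
  let φ : f2.range ≃* DihedralGroup 4 := (MonoidHom.ofInjective hf2).symm
  have hi2 : f2.range.index = 21 := by
    have := f2.range.card_mul_index
    rw [Nat.card_congr φ.toEquiv, DihedralGroup.nat_card, hc] at this
    omega
  have hr : Nat.card (powMonoidHom 21 : Mult G →* Mult G).range ≤ 2 :=
    hi2 ▸ card_range_pow_le f2.range φ
  have hinj : Function.Injective (powMonoidHom 21 : Mult G →* Mult G) := by
    rw [injective_iff_map_eq_one]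
    intro a ha
    have ha' : a ^ 21 = 1 := ha
    have h104 : a ^ 104 = 1 := by rw [show 104 = 8 * 13 from rfl, pow_mul, hp8, one_pow]
    have h105 : a ^ 105 = 1 := by rw [show 105 = 21 * 5 from rfl, pow_mul, ha', one_pow]
    have h : a ^ 105 = a ^ 104 * a := pow_succ a 104
    rw [h104, h105, one_mul] at h
    exact h.symm
  have hle : Nat.card (Mult G) ≤ 2 := by
    calc Nat.card (Mult G) = Nat.card (powMonoidHom 21 : Mult G →* Mult G).range :=
          Nat.card_congr (MonoidHom.ofInjective hinj).toEquiv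
      _ ≤ 2 := hr
  obtain ⟨f, hf⟩ := surj_of_stem_of_has hA σ hσ
  have hfin : Finite σ.ker := Finite.of_surjective f hf
  have hnt : Nontrivial σ.ker := ⟨⟨⟨z, hz⟩, 1, fun h => hz1 (congrArg Subtype.val h)⟩⟩
  have hk : 1 < Nat.card σ.ker := Finite.one_lt_card_iff_nontrivial.mpr hnt
  have hge : Nat.card σ.ker ≤ Nat.card (Mult G) := Nat.card_le_card_of_surjective f hf
  have hcA : Nat.card (Mult G) = 2 := by omega
  have h2 : Fact (Nat.Prime 2) := ⟨Nat.prime_two⟩
  have hz2 : Nat.card (Multiplicative (ZMod 2)) = 2 := by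
    rw [Nat.card_eq_fintype_card]
    rfl
  exact hasSchurMultiplier_congr hA (mulEquivOfPrimeCardEq hcA hz2)

section SL27

open Matrix
open scoped commutatorElement

def zM : Matrix.SpecialLinearGroup (Fin 2) (ZMod 7) := ⟨!![6, 0; 0, 6], by decide⟩
def aM : Matrix.SpecialLinearGroup (Fin 2) (ZMod 7) := ⟨!![0, 1; 6, 0], by decide⟩
def bM : Matrix.SpecialLinearGroup (Fin 2) (ZMod 7) := ⟨!![2, 3; 3, 5], by decide⟩

theorem zM_ne_one : zM ≠ 1 := by
  intro h
  have h1 : (zM.1 : Matrix (Fin 2) (Fin 2) (ZMod 7)) 0 0 = (1 : Matrix (Fin 2) (Fin 2) (ZMod 7)) 0 0 := by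
    rw [h]; rfl
  revert h1
  decide

theorem bM_aM : bM * aM = zM * aM * bM := by
  apply Subtype.ext
  decide

theorem zM_mem_commutator : zM ∈ commutator (Matrix.SpecialLinearGroup (Fin 2) (ZMod 7)) := by
  have h : zM = ⁅bM, aM⁆ := by
    rw [commutatorElement_def, bM_aM]
    group
  rw [h, commutator_def]
  exact Subgroup.commutator_mem_commutator (Subgroup.mem_top _) (Subgroup.mem_top _)

theorem center_le_commutator :
    Subgroup.center (Matrix.SpecialLinearGroup (Fin 2) (ZMod 7)) ≤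
      commutator (Matrix.SpecialLinearGroup (Fin 2) (ZMod 7)) := by
  intro A hA
  obtain ⟨r, hr, hrA⟩ := Matrix.SpecialLinearGroup.mem_center_iff.mp hA
  have key : ∀ s : ZMod 7, s ^ 2 = 1 → s = 1 ∨ s = 6 := by decide
  have hr' : r = 1 ∨ r = 6 := by
    rw [Fintype.card_fin] at hr
    exact key r hr
  rcases hr' with rfl | rfl
  · have : A = 1 := by
      apply Subtype.ext
      rw [← hrA]
      simp
    rw [this]
    exact Subgroup.one_mem _
  · have : A = zM := by
      apply Subtype.ext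
      rw [← hrA]
      ext i j
      fin_cases i <;> fin_cases j <;> simp [zM, Matrix.scalar_apply]
    rw [this]
    exact zM_mem_commutator

theorem zM_mem_center : zM ∈ Subgroup.center (Matrix.SpecialLinearGroup (Fin 2) (ZMod 7)) := by
  rw [Matrix.SpecialLinearGroup.mem_center_iff]
  refine ⟨6, by decide, ?_⟩
  ext i j
  fin_cases i <;> fin_cases j <;> simp [zM, Matrix.scalar_apply]

end SL27

/-- Exceptional Schur multiplier: over the field with 2 elements, PSL₃ has Schur multiplier cyclic of order 2 (here the Schur multiplier is described through stem extensions, as in the definitions). -/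
theorem result {F : Type*} [Field F] [Fintype F] (hF : Fintype.card F = 2) : Cfsg.HasCyclicSchurMultiplier (Matrix.ProjectiveSpecialLinearGroup (Fin 3) F) 2 := by
  classical
  have hfin : Finite (Matrix.ProjectiveSpecialLinearGroup (Fin 3) F) := by
    unfold Matrix.ProjectiveSpecialLinearGroup
    infer_instance
  have h7 : Fact (Nat.Prime 7) := ⟨by norm_num⟩
  obtain ⟨e1⟩ := Cfsg.Agent.Lib.Helper2.Fano7.main7 (F := ZMod 7) (K := F) (ZMod.card 7) hF
  obtain ⟨e1'⟩ := Cfsg.Agent.Lib.Helper2.Fano7.main7 (F := ZMod 7) (K := ZMod 2) (ZMod.card 7)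
    (ZMod.card 2)
  let e2 : Matrix.ProjectiveSpecialLinearGroup (Fin 3) (ZMod 2) ≃*
      Cfsg.Agent.Lib.Helper2.U33Tab.SL32 :=
    (QuotientGroup.quotientMulEquivOfEq Cfsg.Agent.Lib.Helper2.U33Tab.center_SL32).trans
      QuotientGroup.quotientBot
  have hc : Nat.card (Matrix.ProjectiveSpecialLinearGroup (Fin 3) F) = 168 := by
    rw [← Nat.card_congr e1.toEquiv]
    have hc := Cfsg.Agent.S0243.result (F := ZMod 7) (ZMod.card 7) 2 le_rfl
    have h2 : Nat.gcd 2 (7 - 1) = 2 := by decide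
    rw [h2, Fin.prod_univ_two] at hc
    norm_num [-Nat.card_eq_fintype_card] at hc
    omega
  let σ : Matrix.SpecialLinearGroup (Fin 2) (ZMod 7) →*
      Matrix.ProjectiveSpecialLinearGroup (Fin 3) F :=
    e1.toMonoidHom.comp
      (QuotientGroup.mk' (Subgroup.center (Matrix.SpecialLinearGroup (Fin 2) (ZMod 7))))
  have hker : σ.ker = Subgroup.center (Matrix.SpecialLinearGroup (Fin 2) (ZMod 7)) := by
    ext x
    simp [σ]
  have hσ : Cfsg.IsStemExtension σ :=
    ⟨e1.surjective.comp (QuotientGroup.mk'_surjective _), hker.le,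
      hker ▸ center_le_commutator⟩
  exact main_aux hc (e1.symm.trans (e1'.trans e2)) σ hσ zM (hker ▸ zM_mem_center) zM_ne_one

end Cfsg.Agent.S2087
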