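import Cfsg.Statements.S2158
import Cfsg.Agent.Lib.Helper7.ChevBruhat

set_option autoImplicit false
open Cfsg

namespace Cfsg.Agent.S2158

open Cfsg.Lie Cfsg.Agent.Lib.Helper7.ChevEngine Cfsg.Agent.Lib.Helper7.ChevN
  Cfsg.Agent.Lib.Helper7.ChevConj
  Cfsg.Agent.Lib.Helper7.ChevConjT Cfsg.Agent.Lib.Helper7.ChevConjU Cfsg.Agent.Lib.Helper7.ChevAdd
  Cfsg.Agent.Lib.Helper7.ChevHAll Cfsg.Agent.Lib.Helper7.HBaseAll Cfsg.Agent.Lib.Helper7.ChevTorus
  Cfsg.Agent.Lib.Helper7.ChevBN Cfsg.Agent.Lib.Helper7.ChevGen Cfsg.Agent.Lib.Helper7.ChevOrb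
  Cfsg.Agent.Lib.Helper7.ChevW0 Cfsg.Agent.Lib.Helper7.ChevComm Cfsg.Agent.Lib.Helper7.ChevPerf
  Cfsg.Agent.Lib.Helper7.ChevRel Cfsg.Agent.Lib.Helper7.Shift Cfsg.Agent.Lib.Helper7.Tri2
  Cfsg.Agent.Lib.Helper7.ChevTri Cfsg.Agent.Lib.Helper7.ChevTriNeg Cfsg.Agent.Lib.Helper7.ChevNW
  Cfsg.Agent.Lib.Helper7.W0All Cfsg.Agent.Lib.Helper7.ChevExch Cfsg.Agent.Lib.Helper7.RelAll
  Cfsg.Agent.Lib.Helper7.ChevBN3 Cfsg.Agent.Lib.Helper7.ChevBNP Cfsg.Agent.Lib.Helper7.ChevBruhat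
  Cfsg.Agent.Lib.Helper7.TriAll

theorem conj_charDiag {F : Type*} [Field F] (D : ChevalleyDatum)
    (hD : D ∈ [chevG2, chevB2, chevD4, chevF4, chevE6, chevE7, chevE8]) (χ : ℕ → Fˣ)
    (hχ : D.IsRootCharacter χ) (g : GL D.Idx F)
    (hgχ : (g : Matrix D.Idx D.Idx F) = D.charDiag F χ) (r : ℕ) (hr : r < D.nroots) (t : F) :
    g * xGL D hD r t * g⁻¹ = xGL D hD r ((χ r : F) * t) := by
  apply Units.ext
  rw [Units.val_mul, Units.val_mul, xGL_val, xGL_val, inv_val_of_charDiag D g _ hgχ, hgχ]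
  exact Cfsg.Agent.S2157.result D hD χ hχ r hr t

theorem mem_borel {F : Type*} [Field F] (D : ChevalleyDatum)
    (hD : D ∈ [chevG2, chevB2, chevD4, chevF4, chevE6, chevE7, chevE8]) (χ : ℕ → Fˣ)
    (hχ : D.IsRootCharacter χ) (g : GL D.Idx F) (hg : g ∈ D.group F)
    (hgχ : (g : Matrix D.Idx D.Idx F) = D.charDiag F χ) : g ∈ D.borelSubgroup F := by
  have sd := signData_of_mem D hD
  obtain ⟨hC, -, -⟩ := all_of_mem D hD
  obtain ⟨b, hb, n, hn, u, hu, e⟩ := bruhat_exists D hD g hg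
  obtain ⟨h0, hh0, is, his, en⟩ := mono_form D hD n hn
  obtain ⟨is', hgood, -, h', hh', e2⟩ := good_exists (F := F) D hD is.length is rfl his
  rcases List.eq_nil_or_concat is' with rfl | ⟨L, i, e0⟩
  · have hnH : n ∈ D.diagonalSubgroup F := by
      rw [en, e2, nWordGL_nil, mul_one]
      exact mul_mem hh0 hh'
    rw [e]
    exact mul_mem (mul_mem hb (H_le_B D hnH)) (U_le_B D (Un_le_U D n hu))
  · exfalso
    rw [List.concat_eq_append] at e0
    subst e0
    obtain ⟨hi, hpos⟩ := goodW_last D L i hgood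
    have hL : ∀ j ∈ L, j < D.rank := fun j hj => goodW_valid D _ hgood j (List.mem_append_left _ hj)
    have hp := simple_lt D hC i hi
    have hps := posSimple D hD i hi
    have hneg : D.IsNegRoot (wAct D (L ++ [i]) (D.simple i)) := by
      rw [wAct_append]
      have h1 : wAct D [i] (D.simple i) = D.neg (D.simple i) := refl_simple D i
      rw [h1, (conj_word2 (F := F) D hD L hL (D.simple i) hp).2.1]
      exact (sd.neg_iff _ (wAct_lt D hD L hL _ hp)).mp hpos
    have hx : xGL D hD (D.simple i) (1 : F) ∈ Un F D n := by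
      have h1 : n = (h0 * h') * nWordGL D hD (L ++ [i]) := by rw [en, e2, mul_assoc]
      rw [h1]
      exact Vw_le_Un D hD (L ++ [i]) (goodW_valid D _ hgood) (h0 * h') (mul_mem hh0 hh')
        (xGL_mem_Vw D hD _ _ hps hneg 1)
    have hc := conj_charDiag D hD χ hχ g hgχ (D.simple i) hp 1
    have hc' : g * xGL D hD (D.simple i) 1 = xGL D hD (D.simple i) ((χ (D.simple i) : F) * 1) * g := by
      rw [← hc]
      group
    have e3 : b * n * (u * xGL D hD (D.simple i) 1) =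
        (xGL D hD (D.simple i) ((χ (D.simple i) : F) * 1) * b) * n * u := by
      calc b * n * (u * xGL D hD (D.simple i) 1) = g * xGL D hD (D.simple i) 1 := by
            rw [e]
            group
        _ = xGL D hD (D.simple i) ((χ (D.simple i) : F) * 1) * g := hc'
        _ = _ := by
            rw [e]
            group
    have h4 := (bruhat_unique D hD b _ n n _ u hb (mul_mem (U_le_B D (xGL_mem_U D hD _ hps _)) hb) hn hn
      (mul_mem hu hx) hu e3).2 rfl
    have h5 : xGL D hD (D.simple i) (1 : F) = 1 :=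
      mul_left_cancel (h4.2.trans (mul_one u).symm)
    have hne : D.neg (D.simple i) ≠ D.simple i := by
      intro h
      have h6 := (sd.neg_iff _ hp).mp hps
      rw [h] at h6
      exact sd.not_both _ hps h6
    exact xGL_ne_one D hD (D.simple i) hp (neg_lt D hD _ hp) hne 1 one_ne_zero h5

theorem result {F : Type*} [Field F] (D : Cfsg.Lie.ChevalleyDatum) (hD : D ∈ [Cfsg.Lie.chevG2, Cfsg.Lie.chevB2, Cfsg.Lie.chevD4, Cfsg.Lie.chevF4, Cfsg.Lie.chevE6, Cfsg.Lie.chevE7, Cfsg.Lie.chevE8]) (χ : ℕ → Fˣ) (hχ : D.IsRootCharacter χ) (g : GL D.Idx F) (hg : g ∈ D.group F)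
    (hgχ : (g : Matrix D.Idx D.Idx F) = D.charDiag F χ) : g ∈ D.diagonalSubgroup F := by
  have hB := mem_borel D hD χ hχ g hg hgχ
  obtain ⟨u0, hu0, h1, hh1, e⟩ := B_decomp D hD g hB
  obtain ⟨c, hc⟩ := diagonalSubgroup_le_torus D hD hh1
  have hu : u0 = g * h1⁻¹ := by
    rw [e]
    group
  have hval : (u0 : Matrix D.Idx D.Idx F) = D.charDiag F (fun s => χ s * (torusChi D c s)⁻¹) := by
    rw [hu, Units.val_mul, hgχ, inv_val_of_charDiag D h1 _ hc, charDiag_mul]
  have hsh := posUnipotent_le_UL (F := F) D (tri_of_mem D hD) hu0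
  change Sh (bfun D.rank D.nroots) 1 ((u0 : Matrix D.Idx D.Idx F) - 1) at hsh
  have hone : u0 = 1 := by
    apply Units.ext
    ext i j
    by_cases hij : i = j
    · subst hij
      by_contra hne
      have h3 : ((u0 : Matrix D.Idx D.Idx F) - 1) i i ≠ 0 := by
        rw [Matrix.sub_apply]
        exact sub_ne_zero.mpr hne
      have h4 := hsh i i h3
      omega
    · rw [hval, Units.val_one, Matrix.one_apply_ne hij]
      unfold ChevalleyDatum.charDiag
      exact Matrix.diagonal_apply_ne _ hij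
  rw [e, hone, one_mul]
  exact hh1

end Cfsg.Agent.S2158
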