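import Cfsg.Statements.S2160
import Cfsg.Agent.Lib.Helper7.ChevGen

set_option autoImplicit false
open Cfsg

namespace Cfsg.Agent.S2160

open Cfsg.Lie Cfsg.Agent.Lib.Helper7.ChevGen

theorem result {F : Type*} [Field F] [Finite F] (D : Cfsg.Lie.ChevalleyDatum) (hD : D ∈ [Cfsg.Lie.chevG2, Cfsg.Lie.chevB2, Cfsg.Lie.chevD4, Cfsg.Lie.chevF4, Cfsg.Lie.chevE6, Cfsg.Lie.chevE7, Cfsg.Lie.chevE8]) (f g : ↥(D.group F) ≃* ↥(D.group F))
    (hf : D.IsFieldAut f) (hg : D.IsGraphAut g) (y : ↥(D.group F)) : f (g y) = g (f y) := by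
  obtain ⟨σ, hσ⟩ := hf
  obtain ⟨π, -, hπ⟩ := hg
  have hle : Subgroup.closure (simpleGens F D) ≤ D.group F := by
    rw [← group_eq_closure_simple D hD]
  have key : ∀ z : GL D.Idx F, z ∈ Subgroup.closure (simpleGens F D) →
      ∀ hz : z ∈ D.group F, f (g ⟨z, hz⟩) = g (f ⟨z, hz⟩) := by
    intro z hz
    induction hz using Subgroup.closure_induction with
    | mem x hx =>
      intro hz
      obtain ⟨i, t, hi, hx | hx⟩ := hx
      · obtain ⟨h1, -⟩ := neg_simple_lt D hD i hi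
        obtain ⟨h2, -⟩ := neg_simple_lt D hD (π ⟨i, hi⟩).val (π ⟨i, hi⟩).isLt
        have a1 := (hπ ⟨x, hz⟩ ⟨i, hi⟩ t).1 hx
        have a2 := hσ (g ⟨x, hz⟩) _ _ h2 a1
        have b1 := hσ ⟨x, hz⟩ _ t h1 hx
        have b2 := (hπ (f ⟨x, hz⟩) ⟨i, hi⟩ (σ t)).1 b1
        apply Subtype.ext
        apply Units.ext
        rw [a2, b2, map_pow]
      · obtain ⟨-, h1⟩ := neg_simple_lt D hD i hi
        obtain ⟨-, h2⟩ := neg_simple_lt D hD (π ⟨i, hi⟩).val (π ⟨i, hi⟩).isLt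
        have a1 := (hπ ⟨x, hz⟩ ⟨i, hi⟩ t).2 hx
        have a2 := hσ (g ⟨x, hz⟩) _ _ h2 a1
        have b1 := hσ ⟨x, hz⟩ _ t h1 hx
        have b2 := (hπ (f ⟨x, hz⟩) ⟨i, hi⟩ (σ t)).2 b1
        apply Subtype.ext
        apply Units.ext
        rw [a2, b2, map_pow]
    | one =>
      intro hz
      have e : (⟨1, hz⟩ : ↥(D.group F)) = 1 := rfl
      rw [e]
      simp only [map_one]
    | mul a b ha hb iha ihb =>
      intro hz
      have e : (⟨a * b, hz⟩ : ↥(D.group F)) = ⟨a, hle ha⟩ * ⟨b, hle hb⟩ := rfl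
      rw [e, map_mul, map_mul, map_mul, map_mul, iha (hle ha), ihb (hle hb)]
    | inv a ha iha =>
      intro hz
      have e : (⟨a⁻¹, hz⟩ : ↥(D.group F)) = (⟨a, hle ha⟩ : ↥(D.group F))⁻¹ := rfl
      rw [e, map_inv, map_inv, map_inv, map_inv, iha (hle ha)]
  have hy : (y : GL D.Idx F) ∈ Subgroup.closure (simpleGens F D) := by
    rw [← group_eq_closure_simple D hD]
    exact y.2
  exact key y.1 hy y.2

end Cfsg.Agent.S2160
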