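import Cfsg.Statements.S2161
import Cfsg.Agent.Lib.Helper7.GraphData

set_option autoImplicit false
open Cfsg

namespace Cfsg.Agent.S2161

open Cfsg.Lie Cfsg.Agent.Lib.Helper7.ChevPerm Cfsg.Agent.Lib.Helper7.GraphData

instance decSym (D : ChevalleyDatum) (π : Equiv.Perm (Fin D.rank)) : Decidable (D.IsDiagramSymmetry π) := by
  unfold ChevalleyDatum.IsDiagramSymmetry
  infer_instance

theorem symsD4 : ∀ π : Equiv.Perm (Fin chevD4.rank), chevD4.IsDiagramSymmetry π →
    List.ofFn (fun i => (π i).val) ∈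
      [[0, 1, 2, 3], [0, 1, 3, 2], [2, 1, 0, 3], [2, 1, 3, 0], [3, 1, 0, 2], [3, 1, 2, 0]] := by
  decide +kernel

theorem symsE6 : ∀ π : Equiv.Perm (Fin chevE6.rank), chevE6.IsDiagramSymmetry π →
    List.ofFn (fun i => (π i).val) ∈ [[0, 1, 2, 3, 4, 5], [5, 1, 4, 3, 2, 0]] := by
  decide +kernel

theorem val_of_ofFn {n : ℕ} (π : Equiv.Perm (Fin n)) (L : List ℕ)
    (h : List.ofFn (fun i => (π i).val) = L) (i : Fin n) : (π i).val = L.getD i.val 0 := by
  subst h
  simp [List.getD_eq_getElem?_getD]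

/-- For the Chevalley groups of types D₄ and E₆ (one root length) over any field: if `π` is a symmetry of the Dynkin diagram and `φ` is an automorphism sending `x_{p_i}(t)` to `x_{p_{π i}}(t)` and `x_{-p_i}(t)` to `x_{-p_{π i}}(t)` for every fundamental root `p_i`, then for every root `r` there is a sign `ε = ±1` with `φ(x_r(t)) = x_{π·r}(ε t)` for all `t`, where `π·r` is the root whose coefficients are those of `r` permuted by `π`. -/
theorem result {F : Type*} [Field F] (D : Cfsg.Lie.ChevalleyDatum) (hD : D ∈ [Cfsg.Lie.chevD4, Cfsg.Lie.chevE6])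
    (π : Equiv.Perm (Fin D.rank)) (hπ : D.IsDiagramSymmetry π) (φ : ↥(D.group F) ≃* ↥(D.group F))
    (hφ : ∀ (g : ↥(D.group F)) (i : Fin D.rank) (t : F),
      (((g : GL D.Idx F) : Matrix D.Idx D.Idx F) = D.x F (D.simple i) t →
        ((φ g : GL D.Idx F) : Matrix D.Idx D.Idx F) = D.x F (D.simple (π i)) t) ∧
      (((g : GL D.Idx F) : Matrix D.Idx D.Idx F) = D.x F (D.neg (D.simple i)) t →
        ((φ g : GL D.Idx F) : Matrix D.Idx D.Idx F) = D.x F (D.neg (D.simple (π i))) t))
    (r : ℕ) (hr : r < D.nroots) :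
    ∃ ε : F, (ε = 1 ∨ ε = -1) ∧ ∀ (g : ↥(D.group F)) (t : F),
      ((g : GL D.Idx F) : Matrix D.Idx D.Idx F) = D.x F r t →
        ((φ g : GL D.Idx F) : Matrix D.Idx D.Idx F) = D.x F (D.permRoot π r) (ε * t) := by
  simp only [List.mem_cons, List.not_mem_nil, or_false] at hD
  rcases hD with rfl | rfl
  · have hL := symsD4 π hπ
    simp only [List.mem_cons, List.not_mem_nil, or_false] at hL
    rcases hL with h | h | h | h | h | h
    · exact graph_unique chevD4 (by simp) _ _ _ pdD4_0123 π (val_of_ofFn π _ h) φ hφ r hr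
    · exact graph_unique chevD4 (by simp) _ _ _ pdD4_0132 π (val_of_ofFn π _ h) φ hφ r hr
    · exact graph_unique chevD4 (by simp) _ _ _ pdD4_2103 π (val_of_ofFn π _ h) φ hφ r hr
    · exact graph_unique chevD4 (by simp) _ _ _ pdD4_2130 π (val_of_ofFn π _ h) φ hφ r hr
    · exact graph_unique chevD4 (by simp) _ _ _ pdD4_3102 π (val_of_ofFn π _ h) φ hφ r hr
    · exact graph_unique chevD4 (by simp) _ _ _ pdD4_3120 π (val_of_ofFn π _ h) φ hφ r hr
  · have hL := symsE6 π hπ
    simp only [List.mem_cons, List.not_mem_nil, or_false] at hL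
    rcases hL with h | h
    · exact graph_unique chevE6 (by simp) _ _ _ pdE6_012345 π (val_of_ofFn π _ h) φ hφ r hr
    · exact graph_unique chevE6 (by simp) _ _ _ pdE6_514320 π (val_of_ofFn π _ h) φ hφ r hr

end Cfsg.Agent.S2161
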