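import Cfsg.Statements.S2302
import Mathlib

set_option autoImplicit false
open Cfsg

namespace Cfsg.Agent.S2302

theorem exists_sqrt {F : Type*} [Field F] [Fintype F] [CharP F 2] (x : F) : ∃ y : F, y * y = x := by
  have hinj : Function.Injective (frobenius F 2) := frobenius_inj F 2
  have hsurj : Function.Surjective (frobenius F 2) := Finite.surjective_of_injective hinj
  obtain ⟨y, hy⟩ := hsurj x
  exact ⟨y, by rw [← hy, frobenius_def, pow_two]⟩

theorem sq_inj {F : Type*} [Field F] [CharP F 2] {x y : F} (h : x * x = y * y) : x = y := by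
  apply frobenius_inj F 2
  rw [frobenius_def, frobenius_def, pow_two, pow_two, h]

theorem orderOf_conj_eq {G : Type*} [Group G] {x g : G} (h : IsConj x g) : orderOf x = orderOf g := by
  obtain ⟨c, hc⟩ := isConj_iff.mp h
  rw [← hc]
  exact (orderOf_injective (MulAut.conj c).toMonoidHom (MulAut.conj c).injective x).symm

/-- the standard transvection -/
def uMat (F : Type*) [Field F] : Matrix.SpecialLinearGroup (Fin 2) F :=
  ⟨!![1, 1; 0, 1], by simp [Matrix.det_fin_two]⟩

theorem invol_facts {F : Type*} [Field F] [CharP F 2] (g : Matrix.SpecialLinearGroup (Fin 2) F)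
    (hg : orderOf g = 2) :
    g.1 1 1 = g.1 0 0 ∧ g.1 0 0 * g.1 0 0 - g.1 0 1 * g.1 1 0 = 1 ∧ g ≠ 1 := by
  have h2 : g ^ 2 = 1 := by
    have := pow_orderOf_eq_one g
    rwa [hg] at this
  have hinv : g = g⁻¹ := by
    apply eq_inv_of_mul_eq_one_left
    rw [← pow_two]; exact h2
  have hne : g ≠ 1 := by
    intro h
    rw [h, orderOf_one] at hg
    omega
  have h00 : g.1 1 1 = g.1 0 0 := by
    have h3 : (g⁻¹).1 = (g.1).adjugate := Matrix.SpecialLinearGroup.coe_inv g
    have h4 : g.1 1 1 = (g⁻¹).1 1 1 := congrArg (fun x : Matrix.SpecialLinearGroup (Fin 2) F => x.1 1 1) hinv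
    rw [h3, Matrix.adjugate_fin_two] at h4
    simpa using h4
  have hdet := g.det_coe
  rw [Matrix.det_fin_two, h00] at hdet
  exact ⟨h00, hdet, hne⟩

theorem conj_u {F : Type*} [Field F] [Fintype F] [CharP F 2] (g : Matrix.SpecialLinearGroup (Fin 2) F)
    (hg : orderOf g = 2) : IsConj (uMat F) g := by
  obtain ⟨h11, hdet, hne⟩ := invol_facts g hg
  have h2 : (2 : F) = 0 := CharTwo.two_eq_zero
  have hgeta : g.1 = !![g.1 0 0, g.1 0 1; g.1 1 0, g.1 0 0] := by
    conv_lhs => rw [Matrix.eta_fin_two g.1, h11]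
  rw [isConj_iff]
  by_cases hc : g.1 1 0 = 0
  · have ha : g.1 0 0 = 1 := by
      apply sq_inj
      rw [hc] at hdet
      linear_combination hdet
    have hb : g.1 0 1 ≠ 0 := by
      intro hb
      apply hne
      apply Subtype.ext
      rw [hgeta, ha, hb, hc]
      simp [Matrix.one_fin_two]
    obtain ⟨l, hl⟩ := exists_sqrt (g.1 0 1)⁻¹
    have hdetP : (!![l * g.1 0 1, 0; 0, l] : Matrix (Fin 2) (Fin 2) F).det = 1 := by
      rw [Matrix.det_fin_two_of]
      have : l * l * g.1 0 1 = 1 := by rw [hl]; exact inv_mul_cancel₀ hb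
      linear_combination this
    refine ⟨⟨!![l * g.1 0 1, 0; 0, l], hdetP⟩, mul_inv_eq_iff_eq_mul.mpr ?_⟩
    apply Subtype.ext
    show (!![l * g.1 0 1, 0; 0, l] : Matrix (Fin 2) (Fin 2) F) * !![1, 1; 0, 1] = g.1 * !![l * g.1 0 1, 0; 0, l]
    rw [hgeta, ha, hc]
    simp only [Matrix.mul_fin_two, Matrix.of_apply, Matrix.cons_val', Matrix.cons_val_zero,
      Matrix.cons_val_one, Matrix.cons_val_fin_one]
    congr 1
    ext i j
    fin_cases i <;> fin_cases j <;> simp <;> ring
  · obtain ⟨l, hl⟩ := exists_sqrt (g.1 1 0)⁻¹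
    have hdetP : (!![l * (g.1 0 0 + 1), l; l * g.1 1 0, 0] : Matrix (Fin 2) (Fin 2) F).det = 1 := by
      rw [Matrix.det_fin_two_of]
      have : l * l * g.1 1 0 = 1 := by rw [hl]; exact inv_mul_cancel₀ hc
      linear_combination (-1 : F) * this - h2
    refine ⟨⟨!![l * (g.1 0 0 + 1), l; l * g.1 1 0, 0], hdetP⟩, mul_inv_eq_iff_eq_mul.mpr ?_⟩
    apply Subtype.ext
    show (!![l * (g.1 0 0 + 1), l; l * g.1 1 0, 0] : Matrix (Fin 2) (Fin 2) F) * !![1, 1; 0, 1]
      = g.1 * !![l * (g.1 0 0 + 1), l; l * g.1 1 0, 0]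
    rw [hgeta]
    simp only [Matrix.mul_fin_two, Matrix.of_apply, Matrix.cons_val', Matrix.cons_val_zero,
      Matrix.cons_val_one, Matrix.cons_val_fin_one]
    ext i j
    fin_cases i <;> fin_cases j
    · simp
      linear_combination (-l) * hdet - (l * g.1 0 1 * g.1 1 0) * h2
    · simp
      linear_combination l * h2
    · simp
      linear_combination (- g.1 0 0 * l * g.1 1 0) * h2
    · simp
      ring

theorem result {F : Type*} [Field F] [Fintype F] [CharP F 2] (g h : Matrix.SpecialLinearGroup (Fin 2) F) (hg : orderOf g = 2) (hh : orderOf h = 2) :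
    IsConj g h ∧ Nat.card (ConjClasses.mk g).carrier = Fintype.card F ^ 2 - 1 := by
  classical
  refine ⟨(conj_u g hg).symm.trans (conj_u h hh), ?_⟩
  have hset : (ConjClasses.mk g).carrier = {x : Matrix.SpecialLinearGroup (Fin 2) F | orderOf x = 2} := by
    ext x
    rw [ConjClasses.mem_carrier_iff_mk_eq, ConjClasses.mk_eq_mk_iff_isConj, Set.mem_setOf_eq]
    constructor
    · intro hx
      rw [orderOf_conj_eq hx, hg]
    · intro hx
      exact (conj_u x hx).symm.trans (conj_u g hg)
  rw [hset]
  have h2 : (2 : F) = 0 := CharTwo.two_eq_zero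
  have hmap : ∀ x : {x : Matrix.SpecialLinearGroup (Fin 2) F | orderOf x = 2},
      ((x.1.1 0 1, x.1.1 1 0) : F × F) ≠ 0 := by
    intro x hx
    obtain ⟨h11, hdet, hne⟩ := invol_facts x.1 x.2
    have hb : x.1.1 0 1 = 0 := congrArg Prod.fst hx
    have hc : x.1.1 1 0 = 0 := congrArg Prod.snd hx
    have ha : x.1.1 0 0 = 1 := by
      apply sq_inj
      rw [hc] at hdet
      linear_combination hdet
    apply hne
    apply Subtype.ext
    rw [Matrix.eta_fin_two x.1.1, h11, ha, hb, hc]
    simp [Matrix.one_fin_two]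
  let f : {x : Matrix.SpecialLinearGroup (Fin 2) F | orderOf x = 2} → {p : F × F // ¬ (p = 0)} :=
    fun x => ⟨(x.1.1 0 1, x.1.1 1 0), hmap x⟩
  have hf : Function.Bijective f := by
    constructor
    · intro x y hxy
      obtain ⟨h11, hdet, hne⟩ := invol_facts x.1 x.2
      obtain ⟨h11', hdet', hne'⟩ := invol_facts y.1 y.2
      have hxy' : ((x.1.1 0 1, x.1.1 1 0) : F × F) = (y.1.1 0 1, y.1.1 1 0) := congrArg Subtype.val hxy
      have hb : x.1.1 0 1 = y.1.1 0 1 := congrArg Prod.fst hxy'
      have hc : x.1.1 1 0 = y.1.1 1 0 := congrArg Prod.snd hxy'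
      have ha : x.1.1 0 0 = y.1.1 0 0 := by
        apply sq_inj
        rw [hb, hc] at hdet
        linear_combination hdet - hdet'
      apply Subtype.ext
      apply Subtype.ext
      rw [Matrix.eta_fin_two x.1.1, Matrix.eta_fin_two y.1.1, h11, h11', ha, hb, hc]
    · rintro ⟨⟨b, c⟩, hp⟩
      obtain ⟨a, ha⟩ := exists_sqrt (1 + b * c)
      have hdetX : (!![a, b; c, a] : Matrix (Fin 2) (Fin 2) F).det = 1 := by
        rw [Matrix.det_fin_two_of]
        linear_combination ha
      obtain ⟨X, hX⟩ : ∃ X : Matrix.SpecialLinearGroup (Fin 2) F, X.1 = !![a, b; c, a] :=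
        ⟨⟨_, hdetX⟩, rfl⟩
      have hord : orderOf X = 2 := by
        have : Fact (Nat.Prime 2) := ⟨Nat.prime_two⟩
        apply orderOf_eq_prime
        · rw [pow_two]
          apply Subtype.ext
          show X.1 * X.1 = 1
          rw [hX, Matrix.mul_fin_two, Matrix.one_fin_two]
          congr 1
          ext i j
          fin_cases i <;> fin_cases j
          · simp
            linear_combination ha + (b * c) * h2
          · simp
            linear_combination (a * b) * h2
          · simp
            linear_combination (a * c) * h2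
          · simp
            linear_combination ha + (b * c) * h2
        · intro h1
          apply hp
          have h3 : (!![a, b; c, a] : Matrix (Fin 2) (Fin 2) F) = 1 := by
            rw [← hX, h1]; rfl
          have hb : b = 0 := by
            have := congrFun (congrFun h3 0) 1
            simpa using this
          have hc : c = 0 := by
            have := congrFun (congrFun h3 1) 0
            simpa using this
          rw [hb, hc]
          rfl
      refine ⟨⟨X, hord⟩, ?_⟩
      apply Subtype.ext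
      simp [f, hX]
  rw [Nat.card_congr (Equiv.ofBijective f hf), Nat.card_eq_fintype_card, Fintype.card_subtype_compl,
    Fintype.card_subtype_eq, Fintype.card_prod, pow_two]

end Cfsg.Agent.S2302
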