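import Cfsg.Statements.S2303
import Mathlib

set_option autoImplicit false
open Cfsg

namespace Cfsg.Agent.S2303

theorem gl_det_ne_zero {F : Type*} [Field F] (x : Matrix.GeneralLinearGroup (Fin 2) F) :
    (x : Matrix (Fin 2) (Fin 2) F).det ≠ 0 := by
  rw [← Matrix.GeneralLinearGroup.val_det_apply]
  exact Units.ne_zero _

theorem exists_gl {F : Type*} [Field F] (A : Matrix (Fin 2) (Fin 2) F) (h : A.det ≠ 0) :
    ∃ x : Matrix.GeneralLinearGroup (Fin 2) F, (x : Matrix (Fin 2) (Fin 2) F) = A :=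
  ⟨Matrix.GeneralLinearGroup.mkOfDetNeZero A h, rfl⟩

theorem mem_cent_iff {F : Type*} [Field F] (g x : Matrix.GeneralLinearGroup (Fin 2) F) :
    x ∈ Subgroup.centralizer ({g} : Set (Matrix.GeneralLinearGroup (Fin 2) F)) ↔
      (x : Matrix (Fin 2) (Fin 2) F) * (g : Matrix (Fin 2) (Fin 2) F) =
        (g : Matrix (Fin 2) (Fin 2) F) * (x : Matrix (Fin 2) (Fin 2) F) := by
  rw [Subgroup.mem_centralizer_singleton_iff, Units.ext_iff, Units.val_mul, Units.val_mul]

theorem part1 {F : Type*} [Field F] [Fintype F] (g : Matrix.GeneralLinearGroup (Fin 2) F)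
    (h01 : (g : Matrix (Fin 2) (Fin 2) F) 0 1 = 0) (h10 : (g : Matrix (Fin 2) (Fin 2) F) 1 0 = 0)
    (hne : (g : Matrix (Fin 2) (Fin 2) F) 0 0 ≠ (g : Matrix (Fin 2) (Fin 2) F) 1 1) :
    Nat.card (Subgroup.centralizer ({g} : Set (Matrix.GeneralLinearGroup (Fin 2) F))) = (Fintype.card F - 1) ^ 2 := by
  classical
  have hg : (g : Matrix (Fin 2) (Fin 2) F) = !![g.1 0 0, 0; 0, g.1 1 1] := by
    conv_lhs => rw [Matrix.eta_fin_two g.1, h01, h10]
  have hx : ∀ x : Subgroup.centralizer ({g} : Set (Matrix.GeneralLinearGroup (Fin 2) F)),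
      x.1.1 0 1 = 0 ∧ x.1.1 1 0 = 0 ∧ x.1.1 0 0 ≠ 0 ∧ x.1.1 1 1 ≠ 0 := by
    intro x
    have hc := (mem_cent_iff g x.1).mp x.2
    have e01 := congrFun (congrFun hc 0) 1
    have e10 := congrFun (congrFun hc 1) 0
    rw [hg] at e01 e10
    simp only [Matrix.mul_apply, Fin.sum_univ_two, Matrix.of_apply, Matrix.cons_val', Matrix.cons_val_zero,
      Matrix.cons_val_one, Matrix.cons_val_fin_one] at e01 e10
    have hd : g.1 1 1 - g.1 0 0 ≠ 0 := sub_ne_zero.mpr (Ne.symm hne)
    have z01 : x.1.1 0 1 = 0 := by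
      have : x.1.1 0 1 * (g.1 1 1 - g.1 0 0) = 0 := by linear_combination e01
      rcases mul_eq_zero.mp this with h | h
      · exact h
      · exact absurd h hd
    have z10 : x.1.1 1 0 = 0 := by
      have : x.1.1 1 0 * (g.1 1 1 - g.1 0 0) = 0 := by linear_combination -e10
      rcases mul_eq_zero.mp this with h | h
      · exact h
      · exact absurd h hd
    have hdet := gl_det_ne_zero x.1
    rw [Matrix.det_fin_two, z01, z10] at hdet
    refine ⟨z01, z10, ?_, ?_⟩
    · intro h; apply hdet; rw [h]; ring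
    · intro h; apply hdet; rw [h]; ring
  let f : Subgroup.centralizer ({g} : Set (Matrix.GeneralLinearGroup (Fin 2) F)) → Fˣ × Fˣ :=
    fun x => (Units.mk0 (x.1.1 0 0) (hx x).2.2.1, Units.mk0 (x.1.1 1 1) (hx x).2.2.2)
  have hf : Function.Bijective f := by
    constructor
    · intro x y hxy
      have h1 : x.1.1 0 0 = y.1.1 0 0 := congrArg (fun p : Fˣ × Fˣ => (p.1 : F)) hxy
      have h2 : x.1.1 1 1 = y.1.1 1 1 := congrArg (fun p : Fˣ × Fˣ => (p.2 : F)) hxy
      apply Subtype.ext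
      apply Units.ext
      rw [Matrix.eta_fin_two x.1.1, Matrix.eta_fin_two y.1.1, (hx x).1, (hx x).2.1, (hx y).1, (hx y).2.1, h1, h2]
    · rintro ⟨u, v⟩
      have hdet : (!![(u : F), 0; 0, (v : F)] : Matrix (Fin 2) (Fin 2) F).det ≠ 0 := by
        rw [Matrix.det_fin_two_of]
        simp
      obtain ⟨X, hX⟩ := exists_gl _ hdet
      have hXm : X ∈ Subgroup.centralizer ({g} : Set (Matrix.GeneralLinearGroup (Fin 2) F)) := by
        rw [mem_cent_iff, hX, hg, Matrix.mul_fin_two, Matrix.mul_fin_two]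
        congr 1
        ext i j
        fin_cases i <;> fin_cases j <;> simp <;> ring
      refine ⟨⟨X, hXm⟩, ?_⟩
      apply Prod.ext
      · apply Units.ext
        simp [f, hX]
      · apply Units.ext
        simp [f, hX]
  rw [Nat.card_congr (Equiv.ofBijective f hf), Nat.card_prod, Nat.card_units, Nat.card_eq_fintype_card, pow_two]

theorem part2 {F : Type*} [Field F] [Fintype F] (g : Matrix.GeneralLinearGroup (Fin 2) F)
    (hev : ∀ (c : F) (v : Fin 2 → F), v ≠ 0 → (g : Matrix (Fin 2) (Fin 2) F).mulVec v ≠ c • v) :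
    Nat.card (Subgroup.centralizer ({g} : Set (Matrix.GeneralLinearGroup (Fin 2) F))) = Fintype.card F ^ 2 - 1 := by
  classical
  have hc : g.1 1 0 ≠ 0 := by
    intro hc
    apply hev (g.1 0 0) ![1, 0]
    · intro h
      have := congrFun h 0
      simp at this
    · ext i
      fin_cases i <;> simp [Matrix.mulVec, dotProduct, Fin.sum_univ_two, hc]
  have hx : ∀ x : Subgroup.centralizer ({g} : Set (Matrix.GeneralLinearGroup (Fin 2) F)),
      x.1.1 0 1 = g.1 0 1 * x.1.1 1 0 / g.1 1 0 ∧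
      x.1.1 1 1 = x.1.1 0 0 + (g.1 1 1 - g.1 0 0) * x.1.1 1 0 / g.1 1 0 ∧
      ((x.1.1 0 0, x.1.1 1 0) : F × F) ≠ 0 := by
    intro x
    have hcm := (mem_cent_iff g x.1).mp x.2
    have e00 := congrFun (congrFun hcm 0) 0
    have e10 := congrFun (congrFun hcm 1) 0
    simp only [Matrix.mul_apply, Fin.sum_univ_two] at e00 e10
    have z01 : x.1.1 0 1 = g.1 0 1 * x.1.1 1 0 / g.1 1 0 := by
      rw [eq_div_iff hc]
      linear_combination e00
    have z11 : x.1.1 1 1 = x.1.1 0 0 + (g.1 1 1 - g.1 0 0) * x.1.1 1 0 / g.1 1 0 := by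
      field_simp
      linear_combination e10
    refine ⟨z01, z11, ?_⟩
    intro h
    have h1 : x.1.1 0 0 = 0 := congrArg Prod.fst h
    have h2 : x.1.1 1 0 = 0 := congrArg Prod.snd h
    have hdet := gl_det_ne_zero x.1
    rw [Matrix.det_fin_two, h1, h2] at hdet
    apply hdet
    ring
  let f : Subgroup.centralizer ({g} : Set (Matrix.GeneralLinearGroup (Fin 2) F)) → {p : F × F // ¬ (p = 0)} :=
    fun x => ⟨(x.1.1 0 0, x.1.1 1 0), (hx x).2.2⟩
  have hf : Function.Bijective f := by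
    constructor
    · intro x y hxy
      have hxy' : ((x.1.1 0 0, x.1.1 1 0) : F × F) = (y.1.1 0 0, y.1.1 1 0) := congrArg Subtype.val hxy
      have h1 : x.1.1 0 0 = y.1.1 0 0 := congrArg Prod.fst hxy'
      have h2 : x.1.1 1 0 = y.1.1 1 0 := congrArg Prod.snd hxy'
      apply Subtype.ext
      apply Units.ext
      rw [Matrix.eta_fin_two x.1.1, Matrix.eta_fin_two y.1.1, (hx x).1, (hx x).2.1, (hx y).1, (hx y).2.1, h1, h2]
    · rintro ⟨⟨s, t⟩, hp⟩
      have hA : (!![s, g.1 0 1 * t / g.1 1 0; t, s + (g.1 1 1 - g.1 0 0) * t / g.1 1 0] : Matrix (Fin 2) (Fin 2) F)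
          = (s - g.1 0 0 * t / g.1 1 0) • (1 : Matrix (Fin 2) (Fin 2) F) + (t / g.1 1 0) • g.1 := by
        conv_rhs => rw [Matrix.eta_fin_two g.1]
        rw [Matrix.one_fin_two]
        ext i j
        fin_cases i <;> fin_cases j
        · simp
          field_simp
          ring
        · simp
          field_simp
        · simp
          field_simp
        · simp
          field_simp
          ring
      have hdet : (!![s, g.1 0 1 * t / g.1 1 0; t, s + (g.1 1 1 - g.1 0 0) * t / g.1 1 0] : Matrix (Fin 2) (Fin 2) F).det ≠ 0 := by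
        intro hd
        obtain ⟨v, hv, hMv⟩ := Matrix.exists_mulVec_eq_zero_iff.mpr hd
        rw [hA, Matrix.add_mulVec, Matrix.smul_mulVec, Matrix.smul_mulVec, Matrix.one_mulVec] at hMv
        by_cases ht : t = 0
        · have hs : s ≠ 0 := by
            intro hs
            apply hp
            rw [hs, ht]; rfl
          apply hv
          rw [ht] at hMv
          simp only [zero_div, mul_zero, sub_zero, zero_smul, add_zero] at hMv
          exact (smul_eq_zero.mp hMv).resolve_left hs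
        · apply hev (-(s - g.1 0 0 * t / g.1 1 0) / (t / g.1 1 0)) v hv
          have hb : t / g.1 1 0 ≠ 0 := div_ne_zero ht hc
          have h3 : (t / g.1 1 0) • (g.1.mulVec v) = -((s - g.1 0 0 * t / g.1 1 0) • v) := by
            rw [eq_neg_iff_add_eq_zero, add_comm]
            exact hMv
          have h4 : g.1.mulVec v = (t / g.1 1 0)⁻¹ • ((t / g.1 1 0) • (g.1.mulVec v)) := by
            rw [smul_smul, inv_mul_cancel₀ hb, one_smul]
          rw [h4, h3, smul_neg, smul_smul, ← neg_smul]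
          congr 1
          field_simp
      obtain ⟨X, hX⟩ := exists_gl _ hdet
      have hXm : X ∈ Subgroup.centralizer ({g} : Set (Matrix.GeneralLinearGroup (Fin 2) F)) := by
        rw [mem_cent_iff, hX, hA]
        simp only [Matrix.add_mul, Matrix.mul_add, Matrix.smul_mul, Matrix.mul_smul, Matrix.one_mul, Matrix.mul_one]
      refine ⟨⟨X, hXm⟩, ?_⟩
      apply Subtype.ext
      simp [f, hX]
  rw [Nat.card_congr (Equiv.ofBijective f hf), Nat.card_eq_fintype_card, Fintype.card_subtype_compl,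
    Fintype.card_subtype_eq, Fintype.card_prod, pow_two]

theorem result {F : Type*} [Field F] [Fintype F] (g : Matrix.GeneralLinearGroup (Fin 2) F) :
    ((g : Matrix (Fin 2) (Fin 2) F) 0 1 = 0 → (g : Matrix (Fin 2) (Fin 2) F) 1 0 = 0 → (g : Matrix (Fin 2) (Fin 2) F) 0 0 ≠ (g : Matrix (Fin 2) (Fin 2) F) 1 1 →
      Nat.card (Subgroup.centralizer ({g} : Set (Matrix.GeneralLinearGroup (Fin 2) F))) = (Fintype.card F - 1) ^ 2) ∧
    ((∀ (c : F) (v : Fin 2 → F), v ≠ 0 → (g : Matrix (Fin 2) (Fin 2) F).mulVec v ≠ c • v) →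
      Nat.card (Subgroup.centralizer ({g} : Set (Matrix.GeneralLinearGroup (Fin 2) F))) = Fintype.card F ^ 2 - 1) :=
  ⟨part1 g, part2 g⟩

end Cfsg.Agent.S2303
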