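import Cfsg.Statements.S2305
import Cfsg.Agent.Lib.Helper13.GL2Ind
import Mathlib

set_option autoImplicit false
open Cfsg

namespace Cfsg.Agent.S2305

open Cfsg.Agent.Lib.Helper13.GL2Ind

theorem result {F : Type*} [Field F] [Fintype F] [DecidableEq F] (α β α' β' : MulChar F ℂ) :
    Cfsg.indFun (Cfsg.upperTriangularGL 2 F) (fun b => α (((b : Matrix.GeneralLinearGroup (Fin 2) F) : Matrix (Fin 2) (Fin 2) F) 0 0) * β (((b : Matrix.GeneralLinearGroup (Fin 2) F) : Matrix (Fin 2) (Fin 2) F) 1 1)) = Cfsg.indFun (Cfsg.upperTriangularGL 2 F) (fun b => α' (((b : Matrix.GeneralLinearGroup (Fin 2) F) : Matrix (Fin 2) (Fin 2) F) 0 0) * β' (((b : Matrix.GeneralLinearGroup (Fin 2) F) : Matrix (Fin 2) (Fin 2) F) 1 1)) ↔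
      (α = α' ∧ β = β') ∨ (α = β' ∧ β = α') := by
  constructor
  · intro h
    have h1 := classInner_ind α β α' β'
    have h2 := classInner_ind α β α β
    have h3 : Cfsg.indFun (Cfsg.upperTriangularGL 2 F) (theta α β) =
        Cfsg.indFun (Cfsg.upperTriangularGL 2 F) (theta α' β') := h
    rw [← h3] at h1
    have h4 := h1.symm.trans h2
    by_contra hcon
    push Not at hcon
    rw [if_neg (fun hh => hcon.1 hh.1 hh.2), if_neg (fun hh => hcon.2 hh.1 hh.2), if_pos ⟨rfl, rfl⟩] at h4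
    split_ifs at h4 <;> norm_num at h4
  · rintro (⟨h1, h2⟩ | ⟨h1, h2⟩)
    · rw [h1, h2]
    · rw [h1, h2]
      exact ind_swap β' α'

end Cfsg.Agent.S2305
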