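import Cfsg.Statements.S2306
import Cfsg.Agent.Lib.Helper13.SL2Ind
import Mathlib

set_option autoImplicit false
open Cfsg

namespace Cfsg.Agent.S2306

theorem result {F : Type*} [Field F] [Fintype F] [DecidableEq F] (α : MulChar F ℂ) :
    Cfsg.IsIrrCharacter (Matrix.SpecialLinearGroup (Fin 2) F) (Cfsg.indFun ((Cfsg.upperTriangularGL 2 F).comap Matrix.SpecialLinearGroup.toGL) (fun b => α (((b : Matrix.SpecialLinearGroup (Fin 2) F) : Matrix (Fin 2) (Fin 2) F) 0 0))) ↔ α ^ 2 ≠ 1 :=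
  Cfsg.Agent.Lib.Helper13.SL2Ind.indS_irr_iff α

end Cfsg.Agent.S2306
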