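import Cfsg.Statements.S2307
import Cfsg.Agent.Lib.Helper13.SL2Ind
import Mathlib

set_option autoImplicit false
open Cfsg

namespace Cfsg.Agent.S2307

open Cfsg.Agent.Lib.Helper1 Cfsg.Agent.Lib.Helper13.GL2Ind Cfsg.Agent.Lib.Helper13.SL2Ind

theorem result {F : Type*} [Field F] [Fintype F] [DecidableEq F] (hodd : Odd (Fintype.card F)) (α : MulChar F ℂ)
    (hα : α ^ 2 = 1) (hα1 : α ≠ 1) :
    ∃ χ₁ χ₂ : Matrix.SpecialLinearGroup (Fin 2) F → ℂ, Cfsg.IsIrrCharacter (Matrix.SpecialLinearGroup (Fin 2) F) χ₁ ∧ Cfsg.IsIrrCharacter (Matrix.SpecialLinearGroup (Fin 2) F) χ₂ ∧ χ₁ ≠ χ₂ ∧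
      Cfsg.indFun ((Cfsg.upperTriangularGL 2 F).comap Matrix.SpecialLinearGroup.toGL) (fun b => α (((b : Matrix.SpecialLinearGroup (Fin 2) F) : Matrix (Fin 2) (Fin 2) F) 0 0)) = χ₁ + χ₂ ∧
      χ₁ 1 = (((Fintype.card F + 1) / 2 : ℕ) : ℂ) ∧ χ₂ 1 = (((Fintype.card F + 1) / 2 : ℕ) : ℂ) ∧
      ∃ x : Matrix.GeneralLinearGroup (Fin 2) F, ∀ g h : Matrix.SpecialLinearGroup (Fin 2) F,
        Matrix.SpecialLinearGroup.toGL h = x * Matrix.SpecialLinearGroup.toGL g * x⁻¹ → χ₂ h = χ₁ g := by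
  have hnorm : Cfsg.classInner (Cfsg.indFun (BS F) (thetaS α)) (Cfsg.indFun (BS F) (thetaS α)) = 2 := by
    rw [classInner_indS, if_pos rfl, if_pos ((inv_eq_iff_sq α).mpr hα)]
    norm_num
  obtain ⟨χ₁, χ₂, h1, h2, hne, hsum⟩ := char_norm_two (indS_isChar α) hnorm
  have hPi := ind_irr α 1 hα1
  have hres : (fun s : Matrix.SpecialLinearGroup (Fin 2) F =>
      Cfsg.indFun (Cfsg.upperTriangularGL 2 F) (theta α 1) (Matrix.SpecialLinearGroup.toGL s)) = χ₁ + χ₂ := by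
    rw [← hsum]
    funext s
    rw [res_ind, inv_one, mul_one]
  have hc1 : Cfsg.classInner (fun s : Matrix.SpecialLinearGroup (Fin 2) F =>
      Cfsg.indFun (Cfsg.upperTriangularGL 2 F) (theta α 1) (Matrix.SpecialLinearGroup.toGL s)) χ₁ ≠ 0 := by
    rw [hres, classInner_add_left, classInner_irr_self h1, classInner_irr_ne h2 h1 (Ne.symm hne)]
    norm_num
  have hc2 : Cfsg.classInner (fun s : Matrix.SpecialLinearGroup (Fin 2) F =>
      Cfsg.indFun (Cfsg.upperTriangularGL 2 F) (theta α 1) (Matrix.SpecialLinearGroup.toGL s)) χ₂ ≠ 0 := by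
    rw [hres, classInner_add_left, classInner_irr_self h2, classInner_irr_ne h1 h2 hne]
    norm_num
  obtain ⟨x, hx⟩ := conj_constituents hPi h1 h2 hc1 hc2
  have hdeg : χ₂ 1 = χ₁ 1 := hx 1 1 (by rw [map_one]; group)
  have hsum1 : χ₁ 1 + χ₂ 1 = (Fintype.card F : ℂ) + 1 := by
    have e1 := congrFun hsum 1
    rw [indS_one] at e1
    rw [e1]
    rfl
  have hhalf : (2 : ℂ) * (((Fintype.card F + 1) / 2 : ℕ) : ℂ) = (Fintype.card F : ℂ) + 1 := by
    obtain ⟨k, hk⟩ := hodd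
    have e1 : (Fintype.card F + 1) / 2 = k + 1 := by omega
    rw [e1, hk]
    push_cast
    ring
  have hd1 : χ₁ 1 = (((Fintype.card F + 1) / 2 : ℕ) : ℂ) := by
    have e1 : (2 : ℂ) * χ₁ 1 = 2 * (((Fintype.card F + 1) / 2 : ℕ) : ℂ) := by
      rw [hhalf]
      rw [hdeg] at hsum1
      linear_combination hsum1
    exact mul_left_cancel₀ two_ne_zero e1
  exact ⟨χ₁, χ₂, h1, h2, hne, hsum, hd1, hdeg.trans hd1, x, hx⟩

end Cfsg.Agent.S2307
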