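import Cfsg.Statements.S2309
import Cfsg.Agent.Lib.Helper13.GL2Irr
import Mathlib

set_option autoImplicit false
open Cfsg

namespace Cfsg.Agent.S2309

open Cfsg.Agent.Lib.Helper13.GL2Irr Cfsg.Agent.Lib.Helper13.GL2Ind

theorem result {F : Type*} [Field F] [Fintype F] (χ : Matrix.GeneralLinearGroup (Fin 2) F → ℂ) (hχ : Cfsg.IsIrrCharacter (Matrix.GeneralLinearGroup (Fin 2) F) χ) (g : Matrix.GeneralLinearGroup (Fin 2) F) :
    (χ 1 = (Fintype.card F : ℂ) - 1 → (g : Matrix (Fin 2) (Fin 2) F) 0 1 = 0 → (g : Matrix (Fin 2) (Fin 2) F) 1 0 = 0 → (g : Matrix (Fin 2) (Fin 2) F) 0 0 ≠ (g : Matrix (Fin 2) (Fin 2) F) 1 1 → χ g = 0) ∧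
    (χ 1 = (Fintype.card F : ℂ) + 1 → (∀ (c : F) (v : Fin 2 → F), v ≠ 0 → (g : Matrix (Fin 2) (Fin 2) F).mulVec v ≠ c • v) → χ g = 0) := by
  classical
  obtain ⟨hq0, hq1⟩ := card_F_cast_ne (F := F)
  constructor
  · intro h1 h01 h10 hne
    rcases irr_cases hχ with ⟨α, rfl⟩ | ⟨α, rfl⟩ | ⟨α, β, -, rfl⟩ | h
    · exfalso
      rw [detChar_one] at h1
      have hq : Fintype.card F = 2 := by
        have h2 : (Fintype.card F : ℂ) = 2 := by linear_combination -h1
        exact_mod_cast h2
      obtain ⟨a, d, ha, hd, -⟩ := upper_eq_bElt g h10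
      have had : a = d := Fintype.card_le_one_iff.mp (by rw [Fintype.card_units]; omega) a d
      apply hne
      rw [← ha, ← hd, had]
    · exfalso
      rw [st_one] at h1
      have h2 : (1 : ℂ) = 0 := by linear_combination h1
      exact one_ne_zero h2
    · exfalso
      rw [ind_one] at h1
      have h2 : (2 : ℂ) = 0 := by linear_combination h1
      exact two_ne_zero h2
    · exact cusp_diag' h g h10 hne
  · intro h1 hg
    rcases irr_cases hχ with ⟨α, rfl⟩ | ⟨α, rfl⟩ | ⟨α, β, -, rfl⟩ | h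
    · exfalso
      rw [detChar_one] at h1
      apply hq0
      linear_combination -h1
    · exfalso
      rw [st_one] at h1
      have h2 : (1 : ℂ) = 0 := by linear_combination -h1
      exact one_ne_zero h2
    · exact ind_no_eigen α β g hg
    · exfalso
      rw [cusp_deg h] at h1
      have h2 : (2 : ℂ) = 0 := by linear_combination -h1
      exact two_ne_zero h2

end Cfsg.Agent.S2309
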