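import Cfsg.Statements.S2310
import Cfsg.Agent.Lib.Helper13.GL2Irr
import Mathlib

set_option autoImplicit false
open Cfsg

namespace Cfsg.Agent.S2310

open Cfsg.Agent.Lib.Helper13.GL2Irr Cfsg.Agent.Lib.Helper13.GL2Ind

theorem result {F : Type*} [Field F] [Fintype F] (hq : 3 ≤ Fintype.card F) (χ : Matrix.GeneralLinearGroup (Fin 2) F → ℂ) (hχ : Cfsg.IsIrrCharacter (Matrix.GeneralLinearGroup (Fin 2) F) χ)
    (u : Matrix.GeneralLinearGroup (Fin 2) F) (hu : (u : Matrix (Fin 2) (Fin 2) F) = !![1, 1; 0, 1]) :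
    (χ 1 = 1 → χ u = 1) ∧ (χ 1 = (Fintype.card F : ℂ) + 1 → χ u = 1) ∧
    (χ 1 = (Fintype.card F : ℂ) - 1 → χ u = -1) ∧ (χ 1 = (Fintype.card F : ℂ) → χ u = 0) := by
  classical
  obtain ⟨hq0, hq1⟩ := card_F_cast_ne (F := F)
  have hq3 : (Fintype.card F : ℂ) ≠ 2 := by
    intro h
    have h2 : Fintype.card F = 2 := by exact_mod_cast h
    omega
  have hu' : u = (bElt (1 : Fˣ) 1 1 : Matrix.GeneralLinearGroup (Fin 2) F) := by
    apply Units.ext
    rw [hu, bElt_val]
    simp
  rw [hu']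
  refine ⟨?_, ?_, ?_, ?_⟩
  · intro h1
    rcases irr_cases hχ with ⟨α, rfl⟩ | ⟨α, rfl⟩ | ⟨α, β, -, rfl⟩ | h
    · exact detChar_u α
    · exfalso; rw [st_one] at h1; apply hq1; rw [h1]; ring
    · exfalso; rw [ind_one] at h1; apply hq0; linear_combination h1
    · exfalso; rw [cusp_deg h] at h1; apply hq3; linear_combination h1
  · intro h1
    rcases irr_cases hχ with ⟨α, rfl⟩ | ⟨α, rfl⟩ | ⟨α, β, -, rfl⟩ | h
    · exfalso; rw [detChar_one] at h1; apply hq0; linear_combination -h1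
    · exfalso; rw [st_one] at h1
      have h2 : (1 : ℂ) = 0 := by linear_combination -h1
      exact one_ne_zero h2
    · exact ind_u α β
    · exfalso; rw [cusp_deg h] at h1
      have h2 : (2 : ℂ) = 0 := by linear_combination -h1
      exact two_ne_zero h2
  · intro h1
    rcases irr_cases hχ with ⟨α, rfl⟩ | ⟨α, rfl⟩ | ⟨α, β, -, rfl⟩ | h
    · exfalso; rw [detChar_one] at h1; apply hq3; linear_combination -h1
    · exfalso; rw [st_one] at h1
      have h2 : (1 : ℂ) = 0 := by linear_combination h1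
      exact one_ne_zero h2
    · exfalso; rw [ind_one] at h1
      have h2 : (2 : ℂ) = 0 := by linear_combination h1
      exact two_ne_zero h2
    · exact cusp_u_val h
  · intro h1
    rcases irr_cases hχ with ⟨α, rfl⟩ | ⟨α, rfl⟩ | ⟨α, β, -, rfl⟩ | h
    · exfalso; rw [detChar_one] at h1; apply hq1; rw [← h1]; ring
    · exact st_u α
    · exfalso; rw [ind_one] at h1
      have h2 : (1 : ℂ) = 0 := by linear_combination h1
      exact one_ne_zero h2
    · exfalso; rw [cusp_deg h] at h1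
      have h2 : (1 : ℂ) = 0 := by linear_combination -h1
      exact one_ne_zero h2

end Cfsg.Agent.S2310
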