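import Mathlib
import Cfsg.Statements.S2315
import Mathlib
import Cfsg.Agent.Lib.Helper6.NilCount

set_option autoImplicit false
open Cfsg

namespace Cfsg.Agent.S2315

/-- Steinberg's count of unipotent elements for the general linear group: over a finite field with q elements of characteristic p, the number of elements of GL_n of p-power order (the unipotent matrices) is q^(n(n−1)). -/
theorem result {F : Type*} [Field F] [Fintype F] (p : ℕ) [Fact p.Prime] [CharP F p] (n : ℕ) :
    Nat.card {g : Matrix.GeneralLinearGroup (Fin n) F // ∃ k : ℕ, orderOf g = p ^ k} = Fintype.card F ^ (n * (n - 1)) := by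
  classical
  rw [← Cfsg.Agent.Lib.Helper6.NilCount.card_nilpotent_matrix (F := F) n]
  have hp : p.Prime := Fact.out
  rcases Nat.eq_zero_or_pos n with hn0 | hnpos
  · subst hn0
    haveI : Subsingleton (Matrix (Fin 0) (Fin 0) F) := inferInstance
    haveI : Subsingleton (Matrix.GeneralLinearGroup (Fin 0) F) :=
      ⟨fun a b => Units.ext (Subsingleton.elim _ _)⟩
    apply Nat.card_congr
    exact
      { toFun := fun _ => ⟨0, IsNilpotent.zero⟩
        invFun := fun _ => ⟨1, 0, by simp⟩
        left_inv := fun g => Subtype.ext (Subsingleton.elim _ _)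
        right_inv := fun N => Subtype.ext (Subsingleton.elim _ _) }
  · haveI : Nonempty (Fin n) := ⟨⟨0, hnpos⟩⟩
    have hA : ∀ g : Matrix.GeneralLinearGroup (Fin n) F, (∃ k : ℕ, orderOf g = p ^ k) →
        IsNilpotent ((g : Matrix (Fin n) (Fin n) F) - 1) := by
      rintro g ⟨k, hk⟩
      refine ⟨p ^ k, ?_⟩
      have h1 : g ^ (p ^ k) = 1 := by rw [← hk]; exact pow_orderOf_eq_one g
      have h2 : (g : Matrix (Fin n) (Fin n) F) ^ (p ^ k) = 1 := by
        rw [← Units.val_pow_eq_pow_val, h1, Units.val_one]
      rw [sub_pow_char_pow_of_commute p k (Commute.one_right _), h2, one_pow, sub_self]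
    have hB : ∀ (N : Matrix (Fin n) (Fin n) F) (hN : IsNilpotent N),
        ∃ k : ℕ, orderOf (hN.isUnit_one_add.unit) = p ^ k := by
      intro N hN
      obtain ⟨m, hm⟩ := hN
      have hle : m ≤ p ^ m := (Nat.lt_pow_self hp.one_lt).le
      have h0 : N ^ (p ^ m) = 0 := pow_eq_zero_of_le hle hm
      have h1 : (1 + N) ^ (p ^ m) = 1 := by
        rw [add_pow_char_pow_of_commute p m (Commute.one_left N), one_pow, h0, add_zero]
      have h2 : (IsNilpotent.isUnit_one_add ⟨m, hm⟩).unit ^ (p ^ m) = 1 := by
        apply Units.ext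
        rw [Units.val_pow_eq_pow_val, IsUnit.unit_spec, h1, Units.val_one]
      have h3 := orderOf_dvd_of_pow_eq_one h2
      obtain ⟨j, -, hj⟩ := (Nat.dvd_prime_pow hp).mp h3
      exact ⟨j, hj⟩
    apply Nat.card_congr
    exact
      { toFun := fun g => ⟨(g.1 : Matrix (Fin n) (Fin n) F) - 1, hA g.1 g.2⟩
        invFun := fun N => ⟨N.2.isUnit_one_add.unit, hB N.1 N.2⟩
        left_inv := fun g => by
          apply Subtype.ext
          apply Units.ext
          simp [IsUnit.unit_spec]
        right_inv := fun N => by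
          apply Subtype.ext
          simp [IsUnit.unit_spec] }

end Cfsg.Agent.S2315
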