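import Cfsg.Statements.S2317
import Mathlib
import Cfsg.Agent.Lib.Helper14.Nilp4

set_option autoImplicit false
open Cfsg

namespace Cfsg.Agent.S2317

/-- Over a finite field of characteristic p, the conjugacy classes of GL_n consisting of elements of p-power order (the unipotent classes) are as many as the partitions of n. -/
theorem result {F : Type*} [Field F] [Fintype F] (p : ℕ) [Fact p.Prime] [CharP F p] (n : ℕ) :
    Nat.card {C : ConjClasses (Matrix.GeneralLinearGroup (Fin n) F) //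
      ∃ g : Matrix.GeneralLinearGroup (Fin n) F, (∃ k : ℕ, orderOf g = p ^ k) ∧ ConjClasses.mk g = C} =
      Fintype.card (Nat.Partition n) := by
  classical
  have e : {C : ConjClasses (Matrix.GeneralLinearGroup (Fin n) F) //
        ∃ g : Matrix.GeneralLinearGroup (Fin n) F, (∃ k : ℕ, orderOf g = p ^ k) ∧ ConjClasses.mk g = C}
      ≃ {C : ConjClasses (Matrix.GeneralLinearGroup (Fin n) F) //
        ∃ g : Matrix.GeneralLinearGroup (Fin n) F, ConjClasses.mk g = C ∧ (∃ k : ℕ, orderOf g = p ^ k)} :=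
    Equiv.subtypeEquivRight (fun C => ⟨fun ⟨g, h1, h2⟩ => ⟨g, h2, h1⟩, fun ⟨g, h1, h2⟩ => ⟨g, h2, h1⟩⟩)
  rw [Nat.card_congr e, Cfsg.Agent.Lib.Helper14.SSConj.card_classes
    (fun g : Matrix.GeneralLinearGroup (Fin n) F => ∃ k : ℕ, orderOf g = p ^ k)
    (fun g j => Cfsg.Agent.Lib.Helper14.Nilp.mkd ((g : Matrix (Fin n) (Fin n) F) - 1) j)
    (fun t => ∃ l : Multiset ℕ, (∀ a ∈ l, 0 < a) ∧ l.sum = n ∧
      (t = fun j => (l.map (fun a => min a j)).sum) ∧ True),
    Cfsg.Agent.Lib.Helper14.Nilp.card_param n (fun _ => True)]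
  · rw [Nat.card_congr (Equiv.subtypeUnivEquiv (fun _ => trivial)), Nat.card_eq_fintype_card]
  · intro g h hgh
    funext j
    exact Cfsg.Agent.Lib.Helper14.Nilp.mkd_of_isConj g h hgh j
  · intro g h hg hh hc
    exact Cfsg.Agent.Lib.Helper14.Nilp.gl_conj_of_mkd g h
      ((Cfsg.Agent.Lib.Helper14.Nilp.unip_iff p g).mp hg) (fun j => congrFun hc j)
  · intro g hg
    obtain ⟨l, hl, hsum, hkd⟩ := Cfsg.Agent.Lib.Helper14.Nilp.exists_partition_mat _
      ((Cfsg.Agent.Lib.Helper14.Nilp.unip_iff p g).mp hg)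
    exact ⟨l, hl, hsum, funext hkd, trivial⟩
  · rintro t ⟨l, hl, hsum, rfl, -⟩
    obtain ⟨M, hM, hkd⟩ := Cfsg.Agent.Lib.Helper14.Nilp.exists_matrix' (F := F) n l hl hsum
    obtain ⟨g, hg⟩ := Cfsg.Agent.Lib.Helper14.Nilp.exists_gl M hM
    refine ⟨g, ?_, ?_⟩
    · rw [Cfsg.Agent.Lib.Helper14.Nilp.unip_iff p g, hg]
      exact hM
    · funext j
      rw [hg]
      exact hkd j

end Cfsg.Agent.S2317
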