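import Cfsg.Statements.S2320
import Cfsg.Agent.Lib.Helper13.GL2Irr
import Mathlib

set_option autoImplicit false
open Cfsg

namespace Cfsg.Agent.S2320

open Cfsg.Agent.Lib.Helper13.GL2Irr Cfsg.Agent.Lib.Helper13.GL2Ind

theorem norm_mulChar {F : Type*} [Field F] [Fintype F] (α : MulChar F ℂ) (x : F) (hx : x ≠ 0) :
    ‖α x‖ = 1 := by
  have h1 : (α x) ^ (Fintype.card F - 1) = 1 := by
    rw [← map_pow, FiniteField.pow_card_sub_one_eq_one x hx, map_one]
  have h2 : 1 < Fintype.card F := Fintype.one_lt_card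
  exact Complex.norm_eq_one_of_pow_eq_one h1 (by omega)

theorem result {F : Type*} [Field F] [Fintype F] (χ : Matrix.GeneralLinearGroup (Fin 2) F → ℂ) (hχ : Cfsg.IsIrrCharacter (Matrix.GeneralLinearGroup (Fin 2) F) χ) (hdeg : χ 1 = (Fintype.card F : ℂ)) (g : Matrix.GeneralLinearGroup (Fin 2) F) :
    ((g : Matrix (Fin 2) (Fin 2) F) 0 1 = 0 → (g : Matrix (Fin 2) (Fin 2) F) 1 0 = 0 → (g : Matrix (Fin 2) (Fin 2) F) 0 0 ≠ (g : Matrix (Fin 2) (Fin 2) F) 1 1 → ‖χ g‖ = 1) ∧
    ((∀ (c : F) (v : Fin 2 → F), v ≠ 0 → (g : Matrix (Fin 2) (Fin 2) F).mulVec v ≠ c • v) → ‖χ g‖ = 1) := by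
  classical
  obtain ⟨hq0, hq1⟩ := card_F_cast_ne (F := F)
  have hdet : g.1.det ≠ 0 := S2308.gl_det_ne_zero g
  have hst : ∃ α : MulChar F ℂ, χ = st α := by
    rcases irr_cases hχ with ⟨α, rfl⟩ | ⟨α, rfl⟩ | ⟨α, β, -, rfl⟩ | h
    · exfalso; rw [detChar_one] at hdeg; apply hq1; rw [← hdeg]; ring
    · exact ⟨α, rfl⟩
    · exfalso; rw [ind_one] at hdeg
      have h2 : (1 : ℂ) = 0 := by linear_combination hdeg
      exact one_ne_zero h2
    · exfalso; rw [cusp_deg h] at hdeg
      have h2 : (1 : ℂ) = 0 := by linear_combination -hdeg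
      exact one_ne_zero h2
  obtain ⟨α, rfl⟩ := hst
  constructor
  · intro h01 h10 hne
    have hval : st α g = α (g.1.det) := by
      rw [st, Pi.sub_apply, ind_theta_apply, if_pos h01, Finset.sum_eq_single 0]
      · rw [h10, h01]
        simp only [mul_zero, add_zero, sub_zero, if_true]
        show _ = α (g.1.det)
        rw [Matrix.det_fin_two, h01, h10, mul_zero, sub_zero, map_mul]
        show _ + _ - α (g.1.det) = _
        rw [Matrix.det_fin_two, h01, h10, mul_zero, sub_zero, map_mul]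
        ring
      · intro t _ ht
        rw [if_neg]
        intro h
        apply ht
        rw [h10, h01] at h
        simp only [zero_mul, add_zero, zero_add] at h
        have h2 : (g.1 1 1 - g.1 0 0) * t = 0 := by linear_combination h
        rcases mul_eq_zero.mp h2 with h3 | h3
        · exact absurd (sub_eq_zero.mp h3).symm hne
        · exact h3
      · intro h
        exact absurd (Finset.mem_univ _) h
    rw [hval]
    exact norm_mulChar α _ hdet
  · intro hg
    have hval : st α g = - α (g.1.det) := by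
      rw [st, Pi.sub_apply, ind_no_eigen α α g hg, zero_sub]
      rfl
    rw [hval, norm_neg]
    exact norm_mulChar α _ hdet

end Cfsg.Agent.S2320
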