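import Cfsg.Statements.S2321
import Cfsg.Agent.Lib.Helper13.SL2Irr
import Mathlib

set_option autoImplicit false
open Cfsg

namespace Cfsg.Agent.S2321

open Cfsg.Agent.Lib.Helper1 Cfsg.Agent.Lib.Helper13.GL2Ind Cfsg.Agent.Lib.Helper13.GL2Irr
  Cfsg.Agent.Lib.Helper13.SL2Ind Cfsg.Agent.Lib.Helper13.SL2Irr

/-- Over a finite field F with q elements, an irreducible complex character of SL₂ of degree q (the Steinberg character) takes the value 1 at every diagonal matrix whose diagonal entry a has a² ≠ 1, the value −1 at every element with no eigenvector in F², and the value 0 at every upper triangular matrix with equal diagonal entries and non-zero upper right entry. -/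
theorem result {F : Type*} [Field F] [Fintype F] (χ : Matrix.SpecialLinearGroup (Fin 2) F → ℂ) (hχ : Cfsg.IsIrrCharacter (Matrix.SpecialLinearGroup (Fin 2) F) χ) (hdeg : χ 1 = (Fintype.card F : ℂ)) (g : Matrix.SpecialLinearGroup (Fin 2) F) :
    ((g : Matrix (Fin 2) (Fin 2) F) 0 1 = 0 → (g : Matrix (Fin 2) (Fin 2) F) 1 0 = 0 → (g : Matrix (Fin 2) (Fin 2) F) 0 0 ^ 2 ≠ 1 → χ g = 1) ∧
    ((∀ (c : F) (v : Fin 2 → F), v ≠ 0 → (g : Matrix (Fin 2) (Fin 2) F).mulVec v ≠ c • v) → χ g = -1) ∧
    ((g : Matrix (Fin 2) (Fin 2) F) 1 0 = 0 → (g : Matrix (Fin 2) (Fin 2) F) 0 0 = (g : Matrix (Fin 2) (Fin 2) F) 1 1 → (g : Matrix (Fin 2) (Fin 2) F) 0 1 ≠ 0 → χ g = 0) := by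
  classical
  obtain ⟨hq0, hq1⟩ := card_F_cast_ne (F := F)
  have hq2 : 2 ≤ Fintype.card F := Fintype.one_lt_card
  have hst : χ = stS F := by
    rcases irrS_cases hχ with rfl | rfl | ⟨α, -, rfl⟩ | ⟨α, hα1, hα, hne⟩ | hc
    · exfalso
      apply hq1
      rw [← hdeg]
      ring
    · rfl
    · exfalso
      rw [indS_one] at hdeg
      exact one_ne_zero (by linear_combination hdeg)
    · exfalso
      have h2 := half_deg hα1 hα hχ hne
      rw [hdeg] at h2
      apply hq1
      linear_combination h2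
    · exfalso
      have h3 := cuspS_deg_le hc (n := Fintype.card F) hdeg
      omega
  subst hst
  have hval : ∀ g, stS F g = Cfsg.indFun (BS F) (thetaS 1) g - 1 := fun g => rfl
  have hdet := det_eq g
  refine ⟨fun h01 h10 hne => ?_, fun hg => ?_, fun h10 hd h01 => ?_⟩
  · rw [hval, indS_diag 1 g h01 h10 hne]
    rw [h01, zero_mul, sub_zero] at hdet
    rw [MulChar.one_apply (IsUnit.mk0 _ (left_ne_zero_of_mul_eq_one hdet)),
      MulChar.one_apply (IsUnit.mk0 _ (right_ne_zero_of_mul_eq_one hdet))]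
    norm_num
  · rw [hval, indS_no_eigen 1 g hg]
    norm_num
  · rw [hval, indS_unip 1 g h10 hd h01]
    rw [h10, mul_zero, sub_zero] at hdet
    rw [MulChar.one_apply (IsUnit.mk0 _ (left_ne_zero_of_mul_eq_one hdet))]
    norm_num

end Cfsg.Agent.S2321
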