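import Cfsg.Statements.S2322
import Cfsg.Agent.Lib.Helper13.SL2Irr5
import Mathlib

set_option autoImplicit false
open Cfsg

namespace Cfsg.Agent.S2322

open Cfsg.Agent.Lib.Helper1 Cfsg.Agent.Lib.Helper13.GL2Ind Cfsg.Agent.Lib.Helper13.GL2Irr
  Cfsg.Agent.Lib.Helper13.SL2Ind Cfsg.Agent.Lib.Helper13.SL2Irr Cfsg.Agent.Lib.Helper13.SL2Irr2
  Cfsg.Agent.Lib.Helper13.SL2Irr3 Cfsg.Agent.Lib.Helper13.SL2Irr4 Cfsg.Agent.Lib.Helper13.SL2Irr5

/-- Over a finite field F with q elements, q odd: every irreducible complex character of SL₂ of degree q − 1 or (q − 1)/2 vanishes at every diagonal matrix whose diagonal entry a has a² ≠ 1, and every irreducible complex character of degree q + 1 or (q + 1)/2 vanishes at every element with no eigenvector in F². -/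
theorem result {F : Type*} [Field F] [Fintype F] (hodd : Odd (Fintype.card F)) (χ : Matrix.SpecialLinearGroup (Fin 2) F → ℂ) (hχ : Cfsg.IsIrrCharacter (Matrix.SpecialLinearGroup (Fin 2) F) χ) (g : Matrix.SpecialLinearGroup (Fin 2) F) :
    ((χ 1 = (Fintype.card F : ℂ) - 1 ∨ χ 1 = (((Fintype.card F - 1) / 2 : ℕ) : ℂ)) →
      (g : Matrix (Fin 2) (Fin 2) F) 0 1 = 0 → (g : Matrix (Fin 2) (Fin 2) F) 1 0 = 0 → (g : Matrix (Fin 2) (Fin 2) F) 0 0 ^ 2 ≠ 1 → χ g = 0) ∧
    ((χ 1 = (Fintype.card F : ℂ) + 1 ∨ χ 1 = (((Fintype.card F + 1) / 2 : ℕ) : ℂ)) →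
      (∀ (c : F) (v : Fin 2 → F), v ≠ 0 → (g : Matrix (Fin 2) (Fin 2) F).mulVec v ≠ c • v) → χ g = 0) := by
  classical
  have hodd' := hodd
  obtain ⟨k, hk⟩ := hodd
  obtain ⟨c0, c1, c2⟩ := card_casts hk
  have hq2 : 1 < Fintype.card F := Fintype.one_lt_card
  have hk1 : 1 ≤ k := by omega
  constructor
  · intro hd h01 h10 hne
    have hdet := det_eq g
    rw [h01, zero_mul, sub_zero] at hdet
    have hg0 : g.1 0 0 ≠ 0 := left_ne_zero_of_mul_eq_one hdet
    have hvac : k = 1 → False := by
      intro h1
      apply hne
      have h2 := FiniteField.pow_card_sub_one_eq_one (g.1 0 0) hg0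
      rw [hk, h1] at h2
      exact h2
    have hd' : χ 1 = 2 * (k : ℂ) ∨ χ 1 = (k : ℂ) := by
      rcases hd with h | h
      · left
        rw [h, c0]
        ring
      · right
        rw [h, c2]
    rcases cases_odd hk hχ with ⟨-, h⟩ | ⟨-, h⟩ | ⟨-, h⟩ | ⟨-, h⟩ | ⟨e, -⟩ | ⟨e, -⟩
    · exfalso
      rcases hd' with h' | h'
      · exact lin_absurd (k := k) (a := 2) (b := 0) (c := 0) (d := 1)
          (by push_cast; linear_combination h - h') (by omega)
      · apply hvac
        have h3 : ((k : ℕ) : ℂ) = ((1 : ℕ) : ℂ) := by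
          push_cast
          rw [← h', h]
        exact_mod_cast h3
    · exfalso
      rcases hd' with h' | h'
      · exact lin_absurd (k := k) (a := 2) (b := 0) (c := 2) (d := 1)
          (by push_cast; linear_combination h - h') (by omega)
      · exact lin_absurd (k := k) (a := 1) (b := 0) (c := 2) (d := 1)
          (by push_cast; linear_combination h - h') (by omega)
    · exfalso
      rcases hd' with h' | h'
      · exact lin_absurd (k := k) (a := 2) (b := 0) (c := 2) (d := 2)
          (by push_cast; linear_combination h - h') (by omega)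
      · exact lin_absurd (k := k) (a := 1) (b := 0) (c := 2) (d := 2)
          (by push_cast; linear_combination h - h') (by omega)
    · exfalso
      rcases hd' with h' | h'
      · apply hvac
        have h3 : ((2 * k : ℕ) : ℂ) = ((k + 1 : ℕ) : ℂ) := by
          push_cast
          rw [← h', h]
        have h4 : 2 * k = k + 1 := by exact_mod_cast h3
        omega
      · exact lin_absurd (k := k) (a := 1) (b := 0) (c := 1) (d := 1)
          (by push_cast; linear_combination h - h') (by omega)
    · exact cusp_diag_val e g h01 h10 hne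
    · exact cusp_diag_val e g h01 h10 hne
  · intro hd hg
    have hd' : χ 1 = 2 * (k : ℂ) + 2 ∨ χ 1 = (k : ℂ) + 1 := by
      rcases hd with h | h
      · left
        rw [h, c0]
        ring
      · right
        rw [h, c1]
    rcases cases_odd hk hχ with ⟨-, h⟩ | ⟨-, h⟩ | ⟨⟨α, -, rfl⟩, -⟩ | ⟨e, -⟩ | ⟨-, h⟩ | ⟨-, h⟩
    · exfalso
      rcases hd' with h' | h'
      · exact lin_absurd (k := k) (a := 2) (b := 2) (c := 0) (d := 1)
          (by push_cast; linear_combination h - h') (by omega)
      · exact lin_absurd (k := k) (a := 1) (b := 1) (c := 0) (d := 1)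
          (by push_cast; linear_combination h - h') (by omega)
    · exfalso
      rcases hd' with h' | h'
      · exact lin_absurd (k := k) (a := 2) (b := 2) (c := 2) (d := 1)
          (by push_cast; linear_combination h - h') (by omega)
      · exact lin_absurd (k := k) (a := 1) (b := 1) (c := 2) (d := 1)
          (by push_cast; linear_combination h - h') (by omega)
    · exact indS_no_eigen α g hg
    · exact half_vanish hodd' hχ e g hg
    · exfalso
      rcases hd' with h' | h'
      · exact lin_absurd (k := k) (a := 2) (b := 2) (c := 1) (d := 0)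
          (by push_cast; linear_combination h - h') (by omega)
      · exact lin_absurd (k := k) (a := 1) (b := 1) (c := 1) (d := 0)
          (by push_cast; linear_combination h - h') (by omega)
    · rcases hd' with h' | h'
      · exfalso
        exact lin_absurd (k := k) (a := 2) (b := 2) (c := 2) (d := 0)
          (by push_cast; linear_combination h - h') (by omega)
      · have h3 : ((2 * k : ℕ) : ℂ) = ((k + 1 : ℕ) : ℂ) := by
          push_cast
          rw [← h', h]
        have h4 : 2 * k = k + 1 := by exact_mod_cast h3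
        have hk1' : k = 1 := by omega
        have hq3 : Fintype.card F = 3 := by omega
        exact q3_vanish hq3 hχ (by rw [h, hk1']; norm_num) g hg

end Cfsg.Agent.S2322
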