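import Cfsg.Statements.S2323
import Cfsg.Agent.Lib.Helper13.SL2Irr
import Mathlib

set_option autoImplicit false
open Cfsg

namespace Cfsg.Agent.S2323

open Cfsg.Agent.Lib.Helper1 Cfsg.Agent.Lib.Helper13.GL2Ind Cfsg.Agent.Lib.Helper13.GL2Irr
  Cfsg.Agent.Lib.Helper13.SL2Ind Cfsg.Agent.Lib.Helper13.SL2Irr

/-- Over a finite field F with q ≥ 4 elements, let u be the upper unitriangular matrix of SL₂ with off-diagonal entry 1. An irreducible complex character of SL₂ takes at u the value 1 if its degree is q + 1 and the value −1 if its degree is q − 1. -/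
theorem result {F : Type*} [Field F] [Fintype F] (hq : 4 ≤ Fintype.card F) (χ : Matrix.SpecialLinearGroup (Fin 2) F → ℂ) (hχ : Cfsg.IsIrrCharacter (Matrix.SpecialLinearGroup (Fin 2) F) χ)
    (u : Matrix.SpecialLinearGroup (Fin 2) F) (hu : (u : Matrix (Fin 2) (Fin 2) F) = !![1, 1; 0, 1]) :
    (χ 1 = (Fintype.card F : ℂ) + 1 → χ u = 1) ∧ (χ 1 = (Fintype.card F : ℂ) - 1 → χ u = -1) := by
  classical
  obtain ⟨hq0, hq1⟩ := card_F_cast_ne (F := F)
  have hu00 : u.1 0 0 = 1 := by rw [hu]; rfl
  have hu01 : u.1 0 1 = 1 := by rw [hu]; rfl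
  have hu10 : u.1 1 0 = 0 := by rw [hu]; rfl
  have hu11 : u.1 1 1 = 1 := by rw [hu]; rfl
  constructor
  · intro hdeg
    rcases irrS_cases hχ with rfl | rfl | ⟨α, -, rfl⟩ | ⟨α, hα1, hα, hne⟩ | hc
    · exfalso
      have hdeg' : (1 : ℂ) = (Fintype.card F : ℂ) + 1 := hdeg
      apply hq0
      linear_combination -hdeg'
    · exfalso
      rw [stS_one] at hdeg
      exact one_ne_zero (by linear_combination -hdeg)
    · rw [indS_unip α u hu10 (by rw [hu00, hu11]) (by rw [hu01]; exact one_ne_zero), hu00, map_one]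
    · exfalso
      have h2 := half_deg hα1 hα hχ hne
      rw [hdeg] at h2
      have h3 : ((Fintype.card F + 1 : ℕ) : ℂ) = 0 := by
        push_cast
        linear_combination h2
      have h4 : Fintype.card F + 1 = 0 := by exact_mod_cast h3
      omega
    · exfalso
      have h3 := cuspS_deg_le hc (n := Fintype.card F + 1) (by rw [hdeg]; push_cast; rfl)
      omega
  · intro hdeg
    rcases irrS_cases hχ with rfl | rfl | ⟨α, -, rfl⟩ | ⟨α, hα1, hα, hne⟩ | hc
    · exfalso
      have hdeg' : (1 : ℂ) = (Fintype.card F : ℂ) - 1 := hdeg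
      have h3 : (Fintype.card F : ℂ) = 2 := by linear_combination -hdeg'
      have h4 : Fintype.card F = 2 := by exact_mod_cast h3
      omega
    · exfalso
      rw [stS_one] at hdeg
      exact one_ne_zero (by linear_combination hdeg)
    · exfalso
      rw [indS_one] at hdeg
      exact two_ne_zero (α := ℂ) (by linear_combination hdeg)
    · exfalso
      have h2 := half_deg hα1 hα hχ hne
      rw [hdeg] at h2
      have h3 : (Fintype.card F : ℂ) = 3 := by linear_combination h2
      have h4 : Fintype.card F = 3 := by exact_mod_cast h3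
      omega
    · obtain ⟨χ', hc', rfl⟩ := cuspS_full hc hdeg
      show χ' (Matrix.SpecialLinearGroup.toGL u) = -1
      have e : Matrix.SpecialLinearGroup.toGL u =
          (bElt (1 : Fˣ) 1 1 : Matrix.GeneralLinearGroup (Fin 2) F) := by
        apply Units.ext
        rw [bElt_val]
        show u.1 = _
        rw [hu]
        simp
      rw [e, cusp_u_val hc']

end Cfsg.Agent.S2323
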