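import Cfsg.Statements.S2324
import Cfsg.Agent.Lib.Helper13.SL2Irr4
import Cfsg.Agent.S2299
import Mathlib

set_option autoImplicit false
open Cfsg

namespace Cfsg.Agent.S2324

open Cfsg.Agent.Lib.Helper1 Cfsg.Agent.Lib.Helper13.GL2Ind Cfsg.Agent.Lib.Helper13.GL2Irr
  Cfsg.Agent.Lib.Helper13.SL2Ind Cfsg.Agent.Lib.Helper13.SL2Irr Cfsg.Agent.Lib.Helper13.SL2Irr2
  Cfsg.Agent.Lib.Helper13.SL2Irr3 Cfsg.Agent.Lib.Helper13.SL2Irr4

/-- Over a finite field F with q elements, q odd and q ≥ 5, let u be the upper unitriangular matrix of SL₂ with off-diagonal entry 1 and let δ = (−1)^((q−1)/2). Every irreducible complex character χ of SL₂ of degree (q + 1)/2 satisfies (2χ(u) − 1)² = δq, and every irreducible complex character χ of degree (q − 1)/2 satisfies (2χ(u) + 1)² = δq; that is, χ(u) = (1 ± √(δq))/2 in the first case and χ(u) = (−1 ± √(δq))/2 in the second. Moreover two different irreducible characters of degree (q + 1)/2 take the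 two different values (their values at u add up to 1), and likewise for degree (q − 1)/2 (values adding up to −1). -/
theorem result {F : Type*} [Field F] [Fintype F] (hodd : Odd (Fintype.card F)) (hq : 5 ≤ Fintype.card F)
    (u : Matrix.SpecialLinearGroup (Fin 2) F) (hu : (u : Matrix (Fin 2) (Fin 2) F) = !![1, 1; 0, 1]) :
    (∀ χ : Matrix.SpecialLinearGroup (Fin 2) F → ℂ, Cfsg.IsIrrCharacter (Matrix.SpecialLinearGroup (Fin 2) F) χ → χ 1 = (((Fintype.card F + 1) / 2 : ℕ) : ℂ) → (2 * χ u - 1) ^ 2 = (-1 : ℂ) ^ ((Fintype.card F - 1) / 2) * (Fintype.card F : ℂ)) ∧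
    (∀ χ : Matrix.SpecialLinearGroup (Fin 2) F → ℂ, Cfsg.IsIrrCharacter (Matrix.SpecialLinearGroup (Fin 2) F) χ → χ 1 = (((Fintype.card F - 1) / 2 : ℕ) : ℂ) → (2 * χ u + 1) ^ 2 = (-1 : ℂ) ^ ((Fintype.card F - 1) / 2) * (Fintype.card F : ℂ)) ∧
    (∀ χ₁ χ₂ : Matrix.SpecialLinearGroup (Fin 2) F → ℂ, Cfsg.IsIrrCharacter (Matrix.SpecialLinearGroup (Fin 2) F) χ₁ → Cfsg.IsIrrCharacter (Matrix.SpecialLinearGroup (Fin 2) F) χ₂ → χ₁ ≠ χ₂ →
      χ₁ 1 = (((Fintype.card F + 1) / 2 : ℕ) : ℂ) → χ₂ 1 = (((Fintype.card F + 1) / 2 : ℕ) : ℂ) → χ₁ u + χ₂ u = 1) ∧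
    (∀ χ₁ χ₂ : Matrix.SpecialLinearGroup (Fin 2) F → ℂ, Cfsg.IsIrrCharacter (Matrix.SpecialLinearGroup (Fin 2) F) χ₁ → Cfsg.IsIrrCharacter (Matrix.SpecialLinearGroup (Fin 2) F) χ₂ → χ₁ ≠ χ₂ →
      χ₁ 1 = (((Fintype.card F - 1) / 2 : ℕ) : ℂ) → χ₂ 1 = (((Fintype.card F - 1) / 2 : ℕ) : ℂ) → χ₁ u + χ₂ u = -1) := by
  classical
  have hodd' := hodd
  obtain ⟨k, hk⟩ := hodd
  obtain ⟨c0, c1, c2⟩ := card_casts hk
  obtain ⟨hq0, hq1⟩ := card_F_cast_ne (F := F)
  have hF := ringChar_ne_two_of_odd hodd'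
  have hk2 : 2 ≤ k := by omega
  have hkk : (Fintype.card F - 1) / 2 = k := by omega
  have hk0 : (k : ℂ) ≠ 0 := by
    have : k ≠ 0 := by omega
    exact_mod_cast this
  have hu00 : u.1 0 0 = 1 := by rw [hu]; rfl
  have hu01 : u.1 0 1 = 1 := by rw [hu]; rfl
  have hu10 : u.1 1 0 = 0 := by rw [hu]; rfl
  have hu11 : u.1 1 1 = 1 := by rw [hu]; rfl
  have hue : u = ((bS (1 : Fˣ) 1 : ↥(BS F)) : Matrix.SpecialLinearGroup (Fin 2) F) := by
    apply Subtype.ext
    rw [hu, bS_val]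
    simp
  have hhalf : ∀ χ : Matrix.SpecialLinearGroup (Fin 2) F → ℂ,
      Cfsg.IsIrrCharacter (Matrix.SpecialLinearGroup (Fin 2) F) χ →
      χ 1 = (((Fintype.card F + 1) / 2 : ℕ) : ℂ) →
      Cfsg.classInner (Cfsg.indFun (BS F) (thetaS (epsC F))) χ ≠ 0 := by
    intro χ hχ hd
    rw [c1] at hd
    rcases cases_odd hk hχ with ⟨-, h⟩ | ⟨-, h⟩ | ⟨-, h⟩ | ⟨e, -⟩ | ⟨-, h⟩ | ⟨-, h⟩
    · exact (lin_absurd (k := k) (a := 1) (b := 1) (c := 0) (d := 1)
        (by push_cast; linear_combination h - hd) (by omega)).elim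
    · exact (lin_absurd (k := k) (a := 1) (b := 1) (c := 2) (d := 1)
        (by push_cast; linear_combination h - hd) (by omega)).elim
    · exact (lin_absurd (k := k) (a := 1) (b := 1) (c := 2) (d := 2)
        (by push_cast; linear_combination h - hd) (by omega)).elim
    · exact e
    · exact (lin_absurd (k := k) (a := 1) (b := 1) (c := 1) (d := 0)
        (by push_cast; linear_combination h - hd) (by omega)).elim
    · exact (lin_absurd (k := k) (a := 1) (b := 1) (c := 2) (d := 0)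
        (by push_cast; linear_combination h - hd) (by omega)).elim
  have hcusp : ∀ χ : Matrix.SpecialLinearGroup (Fin 2) F → ℂ,
      Cfsg.IsIrrCharacter (Matrix.SpecialLinearGroup (Fin 2) F) χ →
      χ 1 = (((Fintype.card F - 1) / 2 : ℕ) : ℂ) → IsCuspS χ ∧ χ 1 = (k : ℂ) := by
    intro χ hχ hd
    rw [c2] at hd
    rcases cases_odd hk hχ with ⟨-, h⟩ | ⟨-, h⟩ | ⟨-, h⟩ | ⟨-, h⟩ | ⟨e, h⟩ | ⟨-, h⟩
    · exact (lin_absurd (k := k) (a := 1) (b := 0) (c := 0) (d := 1)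
        (by push_cast; linear_combination h - hd) (by omega)).elim
    · exact (lin_absurd (k := k) (a := 1) (b := 0) (c := 2) (d := 1)
        (by push_cast; linear_combination h - hd) (by omega)).elim
    · exact (lin_absurd (k := k) (a := 1) (b := 0) (c := 2) (d := 2)
        (by push_cast; linear_combination h - hd) (by omega)).elim
    · exact (lin_absurd (k := k) (a := 1) (b := 0) (c := 1) (d := 1)
        (by push_cast; linear_combination h - hd) (by omega)).elim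
    · exact ⟨e, h⟩
    · exact (lin_absurd (k := k) (a := 1) (b := 0) (c := 2) (d := 0)
        (by push_cast; linear_combination h - hd) (by omega)).elim
  have part2 : ∀ χ : Matrix.SpecialLinearGroup (Fin 2) F → ℂ,
      Cfsg.IsIrrCharacter (Matrix.SpecialLinearGroup (Fin 2) F) χ →
      χ 1 = (((Fintype.card F - 1) / 2 : ℕ) : ℂ) →
      (2 * χ u + 1) ^ 2 = (-1 : ℂ) ^ ((Fintype.card F - 1) / 2) * (Fintype.card F : ℂ) := by
    intro χ hχ hd
    obtain ⟨hc, hdk⟩ := hcusp χ hχ hd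
    rw [hue, hkk]
    exact cusp_half_u hk hc hdk
  refine ⟨?_, part2, ?_, ?_⟩
  · intro χ hχ hd
    rw [hue, hkk]
    exact half_u hk hχ (hhalf χ hχ hd)
  · intro ψ₁ ψ₂ h1 h2 hne hd1 hd2
    obtain ⟨χ₁, χ₂, i1, i2, hne12, hsum, -⟩ := half_decomp (epsC F) epsC_sq (epsC_ne_one hF)
    have hval : χ₁ u + χ₂ u = 1 := by
      have h3 := congrFun hsum u
      rw [indS_unip (epsC F) u hu10 (by rw [hu00, hu11]) (by rw [hu01]; exact one_ne_zero), hu00,
        map_one] at h3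
      exact h3.symm
    rcases half_mem i1 i2 hsum h1 (hhalf _ h1 hd1) with rfl | rfl <;>
      rcases half_mem i1 i2 hsum h2 (hhalf _ h2 hd2) with rfl | rfl
    · exact absurd rfl hne
    · exact hval
    · rw [add_comm]
      exact hval
    · exact absurd rfl hne
  · intro ψ₁ ψ₂ h1 h2 hne hd1 hd2
    obtain ⟨hc1, hk1⟩ := hcusp ψ₁ h1 hd1
    obtain ⟨χ, hχ, hne'⟩ := exists_GL_over h1
    have hcχ := cuspS_over hc1 hχ hne'
    obtain ⟨Φ, hΦdef⟩ : ∃ Φ : Matrix.SpecialLinearGroup (Fin 2) F → ℂ,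
        Φ = fun s : Matrix.SpecialLinearGroup (Fin 2) F => χ (Matrix.SpecialLinearGroup.toGL s) :=
      ⟨_, rfl⟩
    rw [← hΦdef] at hne'
    have hΦ : Cfsg.IsCharacter (Matrix.SpecialLinearGroup (Fin 2) F) Φ := by
      rw [hΦdef]
      exact res_isChar (IsIrrCharacter.isCharacter hχ)
    have hΦ1 : Φ 1 = 2 * (k : ℂ) := by
      rw [hΦdef]
      show χ (Matrix.SpecialLinearGroup.toGL 1) = _
      rw [map_one, cusp_deg hcχ, c0]
      ring
    have hη := sub_irr_isChar' hΦ h1 hne'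
    have hη1 : (Φ - ψ₁) 1 = (k : ℂ) := by
      rw [Pi.sub_apply, hΦ1, hk1]
      ring
    obtain ⟨φ, hφ, hφne⟩ := exists_irr_constituent hη (by rw [hη1]; exact hk0)
    have hΦφ : Cfsg.classInner Φ φ ≠ 0 := by
      intro h0
      rw [classInner_sub_left, h0, zero_sub, classInner_irr h1 hφ] at hφne
      by_cases e : ψ₁ = φ
      · rw [← e] at h0
        exact hne' h0
      · rw [if_neg e] at hφne
        simp at hφne
    obtain ⟨x, hx⟩ := conj_constituents hχ h1 hφ (by rw [← hΦdef]; exact hne')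
      (by rw [← hΦdef]; exact hΦφ)
    have hφ1 : φ 1 = ψ₁ 1 := hx 1 1 (by rw [map_one]; group)
    have hηφ : Φ - ψ₁ = φ := eq_of_constituent_deg hη hφ hφne (by rw [hη1, hφ1, hk1])
    have hΦu : Φ u = -1 := by
      rw [hΦdef]
      show χ (Matrix.SpecialLinearGroup.toGL u) = -1
      have e : Matrix.SpecialLinearGroup.toGL u =
          (bElt (1 : Fˣ) 1 1 : Matrix.GeneralLinearGroup (Fin 2) F) := by
        apply Units.ext
        rw [bElt_val]
        show u.1 = _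
        rw [hu]
        simp
      rw [e, cusp_u_val hcχ]
    have hsumu : ψ₁ u + φ u = -1 := by
      rw [← hηφ, Pi.sub_apply, hΦu]
      ring
    have hφψ : φ ≠ ψ₁ := by
      intro e
      rw [e] at hsumu
      have h2' := part2 ψ₁ h1 hd1
      have h3 : (2 * ψ₁ u + 1) = 0 := by linear_combination hsumu
      rw [h3] at h2'
      have h4 : ((-1 : ℂ) ^ ((Fintype.card F - 1) / 2) * (Fintype.card F : ℂ)) ≠ 0 :=
        mul_ne_zero (pow_ne_zero _ (by norm_num)) hq0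
      exact h4 (by rw [← h2']; ring)
    have hcount := (Cfsg.Agent.S2299.result hodd').2 hq
    have hN := hcount.2.2.2.2.2
    have hφd : φ 1 = (((Fintype.card F - 1) / 2 : ℕ) : ℂ) := by rw [hφ1, hd1]
    rcases card_two_pigeon hN ⟨⟨ψ₁, h1⟩, hd1⟩ ⟨⟨ψ₂, h2⟩, hd2⟩ ⟨⟨φ, hφ⟩, hφd⟩ with e | e | e
    · exact absurd (congrArg (fun x => x.1.1) e) hne
    · exact absurd (congrArg (fun x => x.1.1) e).symm hφψ
    · have e2 : ψ₂ = φ := congrArg (fun x => x.1.1) e
      rw [e2]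
      exact hsumu

end Cfsg.Agent.S2324
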