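import Cfsg.Statements.S2326
import Cfsg.Agent.Lib.Helper7.ChevOrder
import Cfsg.Agent.S1035

set_option autoImplicit false
open Cfsg

namespace Cfsg.Agent.S2326

open Cfsg.Lie Cfsg.Agent.Lib.Helper7.PoinAbs Cfsg.Agent.Lib.Helper7.ChevWGrp Cfsg.Agent.Lib.Helper7.ChevOrder
  Cfsg.Agent.Lib.Helper7.ChevCell Cfsg.Agent.Lib.Helper7.ChevBN3

theorem card_H_dvd {F : Type*} [Field F] [Fintype F] (D : ChevalleyDatum)
    (hD : D ∈ [chevG2, chevB2, chevD4, chevF4, chevE6, chevE7, chevE8]) :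
    Nat.card (D.diagonalSubgroup F) ∣ (Fintype.card F - 1) ^ D.rank := by
  simp only [List.mem_cons, List.not_mem_nil, or_false] at hD
  rcases hD with rfl | rfl | rfl | rfl | rfl | rfl | rfl
  · exact Dvd.intro_left _ Cfsg.Agent.S1035.cdG2
  · exact Dvd.intro_left _ Cfsg.Agent.S1035.cdB2
  · exact Dvd.intro_left _ Cfsg.Agent.S1035.cdD4
  · exact Dvd.intro_left _ Cfsg.Agent.S1035.cdF4
  · exact Dvd.intro_left _ Cfsg.Agent.S1035.cdE6
  · exact Dvd.intro_left _ Cfsg.Agent.S1035.cdE7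
  · exact Dvd.intro_left _ Cfsg.Agent.S1035.cdE8

theorem result {F : Type*} [Field F] [Fintype F] (p : ℕ) [Fact p.Prime] [CharP F p] (D : Cfsg.Lie.ChevalleyDatum) (hD : D ∈ [Cfsg.Lie.chevG2, Cfsg.Lie.chevB2, Cfsg.Lie.chevD4, Cfsg.Lie.chevF4, Cfsg.Lie.chevE6, Cfsg.Lie.chevE7, Cfsg.Lie.chevE8]) :
    ∃ P : Sylow p ↥(D.group F), (P : Subgroup ↥(D.group F)) = (D.posUnipotent F).subgroupOf (D.group F) := by
  classical
  have hp : p.Prime := Fact.out
  obtain ⟨k, -, hq⟩ := FiniteField.card F p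
  haveI : Fintype ↥(Wg D hD) := Fintype.ofFinite _
  obtain ⟨hBG, -, -⟩ := Cfsg.Agent.S1043.result (F := F) D hD
  have hUG : D.posUnipotent F ≤ D.group F := le_trans (U_le_B D) hBG
  have hcU : Nat.card ↥((D.posUnipotent F).subgroupOf (D.group F)) = Fintype.card F ^ (D.nroots / 2) := by
    rw [Nat.card_congr (Subgroup.subgroupOfEquivOfLe hUG).toEquiv, card_posUnipotent D hD]
  have hpq : p ∣ Fintype.card F := by
    rw [hq]
    exact dvd_pow_self p k.pos.ne'
  have hP1 : IsPGroup p ↥((D.posUnipotent F).subgroupOf (D.group F)) := by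
    apply IsPGroup.of_card (n := (k : ℕ) * (D.nroots / 2))
    rw [hcU, hq, pow_mul]
  have hidx : ((D.posUnipotent F).subgroupOf (D.group F)).index =
      Nat.card (D.diagonalSubgroup F) *
        ∑ σ : ↥(Wg D hD), Fintype.card F ^ Nv (sgn D hD) (σ : Equiv.Perm (Fin D.nroots)) := by
    have h1 := Subgroup.card_mul_index ((D.posUnipotent F).subgroupOf (D.group F))
    rw [hcU, card_group D hD, card_borel D hD, card_posUnipotent D hD, mul_assoc] at h1
    exact Nat.eq_of_mul_eq_mul_left (pow_pos Fintype.card_pos _) h1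
  have hW : ¬ p ∣ ∑ σ : ↥(Wg D hD), Fintype.card F ^ Nv (sgn D hD) (σ : Equiv.Perm (Fin D.nroots)) := by
    intro hdvd
    rw [← Finset.add_sum_erase Finset.univ _ (Finset.mem_univ (1 : ↥(Wg D hD)))] at hdvd
    have h2 : p ∣ ∑ σ ∈ Finset.univ.erase (1 : ↥(Wg D hD)),
        Fintype.card F ^ Nv (sgn D hD) (σ : Equiv.Perm (Fin D.nroots)) := by
      apply Finset.dvd_sum
      intro σ hσ
      have hne : σ ≠ 1 := Finset.ne_of_mem_erase hσ
      have hN : Nv (sgn D hD) (σ : Equiv.Perm (Fin D.nroots)) ≠ 0 := by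
        intro h0
        apply hne
        apply Subtype.ext
        exact Nv_eq_zero D hD _ σ.2 h0
      exact dvd_trans hpq (dvd_pow_self _ hN)
    have h3 := (Nat.dvd_add_left h2).mp hdvd
    have h4 : Nv (sgn D hD) ((1 : ↥(Wg D hD)) : Equiv.Perm (Fin D.nroots)) = 0 := Nv_one _
    rw [h4, pow_zero] at h3
    exact hp.one_lt.ne' (Nat.dvd_one.mp h3)
  have hH : ¬ p ∣ Nat.card (D.diagonalSubgroup F) := by
    intro hdvd
    have h1 := hp.dvd_of_dvd_pow (dvd_trans hdvd (card_H_dvd D hD))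
    have h2 : p ∣ 1 := by
      have h3 : Fintype.card F - 1 + 1 = Fintype.card F := Nat.sub_add_cancel Fintype.card_pos
      have h4 : p ∣ Fintype.card F - 1 + 1 := by rw [h3]; exact hpq
      exact (Nat.dvd_add_right h1).mp h4
    exact hp.one_lt.ne' (Nat.dvd_one.mp h2)
  have hP2 : ¬ p ∣ ((D.posUnipotent F).subgroupOf (D.group F)).index := by
    rw [hidx]
    intro hdvd
    rcases hp.dvd_mul.mp hdvd with h | h
    · exact hH h
    · exact hW h
  exact ⟨hP1.toSylow hP2, rfl⟩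

end Cfsg.Agent.S2326
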