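import Cfsg.Statements.S2329
import Mathlib

set_option autoImplicit false
open Cfsg

namespace Cfsg.Agent.S2329

theorem nil_pow {F : Type*} [Field F] {m : ℕ} (N : Matrix (Fin m) (Fin m) F) (h : IsNilpotent N) :
    N ^ m = 0 := by
  have h1 := Matrix.isNilpotent_charpoly_sub_pow_of_isNilpotent h
  have h2 : N.charpoly = Polynomial.X ^ Fintype.card (Fin m) := sub_eq_zero.mp h1.eq_zero
  have h3 := Matrix.aeval_self_charpoly N
  rw [h2] at h3
  simpa using h3

noncomputable def J (F : Type*) [Field F] : Matrix.GeneralLinearGroup (Fin 2) F :=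
  Matrix.GeneralLinearGroup.mkOfDetNeZero !![1, 1; 0, 1] (by simp [Matrix.det_fin_two])

theorem conjJ {F : Type*} [Field F] (p : ℕ) [Fact p.Prime] [CharP F p]
    (g : Matrix.GeneralLinearGroup (Fin 2) F) (hg : orderOf g = p) : IsConj (J F) g := by
  have hp : p.Prime := Fact.out
  have : CharP (Matrix (Fin 2) (Fin 2) F) p := Matrix.charP p
  set A : Matrix (Fin 2) (Fin 2) F := (g : Matrix (Fin 2) (Fin 2) F) with hA
  have h1 : A ^ p = 1 := by
    have := pow_orderOf_eq_one g
    rw [hg] at this
    have h2 := congrArg (fun u : Matrix.GeneralLinearGroup (Fin 2) F => (u : Matrix (Fin 2) (Fin 2) F)) this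
    simpa using h2
  have h2 : IsNilpotent (A - 1) := by
    refine ⟨p, ?_⟩
    have := sub_pow_char_pow_of_commute p 1 (Commute.one_right A)
    rw [pow_one] at this
    rw [this, one_pow, h1, sub_self]
  have h3 : (A - 1) ^ 2 = 0 := nil_pow _ h2
  have hne : A ≠ 1 := by
    intro h
    have : g = 1 := Units.ext (by simpa [hA] using h)
    rw [this, orderOf_one] at hg
    exact hp.one_lt.ne hg
  have e00 := congrFun (congrFun h3 0) 0
  have e01 := congrFun (congrFun h3 0) 1
  have e10 := congrFun (congrFun h3 1) 0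
  have e11 := congrFun (congrFun h3 1) 1
  simp only [pow_two, Matrix.mul_apply, Fin.sum_univ_two, Matrix.sub_apply, Matrix.one_apply_eq,
    Matrix.zero_apply] at e00 e01 e10 e11
  simp only [Matrix.one_apply_ne (show (0 : Fin 2) ≠ 1 by decide),
    Matrix.one_apply_ne (show (1 : Fin 2) ≠ 0 by decide), sub_zero] at e00 e01 e10 e11
  rw [isConj_iff]
  by_cases hb : A 0 1 = 0
  · have ha : A 0 0 = 1 := by
      rw [hb] at e00
      have : (A 0 0 - 1) * (A 0 0 - 1) = 0 := by simpa using e00
      have := mul_self_eq_zero.mp this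
      exact sub_eq_zero.mp this
    have hd : A 1 1 = 1 := by
      rw [hb] at e11
      have : (A 1 1 - 1) * (A 1 1 - 1) = 0 := by simpa using e11
      have := mul_self_eq_zero.mp this
      exact sub_eq_zero.mp this
    have hc : A 1 0 ≠ 0 := by
      intro hc
      apply hne
      ext i j
      fin_cases i <;> fin_cases j <;> simp [ha, hd, hb, hc]
    refine ⟨Matrix.GeneralLinearGroup.mkOfDetNeZero !![0, 1; A 1 0, 0] (by simp [Matrix.det_fin_two, hc]), ?_⟩
    rw [mul_inv_eq_iff_eq_mul]
    apply Units.ext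
    ext i j
    fin_cases i <;> fin_cases j <;>
      simp [J, Matrix.mul_apply, Fin.sum_univ_two, ← hA, ha, hd, hb]
  · refine ⟨Matrix.GeneralLinearGroup.mkOfDetNeZero !![A 0 1, 0; A 1 1 - 1, 1] (by simp [Matrix.det_fin_two, hb]), ?_⟩
    rw [mul_inv_eq_iff_eq_mul]
    apply Units.ext
    ext i j
    fin_cases i <;> fin_cases j <;>
      simp [J, Matrix.mul_apply, Fin.sum_univ_two, ← hA]
    · linear_combination -e01
    · linear_combination -e11

theorem result {F : Type*} [Field F] [Fintype F] (p : ℕ) [Fact p.Prime] [CharP F p] (g h : Matrix.GeneralLinearGroup (Fin 2) F)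
    (hg : orderOf g = p) (hh : orderOf h = p) : IsConj g h :=
  (conjJ p g hg).symm.trans (conjJ p h hh)

end Cfsg.Agent.S2329
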