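import Cfsg.Statements.S2364
import Mathlib
import Cfsg.Agent.S0242

set_option autoImplicit false
open Cfsg

namespace Cfsg.Agent.S2364

section linalg

set_option linter.unusedSectionVars false

variable {F : Type*} [Field F] [Fintype F] {V : Type*} [AddCommGroup V] [Module F V] [Fintype V]

theorem count_lemma (C : Module.End F V) (r : ℕ) [Fact r.Prime] (hC : C ^ r = 1)
    (W : Submodule F V) (hW : ∀ w ∈ W, C w ∈ W) (hfix : ∀ w ∈ W, C w = w → w = 0) :
    r ∣ Fintype.card F ^ Module.finrank F W - 1 := by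
  classical
  let f : Function.End W := fun w => ⟨C w, hW w w.2⟩
  have hpow : ∀ k : ℕ, ∀ w : W, ((f ^ k) w : V) = (C ^ k) w := by
    intro k
    induction k with
    | zero => intro w; rfl
    | succ k ih =>
      intro w
      rw [pow_succ', pow_succ']
      show C ((f ^ k) w : V) = C ((C ^ k) w)
      rw [ih]
  have hf : f ^ r ^ 1 = 1 := by
    rw [pow_one]
    funext w
    apply Subtype.ext
    rw [hpow, hC]
    rfl
  have h1 := Equiv.Perm.card_fixedPoints_modEq (p := r) (n := 1) hf
  have h2 : Fintype.card (Function.fixedPoints f) = 1 := by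
    rw [Fintype.card_eq_one_iff]
    refine ⟨⟨0, ?_⟩, ?_⟩
    · show f 0 = 0
      apply Subtype.ext
      show C ((0 : W) : V) = ((0 : W) : V)
      simp
    · rintro ⟨w, hw⟩
      apply Subtype.ext
      apply Subtype.ext
      exact hfix w w.2 (congrArg Subtype.val hw)
  rw [h2, Module.card_eq_pow_finrank (K := F) (V := W)] at h1
  exact (Nat.modEq_iff_dvd' (Nat.one_le_pow _ _ Fintype.card_pos)).mp h1.symm

theorem nil_lemma (N : Module.End F V) {k : ℕ} (hN : N ^ k = 0) (U : Submodule F V)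
    (hU : ∀ u ∈ U, N u ∈ U) (hne : ∃ u ∈ U, N u ≠ 0) :
    1 ≤ Module.finrank F (U.map N) ∧ Module.finrank F (U.map N) < Module.finrank F U := by
  constructor
  · obtain ⟨u, hu, hNu⟩ := hne
    have : U.map N ≠ ⊥ := fun h =>
      hNu ((Submodule.eq_bot_iff _).mp h _ (Submodule.mem_map_of_mem hu))
    exact Submodule.one_le_finrank_iff.mpr this
  · apply Submodule.finrank_lt_finrank_of_lt
    refine lt_of_le_of_ne ?_ ?_
    · rintro _ ⟨u, hu, rfl⟩
      exact hU u hu
    · intro heq
      have hall : ∀ j : ℕ, U.map (N ^ j) = U := by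
        intro j
        induction j with
        | zero =>
          rw [pow_zero]
          exact Submodule.map_id U
        | succ j ih =>
          rw [pow_succ', Module.End.mul_eq_comp, Submodule.map_comp, ih, heq]
      have h0 := hall k
      rw [hN] at h0
      obtain ⟨u, hu, hNu⟩ := hne
      apply hNu
      have hbot : U = ⊥ := by
        rw [← h0]
        exact Submodule.map_zero _
      rw [hbot] at hu
      rw [(Submodule.mem_bot F).mp hu, map_zero]

theorem core {p : ℕ} [Fact p.Prime] [CharP F p] (C N : Module.End F V) (r : ℕ) [Fact r.Prime]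
    (hrp : r ≠ p) (hC : C ^ r = 1) (hC1 : C ≠ 1) (hN : N ^ p = 0) (hN0 : N ≠ 0)
    (hCN : Commute C N) (n : ℕ) (hn : Module.finrank F V = n) (hn4 : 4 ≤ n) :
    ∃ d, 1 ≤ d ∧ d ≤ n - 2 ∧ r ∣ Fintype.card F ^ d - 1 := by
  have hrprime : r.Prime := Fact.out
  have hpprime : p.Prime := Fact.out
  obtain ⟨Φ, hΦ⟩ : ∃ Φ : Module.End F V, Φ = ∑ i ∈ Finset.range r, C ^ i := ⟨_, rfl⟩
  have hCΦ : C * Φ = Φ := by
    have := mul_geom_sum C r
    rw [← hΦ, hC, sub_self, sub_mul, one_mul, sub_eq_zero] at this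
    exact this
  have hΦC : Φ * C = Φ := by
    have := geom_sum_mul C r
    rw [← hΦ, hC, sub_self, mul_sub, mul_one, sub_eq_zero] at this
    exact this
  have hr0 : (r : F) ≠ 0 := by
    intro h
    rw [CharP.cast_eq_zero_iff F p r] at h
    exact hrp ((Nat.prime_dvd_prime_iff_eq hpprime hrprime).mp h).symm
  have hCpow : ∀ i : ℕ, C ^ i * Φ = Φ := by
    intro i
    induction i with
    | zero => rw [pow_zero, one_mul]
    | succ i ih => rw [pow_succ, mul_assoc, hCΦ, ih]
  have inv : ∀ w ∈ LinearMap.ker Φ, C w ∈ LinearMap.ker Φ := by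
    intro w hw
    rw [LinearMap.mem_ker] at hw ⊢
    have : Φ (C w) = (Φ * C) w := rfl
    rw [this, hΦC, hw]
  have nofix : ∀ w ∈ LinearMap.ker Φ, C w = w → w = 0 := by
    intro w hw hfix
    rw [LinearMap.mem_ker] at hw
    have hpow : ∀ i : ℕ, (C ^ i) w = w := by
      intro i
      induction i with
      | zero => rfl
      | succ i ih => rw [pow_succ, Module.End.mul_apply, hfix, ih]
    rw [hΦ, LinearMap.sum_apply, Finset.sum_congr rfl (fun i _ => hpow i), Finset.sum_const,
      Finset.card_range, ← Nat.cast_smul_eq_nsmul F] at hw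
    exact (smul_eq_zero.mp hw).resolve_left hr0
  have h0 := count_lemma C r hC (LinearMap.ker Φ) inv nofix
  have hd0 : 1 ≤ Module.finrank F (LinearMap.ker Φ) := by
    rw [Submodule.one_le_finrank_iff]
    intro hbot
    apply hC1
    ext v
    have hmem : C v - v ∈ LinearMap.ker Φ := by
      rw [LinearMap.mem_ker, map_sub]
      have : Φ (C v) = (Φ * C) v := rfl
      rw [this, hΦC, sub_self]
    rw [hbot, Submodule.mem_bot, sub_eq_zero] at hmem
    rw [hmem]
    rfl
  have hdn : Module.finrank F (LinearMap.ker Φ) ≤ n := by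
    rw [← hn]
    exact Submodule.finrank_le _
  have hNΦ : Commute N Φ := by
    rw [hΦ]
    exact Commute.sum_right _ _ _ (fun i _ => (hCN.symm).pow_right i)
  have invN : ∀ w ∈ LinearMap.ker Φ, N w ∈ LinearMap.ker Φ := by
    intro w hw
    rw [LinearMap.mem_ker] at hw ⊢
    have : Φ (N w) = (Φ * N) w := rfl
    rw [this, ← hNΦ.eq, Module.End.mul_apply, hw, map_zero]
  have hrq : ∀ e : ℕ, ¬ r ∣ Fintype.card F ^ e := by
    intro e hdvd
    have h1 := hrprime.dvd_of_dvd_pow hdvd
    obtain ⟨m, -, hm⟩ := FiniteField.card F p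
    rw [hm] at h1
    have h2 := hrprime.dvd_of_dvd_pow h1
    exact hrp ((Nat.prime_dvd_prime_iff_eq hrprime hpprime).mp h2)
  by_cases hB : ∃ u ∈ LinearMap.ker Φ, N u ≠ 0
  · obtain ⟨h1, h2⟩ := nil_lemma N hN (LinearMap.ker Φ) invN hB
    have hle : (LinearMap.ker Φ).map N ≤ LinearMap.ker Φ := by
      rintro _ ⟨u, hu, rfl⟩
      exact invN u hu
    have inv2 : ∀ w ∈ (LinearMap.ker Φ).map N, C w ∈ (LinearMap.ker Φ).map N := by
      rintro _ ⟨u, hu, rfl⟩
      refine ⟨C u, inv u hu, ?_⟩
      have e1 : N (C u) = (N * C) u := rfl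
      have e2 : C (N u) = (C * N) u := rfl
      rw [e1, e2, hCN.eq]
    have nofix2 : ∀ w ∈ (LinearMap.ker Φ).map N, C w = w → w = 0 :=
      fun w hw => nofix w (hle hw)
    have h1' := count_lemma C r hC ((LinearMap.ker Φ).map N) inv2 nofix2
    obtain ⟨d₀, hd₀⟩ : ∃ d₀, d₀ = Module.finrank F (LinearMap.ker Φ) := ⟨_, rfl⟩
    obtain ⟨d₁, hd₁⟩ : ∃ d₁, d₁ = Module.finrank F ((LinearMap.ker Φ).map N) := ⟨_, rfl⟩
    rw [← hd₀] at h0 hdn h2
    rw [← hd₁] at h1' h1 h2
    by_cases hsmall : d₁ ≤ n - 2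
    · exact ⟨d₁, h1, hsmall, h1'⟩
    · refine ⟨d₀ - d₁, by omega, by omega, ?_⟩
      have hq1 : 1 ≤ Fintype.card F := Fintype.card_pos
      have e : Fintype.card F ^ d₀ - 1
          = Fintype.card F ^ d₁ * (Fintype.card F ^ (d₀ - d₁) - 1) + (Fintype.card F ^ d₁ - 1) := by
        have h3 : Fintype.card F ^ d₀ = Fintype.card F ^ d₁ * Fintype.card F ^ (d₀ - d₁) := by
          rw [← pow_add]
          congr 1
          omega
        have h4 : 1 ≤ Fintype.card F ^ (d₀ - d₁) := Nat.one_le_pow _ _ hq1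
        have h5 : 1 ≤ Fintype.card F ^ d₁ := Nat.one_le_pow _ _ hq1
        rw [h3, Nat.mul_sub, mul_one]
        have h6 : Fintype.card F ^ d₁ ≤ Fintype.card F ^ d₁ * Fintype.card F ^ (d₀ - d₁) :=
          Nat.le_mul_of_pos_right _ h4
        omega
      rw [e] at h0
      have h7 := (Nat.dvd_add_left h1').mp h0
      exact (hrprime.dvd_mul.mp h7).resolve_left (hrq d₁)
  · push Not at hB
    have hΦΦ : Φ * Φ = (r : F) • Φ := by
      conv_lhs => rw [hΦ]
      rw [Finset.sum_mul]
      rw [← hΦ]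
      rw [Finset.sum_congr rfl (fun i _ => hCpow i), Finset.sum_const, Finset.card_range,
        Nat.cast_smul_eq_nsmul]
    have hNΦ' : ∀ v, N (Φ v) = (r : F) • N v := by
      intro v
      have hmem : (r : F) • v - Φ v ∈ LinearMap.ker Φ := by
        rw [LinearMap.mem_ker, map_sub, map_smul]
        have : Φ (Φ v) = (Φ * Φ) v := rfl
        rw [this, hΦΦ, LinearMap.smul_apply, sub_self]
      have := hB _ hmem
      rw [map_sub, map_smul, sub_eq_zero] at this
      exact this.symm
    have invR : ∀ u ∈ LinearMap.range Φ, N u ∈ LinearMap.range Φ := by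
      rintro _ ⟨v, rfl⟩
      refine ⟨N v, ?_⟩
      have e1 : Φ (N v) = (Φ * N) v := rfl
      have e2 : N (Φ v) = (N * Φ) v := rfl
      rw [e1, e2, hNΦ.eq]
    have hneR : ∃ u ∈ LinearMap.range Φ, N u ≠ 0 := by
      have : ∃ v, N v ≠ 0 := by
        by_contra hcon
        push Not at hcon
        apply hN0
        ext v
        rw [hcon v]
        rfl
      obtain ⟨v, hv⟩ := this
      refine ⟨Φ v, ⟨v, rfl⟩, ?_⟩
      rw [hNΦ' v]
      exact smul_ne_zero hr0 hv
    obtain ⟨h1, h2⟩ := nil_lemma N hN (LinearMap.range Φ) invR hneR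
    have hrn := LinearMap.finrank_range_add_finrank_ker Φ
    rw [hn] at hrn
    exact ⟨Module.finrank F (LinearMap.ker Φ), hd0, by omega, h0⟩

end linalg

section card

variable {F : Type*} [Field F] [Fintype F]

theorem card_succ (m : ℕ) (hm : 1 ≤ m) :
    Nat.card (Matrix.SpecialLinearGroup (Fin (m + 1)) F)
      = (Fintype.card F ^ (m + 1) - 1)
        * (Fintype.card F ^ m * Nat.card (Matrix.SpecialLinearGroup (Fin m) F)) := by
  have h1 := Cfsg.Agent.S0242.result (F := F) rfl (m + 1) (by omega)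
  have h2 := Cfsg.Agent.S0242.result (F := F) rfl m hm
  rw [Fin.prod_univ_succ] at h1
  have e : ∀ i : Fin m, Fintype.card F ^ (m + 1) - Fintype.card F ^ ((i.succ : Fin (m + 1)) : ℕ)
      = Fintype.card F * (Fintype.card F ^ m - Fintype.card F ^ (i : ℕ)) := by
    intro i
    rw [Fin.val_succ, Nat.mul_sub, pow_succ', pow_succ']
  rw [Finset.prod_congr rfl (fun i _ => e i), Finset.prod_mul_distrib, Finset.prod_const,
    Finset.card_univ, Fintype.card_fin, ← h2] at h1
  have hq : 0 < Fintype.card F - 1 := by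
    have := Fintype.one_lt_card (α := F)
    omega
  apply Nat.eq_of_mul_eq_mul_left hq
  rw [h1]
  simp only [Fin.val_zero, pow_zero]
  ring

theorem card_dvd_aux (m : ℕ) (hm : 2 ≤ m) :
    Fintype.card F ∣ Nat.card (Matrix.SpecialLinearGroup (Fin m) F) ∧
    ∀ j, 2 ≤ j → j ≤ m →
      (Fintype.card F ^ j - 1) ∣ Nat.card (Matrix.SpecialLinearGroup (Fin m) F) := by
  induction m, hm using Nat.le_induction with
  | base =>
    rw [card_succ 1 le_rfl]
    refine ⟨?_, ?_⟩
    · exact Dvd.dvd.mul_left (Dvd.dvd.mul_right (by rw [pow_one]) _) _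
    · intro j hj1 hj2
      have : j = 2 := by omega
      subst this
      exact Dvd.intro _ rfl
  | succ m hm ih =>
    rw [card_succ m (by omega)]
    refine ⟨?_, ?_⟩
    · exact Dvd.dvd.mul_left (Dvd.dvd.mul_left ih.1 _) _
    · intro j hj1 hj2
      rcases Nat.lt_or_ge j (m + 1) with h | h
      · exact Dvd.dvd.mul_left (Dvd.dvd.mul_left (ih.2 j hj1 (by omega)) _) _
      · have : j = m + 1 := by omega
        subst this
        exact Dvd.intro _ rfl

theorem card_dvd (m : ℕ) (hm : 2 ≤ m) (r d : ℕ) (hd1 : 1 ≤ d) (hd2 : d ≤ m)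
    (hr : r ∣ Fintype.card F ^ d - 1) :
    r ∣ Nat.card (Matrix.SpecialLinearGroup (Fin m) F) := by
  rcases Nat.lt_or_ge d 2 with h | h
  · have : d = 1 := by omega
    subst this
    rw [pow_one] at hr
    have h2 : Fintype.card F - 1 ∣ Fintype.card F ^ 2 - 1 := by
      have := Nat.sub_dvd_pow_sub_pow (Fintype.card F) 1 2
      rwa [one_pow] at this
    exact hr.trans (dvd_trans h2 ((card_dvd_aux m hm).2 2 le_rfl hm))
  · exact hr.trans ((card_dvd_aux m hm).2 d h hd2)

end card

/-- Let F be a finite field of characteristic p, n ≥ 4, and let a, b be commuting elements of PSL(n, F) with a of order p. Then every prime divisor of the order of b divides the order of SL(n − 2, F). -/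
theorem result {F : Type*} [Field F] [Fintype F] (p : ℕ) [Fact p.Prime] [CharP F p] (n : ℕ) (hn : 4 ≤ n)
    (a b : Matrix.ProjectiveSpecialLinearGroup (Fin n) F) (ha : orderOf a = p) (hab : Commute a b) :
    (orderOf b).primeFactors ⊆ (Nat.card (Matrix.SpecialLinearGroup (Fin (n - 2)) F)).primeFactors := by
  classical
  intro r hr
  have hrprime := (Nat.mem_primeFactors.mp hr).1
  have hrdvd := (Nat.mem_primeFactors.mp hr).2.1
  have hm : 2 ≤ n - 2 := by omega
  rw [Nat.mem_primeFactors]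
  refine ⟨hrprime, ?_, Nat.card_pos.ne'⟩
  have : NeZero n := ⟨by omega⟩
  have hpprime : p.Prime := Fact.out
  by_cases hrp : r = p
  · obtain ⟨e, -, he⟩ := FiniteField.card F p
    have h1 : r ∣ Fintype.card F := by
      rw [he, hrp]
      exact dvd_pow_self p e.ne_zero
    exact h1.trans (card_dvd_aux (n - 2) hm).1
  · obtain ⟨a₁, rfl⟩ := QuotientGroup.mk_surjective a
    obtain ⟨b₁, rfl⟩ := QuotientGroup.mk_surjective b
    have h1 : a₁ ^ p ∈ Subgroup.center (Matrix.SpecialLinearGroup (Fin n) F) := by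
      rw [← QuotientGroup.eq_one_iff, QuotientGroup.mk_pow, ← ha]
      exact pow_orderOf_eq_one _
    obtain ⟨ζ, hζ, hζA⟩ := Matrix.SpecialLinearGroup.mem_center_iff.mp h1
    rw [Matrix.SpecialLinearGroup.coe_pow] at hζA
    have hζ0 : ζ ≠ 0 := by
      rintro rfl
      rw [Fintype.card_fin, zero_pow (NeZero.ne n)] at hζ
      exact zero_ne_one hζ
    obtain ⟨c, hc⟩ : ∃ c : F, c ^ p = ζ⁻¹ :=
      ⟨(frobeniusEquiv F p).symm ζ⁻¹, frobeniusEquiv_symm_pow_p F p ζ⁻¹⟩
    have hc0 : c ≠ 0 := by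
      rintro rfl
      rw [zero_pow hpprime.ne_zero] at hc
      exact inv_ne_zero hζ0 hc.symm
    obtain ⟨u, hu⟩ : ∃ u : Matrix (Fin n) (Fin n) F,
        u = c • (a₁ : Matrix (Fin n) (Fin n) F) := ⟨_, rfl⟩
    have hup : u ^ p = 1 := by
      have hs : Matrix.scalar (Fin n) ζ = ζ • (1 : Matrix (Fin n) (Fin n) F) := by
        rw [Matrix.smul_one_eq_diagonal]
        rfl
      rw [hu, smul_pow, hc, ← hζA, hs, smul_smul, inv_mul_cancel₀ hζ0, one_smul]
    have hNp : (u - 1) ^ p = 0 := by
      rw [sub_pow_char_of_commute p (Commute.one_right u), hup, one_pow, sub_self]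
    have hN0 : u - 1 ≠ 0 := by
      intro h0
      have hu1 : u = 1 := sub_eq_zero.mp h0
      have hA : (a₁ : Matrix (Fin n) (Fin n) F) = c⁻¹ • 1 := by
        rw [← hu1, hu, smul_smul, inv_mul_cancel₀ hc0, one_smul]
      have hcen : a₁ ∈ Subgroup.center (Matrix.SpecialLinearGroup (Fin n) F) := by
        rw [Subgroup.mem_center_iff]
        intro g
        apply Subtype.ext
        rw [Matrix.SpecialLinearGroup.coe_mul, Matrix.SpecialLinearGroup.coe_mul, hA]
        simp
      have h1' : ((a₁ : Matrix.SpecialLinearGroup (Fin n) F) :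
          Matrix.ProjectiveSpecialLinearGroup (Fin n) F) = 1 :=
        (QuotientGroup.eq_one_iff _).mpr hcen
      rw [h1', orderOf_one] at ha
      exact hpprime.one_lt.ne' ha.symm
    have hz : (a₁ * b₁)⁻¹ * (b₁ * a₁) ∈ Subgroup.center (Matrix.SpecialLinearGroup (Fin n) F) := by
      rw [← QuotientGroup.eq]
      exact hab.eq
    obtain ⟨μ, hμ, hμz⟩ := Matrix.SpecialLinearGroup.mem_center_iff.mp hz
    have hBA : (b₁ : Matrix (Fin n) (Fin n) F) * (a₁ : Matrix (Fin n) (Fin n) F)
        = μ • ((a₁ : Matrix (Fin n) (Fin n) F) * (b₁ : Matrix (Fin n) (Fin n) F)) := by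
      have e : b₁ * a₁ = (a₁ * b₁) * ((a₁ * b₁)⁻¹ * (b₁ * a₁)) := by group
      have e2 : ((b₁ * a₁ : Matrix.SpecialLinearGroup (Fin n) F) : Matrix (Fin n) (Fin n) F)
          = ((a₁ * b₁ : Matrix.SpecialLinearGroup (Fin n) F) : Matrix (Fin n) (Fin n) F)
            * (((a₁ * b₁)⁻¹ * (b₁ * a₁) : Matrix.SpecialLinearGroup (Fin n) F) :
              Matrix (Fin n) (Fin n) F) := by
        rw [← Matrix.SpecialLinearGroup.coe_mul]
        exact congrArg (fun g : Matrix.SpecialLinearGroup (Fin n) F =>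
          (g : Matrix (Fin n) (Fin n) F)) e
      rw [← hμz, Matrix.SpecialLinearGroup.coe_mul, Matrix.SpecialLinearGroup.coe_mul] at e2
      have hs : Matrix.scalar (Fin n) μ = μ • (1 : Matrix (Fin n) (Fin n) F) := by
        rw [Matrix.smul_one_eq_diagonal]
        rfl
      rw [e2, hs, Matrix.mul_smul, mul_one]
    have hBu : (b₁ : Matrix (Fin n) (Fin n) F) * u
        = μ • (u * (b₁ : Matrix (Fin n) (Fin n) F)) := by
      rw [hu, Matrix.mul_smul, hBA, Matrix.smul_mul, smul_smul, smul_smul, mul_comm]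
    have hBuk : ∀ k : ℕ, (b₁ : Matrix (Fin n) (Fin n) F) * u ^ k
        = μ ^ k • (u ^ k * (b₁ : Matrix (Fin n) (Fin n) F)) := by
      intro k
      induction k with
      | zero => simp
      | succ k ih =>
        rw [pow_succ, ← mul_assoc, ih, Matrix.smul_mul, mul_assoc, hBu, Matrix.mul_smul,
          smul_smul, ← mul_assoc, ← pow_succ, ← pow_succ]
    have hμp : μ ^ p = 1 := by
      have h := hBuk p
      rw [hup, mul_one, one_mul] at h
      by_contra hne
      have h2 : (1 - μ ^ p) • (b₁ : Matrix (Fin n) (Fin n) F) = 0 := by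
        rw [sub_smul, one_smul, ← h, sub_self]
      have h3 : (b₁ : Matrix (Fin n) (Fin n) F) = 0 :=
        (smul_eq_zero.mp h2).resolve_left (sub_ne_zero.mpr (Ne.symm hne))
      have h4 := b₁.2
      have : Nonempty (Fin n) := ⟨⟨0, NeZero.pos n⟩⟩
      rw [h3, Matrix.det_zero] at h4
      exact zero_ne_one h4
    have hμ1 : μ = 1 := by
      apply frobenius_inj F p
      rw [frobenius_def, frobenius_def, hμp, one_pow]
    rw [hμ1, one_smul] at hBu
    have hBN : Commute (b₁ : Matrix (Fin n) (Fin n) F) (u - 1) := by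
      show _ * _ = _ * _
      rw [mul_sub, sub_mul, hBu, mul_one, one_mul]
    have hdvd' : r ∣ orderOf b₁ := by
      refine hrdvd.trans (orderOf_dvd_of_pow_eq_one ?_)
      rw [← QuotientGroup.mk_pow, pow_orderOf_eq_one]
      rfl
    have hord := orderOf_pow_orderOf_div (orderOf_pos b₁).ne' hdvd'
    obtain ⟨c₀, hc₀⟩ : ∃ c₀ : Matrix.SpecialLinearGroup (Fin n) F,
        c₀ = b₁ ^ (orderOf b₁ / r) := ⟨_, rfl⟩
    rw [← hc₀] at hord
    have hCr : (c₀ : Matrix (Fin n) (Fin n) F) ^ r = 1 := by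
      rw [← Matrix.SpecialLinearGroup.coe_pow, ← hord, pow_orderOf_eq_one,
        Matrix.SpecialLinearGroup.coe_one]
    have hC1 : (c₀ : Matrix (Fin n) (Fin n) F) ≠ 1 := by
      intro h
      have : c₀ = 1 := Subtype.ext h
      rw [this, orderOf_one] at hord
      exact hrprime.one_lt.ne' hord.symm
    have hCN : Commute (c₀ : Matrix (Fin n) (Fin n) F) (u - 1) := by
      rw [hc₀, Matrix.SpecialLinearGroup.coe_pow]
      exact hBN.pow_left _
    have : Fact r.Prime := ⟨hrprime⟩
    obtain ⟨d, hd1, hd2, hd3⟩ := core (p := p) (F := F) (V := Fin n → F)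
      (Matrix.toLinAlgEquiv' (c₀ : Matrix (Fin n) (Fin n) F))
      (Matrix.toLinAlgEquiv' (u - 1)) r hrp
      (by rw [← map_pow, hCr, map_one])
      (by
        intro h
        apply hC1
        apply Matrix.toLinAlgEquiv'.injective
        rw [h, map_one])
      (by rw [← map_pow, hNp, map_zero])
      (by
        intro h
        apply hN0
        apply Matrix.toLinAlgEquiv'.injective
        rw [h, map_zero])
      (by
        show _ * _ = _ * _
        rw [← map_mul, ← map_mul, hCN.eq])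
      n (Module.finrank_fin_fun F) hn
    exact card_dvd (n - 2) hm r d hd1 hd2 hd3

end Cfsg.Agent.S2364
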