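import Cfsg.Statements.S2367
import Mathlib

set_option autoImplicit false
open Cfsg

namespace Cfsg.Agent.S2367

theorem spor_aux (L : List ℕ) (hL : ∀ p ∈ L, p ≠ 2 → L.count p = 3 → p ^ 3 < 2 ^ (L.count 2)) (N : ℕ)
    (hN : N.primeFactorsList = L) (p : ℕ) (hp2 : p ≠ 2) (h3 : N.factorization p = 3) :
    p ^ 3 < 2 ^ N.factorization 2 := by
  rw [← Nat.primeFactorsList_count_eq, hN] at h3 ⊢
  exact hL p (List.count_pos_iff.mp (by omega)) hp2 h3

set_option maxRecDepth 100000 in
theorem sporadic_all {G : Type*} [Group G] [Finite G] (hG : Cfsg.IsSporadic G) (p : ℕ) (hodd : p ≠ 2)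
    (h3 : (Nat.card G).factorization p = 3) : p ^ 3 < 2 ^ (Nat.card G).factorization 2 := by
  unfold Cfsg.IsSporadic at hG
  rcases hG with h | h | h | h | h | h | h | h | h | h | h | h | h | h | h | h | h | h | h | h | h | h | h | h | h | h
  · obtain ⟨_, hc⟩ := h
    rw [hc] at h3 ⊢
    exact spor_aux (List.replicate 4 2 ++ List.replicate 2 3 ++ List.replicate 1 5 ++ List.replicate 1 11) (by decide) _ (by simp) p hodd h3
  · obtain ⟨_, hc⟩ := h
    rw [hc] at h3 ⊢
    exact spor_aux (List.replicate 6 2 ++ List.replicate 3 3 ++ List.replicate 1 5 ++ List.replicate 1 11) (by decide) _ (by simp) p hodd h3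
  · obtain ⟨_, hc⟩ := h
    rw [hc] at h3 ⊢
    exact spor_aux (List.replicate 7 2 ++ List.replicate 2 3 ++ List.replicate 1 5 ++ List.replicate 1 7 ++ List.replicate 1 11) (by decide) _ (by simp) p hodd h3
  · obtain ⟨_, hc⟩ := h
    rw [hc] at h3 ⊢
    exact spor_aux (List.replicate 7 2 ++ List.replicate 2 3 ++ List.replicate 1 5 ++ List.replicate 1 7 ++ List.replicate 1 11 ++ List.replicate 1 23) (by decide) _ (by simp) p hodd h3
  · obtain ⟨_, hc⟩ := h
    rw [hc] at h3 ⊢
    exact spor_aux (List.replicate 10 2 ++ List.replicate 3 3 ++ List.replicate 1 5 ++ List.replicate 1 7 ++ List.replicate 1 11 ++ List.replicate 1 23) (by decide) _ (by simp) p hodd h3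
  · obtain ⟨_, hc⟩ := h
    rw [hc] at h3 ⊢
    exact spor_aux (List.replicate 3 2 ++ List.replicate 1 3 ++ List.replicate 1 5 ++ List.replicate 1 7 ++ List.replicate 1 11 ++ List.replicate 1 19) (by decide) _ (by simp) p hodd h3
  · obtain ⟨_, hc⟩ := h
    rw [hc] at h3 ⊢
    exact spor_aux (List.replicate 7 2 ++ List.replicate 3 3 ++ List.replicate 2 5 ++ List.replicate 1 7) (by decide) _ (by simp) p hodd h3
  · obtain ⟨_, hc⟩ := h
    rw [hc] at h3 ⊢
    exact spor_aux (List.replicate 7 2 ++ List.replicate 5 3 ++ List.replicate 1 5 ++ List.replicate 1 17 ++ List.replicate 1 19) (by decide) _ (by simp) p hodd h3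
  · obtain ⟨_, hc⟩ := h
    rw [hc] at h3 ⊢
    exact spor_aux (List.replicate 21 2 ++ List.replicate 3 3 ++ List.replicate 1 5 ++ List.replicate 1 7 ++ List.replicate 3 11 ++ List.replicate 1 23 ++ List.replicate 1 29 ++ List.replicate 1 31 ++ List.replicate 1 37 ++ List.replicate 1 43) (by decide) _ (by simp) p hodd h3
  · obtain ⟨_, hc⟩ := h
    rw [hc] at h3 ⊢
    exact spor_aux (List.replicate 21 2 ++ List.replicate 9 3 ++ List.replicate 4 5 ++ List.replicate 2 7 ++ List.replicate 1 11 ++ List.replicate 1 13 ++ List.replicate 1 23) (by decide) _ (by simp) p hodd h3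
  · obtain ⟨_, hc⟩ := h
    rw [hc] at h3 ⊢
    exact spor_aux (List.replicate 18 2 ++ List.replicate 6 3 ++ List.replicate 3 5 ++ List.replicate 1 7 ++ List.replicate 1 11 ++ List.replicate 1 23) (by decide) _ (by simp) p hodd h3
  · obtain ⟨_, hc⟩ := h
    rw [hc] at h3 ⊢
    exact spor_aux (List.replicate 10 2 ++ List.replicate 7 3 ++ List.replicate 3 5 ++ List.replicate 1 7 ++ List.replicate 1 11 ++ List.replicate 1 23) (by decide) _ (by simp) p hodd h3
  · obtain ⟨_, hc⟩ := h
    rw [hc] at h3 ⊢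
    exact spor_aux (List.replicate 17 2 ++ List.replicate 9 3 ++ List.replicate 2 5 ++ List.replicate 1 7 ++ List.replicate 1 11 ++ List.replicate 1 13) (by decide) _ (by simp) p hodd h3
  · obtain ⟨_, hc⟩ := h
    rw [hc] at h3 ⊢
    exact spor_aux (List.replicate 18 2 ++ List.replicate 13 3 ++ List.replicate 2 5 ++ List.replicate 1 7 ++ List.replicate 1 11 ++ List.replicate 1 13 ++ List.replicate 1 17 ++ List.replicate 1 23) (by decide) _ (by simp) p hodd h3
  · obtain ⟨_, hc⟩ := h
    rw [hc] at h3 ⊢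
    exact spor_aux (List.replicate 21 2 ++ List.replicate 16 3 ++ List.replicate 2 5 ++ List.replicate 3 7 ++ List.replicate 1 11 ++ List.replicate 1 13 ++ List.replicate 1 17 ++ List.replicate 1 23 ++ List.replicate 1 29) (by decide) _ (by simp) p hodd h3
  · obtain ⟨_, hc⟩ := h
    rw [hc] at h3 ⊢
    exact spor_aux (List.replicate 9 2 ++ List.replicate 2 3 ++ List.replicate 3 5 ++ List.replicate 1 7 ++ List.replicate 1 11) (by decide) _ (by simp) p hodd h3
  · obtain ⟨_, hc⟩ := h
    rw [hc] at h3 ⊢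
    exact spor_aux (List.replicate 7 2 ++ List.replicate 6 3 ++ List.replicate 3 5 ++ List.replicate 1 7 ++ List.replicate 1 11) (by decide) _ (by simp) p hodd h3
  · obtain ⟨_, hc⟩ := h
    rw [hc] at h3 ⊢
    exact spor_aux (List.replicate 10 2 ++ List.replicate 3 3 ++ List.replicate 2 5 ++ List.replicate 3 7 ++ List.replicate 1 17) (by decide) _ (by simp) p hodd h3
  · obtain ⟨_, hc⟩ := h
    rw [hc] at h3 ⊢
    exact spor_aux (List.replicate 14 2 ++ List.replicate 3 3 ++ List.replicate 3 5 ++ List.replicate 1 7 ++ List.replicate 1 13 ++ List.replicate 1 29) (by decide) _ (by simp) p hodd h3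
  · obtain ⟨_, hc⟩ := h
    rw [hc] at h3 ⊢
    exact spor_aux (List.replicate 13 2 ++ List.replicate 7 3 ++ List.replicate 2 5 ++ List.replicate 1 7 ++ List.replicate 1 11 ++ List.replicate 1 13) (by decide) _ (by simp) p hodd h3
  · obtain ⟨_, hc⟩ := h
    rw [hc] at h3 ⊢
    exact spor_aux (List.replicate 9 2 ++ List.replicate 4 3 ++ List.replicate 1 5 ++ List.replicate 3 7 ++ List.replicate 1 11 ++ List.replicate 1 19 ++ List.replicate 1 31) (by decide) _ (by simp) p hodd h3
  · obtain ⟨_, hc⟩ := h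
    rw [hc] at h3 ⊢
    exact spor_aux (List.replicate 14 2 ++ List.replicate 6 3 ++ List.replicate 6 5 ++ List.replicate 1 7 ++ List.replicate 1 11 ++ List.replicate 1 19) (by decide) _ (by simp) p hodd h3
  · obtain ⟨_, hc⟩ := h
    rw [hc] at h3 ⊢
    exact spor_aux (List.replicate 8 2 ++ List.replicate 7 3 ++ List.replicate 6 5 ++ List.replicate 1 7 ++ List.replicate 1 11 ++ List.replicate 1 31 ++ List.replicate 1 37 ++ List.replicate 1 67) (by decide) _ (by simp) p hodd h3
  · obtain ⟨_, hc⟩ := h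
    rw [hc] at h3 ⊢
    exact spor_aux (List.replicate 15 2 ++ List.replicate 10 3 ++ List.replicate 3 5 ++ List.replicate 2 7 ++ List.replicate 1 13 ++ List.replicate 1 19 ++ List.replicate 1 31) (by decide) _ (by simp) p hodd h3
  · obtain ⟨_, hc⟩ := h
    rw [hc] at h3 ⊢
    exact spor_aux (List.replicate 41 2 ++ List.replicate 13 3 ++ List.replicate 6 5 ++ List.replicate 2 7 ++ List.replicate 1 11 ++ List.replicate 1 13 ++ List.replicate 1 17 ++ List.replicate 1 19 ++ List.replicate 1 23 ++ List.replicate 1 31 ++ List.replicate 1 47) (by decide) _ (by simp) p hodd h3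
  · obtain ⟨_, hc⟩ := h
    rw [hc] at h3 ⊢
    exact spor_aux (List.replicate 46 2 ++ List.replicate 20 3 ++ List.replicate 9 5 ++ List.replicate 6 7 ++ List.replicate 2 11 ++ List.replicate 3 13 ++ List.replicate 1 17 ++ List.replicate 1 19 ++ List.replicate 1 23 ++ List.replicate 1 29 ++ List.replicate 1 31 ++ List.replicate 1 41 ++ List.replicate 1 47 ++ List.replicate 1 59 ++ List.replicate 1 71) (by decide) _ (by simp) p hodd h3

theorem pow_bound (q : ℕ) (hq : 5 ≤ q) : q ^ 3 < 2 ^ (2 * q - 2) := by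
  induction q, hq using Nat.le_induction with
  | base => norm_num
  | succ q hq ih =>
    have h1 : 2 ^ (2 * (q + 1) - 2) = 4 * 2 ^ (2 * q - 2) := by
      have : 2 * (q + 1) - 2 = (2 * q - 2) + 2 := by omega
      rw [this, pow_add]; ring
    rw [h1]
    have h2 : 5 * (q * q) ≤ q * (q * q) := Nat.mul_le_mul_right (q * q) hq
    have h3 : 5 * q ≤ q * q := Nat.mul_le_mul_right q hq
    nlinarith

theorem alt_case (n : ℕ) (N : ℕ) (hN : 2 * N = n.factorial) (p : ℕ) (hp : p.Prime) (hodd : p ≠ 2)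
    (h3 : N.factorization p = 3) : p ^ 3 < 2 ^ N.factorization 2 := by
  have hN0 : N ≠ 0 := by
    intro h
    rw [h] at hN
    have := Nat.factorial_pos n
    omega
  have hp3 : p ^ 3 ∣ N := (hp.pow_dvd_iff_le_factorization hN0).mpr (by omega)
  have hp4 : ¬ p ^ 4 ∣ N := fun h => by
    have := (hp.pow_dvd_iff_le_factorization hN0).mp h
    omega
  have hp3' : p ^ 3 ∣ n.factorial := by
    rw [← hN]
    exact Dvd.dvd.mul_left hp3 2
  have hp4' : ¬ p ^ 4 ∣ n.factorial := by
    rw [← hN]
    intro h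
    have hcop : Nat.Coprime (p ^ 4) 2 := Nat.Coprime.pow_left 4 ((Nat.coprime_primes hp Nat.prime_two).mpr hodd)
    exact hp4 (hcop.dvd_of_dvd_mul_left h)
  have hp5 : 5 ≤ p := by
    by_contra hlt
    have h2 := hp.two_le
    have hp3eq : p = 3 := by
      rcases (show p = 2 ∨ p = 3 ∨ p = 4 by omega) with h | h | h
      · exact absurd h hodd
      · exact h
      · subst h
        exact absurd hp (by norm_num)
    subst hp3eq
    rcases Nat.lt_or_ge n 9 with h9 | h9
    · have h8 : n.factorial ∣ (8).factorial := Nat.factorial_dvd_factorial (by omega)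
      have h27 : 3 ^ 3 ∣ (8).factorial := dvd_trans hp3' h8
      norm_num [Nat.factorial] at h27
    · have h9' : (9).factorial ∣ n.factorial := Nat.factorial_dvd_factorial h9
      exact hp4' (dvd_trans (by norm_num [Nat.factorial]) h9')
  have h3p : 3 * p ≤ n := by
    by_contra hlt
    rw [not_le] at hlt
    have hlog : Nat.log p n < 2 := by
      apply Nat.log_lt_of_lt_pow
      · intro h
        rw [h] at hp3'
        simp at hp3'
        have := hp.one_lt
        have : 1 < p ^ 3 := Nat.one_lt_pow (by norm_num) this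
        omega
      · nlinarith
    have h4 := (hp.pow_dvd_factorial_iff hlog).mp hp3'
    have h5 : ∑ i ∈ Finset.Ico 1 2, n / p ^ i = n / p := by simp
    rw [h5] at h4
    have h6 : n / p < 3 := Nat.div_lt_of_lt_mul (by linarith)
    omega
  have h2 : 2 ^ (2 * p - 1) ∣ n.factorial := by
    have hlog : Nat.log 2 n < Nat.log 2 n + 1 := Nat.lt_succ_self _
    rw [Nat.prime_two.pow_dvd_factorial_iff hlog]
    have h3 : 3 ≤ Nat.log 2 n := Nat.le_log_of_pow_le (by norm_num) (by omega)
    have hsub : ({1, 2} : Finset ℕ) ⊆ Finset.Ico 1 (Nat.log 2 n + 1) := by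
      intro i hi
      rw [Finset.mem_Ico]
      simp at hi
      omega
    have h5 : ∑ i ∈ ({1, 2} : Finset ℕ), n / 2 ^ i = n / 2 + n / 4 := by
      rw [Finset.sum_pair (by norm_num)]
      norm_num
    calc 2 * p - 1 ≤ n / 2 + n / 4 := by omega
      _ = ∑ i ∈ ({1, 2} : Finset ℕ), n / 2 ^ i := h5.symm
      _ ≤ ∑ i ∈ Finset.Ico 1 (Nat.log 2 n + 1), n / 2 ^ i := Finset.sum_le_sum_of_subset hsub
  have h2' : 2 ^ (2 * p - 2) ∣ N := by
    have h6 : 2 ^ (2 * p - 1) = 2 * 2 ^ (2 * p - 2) := by
      rw [← pow_succ']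
      congr 1
      omega
    rw [h6, ← hN] at h2
    exact Nat.dvd_of_mul_dvd_mul_left (by norm_num) h2
  have h2'' : 2 * p - 2 ≤ N.factorization 2 := (Nat.prime_two.pow_dvd_iff_le_factorization hN0).mp h2'
  calc p ^ 3 < 2 ^ (2 * p - 2) := pow_bound p hp5
    _ ≤ 2 ^ N.factorization 2 := Nat.pow_le_pow_right (by norm_num) h2''

theorem result {G : Type*} [Group G] [Finite G] (hG : Cfsg.IsAlternating G ∨ Cfsg.IsSporadic G)
    (p : ℕ) (hp : p.Prime) (hodd : p ≠ 2) (h3 : (Nat.card G).factorization p = 3) :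
    p ^ 3 < 2 ^ (Nat.card G).factorization 2 := by
  rcases hG with hA | hS
  · obtain ⟨n, hn, ⟨e⟩⟩ := hA
    have : Nontrivial (Fin n) := Fin.nontrivial_iff_two_le.mpr (by omega)
    have hcard : 2 * Nat.card G = n.factorial := by
      rw [Nat.card_congr e.toEquiv, Nat.card_eq_fintype_card, two_mul_card_alternatingGroup,
        Fintype.card_perm, Fintype.card_fin]
    exact alt_case n (Nat.card G) hcard p hp hodd h3
  · exact sporadic_all hS p hodd h3

end Cfsg.Agent.S2367
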