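import Cfsg.Statements.S2368
import Mathlib

set_option autoImplicit false
open Cfsg

namespace Cfsg.Agent.S2368

theorem nil_pow {F : Type*} [Field F] {m : ℕ} (N : Matrix (Fin m) (Fin m) F) (h : IsNilpotent N) :
    N ^ m = 0 := by
  have h1 := Matrix.isNilpotent_charpoly_sub_pow_of_isNilpotent h
  have h2 : N.charpoly = Polynomial.X ^ Fintype.card (Fin m) := sub_eq_zero.mp h1.eq_zero
  have h3 := Matrix.aeval_self_charpoly N
  rw [h2] at h3
  simpa using h3

def jb (F : Type*) [Field F] (m : ℕ) : Matrix (Fin m) (Fin m) F :=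
  Matrix.of (fun i j : Fin m => if j.val = i.val + 1 then (1 : F) else 0)

theorem jb_pow (F : Type*) [Field F] (m : ℕ) (k : ℕ) (i j : Fin m) :
    (jb F m ^ k) i j = if j.val = i.val + k then 1 else 0 := by
  induction k generalizing i j with
  | zero =>
    rw [pow_zero, Matrix.one_apply]
    by_cases h : i = j
    · subst h; simp
    · rw [if_neg h, if_neg]
      intro h'
      exact h (Fin.ext (by omega))
  | succ k ih =>
    rw [pow_succ, Matrix.mul_apply]
    by_cases h : j.val = i.val + (k + 1)
    · rw [if_pos h, Finset.sum_eq_single (⟨i.val + k, by omega⟩ : Fin m)]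
      · rw [ih]
        simp [jb, h]
        omega
      · intro l _ hl
        rw [ih]
        have : ¬ (l.val = i.val + k) := fun h' => hl (Fin.ext h')
        simp [this]
      · intro h'
        exact absurd (Finset.mem_univ _) h'
    · rw [if_neg h]
      apply Finset.sum_eq_zero
      intro l _
      rw [ih]
      by_cases h1 : l.val = i.val + k
      · have : ¬ (j.val = l.val + 1) := by omega
        simp [jb, this]
      · simp [h1]

theorem result {F : Type*} [Field F] [Fintype F] (p : ℕ) [Fact p.Prime] [CharP F p] (m : ℕ) (hm : 1 ≤ m) :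
    (∀ g : Matrix.GeneralLinearGroup (Fin m) F, (∃ j : ℕ, orderOf g = p ^ j) → orderOf g < p * m) ∧
      ∃ g : Matrix.GeneralLinearGroup (Fin m) F, (∃ j : ℕ, orderOf g = p ^ j) ∧ m ≤ orderOf g := by
  have hp : p.Prime := Fact.out
  have hp1 : 1 < p := hp.one_lt
  have : Nonempty (Fin m) := ⟨⟨0, by omega⟩⟩
  have : CharP (Matrix (Fin m) (Fin m) F) p := Matrix.charP p
  have hclog : m ≤ p ^ Nat.clog p m := Nat.le_pow_clog hp1 m
  have hbound : p ^ Nat.clog p m < p * m := by
    rcases Nat.lt_or_ge 1 m with h1 | h1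
    · have h2 := Nat.pow_pred_clog_lt_self hp1 h1
      have h3 : 0 < Nat.clog p m := Nat.clog_pos hp1 h1
      have h4 : p ^ Nat.clog p m = p * p ^ (Nat.clog p m).pred := by
        rw [← pow_succ']
        congr 1
        exact (Nat.succ_pred_eq_of_pos h3).symm
      rw [h4]
      exact Nat.mul_lt_mul_of_pos_left h2 (by omega)
    · have hm1 : m = 1 := by omega
      subst hm1
      simp
      omega
  have key : ∀ A : Matrix (Fin m) (Fin m) F, IsNilpotent (A - 1) → A ^ (p ^ Nat.clog p m) = 1 := by
    intro A hA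
    have h1 : (A - 1) ^ (p ^ Nat.clog p m) = 0 := pow_eq_zero_of_le hclog (nil_pow _ hA)
    rw [sub_pow_char_pow_of_commute p _ (Commute.one_right A), one_pow, sub_eq_zero] at h1
    exact h1
  constructor
  · rintro g ⟨j, hj⟩
    have h1 : ((g : Matrix (Fin m) (Fin m) F)) ^ (p ^ j) = 1 := by
      have := pow_orderOf_eq_one g
      rw [hj] at this
      have h2 := congrArg (fun u : Matrix.GeneralLinearGroup (Fin m) F => (u : Matrix (Fin m) (Fin m) F)) this
      simpa using h2
    have h2 : IsNilpotent ((g : Matrix (Fin m) (Fin m) F) - 1) := by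
      refine ⟨p ^ j, ?_⟩
      rw [sub_pow_char_pow_of_commute p _ (Commute.one_right _), one_pow, h1, sub_self]
    have h3 := key _ h2
    have h4 : g ^ (p ^ Nat.clog p m) = 1 := by
      apply Units.ext
      simpa using h3
    have h5 : orderOf g ∣ p ^ Nat.clog p m := orderOf_dvd_of_pow_eq_one h4
    have h6 : orderOf g ≤ p ^ Nat.clog p m := Nat.le_of_dvd (pow_pos hp.pos _) h5
    omega
  · have hnil : IsNilpotent ((1 + jb F m) - 1) := by
      refine ⟨m, ?_⟩
      rw [add_sub_cancel_left]
      ext i j
      rw [jb_pow]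
      simp
      omega
    have h1 := key _ hnil
    have hunit : IsUnit (1 + jb F m) := IsUnit.of_pow_eq_one h1 (pow_pos hp.pos _).ne'
    refine ⟨hunit.unit, ?_, ?_⟩
    · have h4 : hunit.unit ^ (p ^ Nat.clog p m) = 1 := by
        apply Units.ext
        simpa using h1
      have h5 : orderOf hunit.unit ∣ p ^ Nat.clog p m := orderOf_dvd_of_pow_eq_one h4
      obtain ⟨j, _, hj⟩ := (Nat.dvd_prime_pow hp).mp h5
      exact ⟨j, hj⟩
    · by_contra hlt
      rw [not_le] at hlt
      have h4 : hunit.unit ^ (p ^ Nat.clog p m) = 1 := by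
        apply Units.ext
        simpa using h1
      have h5 : orderOf hunit.unit ∣ p ^ Nat.clog p m := orderOf_dvd_of_pow_eq_one h4
      obtain ⟨j, _, hj⟩ := (Nat.dvd_prime_pow hp).mp h5
      have h6 : (1 + jb F m) ^ (p ^ j) = 1 := by
        have := pow_orderOf_eq_one hunit.unit
        rw [hj] at this
        have h2 := congrArg (fun u : Matrix.GeneralLinearGroup (Fin m) F => (u : Matrix (Fin m) (Fin m) F)) this
        simpa using h2
      have h7 : (jb F m) ^ (p ^ j) = 0 := by
        have h8 : ((1 + jb F m) - 1) ^ (p ^ j) = 0 := by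
          rw [sub_pow_char_pow_of_commute p _ (Commute.one_right _), one_pow, h6, sub_self]
        rwa [add_sub_cancel_left] at h8
      have h9 := congrFun (congrFun h7 ⟨0, by omega⟩) ⟨p ^ j, by omega⟩
      rw [jb_pow] at h9
      simp at h9

end Cfsg.Agent.S2368
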