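import Cfsg.Statements.S2379
import Mathlib
import Cfsg.Agent.Lib.Helper14.SylowTorus3

set_option autoImplicit false
open Cfsg

namespace Cfsg.Agent.S2379


open Cfsg.Agent.Lib.Helper14.SylowTorus in
/-- Sylow subgroups of `SL_n(q)` for large primes. Let `F` be a field with `q` elements and `r` a prime with `r > n` and `r ∤ q` (so `r` does not divide the order `n!` of the Weyl group). Let `d` be the multiplicative order of `q` modulo `r`, `a` the number of integers `i` with `2 ≤ i ≤ n` divisible by `d` (the degrees of the Weyl group are `2, …, n`), and `m` the `r`-part of the value at `q` of the `d`-th cyclotomic polynomial. Then every Sylow `r`-subgroup of `SL_n(q)` is a direct product of `a` cyclic groups of order `m`. -/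
theorem result {F : Type*} [Field F] [Fintype F] {q : ℕ} (hq : Fintype.card F = q) (n : ℕ)
    (r : ℕ) [Fact r.Prime] (hrn : n < r) (hrq : ¬ r ∣ q) (P : Sylow r (Matrix.SpecialLinearGroup (Fin n) F)) :
    Nonempty (↥(P : Subgroup (Matrix.SpecialLinearGroup (Fin n) F)) ≃*
      (Fin ((Finset.Icc 2 n).filter (fun i => orderOf (q : ZMod r) ∣ i)).card →
        Multiplicative (ZMod (r ^ padicValNat r ((Polynomial.cyclotomic (orderOf (q : ZMod r)) ℤ).eval (q : ℤ)).natAbs)))) := by
  subst hq
  have hr : r.Prime := Fact.out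
  have hq2 : 2 ≤ Fintype.card F := Fintype.one_lt_card
  rcases Nat.eq_zero_or_pos n with rfl | hn1
  · have ha : ((Finset.Icc 2 0).filter
        (fun i => orderOf ((Fintype.card F : ℕ) : ZMod r) ∣ i)).card = 0 := by
      rw [Finset.card_eq_zero, Finset.filter_eq_empty_iff]
      intro i hi
      rw [Finset.mem_Icc] at hi
      omega
    rw [ha]
    refine sylow_equiv_of_hom P 1 (fun a b _ => Subsingleton.elim a b) ?_
    have h1 : Nat.card (Matrix.SpecialLinearGroup (Fin 0) F) = 1 := by
      rw [Nat.card_eq_one_iff_unique]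
      exact ⟨⟨fun a b => Subtype.ext (Subsingleton.elim _ _)⟩, ⟨1⟩⟩
    rw [h1]
    simp
  by_cases hd1 : orderOf ((Fintype.card F : ℕ) : ZMod r) = 1
  · have ha : ((Finset.Icc 2 n).filter
        (fun i => orderOf ((Fintype.card F : ℕ) : ZMod r) ∣ i)).card = n - 1 := by
      rw [hd1, Finset.filter_true_of_mem (fun i _ => one_dvd i), Nat.card_Icc]
      omega
    rw [ha]
    have hv := val_SL r hrq n hrn hn1
    have hc := val_cyclotomic r _ hq2 hrq
    rw [hd1] at hv hc ⊢
    rw [pow_one] at hc
    rw [hc] at hv ⊢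
    obtain ⟨k, rfl⟩ : ∃ k, n = k + 1 := ⟨n - 1, by omega⟩
    obtain ⟨ψ, hψ⟩ := exists_cyclic_hom F (r ^ padicValNat r (Fintype.card F - 1))
      pow_padicValNat_dvd
    refine sylow_equiv_of_hom P ((diagSL F k).comp (ψ.compLeft (Fin k))) ?_ ?_
    · intro u v h
      have h1 := diagSL_injective F k h
      funext i
      exact hψ (congrFun h1 i)
    · rw [Nat.card_fun, Nat.card_eq_fintype_card (α := Fin _), Fintype.card_fin,
        (Nat.card_congr Multiplicative.toAdd).trans (Nat.card_zmod _), ← pow_mul]
      congr 1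
      rw [Nat.div_one, add_mul, one_mul] at hv
      have : k + 1 - 1 = k := by omega
      rw [this]
      have h5 : (Nat.card (Matrix.SpecialLinearGroup (Fin (k + 1)) F)).factorization r =
          k * padicValNat r (Fintype.card F - 1) := by omega
      rw [h5, mul_comm]
  · have hd0 := order_pos r _ hrq
    have ha : ((Finset.Icc 2 n).filter
        (fun i => orderOf ((Fintype.card F : ℕ) : ZMod r) ∣ i)).card =
        n / orderOf ((Fintype.card F : ℕ) : ZMod r) := by
      rw [← Nat.Ioc_filter_dvd_card_eq_div]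
      congr 1
      ext i
      simp only [Finset.mem_filter, Finset.mem_Icc, Finset.mem_Ioc]
      constructor
      · rintro ⟨⟨h1, h2⟩, h3⟩
        exact ⟨⟨by omega, h2⟩, h3⟩
      · rintro ⟨⟨h1, h2⟩, h3⟩
        refine ⟨⟨?_, h2⟩, h3⟩
        have := Nat.le_of_dvd h1 h3
        omega
    rw [ha]
    have hv := val_SL r hrq n hrn hn1
    have hrq1 : ¬ r ∣ Fintype.card F - 1 := by
      intro h
      have := (nat_dvd_iff r (Fintype.card F) Fintype.card_pos 1).mp (by simpa using h)
      exact hd1 (Nat.dvd_one.mp this)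
    rw [padicValNat.eq_zero_of_not_dvd hrq1, zero_add] at hv
    have hm : r ^ padicValNat r ((Polynomial.cyclotomic (orderOf ((Fintype.card F : ℕ) : ZMod r)) ℤ).eval
        ((Fintype.card F : ℕ) : ℤ)).natAbs ∣
        Fintype.card F ^ orderOf ((Fintype.card F : ℕ) : ZMod r) - 1 := by
      rw [val_cyclotomic r _ hq2 hrq]; exact pow_padicValNat_dvd
    obtain ⟨f, hf⟩ := exists_torus_SL r hrq n _ hm hd1
    refine sylow_equiv_of_hom P f hf ?_
    rw [hv, Nat.card_fun, Nat.card_eq_fintype_card (α := Fin _), Fintype.card_fin,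
      (Nat.card_congr Multiplicative.toAdd).trans (Nat.card_zmod _), ← pow_mul, mul_comm]

end Cfsg.Agent.S2379
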