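import Cfsg.Statements.S2381
import Mathlib
import Cfsg.Agent.Lib.Helper14.SylowTorus4

set_option autoImplicit false
open Cfsg

namespace Cfsg.Agent.S2381


open Cfsg.Agent.Lib.Helper14.SylowTorus in
/-- Sylow subgroups of `Sp_{2n}(q)` for large primes. Let `F` be a field with `q` elements and `r` an odd prime with `r > n` and `r ∤ q` (so `r` does not divide the order `2^n n!` of the Weyl group). Let `d` be the multiplicative order of `q` modulo `r`, `a` the number of `i` with `1 ≤ i ≤ n` and `d ∣ 2i` (the degrees being `2, 4, …, 2n`), and `m` the `r`-part of the value at `q` of the `d`-th cyclotomic polynomial. Then every Sylow `r`-subgroup of the symplectic group `Sp_{2n}(q)` is a direct product of `a` cyclic groups of order `m`. -/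
theorem result {F : Type*} [Field F] [Fintype F] {q : ℕ} (hq : Fintype.card F = q) (n : ℕ)
    (r : ℕ) [Fact r.Prime] (hr2 : r ≠ 2) (hrn : n < r) (hrq : ¬ r ∣ q) (P : Sylow r ↥(Matrix.symplecticGroup (Fin n) F)) :
    Nonempty (↥(P : Subgroup ↥(Matrix.symplecticGroup (Fin n) F)) ≃*
      (Fin ((Finset.Icc 1 n).filter (fun i => orderOf (q : ZMod r) ∣ 2 * i)).card →
        Multiplicative (ZMod (r ^ padicValNat r ((Polynomial.cyclotomic (orderOf (q : ZMod r)) ℤ).eval (q : ℤ)).natAbs)))) := by
  subst hq
  have hq2 : 2 ≤ Fintype.card F := Fintype.one_lt_card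
  have hd0 := order_pos r _ hrq
  have hm : r ^ padicValNat r ((Polynomial.cyclotomic (orderOf ((Fintype.card F : ℕ) : ZMod r)) ℤ).eval
      ((Fintype.card F : ℕ) : ℤ)).natAbs ∣
      Fintype.card F ^ orderOf ((Fintype.card F : ℕ) : ZMod r) - 1 := by
    rw [val_cyclotomic r _ hq2 hrq]; exact pow_padicValNat_dvd
  obtain ⟨φ, hφ⟩ := exists_torus_Sp r hrq n _ hm
  rw [card_filter _ hd0 n]
  refine sylow_equiv_of_hom P φ hφ ?_
  rw [val_Sp r hrq hr2 n hrn, card_filter _ hd0 n, Nat.card_fun,
    Nat.card_eq_fintype_card (α := Fin _), Fintype.card_fin,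
    (Nat.card_congr Multiplicative.toAdd).trans (Nat.card_zmod _), ← pow_mul, mul_comm]

end Cfsg.Agent.S2381
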