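import Cfsg.Statements.S2388
import Mathlib
import Cfsg.Agent.Lib.Helper14.SSConj2

set_option autoImplicit false
open Cfsg

namespace Cfsg.Agent.S2388


open Cfsg.Agent.Lib.Helper14.SSConj in
theorem mss_sl {F : Type*} [Field F] [Fintype F] (p : ℕ) [Fact p.Prime] [CharP F p] (n : ℕ)
    (g : Matrix.SpecialLinearGroup (Fin n) F) (hg : (orderOf g).Coprime p) :
    MSS (g : Matrix (Fin n) (Fin n) F) := by
  apply mss_of_pow_eq_one _ (orderOf g)
  · intro h0
    rw [CharP.cast_eq_zero_iff F p] at h0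
    have hp : p.Prime := Fact.out
    exact (Nat.Prime.coprime_iff_not_dvd hp).mp hg.symm h0
  · rw [← Matrix.SpecialLinearGroup.coe_pow, pow_orderOf_eq_one]
    rfl

/-- In `SL_n(q)`, `q` a power of the prime `p`, two elements of order prime to `p` with the same characteristic polynomial are conjugate in `SL_n(q)` (not merely in `GL_n`). -/
theorem result {F : Type*} [Field F] [Fintype F] (p : ℕ) [Fact p.Prime] [CharP F p] (n : ℕ)
    (g h : Matrix.SpecialLinearGroup (Fin n) F) (hg : (orderOf g).Coprime p) (hh : (orderOf h).Coprime p)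
    (hc : (g : Matrix (Fin n) (Fin n) F).charpoly = (h : Matrix (Fin n) (Fin n) F).charpoly) : IsConj g h := by
  rcases Nat.eq_zero_or_pos n with rfl | hn
  · have hgh : g = h := Subtype.ext (Subsingleton.elim _ _)
    rw [hgh]
  · obtain ⟨Y, hY, hYg⟩ := Cfsg.Agent.Lib.Helper14.SSConj.sl_conj_of_mss hn _ _
      (mss_sl p n g hg) (mss_sl p n h hh) hc
    let y : Matrix.SpecialLinearGroup (Fin n) F := ⟨Y, hY⟩
    have hy : y * g = h * y := Subtype.ext hYg
    refine isConj_iff.mpr ⟨y, ?_⟩
    rw [mul_inv_eq_iff_eq_mul]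
    exact hy

end Cfsg.Agent.S2388
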