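import Cfsg.Statements.S2384
import Mathlib
import Cfsg.Agent.Lib.Helper14.SSConj3
import Cfsg.Agent.S2388

set_option autoImplicit false
open Cfsg

namespace Cfsg.Agent.S2384


theorem coeff_zero_eq {F : Type*} [Field F] (n : ℕ) (A : Matrix (Fin n) (Fin n) F) :
    A.charpoly.coeff 0 = (-1) ^ n ↔ A.det = 1 := by
  rw [Matrix.det_eq_sign_charpoly_coeff, Fintype.card_fin]
  have h1 : ((-1 : F) ^ n) * ((-1 : F) ^ n) = 1 := by
    rw [← mul_pow]
    simp
  constructor
  · intro h
    rw [h, h1]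
  · intro h
    calc A.charpoly.coeff 0 = ((-1 : F) ^ n) * ((-1 : F) ^ n) * A.charpoly.coeff 0 := by
          rw [h1, one_mul]
      _ = (-1 : F) ^ n := by rw [mul_assoc, h, mul_one]

/-- In `SL_n(q)`, `q` a power of the prime `p`, the number of conjugacy classes of elements of order prime to `p` (the semisimple classes) is `q^(n-1)`. -/
theorem result {F : Type*} [Field F] [Fintype F] {q : ℕ} (hq : Fintype.card F = q) (p : ℕ) [Fact p.Prime] [CharP F p] (n : ℕ) (hn : 1 ≤ n) :
    Nat.card {c : ConjClasses (Matrix.SpecialLinearGroup (Fin n) F) //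
      ∃ g : Matrix.SpecialLinearGroup (Fin n) F, ConjClasses.mk g = c ∧ (orderOf g).Coprime p} = q ^ (n - 1) := by
  classical
  rw [Cfsg.Agent.Lib.Helper14.SSConj.card_classes
    (fun g : Matrix.SpecialLinearGroup (Fin n) F => (orderOf g).Coprime p)
    (fun g => (g : Matrix (Fin n) (Fin n) F).charpoly)
    (fun c => c.Monic ∧ c.natDegree = n ∧ c.coeff 0 = (-1) ^ n),
    Cfsg.Agent.Lib.Helper14.SSConj.card_monic n hn (fun x => x = (-1) ^ n)]
  · have h1 : Nat.card {x : F // x = (-1) ^ n} = 1 := by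
      rw [Nat.card_eq_one_iff_unique]
      exact ⟨⟨fun a b => Subtype.ext (a.2.trans b.2.symm)⟩, ⟨⟨_, rfl⟩⟩⟩
    rw [h1, Nat.card_eq_fintype_card, hq, one_mul]
  · intro g h hgh
    obtain ⟨x, hx⟩ := isConj_iff.mp hgh
    rw [← hx]
    have hxx : (x : Matrix (Fin n) (Fin n) F) * (x⁻¹ : Matrix.SpecialLinearGroup (Fin n) F) = 1 := by
      rw [← Matrix.SpecialLinearGroup.coe_mul, mul_inv_cancel]
      rfl
    have hxx' : ((x⁻¹ : Matrix.SpecialLinearGroup (Fin n) F) : Matrix (Fin n) (Fin n) F) * x = 1 := by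
      rw [← Matrix.SpecialLinearGroup.coe_mul, inv_mul_cancel]
      rfl
    let u : (Matrix (Fin n) (Fin n) F)ˣ := ⟨x, (x⁻¹ : Matrix.SpecialLinearGroup (Fin n) F), hxx, hxx'⟩
    have h2 := Matrix.charpoly_units_conj u (g : Matrix (Fin n) (Fin n) F)
    rw [← Matrix.coe_units_inv] at h2
    rw [Matrix.SpecialLinearGroup.coe_mul, Matrix.SpecialLinearGroup.coe_mul]
    exact h2.symm
  · intro g h hg hh hc
    exact Cfsg.Agent.S2388.result p n g h hg hh hc
  · intro g hg
    refine ⟨Matrix.charpoly_monic _, by simp, ?_⟩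
    rw [coeff_zero_eq]
    exact g.2
  · intro c hc
    obtain ⟨A, hA, hAc⟩ := Cfsg.Agent.Lib.Helper14.SSConj.exists_mss_charpoly n c hc.1 hc.2.1
    have hdet : A.det = 1 := by
      rw [← coeff_zero_eq, hAc]
      exact hc.2.2
    let g : Matrix.SpecialLinearGroup (Fin n) F := ⟨A, hdet⟩
    refine ⟨g, ?_, hAc⟩
    apply Cfsg.Agent.Lib.Helper14.SSConj.coprime_orderOf_of_pow
    intro k hk
    apply Subtype.ext
    have hk' : A ^ (p * k) = 1 := by
      have := congrArg Subtype.val hk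
      rw [Matrix.SpecialLinearGroup.coe_pow] at this
      exact this
    rw [Matrix.SpecialLinearGroup.coe_pow]
    exact Cfsg.Agent.Lib.Helper14.SSConj.pow_eq_one_of_mss p A hA k hk'

end Cfsg.Agent.S2384
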