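import Cfsg.Statements.S2387
import Mathlib
import Cfsg.Agent.Lib.Helper14.SSConj3

set_option autoImplicit false
open scoped MatrixGroups
open Cfsg

namespace Cfsg.Agent.S2387


open Cfsg.Agent.Lib.Helper14.SSConj in
theorem mss_gl {F : Type*} [Field F] [Fintype F] (p : ℕ) [Fact p.Prime] [CharP F p] (n : ℕ)
    (g : GL (Fin n) F) (hg : (orderOf g).Coprime p) :
    MSS (g : Matrix (Fin n) (Fin n) F) := by
  apply mss_of_pow_eq_one _ (orderOf g)
  · intro h0
    rw [CharP.cast_eq_zero_iff F p] at h0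
    have hp : p.Prime := Fact.out
    exact (Nat.Prime.coprime_iff_not_dvd hp).mp hg.symm h0
  · rw [← Units.val_pow_eq_pow_val, pow_orderOf_eq_one]
    rfl

theorem coeff_zero_ne {F : Type*} [Field F] (n : ℕ) (A : Matrix (Fin n) (Fin n) F) :
    A.charpoly.coeff 0 ≠ 0 ↔ A.det ≠ 0 := by
  rw [Matrix.det_eq_sign_charpoly_coeff]
  simp

/-- In `GL_n(q)` with `n ≥ 1`, `q` a power of the prime `p`, the number of conjugacy classes of elements of order prime to `p` (diagonalisable over the algebraic closure; determined by the characteristic polynomial) is `(q - 1) q^(n-1)`. -/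
theorem result {F : Type*} [Field F] [Fintype F] {q : ℕ} (hq : Fintype.card F = q) (p : ℕ) [Fact p.Prime] [CharP F p] (n : ℕ) (hn : 1 ≤ n) :
    Nat.card {c : ConjClasses (GL (Fin n) F) // ∃ g : GL (Fin n) F, ConjClasses.mk g = c ∧ (orderOf g).Coprime p} = (q - 1) * q ^ (n - 1) := by
  classical
  rw [Cfsg.Agent.Lib.Helper14.SSConj.card_classes (fun g : GL (Fin n) F => (orderOf g).Coprime p)
    (fun g => (g : Matrix (Fin n) (Fin n) F).charpoly)
    (fun c => c.Monic ∧ c.natDegree = n ∧ c.coeff 0 ≠ 0),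
    Cfsg.Agent.Lib.Helper14.SSConj.card_monic n hn (fun x => x ≠ 0)]
  · have h1 : Nat.card {x : F // x ≠ 0} = q - 1 := by
      rw [Nat.card_congr (unitsEquivNeZero : Fˣ ≃ {a : F // a ≠ 0}).symm, Nat.card_units, Nat.card_eq_fintype_card,
        hq]
    rw [h1, Nat.card_eq_fintype_card, hq]
  · intro g h hgh
    obtain ⟨x, hx⟩ := isConj_iff.mp hgh
    rw [← hx]
    rw [Units.val_mul, Units.val_mul, Matrix.coe_units_inv]
    exact (Matrix.charpoly_units_conj x g.val).symm
  · intro g h hg hh hc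
    obtain ⟨X, hX, hXg⟩ := Cfsg.Agent.Lib.Helper14.SSConj.conj_of_mss _ _ (mss_gl p n g hg)
      (mss_gl p n h hh) hc
    let x : GL (Fin n) F := Matrix.GeneralLinearGroup.mkOfDetNeZero X hX
    have hx : x * g = h * x := Units.ext hXg
    refine isConj_iff.mpr ⟨x, ?_⟩
    rw [mul_inv_eq_iff_eq_mul]
    exact hx
  · intro g hg
    refine ⟨Matrix.charpoly_monic _, by simp, ?_⟩
    rw [coeff_zero_ne]
    exact ((Matrix.isUnit_iff_isUnit_det _).mp g.isUnit).ne_zero
  · intro c hc
    obtain ⟨A, hA, hAc⟩ := Cfsg.Agent.Lib.Helper14.SSConj.exists_mss_charpoly n c hc.1 hc.2.1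
    have hdet : A.det ≠ 0 := by
      rw [← coeff_zero_ne, hAc]
      exact hc.2.2
    let g : GL (Fin n) F := Matrix.GeneralLinearGroup.mkOfDetNeZero A hdet
    refine ⟨g, ?_, hAc⟩
    apply Cfsg.Agent.Lib.Helper14.SSConj.coprime_orderOf_of_pow
    intro k hk
    apply Units.ext
    have hk' : A ^ (p * k) = 1 := by
      have := congrArg Units.val hk
      rw [Units.val_pow_eq_pow_val] at this
      exact this
    rw [Units.val_pow_eq_pow_val]
    exact Cfsg.Agent.Lib.Helper14.SSConj.pow_eq_one_of_mss p A hA k hk'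

end Cfsg.Agent.S2387
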