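import Cfsg.Statements.S2391
import Mathlib

set_option autoImplicit false
open Cfsg

namespace Cfsg.Agent.S2391

universe u v w

theorem exists_fixed_mod {F : Type u} [Field F] (p : ℕ) [Fact p.Prime] [CharP F p]
    {E : Type v} [AddCommGroup E] [Module F E] [Finite E] {U : Type w} [Group U]
    (hU : IsPGroup p U) (ρ : U →* Module.End F E) (W : Submodule F E)
    (hW : ∀ u, ∀ v ∈ W, ρ u v ∈ W) (hne : W ≠ ⊤) :
    ∃ v, v ∉ W ∧ ∀ u, ρ u v - v ∈ W := by
  have hp : p.Prime := Fact.out
  let act : MulAction U (E ⧸ W) :=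
    { smul := fun u x => W.mapQ W (ρ u) (fun v hv => hW u v hv) x
      one_smul := fun x => by
        induction x using Submodule.Quotient.induction_on with | _ v => ?_
        show W.mapQ W (ρ 1) _ (Submodule.Quotient.mk v) = _
        rw [Submodule.mapQ_apply, map_one]; rfl
      mul_smul := fun u u' x => by
        induction x using Submodule.Quotient.induction_on with | _ v => ?_
        show W.mapQ W (ρ (u * u')) _ (Submodule.Quotient.mk v) =
          W.mapQ W (ρ u) _ (W.mapQ W (ρ u') _ (Submodule.Quotient.mk v))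
        rw [Submodule.mapQ_apply, Submodule.mapQ_apply, Submodule.mapQ_apply, map_mul]; rfl }
  have hsmul : ∀ (u : U) (v : E), u • (Submodule.Quotient.mk v : E ⧸ W) =
      Submodule.Quotient.mk (ρ u v) := fun u v => rfl
  have hnt : Nontrivial (E ⧸ W) := Submodule.Quotient.nontrivial_iff.mpr hne
  have hfin : Finite (E ⧸ W) := Finite.of_surjective _ (Submodule.Quotient.mk_surjective W)
  have hdvd : p ∣ Nat.card (E ⧸ W) := by
    obtain ⟨x, hx⟩ := exists_ne (0 : E ⧸ W)
    have h1 : p • x = 0 := by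
      rw [← Nat.cast_smul_eq_nsmul F, CharP.cast_eq_zero, zero_smul]
    have h2 : addOrderOf x ∣ p := addOrderOf_dvd_of_nsmul_eq_zero h1
    have h3 : addOrderOf x = p := by
      rcases (Nat.dvd_prime hp).mp h2 with h | h
      · exact absurd (AddMonoid.addOrderOf_eq_one_iff.mp h) hx
      · exact h
    rw [← h3]
    exact addOrderOf_dvd_natCard x
  have h0 : (0 : E ⧸ W) ∈ MulAction.fixedPoints U (E ⧸ W) := by
    intro u
    have : (0 : E ⧸ W) = Submodule.Quotient.mk 0 := rfl
    rw [this, hsmul, map_zero]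
  obtain ⟨b, hb, hb0⟩ := hU.exists_fixed_point_of_prime_dvd_card_of_fixed_point (E ⧸ W) hdvd h0
  obtain ⟨v, rfl⟩ := Submodule.Quotient.mk_surjective W b
  refine ⟨v, ?_, ?_⟩
  · intro hv
    apply hb0
    exact ((Submodule.Quotient.mk_eq_zero W).mpr hv).symm
  · intro u
    have := hb u
    rw [hsmul] at this
    exact (Submodule.Quotient.eq W).mp this

section chain

variable {F : Type u} [Field F] {E : Type v} [AddCommGroup E] [Module F E] {G : Type w} [Group G]
  (ρ : G →* Module.End F E) (U : Subgroup G)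

noncomputable def chain : ℕ → Submodule F E
  | 0 => ⊥
  | (j + 1) => ⨅ u : U, (chain j).comap (ρ u - 1)

theorem mem_chain_succ (j : ℕ) (v : E) :
    v ∈ chain ρ U (j + 1) ↔ ∀ u ∈ U, ρ u v - v ∈ chain ρ U j := by
  simp only [chain, Submodule.mem_iInf, Submodule.mem_comap, LinearMap.sub_apply,
    Module.End.one_apply]
  exact ⟨fun h u hu => h ⟨u, hu⟩, fun h u => h u u.2⟩

theorem chain_mono (j : ℕ) : chain ρ U j ≤ chain ρ U (j + 1) := by
  induction j with
  | zero => simp [chain]
  | succ j ih =>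
    intro v hv
    rw [mem_chain_succ] at hv ⊢
    intro u hu
    exact ih (hv u hu)

theorem chain_stable (j : ℕ) (u : G) (hu : u ∈ U) (v : E) (hv : v ∈ chain ρ U j) :
    ρ u v ∈ chain ρ U j := by
  cases j with
  | zero =>
    simp only [chain, Submodule.mem_bot] at hv ⊢
    rw [hv, map_zero]
  | succ j =>
    have h1 := (mem_chain_succ ρ U j v).mp hv u hu
    have h2 := chain_mono ρ U j h1
    have : ρ u v = (ρ u v - v) + v := by abel
    rw [this]
    exact Submodule.add_mem _ h2 hv

theorem chain_norm (j : ℕ) (g : G) (hg : g ∈ Subgroup.normalizer (U : Set G)) :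
    ∀ v, v ∈ chain ρ U j → ρ g v ∈ chain ρ U j := by
  induction j with
  | zero =>
    intro v hv
    simp only [chain, Submodule.mem_bot] at hv ⊢
    rw [hv, map_zero]
  | succ j ih =>
    intro v hv
    rw [mem_chain_succ] at hv ⊢
    intro u hu
    have h1 : g⁻¹ * u * g ∈ U := (Subgroup.mem_normalizer_iff''.mp hg u).mp hu
    have h2 := ih _ (hv _ h1)
    have h3 : ρ u (ρ g v) - ρ g v = ρ g (ρ (g⁻¹ * u * g) v - v) := by
      rw [map_sub, ← Module.End.mul_apply, ← Module.End.mul_apply, ← map_mul, ← map_mul]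
      congr 3
      group
    rw [h3]
    exact h2

theorem chain_strict (p : ℕ) [Fact p.Prime] [CharP F p] [Finite E] (hU : IsPGroup p U) (j : ℕ)
    (h : chain ρ U j ≠ ⊤) : chain ρ U j < chain ρ U (j + 1) := by
  obtain ⟨v, hv1, hv2⟩ := exists_fixed_mod p hU (ρ.comp U.subtype) (chain ρ U j)
    (fun u v hv => chain_stable ρ U j u u.2 v hv) h
  refine lt_of_le_of_ne (chain_mono ρ U j) ?_
  intro heq
  apply hv1
  rw [heq, mem_chain_succ]
  intro u hu
  exact hv2 ⟨u, hu⟩

theorem chain_top [FiniteDimensional F E] (p : ℕ) [Fact p.Prime] [CharP F p] [Finite E]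
    (hU : IsPGroup p U) : ∃ m, chain ρ U m = ⊤ := by
  have key : ∀ j, chain ρ U j = ⊤ ∨ j ≤ Module.finrank F (chain ρ U j) := by
    intro j
    induction j with
    | zero => right; exact Nat.zero_le _
    | succ j ih =>
      by_cases h : chain ρ U j = ⊤
      · left
        exact top_le_iff.mp (h ▸ chain_mono ρ U j)
      · right
        have h1 := chain_strict ρ U p hU j h
        have h2 := Submodule.finrank_lt_finrank_of_lt h1
        rcases ih with h3 | h3
        · exact absurd h3 h
        · omega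
  refine ⟨Module.finrank F E + 1, ?_⟩
  rcases key (Module.finrank F E + 1) with h | h
  · exact h
  · have := Submodule.finrank_le (chain ρ U (Module.finrank F E + 1))
    omega

end chain

noncomputable def rho {F : Type u} [Field F] (n : ℕ) :
    Matrix.SpecialLinearGroup (Fin n) F →* Module.End F (Fin n → F) where
  toFun g := Matrix.mulVecLin (g : Matrix (Fin n) (Fin n) F)
  map_one' := by
    ext v
    simp
  map_mul' g h := by
    ext v
    simp

theorem rho_apply {F : Type u} [Field F] (n : ℕ) (g : Matrix.SpecialLinearGroup (Fin n) F)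
    (v : Fin n → F) : rho n g v = (g : Matrix (Fin n) (Fin n) F).mulVec v := rfl

theorem result {F : Type*} [Field F] [Fintype F] (p : ℕ) [Fact p.Prime] [CharP F p] (n : ℕ)
    (U : Subgroup (Matrix.SpecialLinearGroup (Fin n) F)) (hU : IsPGroup p ↥U) (hne : U ≠ ⊥) :
    ∃ (k : ℕ) (V : Fin (k + 2) → Submodule F (Fin n → F)), 1 ≤ k ∧ StrictMono V ∧ V 0 = ⊥ ∧ V (Fin.last (k + 1)) = ⊤ ∧
      (∀ g ∈ Subgroup.normalizer (U : Set (Matrix.SpecialLinearGroup (Fin n) F)), ∀ i, (V i).map (Matrix.mulVecLin (g : Matrix (Fin n) (Fin n) F)) = V i) ∧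
      (∀ u ∈ U, ∀ i : Fin (k + 1), ∀ v ∈ V i.succ, (u : Matrix (Fin n) (Fin n) F).mulVec v - v ∈ V (Fin.castSucc i)) := by
  classical
  have hm := chain_top (rho (F := F) n) U p hU
  have hm_top : chain (rho (F := F) n) U (Nat.find hm) = ⊤ := Nat.find_spec hm
  have hlt : ∀ j, j < Nat.find hm → chain (rho (F := F) n) U j ≠ ⊤ := fun j hj => Nat.find_min hm hj
  obtain ⟨u₀, hu₀, hu₀1⟩ : ∃ u ∈ U, u ≠ 1 := by
    by_contra hcon
    push Not at hcon
    exact hne ((Subgroup.eq_bot_iff_forall U).mpr hcon)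
  have hnt : Nontrivial (Fin n → F) := by
    rcases Nat.eq_zero_or_pos n with h | h
    · subst h
      exact absurd (Subsingleton.elim u₀ 1) hu₀1
    · have : Nonempty (Fin n) := ⟨⟨0, h⟩⟩
      infer_instance
  have h0 : chain (rho (F := F) n) U 0 ≠ ⊤ := by
    show (⊥ : Submodule F (Fin n → F)) ≠ ⊤
    exact bot_ne_top
  have h1 : chain (rho (F := F) n) U 1 ≠ ⊤ := by
    intro h
    apply hu₀1
    apply Matrix.SpecialLinearGroup.ext
    intro i j
    have h2 : Pi.single j (1 : F) ∈ chain (rho (F := F) n) U 1 := by rw [h]; trivial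
    rw [mem_chain_succ] at h2
    have h3 := h2 u₀ hu₀
    simp only [chain, Submodule.mem_bot, rho_apply, sub_eq_zero] at h3
    have h4 := congrFun h3 i
    rw [Matrix.mulVec_single_one] at h4
    simp only [Matrix.col_apply] at h4
    rw [h4]
    simp [Matrix.one_apply, Pi.single_apply]
  have hm2 : 2 ≤ Nat.find hm := by
    by_contra hcon
    have : Nat.find hm = 0 ∨ Nat.find hm = 1 := by omega
    rcases this with h | h
    · rw [h] at hm_top; exact h0 hm_top
    · rw [h] at hm_top; exact h1 hm_top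
  obtain ⟨k, hk⟩ : ∃ k, Nat.find hm = k + 1 := ⟨Nat.find hm - 1, by omega⟩
  refine ⟨k, fun i => chain (rho (F := F) n) U i, by omega, ?_, rfl, ?_, ?_, ?_⟩
  · rw [Fin.strictMono_iff_lt_succ]
    intro i
    exact chain_strict (rho (F := F) n) U p hU i (hlt i (by have := i.isLt; omega))
  · show chain (rho (F := F) n) U (k + 1) = ⊤
    rw [← hk]; exact hm_top
  · intro g hg i
    apply le_antisymm
    · rw [Submodule.map_le_iff_le_comap]
      intro v hv
      exact chain_norm (rho (F := F) n) U i g hg v hv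
    · intro v hv
      refine ⟨rho n g⁻¹ v, chain_norm (rho (F := F) n) U i g⁻¹ (inv_mem hg) v hv, ?_⟩
      show rho n g (rho n g⁻¹ v) = v
      rw [← Module.End.mul_apply, ← map_mul, mul_inv_cancel, map_one]
      rfl
  · intro u hu i v hv
    exact (mem_chain_succ (rho (F := F) n) U i v).mp hv u hu

end Cfsg.Agent.S2391
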