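import Cfsg.Statements.S2392
import Mathlib
import Cfsg.Agent.Lib.Helper14.WeightSL2

set_option autoImplicit false
open scoped MatrixGroups
open Cfsg

namespace Cfsg.Agent.S2392


open Cfsg.Agent.Lib.Helper14.WeightSL Cfsg.Agent.Lib.Helper14.WeightBound in
/-- A lower bound for representations in cross characteristic: for `n ≥ 3` and a field `F` with `q` elements, every homomorphism from `SL_n(F)` to `GL_d(K)`, `K` a field of characteristic different from that of `F`, whose kernel is central has `d ≥ q^(n-1) - 1`. -/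
theorem result {F : Type*} [Field F] [Fintype F] {q : ℕ} (hq : Fintype.card F = q) (n : ℕ) (hn : 3 ≤ n)
    {K : Type*} [Field K] (hK : ringChar K ≠ ringChar F) {d : ℕ}
    (ρ : Matrix.SpecialLinearGroup (Fin n) F →* GL (Fin d) K) (hker : ρ.ker ≤ Subgroup.center (Matrix.SpecialLinearGroup (Fin n) F)) :
    q ^ (n - 1) - 1 ≤ d := by
  subst hq
  obtain ⟨m, rfl⟩ : ∃ m, n = m + 1 := ⟨n - 1, by omega⟩
  have hp : (ringChar F).Prime := CharP.char_is_prime F (ringChar F)
  have : Fact (ringChar F).Prime := ⟨hp⟩
  have hpK : ((ringChar F : ℕ) : K) ≠ 0 := by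
    intro h
    have h1 := ringChar.dvd h
    rcases (Nat.dvd_prime hp).mp h1 with h2 | h2
    · exact CharP.ringChar_ne_one h2
    · exact hK h2
  have hpKb : ((ringChar F : ℕ) : AlgebraicClosure K) ≠ 0 := by
    intro h
    apply hpK
    apply (algebraMap K (AlgebraicClosure K)).injective
    rw [map_natCast, h, map_zero]
  have key := weight_bound
    ((Matrix.GeneralLinearGroup.map (algebraMap K (AlgebraicClosure K))).comp ρ)
    (ringChar F) hpKb (Qs F (m + 1)) (fun x hx y hy => Qs_comm x y hx hy)
    (fun x hx => Qs_pow (ringChar F) x hx) ?_ ?_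
  · calc Fintype.card F ^ (m + 1 - 1) - 1 ≤ Nat.card (Qs F (m + 1)) - 1 :=
          Nat.sub_le_sub_right (card_Qs m) 1
      _ ≤ d := key
  · rintro x ⟨a, ha, rfl⟩ y ⟨b, hb, rfl⟩ hx hy
    exact exists_conj hn a b ha hb (by rintro rfl; exact hx tau0_zero)
      (by rintro rfl; exact hy tau0_zero)
  · obtain ⟨x, hxQ, hxc⟩ := exists_not_center (F := F) (n := m + 1) (by omega)
    refine ⟨x, hxQ, ?_⟩
    intro h
    apply hxc
    apply hker
    rw [MonoidHom.mem_ker]
    apply Units.ext
    ext i j
    have h1 := congrArg (fun M : GL (Fin d) (AlgebraicClosure K) =>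
      (M : Matrix (Fin d) (Fin d) (AlgebraicClosure K)) i j) h
    simp only [MonoidHom.comp_apply] at h1
    rw [Matrix.GeneralLinearGroup.map_apply] at h1
    apply (algebraMap K (AlgebraicClosure K)).injective
    rw [h1]
    show (1 : Matrix (Fin d) (Fin d) (AlgebraicClosure K)) i j =
      algebraMap K (AlgebraicClosure K) ((1 : Matrix (Fin d) (Fin d) K) i j)
    by_cases hij : i = j
    · rw [hij, Matrix.one_apply_eq, Matrix.one_apply_eq, map_one]
    · rw [Matrix.one_apply_ne hij, Matrix.one_apply_ne hij, map_zero]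

end Cfsg.Agent.S2392
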