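import Cfsg.Statements.S2393
import Mathlib
import Cfsg.Agent.Lib.Helper14.WeightSp3

set_option autoImplicit false
open scoped MatrixGroups
open Cfsg

namespace Cfsg.Agent.S2393


open Cfsg.Agent.Lib.Helper14.WeightSL Cfsg.Agent.Lib.Helper14.WeightBound Cfsg.Agent.Lib.Helper14.WeightSp in
/-- A lower bound for representations in cross characteristic: for `n ≥ 2` and a field `F` with `q` elements, `q` odd, every homomorphism from the symplectic group `Sp_{2n}(F)` to `GL_d(K)`, `K` a field of characteristic different from that of `F`, whose kernel is central has `d ≥ q^(n-1)(q-1)/2`. -/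
theorem result {F : Type*} [Field F] [Fintype F] {q : ℕ} (hq : Fintype.card F = q) (hodd : Odd q) (n : ℕ) (hn : 2 ≤ n)
    {K : Type*} [Field K] (hK : ringChar K ≠ ringChar F) {d : ℕ}
    (ρ : ↥(Matrix.symplecticGroup (Fin n) F) →* GL (Fin d) K) (hker : ρ.ker ≤ Subgroup.center ↥(Matrix.symplecticGroup (Fin n) F)) :
    q ^ (n - 1) * (q - 1) / 2 ≤ d := by
  subst hq
  obtain ⟨m, rfl⟩ : ∃ m, n = m + 1 := ⟨n - 1, by omega⟩
  have hp : (ringChar F).Prime := CharP.char_is_prime F (ringChar F)
  have : Fact (ringChar F).Prime := ⟨hp⟩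
  have hpK : ((ringChar F : ℕ) : K) ≠ 0 := by
    intro h
    have h1 := ringChar.dvd h
    rcases (Nat.dvd_prime hp).mp h1 with h2 | h2
    · exact CharP.ringChar_ne_one h2
    · exact hK h2
  have hpKb : ((ringChar F : ℕ) : AlgebraicClosure K) ≠ 0 := by
    intro h
    apply hpK
    apply (algebraMap K (AlgebraicClosure K)).injective
    rw [map_natCast, h, map_zero]
  have h2 : (2 : F) ≠ 0 := by
    intro h
    have h3 : ringChar F ∣ 2 := ringChar.dvd (by exact_mod_cast h)
    have h4 : ringChar F = 2 := (Nat.prime_dvd_prime_iff_eq hp Nat.prime_two).mp h3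
    have h5 := FiniteField.even_card_of_char_two h4
    exact (Nat.not_even_iff_odd.mpr hodd) (Nat.even_iff.mpr h5)
  have key := sp_bound m
    ((Matrix.GeneralLinearGroup.map (algebraMap K (AlgebraicClosure K))).comp ρ)
    (ringChar F) h2 hpKb ?_
  · rw [add_tsub_cancel_right]
    exact Nat.div_le_of_le_mul key
  · refine ⟨1, ?_⟩
    intro h
    apply aS_not_center (F := F) (n := m + 1)
    apply hker
    rw [MonoidHom.mem_ker]
    rw [one_smul] at h
    apply Units.ext
    ext i j
    have h1 := congrArg (fun M : GL (Fin d) (AlgebraicClosure K) =>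
      (M : Matrix (Fin d) (Fin d) (AlgebraicClosure K)) i j) h
    simp only [MonoidHom.comp_apply] at h1
    rw [Matrix.GeneralLinearGroup.map_apply] at h1
    apply (algebraMap K (AlgebraicClosure K)).injective
    rw [h1]
    show (1 : Matrix (Fin d) (Fin d) (AlgebraicClosure K)) i j =
      algebraMap K (AlgebraicClosure K) ((1 : Matrix (Fin d) (Fin d) K) i j)
    by_cases hij : i = j
    · rw [hij, Matrix.one_apply_eq, Matrix.one_apply_eq, map_one]
    · rw [Matrix.one_apply_ne hij, Matrix.one_apply_ne hij, map_zero]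

end Cfsg.Agent.S2393
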