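import Cfsg.Statements.S2402
import Mathlib
import Cfsg.Agent.Lib.Helper14.SLTwoGen

set_option autoImplicit false
open Cfsg

namespace Cfsg.Agent.S2402

/-- Explicit two-element generation of `PSL_{n+1}(K)` for a finite field `K` with more than three elements: let `k` generate the multiplicative group of `K`, `h = diag(k, k⁻¹, 1, …, 1)`, `x = 1 + E₁₂` (the elementary transvection) and `w` the monomial matrix with entries `1` in positions `(i, i+1)` and `(−1)^n` in position `(n+1, 1)`. Then `h` and `x·w` generate `SL_{n+1}(K)` modulo its centre: the subgroup they generate together with the centre is everything. -/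
theorem result {K : Type*} [Field K] [Fintype K] (hK : 3 < Fintype.card K) (n : ℕ) (hn : 1 ≤ n)
    (k : Kˣ) (hk : ∀ u : Kˣ, u ∈ Subgroup.zpowers k)
    (h x w : Matrix.SpecialLinearGroup (Fin (n + 1)) K)
    (hh : (h : Matrix (Fin (n + 1)) (Fin (n + 1)) K) =
      Matrix.diagonal (fun i => if i.val = 0 then (k : K) else if i.val = 1 then ((k⁻¹ : Kˣ) : K) else 1))
    (hx : (x : Matrix (Fin (n + 1)) (Fin (n + 1)) K) = Matrix.transvection (0 : Fin (n + 1)) (1 : Fin (n + 1)) 1)
    (hw : (w : Matrix (Fin (n + 1)) (Fin (n + 1)) K) =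
      Matrix.of (fun i j => if j.val = i.val + 1 then 1 else if i.val = n ∧ j.val = 0 then (-1) ^ n else 0)) :
    Subgroup.closure ({h, x * w} : Set (Matrix.SpecialLinearGroup (Fin (n + 1)) K)) ⊔
      Subgroup.center (Matrix.SpecialLinearGroup (Fin (n + 1)) K) = ⊤ := by
  classical
  obtain ⟨H, hH⟩ : ∃ H : Subgroup (Matrix.SpecialLinearGroup (Fin (n + 1)) K),
      H = Subgroup.closure ({h, x * w} : Set (Matrix.SpecialLinearGroup (Fin (n + 1)) K)) :=
    ⟨_, rfl⟩
  have hhH : h ∈ H := by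
    rw [hH]
    exact Subgroup.subset_closure (by simp)
  have hyH : x * w ∈ H := by
    rw [hH]
    exact Subgroup.subset_closure (by simp)
  suffices hs : H = ⊤ by
    rw [← hH, hs]
    exact top_sup_eq _
  have h01 : (0 : Fin (n + 1)) ≠ 1 := by
    intro h'
    have := congrArg Fin.val h'
    rw [Fin.val_zero, Fin.val_one', Nat.one_mod_eq_one.mpr (by omega)] at this
    exact zero_ne_one this
  have hv1 : (1 : Fin (n + 1)).val = 1 := by
    rw [Fin.val_one', Nat.one_mod_eq_one.mpr (by omega)]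
  obtain ⟨d, hd⟩ : ∃ d : Fin (n + 1) → K, d = fun i : Fin (n + 1) =>
      if i.val = 0 then (k : K) else if i.val = 1 then ((k⁻¹ : Kˣ) : K) else 1 := ⟨_, rfl⟩
  have hd0 : d 0 = (k : K) := by
    rw [hd]
    simp
  have hd1 : d 1 = ((k⁻¹ : Kˣ) : K) := by
    rw [hd]
    simp only [hv1]
    simp
  have hdne : ∀ i, d i ≠ 0 := by
    intro i
    rw [hd]
    show (if i.val = 0 then (k : K) else if i.val = 1 then ((k⁻¹ : Kˣ) : K) else 1) ≠ 0
    split_ifs
    · exact k.ne_zero
    · exact (k⁻¹).ne_zero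
    · exact one_ne_zero
  have hkk : (k : K) * ((k⁻¹ : Kˣ) : K) = 1 := by
    rw [← Units.val_mul, mul_inv_cancel, Units.val_one]
  have hhv : ∀ (v : Fin (n + 1) → K) (i : Fin (n + 1)),
      (Matrix.mulVec (h : Matrix (Fin (n + 1)) (Fin (n + 1)) K) v) i = d i * v i := by
    intro v i
    rw [hh, Matrix.mulVec_diagonal, hd]
  have hxT : x = Matrix.SpecialLinearGroup.transvection h01 1 := Subtype.ext hx
  have hwv := Cfsg.Agent.Lib.Helper14.SLTwoGen.w_mulVec n (w : Matrix (Fin (n + 1)) (Fin (n + 1)) K) hw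
  have tvv := fun (c : K) (v : Fin (n + 1) → K) (i : Fin (n + 1)) =>
    Cfsg.Agent.Lib.Helper2.SLGen.tv_mulVec_apply h01 c v i
  have tvv' : ∀ (c : K) (v : Fin (n + 1) → K) (i : Fin (n + 1)),
      (Matrix.mulVec (Matrix.transvection (0 : Fin (n + 1)) 1 c) v) i
        = if i = 0 then v 0 + c * v 1 else v i := tvv
  have hxv : ∀ (v : Fin (n + 1) → K) (i : Fin (n + 1)),
      (Matrix.mulVec (x : Matrix (Fin (n + 1)) (Fin (n + 1)) K) v) i = if i = 0 then v 0 + 1 * v 1 else v i := by
    intro v i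
    rw [hxT]
    exact tvv 1 v i
  -- order facts on k
  have hk2 : (k : K) ^ 2 ≠ 1 := by
    intro h2
    have h3 : k ^ 2 = 1 := Units.ext (by rw [Units.val_pow_eq_pow_val, h2, Units.val_one])
    have h4 : ∀ u : Kˣ, u ^ 2 = 1 := by
      intro u
      obtain ⟨z, rfl⟩ := Subgroup.mem_zpowers_iff.mp (hk u)
      rw [← zpow_natCast, ← zpow_mul, mul_comm, zpow_mul, zpow_natCast, h3, one_zpow]
    have h5 : Fintype.card Kˣ ≤ 2 := by
      have h6 : ∀ u : Kˣ, u = 1 ∨ u = -1 := by
        intro u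
        have h7 := h4 u
        have h8 : ((u : K) - 1) * ((u : K) + 1) = 0 := by
          have := congrArg Units.val h7
          rw [Units.val_pow_eq_pow_val, Units.val_one] at this
          linear_combination this
        rcases mul_eq_zero.mp h8 with h9 | h9
        · left
          exact Units.ext (by rw [Units.val_one]; linear_combination h9)
        · right
          exact Units.ext (by rw [Units.val_neg, Units.val_one]; linear_combination h9)
      calc Fintype.card Kˣ = (Finset.univ : Finset Kˣ).card := rfl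
        _ ≤ ({1, -1} : Finset Kˣ).card := Finset.card_le_card (by
            intro u _
            rcases h6 u with rfl | rfl <;> simp)
        _ ≤ 2 := Finset.card_le_two
    rw [Fintype.card_units] at h5
    omega
  have hk1 : (k : K) ≠ 1 := by
    intro h1
    apply hk2
    rw [h1, one_pow]
  obtain ⟨e, he⟩ : ∃ e : K, e = d (1 + 1) * (d 1)⁻¹ - 1 := ⟨_, rfl⟩
  obtain ⟨c₀, hc₀⟩ : ∃ c₀ : K, c₀ = (d 0 - d 1) * e * (d (1 + 1))⁻¹ := ⟨_, rfl⟩
  have he0 : e ≠ 0 := by
    rw [he, hd1]
    have hinv : (((k⁻¹ : Kˣ) : K))⁻¹ = (k : K) := by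
      rw [Units.val_inv_eq_inv_val, inv_inv]
    rw [hinv, hd]
    show (if (1 + 1 : Fin (n + 1)).val = 0 then (k : K)
      else if (1 + 1 : Fin (n + 1)).val = 1 then ((k⁻¹ : Kˣ) : K) else 1) * (k : K) - 1 ≠ 0
    split_ifs
    · intro h'
      apply hk2
      linear_combination h'
    · rename_i h1 h2
      exfalso
      have h3 : (1 + 1 : Fin (n + 1)) = 1 := Fin.ext (by rw [h2, hv1])
      have h4 : (1 : Fin (n + 1)) = 0 := by
        have := congrArg (fun t : Fin (n + 1) => t - 1) h3
        simpa using this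
      exact h01 h4.symm
    · intro h'
      apply hk1
      linear_combination h'
  have hc₀0 : c₀ ≠ 0 := by
    rw [hc₀]
    refine mul_ne_zero (mul_ne_zero ?_ he0) (inv_ne_zero (hdne _))
    rw [hd0, hd1]
    intro h'
    apply hk2
    have : (k : K) = ((k⁻¹ : Kˣ) : K) := by linear_combination h'
    calc (k : K) ^ 2 = (k : K) * (k : K) := by ring
      _ = (k : K) * ((k⁻¹ : Kˣ) : K) := by rw [← this]
      _ = 1 := hkk
  -- the conjugate g of h by x * w
  obtain ⟨G, hG⟩ : ∃ G : Matrix (Fin (n + 1)) (Fin (n + 1)) K,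
      G = Matrix.diagonal (fun i => d (i + 1)) * Matrix.transvection (0 : Fin (n + 1)) 1 e :=
    ⟨_, rfl⟩
  have hGv : ∀ (v : Fin (n + 1) → K) (i : Fin (n + 1)),
      (Matrix.mulVec G v) i = d (i + 1) * (if i = 0 then v 0 + e * v 1 else v i) := by
    intro v i
    rw [hG, ← Matrix.mulVec_mulVec, Matrix.mulVec_diagonal]
    congr 1
    exact tvv e v i
  have hi : G * ((x : Matrix (Fin (n + 1)) (Fin (n + 1)) K) * (w : Matrix (Fin (n + 1)) (Fin (n + 1)) K))
      = (x : Matrix (Fin (n + 1)) (Fin (n + 1)) K) * (w : Matrix (Fin (n + 1)) (Fin (n + 1)) K)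
        * (h : Matrix (Fin (n + 1)) (Fin (n + 1)) K) := by
    rw [Matrix.ext_iff_mulVec]
    intro v
    funext i
    simp only [← Matrix.mulVec_mulVec, hGv, hxv, hwv, hhv]
    by_cases hi0 : i = 0
    · subst hi0
      simp only [if_true, if_neg h01.symm, zero_add]
      have hd1' := hdne 1
      rw [he]
      field_simp
      ring
    · simp only [if_neg hi0]
      ring
  have hii : Matrix.transvection (0 : Fin (n + 1)) 1 c₀ * G
        * (h : Matrix (Fin (n + 1)) (Fin (n + 1)) K)
      = (h : Matrix (Fin (n + 1)) (Fin (n + 1)) K) * G := by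
    rw [Matrix.ext_iff_mulVec]
    intro v
    funext i
    simp only [← Matrix.mulVec_mulVec, tvv', hGv, hhv]
    by_cases hi0 : i = 0
    · subst hi0
      simp only [if_true, if_neg h01.symm, zero_add]
      have hd2 := hdne (1 + 1)
      rw [hc₀]
      field_simp
      ring
    · simp only [if_neg hi0]
      ring
  obtain ⟨g, hg⟩ : ∃ g : Matrix.SpecialLinearGroup (Fin (n + 1)) K,
      g = (x * w) * h * (x * w)⁻¹ := ⟨_, rfl⟩
  have hgH : g ∈ H := by
    rw [hg]
    exact H.mul_mem (H.mul_mem hyH hhH) (H.inv_mem hyH)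
  have hgG : (g : Matrix (Fin (n + 1)) (Fin (n + 1)) K) = G := by
    have e1 : g * (x * w) = (x * w) * h := by
      rw [hg]
      group
    have e2 : (g : Matrix (Fin (n + 1)) (Fin (n + 1)) K)
        * ((x : Matrix (Fin (n + 1)) (Fin (n + 1)) K) * (w : Matrix (Fin (n + 1)) (Fin (n + 1)) K))
        = (x : Matrix (Fin (n + 1)) (Fin (n + 1)) K) * (w : Matrix (Fin (n + 1)) (Fin (n + 1)) K)
        * (h : Matrix (Fin (n + 1)) (Fin (n + 1)) K) :=
      congrArg (fun t : Matrix.SpecialLinearGroup (Fin (n + 1)) K =>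
        (t : Matrix (Fin (n + 1)) (Fin (n + 1)) K)) e1
    have e3 : ((x : Matrix (Fin (n + 1)) (Fin (n + 1)) K) * (w : Matrix (Fin (n + 1)) (Fin (n + 1)) K))
        * (((x * w)⁻¹ : Matrix.SpecialLinearGroup (Fin (n + 1)) K) :
          Matrix (Fin (n + 1)) (Fin (n + 1)) K) = 1 :=
      congrArg (fun t : Matrix.SpecialLinearGroup (Fin (n + 1)) K =>
        (t : Matrix (Fin (n + 1)) (Fin (n + 1)) K)) (mul_inv_cancel (x * w))
    calc (g : Matrix (Fin (n + 1)) (Fin (n + 1)) K)
        = (g : Matrix (Fin (n + 1)) (Fin (n + 1)) K)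
          * (((x : Matrix (Fin (n + 1)) (Fin (n + 1)) K) * (w : Matrix (Fin (n + 1)) (Fin (n + 1)) K))
          * (((x * w)⁻¹ : Matrix.SpecialLinearGroup (Fin (n + 1)) K) :
            Matrix (Fin (n + 1)) (Fin (n + 1)) K)) := by rw [e3, mul_one]
      _ = G * (((x : Matrix (Fin (n + 1)) (Fin (n + 1)) K) * (w : Matrix (Fin (n + 1)) (Fin (n + 1)) K))
          * (((x * w)⁻¹ : Matrix.SpecialLinearGroup (Fin (n + 1)) K) :
            Matrix (Fin (n + 1)) (Fin (n + 1)) K)) := by
          rw [← mul_assoc, e2, ← hi, mul_assoc]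
      _ = G := by rw [e3, mul_one]
  have hT0 : Matrix.SpecialLinearGroup.transvection h01 c₀ ∈ H := by
    have e1 : Matrix.SpecialLinearGroup.transvection h01 c₀ * g * h = h * g := by
      apply Subtype.ext
      show Matrix.transvection (0 : Fin (n + 1)) 1 c₀ * (g : Matrix (Fin (n + 1)) (Fin (n + 1)) K)
          * (h : Matrix (Fin (n + 1)) (Fin (n + 1)) K)
        = (h : Matrix (Fin (n + 1)) (Fin (n + 1)) K) * (g : Matrix (Fin (n + 1)) (Fin (n + 1)) K)
      rw [hgG]
      exact hii
    have e2 : Matrix.SpecialLinearGroup.transvection h01 c₀ = h * g * h⁻¹ * g⁻¹ := by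
      rw [← e1]
      group
    rw [e2]
    exact H.mul_mem (H.mul_mem (H.mul_mem hhH hgH) (H.inv_mem hhH)) (H.inv_mem hgH)
  -- conjugation by h scales the root subgroup by k^2
  have hconj : ∀ c : K, h * Matrix.SpecialLinearGroup.transvection h01 c * h⁻¹
      = Matrix.SpecialLinearGroup.transvection h01 ((k : K) ^ 2 * c) := by
    intro c
    rw [mul_inv_eq_iff_eq_mul]
    apply Subtype.ext
    show (h : Matrix (Fin (n + 1)) (Fin (n + 1)) K)
        * Matrix.transvection (0 : Fin (n + 1)) 1 c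
      = Matrix.transvection (0 : Fin (n + 1)) 1 ((k : K) ^ 2 * c)
        * (h : Matrix (Fin (n + 1)) (Fin (n + 1)) K)
    rw [Matrix.ext_iff_mulVec]
    intro v
    funext i
    simp only [← Matrix.mulVec_mulVec, tvv', hhv]
    by_cases hi0 : i = 0
    · subst hi0
      simp only [if_true, hd0, hd1]
      linear_combination (-((k : K) * c * v 1)) * hkk
    · simp only [if_neg hi0]
  have hT_add : ∀ a b : K, Matrix.SpecialLinearGroup.transvection h01 (a + b)
      = Matrix.SpecialLinearGroup.transvection h01 a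
        * Matrix.SpecialLinearGroup.transvection h01 b := by
    intro a b
    apply Subtype.ext
    show Matrix.transvection (0 : Fin (n + 1)) 1 (a + b)
      = Matrix.transvection (0 : Fin (n + 1)) 1 a * Matrix.transvection (0 : Fin (n + 1)) 1 b
    rw [Matrix.transvection_mul_transvection_same (0 : Fin (n + 1)) 1 h01]
  have hup : ∀ c : K, Matrix.SpecialLinearGroup.transvection h01 c ∈ H →
      Matrix.SpecialLinearGroup.transvection h01 ((k : K) ^ 2 * c) ∈ H := by
    intro c hc
    rw [← hconj]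
    exact H.mul_mem (H.mul_mem hhH hc) (H.inv_mem hhH)
  have hdown : ∀ c : K, Matrix.SpecialLinearGroup.transvection h01 c ∈ H →
      Matrix.SpecialLinearGroup.transvection h01 ((((k⁻¹ : Kˣ) : K)) ^ 2 * c) ∈ H := by
    intro c hc
    have e1 := hconj ((((k⁻¹ : Kˣ) : K)) ^ 2 * c)
    have e2 : (k : K) ^ 2 * ((((k⁻¹ : Kˣ) : K)) ^ 2 * c) = c := by
      linear_combination (c * ((k : K) * ((k⁻¹ : Kˣ) : K) + 1)) * hkk
    rw [e2] at e1
    have e3 : Matrix.SpecialLinearGroup.transvection h01 ((((k⁻¹ : Kˣ) : K)) ^ 2 * c)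
        = h⁻¹ * Matrix.SpecialLinearGroup.transvection h01 c * h := by
      rw [← e1]
      group
    rw [e3]
    exact H.mul_mem (H.mul_mem (H.inv_mem hhH) hc) hhH
  have hz : ∀ (z : ℤ) (c : K), Matrix.SpecialLinearGroup.transvection h01 c ∈ H →
      Matrix.SpecialLinearGroup.transvection h01 ((((k ^ z : Kˣ) : K)) ^ 2 * c) ∈ H := by
    intro z
    induction z using Int.induction_on with
    | zero =>
      intro c hc
      rw [zpow_zero, Units.val_one, one_pow, one_mul]
      exact hc
    | succ m ih =>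
      intro c hc
      have := hup _ (ih c hc)
      rw [zpow_add_one, Units.val_mul]
      rw [show ((((k ^ (m : ℤ) : Kˣ) : K)) * (k : K)) ^ 2 * c
        = (k : K) ^ 2 * ((((k ^ (m : ℤ) : Kˣ) : K)) ^ 2 * c) by ring]
      exact this
    | pred m ih =>
      intro c hc
      have := hdown _ (ih c hc)
      rw [zpow_sub_one, Units.val_mul]
      rw [show ((((k ^ (-(m : ℤ)) : Kˣ) : K)) * ((k⁻¹ : Kˣ) : K)) ^ 2 * c
        = (((k⁻¹ : Kˣ) : K)) ^ 2 * ((((k ^ (-(m : ℤ)) : Kˣ) : K)) ^ 2 * c) by ring]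
      exact this
  have hsq : ∀ s : K, Matrix.SpecialLinearGroup.transvection h01 (s ^ 2 * c₀) ∈ H := by
    intro s
    by_cases hs0 : s = 0
    · rw [hs0, zero_pow two_ne_zero, zero_mul, Matrix.SpecialLinearGroup.transvection_coeff_zero]
      exact H.one_mem
    · obtain ⟨z, hz'⟩ := Subgroup.mem_zpowers_iff.mp (hk (Units.mk0 s hs0))
      have := hz z c₀ hT0
      rw [hz', Units.val_mk0] at this
      exact this
  have hbase : ∀ (h' : (0 : Fin (n + 1)) ≠ 1) (c : K),
      Matrix.SpecialLinearGroup.transvection h' c ∈ H := by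
    intro h' c
    obtain ⟨a, b, hab⟩ := Cfsg.Agent.Lib.Helper14.SLTwoGen.sum_two_sq (c * c₀⁻¹)
    have e1 : c = a ^ 2 * c₀ + b ^ 2 * c₀ := by
      have : c = (c * c₀⁻¹) * c₀ := by
        field_simp
      rw [this, ← hab]
      ring
    rw [e1, hT_add]
    exact H.mul_mem (hsq a) (hsq b)
  have hxH : x ∈ H := by
    rw [hxT]
    exact hbase h01 1
  have hwH : w ∈ H := by
    have : w = x⁻¹ * (x * w) := by group
    rw [this]
    exact H.mul_mem (H.inv_mem hxH) hyH
  exact Cfsg.Agent.Lib.Helper14.SLTwoGen.gen_of_base n hn w hw H hwH hbase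

end Cfsg.Agent.S2402
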