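import Cfsg.Statements.S2403
import Mathlib
import Cfsg.Agent.Lib.Helper2.SLGen

set_option autoImplicit false
open Cfsg

namespace Cfsg.Agent.S2403

section helpers

open Matrix Matrix.SpecialLinearGroup
open Cfsg.Agent.Lib.Helper2.SLGen
open scoped commutatorElement

set_option linter.unusedSectionVars false

variable {K : Type*} [Field K]

theorem tv_pow {ι : Type*} [DecidableEq ι] [Fintype ι] {i j : ι} (hij : i ≠ j) (m : ℕ) :
    (transvection hij ((m : K)) : SpecialLinearGroup ι K) = (transvection hij 1) ^ m := by
  induction m with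
  | zero =>
    rw [pow_zero, Nat.cast_zero]
    exact transvection_coeff_zero hij
  | succ m ih =>
    rw [pow_succ, ← ih]
    apply Subtype.ext
    show Matrix.transvection i j ((m + 1 : ℕ) : K)
      = Matrix.transvection i j (m : K) * Matrix.transvection i j 1
    rw [Matrix.transvection_mul_transvection_same i j hij, Nat.cast_succ]

theorem natCast_surj [Fintype K] (hK : Fintype.card K ≤ 3) (c : K) : ∃ m : ℕ, c = (m : K) := by
  obtain ⟨p, hp⟩ := CharP.exists K
  have hpprime : p.Prime := CharP.char_is_prime K p
  have : Fact p.Prime := ⟨hpprime⟩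
  obtain ⟨k, -, hk⟩ := FiniteField.card K p
  have hk1 : (k : ℕ) = 1 := by
    by_contra hne
    have h2 : 2 ≤ (k : ℕ) := by
      have := k.pos
      omega
    have h3 : p ^ 2 ≤ p ^ (k : ℕ) := Nat.pow_le_pow_right hpprime.pos h2
    have h4 : 2 ^ 2 ≤ p ^ 2 := Nat.pow_le_pow_left hpprime.two_le 2
    omega
  rw [hk1, pow_one] at hk
  have hinj : Function.Injective (ZMod.castHom (dvd_refl p) K) := RingHom.injective _
  have hbij := (Fintype.bijective_iff_injective_and_card _).mpr ⟨hinj, by rw [ZMod.card, hk]⟩
  obtain ⟨z, hz⟩ := hbij.2 c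
  refine ⟨z.val, ?_⟩
  rw [← hz]
  conv_lhs => rw [← ZMod.natCast_zmod_val z]
  rw [map_natCast]

/-- the sign of the row of the monomial matrix -/
def sgn (n : ℕ) (K : Type*) [Field K] (i : Fin (n + 1)) : K := if i.val = n then (-1) ^ n else 1

theorem sgn_mul_self (n : ℕ) (i : Fin (n + 1)) : sgn n K i * sgn n K i = 1 := by
  unfold sgn
  split_ifs
  · rw [← mul_pow]
    simp
  · simp

theorem w_mulVec (n : ℕ) (w : Matrix (Fin (n + 1)) (Fin (n + 1)) K)
    (hw : w = Matrix.of (fun i j : Fin (n + 1) =>
      if j.val = i.val + 1 then (1 : K) else if i.val = n ∧ j.val = 0 then (-1) ^ n else 0))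
    (v : Fin (n + 1) → K) (i : Fin (n + 1)) :
    (w *ᵥ v) i = sgn n K i * v (i + 1) := by
  rw [hw]
  show ∑ j : Fin (n + 1), (if j.val = i.val + 1 then (1 : K)
    else if i.val = n ∧ j.val = 0 then (-1) ^ n else 0) * v j = _
  have hi := i.2
  rw [Finset.sum_eq_single (i + 1)]
  · unfold sgn
    by_cases hlt : i.val = n
    · have h1 : i = Fin.last n := Fin.ext hlt
      have h2 : (i + 1).val = 0 := by
        rw [h1, Fin.last_add_one]
        rfl
      rw [if_neg (by omega), if_pos ⟨hlt, h2⟩, if_pos hlt]
    · have h2 : (i + 1).val = i.val + 1 := Fin.val_add_one_of_lt (by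
        rw [Fin.lt_def, Fin.val_last]
        omega)
      rw [if_pos h2, if_neg hlt]
  · intro j _ hj
    by_cases hlt : i.val = n
    · have h1 : i = Fin.last n := Fin.ext hlt
      have h2 : (i + 1) = 0 := by
        rw [h1, Fin.last_add_one]
      have hj0 : j.val ≠ 0 := by
        intro h0
        apply hj
        rw [h2]
        exact Fin.ext h0
      have := j.2
      rw [if_neg (by omega), if_neg (by omega), zero_mul]
    · have h2 : (i + 1).val = i.val + 1 := Fin.val_add_one_of_lt (by
        rw [Fin.lt_def, Fin.val_last]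
        omega)
      have hj1 : j.val ≠ i.val + 1 := by
        intro h0
        apply hj
        exact Fin.ext (by rw [h2, h0])
      rw [if_neg hj1, if_neg (by omega), zero_mul]
  · intro h
    exact absurd (Finset.mem_univ _) h

theorem conj_tv (n : ℕ) (w : SpecialLinearGroup (Fin (n + 1)) K)
    (hw : (w : Matrix (Fin (n + 1)) (Fin (n + 1)) K) = Matrix.of (fun i j : Fin (n + 1) =>
      if j.val = i.val + 1 then (1 : K) else if i.val = n ∧ j.val = 0 then (-1) ^ n else 0))
    {a b : Fin (n + 1)} (hab : a ≠ b) (c : K) :
    w * transvection (show a + 1 ≠ b + 1 from fun h => hab (add_right_cancel h)) c * w⁻¹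
      = transvection hab (sgn n K a * sgn n K b * c) := by
  rw [mul_inv_eq_iff_eq_mul]
  apply Subtype.ext
  show (w : Matrix (Fin (n + 1)) (Fin (n + 1)) K)
      * (transvection (show a + 1 ≠ b + 1 from fun h => hab (add_right_cancel h)) c :
        SpecialLinearGroup (Fin (n + 1)) K).1
    = (transvection hab (sgn n K a * sgn n K b * c) : SpecialLinearGroup (Fin (n + 1)) K).1
      * (w : Matrix (Fin (n + 1)) (Fin (n + 1)) K)
  rw [Matrix.ext_iff_mulVec]
  intro v
  funext i
  rw [← mulVec_mulVec, ← mulVec_mulVec, w_mulVec n _ hw, tv_mulVec_apply, tv_mulVec_apply,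
    w_mulVec n _ hw, w_mulVec n _ hw, w_mulVec n _ hw]
  by_cases hia : i = a
  · subst hia
    rw [if_pos rfl, if_pos rfl]
    have := sgn_mul_self (K := K) n b
    linear_combination (-(sgn n K i * c * v (b + 1))) * this
  · rw [if_neg hia, if_neg (fun h => hia (add_right_cancel h))]

end helpers

/-- Explicit two-element generation of `PSL_{n+1}(K)` over the fields with two or three elements: with `x = 1 + E₁₂` and `w` the monomial matrix with entries `1` in positions `(i, i+1)` and `(−1)^n` in position `(n+1, 1)`, the elements `x` and `w` generate `SL_{n+1}(K)` modulo its centre. -/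
theorem result {K : Type*} [Field K] [Fintype K] (hK : Fintype.card K ≤ 3) (n : ℕ) (hn : 1 ≤ n)
    (x w : Matrix.SpecialLinearGroup (Fin (n + 1)) K)
    (hx : (x : Matrix (Fin (n + 1)) (Fin (n + 1)) K) = Matrix.transvection (0 : Fin (n + 1)) (1 : Fin (n + 1)) 1)
    (hw : (w : Matrix (Fin (n + 1)) (Fin (n + 1)) K) =
      Matrix.of (fun i j => if j.val = i.val + 1 then 1 else if i.val = n ∧ j.val = 0 then (-1) ^ n else 0)) :
    Subgroup.closure ({x, w} : Set (Matrix.SpecialLinearGroup (Fin (n + 1)) K)) ⊔
      Subgroup.center (Matrix.SpecialLinearGroup (Fin (n + 1)) K) = ⊤ := by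
  classical
  have : Nontrivial (Fin (n + 1)) := Fin.nontrivial_iff_two_le.mpr (by omega)
  obtain ⟨H, hH⟩ : ∃ H : Subgroup (Matrix.SpecialLinearGroup (Fin (n + 1)) K),
      H = Subgroup.closure ({x, w} : Set (Matrix.SpecialLinearGroup (Fin (n + 1)) K)) := ⟨_, rfl⟩
  have hxH : x ∈ H := by
    rw [hH]
    exact Subgroup.subset_closure (by simp)
  have hwH : w ∈ H := by
    rw [hH]
    exact Subgroup.subset_closure (by simp)
  obtain ⟨P, hP⟩ : ∃ P : Fin (n + 1) → Fin (n + 1) → Prop, ∀ a b, P a b ↔
      ∀ (h : a ≠ b) (c : K), Matrix.SpecialLinearGroup.transvection h c ∈ H :=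
    ⟨_, fun _ _ => Iff.rfl⟩
  have key1 : ∀ a b : Fin (n + 1), P (a + 1) (b + 1) → P a b := by
    intro a b hab
    rw [hP] at hab ⊢
    intro h c
    have e := conj_tv n w hw h (sgn n K a * sgn n K b * c)
    have e2 : sgn n K a * sgn n K b * (sgn n K a * sgn n K b * c) = c := by
      have h1 := sgn_mul_self (K := K) n a
      have h2 := sgn_mul_self (K := K) n b
      linear_combination (sgn n K b * sgn n K b * c) * h1 + c * h2
    rw [e2] at e
    rw [← e]
    exact H.mul_mem (H.mul_mem hwH (hab _ _)) (H.inv_mem hwH)
  have base : P 0 1 := by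
    rw [hP]
    intro h c
    obtain ⟨m, rfl⟩ := natCast_surj hK c
    rw [tv_pow]
    have e : Matrix.SpecialLinearGroup.transvection h (1 : K) = x := (Subtype.ext hx).symm
    rw [e]
    exact H.pow_mem hxH m
  have succ_all : ∀ i : Fin (n + 1), P i (i + 1) := by
    intro i
    induction i using Fin.reverseInduction with
    | last =>
      apply key1
      rw [Fin.last_add_one, zero_add]
      exact base
    | cast i ih =>
      apply key1
      rw [Fin.coeSucc_eq_succ]
      exact ih
  have comm : ∀ i j k : Fin (n + 1), i ≠ j → i ≠ k → k ≠ j → P i k → P k j → P i j := by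
    intro i j k hij hik hkj h1 h2
    rw [hP] at h1 h2 ⊢
    intro h c
    rw [Cfsg.Agent.Lib.Helper2.SLGen.transvection_eq_commutator h hik hkj c,
      commutatorElement_def]
    exact H.mul_mem (H.mul_mem (H.mul_mem (h1 _ _) (h2 _ _)) (H.inv_mem (h1 _ _)))
      (H.inv_mem (h2 _ _))
  have upper : ∀ d : ℕ, ∀ i j : Fin (n + 1), j.val = i.val + d + 1 → P i j := by
    intro d
    induction d with
    | zero =>
      intro i j hj
      have hi : i < Fin.last n := by
        rw [Fin.lt_def, Fin.val_last]
        have := j.2
        omega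
      have e : j = i + 1 := by
        apply Fin.ext
        rw [Fin.val_add_one_of_lt hi, hj]
      rw [e]
      exact succ_all i
    | succ d ih =>
      intro i j hj
      have hj2 := j.2
      have h1 := ih i ⟨i.val + d + 1, by omega⟩ rfl
      have hm : (⟨i.val + d + 1, by omega⟩ : Fin (n + 1)) < Fin.last n := by
        rw [Fin.lt_def, Fin.val_last]
        show i.val + d + 1 < n
        omega
      have e : j = (⟨i.val + d + 1, by omega⟩ : Fin (n + 1)) + 1 := by
        apply Fin.ext
        rw [Fin.val_add_one_of_lt hm, hj]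
        show i.val + (d + 1) + 1 = i.val + d + 1 + 1
        omega
      have h2 := succ_all (⟨i.val + d + 1, by omega⟩ : Fin (n + 1))
      rw [← e] at h2
      refine comm i j ⟨i.val + d + 1, by omega⟩ ?_ ?_ ?_ h1 h2
      · intro h
        rw [h] at hj
        omega
      · intro h
        have := congrArg Fin.val h
        simp at this
        omega
      · intro h
        have := congrArg Fin.val h
        simp at this
        omega
  have upper' : ∀ i j : Fin (n + 1), i.val < j.val → P i j := by
    intro i j hij
    exact upper (j.val - i.val - 1) i j (by omega)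
  have last0 : P (Fin.last n) 0 := by
    have := succ_all (Fin.last n)
    rwa [Fin.last_add_one] at this
  have hl0 : Fin.last n ≠ (0 : Fin (n + 1)) := by
    intro h
    have := congrArg Fin.val h
    simp at this
    omega
  have lastj : ∀ j : Fin (n + 1), j ≠ Fin.last n → P (Fin.last n) j := by
    intro j hj
    by_cases hj0 : j = 0
    · rw [hj0]
      exact last0
    · refine comm (Fin.last n) j 0 (Ne.symm hj) hl0 (Ne.symm hj0) last0 (upper' 0 j ?_)
      have : j.val ≠ 0 := fun h => hj0 (Fin.ext h)
      show 0 < j.val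
      omega
  have all : ∀ i j : Fin (n + 1), i ≠ j → P i j := by
    intro i j hij
    rcases Nat.lt_or_ge i.val j.val with h | h
    · exact upper' i j h
    · have hlt : j.val < i.val := by
        have : i.val ≠ j.val := fun h' => hij (Fin.ext h')
        omega
      by_cases hil : i = Fin.last n
      · rw [hil]
        apply lastj
        intro h'
        rw [hil, h'] at hlt
        exact lt_irrefl _ hlt
      · have hin : i.val < n := by
          have := i.2
          have : i.val ≠ n := fun h' => hil (Fin.ext h')
          omega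
        refine comm i j (Fin.last n) hij hil ?_ (upper' i (Fin.last n) (by rw [Fin.val_last]; exact hin))
          (lastj j ?_)
        · intro h'
          rw [← h', Fin.val_last] at hlt
          omega
        · intro h'
          rw [h', Fin.val_last] at hlt
          omega
  rw [eq_top_iff]
  intro A _
  apply Subgroup.mem_sup_left
  rw [← hH]
  exact Cfsg.Agent.Lib.Helper2.SLGen.transvection_induction (fun A => A ∈ H)
    (fun i j h c => (hP i j).mp (all i j h) h c) (fun A B => H.mul_mem) A

end Cfsg.Agent.S2403
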