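import Cfsg.Statements.S2410
import Mathlib
import Cfsg.Agent.Lib.Helper3.Sz7
import Cfsg.Agent.Lib.Helper3.Sz6
import Cfsg.Agent.Lib.Helper14.SzHeis

set_option autoImplicit false
open Cfsg

namespace Cfsg.Agent.S2410

/-- The Suzuki group over the field with `2^(2m+1)` elements, `m ≥ 1` (realised as the stabiliser in `SL₄` of the Suzuki–Tits ovoid), is generated by two of its elements. -/
theorem result {F : Type*} [Field F] [Fintype F] {m : ℕ} (hm : 1 ≤ m) (hF : Fintype.card F = 2 ^ (2 * m + 1)) :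
    ∃ a b : ↥(Cfsg.Sz F m), Subgroup.closure ({a, b} : Set ↥(Cfsg.Sz F m)) = ⊤ := by
  open Cfsg.Agent.Lib.Helper3.Sz1 Cfsg.Agent.Lib.Helper3.Sz2 Cfsg.Agent.Lib.Helper3.Sz3
    Cfsg.Agent.Lib.Helper3.Sz4 Cfsg.Agent.Lib.Helper3.Sz5 Cfsg.Agent.Lib.Helper3.Sz7
    Cfsg.Agent.Lib.Helper14.SzHeis in
  classical
  have hs := hyp_of_card hm hF
  -- elements
  let w : Cfsg.Sz F m := ⟨W hs, W_mem hm hF⟩
  let dhom : Fˣ →* Cfsg.Sz F m :=
    { toFun := fun k => dd hm hF k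
      map_one' := Subtype.ext (D_one _)
      map_mul' := fun x y => Subtype.ext (D_mul _ x y) }
  obtain ⟨k₀, hk₀⟩ : ∃ k₀ : Fˣ, ∀ k : Fˣ, k ∈ Subgroup.zpowers k₀ := IsCyclic.exists_generator
  refine ⟨tt hm hF 1 0 * w, dd hm hF k₀, ?_⟩
  set X := Subgroup.closure ({tt hm hF 1 0 * w, dd hm hF k₀} : Set ↥(Cfsg.Sz F m)) with hX
  have ha : tt hm hF 1 0 * w ∈ X := Subgroup.subset_closure (by simp)
  have hb : dd hm hF k₀ ∈ X := Subgroup.subset_closure (by simp)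
  -- step 1: the torus
  have hD : ∀ k : Fˣ, dd hm hF k ∈ X := by
    intro k
    obtain ⟨n, rfl⟩ := hk₀ k
    have h1 : dd hm hF (k₀ ^ n) = (dd hm hF k₀) ^ n := map_zpow dhom k₀ n
    rw [h1]
    exact X.zpow_mem hb n
  -- step 2
  have hDT : ∀ (k : Fˣ) (a b : F), dd hm hF k * tt hm hF a b =
      tt hm hF ((k : F) ^ (2 ^ (m + 1)) * a) ((k : F) ^ (2 ^ (m + 1) + 2) * b) * dd hm hF k :=
    fun k a b => Subtype.ext (D_T hm hF k a b)
  have hDW : ∀ k : Fˣ, dd hm hF k * w = w * dd hm hF k⁻¹ := by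
    intro k
    apply Subtype.ext
    have := W_D hs k⁻¹
    rw [inv_inv] at this
    exact this.symm
  have hcw : ∀ c : F, c ≠ 0 → tt hm hF c 0 * w ∈ X := by
    intro c hc
    let k : Fˣ := Units.mk0 (c ^ (2 ^ m)) (pow_ne_zero _ hc)
    have hk : (k : F) ^ (2 ^ (m + 1)) = c := by
      show (c ^ (2 ^ m)) ^ (2 ^ (m + 1)) = c
      rw [← pow_mul, show 2 ^ m * 2 ^ (m + 1) = 2 ^ (2 * m + 1) by ring, ← hF, FiniteField.pow_card]
    have h1 : dd hm hF k * (tt hm hF 1 0 * w) * (dd hm hF k)⁻¹ ∈ X :=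
      X.mul_mem (X.mul_mem (hD k) ha) (X.inv_mem (hD k))
    have h2 : dd hm hF k * (tt hm hF 1 0 * w) * (dd hm hF k)⁻¹ =
        tt hm hF c 0 * w * dd hm hF k⁻¹ * (dd hm hF k)⁻¹ := by
      rw [← mul_assoc, hDT, mul_one, mul_zero, hk, mul_assoc (tt hm hF c 0), hDW, ← mul_assoc]
    rw [h2] at h1
    have h3 : tt hm hF c 0 * w = tt hm hF c 0 * w * dd hm hF k⁻¹ * (dd hm hF k)⁻¹ *
        dd hm hF k * (dd hm hF k⁻¹)⁻¹ := by group
    rw [h3]
    exact X.mul_mem (X.mul_mem h1 (hD k)) (X.inv_mem (hD k⁻¹))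
  obtain ⟨t, ht0, ht1⟩ := exists_ne_zero_one hm hF
  have h2F : ∀ y : F, y + y = 0 := fun y => by linear_combination y * hs.two
  -- step 3
  have hU1 : ∀ a₁ : F, ∃ b₁, tt hm hF a₁ b₁ ∈ X := by
    intro a₁
    by_cases ha₁ : a₁ = 0
    · exact ⟨0, by rw [ha₁, tt_zero]; exact X.one_mem⟩
    · have hc' : a₁ * t ≠ 0 := mul_ne_zero ha₁ ht0
      have hc : a₁ + a₁ * t ≠ 0 := by
        intro h
        apply ht1
        have h1 : a₁ * (1 + t) = 0 := by linear_combination h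
        rcases mul_eq_zero.mp h1 with h2 | h2
        · exact absurd h2 ha₁
        · linear_combination h2 - h2F 1
      have h1 : (tt hm hF (a₁ + a₁ * t) 0 * w) * (tt hm hF (a₁ * t) 0 * w)⁻¹ ∈ X :=
        X.mul_mem (hcw _ hc) (X.inv_mem (hcw _ hc'))
      have hinv : (tt hm hF (a₁ * t) 0)⁻¹ =
          tt hm hF (a₁ * t) ((a₁ * t) ^ (2 ^ (m + 1)) * (a₁ * t)) :=
        inv_eq_of_mul_eq_one_right (tt_inv_mul hm hF _)
      have h2 : (tt hm hF (a₁ + a₁ * t) 0 * w) * (tt hm hF (a₁ * t) 0 * w)⁻¹ =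
          tt hm hF (a₁ + a₁ * t) 0 * (tt hm hF (a₁ * t) 0)⁻¹ := by group
      rw [h2, hinv, tt_mul] at h1
      have h3 : a₁ * t + (a₁ + a₁ * t) = a₁ := by linear_combination h2F (a₁ * t)
      rw [h3] at h1
      exact ⟨_, h1⟩
  -- step 4: the centre
  have hcomm : ∀ a b a' b' : F, tt hm hF a' b' * tt hm hF a b =
      tt hm hF 0 (a ^ (2 ^ (m + 1)) * a' + a * a' ^ (2 ^ (m + 1))) *
        (tt hm hF a b * tt hm hF a' b') := by
    intro a b a' b'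
    rw [tt_mul, tt_mul, tt_z_mul]
    congr 1
    · ring
    · linear_combination (-(a ^ (2 ^ (m + 1)) * a')) * hs.two
  have hsurj : Function.Surjective (fun x : F => x ^ (2 ^ (m + 1) + 1)) :=
    Finite.injective_iff_surjective.mp (fun x y h => pow_s1_inj hs h)
  have hp₀ : t + t ^ (2 ^ (m + 1)) ≠ 0 := by
    intro h
    have h1 : t ^ (2 ^ (m + 1)) = t := by linear_combination h - h2F t
    rcases Cfsg.Agent.Lib.Helper3.Sz6.fix_s hs h1 with h2 | h2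
    · exact ht0 h2
    · exact ht1 h2
  have hZ : ∀ e : F, tt hm hF 0 e ∈ X := by
    intro e
    obtain ⟨a₀, ha₀⟩ := hsurj (e / (t + t ^ (2 ^ (m + 1))))
    have ha₀' : a₀ ^ (2 ^ (m + 1) + 1) = e / (t + t ^ (2 ^ (m + 1))) := ha₀
    obtain ⟨b, hb1⟩ := hU1 a₀
    obtain ⟨b', hb1'⟩ := hU1 (a₀ * t)
    have he : a₀ ^ (2 ^ (m + 1)) * (a₀ * t) + a₀ * (a₀ * t) ^ (2 ^ (m + 1)) = e := by
      have h1 : a₀ ^ (2 ^ (m + 1)) * (a₀ * t) + a₀ * (a₀ * t) ^ (2 ^ (m + 1)) =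
          a₀ ^ (2 ^ (m + 1) + 1) * (t + t ^ (2 ^ (m + 1))) := by
        rw [mul_pow]; ring
      rw [h1, ha₀', div_mul_cancel₀ _ hp₀]
    have h1 := hcomm a₀ b (a₀ * t) b'
    rw [he] at h1
    have h2 : tt hm hF 0 e = (tt hm hF (a₀ * t) b' * tt hm hF a₀ b) *
        (tt hm hF a₀ b * tt hm hF (a₀ * t) b')⁻¹ := by
      rw [h1]; group
    rw [h2]
    exact X.mul_mem (X.mul_mem hb1' hb1) (X.inv_mem (X.mul_mem hb1 hb1'))
  -- step 5
  have hU : ∀ a b : F, tt hm hF a b ∈ X := by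
    intro a b
    obtain ⟨b₁, h1⟩ := hU1 a
    have h2 : tt hm hF a b = tt hm hF 0 (b + b₁) * tt hm hF a b₁ := by
      rw [tt_z_mul]
      congr 1
      linear_combination (-1 : F) * h2F b₁
    rw [h2]
    exact X.mul_mem (hZ _) h1
  -- step 6
  have hw : w ∈ X := by
    have h1 : w = (tt hm hF 1 0)⁻¹ * (tt hm hF 1 0 * w) := by group
    rw [h1]
    exact X.mul_mem (X.inv_mem (hU 1 0)) ha
  -- step 7
  rw [eq_top_iff]
  intro g _
  have key : ∀ g : Cfsg.Sz F m,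
      (g : Matrix.SpecialLinearGroup (Fin 4) F) • Cfsg.suzukiPointInfinity F =
        Cfsg.suzukiPointInfinity F → g ∈ X := by
    intro g h1
    obtain ⟨a, b, k, hk⟩ := stab_one hm hF g.2 h1
    have h2 : g = tt hm hF a b * dd hm hF k := Subtype.ext hk
    rw [h2]
    exact X.mul_mem (hU a b) (hD k)
  rcases ovoid_cases (smul_mem_ovoid g.2 (pInf_mem m)) with h | ⟨x, y, h⟩
  · exact key g h
  · have h4 : (((tt hm hF x y * w)⁻¹ * g : Cfsg.Sz F m) : Matrix.SpecialLinearGroup (Fin 4) F) •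
        Cfsg.suzukiPointInfinity F = Cfsg.suzukiPointInfinity F := by
      show ((T (2 ^ (m + 1)) x y * W hs)⁻¹ * (g : Matrix.SpecialLinearGroup (Fin 4) F)) •
        Cfsg.suzukiPointInfinity F = Cfsg.suzukiPointInfinity F
      rw [mul_smul, h, inv_smul_eq_iff, mul_smul, W_pInf hs, T_pZero hs]
    have h5 := key _ h4
    have h6 : g = (tt hm hF x y * w) * ((tt hm hF x y * w)⁻¹ * g) := by group
    rw [h6]
    exact X.mul_mem (X.mul_mem (hU x y) hw) h5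

end Cfsg.Agent.S2410
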