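import Cfsg.Statements.S2417
import Cfsg.Agent.Lib.Helper7.ChevOrb

set_option autoImplicit false
set_option maxRecDepth 1000000
open Cfsg

namespace Cfsg.Agent.S2417

open Cfsg.Lie Cfsg.Agent.Lib.Helper7.ChevOrb Cfsg.Agent.Lib.Helper7.ChevTorus

theorem gen_two {K : Type*} [Field K] (D : ChevalleyDatum)
    (hD : D ∈ [chevG2, chevB2, chevD4, chevF4, chevE6, chevE7, chevE8]) (i j LV PI : ℕ)
    (h : lvlCheckB D [D.simple i, D.simple j] LV PI = true) :
    D.group K ≤ D.monomialSubgroup K ⊔ D.rootSubgroup K (D.simple i) ⊔ D.rootSubgroup K (D.simple j) := by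
  apply group_le_of_base D hD _ (le_trans le_sup_left le_sup_left) [D.simple i, D.simple j] LV PI h
  intro r hr t
  simp only [List.mem_cons, List.not_mem_nil, or_false] at hr
  rcases hr with rfl | rfl
  · exact (le_trans le_sup_right le_sup_left :
      D.rootSubgroup K (D.simple i) ≤ D.monomialSubgroup K ⊔ D.rootSubgroup K (D.simple i) ⊔
        D.rootSubgroup K (D.simple j)) (xGL_mem_rootSubgroup D hD _ t)
  · exact (le_sup_right : D.rootSubgroup K (D.simple j) ≤ D.monomialSubgroup K ⊔
      D.rootSubgroup K (D.simple i) ⊔ D.rootSubgroup K (D.simple j)) (xGL_mem_rootSubgroup D hD _ t)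

theorem ilB2_0 : chevB2.isLong (chevB2.simple 0) = false := by decide +kernel
theorem ilB2_1 : chevB2.isLong (chevB2.simple 1) = true := by decide +kernel
theorem lvB2 : lvlCheckB chevB2 [chevB2.simple 0, chevB2.simple 1] 72339069031481858 281474993488128 = true := by decide +kernel

theorem mainB2 {K : Type*} [Field K] (i j : ℕ) (hi : i < chevB2.rank) (hj : j < chevB2.rank)
    (hshort : chevB2.isLong (chevB2.simple i) = false) (hlong : chevB2.isLong (chevB2.simple j) = true)
    (hbond : chevB2.bonds i j ≠ 0) :
    chevB2.group K ≤ chevB2.monomialSubgroup K ⊔ chevB2.rootSubgroup K (chevB2.simple i) ⊔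
      chevB2.rootSubgroup K (chevB2.simple j) := by
  have hi' : i < 2 := hi
  have hj' : j < 2 := hj
  interval_cases i <;> interval_cases j
  · rw [ilB2_0] at hlong
    exact absurd hlong (by simp)
  · exact gen_two chevB2 (by simp) 0 1 _ _ lvB2
  · rw [ilB2_1] at hshort
    exact absurd hshort (by simp)
  · rw [ilB2_1] at hshort
    exact absurd hshort (by simp)

theorem ilF4_0 : chevF4.isLong (chevF4.simple 0) = false := by decide +kernel
theorem ilF4_1 : chevF4.isLong (chevF4.simple 1) = false := by decide +kernel
theorem ilF4_2 : chevF4.isLong (chevF4.simple 2) = true := by decide +kernel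
theorem ilF4_3 : chevF4.isLong (chevF4.simple 3) = true := by decide +kernel
theorem bdF4_0_2 : chevF4.bonds 0 2 = 0 := by decide +kernel
theorem bdF4_0_3 : chevF4.bonds 0 3 = 0 := by decide +kernel
theorem bdF4_1_3 : chevF4.bonds 1 3 = 0 := by decide +kernel
theorem lvF4 : lvlCheckB chevF4 [chevF4.simple 1, chevF4.simple 2] 1081017775414441987808606682775441823875944331229348254552442762739980612621298975499022405222575719084919307503368 462947062531052565756422718923538423119901944332837134843723188087496615271288918253523605735929417135009149551107 = true := by decide +kernel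

theorem mainF4 {K : Type*} [Field K] (i j : ℕ) (hi : i < chevF4.rank) (hj : j < chevF4.rank)
    (hshort : chevF4.isLong (chevF4.simple i) = false) (hlong : chevF4.isLong (chevF4.simple j) = true)
    (hbond : chevF4.bonds i j ≠ 0) :
    chevF4.group K ≤ chevF4.monomialSubgroup K ⊔ chevF4.rootSubgroup K (chevF4.simple i) ⊔
      chevF4.rootSubgroup K (chevF4.simple j) := by
  have hi' : i < 4 := hi
  have hj' : j < 4 := hj
  interval_cases i <;> interval_cases j
  · rw [ilF4_0] at hlong
    exact absurd hlong (by simp)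
  · rw [ilF4_1] at hlong
    exact absurd hlong (by simp)
  · exact absurd bdF4_0_2 hbond
  · exact absurd bdF4_0_3 hbond
  · rw [ilF4_0] at hlong
    exact absurd hlong (by simp)
  · rw [ilF4_1] at hlong
    exact absurd hlong (by simp)
  · exact gen_two chevF4 (by simp) 1 2 _ _ lvF4
  · exact absurd bdF4_1_3 hbond
  · rw [ilF4_2] at hshort
    exact absurd hshort (by simp)
  · rw [ilF4_2] at hshort
    exact absurd hshort (by simp)
  · rw [ilF4_2] at hshort
    exact absurd hshort (by simp)
  · rw [ilF4_2] at hshort
    exact absurd hshort (by simp)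
  · rw [ilF4_3] at hshort
    exact absurd hshort (by simp)
  · rw [ilF4_3] at hshort
    exact absurd hshort (by simp)
  · rw [ilF4_3] at hshort
    exact absurd hshort (by simp)
  · rw [ilF4_3] at hshort
    exact absurd hshort (by simp)

theorem ilG2_0 : chevG2.isLong (chevG2.simple 0) = false := by decide +kernel
theorem ilG2_1 : chevG2.isLong (chevG2.simple 1) = true := by decide +kernel
theorem lvG2 : lvlCheckB chevG2 [chevG2.simple 0, chevG2.simple 1] 620188408642015683464593923 309485028268090241962737665 = true := by decide +kernel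

theorem mainG2 {K : Type*} [Field K] (i j : ℕ) (hi : i < chevG2.rank) (hj : j < chevG2.rank)
    (hshort : chevG2.isLong (chevG2.simple i) = false) (hlong : chevG2.isLong (chevG2.simple j) = true)
    (hbond : chevG2.bonds i j ≠ 0) :
    chevG2.group K ≤ chevG2.monomialSubgroup K ⊔ chevG2.rootSubgroup K (chevG2.simple i) ⊔
      chevG2.rootSubgroup K (chevG2.simple j) := by
  have hi' : i < 2 := hi
  have hj' : j < 2 := hj
  interval_cases i <;> interval_cases j
  · rw [ilG2_0] at hlong
    exact absurd hlong (by simp)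
  · exact gen_two chevG2 (by simp) 0 1 _ _ lvG2
  · rw [ilG2_1] at hshort
    exact absurd hshort (by simp)
  · rw [ilG2_1] at hshort
    exact absurd hshort (by simp)

theorem result {K : Type*} [Field K] [Finite K] (e : Cfsg.Lie.ChevalleyDatum × ℕ)
    (he : e ∈ [(Cfsg.Lie.chevB2, 2), (Cfsg.Lie.chevF4, 2), (Cfsg.Lie.chevG2, 3)]) [CharP K e.2]
    (hK : e.1 = Cfsg.Lie.chevB2 → ∃ x : K, x ≠ 0 ∧ x ≠ 1)
    (i j : ℕ) (hi : i < e.1.rank) (hj : j < e.1.rank) (hshort : e.1.isLong (e.1.simple i) = false)
    (hlong : e.1.isLong (e.1.simple j) = true) (hbond : e.1.bonds i j ≠ 0) :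
    e.1.group K ≤ e.1.monomialSubgroup K ⊔ e.1.rootSubgroup K (e.1.simple i) ⊔ e.1.rootSubgroup K (e.1.simple j) := by
  simp only [List.mem_cons, List.not_mem_nil, or_false] at he
  rcases he with rfl | rfl | rfl
  · exact mainB2 i j hi hj hshort hlong hbond
  · exact mainF4 i j hi hj hshort hlong hbond
  · exact mainG2 i j hi hj hshort hlong hbond

end Cfsg.Agent.S2417
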