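import Cfsg.Statements.S2419
import Mathlib
import Cfsg.Agent.Lib.Helper14.CoxGen

set_option autoImplicit false
open Cfsg

namespace Cfsg.Agent.S2419

open Cfsg.Agent.Lib.Helper14.CoxGen

theorem caseB2 : ∃ T : Finset (CoxeterMatrix.B 2).Group, T.card = 1 ∧
    (∀ t ∈ T, ∃ (g : (CoxeterMatrix.B 2).Group) (i : Fin 2), t = g * (CoxeterMatrix.B 2).simple i * g⁻¹) ∧
    Subgroup.closure (({((List.finRange 2).map (CoxeterMatrix.B 2).simple).prod} : Set (CoxeterMatrix.B 2).Group) ∪ ↑T)
      = ⊤ := by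
  refine ⟨{(CoxeterMatrix.B 2).simple 0}, Finset.card_singleton _, ?_, ?_⟩
  · intro t ht
    rw [Finset.mem_singleton] at ht
    exact ⟨1, 0, by rw [ht]; simp⟩
  · apply gen_top
    apply rank2_all
    · have e : (CoxeterMatrix.B 2).toCoxeterSystem.wordProd [0, 1]
          = ((List.finRange 2).map (CoxeterMatrix.B 2).simple).prod := rfl
      rw [e]
      exact Subgroup.subset_closure (Or.inl rfl)
    · have e : (CoxeterMatrix.B 2).toCoxeterSystem.wordProd [0] = (CoxeterMatrix.B 2).simple 0 := by simp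
      rw [e]
      exact Subgroup.subset_closure (Or.inr (by simp))

theorem caseG2 : ∃ T : Finset (CoxeterMatrix.G₂).Group, T.card = 1 ∧
    (∀ t ∈ T, ∃ (g : (CoxeterMatrix.G₂).Group) (i : Fin 2), t = g * (CoxeterMatrix.G₂).simple i * g⁻¹) ∧
    Subgroup.closure (({((List.finRange 2).map (CoxeterMatrix.G₂).simple).prod} : Set (CoxeterMatrix.G₂).Group) ∪ ↑T)
      = ⊤ := by
  refine ⟨{(CoxeterMatrix.G₂).simple 0}, Finset.card_singleton _, ?_, ?_⟩
  · intro t ht
    rw [Finset.mem_singleton] at ht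
    exact ⟨1, 0, by rw [ht]; simp⟩
  · apply gen_top
    apply rank2_all
    · have e : (CoxeterMatrix.G₂).toCoxeterSystem.wordProd [0, 1]
          = ((List.finRange 2).map (CoxeterMatrix.G₂).simple).prod := rfl
      rw [e]
      exact Subgroup.subset_closure (Or.inl rfl)
    · have e : (CoxeterMatrix.G₂).toCoxeterSystem.wordProd [0] = (CoxeterMatrix.G₂).simple 0 := by simp
      rw [e]
      exact Subgroup.subset_closure (Or.inr (by simp))

theorem caseD4 : ∃ T : Finset (Cfsg.Lie.coxeterD4).Group, T.card = 2 ∧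
    (∀ t ∈ T, ∃ (g : (Cfsg.Lie.coxeterD4).Group) (i : Fin 4), t = g * (Cfsg.Lie.coxeterD4).simple i * g⁻¹) ∧
    Subgroup.closure (({((List.finRange 4).map (Cfsg.Lie.coxeterD4).simple).prod} : Set (Cfsg.Lie.coxeterD4).Group) ∪ ↑T)
      = ⊤ := by
  classical
  refine ⟨{(Cfsg.Lie.coxeterD4).simple 0, (Cfsg.Lie.coxeterD4).simple 2}, Finset.card_pair D4_ne, ?_, ?_⟩
  · intro t ht
    rw [Finset.mem_insert, Finset.mem_singleton] at ht
    rcases ht with ht | ht
    · exact ⟨1, 0, by rw [ht]; simp⟩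
    · exact ⟨1, 2, by rw [ht]; simp⟩
  · apply gen_top
    apply D4_all
    · have e : (Cfsg.Lie.coxeterD4).toCoxeterSystem.wordProd [0, 1, 2, 3]
          = ((List.finRange 4).map (Cfsg.Lie.coxeterD4).simple).prod := rfl
      rw [e]
      exact Subgroup.subset_closure (Or.inl rfl)
    · have e : (Cfsg.Lie.coxeterD4).toCoxeterSystem.wordProd [0] = (Cfsg.Lie.coxeterD4).simple 0 := by simp
      rw [e]
      exact Subgroup.subset_closure (Or.inr (by simp))
    · have e : (Cfsg.Lie.coxeterD4).toCoxeterSystem.wordProd [2] = (Cfsg.Lie.coxeterD4).simple 2 := by simp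
      rw [e]
      exact Subgroup.subset_closure (Or.inr (by simp))

theorem caseF4 : ∃ T : Finset (CoxeterMatrix.F₄).Group, T.card = 2 ∧
    (∀ t ∈ T, ∃ (g : (CoxeterMatrix.F₄).Group) (i : Fin 4), t = g * (CoxeterMatrix.F₄).simple i * g⁻¹) ∧
    Subgroup.closure (({((List.finRange 4).map (CoxeterMatrix.F₄).simple).prod} : Set (CoxeterMatrix.F₄).Group) ∪ ↑T)
      = ⊤ := by
  classical
  refine ⟨{(CoxeterMatrix.F₄).simple 0, (CoxeterMatrix.F₄).simple 2}, Finset.card_pair F4_ne, ?_, ?_⟩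
  · intro t ht
    rw [Finset.mem_insert, Finset.mem_singleton] at ht
    rcases ht with ht | ht
    · exact ⟨1, 0, by rw [ht]; simp⟩
    · exact ⟨1, 2, by rw [ht]; simp⟩
  · apply gen_top
    apply F4_all
    · have e : (CoxeterMatrix.F₄).toCoxeterSystem.wordProd [0, 1, 2, 3]
          = ((List.finRange 4).map (CoxeterMatrix.F₄).simple).prod := rfl
      rw [e]
      exact Subgroup.subset_closure (Or.inl rfl)
    · have e : (CoxeterMatrix.F₄).toCoxeterSystem.wordProd [0] = (CoxeterMatrix.F₄).simple 0 := by simp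
      rw [e]
      exact Subgroup.subset_closure (Or.inr (by simp))
    · have e : (CoxeterMatrix.F₄).toCoxeterSystem.wordProd [2] = (CoxeterMatrix.F₄).simple 2 := by simp
      rw [e]
      exact Subgroup.subset_closure (Or.inr (by simp))

theorem caseE6 : ∃ T : Finset (CoxeterMatrix.E₆).Group, T.card = 1 ∧
    (∀ t ∈ T, ∃ (g : (CoxeterMatrix.E₆).Group) (i : Fin 6), t = g * (CoxeterMatrix.E₆).simple i * g⁻¹) ∧
    Subgroup.closure (({((List.finRange 6).map (CoxeterMatrix.E₆).simple).prod} : Set (CoxeterMatrix.E₆).Group) ∪ ↑T)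
      = ⊤ := by
  refine ⟨{(CoxeterMatrix.E₆).simple 3}, Finset.card_singleton _, ?_, ?_⟩
  · intro t ht
    rw [Finset.mem_singleton] at ht
    exact ⟨1, 3, by rw [ht]; simp⟩
  · apply gen_top
    apply E6_all
    · have e : (CoxeterMatrix.E₆).toCoxeterSystem.wordProd [0, 1, 2, 3, 4, 5]
          = ((List.finRange 6).map (CoxeterMatrix.E₆).simple).prod := rfl
      rw [e]
      exact Subgroup.subset_closure (Or.inl rfl)
    · have e : (CoxeterMatrix.E₆).toCoxeterSystem.wordProd [3] = (CoxeterMatrix.E₆).simple 3 := by simp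
      rw [e]
      exact Subgroup.subset_closure (Or.inr (by simp))

theorem caseE7 : ∃ T : Finset (CoxeterMatrix.E₇).Group, T.card = 1 ∧
    (∀ t ∈ T, ∃ (g : (CoxeterMatrix.E₇).Group) (i : Fin 7), t = g * (CoxeterMatrix.E₇).simple i * g⁻¹) ∧
    Subgroup.closure (({((List.finRange 7).map (CoxeterMatrix.E₇).simple).prod} : Set (CoxeterMatrix.E₇).Group) ∪ ↑T)
      = ⊤ := by
  refine ⟨{(CoxeterMatrix.E₇).simple 3}, Finset.card_singleton _, ?_, ?_⟩
  · intro t ht
    rw [Finset.mem_singleton] at ht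
    exact ⟨1, 3, by rw [ht]; simp⟩
  · apply gen_top
    apply E7_all
    · have e : (CoxeterMatrix.E₇).toCoxeterSystem.wordProd [0, 1, 2, 3, 4, 5, 6]
          = ((List.finRange 7).map (CoxeterMatrix.E₇).simple).prod := rfl
      rw [e]
      exact Subgroup.subset_closure (Or.inl rfl)
    · have e : (CoxeterMatrix.E₇).toCoxeterSystem.wordProd [3] = (CoxeterMatrix.E₇).simple 3 := by simp
      rw [e]
      exact Subgroup.subset_closure (Or.inr (by simp))

theorem caseE8 : ∃ T : Finset (CoxeterMatrix.E₈).Group, T.card = 1 ∧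
    (∀ t ∈ T, ∃ (g : (CoxeterMatrix.E₈).Group) (i : Fin 8), t = g * (CoxeterMatrix.E₈).simple i * g⁻¹) ∧
    Subgroup.closure (({((List.finRange 8).map (CoxeterMatrix.E₈).simple).prod} : Set (CoxeterMatrix.E₈).Group) ∪ ↑T)
      = ⊤ := by
  refine ⟨{(CoxeterMatrix.E₈).simple 3}, Finset.card_singleton _, ?_, ?_⟩
  · intro t ht
    rw [Finset.mem_singleton] at ht
    exact ⟨1, 3, by rw [ht]; simp⟩
  · apply gen_top
    apply E8_all
    · have e : (CoxeterMatrix.E₈).toCoxeterSystem.wordProd [0, 1, 2, 3, 4, 5, 6, 7]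
          = ((List.finRange 8).map (CoxeterMatrix.E₈).simple).prod := rfl
      rw [e]
      exact Subgroup.subset_closure (Or.inl rfl)
    · have e : (CoxeterMatrix.E₈).toCoxeterSystem.wordProd [3] = (CoxeterMatrix.E₈).simple 3 := by simp
      rw [e]
      exact Subgroup.subset_closure (Or.inr (by simp))

/-- The Coxeter groups of types B₂, G₂, E₆, E₇, E₈ are generated by the Coxeter element `s₁ s₂ ⋯ s_l` together with one suitable reflection (a conjugate of a simple reflection); for types D₄ and F₄ the Coxeter element together with two suitable reflections suffices. -/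
theorem result (c : (Σ n : ℕ, CoxeterMatrix (Fin n)) × ℕ)
    (hc : c ∈ [(⟨2, CoxeterMatrix.B 2⟩, 1), (⟨2, CoxeterMatrix.G₂⟩, 1), (⟨4, Cfsg.Lie.coxeterD4⟩, 2), (⟨4, CoxeterMatrix.F₄⟩, 2),
      (⟨6, CoxeterMatrix.E₆⟩, 1), (⟨7, CoxeterMatrix.E₇⟩, 1), (⟨8, CoxeterMatrix.E₈⟩, 1)]) :
    ∃ T : Finset c.1.2.Group, T.card = c.2 ∧ (∀ t ∈ T, ∃ (g : c.1.2.Group) (i : Fin c.1.1), t = g * c.1.2.simple i * g⁻¹) ∧
      Subgroup.closure (({((List.finRange c.1.1).map c.1.2.simple).prod} : Set c.1.2.Group) ∪ ↑T) = ⊤ := by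
  simp only [List.mem_cons, List.not_mem_nil, or_false] at hc
  rcases hc with rfl | rfl | rfl | rfl | rfl | rfl | rfl
  · exact caseB2
  · exact caseG2
  · exact caseD4
  · exact caseF4
  · exact caseE6
  · exact caseE7
  · exact caseE8

end Cfsg.Agent.S2419
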