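import Cfsg.Statements.S2420
import Mathlib
import Cfsg.Agent.Lib.Helper14.ParabCount

set_option autoImplicit false
open scoped MatrixGroups
open Cfsg

namespace Cfsg.Agent.S2420

/-- The number of partial flags of a given type: for a composition `μ` of `n` (with `n` parts, zeros allowed) and a field with `q` elements, the index of the standard parabolic subgroup `P_μ` in `GL_n(q)` times `∏_i {μ_i}` equals `{n}`, where `{r}` denotes the product over `k = 1, …, r` of the q-integers `1 + q + ⋯ + q^(k−1)`. -/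
theorem result {F : Type*} [Field F] [Fintype F] {q : ℕ} (hq : Fintype.card F = q) {n : ℕ} (μ : Fin n → ℕ) (hμ : ∑ i, μ i = n) :
    Nat.card (GL (Fin n) F ⧸ Cfsg.parabolicGL n F μ) * ∏ i : Fin n, ∏ j ∈ Finset.range (μ i), ∑ l ∈ Finset.range (j + 1), q ^ l =
      ∏ j ∈ Finset.range n, ∑ l ∈ Finset.range (j + 1), q ^ l := by
  subst hq
  have hq1 : 1 ≤ Fintype.card F := Fintype.card_pos
  have hq2 : 1 < Fintype.card F := Fintype.one_lt_card
  obtain ⟨s, hs, hP⟩ := Cfsg.Agent.Lib.Helper14.ParabCount.card_parabolic (F := F) μ hμ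
  have hG := Matrix.card_GL_field (𝔽 := F) n
  have hidx := Subgroup.card_eq_card_quotient_mul_card_subgroup (Cfsg.parabolicGL n F μ)
  rw [hG, hP, Cfsg.Agent.Lib.Helper14.ParabCount.gl_eq _ n hq1] at hidx
  have h1 : ∏ a : Fin n, ∏ i : Fin (μ a), (Fintype.card F ^ (μ a) - Fintype.card F ^ (i : ℕ)) =
      Fintype.card F ^ (∑ a : Fin n, ∑ i ∈ Finset.range (μ a), i) * (Fintype.card F - 1) ^ n *
        ∏ a : Fin n, Cfsg.Agent.Lib.Helper14.ParabCount.Qf (Fintype.card F) (μ a) := by
    rw [Finset.prod_congr rfl (fun a _ => Cfsg.Agent.Lib.Helper14.ParabCount.gl_eq _ (μ a) hq1),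
      Finset.prod_mul_distrib, Finset.prod_mul_distrib, Finset.prod_pow_eq_pow_sum,
      Finset.prod_pow_eq_pow_sum, hμ]
  rw [h1] at hidx
  have htri : (∑ a : Fin n, ∑ i ∈ Finset.range (μ a), i) + s = ∑ i ∈ Finset.range n, i := by
    have e1 : ∀ m : ℕ, (∑ i ∈ Finset.range m, i) * 2 + m = m ^ 2 := by
      intro m
      rw [Finset.sum_range_id_mul_two]
      cases m with
      | zero => rfl
      | succ m => simp; ring
    have e2 : (∑ a : Fin n, ∑ i ∈ Finset.range (μ a), i) * 2 + n = ∑ a : Fin n, (μ a) ^ 2 := by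
      have e4 : (∑ a : Fin n, ∑ i ∈ Finset.range (μ a), i) * 2 + ∑ a : Fin n, μ a =
          ∑ a : Fin n, (μ a) ^ 2 := by
        rw [Finset.sum_mul, ← Finset.sum_add_distrib]
        exact Finset.sum_congr rfl (fun a _ => e1 (μ a))
      rw [hμ] at e4
      exact e4
    have e3 := e1 n
    omega
  have hpos : 0 < Fintype.card F ^ (∑ i ∈ Finset.range n, i) * (Fintype.card F - 1) ^ n := by
    apply Nat.mul_pos
    · exact pow_pos (by omega) _
    · exact pow_pos (by omega) _
  apply Nat.eq_of_mul_eq_mul_left hpos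
  have hgoal : Fintype.card F ^ (∑ i ∈ Finset.range n, i) * (Fintype.card F - 1) ^ n *
      Cfsg.Agent.Lib.Helper14.ParabCount.Qf (Fintype.card F) n =
      Fintype.card F ^ (∑ i ∈ Finset.range n, i) * (Fintype.card F - 1) ^ n *
        (Nat.card (GL (Fin n) F ⧸ Cfsg.parabolicGL n F μ) *
          ∏ a : Fin n, Cfsg.Agent.Lib.Helper14.ParabCount.Qf (Fintype.card F) (μ a)) := by
    rw [hidx, ← htri, pow_add]
    ring
  exact hgoal.symm

end Cfsg.Agent.S2420
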