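import Cfsg.Statements.S2433
import Cfsg.Agent.Lib.Helper14.SL2Ind

set_option autoImplicit false
open Cfsg

namespace Cfsg.Agent.S2433

open Cfsg.Agent.Lib.Helper14.SL2Ind

theorem result {F : Type*} [Field F] [Fintype F] [DecidableEq F] (hodd : Odd (Fintype.card F)) (α : MulChar F ℂ) (g : Matrix.SpecialLinearGroup (Fin 2) F) :
    ((g : Matrix (Fin 2) (Fin 2) F) 0 1 = 0 → (g : Matrix (Fin 2) (Fin 2) F) 1 0 = 0 → (g : Matrix (Fin 2) (Fin 2) F) 0 0 ^ 2 ≠ 1 →
      (Cfsg.indFun ((Cfsg.upperTriangularGL 2 F).comap Matrix.SpecialLinearGroup.toGL) (fun b => α (((b : Matrix.SpecialLinearGroup (Fin 2) F) : Matrix (Fin 2) (Fin 2) F) 0 0))) g = α ((g : Matrix (Fin 2) (Fin 2) F) 0 0) + α ((g : Matrix (Fin 2) (Fin 2) F) 1 1)) ∧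
    ((∀ (c : F) (v : Fin 2 → F), v ≠ 0 → (g : Matrix (Fin 2) (Fin 2) F).mulVec v ≠ c • v) → (Cfsg.indFun ((Cfsg.upperTriangularGL 2 F).comap Matrix.SpecialLinearGroup.toGL) (fun b => α (((b : Matrix.SpecialLinearGroup (Fin 2) F) : Matrix (Fin 2) (Fin 2) F) 0 0))) g = 0) ∧
    ((g : Matrix (Fin 2) (Fin 2) F) 1 0 = 0 → (g : Matrix (Fin 2) (Fin 2) F) 0 0 = (g : Matrix (Fin 2) (Fin 2) F) 1 1 → (g : Matrix (Fin 2) (Fin 2) F) 0 1 ≠ 0 →
      (Cfsg.indFun ((Cfsg.upperTriangularGL 2 F).comap Matrix.SpecialLinearGroup.toGL) (fun b => α (((b : Matrix.SpecialLinearGroup (Fin 2) F) : Matrix (Fin 2) (Fin 2) F) 0 0))) g = α ((g : Matrix (Fin 2) (Fin 2) F) 0 0)) ∧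
    ((g : Matrix (Fin 2) (Fin 2) F) 0 1 = 0 → (g : Matrix (Fin 2) (Fin 2) F) 1 0 = 0 → (g : Matrix (Fin 2) (Fin 2) F) 0 0 = (g : Matrix (Fin 2) (Fin 2) F) 1 1 →
      (Cfsg.indFun ((Cfsg.upperTriangularGL 2 F).comap Matrix.SpecialLinearGroup.toGL) (fun b => α (((b : Matrix.SpecialLinearGroup (Fin 2) F) : Matrix (Fin 2) (Fin 2) F) 0 0))) g = ((Fintype.card F : ℂ) + 1) * α ((g : Matrix (Fin 2) (Fin 2) F) 0 0)) := by
  have hdet := g.det_coe
  rw [Matrix.det_fin_two] at hdet
  refine ⟨?_, ?_, ?_, ?_⟩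
  · intro h01 h10 ha
    have hne : (g : Matrix (Fin 2) (Fin 2) F) 1 1 - (g : Matrix (Fin 2) (Fin 2) F) 0 0 ≠ 0 := by
      intro h
      apply ha
      rw [h01, zero_mul, sub_zero] at hdet
      have h' : (g : Matrix (Fin 2) (Fin 2) F) 1 1 = (g : Matrix (Fin 2) (Fin 2) F) 0 0 := sub_eq_zero.mp h
      rw [h'] at hdet
      rw [pow_two]
      exact hdet
    rw [ind_apply, if_pos h01, h01, h10, Finset.sum_eq_single 0]
    · simp
      ring
    · intro t _ ht
      rw [if_neg]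
      intro h
      have h3 : t * ((g : Matrix (Fin 2) (Fin 2) F) 1 1 - (g : Matrix (Fin 2) (Fin 2) F) 0 0) = 0 := by
        linear_combination h
      rcases mul_eq_zero.mp h3 with h4 | h4
      · exact ht h4
      · exact hne h4
    · intro h
      exact absurd (Finset.mem_univ _) h
  · intro hno
    rw [ind_apply]
    have h01 : (g : Matrix (Fin 2) (Fin 2) F) 0 1 ≠ 0 := by
      intro h
      apply hno ((g : Matrix (Fin 2) (Fin 2) F) 1 1) ![0, 1]
      · intro h0
        have := congrFun h0 1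
        simp at this
      · ext i
        fin_cases i <;> simp [Matrix.mulVec, dotProduct, Fin.sum_univ_two, h]
    rw [if_neg h01, zero_add]
    apply Finset.sum_eq_zero
    intro t _
    rw [if_neg]
    intro h
    apply hno ((g : Matrix (Fin 2) (Fin 2) F) 0 0 + (g : Matrix (Fin 2) (Fin 2) F) 0 1 * t) ![1, t]
    · intro h0
      have := congrFun h0 0
      simp at this
    · ext i
      fin_cases i
      · simp [Matrix.mulVec, dotProduct, Fin.sum_univ_two]
      · simp [Matrix.mulVec, dotProduct, Fin.sum_univ_two]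
        exact h
  · intro h10 heq h01
    rw [ind_apply, if_neg h01, zero_add, h10, heq, Finset.sum_eq_single 0]
    · simp
    · intro t _ ht
      rw [if_neg]
      intro h
      have h3 : (g : Matrix (Fin 2) (Fin 2) F) 0 1 * (t * t) = 0 := by
        linear_combination (-1 : F) * h
      rcases mul_eq_zero.mp h3 with h4 | h4
      · exact h01 h4
      · rcases mul_eq_zero.mp h4 with h5 | h5
        · exact ht h5
        · exact ht h5
    · intro h
      exact absurd (Finset.mem_univ _) h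
  · intro h01 h10 heq
    rw [ind_apply, if_pos h01, h01, h10, heq]
    simp
    ring

end Cfsg.Agent.S2433
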