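import Cfsg.Statements.S2437
import Cfsg.Agent.Lib.Helper14.SL2Ind
import Cfsg.Agent.Lib.Helper14.SL2Odd

set_option autoImplicit false
open Cfsg
open Cfsg.Agent.Lib.Helper14.SL2Ind

namespace Cfsg.Agent.S2437

section helpers

universe u
variable {F : Type u} [Field F]

theorem commute_bElt (a a' : Fˣ) (c c' : F) :
    Commute (bElt a c) (bElt a' c') ↔
      c' * ((a : F) - ((a⁻¹ : Fˣ) : F)) = c * ((a' : F) - ((a'⁻¹ : Fˣ) : F)) := by
  unfold Commute SemiconjBy
  rw [Subtype.ext_iff, Matrix.SpecialLinearGroup.ext_iff]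
  show (∀ i j, ((bMat a c).1 * (bMat a' c').1) i j = ((bMat a' c').1 * (bMat a c).1) i j) ↔ _
  simp only [bMat, Matrix.mul_fin_two, Matrix.of_apply]
  simp only [Fin.forall_fin_two]
  simp
  constructor
  · rintro ⟨⟨h1, h2⟩, h3⟩
    linear_combination h2
  · intro h
    refine ⟨⟨mul_comm _ _, ?_⟩, mul_comm _ _⟩
    linear_combination h

theorem inner_count [Fintype F] [DecidableEq F] (x y : F) :
    (∑ c : F, ∑ c' : F, if c' * x = c * y then 1 else 0) =
      if x = 0 ∧ y = 0 then Fintype.card F * Fintype.card F else Fintype.card F := by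
  by_cases hx : x = 0
  · by_cases hy : y = 0
    · subst hx; subst hy
      simp
    · subst hx
      simp only [mul_zero, hy, and_false, if_false]
      have : ∀ c : F, (∑ c' : F, if (0 : F) = c * y then 1 else 0) =
          if c = 0 then Fintype.card F else 0 := by
        intro c
        by_cases hc : c = 0
        · subst hc; simp
        · have : ¬ (0 : F) = c * y := fun h => (mul_ne_zero hc hy) h.symm
          simp [hc, this]
      simp_rw [this]
      simp
  · simp only [hx, false_and, if_false]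
    have : ∀ c : F, (∑ c' : F, if c' * x = c * y then 1 else 0) = 1 := by
      intro c
      have h1 : ∀ c' : F, (c' * x = c * y) ↔ c' = c * y / x := by
        intro c'
        rw [eq_div_iff hx]
      simp_rw [h1]
      simp
    simp_rw [this]
    simp

theorem card_zero_units [Fintype F] [DecidableEq F] (h2 : (2 : F) ≠ 0) :
    (∑ a : Fˣ, if ((a : F) - ((a⁻¹ : Fˣ) : F)) = 0 then 1 else 0) = 2 := by
  rw [← Finset.card_filter]
  have hne : (1 : Fˣ) ≠ -1 := by
    intro h
    have h' : (1 : F) = -1 := by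
      have := congrArg Units.val h
      simpa using this
    apply h2
    linear_combination h'
  have : Finset.univ.filter (fun a : Fˣ => ((a : F) - ((a⁻¹ : Fˣ) : F)) = 0) = {1, -1} := by
    ext a
    simp only [Finset.mem_filter, Finset.mem_univ, true_and, Finset.mem_insert,
      Finset.mem_singleton]
    constructor
    · intro h
      have h1 : (a : F) * a = 1 := by
        have h3 : (a : F) * ((a⁻¹ : Fˣ) : F) = 1 := by simp
        linear_combination (a : F) * h + h3
      have h4 : ((a : F) - 1) * ((a : F) + 1) = 0 := by linear_combination h1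
      rcases mul_eq_zero.mp h4 with h5 | h5
      · left; apply Units.ext; rw [Units.val_one]; linear_combination h5
      · right; apply Units.ext; rw [Units.val_neg, Units.val_one]; linear_combination h5
    · rintro (rfl | rfl) <;> simp
  rw [this, Finset.card_pair hne]

end helpers

theorem result {F : Type*} [Field F] [Fintype F] (hodd : Odd (Fintype.card F)) :
    Nat.card (ConjClasses ((Cfsg.upperTriangularGL 2 F).comap Matrix.SpecialLinearGroup.toGL)) = Fintype.card F + 3 := by
  classical
  have h2 : (2 : F) ≠ 0 :=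
    Cfsg.Agent.Lib.Helper14.SL2Odd.two_ne_zero_of_odd (Nat.odd_iff.mp hodd)
  have hq1 : 1 < Fintype.card F := Fintype.one_lt_card
  have hm : Fintype.card Fˣ + 1 = Fintype.card F := by
    rw [Fintype.card_units]; omega
  have key := card_comm_eq_card_conjClasses_mul_card
    ↥((Cfsg.upperTriangularGL 2 F).comap Matrix.SpecialLinearGroup.toGL)
  have e : {t : (Fˣ × F) × (Fˣ × F) // t.2.2 * ((t.1.1 : F) - ((t.1.1⁻¹ : Fˣ) : F)) =
      t.1.2 * ((t.2.1 : F) - ((t.2.1⁻¹ : Fˣ) : F))} ≃
      {p : ↥((Cfsg.upperTriangularGL 2 F).comap Matrix.SpecialLinearGroup.toGL) ×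
        ↥((Cfsg.upperTriangularGL 2 F).comap Matrix.SpecialLinearGroup.toGL) // Commute p.1 p.2} :=
    Equiv.subtypeEquiv (Equiv.prodCongr bEquiv bEquiv)
      (fun t => (commute_bElt t.1.1 t.2.1 t.1.2 t.2.2).symm)
  rw [← Nat.card_congr e, card_bor, Nat.card_eq_fintype_card, Fintype.card_subtype,
    Finset.card_filter, Fintype.sum_prod_type] at key
  simp only [Fintype.sum_prod_type] at key
  have h3 : ∀ a : Fˣ, (∑ c : F, ∑ a' : Fˣ, ∑ c' : F,
      if c' * ((a : F) - ((a⁻¹ : Fˣ) : F)) = c * ((a' : F) - ((a'⁻¹ : Fˣ) : F)) then 1 else 0) =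
      ∑ a' : Fˣ, (Fintype.card F + (if ((a : F) - ((a⁻¹ : Fˣ) : F)) = 0 then 1 else 0) *
        (if ((a' : F) - ((a'⁻¹ : Fˣ) : F)) = 0 then 1 else 0) *
          (Fintype.card F * Fintype.card Fˣ)) := by
    intro a
    rw [Finset.sum_comm]
    refine Finset.sum_congr rfl (fun a' _ => ?_)
    rw [inner_count]
    by_cases h4 : ((a : F) - ((a⁻¹ : Fˣ) : F)) = 0
    · by_cases h5 : ((a' : F) - ((a'⁻¹ : Fˣ) : F)) = 0
      · rw [if_pos ⟨h4, h5⟩, if_pos h4, if_pos h5]
        rw [← hm]; ring
      · rw [if_neg (fun h => h5 h.2), if_pos h4, if_neg h5]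
        ring
    · rw [if_neg (fun h => h4 h.1), if_neg h4]
      ring
  simp_rw [h3] at key
  simp only [Finset.sum_add_distrib, Finset.sum_const, Finset.card_univ, smul_eq_mul,
    ← Finset.sum_mul, ← Finset.mul_sum, card_zero_units h2] at key
  have hpos : 0 < (Fintype.card F - 1) * Fintype.card F := by
    apply Nat.mul_pos <;> omega
  have h5 : Fintype.card F - 1 = Fintype.card Fˣ := by omega
  rw [h5] at key hpos
  have h6 : Nat.card (ConjClasses ↥((Cfsg.upperTriangularGL 2 F).comap
      Matrix.SpecialLinearGroup.toGL)) * (Fintype.card Fˣ * Fintype.card F) =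
      (Fintype.card F + 3) * (Fintype.card Fˣ * Fintype.card F) := by
    rw [← key, ← hm]; ring
  exact Nat.eq_of_mul_eq_mul_right hpos h6

end Cfsg.Agent.S2437
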