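import Cfsg.Statements.S2438
import Cfsg.Agent.Lib.Helper13.SL2Irr4

set_option autoImplicit false
open Cfsg

namespace Cfsg.Agent.S2438

open scoped ComplexConjugate
open Cfsg.Agent.Lib.Helper1 Cfsg.Agent.Lib.Helper13.GL2Ind Cfsg.Agent.Lib.Helper13.GL2Irr
  Cfsg.Agent.Lib.Helper13.SL2Ind Cfsg.Agent.Lib.Helper13.SL2Irr Cfsg.Agent.Lib.Helper13.SL2Irr2
  Cfsg.Agent.Lib.Helper13.SL2Irr3 Cfsg.Agent.Lib.Helper13.SL2Irr4

section helpers

universe u
variable {F : Type u} [Field F] [Fintype F] [DecidableEq F]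

theorem sum_U (χ : Matrix.SpecialLinearGroup (Fin 2) F → ℂ) :
    (∑ g : Matrix.SpecialLinearGroup (Fin 2) F, if (g : Matrix (Fin 2) (Fin 2) F) 1 0 = 0 ∧
      (g : Matrix (Fin 2) (Fin 2) F) 0 0 = 1 ∧ (g : Matrix (Fin 2) (Fin 2) F) 1 1 = 1 then χ g else 0) =
      ∑ c : F, χ (bS (1 : Fˣ) c : ↥(BS F)) := by
  rw [← Finset.sum_filter]
  symm
  apply Finset.sum_bij (fun c _ => ((bS (1 : Fˣ) c : ↥(BS F)) : Matrix.SpecialLinearGroup (Fin 2) F))
  · intro c _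
    simp only [Finset.mem_filter, Finset.mem_univ, true_and]
    refine ⟨bS_10 1 c, ?_, ?_⟩
    · rw [bS_00]; simp
    · rw [bS_11]; simp
  · intro c _ c' _ h
    have := congrArg (fun g : Matrix.SpecialLinearGroup (Fin 2) F => g.1 0 1) h
    simpa [bS_01] using this
  · intro g hg
    simp only [Finset.mem_filter, Finset.mem_univ, true_and] at hg
    refine ⟨g.1 0 1, Finset.mem_univ _, ?_⟩
    apply Subtype.ext
    rw [bS_val]
    ext i j
    fin_cases i <;> fin_cases j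
    · simp [hg.2.1]
    · simp
    · simp [hg.1]
    · simp [hg.2.2]
  · intro c _
    rfl

theorem sum_ind_U (α : MulChar F ℂ) :
    ∑ c : F, Cfsg.indFun (BS F) (thetaS α) (bS (1 : Fˣ) c : ↥(BS F)) = 2 * (Fintype.card F : ℂ) := by
  rw [← Finset.add_sum_erase Finset.univ _ (Finset.mem_univ (0 : F))]
  have h0 : Cfsg.indFun (BS F) (thetaS α) (bS (1 : Fˣ) (0 : F) : ↥(BS F)) = (Fintype.card F : ℂ) + 1 := by
    rw [bS_one_zero]
    exact indS_one α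
  have h1 : ∀ c ∈ Finset.univ.erase (0 : F),
      Cfsg.indFun (BS F) (thetaS α) (bS (1 : Fˣ) c : ↥(BS F)) = 1 := by
    intro c hc
    have hc0 : c ≠ 0 := Finset.ne_of_mem_erase hc
    rw [indS_unip α _ (bS_10 1 c) (by rw [bS_00, bS_11]; simp) (by rw [bS_01]; exact hc0), bS_00]
    simp
  rw [h0, Finset.sum_congr rfl h1, Finset.sum_const, Finset.card_erase_of_mem (Finset.mem_univ _),
    Finset.card_univ, nsmul_eq_mul, mul_one, Nat.cast_sub Fintype.card_pos]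
  push_cast
  ring

theorem sum_half (hodd : Odd (Fintype.card F))
    {χ : Matrix.SpecialLinearGroup (Fin 2) F → ℂ}
    (hχ : Cfsg.IsIrrCharacter (Matrix.SpecialLinearGroup (Fin 2) F) χ)
    (hne : Cfsg.classInner (Cfsg.indFun (BS F) (thetaS (epsC F))) χ ≠ 0) :
    ∑ c : F, χ (bS (1 : Fˣ) c : ↥(BS F)) = (Fintype.card F : ℂ) := by
  classical
  have : Fintype ↥(BS F) := Fintype.ofFinite _
  have h := BS_fourier (fun b : ↥(BS F) => χ b) (epsC F) 1 (fun α => by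
    rw [← frobenius_reciprocity _ _ (IsIrrCharacter.isClassFunction hχ), half_inner hodd hχ hne α]) 1
  rw [h]
  simp

end helpers

theorem result {F : Type*} [Field F] [Fintype F] [DecidableEq F] (hodd : Odd (Fintype.card F)) (hq : 5 ≤ Fintype.card F)
    (χ : Matrix.SpecialLinearGroup (Fin 2) F → ℂ) (hχ : Cfsg.IsIrrCharacter (Matrix.SpecialLinearGroup (Fin 2) F) χ) :
    (χ 1 = (Fintype.card F : ℂ) + 1 →
      (∑ g : Matrix.SpecialLinearGroup (Fin 2) F, if (g : Matrix (Fin 2) (Fin 2) F) 1 0 = 0 ∧ (g : Matrix (Fin 2) (Fin 2) F) 0 0 = 1 ∧ (g : Matrix (Fin 2) (Fin 2) F) 1 1 = 1 then χ g else 0) = 2 * (Fintype.card F : ℂ)) ∧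
    (χ 1 = (Fintype.card F : ℂ) →
      (∑ g : Matrix.SpecialLinearGroup (Fin 2) F, if (g : Matrix (Fin 2) (Fin 2) F) 1 0 = 0 ∧ (g : Matrix (Fin 2) (Fin 2) F) 0 0 = 1 ∧ (g : Matrix (Fin 2) (Fin 2) F) 1 1 = 1 then χ g else 0) = (Fintype.card F : ℂ)) ∧
    (χ 1 = (Fintype.card F : ℂ) - 1 →
      (∑ g : Matrix.SpecialLinearGroup (Fin 2) F, if (g : Matrix (Fin 2) (Fin 2) F) 1 0 = 0 ∧ (g : Matrix (Fin 2) (Fin 2) F) 0 0 = 1 ∧ (g : Matrix (Fin 2) (Fin 2) F) 1 1 = 1 then χ g else 0) = 0) ∧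
    (χ 1 = (((Fintype.card F + 1) / 2 : ℕ) : ℂ) →
      (∑ g : Matrix.SpecialLinearGroup (Fin 2) F, if (g : Matrix (Fin 2) (Fin 2) F) 1 0 = 0 ∧ (g : Matrix (Fin 2) (Fin 2) F) 0 0 = 1 ∧ (g : Matrix (Fin 2) (Fin 2) F) 1 1 = 1 then χ g else 0) = (Fintype.card F : ℂ)) ∧
    (χ 1 = (((Fintype.card F - 1) / 2 : ℕ) : ℂ) →
      (∑ g : Matrix.SpecialLinearGroup (Fin 2) F, if (g : Matrix (Fin 2) (Fin 2) F) 1 0 = 0 ∧ (g : Matrix (Fin 2) (Fin 2) F) 0 0 = 1 ∧ (g : Matrix (Fin 2) (Fin 2) F) 1 1 = 1 then χ g else 0) = 0) := by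
  have hodd' := hodd
  obtain ⟨k, hk⟩ := hodd
  have hk2 : 2 ≤ k := by omega
  have hk2R : (2 : ℝ) ≤ (k : ℝ) := by exact_mod_cast hk2
  obtain ⟨c0, c1, c2⟩ := card_casts hk
  rw [sum_U χ, c0, c1, c2]
  rcases cases_odd hk hχ with ⟨h, hd⟩ | ⟨h, hd⟩ | ⟨⟨α, hα, h⟩, hd⟩ | ⟨h, hd⟩ | ⟨h, hd⟩ | ⟨h, hd⟩
  · refine ⟨fun h1 => ?_, fun h1 => ?_, fun h1 => ?_, fun h1 => ?_, fun h1 => ?_⟩ <;>
    · exfalso
      have h3 := congrArg Complex.re (h1.symm.trans hd)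
      simp at h3 <;> linarith
  · have hS : ∑ c : F, χ (bS (1 : Fˣ) c : ↥(BS F)) = 2 * (k : ℂ) + 1 := by
      rw [h]
      simp only [stS, Pi.sub_apply]
      rw [Finset.sum_sub_distrib, sum_ind_U, Finset.sum_const, Finset.card_univ, nsmul_eq_mul,
        mul_one, c0]
      ring
    refine ⟨fun h1 => ?_, fun h1 => ?_, fun h1 => ?_, fun h1 => ?_, fun h1 => ?_⟩ <;>
    first
    | exact hS
    | (exfalso
       have h3 := congrArg Complex.re (h1.symm.trans hd)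
       simp at h3 <;> linarith)
  · have hS : ∑ c : F, χ (bS (1 : Fˣ) c : ↥(BS F)) = 2 * (2 * (k : ℂ) + 1) := by
      rw [h, sum_ind_U, c0]
    refine ⟨fun h1 => ?_, fun h1 => ?_, fun h1 => ?_, fun h1 => ?_, fun h1 => ?_⟩ <;>
    first
    | exact hS
    | (exfalso
       have h3 := congrArg Complex.re (h1.symm.trans hd)
       simp at h3 <;> linarith)
  · have hS : ∑ c : F, χ (bS (1 : Fˣ) c : ↥(BS F)) = 2 * (k : ℂ) + 1 := by
      rw [sum_half hodd' hχ h, c0]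
    refine ⟨fun h1 => ?_, fun h1 => ?_, fun h1 => ?_, fun h1 => ?_, fun h1 => ?_⟩ <;>
    first
    | exact hS
    | (exfalso
       have h3 := congrArg Complex.re (h1.symm.trans hd)
       simp at h3 <;> linarith)
  · have hS : ∑ c : F, χ (bS (1 : Fˣ) c : ↥(BS F)) = 0 := cuspS_sum h 1
    refine ⟨fun h1 => ?_, fun h1 => ?_, fun h1 => ?_, fun h1 => ?_, fun h1 => ?_⟩ <;>
    first
    | exact hS
    | (exfalso
       have h3 := congrArg Complex.re (h1.symm.trans hd)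
       simp at h3 <;> linarith)
  · have hS : ∑ c : F, χ (bS (1 : Fˣ) c : ↥(BS F)) = 0 := cuspS_sum h 1
    refine ⟨fun h1 => ?_, fun h1 => ?_, fun h1 => ?_, fun h1 => ?_, fun h1 => ?_⟩ <;>
    first
    | exact hS
    | (exfalso
       have h3 := congrArg Complex.re (h1.symm.trans hd)
       simp at h3 <;> linarith)

end Cfsg.Agent.S2438
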