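import Cfsg.Statements.S2531
import Mathlib
import Cfsg.Agent.Lib.Helper14.ProjPts
import Cfsg.Agent.Lib.Helper14.NoSharp

set_option autoImplicit false
open Cfsg

namespace Cfsg.Agent.S2531

/-- Let `F` be a finite field and `n ≥ 3`. No set of permutations of the points of the projective space of `Fⁿ`, each induced by an invertible semilinear transformation of `Fⁿ` (so a subset of the full projective semilinear group), is sharply 2-transitive on the points: it is impossible that for all pairs of distinct points `(a, b)` and `(c, d)` exactly one member of the set sends `a` to `c` and `b` to `d`. -/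
theorem result {F : Type*} [Field F] [Finite F]
    (n : ℕ) (hn : 3 ≤ n) (S : Set (Equiv.Perm (Projectivization F (Fin n → F))))
    (hS : ∀ s ∈ S, ∃ (σ : F ≃+* F) (f : (Fin n → F) →ₛₗ[(σ : F →+* F)] (Fin n → F)) (hf : Function.Injective f),
      ∀ x, s x = Projectivization.map f hf x) :
    ¬ (∀ a b c d : Projectivization F (Fin n → F), a ≠ b → c ≠ d →
        ∃! s, s ∈ S ∧ s a = c ∧ s b = d) := by
  classical
  have : Fintype F := Fintype.ofFinite F
  have : Fintype (Projectivization F (Fin n → F)) := Fintype.ofFinite _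
  let i0 : Fin n := ⟨0, by omega⟩
  let i1 : Fin n := ⟨1, by omega⟩
  let i2 : Fin n := ⟨2, by omega⟩
  have h01 : i0 ≠ i1 := by simp [i0, i1, Fin.ext_iff]
  have h02 : i0 ≠ i2 := by simp [i0, i2, Fin.ext_iff]
  have h12 : i1 ≠ i2 := by simp [i1, i2, Fin.ext_iff]
  let W : Submodule F (Fin n → F) := LinearMap.ker (LinearMap.proj i0 : (Fin n → F) →ₗ[F] F)
  have hW : ∀ v : Fin n → F, v ∈ W ↔ v i0 = 0 := fun v => by simp [W]
  have he0 : (Pi.single i0 (1:F) : Fin n → F) ≠ 0 := by
    intro h0
    have := congrFun h0 i0
    simp at this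
  have he1 : (Pi.single i1 (1:F) : Fin n → F) ≠ 0 := by
    intro h0
    have := congrFun h0 i1
    simp at this
  have haW : ¬ (Projectivization.mk F (Pi.single i0 (1:F) : Fin n → F) he0).submodule ≤ W := by
    rw [Projectivization.submodule_mk, Submodule.span_singleton_le_iff_mem, hW]
    simp
  have hbW : (Projectivization.mk F (Pi.single i1 (1:F) : Fin n → F) he1).submodule ≤ W := by
    rw [Projectivization.submodule_mk, Submodule.span_singleton_le_iff_mem, hW]
    simp [h01]
  have hab₀ : Projectivization.mk F (Pi.single i0 (1:F) : Fin n → F) he0 ≠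
      Projectivization.mk F (Pi.single i1 (1:F) : Fin n → F) he1 := fun hh => haW (hh ▸ hbW)
  have hWbot : W ≠ ⊥ := by
    rw [Submodule.ne_bot_iff]
    exact ⟨Pi.single i1 1, by rw [hW]; simp [h01], he1⟩
  have hq1 : 1 < Nat.card F := Finite.one_lt_card
  have hHf : (((Finset.univ.filter
      (fun x : Projectivization F (Fin n → F) => x.submodule ≤ W)).card : ℕ) :
        ZMod (Nat.card F)) = 1 :=
    Cfsg.Agent.Lib.Helper14.ProjPts.card_filter_pts W hWbot
  have hΩ : ((Fintype.card (Projectivization F (Fin n → F)) : ℕ) : ZMod (Nat.card F)) = 1 := by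
    have h4 := Cfsg.Agent.Lib.Helper14.ProjPts.card_filter_pts
      (⊤ : Submodule F (Fin n → F)) (fun hh => hWbot (le_bot_iff.1 (hh ▸ le_top)))
    simpa [Finset.card_univ] using h4
  refine Cfsg.Agent.Lib.Helper14.NoSharp.no_sharp (Nat.card F) hq1 S
    (Finset.univ.filter (fun x : Projectivization F (Fin n → F) => x.submodule ≤ W))
    (Projectivization.mk F (Pi.single i0 (1:F) : Fin n → F) he0)
    (Projectivization.mk F (Pi.single i1 (1:F) : Fin n → F) he1)
    (by simpa using haW) hab₀ hΩ hHf ?_
  intro s hs
  obtain ⟨σ, f, hf, hsf⟩ := hS s hs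
  have hK : W ⊓ W.comap f ≠ ⊥ := by
    have hcard : Fintype.card F < Fintype.card (F × F) := by
      rw [Fintype.card_prod]
      have : 1 < Fintype.card F := Fintype.one_lt_card
      nlinarith
    obtain ⟨x, y, hxy, hg⟩ := Fintype.exists_ne_map_eq_of_card_lt
      (fun cd : F × F => f (cd.1 • Pi.single i1 (1:F) + cd.2 • Pi.single i2 (1:F)) i0) hcard
    rw [Submodule.ne_bot_iff]
    refine ⟨(x.1 - y.1) • Pi.single i1 (1:F) + (x.2 - y.2) • Pi.single i2 (1:F), ?_, ?_⟩
    · rw [Submodule.mem_inf, Submodule.mem_comap, hW, hW]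
      refine ⟨by simp [h01, h02], ?_⟩
      have e : (x.1 - y.1) • Pi.single i1 (1:F) + (x.2 - y.2) • Pi.single i2 (1:F) =
          (x.1 • Pi.single i1 (1:F) + x.2 • Pi.single i2 (1:F)) -
          (y.1 • Pi.single i1 (1:F) + y.2 • Pi.single i2 (1:F) : Fin n → F) := by
        rw [sub_smul, sub_smul]; abel
      rw [e, map_sub, Pi.sub_apply]
      exact sub_eq_zero.2 hg
    · intro h0
      apply hxy
      have c1 := congrFun h0 i1
      have c2 := congrFun h0 i2
      simp [h12, Ne.symm h12] at c1 c2
      exact Prod.ext (sub_eq_zero.1 c1) (sub_eq_zero.1 c2)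
  have hset : (Finset.univ.filter
      (fun x : Projectivization F (Fin n → F) => x.submodule ≤ W)).filter
        (fun b => s b ∈ Finset.univ.filter
          (fun x : Projectivization F (Fin n → F) => x.submodule ≤ W)) =
      Finset.univ.filter
        (fun x : Projectivization F (Fin n → F) => x.submodule ≤ W ⊓ W.comap f) := by
    ext b
    simp only [Finset.mem_filter, Finset.mem_univ, true_and]
    induction b using Projectivization.ind with
    | h v hv =>
      rw [hsf, Projectivization.map_mk f hf v hv, Projectivization.submodule_mk,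
        Projectivization.submodule_mk, Submodule.span_singleton_le_iff_mem,
        Submodule.span_singleton_le_iff_mem, Submodule.span_singleton_le_iff_mem,
        Submodule.mem_inf, Submodule.mem_comap]
  rw [hset]
  exact Cfsg.Agent.Lib.Helper14.ProjPts.card_filter_pts _ hK

end Cfsg.Agent.S2531
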