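import Cfsg.Statements.S2532

set_option autoImplicit false
open Cfsg

namespace Cfsg.Agent.S2532

theorem exists_hom {H Ω : Type*} [Group H] [Finite H] [Fintype Ω] [DecidableEq Ω] [MulAction H Ω] (r : ℕ)
    (hr : 0 < r) (x : Fin r → Ω)
    (hstab : ∀ i j, MulAction.stabilizer H (x i) = MulAction.stabilizer H (x j))
    (horb : ∀ i j, x i ∈ MulAction.orbit H (x j) → i = j) :
    ∃ π : Equiv.Perm (Fin r) →* Equiv.Perm Ω, Function.Injective π ∧
      (∀ σ (h : H) (y : Ω), π σ (h • y) = h • π σ y) ∧
      (∀ σ, Equiv.Perm.sign σ = 1 → Equiv.Perm.sign (π σ) = 1) := by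
  classical
  have : Fintype H := Fintype.ofFinite H
  let i₀ : Fin r := ⟨0, hr⟩
  let L : Subgroup H := MulAction.stabilizer H (x i₀)
  let Φ : (H ⧸ L) × Fin r → Ω := fun a => (Quotient.out a.1 : H) • x a.2
  have hΦ : Function.Injective Φ := by
    rintro ⟨q, i⟩ ⟨q', j⟩ h
    have h' : (Quotient.out q : H) • x i = (Quotient.out q' : H) • x j := h
    have hij : i = j := by
      apply horb i j
      refine ⟨(Quotient.out q : H)⁻¹ * (Quotient.out q' : H), ?_⟩
      show ((Quotient.out q : H)⁻¹ * (Quotient.out q' : H)) • x j = x i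
      rw [mul_smul, ← h', inv_smul_smul]
    subst hij
    have h3 : (Quotient.out q : H)⁻¹ * (Quotient.out q' : H) ∈ L := by
      show (Quotient.out q : H)⁻¹ * (Quotient.out q' : H) ∈ MulAction.stabilizer H (x i₀)
      rw [hstab i₀ i, MulAction.mem_stabilizer_iff, mul_smul, ← h', inv_smul_smul]
    have h4 : (QuotientGroup.mk (Quotient.out q : H) : H ⧸ L) = QuotientGroup.mk (Quotient.out q' : H) :=
      QuotientGroup.eq.mpr h3
    rw [QuotientGroup.out_eq', QuotientGroup.out_eq'] at h4
    rw [h4]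
  have hequiv : ∀ (h : H) (q : H ⧸ L) (i : Fin r), h • Φ (q, i) = Φ (h • q, i) := by
    intro h q i
    show h • (Quotient.out q : H) • x i = (Quotient.out (h • q) : H) • x i
    have e : h • q = (QuotientGroup.mk (h * (Quotient.out q : H)) : H ⧸ L) := by
      conv_lhs => rw [← QuotientGroup.out_eq' q]
      rfl
    obtain ⟨l, hl⟩ := QuotientGroup.mk_out_eq_mul L (h * (Quotient.out q : H))
    rw [e, hl, mul_smul, mul_smul]
    congr 2
    have h3 : (l : H) ∈ MulAction.stabilizer H (x i) := by
      rw [← hstab i₀ i]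
      exact l.2
    exact (MulAction.mem_stabilizer_iff.mp h3).symm
  let ι : Equiv.Perm (Fin r) →* Equiv.Perm ((H ⧸ L) × Fin r) :=
    { toFun := fun σ => Equiv.prodCongrRight (fun _ => σ)
      map_one' := by
        ext ⟨q, i⟩ <;> rfl
      map_mul' := by
        intro σ τ
        ext ⟨q, i⟩ <;> rfl }
  let e : (H ⧸ L) × Fin r ≃ {y // y ∈ Set.range Φ} := Equiv.ofInjective Φ hΦ
  refine ⟨(Equiv.Perm.extendDomainHom e).comp ι, ?_, ?_, ?_⟩
  · apply Function.Injective.comp (Equiv.Perm.extendDomainHom_injective e)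
    intro σ τ h
    ext i
    have h3 := congrArg (fun (ρ : Equiv.Perm ((H ⧸ L) × Fin r)) => (ρ ((QuotientGroup.mk 1 : H ⧸ L), i)).2) h
    exact congrArg Fin.val h3
  · intro σ h y
    show (Equiv.Perm.extendDomain (ι σ) e) (h • y) = h • (Equiv.Perm.extendDomain (ι σ) e) y
    by_cases hy : y ∈ Set.range Φ
    · obtain ⟨⟨q, i⟩, rfl⟩ := hy
      rw [hequiv]
      have e1 : Φ (h • q, i) = (e (h • q, i) : Ω) := rfl
      have e2 : Φ (q, i) = (e (q, i) : Ω) := rfl
      rw [e1, e2, Equiv.Perm.extendDomain_apply_image, Equiv.Perm.extendDomain_apply_image]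
      show Φ (h • q, σ i) = h • Φ (q, σ i)
      rw [hequiv]
    · have hy' : h • y ∉ Set.range Φ := by
        rintro ⟨⟨q, i⟩, hqi⟩
        apply hy
        refine ⟨(h⁻¹ • q, i), ?_⟩
        rw [← hequiv, hqi, inv_smul_smul]
      rw [Equiv.Perm.extendDomain_apply_not_subtype _ _ hy, Equiv.Perm.extendDomain_apply_not_subtype _ _ hy']
  · intro σ hσ
    show Equiv.Perm.sign (Equiv.Perm.extendDomain (ι σ) e) = 1
    rw [Equiv.Perm.sign_extendDomain]
    show Equiv.Perm.sign (Equiv.prodCongrRight (fun (_ : H ⧸ L) => σ)) = 1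
    rw [Equiv.Perm.sign_prodCongrRight]
    simp [hσ]

theorem exists_points {H Ω : Type*} [Group H] [Finite H] [Fintype Ω] [MulAction H Ω] (r : ℕ)
    (hcard : Nat.card H * (2 ^ Nat.card H * r) < Fintype.card Ω) :
    ∃ x : Fin r → Ω, (∀ i j, MulAction.stabilizer H (x i) = MulAction.stabilizer H (x j)) ∧
      (∀ i j, x i ∈ MulAction.orbit H (x j) → i = j) := by
  classical
  have : Fintype H := Fintype.ofFinite H
  have : Fintype (MulAction.orbitRel.Quotient H Ω) := Fintype.ofFinite _
  have : Fintype (Subgroup H) := Fintype.ofFinite _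
  have hHpos : 0 < Nat.card H := Nat.card_pos
  have hb : ∀ o : MulAction.orbitRel.Quotient H Ω,
      (Quotient.mk'' (Quotient.out o) : MulAction.orbitRel.Quotient H Ω) = o := fun o => Quotient.out_eq' o
  have h1 : Fintype.card Ω ≤ Nat.card H * Fintype.card (MulAction.orbitRel.Quotient H Ω) := by
    have h2 := Finset.card_le_mul_card_image (f := fun y : Ω =>
      (Quotient.mk'' y : MulAction.orbitRel.Quotient H Ω)) (Finset.univ : Finset Ω) (Nat.card H) (by
      intro a _
      obtain ⟨y, rfl⟩ := Quotient.mk''_surjective a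
      have hsub : (Finset.univ.filter (fun z : Ω =>
          (Quotient.mk'' z : MulAction.orbitRel.Quotient H Ω) = Quotient.mk'' y)) ⊆
          Finset.image (fun h : H => h • y) Finset.univ := by
        intro z hz
        rw [Finset.mem_filter] at hz
        have h3 : z ∈ MulAction.orbit H y := (MulAction.orbitRel_apply).mp (Quotient.eq''.mp hz.2)
        obtain ⟨h, hh⟩ := h3
        rw [Finset.mem_image]
        exact ⟨h, Finset.mem_univ _, hh⟩
      refine le_trans (Finset.card_le_card hsub) (le_trans Finset.card_image_le ?_)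
      rw [Finset.card_univ, Nat.card_eq_fintype_card])
    rw [Finset.card_univ] at h2
    refine le_trans h2 (Nat.mul_le_mul_left _ ?_)
    exact le_trans (Finset.card_le_univ _) le_rfl
  have h3 : Fintype.card (Subgroup H) ≤ 2 ^ Nat.card H := by
    have h4 := Fintype.card_le_of_injective (fun K : Subgroup H => (K : Set H)) SetLike.coe_injective
    rw [Fintype.card_set] at h4
    rw [Nat.card_eq_fintype_card]
    exact h4
  have hn : Fintype.card (Subgroup H) * r < Fintype.card (MulAction.orbitRel.Quotient H Ω) := by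
    have h5 : Nat.card H * (2 ^ Nat.card H * r) <
        Nat.card H * Fintype.card (MulAction.orbitRel.Quotient H Ω) := lt_of_lt_of_le hcard h1
    have h6 := Nat.lt_of_mul_lt_mul_left h5
    exact lt_of_le_of_lt (Nat.mul_le_mul_right r h3) h6
  obtain ⟨L, hL⟩ := Fintype.exists_lt_card_fiber_of_mul_lt_card
    (fun o : MulAction.orbitRel.Quotient H Ω => MulAction.stabilizer H (Quotient.out o)) hn
  obtain ⟨em⟩ : Nonempty (Fin r ↪ {o // o ∈ Finset.univ.filter
      (fun o : MulAction.orbitRel.Quotient H Ω => MulAction.stabilizer H (Quotient.out o) = L)}) := by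
    apply Function.Embedding.nonempty_of_card_le
    rw [Fintype.card_fin, Fintype.card_coe]
    exact hL.le
  refine ⟨fun i => Quotient.out (em i).1, ?_, ?_⟩
  · intro i j
    have hi := (Finset.mem_filter.mp (em i).2).2
    have hj := (Finset.mem_filter.mp (em j).2).2
    rw [hi, hj]
  · intro i j hij
    have h7 : (Quotient.mk'' (Quotient.out (em i).1) : MulAction.orbitRel.Quotient H Ω) =
        Quotient.mk'' (Quotient.out (em j).1) :=
      Quotient.eq''.mpr ((MulAction.orbitRel_apply).mpr hij)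
    rw [hb, hb] at h7
    exact em.injective (Subtype.ext h7)

theorem result :
    ∃ f : ℕ → ℕ → ℕ, ∀ (m r : ℕ) (H : Subgroup ↥(alternatingGroup (Fin m))), f (Nat.card H) r ≤ m →
      ∃ K : Subgroup ↥(alternatingGroup (Fin m)), Nonempty (↥K ≃* ↥(alternatingGroup (Fin r))) ∧
        K ≤ Subgroup.centralizer (H : Set ↥(alternatingGroup (Fin m))) := by
  refine ⟨fun n r => n * (2 ^ n * r) + 1, ?_⟩
  intro m r H hm
  rcases Nat.eq_zero_or_pos r with hr | hr
  · subst hr
    refine ⟨⊥, ⟨?_⟩, bot_le⟩
    have h1 : Subsingleton ↥(alternatingGroup (Fin 0)) := inferInstance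
    exact
      { toFun := fun _ => 1
        invFun := fun _ => 1
        left_inv := fun a => Subsingleton.elim _ _
        right_inv := fun a => Subsingleton.elim _ _
        map_mul' := fun a b => Subsingleton.elim _ _ }
  · have hcard : Nat.card H * (2 ^ Nat.card H * r) < Fintype.card (Fin m) := by
      rw [Fintype.card_fin]
      exact hm
    obtain ⟨x, hstab, horb⟩ := exists_points (H := H) (Ω := Fin m) r hcard
    obtain ⟨π, hπinj, hπcomm, hπsign⟩ := exists_hom (H := H) (Ω := Fin m) r hr x hstab horb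
    let ψ : ↥(alternatingGroup (Fin r)) →* ↥(alternatingGroup (Fin m)) :=
      (π.comp (alternatingGroup (Fin r)).subtype).codRestrict (alternatingGroup (Fin m)) (by
        intro σ
        rw [Equiv.Perm.mem_alternatingGroup]
        exact hπsign _ (Equiv.Perm.mem_alternatingGroup.mp σ.2))
    have hψinj : Function.Injective ψ := by
      intro σ τ h
      have h3 : π (σ : Equiv.Perm (Fin r)) = π (τ : Equiv.Perm (Fin r)) := congrArg Subtype.val h
      exact Subtype.ext (hπinj h3)
    refine ⟨ψ.range, ⟨(MonoidHom.ofInjective hψinj).symm⟩, ?_⟩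
    rintro _ ⟨σ, rfl⟩
    rw [Subgroup.mem_centralizer_iff]
    intro h hh
    apply Subtype.ext
    ext y
    have h3 := hπcomm (σ : Equiv.Perm (Fin r)) (⟨h, hh⟩ : H) y
    show ((h : Equiv.Perm (Fin m)) (π (σ : Equiv.Perm (Fin r)) y) : ℕ) =
      (π (σ : Equiv.Perm (Fin r)) ((h : Equiv.Perm (Fin m)) y) : ℕ)
    exact congrArg Fin.val h3.symm

end Cfsg.Agent.S2532
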