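import Cfsg.Statements.S2533
import Mathlib
import Cfsg.Agent.Lib.Helper14.Dih3

set_option autoImplicit false
open Cfsg

namespace Cfsg.Agent.S2533

/-- For every odd prime `p` there is a finite group `H` of order `2p³` which, for infinitely many `n`, embeds in the projective special linear group `PSL(n, p)` as a subgroup with trivial centralizer. -/
theorem result
    (p : ℕ) [Fact p.Prime] (hp : p ≠ 2) :
    ∃ (H : Type) (_ : Group H) (_ : Finite H), Nat.card H = 2 * p ^ 3 ∧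
      ∀ N : ℕ, ∃ n, N ≤ n ∧ ∃ φ : H →* Matrix.ProjectiveSpecialLinearGroup (Fin n) (ZMod p),
        Function.Injective φ ∧ Subgroup.centralizer (φ.range : Set (Matrix.ProjectiveSpecialLinearGroup (Fin n) (ZMod p))) = ⊥ := by
  have hpos : 0 < p := (Fact.out : p.Prime).pos
  have hfin : Finite (Cfsg.Agent.Lib.Helper14.Dih3.HH p) := by
    apply Nat.finite_of_card_ne_zero
    rw [Cfsg.Agent.Lib.Helper14.Dih3.card_HH]
    exact (mul_pos two_pos (pow_pos hpos 3)).ne'
  refine ⟨Cfsg.Agent.Lib.Helper14.Dih3.HH p, inferInstance, hfin,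
    Cfsg.Agent.Lib.Helper14.Dih3.card_HH p, fun N => ?_⟩
  have hme : Even (2 * (p * (N + 1))) := ⟨p * (N + 1), by omega⟩
  have hmp : ((2 * (p * (N + 1)) : ℕ) : ZMod p) = 0 := by
    push_cast
    simp
  have hN : N + 1 ≤ p * (N + 1) := Nat.le_mul_of_pos_left _ hpos
  have hm2 : 2 ≤ 2 * (p * (N + 1)) := by omega
  refine ⟨(2 * (p * (N + 1)) + 1) + 2 * (p * (N + 1)), by omega, ?_⟩
  exact Cfsg.Agent.Lib.Helper14.Dih3.psl_embed finSumFinEquiv
    (Cfsg.Agent.Lib.Helper14.Dih3.rho p _ hme)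
    (fun h => Cfsg.Agent.Lib.Helper14.Dih3.rho_center p _ hp hme hm2 h)
    (fun g hg => Cfsg.Agent.Lib.Helper14.Dih3.rho_centralizer p _ hp hme hmp g hg)

end Cfsg.Agent.S2533
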