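import Cfsg.Statements.S2537
import Cfsg.Agent.Lib.Helper16.Hall23a
import Cfsg.Agent.Lib.Helper16.Hall23b
import Cfsg.Agent.Lib.Helper16.Hall23c
import Cfsg.Agent.Lib.Helper2.Subfield2
import Cfsg.Agent.S0803

set_option autoImplicit false
open Cfsg

namespace Cfsg.Agent.S2537

/-- Let `F` be a finite field with `q` elements of characteristic `p ≥ 5`, and `ε = 1` if `q ≡ 1 (mod 4)`, `ε = -1` otherwise. Then `PSL(2, F)` has a Hall `{2, 3}`-subgroup if and only if `3` divides `q − ε`, or the `{2,3}`-part of `q² − 1` is 24, or the `{2,3}`-part of `q² − 1` is 48 (the `{2,3}`-part of `m` being the largest divisor of `m` with no prime factor other than 2 and 3). -/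
theorem result {F : Type*} [Field F] [Fintype F] {p : ℕ} [Fact p.Prime] [CharP F p]
    (hp : 5 ≤ p) (q : ℕ) (hq : Fintype.card F = q) :
    (∃ H : Subgroup (Matrix.ProjectiveSpecialLinearGroup (Fin 2) F), Cfsg.IsPiHall ({2, 3} : Set ℕ) H) ↔
      (3 ∣ q - 1 ∧ q % 4 = 1) ∨ (3 ∣ q + 1 ∧ q % 4 = 3) ∨
        2 ^ (q ^ 2 - 1).factorization 2 * 3 ^ (q ^ 2 - 1).factorization 3 = 24 ∨
        2 ^ (q ^ 2 - 1).factorization 2 * 3 ^ (q ^ 2 - 1).factorization 3 = 48 := by
  classical
  haveI := Cfsg.Agent.Lib.Helper16.PSL2A4.finite_psl (F := F)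
  obtain ⟨n, hpn, hcardF⟩ := FiniteField.card F p
  have hp2 : p % 2 = 1 := by
    rcases Nat.Prime.eq_two_or_odd (Fact.out : p.Prime) with h | h <;> omega
  have hqodd : q % 2 = 1 := by
    rw [← hq, hcardF, Nat.pow_mod, hp2]
    simp
  have hq3 : ¬ 3 ∣ q := by
    rw [← hq, hcardF]
    intro h
    have h' := (Nat.prime_dvd_prime_iff_eq Nat.prime_three (Fact.out : p.Prime)).mp
      (Nat.Prime.dvd_of_dvd_pow Nat.prime_three h)
    omega
  have hq5 : 5 ≤ q := by
    rw [← hq, hcardF]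
    calc 5 ≤ p := hp
      _ = p ^ 1 := (pow_one p).symm
      _ ≤ p ^ (n : ℕ) := Nat.pow_le_pow_right (by omega) n.pos
  have hoddF : Fintype.card F % 2 = 1 := by
    rw [hq]
    exact hqodd
  have h2F : (2 : F) ≠ 0 := Cfsg.Agent.Lib.Helper14.SL2Odd.two_ne_zero_of_odd hoddF
  have h3F : (3 : F) ≠ 0 := by
    intro h
    have h' : ((3 : ℕ) : F) = 0 := by exact_mod_cast h
    rw [CharP.cast_eq_zero_iff F p] at h'
    have := Nat.le_of_dvd (by norm_num) h'
    omega
  have hchar : ringChar F ≠ 2 := by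
    rw [ringChar.eq F p]
    omega
  have hG2 : 2 * Nat.card (Matrix.ProjectiveSpecialLinearGroup (Fin 2) F) = q * (q ^ 2 - 1) := by
    have h := Cfsg.Agent.Lib.Helper2.Subfield2.card_psl2 (F := F) (Nat.odd_iff.mpr hoddF)
    rw [hq] at h
    exact h
  have hq25 : 25 ≤ q ^ 2 := by nlinarith
  have hX : q ^ 2 - 1 ≠ 0 := by omega
  constructor
  · rintro ⟨H, hH1, hH2⟩
    by_cases hc1 : 3 ∣ q - 1 ∧ q % 4 = 1
    · exact Or.inl hc1
    by_cases hc2 : 3 ∣ q + 1 ∧ q % 4 = 3
    · exact Or.inr (Or.inl hc2)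
    right; right
    have hmod : (q % 4 = 1 ∧ q % 3 = 2) ∨ (q % 4 = 3 ∧ q % 3 = 1) := by
      have h3' : q % 3 ≠ 0 := fun h => hq3 (Nat.dvd_of_mod_eq_zero h)
      rcases (by omega : q % 4 = 1 ∨ q % 4 = 3) with h4 | h4
      · left
        refine ⟨h4, ?_⟩
        by_contra h
        exact hc1 ⟨by omega, h4⟩
      · right
        refine ⟨h4, ?_⟩
        by_contra h
        exact hc2 ⟨by omega, h4⟩
    obtain ⟨a, b, hcard⟩ := Cfsg.Agent.Lib.Helper16.Hall23.eq_pow23 (n := Nat.card H)
      Nat.card_pos.ne' (fun r hr hd => by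
        have h := hH1 r hr hd
        simpa using h)
    have hi2 : ¬ 2 ∣ H.index := hH2 2 Nat.prime_two (by simp)
    have hi3 : ¬ 3 ∣ H.index := hH2 3 Nat.prime_three (by simp)
    obtain ⟨hv2, hv3⟩ := Cfsg.Agent.Lib.Helper16.Hall23.hall_card_eq H q a b hcard hi2 hi3 hG2
      hqodd hq3 hX
    have h8 : 2 ^ 3 ∣ q ^ 2 - 1 := by
      have h1 : q ^ 2 % 8 = 1 := by
        rw [Nat.pow_mod]
        rcases (by omega : q % 8 = 1 ∨ q % 8 = 3 ∨ q % 8 = 5 ∨ q % 8 = 7) with h | h | h | h <;>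
          rw [h]
      omega
    have h3d : 3 ^ 1 ∣ q ^ 2 - 1 := by
      have h1 : q ^ 2 % 3 = 1 := by
        rw [Nat.pow_mod]
        rcases (by omega : q % 3 = 1 ∨ q % 3 = 2) with h | h <;> rw [h]
      omega
    have ha : 2 ≤ a := by
      have h := (Nat.Prime.pow_dvd_iff_le_factorization Nat.prime_two hX).mp h8
      omega
    have hb : 1 ≤ b := by
      have h := (Nat.Prime.pow_dvd_iff_le_factorization Nat.prime_three hX).mp h3d
      omega
    have hns := Cfsg.Agent.Lib.Helper16.Hall23.not_sq_three (F := F) hchar (by rw [hq]; exact hmod)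
    have hbound := Cfsg.Agent.Lib.Helper16.Hall23.hall_bound H
      (fun z x hz1 hz hx1 hx hc =>
        hns (Cfsg.Agent.Lib.Helper16.Hall23.no_comm23 h2F z x hz1 hz hx1 hx hc))
      (Cfsg.Agent.Lib.Helper16.Hall23.comm33 h2F h3F)
      (Cfsg.Agent.Lib.Helper16.Hall23.cent_klein hoddF) a b hcard ha hb
    rw [hcard] at hbound
    rw [hv2, hv3]
    have ha5 : a < 5 := by
      by_contra hh
      have h1 : 2 ^ 5 ≤ 2 ^ a := Nat.pow_le_pow_right (by norm_num) (by omega)
      have h2 : 2 ^ a * 1 ≤ 2 ^ a * 3 ^ b :=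
        Nat.mul_le_mul_left _ (Nat.one_le_pow _ _ (by norm_num))
      rw [mul_one] at h2
      have h3 : 2 ^ 5 ≤ 24 := (h1.trans h2).trans hbound
      norm_num at h3
    have hb3 : b < 3 := by
      by_contra hh
      have h1 : 3 ^ 3 ≤ 3 ^ b := Nat.pow_le_pow_right (by norm_num) (by omega)
      have h2 : 1 * 3 ^ b ≤ 2 ^ a * 3 ^ b :=
        Nat.mul_le_mul_right _ (Nat.one_le_pow _ _ (by norm_num))
      rw [one_mul] at h2
      have h3 : 3 ^ 3 ≤ 24 := (h1.trans h2).trans hbound
      norm_num at h3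
    interval_cases a <;> interval_cases b <;> simp at hbound ⊢
  · rintro (⟨h3, h4⟩ | ⟨h3, h4⟩ | h24 | h48)
    · obtain ⟨D, hDs, hDc⟩ := Cfsg.Agent.Lib.Helper16.Hall23.exists_dihedral (F := F) hoddF
      haveI := hDs
      have hr := Cfsg.Agent.Lib.Helper16.SL2Four.roots_ncard_one h2F (by rw [hq]; exact h4)
      rw [hr, hq] at hDc
      have hDcard : Nat.card D = q - 1 := by omega
      have hI := Subgroup.card_mul_index D
      rw [hDcard] at hI
      obtain ⟨t, rfl⟩ : ∃ t, q = t + 1 := ⟨q - 1, by omega⟩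
      have hXt : (t + 1) ^ 2 - 1 = t * (t + 2) := by
        have : (t + 1) ^ 2 = t * (t + 2) + 1 := by ring
        omega
      simp only [Nat.add_sub_cancel] at hI h3
      rw [hXt, ← hI] at hG2
      have ht : 0 < t := by omega
      have h2I : 2 * D.index = (t + 1) * (t + 2) := by
        apply Nat.eq_of_mul_eq_mul_left ht
        calc t * (2 * D.index) = 2 * (t * D.index) := by ring
          _ = (t + 1) * (t * (t + 2)) := hG2
          _ = t * ((t + 1) * (t + 2)) := by ring
      apply Cfsg.Agent.Lib.Helper16.Hall23.hall_of_solvable D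
      · rintro ⟨j, hj⟩
        obtain ⟨u, rfl⟩ : ∃ u, t = 4 * u := ⟨t / 4, by omega⟩
        rw [hj] at h2I
        have e : (4 * u + 1) * (4 * u + 2) = 16 * (u * u) + 12 * u + 2 := by ring
        rw [e] at h2I
        omega
      · rintro ⟨j, hj⟩
        obtain ⟨w, rfl⟩ := h3
        rw [hj] at h2I
        have e : (3 * w + 1) * (3 * w + 2) = 9 * (w * w) + 9 * w + 2 := by ring
        rw [e] at h2I
        omega
    · obtain ⟨D, hDs, hDc⟩ := Cfsg.Agent.Lib.Helper16.Hall23.exists_dihedral (F := F) hoddF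
      haveI := hDs
      have hr := Cfsg.Agent.Lib.Helper16.SL2Four.roots_ncard_three (F := F) (by rw [hq]; exact h4)
      rw [hr, hq] at hDc
      have hDcard : Nat.card D = q + 1 := by omega
      have hI := Subgroup.card_mul_index D
      rw [hDcard] at hI
      obtain ⟨t, rfl⟩ : ∃ t, q = t + 1 := ⟨q - 1, by omega⟩
      have hXt : (t + 1) ^ 2 - 1 = t * (t + 2) := by
        have : (t + 1) ^ 2 = t * (t + 2) + 1 := by ring
        omega
      rw [hXt, ← hI] at hG2
      have h2I : 2 * D.index = (t + 1) * t := by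
        apply Nat.eq_of_mul_eq_mul_left (show 0 < t + 1 + 1 by omega)
        calc (t + 1 + 1) * (2 * D.index) = 2 * ((t + 1 + 1) * D.index) := by ring
          _ = (t + 1) * (t * (t + 2)) := hG2
          _ = (t + 1 + 1) * ((t + 1) * t) := by ring
      apply Cfsg.Agent.Lib.Helper16.Hall23.hall_of_solvable D
      · rintro ⟨j, hj⟩
        obtain ⟨u, rfl⟩ : ∃ u, t = 4 * u + 2 := ⟨t / 4, by omega⟩
        rw [hj] at h2I
        have e : (4 * u + 2 + 1) * (4 * u + 2) = 16 * (u * u) + 20 * u + 6 := by ring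
        rw [e] at h2I
        omega
      · rintro ⟨j, hj⟩
        obtain ⟨w, rfl⟩ : ∃ w, t = 3 * w + 1 := ⟨t / 3, by omega⟩
        rw [hj] at h2I
        have e : (3 * w + 1 + 1) * (3 * w + 1) = 9 * (w * w) + 9 * w + 2 := by ring
        rw [e] at h2I
        omega
    · obtain ⟨H, ⟨e⟩⟩ := Cfsg.Agent.Lib.Helper16.PSL2A4.exists_a4_odd (F := F) hoddF
      have hc : Nat.card H = 12 := by
        rw [Nat.card_congr e.toEquiv, Nat.card_eq_fintype_card]
        have h := two_mul_card_alternatingGroup (α := Fin 4)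
        rw [Fintype.card_perm, Fintype.card_fin] at h
        have h4 : Nat.factorial 4 = 24 := by decide
        omega
      exact ⟨H, Cfsg.Agent.Lib.Helper16.Hall23.hall_of_card H q 12 hc hG2 hqodd hq3 hX h24⟩
    · have key : ∀ a b : ℕ, 2 ^ a * 3 ^ b = 48 → a = 4 := by
        intro a b h
        have ha : a < 6 := by
          by_contra hh
          have h1 : 2 ^ 6 ≤ 2 ^ a := Nat.pow_le_pow_right (by norm_num) (by omega)
          have h2 : 2 ^ a * 1 ≤ 2 ^ a * 3 ^ b :=
            Nat.mul_le_mul_left _ (Nat.one_le_pow _ _ (by norm_num))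
          rw [h, mul_one] at h2
          have h3 : 2 ^ 6 ≤ 48 := h1.trans h2
          norm_num at h3
        have hb : b < 4 := by
          by_contra hh
          have h1 : 3 ^ 4 ≤ 3 ^ b := Nat.pow_le_pow_right (by norm_num) (by omega)
          have h2 : 1 * 3 ^ b ≤ 2 ^ a * 3 ^ b :=
            Nat.mul_le_mul_right _ (Nat.one_le_pow _ _ (by norm_num))
          rw [h, one_mul] at h2
          have h3 : 3 ^ 4 ≤ 48 := h1.trans h2
          norm_num at h3
        interval_cases a <;> interval_cases b <;> simp at h ⊢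
      have h16 : q ^ 2 % 16 = 1 := by
        have hv := key _ _ h48
        have hd := Nat.ordProj_dvd (q ^ 2 - 1) 2
        rw [hv] at hd
        omega
      obtain ⟨H, ⟨e⟩⟩ := (Cfsg.Agent.S0803.result hq).mpr h16
      have hc : Nat.card H = 24 := by
        rw [Nat.card_congr e.toEquiv, Nat.card_eq_fintype_card, Fintype.card_perm,
          Fintype.card_fin]
        decide
      exact ⟨H, Cfsg.Agent.Lib.Helper16.Hall23.hall_of_card H q 24 hc hG2 hqodd hq3 hX h48⟩

end Cfsg.Agent.S2537
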