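import Cfsg.Statements.S2540
import Cfsg.Agent.Lib.Helper2.SLGen
import Cfsg.Agent.S0249

set_option autoImplicit false
open Cfsg

namespace Cfsg.Agent.S2540

/-- If all commutators `[f s, g]` are central and the source group is perfect, `g` commutes with
the image of `f`. -/
theorem comm_of_central_comm {G H : Type*} [Group G] [Group H] (f : H →* G) (g : G)
    (hc : ∀ s : H, f s * g * (f s)⁻¹ * g⁻¹ ∈ Subgroup.center G) (hperf : commutator H = ⊤) :
    ∀ s, f s * g = g * f s := by
  obtain ⟨ψ, hψ⟩ : ∃ ψ : H →* G, ∀ s, ψ s = f s * g * (f s)⁻¹ * g⁻¹ := by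
    refine ⟨{ toFun := fun s => f s * g * (f s)⁻¹ * g⁻¹
              map_one' := ?_
              map_mul' := ?_ }, fun s => rfl⟩
    · simp
    · intro s t
      have hz := Subgroup.mem_center_iff.1 (hc t)
      rw [map_mul]
      generalize f s = S at hz ⊢
      generalize f t = T at hz ⊢
      calc S * T * g * (S * T)⁻¹ * g⁻¹
          = (S * (T * g * T⁻¹ * g⁻¹)) * g * S⁻¹ * g⁻¹ := by group
        _ = ((T * g * T⁻¹ * g⁻¹) * S) * g * S⁻¹ * g⁻¹ := by rw [hz S]
        _ = (T * g * T⁻¹ * g⁻¹) * (S * g * S⁻¹ * g⁻¹) := by group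
        _ = (S * g * S⁻¹ * g⁻¹) * (T * g * T⁻¹ * g⁻¹) := (hz _).symm
  have h1 : commutator H ≤ ψ.ker := by
    rw [commutator_def, Subgroup.commutator_le]
    intro a _ b _
    rw [MonoidHom.mem_ker, map_commutatorElement, commutatorElement_def]
    have hz := Subgroup.mem_center_iff.1 (hc b)
    rw [← hψ b] at hz
    rw [hz (ψ a), mul_inv_cancel_right, mul_inv_cancel]
  intro s
  have h0 : s ∈ commutator H := by rw [hperf]; exact Subgroup.mem_top s
  have h2 : ψ s = 1 := MonoidHom.mem_ker.1 (h1 h0)
  rw [hψ s] at h2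
  have h3 : f s * g * (f s)⁻¹ = g := mul_inv_eq_one.1 h2
  exact mul_inv_eq_iff_eq_mul.1 h3

/-- Let F be a finite field and n ≥ 1, excluding the case n = 2 with #F ≤ 3. A subgroup of GL_n(F) that is normalized by every element of SL_n(F) either consists of scalar matrices or contains SL_n(F). -/
theorem result {F : Type*} [Field F] [Fintype F] (n : ℕ) (hn : 1 ≤ n) (hex : ¬ (n = 2 ∧ Fintype.card F ≤ 3)) (G : Subgroup (Matrix.GeneralLinearGroup (Fin n) F)) (hG : ∀ s : Matrix.SpecialLinearGroup (Fin n) F, ∀ g ∈ G, (Matrix.SpecialLinearGroup.toGL s) * g * (Matrix.SpecialLinearGroup.toGL s)⁻¹ ∈ G) : (∀ g ∈ G, ∃ c : F, (g : Matrix (Fin n) (Fin n) F) = c • (1 : Matrix (Fin n) (Fin n) F)) ∨ (Matrix.SpecialLinearGroup.toGL : Matrix.SpecialLinearGroup (Fin n) F →* _).range ≤ G := by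
  classical
  by_cases h1 : n = 1
  · subst h1
    left
    intro g _
    refine ⟨(g : Matrix (Fin 1) (Fin 1) F) 0 0, ?_⟩
    ext i j
    fin_cases i
    fin_cases j
    simp
  have hn2 : 2 ≤ n := by omega
  have hnt : Nontrivial (Fin n) := Fin.nontrivial_iff_two_le.mpr hn2
  have hperf : commutator (Matrix.SpecialLinearGroup (Fin n) F) = ⊤ := by
    by_cases h3 : 3 ≤ n
    · exact Cfsg.Agent.Lib.Helper2.SLGen.commutator_eq_top (by simpa using h3)
    · have hn : n = 2 := by omega
      subst hn
      have hc : 4 ≤ Fintype.card F := by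
        by_contra h
        exact hex ⟨rfl, by omega⟩
      obtain ⟨a, ha⟩ : ∃ a : F, a ∉ ({0, 1, -1} : Finset F) := by
        by_contra hno
        have hsub : (Finset.univ : Finset F) ⊆ {0, 1, -1} := by
          intro a _
          by_contra ha
          exact hno ⟨a, ha⟩
        have h5 := Finset.card_le_card hsub
        have h6 : ({0, 1, -1} : Finset F).card ≤ 3 := Finset.card_le_three
        rw [Finset.card_univ] at h5
        omega
      simp only [Finset.mem_insert, Finset.mem_singleton, not_or] at ha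
      refine Matrix.SL2.commutator_eq_top (a := a) ha.1 ?_
      intro hsq
      have h7 : (a - 1) * (a + 1) = 0 := by linear_combination hsq
      rcases mul_eq_zero.mp h7 with h8 | h8
      · exact ha.2.1 (by linear_combination h8)
      · exact ha.2.2 (by linear_combination h8)
  have hsimple : IsSimpleGroup (Matrix.ProjectiveSpecialLinearGroup (Fin n) F) := by
    by_cases h3 : 3 ≤ n
    · exact Cfsg.Agent.S0249.result n h3
    · have hn : n = 2 := by omega
      subst hn
      have hc : 4 ≤ Fintype.card F := by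
        by_contra h
        exact hex ⟨rfl, by omega⟩
      exact Matrix.ProjectiveSpecialLinearGroup.rank_two_simple
        (by rw [Nat.card_eq_fintype_card]; exact hc)
  let N : Subgroup (Matrix.SpecialLinearGroup (Fin n) F) :=
    G.comap Matrix.SpecialLinearGroup.toGL
  have hNn : N.Normal := by
    constructor
    intro x hx s
    change Matrix.SpecialLinearGroup.toGL (s * x * s⁻¹) ∈ G
    rw [map_mul, map_mul, map_inv]
    exact hG s _ hx
  have hMn : (N.map (QuotientGroup.mk' (Subgroup.center
      (Matrix.SpecialLinearGroup (Fin n) F)))).Normal :=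
    Subgroup.Normal.map hNn _ (QuotientGroup.mk'_surjective _)
  rcases hMn.eq_bot_or_eq_top with hbot | htop
  · left
    have hNc : N ≤ Subgroup.center (Matrix.SpecialLinearGroup (Fin n) F) := by
      have h := (Subgroup.map_eq_bot_iff _).1 hbot
      rwa [QuotientGroup.ker_mk'] at h
    intro g hg
    have hcen : ∀ s : Matrix.SpecialLinearGroup (Fin n) F,
        Matrix.SpecialLinearGroup.toGL s * g * (Matrix.SpecialLinearGroup.toGL s)⁻¹ * g⁻¹
          ∈ Subgroup.center (Matrix.GeneralLinearGroup (Fin n) F) := by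
      intro s
      have hmem : Matrix.SpecialLinearGroup.toGL s * g * (Matrix.SpecialLinearGroup.toGL s)⁻¹
          * g⁻¹ ∈ G := G.mul_mem (hG s g hg) (G.inv_mem hg)
      have hdet : (((Matrix.SpecialLinearGroup.toGL s * g * (Matrix.SpecialLinearGroup.toGL s)⁻¹
          * g⁻¹ : Matrix.GeneralLinearGroup (Fin n) F)) : Matrix (Fin n) (Fin n) F).det = 1 := by
        have h' : Matrix.GeneralLinearGroup.det (Matrix.SpecialLinearGroup.toGL s * g
            * (Matrix.SpecialLinearGroup.toGL s)⁻¹ * g⁻¹) = 1 := by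
          rw [map_mul, map_mul, map_mul, map_inv, map_inv]
          generalize Matrix.GeneralLinearGroup.det (Matrix.SpecialLinearGroup.toGL s) = u
          generalize Matrix.GeneralLinearGroup.det g = v
          rw [mul_comm u v, mul_inv_cancel_right, mul_inv_cancel]
        have h'' := congrArg Units.val h'
        rwa [Matrix.GeneralLinearGroup.val_det_apply, Units.val_one] at h''
      obtain ⟨x, hx⟩ : ∃ x : Matrix.SpecialLinearGroup (Fin n) F,
          Matrix.SpecialLinearGroup.toGL x = Matrix.SpecialLinearGroup.toGL s * g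
            * (Matrix.SpecialLinearGroup.toGL s)⁻¹ * g⁻¹ :=
        ⟨⟨_, hdet⟩, Units.ext rfl⟩
      have hxN : x ∈ N := by
        change Matrix.SpecialLinearGroup.toGL x ∈ G
        rw [hx]
        exact hmem
      obtain ⟨r, hr, hrx⟩ := Matrix.SpecialLinearGroup.mem_center_iff.1 (hNc hxN)
      rw [← hx, Matrix.GeneralLinearGroup.mem_center_iff_val_mem_range_scalar]
      exact ⟨r, hrx⟩
    have hcomm := comm_of_central_comm (Matrix.SpecialLinearGroup.toGL
      (n := Fin n) (R := F)) g hcen hperf
    have hsc : (g : Matrix (Fin n) (Fin n) F) ∈ Set.range (Matrix.scalar (Fin n)) := by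
      apply Matrix.mem_range_scalar_of_commute_transvectionStruct
      intro t
      have h := hcomm ⟨t.toMatrix, t.det⟩
      exact congrArg Units.val h
    obtain ⟨c, hc⟩ := hsc
    refine ⟨c, ?_⟩
    rw [← hc, Matrix.smul_one_eq_diagonal]
    rfl
  · right
    have hsup : N ⊔ Subgroup.center (Matrix.SpecialLinearGroup (Fin n) F) = ⊤ := by
      have h := Subgroup.comap_map_eq (QuotientGroup.mk' (Subgroup.center
        (Matrix.SpecialLinearGroup (Fin n) F))) N
      rw [htop, Subgroup.comap_top, QuotientGroup.ker_mk'] at h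
      exact h.symm
    have hle : commutator (Matrix.SpecialLinearGroup (Fin n) F) ≤ N :=
      hNn.commutator_le_of_self_sup_commutative_eq_top hsup inferInstance
    rw [hperf] at hle
    rintro _ ⟨s, rfl⟩
    exact hle (Subgroup.mem_top s)

end Cfsg.Agent.S2540
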