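import Cfsg.Statements.S2541

set_option autoImplicit false
open Cfsg

namespace Cfsg.Agent.S2541

theorem perm_pow_sixty (σ : Equiv.Perm (Fin 6)) : σ ^ 60 = 1 := by
  apply orderOf_dvd_iff_pow_eq_one.mp
  rw [← Equiv.Perm.lcm_cycleType]
  apply Multiset.lcm_dvd.mpr
  intro n hn
  have h2 : 2 ≤ n := Equiv.Perm.two_le_of_mem_cycleType hn
  have h6 : n ≤ 6 := by
    have h1 := Equiv.Perm.le_card_support_of_mem_cycleType hn
    have h3 : σ.support.card ≤ Fintype.card (Fin 6) := Finset.card_le_univ _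
    simp only [Fintype.card_fin] at h3
    omega
  interval_cases n <;> decide

/-- Let F be a field with 9 elements. The symmetric group S_6 is not isomorphic to PGL_2(F). -/
theorem result {F : Type*} [Field F] [Fintype F] (hF : Fintype.card F = 9) : ¬ Nonempty (Equiv.Perm (Fin 6) ≃* Matrix.ProjGenLinGroup (Fin 2) F) := by
  classical
  rintro ⟨φ⟩
  obtain ⟨ζ, hζ⟩ := IsCyclic.exists_ofOrder_eq_natCard (α := Fˣ)
  have hcard : Nat.card Fˣ = 8 := by
    rw [Nat.card_eq_fintype_card, Fintype.card_units, hF]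
  rw [hcard] at hζ
  let g : GL (Fin 2) F :=
    ⟨Matrix.diagonal ![(ζ : F), 1], Matrix.diagonal ![((ζ⁻¹ : Fˣ) : F), 1],
      by
        rw [Matrix.diagonal_mul_diagonal, ← Matrix.diagonal_one]
        congr 1
        funext i
        fin_cases i <;> simp,
      by
        rw [Matrix.diagonal_mul_diagonal, ← Matrix.diagonal_one]
        congr 1
        funext i
        fin_cases i <;> simp⟩
  have hgpow : ((g ^ 60 : GL (Fin 2) F) : Matrix (Fin 2) (Fin 2) F) = Matrix.diagonal ![(ζ : F) ^ 60, 1] := by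
    rw [Units.val_pow_eq_pow_val]
    show (Matrix.diagonal ![(ζ : F), 1]) ^ 60 = _
    rw [Matrix.diagonal_pow]
    congr 1
    funext i
    fin_cases i <;> simp
  let y : Matrix.ProjGenLinGroup (Fin 2) F := Matrix.ProjGenLinGroup.mk g
  have hy : y ^ 60 = 1 := by
    have h1 : φ (φ.symm y) = y := φ.apply_symm_apply y
    rw [← h1, ← map_pow, perm_pow_sixty, map_one]
  have hmem : g ^ 60 ∈ Subgroup.center (GL (Fin 2) F) := by
    rw [← Matrix.ProjGenLinGroup.mk_eq_one, map_pow]
    exact hy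
  rw [Matrix.GeneralLinearGroup.mem_center_iff_val_mem_range_scalar] at hmem
  obtain ⟨c, hc⟩ := hmem
  rw [hgpow] at hc
  have h0 := congrFun (congrFun hc 0) 0
  have h1 := congrFun (congrFun hc 1) 1
  simp [Matrix.scalar_apply] at h0 h1
  have h60 : (ζ : F) ^ 60 = 1 := by rw [← h0, h1]
  have h60' : ζ ^ 60 = 1 := by
    apply Units.ext
    rw [Units.val_pow_eq_pow_val, h60]; rfl
  have hdvd : orderOf ζ ∣ 60 := orderOf_dvd_of_pow_eq_one h60'
  rw [hζ] at hdvd
  omega

end Cfsg.Agent.S2541
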