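import Cfsg.Statements.S2552

set_option autoImplicit false
open Cfsg

namespace Cfsg.Agent.S2552

theorem exists_equiv_map {K V : Type*} [Field K] [AddCommGroup V] [Module K V]
    [FiniteDimensional K V] (U₁ U₂ : Submodule K V)
    (h : Module.finrank K U₁ = Module.finrank K U₂) :
    ∃ e : V ≃ₗ[K] V, U₁.map (e : V →ₗ[K] V) = U₂ := by
  obtain ⟨C₁, hC₁⟩ := U₁.exists_isCompl
  obtain ⟨C₂, hC₂⟩ := U₂.exists_isCompl
  have hC : Module.finrank K C₁ = Module.finrank K C₂ := by
    have h1 := Submodule.finrank_add_eq_of_isCompl hC₁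
    have h2 := Submodule.finrank_add_eq_of_isCompl hC₂
    omega
  let eU : U₁ ≃ₗ[K] U₂ := LinearEquiv.ofFinrankEq _ _ h
  let eC : C₁ ≃ₗ[K] C₂ := LinearEquiv.ofFinrankEq _ _ hC
  let e : V ≃ₗ[K] V := (Submodule.prodEquivOfIsCompl U₁ C₁ hC₁).symm ≪≫ₗ
    ((eU.prodCongr eC) ≪≫ₗ (Submodule.prodEquivOfIsCompl U₂ C₂ hC₂))
  refine ⟨e, ?_⟩
  have he : ∀ u : U₁, e (u : V) = eU u := by
    intro u
    simp only [e, LinearEquiv.trans_apply, Submodule.prodEquivOfIsCompl_symm_apply_left,
      LinearEquiv.prodCongr_apply, map_zero, Submodule.coe_prodEquivOfIsCompl',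
      Submodule.coe_zero, add_zero]
  apply le_antisymm
  · rintro _ ⟨u, hu, rfl⟩
    rw [LinearEquiv.coe_coe, he ⟨u, hu⟩]
    exact (eU ⟨u, hu⟩).2
  · intro w hw
    refine ⟨eU.symm ⟨w, hw⟩, (eU.symm ⟨w, hw⟩).2, ?_⟩
    rw [LinearEquiv.coe_coe, he]
    simp

/-- Let F be a finite field and n ≥ 1. For every k, the special linear group SL_n(F) acts transitively on the set of k-dimensional subspaces of F^n: any two subspaces of the same dimension are carried onto each other by some matrix of determinant 1. -/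
theorem result {F : Type*} [Field F] [Fintype F] (n : ℕ) (hn : 1 ≤ n) (U₁ U₂ : Submodule F (Fin n → F)) (h : Module.finrank F U₁ = Module.finrank F U₂) : ∃ g : Matrix.SpecialLinearGroup (Fin n) F, U₁.map ((Matrix.SpecialLinearGroup.toLin' g : (Fin n → F) ≃ₗ[F] (Fin n → F)) : (Fin n → F) →ₗ[F] (Fin n → F)) = U₂ := by
  classical
  by_cases htop : U₂ = ⊤
  · have h1 : U₁ = ⊤ := by
      apply Submodule.eq_top_of_finrank_eq
      rw [h, htop, finrank_top]
    refine ⟨1, ?_⟩
    rw [h1, htop, map_one]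
    exact Submodule.map_id ⊤
  · obtain ⟨e, he⟩ := exists_equiv_map U₁ U₂ h
    obtain ⟨φ, hφ0, hφ⟩ := Submodule.exists_le_ker_of_lt_top U₂ (lt_top_iff_ne_top.mpr htop)
    obtain ⟨v₀, hv₀⟩ : ∃ v, φ v ≠ 0 := by
      by_contra hcon
      apply hφ0
      apply LinearMap.ext
      intro v
      rw [LinearMap.zero_apply]
      by_contra hv
      exact hcon ⟨v, hv⟩
    set v : Fin n → F := (φ v₀)⁻¹ • v₀ with hv
    have hφv : φ v = 1 := by
      rw [hv, map_smul, smul_eq_mul, inv_mul_cancel₀ hv₀]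
    set A : Matrix (Fin n) (Fin n) F := LinearMap.toMatrix' (e : (Fin n → F) →ₗ[F] (Fin n → F))
      with hA
    have hAmul : ∀ x, A.mulVec x = e x := by
      intro x
      rw [hA, ← Matrix.toLin'_apply, Matrix.toLin'_toMatrix']
      rfl
    have hdet : A.det ≠ 0 := by
      rw [hA, LinearMap.det_toMatrix']
      exact (LinearEquiv.isUnit_det' e).ne_zero
    set d := A.det with hd
    set p : Fin n → F := fun i => φ (fun j => if i = j then 1 else 0) with hp
    have hpφ : ∀ y, p ⬝ᵥ y = φ y := by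
      intro y
      rw [LinearMap.pi_apply_eq_sum_univ φ y, dotProduct]
      apply Finset.sum_congr rfl
      intro i _
      rw [smul_eq_mul, mul_comm]
    set w : Fin n → F := (d⁻¹ - 1) • v with hw
    set M : Matrix (Fin n) (Fin n) F := 1 + Matrix.vecMulVec w p with hM
    have hMdet : M.det = d⁻¹ := by
      rw [hM, Matrix.vecMulVec_eq Unit, Matrix.det_one_add_replicateCol_mul_replicateRow, hpφ,
        hw, map_smul, hφv]
      simp
    have hMmul : ∀ y, φ y = 0 → M.mulVec y = y := by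
      intro y hy
      rw [hM, Matrix.add_mulVec, Matrix.one_mulVec, Matrix.vecMulVec_mulVec, hpφ, hy]
      simp
    have hG : (M * A).det = 1 := by
      rw [Matrix.det_mul, hMdet, inv_mul_cancel₀ hdet]
    let g : Matrix.SpecialLinearGroup (Fin n) F := ⟨M * A, hG⟩
    have hg : ∀ u, Matrix.SpecialLinearGroup.toLin' g u = (M * A).mulVec u := by
      intro u
      rw [Matrix.SpecialLinearGroup.toLin'_apply, Matrix.toLin'_apply]
    refine ⟨g, ?_⟩
    rw [← he]
    apply le_antisymm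
    · rintro _ ⟨u, hu, rfl⟩
      refine ⟨u, hu, ?_⟩
      rw [LinearEquiv.coe_coe, LinearEquiv.coe_coe, hg]
      rw [← Matrix.mulVec_mulVec, hAmul, hMmul]
      apply hφ
      rw [← he]
      exact ⟨u, hu, rfl⟩
    · rintro _ ⟨u, hu, rfl⟩
      refine ⟨u, hu, ?_⟩
      rw [LinearEquiv.coe_coe, LinearEquiv.coe_coe, hg]
      rw [← Matrix.mulVec_mulVec, hAmul, hMmul]
      apply hφ
      rw [← he]
      exact ⟨u, hu, rfl⟩

end Cfsg.Agent.S2552
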