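import Cfsg.Statements.S2564
import Cfsg.Agent.Lib.Helper15.StdForms

set_option autoImplicit false
open Cfsg

namespace Cfsg.Agent.S2564

open Cfsg.Agent.Lib.Helper15.StdForms Module

/-- The sign character of `ZMod 2`. -/
def chi (a : ZMod 2) : ℤ := if a = 0 then 1 else -1

theorem chi_add (a b : ZMod 2) : chi (a + b) = chi a * chi b := by
  revert a b
  decide

theorem chi_ne (a : ZMod 2) (ha : a ≠ 0) : chi a = -1 := by
  revert a
  decide

/-- The character sum of a quadratic form over `𝔽₂` polarizing to the plus-type alternating form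
has square `2^(2m)`; in particular it is non-zero. -/
theorem charsum_sq (m : ℕ) (q : (Fin m ⊕ Fin m → ZMod 2) → ZMod 2)
    (hq : ∀ u v, q (u + v) = q u + q v + QuadraticMap.polar ⇑(plusQF m (ZMod 2)) u v) :
    (∑ v, chi (q v)) * (∑ v, chi (q v)) = (Fintype.card (Fin m ⊕ Fin m → ZMod 2) : ℤ) := by
  classical
  set P := plusQF m (ZMod 2) with hP
  have hq0 : q 0 = 0 := by
    have h := hq 0 0
    rw [add_zero, QuadraticMap.polar_zero_left, add_zero] at h
    have : q 0 + q 0 = 0 := CharTwo.add_self_eq_zero _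
    rw [← h] at this
    exact this
  have hinner : ∀ t : Fin m ⊕ Fin m → ZMod 2, ∑ u, chi (QuadraticMap.polar ⇑P u t)
      = if t = 0 then (Fintype.card (Fin m ⊕ Fin m → ZMod 2) : ℤ) else 0 := by
    intro t
    by_cases ht : t = 0
    · subst ht
      rw [if_pos rfl]
      simp [QuadraticMap.polar_zero_right, chi]
    · rw [if_neg ht]
      obtain ⟨u₀, hu₀⟩ : ∃ u₀, QuadraticMap.polar ⇑P u₀ t ≠ 0 := by
        by_contra hcon
        push Not at hcon
        apply ht
        apply plus_sep m t
        intro y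
        rw [QuadraticMap.polar_comm]
        exact hcon y
      have h1 : ∑ u, chi (QuadraticMap.polar ⇑P u t) = ∑ u, chi (QuadraticMap.polar ⇑P (u + u₀) t) :=
        (Equiv.sum_comp (Equiv.addRight u₀) (fun u => chi (QuadraticMap.polar ⇑P u t))).symm
      have h2 : ∑ u, chi (QuadraticMap.polar ⇑P (u + u₀) t) = -∑ u, chi (QuadraticMap.polar ⇑P u t) := by
        rw [← Finset.sum_neg_distrib]
        apply Finset.sum_congr rfl
        intro u _
        rw [QuadraticMap.polar_add_left, chi_add, chi_ne _ hu₀]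
        ring
      have h3 : ∑ u, chi (QuadraticMap.polar ⇑P u t) = -∑ u, chi (QuadraticMap.polar ⇑P u t) :=
        h1.trans h2
      linarith
  calc (∑ v, chi (q v)) * (∑ v, chi (q v))
      = ∑ u, ∑ v, chi (q u) * chi (q v) := by rw [Finset.sum_mul_sum]
    _ = ∑ u, ∑ t, chi (q u) * chi (q (u + t)) := by
        apply Finset.sum_congr rfl
        intro u _
        exact (Equiv.sum_comp (Equiv.addLeft u) (fun v => chi (q u) * chi (q v))).symm
    _ = ∑ u, ∑ t, chi (q t) * chi (QuadraticMap.polar ⇑P u t) := by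
        apply Finset.sum_congr rfl
        intro u _
        apply Finset.sum_congr rfl
        intro t _
        rw [← chi_add, ← chi_add, hq u t]
        congr 1
        have : q u + q u = 0 := CharTwo.add_self_eq_zero _
        linear_combination this
    _ = ∑ t, ∑ u, chi (q t) * chi (QuadraticMap.polar ⇑P u t) := Finset.sum_comm
    _ = ∑ t, chi (q t) * (if t = 0 then (Fintype.card (Fin m ⊕ Fin m → ZMod 2) : ℤ) else 0) := by
        apply Finset.sum_congr rfl
        intro t _
        rw [← Finset.mul_sum, hinner t]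
    _ = (Fintype.card (Fin m ⊕ Fin m → ZMod 2) : ℤ) := by
        rw [Finset.sum_eq_single 0]
        · rw [if_pos rfl, hq0]
          simp [chi]
        · intro t _ ht
          rw [if_neg ht, mul_zero]
        · intro h
          exact absurd (Finset.mem_univ _) h

/-- On the 2m-dimensional space over the field of two elements (m ≥ 1) let f be the alternating form obtained by polarizing the plus-type form Σ xᵢyᵢ, and let q be any quadratic form polarizing to f. For a vector w, the function q + f(·, w) again polarizes to f, and it is equivalent to q under an invertible linear map (that is, has the same type) if and only if q(w) = 0. -/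
theorem result (m : ℕ) (hm : 1 ≤ m) (q : (Fin m ⊕ Fin m → ZMod 2) → ZMod 2) (hq : (∀ u v : (Fin m ⊕ Fin m → ZMod 2), q (u + v) = q u + q v + (Cfsg.quadFormPlus m (ZMod 2) (u + v) - Cfsg.quadFormPlus m (ZMod 2) u - Cfsg.quadFormPlus m (ZMod 2) v))) (w : (Fin m ⊕ Fin m → ZMod 2)) :
    (∀ u v : (Fin m ⊕ Fin m → ZMod 2), (q (u + v) + (Cfsg.quadFormPlus m (ZMod 2) (u + v + w) - Cfsg.quadFormPlus m (ZMod 2) (u + v) - Cfsg.quadFormPlus m (ZMod 2) w)) =
        (q u + (Cfsg.quadFormPlus m (ZMod 2) (u + w) - Cfsg.quadFormPlus m (ZMod 2) u - Cfsg.quadFormPlus m (ZMod 2) w)) + (q v + (Cfsg.quadFormPlus m (ZMod 2) (v + w) - Cfsg.quadFormPlus m (ZMod 2) v - Cfsg.quadFormPlus m (ZMod 2) w)) +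
        (Cfsg.quadFormPlus m (ZMod 2) (u + v) - Cfsg.quadFormPlus m (ZMod 2) u - Cfsg.quadFormPlus m (ZMod 2) v)) ∧
    ((∃ g : (Fin m ⊕ Fin m → ZMod 2) ≃ₗ[ZMod 2] (Fin m ⊕ Fin m → ZMod 2), ∀ v, q v + (Cfsg.quadFormPlus m (ZMod 2) (v + w) - Cfsg.quadFormPlus m (ZMod 2) v - Cfsg.quadFormPlus m (ZMod 2) w) = q (g v)) ↔ q w = 0) := by
  classical
  set P := plusQF m (ZMod 2) with hP
  have hq' : ∀ u v, q (u + v) = q u + q v + QuadraticMap.polar ⇑P u v := hq
  constructor
  · intro u v
    change q (u + v) + QuadraticMap.polar ⇑P (u + v) w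
      = (q u + QuadraticMap.polar ⇑P u w) + (q v + QuadraticMap.polar ⇑P v w)
        + QuadraticMap.polar ⇑P u v
    rw [hq' u v, QuadraticMap.polar_add_left]
    ring
  · change (∃ g : (Fin m ⊕ Fin m → ZMod 2) ≃ₗ[ZMod 2] (Fin m ⊕ Fin m → ZMod 2),
      ∀ v, q v + QuadraticMap.polar ⇑P v w = q (g v)) ↔ q w = 0
    constructor
    · rintro ⟨g, hg⟩
      by_contra hw
      have hS := charsum_sq m q hq'
      have h1 : ∑ v, chi (q v) = ∑ v, chi (q (g v)) :=
        (Equiv.sum_comp g.toEquiv (fun v => chi (q v))).symm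
      have h2 : ∑ v, chi (q (g v)) = ∑ v, chi (q (v + w)) * chi (q w) := by
        apply Finset.sum_congr rfl
        intro v _
        rw [← hg v, ← chi_add, hq' v w]
        congr 1
        have : q w + q w = 0 := CharTwo.add_self_eq_zero _
        linear_combination -this
      have h3 : ∑ v, chi (q (v + w)) * chi (q w) = -∑ v, chi (q v) := by
        have h5 : ∑ v, chi (q (v + w)) = ∑ v, chi (q v) :=
          Equiv.sum_comp (Equiv.addRight w) (fun v => chi (q v))
        rw [← Finset.sum_mul, h5, chi_ne _ hw]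
        ring
      have h4 : ∑ v, chi (q v) = 0 := by
        have := h1.trans (h2.trans h3)
        linarith
      rw [h4, mul_zero] at hS
      have hpos : (0 : ℤ) < (Fintype.card (Fin m ⊕ Fin m → ZMod 2) : ℤ) := by
        exact_mod_cast Fintype.card_pos
      omega
    · intro hw
      let gl : (Fin m ⊕ Fin m → ZMod 2) →ₗ[ZMod 2] (Fin m ⊕ Fin m → ZMod 2) :=
        LinearMap.id + ((QuadraticMap.polarBilin P).flip w).smulRight w
      have hgl : ∀ v, gl v = v + QuadraticMap.polar ⇑P v w • w := fun v => rfl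
      have hww : QuadraticMap.polar ⇑P w w = 0 := by
        rw [QuadraticMap.polar_self, two_nsmul]
        exact CharTwo.add_self_eq_zero _
      have hinv : Function.Involutive gl := by
        intro v
        rw [hgl, hgl, QuadraticMap.polar_add_left, QuadraticMap.polar_smul_left, hww, smul_zero,
          add_zero, add_assoc, ← add_smul, CharTwo.add_self_eq_zero, zero_smul, add_zero]
      refine ⟨LinearEquiv.ofInvolutive gl hinv, fun v => ?_⟩
      change q v + QuadraticMap.polar ⇑P v w = q (gl v)
      rw [hgl]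
      have hc : ∀ c : ZMod 2, c = 0 ∨ c = 1 := by decide
      rcases hc (QuadraticMap.polar ⇑P v w) with h | h
      · rw [h, zero_smul, add_zero, add_zero]
      · rw [h, one_smul, hq' v w, hw, h, add_zero]

end Cfsg.Agent.S2564
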