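import Cfsg.Statements.S2561
import Cfsg.Agent.S2564
import Cfsg.Agent.S2616
import Cfsg.Agent.S2617
import Cfsg.Agent.Lib.Helper15.StdEquiv

set_option autoImplicit false
open Cfsg

namespace Cfsg.Agent.S2561

open Cfsg.Agent.Lib.Helper15.StdForms Cfsg.Agent.Lib.Helper15.StdEquiv Module

theorem card_param {α β : Type*} (Φ : α → β) (hinj : Function.Injective Φ) (C : β → Prop)
    (S : α → Prop) (h1 : ∀ a, S a → C (Φ a)) (h2 : ∀ b, C b → ∃ a, S a ∧ Φ a = b) :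
    Nat.card {b // C b} = Nat.card {a // S a} :=
  (Nat.card_congr (Equiv.ofBijective
    (fun a : {a // S a} => (⟨Φ a.1, h1 a.1 a.2⟩ : {b // C b}))
    ⟨fun x y h => Subtype.ext (hinj (congrArg Subtype.val h)), fun ⟨b, hb⟩ => by
      obtain ⟨a, ha, rfl⟩ := h2 b hb
      exact ⟨⟨a, ha⟩, rfl⟩⟩)).symm

/-- The quadratic forms over `𝔽₂` polarizing to the plus-type alternating form are the translates
`Q⁺ + f(·, w)`. -/
theorem exists_param (m : ℕ) (q : (Fin m ⊕ Fin m → ZMod 2) → ZMod 2)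
    (hq : ∀ u v, q (u + v) = q u + q v + QuadraticMap.polar ⇑(plusQF m (ZMod 2)) u v) :
    ∃ w, ∀ v, q v = Cfsg.quadFormPlus m (ZMod 2) v + QuadraticMap.polar ⇑(plusQF m (ZMod 2)) v w := by
  classical
  set P := plusQF m (ZMod 2) with hP
  let lam : (Fin m ⊕ Fin m → ZMod 2) →+ ZMod 2 :=
    { toFun := fun v => q v - P v
      map_zero' := by
        have h := hq 0 0
        rw [add_zero, QuadraticMap.polar_zero_left, add_zero] at h
        have h2 : q 0 + q 0 = 0 := CharTwo.add_self_eq_zero _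
        rw [← h] at h2
        rw [h2, map_zero, sub_zero]
      map_add' := fun u v => by
        rw [hq u v, QuadraticMap.map_add P]
        ring }
  let L : (Fin m ⊕ Fin m → ZMod 2) →ₗ[ZMod 2] ZMod 2 := AddMonoidHom.toZModLinearMap 2 lam
  have hL : ∀ v, L v = q v - P v := fun v => rfl
  have hnd : (QuadraticMap.polarBilin P).Nondegenerate := plus_nondeg m
  refine ⟨(LinearMap.BilinForm.toDual (QuadraticMap.polarBilin P) hnd).symm L, fun v => ?_⟩
  have h := LinearMap.BilinForm.apply_toDual_symm_apply (B := QuadraticMap.polarBilin P) (hB := hnd) L v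
  have h' : QuadraticMap.polar ⇑P ((LinearMap.BilinForm.toDual (QuadraticMap.polarBilin P) hnd).symm L) v
      = q v - P v := h
  rw [QuadraticMap.polar_comm, h']
  change q v = P v + (q v - P v)
  ring

/-- Fix the non-singular alternating form on the 2m-dimensional space over the field of two elements obtained by polarizing the plus-type form Σ xᵢyᵢ (m ≥ 1). The functions q on the space with q(u + v) = q(u) + q(v) + f(u, v) (the quadratic forms polarizing to f) number 2^(2m); each is equivalent under an invertible linear map either to the plus-type form or to the minus-type form Σ xᵢyᵢ + (z₁² + z₁z₂ + z₂²); and those of plus type number 2^(2m−1) + 2^(m−1), those of minus type 2^(2m−1) − 2^(m−1). -/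
theorem result (m : ℕ) (hm : 1 ≤ m) :
    Nat.card {q : (Fin m ⊕ Fin m → ZMod 2) → ZMod 2 // (∀ u v : (Fin m ⊕ Fin m → ZMod 2), q (u + v) = q u + q v + (Cfsg.quadFormPlus m (ZMod 2) (u + v) - Cfsg.quadFormPlus m (ZMod 2) u - Cfsg.quadFormPlus m (ZMod 2) v))} = 2 ^ (2 * m) ∧
    (∀ q : (Fin m ⊕ Fin m → ZMod 2) → ZMod 2, (∀ u v : (Fin m ⊕ Fin m → ZMod 2), q (u + v) = q u + q v + (Cfsg.quadFormPlus m (ZMod 2) (u + v) - Cfsg.quadFormPlus m (ZMod 2) u - Cfsg.quadFormPlus m (ZMod 2) v)) →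
      (∃ g : (Fin m ⊕ Fin m → ZMod 2) ≃ₗ[ZMod 2] (Fin m ⊕ Fin m → ZMod 2), ∀ v, q v = Cfsg.quadFormPlus m (ZMod 2) (g v)) ∨
      (∃ g : (Fin m ⊕ Fin m → ZMod 2) ≃ₗ[ZMod 2] ((Fin (m - 1) ⊕ Fin (m - 1)) ⊕ Fin 2 → ZMod 2), ∀ v, q v = Cfsg.quadFormMinus (m - 1) (ZMod 2) 1 1 (g v))) ∧
    Nat.card {q : (Fin m ⊕ Fin m → ZMod 2) → ZMod 2 // (∀ u v : (Fin m ⊕ Fin m → ZMod 2), q (u + v) = q u + q v + (Cfsg.quadFormPlus m (ZMod 2) (u + v) - Cfsg.quadFormPlus m (ZMod 2) u - Cfsg.quadFormPlus m (ZMod 2) v)) ∧ ∃ g : (Fin m ⊕ Fin m → ZMod 2) ≃ₗ[ZMod 2] (Fin m ⊕ Fin m → ZMod 2), ∀ v, q v = Cfsg.quadFormPlus m (ZMod 2) (g v)} = 2 ^ (2 * m - 1) + 2 ^ (m - 1) ∧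
    Nat.card {q : (Fin m ⊕ Fin m → ZMod 2) → ZMod 2 // (∀ u v : (Fin m ⊕ Fin m → ZMod 2), q (u + v) = q u + q v + (Cfsg.quadFormPlus m (ZMod 2) (u + v) - Cfsg.quadFormPlus m (ZMod 2) u - Cfsg.quadFormPlus m (ZMod 2) v)) ∧ ∃ g : (Fin m ⊕ Fin m → ZMod 2) ≃ₗ[ZMod 2] ((Fin (m - 1) ⊕ Fin (m - 1)) ⊕ Fin 2 → ZMod 2), ∀ v, q v = Cfsg.quadFormMinus (m - 1) (ZMod 2) 1 1 (g v)} = 2 ^ (2 * m - 1) - 2 ^ (m - 1) := by
  classical
  set P := plusQF m (ZMod 2) with hP
  -- the class of forms polarizing to `f`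
  let C : ((Fin m ⊕ Fin m → ZMod 2) → ZMod 2) → Prop := fun q =>
    ∀ u v, q (u + v) = q u + q v + QuadraticMap.polar ⇑P u v
  let Φ : (Fin m ⊕ Fin m → ZMod 2) → ((Fin m ⊕ Fin m → ZMod 2) → ZMod 2) := fun w v =>
    Cfsg.quadFormPlus m (ZMod 2) v + QuadraticMap.polar ⇑P v w
  have hΦ : ∀ w v, Φ w v = P v + QuadraticMap.polar ⇑P v w := fun w v => rfl
  have hΦC : ∀ w, C (Φ w) := by
    intro w u v
    rw [hΦ, hΦ, hΦ, QuadraticMap.map_add P, QuadraticMap.polar_add_left]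
    ring
  have hΦinj : Function.Injective Φ := by
    intro w w' h
    have h1 : ∀ y, QuadraticMap.polar ⇑P (w - w') y = 0 := by
      intro y
      have := congrFun h y
      rw [hΦ, hΦ] at this
      rw [QuadraticMap.polar_comm, QuadraticMap.polar_sub_right]
      have h2 : QuadraticMap.polar ⇑P y w = QuadraticMap.polar ⇑P y w' := add_left_cancel this
      rw [h2, sub_self]
    exact sub_eq_zero.mp (plus_sep m _ h1)
  have hΦsurj : ∀ q, C q → ∃ w, Φ w = q := by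
    intro q hq
    obtain ⟨w, hw⟩ := exists_param m q hq
    exact ⟨w, funext fun v => (hw v).symm⟩
  -- plus type iff `Q⁺ w = 0`
  have hplus : ∀ w, (∃ g : (Fin m ⊕ Fin m → ZMod 2) ≃ₗ[ZMod 2] (Fin m ⊕ Fin m → ZMod 2),
      ∀ v, Φ w v = Cfsg.quadFormPlus m (ZMod 2) (g v)) ↔ Cfsg.quadFormPlus m (ZMod 2) w = 0 :=
    fun w => (Cfsg.Agent.S2564.result m hm (Cfsg.quadFormPlus m (ZMod 2)) (fun u v => by ring) w).2
  -- every form of the class is of plus or of minus type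
  have hζ : ∀ t : ZMod 2, t ^ 2 + t + 1 ≠ 0 := by decide
  have hclass : ∀ w, (∃ g : (Fin m ⊕ Fin m → ZMod 2) ≃ₗ[ZMod 2] (Fin m ⊕ Fin m → ZMod 2),
      ∀ v, Φ w v = Cfsg.quadFormPlus m (ZMod 2) (g v)) ∨
      (∃ g : (Fin m ⊕ Fin m → ZMod 2) ≃ₗ[ZMod 2] ((Fin (m - 1) ⊕ Fin (m - 1)) ⊕ Fin 2 → ZMod 2),
      ∀ v, Φ w v = Cfsg.quadFormMinus (m - 1) (ZMod 2) 1 1 (g v)) := by
    intro w
    let φ : (Fin m ⊕ Fin m → ZMod 2) →ₗ[ZMod 2] ZMod 2 := (QuadraticMap.polarBilin P).flip w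
    let Qw : QuadraticForm (ZMod 2) (Fin m ⊕ Fin m → ZMod 2) := P + QuadraticMap.linMulLin φ φ
    have hsq : ∀ c : ZMod 2, c * c = c := by decide
    have hQw : ∀ v, Qw v = Φ w v := by
      intro v
      change P v + QuadraticMap.polar ⇑P v w * QuadraticMap.polar ⇑P v w = _
      rw [hsq, hΦ]
    have hpol : ∀ u v, QuadraticMap.polar ⇑Qw u v = QuadraticMap.polar ⇑P u v := by
      intro u v
      have h1 : ∀ x, Qw x = P x + QuadraticMap.polar ⇑P x w := fun x => by rw [hQw, hΦ]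
      unfold QuadraticMap.polar
      rw [h1, h1, h1, QuadraticMap.polar_add_left]
      ring
    have hnd : (QuadraticMap.polarBilin Qw).Nondegenerate :=
      nondeg_of_sep Qw (fun x hx => plus_sep m x (fun y => by
        have := hx y
        rw [hpol] at this
        exact this))
    have hfin : finrank (ZMod 2) (Fin m ⊕ Fin m → ZMod 2) = 2 * m := by
      rw [Module.finrank_fintype_fun_eq_card, Fintype.card_sum, Fintype.card_fin]
      omega
    rcases Cfsg.Agent.S2616.result hm hfin Qw hnd with ⟨b, h1, h2, h3⟩ | ⟨b, ζ, hirr, h1, h2, h3, h4, h5, h6, h7⟩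
    · left
      obtain ⟨g, hg⟩ := std_plus_equiv Qw b h1 h2 h3
      exact ⟨g, fun v => by rw [← hQw, hg]⟩
    · right
      have hζ1 : ζ = 1 := by
        have h0 := hirr 0
        have : ∀ z : ZMod 2, (0 : ZMod 2) ^ 2 + 0 + z ≠ 0 → z = 1 := by decide
        exact this ζ h0
      obtain ⟨g, hg⟩ := std_minus_equiv Qw b ζ h1 h2 h3 h4 h5 h6 h7
      exact ⟨g, fun v => by rw [← hQw, hg, hζ1]⟩
  -- minus type iff `Q⁺ w ≠ 0`
  have hminus : ∀ w, (∃ g : (Fin m ⊕ Fin m → ZMod 2) ≃ₗ[ZMod 2] ((Fin (m - 1) ⊕ Fin (m - 1)) ⊕ Fin 2 → ZMod 2),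
      ∀ v, Φ w v = Cfsg.quadFormMinus (m - 1) (ZMod 2) 1 1 (g v)) ↔ ¬ Cfsg.quadFormPlus m (ZMod 2) w = 0 := by
    intro w
    constructor
    · rintro ⟨g₂, hg₂⟩ h0
      obtain ⟨g₁, hg₁⟩ := (hplus w).mpr h0
      apply Cfsg.Agent.S2617.result hm (1 : ZMod 2) hζ (g₁.symm.trans g₂)
      intro v
      rw [LinearEquiv.trans_apply, ← hg₂, hg₁, LinearEquiv.apply_symm_apply]
    · intro h0
      rcases hclass w with h | h
      · exact absurd ((hplus w).mp h) h0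
      · exact h
  -- cardinalities
  have hcardV : Fintype.card (Fin m ⊕ Fin m → ZMod 2) = 2 ^ (2 * m) := by
    rw [Fintype.card_fun, ZMod.card, Fintype.card_sum, Fintype.card_fin]
    congr 1
    omega
  have hZ : Fintype.card {w : Fin m ⊕ Fin m → ZMod 2 // Cfsg.quadFormPlus m (ZMod 2) w = 0}
      = 2 ^ (2 * m - 1) + 2 ^ (m - 1) := by
    have h := Cfsg.Agent.S2617.card_plus (F := ZMod 2) m
    rw [ZMod.card] at h
    have hn : (Finset.univ.filter (fun x : Fin m → ZMod 2 => x ≠ 0)).card + 1 = 2 ^ m := by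
      rw [Finset.filter_ne', Finset.card_erase_of_mem (Finset.mem_univ _), Finset.card_univ,
        Fintype.card_pi_const, ZMod.card]
      have : 0 < 2 ^ m := by positivity
      omega
    obtain ⟨k, rfl⟩ : ∃ k, m = k + 1 := ⟨m - 1, by omega⟩
    have e1 : 2 * (k + 1) - 1 = 2 * k + 1 := by omega
    have e2 : k + 1 - 1 = k := by omega
    rw [e1, e2]
    generalize (Finset.univ.filter (fun x : Fin (k + 1) → ZMod 2 => x ≠ 0)).card = n at h hn
    generalize Fintype.card {w : Fin (k + 1) ⊕ Fin (k + 1) → ZMod 2 // Cfsg.quadFormPlus (k + 1) (ZMod 2) w = 0} = Z at h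
    have p1 : 2 ^ (k + 1 + 1) = 4 * 2 ^ k := by ring
    have p2 : 2 ^ (k + 1) = 2 * 2 ^ k := by ring
    have p3 : 2 ^ (2 * k + 1) = 2 * (2 ^ k * 2 ^ k) := by ring
    rw [p1, p2] at h
    rw [p2] at hn
    rw [p3]
    have hn' : n = 2 * 2 ^ k - 1 := by omega
    have hpos : 0 < 2 ^ k := by positivity
    generalize 2 ^ k = a at *
    subst hn'
    have : (2 * a - 1) * (2 * a) = 4 * (a * a) - 2 * a := by
      zify [show 1 ≤ 2 * a by omega, show 2 * a ≤ 4 * (a * a) by nlinarith]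
      ring
    rw [this] at h
    have : 2 * a ≤ 4 * (a * a) := by nlinarith
    omega
  refine ⟨?_, ?_, ?_, ?_⟩
  · change Nat.card {q // C q} = 2 ^ (2 * m)
    rw [card_param Φ hΦinj C (fun _ => True) (fun w _ => hΦC w)
      (fun q hq => by obtain ⟨w, hw⟩ := hΦsurj q hq; exact ⟨w, trivial, hw⟩)]
    rw [Nat.card_eq_fintype_card, Fintype.card_subtype_true, hcardV]
  · intro q hq
    obtain ⟨w, rfl⟩ := hΦsurj q hq
    exact hclass w
  · rw [← hZ, ← Nat.card_eq_fintype_card]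
    exact card_param Φ hΦinj _ _ (fun w hw => ⟨hΦC w, (hplus w).mpr hw⟩)
      (fun q hq => by
        obtain ⟨w, rfl⟩ := hΦsurj q hq.1
        exact ⟨w, (hplus w).mp hq.2, rfl⟩)
  · have hc : Nat.card {w : Fin m ⊕ Fin m → ZMod 2 // ¬ Cfsg.quadFormPlus m (ZMod 2) w = 0}
        = 2 ^ (2 * m - 1) - 2 ^ (m - 1) := by
      rw [Nat.card_eq_fintype_card, Fintype.card_subtype_compl, hZ, hcardV]
      have : 2 ^ (2 * m) = 2 * 2 ^ (2 * m - 1) := by
        rw [← pow_succ']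
        congr 1
        omega
      omega
    rw [← hc]
    exact card_param Φ hΦinj _ _ (fun w hw => ⟨hΦC w, (hminus w).mpr hw⟩)
      (fun q hq => by
        obtain ⟨w, rfl⟩ := hΦsurj q hq.1
        exact ⟨w, (hminus w).mp hq.2, rfl⟩)

end Cfsg.Agent.S2561
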