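import Cfsg.Statements.S2562
import Cfsg.Agent.S0760
import Cfsg.Agent.Lib.Helper15.StdForms

set_option autoImplicit false
open Cfsg

namespace Cfsg.Agent.S2562

open Cfsg.Agent.Lib.Helper15.StdForms Module

/-- Every totally singular subspace lies in a maximal one. -/
theorem exists_maximal {F V : Type*} [Field F] [AddCommGroup V] [Module F V]
    [FiniteDimensional F V] (Q : QuadraticForm F V) :
    ∀ (n : ℕ) (U : Submodule F V), (∀ u ∈ U, Q u = 0) → finrank F V - finrank F U = n →
      ∃ W : Submodule F V, U ≤ W ∧ (∀ w ∈ W, Q w = 0) ∧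
        ∀ W' : Submodule F V, W ≤ W' → (∀ w ∈ W', Q w = 0) → W' = W := by
  intro n
  induction n using Nat.strong_induction_on with
  | _ n ih =>
    intro U hU hn
    by_cases hmax : ∀ W' : Submodule F V, U ≤ W' → (∀ w ∈ W', Q w = 0) → W' = U
    · exact ⟨U, le_rfl, hU, hmax⟩
    · push Not at hmax
      obtain ⟨W', hUW', hW', hne⟩ := hmax
      have hlt : U < W' := lt_of_le_of_ne hUW' (Ne.symm hne)
      have hfr := Submodule.finrank_lt_finrank_of_lt hlt
      have hle := Submodule.finrank_le W'
      obtain ⟨W, hW1, hW2, hW3⟩ := ih (finrank F V - finrank F W') (by omega) W' hW' rfl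
      exact ⟨W, hUW'.trans hW1, hW2, hW3⟩

/-- Any totally singular subspace has dimension at most that of a given maximal one. -/
theorem finrank_le_of_maximal {F V : Type*} [Field F] [Finite F] [AddCommGroup V] [Module F V]
    [FiniteDimensional F V] (Q : QuadraticForm F V)
    (hQ : (QuadraticMap.polarBilin Q).Nondegenerate) (W₁ : Submodule F V)
    (h₁ : ∀ w ∈ W₁, Q w = 0)
    (hmax₁ : ∀ W : Submodule F V, W₁ ≤ W → (∀ w ∈ W, Q w = 0) → W = W₁)
    (U : Submodule F V) (hU : ∀ u ∈ U, Q u = 0) : finrank F U ≤ finrank F W₁ := by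
  obtain ⟨W, hUW, hW, hWmax⟩ := exists_maximal Q _ U hU rfl
  have h := (Cfsg.Agent.S0760.result Q hQ W W₁ hW h₁ hWmax hmax₁).1
  rw [← h]
  exact Submodule.finrank_mono hUW

/-- Witt indices over the field of two elements, m ≥ 1: for the plus-type form Σ xᵢyᵢ in dimension 2m some m-dimensional subspace is totally singular and no totally singular subspace has larger dimension; for the minus-type form Σ xᵢyᵢ + (z₁² + z₁z₂ + z₂²) in dimension 2m the maximal dimension of a totally singular subspace is m − 1. -/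
theorem result (m : ℕ) (hm : 1 ≤ m) :
    (∃ U : Submodule (ZMod 2) (Fin m ⊕ Fin m → ZMod 2), (∀ u ∈ U, Cfsg.quadFormPlus m (ZMod 2) u = 0) ∧ Module.finrank (ZMod 2) ↥U = m) ∧
    (∀ U : Submodule (ZMod 2) (Fin m ⊕ Fin m → ZMod 2), (∀ u ∈ U, Cfsg.quadFormPlus m (ZMod 2) u = 0) → Module.finrank (ZMod 2) ↥U ≤ m) ∧
    (∃ U : Submodule (ZMod 2) ((Fin (m - 1) ⊕ Fin (m - 1)) ⊕ Fin 2 → ZMod 2), (∀ u ∈ U, Cfsg.quadFormMinus (m - 1) (ZMod 2) 1 1 u = 0) ∧ Module.finrank (ZMod 2) ↥U = m - 1) ∧
    (∀ U : Submodule (ZMod 2) ((Fin (m - 1) ⊕ Fin (m - 1)) ⊕ Fin 2 → ZMod 2), (∀ u ∈ U, Cfsg.quadFormMinus (m - 1) (ZMod 2) 1 1 u = 0) → Module.finrank (ZMod 2) ↥U ≤ m - 1) := by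
  classical
  -- the plus side
  let ip : (Fin m → ZMod 2) →ₗ[ZMod 2] (Fin m ⊕ Fin m → ZMod 2) :=
    { toFun := fun x => Sum.elim x 0
      map_add' := fun x y => by funext i; rcases i with i | i <;> simp
      map_smul' := fun c x => by funext i; rcases i with i | i <;> simp }
  have hip : Function.Injective ip := by
    intro x y hxy
    funext i
    exact congrFun hxy (Sum.inl i)
  have hUp : ∀ u ∈ LinearMap.range ip, Cfsg.quadFormPlus m (ZMod 2) u = 0 := by
    rintro _ ⟨x, rfl⟩
    unfold Cfsg.quadFormPlus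
    apply Finset.sum_eq_zero
    intro i _
    change x i * (0 : ZMod 2) = 0
    rw [mul_zero]
  have hfp : finrank (ZMod 2) (LinearMap.range ip) = m := by
    rw [LinearMap.finrank_range_of_inj hip]
    simp
  -- the minus side
  have hab : ∀ z₁ z₂ : ZMod 2, z₁ ^ 2 + 1 * z₁ * z₂ + 1 * z₂ ^ 2 = 0 → z₁ = 0 ∧ z₂ = 0 := by
    decide
  let im : (Fin (m - 1) → ZMod 2) →ₗ[ZMod 2] ((Fin (m - 1) ⊕ Fin (m - 1)) ⊕ Fin 2 → ZMod 2) :=
    { toFun := fun x => Sum.elim (Sum.elim x 0) 0
      map_add' := fun x y => by funext i; rcases i with (i | i) | i <;> simp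
      map_smul' := fun c x => by funext i; rcases i with (i | i) | i <;> simp }
  have him : Function.Injective im := by
    intro x y hxy
    funext i
    exact congrFun hxy (Sum.inl (Sum.inl i))
  have hUm : ∀ u ∈ LinearMap.range im, Cfsg.quadFormMinus (m - 1) (ZMod 2) 1 1 u = 0 := by
    rintro _ ⟨x, rfl⟩
    unfold Cfsg.quadFormMinus
    have h1 : ∑ i : Fin (m - 1), im x (Sum.inl (Sum.inl i)) * im x (Sum.inl (Sum.inr i)) = 0 := by
      apply Finset.sum_eq_zero
      intro i _
      change x i * (0 : ZMod 2) = 0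
      rw [mul_zero]
    rw [h1]
    change (0 : ZMod 2) + ((0 : ZMod 2) ^ 2 + 1 * 0 * 0 + 1 * 0 ^ 2) = 0
    norm_num
  have hfm : finrank (ZMod 2) (LinearMap.range im) = m - 1 := by
    rw [LinearMap.finrank_range_of_inj him]
    simp
  refine ⟨⟨LinearMap.range ip, hUp, hfp⟩, ?_, ⟨LinearMap.range im, hUm, hfm⟩, ?_⟩
  · intro U hU
    -- the range of `ip` is maximal totally singular
    have hmax : ∀ W : Submodule (ZMod 2) (Fin m ⊕ Fin m → ZMod 2), LinearMap.range ip ≤ W →
        (∀ w ∈ W, plusQF m (ZMod 2) w = 0) → W = LinearMap.range ip := by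
      intro W hle hW
      apply le_antisymm _ hle
      intro w hw
      refine ⟨fun i => w (Sum.inl i), ?_⟩
      funext j
      rcases j with j | j
      · rfl
      · change (0 : ZMod 2) = w (Sum.inr j)
        have hu : ip (Pi.single j 1) ∈ W := hle ⟨_, rfl⟩
        have hpol : QuadraticMap.polar (Cfsg.quadFormPlus m (ZMod 2)) (ip (Pi.single j 1)) w = 0 := by
          have h1 := hW _ (W.add_mem hu hw)
          have h2 := hW _ hu
          have h3 := hW _ hw
          rw [plusQF_apply] at h1 h2 h3
          unfold QuadraticMap.polar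
          rw [h1, h2, h3]
          norm_num
        rw [polar_plus] at hpol
        have hsum : ∑ i : Fin m, (ip (Pi.single j 1) (Sum.inl i) * w (Sum.inr i)
            + w (Sum.inl i) * ip (Pi.single j 1) (Sum.inr i)) = w (Sum.inr j) := by
          rw [Finset.sum_eq_single j]
          · change (Pi.single j 1 : Fin m → ZMod 2) j * w (Sum.inr j) + w (Sum.inl j) * 0 = _
            simp
          · intro i _ hij
            change (Pi.single j 1 : Fin m → ZMod 2) i * w (Sum.inr i) + w (Sum.inl i) * 0 = _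
            simp [hij]
          · intro h
            exact absurd (Finset.mem_univ j) h
        rw [hsum] at hpol
        exact hpol.symm
    have h := finrank_le_of_maximal (plusQF m (ZMod 2)) (plus_nondeg m) (LinearMap.range ip)
      (fun w hw => by rw [plusQF_apply]; exact hUp w hw) hmax U
      (fun u hu => by rw [plusQF_apply]; exact hU u hu)
    rwa [hfp] at h
  · intro U hU
    have hmax : ∀ W : Submodule (ZMod 2) ((Fin (m - 1) ⊕ Fin (m - 1)) ⊕ Fin 2 → ZMod 2),
        LinearMap.range im ≤ W →
        (∀ w ∈ W, minusQF (m - 1) (ZMod 2) 1 1 w = 0) → W = LinearMap.range im := by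
      intro W hle hW
      apply le_antisymm _ hle
      intro w hw
      have hy : ∀ j, w (Sum.inl (Sum.inr j)) = 0 := by
        intro j
        have hu : im (Pi.single j 1) ∈ W := hle ⟨_, rfl⟩
        have hpol : QuadraticMap.polar (Cfsg.quadFormMinus (m - 1) (ZMod 2) 1 1)
            (im (Pi.single j 1)) w = 0 := by
          have h1 := hW _ (W.add_mem hu hw)
          have h2 := hW _ hu
          have h3 := hW _ hw
          rw [minusQF_apply] at h1 h2 h3
          unfold QuadraticMap.polar
          rw [h1, h2, h3]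
          norm_num
        rw [polar_minus] at hpol
        have hsum : ∑ i : Fin (m - 1), (im (Pi.single j 1) (Sum.inl (Sum.inl i)) * w (Sum.inl (Sum.inr i))
            + w (Sum.inl (Sum.inl i)) * im (Pi.single j 1) (Sum.inl (Sum.inr i)))
              = w (Sum.inl (Sum.inr j)) := by
          rw [Finset.sum_eq_single j]
          · change (Pi.single j 1 : Fin (m - 1) → ZMod 2) j * w (Sum.inl (Sum.inr j))
              + w (Sum.inl (Sum.inl j)) * 0 = _
            simp
          · intro i _ hij
            change (Pi.single j 1 : Fin (m - 1) → ZMod 2) i * w (Sum.inl (Sum.inr i))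
              + w (Sum.inl (Sum.inl i)) * 0 = _
            simp [hij]
          · intro h
            exact absurd (Finset.mem_univ j) h
        rw [hsum] at hpol
        have hz : im (Pi.single j 1) (Sum.inr 0) = 0 ∧ im (Pi.single j 1) (Sum.inr 1) = 0 :=
          ⟨rfl, rfl⟩
        rw [hz.1, hz.2] at hpol
        simpa using hpol
      have hQw := hW w hw
      rw [minusQF_apply] at hQw
      unfold Cfsg.quadFormMinus at hQw
      have h1 : ∑ i : Fin (m - 1), w (Sum.inl (Sum.inl i)) * w (Sum.inl (Sum.inr i)) = 0 := by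
        apply Finset.sum_eq_zero
        intro i _
        rw [hy i, mul_zero]
      rw [h1, zero_add] at hQw
      obtain ⟨hz0, hz1⟩ := hab _ _ hQw
      refine ⟨fun i => w (Sum.inl (Sum.inl i)), ?_⟩
      funext j
      rcases j with (j | j) | j
      · rfl
      · exact (hy j).symm
      · fin_cases j
        · exact hz0.symm
        · exact hz1.symm
    have h := finrank_le_of_maximal (minusQF (m - 1) (ZMod 2) 1 1) (minus_nondeg (m - 1) 1 1 hab)
      (LinearMap.range im) (fun w hw => by rw [minusQF_apply]; exact hUm w hw) hmax U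
      (fun u hu => by rw [minusQF_apply]; exact hU u hu)
    rwa [hfm] at h

end Cfsg.Agent.S2562
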