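import Cfsg.Statements.S2563
import Mathlib
import Cfsg.Agent.Lib.Helper15.EvenForms

set_option autoImplicit false
open Cfsg

namespace Cfsg.Agent.S2563

open Cfsg.Agent.Lib.Helper15.EvenForms

/-- weight mod 4 of a binary vector -/
def wt {α : Type*} [Fintype α] (y : α → ZMod 2) : ZMod 4 := ∑ a, (((y a).val : ℕ) : ZMod 4)

theorem val_add4 (a b : ZMod 2) :
    (((a + b).val : ℕ) : ZMod 4) =
      ((a.val : ℕ) : ZMod 4) + ((b.val : ℕ) : ZMod 4) + 2 * (((a * b).val : ℕ) : ZMod 4) := by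
  revert a b; decide

theorem wt_add {α : Type*} [Fintype α] (u v : α → ZMod 2) :
    wt (u + v) = wt u + wt v + 2 * wt (u * v) := by
  unfold wt
  rw [Finset.mul_sum, ← Finset.sum_add_distrib, ← Finset.sum_add_distrib]
  exact Finset.sum_congr rfl (fun a _ => val_add4 (u a) (v a))

theorem wt_comp {α : Type*} [Fintype α] (y : α → ZMod 2) (τ : Equiv.Perm α) :
    wt (y ∘ τ) = wt y := by
  unfold wt
  exact Equiv.sum_comp τ (fun a => (((y a).val : ℕ) : ZMod 4))

theorem wt_zero {α : Type*} [Fintype α] : wt (0 : α → ZMod 2) = 0 := by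
  unfold wt; simp

/-- reduction mod 2 -/
def par : ZMod 4 →+* ZMod 2 := ZMod.castHom (by decide : 2 ∣ 4) (ZMod 2)

theorem par_wt {α : Type*} [Fintype α] (y : α → ZMod 2) : par (wt y) = ∑ a, y a := by
  unfold wt
  rw [map_sum]
  refine Finset.sum_congr rfl (fun a _ => ?_)
  rw [map_natCast]
  exact ZMod.natCast_zmod_val (y a)

theorem par_val (t : ZMod 4) : par t = ((t.val : ℕ) : ZMod 2) := by
  unfold par
  rw [ZMod.castHom_apply, ← ZMod.natCast_val]

theorem two_mul_of_par (t : ZMod 4) (h : par t = 0) : 2 * t = 0 := by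
  rw [par_val] at h; revert t; decide

theorem two_mul_par (t : ZMod 4) : 2 * t = 2 * (((par t).val : ℕ) : ZMod 4) := by
  rw [par_val]; revert t; decide

theorem sing_iff (t : ZMod 4) : t + (((par t).val : ℕ) : ZMod 4) = 0 ↔ t = 0 ∨ t = 3 := by
  rw [par_val]; revert t; decide

theorem half_spec (t : ZMod 4) (h : 2 * t = 0) :
    t = 2 * ((((if t = 0 then (0 : ZMod 2) else 1).val : ℕ)) : ZMod 4) := by
  revert t; decide

theorem lift_inj (a b c d : ZMod 2)
    (h : 2 * ((a.val : ℕ) : ZMod 4) = 2 * ((b.val : ℕ) : ZMod 4) + 2 * ((c.val : ℕ) : ZMod 4) +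
      2 * ((d.val : ℕ) : ZMod 4)) : a = b + c + d := by
  revert a b c d; decide

/-! ### counting binary vectors by weight mod 4 -/

/-- number of binary vectors of length `m` and weight `≡ r mod 4` -/
noncomputable def A (m : ℕ) (r : ZMod 4) : ℕ :=
  (Finset.univ.filter (fun x : Fin m → ZMod 2 => wt x = r)).card

theorem A_succ (m : ℕ) (r : ZMod 4) : A (m + 1) r = A m r + A m (r - 1) := by
  classical
  unfold A
  rw [Finset.card_filter, Finset.card_filter, Finset.card_filter,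
    ← Equiv.sum_comp (Fin.consEquiv (fun _ => ZMod 2)), Fintype.sum_prod_type]
  have huniv : (Finset.univ : Finset (ZMod 2)) = {0, 1} := by decide
  rw [huniv, Finset.sum_pair (by decide)]
  congr 1
  · refine Finset.sum_congr rfl (fun x _ => ?_)
    have : wt (Fin.consEquiv (fun _ => ZMod 2) (0, x)) = wt x := by
      unfold wt
      rw [Fin.sum_univ_succ]
      simp [Fin.consEquiv]
    rw [this]
  · refine Finset.sum_congr rfl (fun x _ => ?_)
    have : wt (Fin.consEquiv (fun _ => ZMod 2) (1, x)) = 1 + wt x := by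
      unfold wt
      rw [Fin.sum_univ_succ]
      simp [Fin.consEquiv, ZMod.val_one]
    rw [this]
    simp only [eq_sub_iff_add_eq']

theorem A_zero (r : ZMod 4) : A 0 r = if r = 0 then 1 else 0 := by
  classical
  unfold A
  rw [Finset.card_filter]
  have : ∀ x : Fin 0 → ZMod 2, wt x = 0 := by
    intro x; unfold wt; simp
  simp only [this]
  simp [eq_comm]

theorem S0 (m : ℕ) : A (m + 1) 0 = A m 0 + A m 3 := by
  rw [A_succ]; rfl
theorem S1 (m : ℕ) : A (m + 1) 1 = A m 1 + A m 0 := by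
  rw [A_succ]; rfl
theorem S2 (m : ℕ) : A (m + 1) 2 = A m 2 + A m 1 := by
  rw [A_succ]; rfl
theorem S3 (m : ℕ) : A (m + 1) 3 = A m 3 + A m 2 := by
  rw [A_succ]; rfl

theorem A_closed (k : ℕ) :
    (A (4 * k + 2) 0 : ℤ) = 2 ^ (4 * k) ∧ (A (4 * k + 2) 1 : ℤ) = 2 ^ (4 * k) + (-4) ^ k ∧
    (A (4 * k + 2) 2 : ℤ) = 2 ^ (4 * k) ∧ (A (4 * k + 2) 3 : ℤ) = 2 ^ (4 * k) - (-4) ^ k := by
  induction k with
  | zero =>
    have e : 4 * 0 + 2 = 0 + 1 + 1 := rfl
    rw [e]
    simp only [S0, S1, S2, S3, A_zero]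
    decide
  | succ k ih =>
    obtain ⟨h0, h1, h2, h3⟩ := ih
    have e : 4 * (k + 1) + 2 = (4 * k + 2) + 1 + 1 + 1 + 1 := by ring
    rw [e]
    generalize 4 * k + 2 = M at h0 h1 h2 h3 ⊢
    simp only [S0, S1, S2, S3]
    push_cast
    rw [h0, h1, h2, h3]
    refine ⟨by ring, by ring, by ring, by ring⟩

/-! ### the module -/

/-- embedding `x ↦ (x, Σ x, 0)` into the even-weight vectors -/
def iota (N : ℕ) : (Fin N → ZMod 2) →ₗ[ZMod 2] (Fin N ⊕ Fin 2 → ZMod 2) where
  toFun x := Sum.elim x ![∑ i, x i, 0]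
  map_add' x y := by
    funext ω
    rcases ω with i | j
    · rfl
    · fin_cases j
      · show ∑ i, (x + y) i = ∑ i, x i + ∑ i, y i
        simp [Finset.sum_add_distrib]
      · show (0 : ZMod 2) = 0 + 0
        simp
  map_smul' c x := by
    funext ω
    rcases ω with i | j
    · rfl
    · fin_cases j
      · show ∑ i, (c • x) i = c • ∑ i, x i
        simp [Finset.mul_sum]
      · show (0 : ZMod 2) = c • (0 : ZMod 2)
        simp

theorem iota_inl (N : ℕ) (x : Fin N → ZMod 2) (i : Fin N) : iota N x (Sum.inl i) = x i := rfl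
theorem iota_inr0 (N : ℕ) (x : Fin N → ZMod 2) : iota N x (Sum.inr 0) = ∑ i, x i := rfl
theorem iota_inr1 (N : ℕ) (x : Fin N → ZMod 2) : iota N x (Sum.inr 1) = 0 := rfl

/-- projection modulo the all-ones vector -/
def pr (N : ℕ) : (Fin N ⊕ Fin 2 → ZMod 2) →ₗ[ZMod 2] (Fin N → ZMod 2) where
  toFun y := fun i => y (Sum.inl i) + y (Sum.inr 1)
  map_add' y z := by
    funext i
    simp only [Pi.add_apply]
    ring
  map_smul' c y := by
    funext i
    simp only [Pi.smul_apply, smul_eq_mul, RingHom.id_apply]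
    ring

theorem pr_apply (N : ℕ) (y : Fin N ⊕ Fin 2 → ZMod 2) (i : Fin N) :
    pr N y i = y (Sum.inl i) + y (Sum.inr 1) := rfl

theorem pr_iota (N : ℕ) (x : Fin N → ZMod 2) : pr N (iota N x) = x := by
  funext i
  rw [pr_apply, iota_inl, iota_inr1, add_zero]

theorem sum_iota (N : ℕ) (x : Fin N → ZMod 2) : ∑ ω, iota N x ω = 0 := by
  rw [Fintype.sum_sum_type, Fin.sum_univ_two, iota_inr0, iota_inr1, add_zero]
  simp only [iota_inl]
  exact CharTwo.add_self_eq_zero _

theorem sum_const_even (N : ℕ) (hN : Even N) (c : ZMod 2) : ∑ _i : Fin N, c = 0 := by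
  obtain ⟨t, rfl⟩ := hN
  rw [Finset.sum_const, Finset.card_univ, Fintype.card_fin, add_nsmul]
  exact CharTwo.add_self_eq_zero _

theorem iota_pr (N : ℕ) (hN : Even N) (y : Fin N ⊕ Fin 2 → ZMod 2) (hy : ∑ ω, y ω = 0) :
    iota N (pr N y) = y + fun _ => y (Sum.inr 1) := by
  funext ω
  rcases ω with i | j
  · rfl
  · fin_cases j
    · show ∑ i, (y (Sum.inl i) + y (Sum.inr 1)) = y (Sum.inr 0) + y (Sum.inr 1)
      rw [Finset.sum_add_distrib, sum_const_even N hN, add_zero]
      rw [Fintype.sum_sum_type, Fin.sum_univ_two] at hy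
      have := eq_neg_of_add_eq_zero_left hy
      rw [CharTwo.neg_eq] at this
      exact this
    · show (0 : ZMod 2) = y (Sum.inr 1) + y (Sum.inr 1)
      exact (CharTwo.add_self_eq_zero _).symm

theorem pr_const (N : ℕ) (c : ZMod 2) : pr N (fun _ => c) = 0 := by
  funext i
  rw [pr_apply]
  exact CharTwo.add_self_eq_zero _

theorem wt_const_one (N : ℕ) (hN : 4 ∣ N + 2) : wt (fun _ : Fin N ⊕ Fin 2 => (1 : ZMod 2)) = 0 := by
  unfold wt
  rw [Finset.sum_const, Finset.card_univ, Fintype.card_sum, Fintype.card_fin, Fintype.card_fin,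
    ZMod.val_one, Nat.cast_one, nsmul_eq_mul, mul_one]
  exact (ZMod.natCast_eq_zero_iff _ _).2 hN

theorem wt_shift (N : ℕ) (hN : 4 ∣ N + 2) (y : Fin N ⊕ Fin 2 → ZMod 2) (hy : ∑ ω, y ω = 0)
    (c : ZMod 2) : wt (y + fun _ => c) = wt y := by
  obtain rfl | rfl : c = 0 ∨ c = 1 := by revert c; decide
  · have : (y + fun _ => (0 : ZMod 2)) = y := by funext ω; simp
    rw [this]
  · rw [wt_add, wt_const_one N hN]
    have h1 : (y * fun _ => (1 : ZMod 2)) = y := by funext ω; simp
    have h2 : 2 * wt y = 0 := two_mul_of_par _ (by rw [par_wt, hy])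
    rw [h1, h2, add_zero, add_zero]

/-- the bilinear form -/
def bf (N : ℕ) (x y : Fin N → ZMod 2) : ZMod 2 := ∑ ω, iota N x ω * iota N y ω

/-- the quadratic form: half the weight, mod 2 -/
noncomputable def qf (N : ℕ) (x : Fin N → ZMod 2) : ZMod 2 :=
  if wt (iota N x) = 0 then 0 else 1

theorem two_wt_iota (N : ℕ) (x : Fin N → ZMod 2) : 2 * wt (iota N x) = 0 :=
  two_mul_of_par _ (by rw [par_wt, sum_iota])

theorem wt_iota_eq (N : ℕ) (x : Fin N → ZMod 2) :
    wt (iota N x) = 2 * ((((qf N x).val : ℕ)) : ZMod 4) :=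
  half_spec _ (two_wt_iota N x)

theorem qf_add (N : ℕ) (x y : Fin N → ZMod 2) : qf N (x + y) = qf N x + qf N y + bf N x y := by
  apply lift_inj
  rw [← wt_iota_eq, ← wt_iota_eq, ← wt_iota_eq, map_add, wt_add, two_mul_par (wt (iota N x * iota N y)),
    par_wt]
  rfl

theorem qf_zero (N : ℕ) : qf N 0 = 0 := by
  unfold qf
  rw [map_zero, wt_zero, if_pos rfl]

theorem polar_qf (N : ℕ) (x y : Fin N → ZMod 2) : QuadraticMap.polar (qf N) x y = bf N x y := by
  unfold QuadraticMap.polar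
  rw [qf_add]
  ring

/-- the quadratic form as a `QuadraticForm` -/
noncomputable def Qf (N : ℕ) : QuadraticForm (ZMod 2) (Fin N → ZMod 2) :=
  QuadraticMap.ofPolar (qf N)
    (by
      intro a x
      obtain rfl | rfl : a = 0 ∨ a = 1 := by revert a; decide
      · rw [zero_smul, qf_zero]; simp
      · rw [one_smul, mul_one, one_smul])
    (by
      intro x x' y
      rw [polar_qf, polar_qf, polar_qf]
      unfold bf
      rw [← Finset.sum_add_distrib]
      refine Finset.sum_congr rfl (fun ω _ => ?_)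
      rw [map_add, Pi.add_apply, add_mul])
    (by
      intro a x y
      rw [polar_qf, polar_qf]
      unfold bf
      rw [Finset.smul_sum]
      refine Finset.sum_congr rfl (fun ω _ => ?_)
      rw [map_smul, Pi.smul_apply, smul_eq_mul, smul_eq_mul, mul_assoc])

theorem Qf_apply (N : ℕ) (x : Fin N → ZMod 2) : Qf N x = qf N x := rfl

theorem Qf_nondeg (N : ℕ) (hN : Even N) (x : Fin N → ZMod 2)
    (h : ∀ y, QuadraticMap.polar (Qf N) x y = 0) : x = 0 := by
  classical
  have hb : ∀ y, bf N x y = 0 := by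
    intro y
    have := h y
    rw [show QuadraticMap.polar (⇑(Qf N)) x y = QuadraticMap.polar (qf N) x y from rfl, polar_qf] at this
    exact this
  have hj : ∀ j, x j = ∑ i, x i := by
    intro j
    have := hb (Pi.single j 1)
    unfold bf at this
    rw [Fintype.sum_sum_type, Fin.sum_univ_two, iota_inr0, iota_inr0, iota_inr1, iota_inr1, mul_zero,
      add_zero] at this
    simp only [iota_inl] at this
    rw [Finset.sum_pi_single', Fintype.sum_eq_single j (by intro i hi; simp [Pi.single_apply, hi])] at this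
    simp only [Pi.single_eq_same, mul_one, Finset.mem_univ, if_true] at this
    have h2 := eq_neg_of_add_eq_zero_left this
    rw [CharTwo.neg_eq] at h2
    exact h2
  have hs : ∑ i, x i = 0 := by
    have : ∑ i, x i = ∑ _i : Fin N, (∑ i, x i) := Finset.sum_congr rfl (fun j _ => hj j)
    rw [this]
    exact sum_const_even N hN _
  funext j
  rw [hj j, hs]
  rfl

/-! ### the action -/

/-- the action of a permutation -/
def rhoFun (N : ℕ) (σ : Equiv.Perm (Fin N ⊕ Fin 2)) :
    (Fin N → ZMod 2) →ₗ[ZMod 2] (Fin N → ZMod 2) :=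
  pr N ∘ₗ LinearMap.funLeft (ZMod 2) (ZMod 2) (⇑σ.symm) ∘ₗ iota N

theorem rhoFun_apply (N : ℕ) (σ : Equiv.Perm (Fin N ⊕ Fin 2)) (x : Fin N → ZMod 2) :
    rhoFun N σ x = pr N (iota N x ∘ σ.symm) := rfl

theorem sum_comp_perm (N : ℕ) (y : Fin N ⊕ Fin 2 → ZMod 2) (τ : Equiv.Perm (Fin N ⊕ Fin 2)) :
    ∑ ω, (y ∘ τ) ω = ∑ ω, y ω := Equiv.sum_comp τ y

theorem collapse (N : ℕ) (hN : Even N) (y : Fin N ⊕ Fin 2 → ZMod 2) (hy : ∑ ω, y ω = 0)
    (τ : Equiv.Perm (Fin N ⊕ Fin 2)) : pr N (iota N (pr N y) ∘ τ) = pr N (y ∘ τ) := by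
  rw [iota_pr N hN y hy]
  have : ((y + fun _ => y (Sum.inr 1)) ∘ τ) = y ∘ τ + fun _ => y (Sum.inr 1) := by
    funext ω; rfl
  rw [this, map_add, pr_const, add_zero]

/-- the action as a monoid homomorphism -/
def rho (N : ℕ) (hN : Even N) :
    Equiv.Perm (Fin N ⊕ Fin 2) →* ((Fin N → ZMod 2) →ₗ[ZMod 2] (Fin N → ZMod 2)) where
  toFun := rhoFun N
  map_one' := by
    apply LinearMap.ext
    intro x
    rw [rhoFun_apply]
    exact pr_iota N x
  map_mul' σ τ := by
    apply LinearMap.ext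
    intro x
    rw [Module.End.mul_apply, rhoFun_apply, rhoFun_apply, rhoFun_apply,
      collapse N hN _ (by rw [sum_comp_perm, sum_iota])]
    rfl

theorem rho_apply (N : ℕ) (hN : Even N) (σ : Equiv.Perm (Fin N ⊕ Fin 2)) (x : Fin N → ZMod 2) :
    rho N hN σ x = pr N (iota N x ∘ σ.symm) := rfl

theorem rho_inv (N : ℕ) (hN4 : 4 ∣ N + 2) (hN : Even N) (σ : Equiv.Perm (Fin N ⊕ Fin 2))
    (x : Fin N → ZMod 2) : Qf N (rho N hN σ x) = Qf N x := by
  rw [Qf_apply, Qf_apply]
  unfold qf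
  rw [rho_apply, iota_pr N hN _ (by rw [sum_comp_perm, sum_iota]),
    wt_shift N hN4 _ (by rw [sum_comp_perm, sum_iota]), wt_comp]

theorem ex2 (N : ℕ) (hN : 3 ≤ N) (a : Fin N) : ∃ j1 j2 : Fin N, j1 ≠ j2 ∧ j1 ≠ a ∧ j2 ≠ a := by
  classical
  have hc : 1 < ((Finset.univ : Finset (Fin N)).erase a).card := by
    rw [Finset.card_erase_of_mem (Finset.mem_univ _), Finset.card_univ, Fintype.card_fin]
    omega
  obtain ⟨j1, h1, j2, h2, h12⟩ := Finset.one_lt_card.1 hc
  exact ⟨j1, j2, h12, (Finset.mem_erase.1 h1).1, (Finset.mem_erase.1 h2).1⟩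

theorem u_val (N : ℕ) (i : Fin N) (ω : Fin N ⊕ Fin 2) :
    iota N (Pi.single i 1) ω = if ω = Sum.inl i ∨ ω = Sum.inr 0 then 1 else 0 := by
  classical
  rcases ω with i' | j
  · rw [iota_inl]
    by_cases h : i' = i
    · subst h; simp
    · simp [Pi.single_apply, h]
  · fin_cases j
    · show iota N (Pi.single i 1) (Sum.inr 0) = _
      rw [iota_inr0, Finset.sum_pi_single']
      simp
    · show iota N (Pi.single i 1) (Sum.inr 1) = _
      rw [iota_inr1]
      simp

theorem rho_inj (N : ℕ) (hN3 : 3 ≤ N) (hN : Even N) : Function.Injective (rho N hN) := by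
  classical
  rw [injective_iff_map_eq_one]
  intro σ hσ
  have E : ∀ i j : Fin N, iota N (Pi.single i 1) (σ.symm (Sum.inl j)) +
      iota N (Pi.single i 1) (σ.symm (Sum.inr 1)) = (Pi.single i 1 : Fin N → ZMod 2) j := by
    intro i j
    have h1 := congrFun (congrArg (fun f => f (Pi.single i 1)) hσ) j
    exact h1
  simp only [u_val] at E
  have hne : ∀ j : Fin N, σ.symm (Sum.inl j) ≠ σ.symm (Sum.inr 1) := by
    intro j h
    exact Sum.inl_ne_inr (σ.symm.injective h)
  -- the image of `inr 1`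
  have hr : σ.symm (Sum.inr 1) = Sum.inr 1 := by
    rcases hcase : σ.symm (Sum.inr 1) with i₀ | t
    · exfalso
      obtain ⟨j1, j2, h12, h1, h2⟩ := ex2 N hN3 i₀
      have key : ∀ j, j ≠ i₀ → σ.symm (Sum.inl j) = Sum.inr 0 := by
        intro j hj
        have h := E i₀ j
        rw [hcase] at h
        simp only [true_or, if_true, Pi.single_apply, hj, if_false] at h
        by_contra hcon
        have hn : ¬ (σ.symm (Sum.inl j) = Sum.inl i₀ ∨ σ.symm (Sum.inl j) = Sum.inr 0) := by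
          rintro (h' | h')
          · exact hne j (h'.trans hcase.symm)
          · exact hcon h'
        rw [if_neg hn] at h
        revert h; decide
      have := (key j1 h1).trans (key j2 h2).symm
      exact h12 (Sum.inl_injective (σ.symm.injective this))
    · fin_cases t
      · exfalso
        have hcase' : σ.symm (Sum.inr 1) = Sum.inr 0 := hcase
        obtain ⟨j, -⟩ : ∃ j : Fin N, True := ⟨⟨0, by omega⟩, trivial⟩
        obtain ⟨i1, i2, h12, h1, h2⟩ := ex2 N hN3 j
        have key : ∀ i, i ≠ j → σ.symm (Sum.inl j) = Sum.inl i := by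
          intro i hi
          have h := E i j
          rw [hcase'] at h
          simp only [or_true, if_true, Pi.single_apply, Ne.symm hi, if_false] at h
          by_contra hcon
          have hn : ¬ (σ.symm (Sum.inl j) = Sum.inl i ∨ σ.symm (Sum.inl j) = Sum.inr 0) := by
            rintro (h' | h')
            · exact hcon h'
            · exact hne j (h'.trans hcase'.symm)
          rw [if_neg hn] at h
          revert h; decide
        have := (key i1 h1).symm.trans (key i2 h2)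
        exact h12 (Sum.inl_injective this)
      · rfl
  have hn1 : ∀ i : Fin N, ¬ ((Sum.inr 1 : Fin N ⊕ Fin 2) = Sum.inl i ∨
      (Sum.inr 1 : Fin N ⊕ Fin 2) = Sum.inr 0) := by
    intro i
    rintro (h' | h')
    · exact Sum.inr_ne_inl h'
    · exact absurd (Sum.inr_injective h') (by decide)
  have hl : ∀ j : Fin N, σ.symm (Sum.inl j) = Sum.inl j := by
    intro j
    have h := E j j
    rw [hr] at h
    simp only [Pi.single_eq_same] at h
    rw [if_neg (hn1 j), add_zero] at h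
    have hmem : σ.symm (Sum.inl j) = Sum.inl j ∨ σ.symm (Sum.inl j) = Sum.inr 0 := by
      by_contra hcon
      rw [if_neg hcon] at h
      revert h; decide
    rcases hmem with h' | h'
    · exact h'
    · exfalso
      obtain ⟨i, _, -, hi, -⟩ := ex2 N hN3 j
      have h2 := E i j
      rw [hr, h', if_neg (hn1 i)] at h2
      simp only [or_true, if_true, Pi.single_apply, Ne.symm hi, if_false] at h2
      revert h2; decide
  have h0 : σ.symm (Sum.inr 0) = Sum.inr 0 := by
    rcases hcase : σ.symm (Sum.inr 0) with i | t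
    · exfalso
      have := hcase.trans (hl i).symm
      exact Sum.inr_ne_inl (σ.symm.injective this)
    · fin_cases t
      · rfl
      · exfalso
        have hcase' : σ.symm (Sum.inr 0) = Sum.inr 1 := hcase
        have := hcase'.trans hr.symm
        exact absurd (Sum.inr_injective (σ.symm.injective this)) (by decide)
  apply Equiv.Perm.ext
  intro ω
  have hfix : σ.symm ω = ω := by
    rcases ω with i | t
    · exact hl i
    · fin_cases t
      · exact h0
      · exact hr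
  exact ((Equiv.symm_apply_eq σ).1 hfix).symm

theorem wt_iota (N : ℕ) (x : Fin N → ZMod 2) :
    wt (iota N x) = wt x + (((par (wt x)).val : ℕ) : ZMod 4) := by
  rw [par_wt]
  unfold wt
  rw [Fintype.sum_sum_type, Fin.sum_univ_two, iota_inr0, iota_inr1, ZMod.val_zero, Nat.cast_zero,
    add_zero]
  rfl

theorem card_sing (N : ℕ) : Nat.card {x : Fin N → ZMod 2 // Qf N x = 0} = A N 0 + A N 3 := by
  classical
  rw [Nat.card_eq_fintype_card, Fintype.card_subtype]
  have h : ∀ x : Fin N → ZMod 2, Qf N x = 0 ↔ (wt x = 0 ∨ wt x = 3) := by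
    intro x
    rw [Qf_apply, ← sing_iff, ← wt_iota]
    unfold qf
    split_ifs with h0
    · simp [h0]
    · simp [h0]
  simp only [h]
  rw [Finset.filter_or, Finset.card_union_of_disjoint]
  · rfl
  · rw [Finset.disjoint_filter]
    intro x _ h0 h3
    rw [h0] at h3
    exact absurd h3 (by decide)

/-- For k ≥ 1 the symmetric group of degree 4k + 4 embeds in a full orthogonal group in dimension 4k + 2 over the field of two elements: in the isometry group of the plus-type form Σ xᵢyᵢ when k is odd, and in that of the minus-type form Σ xᵢyᵢ + (z₁² + z₁z₂ + z₂²) when k is even (through its action on even partitions of a (4k+4)-set, with the form 'half the size of a part, modulo 2'). -/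
theorem result (k : ℕ) (hk : 1 ≤ k) :
    (Odd k → ∃ φ : Equiv.Perm (Fin (4 * k + 4)) →* ↥(Cfsg.isometryGroup (ZMod 2) (Cfsg.quadFormPlus (2 * k + 1) (ZMod 2))), Function.Injective φ) ∧
    (Even k → ∃ φ : Equiv.Perm (Fin (4 * k + 4)) →* ↥(Cfsg.isometryGroup (ZMod 2) (Cfsg.quadFormMinus (2 * k) (ZMod 2) 1 1)), Function.Injective φ) := by
  classical
  have hN4 : 4 ∣ (4 * k + 2) + 2 := ⟨k + 1, by ring⟩
  have hNe : Even (4 * k + 2) := ⟨2 * k + 1, by ring⟩
  have hN3 : 3 ≤ 4 * k + 2 := by omega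
  have hfin : Module.finrank (ZMod 2) (Fin (4 * k + 2) → ZMod 2) = 2 * (2 * k + 1) := by
    rw [Module.finrank_fintype_fun_eq_card, Fintype.card_fin]; ring
  have hab : ∀ z₁ z₂ : ZMod 2, z₁ ^ 2 + 1 * z₁ * z₂ + 1 * z₂ ^ 2 = 0 → z₁ = 0 ∧ z₂ = 0 := by
    decide
  have hcl := classify (by omega : 1 ≤ 2 * k + 1) hfin (Qf (4 * k + 2)) (Qf_nondeg _ hNe) 1 1 hab
  obtain ⟨e⟩ : Nonempty (Fin (4 * k + 2) ⊕ Fin 2 ≃ Fin (4 * k + 4)) :=
    ⟨finSumFinEquiv.trans (finCongr (by omega))⟩
  obtain ⟨ρ, hρdef⟩ : ∃ ρ : Equiv.Perm (Fin (4 * k + 4)) →*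
      ((Fin (4 * k + 2) → ZMod 2) →ₗ[ZMod 2] (Fin (4 * k + 2) → ZMod 2)),
      ρ = (rho (4 * k + 2) hNe).comp (Equiv.permCongrHom e.symm).toMonoidHom := ⟨_, rfl⟩
  have hρ : Function.Injective ρ := by
    rw [hρdef]
    exact (rho_inj _ hN3 hNe).comp (Equiv.permCongrHom e.symm).injective
  have hQ : ∀ g x, Qf (4 * k + 2) (ρ g x) = Qf (4 * k + 2) x := by
    intro g x
    rw [hρdef]
    exact rho_inv _ hN4 hNe _ x
  have hcount := card_sing (4 * k + 2)
  obtain ⟨h0, -, -, h3⟩ := A_closed k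
  have hz : (Nat.card {x : Fin (4 * k + 2) → ZMod 2 // Qf (4 * k + 2) x = 0} : ℤ) =
      2 * 2 ^ (4 * k) - (-4) ^ k := by
    rw [hcount]; push_cast; rw [h0, h3]; ring
  have hY1 : (2 : ℕ) ^ (2 * k + 1) = 2 * 2 ^ (2 * k) := by ring
  have hY2 : (2 : ℕ) ^ (2 * k + 1 + 1) = 4 * 2 ^ (2 * k) := by ring
  have hY4 : (2 : ℤ) ^ (4 * k) = ((2 : ℤ) ^ (2 * k)) ^ 2 := by ring
  have h4k : (-4 : ℤ) ^ k = (-1) ^ k * 2 ^ (2 * k) := by
    rw [pow_mul, ← mul_pow]; norm_num
  have hYpos : 1 ≤ (2 : ℕ) ^ (2 * k) := Nat.one_le_pow _ _ (by norm_num)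
  constructor
  · intro hodd
    rcases hcl with ⟨g, hg⟩ | ⟨g, hg⟩
    · exact orth_embed (Cfsg.quadFormPlus (2 * k + 1) (ZMod 2)) (⇑(Qf (4 * k + 2))) g hg ρ hρ hQ
    · exfalso
      have hc := card_zero_minus (⇑(Qf (4 * k + 2))) 1 1 hab g hg
      rw [ZMod.card] at hc
      simp only [Nat.add_sub_cancel] at hc
      rw [hY1] at hc
      rw [h4k, hodd.neg_one_pow, hY4] at hz
      obtain ⟨Y, hY⟩ : ∃ Y, (2 : ℕ) ^ (2 * k) = Y + 1 := ⟨2 ^ (2 * k) - 1, by omega⟩
      have hYz : (2 : ℤ) ^ (2 * k) = (Y : ℤ) + 1 := by exact_mod_cast hY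
      rw [hY, Nat.add_sub_cancel] at hc
      rw [hYz] at hz
      have hc' : (2 : ℤ) * (Nat.card {x : Fin (4 * k + 2) → ZMod 2 // Qf (4 * k + 2) x = 0} : ℤ) =
          2 * ((Y : ℤ) + 1) + 2 ^ 2 * ((Y : ℤ) * ((Y : ℤ) + 1)) := by exact_mod_cast hc
      rw [hz] at hc'
      nlinarith [hc', Int.natCast_nonneg Y]
  · intro heven
    rcases hcl with ⟨g, hg⟩ | ⟨g, hg⟩
    · exfalso
      have hc := card_zero_plus (⇑(Qf (4 * k + 2))) g hg
      rw [ZMod.card] at hc
      rw [hY2, hY1] at hc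
      rw [h4k, heven.neg_one_pow, hY4] at hz
      obtain ⟨Y, hY⟩ : ∃ Y, (2 : ℕ) ^ (2 * k) = Y + 1 := ⟨2 ^ (2 * k) - 1, by omega⟩
      have hYz : (2 : ℤ) ^ (2 * k) = (Y : ℤ) + 1 := by exact_mod_cast hY
      rw [hY] at hc
      have e1 : 2 * (Y + 1) - 1 = 2 * Y + 1 := by omega
      rw [e1] at hc
      rw [hYz] at hz
      have hc' : (2 : ℤ) * (Nat.card {x : Fin (4 * k + 2) → ZMod 2 // Qf (4 * k + 2) x = 0} : ℤ) =
          4 * ((Y : ℤ) + 1) + (2 * (Y : ℤ) + 1) * (2 * ((Y : ℤ) + 1)) := by exact_mod_cast hc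
      rw [hz] at hc'
      nlinarith [hc', Int.natCast_nonneg Y]
    · exact orth_embed (Cfsg.quadFormMinus (2 * k) (ZMod 2) 1 1) (⇑(Qf (4 * k + 2))) g hg ρ hρ hQ

end Cfsg.Agent.S2563
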