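import Cfsg.Statements.S2567

set_option autoImplicit false
open Cfsg

namespace Cfsg.Agent.S2567

theorem center_pow {F : Type*} [Field F] [Fintype F] {n : ℕ} (z : GL (Fin n) F)
    (hz : z ∈ Subgroup.center (GL (Fin n) F)) : z ^ (Fintype.card F - 1) = 1 := by
  rw [Matrix.GeneralLinearGroup.center_eq_range_scalar] at hz
  obtain ⟨u, rfl⟩ := hz
  rw [← map_pow]
  have : u ^ (Fintype.card F - 1) = 1 := by
    classical
    rw [← Fintype.card_units]
    exact pow_card_eq_one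
  rw [this, map_one]

theorem abstract_lift {G : Type*} [Group G] (m r : ℕ) (hr : r.Prime) (hcop : Nat.Coprime r m)
    (hZ : ∀ z ∈ Subgroup.center G, z ^ m = 1)
    (x : G ⧸ Subgroup.center G) (hx : orderOf x = r) :
    ∃! g : G, (QuotientGroup.mk g : G ⧸ Subgroup.center G) = x ∧ orderOf g = r := by
  have hroot : ∀ z ∈ Subgroup.center G, z ^ r = 1 → z = 1 := by
    intro z hz hzr
    have h1 : orderOf z ∣ r := orderOf_dvd_of_pow_eq_one hzr
    have h2 : orderOf z ∣ m := orderOf_dvd_of_pow_eq_one (hZ z hz)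
    have h3 : orderOf z ∣ Nat.gcd r m := Nat.dvd_gcd h1 h2
    rw [hcop.gcd_eq_one, Nat.dvd_one] at h3
    exact orderOf_eq_one_iff.mp h3
  obtain ⟨g0, rfl⟩ := QuotientGroup.mk_surjective x
  have hg0r : g0 ^ r ∈ Subgroup.center G := by
    have h1 : ((g0 ^ r : G) : G ⧸ Subgroup.center G) = 1 := by
      rw [QuotientGroup.mk_pow, ← hx]
      exact pow_orderOf_eq_one _
    exact (QuotientGroup.eq_one_iff _).mp h1
  -- Bezout
  have hbez : (r : ℤ) * Nat.gcdA r m + (m : ℤ) * Nat.gcdB r m = 1 := by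
    have := Nat.gcd_eq_gcd_ab r m
    rw [hcop.gcd_eq_one] at this
    exact_mod_cast this.symm
  set c := g0 ^ r with hc
  set w := c ^ (Nat.gcdA r m) with hw
  have hwZ : w ∈ Subgroup.center G := Subgroup.zpow_mem _ hg0r _
  have hwr : w ^ r = c := by
    have h1 : c ^ ((m : ℤ) * Nat.gcdB r m) = 1 := by
      rw [zpow_mul, zpow_natCast, hZ c hg0r, one_zpow]
    calc w ^ r = c ^ ((r : ℤ) * Nat.gcdA r m) := by
          rw [hw, ← zpow_natCast, ← zpow_mul, mul_comm]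
      _ = c ^ ((r : ℤ) * Nat.gcdA r m) * c ^ ((m : ℤ) * Nat.gcdB r m) := by rw [h1, mul_one]
      _ = c ^ (1 : ℤ) := by rw [← zpow_add, hbez]
      _ = c := zpow_one c
  have hcomm : Commute g0 w⁻¹ := by
    have := Subgroup.mem_center_iff.mp (Subgroup.inv_mem _ hwZ) g0
    exact this
  have hgr : (g0 * w⁻¹) ^ r = 1 := by
    rw [hcomm.mul_pow, inv_pow, hwr, hc, mul_inv_cancel]
  have hmk : ((g0 * w⁻¹ : G) : G ⧸ Subgroup.center G) = (g0 : G ⧸ Subgroup.center G) := by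
    rw [QuotientGroup.mk_mul]
    have : ((w⁻¹ : G) : G ⧸ Subgroup.center G) = 1 :=
      (QuotientGroup.eq_one_iff _).mpr (Subgroup.inv_mem _ hwZ)
    rw [this, mul_one]
  have hr1 : r ≠ 1 := hr.ne_one
  have hord : orderOf (g0 * w⁻¹) = r := by
    have hd : orderOf (g0 * w⁻¹) ∣ r := orderOf_dvd_of_pow_eq_one hgr
    rcases (Nat.dvd_prime hr).mp hd with h | h
    · exfalso
      have h1 : g0 * w⁻¹ = 1 := orderOf_eq_one_iff.mp h
      have h2 : (g0 : G ⧸ Subgroup.center G) = 1 := by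
        rw [← hmk, h1]; rfl
      rw [h2, orderOf_one] at hx
      exact hr1 hx.symm
    · exact h
  refine ⟨g0 * w⁻¹, ⟨hmk, hord⟩, ?_⟩
  rintro g' ⟨hg'mk, hg'ord⟩
  have hzZ : (g0 * w⁻¹)⁻¹ * g' ∈ Subgroup.center G := by
    apply (QuotientGroup.eq_one_iff _).mp
    rw [QuotientGroup.mk_mul, QuotientGroup.mk_inv, hmk, hg'mk, inv_mul_cancel]
  set z := (g0 * w⁻¹)⁻¹ * g' with hz
  have hg' : g' = (g0 * w⁻¹) * z := by rw [hz]; group
  have hcz : Commute (g0 * w⁻¹) z := Subgroup.mem_center_iff.mp hzZ (g0 * w⁻¹)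
  have hzr : z ^ r = 1 := by
    have h1 : g' ^ r = 1 := by rw [← hg'ord]; exact pow_orderOf_eq_one _
    rw [hg', hcz.mul_pow, hgr, one_mul] at h1
    exact h1
  rw [hg', hroot z hzZ hzr, mul_one]

/-- Lifting elements of prime order from PGL to GL. -/
theorem result {F : Type*} [Field F] [Fintype F] {q n r : ℕ} (hF : Fintype.card F = q) (hr : r.Prime) (hdiv : ¬ r ∣ q - 1) (x : GL (Fin n) F ⧸ Subgroup.center (GL (Fin n) F)) (hx : orderOf x = r) : ∃! g : GL (Fin n) F, (QuotientGroup.mk g : GL (Fin n) F ⧸ Subgroup.center (GL (Fin n) F)) = x ∧ orderOf g = r := by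
  apply abstract_lift (q - 1) r hr ((Nat.Prime.coprime_iff_not_dvd hr).mpr hdiv) _ x hx
  intro z hz
  rw [← hF]
  exact center_pow z hz

end Cfsg.Agent.S2567
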