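import Cfsg.Statements.S2569


set_option autoImplicit false
open Cfsg

namespace Cfsg.Agent.S2569

open Polynomial Module in
theorem cent_det {F V : Type*} [Field F] [Finite F] [AddCommGroup V] [Module F V]
    [Module.Finite F V] [Nontrivial V]
    (f : Module.End F V) (hf : f.IsSemisimple) (d : F) :
    ∃ c : Module.End F V, c * f = f * c ∧ LinearMap.det c = d := by
  have hss : IsSemisimpleModule F[X] (AEval' f) := hf
  have hnt : Nontrivial (AEval' f) := (AEval'.of f).symm.nontrivial
  obtain ⟨S, hS⟩ := IsSemisimpleModule.exists_simple_submodule F[X] (AEval' f)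
  obtain ⟨S', hc⟩ := exists_isCompl S
  obtain ⟨I, hI, ⟨e⟩⟩ := isSimpleModule_iff_quot_maximal.mp hS
  let _ : Field (F[X] ⧸ I) := Ideal.Quotient.field I
  have hfinM : Module.Finite F (AEval' f) := Module.Finite.equiv (AEval'.of f)
  have hfinS : Module.Finite F S :=
    Module.Finite.of_injective (S.subtype.restrictScalars F) Subtype.val_injective
  have hfinS' : Module.Finite F S' :=
    Module.Finite.of_injective (S'.subtype.restrictScalars F) Subtype.val_injective
  have hfinK : Module.Finite F (F[X] ⧸ I) := Module.Finite.equiv (e.restrictScalars F)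
  have hK : Finite (F[X] ⧸ I) := Module.finite_of_finite F
  obtain ⟨a, ha⟩ := FiniteField.norm_surjective F (F[X] ⧸ I) d
  obtain ⟨P, rfl⟩ := Ideal.Quotient.mk_surjective a
  let cS : S →ₗ[F[X]] S := LinearMap.lsmul F[X] S P
  let E := Submodule.prodEquivOfIsCompl S S' hc
  let C : AEval' f →ₗ[F[X]] AEval' f :=
    E.toLinearMap ∘ₗ (cS.prodMap LinearMap.id) ∘ₗ E.symm.toLinearMap
  let c : V →ₗ[F] V :=
    (AEval'.of f).symm.toLinearMap ∘ₗ (C.restrictScalars F) ∘ₗ (AEval'.of f).toLinearMap
  refine ⟨c, ?_, ?_⟩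
  · apply LinearMap.ext
    intro v
    show (AEval'.of f).symm (C (AEval'.of f (f v))) = f ((AEval'.of f).symm (C (AEval'.of f v)))
    rw [← AEval'.X_smul_of, map_smul, AEval'.of_symm_X_smul]
  · have h1 : LinearMap.det c = LinearMap.det (C.restrictScalars F) :=
      LinearMap.det_conj (C.restrictScalars F) (AEval'.of f).symm
    have h2 : LinearMap.det (C.restrictScalars F) =
        LinearMap.det ((cS.restrictScalars F).prodMap (LinearMap.id : S' →ₗ[F] S')) :=
      LinearMap.det_conj ((cS.restrictScalars F).prodMap (LinearMap.id : S' →ₗ[F] S'))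
        (E.restrictScalars F)
    have h3 : LinearMap.det (cS.restrictScalars F) =
        LinearMap.det (Algebra.lmul F (F[X] ⧸ I) (Ideal.Quotient.mk I P)) := by
      rw [← LinearMap.det_conj (cS.restrictScalars F) (e.restrictScalars F)]
      congr 1
      apply LinearMap.ext
      intro k
      show e (P • e.symm k) = Ideal.Quotient.mk I P * k
      rw [map_smul, e.apply_symm_apply]
      obtain ⟨Q, rfl⟩ := Ideal.Quotient.mk_surjective k
      rfl
    rw [h1, h2, LinearMap.det_prodMap, LinearMap.det_id, mul_one, h3, ← Algebra.norm_apply, ha]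


/-- In GL_n over a finite field of characteristic p, the conjugacy class of a semisimple element (an element of order prime to p) under the special linear group is its whole GL-conjugacy class: for every such x and every invertible g there is h of determinant one with h x h⁻¹ = g x g⁻¹. -/
theorem result {F : Type*} [Field F] [Fintype F] {p : ℕ} [Fact p.Prime] [CharP F p] {n : ℕ} (x g : GL (Fin n) F) (hx : (orderOf x).Coprime p) : ∃ h : GL (Fin n) F, (h : Matrix (Fin n) (Fin n) F).det = 1 ∧ h * x * h⁻¹ = g * x * g⁻¹ := by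

  rcases Nat.eq_zero_or_pos n with rfl | hn
  · refine ⟨1, ?_, ?_⟩
    · simp
    · exact Subsingleton.elim _ _
  · have hne : Nonempty (Fin n) := ⟨⟨0, hn⟩⟩
    have hm0 : 0 < orderOf x := orderOf_pos x
    have hmF : ((orderOf x : ℕ) : F) ≠ 0 := by
      rw [Ne, CharP.cast_eq_zero_iff F p]
      intro hdvd
      have h1 : p = 1 := Nat.Coprime.eq_one_of_dvd hx.symm hdvd
      exact (Fact.out : p.Prime).one_lt.ne' h1
    let f : Module.End F (Fin n → F) := Matrix.toLin' (x : Matrix (Fin n) (Fin n) F)
    have hf : f.IsSemisimple := by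
      apply Module.End.isSemisimple_of_squarefree_aeval_eq_zero
        (p := Polynomial.X ^ (orderOf x) - Polynomial.C 1)
      · exact (Polynomial.separable_X_pow_sub_C (1 : F) hmF one_ne_zero).squarefree
      · have hpow : f ^ (orderOf x) = 1 := by
          have h2 : (x : Matrix (Fin n) (Fin n) F) ^ (orderOf x) = 1 := by
            rw [← Units.val_pow_eq_pow_val, pow_orderOf_eq_one]
            rfl
          show (Matrix.toLin' (x : Matrix (Fin n) (Fin n) F)) ^ (orderOf x) = 1
          rw [← Matrix.toLin'_pow, h2, Matrix.toLin'_one]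
          rfl
        simp [hpow]
    obtain ⟨c, hcf, hcd⟩ := cent_det f hf (g : Matrix (Fin n) (Fin n) F).det
    have hgdet : (g : Matrix (Fin n) (Fin n) F).det ≠ 0 := by
      have := (Matrix.GeneralLinearGroup.det g).ne_zero
      simpa using this
    have hdet : (LinearMap.toMatrix' c).det ≠ 0 := by
      rw [LinearMap.det_toMatrix', hcd]
      exact hgdet
    obtain ⟨Cg, hCg⟩ : ∃ Cg : GL (Fin n) F, (Cg : Matrix (Fin n) (Fin n) F) = LinearMap.toMatrix' c :=
      ⟨Matrix.GeneralLinearGroup.mkOfDetNeZero (LinearMap.toMatrix' c) hdet, rfl⟩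
    have hcomm : Cg * x = x * Cg := by
      apply Units.ext
      show (Cg : Matrix (Fin n) (Fin n) F) * (x : Matrix (Fin n) (Fin n) F) =
        (x : Matrix (Fin n) (Fin n) F) * (Cg : Matrix (Fin n) (Fin n) F)
      rw [hCg]
      have h3 : LinearMap.toMatrix' f = (x : Matrix (Fin n) (Fin n) F) := LinearMap.toMatrix'_toLin' _
      rw [← h3, ← LinearMap.toMatrix'_mul, ← LinearMap.toMatrix'_mul, hcf]
    have hdetC : Matrix.GeneralLinearGroup.det Cg = Matrix.GeneralLinearGroup.det g := by
      apply Units.ext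
      show (Cg : Matrix (Fin n) (Fin n) F).det = (g : Matrix (Fin n) (Fin n) F).det
      rw [hCg, LinearMap.det_toMatrix', hcd]
    refine ⟨g * Cg⁻¹, ?_, ?_⟩
    · have h4 : Matrix.GeneralLinearGroup.det (g * Cg⁻¹) = 1 := by
        rw [map_mul, map_inv, hdetC, mul_inv_cancel]
      have h5 := congrArg Units.val h4
      simpa using h5
    · have h6 : Cg⁻¹ * x * Cg = x := by
        rw [mul_assoc, ← hcomm, inv_mul_cancel_left]
      calc g * Cg⁻¹ * x * (g * Cg⁻¹)⁻¹ = g * (Cg⁻¹ * x * Cg) * g⁻¹ := by
            rw [mul_inv_rev, inv_inv]; group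
        _ = g * x * g⁻¹ := by rw [h6]

end Cfsg.Agent.S2569
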