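import Cfsg.Statements.S2570
import Mathlib
import Cfsg.Agent.Lib.Helper14.Nilp4

set_option autoImplicit false
open Cfsg

namespace Cfsg.Agent.S2570


/-- The partition of `n` into ones. -/
def ones (n : ℕ) : Nat.Partition n :=
  ⟨Multiset.replicate n 1, fun {i} hi => by rw [Multiset.eq_of_mem_replicate hi]; exact Nat.one_pos,
    by simp⟩

theorem ones_iff (n : ℕ) (μ : Nat.Partition n) : (∀ a ∈ μ.parts, a ≤ 1) ↔ μ = ones n := by
  constructor
  · intro h
    have h1 : ∀ b ∈ μ.parts, b = 1 := by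
      intro b hb
      have := h b hb
      have := μ.parts_pos hb
      omega
    have h2 : μ.parts = Multiset.replicate (Multiset.card μ.parts) 1 :=
      Multiset.eq_replicate_card.mpr h1
    have h3 : Multiset.card μ.parts = n := by
      have h4 := μ.parts_sum
      rw [h2, Multiset.sum_replicate, smul_eq_mul, mul_one] at h4
      exact h4
    apply Nat.Partition.ext
    rw [h2, h3]
    rfl
  · rintro rfl a ha
    have : a = 1 := Multiset.eq_of_mem_replicate ha
    omega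

theorem card_filter_sub_one (n p : ℕ) (hp : 1 ≤ p)
    [DecidablePred (fun μ : Nat.Partition n => ∀ a ∈ μ.parts, a ≤ p)] :
    Nat.card {μ : Nat.Partition n // (∀ a ∈ μ.parts, a ≤ p) ∧ ¬ (∀ a ∈ μ.parts, a ≤ 1)}
      = (Finset.univ.filter (fun μ : Nat.Partition n => ∀ a ∈ μ.parts, a ≤ p)).card - 1 := by
  classical
  have hmem : ones n ∈ Finset.univ.filter (fun μ : Nat.Partition n => ∀ a ∈ μ.parts, a ≤ p) := by
    rw [Finset.mem_filter]
    refine ⟨Finset.mem_univ _, ?_⟩
    intro a ha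
    have := (ones_iff n (ones n)).mpr rfl a ha
    omega
  rw [Nat.card_eq_fintype_card, Fintype.card_of_subtype
    ((Finset.univ.filter (fun μ : Nat.Partition n => ∀ a ∈ μ.parts, a ≤ p)).erase (ones n)),
    Finset.card_erase_of_mem hmem]
  intro μ
  rw [Finset.mem_erase, Finset.mem_filter, ones_iff]
  constructor
  · rintro ⟨h1, -, h2⟩
    exact ⟨h2, h1⟩
  · rintro ⟨h1, h2⟩
    exact ⟨h2, Finset.mem_univ _, h1⟩

/-- Number of conjugacy classes of elements of order p in GL_n over a finite field of characteristic p: they correspond to the Jordan types, that is, to the partitions of n with all parts at most p other than the partition into ones, so there are (number of partitions of n with parts ≤ p) − 1 of them. -/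
theorem result {F : Type*} [Field F] [Fintype F] {p : ℕ} [Fact p.Prime] [CharP F p] (n : ℕ) : Nat.card {C : ConjClasses (GL (Fin n) F) // ∃ g : GL (Fin n) F, ConjClasses.mk g = C ∧ orderOf g = p} = (Finset.univ.filter (fun μ : Nat.Partition n => ∀ a ∈ μ.parts, a ≤ p)).card - 1 := by
  classical
  have hp : p.Prime := Fact.out
  rw [Cfsg.Agent.Lib.Helper14.SSConj.card_classes
    (fun g : GL (Fin n) F => orderOf g = p)
    (fun g j => Cfsg.Agent.Lib.Helper14.Nilp.mkd ((g : Matrix (Fin n) (Fin n) F) - 1) j)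
    (fun t => ∃ l : Multiset ℕ, (∀ a ∈ l, 0 < a) ∧ l.sum = n ∧
      (t = fun j => (l.map (fun a => min a j)).sum) ∧ ((∀ a ∈ l, a ≤ p) ∧ ¬ (∀ a ∈ l, a ≤ 1))),
    Cfsg.Agent.Lib.Helper14.Nilp.card_param n (fun l => (∀ a ∈ l, a ≤ p) ∧ ¬ (∀ a ∈ l, a ≤ 1))]
  · convert card_filter_sub_one n p hp.one_le
  · intro g h hgh
    funext j
    exact Cfsg.Agent.Lib.Helper14.Nilp.mkd_of_isConj g h hgh j
  · intro g h hg hh hc
    exact Cfsg.Agent.Lib.Helper14.Nilp.gl_conj_of_mkd g h
      ⟨p, ((Cfsg.Agent.Lib.Helper14.Nilp.order_p_iff p g).mp hg).1⟩ (fun j => congrFun hc j)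
  · intro g hg
    obtain ⟨h1, h2⟩ := (Cfsg.Agent.Lib.Helper14.Nilp.order_p_iff p g).mp hg
    obtain ⟨l, hl, hsum, hkd⟩ := Cfsg.Agent.Lib.Helper14.Nilp.exists_partition_mat _ ⟨p, h1⟩
    refine ⟨l, hl, hsum, funext hkd, ?_, ?_⟩
    · rw [← Cfsg.Agent.Lib.Helper14.Nilp.sum_min_eq_sum_iff, ← hkd p, hsum]
      exact (Cfsg.Agent.Lib.Helper14.Nilp.mat_pow_eq_zero_iff _ p).mp h1
    · intro hall
      apply h2
      have h3 := (Cfsg.Agent.Lib.Helper14.Nilp.sum_min_eq_sum_iff l 1).mpr hall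
      rw [← hkd 1, hsum] at h3
      have h4 := (Cfsg.Agent.Lib.Helper14.Nilp.mat_pow_eq_zero_iff _ 1).mpr h3
      rwa [pow_one] at h4
  · rintro t ⟨l, hl, hsum, rfl, hp1, hp2⟩
    obtain ⟨M, hM, hkd⟩ := Cfsg.Agent.Lib.Helper14.Nilp.exists_matrix' (F := F) n l hl hsum
    obtain ⟨g, hg⟩ := Cfsg.Agent.Lib.Helper14.Nilp.exists_gl M hM
    refine ⟨g, ?_, ?_⟩
    · rw [Cfsg.Agent.Lib.Helper14.Nilp.order_p_iff p g, hg]
      constructor
      · rw [Cfsg.Agent.Lib.Helper14.Nilp.mat_pow_eq_zero_iff, hkd,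
          (Cfsg.Agent.Lib.Helper14.Nilp.sum_min_eq_sum_iff l p).mpr hp1, hsum]
      · intro h0
        apply hp2
        rw [← Cfsg.Agent.Lib.Helper14.Nilp.sum_min_eq_sum_iff, ← hkd 1, hsum,
          ← Cfsg.Agent.Lib.Helper14.Nilp.mat_pow_eq_zero_iff, pow_one]
        exact h0
    · funext j
      rw [hg]
      exact hkd j

end Cfsg.Agent.S2570
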