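import Cfsg.Statements.S2571
import Cfsg.Agent.Lib.Helper15.RegNil

set_option autoImplicit false
open Cfsg

namespace Cfsg.Agent.S2571

open Cfsg.Agent.Lib.Helper15.RegNil Module Matrix

section gen

variable {K V : Type*} [Field K] [AddCommGroup V] [Module K V] [FiniteDimensional K V]

theorem exists_cyclic (T : End K V) (hn : T ^ finrank K V = 0)
    (h1 : finrank K (LinearMap.ker T) ≤ 1) (hpos : 1 ≤ finrank K V) :
    ∃ v, (T ^ (finrank K V - 1)) v ≠ 0 := by
  by_contra hcon
  push Not at hcon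
  have htop : LinearMap.ker (T ^ (finrank K V - 1)) = ⊤ := by
    ext v
    simp [hcon v]
  have h2 := finrank_ker_pow T hn h1 (Nat.sub_le (finrank K V) 1)
  rw [htop, finrank_top] at h2
  omega

theorem ker_invariant (T c : End K V) (hc : c * T = T * c) :
    ∀ w ∈ LinearMap.ker c, T w ∈ LinearMap.ker c := by
  intro w hw
  rw [LinearMap.mem_ker] at hw ⊢
  have : c (T w) = T (c w) := by
    rw [← Module.End.mul_apply, hc, Module.End.mul_apply]
  rw [this, hw, map_zero]

theorem ker_pow_mono (T : End K V) {i j : ℕ} (h : i ≤ j) :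
    LinearMap.ker (T ^ i) ≤ LinearMap.ker (T ^ j) := by
  intro x hx
  rw [LinearMap.mem_ker] at hx ⊢
  rw [← Nat.sub_add_cancel h, pow_add, Module.End.mul_apply, hx, map_zero]

theorem eq_top_of_cyclic_mem (T : End K V) (hn : T ^ finrank K V = 0)
    (h1 : finrank K (LinearMap.ker T) ≤ 1) (v : V) (hv : (T ^ (finrank K V - 1)) v ≠ 0)
    (P : Submodule K V) (hP : ∀ w ∈ P, T w ∈ P) (hvP : v ∈ P) : P = ⊤ := by
  have hker := invariant_eq_ker_pow T hn h1 P hP
  have hvk : v ∈ LinearMap.ker (T ^ finrank K P) := by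
    rw [← hker]; exact hvP
  have hjn : finrank K V ≤ finrank K P := by
    by_contra hlt
    push Not at hlt
    have := ker_pow_mono T (show finrank K P ≤ finrank K V - 1 by omega) hvk
    exact hv (LinearMap.mem_ker.mp this)
  exact Submodule.eq_top_of_finrank_eq (le_antisymm (Submodule.finrank_le _) hjn)

theorem eq_zero_of_cyclic (T : End K V) (hn : T ^ finrank K V = 0)
    (h1 : finrank K (LinearMap.ker T) ≤ 1) (v : V) (hv : (T ^ (finrank K V - 1)) v ≠ 0)
    (c : End K V) (hc : c * T = T * c) (hcv : c v = 0) : c = 0 := by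
  have htop := eq_top_of_cyclic_mem T hn h1 v hv (LinearMap.ker c) (ker_invariant T c hc)
    (LinearMap.mem_ker.mpr hcv)
  exact LinearMap.ker_eq_top.mp htop

theorem exists_commuting (T : End K V) (hn : T ^ finrank K V = 0)
    (h1 : finrank K (LinearMap.ker T) ≤ 1) (v : V) (hv : (T ^ (finrank K V - 1)) v ≠ 0)
    (w : V) : ∃ c : End K V, c * T = T * c ∧ c v = w := by
  let P : Submodule K V :=
    { carrier := {w | ∃ c : End K V, c * T = T * c ∧ c v = w}
      add_mem' := by
        rintro _ _ ⟨c, hc, rfl⟩ ⟨c', hc', rfl⟩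
        exact ⟨c + c', by rw [add_mul, mul_add, hc, hc'], by simp⟩
      zero_mem' := ⟨0, by simp, by simp⟩
      smul_mem' := by
        rintro a _ ⟨c, hc, rfl⟩
        exact ⟨a • c, by rw [smul_mul_assoc, mul_smul_comm, hc], by simp⟩ }
  have hPinv : ∀ w ∈ P, T w ∈ P := by
    rintro _ ⟨c, hc, rfl⟩
    exact ⟨T * c, by rw [mul_assoc, hc], rfl⟩
  have hvP : v ∈ P := ⟨1, by simp, by simp⟩
  have htop := eq_top_of_cyclic_mem T hn h1 v hv P hPinv hvP
  have hw : w ∈ P := by rw [htop]; trivial
  exact hw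

theorem isUnit_of_commuting (T : End K V) (hn : T ^ finrank K V = 0)
    (h1 : finrank K (LinearMap.ker T) ≤ 1) (hpos : 1 ≤ finrank K V) (v : V)
    (c : End K V) (hc : c * T = T * c) (hw : (T ^ (finrank K V - 1)) (c v) ≠ 0) : IsUnit c := by
  rw [LinearMap.isUnit_iff_ker_eq_bot]
  have hker := invariant_eq_ker_pow T hn h1 (LinearMap.ker c) (ker_invariant T c hc)
  by_contra hne
  have hj1 : 1 ≤ finrank K (LinearMap.ker c) := by
    by_contra h0
    push Not at h0
    exact hne (Submodule.finrank_eq_zero.mp (by omega))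
  have h2 : (T ^ (finrank K V - 1)) v ∈ LinearMap.ker (T ^ 1) := by
    rw [LinearMap.mem_ker, ← Module.End.mul_apply, ← pow_add, Nat.add_sub_cancel' hpos, hn]
    simp
  have h3 : (T ^ (finrank K V - 1)) v ∈ LinearMap.ker c := by
    rw [hker]; exact ker_pow_mono T hj1 h2
  have hcomm : c * T ^ (finrank K V - 1) = T ^ (finrank K V - 1) * c :=
    (Commute.pow_right (show Commute c T from hc) _)
  apply hw
  rw [← Module.End.mul_apply, ← hcomm, Module.End.mul_apply]
  exact LinearMap.mem_ker.mp h3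

end gen

/-- Centraliser of a regular unipotent element in GL_n(q). -/
theorem result {F : Type*} [Field F] [Fintype F] {q n : ℕ} (hF : Fintype.card F = q) (hn : 1 ≤ n) (u : GL (Fin n) F) (hnil : ((u : Matrix (Fin n) (Fin n) F) - 1) ^ n = 0) (hreg : ((u : Matrix (Fin n) (Fin n) F) - 1).rank = n - 1) : Nat.card ↥(Subgroup.centralizer ({u} : Set (GL (Fin n) F))) = (q - 1) * q ^ (n - 1) := by
  classical
  set A : Matrix (Fin n) (Fin n) F := (u : Matrix (Fin n) (Fin n) F) with hA
  have hcard : Fintype.card (Fin n) = n := Fintype.card_fin n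
  have hreg' := matrix_regnil (A - 1) (by rw [hcard]; exact hnil) (by rw [hcard]; exact hreg)
  set T : End F (Fin n → F) := Matrix.mulVecLin (A - 1) with hT
  have hfin : finrank F (Fin n → F) = n := by simp
  have hpos : 1 ≤ finrank F (Fin n → F) := by rw [hfin]; exact hn
  obtain ⟨v, hv⟩ := exists_cyclic T hreg'.1 hreg'.2 hpos
  have hTl : T = Matrix.toLin' (A - 1) := by rw [hT, Matrix.toLin'_apply']
  have hcommOf : ∀ g : GL (Fin n) F, g ∈ Subgroup.centralizer ({u} : Set (GL (Fin n) F)) →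
      (Matrix.mulVecLin (g : Matrix (Fin n) (Fin n) F) : End F (Fin n → F)) * T
        = T * Matrix.mulVecLin (g : Matrix (Fin n) (Fin n) F) := by
    intro g hg
    have h1 : u * g = g * u := Subgroup.mem_centralizer_iff.mp hg u (Set.mem_singleton u)
    have h2 : A * (g : Matrix (Fin n) (Fin n) F) = (g : Matrix (Fin n) (Fin n) F) * A := by
      have := congrArg (fun x : GL (Fin n) F => (x : Matrix (Fin n) (Fin n) F)) h1
      simpa using this
    have h3 : (g : Matrix (Fin n) (Fin n) F) * (A - 1) = (A - 1) * (g : Matrix (Fin n) (Fin n) F) := by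
      rw [mul_sub, sub_mul, h2, mul_one, one_mul]
    rw [hT, Module.End.mul_eq_comp, Module.End.mul_eq_comp, ← Matrix.mulVecLin_mul,
      ← Matrix.mulVecLin_mul, h3]
  have hwell : ∀ g : GL (Fin n) F, g ∈ Subgroup.centralizer ({u} : Set (GL (Fin n) F)) →
      (T ^ (finrank F (Fin n → F) - 1)) ((g : Matrix (Fin n) (Fin n) F) *ᵥ v) ≠ 0 := by
    intro g hg h0
    have hc := hcommOf g hg
    have hcomm : (Matrix.mulVecLin (g : Matrix (Fin n) (Fin n) F) : End F (Fin n → F))
        * T ^ (finrank F (Fin n → F) - 1)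
        = T ^ (finrank F (Fin n → F) - 1) * Matrix.mulVecLin (g : Matrix (Fin n) (Fin n) F) :=
      (Commute.pow_right (show Commute _ T from hc) _)
    have h1 : (g : Matrix (Fin n) (Fin n) F) *ᵥ ((T ^ (finrank F (Fin n → F) - 1)) v) = 0 := by
      have := congrArg (fun f : End F (Fin n → F) => f v) hcomm
      simp only [Module.End.mul_apply, Matrix.mulVecLin_apply] at this
      rw [this]; exact h0
    have h2 : (T ^ (finrank F (Fin n → F) - 1)) v
        = ((g⁻¹ : GL (Fin n) F) : Matrix (Fin n) (Fin n) F) *ᵥ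
          ((g : Matrix (Fin n) (Fin n) F) *ᵥ ((T ^ (finrank F (Fin n → F) - 1)) v)) := by
      rw [Matrix.mulVec_mulVec, ← Matrix.GeneralLinearGroup.coe_mul, inv_mul_cancel]
      simp
    rw [h1, Matrix.mulVec_zero] at h2
    exact hv h2
  let Φ : ↥(Subgroup.centralizer ({u} : Set (GL (Fin n) F))) →
      {w : Fin n → F // (T ^ (finrank F (Fin n → F) - 1)) w ≠ 0} :=
    fun g => ⟨((g : GL (Fin n) F) : Matrix (Fin n) (Fin n) F) *ᵥ v, hwell g.1 g.2⟩
  have hinj : Function.Injective Φ := by
    intro g g' hgg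
    have h1 : ((g : GL (Fin n) F) : Matrix (Fin n) (Fin n) F) *ᵥ v
        = ((g' : GL (Fin n) F) : Matrix (Fin n) (Fin n) F) *ᵥ v := congrArg Subtype.val hgg
    have hc : (Matrix.mulVecLin ((g : GL (Fin n) F) : Matrix (Fin n) (Fin n) F)
        - Matrix.mulVecLin ((g' : GL (Fin n) F) : Matrix (Fin n) (Fin n) F) : End F (Fin n → F)) * T
        = T * (Matrix.mulVecLin ((g : GL (Fin n) F) : Matrix (Fin n) (Fin n) F)
        - Matrix.mulVecLin ((g' : GL (Fin n) F) : Matrix (Fin n) (Fin n) F)) := by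
      rw [sub_mul, mul_sub, hcommOf g.1 g.2, hcommOf g'.1 g'.2]
    have hz := eq_zero_of_cyclic T hreg'.1 hreg'.2 v hv _ hc (by
      rw [LinearMap.sub_apply, Matrix.mulVecLin_apply, Matrix.mulVecLin_apply, h1, sub_self])
    have h2 : Matrix.toLin' ((g : GL (Fin n) F) : Matrix (Fin n) (Fin n) F)
        = Matrix.toLin' ((g' : GL (Fin n) F) : Matrix (Fin n) (Fin n) F) := by
      rw [Matrix.toLin'_apply', Matrix.toLin'_apply']
      exact sub_eq_zero.mp hz
    have h3 := Matrix.toLin'.injective h2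
    exact Subtype.ext (Units.ext h3)
  have hsurj : Function.Surjective Φ := by
    rintro ⟨w, hw⟩
    obtain ⟨c, hc, hcv⟩ := exists_commuting T hreg'.1 hreg'.2 v hv w
    have hunit := isUnit_of_commuting T hreg'.1 hreg'.2 hpos v c hc (by rw [hcv]; exact hw)
    obtain ⟨cu, hcu⟩ := hunit
    let g : GL (Fin n) F :=
      ⟨LinearMap.toMatrix' (cu : End F (Fin n → F)),
        LinearMap.toMatrix' ((cu⁻¹ : (End F (Fin n → F))ˣ) : End F (Fin n → F)),
        by rw [← LinearMap.toMatrix'_mul, Units.mul_inv, LinearMap.toMatrix'_one],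
        by rw [← LinearMap.toMatrix'_mul, Units.inv_mul, LinearMap.toMatrix'_one]⟩
    have hgval : (g : Matrix (Fin n) (Fin n) F) = LinearMap.toMatrix' c := by
      show LinearMap.toMatrix' (cu : End F (Fin n → F)) = _
      rw [hcu]
    have hgmem : g ∈ Subgroup.centralizer ({u} : Set (GL (Fin n) F)) := by
      rw [Subgroup.mem_centralizer_iff]
      intro h hh
      rw [Set.mem_singleton_iff] at hh
      subst hh
      apply Units.ext
      rw [Units.val_mul, Units.val_mul, hgval]
      have h1 := congrArg LinearMap.toMatrix' hc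
      rw [LinearMap.toMatrix'_mul, LinearMap.toMatrix'_mul, hTl, LinearMap.toMatrix'_toLin'] at h1
      have h2 : LinearMap.toMatrix' c * A = A * LinearMap.toMatrix' c := by
        have := h1
        rw [mul_sub, sub_mul, mul_one, one_mul] at this
        exact sub_left_injective this
      exact h2.symm
    refine ⟨⟨g, hgmem⟩, ?_⟩
    apply Subtype.ext
    show (g : Matrix (Fin n) (Fin n) F) *ᵥ v = w
    rw [hgval, ← Matrix.toLin'_apply, Matrix.toLin'_toMatrix', hcv]
  rw [Nat.card_eq_of_bijective Φ ⟨hinj, hsurj⟩]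
  set Kr := LinearMap.ker (T ^ (finrank F (Fin n → F) - 1)) with hKr
  have e1 : Nat.card {w : Fin n → F // (T ^ (finrank F (Fin n → F) - 1)) w ≠ 0}
      = Nat.card {w : Fin n → F // ¬ w ∈ Kr} :=
    Nat.card_congr (Equiv.subtypeEquivRight (fun w => by rw [hKr, LinearMap.mem_ker]))
  have e2 : Nat.card (Fin n → F) = Nat.card {w : Fin n → F // w ∈ Kr}
      + Nat.card {w : Fin n → F // ¬ w ∈ Kr} := by
    rw [← Nat.card_sum]
    exact Nat.card_congr (Equiv.sumCompl (· ∈ Kr)).symm
  have e3 : Nat.card (Fin n → F) = q ^ n := by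
    rw [Module.natCard_eq_pow_finrank (K := F), hfin, Nat.card_eq_fintype_card, hF]
  have e4 : Nat.card {w : Fin n → F // w ∈ Kr} = q ^ (n - 1) := by
    have h := Module.natCard_eq_pow_finrank (K := F) (V := ↥Kr)
    have hq : Nat.card F = q := by rw [Nat.card_eq_fintype_card, hF]
    have hf : finrank F ↥Kr = n - 1 := by
      rw [hKr, finrank_ker_pow T hreg'.1 hreg'.2 (Nat.sub_le _ 1), hfin]
    rw [hq, hf] at h
    exact h
  rw [e1]
  have e5 : q ^ n = q * q ^ (n - 1) := by
    rw [← pow_succ', Nat.sub_add_cancel hn]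
  rw [Nat.sub_mul, one_mul, ← e5]
  omega

end Cfsg.Agent.S2571
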