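import Mathlib
import Cfsg.Statements.S2572
import Cfsg.Agent.Lib.Helper2.TvConj

set_option autoImplicit false
open Cfsg

namespace Cfsg.Agent.S2572

/-- Centraliser of a transvection in GL_n(q), n ≥ 2: if t − 1 has rank one and square zero, the centraliser of t in GL_n(q) has order q^(2n−3) (q − 1) |GL_(n−2)(q)| (a group of order q^(2n−3) extended by GL_1(q) × GL_(n−2)(q)). -/
theorem result {F : Type*} [Field F] [Fintype F] {q n : ℕ} (hF : Fintype.card F = q) (hn : 2 ≤ n) (t : GL (Fin n) F) (ht : Cfsg.IsTransvection (t : Matrix (Fin n) (Fin n) F)) : Nat.card ↥(Subgroup.centralizer ({t} : Set (GL (Fin n) F))) = q ^ (2 * n - 3) * (q - 1) * ∏ i : Fin (n - 2), (q ^ (n - 2) - q ^ (i : ℕ)) := by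
  obtain ⟨k, rfl⟩ : ∃ k, n = k + 2 := ⟨n - 2, by omega⟩
  have h1 := Cfsg.Agent.Lib.Helper2.TvConj.card_centralizer t ht
  have h2 : Nat.card (GL (Fin k) F) = ∏ i : Fin k, (q ^ k - q ^ (i : ℕ)) := by
    rw [← hF]
    exact Matrix.card_GL_field k
  have h3 : k + 2 - 2 = k := by omega
  have h4 : ∏ i : Fin (k + 2 - 2), (q ^ (k + 2 - 2) - q ^ (i : ℕ))
      = ∏ i : Fin k, (q ^ k - q ^ (i : ℕ)) := by
    rw [Fin.prod_univ_eq_prod_range (fun i => q ^ (k + 2 - 2) - q ^ i) (k + 2 - 2),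
      Fin.prod_univ_eq_prod_range (fun i => q ^ k - q ^ i) k, h3]
  rw [h1, h2, h4, hF]
  have h5 : 2 * (k + 2) - 3 = 1 + k + k := by omega
  rw [h5, pow_add, pow_add, pow_one]
  ring

end Cfsg.Agent.S2572
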