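import Cfsg.Statements.S2573
import Cfsg.Agent.Lib.Helper15.RegNil

set_option autoImplicit false
open Cfsg

namespace Cfsg.Agent.S2573

open Cfsg.Agent.Lib.Helper15.RegNil

/-- The invariant subspaces of a regular unipotent matrix form a chain. -/
theorem result {F : Type*} [Field F] [Finite F] {n : ℕ} (u : Matrix (Fin n) (Fin n) F) (hnil : (u - 1) ^ n = 0) (hreg : (u - 1).rank = n - 1) (W : Submodule F (Fin n → F)) (hW : ∀ v ∈ W, u.mulVec v ∈ W) : W = LinearMap.ker (Matrix.mulVecLin ((u - 1) ^ Module.finrank F W)) := by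
  have hreg' := matrix_regnil (u - 1) (by simpa using hnil) (by simpa using hreg)
  have hWT : ∀ w ∈ W, (Matrix.mulVecLin (u - 1)) w ∈ W := by
    intro w hw
    have : (Matrix.mulVecLin (u - 1)) w = u.mulVec w - w := by
      simp [Matrix.sub_mulVec]
    rw [this]
    exact W.sub_mem (hW w hw) hw
  have h := invariant_eq_ker_pow _ hreg'.1 hreg'.2 W hWT
  rw [mulVecLin_pow] at h
  exact h

end Cfsg.Agent.S2573
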