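import Cfsg.Statements.S2574
import Cfsg.Agent.Lib.Helper15.RegNil

set_option autoImplicit false
open Cfsg

namespace Cfsg.Agent.S2574

open Cfsg.Agent.Lib.Helper15.RegNil Module Matrix

theorem symp_pres {F : Type*} [Field F] {m : ℕ} (A : Matrix (Fin m ⊕ Fin m) (Fin m ⊕ Fin m) F)
    (hA : A ∈ Matrix.symplecticGroup (Fin m) F) (a b : Fin m ⊕ Fin m → F) :
    Cfsg.sympForm m F (A *ᵥ a) (A *ᵥ b) = Cfsg.sympForm m F a b := by
  unfold Cfsg.sympForm
  rw [Matrix.mulVec_mulVec, ← Matrix.vecMul_transpose, ← Matrix.dotProduct_mulVec,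
    Matrix.mulVec_mulVec, ← Matrix.mul_assoc, SymplecticGroup.mem_iff'.mp hA]

theorem symp_sub_left {F : Type*} [Field F] {m : ℕ} (a a' b : Fin m ⊕ Fin m → F) :
    Cfsg.sympForm m F (a - a') b = Cfsg.sympForm m F a b - Cfsg.sympForm m F a' b := by
  unfold Cfsg.sympForm
  rw [sub_dotProduct]

theorem symp_sub_right {F : Type*} [Field F] {m : ℕ} (a b b' : Fin m ⊕ Fin m → F) :
    Cfsg.sympForm m F a (b - b') = Cfsg.sympForm m F a b - Cfsg.sympForm m F a b' := by
  unfold Cfsg.sympForm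
  rw [Matrix.mulVec_sub, dotProduct_sub]

theorem symp_zero_right {F : Type*} [Field F] {m : ℕ} (a : Fin m ⊕ Fin m → F) :
    Cfsg.sympForm m F a 0 = 0 := by
  unfold Cfsg.sympForm
  rw [Matrix.mulVec_zero, dotProduct_zero]

theorem key {F : Type*} [Field F] {m : ℕ} (A : Matrix (Fin m ⊕ Fin m) (Fin m ⊕ Fin m) F)
    (hA : A ∈ Matrix.symplecticGroup (Fin m) F) (c b : Fin m ⊕ Fin m → F) :
    Cfsg.sympForm m F ((A - 1) *ᵥ c) b = - Cfsg.sympForm m F (A *ᵥ c) ((A - 1) *ᵥ b) := by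
  have h1 : (A - 1) *ᵥ c = A *ᵥ c - c := by rw [Matrix.sub_mulVec, Matrix.one_mulVec]
  have h2 : (A - 1) *ᵥ b = A *ᵥ b - b := by rw [Matrix.sub_mulVec, Matrix.one_mulVec]
  rw [h1, h2, symp_sub_left, symp_sub_right, symp_pres A hA]
  ring

theorem perp {F : Type*} [Field F] {m : ℕ} (A : Matrix (Fin m ⊕ Fin m) (Fin m ⊕ Fin m) F)
    (hA : A ∈ Matrix.symplecticGroup (Fin m) F) (k : ℕ) :
    ∀ a b : Fin m ⊕ Fin m → F,
      ((Matrix.mulVecLin (A - 1) : End F (Fin m ⊕ Fin m → F)) ^ k) b = 0 →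
      Cfsg.sympForm m F (((Matrix.mulVecLin (A - 1) : End F (Fin m ⊕ Fin m → F)) ^ k) a) b = 0 := by
  induction k with
  | zero =>
    intro a b hb
    rw [pow_zero, Module.End.one_apply] at hb
    rw [hb, symp_zero_right]
  | succ k ih =>
    intro a b hb
    set T : End F (Fin m ⊕ Fin m → F) := Matrix.mulVecLin (A - 1) with hT
    have hb' : (T ^ k) (T b) = 0 := by
      rw [← Module.End.mul_apply, ← pow_succ]; exact hb
    have h1 : (T ^ (k + 1)) a = (A - 1) *ᵥ ((T ^ k) a) := by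
      rw [pow_succ', Module.End.mul_apply]; rfl
    have h2 : A *ᵥ ((T ^ k) a) = (T ^ k) (a + T a) := by
      have : A *ᵥ ((T ^ k) a) = T ((T ^ k) a) + (T ^ k) a := by
        show A *ᵥ ((T ^ k) a) = (A - 1) *ᵥ ((T ^ k) a) + (T ^ k) a
        rw [Matrix.sub_mulVec, Matrix.one_mulVec]; abel
      rw [this, map_add, ← Module.End.mul_apply, ← Module.End.mul_apply, ← pow_succ, ← pow_succ']
      abel
    rw [h1, key A hA, h2]
    have h3 : (A - 1) *ᵥ b = T b := rfl
    rw [h3, ih (a + T a) (T b) hb', neg_zero]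

/-- A regular unipotent element of the symplectic group has totally isotropic small invariant subspaces. -/
theorem result {F : Type*} [Field F] [Finite F] {m : ℕ} (u : Matrix.symplecticGroup (Fin m) F) (hnil : ((u : Matrix (Fin m ⊕ Fin m) (Fin m ⊕ Fin m) F) - 1) ^ (2 * m) = 0) (hreg : ((u : Matrix (Fin m ⊕ Fin m) (Fin m ⊕ Fin m) F) - 1).rank = 2 * m - 1) (W : Submodule F (Fin m ⊕ Fin m → F)) (hW : ∀ v ∈ W, (u : Matrix (Fin m ⊕ Fin m) (Fin m ⊕ Fin m) F).mulVec v ∈ W) (hdim : 2 * Module.finrank F W ≤ 2 * m) : ∀ v ∈ W, ∀ w ∈ W, Cfsg.sympForm m F v w = 0 := by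
  set A : Matrix (Fin m ⊕ Fin m) (Fin m ⊕ Fin m) F := (u : Matrix (Fin m ⊕ Fin m) (Fin m ⊕ Fin m) F) with hAdef
  have hA : A ∈ Matrix.symplecticGroup (Fin m) F := u.2
  have hcard : Fintype.card (Fin m ⊕ Fin m) = 2 * m := by
    rw [Fintype.card_sum, Fintype.card_fin]; ring
  have hreg' := matrix_regnil (A - 1) (by rw [hcard]; exact hnil) (by rw [hcard]; exact hreg)
  set T : End F (Fin m ⊕ Fin m → F) := Matrix.mulVecLin (A - 1) with hT
  have hfin : finrank F (Fin m ⊕ Fin m → F) = 2 * m := by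
    rw [Module.finrank_fintype_fun_eq_card, hcard]
  have hWT : ∀ w ∈ W, T w ∈ W := by
    intro w hw
    have : T w = A *ᵥ w - w := by
      show (A - 1) *ᵥ w = _
      rw [Matrix.sub_mulVec, Matrix.one_mulVec]
    rw [this]
    exact W.sub_mem (hW w hw) hw
  have hWker := invariant_eq_ker_pow T hreg'.1 hreg'.2 W hWT
  set d := finrank F W with hd
  have hdm : d ≤ m := by omega
  have hdn : d ≤ finrank F (Fin m ⊕ Fin m → F) := by rw [hfin]; omega
  have hrange := range_pow_eq_ker_pow T hreg'.1 hreg'.2 hdn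
  intro v hv w hw
  have hw0 : (T ^ d) w = 0 := by
    rw [hWker] at hw
    exact LinearMap.mem_ker.mp hw
  have hv0 : (T ^ d) v = 0 := by
    rw [hWker] at hv
    exact LinearMap.mem_ker.mp hv
  have hv1 : v ∈ LinearMap.ker (T ^ (finrank F (Fin m ⊕ Fin m → F) - d)) := by
    rw [LinearMap.mem_ker]
    have hsplit : finrank F (Fin m ⊕ Fin m → F) - d = (finrank F (Fin m ⊕ Fin m → F) - d - d) + d := by
      rw [hfin]; omega
    rw [hsplit, pow_add, Module.End.mul_apply, hv0, map_zero]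
  rw [← hrange] at hv1
  obtain ⟨x, rfl⟩ := hv1
  exact perp A hA d x w hw0

end Cfsg.Agent.S2574
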