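import Cfsg.Statements.S2575

set_option autoImplicit false
open Cfsg

namespace Cfsg.Agent.S2575

theorem det_diag {F : Type*} [Field F] (n i : ℕ) (hi : i ≤ n) (c : F) :
    (c • Matrix.diagonal (fun j : Fin n => if (j : ℕ) < i then (-1 : F) else 1)).det
      = c ^ n * (-1) ^ i := by
  rw [Matrix.det_smul, Matrix.det_diagonal, Fintype.card_fin, Finset.prod_ite, Finset.prod_const,
    Finset.prod_const_one, mul_one]
  congr 2
  rw [Fin.card_filter_val_lt]
  exact min_eq_right hi

theorem v2 (k m : ℕ) (hm : Odd m) : padicValNat 2 (2 ^ k * m) = k := by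
  have h2 : ¬ (2 ∣ m) := by
    rw [Nat.two_dvd_ne_zero]
    exact Nat.odd_iff.mp hm
  rw [padicValNat.mul (by positivity) (hm.pos.ne'), padicValNat.prime_pow,
    padicValNat.eq_zero_of_not_dvd h2, add_zero]

theorem neg_one_ne_one {F : Type*} [Field F] [Fintype F] (hq : Odd (Fintype.card F)) :
    (-1 : F) ≠ 1 := by
  have hchar : ringChar F ≠ 2 := by
    intro h
    have := FiniteField.even_card_iff_char_two.mp h
    have h2 := Nat.odd_iff.mp hq
    omega
  exact Ring.neg_one_ne_one_of_char_ne_two hchar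

/-- An element of order `2 ^ (k+1)` in a finite field whose multiplicative group has order
divisible by `2 ^ (k+1)`: its `2^k`-th power is `-1`. -/
theorem exists_pow_eq_neg_one {F : Type*} [Field F] [Fintype F] (k : ℕ)
    (hk : 2 ^ (k + 1) ∣ Fintype.card F - 1) : ∃ z : F, z ≠ 0 ∧ z ^ (2 ^ k) = -1 := by
  classical
  obtain ⟨g, hg⟩ := IsCyclic.exists_generator (α := Fˣ)
  have hord : orderOf g = Fintype.card F - 1 := by
    rw [orderOf_eq_card_of_forall_mem_zpowers hg, Nat.card_eq_fintype_card, Fintype.card_units]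
  have hpos : Fintype.card F - 1 ≠ 0 := by
    have := Fintype.one_lt_card (α := F)
    omega
  set N := Fintype.card F - 1 with hN
  have hdiv : N / 2 ^ (k + 1) ∣ orderOf g := by
    rw [hord]
    exact Nat.div_dvd_of_dvd hk
  have hne : N / 2 ^ (k + 1) ≠ 0 := by
    intro h0
    rw [Nat.div_eq_zero_iff] at h0
    rcases h0 with h0 | h0
    · exact absurd h0 (by positivity)
    · exact absurd (Nat.le_of_dvd (Nat.pos_of_ne_zero hpos) hk) (not_le.mpr h0)
  have hz : orderOf (g ^ (N / 2 ^ (k + 1))) = 2 ^ (k + 1) := by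
    rw [orderOf_pow_of_dvd hne hdiv, hord, Nat.div_div_self hk hpos]
  set z := g ^ (N / 2 ^ (k + 1)) with hzdef
  have h1 : z ^ (2 ^ k) ≠ 1 := by
    intro h
    have := orderOf_dvd_of_pow_eq_one h
    rw [hz] at this
    have := Nat.le_of_dvd (by positivity) this
    rw [pow_succ] at this
    have hp : 0 < 2 ^ k := by positivity
    omega
  have h2 : (z ^ (2 ^ k)) ^ 2 = 1 := by
    rw [← pow_mul, ← pow_succ, ← hz]
    exact pow_orderOf_eq_one z
  refine ⟨(z : F), z.ne_zero, ?_⟩
  have h2' : ((z : F) ^ (2 ^ k)) ^ 2 = 1 := by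
    have := congrArg (fun u : Fˣ => (u : F)) h2
    simpa using this
  have h1' : (z : F) ^ (2 ^ k) ≠ 1 := by
    intro h
    apply h1
    apply Units.ext
    simpa using h
  rcases sq_eq_one_iff.mp h2' with h | h
  · exact absurd h h1'
  · exact h


/-- Which diagonal involutions of PGL_n(q) lie in PSL_n(q), q odd: for the diagonal matrix t with i entries −1 and n − i entries 1, some non-zero scalar multiple of t has determinant one if and only if i is even or the 2-part of q − 1 exceeds the 2-part of n (that is, −1 is an n-th power in the field exactly in the latter case). -/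
theorem result {F : Type*} [Field F] [Fintype F] {q : ℕ} (hF : Fintype.card F = q) (hq : Odd q) {n : ℕ} (hn : 1 ≤ n) (i : ℕ) (hi : i ≤ n) : (∃ c : F, c ≠ 0 ∧ (c • Matrix.diagonal (fun j : Fin n => if (j : ℕ) < i then (-1 : F) else 1)).det = 1) ↔ (Even i ∨ padicValNat 2 n < padicValNat 2 (q - 1)) := by
  subst hF
  have hneg := neg_one_ne_one hq
  have hpos : Fintype.card F - 1 ≠ 0 := by
    have := Fintype.one_lt_card (α := F)
    omega
  obtain ⟨k, m, hm, hnkm⟩ := Nat.exists_eq_two_pow_mul_odd (n := n) (by omega)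
  have hv : padicValNat 2 n = k := by rw [hnkm]; exact v2 k m hm
  rw [hv]
  simp only [det_diag n i hi]
  constructor
  · rintro ⟨c, hc, hdet⟩
    by_cases hie : Even i
    · exact Or.inl hie
    · right
      have hio : Odd i := Nat.not_even_iff_odd.mp hie
      rw [hio.neg_one_pow] at hdet
      have hcn : c ^ n = -1 := by linear_combination -hdet
      have hy1 : ¬ (c ^ m) ^ 2 ^ k = 1 := by
        rw [← pow_mul, mul_comm, ← hnkm, hcn]
        exact hneg
      have hy2 : (c ^ m) ^ 2 ^ (k + 1) = 1 := by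
        rw [pow_succ, pow_mul, ← pow_mul c, mul_comm m, ← hnkm, hcn]
        norm_num
      have hord := orderOf_eq_prime_pow hy1 hy2
      have hdvd : orderOf (c ^ m) ∣ Fintype.card F - 1 :=
        orderOf_dvd_of_pow_eq_one (FiniteField.pow_card_sub_one_eq_one _ (pow_ne_zero _ hc))
      rw [hord, padicValNat_dvd_iff_le hpos] at hdvd
      omega
  · rintro (hie | hlt)
    · exact ⟨1, one_ne_zero, by rw [one_pow, hie.neg_one_pow, one_mul]⟩
    · by_cases hie : Even i
      · exact ⟨1, one_ne_zero, by rw [one_pow, hie.neg_one_pow, one_mul]⟩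
      · have hio : Odd i := Nat.not_even_iff_odd.mp hie
        have hk : 2 ^ (k + 1) ∣ Fintype.card F - 1 := by
          rw [padicValNat_dvd_iff_le hpos]
          omega
        obtain ⟨z, hz0, hz⟩ := exists_pow_eq_neg_one (F := F) k hk
        refine ⟨z, hz0, ?_⟩
        rw [hio.neg_one_pow, hnkm, pow_mul, hz, hm.neg_one_pow]
        norm_num

end Cfsg.Agent.S2575
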