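import Cfsg.Statements.S2576

set_option autoImplicit false
open Cfsg

namespace Cfsg.Agent.S2576

theorem det_blk {F : Type*} [Field F] (m : ℕ) (μ c : F) :
    (c • Matrix.blockDiagonal (fun _ : Fin m => !![(0 : F), 1; μ, 0])).det
      = c ^ (2 * m) * (-μ) ^ m := by
  rw [Matrix.det_smul, Matrix.det_blockDiagonal, Fintype.card_prod, Fintype.card_fin,
    Fintype.card_fin, Finset.prod_const, Finset.card_univ, Fintype.card_fin,
    Matrix.det_fin_two_of]
  congr 2
  ring

theorem neg_one_ne_one {F : Type*} [Field F] [Fintype F] (hq : Odd (Fintype.card F)) :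
    (-1 : F) ≠ 1 := by
  have hchar : ringChar F ≠ 2 := by
    intro h
    have := FiniteField.even_card_iff_char_two.mp h
    have h2 := Nat.odd_iff.mp hq
    omega
  exact Ring.neg_one_ne_one_of_char_ne_two hchar

/-- Which involutions of PGL_2m(q) coming from a scalar of the quadratic extension field lie in PSL_2m(q), q odd: let μ generate the Sylow 2-subgroup of the multiplicative group of the field with q elements (μ has order the 2-part of q − 1) and let t be the block-diagonal matrix with m diagonal blocks [[0, 1], [μ, 0]] (so t² is the scalar μ and t is an involution modulo scalars). Then some non-zero scalar multiple of t has determinant one if and only if q ≡ 3 (mod 4) or the 2-part of q − 1 is less than the 2-part of 2m. -/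
theorem result {F : Type*} [Field F] [Fintype F] {q : ℕ} (hF : Fintype.card F = q) (hq : Odd q) {m : ℕ} (hm : 1 ≤ m) (μ : F) (hμ : orderOf μ = 2 ^ padicValNat 2 (q - 1)) : (∃ c : F, c ≠ 0 ∧ (c • Matrix.blockDiagonal (fun _ : Fin m => !![(0 : F), 1; μ, 0])).det = 1) ↔ (q % 4 = 3 ∨ padicValNat 2 (q - 1) < padicValNat 2 (2 * m)) := by
  subst hF
  have hneg := neg_one_ne_one hq
  have hq2 := Nat.odd_iff.mp hq
  have hcard := Fintype.one_lt_card (α := F)
  have hpos : Fintype.card F - 1 ≠ 0 := by omega
  set N := Fintype.card F - 1 with hN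
  set a := padicValNat 2 N with ha
  have hm0 : m ≠ 0 := by omega
  have hv2m : padicValNat 2 (2 * m) = padicValNat 2 m + 1 := by
    rw [padicValNat.mul (by norm_num) hm0, padicValNat_self, add_comm]
  have ha1 : 1 ≤ a := by
    have : 2 ^ 1 ∣ N := by
      rw [pow_one, Nat.dvd_iff_mod_eq_zero]
      omega
    exact (padicValNat_dvd_iff_le hpos).mp this
  have haN : 2 ^ a ∣ N := (padicValNat_dvd_iff_le hpos).mpr le_rfl
  have haN' : ¬ 2 ^ (a + 1) ∣ N := pow_succ_padicValNat_not_dvd hpos
  have hiff : a < padicValNat 2 (2 * m) ↔ 2 ^ a ∣ m := by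
    rw [hv2m, padicValNat_dvd_iff_le hm0]
    omega
  rw [hiff]
  simp only [det_blk]
  have hμ0 : μ ≠ 0 := by
    rintro rfl
    rw [orderOf_eq_zero_iff'.mpr] at hμ
    · exact absurd hμ.symm (by positivity)
    · intro n hn
      rw [zero_pow hn.ne']
      exact zero_ne_one
  constructor
  · rintro ⟨c, hc, hdet⟩
    by_cases h3 : Fintype.card F % 4 = 3
    · exact Or.inl h3
    · right
      have h4 : 4 ∣ N := by
        rw [Nat.dvd_iff_mod_eq_zero]
        omega
      obtain ⟨h, hh⟩ : ∃ h, N = 2 * h := ⟨N / 2, by omega⟩
      have hheven : Even h := by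
        rw [Nat.even_iff]
        omega
      have hcN : c ^ N = 1 := FiniteField.pow_card_sub_one_eq_one c hc
      have hμN : μ ^ N = 1 := by
        rw [← orderOf_dvd_iff_pow_eq_one, hμ]
        exact haN
      have hμh : μ ^ h = -1 := by
        have h1 : (μ ^ h) ^ 2 = 1 := by rw [← pow_mul, mul_comm, ← hh, hμN]
        have h2 : μ ^ h ≠ 1 := by
          intro h2
          rw [← orderOf_dvd_iff_pow_eq_one, hμ] at h2
          apply haN'
          rw [pow_succ, hh, mul_comm]
          exact Nat.mul_dvd_mul_left 2 h2
        rcases sq_eq_one_iff.mp h1 with h3 | h3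
        · exact absurd h3 h2
        · exact h3
      set z := -μ * c ^ 2 with hz
      have hzm : z ^ m = 1 := by
        rw [hz, mul_pow, ← pow_mul, mul_comm _ (c ^ (2 * m))]
        exact hdet
      have hzh : z ^ h ≠ 1 := by
        rw [hz, mul_pow, hheven.neg_pow, hμh, ← pow_mul, ← hh, hcN, mul_one]
        exact hneg
      have hzN : z ^ N = 1 := by
        rw [hh, mul_comm, pow_mul, hz, mul_pow, hheven.neg_pow, hμh, ← pow_mul, ← hh, hcN]
        norm_num
      have hdm : orderOf z ∣ m := orderOf_dvd_of_pow_eq_one hzm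
      have hdN : orderOf z ∣ N := orderOf_dvd_of_pow_eq_one hzN
      have hdh : ¬ orderOf z ∣ h := by
        rw [orderOf_dvd_iff_pow_eq_one]
        exact hzh
      obtain ⟨e, he⟩ := hdN
      have heodd : Odd e := by
        rw [← Nat.not_even_iff_odd]
        rintro ⟨e', he'⟩
        apply hdh
        refine ⟨e', ?_⟩
        have : 2 * h = 2 * (orderOf z * e') := by
          rw [← hh, he, he']
          ring
        omega
      have hcop : Nat.Coprime (2 ^ a) e := Nat.Coprime.pow_left a (Nat.coprime_two_left.mpr heodd)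
      have : 2 ^ a ∣ orderOf z := by
        apply hcop.dvd_of_dvd_mul_right
        rw [← he]
        exact haN
      exact this.trans hdm
  · rintro (h3 | hdvd)
    · have ha' : a = 1 := by
        have : ¬ 2 ^ 2 ∣ N := by
          rw [Nat.dvd_iff_mod_eq_zero]
          omega
        rw [padicValNat_dvd_iff_le hpos] at this
        omega
      rw [ha', pow_one] at hμ
      have h1 : μ ^ 2 = 1 := by
        rw [← hμ]
        exact pow_orderOf_eq_one μ
      have h2 : μ ≠ 1 := by
        rintro rfl
        rw [orderOf_one] at hμ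
        omega
      have hμ' : μ = -1 := by
        rcases sq_eq_one_iff.mp h1 with h | h
        · exact absurd h h2
        · exact h
      exact ⟨1, one_ne_zero, by rw [hμ']; simp⟩
    · have hμm : μ ^ m = 1 := by
        rw [← orderOf_dvd_iff_pow_eq_one, hμ]
        exact hdvd
      have hme : Even m := by
        have : 2 ∣ m := (dvd_pow_self 2 (by omega : a ≠ 0)).trans hdvd
        exact even_iff_two_dvd.mpr this
      exact ⟨1, one_ne_zero, by rw [one_pow, one_mul, hme.neg_pow, hμm]⟩

end Cfsg.Agent.S2576
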