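import Cfsg.Statements.S2577


set_option autoImplicit false
open Cfsg

namespace Cfsg.Agent.S2577

section helpers

open Matrix Polynomial

section core
variable {F : Type*} [Field F] {V : Type*} [AddCommGroup V] [Module F V]

/-- eigenspace -/
def E (M : V →ₗ[F] V) (μ : F) : Submodule F V := LinearMap.ker (M - μ • LinearMap.id)

theorem mem_E (M : V →ₗ[F] V) (μ : F) (v : V) : v ∈ E M μ ↔ M v = μ • v := by
  simp [E, sub_eq_zero]

theorem E_eq_bot (M : V →ₗ[F] V) (c ν : F) (hM : ∀ v, M (M v) = c • v) (hν : ν * ν ≠ c) :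
    E M ν = ⊥ := by
  rw [eq_bot_iff]
  intro v hv
  rw [mem_E] at hv
  have h1 : (ν * ν - c) • v = 0 := by
    rw [sub_smul, ← hM v, hv, map_smul, hv, smul_smul, sub_self]
  rcases smul_eq_zero.mp h1 with h | h
  · exact absurd (sub_eq_zero.mp h) hν
  · simp [h]

theorem isCompl_E (h2 : (2 : F) ≠ 0) (M : V →ₗ[F] V) (μ : F) (hμ : μ ≠ 0)
    (hM : ∀ v, M (M v) = (μ * μ) • v) : IsCompl (E M μ) (E M (-μ)) := by
  have h2μ : (2 * μ : F) ≠ 0 := mul_ne_zero h2 hμ
  constructor
  · rw [Submodule.disjoint_def]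
    intro v h1 h2'
    rw [mem_E] at h1 h2'
    have h3 : (2 * μ) • v = 0 := by
      have h4 : μ • v = (-μ) • v := h1.symm.trans h2'
      have h5 : (2 * μ) • v = μ • v - (-μ) • v := by
        rw [neg_smul, sub_neg_eq_add, two_mul, add_smul]
      rw [h5, ← h4, sub_self]
    rcases smul_eq_zero.mp h3 with h | h
    · exact absurd h h2μ
    · simpa using h
  · rw [codisjoint_iff, eq_top_iff]
    intro v _
    have e : v = (2 * μ)⁻¹ • (M v + μ • v) + (2 * μ)⁻¹ • (μ • v - M v) := by
      rw [← smul_add]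
      have : M v + μ • v + (μ • v - M v) = (2 * μ) • v := by
        rw [two_mul, add_smul]; abel
      rw [this, smul_smul, inv_mul_cancel₀ h2μ, one_smul]
    rw [e]
    apply Submodule.add_mem_sup
    · apply Submodule.smul_mem
      rw [mem_E, map_add, hM, map_smul, smul_add, smul_smul, add_comm]
    · apply Submodule.smul_mem
      rw [mem_E, map_sub, hM, map_smul, smul_sub, smul_smul, neg_mul, neg_smul, neg_smul]
      abel

theorem conj_A [FiniteDimensional F V] (h2 : (2 : F) ≠ 0) (M M' : V →ₗ[F] V) (μ μ' : F)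
    (hμ : μ ≠ 0) (hμ' : μ' ≠ 0)
    (hM : ∀ v, M (M v) = (μ * μ) • v) (hM' : ∀ v, M' (M' v) = (μ' * μ') • v)
    (hd : Module.finrank F (E M μ) = Module.finrank F (E M' μ')) :
    ∃ T : V ≃ₗ[F] V, ∀ v, T (M v) = (μ * μ'⁻¹) • M' (T v) := by
  have h1 := isCompl_E h2 M μ hμ hM
  have h1' := isCompl_E h2 M' μ' hμ' hM'
  have hd2 : Module.finrank F (E M (-μ)) = Module.finrank F (E M' (-μ')) := by
    have e1 := Submodule.finrank_add_eq_of_isCompl h1
    have e2 := Submodule.finrank_add_eq_of_isCompl h1'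
    omega
  let φ : E M μ ≃ₗ[F] E M' μ' := LinearEquiv.ofFinrankEq _ _ hd
  let ψ : E M (-μ) ≃ₗ[F] E M' (-μ') := LinearEquiv.ofFinrankEq _ _ hd2
  let P := Submodule.prodEquivOfIsCompl _ _ h1
  let P' := Submodule.prodEquivOfIsCompl _ _ h1'
  refine ⟨P.symm ≪≫ₗ (φ.prodCongr ψ) ≪≫ₗ P', fun v => ?_⟩
  obtain ⟨x, rfl⟩ := P.surjective v
  have hP : ∀ y : E M μ × E M (-μ), P y = (y.1 : V) + (y.2 : V) := fun y => rfl
  have hP' : ∀ y : E M' μ' × E M' (-μ'), P' y = (y.1 : V) + (y.2 : V) := fun y => rfl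
  have hx1 : M (x.1 : V) = μ • (x.1 : V) := (mem_E M μ _).mp x.1.2
  have hx2 : M (x.2 : V) = (-μ) • (x.2 : V) := (mem_E M (-μ) _).mp x.2.2
  have e1 : M (P x) = P (μ • x.1, (-μ) • x.2) := by
    rw [hP, hP, map_add, hx1, hx2]
    rfl
  have hy1 : M' ((φ x.1 : E M' μ') : V) = μ' • ((φ x.1 : E M' μ') : V) :=
    (mem_E M' μ' _).mp (φ x.1).2
  have hy2 : M' ((ψ x.2 : E M' (-μ')) : V) = (-μ') • ((ψ x.2 : E M' (-μ')) : V) :=
    (mem_E M' (-μ') _).mp (ψ x.2).2
  rw [e1]
  simp only [LinearEquiv.trans_apply, LinearEquiv.symm_apply_apply, LinearEquiv.prodCongr_apply]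
  rw [hP', hP', map_add, map_smul, map_smul]
  simp only [Submodule.coe_smul]
  rw [hy1, hy2, smul_add, smul_smul, smul_smul]
  congr 1
  · congr 1
    field_simp
  · congr 1
    field_simp

end core

section nonsq
variable {F : Type*} [Field F] [Finite F] {V : Type*} [AddCommGroup V] [Module F V] [Finite V]

theorem irr_of_nonsq (c : F) (hc : ¬ IsSquare c) : Irreducible (X ^ 2 - C c : F[X]) := by
  have hdeg : (X ^ 2 - C c : F[X]).natDegree = 2 := natDegree_X_pow_sub_C
  have hne : (X ^ 2 - C c : F[X]) ≠ 0 := by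
    intro h
    rw [h] at hdeg
    simp at hdeg
  rw [Polynomial.irreducible_iff_roots_eq_zero_of_degree_le_three (by omega) (by omega)]
  rw [Multiset.eq_zero_iff_forall_notMem]
  intro r hr
  rw [mem_roots hne] at hr
  have h1 : r ^ 2 - c = 0 := by simpa [IsRoot] using hr
  exact hc ⟨r, by linear_combination -h1⟩

theorem model (c : F) (hc : ¬ IsSquare c) (M : V →ₗ[F] V) (hM : ∀ v, M (M v) = c • v) :
    ∃ (d : ℕ) (e : V ≃+ (Fin d → AdjoinRoot (X ^ 2 - C c : F[X]))),
      (∀ (a : F) (v : V), e (a • v) = AdjoinRoot.of (X ^ 2 - C c : F[X]) a • e v) ∧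
      ∀ v, e (M v) = AdjoinRoot.root (X ^ 2 - C c : F[X]) • e v := by
  have : Fact (Irreducible (X ^ 2 - C c : F[X])) := ⟨irr_of_nonsq c hc⟩
  have h0 : Polynomial.aeval M (X ^ 2 - C c : F[X]) = 0 := by
    rw [map_sub, map_pow, aeval_X, aeval_C]
    ext v
    simp [pow_two, hM, Module.algebraMap_end_apply]
  let φ : AdjoinRoot (X ^ 2 - C c : F[X]) →+* Module.End F V :=
    Ideal.Quotient.lift (Ideal.span {(X ^ 2 - C c : F[X])})
      (Polynomial.aeval M : F[X] →ₐ[F] Module.End F V).toRingHom (by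
        intro a ha
        obtain ⟨b, rfl⟩ := Ideal.mem_span_singleton'.mp ha
        show Polynomial.aeval M (b * (X ^ 2 - C c)) = 0
        rw [map_mul, h0, mul_zero])
  have hφ : ∀ g : F[X], φ (AdjoinRoot.mk (X ^ 2 - C c : F[X]) g) = Polynomial.aeval M g :=
    fun g => rfl
  letI : Module (AdjoinRoot (X ^ 2 - C c : F[X])) V := Module.compHom V φ
  have hsm : ∀ (l : AdjoinRoot (X ^ 2 - C c : F[X])) (v : V), l • v = φ l v := fun l v => rfl
  have : Module.Finite (AdjoinRoot (X ^ 2 - C c : F[X])) V := Module.Finite.of_finite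
  let b := Module.finBasis (AdjoinRoot (X ^ 2 - C c : F[X])) V
  refine ⟨Module.finrank (AdjoinRoot (X ^ 2 - C c : F[X])) V, b.equivFun.toAddEquiv,
    fun a v => ?_, fun v => ?_⟩
  · have h1 : a • v = (AdjoinRoot.of (X ^ 2 - C c : F[X]) a) • v := by
      rw [hsm, ← AdjoinRoot.mk_C, hφ, aeval_C, Module.algebraMap_end_apply]
    rw [h1]
    exact b.equivFun.map_smul _ _
  · have h1 : M v = (AdjoinRoot.root (X ^ 2 - C c : F[X])) • v := by
      rw [hsm, ← AdjoinRoot.mk_X, hφ, aeval_X]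
    rw [h1]
    exact b.equivFun.map_smul _ _

theorem adj_finite (c : F) : Finite (AdjoinRoot (X ^ 2 - C c : F[X])) := by
  have : Module.Finite F (AdjoinRoot (X ^ 2 - C c : F[X])) :=
    (monic_X_pow_sub_C c (by norm_num)).finite_adjoinRoot
  exact Module.finite_of_finite F

theorem conj_B (c : F) (hc : ¬ IsSquare c) (M M' : V →ₗ[F] V) (hM : ∀ v, M (M v) = c • v)
    (hM' : ∀ v, M' (M' v) = c • v) : ∃ T : V ≃ₗ[F] V, ∀ v, T (M v) = M' (T v) := by
  obtain ⟨d, e, he1, he2⟩ := model c hc M hM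
  obtain ⟨d', e', he1', he2'⟩ := model c hc M' hM'
  have : Fact (Irreducible (X ^ 2 - C c : F[X])) := ⟨irr_of_nonsq c hc⟩
  have := adj_finite c
  have hdd : d = d' := by
    have h1 : Nat.card V = Nat.card (AdjoinRoot (X ^ 2 - C c : F[X])) ^ d := by
      rw [Nat.card_congr e.toEquiv, Nat.card_fun, Nat.card_fin]
    have h2 : Nat.card V = Nat.card (AdjoinRoot (X ^ 2 - C c : F[X])) ^ d' := by
      rw [Nat.card_congr e'.toEquiv, Nat.card_fun, Nat.card_fin]
    exact Nat.pow_right_injective Finite.one_lt_card (h1.symm.trans h2)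
  subst hdd
  refine ⟨(e.trans e'.symm).toLinearEquiv ?_, ?_⟩
  · intro a v
    show e'.symm (e (a • v)) = a • e'.symm (e v)
    rw [he1, AddEquiv.symm_apply_eq, he1', AddEquiv.apply_symm_apply]
  · intro v
    show e'.symm (e (M v)) = M' (e'.symm (e v))
    rw [he2, AddEquiv.symm_apply_eq, he2', AddEquiv.apply_symm_apply]

theorem even_dim (c : F) (hc : ¬ IsSquare c) (M : V →ₗ[F] V) (hM : ∀ v, M (M v) = c • v) :
    Even (Module.finrank F V) := by
  obtain ⟨d, e, -, -⟩ := model c hc M hM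
  have : Fact (Irreducible (X ^ 2 - C c : F[X])) := ⟨irr_of_nonsq c hc⟩
  have := adj_finite c
  have hne : (X ^ 2 - C c : F[X]) ≠ 0 := (irr_of_nonsq c hc).ne_zero
  have : Module.Finite F (AdjoinRoot (X ^ 2 - C c : F[X])) :=
    (monic_X_pow_sub_C c (by norm_num)).finite_adjoinRoot
  have h1 : Nat.card V = Nat.card (AdjoinRoot (X ^ 2 - C c : F[X])) ^ d := by
    rw [Nat.card_congr e.toEquiv, Nat.card_fun, Nat.card_fin]
  have h2 : Module.finrank F (AdjoinRoot (X ^ 2 - C c : F[X])) = 2 := by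
    rw [(AdjoinRoot.powerBasis hne).finrank, AdjoinRoot.powerBasis_dim, natDegree_X_pow_sub_C]
  have h3 : Nat.card (AdjoinRoot (X ^ 2 - C c : F[X])) = Nat.card F ^ 2 := by
    rw [Module.natCard_eq_pow_finrank (K := F), h2]
  have : Module.Finite F V := Module.Finite.of_finite
  have h4 : Nat.card V = Nat.card F ^ Module.finrank F V :=
    Module.natCard_eq_pow_finrank (K := F)
  rw [h3, ← pow_mul, h4] at h1
  have h5 := Nat.pow_right_injective (Finite.one_lt_card (α := F)) h1
  exact ⟨d, by omega⟩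

end nonsq

section inv
variable {F : Type*} [Field F] [Fintype F] {V : Type*} [AddCommGroup V] [Module F V]

/-- the class invariant: largest eigenspace dimension -/
noncomputable def I (M : V →ₗ[F] V) : ℕ :=
  Finset.univ.sup (fun μ : F => Module.finrank F (E M μ))

theorem le_I (M : V →ₗ[F] V) (μ : F) : Module.finrank F (E M μ) ≤ I M :=
  Finset.le_sup (f := fun μ : F => Module.finrank F (E M μ)) (Finset.mem_univ μ)

theorem I_zero (M : V →ₗ[F] V) (h : ∀ ν, E M ν = ⊥) : I M = 0 := by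
  unfold I
  apply Nat.eq_zero_of_le_zero
  apply Finset.sup_le
  intro ν _
  rw [h ν, finrank_bot]

theorem I_sq (M : V →ₗ[F] V) (μ : F) (hM : ∀ v, M (M v) = (μ * μ) • v) :
    I M = max (Module.finrank F (E M μ)) (Module.finrank F (E M (-μ))) := by
  apply le_antisymm
  · apply Finset.sup_le
    intro ν _
    by_cases hν : ν * ν = μ * μ
    · rcases mul_self_eq_mul_self_iff.mp hν with h | h
      · rw [h]; exact le_max_left _ _
      · rw [h]; exact le_max_right _ _
    · rw [E_eq_bot M _ ν hM hν, finrank_bot]; exact Nat.zero_le _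
  · exact max_le (le_I M μ) (le_I M (-μ))

theorem I_conj (M M' : V →ₗ[F] V) (T : V ≃ₗ[F] V) (lam : F) (hlam : lam ≠ 0)
    (h : ∀ v, T (M v) = lam • M' (T v)) : I M = I M' := by
  have key : ∀ μ, Module.finrank F (E M μ) = Module.finrank F (E M' (lam⁻¹ * μ)) := by
    intro μ
    apply LinearEquiv.finrank_eq
    refine LinearEquiv.ofSubmodules T _ _ ?_
    ext w
    simp only [Submodule.mem_map, mem_E, LinearEquiv.coe_coe]
    constructor
    · rintro ⟨v, hv, rfl⟩
      have h1 := h v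
      rw [hv, map_smul] at h1
      rw [← smul_smul, h1, smul_smul, inv_mul_cancel₀ hlam, one_smul]
    · intro hw
      refine ⟨T.symm w, ?_, T.apply_symm_apply w⟩
      apply T.injective
      rw [h, T.apply_symm_apply, hw, map_smul, T.apply_symm_apply, smul_smul,
        mul_inv_cancel_left₀ hlam]
  apply le_antisymm
  · apply Finset.sup_le
    intro μ _
    rw [key μ]
    exact le_I M' _
  · apply Finset.sup_le
    intro μ _
    have h1 := key (lam * μ)
    rw [inv_mul_cancel_left₀ hlam] at h1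
    rw [← h1]
    exact le_I M _

end inv

section gl
variable {F : Type*} [Field F] [Fintype F] {n : ℕ}

/-- the linear map of an invertible matrix -/
noncomputable def lin (g : GL (Fin n) F) : (Fin n → F) →ₗ[F] (Fin n → F) :=
  Matrix.toLin' (g : Matrix (Fin n) (Fin n) F)

theorem lin_apply (g : GL (Fin n) F) (v : Fin n → F) :
    lin g v = (g : Matrix (Fin n) (Fin n) F) *ᵥ v := rfl

theorem mem_center_iff (g : GL (Fin n) F) : g ∈ Subgroup.center (GL (Fin n) F) ↔
    ∃ r : F, (g : Matrix (Fin n) (Fin n) F) = r • (1 : Matrix (Fin n) (Fin n) F) := by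
  rw [Matrix.GeneralLinearGroup.mem_center_iff_val_mem_range_scalar]
  constructor
  · rintro ⟨r, hr⟩
    exact ⟨r, by rw [← hr, Matrix.smul_one_eq_diagonal]; rfl⟩
  · rintro ⟨r, hr⟩
    exact ⟨r, by rw [hr, Matrix.smul_one_eq_diagonal]; rfl⟩

theorem ord_two_iff (g : GL (Fin n) F) :
    orderOf (QuotientGroup.mk g : GL (Fin n) F ⧸ Subgroup.center (GL (Fin n) F)) = 2 ↔
      g * g ∈ Subgroup.center (GL (Fin n) F) ∧ g ∉ Subgroup.center (GL (Fin n) F) := by
  have : Fact (Nat.Prime 2) := ⟨Nat.prime_two⟩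
  rw [orderOf_eq_prime_iff, pow_two, ← QuotientGroup.mk_mul, QuotientGroup.eq_one_iff, Ne,
    QuotientGroup.eq_one_iff]

theorem smul_one_det_ne (hn : 1 ≤ n) (g : GL (Fin n) F) (r : F)
    (h : (g : Matrix (Fin n) (Fin n) F) = r • (1 : Matrix (Fin n) (Fin n) F)) : r ≠ 0 := by
  rintro rfl
  have h1 : ((g : Matrix (Fin n) (Fin n) F)).det ≠ 0 :=
    (Matrix.isUnit_iff_isUnit_det _).mp g.isUnit |>.ne_zero
  have : Nonempty (Fin n) := ⟨⟨0, by omega⟩⟩
  rw [h, zero_smul, Matrix.det_zero] at h1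
  exact h1 rfl

theorem data (hn : 1 ≤ n) (g : GL (Fin n) F)
    (h : orderOf (QuotientGroup.mk g : GL (Fin n) F ⧸ Subgroup.center (GL (Fin n) F)) = 2) :
    ∃ c : F, c ≠ 0 ∧ (∀ v, lin g (lin g v) = c • v) ∧ ∀ μ : F, E (lin g) μ ≠ ⊤ := by
  obtain ⟨h1, h2⟩ := (ord_two_iff g).mp h
  obtain ⟨c, hc⟩ := (mem_center_iff _).mp h1
  have hMM : (g : Matrix (Fin n) (Fin n) F) * (g : Matrix (Fin n) (Fin n) F) = c • 1 := by
    rw [← hc]; rfl
  refine ⟨c, smul_one_det_ne hn _ c hc, ?_, ?_⟩
  · intro v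
    rw [lin_apply, lin_apply, Matrix.mulVec_mulVec, hMM, Matrix.smul_mulVec, Matrix.one_mulVec]
  · intro μ htop
    apply h2
    rw [mem_center_iff]
    refine ⟨μ, ?_⟩
    apply Matrix.toLin'.injective
    apply LinearMap.ext
    intro v
    have hv : v ∈ E (lin g) μ := htop ▸ Submodule.mem_top
    rw [mem_E] at hv
    rw [map_smul, Matrix.toLin'_one]
    exact hv

theorem pgl_conj (g g' : GL (Fin n) F) (T : (Fin n → F) ≃ₗ[F] (Fin n → F)) (lam : F)
    (hlam : lam ≠ 0) (h : ∀ v, T (lin g v) = lam • lin g' (T v)) :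
    IsConj (QuotientGroup.mk g : GL (Fin n) F ⧸ Subgroup.center (GL (Fin n) F))
      (QuotientGroup.mk g') := by
  have e1 : LinearMap.toMatrix' (T : (Fin n → F) →ₗ[F] (Fin n → F)) *
      LinearMap.toMatrix' (T.symm : (Fin n → F) →ₗ[F] (Fin n → F)) = 1 := by
    rw [← LinearMap.toMatrix'_comp, ← LinearMap.toMatrix'_id]
    congr 1
    ext x : 1
    simp
  have e2 : LinearMap.toMatrix' (T.symm : (Fin n → F) →ₗ[F] (Fin n → F)) *
      LinearMap.toMatrix' (T : (Fin n → F) →ₗ[F] (Fin n → F)) = 1 := by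
    rw [← LinearMap.toMatrix'_comp, ← LinearMap.toMatrix'_id]
    congr 1
    ext x : 1
    simp
  let X : GL (Fin n) F := ⟨_, _, e1, e2⟩
  have hX : ∀ v, (X : Matrix (Fin n) (Fin n) F) *ᵥ v = T v := by
    intro v
    show LinearMap.toMatrix' (T : (Fin n → F) →ₗ[F] (Fin n → F)) *ᵥ v = T v
    rw [LinearMap.toMatrix'_mulVec]
    rfl
  let z : GL (Fin n) F := ⟨lam • 1, lam⁻¹ • 1,
    by rw [smul_mul_smul_comm, mul_one, mul_inv_cancel₀ hlam, one_smul],
    by rw [smul_mul_smul_comm, mul_one, inv_mul_cancel₀ hlam, one_smul]⟩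
  have hXg : X * g = z * g' * X := by
    apply Units.ext
    show (X : Matrix (Fin n) (Fin n) F) * (g : Matrix (Fin n) (Fin n) F) =
      (lam • (1 : Matrix (Fin n) (Fin n) F)) * (g' : Matrix (Fin n) (Fin n) F) *
        (X : Matrix (Fin n) (Fin n) F)
    apply Matrix.toLin'.injective
    apply LinearMap.ext
    intro v
    rw [Matrix.toLin'_apply, Matrix.toLin'_apply, ← Matrix.mulVec_mulVec, hX,
      ← Matrix.mulVec_mulVec, hX, Matrix.smul_mul, Matrix.one_mul, Matrix.smul_mulVec]
    exact h v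
  have hz : (QuotientGroup.mk z : GL (Fin n) F ⧸ Subgroup.center (GL (Fin n) F)) = 1 :=
    (QuotientGroup.eq_one_iff z).mpr ((mem_center_iff z).mpr ⟨lam, rfl⟩)
  rw [isConj_iff]
  refine ⟨QuotientGroup.mk X, ?_⟩
  have e : X * g * X⁻¹ = z * g' := by rw [hXg]; group
  rw [← QuotientGroup.mk_inv, ← QuotientGroup.mk_mul, ← QuotientGroup.mk_mul, e,
    QuotientGroup.mk_mul, hz, one_mul]

theorem I_of_conj (hn : 1 ≤ n) (g g' : GL (Fin n) F)
    (h : IsConj (QuotientGroup.mk g : GL (Fin n) F ⧸ Subgroup.center (GL (Fin n) F))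
      (QuotientGroup.mk g')) : I (lin g) = I (lin g') := by
  rw [isConj_iff] at h
  obtain ⟨x, hx⟩ := h
  obtain ⟨X, rfl⟩ := QuotientGroup.mk_surjective x
  rw [← QuotientGroup.mk_inv, ← QuotientGroup.mk_mul, ← QuotientGroup.mk_mul, QuotientGroup.eq] at hx
  obtain ⟨r, hr⟩ := (mem_center_iff _).mp hx
  have hr0 : r ≠ 0 := smul_one_det_ne hn _ r hr
  have hc := Subgroup.mem_center_iff.mp hx X
  have e : g' * X = X * g * ((X * g * X⁻¹)⁻¹ * g') := by
    calc g' * X = X * g * X⁻¹ * (((X * g * X⁻¹)⁻¹ * g') * X) := by group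
      _ = X * g * X⁻¹ * (X * ((X * g * X⁻¹)⁻¹ * g')) := by rw [hc]
      _ = X * g * ((X * g * X⁻¹)⁻¹ * g') := by group
  have em : (g' : Matrix (Fin n) (Fin n) F) * (X : Matrix (Fin n) (Fin n) F) =
      (X : Matrix (Fin n) (Fin n) F) * (g : Matrix (Fin n) (Fin n) F) *
        (r • (1 : Matrix (Fin n) (Fin n) F)) := by
    rw [← hr]
    exact congrArg Units.val e
  have h1 : (X : Matrix (Fin n) (Fin n) F) * ((X⁻¹ : GL (Fin n) F) : Matrix (Fin n) (Fin n) F) = 1 :=
    congrArg Units.val (mul_inv_cancel X)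
  have h2 : ((X⁻¹ : GL (Fin n) F) : Matrix (Fin n) (Fin n) F) * (X : Matrix (Fin n) (Fin n) F) = 1 :=
    congrArg Units.val (inv_mul_cancel X)
  let T : (Fin n → F) ≃ₗ[F] (Fin n → F) := Matrix.toLin'OfInv h2 h1
  have hT : ∀ v, T v = (X : Matrix (Fin n) (Fin n) F) *ᵥ v := fun v => rfl
  apply I_conj (lin g) (lin g') T r⁻¹ (inv_ne_zero hr0)
  intro v
  rw [hT, hT, lin_apply, lin_apply, Matrix.mulVec_mulVec, Matrix.mulVec_mulVec, em,
    Matrix.mul_smul, Matrix.mul_one, Matrix.smul_mulVec, smul_smul, inv_mul_cancel₀ hr0, one_smul]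

theorem range_I (h2 : (2 : F) ≠ 0) (hn : 1 ≤ n) (g : GL (Fin n) F)
    (h : orderOf (QuotientGroup.mk g : GL (Fin n) F ⧸ Subgroup.center (GL (Fin n) F)) = 2) :
    (I (lin g) = 0 ∧ Even n) ∨ (n ≤ 2 * I (lin g) ∧ I (lin g) + 1 ≤ n) := by
  obtain ⟨c, hc0, hM, hns⟩ := data hn g h
  by_cases hsq : IsSquare c
  · right
    obtain ⟨μ, rfl⟩ := hsq
    have hμ : μ ≠ 0 := by rintro rfl; simp at hc0
    have hI := I_sq (lin g) μ hM
    have hc := Submodule.finrank_add_eq_of_isCompl (isCompl_E h2 (lin g) μ hμ hM)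
    rw [Module.finrank_fin_fun] at hc
    have ha := Submodule.finrank_lt (hns μ)
    have hb := Submodule.finrank_lt (hns (-μ))
    rw [Module.finrank_fin_fun] at ha hb
    rw [hI]
    rcases le_total (Module.finrank F (E (lin g) μ)) (Module.finrank F (E (lin g) (-μ))) with hle | hle
    · rw [max_eq_right hle]; omega
    · rw [max_eq_left hle]; omega
  · left
    refine ⟨I_zero _ (fun ν => E_eq_bot _ c ν hM (fun hν => hsq ⟨ν, hν.symm⟩)), ?_⟩
    have h3 := even_dim c hsq (lin g) hM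
    rwa [Module.finrank_fin_fun] at h3

theorem nsq_mul_nsq (a b : F) (ha : ¬ IsSquare a) (hb : ¬ IsSquare b) : IsSquare (a * b) := by
  classical
  have ha0 : a ≠ 0 := by rintro rfl; exact ha ⟨0, by simp⟩
  have hb0 : b ≠ 0 := by rintro rfl; exact hb ⟨0, by simp⟩
  rw [← quadraticChar_one_iff_isSquare (mul_ne_zero ha0 hb0), map_mul,
    quadraticChar_neg_one_iff_not_isSquare.2 ha, quadraticChar_neg_one_iff_not_isSquare.2 hb]
  norm_num

theorem conj_of_I (h2 : (2 : F) ≠ 0) (hn : 1 ≤ n) (g g' : GL (Fin n) F)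
    (h : orderOf (QuotientGroup.mk g : GL (Fin n) F ⧸ Subgroup.center (GL (Fin n) F)) = 2)
    (h' : orderOf (QuotientGroup.mk g' : GL (Fin n) F ⧸ Subgroup.center (GL (Fin n) F)) = 2)
    (hI : I (lin g) = I (lin g')) :
    IsConj (QuotientGroup.mk g : GL (Fin n) F ⧸ Subgroup.center (GL (Fin n) F))
      (QuotientGroup.mk g') := by
  obtain ⟨c, hc0, hM, hns⟩ := data hn g h
  obtain ⟨c', hc0', hM', hns'⟩ := data hn g' h'
  have sqcase : ∀ (g₁ : GL (Fin n) F) (μ : F), μ ≠ 0 → (∀ v, lin g₁ (lin g₁ v) = (μ * μ) • v) →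
      0 < I (lin g₁) := by
    intro g₁ μ hμ hM₁
    have hc := Submodule.finrank_add_eq_of_isCompl (isCompl_E h2 (lin g₁) μ hμ hM₁)
    rw [Module.finrank_fin_fun] at hc
    have h3 := le_I (lin g₁) μ
    have h4 := le_I (lin g₁) (-μ)
    omega
  have nsqcase : ∀ (g₁ : GL (Fin n) F) (c₁ : F), ¬ IsSquare c₁ → (∀ v, lin g₁ (lin g₁ v) = c₁ • v) →
      I (lin g₁) = 0 := by
    intro g₁ c₁ hsq hM₁
    exact I_zero _ (fun ν => E_eq_bot _ c₁ ν hM₁ (fun hν => hsq ⟨ν, hν.symm⟩))
  by_cases hsq : IsSquare c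
  · obtain ⟨μ, rfl⟩ := hsq
    have hμ : μ ≠ 0 := by rintro rfl; simp at hc0
    have hpos := sqcase g μ hμ hM
    by_cases hsq' : IsSquare c'
    · obtain ⟨μ', rfl⟩ := hsq'
      have hμ' : μ' ≠ 0 := by rintro rfl; simp at hc0'
      have hc := Submodule.finrank_add_eq_of_isCompl (isCompl_E h2 (lin g) μ hμ hM)
      have hc' := Submodule.finrank_add_eq_of_isCompl (isCompl_E h2 (lin g') μ' hμ' hM')
      rw [Module.finrank_fin_fun] at hc hc'
      have e1 := I_sq (lin g) μ hM
      have e2 := I_sq (lin g') μ' hM'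
      have hMn : ∀ v, lin g (lin g v) = (-μ * -μ) • v := by
        intro v; rw [hM v]; congr 1; ring
      have hMn' : ∀ v, lin g' (lin g' v) = (-μ' * -μ') • v := by
        intro v; rw [hM' v]; congr 1; ring
      have cases4 : Module.finrank F (E (lin g) μ) = Module.finrank F (E (lin g') μ') ∨
          Module.finrank F (E (lin g) μ) = Module.finrank F (E (lin g') (-μ')) ∨
          Module.finrank F (E (lin g) (-μ)) = Module.finrank F (E (lin g') μ') ∨
          Module.finrank F (E (lin g) (-μ)) = Module.finrank F (E (lin g') (-μ')) := by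
        rw [e1, e2] at hI
        rcases le_total (Module.finrank F (E (lin g) μ)) (Module.finrank F (E (lin g) (-μ))) with hle | hle <;>
        rcases le_total (Module.finrank F (E (lin g') μ')) (Module.finrank F (E (lin g') (-μ'))) with hle' | hle'
        · rw [max_eq_right hle, max_eq_right hle'] at hI; omega
        · rw [max_eq_right hle, max_eq_left hle'] at hI; omega
        · rw [max_eq_left hle, max_eq_right hle'] at hI; omega
        · rw [max_eq_left hle, max_eq_left hle'] at hI; omega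
      rcases cases4 with hd | hd | hd | hd
      · obtain ⟨T, hT⟩ := conj_A h2 (lin g) (lin g') μ μ' hμ hμ' hM hM' hd
        exact pgl_conj g g' T _ (mul_ne_zero hμ (inv_ne_zero hμ')) hT
      · obtain ⟨T, hT⟩ := conj_A h2 (lin g) (lin g') μ (-μ') hμ (neg_ne_zero.mpr hμ') hM hMn' hd
        exact pgl_conj g g' T _ (mul_ne_zero hμ (inv_ne_zero (neg_ne_zero.mpr hμ'))) hT
      · rw [← neg_neg μ'] at hd
        obtain ⟨T, hT⟩ := conj_A h2 (lin g) (lin g') (-μ) μ' (neg_ne_zero.mpr hμ) hμ' hMn hM'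
          (by rw [neg_neg] at hd; exact hd)
        exact pgl_conj g g' T _ (mul_ne_zero (neg_ne_zero.mpr hμ) (inv_ne_zero hμ')) hT
      · obtain ⟨T, hT⟩ := conj_A h2 (lin g) (lin g') (-μ) (-μ') (neg_ne_zero.mpr hμ)
          (neg_ne_zero.mpr hμ') hMn hMn' hd
        exact pgl_conj g g' T _
          (mul_ne_zero (neg_ne_zero.mpr hμ) (inv_ne_zero (neg_ne_zero.mpr hμ'))) hT
    · have := nsqcase g' c' hsq' hM'
      omega
  · by_cases hsq' : IsSquare c'
    · obtain ⟨μ', rfl⟩ := hsq'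
      have hμ' : μ' ≠ 0 := by rintro rfl; simp at hc0'
      have hpos := sqcase g' μ' hμ' hM'
      have := nsqcase g c hsq hM
      omega
    · obtain ⟨s, hs⟩ := nsq_mul_nsq c c' hsq hsq'
      have hs0 : s ≠ 0 := by
        rintro rfl
        rw [mul_zero] at hs
        rcases mul_eq_zero.mp hs with h0 | h0
        · exact hc0 h0
        · exact hc0' h0
      have hlam : s * c⁻¹ ≠ 0 := mul_ne_zero hs0 (inv_ne_zero hc0)
      have hc' : c' = (s * c⁻¹) * (s * c⁻¹) * c := by
        field_simp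
        linear_combination hs
      obtain ⟨T, hT⟩ := conj_B c' hsq' ((s * c⁻¹) • lin g) (lin g') (by
        intro v
        rw [LinearMap.smul_apply, LinearMap.smul_apply, map_smul, hM, smul_smul, smul_smul]
        congr 1
        rw [hc']
        try ring) hM'
      refine pgl_conj g g' T (s * c⁻¹)⁻¹ (inv_ne_zero hlam) (fun v => ?_)
      have h3 := hT v
      rw [LinearMap.smul_apply, map_smul] at h3
      rw [← h3, smul_smul, inv_mul_cancel₀ hlam, one_smul]

end gl

section exist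
variable {F : Type*} [Field F] [Fintype F] {n : ℕ}

theorem exists_diag (h2 : (2 : F) ≠ 0) (hn : 2 ≤ n) (t : ℕ) (ht1 : n ≤ 2 * t) (ht2 : t + 1 ≤ n) :
    ∃ g : GL (Fin n) F,
      orderOf (QuotientGroup.mk g : GL (Fin n) F ⧸ Subgroup.center (GL (Fin n) F)) = 2 ∧
        I (lin g) = t := by
  classical
  let d : Fin n → F := fun i => if (i : ℕ) < t then 1 else -1
  have hdd : ∀ i, d i * d i = 1 := by
    intro i
    simp only [d]
    split_ifs <;> simp
  have hMM : Matrix.diagonal d * Matrix.diagonal d = (1 : Matrix (Fin n) (Fin n) F) := by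
    rw [Matrix.diagonal_mul_diagonal, ← Matrix.diagonal_one]
    congr 1
    funext i
    exact hdd i
  let g : GL (Fin n) F := ⟨Matrix.diagonal d, Matrix.diagonal d, hMM, hMM⟩
  have hgv : (g : Matrix (Fin n) (Fin n) F) = Matrix.diagonal d := rfl
  have hord : orderOf (QuotientGroup.mk g : GL (Fin n) F ⧸ Subgroup.center (GL (Fin n) F)) = 2 := by
    rw [ord_two_iff]
    constructor
    · have h1 : g * g = 1 := Units.ext hMM
      rw [h1]
      exact Subgroup.one_mem _
    · rw [mem_center_iff]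
      rintro ⟨r, hr⟩
      rw [hgv] at hr
      have h0 := congrFun (congrFun hr ⟨0, by omega⟩) ⟨0, by omega⟩
      have h1 := congrFun (congrFun hr ⟨n - 1, by omega⟩) ⟨n - 1, by omega⟩
      rw [Matrix.diagonal_apply_eq, Matrix.smul_apply, Matrix.one_apply_eq, smul_eq_mul, mul_one]
        at h0 h1
      have e0 : d ⟨0, by omega⟩ = 1 := by
        simp only [d]
        rw [if_pos (by omega)]
      have e1 : d ⟨n - 1, by omega⟩ = -1 := by
        simp only [d]
        rw [if_neg (by omega)]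
      rw [e0] at h0
      rw [e1, ← h0] at h1
      apply h2
      linear_combination -h1
  refine ⟨g, hord, ?_⟩
  have hM : ∀ v, lin g (lin g v) = ((1 : F) * 1) • v := by
    intro v
    rw [lin_apply, lin_apply, Matrix.mulVec_mulVec, hgv, hMM, Matrix.one_mulVec, mul_one, one_smul]
  rw [I_sq (lin g) 1 hM]
  have hc := Submodule.finrank_add_eq_of_isCompl (isCompl_E h2 (lin g) 1 one_ne_zero hM)
  rw [Module.finrank_fin_fun] at hc
  have ha : Module.finrank F (E (lin g) 1) = t := by
    have hker : E (lin g) 1 = LinearMap.ker (Matrix.mulVecLin (Matrix.diagonal d - 1)) := by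
      ext v
      rw [mem_E, LinearMap.mem_ker, Matrix.mulVecLin_apply, Matrix.sub_mulVec, Matrix.one_mulVec,
        sub_eq_zero, one_smul]
      rfl
    have hrank : (Matrix.diagonal d - 1 : Matrix (Fin n) (Fin n) F).rank = n - t := by
      have e : (Matrix.diagonal d - 1 : Matrix (Fin n) (Fin n) F) =
          Matrix.diagonal (fun i => d i - 1) := by
        rw [← Matrix.diagonal_one, Matrix.diagonal_sub]
      rw [e, Matrix.rank_diagonal, Fintype.card_subtype]
      have e2 : (Finset.univ.filter fun i : Fin n => d i - 1 ≠ 0) =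
          Finset.univ.filter (fun i : Fin n => ¬ (i : ℕ) < t) := by
        apply Finset.filter_congr
        intro i _
        simp only [d]
        split_ifs with hi
        · simp [hi]
        · simp only [hi, not_false_eq_true, iff_true]
          intro h3
          apply h2
          linear_combination -h3
      rw [e2, Finset.filter_not, Finset.card_sdiff_of_subset (Finset.filter_subset _ _),
        Fin.card_filter_val_lt, Finset.card_univ, Fintype.card_fin]
      congr 1
      omega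
    have hrn := LinearMap.finrank_range_add_finrank_ker
      (Matrix.mulVecLin (Matrix.diagonal d - 1 : Matrix (Fin n) (Fin n) F))
    rw [Module.finrank_fin_fun] at hrn
    have hr' : Module.finrank F (LinearMap.range
      (Matrix.mulVecLin (Matrix.diagonal d - 1 : Matrix (Fin n) (Fin n) F))) = n - t := hrank
    rw [hker]
    omega
  rw [ha, max_eq_left (by omega)]

theorem exists_nonsq (h2 : (2 : F) ≠ 0) (k : ℕ) (hk : 1 ≤ k) :
    ∃ g : GL (Fin (k + k)) F,
      orderOf (QuotientGroup.mk g : GL (Fin (k + k)) F ⧸ Subgroup.center (GL (Fin (k + k)) F)) = 2 ∧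
        I (lin g) = 0 := by
  classical
  have hchar : ringChar F ≠ 2 := by
    intro h
    have := (CharP.cast_eq_zero_iff F (ringChar F) 2).mpr (by rw [h])
    exact h2 (by exact_mod_cast this)
  obtain ⟨c, hc⟩ := FiniteField.exists_nonsquare (F := F) hchar
  have hc0 : c ≠ 0 := by rintro rfl; exact hc ⟨0, by simp⟩
  let e : Fin k ⊕ Fin k ≃ Fin (k + k) := finSumFinEquiv
  let B : Matrix (Fin k ⊕ Fin k) (Fin k ⊕ Fin k) F :=
    Matrix.fromBlocks 0 (c • (1 : Matrix (Fin k) (Fin k) F)) 1 0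
  have hBB : B * B = c • (1 : Matrix (Fin k ⊕ Fin k) (Fin k ⊕ Fin k) F) := by
    simp only [B, Matrix.fromBlocks_multiply]
    rw [← Matrix.fromBlocks_one, Matrix.fromBlocks_smul]
    simp
  let M : Matrix (Fin (k + k)) (Fin (k + k)) F := Matrix.reindex e e B
  have hMM : M * M = c • (1 : Matrix (Fin (k + k)) (Fin (k + k)) F) := by
    simp only [M, Matrix.reindex_apply]
    rw [Matrix.submatrix_mul_equiv, hBB]
    ext i j
    simp [Matrix.submatrix_apply, Matrix.smul_apply, Matrix.one_apply, e.symm.injective.eq_iff]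
  let g : GL (Fin (k + k)) F := ⟨M, c⁻¹ • M,
    by rw [Matrix.mul_smul, hMM, smul_smul, inv_mul_cancel₀ hc0, one_smul],
    by rw [Matrix.smul_mul, hMM, smul_smul, inv_mul_cancel₀ hc0, one_smul]⟩
  have hgv : (g : Matrix (Fin (k + k)) (Fin (k + k)) F) = M := rfl
  have hord : orderOf (QuotientGroup.mk g :
      GL (Fin (k + k)) F ⧸ Subgroup.center (GL (Fin (k + k)) F)) = 2 := by
    rw [ord_two_iff]
    constructor
    · rw [mem_center_iff]
      exact ⟨c, hMM⟩
    · rw [mem_center_iff]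
      rintro ⟨r, hr⟩
      rw [hgv] at hr
      have h0 := congrFun (congrFun hr (e (Sum.inl ⟨0, hk⟩))) (e (Sum.inr ⟨0, hk⟩))
      have hne : e (Sum.inl ⟨0, hk⟩) ≠ e (Sum.inr ⟨0, hk⟩) := by
        intro h3
        exact Sum.inl_ne_inr (e.injective h3)
      rw [Matrix.smul_apply, Matrix.one_apply_ne hne, smul_zero] at h0
      simp only [M, Matrix.reindex_apply, Matrix.submatrix_apply, Equiv.symm_apply_apply, B,
        Matrix.fromBlocks_apply₁₂, Matrix.smul_apply, Matrix.one_apply_eq, smul_eq_mul, mul_one] at h0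
      exact hc0 h0
  refine ⟨g, hord, ?_⟩
  have hM : ∀ v, lin g (lin g v) = c • v := by
    intro v
    rw [lin_apply, lin_apply, Matrix.mulVec_mulVec, hgv, hMM, Matrix.smul_mulVec, Matrix.one_mulVec]
  exact I_zero _ (fun ν => E_eq_bot _ c ν hM (fun hν => hc ⟨ν, hν.symm⟩))

end exist

theorem main {F : Type*} [Field F] [Fintype F] (h2 : (2 : F) ≠ 0) {n : ℕ} (hn : 2 ≤ n) :
    Nat.card {C : ConjClasses (GL (Fin n) F ⧸ Subgroup.center (GL (Fin n) F)) //
      ∃ g : GL (Fin n) F ⧸ Subgroup.center (GL (Fin n) F), ConjClasses.mk g = C ∧ orderOf g = 2} =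
      n / 2 + (if Even n then 1 else 0) := by
  classical
  have hn1 : 1 ≤ n := by omega
  -- the target set of invariants
  have hT : Nat.card {t : ℕ // (t = 0 ∧ Even n) ∨ (n ≤ 2 * t ∧ t + 1 ≤ n)} =
      n / 2 + (if Even n then 1 else 0) := by
    rw [Nat.subtype_card ((if Even n then {0} else ∅) ∪ Finset.Icc ((n + 1) / 2) (n - 1))]
    · rw [Finset.card_union_of_disjoint]
      · rw [Nat.card_Icc]
        split_ifs with he
        · rw [Finset.card_singleton]; omega
        · rw [Finset.card_empty]; omega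
      · rw [Finset.disjoint_left]
        intro x hx hx2
        rw [Finset.mem_Icc] at hx2
        split_ifs at hx with he
        · rw [Finset.mem_singleton] at hx; omega
        · simp at hx
    · intro t
      rw [Finset.mem_union, Finset.mem_Icc]
      constructor
      · rintro (h | h)
        · split_ifs at h with he
          · rw [Finset.mem_singleton] at h
            exact Or.inl ⟨h, he⟩
          · simp at h
        · right; omega
      · rintro (⟨h, he⟩ | h)
        · left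
          rw [if_pos he, Finset.mem_singleton]
          exact h
        · right; omega
  rw [← hT]
  -- representatives
  have hrep : ∀ C : {C : ConjClasses (GL (Fin n) F ⧸ Subgroup.center (GL (Fin n) F)) //
      ∃ g : GL (Fin n) F ⧸ Subgroup.center (GL (Fin n) F), ConjClasses.mk g = C ∧ orderOf g = 2},
      ∃ g : GL (Fin n) F, ConjClasses.mk (QuotientGroup.mk g :
        GL (Fin n) F ⧸ Subgroup.center (GL (Fin n) F)) = C.1 ∧
        orderOf (QuotientGroup.mk g : GL (Fin n) F ⧸ Subgroup.center (GL (Fin n) F)) = 2 := by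
    intro C
    obtain ⟨p, hp1, hp2⟩ := C.2
    obtain ⟨g, rfl⟩ := QuotientGroup.mk_surjective p
    exact ⟨g, hp1, hp2⟩
  choose rep hrep1 hrep2 using hrep
  apply Nat.card_congr
  refine Equiv.ofBijective (fun C => ⟨I (lin (rep C)), range_I h2 hn1 (rep C) (hrep2 C)⟩) ⟨?_, ?_⟩
  · intro C C' hCC
    have hI : I (lin (rep C)) = I (lin (rep C')) := congrArg Subtype.val hCC
    have hconj := conj_of_I h2 hn1 (rep C) (rep C') (hrep2 C) (hrep2 C') hI
    apply Subtype.ext
    rw [← hrep1 C, ← hrep1 C']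
    exact ConjClasses.mk_eq_mk_iff_isConj.mpr hconj
  · rintro ⟨t, ht⟩
    have hex : ∃ g : GL (Fin n) F,
        orderOf (QuotientGroup.mk g : GL (Fin n) F ⧸ Subgroup.center (GL (Fin n) F)) = 2 ∧
          I (lin g) = t := by
      rcases ht with ⟨h0, he⟩ | ⟨h1, h3⟩
      · obtain ⟨k, hk⟩ := he
        subst hk
        subst h0
        exact exists_nonsq h2 k (by omega)
      · exact exists_diag h2 hn t h1 h3
    obtain ⟨g, hg1, hg2⟩ := hex
    refine ⟨⟨ConjClasses.mk (QuotientGroup.mk g), ⟨QuotientGroup.mk g, rfl, hg1⟩⟩, ?_⟩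
    apply Subtype.ext
    show I (lin (rep ⟨ConjClasses.mk (QuotientGroup.mk g), ⟨QuotientGroup.mk g, rfl, hg1⟩⟩)) = t
    rw [← hg2]
    apply I_of_conj hn1
    exact ConjClasses.mk_eq_mk_iff_isConj.mp
      (hrep1 ⟨ConjClasses.mk (QuotientGroup.mk g), ⟨QuotientGroup.mk g, rfl, hg1⟩⟩)


end helpers


/-- Number of conjugacy classes of involutions in PGL_n(q) for q odd and n ≥ 2: there are ⌊n/2⌋ classes represented by diagonal matrices with i entries −1 (1 ≤ i ≤ n/2) and, when n is even, one more class represented by a block-diagonal matrix of 2 × 2 blocks [[0, 1], [μ, 0]] with μ a non-square (a matrix squaring to a scalar but having no eigenvalue in the field); in all ⌊n/2⌋ + 1 classes if n is even and ⌊n/2⌋ if n is odd. -/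
theorem result {F : Type*} [Field F] [Fintype F] {q : ℕ} (hF : Fintype.card F = q) (hq : Odd q) {n : ℕ} (hn : 2 ≤ n) : Nat.card {C : ConjClasses (GL (Fin n) F ⧸ Subgroup.center (GL (Fin n) F)) // ∃ g : GL (Fin n) F ⧸ Subgroup.center (GL (Fin n) F), ConjClasses.mk g = C ∧ orderOf g = 2} = n / 2 + (if Even n then 1 else 0) := by
  have h2 : (2 : F) ≠ 0 := by
    have hchar : ringChar F ≠ 2 := by
      intro h
      have h3 := FiniteField.even_card_iff_char_two.mp h
      rw [hF] at h3
      have h4 := Nat.odd_iff.mp hq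
      omega
    exact Ring.two_ne_zero hchar
  exact main h2 hn

end Cfsg.Agent.S2577
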