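import Cfsg.Statements.S2578
import Mathlib
import Cfsg.Agent.Lib.Helper14.Nilp5

set_option autoImplicit false
open Cfsg

namespace Cfsg.Agent.S2578


open Cfsg.Agent.Lib.Helper14.Nilp in
/-- A nilpotent matrix with one-dimensional kernel has the kernel dimensions of a single Jordan
block. -/
theorem mkd_regular {F : Type*} [Field F] {n : ℕ} (N : Matrix (Fin n) (Fin n) F)
    (hN : IsNilpotent N) (h1 : mkd N 1 = 1) (j : ℕ) : mkd N j = min n j := by
  obtain ⟨l, hl, hsum, hkd⟩ := exists_partition_mat N hN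
  have hcard : (l.map (fun a => min a 1)).sum = Multiset.card l := by
    have : l.map (fun a => min a 1) = l.map (fun _ => 1) := by
      apply Multiset.map_congr rfl
      intro a ha
      have := hl a ha
      omega
    rw [this, Multiset.map_const', Multiset.sum_replicate, smul_eq_mul, mul_one]
  rw [← hkd 1, h1] at hcard
  obtain ⟨a, rfl⟩ := Multiset.card_eq_one.mp hcard.symm
  rw [Multiset.sum_singleton] at hsum
  rw [hkd j, Multiset.map_singleton, Multiset.sum_singleton, hsum]

/-- Regular unipotent classes of SL_n(q): for n ≥ 2 over the field with q elements, the matrices u of determinant one with (u − 1)^n = 0 and rank(u − 1) = n − 1 form a single GL_n(q)-class which splits into exactly gcd(n, q − 1) conjugacy classes of SL_n(q). -/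
theorem result {F : Type*} [Field F] [Fintype F] {q : ℕ} (hF : Fintype.card F = q) {n : ℕ} (hn : 2 ≤ n) : Nat.card {C : ConjClasses (Matrix.SpecialLinearGroup (Fin n) F) // ∃ u : Matrix.SpecialLinearGroup (Fin n) F, ConjClasses.mk u = C ∧ ((u : Matrix (Fin n) (Fin n) F) - 1) ^ n = 0 ∧ ((u : Matrix (Fin n) (Fin n) F) - 1).rank = n - 1} = Nat.gcd n (q - 1) := by
  classical
  subst hF
  obtain ⟨M₀, hM₀, hkd₀⟩ := Cfsg.Agent.Lib.Helper14.Nilp.exists_matrix' (F := F) n {n}
    (by intro a ha; rw [Multiset.mem_singleton] at ha; omega) (Multiset.sum_singleton n)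
  have hkd₀' : ∀ j, Cfsg.Agent.Lib.Helper14.Nilp.mkd M₀ j = min n j := by
    intro j
    rw [hkd₀ j, Multiset.map_singleton, Multiset.sum_singleton]
  have hdet : ((1 : Matrix (Fin n) (Fin n) F) + M₀).det = 1 := by
    have h := Cfsg.Agent.Lib.Helper14.Nilp.det_smul_one_add M₀ hM₀ 1
    rw [one_smul, one_pow] at h
    exact h
  apply Cfsg.Agent.Lib.Helper14.Nilp.sl_class_count n (by omega)
    (fun u : Matrix.SpecialLinearGroup (Fin n) F =>
      ((u : Matrix (Fin n) (Fin n) F) - 1) ^ n = 0 ∧ ((u : Matrix (Fin n) (Fin n) F) - 1).rank = n - 1)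
    ((1 : Matrix (Fin n) (Fin n) F) + M₀) ?_ hdet ?_
  · intro u
    constructor
    · rintro ⟨h1, h2⟩
      have hnil : IsNilpotent ((u : Matrix (Fin n) (Fin n) F) - 1) := ⟨n, h1⟩
      have hr := Cfsg.Agent.Lib.Helper14.Nilp.rank_add_mkd ((u : Matrix (Fin n) (Fin n) F) - 1)
      have hk1 : Cfsg.Agent.Lib.Helper14.Nilp.mkd ((u : Matrix (Fin n) (Fin n) F) - 1) 1 = 1 := by
        omega
      obtain ⟨X, hX, hXM⟩ := Cfsg.Agent.Lib.Helper14.Nilp.conj_of_mkd M₀
        ((u : Matrix (Fin n) (Fin n) F) - 1) hM₀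
        (fun j => (hkd₀' j).trans (mkd_regular _ hnil hk1 j).symm)
      refine ⟨X, hX, ?_⟩
      rw [mul_add, mul_one, hXM, sub_mul, one_mul]
      abel
    · rintro ⟨X, hX, hXu⟩
      have hXM : X * M₀ = ((u : Matrix (Fin n) (Fin n) F) - 1) * X := by
        rw [mul_add, mul_one] at hXu
        rw [sub_mul, one_mul, ← hXu]
        abel
      have hkd := fun j => Cfsg.Agent.Lib.Helper14.Nilp.mkd_conj M₀ _ X hX hXM j
      constructor
      · rw [Cfsg.Agent.Lib.Helper14.Nilp.mat_pow_eq_zero_iff, ← hkd n, hkd₀' n, min_self]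
      · have hr := Cfsg.Agent.Lib.Helper14.Nilp.rank_add_mkd ((u : Matrix (Fin n) (Fin n) F) - 1)
        rw [← hkd 1, hkd₀' 1] at hr
        have : min n 1 = 1 := by omega
        omega
  · intro z hz hzu
    apply Cfsg.Agent.Lib.Helper14.Nilp.cent_det M₀ z hM₀
    · rw [hkd₀' 1]
      omega
    · rw [mul_add, add_mul, mul_one, one_mul] at hzu
      exact add_left_cancel hzu

end Cfsg.Agent.S2578
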