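import Cfsg.Statements.S2585
import Cfsg.Agent.Lib.Helper15.StdForms
import Cfsg.Agent.Lib.Helper5.Symp

set_option autoImplicit false
open Cfsg

namespace Cfsg.Agent.S2585

open Cfsg.Agent.Lib.Helper15.StdForms Cfsg.Agent.Lib.Helper5.Symp

/-- In characteristic two the polar form of the hyperbolic form is the symplectic form. -/
theorem polar_plus_eq_symp {F : Type*} [Field F] [CharP F 2] {m : ℕ} (u v : Fin m ⊕ Fin m → F) :
    QuadraticMap.polar (Cfsg.quadFormPlus m F) u v = Cfsg.sympForm m F u v := by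
  rw [polar_plus, sympForm_eq_sum]
  apply Finset.sum_congr rfl
  intro i _
  rw [CharTwo.sub_eq_add]
  ring

/-- Factoring a linear functional through a linear map whose kernel it kills. -/
theorem exists_factor {F V : Type*} [Field F] [AddCommGroup V] [Module F V] (f : V →ₗ[F] V)
    (l : V →ₗ[F] F) (h : ∀ v, f v = 0 → l v = 0) : ∃ μ : V →ₗ[F] F, ∀ v, μ (f v) = l v := by
  have hle : LinearMap.ker f ≤ LinearMap.ker l := fun v hv => LinearMap.mem_ker.2 (h v (LinearMap.mem_ker.1 hv))
  let fbar : (V ⧸ LinearMap.ker f) →ₗ[F] V := (LinearMap.ker f).liftQ f le_rfl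
  let lbar : (V ⧸ LinearMap.ker f) →ₗ[F] F := (LinearMap.ker f).liftQ l hle
  have hinj : LinearMap.ker fbar = ⊥ := Submodule.ker_liftQ_eq_bot _ _ _ le_rfl
  obtain ⟨g, hg⟩ := fbar.exists_leftInverse_of_injective hinj
  refine ⟨lbar.comp g, fun v => ?_⟩
  have h1 : f v = fbar (Submodule.Quotient.mk v) := rfl
  have h2 : g (fbar (Submodule.Quotient.mk v)) = Submodule.Quotient.mk v := by
    have := congrArg (fun φ => φ (Submodule.Quotient.mk v)) hg
    simpa using this
  rw [LinearMap.comp_apply, h1, h2]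
  rfl

/-- Over a finite field of characteristic two every element of the symplectic group is orthogonal for a suitable quadratic form: for each A in Sp_2m(F) there is a quadratic form Q on F^(2m) whose polar form is the alternating form defining Sp_2m(F) (so Q is non-degenerate) and which A preserves. Equivalently, for m ≥ 1, Sp_2m(F) is the union of the conjugates of its two orthogonal subgroups O⁺_2m(F) and O⁻_2m(F). -/
theorem result {F : Type*} [Field F] [Fintype F] [CharP F 2] {m : ℕ} (A : Matrix.symplecticGroup (Fin m) F) : ∃ Q : QuadraticForm F (Fin m ⊕ Fin m → F), (∀ u v : Fin m ⊕ Fin m → F, QuadraticMap.polar ⇑Q u v = Cfsg.sympForm m F u v) ∧ ∀ v : Fin m ⊕ Fin m → F, Q ((A : Matrix (Fin m ⊕ Fin m) (Fin m ⊕ Fin m) F).mulVec v) = Q v := by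
  classical
  haveI : ExpChar F 2 := ExpChar.prime Nat.prime_two
  set M : Matrix (Fin m ⊕ Fin m) (Fin m ⊕ Fin m) F := (A : Matrix (Fin m ⊕ Fin m) (Fin m ⊕ Fin m) F) with hM
  set Q₀ : QuadraticForm F (Fin m ⊕ Fin m → F) := plusQF m F with hQ₀
  have hpol : ∀ u v, QuadraticMap.polar ⇑Q₀ u v = Cfsg.sympForm m F u v := fun u v => polar_plus_eq_symp u v
  have hsymp : ∀ u v, Cfsg.sympForm m F (M.mulVec u) (M.mulVec v) = Cfsg.sympForm m F u v :=
    fun u v => sympForm_mulVec_of_mem m A.2 u v
  have h2 : (2 : F) = 0 := CharTwo.two_eq_zero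
  -- the defect of `A` with respect to `Q₀`
  have hadd : ∀ u v, Q₀ (M.mulVec (u + v)) + Q₀ (u + v)
      = (Q₀ (M.mulVec u) + Q₀ u) + (Q₀ (M.mulVec v) + Q₀ v) := by
    intro u v
    rw [Matrix.mulVec_add, QuadraticMap.map_add ⇑Q₀, QuadraticMap.map_add ⇑Q₀ u v, hpol, hpol, hsymp]
    linear_combination (Cfsg.sympForm m F u v) * h2
  have hsmul : ∀ (c : F) v, Q₀ (M.mulVec (c • v)) + Q₀ (c • v)
      = c ^ 2 * (Q₀ (M.mulVec v) + Q₀ v) := by
    intro c v
    rw [Matrix.mulVec_smul, QuadraticMap.map_smul, QuadraticMap.map_smul]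
    simp only [smul_eq_mul]
    ring
  let l : (Fin m ⊕ Fin m → F) →ₗ[F] F :=
    { toFun := fun v => (frobeniusEquiv F 2).symm (Q₀ (M.mulVec v) + Q₀ v)
      map_add' := fun u v => by rw [hadd, map_add]
      map_smul' := fun c v => by
        rw [hsmul, map_mul, RingHom.id_apply, smul_eq_mul]
        congr 1
        have : c ^ 2 = frobeniusEquiv F 2 c := by
          rw [frobeniusEquiv_apply, frobenius_def]
        rw [this, RingEquiv.symm_apply_apply] }
  have hl : ∀ v, l v ^ 2 = Q₀ (M.mulVec v) + Q₀ v := fun v => frobeniusEquiv_symm_pow_p F 2 _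
  have hker : ∀ v, (Matrix.mulVecLin (M + 1)) v = 0 → l v = 0 := by
    intro v hv
    rw [Matrix.mulVecLin_apply, Matrix.add_mulVec, Matrix.one_mulVec] at hv
    have hv' : M.mulVec v = v := by
      funext i
      have := congrFun hv i
      simp only [Pi.add_apply, Pi.zero_apply] at this
      exact CharTwo.add_eq_zero.1 this
    have h0 : l v ^ 2 = 0 := by
      rw [hl, hv']
      exact CharTwo.add_self_eq_zero _
    exact pow_eq_zero_iff (two_ne_zero) |>.mp h0
  obtain ⟨μ, hμ⟩ := exists_factor (Matrix.mulVecLin (M + 1)) l hker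
  refine ⟨Q₀ + QuadraticMap.linMulLin μ μ, ?_, ?_⟩
  · intro u v
    rw [QuadraticMap.coeFn_add, QuadraticMap.polar_add, hpol]
    unfold QuadraticMap.polar
    simp only [QuadraticMap.linMulLin_apply, map_add]
    linear_combination (μ u * μ v) * h2
  · intro v
    have h1 := hμ v
    rw [Matrix.mulVecLin_apply, Matrix.add_mulVec, Matrix.one_mulVec, map_add] at h1
    have h3 := hl v
    rw [← h1] at h3
    simp only [QuadraticMap.add_apply, QuadraticMap.linMulLin_apply]
    have h4 : Q₀ (M.mulVec v) + Q₀ v = (μ (M.mulVec v) + μ v) ^ 2 := h3.symm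
    have h5 : Q₀ (M.mulVec v) = Q₀ v + (μ (M.mulVec v) + μ v) ^ 2 := by
      have := congrArg (fun x => x + Q₀ v) h4
      simp only [add_assoc, CharTwo.add_self_eq_zero, add_zero] at this
      rw [this, add_comm]
    rw [h5]
    linear_combination (μ (M.mulVec v) * μ v + μ (M.mulVec v) ^ 2) * h2

end Cfsg.Agent.S2585
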