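import Cfsg.Statements.S2586
import Cfsg.Agent.Lib.Helper15.Transpose

set_option autoImplicit false
open Cfsg

namespace Cfsg.Agent.S2586

/-- Over a finite field, every element of the symplectic group Sp_2m(F) is conjugate by an invertible matrix to its inverse. -/
theorem result {F : Type*} [Field F] [Finite F] {m : ℕ} (A : Matrix.symplecticGroup (Fin m) F) : IsConj (A : Matrix (Fin m ⊕ Fin m) (Fin m ⊕ Fin m) F) ((A⁻¹ : Matrix.symplecticGroup (Fin m) F) : Matrix (Fin m ⊕ Fin m) (Fin m ⊕ Fin m) F) := by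
  classical
  have h1 := Cfsg.Agent.Lib.Helper15.Transpose.isConj_transpose
    (A : Matrix (Fin m ⊕ Fin m) (Fin m ⊕ Fin m) F)
  refine h1.trans ?_
  rw [SymplecticGroup.coe_inv]
  have hJ : Matrix.J (Fin m) F * -Matrix.J (Fin m) F = 1 := by
    rw [mul_neg, Matrix.J_squared, neg_neg]
  have hJ' : -Matrix.J (Fin m) F * Matrix.J (Fin m) F = 1 := by
    rw [neg_mul, Matrix.J_squared, neg_neg]
  refine ⟨⟨-Matrix.J (Fin m) F, Matrix.J (Fin m) F, hJ', hJ⟩, ?_⟩
  change -Matrix.J (Fin m) F * (A : Matrix (Fin m ⊕ Fin m) (Fin m ⊕ Fin m) F).transpose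
    = -Matrix.J (Fin m) F * (A : Matrix (Fin m ⊕ Fin m) (Fin m ⊕ Fin m) F).transpose
      * Matrix.J (Fin m) F * -Matrix.J (Fin m) F
  rw [mul_assoc (-Matrix.J (Fin m) F * (A : Matrix (Fin m ⊕ Fin m) (Fin m ⊕ Fin m) F).transpose),
    hJ, mul_one]

end Cfsg.Agent.S2586
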