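import Cfsg.Statements.S2592
import Mathlib

set_option autoImplicit false
open Cfsg

namespace Cfsg.Agent.S2592

section helpers

open Polynomial
open scoped Matrix

/-! ### general ring lemmas for the Cayley transform -/

theorem cay_aux1 {E : Type*} [Ring E] (S X X' : E) (h2 : (1 + S) * X = 1)
    (h3 : X' * (1 - S) = 1) : (X' + X' - 1) * (X + X - 1) = 1 := by
  have e1 : X' + X' - 1 = X' * (1 + S) := by
    have : X' * (1 + S) = X' + X' - X' * (1 - S) := by noncomm_ring
    rw [this, h3]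
  have e2 : X + X - 1 = (1 - S) * X := by
    have : (1 - S) * X = X + X - (1 + S) * X := by noncomm_ring
    rw [this, h2]
  rw [e1, e2]
  calc X' * (1 + S) * ((1 - S) * X) = (X' * (1 - S)) * ((1 + S) * X) := by noncomm_ring
    _ = 1 := by rw [h3, h2, one_mul]

theorem cay_aux2 {E : Type*} [Ring E] (A A' X X' : E) (h1 : A' * A = 1) (h2 : (1 + A) * X = 1)
    (h3 : X' * (1 + A') = 1) : X' + X = 1 := by
  have e : X' = A * X := by
    calc X' = X' * ((1 + A) * X) := by rw [h2, mul_one]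
      _ = X' * ((A + A' * A) * X) := by rw [h1, add_comm]
      _ = (X' * (1 + A')) * (A * X) := by noncomm_ring
      _ = A * X := by rw [h3, one_mul]
  rw [e]
  calc A * X + X = (1 + A) * X := by noncomm_ring
    _ = 1 := h2

theorem inv_comm_aux {E : Type*} [Ring E] (M X Y : E) (hY : Y * M = M * Y) (hXY : X * Y = 1)
    (hYX : Y * X = 1) : X * M = M * X := by
  calc X * M = X * M * (Y * X) := by rw [hYX, mul_one]
    _ = X * (M * Y) * X := by noncomm_ring
    _ = X * (Y * M) * X := by rw [hY]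
    _ = (X * Y) * M * X := by noncomm_ring
    _ = M * X := by rw [hXY, one_mul]

/-! ### cyclic vectors -/

section cyc
variable {F : Type*} [Field F] {I : Type*} [Fintype I] [DecidableEq I]

theorem cyclic (N : Matrix I I F) (k : ℕ) (hk : N ^ k = 0)
    (hr : Module.finrank F (LinearMap.range N.mulVecLin) + 1 = Fintype.card I) :
    ∃ v : I → F, ∀ w : I → F, ∃ p : F[X], w = (aeval N p) *ᵥ v := by
  classical
  have hne : LinearMap.range N.mulVecLin ≠ ⊤ := by
    intro h
    rw [h, finrank_top, Module.finrank_fintype_fun_eq_card] at hr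
    omega
  obtain ⟨v, hv⟩ : ∃ v, v ∉ LinearMap.range N.mulVecLin := by
    by_contra hcon
    apply hne
    rw [Submodule.eq_top_iff']
    intro x
    by_contra hx
    exact hcon ⟨x, hx⟩
  refine ⟨v, ?_⟩
  let evp : F[X] →ₗ[F] (I → F) :=
    { toFun := fun p => (aeval N p) *ᵥ v
      map_add' := fun p r => by rw [map_add, Matrix.add_mulVec]
      map_smul' := fun c p => by rw [map_smul, Matrix.smul_mulVec]; rfl }
  have hevp : ∀ p, evp p = (aeval N p) *ᵥ v := fun p => rfl
  have hvW : v ∈ LinearMap.range evp := ⟨1, by rw [hevp, map_one, Matrix.one_mulVec]⟩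
  have htop : LinearMap.range evp ⊔ LinearMap.range N.mulVecLin = ⊤ := by
    apply Submodule.eq_top_of_finrank_eq
    have hlt : LinearMap.range N.mulVecLin <
        LinearMap.range evp ⊔ LinearMap.range N.mulVecLin := by
      refine lt_of_le_of_ne le_sup_right ?_
      intro h
      apply hv
      rw [h]
      exact Submodule.mem_sup_left hvW
    have h1 := Submodule.finrank_lt_finrank_of_lt hlt
    have h2 := Submodule.finrank_le (LinearMap.range evp ⊔ LinearMap.range N.mulVecLin)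
    rw [Module.finrank_fintype_fun_eq_card] at h2 ⊢
    omega
  have hstep : ∀ y : I → F, ∃ (p : F[X]) (y' : I → F), y = (aeval N p) *ᵥ v + N *ᵥ y' := by
    intro y
    have hy : y ∈ LinearMap.range evp ⊔ LinearMap.range N.mulVecLin := by rw [htop]; trivial
    obtain ⟨a, ⟨p, rfl⟩, b, ⟨y', rfl⟩, hab⟩ := Submodule.mem_sup.mp hy
    exact ⟨p, y', by rw [← hab, hevp, Matrix.mulVecLin_apply]⟩
  have hind : ∀ j : ℕ, ∀ x : I → F, ∃ (p : F[X]) (y : I → F),
      x = (aeval N p) *ᵥ v + (N ^ j) *ᵥ y := by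
    intro j
    induction j with
    | zero => intro x; exact ⟨0, x, by simp⟩
    | succ j ih =>
      intro x
      obtain ⟨p, y, hx⟩ := ih x
      obtain ⟨p', y', hy⟩ := hstep y
      refine ⟨p + X ^ j * p', y', ?_⟩
      have e1 : (aeval N (p + X ^ j * p')) = aeval N p + N ^ j * aeval N p' := by
        rw [map_add, map_mul, map_pow, aeval_X]
      rw [e1, hx, hy, Matrix.add_mulVec, Matrix.mulVec_add, Matrix.mulVec_mulVec,
        Matrix.mulVec_mulVec, ← pow_succ, add_assoc]
  intro w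
  obtain ⟨p, y, hx⟩ := hind k w
  exact ⟨p, by rw [hx, hk, Matrix.zero_mulVec, add_zero]⟩

theorem comm_aeval (N A : Matrix I I F) (hA : A * N = N * A) (r : F[X]) :
    A * aeval N r = aeval N r * A := by
  induction r using Polynomial.induction_on' with
  | add a b ha hb => rw [map_add, mul_add, add_mul, ha, hb]
  | monomial n c =>
    rw [← C_mul_X_pow_eq_monomial, map_mul, map_pow, aeval_C, aeval_X]
    exact ((Algebra.commute_algebraMap_right c A).mul_right
      ((show Commute A N from hA).pow_right n)).eq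

theorem aeval_comm_self (N : Matrix I I F) (p : F[X]) : aeval N p * N = N * aeval N p := by
  have : aeval N p * aeval N (X : F[X]) = aeval N (X : F[X]) * aeval N p := by
    rw [← map_mul, ← map_mul, mul_comm]
  rwa [aeval_X] at this

theorem eq_zero_of_cyclic (N : Matrix I I F) (v : I → F)
    (hv : ∀ w : I → F, ∃ p : F[X], w = (aeval N p) *ᵥ v) (A : Matrix I I F)
    (hA : A * N = N * A) (h0 : A *ᵥ v = 0) : A = 0 := by
  apply Matrix.toLin'.injective
  apply LinearMap.ext
  intro w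
  obtain ⟨r, rfl⟩ := hv w
  rw [map_zero, LinearMap.zero_apply, Matrix.toLin'_apply, Matrix.mulVec_mulVec,
    comm_aeval N A hA, ← Matrix.mulVec_mulVec, h0, Matrix.mulVec_zero]

theorem commutant (N : Matrix I I F) (v : I → F)
    (hv : ∀ w : I → F, ∃ p : F[X], w = (aeval N p) *ᵥ v) (A : Matrix I I F)
    (hA : A * N = N * A) : ∃ p : F[X], A = aeval N p := by
  obtain ⟨p, hp⟩ := hv (A *ᵥ v)
  refine ⟨p, ?_⟩
  have h1 : (A - aeval N p) * N = N * (A - aeval N p) := by
    rw [sub_mul, mul_sub, hA, aeval_comm_self]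
  have h2 : (A - aeval N p) *ᵥ v = 0 := by
    rw [Matrix.sub_mulVec, hp, sub_self]
  exact sub_eq_zero.mp (eq_zero_of_cyclic N v hv _ h1 h2)

theorem scalar_nilp [Nonempty I] (c : F) (h : IsNilpotent (c • (1 : Matrix I I F))) : c = 0 := by
  obtain ⟨k, hk⟩ := h
  rw [_root_.smul_pow, one_pow] at hk
  have i : I := Classical.arbitrary I
  have h2 : c ^ k • (1 : F) = 0 := by
    have := congrFun (congrFun hk i) i
    rwa [Matrix.smul_apply, Matrix.one_apply_eq, Matrix.zero_apply] at this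
  rw [smul_eq_mul, mul_one] at h2
  by_cases hk0 : k = 0
  · subst hk0
    simp at h2
  · exact (pow_eq_zero_iff hk0).mp h2

end cyc

/-! ### the adjoint involution -/

section tau
variable {F : Type*} [Field F] {m : ℕ}

/-- the adjoint involution of the symplectic form -/
def tau (A : Matrix (Fin m ⊕ Fin m) (Fin m ⊕ Fin m) F) : Matrix (Fin m ⊕ Fin m) (Fin m ⊕ Fin m) F :=
  -(Matrix.J (Fin m) F * Aᵀ * Matrix.J (Fin m) F)

theorem tau_add (A B : Matrix (Fin m ⊕ Fin m) (Fin m ⊕ Fin m) F) : tau (A + B) = tau A + tau B := by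
  unfold tau
  rw [Matrix.transpose_add, mul_add, add_mul, neg_add]

theorem tau_smul (c : F) (A : Matrix (Fin m ⊕ Fin m) (Fin m ⊕ Fin m) F) :
    tau (c • A) = c • tau A := by
  unfold tau
  rw [Matrix.transpose_smul, Matrix.mul_smul, Matrix.smul_mul, smul_neg]

theorem tau_neg (A : Matrix (Fin m ⊕ Fin m) (Fin m ⊕ Fin m) F) : tau (-A) = -tau A := by
  unfold tau
  rw [Matrix.transpose_neg, mul_neg, neg_mul]

theorem tau_sub (A B : Matrix (Fin m ⊕ Fin m) (Fin m ⊕ Fin m) F) : tau (A - B) = tau A - tau B := by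
  rw [sub_eq_add_neg, tau_add, tau_neg, sub_eq_add_neg]

theorem tau_zero : tau (0 : Matrix (Fin m ⊕ Fin m) (Fin m ⊕ Fin m) F) = 0 := by
  unfold tau
  simp

theorem tau_one : tau (1 : Matrix (Fin m ⊕ Fin m) (Fin m ⊕ Fin m) F) = 1 := by
  unfold tau
  rw [Matrix.transpose_one, mul_one, Matrix.J_squared, neg_neg]

theorem tau_mul (A B : Matrix (Fin m ⊕ Fin m) (Fin m ⊕ Fin m) F) :
    tau (A * B) = tau B * tau A := by
  unfold tau
  rw [Matrix.transpose_mul]
  have hJ := Matrix.J_squared (Fin m) F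
  have h1 : -(Matrix.J (Fin m) F * Bᵀ * Matrix.J (Fin m) F) *
      -(Matrix.J (Fin m) F * Aᵀ * Matrix.J (Fin m) F) =
      Matrix.J (Fin m) F * Bᵀ * (Matrix.J (Fin m) F * Matrix.J (Fin m) F) * Aᵀ *
        Matrix.J (Fin m) F := by noncomm_ring
  rw [h1, hJ]
  noncomm_ring

theorem tau_tau (A : Matrix (Fin m ⊕ Fin m) (Fin m ⊕ Fin m) F) : tau (tau A) = A := by
  unfold tau
  rw [Matrix.transpose_neg, Matrix.transpose_mul, Matrix.transpose_mul,
    Matrix.transpose_transpose, Matrix.J_transpose]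
  have hJ := Matrix.J_squared (Fin m) F
  have h1 : -(Matrix.J (Fin m) F * -(-Matrix.J (Fin m) F * (A * -Matrix.J (Fin m) F)) *
      Matrix.J (Fin m) F) =
      (Matrix.J (Fin m) F * Matrix.J (Fin m) F) * A *
        (Matrix.J (Fin m) F * Matrix.J (Fin m) F) := by noncomm_ring
  rw [h1, hJ]
  noncomm_ring

theorem tau_pow (A : Matrix (Fin m ⊕ Fin m) (Fin m ⊕ Fin m) F) (k : ℕ) :
    tau (A ^ k) = tau A ^ k := by
  induction k with
  | zero => rw [pow_zero, pow_zero, tau_one]
  | succ k ih => rw [pow_succ, tau_mul, ih, ← pow_succ']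

theorem tau_nilp {B : Matrix (Fin m ⊕ Fin m) (Fin m ⊕ Fin m) F} (h : IsNilpotent B) :
    IsNilpotent (tau B) := by
  obtain ⟨k, hk⟩ := h
  exact ⟨k, by rw [← tau_pow, hk, tau_zero]⟩

theorem mem_sp_iff (A : Matrix (Fin m ⊕ Fin m) (Fin m ⊕ Fin m) F) :
    A ∈ Matrix.symplecticGroup (Fin m) F ↔ tau A * A = 1 := by
  rw [SymplecticGroup.mem_iff']
  have hJ := Matrix.J_squared (Fin m) F
  constructor
  · intro h
    have h1 : tau A * A = -(Matrix.J (Fin m) F * (Aᵀ * Matrix.J (Fin m) F * A)) := by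
      unfold tau
      noncomm_ring
    rw [h1, h, hJ, neg_neg]
  · intro h
    have h1 : Aᵀ * Matrix.J (Fin m) F * A =
        -(Matrix.J (Fin m) F * Matrix.J (Fin m) F) * (Aᵀ * Matrix.J (Fin m) F * A) := by
      rw [hJ, neg_neg, one_mul]
    have h2 : -(Matrix.J (Fin m) F * Matrix.J (Fin m) F) * (Aᵀ * Matrix.J (Fin m) F * A) =
        Matrix.J (Fin m) F * (tau A * A) := by
      unfold tau
      noncomm_ring
    rw [h1, h2, h, mul_one]

end tau

/-! ### the commutant and its eigenspaces -/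

section comm
variable {F : Type*} [Field F] {m : ℕ}

/-- the commutant of `M` -/
def Rs (M : Matrix (Fin m ⊕ Fin m) (Fin m ⊕ Fin m) F) :
    Submodule F (Matrix (Fin m ⊕ Fin m) (Fin m ⊕ Fin m) F) where
  carrier := {A | A * M = M * A}
  add_mem' := fun {A B} hA hB => by
    show (A + B) * M = M * (A + B)
    rw [add_mul, mul_add, show A * M = M * A from hA, show B * M = M * B from hB]
  zero_mem' := by
    show (0 : Matrix (Fin m ⊕ Fin m) (Fin m ⊕ Fin m) F) * M = M * 0
    rw [zero_mul, mul_zero]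
  smul_mem' := fun c A hA => by
    show (c • A) * M = M * (c • A)
    rw [smul_mul_assoc, mul_smul_comm, show A * M = M * A from hA]

/-- the `ε`-eigenspace of `tau` on the commutant of `M` -/
def Rpm (M : Matrix (Fin m ⊕ Fin m) (Fin m ⊕ Fin m) F) (ε : F) :
    Submodule F (Matrix (Fin m ⊕ Fin m) (Fin m ⊕ Fin m) F) where
  carrier := {A | A * M = M * A ∧ tau A = ε • A}
  add_mem' := fun {A B} hA hB => by
    refine ⟨?_, ?_⟩
    · show (A + B) * M = M * (A + B)
      rw [add_mul, mul_add, hA.1, hB.1]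
    · show tau (A + B) = ε • (A + B)
      rw [tau_add, hA.2, hB.2, smul_add]
  zero_mem' := by
    refine ⟨?_, ?_⟩
    · show (0 : Matrix (Fin m ⊕ Fin m) (Fin m ⊕ Fin m) F) * M = M * 0
      rw [zero_mul, mul_zero]
    · show tau (0 : Matrix (Fin m ⊕ Fin m) (Fin m ⊕ Fin m) F) = ε • 0
      rw [tau_zero, smul_zero]
  smul_mem' := fun c A hA => by
    refine ⟨?_, ?_⟩
    · show (c • A) * M = M * (c • A)
      rw [smul_mul_assoc, mul_smul_comm, hA.1]
    · show tau (c • A) = ε • (c • A)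
      rw [tau_smul, hA.2, smul_comm]

theorem dim_le (M N w : Matrix (Fin m ⊕ Fin m) (Fin m ⊕ Fin m) F) (v : Fin m ⊕ Fin m → F)
    (hinj : ∀ A : Matrix (Fin m ⊕ Fin m) (Fin m ⊕ Fin m) F, A * M = M * A → A *ᵥ v = 0 → A = 0)
    (hker : Module.finrank F (LinearMap.ker N.mulVecLin) = 1)
    (P Q : Submodule F (Matrix (Fin m ⊕ Fin m) (Fin m ⊕ Fin m) F))
    (hP : ∀ A ∈ P, A * M = M * A) (hPQ : ∀ A ∈ P, w * A ∈ Q)
    (hwN : ∀ A ∈ P, w * A = 0 → N * A = 0) :
    Module.finrank F P ≤ Module.finrank F Q + 1 := by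
  let g : ↥P →ₗ[F] Matrix (Fin m ⊕ Fin m) (Fin m ⊕ Fin m) F :=
    (LinearMap.mulLeft F w).domRestrict P
  have hg : ∀ A : ↥P, g A = w * A.1 := fun A => rfl
  have h1 := LinearMap.finrank_range_add_finrank_ker g
  have h2 : Module.finrank F (LinearMap.range g) ≤ Module.finrank F Q := by
    apply Submodule.finrank_mono
    rintro _ ⟨A, rfl⟩
    exact hPQ A.1 A.2
  have h3 : Module.finrank F (LinearMap.ker g) ≤ 1 := by
    rw [← hker]
    let ψ : ↥(LinearMap.ker g) →ₗ[F] ↥(LinearMap.ker N.mulVecLin) :=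
      { toFun := fun A => ⟨A.1.1 *ᵥ v, by
          rw [LinearMap.mem_ker, Matrix.mulVecLin_apply, Matrix.mulVec_mulVec]
          have h4 : w * A.1.1 = 0 := by
            have := LinearMap.mem_ker.mp A.2
            rwa [hg] at this
          rw [hwN A.1.1 A.1.2 h4, Matrix.zero_mulVec]⟩
        map_add' := fun A B => by
          apply Subtype.ext
          show (A.1.1 + B.1.1) *ᵥ v = A.1.1 *ᵥ v + B.1.1 *ᵥ v
          rw [Matrix.add_mulVec]
        map_smul' := fun c A => by
          apply Subtype.ext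
          show (c • A.1.1) *ᵥ v = c • (A.1.1 *ᵥ v)
          rw [Matrix.smul_mulVec] }
    apply LinearMap.finrank_le_finrank_of_injective (f := ψ)
    intro A B hAB
    have h4 : (A.1.1 - B.1.1) *ᵥ v = 0 := by
      have h5 : A.1.1 *ᵥ v = B.1.1 *ᵥ v := congrArg Subtype.val hAB
      rw [Matrix.sub_mulVec, h5, sub_self]
    have h5 := hinj (A.1.1 - B.1.1) (by rw [sub_mul, mul_sub, hP _ A.1.2, hP _ B.1.2]) h4
    apply Subtype.ext
    apply Subtype.ext
    exact sub_eq_zero.mp h5
  omega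

theorem finrank_Rs (M : Matrix (Fin m ⊕ Fin m) (Fin m ⊕ Fin m) F) (v : Fin m ⊕ Fin m → F)
    (hinj : ∀ A : Matrix (Fin m ⊕ Fin m) (Fin m ⊕ Fin m) F, A * M = M * A → A *ᵥ v = 0 → A = 0)
    (hsurj : ∀ w : Fin m ⊕ Fin m → F, ∃ A : Matrix (Fin m ⊕ Fin m) (Fin m ⊕ Fin m) F,
      A * M = M * A ∧ A *ᵥ v = w) :
    Module.finrank F (Rs M) = 2 * m := by
  let ev : ↥(Rs M) →ₗ[F] (Fin m ⊕ Fin m → F) :=
    { toFun := fun A => A.1 *ᵥ v
      map_add' := fun A B => by
        show (A.1 + B.1) *ᵥ v = A.1 *ᵥ v + B.1 *ᵥ v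
        rw [Matrix.add_mulVec]
      map_smul' := fun c A => by
        show (c • A.1) *ᵥ v = c • (A.1 *ᵥ v)
        rw [Matrix.smul_mulVec] }
  have hbij : Function.Bijective ev := by
    constructor
    · intro A B hAB
      have h4 : (A.1 - B.1) *ᵥ v = 0 := by
        have h5 : A.1 *ᵥ v = B.1 *ᵥ v := hAB
        rw [Matrix.sub_mulVec, h5, sub_self]
      have hA : A.1 * M = M * A.1 := A.2
      have hB : B.1 * M = M * B.1 := B.2
      have h5 := hinj (A.1 - B.1) (by rw [sub_mul, mul_sub, hA, hB]) h4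
      apply Subtype.ext
      exact sub_eq_zero.mp h5
    · intro w
      obtain ⟨A, hA, hAw⟩ := hsurj w
      exact ⟨⟨A, hA⟩, hAw⟩
  have h1 := (LinearEquiv.ofBijective ev hbij).finrank_eq
  rw [h1, Module.finrank_fintype_fun_eq_card, Fintype.card_sum, Fintype.card_fin]
  omega

/-- the Cayley transform -/
noncomputable def cay (Y : Matrix (Fin m ⊕ Fin m) (Fin m ⊕ Fin m) F) :
    Matrix (Fin m ⊕ Fin m) (Fin m ⊕ Fin m) F :=
  (1 + Y)⁻¹ + (1 + Y)⁻¹ - 1

theorem cay_cay (h2 : (2 : F) ≠ 0) (Y : Matrix (Fin m ⊕ Fin m) (Fin m ⊕ Fin m) F)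
    (hY : IsUnit (1 + Y)) : cay (cay Y) = Y := by
  have hdet : IsUnit (1 + Y).det := (Matrix.isUnit_iff_isUnit_det _).mp hY
  have h1 : 1 + cay Y = (1 + Y)⁻¹ + (1 + Y)⁻¹ := by
    unfold cay
    abel
  have h3 : ((1 + Y)⁻¹ + (1 + Y)⁻¹)⁻¹ = (2⁻¹ : F) • (1 + Y) := by
    apply Matrix.inv_eq_right_inv
    rw [mul_smul_comm, add_mul, Matrix.nonsing_inv_mul _ hdet,
      ← two_smul F (1 : Matrix (Fin m ⊕ Fin m) (Fin m ⊕ Fin m) F), smul_smul,
      inv_mul_cancel₀ h2, one_smul]
  show (1 + cay Y)⁻¹ + (1 + cay Y)⁻¹ - 1 = Y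
  rw [h1, h3, ← two_smul F ((2⁻¹ : F) • (1 + Y)), smul_smul, mul_inv_cancel₀ h2, one_smul]
  abel

theorem cay_comm (M Y : Matrix (Fin m ⊕ Fin m) (Fin m ⊕ Fin m) F) (hY : Y * M = M * Y)
    (hU : IsUnit (1 + Y)) : cay Y * M = M * cay Y := by
  have hdet : IsUnit (1 + Y).det := (Matrix.isUnit_iff_isUnit_det _).mp hU
  have h1 : (1 + Y) * M = M * (1 + Y) := by rw [add_mul, mul_add, hY, one_mul, mul_one]
  have h2 := inv_comm_aux M (1 + Y)⁻¹ (1 + Y) h1 (Matrix.nonsing_inv_mul _ hdet)
    (Matrix.mul_nonsing_inv _ hdet)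
  unfold cay
  rw [sub_mul, add_mul, mul_sub, mul_add, h2, one_mul, mul_one]

end comm

section mainsec
variable {F : Type*} [Field F] [Fintype F] {m : ℕ}

local notation "EE" => Matrix (Fin m ⊕ Fin m) (Fin m ⊕ Fin m) F

theorem main {q : ℕ} (hF : Fintype.card F = q) (hq : Odd q) (hm : 1 ≤ m)
    (M : Matrix (Fin m ⊕ Fin m) (Fin m ⊕ Fin m) F) (hM : M ∈ Matrix.symplecticGroup (Fin m) F)
    (hnil : (M - 1) ^ (2 * m) = 0) (hreg : (M - 1).rank = 2 * m - 1) :
    Set.ncard {A : Matrix (Fin m ⊕ Fin m) (Fin m ⊕ Fin m) F |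
      A ∈ Matrix.symplecticGroup (Fin m) F ∧ A * M = M * A} = 2 * q ^ m := by
  classical
  have h2 : (2 : F) ≠ 0 := by
    have hchar : ringChar F ≠ 2 := by
      intro h
      have h3 := FiniteField.even_card_iff_char_two.mp h
      rw [hF] at h3
      have h4 := Nat.odd_iff.mp hq
      omega
    exact Ring.two_ne_zero hchar
  have : Nonempty (Fin m ⊕ Fin m) := ⟨Sum.inl ⟨0, hm⟩⟩
  obtain ⟨N, hN⟩ : ∃ N : EE, N = M - 1 := ⟨_, rfl⟩
  rw [← hN] at hnil hreg
  have hMN : M = N + 1 := by rw [hN]; abel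
  have hcard : Fintype.card (Fin m ⊕ Fin m) = 2 * m := by
    rw [Fintype.card_sum, Fintype.card_fin]; omega
  have htM : tau M * M = 1 := (mem_sp_iff M).mp hM
  have hMt : M * tau M = 1 := mul_eq_one_comm.mp htM
  have hrank : Module.finrank F (LinearMap.range N.mulVecLin) = 2 * m - 1 := hreg
  have hr : Module.finrank F (LinearMap.range N.mulVecLin) + 1 =
      Fintype.card (Fin m ⊕ Fin m) := by
    rw [hcard, hrank]; omega
  have hker : Module.finrank F (LinearMap.ker N.mulVecLin) = 1 := by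
    have h3 := LinearMap.finrank_range_add_finrank_ker N.mulVecLin
    rw [Module.finrank_fintype_fun_eq_card, hcard, hrank] at h3
    omega
  obtain ⟨v, hv⟩ := cyclic N (2 * m) hnil hr
  have hRN : ∀ A : EE, A * M = M * A → A * N = N * A := by
    intro A h
    rw [hN, mul_sub, sub_mul, h, mul_one, one_mul]
  have hNR : ∀ A : EE, A * N = N * A → A * M = M * A := by
    intro A h
    rw [hMN, mul_add, add_mul, h, mul_one, one_mul]
  have hpoly : ∀ A : EE, A * M = M * A → ∃ p : F[X], A = aeval N p :=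
    fun A h => commutant N v hv A (hRN A h)
  have hinj : ∀ A : EE, A * M = M * A → A *ᵥ v = 0 → A = 0 :=
    fun A h h0 => eq_zero_of_cyclic N v hv A (hRN A h) h0
  have hsurj : ∀ w : Fin m ⊕ Fin m → F, ∃ A : EE, A * M = M * A ∧ A *ᵥ v = w := by
    intro w
    obtain ⟨p, hp⟩ := hv w
    exact ⟨aeval N p, hNR _ (aeval_comm_self N p), hp.symm⟩
  have hRcomm : ∀ A B : EE, A * M = M * A → B * M = M * B → A * B = B * A := by
    intro A B hA hB
    obtain ⟨p, rfl⟩ := hpoly A hA
    obtain ⟨r, rfl⟩ := hpoly B hB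
    rw [← map_mul, ← map_mul, mul_comm]
  have hRtau : ∀ A : EE, A * M = M * A → tau A * M = M * tau A := by
    intro A h
    have h1 : tau M * tau A = tau A * tau M := by rw [← tau_mul, ← tau_mul, h]
    calc tau A * M = (M * tau M) * tau A * M := by rw [hMt, one_mul]
      _ = M * (tau M * tau A) * M := by noncomm_ring
      _ = M * (tau A * tau M) * M := by rw [h1]
      _ = M * tau A * (tau M * M) := by noncomm_ring
      _ = M * tau A := by rw [htM, mul_one]
  have hRsub : ∀ (A : EE) (c : F), A * M = M * A → (A - c • 1) * M = M * (A - c • 1) := by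
    intro A c h
    rw [sub_mul, mul_sub, smul_mul_assoc, mul_smul_comm, one_mul, mul_one, h]
  have hdec : ∀ A : EE, A * M = M * A → ∃ c : F, IsNilpotent (A - c • 1) := by
    intro A h
    obtain ⟨p, rfl⟩ := hpoly A h
    refine ⟨p.coeff 0, ?_⟩
    have e : aeval N p - p.coeff 0 • (1 : EE) = aeval N p.divX * N := by
      have h3 := congrArg (aeval N) (Polynomial.divX_mul_X_add p)
      rw [map_add, map_mul, aeval_X, aeval_C, Algebra.algebraMap_eq_smul_one] at h3
      rw [← h3]
      abel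
    rw [e]
    refine ⟨2 * m, ?_⟩
    have hc : Commute (aeval N p.divX) N := aeval_comm_self N p.divX
    rw [hc.mul_pow, hnil, mul_zero]
  have hD2 : ∀ S : EE, S * M = M * S → tau S = -S → IsNilpotent S := by
    intro S hS hts
    obtain ⟨c, hc⟩ := hdec S hS
    obtain ⟨B, hB⟩ : ∃ B, B = S - c • (1 : EE) := ⟨_, rfl⟩
    rw [← hB] at hc
    have hBR : B * M = M * B := by rw [hB]; exact hRsub S c hS
    have htB : tau B = -B - (c + c) • 1 := by
      rw [hB, tau_sub, tau_smul, tau_one, hts, add_smul]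
      abel
    have hcomm : Commute B (tau B) := hRcomm _ _ hBR (hRtau _ hBR)
    have hnil2 : IsNilpotent ((c + c) • (1 : EE)) := by
      have h3 : (c + c) • (1 : EE) = -(B + tau B) := by
        rw [htB]; abel
      rw [h3]
      exact (Commute.isNilpotent_add hcomm hc (tau_nilp hc)).neg
    have hc0 : c = 0 := by
      have h3 := scalar_nilp _ hnil2
      have h4 : (2 : F) * c = 0 := by rw [two_mul]; exact h3
      rcases mul_eq_zero.mp h4 with h | h
      · exact absurd h h2
      · exact h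
    rw [hB, hc0, zero_smul, sub_zero] at hc
    exact hc
  have hD1 : ∀ A : EE, A * M = M * A → tau A * A = 1 →
      IsNilpotent (A - 1) ∨ IsNilpotent (A + 1) := by
    intro A hA htA
    obtain ⟨c, hc⟩ := hdec A hA
    obtain ⟨B, hB⟩ : ∃ B, B = A - c • (1 : EE) := ⟨_, rfl⟩
    rw [← hB] at hc
    have hBR : B * M = M * B := by rw [hB]; exact hRsub A c hA
    have htBR : tau B * M = M * tau B := hRtau _ hBR
    have hkey : (c ^ 2 - 1) • (1 : EE) = -(c • B + tau B * A) := by
      have h1 : tau B * A = 1 - c • A := by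
        rw [hB, tau_sub, tau_smul, tau_one, sub_mul, smul_mul_assoc, one_mul, htA]
      rw [h1, hB, smul_sub, smul_smul, sub_smul, one_smul, pow_two]
      abel
    have hn1 : IsNilpotent (c • B) := hc.smul c
    have hn2 : IsNilpotent (tau B * A) :=
      Commute.isNilpotent_mul_right (hRcomm _ _ htBR hA) (tau_nilp hc)
    have hcm : Commute (c • B) (tau B * A) := by
      apply hRcomm
      · rw [smul_mul_assoc, mul_smul_comm, hBR]
      · calc tau B * A * M = tau B * (A * M) := mul_assoc _ _ _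
          _ = tau B * (M * A) := by rw [hA]
          _ = (tau B * M) * A := (mul_assoc _ _ _).symm
          _ = (M * tau B) * A := by rw [htBR]
          _ = M * (tau B * A) := mul_assoc _ _ _
    have hnil2 : IsNilpotent ((c ^ 2 - 1) • (1 : EE)) := by
      rw [hkey]
      exact (Commute.isNilpotent_add hcm hn1 hn2).neg
    have hc1 := scalar_nilp _ hnil2
    have h3 : (c - 1) * (c + 1) = 0 := by linear_combination hc1
    rcases mul_eq_zero.mp h3 with h | h
    · left
      have h4 : c = 1 := by linear_combination h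
      rw [hB, h4, one_smul] at hc
      exact hc
    · right
      have h4 : c = -1 := by linear_combination h
      rw [hB, h4, neg_smul, one_smul, sub_neg_eq_add] at hc
      exact hc
  -- dimensions
  have hfR := finrank_Rs M v hinj hsurj
  have hinf : Rpm M 1 ⊓ Rpm M (-1) = ⊥ := by
    rw [eq_bot_iff]
    intro A hA
    obtain ⟨h1', h3'⟩ := Submodule.mem_inf.mp hA
    have h1 : tau A = (1 : F) • A := h1'.2
    have h3 : tau A = (-1 : F) • A := h3'.2
    rw [Submodule.mem_bot]
    have h4 : (2 : F) • A = 0 := by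
      have h5 : (1 : F) • A = (-1 : F) • A := h1.symm.trans h3
      rw [one_smul, neg_smul, one_smul] at h5
      rw [two_smul]
      nth_rewrite 1 [h5]
      exact neg_add_cancel A
    exact (smul_eq_zero.mp h4).resolve_left h2
  have hsup : Rpm M 1 ⊔ Rpm M (-1) = Rs M := by
    apply le_antisymm
    · exact sup_le (fun A hA => (hA : A * M = M * A ∧ tau A = (1 : F) • A).1)
        (fun A hA => (hA : A * M = M * A ∧ tau A = (-1 : F) • A).1)
    · intro A hA
      have hA' : A * M = M * A := hA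
      have htA := hRtau A hA'
      rw [Submodule.mem_sup]
      refine ⟨(2⁻¹ : F) • (A + tau A), ⟨?_, ?_⟩, (2⁻¹ : F) • (A - tau A), ⟨?_, ?_⟩, ?_⟩
      · rw [smul_mul_assoc, mul_smul_comm, add_mul, mul_add, hA', htA]
      · rw [tau_smul, tau_add, tau_tau, one_smul, add_comm]
      · rw [smul_mul_assoc, mul_smul_comm, sub_mul, mul_sub, hA', htA]
      · rw [tau_smul, tau_sub, tau_tau, neg_smul, one_smul, ← smul_neg, neg_sub]
      · rw [← smul_add]
        have h5 : A + tau A + (A - tau A) = (2 : F) • A := by rw [two_smul]; abel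
        rw [h5, smul_smul, inv_mul_cancel₀ h2, one_smul]
  have hsum : Module.finrank F (Rpm M 1) + Module.finrank F (Rpm M (-1)) = 2 * m := by
    have h3 := Submodule.finrank_sup_add_finrank_inf_eq (Rpm M 1) (Rpm M (-1))
    rw [hsup, hinf, finrank_bot, hfR] at h3
    omega
  obtain ⟨w, hw⟩ : ∃ w : EE, w = M - tau M := ⟨_, rfl⟩
  have hwM : w * M = M * w := by
    rw [hw, sub_mul, mul_sub, htM, hMt]
  have htw : tau w = -w := by
    rw [hw, tau_sub, tau_tau]; abel
  have hMw : M * w = (M + 1) * N := by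
    rw [hw, hN, mul_sub, hMt]
    noncomm_ring
  have hu2 : IsUnit ((2 : F) • (1 : EE)) := by
    rw [← Algebra.algebraMap_eq_smul_one]
    exact (IsUnit.mk0 (2 : F) h2).map (algebraMap F _)
  have hM1 : IsUnit (M + 1) := by
    have hnN : IsNilpotent N := ⟨2 * m, hnil⟩
    have h3 := hnN.isUnit_add_left_of_commute hu2 (by
      show N * ((2 : F) • 1) = ((2 : F) • 1) * N
      rw [mul_smul_comm, smul_mul_assoc, mul_one, one_mul])
    have h4 : (2 : F) • (1 : EE) + N = M + 1 := by
      rw [hMN, two_smul]; abel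
    rwa [h4] at h3
  have hdim : ∀ ε : F, Module.finrank F (Rpm M ε) ≤ Module.finrank F (Rpm M (-ε)) + 1 := by
    intro ε
    apply dim_le M N w v hinj hker
    · intro A hA
      exact hA.1
    · intro A hA
      have hA1 : A * M = M * A := hA.1
      have hA2 : tau A = ε • A := hA.2
      refine ⟨?_, ?_⟩
      · show (w * A) * M = M * (w * A)
        calc w * A * M = w * (A * M) := mul_assoc _ _ _
          _ = w * (M * A) := by rw [hA1]
          _ = (w * M) * A := (mul_assoc _ _ _).symm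
          _ = (M * w) * A := by rw [hwM]
          _ = M * (w * A) := mul_assoc _ _ _
      · show tau (w * A) = (-ε) • (w * A)
        rw [tau_mul, hA2, htw, hRcomm w A hwM hA1, smul_mul_assoc, mul_neg, smul_neg, neg_smul]
    · intro A hA hwA
      have h3 : (M + 1) * (N * A) = 0 := by
        rw [← mul_assoc, ← hMw, mul_assoc, hwA, mul_zero]
      exact hM1.mul_right_eq_zero.mp h3
  have hdm : Module.finrank F (Rpm M (-1)) = m := by
    have h3 := hdim 1
    have h4 := hdim (-1)
    rw [neg_neg] at h4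
    omega
  -- the Cayley bijection
  obtain ⟨Cp, hCp⟩ : ∃ Cp : Set EE,
      Cp = {A | A * M = M * A ∧ tau A * A = 1 ∧ IsNilpotent (A - 1)} := ⟨_, rfl⟩
  have hmemCp : ∀ A, A ∈ Cp ↔ (A * M = M * A ∧ tau A * A = 1 ∧ IsNilpotent (A - 1)) := by
    intro A
    rw [hCp]
    rfl
  have hmemRm : ∀ S : EE, S ∈ Rpm M (-1) → S * M = M * S ∧ tau S = -S := by
    intro S hS
    refine ⟨hS.1, ?_⟩
    have h3 : tau S = (-1 : F) • S := hS.2
    rw [h3, neg_smul, one_smul]
  have hunitS : ∀ S : EE, IsNilpotent S → IsUnit (1 + S) := fun S h => h.isUnit_one_add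
  have hunitA : ∀ A : EE, IsNilpotent (A - 1) → IsUnit (1 + A) := by
    intro A h
    have h3 := h.isUnit_add_left_of_commute hu2 (by
      show (A - 1) * ((2 : F) • 1) = ((2 : F) • 1) * (A - 1)
      rw [mul_smul_comm, smul_mul_assoc, mul_one, one_mul])
    have h4 : (2 : F) • (1 : EE) + (A - 1) = 1 + A := by
      rw [two_smul]; abel
    rwa [h4] at h3
  have hc1 : ∀ S : EE, S ∈ Rpm M (-1) → cay S ∈ Cp := by
    intro S hS
    obtain ⟨hS1, hS2⟩ := hmemRm S hS
    have hnS := hD2 S hS1 hS2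
    have hU := hunitS S hnS
    have hdet : IsUnit (1 + S).det := (Matrix.isUnit_iff_isUnit_det _).mp hU
    have hX1 : (1 + S)⁻¹ * (1 + S) = 1 := Matrix.nonsing_inv_mul _ hdet
    have hX2 : (1 + S) * (1 + S)⁻¹ = 1 := Matrix.mul_nonsing_inv _ hdet
    rw [hmemCp]
    refine ⟨cay_comm M S hS1 hU, ?_, ?_⟩
    · have h3 : tau ((1 + S)⁻¹) * (1 - S) = 1 := by
        have h4 : (1 : EE) - S = tau (1 + S) := by
          rw [tau_add, tau_one, hS2]; abel
        rw [h4, ← tau_mul, hX2, tau_one]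
      have h5 : tau (cay S) = tau ((1 + S)⁻¹) + tau ((1 + S)⁻¹) - 1 := by
        unfold cay
        rw [tau_sub, tau_add, tau_one]
      rw [h5]
      exact cay_aux1 S _ _ hX2 h3
    · have hSX : (1 + S)⁻¹ * S = S * (1 + S)⁻¹ :=
        inv_comm_aux S (1 + S)⁻¹ (1 + S) (by noncomm_ring) hX1 hX2
      have h3 : cay S - 1 = S * (-((1 + S)⁻¹ + (1 + S)⁻¹)) := by
        have h4 : S * (-((1 + S)⁻¹ + (1 + S)⁻¹)) =
            (1 + S)⁻¹ + (1 + S)⁻¹ - (1 + S) * (1 + S)⁻¹ - (1 + S) * (1 + S)⁻¹ := by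
          noncomm_ring
        rw [h4, hX2]
        rfl
      rw [h3]
      have hcm : Commute S (-((1 + S)⁻¹ + (1 + S)⁻¹)) := by
        have h4 : Commute S (1 + S)⁻¹ := hSX.symm
        exact (h4.add_right h4).neg_right
      exact Commute.isNilpotent_mul_right hcm hnS
  have hc2 : ∀ A : EE, A ∈ Cp → cay A ∈ Rpm M (-1) := by
    intro A hA
    rw [hmemCp] at hA
    obtain ⟨hA1, hA2, hA3⟩ := hA
    have hU := hunitA A hA3
    have hdet : IsUnit (1 + A).det := (Matrix.isUnit_iff_isUnit_det _).mp hU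
    have hX2 : (1 + A) * (1 + A)⁻¹ = 1 := Matrix.mul_nonsing_inv _ hdet
    refine ⟨cay_comm M A hA1 hU, ?_⟩
    show tau (cay A) = (-1 : F) • cay A
    have h3 : tau ((1 + A)⁻¹) * (1 + tau A) = 1 := by
      have h4 : (1 : EE) + tau A = tau (1 + A) := by
        rw [tau_add, tau_one]
      rw [h4, ← tau_mul, hX2, tau_one]
    have h5 := cay_aux2 A (tau A) (1 + A)⁻¹ (tau ((1 + A)⁻¹)) hA2 hX2 h3
    have h6 : tau ((1 + A)⁻¹) = 1 - (1 + A)⁻¹ := eq_sub_of_add_eq h5
    unfold cay
    rw [tau_sub, tau_add, tau_one, h6, neg_smul, one_smul]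
    abel
  have hCpcard : Cp.ncard = q ^ m := by
    have h3 : ((Rpm M (-1) : Submodule F EE) : Set EE).ncard = Cp.ncard := by
      apply Set.ncard_congr (fun S _ => cay S)
      · intro S hS
        exact hc1 S hS
      · intro S S' hS hS' h
        have h' : cay S = cay S' := h
        have e1 := cay_cay h2 S (hunitS S (hD2 S (hmemRm S hS).1 (hmemRm S hS).2))
        have e2 := cay_cay h2 S' (hunitS S' (hD2 S' (hmemRm S' hS').1 (hmemRm S' hS').2))
        rw [← e1, ← e2, h']
      · intro A hA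
        have hA' := (hmemCp A).mp hA
        exact ⟨cay A, hc2 A hA, cay_cay h2 A (hunitA A hA'.2.2)⟩
    rw [← h3, ← Nat.card_coe_set_eq]
    have h4 : Nat.card ↥(Rpm M (-1)) = q ^ m := by
      rw [Module.natCard_eq_pow_finrank (K := F) (V := ↥(Rpm M (-1))), hdm,
        Nat.card_eq_fintype_card, hF]
    exact h4
  have hset : {A : EE | A ∈ Matrix.symplecticGroup (Fin m) F ∧ A * M = M * A} =
      Cp ∪ (fun A => -A) '' Cp := by
    ext A
    simp only [Set.mem_setOf_eq, Set.mem_union, Set.mem_image, hmemCp]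
    constructor
    · rintro ⟨hA1, hA2⟩
      have htA := (mem_sp_iff A).mp hA1
      rcases hD1 A hA2 htA with h | h
      · left
        exact ⟨hA2, htA, h⟩
      · right
        refine ⟨-A, ⟨?_, ?_, ?_⟩, neg_neg A⟩
        · rw [neg_mul, mul_neg, hA2]
        · rw [tau_neg, neg_mul_neg, htA]
        · have h3 : -A - 1 = -(A + 1) := by abel
          rw [h3]
          exact h.neg
    · rintro (⟨h1, h3, h4⟩ | ⟨B, ⟨h1, h3, h4⟩, rfl⟩)
      · exact ⟨(mem_sp_iff A).mpr h3, h1⟩
      · refine ⟨(mem_sp_iff _).mpr ?_, ?_⟩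
        · rw [tau_neg, neg_mul_neg, h3]
        · rw [neg_mul, mul_neg, h1]
  have hdisj : Disjoint Cp ((fun A => -A) '' Cp) := by
    rw [Set.disjoint_left]
    rintro A hA ⟨B, hB, hBA⟩
    have hBA' : -B = A := hBA
    have hA' := (hmemCp A).mp hA
    have hB' := (hmemCp B).mp hB
    have hB3 : IsNilpotent (-A - 1) := by
      have h3 : B = -A := by rw [← hBA', neg_neg]
      rw [← h3]
      exact hB'.2.2
    have hcm : Commute (A - 1) (-A - 1) := by
      show (A - 1) * (-A - 1) = (-A - 1) * (A - 1)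
      noncomm_ring
    have h3 := Commute.isNilpotent_add hcm hA'.2.2 hB3
    have h4 : (A - 1) + (-A - 1) = (-2 : F) • (1 : EE) := by
      rw [neg_smul, two_smul]; abel
    rw [h4] at h3
    have h5 := scalar_nilp _ h3
    exact h2 (neg_eq_zero.mp h5)
  rw [hset, Set.ncard_union_eq hdisj (Set.toFinite _) (Set.toFinite _),
    Set.ncard_image_of_injective _ neg_injective, hCpcard]
  ring

end mainsec

end helpers


/-- Over a finite field with q elements, q odd, the centraliser in Sp_2m(F) (m ≥ 1) of a regular unipotent element (u − 1 nilpotent of rank 2m − 1) has order 2 q^m. -/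
theorem result {F : Type*} [Field F] [Fintype F] {q : ℕ} (hF : Fintype.card F = q) (hq : Odd q) {m : ℕ} (hm : 1 ≤ m) (u : Matrix.symplecticGroup (Fin m) F) (hnil : ((u : Matrix (Fin m ⊕ Fin m) (Fin m ⊕ Fin m) F) - 1) ^ (2 * m) = 0) (hreg : ((u : Matrix (Fin m ⊕ Fin m) (Fin m ⊕ Fin m) F) - 1).rank = 2 * m - 1) : Nat.card ↥(Subgroup.centralizer ({u} : Set ↥(Matrix.symplecticGroup (Fin m) F))) = 2 * q ^ m := by
  have h := main hF hq hm u.1 u.2 hnil hreg
  rw [← h, ← Nat.card_coe_set_eq]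
  refine Nat.card_congr ?_
  exact
    { toFun := fun g => ⟨g.1.1, g.1.2, by
          have hg := Subgroup.mem_centralizer_singleton_iff.mp g.2
          have := congrArg (fun y : ↥(Matrix.symplecticGroup (Fin m) F) =>
            (y : Matrix (Fin m ⊕ Fin m) (Fin m ⊕ Fin m) F)) hg
          simpa using this⟩
      invFun := fun A => ⟨⟨A.1, A.2.1⟩, by
          rw [Subgroup.mem_centralizer_singleton_iff]
          apply Subtype.ext
          exact A.2.2⟩
      left_inv := fun g => rfl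
      right_inv := fun A => rfl }

end Cfsg.Agent.S2592
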