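import Cfsg.Statements.S2591
import Mathlib
import Cfsg.Agent.S2592

set_option autoImplicit false
open Cfsg

namespace Cfsg.Agent.S2591

section helpers

open Polynomial
open scoped Matrix
open Cfsg.Agent.S2592

/-! ### conjugacy of cyclic nilpotent matrices -/

section glc
variable {F : Type*} [Field F] {I : Type*} [Fintype I] [DecidableEq I]

theorem span_cyc (K : Matrix I I F) (x : I → F) (n : ℕ) (hK : K ^ n = 0)
    (hx : ∀ w : I → F, ∃ p : F[X], w = (aeval K p) *ᵥ x) :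
    ⊤ ≤ Submodule.span F (Set.range fun i : Fin n => (K ^ (i : ℕ)) *ᵥ x) := by
  have key : ∀ p : F[X], (aeval K p) *ᵥ x ∈
      Submodule.span F (Set.range fun i : Fin n => (K ^ (i : ℕ)) *ᵥ x) := by
    intro p
    induction p using Polynomial.induction_on' with
    | add a c ha hc =>
      rw [map_add, Matrix.add_mulVec]
      exact Submodule.add_mem _ ha hc
    | monomial j c =>
      rw [← C_mul_X_pow_eq_monomial, map_mul, map_pow, aeval_C, aeval_X,
        Algebra.algebraMap_eq_smul_one, smul_mul_assoc, one_mul, Matrix.smul_mulVec]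
      apply Submodule.smul_mem
      by_cases hj : j < n
      · exact Submodule.subset_span ⟨⟨j, hj⟩, rfl⟩
      · have h0 : K ^ j = 0 := by
          have hjn : j = n + (j - n) := by omega
          rw [hjn, pow_add, hK, zero_mul]
        rw [h0, Matrix.zero_mulVec]
        exact Submodule.zero_mem _
  intro w _
  obtain ⟨p, rfl⟩ := hx w
  exact key p

theorem gl_conj (N N' : Matrix I I F) (hN : N ^ (Fintype.card I) = 0)
    (hN' : N' ^ (Fintype.card I) = 0) (v v' : I → F)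
    (hv : ∀ w : I → F, ∃ p : F[X], w = (aeval N p) *ᵥ v)
    (hv' : ∀ w : I → F, ∃ p : F[X], w = (aeval N' p) *ᵥ v') :
    ∃ G G' : Matrix I I F, G * G' = 1 ∧ G' * G = 1 ∧ G * N = N' * G := by
  classical
  have hcard : Fintype.card (Fin (Fintype.card I)) = Module.finrank F (I → F) := by
    rw [Fintype.card_fin, Module.finrank_fintype_fun_eq_card]
  let b := basisOfTopLeSpanOfCardEqFinrank (fun i : Fin (Fintype.card I) => (N ^ (i : ℕ)) *ᵥ v)
    (span_cyc N v _ hN hv) hcard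
  let b' := basisOfTopLeSpanOfCardEqFinrank (fun i : Fin (Fintype.card I) => (N' ^ (i : ℕ)) *ᵥ v')
    (span_cyc N' v' _ hN' hv') hcard
  have hb : ∀ i : Fin (Fintype.card I), b i = (N ^ (i : ℕ)) *ᵥ v := fun i => by
    show (basisOfTopLeSpanOfCardEqFinrank _ _ _) i = _
    rw [coe_basisOfTopLeSpanOfCardEqFinrank]
  have hb' : ∀ i : Fin (Fintype.card I), b' i = (N' ^ (i : ℕ)) *ᵥ v' := fun i => by
    show (basisOfTopLeSpanOfCardEqFinrank _ _ _) i = _
    rw [coe_basisOfTopLeSpanOfCardEqFinrank]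
  let e : (I → F) ≃ₗ[F] (I → F) := b.equiv b' (Equiv.refl _)
  have he : ∀ i, e (b i) = b' i := fun i => by
    show b.equiv b' (Equiv.refl _) (b i) = b' i
    rw [Module.Basis.equiv_apply]
    rfl
  refine ⟨LinearMap.toMatrix' e.toLinearMap, LinearMap.toMatrix' e.symm.toLinearMap, ?_, ?_, ?_⟩
  · rw [← LinearMap.toMatrix'_comp]
    have h1 : e.toLinearMap.comp e.symm.toLinearMap = LinearMap.id := by
      apply LinearMap.ext
      intro x
      simp
    rw [h1, LinearMap.toMatrix'_id]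
  · rw [← LinearMap.toMatrix'_comp]
    have h1 : e.symm.toLinearMap.comp e.toLinearMap = LinearMap.id := by
      apply LinearMap.ext
      intro x
      simp
    rw [h1, LinearMap.toMatrix'_id]
  · apply Matrix.toLin'.injective
    rw [Matrix.toLin'_mul, Matrix.toLin'_mul, Matrix.toLin'_toMatrix']
    apply b.ext
    intro i
    rw [LinearMap.comp_apply, LinearMap.comp_apply, Matrix.toLin'_apply, Matrix.toLin'_apply]
    show e (N *ᵥ b i) = N' *ᵥ e (b i)
    rw [he, hb, hb', Matrix.mulVec_mulVec, Matrix.mulVec_mulVec, ← pow_succ', ← pow_succ']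
    by_cases hi : (i : ℕ) + 1 < Fintype.card I
    · have h1 : (N ^ ((i : ℕ) + 1)) *ᵥ v = b ⟨(i : ℕ) + 1, hi⟩ := (hb ⟨_, hi⟩).symm
      rw [h1, he, hb']
    · have h1 : (i : ℕ) + 1 = Fintype.card I := by
        have := i.2
        omega
      rw [h1, hN, hN', Matrix.zero_mulVec, Matrix.zero_mulVec, map_zero]

end glc

/-! ### the commutant of a regular unipotent symplectic matrix -/

section rfacts
variable {F : Type*} [Field F] {m : ℕ}

local notation "EE" => Matrix (Fin m ⊕ Fin m) (Fin m ⊕ Fin m) F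

/-- regular unipotent symplectic matrices -/
def RU (M : Matrix (Fin m ⊕ Fin m) (Fin m ⊕ Fin m) F) : Prop :=
  tau M * M = 1 ∧ (M - 1) ^ (2 * m) = 0 ∧ (M - 1).rank = 2 * m - 1

theorem exists_cyc (hm : 1 ≤ m) (M : EE) (hM : RU M) :
    ∃ v : Fin m ⊕ Fin m → F, ∀ w : Fin m ⊕ Fin m → F, ∃ p : F[X], w = (aeval (M - 1) p) *ᵥ v := by
  obtain ⟨-, hnil, hreg⟩ := hM
  have hcard : Fintype.card (Fin m ⊕ Fin m) = 2 * m := by
    rw [Fintype.card_sum, Fintype.card_fin]; omega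
  have hrank : Module.finrank F (LinearMap.range (M - 1).mulVecLin) = 2 * m - 1 := hreg
  exact cyclic (M - 1) (2 * m) hnil (by rw [hcard, hrank]; omega)

theorem Rfacts (hm : 1 ≤ m) (M : EE) (hM : RU M) :
    (∀ A B : EE, A * M = M * A → B * M = M * B → A * B = B * A) ∧
    (∀ A : EE, A * M = M * A → tau A * M = M * tau A) ∧
    (∀ A : EE, A * M = M * A → ∃ c : F, IsNilpotent (A - c • 1)) := by
  obtain ⟨v, hv⟩ := exists_cyc hm M hM
  obtain ⟨htM, hnil, hreg⟩ := hM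
  obtain ⟨N, hN⟩ : ∃ N : EE, N = M - 1 := ⟨_, rfl⟩
  rw [← hN] at hnil hreg hv
  have hMt : M * tau M = 1 := mul_eq_one_comm.mp htM
  have hRN : ∀ A : EE, A * M = M * A → A * N = N * A := by
    intro A h
    rw [hN, mul_sub, sub_mul, h, mul_one, one_mul]
  have hpoly : ∀ A : EE, A * M = M * A → ∃ p : F[X], A = aeval N p :=
    fun A h => commutant N v hv A (hRN A h)
  refine ⟨?_, ?_, ?_⟩
  · intro A B hA hB
    obtain ⟨p, rfl⟩ := hpoly A hA
    obtain ⟨r, rfl⟩ := hpoly B hB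
    rw [← map_mul, ← map_mul, mul_comm]
  · intro A h
    have h1 : tau M * tau A = tau A * tau M := by rw [← tau_mul, ← tau_mul, h]
    calc tau A * M = (M * tau M) * tau A * M := by rw [hMt, one_mul]
      _ = M * (tau M * tau A) * M := by noncomm_ring
      _ = M * (tau A * tau M) * M := by rw [h1]
      _ = M * tau A * (tau M * M) := by noncomm_ring
      _ = M * tau A := by rw [htM, mul_one]
  · intro A h
    obtain ⟨p, rfl⟩ := hpoly A h
    refine ⟨p.coeff 0, ?_⟩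
    have e : aeval N p - p.coeff 0 • (1 : EE) = aeval N p.divX * N := by
      have h3 := congrArg (aeval N) (Polynomial.divX_mul_X_add p)
      rw [map_add, map_mul, aeval_X, aeval_C, Algebra.algebraMap_eq_smul_one] at h3
      rw [← h3]
      abel
    rw [e]
    refine ⟨2 * m, ?_⟩
    have hc : Commute (aeval N p.divX) N := aeval_comm_self N p.divX
    rw [hc.mul_pow, hnil, mul_zero]

/-- if `tau A * A` is the scalar `a` for `A` in the commutant, then `a` is a square -/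
theorem norm_scalar (hm : 1 ≤ m) (M : EE) (hM : RU M) (A : EE) (hA : A * M = M * A) (a : F)
    (htA : tau A * A = a • 1) : IsSquare a := by
  have : Nonempty (Fin m ⊕ Fin m) := ⟨Sum.inl ⟨0, hm⟩⟩
  obtain ⟨hRcomm, hRtau, hdec⟩ := Rfacts hm M hM
  obtain ⟨c, hc⟩ := hdec A hA
  obtain ⟨B, hB⟩ : ∃ B, B = A - c • (1 : EE) := ⟨_, rfl⟩
  rw [← hB] at hc
  have hBR : B * M = M * B := by
    rw [hB, sub_mul, mul_sub, smul_mul_assoc, mul_smul_comm, one_mul, mul_one, hA]
  have htBR : tau B * M = M * tau B := hRtau _ hBR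
  have hkey : (c ^ 2 - a) • (1 : EE) = -(c • B + tau B * A) := by
    have h1 : tau B * A = a • 1 - c • A := by
      rw [hB, tau_sub, tau_smul, tau_one, sub_mul, smul_mul_assoc, one_mul, htA]
    rw [h1, hB, smul_sub, smul_smul, sub_smul, pow_two]
    abel
  have hn1 : IsNilpotent (c • B) := hc.smul c
  have hn2 : IsNilpotent (tau B * A) :=
    Commute.isNilpotent_mul_right (hRcomm _ _ htBR hA) (tau_nilp hc)
  have hcm : Commute (c • B) (tau B * A) := by
    apply hRcomm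
    · rw [smul_mul_assoc, mul_smul_comm, hBR]
    · calc tau B * A * M = tau B * (A * M) := mul_assoc _ _ _
        _ = tau B * (M * A) := by rw [hA]
        _ = (tau B * M) * A := (mul_assoc _ _ _).symm
        _ = (M * tau B) * A := by rw [htBR]
        _ = M * (tau B * A) := mul_assoc _ _ _
  have hnil2 : IsNilpotent ((c ^ 2 - a) • (1 : EE)) := by
    rw [hkey]
    exact (Commute.isNilpotent_add hcm hn1 hn2).neg
  have hc1 := scalar_nilp _ hnil2
  exact ⟨c, by linear_combination -hc1⟩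

end rfacts

/-! ### square roots in the commutant -/

section sqrt
variable {F : Type*} [Field F] [Fintype F] {m : ℕ}

local notation "EE" => Matrix (Fin m ⊕ Fin m) (Fin m ⊕ Fin m) F

theorem nsq_mul_nsq (a b : F) (ha : ¬ IsSquare a) (hb : ¬ IsSquare b) : IsSquare (a * b) := by
  classical
  have ha0 : a ≠ 0 := by rintro rfl; exact ha ⟨0, by simp⟩
  have hb0 : b ≠ 0 := by rintro rfl; exact hb ⟨0, by simp⟩
  rw [← quadraticChar_one_iff_isSquare (mul_ne_zero ha0 hb0), map_mul,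
    quadraticChar_neg_one_iff_not_isSquare.2 ha, quadraticChar_neg_one_iff_not_isSquare.2 hb]
  norm_num

theorem norm_form (h2 : (2 : F) ≠ 0) (hm : 1 ≤ m) (M : EE) (hM : RU M)
    (S : EE) (hS : S * M = M * S) (htS : tau S = S) (hU : IsUnit S) :
    ∃ (c : F) (h h' : EE), c ≠ 0 ∧ h * M = M * h ∧ h' * M = M * h' ∧ h * h' = 1 ∧ h' * h = 1 ∧
      S = c • (tau h * h) := by
  classical
  have : Nonempty (Fin m ⊕ Fin m) := ⟨Sum.inl ⟨0, hm⟩⟩
  obtain ⟨hRcomm, hRtau, hdec⟩ := Rfacts hm M hM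
  obtain ⟨c, hc⟩ := hdec S hS
  have hc0 : c ≠ 0 := by
    rintro rfl
    rw [zero_smul, sub_zero] at hc
    exact hc.not_isUnit hU
  have hu2 : IsUnit ((2 : F) • (1 : EE)) := by
    rw [← Algebra.algebraMap_eq_smul_one]
    exact (IsUnit.mk0 (2 : F) h2).map (algebraMap F _)
  let U : Set EE := {A | A * M = M * A ∧ tau A = A ∧ IsNilpotent (A - 1)}
  have hsqmem : ∀ A : EE, A ∈ U → A * A ∈ U := by
    rintro A ⟨h1, h3, h4⟩
    refine ⟨?_, ?_, ?_⟩
    · calc A * A * M = A * (A * M) := mul_assoc _ _ _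
        _ = A * (M * A) := by rw [h1]
        _ = (A * M) * A := (mul_assoc _ _ _).symm
        _ = (M * A) * A := by rw [h1]
        _ = M * (A * A) := mul_assoc _ _ _
    · rw [tau_mul, h3]
    · have h5 : A * A - 1 = (A - 1) * (A + 1) := by noncomm_ring
      rw [h5]
      exact Commute.isNilpotent_mul_right
        (show (A - 1) * (A + 1) = (A + 1) * (A - 1) by noncomm_ring) h4
  let sq : ↥U → ↥U := fun A => ⟨A.1 * A.1, hsqmem A.1 A.2⟩
  have hsqinj : Function.Injective sq := by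
    intro A B hAB
    have h1 : A.1 * A.1 = B.1 * B.1 := congrArg Subtype.val hAB
    obtain ⟨hA1, hA2, hA3⟩ := A.2
    obtain ⟨hB1, hB2, hB3⟩ := B.2
    have hcomm : A.1 * B.1 = B.1 * A.1 := hRcomm _ _ hA1 hB1
    have h3 : (A.1 - B.1) * (A.1 + B.1) = 0 := by
      have h4 : (A.1 - B.1) * (A.1 + B.1) =
          A.1 * A.1 - B.1 * B.1 + (A.1 * B.1 - B.1 * A.1) := by noncomm_ring
      rw [h4, h1, hcomm, sub_self, sub_self, add_zero]
    have hunit : IsUnit (A.1 + B.1) := by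
      have hn : IsNilpotent ((A.1 - 1) + (B.1 - 1)) := by
        refine Commute.isNilpotent_add ?_ hA3 hB3
        show (A.1 - 1) * (B.1 - 1) = (B.1 - 1) * (A.1 - 1)
        have h4 : (A.1 - 1) * (B.1 - 1) = A.1 * B.1 - A.1 - B.1 + 1 := by noncomm_ring
        have h5 : (B.1 - 1) * (A.1 - 1) = B.1 * A.1 - A.1 - B.1 + 1 := by noncomm_ring
        rw [h4, h5, hcomm]
      have h4 := hn.isUnit_add_left_of_commute hu2 (by
        show ((A.1 - 1) + (B.1 - 1)) * ((2 : F) • 1) = ((2 : F) • 1) * ((A.1 - 1) + (B.1 - 1))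
        rw [mul_smul_comm, smul_mul_assoc, mul_one, one_mul])
      have h5 : (2 : F) • (1 : EE) + ((A.1 - 1) + (B.1 - 1)) = A.1 + B.1 := by
        rw [two_smul]; abel
      rwa [h5] at h4
    have h4 := hunit.mul_left_eq_zero.mp h3
    exact Subtype.ext (sub_eq_zero.mp h4)
  have hsqsurj := Finite.surjective_of_injective hsqinj
  have hs'U : c⁻¹ • S ∈ U := by
    refine ⟨?_, ?_, ?_⟩
    · rw [smul_mul_assoc, mul_smul_comm, hS]
    · rw [tau_smul, htS]
    · have h1 : c⁻¹ • S - 1 = c⁻¹ • (S - c • 1) := by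
        rw [smul_sub, smul_smul, inv_mul_cancel₀ hc0, one_smul]
      rw [h1]
      exact hc.smul _
  obtain ⟨r, hr⟩ := hsqsurj ⟨c⁻¹ • S, hs'U⟩
  have hr' : r.1 * r.1 = c⁻¹ • S := congrArg Subtype.val hr
  obtain ⟨hr1, hr2, hr3⟩ := r.2
  have hrU : IsUnit r.1 := by
    have h1 := hr3.isUnit_one_add
    have h3 : (1 : EE) + (r.1 - 1) = r.1 := by abel
    rwa [h3] at h1
  obtain ⟨ru, hru⟩ := hrU
  refine ⟨c, r.1, ↑ru⁻¹, hc0, hr1, ?_, ?_, ?_, ?_⟩
  · exact inv_comm_aux M _ r.1 hr1 (by rw [← hru]; exact ru.inv_mul)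
      (by rw [← hru]; exact ru.mul_inv)
  · rw [← hru]; exact ru.mul_inv
  · rw [← hru]; exact ru.inv_mul
  · rw [hr2, hr', smul_smul, mul_inv_cancel₀ hc0, one_smul]

end sqrt

/-! ### existence of a regular unipotent symplectic matrix -/

section exist
variable {F : Type*} [Field F] {m : ℕ}

local notation "EE" => Matrix (Fin m ⊕ Fin m) (Fin m ⊕ Fin m) F

/-- shift matrix -/
def shA (m : ℕ) (F : Type*) [Field F] : Matrix (Fin m) (Fin m) F :=
  Matrix.of fun i j => if (j : ℕ) + 1 = (i : ℕ) then 1 else 0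

/-- corner matrix -/
def shC (m : ℕ) (F : Type*) [Field F] : Matrix (Fin m) (Fin m) F :=
  Matrix.of fun i j => if (i : ℕ) + 1 = m ∧ (j : ℕ) + 1 = m then 1 else 0

/-- a regular nilpotent element of the symplectic Lie algebra -/
def S0 (m : ℕ) (F : Type*) [Field F] : Matrix (Fin m ⊕ Fin m) (Fin m ⊕ Fin m) F :=
  Matrix.fromBlocks (shA m F) 0 (shC m F) (-(shA m F)ᵀ)

/-- the weight function -/
def wt0 (m : ℕ) : Fin m ⊕ Fin m → ℕ
  | Sum.inl i => i
  | Sum.inr j => 2 * m - 1 - j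

theorem S0_ll (a j : Fin m) :
    S0 m F (Sum.inl a) (Sum.inl j) = if (j : ℕ) + 1 = (a : ℕ) then 1 else 0 := rfl

theorem S0_lr (a j : Fin m) : S0 m F (Sum.inl a) (Sum.inr j) = 0 := rfl

theorem S0_rl (a j : Fin m) :
    S0 m F (Sum.inr a) (Sum.inl j) = if (a : ℕ) + 1 = m ∧ (j : ℕ) + 1 = m then 1 else 0 := rfl

theorem S0_rr (a j : Fin m) :
    S0 m F (Sum.inr a) (Sum.inr j) = -(if (a : ℕ) + 1 = (j : ℕ) then 1 else 0) := rfl

theorem tau_S0 : tau (S0 m F) = -S0 m F := by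
  have hC : (shC m F)ᵀ = shC m F := by
    ext i j
    simp [shC, Matrix.transpose_apply, and_comm]
  unfold tau S0 Matrix.J
  rw [Matrix.fromBlocks_transpose, Matrix.fromBlocks_multiply, Matrix.fromBlocks_multiply,
    Matrix.fromBlocks_neg, Matrix.fromBlocks_neg]
  simp [hC]

theorem graded_pow {I : Type*} [Fintype I] [DecidableEq I] (S : Matrix I I F) (wt : I → ℕ)
    (h : ∀ i j, S i j ≠ 0 → wt i = wt j + 1) (k : ℕ) :
    ∀ i j, (S ^ k) i j ≠ 0 → wt i = wt j + k := by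
  induction k with
  | zero =>
    intro i j hij
    rw [pow_zero] at hij
    by_cases e : i = j
    · rw [e]; rfl
    · exact absurd (Matrix.one_apply_ne e) hij
  | succ k ih =>
    intro i j hij
    rw [pow_succ, Matrix.mul_apply] at hij
    obtain ⟨l, _, hl⟩ := Finset.exists_ne_zero_of_sum_ne_zero hij
    have h1 := ih i l (left_ne_zero_of_mul hl)
    have h2 := h l j (right_ne_zero_of_mul hl)
    omega

theorem S0_graded : ∀ i j, S0 m F i j ≠ 0 → wt0 m i = wt0 m j + 1 := by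
  rintro (i | i) (j | j) h
  · rw [S0_ll] at h
    have h1 : (j : ℕ) + 1 = i := by
      by_contra hne
      exact h (if_neg hne)
    simp only [wt0]
    omega
  · rw [S0_lr] at h
    exact absurd rfl h
  · rw [S0_rl] at h
    have h1 : (i : ℕ) + 1 = m ∧ (j : ℕ) + 1 = m := by
      by_contra hne
      exact h (if_neg hne)
    simp only [wt0]
    omega
  · rw [S0_rr] at h
    have h1 : (i : ℕ) + 1 = j := by
      by_contra hne
      apply h
      rw [if_neg hne, neg_zero]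
    have := i.2
    have := j.2
    simp only [wt0]
    omega

theorem S0_pow : S0 m F ^ (2 * m) = 0 := by
  ext i j
  rw [Matrix.zero_apply]
  by_contra hij
  have h1 := graded_pow (S0 m F) (wt0 m) S0_graded (2 * m) i j hij
  have h3 : wt0 m i < 2 * m := by
    rcases i with i | i
    · have := i.2
      simp only [wt0]
      omega
    · have := i.2
      simp only [wt0]
      omega
  omega

theorem S0_rank (hm : 1 ≤ m) : (S0 m F).rank = 2 * m - 1 := by
  classical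
  have hcard : Fintype.card (Fin m ⊕ Fin m) = 2 * m := by
    rw [Fintype.card_sum, Fintype.card_fin]; omega
  have hrn := LinearMap.finrank_range_add_finrank_ker (S0 m F).mulVecLin
  rw [Module.finrank_fintype_fun_eq_card, hcard] at hrn
  show Module.finrank F (LinearMap.range (S0 m F).mulVecLin) = 2 * m - 1
  have hk : 0 < Module.finrank F (LinearMap.ker (S0 m F).mulVecLin) := by
    rw [Module.finrank_pos_iff_exists_ne_zero]
    refine ⟨⟨Pi.single (Sum.inr ⟨0, hm⟩) 1, ?_⟩, ?_⟩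
    · rw [LinearMap.mem_ker, Matrix.mulVecLin_apply, Matrix.mulVec_single_one]
      ext i
      rcases i with i | i
      · rw [Matrix.col_apply, S0_lr]; rfl
      · rw [Matrix.col_apply, S0_rr, if_neg (by simp), neg_zero]; rfl
    · intro h
      have h1 := congrArg (fun x : ↥(LinearMap.ker (S0 m F).mulVecLin) =>
        x.1 (Sum.inr ⟨0, hm⟩)) h
      simp at h1
  have hr : 2 * m - 1 ≤ Module.finrank F (LinearMap.range (S0 m F).mulVecLin) := by
    have hli : LinearIndependent F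
        (fun y : {y : Fin m ⊕ Fin m // y ≠ Sum.inl ⟨0, hm⟩} =>
          Pi.basisFun F (Fin m ⊕ Fin m) y.1) :=
      (Pi.basisFun F (Fin m ⊕ Fin m)).linearIndependent.comp Subtype.val Subtype.val_injective
    have h1 := finrank_span_eq_card hli
    have h3 : Fintype.card {y : Fin m ⊕ Fin m // y ≠ Sum.inl ⟨0, hm⟩} = 2 * m - 1 := by
      have h4 := Set.card_ne_eq (Sum.inl ⟨0, hm⟩ : Fin m ⊕ Fin m)
      rw [hcard] at h4
      rw [← h4]
      exact Fintype.card_congr (Equiv.refl _)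
    rw [← h3, ← h1]
    apply Submodule.finrank_mono
    rw [Submodule.span_le]
    rintro _ ⟨⟨y, hy⟩, rfl⟩
    show Pi.basisFun F (Fin m ⊕ Fin m) y ∈ LinearMap.range (S0 m F).mulVecLin
    rw [Pi.basisFun_apply]
    rcases y with i | i
    · have hi : (i : ℕ) ≠ 0 := fun h => hy (congrArg Sum.inl (Fin.ext h))
      refine ⟨Pi.single (Sum.inl ⟨(i : ℕ) - 1, by have := i.2; omega⟩) 1, ?_⟩
      rw [Matrix.mulVecLin_apply, Matrix.mulVec_single_one]
      ext z
      rcases z with a | a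
      · rw [Matrix.col_apply, S0_ll]
        by_cases hai : a = i
        · subst hai
          rw [if_pos (by show (a : ℕ) - 1 + 1 = a; omega), Pi.single_eq_same]
        · rw [if_neg (by
            show ¬ ((i : ℕ) - 1 + 1 = a)
            intro h
            exact hai (Fin.ext (by omega))),
            Pi.single_eq_of_ne (fun h => hai (Sum.inl.inj h))]
      · rw [Matrix.col_apply, S0_rl, if_neg (by
          show ¬ ((a : ℕ) + 1 = m ∧ (i : ℕ) - 1 + 1 = m)
          have := i.2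
          omega), Pi.single_eq_of_ne (by simp)]
    · by_cases hi : (i : ℕ) + 1 = m
      · refine ⟨Pi.single (Sum.inl i) 1, ?_⟩
        rw [Matrix.mulVecLin_apply, Matrix.mulVec_single_one]
        ext z
        rcases z with a | a
        · rw [Matrix.col_apply, S0_ll, if_neg (by have := a.2; omega),
            Pi.single_eq_of_ne (by simp)]
        · rw [Matrix.col_apply, S0_rl]
          by_cases hai : a = i
          · subst hai
            rw [if_pos ⟨hi, hi⟩, Pi.single_eq_same]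
          · rw [if_neg (by
              intro h
              exact hai (Fin.ext (by omega))),
              Pi.single_eq_of_ne (fun h => hai (Sum.inr.inj h))]
      · refine ⟨-Pi.single (Sum.inr ⟨(i : ℕ) + 1, by have := i.2; omega⟩) 1, ?_⟩
        rw [Matrix.mulVecLin_apply, Matrix.mulVec_neg, Matrix.mulVec_single_one]
        ext z
        rcases z with a | a
        · rw [Pi.neg_apply, Matrix.col_apply, S0_lr, neg_zero, Pi.single_eq_of_ne (by simp)]
        · rw [Pi.neg_apply, Matrix.col_apply, S0_rr, neg_neg]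
          by_cases hai : a = i
          · subst hai
            rw [if_pos rfl, Pi.single_eq_same]
          · rw [if_neg (by
              show ¬ ((a : ℕ) + 1 = (i : ℕ) + 1)
              intro h
              exact hai (Fin.ext (by omega))),
              Pi.single_eq_of_ne (fun h => hai (Sum.inr.inj h))]
  omega

theorem exists_RU (h2 : (2 : F) ≠ 0) (hm : 1 ≤ m) : ∃ M : EE, RU M := by
  have hnS : IsNilpotent (S0 m F) := ⟨2 * m, S0_pow⟩
  have hU := hnS.isUnit_one_add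
  have hdet : IsUnit (1 + S0 m F).det := (Matrix.isUnit_iff_isUnit_det _).mp hU
  have hX1 : (1 + S0 m F)⁻¹ * (1 + S0 m F) = 1 := Matrix.nonsing_inv_mul _ hdet
  have hX2 : (1 + S0 m F) * (1 + S0 m F)⁻¹ = 1 := Matrix.mul_nonsing_inv _ hdet
  have hSX : (1 + S0 m F)⁻¹ * S0 m F = S0 m F * (1 + S0 m F)⁻¹ :=
    inv_comm_aux (S0 m F) (1 + S0 m F)⁻¹ (1 + S0 m F) (by noncomm_ring) hX1 hX2
  have h3 : cay (S0 m F) - 1 = S0 m F * (-((1 + S0 m F)⁻¹ + (1 + S0 m F)⁻¹)) := by
    have h4 : S0 m F * (-((1 + S0 m F)⁻¹ + (1 + S0 m F)⁻¹)) =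
        (1 + S0 m F)⁻¹ + (1 + S0 m F)⁻¹ - (1 + S0 m F) * (1 + S0 m F)⁻¹ -
          (1 + S0 m F) * (1 + S0 m F)⁻¹ := by
      noncomm_ring
    rw [h4, hX2]
    rfl
  have hcm : Commute (S0 m F) (-((1 + S0 m F)⁻¹ + (1 + S0 m F)⁻¹)) := by
    have h4 : Commute (S0 m F) (1 + S0 m F)⁻¹ := hSX.symm
    exact (h4.add_right h4).neg_right
  have hdetY : IsUnit (-((1 + S0 m F)⁻¹ + (1 + S0 m F)⁻¹)).det := by
    apply Matrix.isUnit_det_of_right_inverse (B := (-(2⁻¹ : F)) • (1 + S0 m F))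
    rw [mul_smul_comm, neg_mul, add_mul, hX1, neg_smul, smul_neg, neg_neg,
      ← two_smul F (1 : EE), smul_smul, inv_mul_cancel₀ h2, one_smul]
  refine ⟨cay (S0 m F), ?_, ?_, ?_⟩
  · have h5 : tau ((1 + S0 m F)⁻¹) * (1 - S0 m F) = 1 := by
      have h4 : (1 : EE) - S0 m F = tau (1 + S0 m F) := by
        rw [tau_add, tau_one, tau_S0]; abel
      rw [h4, ← tau_mul, hX2, tau_one]
    have h6 : tau (cay (S0 m F)) = tau ((1 + S0 m F)⁻¹) + tau ((1 + S0 m F)⁻¹) - 1 := by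
      unfold cay
      rw [tau_sub, tau_add, tau_one]
    rw [h6]
    exact cay_aux1 (S0 m F) _ _ hX2 h5
  · rw [h3, hcm.mul_pow, S0_pow, zero_mul]
  · rw [h3, Matrix.rank_mul_eq_left_of_isUnit_det _ _ hdetY, S0_rank hm]

end exist

/-! ### the two classes -/

section classes
variable {F : Type*} [Field F] {m : ℕ}

local notation "EE" => Matrix (Fin m ⊕ Fin m) (Fin m ⊕ Fin m) F

/-- a similitude with multiplier `a` -/
def Dm (m : ℕ) {F : Type*} [Field F] (a : F) : Matrix (Fin m ⊕ Fin m) (Fin m ⊕ Fin m) F :=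
  Matrix.fromBlocks (a • 1) 0 0 1

theorem Dm_mul (a b : F) : Dm m a * Dm m b = Dm m (a * b) := by
  unfold Dm
  rw [Matrix.fromBlocks_multiply]
  simp [smul_smul, mul_comm a b]

theorem Dm_one : Dm m (1 : F) = 1 := by
  unfold Dm
  rw [one_smul, Matrix.fromBlocks_one]

theorem tau_Dm (a : F) : tau (Dm m a) * Dm m a = a • 1 := by
  unfold tau Dm Matrix.J
  rw [Matrix.fromBlocks_transpose, Matrix.fromBlocks_multiply, Matrix.fromBlocks_multiply,
    Matrix.fromBlocks_neg, Matrix.fromBlocks_multiply, ← Matrix.fromBlocks_one,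
    Matrix.fromBlocks_smul]
  simp

theorem RU_conj (μ : F) (hμ0 : μ ≠ 0) (M₁ : EE) (hM₁ : RU M₁) :
    RU (Dm m μ * M₁ * Dm m μ⁻¹) := by
  have hDD : Dm m μ⁻¹ * Dm m μ = 1 := by rw [Dm_mul, inv_mul_cancel₀ hμ0, Dm_one]
  have hDD' : Dm m μ * Dm m μ⁻¹ = 1 := by rw [Dm_mul, mul_inv_cancel₀ hμ0, Dm_one]
  obtain ⟨h1, h3, h4⟩ := hM₁
  have hsub : Dm m μ * M₁ * Dm m μ⁻¹ - 1 = Dm m μ * (M₁ - 1) * Dm m μ⁻¹ := by
    rw [mul_sub, sub_mul, mul_one, hDD']
  refine ⟨?_, ?_, ?_⟩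
  · calc tau (Dm m μ * M₁ * Dm m μ⁻¹) * (Dm m μ * M₁ * Dm m μ⁻¹)
        = tau (Dm m μ⁻¹) * (tau M₁ * (tau (Dm m μ) * Dm m μ) * M₁) * Dm m μ⁻¹ := by
          rw [tau_mul, tau_mul]
          simp only [mul_assoc]
      _ = μ • (tau (Dm m μ⁻¹) * (tau M₁ * M₁) * Dm m μ⁻¹) := by
          rw [tau_Dm]
          simp only [mul_smul_comm, smul_mul_assoc, mul_one]
      _ = 1 := by rw [h1, mul_one, tau_Dm, smul_smul, mul_inv_cancel₀ hμ0, one_smul]
  · rw [hsub]
    have hpow : ∀ k : ℕ, (Dm m μ * (M₁ - 1) * Dm m μ⁻¹) ^ k =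
        Dm m μ * (M₁ - 1) ^ k * Dm m μ⁻¹ := by
      intro k
      induction k with
      | zero => rw [pow_zero, pow_zero, mul_one, hDD']
      | succ k ih =>
        rw [pow_succ, ih, pow_succ]
        calc Dm m μ * (M₁ - 1) ^ k * Dm m μ⁻¹ * (Dm m μ * (M₁ - 1) * Dm m μ⁻¹)
            = Dm m μ * (M₁ - 1) ^ k * (Dm m μ⁻¹ * Dm m μ) * (M₁ - 1) * Dm m μ⁻¹ := by
              simp only [mul_assoc]
          _ = Dm m μ * ((M₁ - 1) ^ k * (M₁ - 1)) * Dm m μ⁻¹ := by
              rw [hDD, mul_one]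
              simp only [mul_assoc]
    rw [hpow, h3, mul_zero, zero_mul]
  · rw [hsub, Matrix.rank_mul_eq_left_of_isUnit_det _ _ (Matrix.isUnit_det_of_left_inverse hDD'),
      Matrix.rank_mul_eq_right_of_isUnit_det _ _ (Matrix.isUnit_det_of_right_inverse hDD'), h4]

theorem nonconj (hm : 1 ≤ m) (μ : F) (hμ : ¬ IsSquare μ) (M₁ : EE) (hM₁ : RU M₁) (k : EE)
    (hk : tau k * k = 1) (hkM : k * M₁ = (Dm m μ * M₁ * Dm m μ⁻¹) * k) : False := by
  have hμ0 : μ ≠ 0 := by rintro rfl; exact hμ ⟨0, by simp⟩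
  have hDD : Dm m μ⁻¹ * Dm m μ = 1 := by rw [Dm_mul, inv_mul_cancel₀ hμ0, Dm_one]
  have hh : (Dm m μ⁻¹ * k) * M₁ = M₁ * (Dm m μ⁻¹ * k) := by
    calc Dm m μ⁻¹ * k * M₁ = Dm m μ⁻¹ * (k * M₁) := mul_assoc _ _ _
      _ = Dm m μ⁻¹ * (Dm m μ * M₁ * Dm m μ⁻¹ * k) := by rw [hkM]
      _ = (Dm m μ⁻¹ * Dm m μ) * M₁ * (Dm m μ⁻¹ * k) := by simp only [mul_assoc]
      _ = M₁ * (Dm m μ⁻¹ * k) := by rw [hDD, one_mul]
  have hn : tau (Dm m μ⁻¹ * k) * (Dm m μ⁻¹ * k) = μ⁻¹ • 1 := by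
    calc tau (Dm m μ⁻¹ * k) * (Dm m μ⁻¹ * k)
        = tau k * (tau (Dm m μ⁻¹) * Dm m μ⁻¹) * k := by
          rw [tau_mul]
          simp only [mul_assoc]
      _ = μ⁻¹ • (tau k * k) := by rw [tau_Dm, mul_smul_comm, mul_one, smul_mul_assoc]
      _ = μ⁻¹ • 1 := by rw [hk]
  have h1 := norm_scalar hm M₁ hM₁ _ hh μ⁻¹ hn
  exact hμ (isSquare_inv.mp h1)

theorem classify [Fintype F] (h2 : (2 : F) ≠ 0) (hm : 1 ≤ m) (μ : F) (hμ : ¬ IsSquare μ)
    (M₁ M : EE) (hM₁ : RU M₁) (hM : RU M) :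
    (∃ k : EE, tau k * k = 1 ∧ k * M₁ = M * k) ∨
    (∃ k : EE, tau k * k = 1 ∧ k * (Dm m μ * M₁ * Dm m μ⁻¹) = M * k) := by
  classical
  have hμ0 : μ ≠ 0 := by rintro rfl; exact hμ ⟨0, by simp⟩
  have hcard : Fintype.card (Fin m ⊕ Fin m) = 2 * m := by
    rw [Fintype.card_sum, Fintype.card_fin]; omega
  obtain ⟨v₁, hv₁⟩ := exists_cyc hm M₁ hM₁
  obtain ⟨v, hv⟩ := exists_cyc hm M hM
  obtain ⟨G, G', hGG', hG'G, hGN⟩ := gl_conj (M₁ - 1) (M - 1) (by rw [hcard]; exact hM₁.2.1)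
    (by rw [hcard]; exact hM.2.1) v₁ v hv₁ hv
  have hGM : G * M₁ = M * G := by
    have h1 : G * M₁ - G = M * G - G := by
      have h3 := hGN
      rw [mul_sub, sub_mul, mul_one, one_mul] at h3
      exact h3
    exact sub_left_injective h1
  have htM₁ := hM₁.1
  have htM := hM.1
  have hM₁t : M₁ * tau M₁ = 1 := mul_eq_one_comm.mp htM₁
  have htGM : tau G * M = M₁ * tau G := by
    have h1 : tau M₁ * tau G = tau G * tau M := by rw [← tau_mul, ← tau_mul, hGM]
    calc tau G * M = (M₁ * tau M₁) * tau G * M := by rw [hM₁t, one_mul]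
      _ = M₁ * (tau M₁ * tau G) * M := by noncomm_ring
      _ = M₁ * (tau G * tau M) * M := by rw [h1]
      _ = M₁ * tau G * (tau M * M) := by noncomm_ring
      _ = M₁ * tau G := by rw [htM, mul_one]
  obtain ⟨S, hSdef⟩ : ∃ S : EE, S = tau G * G := ⟨_, rfl⟩
  have hS : S * M₁ = M₁ * S := by
    rw [hSdef]
    calc tau G * G * M₁ = tau G * (G * M₁) := mul_assoc _ _ _
      _ = tau G * (M * G) := by rw [hGM]
      _ = (tau G * M) * G := (mul_assoc _ _ _).symm
      _ = (M₁ * tau G) * G := by rw [htGM]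
      _ = M₁ * (tau G * G) := mul_assoc _ _ _
  have htS : tau S = S := by rw [hSdef, tau_mul, tau_tau]
  have hUS : IsUnit S := by
    have hUG : IsUnit G := ⟨⟨G, G', hGG', hG'G⟩, rfl⟩
    have hUtG : IsUnit (tau G) :=
      ⟨⟨tau G, tau G', by rw [← tau_mul, hG'G, tau_one], by rw [← tau_mul, hGG', tau_one]⟩, rfl⟩
    rw [hSdef]
    exact hUtG.mul hUG
  obtain ⟨c, h, h', hc0, hhM, hh'M, hhh', hh'h, hSc⟩ := norm_form h2 hm M₁ hM₁ S hS htS hUS
  have h3 : tau h' * (tau h * h) * h' = 1 := by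
    calc tau h' * (tau h * h) * h' = (tau h' * tau h) * (h * h') := by noncomm_ring
      _ = 1 := by rw [← tau_mul, hhh', tau_one, one_mul]
  have hcomp : ∀ d : F, tau (G * (d • h')) * (G * (d • h')) = (d * d * c) • (1 : EE) := by
    intro d
    have h1 : tau (G * (d • h')) * (G * (d • h')) = (d • tau h') * S * (d • h') := by
      rw [tau_mul, tau_smul, hSdef]
      simp only [mul_assoc]
    rw [h1, hSc]
    simp only [smul_mul_assoc, mul_smul_comm, smul_smul]
    rw [h3]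
    congr 1
    ring
  have hkM : ∀ d : F, (G * (d • h')) * M₁ = M * (G * (d • h')) := by
    intro d
    have e : (d • h') * M₁ = M₁ * (d • h') := by rw [smul_mul_assoc, hh'M, mul_smul_comm]
    calc G * (d • h') * M₁ = G * ((d • h') * M₁) := mul_assoc _ _ _
      _ = G * (M₁ * (d • h')) := by rw [e]
      _ = (G * M₁) * (d • h') := (mul_assoc _ _ _).symm
      _ = (M * G) * (d • h') := by rw [hGM]
      _ = M * (G * (d • h')) := mul_assoc _ _ _
  by_cases hsq : IsSquare c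
  · left
    obtain ⟨d, hd⟩ := hsq
    have hd0 : d ≠ 0 := by
      rintro rfl
      exact hc0 (by rw [hd, mul_zero])
    refine ⟨G * (d⁻¹ • h'), ?_, hkM _⟩
    rw [hcomp, hd]
    have h4 : d⁻¹ * d⁻¹ * (d * d) = 1 := by field_simp
    rw [h4, one_smul]
  · right
    have hsq2 : IsSquare (c * μ⁻¹) := nsq_mul_nsq c μ⁻¹ hsq (by rwa [isSquare_inv])
    obtain ⟨d, hd⟩ := hsq2
    have hd0 : d ≠ 0 := by
      rintro rfl
      rw [mul_zero] at hd
      exact (mul_ne_zero hc0 (inv_ne_zero hμ0)) hd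
    have hDD : Dm m μ⁻¹ * Dm m μ = 1 := by rw [Dm_mul, inv_mul_cancel₀ hμ0, Dm_one]
    obtain ⟨K, hK⟩ : ∃ K : EE, K = G * (d⁻¹ • h') := ⟨_, rfl⟩
    have hK1 : tau K * K = (d⁻¹ * d⁻¹ * c) • (1 : EE) := by rw [hK]; exact hcomp d⁻¹
    have hK2 : K * M₁ = M * K := by rw [hK]; exact hkM d⁻¹
    refine ⟨K * Dm m μ⁻¹, ?_, ?_⟩
    · have hscal : d⁻¹ * d⁻¹ * c * μ⁻¹ = 1 := by
        rw [mul_assoc, hd]
        field_simp
      calc tau (K * Dm m μ⁻¹) * (K * Dm m μ⁻¹)
          = tau (Dm m μ⁻¹) * (tau K * K) * Dm m μ⁻¹ := by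
            rw [tau_mul]
            simp only [mul_assoc]
        _ = (d⁻¹ * d⁻¹ * c) • (tau (Dm m μ⁻¹) * Dm m μ⁻¹) := by
            rw [hK1, mul_smul_comm, mul_one, smul_mul_assoc]
        _ = 1 := by rw [tau_Dm, smul_smul, hscal, one_smul]
    · calc K * Dm m μ⁻¹ * (Dm m μ * M₁ * Dm m μ⁻¹)
          = K * (Dm m μ⁻¹ * Dm m μ) * M₁ * Dm m μ⁻¹ := by simp only [mul_assoc]
        _ = K * M₁ * Dm m μ⁻¹ := by rw [hDD, mul_one]
        _ = M * K * Dm m μ⁻¹ := by rw [hK2]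
        _ = M * (K * Dm m μ⁻¹) := mul_assoc _ _ _

end classes

end helpers


/-- Over a finite field of odd order and for m ≥ 1, the regular unipotent elements of Sp_2m(F) (u − 1 nilpotent of rank 2m − 1, a single Jordan block) form exactly two conjugacy classes of Sp_2m(F) (one class under the similarity group, which splits in two). -/
theorem result {F : Type*} [Field F] [Fintype F] {q : ℕ} (hF : Fintype.card F = q) (hq : Odd q) {m : ℕ} (hm : 1 ≤ m) : Nat.card {C : ConjClasses ↥(Matrix.symplecticGroup (Fin m) F) // ∃ u : Matrix.symplecticGroup (Fin m) F, ConjClasses.mk u = C ∧ ((u : Matrix (Fin m ⊕ Fin m) (Fin m ⊕ Fin m) F) - 1) ^ (2 * m) = 0 ∧ ((u : Matrix (Fin m ⊕ Fin m) (Fin m ⊕ Fin m) F) - 1).rank = 2 * m - 1} = 2 := by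
  classical
  have hchar : ringChar F ≠ 2 := by
    intro h
    have h3 := FiniteField.even_card_iff_char_two.mp h
    rw [hF] at h3
    have h4 := Nat.odd_iff.mp hq
    omega
  have h2 : (2 : F) ≠ 0 := Ring.two_ne_zero hchar
  obtain ⟨μ, hμ⟩ := FiniteField.exists_nonsquare (F := F) hchar
  have hμ0 : μ ≠ 0 := by rintro rfl; exact hμ ⟨0, by simp⟩
  obtain ⟨M₁, hM₁⟩ := exists_RU (F := F) h2 hm
  have hM₂ := RU_conj μ hμ0 M₁ hM₁
  obtain ⟨u₁, hu₁⟩ : ∃ u₁ : Matrix.symplecticGroup (Fin m) F, u₁.1 = M₁ :=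
    ⟨⟨M₁, (Cfsg.Agent.S2592.mem_sp_iff M₁).mpr hM₁.1⟩, rfl⟩
  obtain ⟨u₂, hu₂⟩ : ∃ u₂ : Matrix.symplecticGroup (Fin m) F, u₂.1 = Dm m μ * M₁ * Dm m μ⁻¹ :=
    ⟨⟨_, (Cfsg.Agent.S2592.mem_sp_iff _).mpr hM₂.1⟩, rfl⟩
  rw [Nat.card_eq_two_iff]
  refine ⟨⟨ConjClasses.mk u₁, u₁, rfl, by rw [hu₁]; exact hM₁.2.1, by rw [hu₁]; exact hM₁.2.2⟩,
    ⟨ConjClasses.mk u₂, u₂, rfl, by rw [hu₂]; exact hM₂.2.1, by rw [hu₂]; exact hM₂.2.2⟩, ?_, ?_⟩
  · intro h
    have h1 : ConjClasses.mk u₁ = ConjClasses.mk u₂ := congrArg Subtype.val h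
    rw [ConjClasses.mk_eq_mk_iff_isConj, isConj_iff] at h1
    obtain ⟨k, hk⟩ := h1
    have hk' : k * u₁ = u₂ * k := mul_inv_eq_iff_eq_mul.mp hk
    have hk'' : k.1 * u₁.1 = u₂.1 * k.1 := congrArg Subtype.val hk'
    rw [hu₁, hu₂] at hk''
    exact nonconj hm μ hμ M₁ hM₁ k.1 ((Cfsg.Agent.S2592.mem_sp_iff k.1).mp k.2) hk''
  · rw [Set.eq_univ_iff_forall]
    rintro ⟨C, u, rfl, hnil, hrank⟩
    have hRU : RU u.1 := ⟨(Cfsg.Agent.S2592.mem_sp_iff _).mp u.2, hnil, hrank⟩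
    rw [Set.mem_insert_iff, Set.mem_singleton_iff]
    rcases classify h2 hm μ hμ M₁ u.1 hM₁ hRU with ⟨k, hk1, hk2⟩ | ⟨k, hk1, hk2⟩
    · left
      apply Subtype.ext
      show ConjClasses.mk u = ConjClasses.mk u₁
      rw [ConjClasses.mk_eq_mk_iff_isConj, isConj_comm, isConj_iff]
      refine ⟨⟨k, (Cfsg.Agent.S2592.mem_sp_iff k).mpr hk1⟩, ?_⟩
      rw [mul_inv_eq_iff_eq_mul]
      apply Subtype.ext
      show k * u₁.1 = u.1 * k
      rw [hu₁]
      exact hk2
    · right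
      apply Subtype.ext
      show ConjClasses.mk u = ConjClasses.mk u₂
      rw [ConjClasses.mk_eq_mk_iff_isConj, isConj_comm, isConj_iff]
      refine ⟨⟨k, (Cfsg.Agent.S2592.mem_sp_iff k).mpr hk1⟩, ?_⟩
      rw [mul_inv_eq_iff_eq_mul]
      apply Subtype.ext
      show k * u₂.1 = u.1 * k
      rw [hu₂]
      exact hk2

end Cfsg.Agent.S2591
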