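import Mathlib
import Cfsg.Statements.S2594
import Cfsg.Agent.Lib.Helper2.SympTv
import Cfsg.Agent.S0245

set_option autoImplicit false
open Cfsg

namespace Cfsg.Agent.S2594

open Cfsg.Agent.Lib.Helper5.Symp2 Cfsg.Agent.Lib.Helper2.SympTv in
theorem aux {F : Type*} [Field F] [Fintype F] [CharP F 2] {q : ℕ} (hF : Fintype.card F = q)
    (k : ℕ) (a : Fin (k + 1) ⊕ Fin (k + 1) → F) (c : F) (ha : a ≠ 0) (hc : c ≠ 0) :
    Nat.card ↥(Subgroup.centralizer
      ({tv (k + 1) a c} : Set ↥(Matrix.symplecticGroup (Fin (k + 1)) F))) =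
      q ^ (2 * (k + 1) - 1) * (q ^ (k ^ 2) * ∏ i ∈ Finset.range k, (q ^ (2 * (i + 1)) - 1)) := by
  have hstab : Subgroup.centralizer
      ({tv (k + 1) a c} : Set ↥(Matrix.symplecticGroup (Fin (k + 1)) F)) =
      MulAction.stabilizer (Matrix.symplecticGroup (Fin (k + 1)) F) a := by
    ext g
    rw [mem_centralizer_tv_iff (k + 1) ha hc, MulAction.mem_stabilizer_iff]
    rfl
  rw [hstab]
  have h1 := card_stabilizer (k + 1) hF ha
  rw [Cfsg.Agent.S0245.result hF (k + 1), Finset.prod_range_succ] at h1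
  have hq : 2 ≤ q := by rw [← hF]; exact Fintype.one_lt_card
  have hpos : 0 < q ^ (2 * (k + 1)) - 1 := by
    have h2 : 1 < q ^ (2 * (k + 1)) := Nat.one_lt_pow (by omega) (by omega)
    omega
  apply Nat.eq_of_mul_eq_mul_left hpos
  rw [h1]
  have e1 : q ^ ((k + 1) ^ 2) = q ^ (2 * (k + 1) - 1) * q ^ (k ^ 2) := by
    rw [← pow_add]
    congr 1
    have h3 : 2 * (k + 1) - 1 = 2 * k + 1 := by omega
    rw [h3]
    ring
  rw [e1]
  ring

/-- Over a finite field with q elements, q even, an element t of Sp_2m(F) with rank(t − 1) = 1 (a symplectic transvection) has centraliser in Sp_2m(F) of order q^(2m−1) · |Sp_(2m−2)(q)| = q^(2m−1) · q^((m−1)²) · Π_(i=1)^(m−1) (q^(2i) − 1). -/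
theorem result {F : Type*} [Field F] [Fintype F] [CharP F 2] {q : ℕ} (hF : Fintype.card F = q) {m : ℕ} (hm : 1 ≤ m) (t : Matrix.symplecticGroup (Fin m) F) (ht : ((t : Matrix (Fin m ⊕ Fin m) (Fin m ⊕ Fin m) F) - 1).rank = 1) : Nat.card ↥(Subgroup.centralizer ({t} : Set ↥(Matrix.symplecticGroup (Fin m) F))) = q ^ (2 * m - 1) * (q ^ ((m - 1) ^ 2) * ∏ i : Fin (m - 1), (q ^ (2 * ((i : ℕ) + 1)) - 1)) := by
  obtain ⟨a, c, ha, hc, rfl⟩ := Cfsg.Agent.Lib.Helper2.SympTv.eq_tv_of_rank m t ht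
  obtain ⟨k, rfl⟩ : ∃ k, m = k + 1 := ⟨m - 1, by omega⟩
  rw [aux hF k a c ha hc]
  congr 2
  exact (Fin.prod_univ_eq_prod_range (fun i => q ^ (2 * (i + 1)) - 1) k).symm

end Cfsg.Agent.S2594
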