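import Cfsg.Statements.S2599

set_option autoImplicit false
open Cfsg

namespace Cfsg.Agent.S2599

/-- An irreducible invariant subspace of a semisimple isometry is non-degenerate or totally singular: let Q be a quadratic form on F^n (F finite of characteristic p) with non-degenerate polar form f, x an isometry of Q of order prime to p, and U a non-zero x-invariant subspace containing no x-invariant subspace other than 0 and U. Then U meets its f-orthogonal trivially, or Q vanishes on U, or p = 2, U is a line spanned by a non-singular vector and x fixes U pointwise. -/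
theorem result {F : Type*} [Field F] [Fintype F] {p : ℕ} [Fact p.Prime] [CharP F p] {n : ℕ} (Q : QuadraticForm F (Fin n → F)) (hQ : (QuadraticMap.polarBilin Q).Nondegenerate) (x : ↥(Cfsg.isometryGroup F ⇑Q)) (hx : (orderOf x).Coprime p) (U : Submodule F (Fin n → F)) (hU0 : U ≠ ⊥) (hUx : ∀ u ∈ U, ((x : Matrix.GeneralLinearGroup (Fin n) F) : Matrix (Fin n) (Fin n) F).mulVec u ∈ U) (hirr : ∀ W : Submodule F (Fin n → F), W ≤ U → (∀ w ∈ W, ((x : Matrix.GeneralLinearGroup (Fin n) F) : Matrix (Fin n) (Fin n) F).mulVec w ∈ W) → W = ⊥ ∨ W = U) : U ⊓ LinearMap.BilinForm.orthogonal (QuadraticMap.polarBilin Q) U = ⊥ ∨ (∀ u ∈ U, Q u = 0) ∨ (p = 2 ∧ Module.finrank F U = 1 ∧ (∃ u ∈ U, Q u ≠ 0) ∧ ∀ u ∈ U, ((x : Matrix.GeneralLinearGroup (Fin n) F) : Matrix (Fin n) (Fin n) F).mulVec u = u) := by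
  classical
  set X : Matrix (Fin n) (Fin n) F :=
    ((x : Matrix.GeneralLinearGroup (Fin n) F) : Matrix (Fin n) (Fin n) F) with hX
  set Y : Matrix (Fin n) (Fin n) F :=
    (((x : Matrix.GeneralLinearGroup (Fin n) F)⁻¹ : Matrix.GeneralLinearGroup (Fin n) F) :
      Matrix (Fin n) (Fin n) F) with hY
  have hYXeq : Y * X = 1 := by
    rw [hY, hX, ← Units.val_mul, inv_mul_cancel, Units.val_one]
  have hYX : ∀ v, Y.mulVec (X.mulVec v) = v := by
    intro v
    rw [Matrix.mulVec_mulVec, hYXeq, Matrix.one_mulVec]
  have hXQ : ∀ v, Q (X.mulVec v) = Q v := fun v => x.2 v v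
  have hXp : ∀ u v, QuadraticMap.polar Q (X.mulVec u) (X.mulVec v) = QuadraticMap.polar Q u v := by
    intro u v
    simp only [QuadraticMap.polar, ← Matrix.mulVec_add, hXQ]
  have hsurj : ∀ u ∈ U, ∃ u' ∈ U, X.mulVec u' = u := by
    let T : (Fin n → F) →ₗ[F] (Fin n → F) := Matrix.toLin' X
    have hT : ∀ u ∈ U, T u ∈ U := fun u hu => by
      have := hUx u hu
      rwa [← Matrix.toLin'_apply] at this
    let TU : U →ₗ[F] U := T.restrict hT
    have hinj : Function.Injective TU := by
      intro a b hab
      have h1 : X.mulVec (a : Fin n → F) = X.mulVec (b : Fin n → F) := by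
        have := congrArg Subtype.val hab
        simpa [TU, T, Matrix.toLin'_apply] using this
      apply Subtype.ext
      rw [← hYX a, h1, hYX]
    have hs := LinearMap.surjective_of_injective hinj
    intro u hu
    obtain ⟨u', hu'⟩ := hs ⟨u, hu⟩
    refine ⟨u', u'.2, ?_⟩
    have := congrArg Subtype.val hu'
    simpa [TU, T, Matrix.toLin'_apply] using this
  set B := QuadraticMap.polarBilin Q with hB
  have hBp : ∀ u v, B u v = QuadraticMap.polar Q u v := fun u v => rfl
  have hWinv : ∀ w ∈ U ⊓ LinearMap.BilinForm.orthogonal B U,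
      X.mulVec w ∈ U ⊓ LinearMap.BilinForm.orthogonal B U := by
    intro w hw
    obtain ⟨hw1, hw2⟩ := Submodule.mem_inf.mp hw
    refine Submodule.mem_inf.mpr ⟨hUx w hw1, ?_⟩
    rw [LinearMap.BilinForm.mem_orthogonal_iff]
    intro u hu
    obtain ⟨u', hu', rfl⟩ := hsurj u hu
    rw [LinearMap.BilinForm.mem_orthogonal_iff] at hw2
    have := hw2 u' hu'
    rw [hBp] at this ⊢
    rw [hXp, this]
  rcases hirr _ inf_le_left hWinv with hW | hW
  · exact Or.inl hW
  · right
    have hperp : ∀ u ∈ U, ∀ v ∈ U, QuadraticMap.polar Q u v = 0 := by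
      intro u hu v hv
      have hv' : v ∈ U ⊓ LinearMap.BilinForm.orthogonal B U := by rw [hW]; exact hv
      have := (LinearMap.BilinForm.mem_orthogonal_iff.mp (Submodule.mem_inf.mp hv').2) u hu
      rwa [hBp] at this
    have hadd : ∀ u ∈ U, ∀ v ∈ U, Q (u + v) = Q u + Q v := by
      intro u hu v hv
      have := hperp u hu v hv
      rw [QuadraticMap.polar] at this
      linear_combination this
    by_cases hp2 : p = 2
    · subst hp2
      let K : Submodule F (Fin n → F) :=
        { carrier := {u | u ∈ U ∧ Q u = 0}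
          add_mem' := by
            rintro a b ⟨ha1, ha2⟩ ⟨hb1, hb2⟩
            exact ⟨U.add_mem ha1 hb1, by rw [hadd a ha1 b hb1, ha2, hb2, add_zero]⟩
          zero_mem' := ⟨U.zero_mem, map_zero Q⟩
          smul_mem' := by
            rintro c a ⟨ha1, ha2⟩
            exact ⟨U.smul_mem c ha1, by rw [QuadraticMap.map_smul, ha2, smul_zero]⟩ }
      have hKU : K ≤ U := fun u hu => hu.1
      have hKinv : ∀ w ∈ K, X.mulVec w ∈ K := by
        rintro w ⟨hw1, hw2⟩
        exact ⟨hUx w hw1, by rw [hXQ, hw2]⟩
      rcases hirr K hKU hKinv with hK | hK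
      · right
        have hanis : ∀ u ∈ U, Q u = 0 → u = 0 := by
          intro u hu hQu
          have : u ∈ K := ⟨hu, hQu⟩
          rw [hK] at this
          exact (Submodule.mem_bot F).mp this
        obtain ⟨u₀, hu₀, hu₀0⟩ := Submodule.exists_mem_ne_zero_of_ne_bot hU0
        have hQu₀ : Q u₀ ≠ 0 := fun h => hu₀0 (hanis u₀ hu₀ h)
        have hline : ∀ v ∈ U, ∃ a : F, v = a • u₀ := by
          intro v hv
          obtain ⟨a, ha⟩ := FiniteField.isSquare_of_char_two (ringChar.eq F 2) (Q v / Q u₀)
          refine ⟨a, ?_⟩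
          have h1 : Q (v + a • u₀) = 0 := by
            rw [hadd v hv _ (U.smul_mem a hu₀), QuadraticMap.map_smul, smul_eq_mul, ← ha,
              div_mul_cancel₀ _ hQu₀]
            exact CharTwo.add_self_eq_zero _
          have h2 := hanis _ (U.add_mem hv (U.smul_mem a hu₀)) h1
          have h3 : v = -(a • u₀) := eq_neg_of_add_eq_zero_left h2
          rw [h3, ← neg_smul, CharTwo.neg_eq]
        refine ⟨rfl, ?_, ⟨u₀, hu₀, hQu₀⟩, ?_⟩
        · rw [finrank_eq_one_iff']
          refine ⟨⟨u₀, hu₀⟩, ?_, ?_⟩
          · intro h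
            exact hu₀0 (congrArg Subtype.val h)
          · rintro ⟨w, hw⟩
            obtain ⟨a, ha⟩ := hline w hw
            refine ⟨a, ?_⟩
            apply Subtype.ext
            exact ha.symm
        · obtain ⟨l, hl⟩ := hline _ (hUx u₀ hu₀)
          have hl1 : l = 1 := by
            have h1 := hXQ u₀
            rw [hl, QuadraticMap.map_smul, smul_eq_mul] at h1
            have h2 : l * l = 1 := by
              have : (l * l - 1) * Q u₀ = 0 := by linear_combination h1
              rcases mul_eq_zero.mp this with h | h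
              · linear_combination h
              · exact absurd h hQu₀
            have h3 : l ^ 2 = 1 := by rw [sq]; exact h2
            rcases sq_eq_one_iff.mp h3 with h | h
            · exact h
            · rw [h, CharTwo.neg_eq]
          rw [hl1, one_smul] at hl
          intro u hu
          obtain ⟨a, rfl⟩ := hline u hu
          rw [Matrix.mulVec_smul, hl]
      · left
        intro u hu
        have : u ∈ K := by rw [hK]; exact hu
        exact this.2
    · left
      intro u hu
      have h1 := hperp u hu u hu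
      rw [QuadraticMap.polar_self] at h1
      have h2 : (2 : F) ≠ 0 := by
        intro h
        have h3 : ((2 : ℕ) : F) = 0 := by exact_mod_cast h
        rw [CharP.cast_eq_zero_iff F p 2] at h3
        have hp := (Fact.out : p.Prime)
        exact hp2 ((Nat.prime_dvd_prime_iff_eq hp Nat.prime_two).mp h3)
      rw [two_nsmul, ← two_mul] at h1
      rcases mul_eq_zero.mp h1 with h | h
      · exact absurd h h2
      · exact h

end Cfsg.Agent.S2599
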