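import Cfsg.Statements.S2612
import Cfsg.Agent.Lib.Helper15.Parity
import Cfsg.Agent.Lib.Helper15.Dickson

set_option autoImplicit false
open Cfsg

namespace Cfsg.Agent.S2612

open Cfsg.Agent.Lib.Helper15.Spinor Cfsg.Agent.Lib.Helper15.StdForms
  Cfsg.Agent.Lib.Helper15.Parity Cfsg.Agent.Lib.Helper15.CD2

/-- Interchanging the first `i` hyperbolic pairs of coordinates. -/
def sw {F : Type*} {m : ℕ} (i : ℕ) (v : Fin m ⊕ Fin m → F) : Fin m ⊕ Fin m → F :=
  Sum.elim (fun j => if j.val < i then v (Sum.inr j) else v (Sum.inl j))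
    (fun j => if j.val < i then v (Sum.inl j) else v (Sum.inr j))

/-- The interchange of the first `i` hyperbolic pairs is a product of `i` reflections of
norm `-1`. -/
theorem exists_swap_list {F : Type*} [Field F] [Fintype F] (m : ℕ) :
    ∀ i : ℕ, i ≤ m → ∃ vs : List (Fin m ⊕ Fin m → F), vs.length = i ∧
      (∀ w ∈ vs, plusQF m F w = -1) ∧
      ∀ v, act (plusQF m F) (prodRefl (plusQF m F) vs) v = sw i v := by
  classical
  intro i
  induction i with
  | zero =>
    intro _
    refine ⟨[], rfl, by simp, fun v => ?_⟩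
    rw [act_nil]
    funext k
    rcases k with j | j <;> simp [sw]
  | succ i ih =>
    intro hi
    obtain ⟨vs, hlen, hvs, hact⟩ := ih (by omega)
    obtain ⟨ii, hii⟩ : ∃ ii : Fin m, ii = ⟨i, by omega⟩ := ⟨_, rfl⟩
    have hiiv : ii.val = i := by rw [hii]
    obtain ⟨w, hwdef⟩ : ∃ w : Fin m ⊕ Fin m → F,
        w = Pi.single (Sum.inl ii) 1 - Pi.single (Sum.inr ii) 1 := ⟨_, rfl⟩
    have hQw : plusQF m F w = -1 := by
      rw [plusQF_apply]
      unfold Cfsg.quadFormPlus
      rw [Finset.sum_eq_single ii]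
      · rw [hwdef]
        simp
      · intro j _ hj
        rw [hwdef]
        simp [Pi.single_apply, hj]
      · intro h
        exact absurd (Finset.mem_univ _) h
    have hpol : ∀ x, QuadraticMap.polar ⇑(plusQF m F) w x = x (Sum.inr ii) - x (Sum.inl ii) := by
      intro x
      rw [coe_plusQF, polar_plus, Finset.sum_eq_single ii]
      · rw [hwdef]
        simp
        ring
      · intro j _ hj
        rw [hwdef]
        simp [Pi.single_apply, hj]
      · intro h
        exact absurd (Finset.mem_univ _) h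
    have hw0 : plusQF m F w ≠ 0 := by
      rw [hQw]
      exact neg_ne_zero.mpr one_ne_zero
    refine ⟨w :: vs, by rw [List.length_cons, hlen], ?_, fun v => ?_⟩
    · intro x hx
      rw [List.mem_cons] at hx
      rcases hx with rfl | hx
      · exact hQw
      · exact hvs x hx
    · rw [act_cons, hact, act_reflO _ w hw0, hQw, hpol]
      have h1 : sw i v (Sum.inr ii) = v (Sum.inr ii) := by simp [sw, hiiv]
      have h2 : sw i v (Sum.inl ii) = v (Sum.inl ii) := by simp [sw, hiiv]
      rw [h1, h2]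
      funext k
      rcases k with j | j
      · by_cases hj : j = ii
        · subst hj
          simp [sw, hwdef, hiiv]
        · have hjv : j.val ≠ i := fun h => hj (Fin.ext (by rw [h, hiiv]))
          have hlt : (j.val ≤ i) ↔ (j.val < i) := by omega
          simp [sw, hwdef, Pi.single_apply, hj, hlt]
      · by_cases hj : j = ii
        · subst hj
          simp [sw, hwdef, hiiv]
        · have hjv : j.val ≠ i := fun h => hj (Fin.ext (by rw [h, hiiv]))
          have hlt : (j.val ≤ i) ↔ (j.val < i) := by omega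
          simp [sw, hwdef, Pi.single_apply, hj, hlt]

/-- The criterion for products of reflections in both characteristics. -/
theorem even_of_mem {F : Type*} [Field F] [Fintype F] {m : ℕ}
    (vs : List (Fin m ⊕ Fin m → F)) (hvs : ∀ v ∈ vs, plusQF m F v ≠ 0)
    (h : prodRefl (plusQF m F) vs ∈ commutator ↥(Cfsg.isometryGroup F ⇑(plusQF m F))) :
    Even vs.length := by
  classical
  by_cases h2 : (2 : F) = 0
  · have hchar : CharP F 2 := CharTwo.of_one_ne_zero_of_two_eq_zero one_ne_zero h2
    exact Cfsg.Agent.Lib.Helper15.Dickson.even_of_mem_commutator _ (plus_sep m) vs hvs h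
  · exact ((prodRefl_mem_omega_iff h2 (plusQF m F) vs hvs).1 h).1

/-- The statement for the hyperbolic form as a quadratic form. -/
theorem aux {F : Type*} [Field F] [Fintype F] {m : ℕ} (h : Fintype.card F ≠ 2 ∨ m ≠ 2) :
    (∃ g : ↥(Cfsg.isometryGroup F ⇑(plusQF m F)),
      g ∈ commutator ↥(Cfsg.isometryGroup F ⇑(plusQF m F)) ∧
      (∀ v : Fin m ⊕ Fin m → F, (∀ i, v (Sum.inr i) = 0) →
        ∀ i, (act (plusQF m F) g v) (Sum.inl i) = 0) ∧
      (∀ v : Fin m ⊕ Fin m → F, (∀ i, v (Sum.inl i) = 0) →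
        ∀ i, (act (plusQF m F) g v) (Sum.inr i) = 0)) ↔ Even m := by
  classical
  have hc : Fintype.card F ≠ 2 ∨ Fintype.card (Fin m ⊕ Fin m) ≠ 4 := by
    rcases h with h | h
    · exact Or.inl h
    · right
      rw [Fintype.card_sum, Fintype.card_fin]
      omega
  constructor
  · rintro ⟨g, hg, hg1, _⟩
    obtain ⟨vs, hvs, rfl⟩ := Cfsg.Agent.Lib.Helper15.OrthGen.cd_all (plusQF m F) (plus_sep m) hc g
    have heven := even_of_mem vs hvs hg
    have hpar := (parity_prodRefl m vs hvs).2 heven
    have hbot : U0 m F ⊓ (U0 m F).map (act (plusQF m F) (prodRefl (plusQF m F) vs)) = ⊥ := by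
      rw [eq_bot_iff]
      rintro x ⟨hx1, ⟨u, hu, rfl⟩⟩
      rw [Submodule.mem_bot]
      have hu' := (mem_U0 m u).1 hu
      have hx1' := (mem_U0 m _).1 hx1
      funext k
      rcases k with j | j
      · exact hg1 u hu' j
      · exact hx1' j
    rw [hbot, finrank_bot, Nat.sub_zero] at hpar
    exact hpar
  · intro hm
    obtain ⟨vs, hlen, hvs, hact⟩ := exists_swap_list (F := F) m m le_rfl
    have hvs0 : ∀ v ∈ vs, plusQF m F v ≠ 0 := by
      intro v hv
      rw [hvs v hv]
      exact neg_ne_zero.mpr one_ne_zero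
    refine ⟨prodRefl (plusQF m F) vs, ?_, ?_, ?_⟩
    · by_cases h2 : (2 : F) = 0
      · have hchar : CharP F 2 := CharTwo.of_one_ne_zero_of_two_eq_zero one_ne_zero h2
        rw [Cfsg.Agent.Lib.Helper15.Dickson.prodRefl_mem_commutator_iff _ (plus_sep m) hc vs hvs0,
          hlen]
        exact hm
      · rw [prodRefl_mem_omega_iff h2 (plusQF m F) vs hvs0, hlen]
        refine ⟨hm, ?_⟩
        have hprod : (vs.map (fun v => plusQF m F v)).prod = (-1) ^ m := by
          rw [List.prod_eq_pow_card _ (-1 : F), List.length_map, hlen]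
          intro x hx
          rw [List.mem_map] at hx
          obtain ⟨v, hv, rfl⟩ := hx
          exact hvs v hv
        rw [hprod, Even.neg_one_pow hm]
        exact ⟨1, by simp⟩
    · intro v hv i
      rw [hact]
      simp [sw, hv i]
    · intro v hv i
      rw [hact]
      simp [sw, hv i]


/-- For the hyperbolic quadratic form Σ x_i y_i on F^(2m) (F finite, m ≥ 1, excluding m = 2 over the field of two elements), Ω⁺_2m(F) (the commutator subgroup of the orthogonal group) contains an element interchanging the two complementary maximal totally singular subspaces {y = 0} and {x = 0} if and only if m is even (dimension divisible by 4). -/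
theorem result {F : Type*} [Field F] [Fintype F] {m : ℕ} (hm : 1 ≤ m) (h : Fintype.card F ≠ 2 ∨ m ≠ 2) : (∃ g : ↥(Cfsg.isometryGroup F (Cfsg.quadFormPlus m F)), g ∈ Cfsg.Omega F (Cfsg.quadFormPlus m F) ∧ (∀ v : Fin m ⊕ Fin m → F, (∀ i, v (Sum.inr i) = 0) → ∀ i, (((g : Matrix.GeneralLinearGroup (Fin m ⊕ Fin m) F) : Matrix (Fin m ⊕ Fin m) (Fin m ⊕ Fin m) F).mulVec v) (Sum.inl i) = 0) ∧ (∀ v : Fin m ⊕ Fin m → F, (∀ i, v (Sum.inl i) = 0) → ∀ i, (((g : Matrix.GeneralLinearGroup (Fin m ⊕ Fin m) F) : Matrix (Fin m ⊕ Fin m) (Fin m ⊕ Fin m) F).mulVec v) (Sum.inr i) = 0)) ↔ Even m := by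
  exact aux h

end Cfsg.Agent.S2612
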