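import Cfsg.Statements.S2613
import Cfsg.Agent.Lib.Helper15.Spinor3

set_option autoImplicit false
open Cfsg

namespace Cfsg.Agent.S2613

/-- For the hyperbolic form Σ x_j y_j on F^(2m), F finite with q elements, q odd, and 1 ≤ i ≤ m: the involution negating the first i hyperbolic pairs (x_j, y_j ↦ −x_j, −y_j for j < i) and fixing the rest lies in Ω⁺_2m(q) (commutator subgroup of the orthogonal group) if and only if q^i ≡ 1 (mod 4); its (−1)-eigenspace is a hyperbolic 2i-space. -/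
theorem result {F : Type*} [Field F] [Fintype F] {q : ℕ} (hF : Fintype.card F = q) (hq : Odd q) {m : ℕ} (i : ℕ) (hi : 1 ≤ i) (him : i ≤ m) : (∃ g : ↥(Cfsg.isometryGroup F (Cfsg.quadFormPlus m F)), g ∈ Cfsg.Omega F (Cfsg.quadFormPlus m F) ∧ ((g : Matrix.GeneralLinearGroup (Fin m ⊕ Fin m) F) : Matrix (Fin m ⊕ Fin m) (Fin m ⊕ Fin m) F) = Matrix.diagonal (fun k : Fin m ⊕ Fin m => if (Sum.elim (fun j : Fin m => (j : ℕ)) (fun j : Fin m => (j : ℕ)) k) < i then (-1 : F) else 1)) ↔ q ^ i % 4 = 1 := by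
  classical
  have h2 : (2 : F) ≠ 0 := Cfsg.Agent.Lib.Helper15.Spinor2.two_ne_zero_of_odd_card hF hq
  have hpl : ∀ (j : Fin m) (x : Fin m ⊕ Fin m → F),
      QuadraticMap.polar ⇑(Cfsg.Agent.Lib.Helper15.StdForms.plusQF m F) (Pi.single (Sum.inl j) 1) x
        = x (Sum.inr j) := by
    intro j x
    rw [Cfsg.Agent.Lib.Helper15.StdForms.coe_plusQF, Cfsg.Agent.Lib.Helper15.StdForms.polar_plus]
    simp [Pi.single_apply]
  have hpr : ∀ (j : Fin m) (x : Fin m ⊕ Fin m → F),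
      QuadraticMap.polar ⇑(Cfsg.Agent.Lib.Helper15.StdForms.plusQF m F) (Pi.single (Sum.inr j) 1) x
        = x (Sum.inl j) := by
    intro j x
    rw [Cfsg.Agent.Lib.Helper15.StdForms.coe_plusQF, Cfsg.Agent.Lib.Helper15.StdForms.polar_plus]
    simp [Pi.single_apply]
  have hql : ∀ j : Fin m, Cfsg.Agent.Lib.Helper15.StdForms.plusQF m F (Pi.single (Sum.inl j) 1) = 0 := by
    intro j
    rw [Cfsg.Agent.Lib.Helper15.StdForms.plusQF_apply]
    unfold Cfsg.quadFormPlus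
    simp [Pi.single_apply]
  have hqr : ∀ j : Fin m, Cfsg.Agent.Lib.Helper15.StdForms.plusQF m F (Pi.single (Sum.inr j) 1) = 0 := by
    intro j
    rw [Cfsg.Agent.Lib.Helper15.StdForms.plusQF_apply]
    unfold Cfsg.quadFormPlus
    simp [Pi.single_apply]
  have h := Cfsg.Agent.Lib.Helper15.Spinor3.hyp_invol_mem_omega_iff h2
    (Cfsg.Agent.Lib.Helper15.StdForms.plusQF m F) m Sum.inl Sum.inr (by simp) hpl hpr hql hqr
    (Sum.elim (fun j : Fin m => (j : ℕ)) (fun j : Fin m => (j : ℕ))) i him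
    (by
      intro k j _
      rcases k with k | k <;> simp [Fin.ext_iff])
  rw [Cfsg.Agent.Lib.Helper15.StdForms.coe_plusQF] at h
  rw [h, hF, Cfsg.Agent.Lib.Helper15.Spinor2.pow_mod_four_one hq]

end Cfsg.Agent.S2613
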