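import Cfsg.Statements.S2615
import Cfsg.Agent.Lib.Helper15.Spinor3

set_option autoImplicit false
open Cfsg

namespace Cfsg.Agent.S2615

/-- For an elliptic form Σ_(j<m−1) x_j y_j + (z₁² + a z₁z₂ + b z₂²) (anisotropic binary part) on F^(2m), F finite with q elements, q odd, and 1 ≤ i ≤ m − 1: the involution negating the first i hyperbolic pairs and fixing the rest lies in Ω⁻_2m(q) (commutator subgroup of the orthogonal group) if and only if q^i ≡ 1 (mod 4). -/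
theorem result {F : Type*} [Field F] [Fintype F] {q : ℕ} (hF : Fintype.card F = q) (hq : Odd q) {m : ℕ} (a b : F) (hab : ∀ z₁ z₂ : F, z₁ ^ 2 + a * z₁ * z₂ + b * z₂ ^ 2 = 0 → z₁ = 0 ∧ z₂ = 0) (i : ℕ) (hi : 1 ≤ i) (him : i + 1 ≤ m) : (∃ g : ↥(Cfsg.isometryGroup F (Cfsg.quadFormMinus (m - 1) F a b)), g ∈ Cfsg.Omega F (Cfsg.quadFormMinus (m - 1) F a b) ∧ ((g : Matrix.GeneralLinearGroup ((Fin (m - 1) ⊕ Fin (m - 1)) ⊕ Fin 2) F) : Matrix ((Fin (m - 1) ⊕ Fin (m - 1)) ⊕ Fin 2) ((Fin (m - 1) ⊕ Fin (m - 1)) ⊕ Fin 2) F) = Matrix.diagonal (fun k : (Fin (m - 1) ⊕ Fin (m - 1)) ⊕ Fin 2 => if (Sum.elim (Sum.elim (fun j : Fin (m - 1) => (j : ℕ)) (fun j : Fin (m - 1) => (j : ℕ))) (fun _ : Fin 2 => i) k) < i then (-1 : F) else 1)) ↔ q ^ i % 4 = 1 := by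
  classical
  have h2 : (2 : F) ≠ 0 := Cfsg.Agent.Lib.Helper15.Spinor2.two_ne_zero_of_odd_card hF hq
  have hpl : ∀ (j : Fin (m - 1)) (x : (Fin (m - 1) ⊕ Fin (m - 1)) ⊕ Fin 2 → F),
      QuadraticMap.polar ⇑(Cfsg.Agent.Lib.Helper15.StdForms.minusQF (m - 1) F a b) (Pi.single (Sum.inl (Sum.inl j)) 1) x
        = x (Sum.inl (Sum.inr j)) := by
    intro j x
    rw [Cfsg.Agent.Lib.Helper15.StdForms.coe_minusQF, Cfsg.Agent.Lib.Helper15.StdForms.polar_minus]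
    simp [Pi.single_apply]
  have hpr : ∀ (j : Fin (m - 1)) (x : (Fin (m - 1) ⊕ Fin (m - 1)) ⊕ Fin 2 → F),
      QuadraticMap.polar ⇑(Cfsg.Agent.Lib.Helper15.StdForms.minusQF (m - 1) F a b) (Pi.single (Sum.inl (Sum.inr j)) 1) x
        = x (Sum.inl (Sum.inl j)) := by
    intro j x
    rw [Cfsg.Agent.Lib.Helper15.StdForms.coe_minusQF, Cfsg.Agent.Lib.Helper15.StdForms.polar_minus]
    simp [Pi.single_apply]
  have hql : ∀ j : Fin (m - 1), Cfsg.Agent.Lib.Helper15.StdForms.minusQF (m - 1) F a b (Pi.single (Sum.inl (Sum.inl j)) 1) = 0 := by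
    intro j
    rw [Cfsg.Agent.Lib.Helper15.StdForms.coe_minusQF]
    unfold Cfsg.quadFormMinus
    simp [Pi.single_apply]
  have hqr : ∀ j : Fin (m - 1), Cfsg.Agent.Lib.Helper15.StdForms.minusQF (m - 1) F a b (Pi.single (Sum.inl (Sum.inr j)) 1) = 0 := by
    intro j
    rw [Cfsg.Agent.Lib.Helper15.StdForms.coe_minusQF]
    unfold Cfsg.quadFormMinus
    simp [Pi.single_apply]
  have h := Cfsg.Agent.Lib.Helper15.Spinor3.hyp_invol_mem_omega_iff h2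
    (Cfsg.Agent.Lib.Helper15.StdForms.minusQF (m - 1) F a b) (m - 1) (fun j => Sum.inl (Sum.inl j)) (fun j => Sum.inl (Sum.inr j))
    (by simp) hpl hpr hql hqr
    (Sum.elim (Sum.elim (fun j : Fin (m - 1) => (j : ℕ)) (fun j : Fin (m - 1) => (j : ℕ))) (fun _ : Fin 2 => i)) i (by omega)
    (by
      intro k j hj
      rcases k with (k | k) | k
      · simp [Fin.ext_iff]
      · simp [Fin.ext_iff]
      · simp; omega)
  rw [Cfsg.Agent.Lib.Helper15.StdForms.coe_minusQF] at h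
  rw [h, hF, Cfsg.Agent.Lib.Helper15.Spinor2.pow_mod_four_one hq]

end Cfsg.Agent.S2615
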