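import Cfsg.Statements.S2618
import Cfsg.Agent.Lib.Helper15.QForm

set_option autoImplicit false
open Cfsg

namespace Cfsg.Agent.S2618

open Cfsg.Agent.Lib.Helper15.QForm Module

/-- Standard (parabolic) basis of a non-degenerate quadratic space of odd dimension 2m + 1 over a finite field (the non-degeneracy of the polar form forces the characteristic to be odd): there is a basis e_i, f_i (i < m), x with Q(e_i) = Q(f_i) = 0, B(e_i, f_j) = δ_ij (B the polar form), the e's pairwise orthogonal and the f's pairwise orthogonal, x orthogonal to all of them and Q(x) ≠ 0. -/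
theorem result {F V : Type*} [Field F] [Finite F] [AddCommGroup V] [Module F V] [FiniteDimensional F V] {m : ℕ} (hV : Module.finrank F V = 2 * m + 1) (Q : QuadraticForm F V) (hQ : (QuadraticMap.polarBilin Q).Nondegenerate) : ∃ b : Module.Basis (Unit ⊕ (Fin m ⊕ Fin m)) F V, Q (b (Sum.inl ())) ≠ 0 ∧ (∀ i, QuadraticMap.polar ⇑Q (b (Sum.inl ())) (b (Sum.inr (Sum.inl i))) = 0 ∧ QuadraticMap.polar ⇑Q (b (Sum.inl ())) (b (Sum.inr (Sum.inr i))) = 0) ∧ (∀ i, Q (b (Sum.inr (Sum.inl i))) = 0 ∧ Q (b (Sum.inr (Sum.inr i))) = 0) ∧ (∀ i j, QuadraticMap.polar ⇑Q (b (Sum.inr (Sum.inl i))) (b (Sum.inr (Sum.inr j))) = if i = j then 1 else 0) ∧ (∀ i j, QuadraticMap.polar ⇑Q (b (Sum.inr (Sum.inl i))) (b (Sum.inr (Sum.inl j))) = 0 ∧ QuadraticMap.polar ⇑Q (b (Sum.inr (Sum.inr i))) (b (Sum.inr (Sum.inr j))) = 0) := by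
  classical
  have hnd : ∀ x, (∀ y, QuadraticMap.polar Q x y = 0) → x = 0 := fun x hx => hQ.1 x hx
  obtain ⟨k, e, f, A, hH, hA1, hA2, hA3, hA4⟩ := witt_decomp Q hnd
  have hA' : finrank F A ≤ 2 := finrank_le_two_of_anisotropic Q A hA2
  have hH' := hH
  obtain ⟨hH1, hH2, hH3, hH4, hH5⟩ := hH'
  obtain ⟨hA1', rfl⟩ : finrank F A = 1 ∧ k = m := by omega
  have hAne : A ≠ ⊥ := by
    rintro rfl
    rw [finrank_bot] at hA1'
    omega
  obtain ⟨x, hxA, hx0⟩ := Submodule.exists_mem_ne_zero_of_ne_bot hAne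
  have hQx : Q x ≠ 0 := fun h => hx0 (hA2 x hxA h)
  have hz : LinearIndependent F (fun _ : Unit => x) := linearIndependent_unique_iff.mpr hx0
  have hli0 := li_hyp Q e f hH (fun _ : Unit => x) hz (fun i _ => hA1 i x hxA)
  have hli : LinearIndependent F
      (Sum.elim (fun _ : Unit => x) (Sum.elim e f) : Unit ⊕ (Fin k ⊕ Fin k) → V) := by
    have := hli0.comp (Equiv.sumComm Unit (Fin k ⊕ Fin k)) (Equiv.injective _)
    convert this using 1
    ext i
    rcases i with _ | i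
    · rfl
    · rfl
  obtain ⟨b, hb⟩ := exists_basis_of_li _ hli (by
    rw [Fintype.card_sum, Fintype.card_sum, Fintype.card_fin, Fintype.card_unique, hV]; omega)
  refine ⟨b, ?_, ?_, ?_, ?_, ?_⟩
  · rw [hb]
    exact hQx
  · intro i
    rw [hb, hb, hb]
    simp only [Sum.elim_inl, Sum.elim_inr]
    rw [QuadraticMap.polar_comm, QuadraticMap.polar_comm Q x]
    exact hA1 i x hxA
  · intro i
    rw [hb, hb]
    exact ⟨hH1 i, hH2 i⟩
  · intro i j
    rw [hb, hb]
    exact hH3 i j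
  · intro i j
    rw [hb, hb, hb, hb]
    exact ⟨hH4 i j, hH5 i j⟩

end Cfsg.Agent.S2618
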