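import Cfsg.Statements.S2619

set_option autoImplicit false
open Cfsg

namespace Cfsg.Agent.S2619

/-- Over a finite field of characteristic two, there is exactly one quadratic form with given polar form and values on a basis. -/
theorem result {F V ι : Type*} [Field F] [Finite F] [CharP F 2] [AddCommGroup V] [Module F V] [Fintype ι] (b : Module.Basis ι F V) (B : LinearMap.BilinForm F V) (hB : B.IsAlt) (c : ι → F) : ∃! Q : QuadraticForm F V, QuadraticMap.polarBilin Q = B ∧ ∀ i, Q (b i) = c i := by
  classical
  let _ : LinearOrder ι := IsWellOrder.linearOrder WellOrderingRel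
  let B' : LinearMap.BilinMap F V F := b.constr (S := F) fun i => b.constr (S := F) fun j =>
      if i = j then c i else if i < j then B (b i) (b j) else 0
  have hB' : ∀ i j, B' (b i) (b j) = if i = j then c i else if i < j then B (b i) (b j) else 0 := by
    intro i j
    simp only [B', Module.Basis.constr_basis]
  refine ⟨B'.toQuadraticMap, ⟨?_, ?_⟩, ?_⟩
  · rw [LinearMap.BilinMap.polarBilin_toQuadraticMap]
    apply b.ext
    intro i
    apply b.ext
    intro j
    rw [LinearMap.add_apply, LinearMap.add_apply, LinearMap.flip_apply, hB', hB']
    rcases lt_trichotomy i j with h | h | h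
    · have hne : i ≠ j := ne_of_lt h
      have hne' : j ≠ i := hne.symm
      have hnlt : ¬ j < i := not_lt.mpr h.le
      simp [hne, hne', h, hnlt]
    · subst h
      simp only [if_true]
      rw [hB (b i)]
      exact CharTwo.add_self_eq_zero (c i)
    · have hne : i ≠ j := ne_of_gt h
      have hne' : j ≠ i := hne.symm
      have hnlt : ¬ i < j := not_lt.mpr h.le
      simp only [hne, hne', h, hnlt, if_false, if_true, zero_add]
      rw [← LinearMap.IsAlt.neg hB, CharTwo.neg_eq]
  · intro i
    rw [LinearMap.BilinMap.toQuadraticMap_apply, hB']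
    simp
  · rintro Q ⟨hQ1, hQ2⟩
    have h : Q.toBilin b = B' := by
      apply b.ext
      intro i
      apply b.ext
      intro j
      have hp : QuadraticMap.polar Q (b i) (b j) = B (b i) (b j) := by
        rw [← QuadraticMap.polarBilin_apply_apply, hQ1]
      rw [QuadraticMap.toBilin_apply, hB', hQ2, hp]
    rw [← QuadraticMap.toQuadraticMap_toBilin Q b, h]

end Cfsg.Agent.S2619
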