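import Cfsg.Statements.S2622
import Cfsg.Agent.Lib.Helper15.QForm

set_option autoImplicit false
open Cfsg

namespace Cfsg.Agent.S2622

open Cfsg.Agent.Lib.Helper15.QForm Module

/-- The orthogonal complement of a vector of norm one: dimension and non-degeneracy. -/
theorem perp_facts {F V : Type*} [Field F] [AddCommGroup V] [Module F V] [FiniteDimensional F V]
    (B : V →ₗ[F] V →ₗ[F] F) (hS : ∀ x y, B x y = B y x)
    (hnd : ∀ x, (∀ y, B x y = 0) → x = 0) (v : V) (hv : B v v = 1) :
    finrank F (LinearMap.ker (B v)) + 1 = finrank F V ∧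
      ∀ w ∈ LinearMap.ker (B v), (∀ w' ∈ LinearMap.ker (B v), B w w' = 0) → w = 0 := by
  constructor
  · have hsurj : LinearMap.range (B v) = ⊤ := by
      rw [LinearMap.range_eq_top]
      intro a
      exact ⟨a • v, by rw [map_smul, hv, smul_eq_mul, mul_one]⟩
    have := LinearMap.finrank_range_add_finrank_ker (B v)
    rw [hsurj, finrank_top, Module.finrank_self] at this
    omega
  · intro w hw hww
    apply hnd
    intro x
    have hmem : x - B v x • v ∈ LinearMap.ker (B v) := by
      rw [LinearMap.mem_ker, map_sub, map_smul, hv, smul_eq_mul, mul_one, sub_self]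
    have h := hww _ hmem
    rw [map_sub, map_smul, hS w v, LinearMap.mem_ker.mp hw, smul_zero, sub_zero] at h
    exact h

theorem orthonormal_family {F : Type*} [Field F] [Finite F] [CharP F 2] :
    ∀ (n : ℕ) (V : Type*) [AddCommGroup V] [Module F V] [FiniteDimensional F V]
      (B : V →ₗ[F] V →ₗ[F] F), (∀ x y, B x y = B y x) → (∀ x, (∀ y, B x y = 0) → x = 0) →
      (∃ v, B v v ≠ 0) → finrank F V = n →
      ∃ w : Fin n → V, ∀ i j, B (w i) (w j) = if i = j then 1 else 0 := by
  intro n
  induction n with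
  | zero =>
    intro V _ _ _ B hS hnd hna hV
    exfalso
    obtain ⟨v, hv⟩ := hna
    have : Subsingleton V := Module.finrank_zero_iff.mp hV
    apply hv
    rw [Subsingleton.elim v 0, map_zero]
  | succ n ih =>
    intro V _ _ _ B hS hnd hna hV
    -- a vector of norm one whose orthogonal complement is not alternating (or trivial)
    have key : ∃ v₁ : V, B v₁ v₁ = 1 ∧ (n = 0 ∨ ∃ u ∈ LinearMap.ker (B v₁), B u u ≠ 0) := by
      obtain ⟨v, hv⟩ := hna
      obtain ⟨d, hd⟩ := FiniteField.isSquare_of_char_two (ringChar.eq F 2) (B v v)⁻¹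
      have hv₁ : B (d • v) (d • v) = 1 := by
        simp only [map_smul, LinearMap.smul_apply, smul_eq_mul]
        rw [← mul_assoc, ← hd, inv_mul_cancel₀ hv]
      set v₁ := d • v with hv₁def
      obtain ⟨hfin, hndW⟩ := perp_facts B hS hnd v₁ hv₁
      by_cases hn0 : n = 0
      · exact ⟨v₁, hv₁, Or.inl hn0⟩
      by_cases halt : ∃ u ∈ LinearMap.ker (B v₁), B u u ≠ 0
      · exact ⟨v₁, hv₁, Or.inr halt⟩
      · push Not at halt
        have hWne : LinearMap.ker (B v₁) ≠ ⊥ := by
          intro h
          rw [h, finrank_bot] at hfin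
          omega
        obtain ⟨w, hwW, hw0⟩ := Submodule.exists_mem_ne_zero_of_ne_bot hWne
        obtain ⟨u₀, hu₀W, hu₀⟩ : ∃ u₀ ∈ LinearMap.ker (B v₁), B w u₀ ≠ 0 := by
          by_contra hcon
          push Not at hcon
          exact hw0 (hndW w hwW hcon)
        have hu : B w ((B w u₀)⁻¹ • u₀) = 1 := by
          rw [map_smul, smul_eq_mul, inv_mul_cancel₀ hu₀]
        have huW : (B w u₀)⁻¹ • u₀ ∈ LinearMap.ker (B v₁) := Submodule.smul_mem _ _ hu₀W
        obtain ⟨u, huW, hu⟩ : ∃ u ∈ LinearMap.ker (B v₁), B w u = 1 := ⟨_, huW, hu⟩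
        have h1w : B v₁ w = 0 := LinearMap.mem_ker.mp hwW
        have h1u : B v₁ u = 0 := LinearMap.mem_ker.mp huW
        have hww : B w w = 0 := halt w hwW
        have huu : B u u = 0 := halt u huW
        refine ⟨v₁ + w, ?_, Or.inr ⟨u + v₁, ?_, ?_⟩⟩
        · simp only [map_add, LinearMap.add_apply, hv₁, h1w, hS w v₁, hww, add_zero]
        · rw [LinearMap.mem_ker]
          simp only [map_add, LinearMap.add_apply, h1u, hv₁, hu, hS w v₁, h1w, add_zero, zero_add]
          exact CharTwo.add_self_eq_zero 1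
        · simp only [map_add, LinearMap.add_apply, huu, hS u v₁, h1u, hv₁, add_zero, zero_add]
          exact one_ne_zero
    obtain ⟨v₁, hv₁, hrest⟩ := key
    obtain ⟨hfin, hndW⟩ := perp_facts B hS hnd v₁ hv₁
    rcases hrest with hn0 | ⟨u, huW, huu⟩
    · subst hn0
      refine ⟨fun _ => v₁, fun i j => ?_⟩
      have hij : i = j := by
        apply Fin.ext
        omega
      rw [hv₁, if_pos hij]
    · set W := LinearMap.ker (B v₁) with hW
      let BW : W →ₗ[F] W →ₗ[F] F := B.domRestrict₁₂ W W
      have hBW : ∀ x y : W, BW x y = B (x : V) (y : V) := fun x y => rfl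
      obtain ⟨w, hw⟩ := ih W BW (fun x y => hS _ _)
        (fun x hx => Subtype.ext (hndW x x.2 (fun w' hw' => hx ⟨w', hw'⟩)))
        ⟨⟨u, huW⟩, huu⟩ (by omega)
      refine ⟨Fin.cons v₁ (fun i => (w i : V)), ?_⟩
      intro i j
      refine Fin.cases ?_ (fun i => ?_) i <;> refine Fin.cases ?_ (fun j => ?_) j
      · simpa using hv₁
      · simp only [Fin.cons_zero, Fin.cons_succ]
        rw [LinearMap.mem_ker.mp (w j).2, if_neg (Fin.succ_ne_zero j).symm]
      · simp only [Fin.cons_zero, Fin.cons_succ]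
        rw [hS, LinearMap.mem_ker.mp (w i).2, if_neg (Fin.succ_ne_zero i)]
      · simp only [Fin.cons_succ, Fin.succ_inj]
        exact hw i j

/-- Over a finite field of characteristic two, a non-degenerate symmetric bilinear form that is not alternating (some vector v has B(v, v) ≠ 0) admits an orthonormal basis. -/
theorem result {F V : Type*} [Field F] [Finite F] [CharP F 2] [AddCommGroup V] [Module F V] [FiniteDimensional F V] {n : ℕ} (hV : Module.finrank F V = n) (B : LinearMap.BilinForm F V) (hS : B.IsSymm) (hB : B.Nondegenerate) (hna : ∃ v : V, B v v ≠ 0) : ∃ b : Module.Basis (Fin n) F V, ∀ i j, B (b i) (b j) = if i = j then 1 else 0 := by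
  classical
  have hS' : ∀ x y, B x y = B y x := LinearMap.BilinForm.isSymm_def.mp hS
  obtain ⟨w, hw⟩ := orthonormal_family n V B hS' (fun x hx => hB.1 x hx) hna hV
  have hli : LinearIndependent F w := by
    rw [Fintype.linearIndependent_iff]
    intro g hg j
    have h := congrArg (fun x => B x (w j)) hg
    simp only [map_sum, map_smul, LinearMap.sum_apply, LinearMap.smul_apply, smul_eq_mul, map_zero,
      LinearMap.zero_apply] at h
    rw [Finset.sum_eq_single j] at h
    · rwa [hw j j, if_pos rfl, mul_one] at h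
    · intro i _ hij
      rw [hw i j, if_neg hij, mul_zero]
    · intro h'
      exact absurd (Finset.mem_univ j) h'
  have hn : 0 < n := by
    obtain ⟨v, hv⟩ := hna
    rw [← hV, Module.finrank_pos_iff_exists_ne_zero]
    refine ⟨v, ?_⟩
    rintro rfl
    apply hv
    rw [map_zero]
  have : Nonempty (Fin n) := ⟨⟨0, hn⟩⟩
  obtain ⟨b, hb⟩ := exists_basis_of_li w hli (by rw [Fintype.card_fin, hV])
  refine ⟨b, fun i j => ?_⟩
  rw [hb, hb]
  exact hw i j

end Cfsg.Agent.S2622
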