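import Cfsg.Statements.S2625

set_option autoImplicit false
open Cfsg

namespace Cfsg.Agent.S2625

open Matrix

/-- For a quadratic form Q on F^n with non-degenerate polar form, n odd, the multiplier of any similarity is a square. -/
theorem result {F : Type*} [Field F] [Fintype F] {n : ℕ} (hn : Odd n) (Q : QuadraticForm F (Fin n → F)) (hQ : (QuadraticMap.polarBilin Q).Nondegenerate) (g : (Fin n → F) ≃ₗ[F] (Fin n → F)) (c : F) (hg : ∀ v, Q (g v) = c * Q v) : IsSquare c := by
  classical
  set B : LinearMap.BilinForm F (Fin n → F) := QuadraticMap.polarBilin Q with hB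
  set M := LinearMap.BilinForm.toMatrix' B with hM
  have hdetM : M.det ≠ 0 := by
    rw [← Matrix.nondegenerate_iff_det_ne_zero]
    exact LinearMap.BilinForm.Nondegenerate.toMatrix' hQ
  have hcomp : B.comp (g : (Fin n → F) →ₗ[F] (Fin n → F)) (g : (Fin n → F) →ₗ[F] (Fin n → F)) = c • B := by
    apply LinearMap.ext₂
    intro u v
    rw [LinearMap.BilinForm.comp_apply, LinearMap.smul_apply, LinearMap.smul_apply, hB,
      QuadraticMap.polarBilin_apply_apply, QuadraticMap.polarBilin_apply_apply]
    unfold QuadraticMap.polar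
    simp only [LinearEquiv.coe_coe]
    rw [← map_add, hg, hg, hg, smul_eq_mul]
    ring
  set G := LinearMap.toMatrix' (g : (Fin n → F) →ₗ[F] (Fin n → F)) with hG
  have hmat : Gᵀ * M * G = c • M := by
    rw [hM, ← LinearMap.BilinForm.toMatrix'_comp, hcomp, map_smul]
  have hdetG : G.det ≠ 0 := by
    have h1 : G * LinearMap.toMatrix' (g.symm : (Fin n → F) →ₗ[F] (Fin n → F)) = 1 := by
      rw [hG, ← LinearMap.toMatrix'_comp]
      have : (g : (Fin n → F) →ₗ[F] (Fin n → F)).comp (g.symm : (Fin n → F) →ₗ[F] (Fin n → F)) = LinearMap.id := by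
        ext v; simp
      rw [this, LinearMap.toMatrix'_id]
    intro h0
    have := congrArg Matrix.det h1
    rw [Matrix.det_mul, h0, zero_mul, Matrix.det_one] at this
    exact zero_ne_one this
  have hdet : G.det ^ 2 * M.det = c ^ n * M.det := by
    have := congrArg Matrix.det hmat
    rw [Matrix.det_mul, Matrix.det_mul, Matrix.det_transpose, Matrix.det_smul, Fintype.card_fin] at this
    rw [← this]; ring
  have hsq : G.det ^ 2 = c ^ n := mul_right_cancel₀ hdetM hdet
  have key : ∀ d : F, d ≠ 0 → d ^ 2 = c ^ n → IsSquare c := by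
    intro d hd hsq'
    obtain ⟨k, hk⟩ := hn
    rw [hk] at hsq'
    have hc : c ≠ 0 := by
      intro h0
      rw [h0, zero_pow (by omega)] at hsq'
      exact hd (pow_eq_zero_iff (by norm_num) |>.mp hsq')
    refine ⟨d / c ^ k, ?_⟩
    have hck : c ^ k ≠ 0 := pow_ne_zero _ hc
    field_simp
    rw [hsq']
    ring
  exact key G.det hdetG hsq

end Cfsg.Agent.S2625
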