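import Cfsg.Statements.S2626

set_option autoImplicit false
open Cfsg

namespace Cfsg.Agent.S2626

open Matrix

theorem mem_iso {ι : Type} [Fintype ι] [DecidableEq ι] {F : Type*} [Field F] (Q : (ι → F) → F)
    (g : GL ι F) :
    g ∈ Cfsg.isometryGroup F Q ↔ ∀ u, Q ((g : Matrix ι ι F) *ᵥ u) = Q u :=
  ⟨fun h u => h u u, fun h u _ => h u⟩

def blk {F : Type*} [Field F] {k l : ℕ} (a : GL (Fin k) F) (b : GL (Fin l) F) :
    GL (Fin k ⊕ Fin l) F :=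
  ⟨Matrix.fromBlocks (a : Matrix (Fin k) (Fin k) F) 0 0 (b : Matrix (Fin l) (Fin l) F),
    Matrix.fromBlocks ((a⁻¹ : GL (Fin k) F) : Matrix (Fin k) (Fin k) F) 0 0
      ((b⁻¹ : GL (Fin l) F) : Matrix (Fin l) (Fin l) F),
    by rw [Matrix.fromBlocks_multiply]; simp,
    by rw [Matrix.fromBlocks_multiply]; simp⟩

theorem blk_val {F : Type*} [Field F] {k l : ℕ} (a : GL (Fin k) F) (b : GL (Fin l) F) :
    ((blk a b : GL (Fin k ⊕ Fin l) F) : Matrix (Fin k ⊕ Fin l) (Fin k ⊕ Fin l) F)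
      = Matrix.fromBlocks (a : Matrix (Fin k) (Fin k) F) 0 0 (b : Matrix (Fin l) (Fin l) F) := rfl

theorem blk_mul {F : Type*} [Field F] {k l : ℕ} (a a' : GL (Fin k) F) (b b' : GL (Fin l) F) :
    blk (a * a') (b * b') = blk a b * blk a' b' := by
  apply Units.ext
  rw [Units.val_mul, blk_val, blk_val, blk_val, Matrix.fromBlocks_multiply]
  simp

theorem blk_mulVec_inl {F : Type*} [Field F] {k l : ℕ} (A : Matrix (Fin k) (Fin k) F)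
    (B : Matrix (Fin l) (Fin l) F) (v : Fin k ⊕ Fin l → F) :
    (Matrix.fromBlocks A 0 0 B *ᵥ v) ∘ Sum.inl = A *ᵥ (v ∘ Sum.inl) := by
  ext i
  simp [Matrix.mulVec, dotProduct, Fintype.sum_sum_type]

theorem blk_mulVec_inr {F : Type*} [Field F] {k l : ℕ} (A : Matrix (Fin k) (Fin k) F)
    (B : Matrix (Fin l) (Fin l) F) (v : Fin k ⊕ Fin l → F) :
    (Matrix.fromBlocks A 0 0 B *ᵥ v) ∘ Sum.inr = B *ᵥ (v ∘ Sum.inr) := by
  ext i
  simp [Matrix.mulVec, dotProduct, Fintype.sum_sum_type]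

theorem blk_mem {F : Type*} [Field F] {k l : ℕ} (Q₁ : (Fin k → F) → F) (Q₂ : (Fin l → F) → F)
    (a : GL (Fin k) F) (b : GL (Fin l) F) (ha : a ∈ Cfsg.isometryGroup F Q₁)
    (hb : b ∈ Cfsg.isometryGroup F Q₂) :
    blk a b ∈ Cfsg.isometryGroup F (fun v : Fin k ⊕ Fin l → F => Q₁ (v ∘ Sum.inl) + Q₂ (v ∘ Sum.inr)) := by
  rw [mem_iso] at ha hb ⊢
  intro u
  show Q₁ ((_ *ᵥ u) ∘ Sum.inl) + Q₂ ((_ *ᵥ u) ∘ Sum.inr) = _
  rw [blk_val, blk_mulVec_inl, blk_mulVec_inr, ha, hb]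

theorem map_comm {G H : Type*} [Group G] [Group H] (φ : G →* H) {x : G} (hx : x ∈ commutator G) :
    φ x ∈ commutator H := by
  have h1 : (commutator G).map φ ≤ commutator H := by
    rw [commutator_def, commutator_def, Subgroup.map_commutator]
    exact Subgroup.commutator_mono le_top le_top
  exact h1 (Subgroup.mem_map_of_mem φ hx)

/-- Ω of an orthogonal direct sum contains the product of the Ω's. -/
theorem result {F : Type*} [Field F] [Fintype F] {k l : ℕ} (Q₁ : QuadraticForm F (Fin k → F)) (Q₂ : QuadraticForm F (Fin l → F)) (h₁ : (QuadraticMap.polarBilin Q₁).Nondegenerate) (h₂ : (QuadraticMap.polarBilin Q₂).Nondegenerate) (g₁ : ↥(Cfsg.isometryGroup F ⇑Q₁)) (g₂ : ↥(Cfsg.isometryGroup F ⇑Q₂)) (hg₁ : g₁ ∈ Cfsg.Omega F ⇑Q₁) (hg₂ : g₂ ∈ Cfsg.Omega F ⇑Q₂) : ∃ g : ↥(Cfsg.isometryGroup F (fun v : Fin k ⊕ Fin l → F => Q₁ (v ∘ Sum.inl) + Q₂ (v ∘ Sum.inr))),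 g ∈ Cfsg.Omega F (fun v : Fin k ⊕ Fin l → F => Q₁ (v ∘ Sum.inl) + Q₂ (v ∘ Sum.inr)) ∧ ((g : Matrix.GeneralLinearGroup (Fin k ⊕ Fin l) F) : Matrix (Fin k ⊕ Fin l) (Fin k ⊕ Fin l) F) = Matrix.fromBlocks ((g₁ : Matrix.GeneralLinearGroup (Fin k) F) : Matrix (Fin k) (Fin k) F) 0 0 ((g₂ : Matrix.GeneralLinearGroup (Fin l) F) : Matrix (Fin l) (Fin l) F) := by
  let φ₁ : ↥(Cfsg.isometryGroup F ⇑Q₁) →*
      ↥(Cfsg.isometryGroup F (fun v : Fin k ⊕ Fin l → F => Q₁ (v ∘ Sum.inl) + Q₂ (v ∘ Sum.inr))) :=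
    MonoidHom.mk' (fun a => ⟨blk a.1 1, blk_mem _ _ a.1 1 a.2 (Subgroup.one_mem _)⟩) (by
      intro a b
      apply Subtype.ext
      show blk (a.1 * b.1) 1 = blk a.1 1 * blk b.1 1
      rw [← blk_mul, mul_one])
  let φ₂ : ↥(Cfsg.isometryGroup F ⇑Q₂) →*
      ↥(Cfsg.isometryGroup F (fun v : Fin k ⊕ Fin l → F => Q₁ (v ∘ Sum.inl) + Q₂ (v ∘ Sum.inr))) :=
    MonoidHom.mk' (fun b => ⟨blk 1 b.1, blk_mem _ _ 1 b.1 (Subgroup.one_mem _) b.2⟩) (by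
      intro a b
      apply Subtype.ext
      show blk 1 (a.1 * b.1) = blk 1 a.1 * blk 1 b.1
      rw [← blk_mul, mul_one])
  refine ⟨φ₁ g₁ * φ₂ g₂, Subgroup.mul_mem _ (map_comm φ₁ hg₁) (map_comm φ₂ hg₂), ?_⟩
  show ((blk g₁.1 1 * blk 1 g₂.1 : GL (Fin k ⊕ Fin l) F) : Matrix (Fin k ⊕ Fin l) (Fin k ⊕ Fin l) F) = _
  rw [← blk_mul, mul_one, one_mul, blk_val]

end Cfsg.Agent.S2626
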