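import Cfsg.Statements.S2627
import Cfsg.Agent.Lib.Helper15.Dickson
import Cfsg.Agent.Lib.Helper15.OrthSum

set_option autoImplicit false
open Cfsg

namespace Cfsg.Agent.S2627

open Cfsg.Agent.Lib.Helper15.Spinor Cfsg.Agent.Lib.Helper15.OrthGen
  Cfsg.Agent.Lib.Helper15.OrthSum in
/-- The criterion for `diag(g₁, 1)`, with the orthogonal sum written as a quadratic form. -/
theorem aux {F : Type*} [Field F] [Fintype F] {k l : ℕ}
    (h : Fintype.card F ≠ 2 ∨ (k ≠ 4 ∧ k + l ≠ 4)) (Q₁ : QuadraticForm F (Fin k → F))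
    (Q₂ : QuadraticForm F (Fin l → F)) (h₁ : (QuadraticMap.polarBilin Q₁).Nondegenerate)
    (h₂ : (QuadraticMap.polarBilin Q₂).Nondegenerate) (g₁ : ↥(Cfsg.isometryGroup F ⇑Q₁)) :
    (∃ g : ↥(Cfsg.isometryGroup F ⇑(sumQF Q₁ Q₂)),
      g ∈ commutator ↥(Cfsg.isometryGroup F ⇑(sumQF Q₁ Q₂)) ∧
      ((g : Matrix.GeneralLinearGroup (Fin k ⊕ Fin l) F) : Matrix (Fin k ⊕ Fin l) (Fin k ⊕ Fin l) F)
        = Matrix.fromBlocks ((g₁ : Matrix.GeneralLinearGroup (Fin k) F) : Matrix (Fin k) (Fin k) F)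
          0 0 1) ↔ g₁ ∈ commutator ↥(Cfsg.isometryGroup F ⇑Q₁) := by
  classical
  have hnd₁ : ∀ x, (∀ y, QuadraticMap.polar ⇑Q₁ x y = 0) → x = 0 := fun x hx => h₁.1 x hx
  have hnd₂ : ∀ x, (∀ y, QuadraticMap.polar ⇑Q₂ x y = 0) → x = 0 := fun x hx => h₂.1 x hx
  have hnd := sum_sep Q₁ Q₂ hnd₁ hnd₂
  have hc₁ : Fintype.card F ≠ 2 ∨ Fintype.card (Fin k) ≠ 4 := by
    rcases h with h | h
    · exact Or.inl h
    · right
      rw [Fintype.card_fin]
      exact h.1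
  have hc : Fintype.card F ≠ 2 ∨ Fintype.card (Fin k ⊕ Fin l) ≠ 4 := by
    rcases h with h | h
    · exact Or.inl h
    · right
      rw [Fintype.card_sum, Fintype.card_fin, Fintype.card_fin]
      exact h.2
  obtain ⟨vs, hvs, rfl⟩ := cd_all Q₁ hnd₁ hc₁ g₁
  have hvs' := sum_nonsing Q₁ Q₂ vs hvs
  have hmat := sum_prodRefl Q₁ Q₂ vs hvs
  have key : prodRefl (sumQF Q₁ Q₂) (vs.map (fun u => Sum.elim u (0 : Fin l → F)))
        ∈ commutator ↥(Cfsg.isometryGroup F ⇑(sumQF Q₁ Q₂))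
      ↔ prodRefl Q₁ vs ∈ commutator ↥(Cfsg.isometryGroup F ⇑Q₁) := by
    by_cases h2 : (2 : F) = 0
    · have hchar : CharP F 2 := CharTwo.of_one_ne_zero_of_two_eq_zero one_ne_zero h2
      rw [Cfsg.Agent.Lib.Helper15.Dickson.prodRefl_mem_commutator_iff _ hnd hc _ hvs',
        Cfsg.Agent.Lib.Helper15.Dickson.prodRefl_mem_commutator_iff _ hnd₁ hc₁ _ hvs,
        List.length_map]
    · have e1 := prodRefl_mem_omega_iff h2 (sumQF Q₁ Q₂) _ hvs'
      have e2 := prodRefl_mem_omega_iff h2 Q₁ _ hvs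
      rw [sum_norms, List.length_map] at e1
      exact e1.trans e2.symm
  constructor
  · rintro ⟨g, hg, hgm⟩
    have hgeq : g = prodRefl (sumQF Q₁ Q₂) (vs.map (fun u => Sum.elim u (0 : Fin l → F))) := by
      apply iso_ext
      rw [hgm, hmat]
    rw [hgeq] at hg
    exact key.1 hg
  · intro hg
    exact ⟨_, key.2 hg, hmat⟩


/-- For an orthogonal direct sum Q = Q₁ ⊕ Q₂ of quadratic forms with non-degenerate polar forms over a finite field, an isometry g₁ of Q₁ extended by the identity on the second summand lies in Ω(Q) (the commutator subgroup of the orthogonal group of Q) if and only if g₁ lies in Ω(Q₁). (Excluded: the field of two elements when the first summand or the whole space has dimension 4, where the commutator subgroup of O⁺₄(2) is smaller than the group usually called Ω.) -/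
theorem result {F : Type*} [Field F] [Fintype F] {k l : ℕ} (h : Fintype.card F ≠ 2 ∨ (k ≠ 4 ∧ k + l ≠ 4)) (Q₁ : QuadraticForm F (Fin k → F)) (Q₂ : QuadraticForm F (Fin l → F)) (h₁ : (QuadraticMap.polarBilin Q₁).Nondegenerate) (h₂ : (QuadraticMap.polarBilin Q₂).Nondegenerate) (g₁ : ↥(Cfsg.isometryGroup F ⇑Q₁)) : (∃ g : ↥(Cfsg.isometryGroup F (fun v : Fin k ⊕ Fin l → F => Q₁ (v ∘ Sum.inl) + Q₂ (v ∘ Sum.inr))), g ∈ Cfsg.Omega F (fun v : Fin k ⊕ Fin l → F => Q₁ (v ∘ Sum.inl) + Q₂ (v ∘ Sum.inr)) ∧ ((g : Matrix.GeneralLinearGroup (Fin k ⊕ Fin l) F) : Matrix (Fin k ⊕ Fin l) (Fin k ⊕ Fin l) F) = Matrix.fromBlocks ((g₁ : Matrix.GeneralLinearGroup (Fin k) F) : Matrix (Fin k) (Fin k) F) 0 0 1) ↔ g₁ ∈ Cfsg.Omega F ⇑Q₁ := by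
  exact aux h Q₁ Q₂ h₁ h₂ g₁

end Cfsg.Agent.S2627
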