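import Cfsg.Statements.S2628
import Cfsg.Agent.Lib.Helper15.OrthGen

set_option autoImplicit false
open Cfsg

namespace Cfsg.Agent.S2628

/-- For the orthogonal direct sum Q ⊕ Q of two copies of a quadratic form Q with non-degenerate polar form on F^k (F finite), every isometry g of Q acting diagonally, diag(g, g), lies in Ω(Q ⊕ Q), the commutator subgroup of the orthogonal group of Q ⊕ Q. (Excluded: k = 2 over the field of two elements, where Q ⊕ Q is the hyperbolic 4-space whose orthogonal group's commutator subgroup is smaller than the group usually called Ω.) -/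
theorem result {F : Type*} [Field F] [Fintype F] {k : ℕ} (h : Fintype.card F ≠ 2 ∨ k ≠ 2) (Q : QuadraticForm F (Fin k → F)) (hQ : (QuadraticMap.polarBilin Q).Nondegenerate) (g : ↥(Cfsg.isometryGroup F ⇑Q)) : ∃ x : ↥(Cfsg.isometryGroup F (fun v : Fin k ⊕ Fin k → F => Q (v ∘ Sum.inl) + Q (v ∘ Sum.inr))), x ∈ Cfsg.Omega F (fun v : Fin k ⊕ Fin k → F => Q (v ∘ Sum.inl) + Q (v ∘ Sum.inr)) ∧ ((x : Matrix.GeneralLinearGroup (Fin k ⊕ Fin k) F) : Matrix (Fin k ⊕ Fin k) (Fin k ⊕ Fin k) F) = Matrix.fromBlocks ((g : Matrix.GeneralLinearGroup (Fin k) F) : Matrix (Fin k) (Fin k) F) 0 0 ((g : Matrix.GeneralLinearGroup (Fin k) F) : Matrix (Fin k) (Fin k) F) := by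
  classical
  have hnd : ∀ x, (∀ y, QuadraticMap.polar ⇑Q x y = 0) → x = 0 := fun x hx => hQ.1 x hx
  change ∃ x : ↥(Cfsg.isometryGroup F ⇑(Cfsg.Agent.Lib.Helper15.OrthGen.sumQF Q Q)),
    x ∈ commutator ↥(Cfsg.isometryGroup F ⇑(Cfsg.Agent.Lib.Helper15.OrthGen.sumQF Q Q)) ∧
    ((x : Matrix.GeneralLinearGroup (Fin k ⊕ Fin k) F) : Matrix (Fin k ⊕ Fin k) (Fin k ⊕ Fin k) F)
      = Matrix.fromBlocks ((g : Matrix.GeneralLinearGroup (Fin k) F) : Matrix (Fin k) (Fin k) F)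
        0 0 ((g : Matrix.GeneralLinearGroup (Fin k) F) : Matrix (Fin k) (Fin k) F)
  have hnd2 := Cfsg.Agent.Lib.Helper15.OrthGen.sum_sep Q Q hnd hnd
  have hc : Fintype.card F ≠ 2 ∨ Fintype.card (Fin k ⊕ Fin k) ≠ 4 := by
    rcases h with h | h
    · exact Or.inl h
    · right
      rw [Fintype.card_sum, Fintype.card_fin]
      omega
  obtain ⟨a, ha⟩ := Cfsg.Agent.Lib.Helper15.OrthGen.exists_diag Q Q g 1
  obtain ⟨s, hs⟩ := Cfsg.Agent.Lib.Helper15.OrthGen.exists_swap Q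
  have hss : s * s = 1 := by
    apply Cfsg.Agent.Lib.Helper15.Spinor.iso_ext
    rw [Cfsg.Agent.Lib.Helper15.Spinor.coe_mul, hs, Cfsg.Agent.Lib.Helper15.Spinor.coe_one,
      Matrix.fromBlocks_multiply]
    simp [Matrix.fromBlocks_one]
  have hsinv : s⁻¹ = s := inv_eq_of_mul_eq_one_right hss
  refine ⟨a * s * a * s⁻¹, ?_, ?_⟩
  · have e : a * s * a * s⁻¹ = (a * s * a⁻¹ * s⁻¹) * (s * (a * a) * s⁻¹) := by
      group
    rw [e]
    refine Subgroup.mul_mem _ ?_ ?_
    · rw [commutator_def]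
      have hcm := Subgroup.commutator_mem_commutator (Subgroup.mem_top a) (Subgroup.mem_top s)
      rw [commutatorElement_def] at hcm
      exact hcm
    · exact (inferInstance : (commutator ↥(Cfsg.isometryGroup F
        ⇑(Cfsg.Agent.Lib.Helper15.OrthGen.sumQF Q Q))).Normal).conj_mem _
        (Cfsg.Agent.Lib.Helper15.OrthGen.sq_mem_commutator _ hnd2 hc a) s
  · rw [hsinv, Cfsg.Agent.Lib.Helper15.Spinor.coe_mul, Cfsg.Agent.Lib.Helper15.Spinor.coe_mul,
      Cfsg.Agent.Lib.Helper15.Spinor.coe_mul, ha, hs, Matrix.fromBlocks_multiply,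
      Matrix.fromBlocks_multiply, Matrix.fromBlocks_multiply]
    simp

end Cfsg.Agent.S2628
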