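import Cfsg.Statements.S2630
import Cfsg.Agent.Lib.Helper15.Parity
import Cfsg.Agent.Lib.Helper15.Dickson

set_option autoImplicit false
open Cfsg

namespace Cfsg.Agent.S2630

open Cfsg.Agent.Lib.Helper15.Spinor Cfsg.Agent.Lib.Helper15.StdForms
  Cfsg.Agent.Lib.Helper15.Parity Cfsg.Agent.Lib.Helper15.CD2 in
/-- The statement for the hyperbolic form as a quadratic form. -/
theorem aux {F : Type*} [Field F] [Fintype F] [CharP F 2] {m : ℕ}
    (h : Fintype.card F ≠ 2 ∨ m ≠ 2) (g : ↥(Cfsg.isometryGroup F ⇑(plusQF m F))) :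
    Even (m - Module.finrank F ↥(U0 m F ⊓ (U0 m F).map (act (plusQF m F) g)))
      ↔ g ∈ commutator ↥(Cfsg.isometryGroup F ⇑(plusQF m F)) := by
  classical
  have hc : Fintype.card F ≠ 2 ∨ Fintype.card (Fin m ⊕ Fin m) ≠ 4 := by
    rcases h with h | h
    · exact Or.inl h
    · right
      rw [Fintype.card_sum, Fintype.card_fin]
      omega
  obtain ⟨vs, hvs, rfl⟩ := cartan_dieudonne2 (plusQF m F) (plus_sep m) hc g
  rw [parity_prodRefl m vs hvs,
    Cfsg.Agent.Lib.Helper15.Dickson.prodRefl_mem_commutator_iff _ (plus_sep m) hc vs hvs]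


/-- For the hyperbolic form Σ x_i y_i on F^(2m) over a finite field of characteristic two (m ≥ 1, excluding m = 2 over the field of two elements), an isometry g preserves the class of the maximal totally singular subspace U₀ = {y = 0} (m − dim(U₀ ∩ gU₀) even) if and only if g lies in Ω (the commutator subgroup of the orthogonal group): the stabiliser of each class is Ω. -/
theorem result {F : Type*} [Field F] [Fintype F] [CharP F 2] {m : ℕ} (hm : 1 ≤ m) (h : Fintype.card F ≠ 2 ∨ m ≠ 2) (g : ↥(Cfsg.isometryGroup F (Cfsg.quadFormPlus m F))) : Even (m - Module.finrank F ↥(LinearMap.ker (LinearMap.funLeft F F (Sum.inr : Fin m → Fin m ⊕ Fin m)) ⊓ (LinearMap.ker (LinearMap.funLeft F F (Sum.inr : Fin m → Fin m ⊕ Fin m))).map (Matrix.mulVecLin ((g : Matrix.GeneralLinearGroup (Fin m ⊕ Fin m) F) : Matrix (Fin m ⊕ Fin m) (Fin m ⊕ Fin m) F)))) ↔ g ∈ Cfsg.Omega F (Cfsg.quadFormPlus m F) := by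
  exact aux h g

end Cfsg.Agent.S2630
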