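import Cfsg.Statements.S2631
import Cfsg.Agent.Lib.Helper15.Witt
import Cfsg.Agent.Lib.Helper15.Dickson
import Cfsg.Agent.Lib.Helper15.StdForms

set_option autoImplicit false
open Cfsg

namespace Cfsg.Agent.S2631

open Cfsg.Agent.Lib.Helper15.Spinor Cfsg.Agent.Lib.Helper15.CD2
  Cfsg.Agent.Lib.Helper15.Witt Cfsg.Agent.Lib.Helper15.StdForms in
/-- The statement for the hyperbolic form as a quadratic form. -/
theorem aux {F : Type*} [Field F] [Fintype F] {m : ℕ} (hm : 1 ≤ m)
    (h : Fintype.card F ≠ 2 ∨ m ≠ 2) (U W : Submodule F (Fin m ⊕ Fin m → F))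
    (hU : Module.finrank F U = m) (hW : Module.finrank F W = m)
    (hU0 : ∀ u ∈ U, plusQF m F u = 0) (hW0 : ∀ w ∈ W, plusQF m F w = 0)
    (he : Even (m - Module.finrank F ↥(U ⊓ W))) :
    ∃ g : ↥(Cfsg.isometryGroup F ⇑(plusQF m F)),
      g ∈ commutator ↥(Cfsg.isometryGroup F ⇑(plusQF m F)) ∧
      U.map (act (plusQF m F) g) = W := by
  classical
  have hnd := plus_sep (F := F) m
  have hQ := plus_nondeg (F := F) m
  have hc : Fintype.card F ≠ 2 ∨ Fintype.card (Fin m ⊕ Fin m) ≠ 4 := by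
    rcases h with h | h
    · exact Or.inl h
    · right
      rw [Fintype.card_sum, Fintype.card_fin]
      omega
  obtain ⟨vs, hvs, -, hmap⟩ := ts_trans (plusQF m F) hnd m ⊥ U W (splits_bot _)
    (fun x _ => mem_perp_bot _ x) (fun x _ => mem_perp_bot _ x) hU0 hW0 hU hW
  have hUself := selfOrth_of_finrank (plusQF m F) hQ U hU0 m hU (by
    rw [Fintype.card_sum, Fintype.card_fin]
    omega)
  have hpar := parity_gen (plusQF m F) hQ U hUself m hU vs hvs
  rw [hmap] at hpar
  have heven := hpar.1 he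
  have hWne : W ≠ ⊥ := by
    intro hb
    rw [hb, finrank_bot] at hW
    omega
  by_cases h2 : (2 : F) = 0
  · have hchar : CharP F 2 := CharTwo.of_one_ne_zero_of_two_eq_zero one_ne_zero h2
    exact ⟨prodRefl (plusQF m F) vs,
      (Cfsg.Agent.Lib.Helper15.Dickson.prodRefl_mem_commutator_iff _ hnd hc vs hvs).2 heven,
      hmap⟩
  · obtain ⟨ws, hws, hWmap, hmem⟩ := adjust_odd h2 (plusQF m F) hnd W hW0 hWne vs hvs heven
    refine ⟨prodRefl (plusQF m F) (ws ++ vs), hmem, ?_⟩
    rw [prodRefl_append, map_act_mul, hmap, hWmap]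


/-- For the hyperbolic form Σ x_i y_i on F^(2m) over a finite field (m ≥ 1, excluding m = 2 over the field of two elements), Ω (the commutator subgroup of the orthogonal group) acts transitively on each of the two classes of maximal totally singular subspaces: if U and W are m-dimensional totally singular subspaces with m − dim(U ∩ W) even, some element of Ω carries U to W. -/
theorem result {F : Type*} [Field F] [Fintype F] {m : ℕ} (hm : 1 ≤ m) (h : Fintype.card F ≠ 2 ∨ m ≠ 2) (U W : Submodule F (Fin m ⊕ Fin m → F)) (hU : Module.finrank F U = m) (hW : Module.finrank F W = m) (hU0 : ∀ u ∈ U, Cfsg.quadFormPlus m F u = 0) (hW0 : ∀ w ∈ W, Cfsg.quadFormPlus m F w = 0) (he : Even (m - Module.finrank F ↥(U ⊓ W))) : ∃ g : ↥(Cfsg.isometryGroup F (Cfsg.quadFormPlus m F)), g ∈ Cfsg.Omega F (Cfsg.quadFormPlus m F) ∧ U.map (Matrix.mulVecLin ((g : Matrix.GeneralLinearGroup (Fin m ⊕ Fin m) F) : Matrix (Fin m ⊕ Fin m) (Fin m ⊕ Fin m) F)) = W := by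
  exact aux hm h U W hU hW hU0 hW0 he

end Cfsg.Agent.S2631
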