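import Cfsg.Statements.S2632
import Cfsg.Agent.Lib.Helper15.Witt2
import Cfsg.Agent.Lib.Helper15.Dickson
import Cfsg.Agent.Lib.Helper15.OrthGen

set_option autoImplicit false
open Cfsg

namespace Cfsg.Agent.S2632

open Cfsg.Agent.Lib.Helper15.Spinor Cfsg.Agent.Lib.Helper15.CD2
  Cfsg.Agent.Lib.Helper15.Witt Cfsg.Agent.Lib.Helper15.Witt2

/-- A product of reflections each stabilising `W` stabilises `W`. -/
theorem map_list {F : Type*} [Field F] [Fintype F] {n : ℕ} (Q : QuadraticForm F (Fin n → F))
    (W : Submodule F (Fin n → F)) (ws : List (Fin n → F))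
    (h : ∀ z ∈ ws, W.map (act Q (reflO Q z)) = W) : W.map (act Q (prodRefl Q ws)) = W := by
  induction ws with
  | nil =>
    ext y
    constructor
    · rintro ⟨z, hz, rfl⟩
      rw [act_nil]
      exact hz
    · intro hy
      exact ⟨y, hy, act_nil Q y⟩
  | cons z ws ih =>
    rw [prodRefl_cons, map_act_mul, ih (fun w hw => h w (List.mem_cons_of_mem _ hw)),
      h z (List.mem_cons_self ..)]

/-- The statement in terms of the action of isometries on vectors. -/
theorem aux {F : Type*} [Field F] [Fintype F] {n : ℕ} (hn : 3 ≤ n)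
    (h : Fintype.card F ≠ 2 ∨ n ≠ 4) (Q : QuadraticForm F (Fin n → F))
    (hQ : (QuadraticMap.polarBilin Q).Nondegenerate) (U W : Submodule F (Fin n → F))
    (hU : U ⊓ LinearMap.BilinForm.orthogonal (QuadraticMap.polarBilin Q) U = ⊥)
    (hW : W ⊓ LinearMap.BilinForm.orthogonal (QuadraticMap.polarBilin Q) W = ⊥)
    (e : U ≃ₗ[F] W) (he : ∀ u : U, Q (e u : Fin n → F) = Q (u : Fin n → F)) :
    ∃ g : ↥(Cfsg.isometryGroup F ⇑Q), g ∈ commutator ↥(Cfsg.isometryGroup F ⇑Q) ∧
      U.map (act Q g) = W := by
  classical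
  have hnd : ∀ x, (∀ y, QuadraticMap.polar ⇑Q x y = 0) → x = 0 := fun x hx => hQ.1 x hx
  have hc : Fintype.card F ≠ 2 ∨ Fintype.card (Fin n) ≠ 4 := by
    rw [Fintype.card_fin]
    exact h
  have hnd_of : ∀ M : Submodule F (Fin n → F),
      M ⊓ LinearMap.BilinForm.orthogonal (QuadraticMap.polarBilin Q) M = ⊥ →
      ∀ x ∈ M, (∀ y ∈ M, QuadraticMap.polar ⇑Q x y = 0) → x = 0 := by
    intro M hM x hx hxy
    have hmem : x ∈ M ⊓ LinearMap.BilinForm.orthogonal (QuadraticMap.polarBilin Q) M := by
      refine ⟨hx, LinearMap.BilinForm.mem_orthogonal_iff.2 (fun m hm => ?_)⟩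
      change QuadraticMap.polar ⇑Q m x = 0
      rw [QuadraticMap.polar_comm]
      exact hxy m hm
    rw [hM] at hmem
    exact (Submodule.mem_bot F).1 hmem
  have hUnd := hnd_of U hU
  have hWnd := hnd_of W hW
  obtain ⟨σ, hσ⟩ := LinearMap.exists_extend (W.subtype ∘ₗ e.toLinearMap)
  have hσx : ∀ x (hx : x ∈ U), σ x = (e ⟨x, hx⟩ : Fin n → F) := by
    intro x hx
    exact LinearMap.congr_fun hσ ⟨x, hx⟩
  have hσQ : ∀ x ∈ U, Q (σ x) = Q x := by
    intro x hx
    rw [hσx x hx]
    exact he ⟨x, hx⟩
  have hex : ∃ g₀ : ↥(Cfsg.isometryGroup F ⇑Q), ∀ x ∈ U, act Q g₀ x = σ x := by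
    by_cases h2 : (2 : F) = 0
    · have hchar : CharP F 2 := CharTwo.of_one_ne_zero_of_two_eq_zero one_ne_zero h2
      exact witt2 Q hnd hc U hUnd σ hσQ
    · exact witt_odd h2 Q U hUnd σ hσQ
  obtain ⟨g₀, hg₀⟩ := hex
  have hmap₀ : U.map (act Q g₀) = W := by
    ext y
    constructor
    · rintro ⟨x, hx, rfl⟩
      rw [hg₀ x hx, hσx x hx]
      exact (e ⟨x, hx⟩).2
    · intro hy
      refine ⟨(e.symm ⟨y, hy⟩ : Fin n → F), (e.symm ⟨y, hy⟩).2, ?_⟩
      rw [hg₀ _ (e.symm ⟨y, hy⟩).2, hσx _ (e.symm ⟨y, hy⟩).2]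
      simp
  obtain ⟨vs, hvs, hg₀eq⟩ := Cfsg.Agent.Lib.Helper15.OrthGen.cd_all Q hnd hc g₀
  rw [hg₀eq] at hmap₀
  by_cases h2 : (2 : F) = 0
  · have hchar : CharP F 2 := CharTwo.of_one_ne_zero_of_two_eq_zero one_ne_zero h2
    by_cases hev : Even vs.length
    · exact ⟨prodRefl Q vs,
        (Cfsg.Agent.Lib.Helper15.Dickson.prodRefl_mem_commutator_iff Q hnd hc vs hvs).2 hev,
        hmap₀⟩
    · have hx : ∃ x, Q x ≠ 0 ∧ W.map (act Q (reflO Q x)) = W := by
        by_cases hWb : W = ⊥
        · have hne : perp Q ⊥ ≠ ⊥ := by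
            intro hbot
            have hmem : (Pi.single (⟨0, by omega⟩ : Fin n) 1 : Fin n → F) ∈ perp Q ⊥ :=
              mem_perp_bot Q _
            rw [hbot, Submodule.mem_bot] at hmem
            have h1 := congrFun hmem ⟨0, by omega⟩
            simp at h1
          obtain ⟨x, _, hQx⟩ := exists_nonsing Q hnd ⊥ (splits_bot Q) hne
          exact ⟨x, hQx, by rw [hWb, Submodule.map_bot]⟩
        · obtain ⟨x, hxW, hQx⟩ := exists_nonsing_in Q W hWnd hWb
          exact ⟨x, hQx, map_refl_mem Q W x hxW⟩
      obtain ⟨x, hQx, hxmap⟩ := hx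
      have hvs' : ∀ v ∈ x :: vs, Q v ≠ 0 := by
        intro v hv
        rw [List.mem_cons] at hv
        rcases hv with rfl | hv
        · exact hQx
        · exact hvs v hv
      refine ⟨prodRefl Q (x :: vs), ?_, ?_⟩
      · rw [Cfsg.Agent.Lib.Helper15.Dickson.prodRefl_mem_commutator_iff Q hnd hc _ hvs',
          List.length_cons]
        exact Nat.even_add_one.2 hev
      · rw [prodRefl_cons, map_act_mul, hmap₀, hxmap]
  · obtain ⟨δ, hδ⟩ := FiniteField.exists_nonsquare (F := F) (ringChar_ne_two h2)
    have hδ0 : δ ≠ 0 := by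
      rintro rfl
      exact hδ ⟨0, by simp⟩
    have hab : ∃ a b : Fin n → F, Q a = 1 ∧ Q b = δ ∧ W.map (act Q (reflO Q a)) = W ∧
        W.map (act Q (reflO Q b)) = W := by
      by_cases hr : 2 ≤ Module.finrank F ↥W
      · obtain ⟨a, haW, ha⟩ := universal_in h2 Q W hWnd hr 1
        obtain ⟨b, hbW, hb⟩ := universal_in h2 Q W hWnd hr δ
        exact ⟨a, b, ha, hb, map_refl_mem Q W a haW, map_refl_mem Q W b hbW⟩
      · have hPnd : ∀ x ∈ perp Q W, (∀ y ∈ perp Q W, QuadraticMap.polar ⇑Q x y = 0) → x = 0 := by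
          intro x hx hxy
          have hxW : x ∈ W := by
            rw [← perp_perp Q hQ W]
            exact hxy
          exact hWnd x hxW (fun y hy => hx y hy)
        have hPrank : 2 ≤ Module.finrank F ↥(perp Q W) := by
          rw [finrank_perp Q hQ W, Fintype.card_fin]
          omega
        obtain ⟨a, haW, ha⟩ := universal_in h2 Q _ hPnd hPrank 1
        obtain ⟨b, hbW, hb⟩ := universal_in h2 Q _ hPnd hPrank δ
        exact ⟨a, b, ha, hb, map_refl_perp Q W a haW, map_refl_perp Q W b hbW⟩
    obtain ⟨a, b, hQa, hQb, hamap, hbmap⟩ := hab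
    have ha0 : Q a ≠ 0 := by rw [hQa]; exact one_ne_zero
    have hb0 : Q b ≠ 0 := by rw [hQb]; exact hδ0
    have key : ∃ ws : List (Fin n → F), (∀ z ∈ ws, Q z ≠ 0) ∧
        (∀ z ∈ ws, W.map (act Q (reflO Q z)) = W) ∧
        Even (ws ++ vs).length ∧ IsSquare ((ws ++ vs).map (fun v => Q v)).prod := by
      by_cases hev : Even vs.length
      · by_cases hsq : IsSquare (vs.map (fun v => Q v)).prod
        · exact ⟨[], by simp, by simp, by simpa using hev, by simpa using hsq⟩
        · refine ⟨[a, b], ?_, ?_, ?_, ?_⟩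
          · intro z hz
            rw [List.mem_cons, List.mem_singleton] at hz
            rcases hz with rfl | rfl
            · exact ha0
            · exact hb0
          · intro z hz
            rw [List.mem_cons, List.mem_singleton] at hz
            rcases hz with rfl | rfl
            · exact hamap
            · exact hbmap
          · obtain ⟨r, hr⟩ := hev
            exact ⟨r + 1, by simp [hr]; ring⟩
          · simp only [List.cons_append, List.nil_append, List.map_cons, List.prod_cons, hQa, hQb,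
              one_mul]
            exact nsq_mul_nsq δ _ hδ hsq
      · by_cases hsq : IsSquare (vs.map (fun v => Q v)).prod
        · refine ⟨[a], ?_, ?_, ?_, ?_⟩
          · intro z hz
            rw [List.mem_singleton] at hz
            rw [hz]
            exact ha0
          · intro z hz
            rw [List.mem_singleton] at hz
            rw [hz]
            exact hamap
          · simp only [List.cons_append, List.nil_append, List.length_cons]
            exact Nat.even_add_one.2 hev
          · simp only [List.cons_append, List.nil_append, List.map_cons, List.prod_cons, hQa,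
              one_mul]
            exact hsq
        · refine ⟨[b], ?_, ?_, ?_, ?_⟩
          · intro z hz
            rw [List.mem_singleton] at hz
            rw [hz]
            exact hb0
          · intro z hz
            rw [List.mem_singleton] at hz
            rw [hz]
            exact hbmap
          · simp only [List.cons_append, List.nil_append, List.length_cons]
            exact Nat.even_add_one.2 hev
          · simp only [List.cons_append, List.nil_append, List.map_cons, List.prod_cons, hQb]
            exact nsq_mul_nsq δ _ hδ hsq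
    obtain ⟨ws, hws, hwsmap, hev, hsq⟩ := key
    have hall : ∀ v ∈ ws ++ vs, Q v ≠ 0 := by
      intro v hv
      rw [List.mem_append] at hv
      rcases hv with hv | hv
      · exact hws v hv
      · exact hvs v hv
    refine ⟨prodRefl Q (ws ++ vs), (prodRefl_mem_omega_iff h2 Q _ hall).2 ⟨hev, hsq⟩, ?_⟩
    rw [prodRefl_append, map_act_mul, hmap₀, map_list Q W ws hwsmap]


/-- Ω is transitive on non-degenerate subspaces of each isometry type: for a quadratic form Q on F^n, n ≥ 3, with non-degenerate polar form (F finite; excluding dimension 4 over the field of two elements), if U and W are subspaces on which the polar form is non-degenerate and there is a Q-preserving linear isomorphism U → W, then some element of Ω (the commutator subgroup of the orthogonal group) carries U to W. (In dimension 2 this fails: Ω can be {±1}, which fixes every line.) -/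
theorem result {F : Type*} [Field F] [Fintype F] {n : ℕ} (hn : 3 ≤ n) (h : Fintype.card F ≠ 2 ∨ n ≠ 4) (Q : QuadraticForm F (Fin n → F)) (hQ : (QuadraticMap.polarBilin Q).Nondegenerate) (U W : Submodule F (Fin n → F)) (hU : U ⊓ LinearMap.BilinForm.orthogonal (QuadraticMap.polarBilin Q) U = ⊥) (hW : W ⊓ LinearMap.BilinForm.orthogonal (QuadraticMap.polarBilin Q) W = ⊥) (e : U ≃ₗ[F] W) (he : ∀ u : U, Q (e u : Fin n → F) = Q (u : Fin n → F)) : ∃ g : ↥(Cfsg.isometryGroup F ⇑Q), g ∈ Cfsg.Omega F ⇑Q ∧ U.map (Matrix.mulVecLin ((g : Matrix.GeneralLinearGroup (Fin n) F) : Matrix (Fin n) (Fin n) F)) = W := by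
  exact aux hn h Q hQ U W hU hW e he

end Cfsg.Agent.S2632
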