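import Cfsg.Statements.S2633
import Cfsg.Agent.Lib.Helper15.Witt
import Cfsg.Agent.Lib.Helper15.Dickson

set_option autoImplicit false
open Cfsg

namespace Cfsg.Agent.S2633

open Cfsg.Agent.Lib.Helper15.Spinor Cfsg.Agent.Lib.Helper15.CD2
  Cfsg.Agent.Lib.Helper15.Witt in
/-- The statement in terms of the action of isometries on vectors. -/
theorem aux {F : Type*} [Field F] [Fintype F] {n : ℕ} (h : Fintype.card F ≠ 2 ∨ n ≠ 4)
    (Q : QuadraticForm F (Fin n → F)) (hQ : (QuadraticMap.polarBilin Q).Nondegenerate)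
    (U W : Submodule F (Fin n → F)) {k : ℕ} (hk : 2 * k < n) (hU : Module.finrank F U = k)
    (hW : Module.finrank F W = k) (hU0 : ∀ u ∈ U, Q u = 0) (hW0 : ∀ w ∈ W, Q w = 0) :
    ∃ g : ↥(Cfsg.isometryGroup F ⇑Q), g ∈ commutator ↥(Cfsg.isometryGroup F ⇑Q) ∧
      U.map (act Q g) = W := by
  classical
  have hnd : ∀ x, (∀ y, QuadraticMap.polar ⇑Q x y = 0) → x = 0 := fun x hx => hQ.1 x hx
  have hc : Fintype.card F ≠ 2 ∨ Fintype.card (Fin n) ≠ 4 := by
    rw [Fintype.card_fin]
    exact h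
  obtain ⟨vs, hvs, -, hmap⟩ := ts_trans Q hnd k ⊥ U W (splits_bot Q)
    (fun x _ => mem_perp_bot Q x) (fun x _ => mem_perp_bot Q x) hU0 hW0 hU hW
  by_cases hk0 : k = 0
  · have hU' : U = ⊥ := Submodule.finrank_eq_zero.1 (by rw [hU, hk0])
    have hW' : W = ⊥ := Submodule.finrank_eq_zero.1 (by rw [hW, hk0])
    exact ⟨1, Subgroup.one_mem _, by rw [hU', hW', Submodule.map_bot]⟩
  have hWne : W ≠ ⊥ := by
    intro hb
    rw [hb, finrank_bot] at hW
    exact hk0 hW.symm
  obtain ⟨x, hxW, hQx⟩ := exists_nonsing_perp Q hQ W (by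
    rw [hW, Fintype.card_fin]
    exact hk)
  obtain ⟨vs₀, hvs₀, hmap₀, heven₀⟩ : ∃ vs₀ : List (Fin n → F), (∀ v ∈ vs₀, Q v ≠ 0) ∧
      U.map (act Q (prodRefl Q vs₀)) = W ∧ Even vs₀.length := by
    by_cases he : Even vs.length
    · exact ⟨vs, hvs, hmap, he⟩
    · refine ⟨x :: vs, ?_, ?_, ?_⟩
      · intro v hv
        rw [List.mem_cons] at hv
        rcases hv with rfl | hv
        · exact hQx
        · exact hvs v hv
      · rw [prodRefl_cons, map_act_mul, hmap, map_refl_perp Q W x hxW]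
      · rw [List.length_cons]
        exact Nat.even_add_one.2 he
  by_cases h2 : (2 : F) = 0
  · have hchar : CharP F 2 := CharTwo.of_one_ne_zero_of_two_eq_zero one_ne_zero h2
    exact ⟨prodRefl Q vs₀,
      (Cfsg.Agent.Lib.Helper15.Dickson.prodRefl_mem_commutator_iff Q hnd hc vs₀ hvs₀).2 heven₀,
      hmap₀⟩
  · obtain ⟨ws, hws, hWmap, hmem⟩ := adjust_odd h2 Q hnd W hW0 hWne vs₀ hvs₀ heven₀
    refine ⟨prodRefl Q (ws ++ vs₀), hmem, ?_⟩
    rw [prodRefl_append, map_act_mul, hmap₀, hWmap]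


/-- Ω is transitive on totally singular subspaces of each dimension less than half the dimension: for a quadratic form Q on F^n with non-degenerate polar form (F finite; excluding dimension 4 over the field of two elements), if U and W are subspaces of the same dimension k with 2k < n on which Q vanishes, then some element of Ω (the commutator subgroup of the orthogonal group) carries U to W. -/
theorem result {F : Type*} [Field F] [Fintype F] {n : ℕ} (h : Fintype.card F ≠ 2 ∨ n ≠ 4) (Q : QuadraticForm F (Fin n → F)) (hQ : (QuadraticMap.polarBilin Q).Nondegenerate) (U W : Submodule F (Fin n → F)) {k : ℕ} (hk : 2 * k < n) (hU : Module.finrank F U = k) (hW : Module.finrank F W = k) (hU0 : ∀ u ∈ U, Q u = 0) (hW0 : ∀ w ∈ W, Q w = 0) : ∃ g : ↥(Cfsg.isometryGroup F ⇑Q), g ∈ Cfsg.Omega F ⇑Q ∧ U.map (Matrix.mulVecLin ((g : Matrix.GeneralLinearGroup (Fin n) F) : Matrix (Fin n) (Fin n) F)) = W := by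
  exact aux h Q hQ U W hk hU hW hU0 hW0

end Cfsg.Agent.S2633
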