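import Cfsg.Statements.S2634
import Cfsg.Agent.Lib.Helper15.Dickson

set_option autoImplicit false
open Cfsg

namespace Cfsg.Agent.S2634

/-- Over a finite field of characteristic two, Ω (the commutator subgroup of the orthogonal group of a quadratic form Q on F^n with non-degenerate polar form; excluding dimension 4 over the field of two elements) acts transitively on the non-singular 1-spaces: for u, v with Q(u) ≠ 0 and Q(v) ≠ 0 some element of Ω carries the line through u to the line through v. -/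
theorem result {F : Type*} [Field F] [Fintype F] [CharP F 2] {n : ℕ} (h : Fintype.card F ≠ 2 ∨ n ≠ 4) (Q : QuadraticForm F (Fin n → F)) (hQ : (QuadraticMap.polarBilin Q).Nondegenerate) (u v : Fin n → F) (hu : Q u ≠ 0) (hv : Q v ≠ 0) : ∃ g : ↥(Cfsg.isometryGroup F ⇑Q), g ∈ Cfsg.Omega F ⇑Q ∧ (F ∙ ((g : Matrix.GeneralLinearGroup (Fin n) F) : Matrix (Fin n) (Fin n) F).mulVec u) = F ∙ v := by
  classical
  have hnd : ∀ x, (∀ y, QuadraticMap.polar ⇑Q x y = 0) → x = 0 := fun x hx => hQ.1 x hx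
  have hc : Fintype.card F ≠ 2 ∨ Fintype.card (Fin n) ≠ 4 := by
    rw [Fintype.card_fin]
    exact h
  obtain ⟨c, hcsq⟩ := FiniteField.isSquare_of_char_two (F := F)
    ((ringChar.eq_iff).2 inferInstance) (Q v / Q u)
  have hc0 : c ≠ 0 := by
    rintro rfl
    rw [mul_zero] at hcsq
    exact div_ne_zero hv hu hcsq
  have hQcu : Q (c • u) = Q v := by
    rw [QuadraticMap.map_smul, smul_eq_mul, ← hcsq, div_mul_cancel₀ _ hu]
  have hcu : Q (c • u) ≠ 0 := by rw [hQcu]; exact hv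
  obtain ⟨g₀, hg₀⟩ := Cfsg.Agent.Lib.Helper15.Dickson.exists_move Q hnd hc (c • u) v hQcu hcu
  have hg₀u : Cfsg.Agent.Lib.Helper15.CD2.act Q g₀ u = c⁻¹ • v := by
    rw [← hg₀, map_smul, smul_smul, inv_mul_cancel₀ hc0, one_smul]
  have hspan : (F ∙ (c⁻¹ • v)) = F ∙ v :=
    Submodule.span_singleton_smul_eq (IsUnit.mk0 _ (inv_ne_zero hc0)) v
  by_cases hmem : g₀ ∈ Cfsg.Omega F ⇑Q
  · refine ⟨g₀, hmem, ?_⟩
    rw [← Cfsg.Agent.Lib.Helper15.CD2.act_apply, hg₀u, hspan]
  · refine ⟨g₀ * Cfsg.Agent.Lib.Helper15.Spinor.reflO Q u, ?_, ?_⟩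
    · obtain ⟨vs, hvs, hvsg⟩ := Cfsg.Agent.Lib.Helper15.CD2.cartan_dieudonne2 Q hnd hc g₀
      have e : g₀ * Cfsg.Agent.Lib.Helper15.Spinor.reflO Q u
          = Cfsg.Agent.Lib.Helper15.Spinor.prodRefl Q (vs ++ [u]) := by
        rw [hvsg, Cfsg.Agent.Lib.Helper15.Spinor.prodRefl_append,
          Cfsg.Agent.Lib.Helper15.Spinor.prodRefl_cons,
          Cfsg.Agent.Lib.Helper15.Spinor.prodRefl_nil, mul_one]
      have hvs' : ∀ x ∈ vs ++ [u], Q x ≠ 0 := by
        intro x hx
        rw [List.mem_append, List.mem_singleton] at hx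
        rcases hx with hx | rfl
        · exact hvs x hx
        · exact hu
      have h1 := Cfsg.Agent.Lib.Helper15.Dickson.prodRefl_mem_commutator_iff Q hnd hc vs hvs
      have h2 := Cfsg.Agent.Lib.Helper15.Dickson.prodRefl_mem_commutator_iff Q hnd hc
        (vs ++ [u]) hvs'
      rw [e]
      change _ ∈ commutator _
      rw [h2, List.length_append, List.length_singleton, Nat.even_add_one, ← h1, ← hvsg]
      exact hmem
    · rw [← Cfsg.Agent.Lib.Helper15.CD2.act_apply, Cfsg.Agent.Lib.Helper15.CD2.act_mul,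
        Cfsg.Agent.Lib.Helper15.CD2.act_reflO_fix Q u u
          (Cfsg.Agent.Lib.Helper15.CD2.polar_self0 Q u), hg₀u, hspan]

end Cfsg.Agent.S2634
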