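import Cfsg.Statements.S2635
import Cfsg.Agent.Lib.Helper15.Dickson

set_option autoImplicit false
open Cfsg

namespace Cfsg.Agent.S2635

/-- Over a finite field of characteristic two, for a quadratic form Q on F^n with non-degenerate polar form, n ≥ 2, other than dimension 4 over the field of two elements, Ω (the commutator subgroup of the orthogonal group) is exactly the subgroup generated by the products of two reflections (orthogonal transvections) x ↦ x − Q(v)⁻¹ f(x, v) v, Q(v) ≠ 0: the products of an even number of reflections. -/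
theorem result {F : Type*} [Field F] [Fintype F] [CharP F 2] {n : ℕ} (hn : 2 ≤ n) (h : Fintype.card F ≠ 2 ∨ n ≠ 4) (Q : QuadraticForm F (Fin n → F)) (hQ : (QuadraticMap.polarBilin Q).Nondegenerate) : Cfsg.Omega F ⇑Q = Subgroup.closure {g : ↥(Cfsg.isometryGroup F ⇑Q) | ∃ u v : Fin n → F, Q u ≠ 0 ∧ Q v ≠ 0 ∧ ((g : Matrix.GeneralLinearGroup (Fin n) F) : Matrix (Fin n) (Fin n) F) = Cfsg.reflectionMatrix ⇑Q u * Cfsg.reflectionMatrix ⇑Q v} := by
  classical
  have hnd : ∀ x, (∀ y, QuadraticMap.polar ⇑Q x y = 0) → x = 0 := fun x hx => hQ.1 x hx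
  have hc : Fintype.card F ≠ 2 ∨ Fintype.card (Fin n) ≠ 4 := by
    rw [Fintype.card_fin]
    exact h
  apply le_antisymm
  · intro g hg
    obtain ⟨vs, hvs, rfl⟩ := Cfsg.Agent.Lib.Helper15.CD2.cartan_dieudonne2 Q hnd hc g
    obtain ⟨k, hk⟩ :=
      (Cfsg.Agent.Lib.Helper15.Dickson.prodRefl_mem_commutator_iff Q hnd hc vs hvs).1 hg
    refine Cfsg.Agent.Lib.Helper15.Dickson.even_prodRefl_mem Q _ (fun a b ha hb => ?_) k vs
      (by omega) hvs
    refine Subgroup.subset_closure ⟨a, b, ha, hb, ?_⟩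
    rw [Cfsg.Agent.Lib.Helper15.Spinor.coe_mul, Cfsg.Agent.Lib.Helper15.Spinor.coe_reflO Q a ha,
      Cfsg.Agent.Lib.Helper15.Spinor.coe_reflO Q b hb]
  · rw [Subgroup.closure_le]
    rintro g ⟨u, v, hu, hv, hg⟩
    have hguv : g = Cfsg.Agent.Lib.Helper15.Spinor.reflO Q u
        * Cfsg.Agent.Lib.Helper15.Spinor.reflO Q v := by
      apply Cfsg.Agent.Lib.Helper15.Spinor.iso_ext
      rw [hg, Cfsg.Agent.Lib.Helper15.Spinor.coe_mul,
        Cfsg.Agent.Lib.Helper15.Spinor.coe_reflO Q u hu,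
        Cfsg.Agent.Lib.Helper15.Spinor.coe_reflO Q v hv]
    rw [hguv]
    exact Cfsg.Agent.Lib.Helper15.Dickson.pair_mem_commutator Q hnd hc u v hu hv

end Cfsg.Agent.S2635
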