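import Cfsg.Statements.S2636
import Mathlib

set_option autoImplicit false
open Cfsg

namespace Cfsg.Agent.S2636


section aux

open Matrix

variable {F : Type*} [Field F] [Fintype F]

theorem mem_F0 (σ : F ≃+* F) (x : F) :
    x ∈ FixedPoints.subfield (Subgroup.zpowers σ) F ↔ σ x = x := by
  constructor
  · intro h
    exact h ⟨σ, Subgroup.mem_zpowers σ⟩
  · intro h g
    have hle : Subgroup.zpowers σ ≤ MulAction.stabilizer (F ≃+* F) x := by
      rw [Subgroup.zpowers_le]
      exact h
    exact hle g.2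

theorem card_F0 {q₀ r : ℕ} (hr : r.Prime) (hF : Fintype.card F = q₀ ^ r) (σ : F ≃+* F)
    (hσ : orderOf σ = r) : Nat.card (FixedPoints.subfield (Subgroup.zpowers σ) F) = q₀ := by
  classical
  have hfin : Finite (F ≃+* F) := Finite.of_injective (fun e => (e : F → F)) DFunLike.coe_injective
  have : Fintype (Subgroup.zpowers σ) := Fintype.ofFinite _
  have : Fintype (FixedPoints.subfield (Subgroup.zpowers σ) F) := Fintype.ofFinite _
  have h1 := FixedPoints.finrank_eq_card (Subgroup.zpowers σ) F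
  rw [← Nat.card_eq_fintype_card, Nat.card_zpowers, hσ] at h1
  have h2 := Module.card_eq_pow_finrank (K := FixedPoints.subfield (Subgroup.zpowers σ) F) (V := F)
  rw [h1, hF] at h2
  rw [Nat.card_eq_fintype_card]
  exact (Nat.pow_left_injective hr.ne_zero h2).symm

variable {n : ℕ}

/-- the subgroup of `σ`-fixed invertible matrices -/
def Hfix (n : ℕ) (σ : F ≃+* F) : Subgroup (GL (Fin n) F) :=
  MonoidHom.eqLocus (Matrix.GeneralLinearGroup.map (σ : F →+* F)) (MonoidHom.id _)

theorem mem_Hfix (σ : F ≃+* F) (g : GL (Fin n) F) :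
    g ∈ Hfix n σ ↔ (g : Matrix (Fin n) (Fin n) F).map σ = (g : Matrix (Fin n) (Fin n) F) := by
  constructor
  · intro h
    have h' : Matrix.GeneralLinearGroup.map (σ : F →+* F) g = g := h
    have := congrArg Units.val h'
    exact this
  · intro h
    show Matrix.GeneralLinearGroup.map (σ : F →+* F) g = g
    apply Units.ext
    exact h

theorem card_Hfix {q₀ r : ℕ} (hr : r.Prime) (hF : Fintype.card F = q₀ ^ r) (σ : F ≃+* F)
    (hσ : orderOf σ = r) : Nat.card (Hfix n σ) = ∏ i : Fin n, (q₀ ^ n - q₀ ^ (i : ℕ)) := by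
  classical
  have : Fintype (FixedPoints.subfield (Subgroup.zpowers σ) F) := Fintype.ofFinite _
  let ι : FixedPoints.subfield (Subgroup.zpowers σ) F →+* F :=
    (FixedPoints.subfield (Subgroup.zpowers σ) F).subtype
  let φ : GL (Fin n) (FixedPoints.subfield (Subgroup.zpowers σ) F) →* GL (Fin n) F :=
    Matrix.GeneralLinearGroup.map ι
  have hinj : Function.Injective φ := by
    intro a b hab
    apply Units.ext
    ext i j
    have h1 : (φ a) i j = (φ b) i j := by rw [hab]
    exact h1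
  have hrange : φ.range = Hfix n σ := by
    ext g
    rw [mem_Hfix]
    constructor
    · rintro ⟨N, rfl⟩
      ext i j
      show σ (ι (N i j)) = ι (N i j)
      exact (mem_F0 σ _).mp (N i j).2
    · intro hg
      have hfix : ∀ i j, (g : Matrix (Fin n) (Fin n) F) i j ∈
          FixedPoints.subfield (Subgroup.zpowers σ) F := by
        intro i j
        rw [mem_F0]
        exact congrFun (congrFun hg i) j
      let N₀ : Matrix (Fin n) (Fin n) (FixedPoints.subfield (Subgroup.zpowers σ) F) :=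
        Matrix.of fun i j => ⟨(g : Matrix (Fin n) (Fin n) F) i j, hfix i j⟩
      have hN : ι.mapMatrix N₀ = (g : Matrix (Fin n) (Fin n) F) := by
        ext i j
        rfl
      have hdet : N₀.det ≠ 0 := by
        intro h0
        have h1 := RingHom.map_det ι N₀
        rw [hN, h0, map_zero] at h1
        have h2 : IsUnit (g : Matrix (Fin n) (Fin n) F).det :=
          (Matrix.isUnit_iff_isUnit_det _).mp g.isUnit
        exact h2.ne_zero h1.symm
      refine ⟨Matrix.GeneralLinearGroup.mk'' N₀ (isUnit_iff_ne_zero.mpr hdet), ?_⟩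
      apply Units.ext
      exact hN
  rw [← hrange, ← Nat.card_congr (MonoidHom.ofInjective hinj).toEquiv, Matrix.card_GL_field,
    ← Nat.card_eq_fintype_card, card_F0 hr hF σ hσ]

/-- scalar matrices -/
def scalHom (n : ℕ) (F : Type*) [Field F] : Fˣ →* GL (Fin n) F :=
  Units.map (Matrix.scalar (Fin n)).toMonoidHom

theorem scalHom_val (μ : Fˣ) (M : Matrix (Fin n) (Fin n) F) :
    (scalHom n F μ : Matrix (Fin n) (Fin n) F) * M = (μ : F) • M := by
  show Matrix.scalar (Fin n) (μ : F) * M = _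
  rw [Matrix.scalar_apply, ← Matrix.smul_eq_diagonal_mul]

/-- `(μ, h) ↦ μ • h` -/
def Psi (n : ℕ) (σ : F ≃+* F) : Fˣ × Hfix n σ →* GL (Fin n) F :=
  MonoidHom.noncommCoprod (scalHom n F) (Hfix n σ).subtype (by
    intro μ h
    apply Units.ext
    show Matrix.scalar (Fin n) (μ : F) * (h.1 : Matrix (Fin n) (Fin n) F) =
      (h.1 : Matrix (Fin n) (Fin n) F) * Matrix.scalar (Fin n) (μ : F)
    exact (Matrix.scalar_commute (μ : F) (fun r' => Commute.all _ _) _).eq)

theorem Psi_val (σ : F ≃+* F) (x : Fˣ × Hfix n σ) :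
    (Psi n σ x : Matrix (Fin n) (Fin n) F) = (x.1 : F) • (x.2.1 : Matrix (Fin n) (Fin n) F) := by
  show (scalHom n F x.1 : Matrix (Fin n) (Fin n) F) * (x.2.1 : Matrix (Fin n) (Fin n) F) = _
  exact scalHom_val _ _

theorem mem_range_Psi (hn : 1 ≤ n) (σ : F ≃+* F) (g : GL (Fin n) F) :
    g ∈ (Psi n σ).range ↔ ∃ c : F, c ≠ 0 ∧
      (g : Matrix (Fin n) (Fin n) F).map σ = c • (g : Matrix (Fin n) (Fin n) F) := by
  constructor
  · rintro ⟨x, rfl⟩
    refine ⟨σ (x.1 : F) * (x.1 : F)⁻¹, mul_ne_zero ?_ (inv_ne_zero x.1.ne_zero), ?_⟩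
    · intro h
      exact x.1.ne_zero ((map_eq_zero σ).mp h)
    · rw [Psi_val]
      have hx := (mem_Hfix σ x.2.1).mp x.2.2
      ext i j
      have hij := congrFun (congrFun hx i) j
      simp only [Matrix.map_apply, Matrix.smul_apply, smul_eq_mul] at hij ⊢
      rw [map_mul, hij]
      field_simp
  · rintro ⟨c, hc, hg⟩
    have hex : ∃ i j, (g : Matrix (Fin n) (Fin n) F) i j ≠ 0 := by
      by_contra hcon
      push Not at hcon
      have h0 : (g : Matrix (Fin n) (Fin n) F) = 0 := by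
        ext i j
        exact hcon i j
      have h1 : (g : Matrix (Fin n) (Fin n) F) * ((g⁻¹ : GL (Fin n) F) : Matrix (Fin n) (Fin n) F)
          = 1 := by
        rw [← Units.val_mul, mul_inv_cancel, Units.val_one]
      rw [h0, zero_mul] at h1
      have h2 := congrFun (congrFun h1 ⟨0, by omega⟩) ⟨0, by omega⟩
      simp at h2
    obtain ⟨i, j, hij⟩ := hex
    let μ : Fˣ := Units.mk0 _ hij
    have hσμ : σ (μ : F) = c * (μ : F) := by
      have := congrFun (congrFun hg i) j
      simp only [Matrix.map_apply, Matrix.smul_apply, smul_eq_mul] at this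
      exact this
    have hmem : (scalHom n F μ)⁻¹ * g ∈ Hfix n σ := by
      rw [mem_Hfix]
      have e : (((scalHom n F μ)⁻¹ * g : GL (Fin n) F) : Matrix (Fin n) (Fin n) F) =
          ((μ : F)⁻¹) • (g : Matrix (Fin n) (Fin n) F) := by
        rw [← map_inv, Units.val_mul, scalHom_val, Units.val_inv_eq_inv_val]
      rw [e]
      ext a b
      have hab := congrFun (congrFun hg a) b
      simp only [Matrix.map_apply, Matrix.smul_apply, smul_eq_mul] at hab ⊢
      rw [map_mul, map_inv₀, hσμ, hab]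
      have hμ : (μ : F) ≠ 0 := μ.ne_zero
      field_simp
    refine ⟨(μ, ⟨(scalHom n F μ)⁻¹ * g, hmem⟩), ?_⟩
    show scalHom n F μ * ((scalHom n F μ)⁻¹ * g) = g
    rw [mul_inv_cancel_left]

/-- the kernel of `Psi` is the group of fixed scalars -/
def kerEquiv (hn : 1 ≤ n) (σ : F ≃+* F) : (Psi n σ).ker ≃ {μ : Fˣ // σ (μ : F) = (μ : F)} where
  toFun x := ⟨x.1.1, by
    have hx : scalHom n F x.1.1 * (x.1.2.1 : GL (Fin n) F) = 1 := x.2
    have h2 : (x.1.2.1 : GL (Fin n) F) = (scalHom n F x.1.1)⁻¹ := eq_inv_of_mul_eq_one_right hx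
    have h3 := (mem_Hfix σ x.1.2.1).mp x.1.2.2
    rw [h2, ← map_inv] at h3
    have h4 := congrFun (congrFun h3 ⟨0, by omega⟩) ⟨0, by omega⟩
    have h5 : ∀ ν : Fˣ, (scalHom n F ν : Matrix (Fin n) (Fin n) F) ⟨0, by omega⟩ ⟨0, by omega⟩ =
        (ν : F) := by
      intro ν
      show Matrix.scalar (Fin n) (ν : F) _ _ = _
      rw [Matrix.scalar_apply, Matrix.diagonal_apply_eq]
    rw [Matrix.map_apply, h5] at h4
    have h6 : σ ((x.1.1 : F)⁻¹) = (x.1.1 : F)⁻¹ := by
      rw [Units.val_inv_eq_inv_val] at h4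
      exact h4
    rw [map_inv₀] at h6
    exact inv_injective h6⟩
  invFun μ := ⟨(μ.1, ⟨(scalHom n F μ.1)⁻¹, by
      rw [mem_Hfix, ← map_inv]
      show (Matrix.scalar (Fin n) ((μ.1⁻¹ : Fˣ) : F)).map σ = Matrix.scalar (Fin n) ((μ.1⁻¹ : Fˣ) : F)
      rw [Matrix.scalar_apply, Matrix.diagonal_map (map_zero _)]
      congr 1
      funext _
      rw [Units.val_inv_eq_inv_val, map_inv₀, μ.2]⟩), by
      show scalHom n F μ.1 * (scalHom n F μ.1)⁻¹ = 1
      rw [mul_inv_cancel]⟩
  left_inv x := by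
    apply Subtype.ext
    apply Prod.ext
    · rfl
    · apply Subtype.ext
      have hx : scalHom n F x.1.1 * (x.1.2.1 : GL (Fin n) F) = 1 := x.2
      exact (eq_inv_of_mul_eq_one_right hx).symm
  right_inv μ := rfl

/-- fixed scalars are the units of the fixed field -/
def fixUnitsEquiv (σ : F ≃+* F) :
    {μ : Fˣ // σ (μ : F) = (μ : F)} ≃ (FixedPoints.subfield (Subgroup.zpowers σ) F)ˣ where
  toFun μ := Units.mk0 ⟨(μ.1 : F), (mem_F0 σ _).mpr μ.2⟩ (by
    intro h
    exact μ.1.ne_zero (congrArg Subtype.val h))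
  invFun u := ⟨Units.mk0 ((u : FixedPoints.subfield (Subgroup.zpowers σ) F) : F) (by
    intro h
    exact u.ne_zero (Subtype.ext h)), (mem_F0 σ _).mp (u : FixedPoints.subfield (Subgroup.zpowers σ) F).2⟩
  left_inv μ := Subtype.ext (Units.ext rfl)
  right_inv u := Units.ext (Subtype.ext rfl)

end aux

/-- Centraliser of a field automorphism in PGL_n: let F be the field with q = q₀^r elements, σ a field automorphism of F of prime order r (so its fixed field has q₀ elements) and n ≥ 1. The invertible matrices g whose entrywise image under σ is a scalar multiple of g — those whose coset modulo scalars is fixed by σ — number (q − 1)/(q₀ − 1) · |GL_n(q₀)|; equivalently the centraliser in PGL_n(q) of the induced automorphism has the order of PGL_n(q₀). -/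
theorem result {F : Type*} [Field F] [Fintype F] {q₀ r n : ℕ} (hr : r.Prime) (hn : 1 ≤ n) (hF : Fintype.card F = q₀ ^ r) (σ : F ≃+* F) (hσ : orderOf σ = r) : Nat.card {g : GL (Fin n) F // ∃ c : F, c ≠ 0 ∧ (g : Matrix (Fin n) (Fin n) F).map σ = c • (g : Matrix (Fin n) (Fin n) F)} = (q₀ ^ r - 1) / (q₀ - 1) * ∏ i : Fin n, (q₀ ^ n - q₀ ^ (i : ℕ)) := by
  classical
  have hq0 : Nat.card (FixedPoints.subfield (Subgroup.zpowers σ) F) = q₀ := card_F0 hr hF σ hσ
  have hq2 : 2 ≤ q₀ := by
    rw [← hq0]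
    exact Finite.one_lt_card
  have hS : Nat.card {g : GL (Fin n) F // ∃ c : F, c ≠ 0 ∧ (g : Matrix (Fin n) (Fin n) F).map σ = c • (g : Matrix (Fin n) (Fin n) F)} =
      Nat.card (Psi n σ).range :=
    Nat.card_congr (Equiv.subtypeEquivRight (fun g => (mem_range_Psi hn σ g).symm))
  have hker : Nat.card (Psi n σ).ker = q₀ - 1 := by
    rw [Nat.card_congr (kerEquiv hn σ), Nat.card_congr (fixUnitsEquiv σ), Nat.card_units, hq0]
  have hprod : Nat.card (Fˣ × Hfix n σ) = (q₀ ^ r - 1) * ∏ i : Fin n, (q₀ ^ n - q₀ ^ (i : ℕ)) := by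
    rw [Nat.card_prod, Nat.card_units, Nat.card_eq_fintype_card, hF, card_Hfix hr hF σ hσ]
  have hidx := Subgroup.card_mul_index (Psi n σ).ker
  rw [Subgroup.index_ker, hker, hprod] at hidx
  rw [hS]
  obtain ⟨t, ht⟩ := Nat.sub_one_dvd_pow_sub_one q₀ r
  rw [ht, mul_assoc] at hidx
  have hpos : 0 < q₀ - 1 := by omega
  have := Nat.eq_of_mul_eq_mul_left hpos hidx
  rw [this, ht, Nat.mul_div_cancel_left _ hpos]

end Cfsg.Agent.S2636
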