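import Cfsg.Statements.S2637
import Mathlib
import Cfsg.Agent.S0755
import Cfsg.Agent.S0277
import Cfsg.Agent.Lib.Helper2.Unitary
import Cfsg.Agent.Lib.Helper5.Symp

set_option autoImplicit false
open Cfsg

namespace Cfsg.Agent.S2637

section helpers

open Polynomial
open scoped Matrix

section fld
variable {F : Type*} [Field F] [Fintype F] {q : ℕ}

/-- the polynomial `X^2 + X + 1` -/
noncomputable abbrev P (F : Type*) [Field F] : F[X] := X ^ 2 + X + 1

theorem three_ne (hF : Fintype.card F = q) (hq : q % 3 = 2) : (3 : F) ≠ 0 := by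
  intro h
  have h1 : ringChar F ∣ 3 := (CharP.cast_eq_zero_iff F (ringChar F) 3).mp (by exact_mod_cast h)
  have hp : (ringChar F).Prime := CharP.char_is_prime F (ringChar F)
  have h3 : ringChar F = 3 := (Nat.prime_dvd_prime_iff_eq hp Nat.prime_three).mp h1
  obtain ⟨n, -, hn⟩ := FiniteField.card F (ringChar F)
  rw [hF, h3] at hn
  have h4 : 3 ∣ q := by rw [hn]; exact dvd_pow_self 3 n.ne_zero
  omega

omit [Fintype F] in
theorem P_natDegree : (P F).natDegree = 2 := by
  unfold P
  compute_degree!

omit [Fintype F] in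
theorem P_monic : (P F).Monic := by
  unfold P
  monicity!

theorem P_irr (hF : Fintype.card F = q) (hq : q % 3 = 2) : Irreducible (P F) := by
  rw [Polynomial.irreducible_iff_roots_eq_zero_of_degree_le_three (by rw [P_natDegree])
    (by rw [P_natDegree]; norm_num)]
  rw [Multiset.eq_zero_iff_forall_notMem]
  intro r hr
  rw [mem_roots P_monic.ne_zero] at hr
  have h1 : r ^ 2 + r + 1 = 0 := by simpa [P, IsRoot] using hr
  have h3 : r ^ 3 = 1 := by linear_combination (r - 1) * h1
  have hr1 : r ≠ 1 := by
    rintro rfl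
    apply three_ne hF hq
    linear_combination h1
  have hr0 : r ≠ 0 := by
    rintro rfl
    simp at h1
  have hq' : r ^ q = r := by rw [← hF]; exact FiniteField.pow_card r
  have h5 : r ^ q = r ^ 2 := by
    conv_lhs => rw [← Nat.div_add_mod q 3, hq, pow_add, pow_mul, h3, one_pow, one_mul]
  rw [h5] at hq'
  apply hr1
  have h6 : r * (r - 1) = 0 := by linear_combination hq'
  rcases mul_eq_zero.mp h6 with h | h
  · exact absurd h hr0
  · linear_combination h

omit [Fintype F] in
theorem root_rel : (AdjoinRoot.root (P F)) ^ 2 = - AdjoinRoot.root (P F) - 1 := by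
  have h := AdjoinRoot.eval₂_root (P F)
  unfold P at h
  rw [eval₂_add, eval₂_add, eval₂_pow, eval₂_X, eval₂_one] at h
  linear_combination h

omit [Fintype F] in
theorem decomp (c : AdjoinRoot (P F)) :
    ∃ a b : F, c = AdjoinRoot.of (P F) a + AdjoinRoot.of (P F) b * AdjoinRoot.root (P F) := by
  induction c using AdjoinRoot.induction_on with
  | ih p =>
    have h1 : AdjoinRoot.mk (P F) p = AdjoinRoot.mk (P F) (p %ₘ P F) := by
      rw [AdjoinRoot.mk_eq_mk]
      refine ⟨p /ₘ P F, ?_⟩
      have := Polynomial.modByMonic_add_div p (P F)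
      linear_combination -this
    have h2 : (p %ₘ P F).natDegree ≤ 1 := by
      have := Polynomial.natDegree_modByMonic_lt p (P_monic (F := F))
        (fun h => by have := P_natDegree (F := F); rw [h] at this; simp at this)
      rw [P_natDegree] at this
      omega
    have h3 := Polynomial.eq_X_add_C_of_natDegree_le_one h2
    refine ⟨(p %ₘ P F).coeff 0, (p %ₘ P F).coeff 1, ?_⟩
    rw [h1]
    conv_lhs => rw [h3]
    rw [map_add, map_mul, AdjoinRoot.mk_C, AdjoinRoot.mk_C, AdjoinRoot.mk_X, add_comm]

omit [Fintype F] in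
theorem indep (a b : F)
    (h : AdjoinRoot.of (P F) a + AdjoinRoot.of (P F) b * AdjoinRoot.root (P F) = 0) :
    a = 0 ∧ b = 0 := by
  have h1 : AdjoinRoot.mk (P F) (C a + C b * X) = 0 := by
    rw [map_add, map_mul, AdjoinRoot.mk_C, AdjoinRoot.mk_C, AdjoinRoot.mk_X]
    exact h
  rw [AdjoinRoot.mk_eq_zero] at h1
  have h2 : (C a + C b * X : F[X]) = 0 := by
    by_contra hne
    have h3 := Polynomial.natDegree_le_of_dvd h1 hne
    rw [P_natDegree] at h3
    have h4 : (C a + C b * X : F[X]).natDegree ≤ 1 := by compute_degree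
    omega
  have e0 := congrArg (fun p : F[X] => p.coeff 0) h2
  have e1 := congrArg (fun p : F[X] => p.coeff 1) h2
  simp at e0 e1
  exact ⟨e0, e1⟩

theorem adj_finite : Finite (AdjoinRoot (P F)) := by
  have : Module.Finite F (AdjoinRoot (P F)) := (P_monic (F := F)).finite_adjoinRoot
  exact Module.finite_of_finite F

theorem card_adj (hF : Fintype.card F = q) : Nat.card (AdjoinRoot (P F)) = q ^ 2 := by
  have : Module.Finite F (AdjoinRoot (P F)) := (P_monic (F := F)).finite_adjoinRoot
  have h2 : Module.finrank F (AdjoinRoot (P F)) = 2 := by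
    rw [(AdjoinRoot.powerBasis (P_monic (F := F)).ne_zero).finrank, AdjoinRoot.powerBasis_dim,
      P_natDegree]
  rw [Module.natCard_eq_pow_finrank (K := F), h2, Nat.card_eq_fintype_card, hF]

end fld

section core
variable {F : Type*} [Field F] [Fintype F] {q : ℕ}
variable {V : Type*} [AddCommGroup V] [Module F V] [Finite V]

local notation "LL" => AdjoinRoot (P F)
local notation "ω" => AdjoinRoot.root (P F)
local notation "ι" => AdjoinRoot.of (P F)

theorem core (hF : Fintype.card F = q) (hq : q % 3 = 2)
    (f : V →ₗ[F] V →ₗ[F] F) (halt : ∀ v, f v v = 0) (hnd : ∀ u, (∀ v, f u v = 0) → u = 0)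
    (X : V →ₗ[F] V) (hX : ∀ v, X (X v) = - X v - v) (hiso : ∀ u v, f (X u) (X v) = f u v) :
    ∃ d : ℕ, Nat.card V = (q ^ 2) ^ d ∧
      Nat.card {A : V →ₗ[F] V // (∀ v, A (X v) = X (A v)) ∧ ∀ u v, f (A u) (A v) = f u v} =
        q ^ (d * (d - 1) / 2) *
          ∏ i ∈ Finset.range d, (if Even i then q ^ (i + 1) + 1 else q ^ (i + 1) - 1) := by
  classical
  have hirr := P_irr hF hq
  have : Fact (Irreducible (P F)) := ⟨hirr⟩
  have hωsq : ω ^ 2 = -ω - 1 := root_rel
  have hω3 : ω ^ 3 = 1 := by linear_combination (ω - 1) * hωsq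
  have hfin : Finite LL := adj_finite
  let _ : Fintype LL := Fintype.ofFinite LL
  have hcardL : Fintype.card LL = q ^ 2 := by
    rw [Fintype.card_eq_nat_card]; exact card_adj hF
  -- the module structure
  have h0 : Polynomial.aeval X (P F) = 0 := by
    unfold P
    rw [map_add, map_add, map_pow, aeval_X, map_one]
    ext v
    simp [pow_two, hX]
    abel
  let φ : LL →+* Module.End F V :=
    Ideal.Quotient.lift (Ideal.span {P F})
      (Polynomial.aeval X : F[X] →ₐ[F] Module.End F V).toRingHom (by
        intro a ha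
        obtain ⟨b, rfl⟩ := Ideal.mem_span_singleton'.mp ha
        show Polynomial.aeval X (b * P F) = 0
        rw [map_mul, h0, mul_zero])
  have hφ : ∀ g : F[X], φ (AdjoinRoot.mk (P F) g) = Polynomial.aeval X g := fun g => rfl
  let _ : Module LL V := Module.compHom V φ
  have hsm : ∀ (l : LL) (v : V), l • v = φ l v := fun l v => rfl
  have hof : ∀ (a : F) (v : V), (ι a) • v = a • v := by
    intro a v
    rw [hsm, ← AdjoinRoot.mk_C, hφ, aeval_C, Module.algebraMap_end_apply]
  have hroot : ∀ v : V, ω • v = X v := by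
    intro v
    rw [hsm, ← AdjoinRoot.mk_X, hφ, aeval_X]
  have hsm2 : ∀ (a b : F) (v : V), (ι a + ι b * ω) • v = a • v + b • X v := by
    intro a b v
    rw [add_smul, mul_smul, hof, hroot, hof]
  -- identities for X and f
  have K0 : ∀ v, X (X (X v)) = v := by
    intro v
    rw [hX (X v), hX v]
    abel
  have Kf1 : ∀ u v, f (X u) v = - f u (X v) - f u v := by
    intro u v
    have h1 : f (X u) v = f (X u) (X (X (X v))) := by rw [K0]
    rw [h1, hiso, hX, map_sub, map_neg]
  have hskew : ∀ u v, f v u = - f u v := by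
    intro u v
    have h1 := halt (u + v)
    simp only [map_add, LinearMap.add_apply, halt] at h1
    linear_combination h1
  -- the Frobenius
  let σ : LL →+* LL := ((FiniteField.frobeniusAlgHom F LL : LL →ₐ[F] LL) : LL →+* LL)
  have hσ_apply : ∀ c : LL, σ c = c ^ q := by
    intro c
    show (FiniteField.frobeniusAlgHom F LL) c = c ^ q
    rw [FiniteField.frobeniusAlgHom_apply, hF]
  have hσι : ∀ a : F, σ (ι a) = ι a := by
    intro a
    have h1 := (FiniteField.frobeniusAlgHom F LL).commutes a
    rw [AdjoinRoot.algebraMap_eq] at h1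
    exact h1
  have hσω : σ ω = ω ^ 2 := by
    rw [hσ_apply]
    conv_lhs => rw [← Nat.div_add_mod q 3, hq, pow_add, pow_mul, hω3, one_pow, one_mul]
  have hσne : σ ≠ RingHom.id LL := by
    intro h
    have h1 : σ ω = ω := by rw [h]; rfl
    rw [hσω, hωsq] at h1
    have h2 : ι (-1 : F) + ι (-2 : F) * ω = 0 := by
      rw [map_neg, map_neg, map_one, map_ofNat]
      linear_combination h1
    have h3 := (indep _ _ h2).1
    norm_num at h3
  have hσ2 : ∀ c : LL, σ (σ c) = c := by
    intro c
    rw [hσ_apply, hσ_apply, ← pow_mul, ← pow_two, ← hcardL]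
    exact FiniteField.pow_card c
  -- the hermitian form
  let h : V → V → LL := fun u v => ι (f u v + f u (X v)) + ι (f u v) * ω
  have hdef : ∀ u v, h u v = ι (f u v + f u (X v)) + ι (f u v) * ω := fun u v => rfl
  have hadd_l : ∀ u u' v, h (u + u') v = h u v + h u' v := by
    intro u u' v
    simp only [hdef, map_add, LinearMap.add_apply]
    ring
  have hadd_r : ∀ u v v', h u (v + v') = h u v + h u v' := by
    intro u v v'
    simp only [hdef, map_add]
    ring
  have hsmul_l : ∀ (a : F) u v, h (a • u) v = ι a * h u v := by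
    intro a u v
    simp only [hdef, map_smul, LinearMap.smul_apply, smul_eq_mul, map_add, map_mul]
    ring
  have hsmul_r : ∀ (a : F) u v, h u (a • v) = ι a * h u v := by
    intro a u v
    simp only [hdef, map_smul, smul_eq_mul, map_add, map_mul]
    ring
  have K1 : ∀ u v, h u (X v) = ω * h u v := by
    intro u v
    simp only [hdef]
    rw [hX v, map_sub, map_neg]
    simp only [map_add, map_sub, map_neg]
    linear_combination (-(ι (f u v))) * hωsq
  have K2 : ∀ u v, h (X u) v = ω ^ 2 * h u v := by
    intro u v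
    simp only [hdef]
    rw [hiso, Kf1]
    simp only [map_add, map_sub, map_neg]
    linear_combination (-(ι (f u v) + ι (f u (X v)))) * hωsq - ι (f u v) * hω3
  let B : V →ₛₗ[σ] V →ₗ[LL] LL := LinearMap.mk₂'ₛₗ σ (RingHom.id LL) h hadd_l
    (by
      intro c u v
      obtain ⟨a, b, rfl⟩ := decomp c
      rw [hsm2, hadd_l, hsmul_l, hsmul_l, K2, map_add, map_mul, hσι, hσι, hσω, smul_eq_mul]
      ring)
    hadd_r
    (by
      intro c u v
      obtain ⟨a, b, rfl⟩ := decomp c
      rw [hsm2, hadd_r, hsmul_r, hsmul_r, K1, RingHom.id_apply, smul_eq_mul]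
      ring)
  have hB_apply : ∀ u v, B u v = h u v := fun u v => rfl
  have hSS : ∀ u v, σ (h u v) = h v u := by
    intro u v
    simp only [hdef]
    rw [map_add, map_mul, hσι, hσι, hσω, hskew u v, hskew (X u) v, Kf1]
    simp only [map_add, map_sub, map_neg]
    linear_combination (ι (f u v)) * hωsq
  have hS : B.IsSymm := ⟨fun u v => hSS u v⟩
  have hfz : ∀ u v, h u v = 0 → f u v = 0 := by
    intro u v huv
    rw [hdef] at huv
    exact (indep _ _ huv).2
  have hB : B.Nondegenerate := by
    refine ⟨?_, ?_⟩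
    · intro u hu
      apply hnd
      intro v
      exact hfz u v (hu v)
    · intro v hv
      apply hnd
      intro u
      rw [hskew u v, hfz u v (hv u), neg_zero]
  have hmf : Module.Finite LL V := Module.Finite.of_finite
  obtain ⟨b, hb⟩ := Cfsg.Agent.S0755.result σ hσne hσ2 B hS hB
  refine ⟨Module.finrank LL V, ?_, ?_⟩
  · rw [Module.natCard_eq_pow_finrank (K := LL) (V := V), card_adj hF]
  have Bherm : ∀ x y, B x y =
      Cfsg.hermForm (Module.finrank LL V) LL q (b.equivFun y) (b.equivFun x) := by
    intro x y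
    conv_lhs => rw [← b.sum_equivFun x, ← b.sum_equivFun y]
    simp only [map_sum, LinearMap.sum_apply, map_smulₛₗ, LinearMap.smul_apply, hb, smul_eq_mul,
      mul_ite, mul_one, mul_zero, RingHom.id_apply]
    unfold Cfsg.hermForm
    refine Finset.sum_congr rfl fun i _ => ?_
    rw [Finset.sum_ite_eq', if_pos (Finset.mem_univ _), hσ_apply]
  have hmv : ∀ (T : V →ₗ[LL] V) (x : V),
      LinearMap.toMatrix b b T *ᵥ b.equivFun x = b.equivFun (T x) := by
    intro T x
    have := LinearMap.toMatrix_mulVec_repr b b T x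
    simpa [Module.Basis.equivFun_apply] using this
  -- E1
  let E1 : {A : V →ₗ[F] V // (∀ v, A (X v) = X (A v)) ∧ ∀ u v, f (A u) (A v) = f u v} ≃
      {T : V →ₗ[LL] V // ∀ u v, B (T u) (T v) = B u v} :=
    { toFun := fun A => ⟨
        { toFun := fun v => A.1 v
          map_add' := fun u v => map_add A.1 u v
          map_smul' := fun c v => by
            obtain ⟨a, b', rfl⟩ := decomp c
            rw [RingHom.id_apply, hsm2, hsm2, map_add, map_smul, map_smul, A.2.1] }, by
        intro u v
        show h (A.1 u) (A.1 v) = h u v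
        rw [hdef, hdef, ← A.2.1, A.2.2, A.2.2]⟩
      invFun := fun T => ⟨
        { toFun := fun v => T.1 v
          map_add' := fun u v => map_add T.1 u v
          map_smul' := fun a v => by
            rw [RingHom.id_apply, ← hof, ← hof, map_smul] }, by
        refine ⟨?_, ?_⟩
        · intro v
          show T.1 (X v) = X (T.1 v)
          rw [← hroot, ← hroot, map_smul]
        · intro u v
          show f (T.1 u) (T.1 v) = f u v
          have h1 : h (T.1 u) (T.1 v) = h u v := T.2 u v
          rw [hdef, hdef] at h1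
          have h2 : ι (f (T.1 u) (T.1 v) + f (T.1 u) (X (T.1 v)) - (f u v + f u (X v))) +
              ι (f (T.1 u) (T.1 v) - f u v) * ω = 0 := by
            rw [map_sub, map_sub]
            linear_combination h1
          have h3 := (indep _ _ h2).2
          linear_combination h3⟩
      left_inv := fun A => by
        apply Subtype.ext
        ext v
        rfl
      right_inv := fun T => by
        apply Subtype.ext
        ext v
        rfl }
  -- E2
  let E2 : {T : V →ₗ[LL] V // ∀ u v, B (T u) (T v) = B u v} ≃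
      {M : Matrix (Fin (Module.finrank LL V)) (Fin (Module.finrank LL V)) LL //
        Cfsg.Agent.Lib.Helper2.Unitary.IsU (Module.finrank LL V) q M} :=
    Equiv.subtypeEquiv (LinearMap.toMatrix b b).toEquiv (by
      intro T
      constructor
      · intro hT u v
        show Cfsg.hermForm _ LL q (LinearMap.toMatrix b b T *ᵥ u) (LinearMap.toMatrix b b T *ᵥ v) = _
        have hu : u = b.equivFun (b.equivFun.symm u) := (b.equivFun.apply_symm_apply u).symm
        have hv : v = b.equivFun (b.equivFun.symm v) := (b.equivFun.apply_symm_apply v).symm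
        rw [hu, hv, hmv, hmv, ← Bherm, ← Bherm, hT]
      · intro hT u v
        have h1 := hT (b.equivFun v) (b.equivFun u)
        rw [Bherm, Bherm, ← hmv, ← hmv]
        exact h1)
  have key := Nat.card_congr (E1.trans (E2.trans
    (Cfsg.Agent.Lib.Helper2.Unitary.equivU hcardL (Module.finrank LL V)).symm))
  rw [key]
  exact Cfsg.Agent.S0277.result hcardL (Module.finrank LL V)

end core

section mat
variable {F : Type*} [Field F] [Fintype F] {q : ℕ}

/-- the symplectic form as a bilinear map -/
noncomputable def sf (m : ℕ) (F : Type*) [Field F] :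
    (Fin m ⊕ Fin m → F) →ₗ[F] (Fin m ⊕ Fin m → F) →ₗ[F] F :=
  LinearMap.mk₂ F (Cfsg.sympForm m F)
    (Cfsg.Agent.Lib.Helper5.Symp.sympForm_add_left m)
    (fun c u v => by
      rw [Cfsg.Agent.Lib.Helper5.Symp.sympForm_smul_left, smul_eq_mul])
    (Cfsg.Agent.Lib.Helper5.Symp.sympForm_add_right m)
    (fun c u v => by
      rw [Cfsg.Agent.Lib.Helper5.Symp.sympForm_smul_right, smul_eq_mul])

omit [Fintype F] in
theorem sf_apply (m : ℕ) (u v : Fin m ⊕ Fin m → F) : sf m F u v = Cfsg.sympForm m F u v := rfl

theorem matrix_main (hF : Fintype.card F = q) (hq : q % 3 = 2) {m : ℕ}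
    (x : Matrix.symplecticGroup (Fin m) F) (hx3 : x ^ 3 = 1)
    (hfpf : IsUnit ((x : Matrix (Fin m ⊕ Fin m) (Fin m ⊕ Fin m) F) - 1)) :
    Nat.card ↥(Subgroup.centralizer ({x} : Set ↥(Matrix.symplecticGroup (Fin m) F))) =
      q ^ (m * (m - 1) / 2) *
        ∏ i ∈ Finset.range m, (if Even i then q ^ (i + 1) + 1 else q ^ (i + 1) - 1) := by
  classical
  set M : Matrix (Fin m ⊕ Fin m) (Fin m ⊕ Fin m) F := x.1 with hM
  have hM3 : M ^ 3 = 1 := by
    have := congrArg (fun y : ↥(Matrix.symplecticGroup (Fin m) F) =>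
      (y : Matrix (Fin m ⊕ Fin m) (Fin m ⊕ Fin m) F)) hx3
    simpa using this
  have hM2 : M * M = - M - 1 := by
    have h1 : (M - 1) * (M * M + M + 1) = 0 := by
      have : (M - 1) * (M * M + M + 1) = M ^ 3 - 1 := by noncomm_ring
      rw [this, hM3, sub_self]
    have h2 := hfpf.mul_right_eq_zero.mp h1
    rw [eq_sub_iff_add_eq, eq_neg_iff_add_eq_zero]
    rw [← h2]
    abel
  have hX : ∀ v, Matrix.mulVecLin M (Matrix.mulVecLin M v) = - Matrix.mulVecLin M v - v := by
    intro v
    rw [Matrix.mulVecLin_apply, Matrix.mulVecLin_apply, Matrix.mulVec_mulVec, hM2,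
      Matrix.sub_mulVec, Matrix.neg_mulVec, Matrix.one_mulVec]
  obtain ⟨d, hd1, hd2⟩ := core hF hq (sf m F)
    (fun v => Cfsg.Agent.Lib.Helper5.Symp.sympForm_self m v)
    (fun u hu => Cfsg.Agent.Lib.Helper5.Symp.eq_zero_of_sympForm_eq_zero m u hu)
    (Matrix.mulVecLin M) hX
    (fun u v => Cfsg.Agent.Lib.Helper5.Symp.sympForm_mulVec_of_mem m x.2 u v)
  -- d = m
  have hq2 : 2 ≤ q := by omega
  have hdm : d = m := by
    rw [Nat.card_eq_fintype_card, Fintype.card_fun, Fintype.card_sum, Fintype.card_fin, hF,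
      ← pow_mul] at hd1
    have := Nat.pow_right_injective hq2 hd1
    omega
  subst hdm
  rw [← hd2]
  refine Nat.card_congr ?_
  exact
    { toFun := fun g => ⟨Matrix.mulVecLin
          (g.1.1 : Matrix (Fin d ⊕ Fin d) (Fin d ⊕ Fin d) F), by
        refine ⟨?_, ?_⟩
        · intro v
          have hg := Subgroup.mem_centralizer_singleton_iff.mp g.2
          have hg' : (g.1.1 : Matrix (Fin d ⊕ Fin d) (Fin d ⊕ Fin d) F) * M =
              M * (g.1.1 : Matrix (Fin d ⊕ Fin d) (Fin d ⊕ Fin d) F) := by
            have := congrArg (fun y : ↥(Matrix.symplecticGroup (Fin d) F) =>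
              (y : Matrix (Fin d ⊕ Fin d) (Fin d ⊕ Fin d) F)) hg
            simpa using this
          simp only [Matrix.mulVecLin_apply, Matrix.mulVec_mulVec]
          rw [hg']
        · intro u v
          exact Cfsg.Agent.Lib.Helper5.Symp.sympForm_mulVec_of_mem d g.1.2 u v⟩
      invFun := fun A => ⟨⟨LinearMap.toMatrix' A.1,
          Cfsg.Agent.Lib.Helper5.Symp.mem_of_sympForm_mulVec d (by
            intro u v
            have e : ∀ w, LinearMap.toMatrix' A.1 *ᵥ w = A.1 w := fun w => by
              rw [← Matrix.toLin'_apply, Matrix.toLin'_toMatrix']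
            rw [e, e]
            exact A.2.2 u v)⟩, by
        rw [Subgroup.mem_centralizer_singleton_iff]
        apply Subtype.ext
        show LinearMap.toMatrix' A.1 * M = M * LinearMap.toMatrix' A.1
        apply Matrix.toLin'.injective
        apply LinearMap.ext
        intro v
        have := A.2.1 v
        simp only [Matrix.mulVecLin_apply] at this
        rw [Matrix.toLin'_mul, Matrix.toLin'_mul, Matrix.toLin'_toMatrix', LinearMap.comp_apply,
          LinearMap.comp_apply, Matrix.toLin'_apply, Matrix.toLin'_apply]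
        exact this⟩
      left_inv := fun g => by
        apply Subtype.ext
        apply Subtype.ext
        show LinearMap.toMatrix' (Matrix.mulVecLin _) = _
        rw [← Matrix.toLin'_apply', LinearMap.toMatrix'_toLin']
      right_inv := fun A => by
        apply Subtype.ext
        show Matrix.mulVecLin (LinearMap.toMatrix' A.1) = A.1
        rw [← Matrix.toLin'_apply', Matrix.toLin'_toMatrix'] }

end mat

end helpers


/-- Centraliser of a fixed-point-free element of order three in Sp_2m(q) when q ≡ 2 (mod 3): if x ∈ Sp_2m(F) (|F| = q, m ≥ 1) satisfies x³ = 1 and x − 1 is invertible, then its centraliser in Sp_2m(F) has the order of the unitary group GU_m(q), namely q^(m(m−1)/2) Π_(i=1)^m (q^i − (−1)^i) (x lies in the centre of a subgroup GU_m(q) of Sp_2m(q)). -/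
theorem result {F : Type*} [Field F] [Fintype F] {q : ℕ} (hF : Fintype.card F = q) (hq : q % 3 = 2) {m : ℕ} (hm : 1 ≤ m) (x : Matrix.symplecticGroup (Fin m) F) (hx3 : x ^ 3 = 1) (hfpf : IsUnit ((x : Matrix (Fin m ⊕ Fin m) (Fin m ⊕ Fin m) F) - 1)) : (Nat.card ↥(Subgroup.centralizer ({x} : Set ↥(Matrix.symplecticGroup (Fin m) F))) : ℤ) = (q : ℤ) ^ (m * (m - 1) / 2) * ∏ i : Fin m, ((q : ℤ) ^ ((i : ℕ) + 1) - (-1) ^ ((i : ℕ) + 1)) := by
  rw [matrix_main hF hq x hx3 hfpf, Nat.cast_mul, Nat.cast_pow, Nat.cast_prod, Finset.prod_range]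
  congr 1
  refine Finset.prod_congr rfl fun i _ => ?_
  by_cases hi : Even (i : ℕ)
  · rw [if_pos hi, Odd.neg_one_pow (Even.add_one hi)]
    push_cast
    ring
  · rw [if_neg hi, Even.neg_one_pow (Nat.not_even_iff_odd.mp hi).add_one,
      Nat.cast_sub (Nat.one_le_pow _ _ (by omega))]
    push_cast
    ring

end Cfsg.Agent.S2637
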