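import Cfsg.Statements.S2639
import Cfsg.Agent.Lib.Helper15.Embed

set_option autoImplicit false
open Cfsg

namespace Cfsg.Agent.S2639

/-- The unitary group embeds in the symplectic group of twice the dimension over the subfield: for a field K with q² elements and a field F with q elements (isomorphic to the subfield of K of order q), there is an injective homomorphism GU_m(q) → Sp_2m(F). -/
theorem result {K F : Type*} [Field K] [Fintype K] [Field F] [Fintype F] {q : ℕ} (hK : Fintype.card K = q ^ 2) (hF : Fintype.card F = q) (m : ℕ) : ∃ φ : ↥(Cfsg.GU m K q) →* ↥(Matrix.symplecticGroup (Fin m) F), Function.Injective φ := by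
  classical
  obtain ⟨f⟩ := Cfsg.Agent.Lib.Helper15.Embed.exists_ringHom (F := F) (K := K) (by rw [hK, hF])
  letI : Algebra F K := f.toAlgebra
  have h2 : Module.finrank F K = 2 :=
    Cfsg.Agent.Lib.Helper15.Embed.finrank_eq_two (by rw [hK, hF])
  have hq1 : 1 < q := by rw [← hF]; exact Fintype.one_lt_card
  -- a functional vanishing on the subfield
  have hex : ∃ k₀ : K, k₀ ∉ Submodule.span F ({1} : Set K) := by
    by_contra hno
    have htop : Submodule.span F ({1} : Set K) = ⊤ := by
      rw [eq_top_iff]
      intro k _
      by_contra hk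
      exact hno ⟨k, hk⟩
    have h1 : Module.finrank F ↥(Submodule.span F ({1} : Set K)) = 1 :=
      finrank_span_singleton one_ne_zero
    rw [htop, finrank_top, h2] at h1
    omega
  obtain ⟨k₀, hk₀⟩ := hex
  obtain ⟨ψ, hψ0, hψ⟩ := LinearMap.exists_extend_of_notMem (K := F)
    (p := Submodule.span F ({1} : Set K)) (v := k₀)
    (0 : ↥(Submodule.span F ({1} : Set K)) →ₗ[F] F) hk₀ (1 : F)
  have hψF : ∀ c : F, ψ (algebraMap F K c) = 0 := by
    intro c
    have h1 : ψ (1 : K) = 0 := by
      have := congrArg (fun g => g ⟨(1 : K), Submodule.mem_span_singleton_self 1⟩) hψ0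
      simpa using this
    rw [Algebra.algebraMap_eq_smul_one, map_smul, h1, smul_zero]
  have hsm : ∀ (c : F) (x : Fin m → K), c • x = (algebraMap F K c) • x := by
    intro c x
    funext i
    simp [Algebra.smul_def]
  have hψsm : ∀ (c : F) (k : K), ψ (algebraMap F K c * k) = c * ψ k := by
    intro c k
    rw [← Algebra.smul_def, map_smul, smul_eq_mul]
  -- the q-power map
  have hpowadd : ∀ x y : K, (x + y) ^ q = x ^ q + y ^ q := by
    intro x y
    have := map_add (FiniteField.frobeniusAlgHom F K) x y
    simpa [FiniteField.frobeniusAlgHom_apply, hF] using this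
  have hpowF : ∀ c : F, (algebraMap F K c) ^ q = algebraMap F K c := by
    intro c
    rw [← map_pow, ← hF, FiniteField.pow_card]
  have hherm_add_left : ∀ x x' y : Fin m → K,
      Cfsg.hermForm m K q (x + x') y = Cfsg.hermForm m K q x y + Cfsg.hermForm m K q x' y := by
    intro x x' y
    unfold Cfsg.hermForm
    rw [← Finset.sum_add_distrib]
    exact Finset.sum_congr rfl (fun i _ => by simp only [Pi.add_apply]; ring)
  have hherm_add_right : ∀ x y y' : Fin m → K,
      Cfsg.hermForm m K q x (y + y') = Cfsg.hermForm m K q x y + Cfsg.hermForm m K q x y' := by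
    intro x y y'
    unfold Cfsg.hermForm
    rw [← Finset.sum_add_distrib]
    exact Finset.sum_congr rfl (fun i _ => by simp only [Pi.add_apply, hpowadd]; ring)
  have hherm_smul_left : ∀ (c : K) (x y : Fin m → K),
      Cfsg.hermForm m K q (c • x) y = c * Cfsg.hermForm m K q x y := by
    intro c x y
    unfold Cfsg.hermForm
    rw [Finset.mul_sum]
    exact Finset.sum_congr rfl (fun i _ => by simp only [Pi.smul_apply, smul_eq_mul]; ring)
  have hherm_smul_right : ∀ (c : K) (x y : Fin m → K),
      Cfsg.hermForm m K q x (c • y) = c ^ q * Cfsg.hermForm m K q x y := by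
    intro c x y
    unfold Cfsg.hermForm
    rw [Finset.mul_sum]
    exact Finset.sum_congr rfl (fun i _ => by simp only [Pi.smul_apply, smul_eq_mul, mul_pow]; ring)
  let B : LinearMap.BilinForm F (Fin m → K) :=
    LinearMap.mk₂ F (fun x y => ψ (Cfsg.hermForm m K q x y))
      (fun x x' y => by rw [hherm_add_left, map_add])
      (fun c x y => by rw [hsm, hherm_smul_left, hψsm, smul_eq_mul])
      (fun x y y' => by rw [hherm_add_right, map_add])
      (fun c x y => by rw [hsm, hherm_smul_right, hpowF, hψsm, smul_eq_mul])
  have hBapp : ∀ x y, B x y = ψ (Cfsg.hermForm m K q x y) := fun x y => rfl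
  have hnorm : ∀ k : K, k * k ^ q = algebraMap F K (Algebra.norm F k) := by
    intro k
    rw [FiniteField.algebraMap_norm_eq_pow, Nat.card_eq_fintype_card, Nat.card_eq_fintype_card,
      hK, hF]
    have hdiv : (q ^ 2 - 1) / (q - 1) = q + 1 := by
      have h3 : q ^ 2 - 1 = (q + 1) * (q - 1) := by
        have : q ^ 2 - 1 = q ^ 2 - 1 ^ 2 := by norm_num
        rw [this, Nat.sq_sub_sq]
      rw [h3, Nat.mul_div_cancel _ (by omega)]
    rw [hdiv, pow_succ, mul_comm]
  have hA : B.IsAlt := by
    intro x
    rw [hBapp]
    unfold Cfsg.hermForm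
    have : ∑ i, x i * x i ^ q = algebraMap F K (∑ i, Algebra.norm F (x i)) := by
      rw [map_sum]
      exact Finset.sum_congr rfl (fun i _ => hnorm (x i))
    rw [this, hψF]
  have hsurj : Function.Surjective (fun k : K => k ^ q) := by
    have hinj : Function.Injective (fun k : K => k ^ q) := by
      intro x y hxy
      have := (FiniteField.frobeniusAlgHom F K).injective
        (a₁ := x) (a₂ := y) (by simpa [FiniteField.frobeniusAlgHom_apply, hF] using hxy)
      exact this
    exact Finite.injective_iff_surjective.1 hinj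
  have hnd : ∀ x, (∀ y, B x y = 0) → x = 0 := by
    intro x hx
    funext i₀
    by_contra hk
    change x i₀ ≠ 0 at hk
    have hall : ∀ c : K, ψ c = 0 := by
      intro c
      obtain ⟨d, hd⟩ := hsurj (c / x i₀)
      have h := hx (Pi.single i₀ d)
      rw [hBapp] at h
      unfold Cfsg.hermForm at h
      rw [Finset.sum_eq_single i₀] at h
      · simp only [Pi.single_eq_same] at h
        have hd' : d ^ q = c / x i₀ := hd
        rw [hd', mul_div_cancel₀ c hk] at h
        exact h
      · intro j _ hj
        rw [Pi.single_eq_of_ne hj, zero_pow (by omega), mul_zero]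
      · intro hi
        exact absurd (Finset.mem_univ i₀) hi
    rw [hall k₀] at hψ
    exact zero_ne_one hψ
  have hdim : Module.finrank F (Fin m → K) = 2 * m := by
    rw [Module.finrank_pi_fintype F]
    simp only [h2, Finset.sum_const, Finset.card_univ, Fintype.card_fin, smul_eq_mul]
    ring
  let ρ : ↥(Cfsg.GU m K q) →* ((Fin m → K) →ₗ[F] (Fin m → K)) :=
    { toFun := fun g => (Matrix.toLin' ((g : Matrix.GeneralLinearGroup (Fin m) K) : Matrix (Fin m) (Fin m) K)).restrictScalars F
      map_one' := by
        apply LinearMap.ext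
        intro x
        simp
      map_mul' := by
        intro g h
        apply LinearMap.ext
        intro x
        simp [Matrix.toLin'_mul] }
  have hρapp : ∀ g x, ρ g x
      = ((g : Matrix.GeneralLinearGroup (Fin m) K) : Matrix (Fin m) (Fin m) K).mulVec x := by
    intro g x
    change (Matrix.toLin' ((g : Matrix.GeneralLinearGroup (Fin m) K) : Matrix (Fin m) (Fin m) K)) x = _
    rw [Matrix.toLin'_apply]
  refine Cfsg.Agent.Lib.Helper15.Embed.symp_embed B hA hnd m hdim ρ ?_ ?_
  · intro g h hgh
    apply Subtype.ext
    apply Units.ext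
    apply Matrix.mulVec_injective
    funext x
    rw [← hρapp, ← hρapp, hgh]
  · intro g x y
    rw [hBapp, hBapp, hρapp, hρapp]
    exact congrArg ψ (g.2 x y)

end Cfsg.Agent.S2639
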