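import Cfsg.Statements.S2643
import Mathlib
import Cfsg.Agent.S2591
import Cfsg.Agent.S0755
import Cfsg.Agent.Lib.Helper2.Unitary2

set_option autoImplicit false
open Cfsg

namespace Cfsg.Agent.S2643

section helpers

open Polynomial
open scoped Matrix

/-! ### the sesquilinear adjoint -/

section utau
variable {K : Type*} [Field K] {I : Type*} [Fintype I] [DecidableEq I]

/-- the sesquilinear adjoint `A ↦ (φ A)ᵀ` -/
def utau (φ : K →+* K) (A : Matrix I I K) : Matrix I I K := (A.map φ)ᵀ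

omit [Fintype I] [DecidableEq I] in
theorem utau_apply (φ : K →+* K) (A : Matrix I I K) (i j : I) : utau φ A i j = φ (A j i) := rfl

omit [Fintype I] [DecidableEq I] in
theorem utau_add (φ : K →+* K) (A B : Matrix I I K) : utau φ (A + B) = utau φ A + utau φ B := by
  ext i j; simp [utau_apply]

omit [Fintype I] [DecidableEq I] in
theorem utau_sub (φ : K →+* K) (A B : Matrix I I K) : utau φ (A - B) = utau φ A - utau φ B := by
  ext i j; simp [utau_apply]

omit [Fintype I] [DecidableEq I] in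
theorem utau_zero (φ : K →+* K) : utau φ (0 : Matrix I I K) = 0 := by
  ext i j; simp [utau_apply]

omit [Fintype I] in
theorem utau_one (φ : K →+* K) : utau φ (1 : Matrix I I K) = 1 := by
  ext i j
  rw [utau_apply, Matrix.one_apply, Matrix.one_apply]
  by_cases h : i = j
  · subst h; simp
  · rw [if_neg h, if_neg (Ne.symm h), map_zero]

omit [Fintype I] [DecidableEq I] in
theorem utau_smul (φ : K →+* K) (c : K) (A : Matrix I I K) : utau φ (c • A) = φ c • utau φ A := by
  ext i j; simp [utau_apply]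

theorem utau_mul (φ : K →+* K) (A B : Matrix I I K) : utau φ (A * B) = utau φ B * utau φ A := by
  unfold utau
  rw [Matrix.map_mul, Matrix.transpose_mul]

omit [Fintype I] [DecidableEq I] in
theorem utau_utau (φ : K →+* K) (hφ : ∀ x, φ (φ x) = x) (A : Matrix I I K) :
    utau φ (utau φ A) = A := by
  ext i j; simp [utau_apply, hφ]

theorem utau_pow (φ : K →+* K) (A : Matrix I I K) (k : ℕ) : utau φ (A ^ k) = utau φ A ^ k := by
  induction k with
  | zero => rw [pow_zero, pow_zero, utau_one]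
  | succ k ih => rw [pow_succ, utau_mul, ih, pow_succ']

theorem utau_nilp (φ : K →+* K) {B : Matrix I I K} (h : IsNilpotent B) : IsNilpotent (utau φ B) := by
  obtain ⟨k, hk⟩ := h
  exact ⟨k, by rw [← utau_pow, hk, utau_zero]⟩

theorem utau_det (φ : K →+* K) (A : Matrix I I K) : (utau φ A).det = φ A.det := by
  unfold utau
  rw [Matrix.det_transpose, RingHom.map_det]
  rfl

/-- determinant of scalar plus nilpotent -/
theorem det_of_nilp (A : Matrix I I K) (c : K) (h : IsNilpotent (A - c • 1)) :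
    A.det = c ^ Fintype.card I := by
  have hB : IsNilpotent (c • (1 : Matrix I I K) - A) := by
    have : c • (1 : Matrix I I K) - A = -(A - c • 1) := by abel
    rw [this]; exact h.neg
  have h1 := Matrix.isNilpotent_charpoly_sub_pow_of_isNilpotent hB
  have h2 : (c • (1 : Matrix I I K) - A).charpoly = X ^ Fintype.card I :=
    sub_eq_zero.mp h1.eq_zero
  have h3 := Matrix.eval_charpoly (c • (1 : Matrix I I K) - A) c
  rw [h2, eval_pow, eval_X] at h3
  rw [h3]
  congr 1
  rw [Matrix.scalar_apply, ← Matrix.smul_one_eq_diagonal]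
  abel

end utau

/-! ### the norm form in a commutative ring -/

theorem norm_unip {C : Type*} [CommRing C] (τ : C →+* C) (hτ : ∀ x, τ (τ x) = x) (θ : C)
    (hθ : θ + τ θ = 1) :
    ∀ (e : ℕ) (a : C), τ a = a → a ^ e = 0 → ∃ h : C, IsNilpotent (h - 1) ∧ τ h * h = 1 + a := by
  intro e
  induction e using Nat.strong_induction_on with
  | _ e ih =>
    intro a ha hae
    by_cases he : e ≤ 1
    · have ha0 : a = 0 := by
        interval_cases e
        · rw [pow_zero] at hae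
          calc a = a * 1 := (mul_one a).symm
            _ = 0 := by rw [hae, mul_zero]
        · simpa using hae
      refine ⟨1, by simp, ?_⟩
      rw [ha0, map_one]; ring
    · have hanil : IsNilpotent a := ⟨e, hae⟩
      have hnil : IsNilpotent (a + θ * τ θ * a ^ 2) := by
        have : a + θ * τ θ * a ^ 2 = a * (1 + θ * τ θ * a) := by ring
        rw [this]
        exact (Commute.all _ _).isNilpotent_mul_right hanil
      obtain ⟨tu, htu⟩ := hnil.isUnit_one_add
      obtain ⟨t, ht⟩ : ∃ t : C, t = 1 + (a + θ * τ θ * a ^ 2) := ⟨_, rfl⟩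
      obtain ⟨t', ht'⟩ : ∃ t' : C, t' = ↑tu⁻¹ := ⟨_, rfl⟩
      have htt' : t * t' = 1 := by rw [ht, ht', ← htu]; exact tu.mul_inv
      have hτt : τ t = t := by
        rw [ht]; simp only [map_add, map_mul, map_one, map_pow, hτ, ha]; ring
      have hτt' : τ t' = t' := by
        have h1 : τ t' * t = 1 := by rw [← hτt, ← map_mul, mul_comm, htt', map_one]
        calc τ t' = τ t' * (t * t') := by rw [htt', mul_one]
          _ = (τ t' * t) * t' := by ring
          _ = t' := by rw [h1, one_mul]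
      obtain ⟨a', ha'⟩ : ∃ a' : C, a' = -(θ * τ θ) * a ^ 2 * t' := ⟨_, rfl⟩
      have hτa' : τ a' = a' := by
        rw [ha']; simp only [map_mul, map_neg, map_pow, hτ, ha, hτt']; ring
      have ha'e : a' ^ ((e + 1) / 2) = 0 := by
        rw [ha', mul_pow, mul_pow, ← pow_mul]
        have h2 : a ^ (2 * ((e + 1) / 2)) = 0 := by
          have : 2 * ((e + 1) / 2) = e + (2 * ((e + 1) / 2) - e) := by omega
          rw [this, pow_add, hae, zero_mul]
        rw [h2, mul_zero, zero_mul]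
      obtain ⟨h₂, hn₂, hh₂⟩ := ih ((e + 1) / 2) (by omega) a' hτa' ha'e
      refine ⟨(1 + θ * a) * h₂, ?_, ?_⟩
      · have : (1 + θ * a) * h₂ - 1 = (h₂ - 1) + a * (θ * h₂) := by ring
        rw [this]
        exact (Commute.all _ _).isNilpotent_add hn₂
          ((Commute.all _ _).isNilpotent_mul_right hanil)
      · rw [map_mul, map_add, map_one, map_mul, ha]
        have h3 : (1 + τ θ * a) * (1 + θ * a) = t := by
          rw [ht]; linear_combination a * hθ
        calc (1 + τ θ * a) * τ h₂ * ((1 + θ * a) * h₂)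
            = ((1 + τ θ * a) * (1 + θ * a)) * (τ h₂ * h₂) := by ring
          _ = t * (1 + a') := by rw [h3, hh₂]
          _ = t - θ * τ θ * a ^ 2 * (t * t') := by rw [ha']; ring
          _ = 1 + a := by rw [htt', ht]; ring

section transfer
variable {K : Type*} [Field K] {I : Type*} [Fintype I] [DecidableEq I]

theorem norm_unip_mat (φ : K →+* K) (hφ : ∀ x, φ (φ x) = x) (θ : K) (hθ : θ + φ θ = 1)
    (M : Matrix I I K)
    (hcomm : ∀ A B : Matrix I I K, A * M = M * A → B * M = M * B → A * B = B * A)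
    (htau : ∀ A : Matrix I I K, A * M = M * A → utau φ A * M = M * utau φ A)
    (A : Matrix I I K) (hA : A * M = M * A) (htA : utau φ A = A) (hnil : IsNilpotent A) :
    ∃ h : Matrix I I K, h * M = M * h ∧ IsNilpotent (h - 1) ∧ utau φ h * h = 1 + A := by
  let C : Subring (Matrix I I K) := Subring.centralizer {M}
  have hmem : ∀ A : Matrix I I K, A ∈ C ↔ A * M = M * A := by
    intro A
    rw [Subring.mem_centralizer_iff]
    constructor
    · intro h; exact (h M rfl).symm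
    · intro h g hg; rw [Set.mem_singleton_iff.mp hg]; exact h.symm
  letI : CommRing ↥C :=
    { (inferInstance : Ring ↥C) with
      mul_comm := fun a b => Subtype.ext (hcomm a.1 b.1 ((hmem _).1 a.2) ((hmem _).1 b.2)) }
  let τ : ↥C →+* ↥C :=
    { toFun := fun a => ⟨utau φ a.1, (hmem _).2 (htau a.1 ((hmem _).1 a.2))⟩
      map_one' := Subtype.ext (utau_one φ)
      map_mul' := fun a b => Subtype.ext (by
        show utau φ (a.1 * b.1) = utau φ a.1 * utau φ b.1
        rw [utau_mul]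
        exact hcomm _ _ (htau b.1 ((hmem _).1 b.2)) (htau a.1 ((hmem _).1 a.2)))
      map_zero' := Subtype.ext (utau_zero φ)
      map_add' := fun a b => Subtype.ext (utau_add φ a.1 b.1) }
  have hτ : ∀ x : ↥C, τ (τ x) = x := fun x => Subtype.ext (utau_utau φ hφ x.1)
  have hθm : θ • (1 : Matrix I I K) ∈ C := by
    rw [hmem, smul_mul_assoc, mul_smul_comm, one_mul, mul_one]
  have hθ' : (⟨θ • 1, hθm⟩ : ↥C) + τ ⟨θ • 1, hθm⟩ = 1 := by
    apply Subtype.ext
    show θ • (1 : Matrix I I K) + utau φ (θ • 1) = 1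
    rw [utau_smul, utau_one, ← add_smul, hθ, one_smul]
  obtain ⟨e, he⟩ := hnil
  have hae : (⟨A, (hmem _).2 hA⟩ : ↥C) ^ e = 0 := by
    apply Subtype.ext
    show ((⟨A, (hmem _).2 hA⟩ : ↥C) ^ e).1 = 0
    rw [show ((⟨A, (hmem _).2 hA⟩ : ↥C) ^ e).1 = A ^ e from Subring.coe_pow _ _ _]
    exact he
  obtain ⟨h, hn, hh⟩ := norm_unip τ hτ ⟨θ • 1, hθm⟩ hθ' e ⟨A, (hmem _).2 hA⟩
    (Subtype.ext htA) hae
  refine ⟨h.1, (hmem _).1 h.2, ?_, ?_⟩
  · obtain ⟨k, hk⟩ := hn
    refine ⟨k, ?_⟩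
    have h1 := congrArg Subtype.val hk
    rw [show ((h - 1) ^ k).1 = (h - 1).1 ^ k from Subring.coe_pow _ _ _] at h1
    exact h1
  · exact congrArg Subtype.val hh

end transfer


/-! ### regular unipotent unitary matrices -/

section ufacts
variable {K : Type*} [Field K] {n : ℕ}

local notation "EE" => Matrix (Fin n) (Fin n) K

/-- regular unipotent unitary matrices -/
def URU (φ : K →+* K) (M : Matrix (Fin n) (Fin n) K) : Prop :=
  utau φ M * M = 1 ∧ (M - 1) ^ n = 0 ∧ (M - 1).rank = n - 1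

theorem uexists_cyc (φ : K →+* K) (hn : 1 ≤ n) (M : EE) (hM : URU φ M) :
    ∃ v : Fin n → K, ∀ w : Fin n → K, ∃ p : K[X], w = (aeval (M - 1) p) *ᵥ v := by
  obtain ⟨-, hnil, hreg⟩ := hM
  have hrank : Module.finrank K (LinearMap.range (M - 1).mulVecLin) = n - 1 := hreg
  exact Cfsg.Agent.S2592.cyclic (M - 1) n hnil (by rw [Fintype.card_fin, hrank]; omega)

theorem URfacts (φ : K →+* K) (hn : 1 ≤ n) (M : EE) (hM : URU φ M) :
    (∀ A B : EE, A * M = M * A → B * M = M * B → A * B = B * A) ∧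
    (∀ A : EE, A * M = M * A → utau φ A * M = M * utau φ A) ∧
    (∀ A : EE, A * M = M * A → ∃ c : K, IsNilpotent (A - c • 1)) := by
  obtain ⟨v, hv⟩ := uexists_cyc φ hn M hM
  obtain ⟨htM, hnil, hreg⟩ := hM
  obtain ⟨N, hN⟩ : ∃ N : EE, N = M - 1 := ⟨_, rfl⟩
  rw [← hN] at hnil hreg hv
  have hMt : M * utau φ M = 1 := mul_eq_one_comm.mp htM
  have hRN : ∀ A : EE, A * M = M * A → A * N = N * A := by
    intro A h
    rw [hN, mul_sub, sub_mul, h, mul_one, one_mul]
  have hpoly : ∀ A : EE, A * M = M * A → ∃ p : K[X], A = aeval N p :=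
    fun A h => Cfsg.Agent.S2592.commutant N v hv A (hRN A h)
  refine ⟨?_, ?_, ?_⟩
  · intro A B hA hB
    obtain ⟨p, rfl⟩ := hpoly A hA
    obtain ⟨r, rfl⟩ := hpoly B hB
    rw [← map_mul, ← map_mul, mul_comm]
  · intro A h
    have h1 : utau φ M * utau φ A = utau φ A * utau φ M := by rw [← utau_mul, ← utau_mul, h]
    calc utau φ A * M = (M * utau φ M) * utau φ A * M := by rw [hMt, one_mul]
      _ = M * (utau φ M * utau φ A) * M := by noncomm_ring
      _ = M * (utau φ A * utau φ M) * M := by rw [h1]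
      _ = M * utau φ A * (utau φ M * M) := by noncomm_ring
      _ = M * utau φ A := by rw [htM, mul_one]
  · intro A h
    obtain ⟨p, rfl⟩ := hpoly A h
    refine ⟨p.coeff 0, ?_⟩
    have e : aeval N p - p.coeff 0 • (1 : EE) = aeval N p.divX * N := by
      have h3 := congrArg (aeval N) (Polynomial.divX_mul_X_add p)
      rw [map_add, map_mul, aeval_X, aeval_C, Algebra.algebraMap_eq_smul_one] at h3
      rw [← h3]
      abel
    rw [e]
    refine ⟨n, ?_⟩
    have hc : Commute (aeval N p.divX) N := Cfsg.Agent.S2592.aeval_comm_self N p.divX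
    rw [hc.mul_pow, hnil, mul_zero]

/-- the scalar part of a unitary element of the commutant has norm one; its determinant -/
theorem det_central (φ : K →+* K) (hn : 1 ≤ n) (M : EE) (hM : URU φ M) (A : EE)
    (hA : A * M = M * A) (htA : utau φ A * A = 1) : ∃ c : K, φ c * c = 1 ∧ A.det = c ^ n := by
  have : Nonempty (Fin n) := ⟨⟨0, hn⟩⟩
  obtain ⟨hRcomm, hRtau, hdec⟩ := URfacts φ hn M hM
  obtain ⟨c, hc⟩ := hdec A hA
  refine ⟨c, ?_, ?_⟩
  · obtain ⟨B, hB⟩ : ∃ B, B = A - c • (1 : EE) := ⟨_, rfl⟩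
    rw [← hB] at hc
    have hBR : B * M = M * B := by
      rw [hB, sub_mul, mul_sub, smul_mul_assoc, mul_smul_comm, one_mul, mul_one, hA]
    have htBR : utau φ B * M = M * utau φ B := hRtau _ hBR
    have hkey : (φ c * c - 1) • (1 : EE) = -(φ c • B + utau φ B * A) := by
      have h1 : utau φ B * A = 1 - φ c • A := by
        rw [hB, utau_sub, utau_smul, utau_one, sub_mul, smul_mul_assoc, one_mul, htA]
      rw [h1, hB, smul_sub, smul_smul, sub_smul, one_smul]
      abel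
    have hn1 : IsNilpotent (φ c • B) := hc.smul (φ c)
    have hn2 : IsNilpotent (utau φ B * A) :=
      Commute.isNilpotent_mul_right (hRcomm _ _ htBR hA) (utau_nilp φ hc)
    have hcm : Commute (φ c • B) (utau φ B * A) := by
      apply hRcomm
      · rw [smul_mul_assoc, mul_smul_comm, hBR]
      · calc utau φ B * A * M = utau φ B * (A * M) := mul_assoc _ _ _
          _ = utau φ B * (M * A) := by rw [hA]
          _ = (utau φ B * M) * A := (mul_assoc _ _ _).symm
          _ = (M * utau φ B) * A := by rw [htBR]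
          _ = M * (utau φ B * A) := mul_assoc _ _ _
    have hnil2 : IsNilpotent ((φ c * c - 1) • (1 : EE)) := by
      rw [hkey]
      exact (Commute.isNilpotent_add hcm hn1 hn2).neg
    have hc1 := Cfsg.Agent.S2592.scalar_nilp _ hnil2
    linear_combination hc1
  · have h1 := det_of_nilp A c hc
    rw [Fintype.card_fin] at h1
    exact h1

theorem unorm_form (φ : K →+* K) (hφ : ∀ x, φ (φ x) = x) (θ : K) (hθ : θ + φ θ = 1)
    (Hnorm : ∀ c : K, c ≠ 0 → φ c = c → ∃ d : K, φ d * d = c)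
    (hn : 1 ≤ n) (M : EE) (hM : URU φ M)
    (S : EE) (hS : S * M = M * S) (htS : utau φ S = S) (hU : IsUnit S) :
    ∃ (h h' : EE), h * M = M * h ∧ h' * M = M * h' ∧ h * h' = 1 ∧ h' * h = 1 ∧
      S = utau φ h * h := by
  classical
  have : Nonempty (Fin n) := ⟨⟨0, hn⟩⟩
  obtain ⟨hRcomm, hRtau, hdec⟩ := URfacts φ hn M hM
  obtain ⟨c, hc⟩ := hdec S hS
  have hc0 : c ≠ 0 := by
    rintro rfl
    rw [zero_smul, sub_zero] at hc
    exact hc.not_isUnit hU
  have hφc : φ c = c := by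
    have h1 : IsNilpotent (utau φ (S - c • 1)) := utau_nilp φ hc
    rw [utau_sub, htS, utau_smul, utau_one] at h1
    have hcm : Commute (S - φ c • (1 : EE)) (S - c • (1 : EE)) := by
      show (S - φ c • (1 : EE)) * (S - c • (1 : EE)) = (S - c • (1 : EE)) * (S - φ c • (1 : EE))
      simp only [sub_mul, mul_sub, smul_mul_assoc, mul_smul_comm, one_mul, mul_one, smul_sub,
        smul_smul]
      rw [mul_comm c (φ c)]
      abel
    have h2 := Commute.isNilpotent_sub hcm h1 hc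
    have h3 : (S - φ c • (1 : EE)) - (S - c • (1 : EE)) = (c - φ c) • (1 : EE) := by
      rw [sub_smul]; abel
    rw [h3] at h2
    have h4 := Cfsg.Agent.S2592.scalar_nilp _ h2
    linear_combination -h4
  obtain ⟨d, hd⟩ := Hnorm c hc0 hφc
  have hd0 : d ≠ 0 := by
    rintro rfl
    rw [mul_zero] at hd
    exact hc0 hd.symm
  obtain ⟨A, hAdef⟩ : ∃ A : EE, A = c⁻¹ • S - 1 := ⟨_, rfl⟩
  have hA : A * M = M * A := by
    rw [hAdef, sub_mul, mul_sub, smul_mul_assoc, mul_smul_comm, hS, one_mul, mul_one]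
  have htA : utau φ A = A := by
    rw [hAdef, utau_sub, utau_smul, utau_one, htS, map_inv₀, hφc]
  have hAnil : IsNilpotent A := by
    have h1 : A = c⁻¹ • (S - c • 1) := by
      rw [hAdef, smul_sub, smul_smul, inv_mul_cancel₀ hc0, one_smul]
    rw [h1]
    exact hc.smul _
  obtain ⟨h₀, hh₀M, hh₀n, hh₀⟩ := norm_unip_mat φ hφ θ hθ M hRcomm hRtau A hA htA hAnil
  have hh₀U : IsUnit h₀ := by
    have h1 := hh₀n.isUnit_one_add
    have h3 : (1 : EE) + (h₀ - 1) = h₀ := by abel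
    rwa [h3] at h1
  obtain ⟨hu, hhu⟩ := hh₀U
  obtain ⟨hi, hhi⟩ : ∃ hi : EE, hi = ((hu⁻¹ : (Matrix (Fin n) (Fin n) K)ˣ) : EE) := ⟨_, rfl⟩
  have hi1 : h₀ * hi = 1 := by rw [← hhu, hhi]; exact hu.mul_inv
  have hi2 : hi * h₀ = 1 := by rw [← hhu, hhi]; exact hu.inv_mul
  have hiM : hi * M = M * hi :=
    Cfsg.Agent.S2592.inv_comm_aux M _ h₀ hh₀M hi2 hi1
  refine ⟨d • h₀, d⁻¹ • hi, ?_, ?_, ?_, ?_, ?_⟩
  · rw [smul_mul_assoc, mul_smul_comm, hh₀M]
  · rw [smul_mul_assoc, mul_smul_comm, hiM]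
  · rw [smul_mul_assoc, mul_smul_comm, smul_smul, hi1, mul_inv_cancel₀ hd0, one_smul]
  · rw [smul_mul_assoc, mul_smul_comm, smul_smul, hi2, inv_mul_cancel₀ hd0, one_smul]
  · rw [utau_smul, smul_mul_assoc, mul_smul_comm, smul_smul, hh₀, hd, hAdef]
    rw [add_sub_cancel, smul_smul, mul_inv_cancel₀ hc0, one_smul]

/-- two regular unipotent unitary matrices are conjugate under a unitary matrix -/
theorem URU_conj (φ : K →+* K) (hφ : ∀ x, φ (φ x) = x) (θ : K) (hθ : θ + φ θ = 1)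
    (Hnorm : ∀ c : K, c ≠ 0 → φ c = c → ∃ d : K, φ d * d = c)
    (hn : 1 ≤ n) (M₁ M₂ : EE) (hM₁ : URU φ M₁) (hM₂ : URU φ M₂) :
    ∃ k : EE, utau φ k * k = 1 ∧ k * M₁ = M₂ * k := by
  obtain ⟨v₁, hv₁⟩ := uexists_cyc φ hn M₁ hM₁
  obtain ⟨v₂, hv₂⟩ := uexists_cyc φ hn M₂ hM₂
  have hnil₁ : (M₁ - 1) ^ Fintype.card (Fin n) = 0 := by rw [Fintype.card_fin]; exact hM₁.2.1
  have hnil₂ : (M₂ - 1) ^ Fintype.card (Fin n) = 0 := by rw [Fintype.card_fin]; exact hM₂.2.1
  obtain ⟨G, G', hGG', hG'G, hGN⟩ :=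
    Cfsg.Agent.S2591.gl_conj (M₁ - 1) (M₂ - 1) hnil₁ hnil₂ v₁ v₂ hv₁ hv₂
  have hGM : G * M₁ = M₂ * G := by
    have h1 : G * M₁ = G * (M₁ - 1) + G := by noncomm_ring
    have h2 : M₂ * G = (M₂ - 1) * G + G := by noncomm_ring
    rw [h1, h2, hGN]
  have ht1 : utau φ M₁ * M₁ = 1 := hM₁.1
  have ht2 : utau φ M₂ * M₂ = 1 := hM₂.1
  have hMt1 : M₁ * utau φ M₁ = 1 := mul_eq_one_comm.mp ht1
  have e0 : utau φ M₁ * utau φ G = utau φ G * utau φ M₂ := by
    rw [← utau_mul, ← utau_mul, hGM]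
  have e1 : utau φ G * M₂ = M₁ * utau φ G := by
    calc utau φ G * M₂ = (M₁ * utau φ M₁) * utau φ G * M₂ := by rw [hMt1, one_mul]
      _ = M₁ * (utau φ M₁ * utau φ G) * M₂ := by noncomm_ring
      _ = M₁ * (utau φ G * utau φ M₂) * M₂ := by rw [e0]
      _ = M₁ * utau φ G * (utau φ M₂ * M₂) := by noncomm_ring
      _ = M₁ * utau φ G := by rw [ht2, mul_one]
  obtain ⟨S, hSdef⟩ : ∃ S : EE, S = utau φ G * G := ⟨_, rfl⟩
  have hS : S * M₁ = M₁ * S := by
    calc S * M₁ = utau φ G * (G * M₁) := by rw [hSdef, mul_assoc]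
      _ = (utau φ G * M₂) * G := by rw [hGM, mul_assoc]
      _ = M₁ * S := by rw [e1, hSdef, mul_assoc]
  have htS : utau φ S = S := by rw [hSdef, utau_mul, utau_utau φ hφ]
  have hU : IsUnit S := by
    have h1 : S * (G' * utau φ G') = 1 := by
      calc S * (G' * utau φ G') = utau φ G * (G * G') * utau φ G' := by
            rw [hSdef]; noncomm_ring
        _ = 1 := by rw [hGG', mul_one, ← utau_mul, hG'G, utau_one]
    have h2 : (G' * utau φ G') * S = 1 := by
      calc (G' * utau φ G') * S = G' * (utau φ G' * utau φ G) * G := by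
            rw [hSdef]; noncomm_ring
        _ = 1 := by rw [← utau_mul, hGG', utau_one, mul_one, hG'G]
    exact ⟨⟨S, G' * utau φ G', h1, h2⟩, rfl⟩
  obtain ⟨h, h', hhM, hh'M, hhh', hh'h, hSh⟩ :=
    unorm_form φ hφ θ hθ Hnorm hn M₁ hM₁ S hS htS hU
  refine ⟨G * h', ?_, ?_⟩
  · have e2 : utau φ h' * utau φ h = 1 := by rw [← utau_mul, hhh', utau_one]
    calc utau φ (G * h') * (G * h') = utau φ h' * (utau φ G * G) * h' := by
          rw [utau_mul]; noncomm_ring
      _ = utau φ h' * (utau φ h * h) * h' := by rw [← hSdef, hSh]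
      _ = (utau φ h' * utau φ h) * (h * h') := by noncomm_ring
      _ = 1 := by rw [e2, hhh', mul_one]
  · calc G * h' * M₁ = G * (h' * M₁) := mul_assoc _ _ _
      _ = (G * M₁) * h' := by rw [hh'M, mul_assoc]
      _ = M₂ * (G * h') := by rw [hGM, mul_assoc]

end ufacts


/-! ### conjugation lemmas, the Cayley transform, transport to the standard form -/

section more
variable {K : Type*} [Field K] {n : ℕ}

local notation "EE" => Matrix (Fin n) (Fin n) K

theorem conj_sub_one (P P' A : EE) (h1 : P * P' = 1) : P * A * P' - 1 = P * (A - 1) * P' := by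
  have : P * (A - 1) * P' = P * A * P' - P * P' := by noncomm_ring
  rw [this, h1]

theorem conj_pow (P P' B : EE) (h1 : P * P' = 1) (h2 : P' * P = 1) (k : ℕ) :
    (P * B * P') ^ k = P * B ^ k * P' := by
  induction k with
  | zero => rw [pow_zero, pow_zero, mul_one, h1]
  | succ k ih =>
    rw [pow_succ, ih, pow_succ]
    calc P * B ^ k * P' * (P * B * P') = P * B ^ k * (P' * P) * B * P' := by
          simp only [mul_assoc]
      _ = P * (B ^ k * B) * P' := by rw [h2, mul_one]; simp only [mul_assoc]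

theorem conj_rank (P P' B : EE) (h1 : P * P' = 1) : (P * B * P').rank = B.rank := by
  have hd : P.det * P'.det = 1 := by rw [← Matrix.det_mul, h1, Matrix.det_one]
  have hP : IsUnit P.det := isUnit_iff_exists_inv.2 ⟨_, hd⟩
  have hP' : IsUnit P'.det := isUnit_iff_exists_inv.2 ⟨_, by rw [mul_comm]; exact hd⟩
  rw [Matrix.rank_mul_eq_left_of_isUnit_det P' (P * B) hP',
    Matrix.rank_mul_eq_right_of_isUnit_det P B hP]

theorem conj_det (P P' A : EE) (h1 : P * P' = 1) : (P * A * P').det = A.det := by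
  have hd : P.det * P'.det = 1 := by rw [← Matrix.det_mul, h1, Matrix.det_one]
  rw [Matrix.det_mul, Matrix.det_mul]
  linear_combination A.det * hd

theorem URU_of_conj (φ : K →+* K) (hφ : ∀ x, φ (φ x) = x) (M g : EE) (hM : URU φ M)
    (hg : utau φ g * g = 1) : URU φ (g * M * utau φ g) ∧ (g * M * utau φ g).det = M.det := by
  have hg' : g * utau φ g = 1 := mul_eq_one_comm.mp hg
  obtain ⟨hu, hnil, hrank⟩ := hM
  refine ⟨⟨?_, ?_, ?_⟩, conj_det g (utau φ g) M hg'⟩
  · rw [utau_mul, utau_mul, utau_utau φ hφ]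
    calc g * (utau φ M * utau φ g) * (g * M * utau φ g)
        = g * utau φ M * (utau φ g * g) * M * utau φ g := by noncomm_ring
      _ = g * (utau φ M * M) * utau φ g := by rw [hg, mul_one]; noncomm_ring
      _ = 1 := by rw [hu, mul_one, hg']
  · rw [conj_sub_one g (utau φ g) M hg', conj_pow g (utau φ g) (M - 1) hg' hg, hnil, mul_zero,
      zero_mul]
  · rw [conj_sub_one g (utau φ g) M hg', conj_rank g (utau φ g) (M - 1) hg', hrank]

theorem conj_iff (φ : K →+* K) (hφ : ∀ x, φ (φ x) = x) (hn : 1 ≤ n) (M₁ : EE) (hM₁ : URU φ M₁)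
    (g₁ g₂ : EE) (hg₁ : utau φ g₁ * g₁ = 1) (hg₂ : utau φ g₂ * g₂ = 1) :
    (∃ s : EE, s.det = 1 ∧ utau φ s * s = 1 ∧
        s * (g₁ * M₁ * utau φ g₁) = (g₂ * M₁ * utau φ g₂) * s) ↔
      ∃ c : K, φ c * c = 1 ∧ g₂.det = c ^ n * g₁.det := by
  have hg₁' : g₁ * utau φ g₁ = 1 := mul_eq_one_comm.mp hg₁
  have hg₂' : g₂ * utau φ g₂ = 1 := mul_eq_one_comm.mp hg₂
  constructor
  · rintro ⟨s, hsdet, hsu, hs⟩
    obtain ⟨z, hz⟩ : ∃ z : EE, z = utau φ g₂ * s * g₁ := ⟨_, rfl⟩
    have hzM : z * M₁ = M₁ * z := by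
      calc z * M₁ = utau φ g₂ * s * g₁ * M₁ * (utau φ g₁ * g₁) := by rw [hg₁, mul_one, hz]
        _ = utau φ g₂ * (s * (g₁ * M₁ * utau φ g₁)) * g₁ := by noncomm_ring
        _ = utau φ g₂ * ((g₂ * M₁ * utau φ g₂) * s) * g₁ := by rw [hs]
        _ = (utau φ g₂ * g₂) * M₁ * (utau φ g₂ * s * g₁) := by noncomm_ring
        _ = M₁ * z := by rw [hg₂, one_mul, hz]
    have hzu : utau φ z * z = 1 := by
      rw [hz, utau_mul, utau_mul, utau_utau φ hφ]
      calc utau φ g₁ * (utau φ s * g₂) * (utau φ g₂ * s * g₁)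
          = utau φ g₁ * (utau φ s * (g₂ * utau φ g₂) * s) * g₁ := by noncomm_ring
        _ = 1 := by rw [hg₂', mul_one, hsu, mul_one, hg₁]
    obtain ⟨c, hc1, hc2⟩ := det_central φ hn M₁ hM₁ z hzM hzu
    have hd2 : (utau φ g₂).det * g₂.det = 1 := by rw [← Matrix.det_mul, hg₂, Matrix.det_one]
    have hzdet : z.det = (utau φ g₂).det * g₁.det := by
      rw [hz, Matrix.det_mul, Matrix.det_mul, hsdet, mul_one]
    have hc0 : c ≠ 0 := by
      rintro rfl
      rw [mul_zero] at hc1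
      exact zero_ne_one hc1
    refine ⟨c⁻¹, ?_, ?_⟩
    · rw [map_inv₀, ← mul_inv, hc1, inv_one]
    · rw [hzdet] at hc2
      have hcn : c ^ n ≠ 0 := pow_ne_zero n hc0
      have h5 : g₁.det = g₂.det * c ^ n := by
        linear_combination (-g₁.det) * hd2 + g₂.det * hc2
      rw [h5, inv_pow, mul_comm, mul_assoc, mul_inv_cancel₀ hcn, mul_one]
  · rintro ⟨c, hc1, hc2⟩
    have hc0 : c ≠ 0 := by
      rintro rfl
      rw [mul_zero] at hc1
      exact zero_ne_one hc1
    have hcn : c ^ n ≠ 0 := pow_ne_zero n hc0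
    refine ⟨c⁻¹ • (g₂ * utau φ g₁), ?_, ?_, ?_⟩
    · have hd1 : (utau φ g₁).det * g₁.det = 1 := by rw [← Matrix.det_mul, hg₁, Matrix.det_one]
      rw [Matrix.det_smul, Matrix.det_mul, Fintype.card_fin, hc2, inv_pow]
      field_simp
      linear_combination hd1
    · rw [utau_smul, utau_mul, utau_utau φ hφ, smul_mul_assoc, mul_smul_comm, smul_smul]
      have h1 : φ c⁻¹ * c⁻¹ = 1 := by rw [map_inv₀, ← mul_inv, hc1, inv_one]
      rw [h1, one_smul]
      calc g₁ * utau φ g₂ * (g₂ * utau φ g₁) = g₁ * (utau φ g₂ * g₂) * utau φ g₁ := by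
            noncomm_ring
        _ = 1 := by rw [hg₂, mul_one, hg₁']
    · rw [smul_mul_assoc, mul_smul_comm]
      congr 1
      calc g₂ * utau φ g₁ * (g₁ * M₁ * utau φ g₁)
          = g₂ * (utau φ g₁ * g₁) * M₁ * utau φ g₁ := by noncomm_ring
        _ = g₂ * M₁ * (utau φ g₂ * g₂) * utau φ g₁ := by rw [hg₁, hg₂, mul_one, mul_one]
        _ = g₂ * M₁ * utau φ g₂ * (g₂ * utau φ g₁) := by noncomm_ring

theorem cayley (φ : K →+* K) (hφ : ∀ x, φ (φ x) = x) (θ : K) (hθ : θ + φ θ = 1) (J X : EE)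
    (hskew : utau φ X * J = -(J * X)) (hnil : X ^ n = 0) :
    ∃ T W : EE, utau φ T * J * T = J ∧ T - 1 = X * W ∧ W * X = X * W ∧ IsUnit W.det ∧
      T.det = 1 := by
  have hXn : IsNilpotent X := ⟨n, hnil⟩
  obtain ⟨V, hV⟩ : ∃ V : EE, V = 1 - φ θ • X := ⟨_, rfl⟩
  obtain ⟨V₂, hV₂⟩ : ∃ V₂ : EE, V₂ = 1 + θ • X := ⟨_, rfl⟩
  have hVu : IsUnit V := by
    have h1 := ((hXn.smul (φ θ)).neg).isUnit_one_add
    have h2 : (1 : EE) + -(φ θ • X) = V := by rw [hV]; abel
    rwa [h2] at h1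
  have hV₂u : IsUnit V₂ := by
    have h1 := (hXn.smul θ).isUnit_one_add
    rwa [← hV₂] at h1
  obtain ⟨vu, hvu⟩ := hVu
  obtain ⟨W, hW⟩ : ∃ W : EE, W = ((vu⁻¹ : (Matrix (Fin n) (Fin n) K)ˣ) : EE) := ⟨_, rfl⟩
  have hVW : V * W = 1 := by rw [← hvu, hW]; exact vu.mul_inv
  have hWV : W * V = 1 := by rw [← hvu, hW]; exact vu.inv_mul
  obtain ⟨vu₂, hvu₂⟩ := hV₂u
  obtain ⟨W₂, hW₂⟩ : ∃ W₂ : EE, W₂ = ((vu₂⁻¹ : (Matrix (Fin n) (Fin n) K)ˣ) : EE) := ⟨_, rfl⟩
  have hV₂W₂ : V₂ * W₂ = 1 := by rw [← hvu₂, hW₂]; exact vu₂.mul_inv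
  have hW₂V₂ : W₂ * V₂ = 1 := by rw [← hvu₂, hW₂]; exact vu₂.inv_mul
  have hVX : V * X = X * V := by
    rw [hV, sub_mul, mul_sub, smul_mul_assoc, mul_smul_comm, one_mul, mul_one]
  have hWX : W * X = X * W := Cfsg.Agent.S2592.inv_comm_aux X W V hVX hWV hVW
  have hVV₂ : V * V₂ = V₂ * V := by
    rw [hV₂, mul_add, add_mul, mul_one, one_mul, mul_smul_comm, smul_mul_assoc, hVX]
  have hJ1 : utau φ V₂ * J = J * V := by
    rw [hV₂, hV, utau_add, utau_one, utau_smul, add_mul, one_mul, smul_mul_assoc, hskew, mul_sub,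
      mul_one, mul_smul_comm]
    rw [smul_neg, sub_eq_add_neg]
  have hJ2 : utau φ V * J = J * V₂ := by
    rw [hV₂, hV, utau_sub, utau_one, utau_smul, hφ, sub_mul, one_mul, smul_mul_assoc, hskew,
      mul_add, mul_one, mul_smul_comm]
    rw [smul_neg, sub_neg_eq_add]
  have hJ3 : utau φ W * J = J * W₂ := by
    have h1 : utau φ W * utau φ V = 1 := by rw [← utau_mul, hVW, utau_one]
    calc utau φ W * J = utau φ W * J * (V₂ * W₂) := by rw [hV₂W₂, mul_one]
      _ = utau φ W * (J * V₂) * W₂ := by noncomm_ring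
      _ = utau φ W * (utau φ V * J) * W₂ := by rw [hJ2]
      _ = (utau φ W * utau φ V) * J * W₂ := by noncomm_ring
      _ = J * W₂ := by rw [h1, one_mul]
  refine ⟨V₂ * W, W, ?_, ?_, hWX, ?_, ?_⟩
  · calc utau φ (V₂ * W) * J * (V₂ * W) = utau φ W * (utau φ V₂ * J) * V₂ * W := by
          rw [utau_mul]; noncomm_ring
      _ = (utau φ W * J) * (V * V₂) * W := by rw [hJ1]; noncomm_ring
      _ = J * (W₂ * V₂) * (V * W) := by rw [hJ3, hVV₂]; noncomm_ring
      _ = J := by rw [hW₂V₂, hVW, mul_one, mul_one]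
  · have h1 : V₂ - V = X := by
      rw [hV₂, hV]
      have : (1 : EE) + θ • X - (1 - φ θ • X) = (θ + φ θ) • X := by rw [add_smul]; abel
      rw [this, hθ, one_smul]
    calc V₂ * W - 1 = V₂ * W - V * W := by rw [hVW]
      _ = (V₂ - V) * W := by noncomm_ring
      _ = X * W := by rw [h1]
  · have hd : W.det * V.det = 1 := by rw [← Matrix.det_mul, hWV, Matrix.det_one]
    exact isUnit_iff_exists_inv.2 ⟨_, hd⟩
  · have hdV : V.det = 1 := by
      have h1 : IsNilpotent (V - (1 : K) • (1 : EE)) := by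
        have : V - (1 : K) • (1 : EE) = -(φ θ • X) := by rw [hV, one_smul]; abel
        rw [this]; exact (hXn.smul (φ θ)).neg
      rw [det_of_nilp V 1 h1, one_pow]
    have hdV₂ : V₂.det = 1 := by
      have h1 : IsNilpotent (V₂ - (1 : K) • (1 : EE)) := by
        have : V₂ - (1 : K) • (1 : EE) = θ • X := by rw [hV₂, one_smul]; abel
        rw [this]; exact hXn.smul θ
      rw [det_of_nilp V₂ 1 h1, one_pow]
    have hd : W.det * V.det = 1 := by rw [← Matrix.det_mul, hWV, Matrix.det_one]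
    rw [hdV, mul_one] at hd
    rw [Matrix.det_mul, hdV₂, hd, one_mul]

theorem transport [Finite K] (φ : K →+* K) (hφ : ∀ x, φ (φ x) = x) (hφne : φ ≠ RingHom.id K)
    (J : EE) (hJ : utau φ J = J) (hJu : IsUnit J) : ∃ Q : EE, utau φ Q * J * Q = 1 := by
  classical
  have hJ' : ∀ i j, φ (J i j) = J j i := fun i j => by
    have := congrFun (congrFun hJ j) i
    rwa [utau_apply] at this
  obtain ⟨ju, hju⟩ := hJu
  obtain ⟨Ji, hJi⟩ : ∃ Ji : EE, Ji = ((ju⁻¹ : (Matrix (Fin n) (Fin n) K)ˣ) : EE) := ⟨_, rfl⟩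
  have hJJi : J * Ji = 1 := by rw [← hju, hJi]; exact ju.mul_inv
  have hJiJ : Ji * J = 1 := by rw [← hju, hJi]; exact ju.inv_mul
  let f : (Fin n → K) → (Fin n → K) → K := fun x y => ∑ k, φ (x k) * (J *ᵥ y) k
  let B : (Fin n → K) →ₛₗ[φ] (Fin n → K) →ₗ[K] K := LinearMap.mk₂'ₛₗ φ (RingHom.id K) f
    (by
      intro x x' y
      simp only [f, Pi.add_apply, map_add, add_mul, Finset.sum_add_distrib])
    (by
      intro c x y
      simp only [f, Pi.smul_apply, smul_eq_mul, map_mul, Finset.mul_sum, mul_assoc])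
    (by
      intro x y y'
      simp only [f, Matrix.mulVec_add, Pi.add_apply, mul_add, Finset.sum_add_distrib])
    (by
      intro c x y
      simp only [f, Matrix.mulVec_smul, Pi.smul_apply, smul_eq_mul, RingHom.id_apply,
        Finset.mul_sum]
      refine Finset.sum_congr rfl (fun k _ => by ring))
  have hB_apply : ∀ x y, B x y = f x y := fun x y => rfl
  have hS : B.IsSymm := by
    refine ⟨fun x y => ?_⟩
    rw [hB_apply, hB_apply]
    simp only [f, map_sum, map_mul, hφ, Matrix.mulVec, dotProduct, Finset.mul_sum]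
    rw [Finset.sum_comm]
    refine Finset.sum_congr rfl (fun j _ => Finset.sum_congr rfl (fun i _ => ?_))
    rw [hJ']
    ring
  have hB : B.Nondegenerate := by
    refine ⟨?_, ?_⟩
    · intro x hx
      funext i
      have h1 := hx (Ji *ᵥ Pi.single i 1)
      rw [hB_apply] at h1
      simp only [f] at h1
      rw [Matrix.mulVec_mulVec, hJJi, Matrix.one_mulVec] at h1
      simp only [Pi.single_apply, mul_ite, mul_one, mul_zero, Finset.sum_ite_eq',
        Finset.mem_univ, if_true] at h1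
      exact (map_eq_zero φ).mp h1
    · intro y hy
      have h2 : J *ᵥ y = 0 := by
        funext i
        have h1 := hy (Pi.single i 1)
        rw [hB_apply] at h1
        simp only [f, Pi.single_apply, apply_ite φ, map_one, map_zero, ite_mul, one_mul,
          zero_mul, Finset.sum_ite_eq', Finset.mem_univ, if_true] at h1
        exact h1
      have h3 : y = Ji *ᵥ (J *ᵥ y) := by rw [Matrix.mulVec_mulVec, hJiJ, Matrix.one_mulVec]
      rw [h3, h2, Matrix.mulVec_zero]
  have hfd : Module.finrank K (Fin n → K) = n := Module.finrank_fin_fun K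
  obtain ⟨b, hb⟩ := Cfsg.Agent.S0755.result φ hφne hφ B hS hB
  refine ⟨Matrix.of fun k i => b (Fin.cast hfd.symm i) k, ?_⟩
  ext i j
  have h1 := hb (Fin.cast hfd.symm i) (Fin.cast hfd.symm j)
  rw [hB_apply] at h1
  have h2 : (utau φ (Matrix.of fun k i => b (Fin.cast hfd.symm i) k) * J *
      (Matrix.of fun k i => b (Fin.cast hfd.symm i) k)) i j =
      f (b (Fin.cast hfd.symm i)) (b (Fin.cast hfd.symm j)) := by
    simp only [f, Matrix.mul_apply, utau_apply, Matrix.of_apply, Matrix.mulVec, dotProduct,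
      Finset.sum_mul, Finset.mul_sum]
    rw [Finset.sum_comm]
    refine Finset.sum_congr rfl (fun k _ => Finset.sum_congr rfl (fun l _ => by ring))
  rw [h2, h1, Matrix.one_apply]
  simp only [Fin.cast_inj]

end more


/-! ### an explicit regular nilpotent skew matrix -/

section explicit
variable {K : Type*} [Field K] {n : ℕ}

local notation "EE" => Matrix (Fin n) (Fin n) K

/-- the shift matrix -/
def shX (n : ℕ) (K : Type*) [Field K] : Matrix (Fin n) (Fin n) K :=
  Matrix.of fun i j => if (j : ℕ) = (i : ℕ) + 1 then 1 else 0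

/-- the antidiagonal form -/
def antiJ (n : ℕ) {K : Type*} [Field K] (δ ε : K) : Matrix (Fin n) (Fin n) K :=
  Matrix.of fun i j => if (i : ℕ) + (j : ℕ) + 1 = n then δ ^ (i : ℕ) * ε ^ (j : ℕ) else 0

theorem shX_apply (i j : Fin n) :
    shX n K i j = if (j : ℕ) = (i : ℕ) + 1 then 1 else 0 := rfl

theorem antiJ_apply (δ ε : K) (i j : Fin n) :
    antiJ n δ ε i j = if (i : ℕ) + (j : ℕ) + 1 = n then δ ^ (i : ℕ) * ε ^ (j : ℕ) else 0 := rfl

theorem utau_shX (φ : K →+* K) : utau φ (shX n K) = (shX n K)ᵀ := by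
  ext i j
  rw [utau_apply, Matrix.transpose_apply, shX_apply]
  split_ifs <;> simp

theorem utau_antiJ (φ : K →+* K) (hφ : ∀ x, φ (φ x) = x) (δ : K) :
    utau φ (antiJ n δ (φ δ)) = antiJ n δ (φ δ) := by
  ext i j
  rw [utau_apply, antiJ_apply, antiJ_apply]
  by_cases h : (i : ℕ) + (j : ℕ) + 1 = n
  · rw [if_pos h, if_pos (by omega), map_mul, map_pow, map_pow, hφ, mul_comm]
  · rw [if_neg h, if_neg (by omega), map_zero]

theorem shX_pow : shX n K ^ n = 0 := by
  ext i j
  by_contra hne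
  have h := Cfsg.Agent.S2591.graded_pow (shX n K) (fun i : Fin n => n - (i : ℕ)) (by
    intro a b hab
    rw [shX_apply] at hab
    have h1 : (b : ℕ) = (a : ℕ) + 1 := by
      by_contra h2
      rw [if_neg h2] at hab
      exact hab rfl
    have := b.2
    show n - (a : ℕ) = n - (b : ℕ) + 1
    omega) n i j hne
  have hi := i.2
  have hj := j.2
  have h' : n - (i : ℕ) = n - (j : ℕ) + n := h
  omega

theorem shX_skew (δ : K) :
    (shX n K)ᵀ * antiJ n δ (-δ) = -(antiJ n δ (-δ) * shX n K) := by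
  ext i j
  rw [Matrix.neg_apply, Matrix.mul_apply, Matrix.mul_apply]
  simp only [Matrix.transpose_apply, shX_apply, antiJ_apply]
  have hi := i.2
  have hj := j.2
  by_cases hij : (i : ℕ) + (j : ℕ) = n
  · rw [Finset.sum_eq_single (⟨(i : ℕ) - 1, by omega⟩ : Fin n),
      Finset.sum_eq_single (⟨(j : ℕ) - 1, by omega⟩ : Fin n)]
    · rw [if_pos (by show (i : ℕ) = (i : ℕ) - 1 + 1; omega),
        if_pos (by show (i : ℕ) - 1 + (j : ℕ) + 1 = n; omega),
        if_pos (by show (i : ℕ) + ((j : ℕ) - 1) + 1 = n; omega),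
        if_pos (by show (j : ℕ) = (j : ℕ) - 1 + 1; omega)]
      show 1 * (δ ^ ((i : ℕ) - 1) * (-δ) ^ (j : ℕ)) = -(δ ^ (i : ℕ) * (-δ) ^ ((j : ℕ) - 1) * 1)
      obtain ⟨a, ha⟩ : ∃ a, (i : ℕ) = a + 1 := ⟨(i : ℕ) - 1, by omega⟩
      obtain ⟨b, hb⟩ : ∃ b, (j : ℕ) = b + 1 := ⟨(j : ℕ) - 1, by omega⟩
      rw [ha, hb, Nat.add_sub_cancel, Nat.add_sub_cancel]
      ring
    · intro k _ hk
      rw [if_neg (by
        intro h
        exact hk (Fin.ext (by show (k : ℕ) = (j : ℕ) - 1; omega))), zero_mul]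
    · intro h; exact absurd (Finset.mem_univ _) h
    · intro k _ hk
      rw [if_neg (by
        intro h
        exact hk (Fin.ext (by show (k : ℕ) = (i : ℕ) - 1; omega))), zero_mul]
    · intro h; exact absurd (Finset.mem_univ _) h
  · rw [Finset.sum_eq_zero, Finset.sum_eq_zero, neg_zero]
    · intro k _
      split_ifs with h1 h2 <;> first | (exfalso; omega) | simp
    · intro k _
      split_ifs with h1 h2 <;> first | (exfalso; omega) | simp

theorem antiJ_unit (δ ε : K) (hδ : δ ≠ 0) (hε : ε ≠ 0) : IsUnit (antiJ n δ ε) := by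
  have h1 : antiJ n δ ε * (Matrix.of fun j k : Fin n =>
      if (j : ℕ) + (k : ℕ) + 1 = n then (δ ^ (k : ℕ) * ε ^ (j : ℕ))⁻¹ else 0) = 1 := by
    ext i k
    rw [Matrix.mul_apply, Matrix.one_apply]
    simp only [antiJ_apply, Matrix.of_apply]
    have hi := i.2
    by_cases hik : i = k
    · subst hik
      rw [if_pos rfl, Finset.sum_eq_single (⟨n - 1 - (i : ℕ), by omega⟩ : Fin n)]
      · rw [if_pos (by show (i : ℕ) + (n - 1 - (i : ℕ)) + 1 = n; omega),
          if_pos (by show (n - 1 - (i : ℕ)) + (i : ℕ) + 1 = n; omega)]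
        exact mul_inv_cancel₀ (mul_ne_zero (pow_ne_zero _ hδ) (pow_ne_zero _ hε))
      · intro j _ hj
        rw [if_neg (by
          intro h
          exact hj (Fin.ext (by show (j : ℕ) = n - 1 - (i : ℕ); omega))), zero_mul]
      · intro h; exact absurd (Finset.mem_univ _) h
    · rw [if_neg hik]
      apply Finset.sum_eq_zero
      intro j _
      split_ifs with h1 h2
      · exact absurd (Fin.ext (by omega)) hik
      all_goals simp
  have h2 := mul_eq_one_comm.mp h1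
  exact ⟨⟨_, _, h1, h2⟩, rfl⟩

theorem card_ne_aux (a : Fin n) (w : Fin n → K) (hw : ∀ j, w j ≠ 0 ↔ ¬ (j = a)) :
    Nat.card {j // w j ≠ 0} = n - 1 := by
  classical
  rw [Nat.card_congr (Equiv.subtypeEquivRight hw), Nat.card_eq_fintype_card,
    Fintype.card_subtype_compl, Fintype.card_subtype_eq, Fintype.card_fin]

theorem shX_rank (hn : 1 ≤ n) : (shX n K).rank = n - 1 := by
  classical
  apply le_antisymm
  · have h1 : shX n K = shX n K *
        Matrix.diagonal (fun j : Fin n => if (j : ℕ) = 0 then (0 : K) else 1) := by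
      ext i j
      rw [Matrix.mul_diagonal, shX_apply]
      by_cases h : (j : ℕ) = (i : ℕ) + 1
      · rw [if_pos h, if_neg (by omega), mul_one]
      · rw [if_neg h, zero_mul]
    rw [h1]
    refine (Matrix.rank_mul_le_right _ _).trans ?_
    rw [Matrix.rank_diagonal, ← Nat.card_eq_fintype_card]
    refine le_of_eq (card_ne_aux (⟨0, hn⟩ : Fin n) _ (fun j => ?_))
    by_cases h : (j : ℕ) = 0
    · have hj : j = ⟨0, hn⟩ := Fin.ext h
      simp [hj]
    · have hj : ¬ (j = ⟨0, hn⟩) := fun h' => h (congrArg Fin.val h')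
      simp [h, hj]
  · have h1 : shX n K * (shX n K)ᵀ =
        Matrix.diagonal (fun i : Fin n => if (i : ℕ) + 1 = n then (0 : K) else 1) := by
      ext i k
      rw [Matrix.mul_apply, Matrix.diagonal_apply]
      simp only [Matrix.transpose_apply, shX_apply]
      by_cases hi : (i : ℕ) + 1 = n
      · rw [Finset.sum_eq_zero]
        · rw [if_pos hi, ite_self]
        · intro j _
          rw [if_neg (by have := j.2; omega), zero_mul]
      · have hi' := i.2
        rw [Finset.sum_eq_single (⟨(i : ℕ) + 1, by omega⟩ : Fin n)]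
        · rw [if_pos (show ((⟨(i : ℕ) + 1, by omega⟩ : Fin n) : ℕ) = (i : ℕ) + 1 from rfl),
            one_mul, if_neg hi]
          by_cases hik : i = k
          · subst hik
            rw [if_pos rfl, if_pos rfl]
          · rw [if_neg hik, if_neg (by
              intro h
              exact hik (Fin.ext (by
                have h' : (i : ℕ) + 1 = (k : ℕ) + 1 := h
                omega)))]
        · intro j _ hj
          rw [if_neg (by
            intro h
            exact hj (Fin.ext h)), zero_mul]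
        · intro h; exact absurd (Finset.mem_univ _) h
    have h2 := Matrix.rank_mul_le_left (shX n K) (shX n K)ᵀ
    rw [h1, Matrix.rank_diagonal, ← Nat.card_eq_fintype_card] at h2
    refine le_trans (le_of_eq (card_ne_aux (⟨n - 1, by omega⟩ : Fin n) _ (fun j => ?_)).symm) h2
    have hj' := j.2
    by_cases h : (j : ℕ) + 1 = n
    · have hj : j = ⟨n - 1, by omega⟩ := Fin.ext (by show (j : ℕ) = n - 1; omega)
      simp [hj]
      omega
    · have hj : ¬ (j = ⟨n - 1, by omega⟩) := fun h' => h (by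
        have := congrArg Fin.val h'
        have h'' : (j : ℕ) = n - 1 := this
        omega)
      simp [h, hj]

theorem exists_URU [Finite K] (φ : K →+* K) (hφ : ∀ x, φ (φ x) = x) (hφne : φ ≠ RingHom.id K)
    (θ : K) (hθ : θ + φ θ = 1) (δ : K) (hδ0 : δ ≠ 0) (hδ : φ δ = -δ) (hn : 1 ≤ n) :
    ∃ M : EE, URU φ M ∧ M.det = 1 := by
  have hskew : utau φ (shX n K) * antiJ n δ (φ δ) = -(antiJ n δ (φ δ) * shX n K) := by
    rw [utau_shX, hδ]
    exact shX_skew δ
  obtain ⟨T, W, hT, hT1, hWX, hWu, hTdet⟩ :=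
    cayley φ hφ θ hθ (antiJ n δ (φ δ)) (shX n K) hskew shX_pow
  have hJu : IsUnit (antiJ n δ (φ δ)) :=
    antiJ_unit δ (φ δ) hδ0 (by rw [hδ]; exact neg_ne_zero.mpr hδ0)
  obtain ⟨Q, hQ⟩ := transport φ hφ hφne (antiJ n δ (φ δ)) (utau_antiJ φ hφ δ) hJu
  obtain ⟨J, hJdef⟩ : ∃ J : EE, J = antiJ n δ (φ δ) := ⟨_, rfl⟩
  rw [← hJdef] at hT hQ
  have htJ : utau φ J = J := by rw [hJdef]; exact utau_antiJ φ hφ δ
  obtain ⟨Q', hQ'⟩ : ∃ Q' : EE, Q' = utau φ Q * J := ⟨_, rfl⟩
  have hQ'Q : Q' * Q = 1 := by rw [hQ']; exact hQ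
  have hQQ' : Q * Q' = 1 := mul_eq_one_comm.mp hQ'Q
  have htQ' : utau φ Q' * Q' = J := by
    rw [hQ', utau_mul, utau_utau φ hφ, htJ]
    calc J * Q * (utau φ Q * J) = J * (Q * (utau φ Q * J)) := by noncomm_ring
      _ = J := by rw [← hQ', hQQ', mul_one]
  refine ⟨Q' * T * Q, ⟨?_, ?_, ?_⟩, ?_⟩
  · rw [utau_mul, utau_mul]
    calc utau φ Q * (utau φ T * utau φ Q') * (Q' * T * Q)
        = utau φ Q * utau φ T * (utau φ Q' * Q') * T * Q := by noncomm_ring
      _ = utau φ Q * (utau φ T * J * T) * Q := by rw [htQ']; noncomm_ring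
      _ = 1 := by rw [hT, hQ]
  · rw [conj_sub_one Q' Q T hQ'Q, conj_pow Q' Q (T - 1) hQ'Q hQQ', hT1,
      (show Commute (shX n K) W from hWX.symm).mul_pow, shX_pow, zero_mul, mul_zero, zero_mul]
  · rw [conj_sub_one Q' Q T hQ'Q, conj_rank Q' Q (T - 1) hQ'Q, hT1,
      Matrix.rank_mul_eq_left_of_isUnit_det W (shX n K) hWu, shX_rank hn]
  · rw [conj_det Q' Q T hQ'Q, hTdet]

end explicit


/-! ### the count -/

theorem count_aux {G X : Type*} [Group G] (H : Subgroup G) (f : G → X)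
    (hs : Function.Surjective f) (hf : ∀ a b, f a = f b ↔ a⁻¹ * b ∈ H) :
    Nat.card X = H.index := by
  let F : G ⧸ H → X := Quotient.lift f
    (fun a b h => (hf a b).2 (QuotientGroup.leftRel_apply.1 h))
  have hinj : Function.Injective F := by
    intro x y
    refine Quotient.inductionOn₂ x y (fun a b h => ?_)
    exact Quotient.sound (QuotientGroup.leftRel_apply.2 ((hf a b).1 h))
  have hsurj : Function.Surjective F := by
    intro x
    obtain ⟨a, rfl⟩ := hs x
    exact ⟨Quotient.mk _ a, rfl⟩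
  exact (Nat.card_congr (Equiv.ofBijective F ⟨hinj, hsurj⟩)).symm

section final
variable {K : Type*} [Field K] [Fintype K] {q n : ℕ}

open Cfsg.Agent.Lib.Helper2.Unitary Cfsg.Agent.Lib.Helper2.HermCount

theorem frob_invol (hK : Fintype.card K = q ^ 2) (x : K) : frob hK (frob hK x) = x :=
  pow_q_pow_q hK x

theorem isU_iff (hK : Fintype.card K = q ^ 2) (M : Matrix (Fin n) (Fin n) K) :
    IsU n q M ↔ utau (frob hK) M * M = 1 := by
  have hid : (utau (frob hK) M * M).map (frob hK) = Mᵀ * M.map (frob hK) := by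
    ext i j
    simp only [Matrix.map_apply, Matrix.mul_apply, utau_apply, Matrix.transpose_apply, map_sum,
      map_mul, frob_invol hK]
  have hone : (1 : Matrix (Fin n) (Fin n) K).map (frob hK) = 1 :=
    Matrix.map_one _ (map_zero _) (map_one _)
  constructor
  · intro h
    have h1 := isU_transpose_mul hK h
    rw [← hid] at h1
    have h2 := congrArg (fun A : Matrix (Fin n) (Fin n) K => A.map (frob hK)) h1
    have h3 : ((utau (frob hK) M * M).map (frob hK)).map (frob hK) = utau (frob hK) M * M := by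
      ext i j
      simp only [Matrix.map_apply, frob_invol hK]
    have h4 : ((utau (frob hK) M * M).map (frob hK)).map (frob hK) =
        (1 : Matrix (Fin n) (Fin n) K).map (frob hK) := h2
    rw [h3, hone] at h4
    exact h4
  · intro h u v
    have h' : Mᵀ * M.map (frob hK) = 1 := by rw [← hid, h, hone]
    have key : (fun i => (M *ᵥ v) i ^ q) = M.map (frob hK) *ᵥ (fun j => v j ^ q) := by
      funext i
      exact RingHom.map_mulVec (frob hK) M v i
    show ∑ i, (M *ᵥ u) i * (M *ᵥ v) i ^ q = ∑ i, u i * v i ^ q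
    have e1 : ∑ i, (M *ᵥ u) i * (M *ᵥ v) i ^ q =
        (M *ᵥ u) ⬝ᵥ (M.map (frob hK) *ᵥ (fun j => v j ^ q)) := by
      rw [← key]; rfl
    rw [e1, ← Matrix.vecMul_transpose M u, ← Matrix.dotProduct_mulVec, Matrix.mulVec_mulVec, h',
      Matrix.one_mulVec]
    rfl

theorem isU_iff' (hK : Fintype.card K = q ^ 2) (φ : K →+* K) (hφdef : φ = frob hK)
    (M : Matrix (Fin n) (Fin n) K) : IsU n q M ↔ utau φ M * M = 1 := by
  subst hφdef
  exact isU_iff hK M

/-- an element of `SU` from a matrix -/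
def mkSU (hK : Fintype.card K = q ^ 2) (φ : K →+* K) (hφdef : φ = frob hK)
    (M : Matrix (Fin n) (Fin n) K) (hdet : M.det = 1) (hu : utau φ M * M = 1) :
    ↥(Cfsg.SU n K q) :=
  ⟨⟨M, hdet⟩, (mem_SU_iff n q _).2 ((isU_iff' hK φ hφdef M).2 hu)⟩

theorem isConj_iff_mat (hK : Fintype.card K = q ^ 2) (φ : K →+* K) (hφdef : φ = frob hK)
    (x y : ↥(Cfsg.SU n K q)) :
    IsConj x y ↔ ∃ s : Matrix (Fin n) (Fin n) K, s.det = 1 ∧ utau φ s * s = 1 ∧
      s * x.1.1 = y.1.1 * s := by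
  rw [isConj_iff]
  constructor
  · rintro ⟨c, hc⟩
    refine ⟨c.1.1, c.1.2, (isU_iff' hK φ hφdef _).1 ((mem_SU_iff n q c.1).1 c.2), ?_⟩
    have h1 : c * x = y * c := by rw [← hc]; group
    exact congrArg (fun z : ↥(Cfsg.SU n K q) => z.1.1) h1
  · rintro ⟨s, hdet, hu, hs⟩
    refine ⟨mkSU hK φ hφdef s hdet hu, ?_⟩
    rw [mul_inv_eq_iff_eq_mul]
    apply Subtype.ext
    apply Subtype.ext
    exact hs

/-- the diagonal matrix `diag(a, 1, ..., 1)` -/
def Da (n : ℕ) {K : Type*} [Field K] (a : K) : Matrix (Fin n) (Fin n) K :=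
  Matrix.diagonal (fun i => if (i : ℕ) = 0 then a else 1)

omit [Fintype K] in
theorem Da_det (hn : 1 ≤ n) (a : K) : (Da n a).det = a := by
  unfold Da
  rw [Matrix.det_diagonal, Finset.prod_eq_single (⟨0, hn⟩ : Fin n)]
  · rw [if_pos rfl]
  · intro j _ hj
    rw [if_neg (fun h => hj (Fin.ext h))]
  · intro h; exact absurd (Finset.mem_univ _) h

theorem main (hK : Fintype.card K = q ^ 2) (hn : 2 ≤ n) : Nat.card {C : ConjClasses ↥(Cfsg.SU n K q) // ∃ u : ↥(Cfsg.SU n K q), ConjClasses.mk u = C ∧ (((u : GL (Fin n) K) : Matrix (Fin n) (Fin n) K) - 1) ^ n = 0 ∧ (((u : GL (Fin n) K) : Matrix (Fin n) (Fin n) K) - 1).rank = n - 1} = Nat.gcd n (q + 1) := by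
  classical
  have hn1 : 1 ≤ n := by omega
  have hq2 := two_le_q hK
  obtain ⟨φ, hφdef⟩ : ∃ φ : K →+* K, φ = frob hK := ⟨_, rfl⟩
  have hφa : ∀ x, φ x = x ^ q := fun x => by rw [hφdef]; rfl
  have hφ : ∀ x, φ (φ x) = x := fun x => by rw [hφdef]; exact frob_invol hK x
  obtain ⟨c0, hc0n, hc0s⟩ := exists_norm_one_sq_ne hK
  have hc0n' : c0 * φ c0 = 1 := by rw [hφa]; exact hc0n
  have hc01 : (1 : K) - c0 ≠ 0 := by
    intro h
    apply hc0s
    have : c0 = 1 := by linear_combination -h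
    rw [this, mul_one]
  have hc02 : (1 : K) - φ c0 ≠ 0 := by
    intro h
    apply hc0s
    have h1 : φ c0 = 1 := by linear_combination -h
    rw [h1, mul_one] at hc0n'
    rw [hc0n', mul_one]
  have hφne : φ ≠ RingHom.id K := by
    intro h
    apply hc0s
    have h1 : φ c0 = c0 := by rw [h]; rfl
    rw [h1] at hc0n'
    exact hc0n'
  obtain ⟨θ, hθdef⟩ : ∃ θ : K, θ = (1 - c0)⁻¹ := ⟨_, rfl⟩
  have hφθ : φ θ = (1 - φ c0)⁻¹ := by rw [hθdef, map_inv₀, map_sub, map_one]
  have hθ : θ + φ θ = 1 := by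
    rw [hφθ, hθdef, inv_add_inv hc01 hc02, div_eq_one_iff_eq (mul_ne_zero hc01 hc02)]
    linear_combination -hc0n'
  obtain ⟨δ, hδdef⟩ : ∃ δ : K, δ = θ - φ θ := ⟨_, rfl⟩
  have hδ : φ δ = -δ := by rw [hδdef, map_sub, hφ]; ring
  have hδ0 : δ ≠ 0 := by
    intro h
    rw [hδdef, hφθ, hθdef, sub_eq_zero, inv_inj] at h
    apply hc0s
    have h1 : φ c0 = c0 := by linear_combination h
    rw [h1] at hc0n'
    exact hc0n'
  have Hnorm : ∀ c : K, c ≠ 0 → φ c = c → ∃ d : K, φ d * d = c := by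
    intro c hc hcc
    have h1 := Cfsg.Agent.S0754.result hK c hc (by rw [← hφa]; exact hcc)
    have h2 : Nonempty {x : K // x ^ (q + 1) = c} := by
      by_contra hne
      rw [not_nonempty_iff] at hne
      rw [Nat.card_of_isEmpty] at h1
      omega
    obtain ⟨x, hx⟩ := h2
    exact ⟨x, by rw [hφa, ← pow_succ]; exact hx⟩
  obtain ⟨M₁, hM₁, hdet₁⟩ := exists_URU φ hφ hφne θ hθ δ hδ0 hδ hn1
  obtain ⟨μ, hμdef⟩ : ∃ μ : Subgroup Kˣ, μ = (powMonoidHom (q + 1) : Kˣ →* Kˣ).ker := ⟨_, rfl⟩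
  have hμmem : ∀ a : Kˣ, a ∈ μ ↔ φ (a : K) * (a : K) = 1 := by
    intro a
    rw [hμdef, MonoidHom.mem_ker, powMonoidHom_apply, hφa, ← pow_succ, Units.ext_iff,
      Units.val_pow_eq_pow_val, Units.val_one]
  have hμcard : Nat.card μ = q + 1 := by
    rw [hμdef, IsCyclic.card_powMonoidHom_ker, Nat.card_eq_fintype_card, Fintype.card_units, hK]
    have hfac : q ^ 2 - 1 = (q - 1) * (q + 1) := by
      obtain ⟨k, rfl⟩ : ∃ k, q = k + 2 := ⟨q - 2, by omega⟩
      have : (k + 2) ^ 2 = (k + 1) * (k + 3) + 1 := by ring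
      rw [this]
      simp
    rw [hfac]
    exact Nat.gcd_eq_right (Dvd.intro_left _ rfl)
  have hDu : ∀ a : K, φ a * a = 1 → utau φ (Da n a) * Da n a = 1 := by
    intro a ha
    refine (isU_iff' hK φ hφdef _).1 (isU_diagonal n q _ (fun i => ?_))
    show (if (i : ℕ) = 0 then a else 1) * (if (i : ℕ) = 0 then a else 1) ^ q = 1
    split_ifs
    · rw [mul_comm, ← hφa]; exact ha
    · simp
  have hMa : ∀ a : K, φ a * a = 1 → URU φ (Da n a * M₁ * utau φ (Da n a)) ∧
      (Da n a * M₁ * utau φ (Da n a)).det = 1 := by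
    intro a ha
    have h := URU_of_conj φ hφ M₁ (Da n a) hM₁ (hDu a ha)
    exact ⟨h.1, by rw [h.2, hdet₁]⟩
  let f : ↥μ → {C : ConjClasses ↥(Cfsg.SU n K q) // ∃ u : ↥(Cfsg.SU n K q), ConjClasses.mk u = C ∧ (((u : GL (Fin n) K) : Matrix (Fin n) (Fin n) K) - 1) ^ n = 0 ∧ (((u : GL (Fin n) K) : Matrix (Fin n) (Fin n) K) - 1).rank = n - 1} :=
    fun a => ⟨ConjClasses.mk (mkSU hK φ hφdef (Da n (a.1 : K) * M₁ * utau φ (Da n (a.1 : K)))
        (hMa _ ((hμmem a.1).1 a.2)).2 (hMa _ ((hμmem a.1).1 a.2)).1.1),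
      ⟨_, rfl, (hMa _ ((hμmem a.1).1 a.2)).1.2.1, (hMa _ ((hμmem a.1).1 a.2)).1.2.2⟩⟩
  have hs : Function.Surjective f := by
    rintro ⟨C, u, rfl, hnil, hrank⟩
    have hu : URU φ u.1.1 :=
      ⟨(isU_iff' hK φ hφdef _).1 ((mem_SU_iff n q u.1).1 u.2), hnil, hrank⟩
    obtain ⟨k, hk1, hk2⟩ := URU_conj φ hφ θ hθ Hnorm hn1 M₁ u.1.1 hM₁ hu
    have hkd : φ k.det * k.det = 1 := by
      rw [← utau_det, ← Matrix.det_mul, hk1, Matrix.det_one]
    have hk0 : k.det ≠ 0 := by
      intro h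
      rw [h, mul_zero] at hkd
      exact zero_ne_one hkd
    have hamem : Units.mk0 k.det hk0 ∈ μ := (hμmem _).2 (by rw [Units.val_mk0]; exact hkd)
    refine ⟨⟨Units.mk0 k.det hk0, hamem⟩, ?_⟩
    apply Subtype.ext
    show ConjClasses.mk (mkSU hK φ hφdef (Da n k.det * M₁ * utau φ (Da n k.det)) _ _) =
      ConjClasses.mk u
    rw [ConjClasses.mk_eq_mk_iff_isConj, isConj_iff_mat hK φ hφdef]
    have hk3 : u.1.1 = k * M₁ * utau φ k := by
      have hk' : k * utau φ k = 1 := mul_eq_one_comm.mp hk1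
      calc u.1.1 = u.1.1 * (k * utau φ k) := by rw [hk', mul_one]
        _ = (u.1.1 * k) * utau φ k := by rw [mul_assoc]
        _ = k * M₁ * utau φ k := by rw [← hk2]
    obtain ⟨s, hs1, hs2, hs3⟩ := (conj_iff φ hφ hn1 M₁ hM₁ (Da n k.det) k (hDu _ hkd) hk1).2
      ⟨1, by rw [map_one, mul_one], by rw [one_pow, one_mul, Da_det hn1]⟩
    refine ⟨s, hs1, hs2, ?_⟩
    show s * (Da n k.det * M₁ * utau φ (Da n k.det)) = u.1.1 * s
    rw [hk3]; exact hs3
  have hf : ∀ a b : ↥μ, f a = f b ↔ a⁻¹ * b ∈ (powMonoidHom n : ↥μ →* ↥μ).range := by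
    intro a b
    have ha := (hμmem a.1).1 a.2
    have hb := (hμmem b.1).1 b.2
    have ha0 : ((a.1 : Kˣ) : K) ≠ 0 := a.1.ne_zero
    have key : ∀ c : ↥μ, (powMonoidHom n c = a⁻¹ * b) ↔
        ((c.1 : Kˣ) : K) ^ n = ((a.1 : Kˣ) : K)⁻¹ * ((b.1 : Kˣ) : K) := by
      intro c
      rw [Subtype.ext_iff, Units.ext_iff]
      simp only [powMonoidHom_apply, Subgroup.coe_pow, Subgroup.coe_mul, Subgroup.coe_inv,
        Units.val_pow_eq_pow_val, Units.val_mul, Units.val_inv_eq_inv_val]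
    rw [Subtype.ext_iff]
    show ConjClasses.mk (mkSU hK φ hφdef (Da n (a.1 : K) * M₁ * utau φ (Da n (a.1 : K))) _ _) =
      ConjClasses.mk (mkSU hK φ hφdef (Da n (b.1 : K) * M₁ * utau φ (Da n (b.1 : K))) _ _) ↔ _
    rw [ConjClasses.mk_eq_mk_iff_isConj, isConj_iff_mat hK φ hφdef]
    show (∃ s : Matrix (Fin n) (Fin n) K, s.det = 1 ∧ utau φ s * s = 1 ∧
      s * (Da n (a.1 : K) * M₁ * utau φ (Da n (a.1 : K))) =
        (Da n (b.1 : K) * M₁ * utau φ (Da n (b.1 : K))) * s) ↔ _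
    rw [conj_iff φ hφ hn1 M₁ hM₁ (Da n (a.1 : K)) (Da n (b.1 : K)) (hDu _ ha) (hDu _ hb),
      Da_det hn1, Da_det hn1]
    constructor
    · rintro ⟨c, hc1, hc2⟩
      have hc0 : c ≠ 0 := by
        rintro rfl
        rw [mul_zero] at hc1
        exact zero_ne_one hc1
      refine MonoidHom.mem_range.2 ⟨⟨Units.mk0 c hc0,
        (hμmem _).2 (by rw [Units.val_mk0]; exact hc1)⟩, ?_⟩
      rw [key]
      show c ^ n = _
      rw [hc2]
      field_simp
    · intro hc
      obtain ⟨c, hc⟩ := MonoidHom.mem_range.1 hc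
      refine ⟨(c.1 : K), (hμmem c.1).1 c.2, ?_⟩
      rw [(key c).1 hc]
      field_simp
  refine (count_aux _ f hs hf).trans ?_
  rw [IsCyclic.index_powMonoidHom_range, hμcard, Nat.gcd_comm]

end final

end helpers


/-- Regular unipotent classes of SU_n(q), n ≥ 2: the elements u of the special unitary group (isometries of Σ u_i v_i^q of determinant one over the field with q² elements) with (u − 1)^n = 0 and rank(u − 1) = n − 1 form exactly gcd(n, q + 1) conjugacy classes of SU_n(q). -/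
theorem result {K : Type*} [Field K] [Fintype K] {q n : ℕ} (hK : Fintype.card K = q ^ 2) (hn : 2 ≤ n) : Nat.card {C : ConjClasses ↥(Cfsg.SU n K q) // ∃ u : ↥(Cfsg.SU n K q), ConjClasses.mk u = C ∧ (((u : GL (Fin n) K) : Matrix (Fin n) (Fin n) K) - 1) ^ n = 0 ∧ (((u : GL (Fin n) K) : Matrix (Fin n) (Fin n) K) - 1).rank = n - 1} = Nat.gcd n (q + 1) := by
  exact main hK hn

end Cfsg.Agent.S2643
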