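import Cfsg.Statements.S2665
import Mathlib

set_option autoImplicit false

open Cfsg

namespace Cfsg.Agent.S2665

open Polynomial

variable {K : Type*} [Field K] [IsAlgClosed K] (p : ℕ) [Fact p.Prime] [CharP K p] (f : ℕ)

/-- the auxiliary polynomials -/
noncomputable def pol (q : ℕ) (a : ℕ → K) : ℕ → K[X]
  | 0 => C (a 0) * X ^ q
  | (i + 1) => (pol q a i) ^ q + C (a (i + 1)) * X ^ q

theorem pol_derivative (hf : 1 ≤ f) (a : ℕ → K) (i : ℕ) :
    derivative (pol (p ^ f) a i) = 0 := by
  have hq : ((p ^ f : ℕ) : K) = 0 := by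
    rw [Nat.cast_pow, CharP.cast_eq_zero K p, zero_pow (by omega)]
  induction i with
  | zero =>
    simp only [pol]
    rw [derivative_C_mul_X_pow, hq, mul_zero, C_0, zero_mul]
  | succ i ih =>
    simp only [pol]
    rw [derivative_add, derivative_pow, ih, mul_zero, derivative_C_mul_X_pow, hq, mul_zero, C_0,
      zero_mul, add_zero]

theorem pol_eval_zero (q : ℕ) (hq : 1 ≤ q) (a : ℕ → K) (i : ℕ) :
    (pol q a i).eval 0 = 0 := by
  induction i with
  | zero => simp [pol, zero_pow (by omega : q ≠ 0)]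
  | succ i ih => simp [pol, ih, zero_pow (by omega : q ≠ 0)]

theorem pol_eq_zero (q : ℕ) (hq : 1 ≤ q) (a : ℕ → K) (i : ℕ) (h : ∀ k ≤ i, a k = 0) :
    pol q a i = 0 := by
  induction i with
  | zero => simp [pol, h 0 le_rfl]
  | succ i ih =>
    simp [pol, ih (fun k hk => h k (by omega)), h (i + 1) le_rfl, zero_pow (by omega : q ≠ 0)]

theorem pol_natDegree (q : ℕ) (hq : 2 ≤ q) (a : ℕ → K) (i : ℕ) (h : ∃ k ≤ i, a k ≠ 0) :
    q ≤ (pol q a i).natDegree := by
  induction i with
  | zero =>
    obtain ⟨k, hk, hak⟩ := h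
    have : k = 0 := by omega
    subst this
    simp only [pol]
    rw [natDegree_C_mul_X_pow q (a 0) hak]
  | succ i ih =>
    simp only [pol]
    by_cases h' : ∃ k ≤ i, a k ≠ 0
    · have h1 := ih h'
      have h2 : ((pol q a i) ^ q).natDegree = q * (pol q a i).natDegree := natDegree_pow _ _
      have h3 : (C (a (i + 1)) * X ^ q : K[X]).natDegree ≤ q := natDegree_C_mul_X_pow_le _ _
      have h4 : q < q * (pol q a i).natDegree := by nlinarith
      rw [natDegree_add_eq_left_of_natDegree_lt (by omega)]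
      omega
    · push Not at h'
      obtain ⟨k, hk, hak⟩ := h
      have hk' : k = i + 1 := by
        by_contra hne
        exact hak (h' k (by omega))
      subst hk'
      rw [pol_eq_zero q (by omega) a i h', zero_pow (by omega), zero_add,
        natDegree_C_mul_X_pow q _ hak]

/-- nonzero root of `P - X` -/
theorem exists_root_ne_zero (P : K[X]) (hd : derivative P = 0) (h0 : P.eval 0 = 0)
    (hdeg : 2 ≤ P.natDegree) : ∃ t : K, t ≠ 0 ∧ P.eval t = t := by
  have hF0 : (P - X).coeff 0 = 0 := by
    rw [coeff_zero_eq_eval_zero]; simp [h0]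
  obtain ⟨F₁, hF₁⟩ := X_dvd_iff.mpr hF0
  have hdegF : (P - X).natDegree = P.natDegree := by
    apply natDegree_sub_eq_left_of_natDegree_lt
    rw [natDegree_X]; omega
  have hFne : P - X ≠ 0 := by
    intro h
    rw [h, natDegree_zero] at hdegF
    omega
  have hF₁ne : F₁ ≠ 0 := by
    rintro rfl
    rw [mul_zero] at hF₁
    exact hFne hF₁
  have hdegF₁ : F₁.natDegree + 1 = P.natDegree := by
    rw [← hdegF, hF₁, natDegree_X_mul hF₁ne]
  have hdeg' : F₁.degree ≠ 0 := by
    intro h
    have := natDegree_eq_zero_iff_degree_le_zero.mpr h.le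
    omega
  obtain ⟨t, ht⟩ := IsAlgClosed.exists_root F₁ hdeg'
  refine ⟨t, ?_, ?_⟩
  · rintro rfl
    have h1 : derivative (P - X) = derivative (X * F₁) := by rw [hF₁]
    rw [derivative_sub, hd, derivative_X, derivative_mul, derivative_X, one_mul] at h1
    have h2 := congrArg (eval 0) h1
    simp only [eval_add, eval_mul, eval_X, zero_mul, add_zero, zero_sub, eval_neg, eval_one] at h2
    rw [IsRoot.def] at ht
    rw [ht] at h2
    exact one_ne_zero (neg_eq_zero.mp h2)
  · have h1 : (P - X).eval t = 0 := by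
      rw [hF₁, eval_mul, ht.eq_zero, mul_zero]
    rw [eval_sub, eval_X] at h1
    exact sub_eq_zero.mp h1

variable {V : Type*} [AddCommGroup V] [Module K V]

theorem mem_span_image_lt (u : ℕ → V) (j : ℕ) (x : V)
    (hx : x ∈ Submodule.span K (u '' {i | i < j})) :
    ∃ a : ℕ → K, x = ∑ i ∈ Finset.range j, a i • u i := by
  induction hx using Submodule.span_induction with
  | mem x hx =>
    obtain ⟨i, hi, rfl⟩ := hx
    refine ⟨fun k => if k = i then 1 else 0, ?_⟩
    simp only [ite_smul, one_smul, zero_smul]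
    rw [Finset.sum_ite_eq' (Finset.range j) i]
    simp [show i < j from hi]
  | zero => exact ⟨0, by simp⟩
  | add x y _ _ hx hy =>
    obtain ⟨a, rfl⟩ := hx
    obtain ⟨b, rfl⟩ := hy
    exact ⟨a + b, by simp [add_smul, Finset.sum_add_distrib]⟩
  | smul c x _ hx =>
    obtain ⟨a, rfl⟩ := hx
    exact ⟨fun i => c * a i, by simp [mul_smul, Finset.smul_sum]⟩

theorem sum_mem_span_image_lt (u : ℕ → V) (j : ℕ) (a : ℕ → K) :
    ∑ i ∈ Finset.range j, a i • u i ∈ Submodule.span K (u '' {i | i < j}) := by
  apply Submodule.sum_mem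
  intro i hi
  apply Submodule.smul_mem
  apply Submodule.subset_span
  exact ⟨i, Finset.mem_range.mp hi, rfl⟩

/-- cyclic vector argument -/
theorem exists_fixed_mod [FiniteDimensional K V] (hf : 1 ≤ f)
    (φ : V →ₛₗ[iterateFrobenius K p f] V) (U : Submodule K V)
    (hU : ∀ x, φ x ∈ U → x ∈ U) (v : V) (hv : v ∉ U) :
    ∃ w, w ∉ U ∧ φ w - w ∈ U := by
  classical
  set q := p ^ f with hqdef
  have hp1 : 2 ≤ p := (Fact.out : p.Prime).two_le
  have hq2 : 2 ≤ q := by
    calc 2 ≤ p := hp1
      _ = p ^ 1 := (pow_one p).symm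
      _ ≤ p ^ f := Nat.pow_le_pow_right (by omega) hf
  have hsig : ∀ c : K, iterateFrobenius K p f c = c ^ q := fun c => rfl
  set u : ℕ → V := fun i => (⇑φ)^[i] v with hu
  have hu_succ : ∀ i, u (i + 1) = φ (u i) := by
    intro i
    simp only [hu]
    rw [Function.iterate_succ_apply']
  let S : ℕ →o Submodule K V :=
    { toFun := fun j => U ⊔ Submodule.span K (u '' {i | i < j})
      monotone' := by
        intro j j' hjj'
        apply sup_le_sup_left
        apply Submodule.span_mono
        apply Set.image_mono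
        intro i hi
        exact lt_of_lt_of_le hi hjj' }
  have hSdef : ∀ j, S j = U ⊔ Submodule.span K (u '' {i | i < j}) := fun j => rfl
  have hex : ∃ j, u j ∈ S j := by
    obtain ⟨n, hn⟩ := (monotone_stabilizes_iff_noetherian (R := K) (M := V)).mpr inferInstance S
    refine ⟨n, ?_⟩
    rw [hn (n + 1) (by omega), hSdef]
    apply Submodule.mem_sup_right
    apply Submodule.subset_span
    exact ⟨n, by simp, rfl⟩
  set j := Nat.find hex with hj
  have hjspec : u j ∈ S j := Nat.find_spec hex
  have hjmin : ∀ i < j, u i ∉ S i := fun i hi => Nat.find_min hex hi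
  have hj0 : j ≠ 0 := by
    intro h0
    rw [h0, hSdef] at hjspec
    simp at hjspec
    exact hv hjspec
  obtain ⟨m, hm⟩ := Nat.exists_eq_succ_of_ne_zero hj0
  rw [hm] at hjspec
  have hmmin : u m ∉ S m := hjmin m (by omega)
  rw [hSdef, Submodule.mem_sup] at hjspec
  obtain ⟨y, hy, z, hz, hyz⟩ := hjspec
  obtain ⟨a, ha⟩ := mem_span_image_lt u (m + 1) z hz
  -- not all a k vanish
  have hane : ∃ k ≤ m, a k ≠ 0 := by
    by_contra hcon
    push Not at hcon
    have hz0 : z = 0 := by
      rw [ha]
      apply Finset.sum_eq_zero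
      intro i hi
      rw [hcon i (by have := Finset.mem_range.mp hi; omega), zero_smul]
    rw [hz0, add_zero, Nat.succ_eq_add_one, hu_succ] at hyz
    have : u m ∈ U := hU _ (hyz ▸ hy)
    apply hmmin
    rw [hSdef]
    exact Submodule.mem_sup_left this
  have hdeg : 2 ≤ (pol q a m).natDegree := le_trans hq2 (pol_natDegree q hq2 a m hane)
  obtain ⟨t, ht0, ht⟩ := exists_root_ne_zero (pol q a m) (pol_derivative p f hf a m)
    (pol_eval_zero q (by omega) a m) hdeg
  set c : ℕ → K := fun i => (pol q a i).eval t with hc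
  have hc0 : c 0 = a 0 * t ^ q := by simp [hc, pol]
  have hcs : ∀ i, c (i + 1) = (c i) ^ q + a (i + 1) * t ^ q := by
    intro i; simp [hc, pol]
  have hcm : c m = t := ht
  refine ⟨∑ i ∈ Finset.range (m + 1), c i • u i, ?_, ?_⟩
  · intro hw
    apply hmmin
    rw [Finset.sum_range_succ, hcm] at hw
    have h1 : u m = t⁻¹ • ((∑ i ∈ Finset.range m, c i • u i + t • u m)) +
        (-t⁻¹) • (∑ i ∈ Finset.range m, c i • u i) := by
      rw [smul_add, smul_smul, inv_mul_cancel₀ ht0, one_smul, neg_smul]
      abel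
    rw [h1, hSdef]
    apply Submodule.add_mem
    · exact Submodule.mem_sup_left (U.smul_mem _ hw)
    · exact Submodule.mem_sup_right (Submodule.smul_mem _ _ (sum_mem_span_image_lt u m c))
  · have h1 : φ (∑ i ∈ Finset.range (m + 1), c i • u i) =
        ∑ i ∈ Finset.range (m + 1), (c i) ^ q • u (i + 1) := by
      rw [map_sum]
      apply Finset.sum_congr rfl
      intro i _
      rw [map_smulₛₗ, hsig, hu_succ]
    have h2 : φ (∑ i ∈ Finset.range (m + 1), c i • u i) -
        ∑ i ∈ Finset.range (m + 1), c i • u i = t ^ q • y := by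
      rw [h1, Finset.sum_range_succ, hcm, ← Nat.succ_eq_add_one m, ← hyz, ha,
        Finset.sum_range_succ' (fun i => a i • u i), Finset.sum_range_succ' (fun i => c i • u i)]
      simp only [hcs, hc0, add_smul, Finset.sum_add_distrib, smul_add, Finset.smul_sum, smul_smul]
      have e : ∀ i, (t ^ q * a (i + 1)) • u (i + 1) = (a (i + 1) * t ^ q) • u (i + 1) := by
        intro i; rw [mul_comm]
      simp only [e, mul_comm (t ^ q) (a 0)]
      abel
    rw [h2]
    exact U.smul_mem _ hy

/-- the fixed vectors span -/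
theorem span_fixed_eq_top [FiniteDimensional K V] (hf : 1 ≤ f)
    (φ : V →ₛₗ[iterateFrobenius K p f] V) (hinj : Function.Injective φ) :
    Submodule.span K {v : V | φ v = v} = ⊤ := by
  set q := p ^ f with hqdef
  have hp1 : 2 ≤ p := (Fact.out : p.Prime).two_le
  have hq2 : 2 ≤ q := by
    calc 2 ≤ p := hp1
      _ = p ^ 1 := (pow_one p).symm
      _ ≤ p ^ f := Nat.pow_le_pow_right (by omega) hf
  have hsig : ∀ c : K, iterateFrobenius K p f c = c ^ q := fun c => rfl
  set U := Submodule.span K {v : V | φ v = v} with hUdef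
  -- (i) surjectivity on U
  have hsurj : ∀ y ∈ U, ∃ x ∈ U, φ x = y := by
    intro y hy
    induction hy using Submodule.span_induction with
    | mem x hx => exact ⟨x, Submodule.subset_span hx, hx⟩
    | zero => exact ⟨0, U.zero_mem, map_zero φ⟩
    | add x y _ _ hx hy =>
      obtain ⟨x', hx', rfl⟩ := hx
      obtain ⟨y', hy', rfl⟩ := hy
      exact ⟨x' + y', U.add_mem hx' hy', map_add φ x' y'⟩
    | smul b x _ hx =>
      obtain ⟨x', hx', rfl⟩ := hx
      obtain ⟨a, ha⟩ := IsAlgClosed.exists_pow_nat_eq b (n := q) (by omega)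
      exact ⟨a • x', U.smul_mem _ hx', by rw [map_smulₛₗ, hsig, ha]⟩
  have hU : ∀ x, φ x ∈ U → x ∈ U := by
    intro x hx
    obtain ⟨x', hx', h⟩ := hsurj _ hx
    rw [← hinj h]; exact hx'
  -- (ii) Artin–Schreier on U
  have hAS : ∀ b : K, ∃ a : K, a ^ q - a = b := by
    intro b
    have hdeg : (X ^ q - X - C b : K[X]).natDegree = q := by
      rw [natDegree_sub_C]
      exact FiniteField.X_pow_card_sub_X_natDegree_eq K (by omega)
    have hdeg' : (X ^ q - X - C b : K[X]).degree ≠ 0 := by
      intro h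
      have := natDegree_eq_zero_iff_degree_le_zero.mpr h.le
      omega
    obtain ⟨a, ha⟩ := IsAlgClosed.exists_root _ hdeg'
    refine ⟨a, ?_⟩
    rw [IsRoot.def] at ha
    simp only [eval_sub, eval_pow, eval_X, eval_C] at ha
    exact sub_eq_zero.mp ha
  have hAS' : ∀ y ∈ U, ∀ b : K, ∃ x ∈ U, φ x - x = b • y := by
    intro y hy
    induction hy using Submodule.span_induction with
    | mem x hx =>
      intro b
      obtain ⟨a, ha⟩ := hAS b
      refine ⟨a • x, U.smul_mem _ (Submodule.subset_span hx), ?_⟩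
      have hx' : φ x = x := hx
      rw [map_smulₛₗ, hsig, hx', ← sub_smul, ha]
    | zero =>
      intro b
      exact ⟨0, U.zero_mem, by simp⟩
    | add x y _ _ hx hy =>
      intro b
      obtain ⟨x', hx', h1⟩ := hx b
      obtain ⟨y', hy', h2⟩ := hy b
      refine ⟨x' + y', U.add_mem hx' hy', ?_⟩
      rw [map_add, smul_add, ← h1, ← h2]; abel
    | smul c x _ hx =>
      intro b
      obtain ⟨x', hx', h1⟩ := hx (b * c)
      exact ⟨x', hx', by rw [h1, mul_smul]⟩
  by_contra hne
  obtain ⟨v, hv⟩ : ∃ v, v ∉ U := by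
    by_contra hcon
    push Not at hcon
    exact hne (eq_top_iff.mpr (fun x _ => hcon x))
  obtain ⟨w, hw, hw'⟩ := exists_fixed_mod p f hf φ U hU v hv
  obtain ⟨x, hx, hx'⟩ := hAS' _ hw' (-1)
  have hfix : φ (w + x) = w + x := by
    rw [map_add]
    have : φ x = x + (-1 : K) • (φ w - w) := by rw [← hx']; abel
    rw [this, neg_one_smul]; abel
  have : w + x ∈ U := Submodule.subset_span hfix
  apply hw
  have h3 : w = (w + x) - x := by abel
  rw [h3]
  exact U.sub_mem this hx

/-- the semilinear map attached to a matrix -/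
noncomputable def phi {n : ℕ} (σ : K →+* K) (M : Matrix (Fin n) (Fin n) K) :
    (Fin n → K) →ₛₗ[σ] (Fin n → K) where
  toFun v := M.mulVec (fun i => σ (v i))
  map_add' v w := by
    have : (fun i => σ ((v + w) i)) = (fun i => σ (v i)) + (fun i => σ (w i)) := by
      ext i; simp
    rw [this, Matrix.mulVec_add]
  map_smul' c v := by
    have : (fun i => σ ((c • v) i)) = σ c • (fun i => σ (v i)) := by
      ext i; simp
    rw [this, Matrix.mulVec_smul]

theorem phi_apply {n : ℕ} (σ : K →+* K) (M : Matrix (Fin n) (Fin n) K) (v : Fin n → K) :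
    phi σ M v = M.mulVec (fun i => σ (v i)) := rfl

/-- The Lang–Steinberg Theorem for the general linear group. Let `K` be an algebraically closed field of prime characteristic `p`, let `q = p^f` with `f ≥ 1`, and let `σ` be the endomorphism of GL_n(K) raising every matrix entry to the `q`-th power. Then every element `g` of GL_n(K) can be written `g = x · σ(x)⁻¹` for some `x` in GL_n(K): the map `x ↦ x σ(x)⁻¹` is surjective. -/
theorem result {K : Type*} [Field K] [IsAlgClosed K] (p : ℕ) [Fact p.Prime] [CharP K p]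
    (f : ℕ) (hf : 1 ≤ f) (n : ℕ) (g : GL (Fin n) K) :
    ∃ x : GL (Fin n) K, g = x * (Matrix.GeneralLinearGroup.map (iterateFrobenius K p f) x)⁻¹ := by
  classical
  set σ := iterateFrobenius K p f with hσ
  set φ := phi σ (g : Matrix (Fin n) (Fin n) K) with hφ
  have hinj : Function.Injective φ := by
    intro v w hvw
    have h1 : (g : Matrix (Fin n) (Fin n) K).mulVec (fun i => σ (v i)) =
        (g : Matrix (Fin n) (Fin n) K).mulVec (fun i => σ (w i)) := hvw
    have h2 := congrArg (fun z => ((g⁻¹ : GL (Fin n) K) : Matrix (Fin n) (Fin n) K).mulVec z) h1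
    simp only [Matrix.mulVec_mulVec] at h2
    have h3 : ((g⁻¹ : GL (Fin n) K) : Matrix (Fin n) (Fin n) K) *
        (g : Matrix (Fin n) (Fin n) K) = 1 := by
      rw [← Units.val_mul]; simp
    rw [h3, Matrix.one_mulVec, Matrix.one_mulVec] at h2
    ext i
    exact σ.injective (congrFun h2 i)
  have hspan := span_fixed_eq_top p f hf φ hinj
  obtain ⟨b, hbsub, hbspan, hbli⟩ := exists_linearIndependent K {v : Fin n → K | φ v = v}
  rw [hspan] at hbspan
  let B : Module.Basis b K (Fin n → K) :=
    Module.Basis.mk hbli (by rw [Subtype.range_coe]; exact hbspan.ge)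
  have hfin : Finite b := Module.Finite.finite_basis B
  have : Fintype b := Fintype.ofFinite b
  have hcard : Fintype.card b = n := by
    have h1 := Module.finrank_eq_card_basis B
    rw [Module.finrank_fin_fun] at h1
    exact h1.symm
  let e : Fin n ≃ b := (Fintype.equivFinOfCardEq hcard).symm
  let B' : Module.Basis (Fin n) K (Fin n → K) := B.reindex e.symm
  let x : Matrix (Fin n) (Fin n) K := (Pi.basisFun K (Fin n)).toMatrix B'
  let y : Matrix (Fin n) (Fin n) K := B'.toMatrix (Pi.basisFun K (Fin n))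
  have hxy : x * y = 1 := Module.Basis.toMatrix_mul_toMatrix_flip _ _
  have hyx : y * x = 1 := Module.Basis.toMatrix_mul_toMatrix_flip _ _
  let X : GL (Fin n) K := ⟨x, y, hxy, hyx⟩
  have hxentry : ∀ i j, x i j = ((e j : b) : Fin n → K) i := by
    intro i j
    simp [x, B', B, Module.Basis.toMatrix_apply]
  have hfix : ∀ j, φ ((e j : b) : Fin n → K) = ((e j : b) : Fin n → K) := fun j => hbsub (e j).2
  refine ⟨X, ?_⟩
  rw [eq_mul_inv_iff_mul_eq]
  apply Units.ext
  rw [Units.val_mul]
  have hmap : ((Matrix.GeneralLinearGroup.map σ X : GL (Fin n) K) : Matrix (Fin n) (Fin n) K) =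
      x.map σ := rfl
  rw [hmap]
  ext i j
  have h1 := congrFun (hfix j) i
  rw [hφ, phi_apply] at h1
  show ((g : Matrix (Fin n) (Fin n) K) * x.map σ) i j = x i j
  rw [hxentry, ← h1, Matrix.mul_apply]
  simp only [Matrix.mulVec, dotProduct, Matrix.map_apply, hxentry]

end Cfsg.Agent.S2665
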