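import Cfsg.Statements.S2666

set_option autoImplicit false
open Cfsg

namespace Cfsg.Agent.S2666

theorem fix_pow {X : Type*} [Group X] (σ : MulAut X) (h : X) (hh : σ h = h) (n : ℕ) :
    (σ ^ n) h = h := by
  induction n with
  | zero => simp
  | succ n ih => rw [pow_succ, MulAut.mul_apply, hh, ih]

theorem prod_formula {X : Type*} [Group X] (σ : MulAut X) (g a : X) (ha : g = a * (σ a)⁻¹) (d : ℕ) :
    ((List.range d).map (fun i => (σ ^ i) g)).prod = a * ((σ ^ d) a)⁻¹ := by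
  induction d with
  | zero => simp
  | succ d ih =>
    rw [List.range_succ, List.map_append, List.prod_append, ih]
    simp only [List.map_cons, List.map_nil, List.prod_cons, List.prod_nil, mul_one]
    rw [ha, map_mul, map_inv]
    have : (σ ^ d) (σ a) = (σ ^ (d + 1)) a := by
      rw [pow_succ, MulAut.mul_apply]
    rw [this]
    group

theorem pow_comm_apply {X : Type*} [Group X] (σ : MulAut X) (e : ℕ) (a : X) :
    (σ ^ e) (σ a) = σ ((σ ^ e) a) := by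
  rw [← MulAut.mul_apply, ← MulAut.mul_apply, ← pow_succ, ← pow_succ']

theorem x_fixed {X : Type*} [Group X] (σ : MulAut X) (e : ℕ) (g a : X)
    (hg : (σ ^ e) g = g) (ha : g = a * (σ a)⁻¹) :
    σ (((σ ^ e) a)⁻¹ * a) = ((σ ^ e) a)⁻¹ * a := by
  rw [ha, map_mul, map_inv] at hg
  rw [pow_comm_apply] at hg
  rw [map_mul, map_inv]
  have h1 : (σ ((σ ^ e) a))⁻¹ = ((σ ^ e) a)⁻¹ * (a * (σ a)⁻¹) := by
    rw [← hg]; group
  rw [h1]; group

/-- Shintani descent, in an abstract form. -/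
theorem result {X : Type*} [Group X] (σ : MulAut X) (e : ℕ) (he : 1 ≤ e)
    (hL : ∀ g : X, ∃ a : X, g = a * (σ a)⁻¹) (hLe : ∀ g : X, ∃ a : X, g = a * ((σ ^ e) a)⁻¹) :
    (∀ g ∈ (MulEquiv.toMonoidHom (σ ^ e)).eqLocus (MonoidHom.id X), ∀ a : X, g = a * (σ a)⁻¹ →
        ((σ ^ e) a)⁻¹ * a ∈ (MulEquiv.toMonoidHom σ).eqLocus (MonoidHom.id X) ∧
          a⁻¹ * ((List.range e).map (fun i => (σ ^ i) g)).prod * a = ((σ ^ e) a)⁻¹ * a) ∧
    (∀ g ∈ (MulEquiv.toMonoidHom (σ ^ e)).eqLocus (MonoidHom.id X), ∀ g' ∈ (MulEquiv.toMonoidHom (σ ^ e)).eqLocus (MonoidHom.id X), ∀ a b : X,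
        g = a * (σ a)⁻¹ → g' = b * (σ b)⁻¹ →
          ((∃ k ∈ (MulEquiv.toMonoidHom (σ ^ e)).eqLocus (MonoidHom.id X), g' = k * g * (σ k)⁻¹) ↔
            (∃ h ∈ (MulEquiv.toMonoidHom σ).eqLocus (MonoidHom.id X), ((σ ^ e) b)⁻¹ * b = h * (((σ ^ e) a)⁻¹ * a) * h⁻¹))) ∧
    (∀ x ∈ (MulEquiv.toMonoidHom σ).eqLocus (MonoidHom.id X), ∃ g ∈ (MulEquiv.toMonoidHom (σ ^ e)).eqLocus (MonoidHom.id X), ∃ a : X,
        g = a * (σ a)⁻¹ ∧ ((σ ^ e) a)⁻¹ * a = x) := by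
  refine ⟨?_, ?_, ?_⟩
  · intro g hg a ha
    have hg' : (σ ^ e) g = g := hg
    refine ⟨x_fixed σ e g a hg' ha, ?_⟩
    rw [prod_formula σ g a ha e]
    group
  · intro g hg g' hg' a b ha hb
    have hge : (σ ^ e) g = g := hg
    have hge' : (σ ^ e) g' = g' := hg'
    constructor
    · rintro ⟨k, hk, hkg⟩
      have hke : (σ ^ e) k = k := hk
      have hfix : σ (b⁻¹ * k * a) = b⁻¹ * k * a := by
        rw [ha, hb] at hkg
        simp only [map_mul, map_inv]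
        have h1 : σ k = σ b * (b⁻¹ * k * a) * (σ a)⁻¹ := by
          have := congrArg (fun z => σ b * (b⁻¹ * z)⁻¹⁻¹ * σ k) hkg
          calc σ k = σ b * (b⁻¹ * (b * (σ b)⁻¹))⁻¹⁻¹ * σ k := by group
            _ = σ b * (b⁻¹ * (k * (a * (σ a)⁻¹) * (σ k)⁻¹))⁻¹⁻¹ * σ k := this
            _ = σ b * (b⁻¹ * k * a) * (σ a)⁻¹ := by group
        rw [h1]; group
      refine ⟨b⁻¹ * k * a, hfix, ?_⟩
      have hfe : (σ ^ e) (b⁻¹ * k * a) = b⁻¹ * k * a := fix_pow σ _ hfix e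
      simp only [map_mul, map_inv, hke] at hfe
      have h2 : ((σ ^ e) b)⁻¹ = b⁻¹ * k * a * ((σ ^ e) a)⁻¹ * k⁻¹ := by
        rw [← hfe]; group
      rw [h2]; group
    · rintro ⟨h, hh, hx⟩
      have hfix : σ h = h := hh
      have hfe : (σ ^ e) h = h := fix_pow σ _ hfix e
      refine ⟨b * h * a⁻¹, ?_, ?_⟩
      · show (σ ^ e) (b * h * a⁻¹) = b * h * a⁻¹
        simp only [map_mul, map_inv, hfe]
        have h3 : (σ ^ e) b = b * (h * (((σ ^ e) a)⁻¹ * a) * h⁻¹)⁻¹ := by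
          rw [← hx]; group
        rw [h3]; group
      · rw [ha, hb]
        simp only [map_mul, map_inv, hfix]
        group
  · intro x hx
    have hfix : σ x = x := hx
    obtain ⟨c, hc⟩ := hLe x⁻¹
    have hce : (σ ^ e) c = x * c := by
      calc (σ ^ e) c = (c * ((σ ^ e) c)⁻¹)⁻¹ * c := by group
        _ = (x⁻¹)⁻¹ * c := by rw [hc]
        _ = x * c := by group
    refine ⟨c⁻¹ * (σ c⁻¹)⁻¹, ?_, c⁻¹, rfl, ?_⟩
    · show (σ ^ e) (c⁻¹ * (σ c⁻¹)⁻¹) = c⁻¹ * (σ c⁻¹)⁻¹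
      simp only [map_mul, map_inv, inv_inv]
      rw [pow_comm_apply, hce, map_mul, hfix]
      group
    · rw [map_inv, hce]; group

end Cfsg.Agent.S2666
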