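import Cfsg.Statements.S2667

set_option autoImplicit false
open Cfsg

namespace Cfsg.Agent.S2667

theorem fix_pow {X : Type*} [Group X] (σ : MulAut X) (h : X) (hh : σ h = h) (n : ℕ) :
    (σ ^ n) h = h := by
  induction n with
  | zero => simp
  | succ n ih => rw [pow_succ, MulAut.mul_apply, hh, ih]

/-- Shintani descent, in an abstract form. -/
theorem result {X : Type*} [Group X] (σ : MulAut X) (e : ℕ) (he : 1 ≤ e)
    (g : X) (hg : g ∈ (MulEquiv.toMonoidHom (σ ^ e)).eqLocus (MonoidHom.id X)) (a : X) (ha : g = a * (σ a)⁻¹) (k : X) :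
    (k ∈ (MulEquiv.toMonoidHom (σ ^ e)).eqLocus (MonoidHom.id X) ∧ k * g * (σ k)⁻¹ = g) ↔
      (a⁻¹ * k * a ∈ (MulEquiv.toMonoidHom σ).eqLocus (MonoidHom.id X) ∧
        (a⁻¹ * k * a) * (((σ ^ e) a)⁻¹ * a) = (((σ ^ e) a)⁻¹ * a) * (a⁻¹ * k * a)) := by
  have key : k * g * (σ k)⁻¹ = g ↔ σ (a⁻¹ * k * a) = a⁻¹ * k * a := by
    subst ha
    simp only [map_mul, map_inv]
    constructor
    · intro h
      have h2 : k * a = a * (σ a)⁻¹ * σ k * σ a := by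
        have := congrArg (fun z => z * σ k * σ a) h
        simp only [mul_assoc, inv_mul_cancel_left, inv_mul_cancel, mul_one] at this
        simpa [mul_assoc] using this
      calc (σ a)⁻¹ * σ k * σ a = a⁻¹ * (a * (σ a)⁻¹ * σ k * σ a) := by group
        _ = a⁻¹ * (k * a) := by rw [← h2]
        _ = a⁻¹ * k * a := by group
    · intro h
      have h2 : σ k = σ a * (a⁻¹ * k * a) * (σ a)⁻¹ := by
        rw [← h]; group
      rw [h2]; group
  constructor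
  · rintro ⟨hk, hkg⟩
    have hfix : σ (a⁻¹ * k * a) = a⁻¹ * k * a := key.mp hkg
    refine ⟨hfix, ?_⟩
    have hk' : (σ ^ e) k = k := hk
    have hfe : (σ ^ e) (a⁻¹ * k * a) = a⁻¹ * k * a := fix_pow σ _ hfix e
    simp only [map_mul, map_inv, hk'] at hfe
    have h3 : k * (σ ^ e) a = (σ ^ e) a * (a⁻¹ * k * a) := by
      rw [← hfe]; group
    calc a⁻¹ * k * a * (((σ ^ e) a)⁻¹ * a)
        = ((σ ^ e) a)⁻¹ * ((σ ^ e) a * (a⁻¹ * k * a)) * (((σ ^ e) a)⁻¹ * a) := by group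
      _ = ((σ ^ e) a)⁻¹ * (k * (σ ^ e) a) * (((σ ^ e) a)⁻¹ * a) := by rw [h3]
      _ = ((σ ^ e) a)⁻¹ * a * (a⁻¹ * k * a) := by group
  · rintro ⟨hfix, hcomm⟩
    have hfix' : σ (a⁻¹ * k * a) = a⁻¹ * k * a := hfix
    refine ⟨?_, key.mpr hfix'⟩
    have hfe : (σ ^ e) (a⁻¹ * k * a) = a⁻¹ * k * a := fix_pow σ _ hfix' e
    simp only [map_mul, map_inv] at hfe
    show (σ ^ e) k = k
    have h4 : (σ ^ e) k = (σ ^ e) a * (a⁻¹ * k * a) * ((σ ^ e) a)⁻¹ := by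
      rw [← hfe]; group
    have h5 : (σ ^ e) a * (a⁻¹ * k * a) * ((σ ^ e) a)⁻¹ = k := by
      have := congrArg (fun z => (σ ^ e) a * z * a⁻¹) hcomm
      calc (σ ^ e) a * (a⁻¹ * k * a) * ((σ ^ e) a)⁻¹
          = (σ ^ e) a * (a⁻¹ * k * a * (((σ ^ e) a)⁻¹ * a)) * a⁻¹ := by group
        _ = (σ ^ e) a * (((σ ^ e) a)⁻¹ * a * (a⁻¹ * k * a)) * a⁻¹ := this
        _ = k := by group
    rw [h4, h5]

end Cfsg.Agent.S2667
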