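import Cfsg.Statements.S2668

set_option autoImplicit false
open Cfsg

namespace Cfsg.Agent.S2668

theorem fix_pow {X : Type*} [Group X] (σ : MulAut X) (h : X) (hh : σ h = h) (n : ℕ) :
    (σ ^ n) h = h := by
  induction n with
  | zero => simp
  | succ n ih => rw [pow_succ, MulAut.mul_apply, hh, ih]

theorem prod_formula {X : Type*} [Group X] (σ : MulAut X) (g a : X) (ha : g = a * (σ a)⁻¹) (d : ℕ) :
    ((List.range d).map (fun i => (σ ^ i) g)).prod = a * ((σ ^ d) a)⁻¹ := by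
  induction d with
  | zero => simp
  | succ d ih =>
    rw [List.range_succ, List.map_append, List.prod_append, ih]
    simp only [List.map_cons, List.map_nil, List.prod_cons, List.prod_nil, mul_one]
    rw [ha, map_mul, map_inv]
    have : (σ ^ d) (σ a) = (σ ^ (d + 1)) a := by
      rw [pow_succ, MulAut.mul_apply]
    rw [this]
    group

theorem x_fixed {X : Type*} [Group X] (σ : MulAut X) (e : ℕ) (g a : X)
    (hg : (σ ^ e) g = g) (ha : g = a * (σ a)⁻¹) :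
    σ (((σ ^ e) a)⁻¹ * a) = ((σ ^ e) a)⁻¹ * a := by
  rw [ha, map_mul, map_inv] at hg
  have hc : (σ ^ e) (σ a) = σ ((σ ^ e) a) := by
    rw [← MulAut.mul_apply, ← MulAut.mul_apply, ← pow_succ, ← pow_succ']
  rw [hc] at hg
  rw [map_mul, map_inv]
  have h1 : (σ ((σ ^ e) a))⁻¹ = ((σ ^ e) a)⁻¹ * (a * (σ a)⁻¹) := by
    rw [← hg]; group
  rw [h1]; group

/-- Shintani descent and powers (abstract form). -/
theorem result {X : Type*} [Group X] (σ : MulAut X) (e d : ℕ) (he : 1 ≤ e) (hd : 1 ≤ d)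
    (g : X) (hg : g ∈ (MulEquiv.toMonoidHom (σ ^ e)).eqLocus (MonoidHom.id X)) (a : X) (ha : g = a * (σ a)⁻¹) :
    ((List.range d).map (fun i => (σ ^ i) g)).prod = a * ((σ ^ d) a)⁻¹ ∧
      ((List.range d).map (fun i => (σ ^ i) g)).prod ∈ (MulEquiv.toMonoidHom ((σ ^ d) ^ e)).eqLocus (MonoidHom.id X) ∧
      (((σ ^ d) ^ e) a)⁻¹ * a = (((σ ^ e) a)⁻¹ * a) ^ d := by
  have hg' : (σ ^ e) g = g := hg
  have hx := x_fixed σ e g a hg' ha
  refine ⟨prod_formula σ g a ha d, ?_, ?_⟩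
  · show ((σ ^ d) ^ e) _ = _
    rw [map_list_prod, List.map_map]
    congr 1
    apply List.map_congr_left
    intro i _
    show ((σ ^ d) ^ e) ((σ ^ i) g) = (σ ^ i) g
    have h1 : ((σ ^ d) ^ e) ((σ ^ i) g) = (σ ^ i) (((σ ^ e) ^ d) g) := by
      rw [← MulAut.mul_apply, ← MulAut.mul_apply, ← pow_mul, ← pow_mul, ← pow_add, ← pow_add,
        mul_comm e d, add_comm]
    rw [h1, fix_pow (σ ^ e) g hg' d]
  · have key : ∀ n : ℕ, ((σ ^ (n * e)) a)⁻¹ * a = (((σ ^ e) a)⁻¹ * a) ^ n := by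
      intro n
      induction n with
      | zero => simp
      | succ n ih =>
        have h2 : (σ ^ ((n + 1) * e)) a = (σ ^ (n * e)) ((σ ^ e) a) := by
          rw [← MulAut.mul_apply, ← pow_add, Nat.succ_mul]
        have h3 : (σ ^ (n * e)) (((σ ^ e) a)⁻¹ * a) = ((σ ^ e) a)⁻¹ * a := fix_pow σ _ hx _
        rw [pow_succ', ← ih, h2]
        rw [map_mul, map_inv] at h3
        calc ((σ ^ (n * e)) ((σ ^ e) a))⁻¹ * a
            = ((σ ^ (n * e)) ((σ ^ e) a))⁻¹ * (σ ^ (n * e)) a * (((σ ^ (n * e)) a)⁻¹ * a) := by group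
          _ = ((σ ^ e) a)⁻¹ * a * (((σ ^ (n * e)) a)⁻¹ * a) := by rw [h3]
    rw [← pow_mul]
    exact key d

end Cfsg.Agent.S2668
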