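import Cfsg.Statements.S2669

set_option autoImplicit false
open Cfsg

namespace Cfsg.Agent.S2669

theorem fix_pow {X : Type*} [Group X] (σ : MulAut X) (h : X) (hh : σ h = h) (n : ℕ) :
    (σ ^ n) h = h := by
  induction n with
  | zero => simp
  | succ n ih => rw [pow_succ, MulAut.mul_apply, hh, ih]

theorem card_rel {α β : Type*} [Finite α] [Finite β] (R : α → β → Prop) (A : α → Prop) (m : ℕ)
    (h1 : ∀ a, A a → Nat.card {b // R a b} = m) (h2 : ∀ a, ¬ A a → ∀ b, ¬ R a b) :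
    Nat.card {p : α × β // R p.1 p.2} = Nat.card {a // A a} * m := by
  classical
  haveI : Fintype α := Fintype.ofFinite α
  rw [Nat.card_congr (Equiv.subtypeProdEquivSigmaSubtype R), Nat.card_sigma]
  have h3 : ∀ a : α, Nat.card {b // R a b} = if A a then m else 0 := by
    intro a
    by_cases ha : A a
    · rw [if_pos ha, h1 a ha]
    · rw [if_neg ha]
      haveI : IsEmpty {b // R a b} := ⟨fun b => h2 a ha b.1 b.2⟩
      exact Nat.card_of_isEmpty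
  rw [Finset.sum_congr rfl (fun a _ => h3 a), Finset.sum_ite, Finset.sum_const_zero, add_zero,
    Finset.sum_const, smul_eq_mul, Nat.card_eq_fintype_card, Fintype.card_subtype]

theorem pow_fix_of_fix {X : Type*} [Group X] (σ : MulAut X) (e : ℕ) :
    (MulEquiv.toMonoidHom σ).eqLocus (MonoidHom.id X) ≤
      (MulEquiv.toMonoidHom (σ ^ e)).eqLocus (MonoidHom.id X) := by
  intro h hh
  exact fix_pow σ h hh e

/-- Shintani descent preserves numbers of fixed points on coset spaces (abstract form). -/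
theorem result {X : Type*} [Group X] (σ : MulAut X) (e : ℕ) (he : 1 ≤ e)
    [Finite ↥((MulEquiv.toMonoidHom (σ ^ e)).eqLocus (MonoidHom.id X))]
    (Y : Subgroup X) (hY : ∀ y : X, y ∈ Y ↔ σ y ∈ Y)
    (hYL : ∀ y ∈ Y, ∃ a ∈ Y, y = a * (σ a)⁻¹) (hYLe : ∀ y ∈ Y, ∃ a ∈ Y, y = a * ((σ ^ e) a)⁻¹)
    (g : X) (hg : g ∈ (MulEquiv.toMonoidHom (σ ^ e)).eqLocus (MonoidHom.id X)) (a : X) (ha : g = a * (σ a)⁻¹) :
    Nat.card {k : ↥((MulEquiv.toMonoidHom (σ ^ e)).eqLocus (MonoidHom.id X)) // (k : X)⁻¹ * g * σ k ∈ Y} *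
        Nat.card ↥(Y ⊓ (MulEquiv.toMonoidHom σ).eqLocus (MonoidHom.id X)) =
      Nat.card {h : ↥((MulEquiv.toMonoidHom σ).eqLocus (MonoidHom.id X)) // (h : X)⁻¹ * (((σ ^ e) a)⁻¹ * a) * h ∈ Y} *
        Nat.card ↥(Y ⊓ (MulEquiv.toMonoidHom (σ ^ e)).eqLocus (MonoidHom.id X)) := by
  set G := (MulEquiv.toMonoidHom (σ ^ e)).eqLocus (MonoidHom.id X) with hGdef
  set H := (MulEquiv.toMonoidHom σ).eqLocus (MonoidHom.id X) with hHdef
  have hHG : H ≤ G := pow_fix_of_fix σ e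
  haveI : Finite ↥H := Finite.of_injective (Subgroup.inclusion hHG) (Subgroup.inclusion_injective hHG)
  have hYe : ∀ y : X, y ∈ Y → (σ ^ e) y ∈ Y := by
    intro y hy
    have : ∀ n : ℕ, (σ ^ n) y ∈ Y := by
      intro n
      induction n with
      | zero => simpa using hy
      | succ n ih =>
        rw [pow_succ', MulAut.mul_apply]
        exact (hY _).mp ih
    exact this e
  have memG : ∀ k : X, k ∈ G ↔ (σ ^ e) k = k := fun k => Iff.rfl
  have memH : ∀ h : X, h ∈ H ↔ σ h = h := fun h => Iff.rfl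
  -- Claim 1
  have c1a : ∀ (k : ↥G) (h : ↥H), (k : X)⁻¹ * a * h ∈ Y → (k : X)⁻¹ * g * σ k ∈ Y := by
    intro k h hy
    have hh : σ (h : X) = h := h.2
    have e1 : (k : X)⁻¹ * g * σ k = ((k : X)⁻¹ * a * h) * (σ ((k : X)⁻¹ * a * h))⁻¹ := by
      rw [ha]; simp only [map_mul, map_inv, hh]; group
    rw [e1]
    exact Y.mul_mem hy (Y.inv_mem ((hY _).mp hy))
  have c1b : ∀ (k : ↥G) (h : ↥H), (k : X)⁻¹ * a * h ∈ Y →
      (h : X)⁻¹ * (((σ ^ e) a)⁻¹ * a) * h ∈ Y := by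
    intro k h hy
    have hh : (σ ^ e) (h : X) = h := fix_pow σ _ h.2 e
    have hk : (σ ^ e) (k : X) = k := k.2
    have e1 : (h : X)⁻¹ * (((σ ^ e) a)⁻¹ * a) * h
        = ((σ ^ e) ((k : X)⁻¹ * a * h))⁻¹ * ((k : X)⁻¹ * a * h) := by
      simp only [map_mul, map_inv, hh, hk]; group
    rw [e1]
    exact Y.mul_mem (Y.inv_mem (hYe _ hy)) hy
  -- Claim 2
  have c2 : ∀ k : ↥G, (k : X)⁻¹ * g * σ k ∈ Y →
      Nat.card {h : ↥H // (k : X)⁻¹ * a * h ∈ Y} = Nat.card ↥(Y ⊓ H) := by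
    intro k hk
    obtain ⟨y, hyY, hy⟩ := hYL _ hk
    have h0H : σ (a⁻¹ * k * y) = a⁻¹ * k * y := by
      simp only [map_mul, map_inv]
      rw [ha] at hy
      have : σ (k : X) = σ a * a⁻¹ * k * y * (σ y)⁻¹ := by
        calc σ (k : X) = σ a * a⁻¹ * k * ((k : X)⁻¹ * (a * (σ a)⁻¹) * σ k) := by group
          _ = σ a * a⁻¹ * k * (y * (σ y)⁻¹) := by rw [hy]
          _ = σ a * a⁻¹ * k * y * (σ y)⁻¹ := by group
      rw [this]; group
    have hR0 : (k : X)⁻¹ * a * (a⁻¹ * k * y) ∈ Y := by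
      have : (k : X)⁻¹ * a * (a⁻¹ * k * y) = y := by group
      rw [this]; exact hyY
    apply Nat.card_congr
    refine
      { toFun := fun h => ⟨(a⁻¹ * k * y)⁻¹ * (h.1 : X), ?_⟩
        invFun := fun z => ⟨⟨(a⁻¹ * k * y) * (z : X), ?_⟩, ?_⟩
        left_inv := ?_
        right_inv := ?_ }
    · refine ⟨?_, H.mul_mem (H.inv_mem h0H) h.1.2⟩
      have : (a⁻¹ * k * y)⁻¹ * (h.1 : X) = ((k : X)⁻¹ * a * (a⁻¹ * k * y))⁻¹ * ((k : X)⁻¹ * a * h.1) := by
        group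
      rw [this]
      exact Y.mul_mem (Y.inv_mem hR0) h.2
    · exact H.mul_mem h0H z.2.2
    · show (k : X)⁻¹ * a * ((a⁻¹ * k * y) * (z : X)) ∈ Y
      have : (k : X)⁻¹ * a * ((a⁻¹ * k * y) * (z : X)) = ((k : X)⁻¹ * a * (a⁻¹ * k * y)) * (z : X) := by
        group
      rw [this]
      exact Y.mul_mem hR0 z.2.1
    · intro h
      apply Subtype.ext
      apply Subtype.ext
      show (a⁻¹ * k * y) * ((a⁻¹ * k * y)⁻¹ * (h.1 : X)) = h.1
      group
    · intro z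
      apply Subtype.ext
      show (a⁻¹ * k * y)⁻¹ * ((a⁻¹ * k * y) * (z : X)) = z
      group
  -- Claim 3
  have c3 : ∀ h : ↥H, (h : X)⁻¹ * (((σ ^ e) a)⁻¹ * a) * h ∈ Y →
      Nat.card {k : ↥G // (k : X)⁻¹ * a * h ∈ Y} = Nat.card ↥(Y ⊓ G) := by
    intro h hh
    obtain ⟨y', hy'Y, hy'⟩ := hYLe _ (Y.inv_mem hh)
    have hhe : (σ ^ e) (h : X) = h := fix_pow σ _ h.2 e
    -- k₀ = a * h * y'
    have k0G : (σ ^ e) (a * h * y') = a * h * y' := by
      simp only [map_mul, hhe]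
      have : (σ ^ e) y' = ((h : X)⁻¹ * (((σ ^ e) a)⁻¹ * a) * h) * y' := by
        calc (σ ^ e) y' = (y' * ((σ ^ e) y')⁻¹)⁻¹ * y' := by group
          _ = (((h : X)⁻¹ * (((σ ^ e) a)⁻¹ * a) * h)⁻¹)⁻¹ * y' := by rw [hy']
          _ = ((h : X)⁻¹ * (((σ ^ e) a)⁻¹ * a) * h) * y' := by group
      rw [this]; group
    have hR0 : (a * h * y')⁻¹ * a * h ∈ Y := by
      have : (a * h * y')⁻¹ * a * h = y'⁻¹ := by group
      rw [this]; exact Y.inv_mem hy'Y
    apply Nat.card_congr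
    refine
      { toFun := fun k => ⟨(a * h * y')⁻¹ * (k.1 : X), ?_⟩
        invFun := fun z => ⟨⟨(a * h * y') * (z : X), ?_⟩, ?_⟩
        left_inv := ?_
        right_inv := ?_ }
    · refine ⟨?_, G.mul_mem (G.inv_mem k0G) k.1.2⟩
      have : (a * h * y')⁻¹ * (k.1 : X) = ((a * h * y')⁻¹ * a * h) * ((k.1 : X)⁻¹ * a * h)⁻¹ := by
        group
      rw [this]
      exact Y.mul_mem hR0 (Y.inv_mem k.2)
    · exact G.mul_mem k0G z.2.2
    · show ((a * h * y') * (z : X))⁻¹ * a * h ∈ Y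
      have : ((a * h * y') * (z : X))⁻¹ * a * h = (z : X)⁻¹ * ((a * h * y')⁻¹ * a * h) := by
        group
      rw [this]
      exact Y.mul_mem (Y.inv_mem z.2.1) hR0
    · intro k
      apply Subtype.ext
      apply Subtype.ext
      show (a * h * y') * ((a * h * y')⁻¹ * (k.1 : X)) = k.1
      group
    · intro z
      apply Subtype.ext
      show (a * h * y')⁻¹ * ((a * h * y') * (z : X)) = z
      group
  have r1 := card_rel (α := ↥G) (β := ↥H) (fun k h => (k : X)⁻¹ * a * h ∈ Y)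
    (fun k => (k : X)⁻¹ * g * σ k ∈ Y) (Nat.card ↥(Y ⊓ H)) c2
    (fun k hk h hR => hk (c1a k h hR))
  have r2 := card_rel (α := ↥H) (β := ↥G) (fun h k => (k : X)⁻¹ * a * h ∈ Y)
    (fun h => (h : X)⁻¹ * (((σ ^ e) a)⁻¹ * a) * h ∈ Y) (Nat.card ↥(Y ⊓ G)) c3
    (fun h hh k hR => hh (c1b k h hR))
  rw [← r1, ← r2]
  apply Nat.card_congr
  exact (Equiv.prodComm _ _).subtypeEquiv (fun p => Iff.rfl)

end Cfsg.Agent.S2669
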