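import Cfsg.Statements.S2677
import Mathlib
import Cfsg.Agent.S2643
import Cfsg.Agent.S0277

set_option autoImplicit false
open Cfsg

namespace Cfsg.Agent.S2677

section helpers

open scoped Matrix
open Cfsg.Agent.Lib.Helper2.Unitary Cfsg.Agent.Lib.Helper2.HermCount Cfsg.Agent.S2643

theorem fixed_card {K : Type*} [Field K] [Fintype K] {q₀ r : ℕ} (hr : r ≠ 0)
    (hK : Fintype.card K = (q₀ ^ 2) ^ r) (σ : K ≃+* K) (hσ : orderOf σ = r) :
    ∃ (K₀ : Subfield K), (∀ x : K, x ∈ K₀ ↔ σ x = x) ∧ Nat.card K₀ = q₀ ^ 2 := by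
  classical
  let G : Subgroup (K ≃+* K) := Subgroup.zpowers σ
  have : Finite (K ≃+* K) :=
    Finite.of_injective (fun e : K ≃+* K => (e : K → K)) DFunLike.coe_injective
  have : Fintype G := Fintype.ofFinite G
  have hG : Fintype.card G = r := by
    rw [← Nat.card_eq_fintype_card, Nat.card_zpowers, hσ]
  refine ⟨FixedPoints.subfield G K, ?_, ?_⟩
  · intro x
    constructor
    · intro hx
      exact hx ⟨σ, Subgroup.mem_zpowers σ⟩
    · intro hx g
      obtain ⟨g, hg⟩ := g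
      obtain ⟨k, rfl⟩ := Subgroup.mem_zpowers_iff.mp hg
      show (σ ^ k) x = x
      have h1 : ∀ m : ℕ, (σ ^ m) x = x := by
        intro m
        induction m with
        | zero => rfl
        | succ m ih => rw [pow_succ, RingAut.mul_apply, hx, ih]
      have h2 : ∀ m : ℕ, (σ ^ m)⁻¹ x = x := by
        intro m
        have := h1 m
        rw [RingAut.inv_apply]
        exact (RingEquiv.symm_apply_eq _).mpr this.symm
      cases k with
      | ofNat m => simpa using h1 m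
      | negSucc m => simpa using h2 (m + 1)
  · have h1 := FixedPoints.finrank_eq_card G K
    rw [hG] at h1
    have h2 := Module.card_eq_pow_finrank (K := FixedPoints.subfield G K) (V := K)
    rw [h1, hK] at h2
    rw [Nat.card_eq_fintype_card]
    exact (Nat.pow_left_injective hr h2).symm

theorem pow_q_fixed {K : Type*} [Field K] [Fintype K] {q₀ q r : ℕ} (hrodd : Odd r)
    (hq : q = q₀ ^ r) (K₀ : Subfield K) (hcard₀ : Nat.card K₀ = q₀ ^ 2) (x : K) (hx : x ∈ K₀) :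
    x ^ q = x ^ q₀ := by
  classical
  have : Fintype K₀ := Fintype.ofFinite K₀
  have h1 : x ^ (q₀ ^ 2) = x := by
    have h := FiniteField.pow_card (⟨x, hx⟩ : K₀)
    rw [← Nat.card_eq_fintype_card, hcard₀] at h
    have h' := congrArg Subtype.val h
    simpa using h'
  obtain ⟨m, rfl⟩ := hrodd
  have h2 : ∀ k : ℕ, x ^ ((q₀ ^ 2) ^ k) = x := by
    intro k
    induction k with
    | zero => simp
    | succ k ih => rw [pow_succ, pow_mul, ih, h1]
  rw [hq, show q₀ ^ (2 * m + 1) = (q₀ ^ 2) ^ m * q₀ by ring, pow_mul, h2]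

theorem exists_entry {K : Type*} [Field K] [Fintype K] {q n : ℕ} (hK : Fintype.card K = q ^ 2)
    (hn : 1 ≤ n) (M : Matrix (Fin n) (Fin n) K) (hM : IsU n q M) : ∃ i j, M i j ≠ 0 := by
  by_contra hcon
  have hcon' : ∀ i j, M i j = 0 := fun i j => by
    by_contra h
    exact hcon ⟨i, j, h⟩
  have hM0 : M = 0 := by
    ext i j
    exact hcon' i j
  have h1 := hM (Pi.single ⟨0, hn⟩ 1) (Pi.single ⟨0, hn⟩ 1)
  rw [hM0, Matrix.zero_mulVec, H_zero_left, H_single_right hK, Pi.single_eq_same] at h1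
  exact zero_ne_one h1

theorem gu_formula (q₀ n : ℕ) (hq₀ : 1 ≤ q₀) :
    ((q₀ ^ (n * (n - 1) / 2) * ∏ i ∈ Finset.range n,
      (if Even i then q₀ ^ (i + 1) + 1 else q₀ ^ (i + 1) - 1) : ℕ) : ℤ) =
    (q₀ : ℤ) ^ (n * (n - 1) / 2) *
      ∏ i : Fin n, ((q₀ : ℤ) ^ ((i : ℕ) + 1) - (-1) ^ ((i : ℕ) + 1)) := by
  rw [Fin.prod_univ_eq_prod_range (fun i : ℕ => (q₀ : ℤ) ^ (i + 1) - (-1) ^ (i + 1)) n]
  push_cast
  congr 1
  refine Finset.prod_congr rfl (fun i _ => ?_)
  by_cases hi : Even i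
  · rw [if_pos hi, (Even.add_one hi).neg_one_pow]
    push_cast
    ring
  · rw [if_neg hi]
    have hi' : Odd i := Nat.not_even_iff_odd.mp hi
    rw [(Odd.add_one hi').neg_one_pow, Nat.cast_sub (Nat.one_le_pow _ _ hq₀)]
    push_cast
    ring

theorem main {K : Type*} [Field K] [Fintype K] {q₀ q r n : ℕ} (hr : r.Prime) (hr2 : r ≠ 2) (hn : 1 ≤ n) (hq : q = q₀ ^ r) (hK : Fintype.card K = q ^ 2) (σ : K ≃+* K) (hσ : orderOf σ = r) : (Nat.card {g : ↥(Cfsg.GU n K q) // ∃ c : K, c ≠ 0 ∧ ((g : GL (Fin n) K) : Matrix (Fin n) (Fin n) K).map σ = c • ((g : GL (Fin n) K) : Matrix (Fin n) (Fin n) K)} : ℤ) = ((q + 1) / (q₀ + 1) : ℕ) * ((q₀ : ℤ) ^ (n * (n - 1) / 2) * ∏ i : Fin n, ((q₀ : ℤ) ^ ((i : ℕ) + 1) - (-1) ^ ((i : ℕ) + 1))) := by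
  classical
  have hrodd : Odd r := hr.eq_two_or_odd'.resolve_left hr2
  have hK' : Fintype.card K = (q₀ ^ 2) ^ r := by rw [hK, hq, ← pow_mul, ← pow_mul, mul_comm]
  obtain ⟨K₀, hmem, hcard₀⟩ := fixed_card hr.ne_zero hK' σ hσ
  have : Fintype K₀ := Fintype.ofFinite K₀
  have hK₀ : Fintype.card K₀ = q₀ ^ 2 := by rw [← Nat.card_eq_fintype_card]; exact hcard₀
  have hq₀ : 2 ≤ q₀ := two_le_q hK₀
  have hfix : ∀ x : K, σ x = x → x ^ q = x ^ q₀ :=
    fun x hx => pow_q_fixed hrodd hq K₀ hcard₀ x ((hmem x).2 hx)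
  have hpow : ∀ x : K, σ x = x → x ^ (q + 1) = x ^ (q₀ + 1) :=
    fun x hx => by rw [pow_succ, pow_succ, hfix x hx]
  have hne : ∀ a : K, a ^ (q + 1) = 1 → a ≠ 0 := by
    rintro a ha rfl
    rw [zero_pow (Nat.succ_ne_zero q)] at ha
    exact zero_ne_one ha
  have hsmulU : ∀ (a : K) (M : Matrix (Fin n) (Fin n) K), a ^ (q + 1) = 1 → IsU n q M →
      IsU n q (a • M) := by
    intro a M ha hM
    have h1 : a • M = (a • (1 : Matrix (Fin n) (Fin n) K)) * M := by rw [smul_mul_assoc, one_mul]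
    rw [h1]
    exact isU_mul (isU_smul_one n q a (by rw [← pow_succ']; exact ha)) hM
  have hmapsmul : ∀ (a : K) (M : Matrix (Fin n) (Fin n) K), (a • M).map σ = σ a • M.map σ := by
    intro a M
    ext i j
    simp [Matrix.map_apply]
  -- the sets
  have hA : Nat.card {a : K // a ^ (q + 1) = 1} = q + 1 :=
    Cfsg.Agent.S0754.result hK 1 one_ne_zero (one_pow q)
  have hZ : Nat.card {x : K // σ x = x ∧ x ^ (q + 1) = 1} = q₀ + 1 := by
    rw [← Cfsg.Agent.S0754.result hK₀ (1 : K₀) one_ne_zero (one_pow q₀)]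
    refine Nat.card_congr ?_
    exact
      { toFun := fun x => ⟨⟨x.1, (hmem _).2 x.2.1⟩, Subtype.ext (by
          show x.1 ^ (q₀ + 1) = 1
          rw [← hpow x.1 x.2.1]
          exact x.2.2)⟩
        invFun := fun y => ⟨(y.1 : K), (hmem _).1 y.1.2, by
          rw [hpow _ ((hmem _).1 y.1.2)]
          have h := congrArg Subtype.val y.2
          simpa using h⟩
        left_inv := fun x => rfl
        right_inv := fun y => rfl }
  have hmap : ∀ M₀ : Matrix (Fin n) (Fin n) K₀, IsU n q₀ M₀ ↔ IsU n q (M₀.map K₀.subtype) := by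
    intro M₀
    rw [isU_iff hK₀, isU_iff hK]
    have e : (utau (frob hK₀) M₀ * M₀).map K₀.subtype =
        utau (frob hK) (M₀.map K₀.subtype) * M₀.map K₀.subtype := by
      ext i j
      simp only [Matrix.map_apply, Matrix.mul_apply, utau_apply, frob_apply, map_sum, map_mul,
        map_pow]
      refine Finset.sum_congr rfl (fun k _ => ?_)
      have h3 : K₀.subtype (M₀ k i) ^ q = K₀.subtype (M₀ k i) ^ q₀ :=
        hfix _ ((hmem _).1 (M₀ k i).2)
      rw [h3]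
    constructor
    · intro h
      rw [← e, h, Matrix.map_one _ (map_zero _) (map_one _)]
    · intro h
      apply Matrix.map_injective K₀.subtype.injective
      show (utau (frob hK₀) M₀ * M₀).map K₀.subtype = (1 : Matrix (Fin n) (Fin n) K₀).map K₀.subtype
      rw [e, h, Matrix.map_one _ (map_zero _) (map_one _)]
  have hHm : Nat.card {M : Matrix (Fin n) (Fin n) K // IsU n q M ∧ M.map σ = M} =
      Nat.card ↥(Cfsg.GU n K₀ q₀) := by
    rw [Nat.card_congr (equivU hK₀ n)]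
    symm
    let F : {M₀ : Matrix (Fin n) (Fin n) K₀ // IsU n q₀ M₀} →
        {M : Matrix (Fin n) (Fin n) K // IsU n q M ∧ M.map σ = M} :=
      fun M₀ => ⟨M₀.1.map K₀.subtype, (hmap _).1 M₀.2, by
        ext i j
        exact (hmem _).1 (M₀.1 i j).2⟩
    have hinj : Function.Injective F := by
      intro M M' h
      have h1 : M.1.map K₀.subtype = M'.1.map K₀.subtype := congrArg Subtype.val h
      exact Subtype.ext (Matrix.map_injective K₀.subtype.injective h1)
    have hsurj : Function.Surjective F := by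
      rintro ⟨M, hMU, hMσ⟩
      have hM0 : (Matrix.of fun i j => (⟨M i j, (hmem _).2 (congrFun (congrFun hMσ i) j)⟩ : K₀)).map
          K₀.subtype = M := by
        ext i j
        rfl
      refine ⟨⟨Matrix.of fun i j => (⟨M i j, (hmem _).2 (congrFun (congrFun hMσ i) j)⟩ : K₀),
        (hmap _).2 (by rw [hM0]; exact hMU)⟩, ?_⟩
      exact Subtype.ext hM0
    exact Nat.card_congr (Equiv.ofBijective F ⟨hinj, hsurj⟩)
  -- the map
  let f : {a : K // a ^ (q + 1) = 1} × {M : Matrix (Fin n) (Fin n) K // IsU n q M ∧ M.map σ = M} →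
      {M : Matrix (Fin n) (Fin n) K // IsU n q M ∧ ∃ c : K, c ≠ 0 ∧ M.map σ = c • M} :=
    fun t => ⟨t.1.1 • t.2.1, hsmulU _ _ t.1.2 t.2.2.1, σ t.1.1 / t.1.1,
      div_ne_zero ((map_ne_zero σ).2 (hne _ t.1.2)) (hne _ t.1.2), by
        rw [hmapsmul, t.2.2.2, smul_smul, div_mul_cancel₀ _ (hne _ t.1.2)]⟩
  have hf_val : ∀ t, (f t).1 = t.1.1 • t.2.1 := fun t => rfl
  have hcomm : ∀ A : Matrix (Fin n) (Fin n) K, (utau (frob hK) A * A).map σ =
      utau (frob hK) (A.map σ) * A.map σ := by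
    intro A
    ext i j
    simp only [Matrix.map_apply, Matrix.mul_apply, utau_apply, frob_apply, map_sum, map_mul,
      map_pow]
  have hfib : ∀ M : {M : Matrix (Fin n) (Fin n) K // IsU n q M ∧ ∃ c : K, c ≠ 0 ∧ M.map σ = c • M},
      Nat.card {t // f t = M} = q₀ + 1 := by
    rintro ⟨M, hMU, c, hc0, hMσ⟩
    obtain ⟨i, j, hij⟩ := exists_entry hK hn M hMU
    obtain ⟨m, hm⟩ : ∃ m : K, m = M i j := ⟨_, rfl⟩
    rw [← hm] at hij
    have hσm : σ m = c * m := by
      have h := congrFun (congrFun hMσ i) j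
      rw [hm]
      exact h
    obtain ⟨b, hb⟩ : ∃ b : K, b = m⁻¹ := ⟨_, rfl⟩
    have hb0 : b ≠ 0 := by rw [hb]; exact inv_ne_zero hij
    have hg'σ : (b • M).map σ = b • M := by
      rw [hmapsmul, hMσ, smul_smul]
      congr 1
      rw [hb, map_inv₀, hσm]
      field_simp
    obtain ⟨ν, hν⟩ : ∃ ν : K, ν = b ^ q * b := ⟨_, rfl⟩
    have hg'τ : utau (frob hK) (b • M) * (b • M) = ν • 1 := by
      rw [utau_smul, smul_mul_assoc, mul_smul_comm, smul_smul, (isU_iff hK M).1 hMU, hν]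
      rfl
    have hνσ : σ ν = ν := by
      have e1 : (ν • (1 : Matrix (Fin n) (Fin n) K)).map σ = ν • 1 := by
        rw [← hg'τ, hcomm, hg'σ]
      have e2 := congrFun (congrFun e1 ⟨0, hn⟩) ⟨0, hn⟩
      simpa [Matrix.map_apply, Matrix.smul_apply] using e2
    have hν0 : ν ≠ 0 := by rw [hν]; exact mul_ne_zero (pow_ne_zero _ hb0) hb0
    have hνq : ν ^ q = ν := by rw [hν, mul_pow, pow_q_pow_q hK, mul_comm]
    have hνq₀ : ν ^ q₀ = ν := by rw [← hfix ν hνσ]; exact hνq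
    have h1 := Cfsg.Agent.S0754.result hK₀ (⟨ν, (hmem _).2 hνσ⟩ : K₀)
      (by intro h; exact hν0 (congrArg Subtype.val h))
      (Subtype.ext (by show ν ^ q₀ = ν; exact hνq₀))
    have h2 : Nonempty {x : K₀ // x ^ (q₀ + 1) = (⟨ν, (hmem _).2 hνσ⟩ : K₀)} := by
      by_contra hne'
      rw [not_nonempty_iff] at hne'
      rw [Nat.card_of_isEmpty] at h1
      omega
    obtain ⟨⟨d₀, hd₀⟩⟩ := h2
    obtain ⟨d, hd⟩ : ∃ d : K, d = (d₀ : K) := ⟨_, rfl⟩
    have hdσ : σ d = d := by rw [hd]; exact (hmem _).1 d₀.2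
    have hdpow : d ^ (q + 1) = ν := by
      rw [hpow d hdσ, hd]
      have h := congrArg Subtype.val hd₀
      simpa using h
    have hd0 : d ≠ 0 := by
      rintro rfl
      rw [zero_pow (Nat.succ_ne_zero q)] at hdpow
      exact hν0 hdpow.symm
    have hbpow : b ^ (q + 1) = ν := by rw [hν, pow_succ]
    have ha₀ : (d * m) ^ (q + 1) = 1 := by
      rw [mul_pow, hdpow, ← hbpow, hb, inv_pow, inv_mul_cancel₀ (pow_ne_zero _ hij)]
    have hh₀c : (d⁻¹ * b) ^ (q + 1) = 1 := by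
      rw [mul_pow, inv_pow, hdpow, hbpow, inv_mul_cancel₀ hν0]
    have hh₀U : IsU n q ((d⁻¹ * b) • M) := hsmulU _ _ hh₀c hMU
    have hh₀σ : ((d⁻¹ * b) • M).map σ = (d⁻¹ * b) • M := by
      rw [mul_smul, hmapsmul, hg'σ, map_inv₀, hdσ]
    have hprod : (d * m) • ((d⁻¹ * b) • M) = M := by
      have h3 : d * m * (d⁻¹ * b) = 1 := by
        rw [hb]
        field_simp
      rw [smul_smul, h3, one_smul]
    have hdm0 : d * m ≠ 0 := mul_ne_zero hd0 hij
    rw [← hZ]
    symm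
    let G : {x : K // σ x = x ∧ x ^ (q + 1) = 1} → {t // f t = ⟨M, hMU, c, hc0, hMσ⟩} :=
      fun x => ⟨(⟨d * m * x.1, by rw [mul_pow, ha₀, x.2.2, one_mul]⟩,
        ⟨x.1⁻¹ • ((d⁻¹ * b) • M), hsmulU _ _ (by rw [inv_pow, x.2.2, inv_one]) hh₀U, by
          rw [hmapsmul, map_inv₀, x.2.1, hh₀σ]⟩), Subtype.ext (by
          show (d * m * x.1) • (x.1⁻¹ • ((d⁻¹ * b) • M)) = M
          rw [smul_smul, mul_assoc, mul_inv_cancel₀ (hne _ x.2.2), mul_one]
          exact hprod)⟩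
    have hinj : Function.Injective G := by
      intro x x' h
      have h3 : d * m * x.1 = d * m * x'.1 :=
        congrArg (fun t : {t // f t = ⟨M, hMU, c, hc0, hMσ⟩} => t.1.1.1) h
      exact Subtype.ext (mul_left_cancel₀ hdm0 h3)
    have hsurj : Function.Surjective G := by
      rintro ⟨⟨⟨a, ha⟩, ⟨h, hhU, hhσ⟩⟩, ht⟩
      have ht' : a • h = M := congrArg Subtype.val ht
      have ha0 : a ≠ 0 := hne a ha
      obtain ⟨x, hx⟩ : ∃ x : K, x = (d * m)⁻¹ * a := ⟨_, rfl⟩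
      have hx0 : x ≠ 0 := by rw [hx]; exact mul_ne_zero (inv_ne_zero hdm0) ha0
      have hxh : (d⁻¹ * b) • M = x • h := by
        rw [← ht', smul_smul, hx]
        congr 1
        rw [hb]
        field_simp
      have hxσ : σ x = x := by
        obtain ⟨i', j', hij'⟩ := exists_entry hK hn h hhU
        have e1 : (x • h).map σ = x • h := by rw [← hxh]; exact hh₀σ
        rw [hmapsmul, hhσ] at e1
        have e2 := congrFun (congrFun e1 i') j'
        have e3 : σ x * h i' j' = x * h i' j' := e2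
        exact mul_right_cancel₀ hij' e3
      have hxpow : x ^ (q + 1) = 1 := by
        rw [hx, mul_pow, inv_pow, ha₀, ha, inv_one, one_mul]
      refine ⟨⟨x, hxσ, hxpow⟩, ?_⟩
      apply Subtype.ext
      apply Prod.ext
      · apply Subtype.ext
        show d * m * x = a
        rw [hx, mul_inv_cancel_left₀ hdm0]
      · apply Subtype.ext
        show x⁻¹ • ((d⁻¹ * b) • M) = h
        rw [hxh, smul_smul, inv_mul_cancel₀ hx0, one_smul]
    exact Nat.card_congr (Equiv.ofBijective G ⟨hinj, hsurj⟩)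
  have hT : Nat.card ({a : K // a ^ (q + 1) = 1} ×
      {M : Matrix (Fin n) (Fin n) K // IsU n q M ∧ M.map σ = M}) =
      Nat.card {M : Matrix (Fin n) (Fin n) K // IsU n q M ∧ ∃ c : K, c ≠ 0 ∧ M.map σ = c • M} *
        (q₀ + 1) := by
    rw [Nat.card_congr (Equiv.sigmaFiberEquiv f).symm, Nat.card_sigma]
    simp only [hfib]
    rw [Finset.sum_const, Finset.card_univ, smul_eq_mul, Nat.card_eq_fintype_card]
  have hS : Nat.card {g : ↥(Cfsg.GU n K q) // ∃ c : K, c ≠ 0 ∧ ((g : GL (Fin n) K) : Matrix (Fin n) (Fin n) K).map σ = c • ((g : GL (Fin n) K) : Matrix (Fin n) (Fin n) K)} =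
      Nat.card {M : Matrix (Fin n) (Fin n) K // IsU n q M ∧ ∃ c : K, c ≠ 0 ∧ M.map σ = c • M} := by
    refine Nat.card_congr ?_
    exact (Equiv.subtypeEquiv (equivU hK n) (fun g => Iff.rfl)).trans
      (Equiv.subtypeSubtypeEquivSubtypeInter (fun M : Matrix (Fin n) (Fin n) K => IsU n q M)
        (fun M : Matrix (Fin n) (Fin n) K => ∃ c : K, c ≠ 0 ∧ M.map σ = c • M))
  have hN₀ := Cfsg.Agent.S0277.result hK₀ n
  rw [Nat.card_prod, hA, hHm, ← hS] at hT
  obtain ⟨k, hk⟩ : q₀ + 1 ∣ q + 1 := by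
    have h := Odd.nat_add_dvd_pow_add_pow q₀ 1 hrodd
    rw [one_pow, ← hq] at h
    exact h
  have hdiv : (q + 1) / (q₀ + 1) = k := by
    rw [hk]
    exact Nat.mul_div_cancel_left k (Nat.succ_pos q₀)
  rw [hdiv, ← gu_formula q₀ n (by omega)]
  rw [hk] at hT
  have hT' : Nat.card {g : ↥(Cfsg.GU n K q) // ∃ c : K, c ≠ 0 ∧ ((g : GL (Fin n) K) : Matrix (Fin n) (Fin n) K).map σ = c • ((g : GL (Fin n) K) : Matrix (Fin n) (Fin n) K)} =
      k * Nat.card ↥(Cfsg.GU n K₀ q₀) := by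
    apply Nat.eq_of_mul_eq_mul_left (Nat.succ_pos q₀)
    calc (q₀ + 1) * Nat.card {g : ↥(Cfsg.GU n K q) // ∃ c : K, c ≠ 0 ∧ ((g : GL (Fin n) K) : Matrix (Fin n) (Fin n) K).map σ = c • ((g : GL (Fin n) K) : Matrix (Fin n) (Fin n) K)}
        = Nat.card {g : ↥(Cfsg.GU n K q) // ∃ c : K, c ≠ 0 ∧ ((g : GL (Fin n) K) : Matrix (Fin n) (Fin n) K).map σ = c • ((g : GL (Fin n) K) : Matrix (Fin n) (Fin n) K)} * (q₀ + 1) := mul_comm _ _
      _ = (q₀ + 1) * k * Nat.card ↥(Cfsg.GU n K₀ q₀) := hT.symm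
      _ = (q₀ + 1) * (k * Nat.card ↥(Cfsg.GU n K₀ q₀)) := mul_assoc _ _ _
  rw [hT', hN₀, Nat.cast_mul]

end helpers


/-- Centraliser of a field automorphism of odd prime order in PGU_n(q): let q = q₀^r with r an odd prime, K the field with q² elements and σ a field automorphism of K of order r (fixed field of order q₀²). The elements g of GU_n(q) whose entrywise image under σ is a scalar multiple of g — those whose coset modulo the q + 1 unitary scalars is fixed by σ — number (q + 1)/(q₀ + 1) · |GU_n(q₀)|; equivalently the centraliser in PGU_n(q) of the induced automorphism has the order of PGU_n(q₀). -/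
theorem result {K : Type*} [Field K] [Fintype K] {q₀ q r n : ℕ} (hr : r.Prime) (hr2 : r ≠ 2) (hn : 1 ≤ n) (hq : q = q₀ ^ r) (hK : Fintype.card K = q ^ 2) (σ : K ≃+* K) (hσ : orderOf σ = r) : (Nat.card {g : ↥(Cfsg.GU n K q) // ∃ c : K, c ≠ 0 ∧ ((g : GL (Fin n) K) : Matrix (Fin n) (Fin n) K).map σ = c • ((g : GL (Fin n) K) : Matrix (Fin n) (Fin n) K)} : ℤ) = ((q + 1) / (q₀ + 1) : ℕ) * ((q₀ : ℤ) ^ (n * (n - 1) / 2) * ∏ i : Fin n, ((q₀ : ℤ) ^ ((i : ℕ) + 1) - (-1) ^ ((i : ℕ) + 1))) := by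
  exact main hr hr2 hn hq hK σ hσ

end Cfsg.Agent.S2677
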