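import Cfsg.Statements.S2678
import Cfsg.Agent.Lib.Helper15.Embed

set_option autoImplicit false
open Cfsg

namespace Cfsg.Agent.S2678

/-- Field-extension embedding of symplectic groups: for a field K with q² elements and a field F with q elements there is an injective homomorphism Sp_2a(K) → Sp_4a(F). -/
theorem result {K F : Type*} [Field K] [Fintype K] [Field F] [Fintype F] {q : ℕ} (hK : Fintype.card K = q ^ 2) (hF : Fintype.card F = q) (a : ℕ) : ∃ φ : ↥(Matrix.symplecticGroup (Fin a) K) →* ↥(Matrix.symplecticGroup (Fin (2 * a)) F), Function.Injective φ := by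
  classical
  obtain ⟨f⟩ := Cfsg.Agent.Lib.Helper15.Embed.exists_ringHom (F := F) (K := K) (by rw [hK, hF])
  letI : Algebra F K := f.toAlgebra
  have h2 : Module.finrank F K = 2 :=
    Cfsg.Agent.Lib.Helper15.Embed.finrank_eq_two (by rw [hK, hF])
  obtain ⟨ψ, -, hψ⟩ := LinearMap.exists_extend_of_notMem (K := F) (p := (⊥ : Submodule F K))
    (v := (1 : K)) (0 : (⊥ : Submodule F K) →ₗ[F] F) (by simp) (1 : F)
  have hsm : ∀ (c : F) (x : Fin a ⊕ Fin a → K), c • x = (algebraMap F K c) • x := by
    intro c x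
    funext i
    simp [Algebra.smul_def]
  have hψsm : ∀ (c : F) (k : K), ψ (algebraMap F K c * k) = c * ψ k := by
    intro c k
    rw [← Algebra.smul_def, map_smul, smul_eq_mul]
  let B : LinearMap.BilinForm F (Fin a ⊕ Fin a → K) :=
    LinearMap.mk₂ F (fun x y => ψ (Cfsg.sympForm a K x y))
      (fun x x' y => by
        rw [Cfsg.Agent.Lib.Helper5.Symp.sympForm_add_left, map_add])
      (fun c x y => by
        rw [hsm, Cfsg.Agent.Lib.Helper5.Symp.sympForm_smul_left, hψsm, smul_eq_mul])
      (fun x y y' => by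
        rw [Cfsg.Agent.Lib.Helper5.Symp.sympForm_add_right, map_add])
      (fun c x y => by
        rw [hsm, Cfsg.Agent.Lib.Helper5.Symp.sympForm_smul_right, hψsm, smul_eq_mul])
  have hBapp : ∀ x y, B x y = ψ (Cfsg.sympForm a K x y) := fun x y => rfl
  have hA : B.IsAlt := by
    intro x
    rw [hBapp, Cfsg.Agent.Lib.Helper5.Symp.sympForm_self, map_zero]
  have hnd : ∀ x, (∀ y, B x y = 0) → x = 0 := by
    intro x hx
    apply Cfsg.Agent.Lib.Helper5.Symp.eq_zero_of_sympForm_eq_zero
    intro y₀
    by_contra hk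
    have hall : ∀ c : K, ψ c = 0 := by
      intro c
      have h := hx ((c / Cfsg.sympForm a K x y₀) • y₀)
      rw [hBapp, Cfsg.Agent.Lib.Helper5.Symp.sympForm_smul_right, div_mul_cancel₀ c hk] at h
      exact h
    rw [hall 1] at hψ
    exact zero_ne_one hψ
  have hdim : Module.finrank F (Fin a ⊕ Fin a → K) = 2 * (2 * a) := by
    rw [Module.finrank_pi_fintype F]
    simp only [h2, Finset.sum_const, Finset.card_univ, Fintype.card_sum, Fintype.card_fin,
      smul_eq_mul]
    ring
  let ρ : ↥(Matrix.symplecticGroup (Fin a) K) →* ((Fin a ⊕ Fin a → K) →ₗ[F] (Fin a ⊕ Fin a → K)) :=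
    { toFun := fun g => (Matrix.toLin' (g : Matrix (Fin a ⊕ Fin a) (Fin a ⊕ Fin a) K)).restrictScalars F
      map_one' := by
        apply LinearMap.ext
        intro x
        simp
      map_mul' := by
        intro g h
        apply LinearMap.ext
        intro x
        simp [Matrix.toLin'_mul] }
  have hρapp : ∀ g x, ρ g x = (g : Matrix (Fin a ⊕ Fin a) (Fin a ⊕ Fin a) K).mulVec x := by
    intro g x
    change (Matrix.toLin' (g : Matrix (Fin a ⊕ Fin a) (Fin a ⊕ Fin a) K)) x = _
    rw [Matrix.toLin'_apply]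
  refine Cfsg.Agent.Lib.Helper15.Embed.symp_embed B hA hnd (2 * a) hdim ρ ?_ ?_
  · intro g h hgh
    apply Subtype.ext
    apply Matrix.mulVec_injective
    funext x
    rw [← hρapp, ← hρapp, hgh]
  · intro g x y
    rw [hBapp, hBapp, hρapp, hρapp,
      Cfsg.Agent.Lib.Helper5.Symp.sympForm_mulVec_of_mem a g.2]

end Cfsg.Agent.S2678
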