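import Cfsg.Statements.S2679
import Cfsg.Agent.Lib.Helper15.BaseChange
import Cfsg.Agent.Lib.Helper15.Embed

set_option autoImplicit false
open Cfsg

namespace Cfsg.Agent.S2679

/-- An elliptic orthogonal group embeds in the hyperbolic orthogonal group of the same dimension over the quadratic extension: for a field F with q elements and a field K with q² elements there is an injective homomorphism from O⁻_2m(F) (isometries of Σ_(j<m−1) x_j y_j + z₁² + a z₁z₂ + c z₂², binary part anisotropic) to O⁺_2m(K) (isometries of Σ_(j<m) x_j y_j over K). -/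
theorem result {F K : Type*} [Field F] [Fintype F] [Field K] [Fintype K] {q : ℕ} (hF : Fintype.card F = q) (hK : Fintype.card K = q ^ 2) {m : ℕ} (hm : 1 ≤ m) (a c : F) (hac : ∀ z₁ z₂ : F, z₁ ^ 2 + a * z₁ * z₂ + c * z₂ ^ 2 = 0 → z₁ = 0 ∧ z₂ = 0) : ∃ φ : ↥(Cfsg.isometryGroup F (Cfsg.quadFormMinus (m - 1) F a c)) →* ↥(Cfsg.isometryGroup K (Cfsg.quadFormPlus m K)), Function.Injective φ := by
  classical
  obtain ⟨k, rfl⟩ : ∃ k, m = k + 1 := ⟨m - 1, by omega⟩
  change ∃ φ : ↥(Cfsg.isometryGroup F (Cfsg.quadFormMinus k F a c)) →*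
    ↥(Cfsg.isometryGroup K (Cfsg.quadFormPlus (k + 1) K)), Function.Injective φ
  obtain ⟨f⟩ := Cfsg.Agent.Lib.Helper15.Embed.exists_ringHom (F := F) (K := K) (by rw [hK, hF])
  let _ : Algebra F K := f.toAlgebra
  have h2 : Module.finrank F K = 2 :=
    Cfsg.Agent.Lib.Helper15.Embed.finrank_eq_two (by rw [hK, hF])
  obtain ⟨θ, hθ⟩ := Cfsg.Agent.Lib.Helper15.BaseChange.root_in_quadratic_ext h2 a c hac
  have hd : 4 * algebraMap F K c - (algebraMap F K a) ^ 2 ≠ 0 := by
    have h0 := Cfsg.Agent.Lib.Helper15.StdForms.disc_ne_zero a c hac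
    intro h
    apply h0
    apply (algebraMap F K).injective
    rw [map_zero, map_sub, map_mul, map_pow, map_ofNat]
    exact h
  obtain ⟨T, hT⟩ := Cfsg.Agent.Lib.Helper15.BaseChange.minus_to_plus k (algebraMap F K a)
    (algebraMap F K c) θ hθ hd
  obtain ⟨ρ, hρ, hQ⟩ := Cfsg.Agent.Lib.Helper15.BaseChange.base_change_embed (algebraMap F K)
    (Cfsg.quadFormMinus k F a c)
    (Cfsg.Agent.Lib.Helper15.StdForms.minusQF k K (algebraMap F K a) (algebraMap F K c)) (by
      intro v
      rw [Cfsg.Agent.Lib.Helper15.StdForms.minusQF_apply]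
      unfold Cfsg.quadFormMinus
      simp only [Function.comp_apply, map_add, map_sum, map_mul, map_pow])
  exact Cfsg.Agent.Lib.Helper15.EvenForms.orth_embed (Cfsg.quadFormPlus (k + 1) K)
    (⇑(Cfsg.Agent.Lib.Helper15.StdForms.minusQF k K (algebraMap F K a) (algebraMap F K c))) T
    (fun v => by rw [Cfsg.Agent.Lib.Helper15.StdForms.minusQF_apply]; exact hT v) ρ hρ hQ

end Cfsg.Agent.S2679
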