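import Cfsg.Statements.S2683
import Mathlib
import Cfsg.Agent.Lib.Helper13.OrthCent4

set_option autoImplicit false
open Cfsg

namespace Cfsg.Agent.S2683

open Cfsg.Agent.Lib.Helper15.StdForms (plusQF plus_nondeg)
open Cfsg.Agent.Lib.Helper13.OmegaCount (rk alt)
open Cfsg.Agent.Lib.Helper13.OrthCent4
open Cfsg.Agent.Lib.Helper13.OrthCent3 (expoB1)
open Cfsg.Agent.Lib.Helper13.SymOrth (oc oc_odd_even)

theorem result {F : Type*} [Field F] [Fintype F] [CharP F 2] {q : ℕ} (hF : Fintype.card F = q) {m s : ℕ} (h : Fintype.card F ≠ 2 ∨ m ≠ 2) (x : ↥(Cfsg.isometryGroup F (Cfsg.quadFormPlus m F))) (hx : x ^ 2 = 1) (hs : (((x : Matrix.GeneralLinearGroup (Fin m ⊕ Fin m) F) : Matrix (Fin m ⊕ Fin m) (Fin m ⊕ Fin m) F) - 1).rank = s) (hodd : Odd s) : Nat.card {g : ↥(Cfsg.Omega F (Cfsg.quadFormPlus m F)) // (g : ↥(Cfsg.isometryGroup F (Cfsg.quadFormPlus m F))) * x = x * (g : ↥(Cfsg.isometryGroup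 F (Cfsg.quadFormPlus m F)))} = q ^ (2 * m * (s - 1) - (3 * s ^ 2 - 3 * s) / 2) * ((q : ℕ) ^ (((s - 1) / 2) ^ 2) * ∏ i : Fin ((s - 1) / 2), (q ^ (2 * ((i : ℕ) + 1)) - 1)) * ((q : ℕ) ^ ((m - s) ^ 2) * ∏ i : Fin (m - s), (q ^ (2 * ((i : ℕ) + 1)) - 1)) := by
  have hxx : x * x = 1 := by rw [← pow_two]; exact hx
  have hrk : rk (plusQF m F) x = s := hs
  have hm : 1 ≤ m := by
    by_contra h0
    have hm0 : m = 0 := by omega
    subst hm0
    have hle := Matrix.rank_le_card_width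
      (((x : Matrix.GeneralLinearGroup (Fin 0 ⊕ Fin 0) F) : Matrix (Fin 0 ⊕ Fin 0) (Fin 0 ⊕ Fin 0) F) - 1)
    rw [hs, Fintype.card_sum, Fintype.card_fin] at hle
    obtain ⟨c, rfl⟩ := hodd
    omega
  have hna : ¬ alt (plusQF m F) x := by
    intro ha
    obtain ⟨r, hr, _⟩ := omegaA hF m h hm x hxx ha
    rw [hrk] at hr
    obtain ⟨c, rfl⟩ := hodd
    omega
  obtain ⟨j, hj, hjm, hmain⟩ := omegaB hF m h hm x hxx hna
  rw [hrk] at hj
  subst hj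
  obtain ⟨a, rfl⟩ : ∃ a, j = 2 * a := by
    obtain ⟨c, hc⟩ := hodd
    exact ⟨c, by omega⟩
  have he := expoB1 m (2 * a + 1) hjm (by omega)
  have e1 : 2 * a + 1 - 1 = 2 * a := by omega
  rw [e1] at he
  have key := hmain _ he
  have e2 : (2 * a + 1 - 1) / 2 = a := by omega
  rw [e2, e1, Fin.prod_univ_eq_prod_range (fun i => q ^ (2 * (i + 1)) - 1) a,
    Fin.prod_univ_eq_prod_range (fun i => q ^ (2 * (i + 1)) - 1) (m - (2 * a + 1))]
  refine key.trans ?_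
  rw [(oc_odd_even (F := F) a).1, hF, pow_add]
  ring

end Cfsg.Agent.S2683
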