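import Cfsg.Statements.S2684
import Mathlib
import Cfsg.Agent.Lib.Helper13.OrthCent4

set_option autoImplicit false
open Cfsg

namespace Cfsg.Agent.S2684

open Cfsg.Agent.Lib.Helper15.StdForms (plusQF plus_nondeg)
open Cfsg.Agent.Lib.Helper13.OmegaCount (rk alt)
open Cfsg.Agent.Lib.Helper13.OrthCent4
open Cfsg.Agent.Lib.Helper13.OrthCent3 (expoA1)
open Cfsg.Agent.Lib.Helper13.SpCent (tri)

theorem result {F : Type*} [Field F] [Fintype F] [CharP F 2] {q : ℕ} (hF : Fintype.card F = q) {m s : ℕ} (h : Fintype.card F ≠ 2 ∨ m ≠ 2) (x : ↥(Cfsg.isometryGroup F (Cfsg.quadFormPlus m F))) (hx : x ^ 2 = 1) (hx1 : x ≠ 1) (hs : (((x : Matrix.GeneralLinearGroup (Fin m ⊕ Fin m) F) : Matrix (Fin m ⊕ Fin m) (Fin m ⊕ Fin m) F) - 1).rank = s) (heven : Even s) (halt : ∀ v : Fin m ⊕ Fin m → F, Cfsg.quadFormPlus m F ((((x : Matrix.GeneralLinearGroup (Fin m ⊕ Fin m) F) : Matrix (Fin m ⊕ Fin m) (Fin m ⊕ Fin m) F) - 1).mulVec v) = 0) :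 Nat.card {g : ↥(Cfsg.Omega F (Cfsg.quadFormPlus m F)) // (g : ↥(Cfsg.isometryGroup F (Cfsg.quadFormPlus m F))) * x = x * (g : ↥(Cfsg.isometryGroup F (Cfsg.quadFormPlus m F)))} = q ^ (2 * m * s - (3 * s ^ 2 + s) / 2) * ((q : ℕ) ^ ((s / 2) ^ 2) * ∏ i : Fin (s / 2), (q ^ (2 * ((i : ℕ) + 1)) - 1)) * (if s = m then 1 else q ^ ((m - s) * (m - s - 1)) * (q ^ (m - s) - 1) * ∏ i : Fin (m - s - 1), (q ^ (2 * ((i : ℕ) + 1)) - 1)) := by
  have hxx : x * x = 1 := by rw [← pow_two]; exact hx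
  have hrk : rk (plusQF m F) x = s := hs
  have halt' : alt (plusQF m F) x := (alt_iff m x).2 halt
  have hm : 1 ≤ m := by
    by_contra h0
    have hm0 : m = 0 := by omega
    subst hm0
    apply hx1
    apply Subtype.ext
    apply Units.ext
    ext i
    rcases i with i | i <;> exact i.elim0
  obtain ⟨r, hr, hrm, hlt, heq⟩ := omegaA hF m h hm x hxx halt'
  rw [hrk] at hr
  subst hr
  have e2 : (r + r) / 2 = r := by omega
  rw [e2, Fin.prod_univ_eq_prod_range (fun i => q ^ (2 * (i + 1)) - 1) r,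
    Fin.prod_univ_eq_prod_range (fun i => q ^ (2 * (i + 1)) - 1) (m - (r + r) - 1)]
  have he := expoA1 m (r + r) hrm
  by_cases hsm : r + r = m
  · rw [if_pos hsm, mul_one]
    have he' : 2 * m * (r + r) - (3 * (r + r) ^ 2 + (r + r)) / 2 + tri m = m * (m - 1) := by
      rw [← hsm] at he ⊢
      rw [Nat.sub_self, Nat.zero_mul, Nat.add_zero] at he
      exact he
    refine (heq hsm _ he').trans ?_
    ring
  · rw [if_neg hsm]
    refine (hlt (by omega) _ he).trans ?_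
    rw [pow_add]
    ring

end Cfsg.Agent.S2684
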