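import Cfsg.Statements.S2685
import Mathlib
import Cfsg.Agent.Lib.Helper13.OrthCent4

set_option autoImplicit false
open Cfsg

namespace Cfsg.Agent.S2685

open Cfsg.Agent.Lib.Helper15.StdForms (plusQF plus_nondeg)
open Cfsg.Agent.Lib.Helper13.OmegaCount (rk alt)
open Cfsg.Agent.Lib.Helper13.OrthCent4
open Cfsg.Agent.Lib.Helper13.OrthCent3 (expoB1 expoB2)
open Cfsg.Agent.Lib.Helper13.SymOrth (oc oc_odd_even)

theorem result {F : Type*} [Field F] [Fintype F] [CharP F 2] {q : ℕ} (hF : Fintype.card F = q) {m s : ℕ} (h : Fintype.card F ≠ 2 ∨ m ≠ 2) (x : ↥(Cfsg.isometryGroup F (Cfsg.quadFormPlus m F))) (hx : x ^ 2 = 1) (hs : (((x : Matrix.GeneralLinearGroup (Fin m ⊕ Fin m) F) : Matrix (Fin m ⊕ Fin m) (Fin m ⊕ Fin m) F) - 1).rank = s) (heven : Even s) (hna : ∃ v : Fin m ⊕ Fin m → F, Cfsg.quadFormPlus m F ((((x : Matrix.GeneralLinearGroup (Fin m ⊕ Fin m) F) : Matrix (Fin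 m ⊕ Fin m) (Fin m ⊕ Fin m) F) - 1).mulVec v) ≠ 0) : Nat.card {g : ↥(Cfsg.Omega F (Cfsg.quadFormPlus m F)) // (g : ↥(Cfsg.isometryGroup F (Cfsg.quadFormPlus m F))) * x = x * (g : ↥(Cfsg.isometryGroup F (Cfsg.quadFormPlus m F)))} = q ^ (2 * m * (s - 1) - (3 * s ^ 2 - 5 * s) / 2 - 1) * ((q : ℕ) ^ (((s - 2) / 2) ^ 2) * ∏ i : Fin ((s - 2) / 2), (q ^ (2 * ((i : ℕ) + 1)) - 1)) * ((q : ℕ) ^ ((m - s) ^ 2) * ∏ i : Fin (m - s), (q ^ (2 * ((i : ℕ) + 1)) - 1)) := by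
  have hxx : x * x = 1 := by rw [← pow_two]; exact hx
  have hrk : rk (plusQF m F) x = s := hs
  have hna' : ¬ alt (plusQF m F) x := by
    intro ha
    obtain ⟨v, hv⟩ := hna
    exact hv ((alt_iff m x).1 ha v)
  have hm : 1 ≤ m := by
    by_contra h0
    have hm0 : m = 0 := by omega
    subst hm0
    obtain ⟨v, hv⟩ := hna
    apply hv
    have : ((((x : Matrix.GeneralLinearGroup (Fin 0 ⊕ Fin 0) F) : Matrix (Fin 0 ⊕ Fin 0) (Fin 0 ⊕ Fin 0) F) - 1).mulVec v) = 0 := by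
      ext i
      rcases i with i | i <;> exact i.elim0
    rw [this]
    exact QuadraticMap.map_zero (plusQF 0 F)
  obtain ⟨j, hj, hjm, hmain⟩ := omegaB hF m h hm x hxx hna'
  rw [hrk] at hj
  subst hj
  obtain ⟨a, rfl⟩ : ∃ a, j = 2 * a + 1 := by
    obtain ⟨c, hc⟩ := heven
    exact ⟨c - 1, by omega⟩
  have he := expoB1 m (2 * a + 1 + 1) hjm (by omega)
  have e1 : 2 * a + 1 + 1 - 1 = 2 * a + 1 := by omega
  rw [e1] at he
  have key := hmain _ he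
  have he2 := expoB2 m (2 * a + 1 + 1) hjm (by omega)
  rw [e1] at he2
  have e2 : (2 * a + 1 + 1 - 2) / 2 = a := by omega
  rw [e2, e1, Fin.prod_univ_eq_prod_range (fun i => q ^ (2 * (i + 1)) - 1) a,
    Fin.prod_univ_eq_prod_range (fun i => q ^ (2 * (i + 1)) - 1) (m - (2 * a + 1 + 1))]
  refine key.trans ?_
  have e3 : 2 * a + 1 + 1 = 2 * a + 2 := by omega
  have hoc := (oc_odd_even (F := F) a).2
  rw [← e3, hF] at hoc
  rw [hoc]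
  have e4 : q ^ (2 * m * (2 * a + 1) - (3 * (2 * a + 1 + 1) ^ 2 - 5 * (2 * a + 1 + 1)) / 2 - 1) *
      q ^ ((m - (2 * a + 1 + 1)) ^ 2) = q ^ (2 * a + 1) *
      q ^ (2 * m * (2 * a + 1) - (3 * (2 * a + 1 + 1) ^ 2 - 3 * (2 * a + 1 + 1)) / 2 +
        (m - (2 * a + 1 + 1)) ^ 2) := by
    rw [← pow_add, ← pow_add, he2]
  calc _ = q ^ (2 * a + 1) *
      q ^ (2 * m * (2 * a + 1) - (3 * (2 * a + 1 + 1) ^ 2 - 3 * (2 * a + 1 + 1)) / 2 +
        (m - (2 * a + 1 + 1)) ^ 2) * ((q ^ (a ^ 2) * ∏ i ∈ Finset.range a, (q ^ (2 * (i + 1)) - 1)) *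
        ∏ i ∈ Finset.range (m - (2 * a + 1 + 1)), (q ^ (2 * (i + 1)) - 1)) := by ring
    _ = _ := by rw [← e4]; ring

end Cfsg.Agent.S2685
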