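import Cfsg.Statements.S2722
import Cfsg.Agent.Lib.Helper15.SimAut
import Cfsg.Agent.Lib.Helper15.StdHyp

set_option autoImplicit false
open Cfsg

namespace Cfsg.Agent.S2722

/-- Let T = PΩ⁺_{2m}(F) with m ≥ 4 and |F| = q odd. Inside Aut(T), the image G̃ of the conformal orthogonal group of the form modulo the image of the special orthogonal group is elementary abelian of order 4. -/
theorem result {F : Type*} [Field F] [Fintype F] (hodd : Odd (Fintype.card F)) {m : ℕ} (hm : 4 ≤ m) :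
    (∃ φ : ↥(Cfsg.pgoAut F (Cfsg.quadFormPlus m F)) →* Multiplicative (ZMod 2 × ZMod 2), Function.Surjective φ ∧ φ.ker = (Cfsg.psoAut F (Cfsg.quadFormPlus m F)).subgroupOf (Cfsg.pgoAut F (Cfsg.quadFormPlus m F))) := by
  classical
  have h2 : (2 : F) ≠ 0 := Cfsg.Agent.Lib.Helper15.Spinor2.two_ne_zero_of_odd_card rfl hodd
  have hn : 5 ≤ Fintype.card (Fin m ⊕ Fin m) := by
    rw [Fintype.card_sum, Fintype.card_fin]; omega
  have heven : Even (Fintype.card (Fin m ⊕ Fin m)) := by
    rw [Fintype.card_sum, Fintype.card_fin]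
    exact ⟨m, rfl⟩
  exact Cfsg.Agent.Lib.Helper15.SimAut.pgo_mod_pso h2
    (Cfsg.Agent.Lib.Helper15.StdForms.plusQF m F)
    (Cfsg.Agent.Lib.Helper15.StdForms.plus_nondeg m) hn
    (Cfsg.Agent.Lib.Helper15.StdHyp.hp2_plus m (by omega)) heven

end Cfsg.Agent.S2722
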