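import Cfsg.Statements.S2723
import Cfsg.Agent.Lib.Helper15.AutOmega
import Cfsg.Agent.Lib.Helper15.StdHyp
import Cfsg.Agent.S0790
import Cfsg.Agent.S0791

set_option autoImplicit false
open Cfsg

namespace Cfsg.Agent.S2723

/-- Let T = PΩ⁺_{2m}(F) with m ≥ 4 and |F| = q odd. The image of the special orthogonal group in Aut(T) contains the inner automorphism group T with index 1 (they coincide) when m is odd and q ≡ 3 (mod 4), and with index 2 otherwise (the index is 2 exactly when the discriminant of the form is a square). -/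
theorem result {F : Type*} [Field F] [Fintype F] (hodd : Odd (Fintype.card F)) {m : ℕ} (hm : 4 ≤ m) :
    ((Odd m ∧ Fintype.card F % 4 = 3) → (Cfsg.Inn (Cfsg.POmega F (Cfsg.quadFormPlus m F))).relIndex (Cfsg.psoAut F (Cfsg.quadFormPlus m F)) = 1) ∧ (¬ (Odd m ∧ Fintype.card F % 4 = 3) → (Cfsg.Inn (Cfsg.POmega F (Cfsg.quadFormPlus m F))).relIndex (Cfsg.psoAut F (Cfsg.quadFormPlus m F)) = 2) := by
  classical
  have h2 : (2 : F) ≠ 0 := Cfsg.Agent.Lib.Helper15.Spinor2.two_ne_zero_of_odd_card rfl hodd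
  have hn : 5 ≤ Fintype.card (Fin m ⊕ Fin m) := by
    rw [Fintype.card_sum, Fintype.card_fin]; omega
  have heven : Even (Fintype.card (Fin m ⊕ Fin m)) := by
    rw [Fintype.card_sum, Fintype.card_fin]
    exact ⟨m, rfl⟩
  have h := Cfsg.Agent.Lib.Helper15.AutOmega.relIndex_cases h2
    (Cfsg.Agent.Lib.Helper15.StdForms.plusQF m F)
    (Cfsg.Agent.Lib.Helper15.StdForms.plus_nondeg m) hn
    (Cfsg.Agent.Lib.Helper15.StdHyp.hp2_plus m (by omega)) heven
  rw [Cfsg.Agent.Lib.Helper15.StdForms.coe_plusQF, Cfsg.Agent.S0790.result rfl hodd m (by omega),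
    Cfsg.Agent.Lib.Helper15.Spinor2.pow_mod_four_one hodd] at h
  obtain ⟨h1, h3⟩ := h
  refine ⟨fun hc => h3 ?_, fun hc => h1 ?_⟩
  · rintro (he | he)
    · exact (Nat.not_even_iff_odd.2 hc.1) he
    · exact he hc.2
  · by_contra hcon
    apply hc
    constructor
    · rw [← Nat.not_even_iff_odd]
      exact fun he => hcon (Or.inl he)
    · by_contra h4
      exact hcon (Or.inr h4)

end Cfsg.Agent.S2723
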