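import Cfsg.Statements.S2725
import Cfsg.Agent.Lib.Helper15.InnDiag
import Cfsg.Agent.S0790

set_option autoImplicit false
open Cfsg

namespace Cfsg.Agent.S2725
set_option maxHeartbeats 2000000

open Module in

/-- Let T = PΩ⁺_{2m}(F) with m ≥ 4 and |F| = q odd. The inner-diagonal group G = Inndiag(T) (image of the class-preserving similarities) taken modulo the inner automorphism group T is cyclic of order 2 when m is odd and q ≡ 3 (mod 4), cyclic of order 4 when m is odd and q ≡ 1 (mod 4), and elementary abelian of order 4 when m is even. -/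
theorem result {F : Type*} [Field F] [Fintype F] (hodd : Odd (Fintype.card F)) {m : ℕ} (hm : 4 ≤ m) :
    ((Odd m ∧ Fintype.card F % 4 = 3) → (∃ φ : ↥(Cfsg.inndiagPOmegaPlus m F) →* Multiplicative (ZMod 2), Function.Surjective φ ∧ φ.ker = (Cfsg.Inn (Cfsg.POmega F (Cfsg.quadFormPlus m F))).subgroupOf (Cfsg.inndiagPOmegaPlus m F))) ∧ ((Odd m ∧ Fintype.card F % 4 = 1) → (∃ φ : ↥(Cfsg.inndiagPOmegaPlus m F) →* Multiplicative (ZMod 4), Function.Surjective φ ∧ φ.ker = (Cfsg.Inn (Cfsg.POmega F (Cfsg.quadFormPlus m F))).subgroupOf (Cfsg.inndiagPOmegaPlus m F))) ∧ (Even m → (∃ φ : ↥(Cfsg.inndiagPOmegaPlus m F) →* Multiplicative (ZMod 2 × ZMod 2), Function.Surjective φ ∧ φ.ker = (Cfsg.Inn (Cfsg.POmega F (Cfsg.quadFormPlus m F))).subgroupOf (Cfsg.inndiagPOmegaPlus m F))) := by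
  classical
  have h2 : (2 : F) ≠ 0 := Cfsg.Agent.Lib.Helper15.Spinor2.two_ne_zero_of_odd_card rfl hodd
  have hn : 5 ≤ Fintype.card (Fin m ⊕ Fin m) := by
    rw [Fintype.card_sum, Fintype.card_fin]; omega
  have hk : Fintype.card (Fin m ⊕ Fin m) = m + m := by
    rw [Fintype.card_sum, Fintype.card_fin]
  have hQ := Cfsg.Agent.Lib.Helper15.StdForms.plus_nondeg (F := F) m
  have hH := Cfsg.Agent.Lib.Helper15.StdHyp.hp2_plus (F := F) m (by omega)
  obtain ⟨w, -, hw⟩ := Cfsg.Agent.Lib.Helper15.Witt.exists_nonsing_perp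
    (Cfsg.Agent.Lib.Helper15.StdForms.plusQF m F) hQ ⊥ (by rw [finrank_bot]; omega)
  have hne : ∃ v, Cfsg.Agent.Lib.Helper15.StdForms.plusQF m F v ≠ 0 := ⟨w, hw⟩
  have hiff := Cfsg.Agent.S0790.result (F := F) rfl hodd m (by omega)
  rw [Cfsg.Agent.Lib.Helper15.Spinor2.pow_mod_four_one hodd] at hiff
  obtain ⟨ν, hν⟩ := FiniteField.exists_nonsquare (F := F)
    (Cfsg.Agent.Lib.Helper15.Spinor.ringChar_ne_two h2)
  have hν0 : ν ≠ 0 := by
    rintro rfl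
    exact hν ⟨0, by simp⟩
  have hd₀ := Cfsg.Agent.Lib.Helper15.InnDiag.dsim_mem_ker (m := m) hne ν hν0
  rw [Cfsg.Agent.Lib.Helper15.InnDiag.inndiag_eq h2 hne]
  refine ⟨fun hc => ?_, fun hc => ?_, fun hc => ?_⟩
  · apply Cfsg.Agent.Lib.Helper15.InnDiag.idg_c2 h2 _ hQ hn hH hne m hk
    rw [Cfsg.Agent.Lib.Helper15.StdForms.coe_plusQF, hiff]
    rintro (he | he)
    · exact (Nat.not_even_iff_odd.2 hc.1) he
    · exact he hc.2
  · have hneg : ∃ g : ↥(Cfsg.isometryGroup F ⇑(Cfsg.Agent.Lib.Helper15.StdForms.plusQF m F)),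
        g ∈ Cfsg.Omega F ⇑(Cfsg.Agent.Lib.Helper15.StdForms.plusQF m F) ∧
        ((g : Matrix.GeneralLinearGroup (Fin m ⊕ Fin m) F) :
          Matrix (Fin m ⊕ Fin m) (Fin m ⊕ Fin m) F) = -1 := by
      rw [Cfsg.Agent.Lib.Helper15.StdForms.coe_plusQF, hiff]
      right
      omega
    apply Cfsg.Agent.Lib.Helper15.InnDiag.idg_c4 h2 _ hQ hn hH hne m hk hneg _ hd₀
    rw [Cfsg.Agent.Lib.Helper15.InnDiag.dsim_sq_inn hm hneg ν hν0 hν]
    exact Nat.not_even_iff_odd.2 hc.1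
  · have hneg : ∃ g : ↥(Cfsg.isometryGroup F ⇑(Cfsg.Agent.Lib.Helper15.StdForms.plusQF m F)),
        g ∈ Cfsg.Omega F ⇑(Cfsg.Agent.Lib.Helper15.StdForms.plusQF m F) ∧
        ((g : Matrix.GeneralLinearGroup (Fin m ⊕ Fin m) F) :
          Matrix (Fin m ⊕ Fin m) (Fin m ⊕ Fin m) F) = -1 := by
      rw [Cfsg.Agent.Lib.Helper15.StdForms.coe_plusQF, hiff]
      left
      exact hc
    apply Cfsg.Agent.Lib.Helper15.InnDiag.idg_k4 h2 _ hQ hn hH hne m hk hneg _ hd₀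
    · rw [Cfsg.Agent.Lib.Helper15.PSC.mu_dsim hne ν hν0]
      exact hν
    · rw [Cfsg.Agent.Lib.Helper15.InnDiag.dsim_sq_inn hm hneg ν hν0 hν]
      exact hc

end Cfsg.Agent.S2725
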