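import Cfsg.Statements.S2726
import Cfsg.Agent.Lib.Helper15.SimAut
import Cfsg.Agent.Lib.Helper15.StdHyp

set_option autoImplicit false
open Cfsg

namespace Cfsg.Agent.S2726

/-- Let T = PΩ⁻_{2m+2}(F) with m ≥ 3 and |F| = q odd (form with anisotropic binary part). Inside Aut(T), the image G̃ of the conformal orthogonal group of the form modulo the image of the special orthogonal group is elementary abelian of order 4. -/
theorem result {F : Type*} [Field F] [Fintype F] (hodd : Odd (Fintype.card F)) {m : ℕ} (hm : 3 ≤ m) (a b : F) (hab : (∀ z₁ z₂ : F, z₁ ^ 2 + a * z₁ * z₂ + b * z₂ ^ 2 = 0 → z₁ = 0 ∧ z₂ = 0)) :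
    (∃ φ : ↥(Cfsg.pgoAut F (Cfsg.quadFormMinus m F a b)) →* Multiplicative (ZMod 2 × ZMod 2), Function.Surjective φ ∧ φ.ker = (Cfsg.psoAut F (Cfsg.quadFormMinus m F a b)).subgroupOf (Cfsg.pgoAut F (Cfsg.quadFormMinus m F a b))) := by
  classical
  have h2 : (2 : F) ≠ 0 := Cfsg.Agent.Lib.Helper15.Spinor2.two_ne_zero_of_odd_card rfl hodd
  have hn : 5 ≤ Fintype.card ((Fin m ⊕ Fin m) ⊕ Fin 2) := by
    rw [Fintype.card_sum, Fintype.card_sum, Fintype.card_fin, Fintype.card_fin]; omega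
  have heven : Even (Fintype.card ((Fin m ⊕ Fin m) ⊕ Fin 2)) := by
    rw [Fintype.card_sum, Fintype.card_sum, Fintype.card_fin, Fintype.card_fin]
    exact ⟨m + 1, by ring⟩
  have h := Cfsg.Agent.Lib.Helper15.SimAut.pgo_mod_pso h2
    (Cfsg.Agent.Lib.Helper15.StdForms.minusQF m F a b)
    (Cfsg.Agent.Lib.Helper15.StdForms.minus_nondeg m a b hab) hn
    (Cfsg.Agent.Lib.Helper15.StdHyp.hp2_minus m (by omega) a b) heven
  rw [Cfsg.Agent.Lib.Helper15.StdForms.coe_minusQF] at h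
  exact h

end Cfsg.Agent.S2726
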