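import Cfsg.Statements.S2728
import Cfsg.Agent.Lib.Helper15.SimAut2
import Cfsg.Agent.Lib.Helper15.StdHyp
import Cfsg.Agent.S0790
import Cfsg.Agent.S0791

set_option autoImplicit false
open Cfsg

namespace Cfsg.Agent.S2728
set_option maxHeartbeats 1000000


/-- Let T = PΩ⁻_{2m+2}(F) with m ≥ 3 and |F| = q odd (form with anisotropic binary part). The image G̃ of the conformal orthogonal group in Aut(T), taken modulo the inner automorphism group T, is dihedral of order 8 when m is even and q ≡ 3 (mod 4), and elementary abelian of order 4 otherwise. -/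
theorem result {F : Type*} [Field F] [Fintype F] (hodd : Odd (Fintype.card F)) {m : ℕ} (hm : 3 ≤ m) (a b : F) (hab : (∀ z₁ z₂ : F, z₁ ^ 2 + a * z₁ * z₂ + b * z₂ ^ 2 = 0 → z₁ = 0 ∧ z₂ = 0)) :
    ((Even m ∧ Fintype.card F % 4 = 3) → (∃ φ : ↥(Cfsg.pgoAut F (Cfsg.quadFormMinus m F a b)) →* DihedralGroup 4, Function.Surjective φ ∧ φ.ker = (Cfsg.Inn (Cfsg.POmega F (Cfsg.quadFormMinus m F a b))).subgroupOf (Cfsg.pgoAut F (Cfsg.quadFormMinus m F a b)))) ∧ (¬ (Even m ∧ Fintype.card F % 4 = 3) → (∃ φ : ↥(Cfsg.pgoAut F (Cfsg.quadFormMinus m F a b)) →* Multiplicative (ZMod 2 × ZMod 2), Function.Surjective φ ∧ φ.ker = (Cfsg.Inn (Cfsg.POmega F (Cfsg.quadFormMinus m F a b))).subgroupOf (Cfsg.pgoAut F (Cfsg.quadFormMinus m F a b)))) := by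
  classical
  have h2 : (2 : F) ≠ 0 := Cfsg.Agent.Lib.Helper15.Spinor2.two_ne_zero_of_odd_card rfl hodd
  have hn : 5 ≤ Fintype.card ((Fin m ⊕ Fin m) ⊕ Fin 2) := by
    rw [Fintype.card_sum, Fintype.card_sum, Fintype.card_fin, Fintype.card_fin]; omega
  have heven : Even (Fintype.card ((Fin m ⊕ Fin m) ⊕ Fin 2)) := by
    rw [Fintype.card_sum, Fintype.card_sum, Fintype.card_fin, Fintype.card_fin]
    exact ⟨m + 1, by ring⟩
  have hout := Cfsg.Agent.Lib.Helper15.SimAut2.pgo_mod_inn_out h2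
    (Cfsg.Agent.Lib.Helper15.StdForms.minusQF m F a b)
    (Cfsg.Agent.Lib.Helper15.StdForms.minus_nondeg m a b hab) hn
    (Cfsg.Agent.Lib.Helper15.StdHyp.hp2_minus m (by omega) a b) heven
  have hin := Cfsg.Agent.Lib.Helper15.SimAut2.pgo_mod_inn_in h2
    (Cfsg.Agent.Lib.Helper15.StdForms.minusQF m F a b)
    (Cfsg.Agent.Lib.Helper15.StdForms.minus_nondeg m a b hab) hn
    (Cfsg.Agent.Lib.Helper15.StdHyp.hp2_minus m (by omega) a b) heven
  rw [Cfsg.Agent.Lib.Helper15.StdForms.coe_minusQF] at hout hin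
  have h0 := Cfsg.Agent.S0791.result (F := F) rfl hodd (m + 1) (by omega) a b hab
  rw [Cfsg.Agent.Lib.Helper15.Spinor2.pow_mod_four_three hodd] at h0
  change (∃ g : ↥(Cfsg.isometryGroup F (Cfsg.quadFormMinus m F a b)),
      g ∈ Cfsg.Omega F (Cfsg.quadFormMinus m F a b) ∧
      ((g : Matrix.GeneralLinearGroup ((Fin m ⊕ Fin m) ⊕ Fin 2) F) :
        Matrix ((Fin m ⊕ Fin m) ⊕ Fin 2) ((Fin m ⊕ Fin m) ⊕ Fin 2) F) = -1) ↔ _ at h0
  rw [h0] at hout hin
  refine ⟨fun hc => hin ?_, fun hc => hout ?_⟩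
  · rintro (he | he)
    · obtain ⟨hme, -⟩ := hc
      rw [Nat.even_add_one] at he
      exact he hme
    · exact he hc.2
  · intro hcon
    apply hc
    constructor
    · by_contra hme
      apply hcon
      left
      rw [Nat.even_add_one]
      exact hme
    · by_contra h4
      exact hcon (Or.inr h4)

end Cfsg.Agent.S2728
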