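import Cfsg.Statements.S2729
import Cfsg.Agent.Lib.Helper15.MinusDiag
import Cfsg.Agent.S0791

set_option autoImplicit false
open Cfsg

namespace Cfsg.Agent.S2729
set_option maxHeartbeats 2000000

open Module in

/-- Let T = PΩ⁻_{2m+2}(F) with m ≥ 3 and |F| = q odd (form with anisotropic binary part). The inner-diagonal group G = Inndiag(T) (image of the class-preserving similarities) taken modulo the inner automorphism group T is cyclic of order 4 when m is even and q ≡ 3 (mod 4), and of order 2 otherwise. -/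
theorem result {F : Type*} [Field F] [Fintype F] (hodd : Odd (Fintype.card F)) {m : ℕ} (hm : 3 ≤ m) (a b : F) (hab : (∀ z₁ z₂ : F, z₁ ^ 2 + a * z₁ * z₂ + b * z₂ ^ 2 = 0 → z₁ = 0 ∧ z₂ = 0)) :
    ((Even m ∧ Fintype.card F % 4 = 3) → (∃ φ : ↥(Cfsg.inndiagPOmegaMinus m F a b) →* Multiplicative (ZMod 4), Function.Surjective φ ∧ φ.ker = (Cfsg.Inn (Cfsg.POmega F (Cfsg.quadFormMinus m F a b))).subgroupOf (Cfsg.inndiagPOmegaMinus m F a b))) ∧ (¬ (Even m ∧ Fintype.card F % 4 = 3) → (∃ φ : ↥(Cfsg.inndiagPOmegaMinus m F a b) →* Multiplicative (ZMod 2), Function.Surjective φ ∧ φ.ker = (Cfsg.Inn (Cfsg.POmega F (Cfsg.quadFormMinus m F a b))).subgroupOf (Cfsg.inndiagPOmegaMinus m F a b))) := by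
  classical
  have h2 : (2 : F) ≠ 0 := Cfsg.Agent.Lib.Helper15.Spinor2.two_ne_zero_of_odd_card rfl hodd
  have hn : 5 ≤ Fintype.card ((Fin m ⊕ Fin m) ⊕ Fin 2) := by
    rw [Fintype.card_sum, Fintype.card_sum, Fintype.card_fin, Fintype.card_fin]; omega
  have hk : Fintype.card ((Fin m ⊕ Fin m) ⊕ Fin 2) = (m + 1) + (m + 1) := by
    rw [Fintype.card_sum, Fintype.card_sum, Fintype.card_fin, Fintype.card_fin]; omega
  have hQ := Cfsg.Agent.Lib.Helper15.StdForms.minus_nondeg (F := F) m a b hab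
  have hH := Cfsg.Agent.Lib.Helper15.StdHyp.hp2_minus (F := F) m (by omega) a b
  obtain ⟨w, -, hw⟩ := Cfsg.Agent.Lib.Helper15.Witt.exists_nonsing_perp
    (Cfsg.Agent.Lib.Helper15.StdForms.minusQF m F a b) hQ ⊥ (by rw [finrank_bot]; omega)
  have hne : ∃ v, Cfsg.Agent.Lib.Helper15.StdForms.minusQF m F a b v ≠ 0 := ⟨w, hw⟩
  have h0 := Cfsg.Agent.S0791.result (F := F) rfl hodd (m + 1) (by omega) a b hab
  rw [Cfsg.Agent.Lib.Helper15.Spinor2.pow_mod_four_three hodd] at h0
  change (∃ g : ↥(Cfsg.isometryGroup F (Cfsg.quadFormMinus m F a b)),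
      g ∈ Cfsg.Omega F (Cfsg.quadFormMinus m F a b) ∧
      ((g : Matrix.GeneralLinearGroup ((Fin m ⊕ Fin m) ⊕ Fin 2) F) :
        Matrix ((Fin m ⊕ Fin m) ⊕ Fin 2) ((Fin m ⊕ Fin m) ⊕ Fin 2) F) = -1) ↔ _ at h0
  rw [← Cfsg.Agent.Lib.Helper15.StdForms.coe_minusQF] at h0
  have hcl := Cfsg.Agent.Lib.Helper15.MinusPSC.closure_minus_eq h2 a b hab hne
  have key : ((Even m ∧ Fintype.card F % 4 = 3) →
        ∃ φ : ↥(Cfsg.Agent.Lib.Helper15.InnDiag.idg
            (Cfsg.Agent.Lib.Helper15.StdForms.minusQF m F a b) hne (m + 1)) →*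
            Multiplicative (ZMod 4), Function.Surjective φ ∧
          φ.ker = (Cfsg.Inn (Cfsg.POmega F
            ⇑(Cfsg.Agent.Lib.Helper15.StdForms.minusQF m F a b))).subgroupOf
            (Cfsg.Agent.Lib.Helper15.InnDiag.idg
              (Cfsg.Agent.Lib.Helper15.StdForms.minusQF m F a b) hne (m + 1))) ∧
      (¬ (Even m ∧ Fintype.card F % 4 = 3) →
        ∃ φ : ↥(Cfsg.Agent.Lib.Helper15.InnDiag.idg
            (Cfsg.Agent.Lib.Helper15.StdForms.minusQF m F a b) hne (m + 1)) →*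
            Multiplicative (ZMod 2), Function.Surjective φ ∧
          φ.ker = (Cfsg.Inn (Cfsg.POmega F
            ⇑(Cfsg.Agent.Lib.Helper15.StdForms.minusQF m F a b))).subgroupOf
            (Cfsg.Agent.Lib.Helper15.InnDiag.idg
              (Cfsg.Agent.Lib.Helper15.StdForms.minusQF m F a b) hne (m + 1))) := by
    refine ⟨fun hc => ?_, fun hc => ?_⟩
    · apply Cfsg.Agent.Lib.Helper15.MinusDiag.minus_c4 h2 hm hc.1 a b hab hne
      rw [h0]
      rintro (he | he)
      · rw [Nat.even_add_one] at he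
        exact he hc.1
      · exact he hc.2
    · apply Cfsg.Agent.Lib.Helper15.InnDiag.idg_c2 h2 _ hQ hn hH hne (m + 1) hk
      rw [h0]
      intro hcon
      apply hc
      constructor
      · by_contra hme
        apply hcon
        left
        rw [Nat.even_add_one]
        exact hme
      · by_contra h4
        exact hcon (Or.inr h4)
  rw [← hcl] at key
  rw [Cfsg.Agent.Lib.Helper15.StdForms.coe_minusQF] at key
  exact key

end Cfsg.Agent.S2729
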