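import Mathlib
import Cfsg.Statements.S2738

set_option autoImplicit false
open Cfsg

namespace Cfsg.Agent.S2738

open Matrix

theorem conj_central {G : Type*} [Group G] (z k y : G) (h : ∀ g : G, g * z = z * g) :
    z * k * y * (z * k)⁻¹ = k * y * k⁻¹ := by
  calc z * k * y * (z * k)⁻¹ = z * (k * y * k⁻¹) * z⁻¹ := by group
    _ = (k * y * k⁻¹) * z * z⁻¹ := by rw [← h (k * y * k⁻¹)]
    _ = k * y * k⁻¹ := by group

theorem comm_central {G : Type*} [Group G] (z₁ z₂ k₁ k₂ : G) (h1 : ∀ g : G, g * z₁ = z₁ * g)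
    (h2 : ∀ g : G, g * z₂ = z₂ * g) :
    (z₁ * k₁) * (z₂ * k₂) * (z₁ * k₁)⁻¹ * (z₂ * k₂)⁻¹ = k₁ * k₂ * k₁⁻¹ * k₂⁻¹ := by
  rw [conj_central z₁ k₁ (z₂ * k₂) h1]
  calc k₁ * (z₂ * k₂) * k₁⁻¹ * (z₂ * k₂)⁻¹ = (k₁ * z₂) * (k₂ * k₁⁻¹ * k₂⁻¹) * z₂⁻¹ := by group
    _ = (z₂ * k₁) * (k₂ * k₁⁻¹ * k₂⁻¹) * z₂⁻¹ := by rw [h2 k₁]
    _ = z₂ * (k₁ * k₂ * k₁⁻¹ * k₂⁻¹) * z₂⁻¹ := by group
    _ = (k₁ * k₂ * k₁⁻¹ * k₂⁻¹) * z₂ * z₂⁻¹ := by rw [← h2 (k₁ * k₂ * k₁⁻¹ * k₂⁻¹)]
    _ = k₁ * k₂ * k₁⁻¹ * k₂⁻¹ := by group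

theorem result (F : Type*) [Field F] [Fintype F] (hF : Fintype.card F = 4) : Nat.card ↥(Subgroup.center (Matrix.SpecialLinearGroup (Fin 3) F)) = 3 ∧ ¬ ∃ K : Subgroup (Matrix.SpecialLinearGroup (Fin 3) F), Subgroup.IsComplement' (Subgroup.center (Matrix.SpecialLinearGroup (Fin 3) F)) K := by
  classical
  have hpow : ∀ x : F, x ≠ 0 → x ^ 3 = 1 := by
    intro x hx
    have := FiniteField.pow_card_sub_one_eq_one x hx
    rwa [hF] at this
  constructor
  · rw [Nat.card_congr (Matrix.SpecialLinearGroup.center_equiv_rootsOfUnity (n := Fin 3) (R := F)).toEquiv]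
    have h1 : rootsOfUnity (max (Fintype.card (Fin 3)) 1) F = ⊤ := by
      rw [Subgroup.eq_top_iff']
      intro u
      rw [mem_rootsOfUnity]
      apply Units.ext
      simp only [Fintype.card_fin, Units.val_pow_eq_pow_val, Units.val_one]
      exact hpow u u.ne_zero
    rw [h1, Subgroup.card_top, Nat.card_eq_fintype_card, Fintype.card_units, hF]
  · rintro ⟨K, hK⟩
    obtain ⟨x, y, z, hxy, hxz, hyz⟩ := Fintype.two_lt_card_iff.1 (by rw [hF]; norm_num : 2 < Fintype.card F)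
    obtain ⟨ω, hω0, hω1⟩ : ∃ ω : F, ω ≠ 0 ∧ ω ≠ 1 := by
      by_cases hx0 : x = 0
      · by_cases hy1 : y = 1
        · refine ⟨z, ?_, ?_⟩
          · intro h; exact hxz (hx0.trans h.symm)
          · intro h; exact hyz (hy1.trans h.symm)
        · refine ⟨y, ?_, hy1⟩
          intro h; exact hxy (hx0.trans h.symm)
      · by_cases hx1 : x = 1
        · by_cases hy0 : y = 0
          · refine ⟨z, ?_, ?_⟩
            · intro h; exact hyz (hy0.trans h.symm)
            · intro h; exact hxz (hx1.trans h.symm)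
          · refine ⟨y, hy0, ?_⟩
            intro h; exact hxy (hx1.trans h.symm)
        · exact ⟨x, hx0, hx1⟩
    have hω3 : ω ^ 3 = 1 := hpow ω hω0
    have hω2 : ω ^ 2 ≠ 1 := by
      intro h
      apply hω1
      calc ω = ω ^ 3 * (ω ^ 2)⁻¹ := by
            field_simp
        _ = 1 := by rw [hω3, h]; simp
    let a : Matrix.SpecialLinearGroup (Fin 3) F :=
      ⟨!![1, 0, 0; 0, ω, 0; 0, 0, ω ^ 2], by
        rw [Matrix.det_fin_three]
        simp
        linear_combination hω3⟩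
    let b : Matrix.SpecialLinearGroup (Fin 3) F :=
      ⟨!![0, 1, 0; 0, 0, 1; 1, 0, 0], by
        rw [Matrix.det_fin_three]
        simp⟩
    let s : Matrix.SpecialLinearGroup (Fin 3) F :=
      ⟨!![ω ^ 2, 0, 0; 0, ω ^ 2, 0; 0, 0, ω ^ 2], by
        rw [Matrix.det_fin_three]
        simp
        linear_combination (ω ^ 3 + 1) * hω3⟩
    have hrel : a * b = s * (b * a) := by
      apply Subtype.ext
      show (!![1, 0, 0; 0, ω, 0; 0, 0, ω ^ 2] : Matrix (Fin 3) (Fin 3) F) * !![0, 1, 0; 0, 0, 1; 1, 0, 0]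
        = !![ω ^ 2, 0, 0; 0, ω ^ 2, 0; 0, 0, ω ^ 2] * (!![0, 1, 0; 0, 0, 1; 1, 0, 0] * !![1, 0, 0; 0, ω, 0; 0, 0, ω ^ 2])
      ext i j
      fin_cases i <;> fin_cases j <;>
        simp [Matrix.mul_apply, Fin.sum_univ_three] <;>
        first
          | linear_combination (-ω) * hω3
          | linear_combination (-1 : F) * hω3
          | linear_combination hω3
          | linear_combination ω * hω3
    have hs_center : s ∈ Subgroup.center (Matrix.SpecialLinearGroup (Fin 3) F) := by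
      rw [Matrix.SpecialLinearGroup.mem_center_iff]
      refine ⟨ω ^ 2, ?_, ?_⟩
      · simp only [Fintype.card_fin]
        linear_combination (ω ^ 3 + 1) * hω3
      · ext i j
        fin_cases i <;> fin_cases j <;> simp [s]
    have hs1 : s ≠ 1 := by
      intro h
      apply hω2
      have := congrArg (fun M : Matrix.SpecialLinearGroup (Fin 3) F => (M : Matrix (Fin 3) (Fin 3) F) 0 0) h
      simpa [s] using this
    have hcomm : a * b * a⁻¹ * b⁻¹ = s := by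
      rw [hrel]; group
    obtain ⟨⟨z₁, k₁⟩, h1, -⟩ := (Subgroup.isComplement'_def.1 hK).existsUnique a
    obtain ⟨⟨z₂, k₂⟩, h2, -⟩ := (Subgroup.isComplement'_def.1 hK).existsUnique b
    simp only at h1 h2
    have hz1 : ∀ g : Matrix.SpecialLinearGroup (Fin 3) F, g * (z₁ : Matrix.SpecialLinearGroup (Fin 3) F) = z₁ * g :=
      fun g => Subgroup.mem_center_iff.1 z₁.2 g
    have hz2 : ∀ g : Matrix.SpecialLinearGroup (Fin 3) F, g * (z₂ : Matrix.SpecialLinearGroup (Fin 3) F) = z₂ * g :=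
      fun g => Subgroup.mem_center_iff.1 z₂.2 g
    have hsK : s ∈ K := by
      rw [← hcomm, ← h1, ← h2, comm_central _ _ _ _ hz1 hz2]
      exact K.mul_mem (K.mul_mem (K.mul_mem k₁.2 k₂.2) (K.inv_mem k₁.2)) (K.inv_mem k₂.2)
    have hdisj := hK.disjoint
    have : s ∈ (⊥ : Subgroup (Matrix.SpecialLinearGroup (Fin 3) F)) := by
      rw [← disjoint_iff.1 hdisj]
      exact ⟨hs_center, hsK⟩
    exact hs1 (Subgroup.mem_bot.1 this)

end Cfsg.Agent.S2738
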