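import Cfsg.Statements.S2759
import Mathlib

set_option autoImplicit false
open Cfsg

namespace Cfsg.Agent.S2759

theorem inv_of_surj {S Q : Type*} [Group S] [Group Q] (K : Subgroup S) (h : K →* Q)
    (hs : Function.Surjective h) : Cfsg.Involves Q S := by
  have heq : ((h.ker).map K.subtype).subgroupOf K = h.ker :=
    Subgroup.comap_map_eq_self_of_injective K.subtype_injective _
  have hn : (((h.ker).map K.subtype).subgroupOf K).Normal := by rw [heq]; infer_instance
  refine ⟨K, (h.ker).map K.subtype, hn, ⟨?_⟩⟩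
  exact (QuotientGroup.quotientMulEquivOfEq heq).trans (QuotientGroup.quotientKerEquivOfSurjective h hs)

/-- a hom `j : A → Y` and a surjection `θ : A → P` killing `ker j` -/
theorem inv_of_hom {A Y P : Type*} [Group A] [Group Y] [Group P] (j : A →* Y) (θ : A →* P)
    (hθ : Function.Surjective θ) (hk : j.ker ≤ θ.ker) : Cfsg.Involves P Y := by
  refine inv_of_surj j.range
    ((QuotientGroup.lift j.ker θ (fun x hx => hk hx)).comp
      (QuotientGroup.quotientKerEquivRange j).symm.toMonoidHom) ?_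
  intro q
  obtain ⟨a, rfl⟩ := hθ q
  refine ⟨QuotientGroup.quotientKerEquivRange j (QuotientGroup.mk a), ?_⟩
  simp

theorem inv_of_sub {X P : Type*} [Group X] [Group P] (Y : Subgroup X)
    (h : Cfsg.Involves P Y) : Cfsg.Involves P X := by
  obtain ⟨K, R, hR, ⟨e⟩⟩ := h
  exact inv_of_hom (Y.subtype.comp K.subtype) (e.toMonoidHom.comp (QuotientGroup.mk' (R.subgroupOf K)))
    (e.surjective.comp (QuotientGroup.mk'_surjective _))
    (by
      intro x hx
      have : x = 1 := by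
        have h1 : ((x : Y) : X) = 1 := hx
        ext
        simpa using h1
      rw [this]; exact Subgroup.one_mem _)

theorem inv_of_quot {X Xb P : Type*} [Group X] [Group Xb] [Group P] (π : X →* Xb)
    (hπ : Function.Surjective π) (h : Cfsg.Involves P Xb) : Cfsg.Involves P X := by
  obtain ⟨K, R, hR, ⟨e⟩⟩ := h
  refine inv_of_surj (K.comap π)
    ((e.toMonoidHom.comp (QuotientGroup.mk' (R.subgroupOf K))).comp (π.subgroupComap K)) ?_
  exact (e.surjective.comp (QuotientGroup.mk'_surjective _)).comp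
    (π.subgroupComap_surjective_of_surjective K hπ)
def idx : Fin 4 → Fin 4 → Fin 3
  | 0, 1 => 0 | 1, 0 => 0 | 2, 3 => 0 | 3, 2 => 0
  | 0, 2 => 1 | 2, 0 => 1 | 1, 3 => 1 | 3, 1 => 1
  | _, _ => 2

def emb : Fin 3 → Fin 4
  | 0 => 1 | 1 => 2 | 2 => 3

def nuf (σ : Equiv.Perm (Fin 4)) (i : Fin 3) : Fin 3 := idx (σ 0) (σ (emb i))

set_option maxRecDepth 100000 in
theorem nuf_mul : ∀ (σ τ : Equiv.Perm (Fin 4)) (i : Fin 3), nuf (σ * τ) i = nuf σ (nuf τ i) := by
  decide

theorem nuf_one : ∀ i : Fin 3, nuf 1 i = i := by decide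

def nu : Equiv.Perm (Fin 4) →* Equiv.Perm (Fin 3) where
  toFun σ := ⟨nuf σ, nuf σ⁻¹, fun i => by rw [← nuf_mul, inv_mul_cancel, nuf_one],
    fun i => by rw [← nuf_mul, mul_inv_cancel, nuf_one]⟩
  map_one' := by ext i; simp [nuf_one]
  map_mul' σ τ := by ext i; simp [nuf_mul]

theorem nu_apply (σ : Equiv.Perm (Fin 4)) (i : Fin 3) : nu σ i = nuf σ i := rfl

set_option maxRecDepth 100000 in
theorem nu_surj : ∀ q : Equiv.Perm (Fin 3), ∃ σ : Equiv.Perm (Fin 4), ∀ i, nuf σ i = q i := by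
  decide

theorem nu_surjective : Function.Surjective nu := by
  intro q
  obtain ⟨σ, h⟩ := nu_surj q
  exact ⟨σ, Equiv.ext h⟩

theorem nu_eq_one_iff (σ : Equiv.Perm (Fin 4)) : nu σ = 1 ↔ ∀ i, nuf σ i = i := by
  constructor
  · intro h i
    rw [← nu_apply, h]; rfl
  · intro h
    ext i
    rw [nu_apply, h]; rfl

set_option maxRecDepth 100000 in
theorem nu_ker_sq : ∀ σ : Equiv.Perm (Fin 4), (∀ i, nuf σ i = i) → σ * σ = 1 := by
  decide

set_option maxRecDepth 100000 in
theorem nu_ker_cent : ∀ g : Equiv.Perm (Fin 4),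
    (∀ v : Equiv.Perm (Fin 4), (∀ i, nuf v i = i) → g * v = v * g) → ∀ i, nuf g i = i := by
  decide

theorem s3_inv : ∀ τ c : Equiv.Perm (Fin 3), Equiv.Perm.sign τ = -1 → Equiv.Perm.sign c = 1 →
    τ * c⁻¹ * τ⁻¹ = c := by
  decide
theorem fwd {G : Type*} [Group G] [Finite G] (h : Cfsg.Involves (Equiv.Perm (Fin 4)) G) :
    ∃ T : Subgroup G, IsPGroup 2 ↥T ∧ Cfsg.Involves (Equiv.Perm (Fin 3))
      (↥(Subgroup.normalizer (T : Set G)) ⧸ (Subgroup.centralizer (T : Set G)).subgroupOf (Subgroup.normalizer (T : Set G))) := by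
  classical
  obtain ⟨K, R, hR, ⟨e⟩⟩ := h
  haveI : Fact (Nat.Prime 2) := ⟨Nat.prime_two⟩
  set φ : ↥K →* Equiv.Perm (Fin 4) := e.toMonoidHom.comp (QuotientGroup.mk' (R.subgroupOf K)) with hφ
  have hφs : Function.Surjective φ := e.surjective.comp (QuotientGroup.mk'_surjective _)
  set Vt : Subgroup ↥K := (nu.ker).comap φ with hVt
  haveI : Vt.Normal := by rw [hVt]; infer_instance
  set f : ↥Vt →* ↥(nu.ker) := φ.subgroupComap nu.ker with hf
  have hfs : Function.Surjective f := φ.subgroupComap_surjective_of_surjective _ hφs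
  obtain T0 : Sylow 2 ↥Vt := default
  have hker2 : IsPGroup 2 ↥(nu.ker) := by
    intro ⟨v, hv⟩
    refine ⟨1, ?_⟩
    ext
    have := nu_ker_sq v ((nu_eq_one_iff v).mp hv)
    simp [pow_two, this]
  have himg : (T0 : Subgroup ↥Vt).map f = ⊤ := by
    rw [← Subgroup.index_eq_one]
    obtain ⟨n, hn⟩ := hker2.index ((T0 : Subgroup ↥Vt).map f)
    have hd : ((T0 : Subgroup ↥Vt).map f).index ∣ (T0 : Subgroup ↥Vt).index :=
      Subgroup.index_map_dvd _ hfs
    have hnd : ¬ 2 ∣ (T0 : Subgroup ↥Vt).index := T0.not_dvd_index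
    rcases n with _ | n
    · simpa using hn
    · exfalso; apply hnd; exact dvd_trans (by rw [hn, pow_succ]; exact dvd_mul_left 2 _) hd
  set T' : Subgroup ↥K := (T0 : Subgroup ↥Vt).map Vt.subtype with hT'
  have hfr : Subgroup.normalizer (T' : Set ↥K) ⊔ Vt = ⊤ := Sylow.normalizer_sup_eq_top T0
  set T : Subgroup G := T'.map K.subtype with hT
  refine ⟨T, ?_, ?_⟩
  · exact (T0.isPGroup'.map Vt.subtype).map K.subtype
  · have hlift : ∀ v : Equiv.Perm (Fin 4), nu v = 1 → ∃ t : ↥K, t ∈ T' ∧ φ t = v := by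
      intro v hv
      have : (⟨v, hv⟩ : ↥(nu.ker)) ∈ (T0 : Subgroup ↥Vt).map f := by rw [himg]; trivial
      obtain ⟨t, ht, hft⟩ := this
      refine ⟨(t : ↥K), ⟨t, ht, rfl⟩, ?_⟩
      exact congrArg Subtype.val hft
    set N : Subgroup ↥K := Subgroup.normalizer (T' : Set ↥K) with hN
    have hNG : ∀ n : ↥N, ((n : ↥K) : G) ∈ Subgroup.normalizer (T : Set G) := by
      intro n
      have hn : (n : ↥K) ∈ Subgroup.normalizer (T' : Set ↥K) := n.2
      rw [Subgroup.mem_normalizer_iff] at hn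
      rw [Subgroup.mem_normalizer_iff]
      intro h
      constructor
      · rintro ⟨k, hk, rfl⟩
        exact ⟨(n : ↥K) * k * (n : ↥K)⁻¹, (hn k).mp hk, by simp⟩
      · rintro ⟨k, hk, hkeq⟩
        refine ⟨(n : ↥K)⁻¹ * k * (n : ↥K), ?_, ?_⟩
        · apply (hn _).mpr
          have hk' : k ∈ T' := hk
          simpa [mul_assoc] using hk'
        · have hkeq' : (k : G) = ((n : ↥K) : G) * h * ((n : ↥K) : G)⁻¹ := hkeq
          simp [hkeq', mul_assoc]
    set j0 : ↥N →* ↥(Subgroup.normalizer (T : Set G)) :=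
      (K.subtype.comp N.subtype).codRestrict _ hNG with hj0
    set j := (QuotientGroup.mk' ((Subgroup.centralizer (T : Set G)).subgroupOf
      (Subgroup.normalizer (T : Set G)))).comp j0 with hj
    set θ : ↥N →* Equiv.Perm (Fin 3) := (nu.comp φ).comp N.subtype with hθ
    refine inv_of_hom j θ ?_ ?_
    · intro q
      obtain ⟨σ, rfl⟩ := nu_surjective q
      obtain ⟨g, rfl⟩ := hφs σ
      have hg : g ∈ ((Subgroup.normalizer (T' : Set ↥K) ⊔ Vt : Subgroup ↥K) : Set ↥K) := by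
        rw [hfr]; trivial
      rw [Subgroup.mul_normal] at hg
      obtain ⟨n, hn, v, hv, rfl⟩ := hg
      refine ⟨⟨n, hn⟩, ?_⟩
      have hv' : nu (φ v) = 1 := hv
      simp [hθ, hv']
    · intro n hn
      rw [MonoidHom.mem_ker] at hn ⊢
      have hc : ((n : ↥K) : G) ∈ Subgroup.centralizer (T : Set G) := by
        have := (QuotientGroup.eq_one_iff _).mp hn
        exact Subgroup.mem_subgroupOf.mp this
      show nu (φ (n : ↥K)) = 1
      rw [nu_eq_one_iff]
      apply nu_ker_cent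
      intro v hv
      obtain ⟨t, ht, rfl⟩ := hlift v ((nu_eq_one_iff v).mpr hv)
      rw [← map_mul, ← map_mul]
      congr 1
      have htT : ((t : ↥K) : G) ∈ T := ⟨t, ht, rfl⟩
      have := hc _ htT
      ext
      simpa using this.symm
theorem four_mem {X : Type*} [Group X] (x y : X) (hx : x * x = 1) (hy : y * y = 1)
    (hc : y * x = x * y) :
    ∀ g ∈ Subgroup.closure ({x, y} : Set X), g = 1 ∨ g = x ∨ g = y ∨ g = x * y := by
  have hx' : ∀ w, x * (x * w) = w := fun w => by rw [← mul_assoc, hx, one_mul]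
  have hy' : ∀ w, y * (y * w) = w := fun w => by rw [← mul_assoc, hy, one_mul]
  have hc' : ∀ w, y * (x * w) = x * (y * w) := fun w => by rw [← mul_assoc, hc, mul_assoc]
  have hxi : x⁻¹ = x := inv_eq_of_mul_eq_one_right hx
  have hyi : y⁻¹ = y := inv_eq_of_mul_eq_one_right hy
  intro g hg
  induction hg using Subgroup.closure_induction with
  | mem g hg =>
    rcases hg with rfl | rfl
    · right; left; rfl
    · right; right; left; rfl
  | one => left; rfl
  | mul g h _ _ ihg ihh =>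
    rcases ihg with rfl | rfl | rfl | rfl <;> rcases ihh with rfl | rfl | rfl | rfl <;>
      simp [mul_assoc, hx, hy, hc, hx', hc']
  | inv g _ ih =>
    rcases ih with rfl | rfl | rfl | rfl <;> simp [mul_inv_rev, hxi, hyi, hc]

theorem recogV {X : Type*} [Group X] [Finite X] (V E : Subgroup X)
    (hVE : ∀ e ∈ E, ∀ v ∈ V, e * v * e⁻¹ ∈ V)
    (hdisj : ∀ z, z ∈ V → z ∈ E → z = 1) (hcard : Nat.card V = 4)
    (a s : X) (haE : a ∈ E) (hsE : s ∈ E)
    (ha : ∃ i, a ^ 3 ^ i = 1) (hs : ∃ j, s ^ 2 ^ j = 1)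
    (hav : ∃ v ∈ V, a * v * a⁻¹ ≠ v) (hsv : ∃ v ∈ V, s * v * s⁻¹ ≠ v) :
    Cfsg.Involves (Equiv.Perm (Fin 4)) X := by
  classical
  let Y : Subgroup X :=
    { carrier := {y | ∃ v ∈ V, ∃ e ∈ E, y = v * e}
      mul_mem' := by
        rintro _ _ ⟨v, hv, e, he, rfl⟩ ⟨v', hv', e', he', rfl⟩
        exact ⟨v * (e * v' * e⁻¹), V.mul_mem hv (hVE e he v' hv'), e * e', E.mul_mem he he',
          by group⟩
      one_mem' := ⟨1, V.one_mem, 1, E.one_mem, by simp⟩
      inv_mem' := by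
        rintro _ ⟨v, hv, e, he, rfl⟩
        exact ⟨e⁻¹ * v⁻¹ * e⁻¹⁻¹, hVE _ (E.inv_mem he) _ (V.inv_mem hv), e⁻¹, E.inv_mem he,
          by group⟩ }
  have hVY : ∀ v ∈ V, v ∈ Y := fun v hv => ⟨v, hv, 1, E.one_mem, by simp⟩
  have hEY : ∀ e ∈ E, e ∈ Y := fun e he => ⟨1, V.one_mem, e, he, by simp⟩
  let E' : Subgroup ↥Y := E.subgroupOf Y
  let pt : ↥V → ↥Y ⧸ E' := fun v => QuotientGroup.mk (⟨v.1, hVY v.1 v.2⟩ : ↥Y)
  have hpt_inj : Function.Injective pt := by
    intro v v' h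
    have h' := QuotientGroup.eq.mp h
    have h'' : (v.1)⁻¹ * v'.1 ∈ E := Subgroup.mem_subgroupOf.mp h'
    have := hdisj _ (V.mul_mem (V.inv_mem v.2) v'.2) h''
    exact Subtype.ext (inv_mul_eq_one.mp this)
  have hpt_surj : Function.Surjective pt := by
    intro ω
    induction ω using QuotientGroup.induction_on with
    | H y =>
      obtain ⟨v, hv, e, he, hy⟩ := y.2
      refine ⟨⟨v, hv⟩, ?_⟩
      apply QuotientGroup.eq.mpr
      apply Subgroup.mem_subgroupOf.mpr
      show v⁻¹ * (y : X) ∈ E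
      rw [hy, inv_mul_cancel_left]; exact he
  have hΩ : Nat.card (↥Y ⧸ E') = 4 := by
    rw [← hcard]; exact (Nat.card_eq_of_bijective pt ⟨hpt_inj, hpt_surj⟩).symm
  let α : ↥Y →* Equiv.Perm (↥Y ⧸ E') := MulAction.toPermHom ↥Y (↥Y ⧸ E')
  have hact : ∀ (e : X) (he : e ∈ E) (v : ↥V),
      α ⟨e, hEY e he⟩ (pt v) = pt ⟨e * v.1 * e⁻¹, hVE e he v.1 v.2⟩ := by
    intro e he v
    apply QuotientGroup.eq.mpr
    apply Subgroup.mem_subgroupOf.mpr
    show (e * v.1)⁻¹ * (e * v.1 * e⁻¹) ∈ E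
    rw [inv_mul_cancel_left]; exact E.inv_mem he
  have hactV : ∀ (v : ↥V), α ⟨v.1, hVY v.1 v.2⟩ (pt 1) = pt v := by
    intro v
    apply QuotientGroup.eq.mpr
    apply Subgroup.mem_subgroupOf.mpr
    show (v.1 * 1)⁻¹ * v.1 ∈ E
    rw [mul_one, inv_mul_cancel]; exact E.one_mem
  have hfix : ∀ (e : X) (he : e ∈ E), α ⟨e, hEY e he⟩ (pt 1) = pt 1 := by
    intro e he
    rw [hact e he 1]
    congr 1
    ext
    simp
  -- the image
  have horb : MulAction.orbit ↥(α.range) (pt 1) = Set.univ := by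
    apply Set.eq_univ_of_forall
    intro ω
    obtain ⟨v, rfl⟩ := hpt_surj ω
    exact ⟨⟨α ⟨v.1, hVY v.1 v.2⟩, ⟨_, rfl⟩⟩, hactV v⟩
  have hcardI : Nat.card ↥(α.range) = 4 * Nat.card ↥(MulAction.stabilizer ↥(α.range) (pt 1)) := by
    rw [Subgroup.card_eq_card_quotient_mul_card_subgroup (MulAction.stabilizer ↥(α.range) (pt 1)),
      ← Nat.card_congr (MulAction.orbitEquivQuotientStabilizer ↥(α.range) (pt 1)), horb,
      Nat.card_congr (Equiv.Set.univ _), hΩ]
  -- elements of the stabilizer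
  have hord : ∀ (e : X) (he : e ∈ E) (p : ℕ) (hp : p.Prime) (i : ℕ), e ^ p ^ i = 1 →
      (∃ v ∈ V, e * v * e⁻¹ ≠ v) → p ∣ Nat.card ↥(MulAction.stabilizer ↥(α.range) (pt 1)) := by
    intro e he p hp i hpow ⟨v, hv, hne⟩
    let x : ↥(MulAction.stabilizer ↥(α.range) (pt 1)) :=
      ⟨⟨α ⟨e, hEY e he⟩, ⟨_, rfl⟩⟩, hfix e he⟩
    have h1 : orderOf x ∣ Nat.card ↥(MulAction.stabilizer ↥(α.range) (pt 1)) := orderOf_dvd_natCard x
    have h2 : orderOf x = orderOf (α ⟨e, hEY e he⟩) := by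
      rw [← Subgroup.orderOf_coe, ← Subgroup.orderOf_coe]
    have h3 : orderOf (α ⟨e, hEY e he⟩) ∣ p ^ i := by
      apply orderOf_dvd_of_pow_eq_one
      rw [← map_pow]
      have : (⟨e, hEY e he⟩ : ↥Y) ^ p ^ i = 1 := by
        ext
        simpa using hpow
      rw [this, map_one]
    have h4 : α ⟨e, hEY e he⟩ ≠ 1 := by
      intro h
      have h5 := hact e he ⟨v, hv⟩
      rw [h] at h5
      have h6 := hpt_inj h5
      apply hne
      exact (congrArg Subtype.val h6).symm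
    obtain ⟨m, -, hm⟩ := (Nat.dvd_prime_pow hp).mp h3
    rcases m with _ | m
    · exfalso; apply h4; rw [← orderOf_eq_one_iff, hm, pow_zero]
    · have h7 : orderOf x = p ^ (m + 1) := h2.trans hm
      rw [h7] at h1
      exact dvd_trans (dvd_pow_self p (Nat.succ_ne_zero m)) h1
  obtain ⟨i, hi⟩ := ha
  obtain ⟨j, hj⟩ := hs
  have h3 := hord a haE 3 Nat.prime_three i hi hav
  have h2 := hord s hsE 2 Nat.prime_two j hj hsv
  have h6 : 6 ∣ Nat.card ↥(MulAction.stabilizer ↥(α.range) (pt 1)) :=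
    Nat.Coprime.mul_dvd_of_dvd_of_dvd (by norm_num : Nat.Coprime 2 3) h2 h3
  have hpos : 0 < Nat.card ↥(MulAction.stabilizer ↥(α.range) (pt 1)) := Nat.card_pos
  have h24 : 24 ≤ Nat.card ↥(α.range) := by
    rw [hcardI]
    have := Nat.le_of_dvd hpos h6
    omega
  haveI : Finite (↥Y ⧸ E') := Nat.finite_of_card_ne_zero (by rw [hΩ]; norm_num)
  have htop : α.range = ⊤ := by
    apply Subgroup.eq_top_of_le_card
    rw [Nat.card_perm, hΩ]
    exact h24
  let e4 : (↥Y ⧸ E') ≃ Fin 4 := (Finite.equivFin _).trans (finCongr hΩ)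
  refine inv_of_surj Y (e4.permCongrHom.toMonoidHom.comp α) ?_
  exact e4.permCongrHom.surjective.comp (MonoidHom.range_eq_top.mp htop)
theorem mem_norm_of {X : Type*} [Group X] (V : Subgroup X) (g : X)
    (h1 : ∀ v ∈ V, g * v * g⁻¹ ∈ V) (h2 : ∀ v ∈ V, g⁻¹ * v * g ∈ V) :
    g ∈ Subgroup.normalizer (V : Set X) := by
  rw [Subgroup.mem_normalizer_iff]
  intro h
  constructor
  · exact h1 h
  · intro hh
    have := h2 _ hh
    simpa [mul_assoc] using this

theorem recog2 {X : Type*} [Group X] [Finite X] (a s u u₁ : X)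
    (ha : ∃ i, a ^ 3 ^ i = 1) (hs : ∃ j, s ^ 2 ^ j = 1) (hinv : s * a * s⁻¹ = a⁻¹)
    (hu1 : u ≠ 1) (hu2 : u * u = 1) (hc : u₁ * u = u * u₁)
    (hau : a * u * a⁻¹ = u₁) (hau₁ : a * u₁ * a⁻¹ = u * u₁)
    (hsu : s * u * s⁻¹ = u) : Cfsg.Involves (Equiv.Perm (Fin 4)) X := by
  classical
  have h11 : u₁ * u₁ = 1 := by
    rw [← hau]
    calc a * u * a⁻¹ * (a * u * a⁻¹) = a * (u * u) * a⁻¹ := by group
      _ = 1 := by rw [hu2]; group
  have hu₁1 : u₁ ≠ 1 := by
    intro h
    apply hu1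
    rw [h] at hau
    have : u = a⁻¹ * (a * u * a⁻¹) * a := by group
    rw [this, hau]; group
  have hne : u₁ ≠ u := by
    intro h
    apply hu1
    rw [h] at hau₁ hau
    rw [hau, hu2] at hau₁
    exact hau₁
  have hauu : a * (u * u₁) * a⁻¹ = u := by
    calc a * (u * u₁) * a⁻¹ = (a * u * a⁻¹) * (a * u₁ * a⁻¹) := by group
      _ = u₁ * (u * u₁) := by rw [hau, hau₁]
      _ = u * (u₁ * u₁) := by rw [← mul_assoc, hc, mul_assoc]
      _ = u := by rw [h11, mul_one]
  have huu₁1 : u * u₁ ≠ 1 := by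
    intro h
    apply hne
    have : u₁ = u⁻¹ := eq_inv_of_mul_eq_one_right h
    rw [this]; exact inv_eq_of_mul_eq_one_right hu2
  -- inverse conjugations
  have hai_u : a⁻¹ * u * a = u * u₁ := by
    calc a⁻¹ * u * a = a⁻¹ * (a * (u * u₁) * a⁻¹) * a := by rw [hauu]
      _ = u * u₁ := by group
  have hai_u₁ : a⁻¹ * u₁ * a = u := by
    calc a⁻¹ * u₁ * a = a⁻¹ * (a * u * a⁻¹) * a := by rw [hau]
      _ = u := by group
  have hai_uu₁ : a⁻¹ * (u * u₁) * a = u₁ := by
    calc a⁻¹ * (u * u₁) * a = (a⁻¹ * u * a) * (a⁻¹ * u₁ * a) := by group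
      _ = u * u₁ * u := by rw [hai_u, hai_u₁]
      _ = u₁ := by rw [mul_assoc, hc, ← mul_assoc, hu2, one_mul]
  have hsi : s⁻¹ * a * s = a⁻¹ := by
    have : a = s⁻¹ * (s * a * s⁻¹) * s := by group
    rw [hinv] at this
    have h2 : a⁻¹ = (s⁻¹ * a⁻¹ * s)⁻¹ := by rw [← this]
    rw [h2]; group
  have hs_u₁ : s * u₁ * s⁻¹ = u * u₁ := by
    calc s * u₁ * s⁻¹ = s * (a * u * a⁻¹) * s⁻¹ := by rw [hau]
      _ = (s * a * s⁻¹) * (s * u * s⁻¹) * (s * a * s⁻¹)⁻¹ := by group
      _ = a⁻¹ * u * a := by rw [hinv, hsu, inv_inv]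
      _ = u * u₁ := hai_u
  have hs_uu₁ : s * (u * u₁) * s⁻¹ = u₁ := by
    calc s * (u * u₁) * s⁻¹ = (s * u * s⁻¹) * (s * u₁ * s⁻¹) := by group
      _ = u * (u * u₁) := by rw [hsu, hs_u₁]
      _ = u₁ := by rw [← mul_assoc, hu2, one_mul]
  have hsi_u : s⁻¹ * u * s = u := by
    calc s⁻¹ * u * s = s⁻¹ * (s * u * s⁻¹) * s := by rw [hsu]
      _ = u := by group
  have hsi_u₁ : s⁻¹ * u₁ * s = u * u₁ := by
    calc s⁻¹ * u₁ * s = s⁻¹ * (s * (u * u₁) * s⁻¹) * s := by rw [hs_uu₁]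
      _ = u * u₁ := by group
  have hsi_uu₁ : s⁻¹ * (u * u₁) * s = u₁ := by
    calc s⁻¹ * (u * u₁) * s = s⁻¹ * (s * u₁ * s⁻¹) * s := by rw [hs_u₁]
      _ = u₁ := by group
  set V : Subgroup X := Subgroup.closure ({u, u₁} : Set X) with hV
  have huV : u ∈ V := Subgroup.subset_closure (by simp)
  have hu₁V : u₁ ∈ V := Subgroup.subset_closure (by simp)
  have hVmem : ∀ g ∈ V, g = 1 ∨ g = u ∨ g = u₁ ∨ g = u * u₁ := four_mem u u₁ hu2 h11 hc
  have haN : a ∈ Subgroup.normalizer (V : Set X) := by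
    apply mem_norm_of
    · intro v hv
      rcases hVmem v hv with rfl | rfl | rfl | rfl
      · simp
      · rw [hau]; exact hu₁V
      · rw [hau₁]; exact V.mul_mem huV hu₁V
      · rw [hauu]; exact huV
    · intro v hv
      rcases hVmem v hv with rfl | rfl | rfl | rfl
      · simp
      · rw [hai_u]; exact V.mul_mem huV hu₁V
      · rw [hai_u₁]; exact huV
      · rw [hai_uu₁]; exact hu₁V
  have hsN : s ∈ Subgroup.normalizer (V : Set X) := by
    apply mem_norm_of
    · intro v hv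
      rcases hVmem v hv with rfl | rfl | rfl | rfl
      · simp
      · rw [hsu]; exact huV
      · rw [hs_u₁]; exact V.mul_mem huV hu₁V
      · rw [hs_uu₁]; exact hu₁V
    · intro v hv
      rcases hVmem v hv with rfl | rfl | rfl | rfl
      · simp
      · rw [hsi_u]; exact huV
      · rw [hsi_u₁]; exact V.mul_mem huV hu₁V
      · rw [hsi_uu₁]; exact hu₁V
  have hsA : s ∈ Subgroup.normalizer ((Subgroup.zpowers a : Subgroup X) : Set X) := by
    apply mem_norm_of
    · intro v hv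
      obtain ⟨k, rfl⟩ := Subgroup.mem_zpowers_iff.mp hv
      rw [← conj_zpow, hinv]
      exact Subgroup.zpow_mem _ (Subgroup.inv_mem _ (Subgroup.mem_zpowers a)) k
    · intro v hv
      obtain ⟨k, rfl⟩ := Subgroup.mem_zpowers_iff.mp hv
      have : s⁻¹ * a ^ k * s = (s⁻¹ * a * s⁻¹⁻¹) ^ k := by rw [conj_zpow, inv_inv]
      rw [this, inv_inv, hsi]
      exact Subgroup.zpow_mem _ (Subgroup.inv_mem _ (Subgroup.mem_zpowers a)) k
  have haA : a ∈ Subgroup.normalizer ((Subgroup.zpowers a : Subgroup X) : Set X) :=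
    Subgroup.le_normalizer (Subgroup.mem_zpowers a)
  obtain ⟨i, hi⟩ := ha
  refine recogV V (Subgroup.normalizer (V : Set X) ⊓
      Subgroup.normalizer ((Subgroup.zpowers a : Subgroup X) : Set X)) ?_ ?_ ?_ a s
    ⟨haN, haA⟩ ⟨hsN, hsA⟩ ⟨i, hi⟩ hs ⟨u, huV, by rw [hau]; exact hne⟩
    ⟨u₁, hu₁V, by
      rw [hs_u₁]
      intro h
      exact hu1 (mul_eq_right.mp h)⟩
  · intro e he v hv
    exact ((Subgroup.mem_normalizer_iff.mp he.1) v).mp hv
  · intro z hzV hzE
    have hw1 : a * z * a⁻¹ * z⁻¹ ∈ V :=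
      V.mul_mem (((Subgroup.mem_normalizer_iff.mp haN) z).mp hzV) (V.inv_mem hzV)
    have hw2 : a * z * a⁻¹ * z⁻¹ ∈ Subgroup.zpowers a := by
      have : a * z * a⁻¹ * z⁻¹ = a * (z * a⁻¹ * z⁻¹) := by group
      rw [this]
      exact Subgroup.mul_mem _ (Subgroup.mem_zpowers a)
        (((Subgroup.mem_normalizer_iff.mp hzE.2) a⁻¹).mp (Subgroup.inv_mem _ (Subgroup.mem_zpowers a)))
    have hw3 : (a * z * a⁻¹ * z⁻¹) ^ 2 = 1 := by
      rw [pow_two]
      rcases hVmem _ hw1 with h | h | h | h <;> rw [h]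
      · simp
      · exact hu2
      · exact h11
      · calc u * u₁ * (u * u₁) = u * (u₁ * u) * u₁ := by group
          _ = (u * u) * (u₁ * u₁) := by rw [hc]; group
          _ = 1 := by rw [hu2, h11, one_mul]
    have hw4 : (a * z * a⁻¹ * z⁻¹) ^ 3 ^ i = 1 := by
      obtain ⟨k, hk⟩ := Subgroup.mem_zpowers_iff.mp hw2
      rw [← hk, ← zpow_natCast, ← zpow_mul, mul_comm, zpow_mul, zpow_natCast, hi, one_zpow]
    have hw5 : a * z * a⁻¹ * z⁻¹ = 1 := by
      rw [← orderOf_eq_one_iff]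
      have h1 := orderOf_dvd_of_pow_eq_one hw3
      have h2 := orderOf_dvd_of_pow_eq_one hw4
      have h3 : Nat.Coprime (3 ^ i) 2 := Nat.Coprime.pow_left i (by norm_num)
      exact Nat.dvd_one.mp (h3 ▸ Nat.dvd_gcd h2 h1)
    have hz : a * z * a⁻¹ = z := by
      have := mul_inv_eq_one.mp hw5
      exact this
    rcases hVmem z hzV with h | h | h | h
    · exact h
    · exfalso; rw [h, hau] at hz; exact hne hz
    · exfalso; rw [h, hau₁] at hz; exact hu1 (mul_eq_right.mp hz)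
    · exfalso; rw [h, hauu] at hz; exact hu₁1 (mul_eq_left.mp hz.symm)
  · have hset : (V : Set X) = ((({1, u, u₁, u * u₁} : Finset X)) : Set X) := by
      ext g
      constructor
      · intro hg
        rcases hVmem g hg with h | h | h | h <;> simp [h]
      · intro hg
        simp only [Finset.coe_insert, Finset.coe_singleton, Set.mem_insert_iff,
          Set.mem_singleton_iff] at hg
        rcases hg with h | h | h | h <;> rw [h]
        · exact V.one_mem
        · exact huV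
        · exact hu₁V
        · exact V.mul_mem huV hu₁V
    rw [← SetLike.coe_sort_coe, Nat.card_coe_set_eq, hset, Set.ncard_coe_finset]
    rw [Finset.card_insert_of_notMem, Finset.card_insert_of_notMem, Finset.card_insert_of_notMem,
      Finset.card_singleton]
    · simp only [Finset.mem_singleton]
      intro h
      exact hu1 (mul_eq_right.mp h.symm)
    · simp only [Finset.mem_insert, Finset.mem_singleton, not_or]
      exact ⟨fun h => hne h.symm, fun h => hu₁1 (mul_eq_left.mp h.symm)⟩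
    · simp only [Finset.mem_insert, Finset.mem_singleton, not_or]
      exact ⟨fun h => hu1 h.symm, fun h => hu₁1 h.symm, fun h => huu₁1 h.symm⟩
theorem elemE {A : Type*} [Group A] (hc : ∀ x y : A, x * y = y * x) (h2 : ∀ x : A, x * x = 1)
    (f g : MulAut A) (hf3 : f ^ 3 = 1) (j : ℕ) (hg : g ^ 2 ^ j = 1) (hgf : g * f * g⁻¹ = f⁻¹)
    (hnt : ∃ z, f z ≠ z) :
    ∃ u : A, u ≠ 1 ∧ g u = u ∧ u * f u * f (f u) = 1 := by
  haveI : Std.Commutative (α := A) (· * ·) := ⟨hc⟩
  have hf3' : ∀ x, f (f (f x)) = x := by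
    intro x
    have := DFunLike.congr_fun hf3 x
    simpa [pow_succ] using this
  have hgf' : ∀ x, g (f x) = f (f (g x)) := by
    intro x
    have h1 : g * f = f⁻¹ * g := by rw [← hgf]; group
    have h2' : f⁻¹ = f * f := by
      have : f * f * f = 1 := by rw [← hf3, pow_succ, pow_succ, pow_one]
      exact inv_eq_of_mul_eq_one_left this
    rw [h2'] at h1
    have := DFunLike.congr_fun h1 x
    simpa using this
  have hNmul : ∀ x y : A, (x * y) * f (x * y) * f (f (x * y)) =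
      (x * f x * f (f x)) * (y * f y * f (f y)) := by
    intro x y
    simp only [map_mul]
    ac_rfl
  have hNg : ∀ x, x * f x * f (f x) = 1 → g x * f (g x) * f (f (g x)) = 1 := by
    intro x hx
    have e1 : f (f (g x)) = g (f x) := (hgf' x).symm
    have e2 : f (g x) = g (f (f x)) := by
      have := hgf' (f (f x))
      rw [hf3'] at this
      rw [this, hf3']
    rw [e1, e2, ← map_mul, ← map_mul]
    have : x * f (f x) * f x = x * f x * f (f x) := by ac_rfl
    rw [this, hx, map_one]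
  have hNgk : ∀ (k : ℕ) x, x * f x * f (f x) = 1 →
      (g ^ k) x * f ((g ^ k) x) * f (f ((g ^ k) x)) = 1 := by
    intro k
    induction k with
    | zero => intro x hx; simpa using hx
    | succ k ih => intro x hx; rw [pow_succ', MulAut.mul_apply]; exact hNg _ (ih x hx)
  have key : ∀ j : ℕ, ∀ u : A, u ≠ 1 → u * f u * f (f u) = 1 → (g ^ 2 ^ j) u = u →
      ∃ u' : A, u' ≠ 1 ∧ g u' = u' ∧ u' * f u' * f (f u') = 1 := by
    intro j
    induction j with
    | zero => intro u hu hN hfix; exact ⟨u, hu, by simpa using hfix, hN⟩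
    | succ j ih =>
      intro u hu hN hfix
      have hhh : (g ^ 2 ^ j) ((g ^ 2 ^ j) u) = u := by
        have : g ^ 2 ^ (j + 1) = g ^ 2 ^ j * g ^ 2 ^ j := by rw [← pow_add, pow_succ, mul_two]
        rw [this] at hfix
        exact hfix
      by_cases h1 : u * (g ^ 2 ^ j) u = 1
      · have : (g ^ 2 ^ j) u = u := by
          have e := eq_inv_of_mul_eq_one_right h1
          rw [e]; exact inv_eq_of_mul_eq_one_right (h2 u)
        exact ih u hu hN this
      · refine ih (u * (g ^ 2 ^ j) u) h1 ?_ ?_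
        · rw [hNmul, hN, hNgk _ u hN, one_mul]
        · rw [map_mul, hhh, hc]
  obtain ⟨z, hz⟩ := hnt
  have hy1 : z * f z ≠ 1 := by
    intro h
    apply hz
    have e := eq_inv_of_mul_eq_one_right h
    rw [e]; exact inv_eq_of_mul_eq_one_right (h2 z)
  have hyN : (z * f z) * f (z * f z) * f (f (z * f z)) = 1 := by
    rw [map_mul, map_mul, hf3']
    have : z * f z * (f z * f (f z)) * (f (f z) * z) = (z * z) * (f z * f z) * (f (f z) * f (f z)) := by
      ac_rfl
    rw [this, h2 z, h2 (f z), h2 (f (f z)), one_mul, one_mul]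
  exact key j (z * f z) hy1 hyN (by rw [hg]; rfl)
universe u

theorem main_ind (n : ℕ) : ∀ (X : Type u) [Group X] [Finite X] (U : Subgroup X) [U.Normal],
    IsPGroup 2 U → ∀ (a s : X), Nat.card X ≤ n → (∃ i, a ^ 3 ^ i = 1) → (∃ j, s ^ 2 ^ j = 1) →
    s * a * s⁻¹ = a⁻¹ → (∀ x ∈ U, a ^ 3 * x = x * a ^ 3) → (∃ x ∈ U, a * x * a⁻¹ ≠ x) →
    Cfsg.Involves (Equiv.Perm (Fin 4)) X := by
  induction n with
  | zero =>
    intro X _ _ U _ hU a s hn
    exfalso
    have : 0 < Nat.card X := Nat.card_pos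
    omega
  | succ n ih =>
    intro X _ _ U hUn hU a s hn ha hs hinv hcube hnt
    classical
    let Z : Subgroup X :=
      { carrier := {z | z ∈ U ∧ (∀ x ∈ U, z * x = x * z) ∧ z * z = 1}
        mul_mem' := by
          rintro z z' ⟨hz, hzc, hz2⟩ ⟨hz', hzc', hz2'⟩
          refine ⟨U.mul_mem hz hz', ?_, ?_⟩
          · intro x hx
            rw [mul_assoc, hzc' x hx, ← mul_assoc, hzc x hx, mul_assoc]
          · calc z * z' * (z * z') = z * (z' * z) * z' := by group
              _ = z * (z * z') * z' := by rw [hzc' z hz]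
              _ = (z * z) * (z' * z') := by group
              _ = 1 := by rw [hz2, hz2', one_mul]
        one_mem' := ⟨U.one_mem, by simp, by simp⟩
        inv_mem' := by
          rintro z ⟨hz, hzc, hz2⟩
          have : z⁻¹ = z := inv_eq_of_mul_eq_one_right hz2
          show z⁻¹ ∈ U ∧ (∀ x ∈ U, z⁻¹ * x = x * z⁻¹) ∧ z⁻¹ * z⁻¹ = 1
          rw [this]
          exact ⟨hz, hzc, hz2⟩ }
    have hZn : Z.Normal := by
      constructor
      rintro z ⟨hz, hzc, hz2⟩ g
      refine ⟨hUn.conj_mem z hz g, ?_, ?_⟩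
      · intro x hx
        have hx' : g⁻¹ * x * g ∈ U := by
          have := hUn.conj_mem x hx g⁻¹
          simpa using this
        calc g * z * g⁻¹ * x = g * (z * (g⁻¹ * x * g)) * g⁻¹ := by group
          _ = g * ((g⁻¹ * x * g) * z) * g⁻¹ := by rw [hzc _ hx']
          _ = x * (g * z * g⁻¹) := by group
      · calc g * z * g⁻¹ * (g * z * g⁻¹) = g * (z * z) * g⁻¹ := by group
          _ = 1 := by rw [hz2]; group
    have hZc : ∀ z ∈ Z, ∀ z' ∈ Z, z * z' = z' * z := fun z hz z' hz' => hz.2.1 z' hz'.1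
    have hZ2 : ∀ z ∈ Z, z * z = 1 := fun z hz => hz.2.2
    have hZnt : ∃ z ∈ Z, z ≠ 1 := by
      obtain ⟨x, hx, hxne⟩ := hnt
      haveI : Nontrivial ↥U := by
        refine ⟨⟨⟨x, hx⟩, 1, ?_⟩⟩
        intro h
        apply hxne
        have : x = 1 := congrArg Subtype.val h
        rw [this]; group
      haveI : Fact (Nat.Prime 2) := ⟨Nat.prime_two⟩
      haveI := hU.center_nontrivial
      obtain ⟨c, hc⟩ := exists_ne (1 : ↥(Subgroup.center ↥U))
      have hex : ∃ k, (c : ↥U) ^ 2 ^ k = 1 := hU (c : ↥U)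
      have hk0 : Nat.find hex ≠ 0 := by
        intro h0
        have := Nat.find_spec hex
        rw [h0] at this
        apply hc
        ext
        simpa using congrArg Subtype.val this
      obtain ⟨k, hk⟩ := Nat.exists_eq_succ_of_ne_zero hk0
      have hmin : ¬ (c : ↥U) ^ 2 ^ k = 1 := Nat.find_min hex (by omega)
      have hsq : (c : ↥U) ^ 2 ^ k * (c : ↥U) ^ 2 ^ k = 1 := by
        rw [← pow_add, ← two_mul, ← pow_succ', ← Nat.succ_eq_add_one, ← hk]
        exact Nat.find_spec hex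
      have hcen : (c : ↥U) ^ 2 ^ k ∈ Subgroup.center ↥U := Subgroup.pow_mem _ c.2 _
      refine ⟨(((c : ↥U) ^ 2 ^ k : ↥U) : X), ⟨Subtype.property _, ?_, ?_⟩, ?_⟩
      · intro y hy
        have := (Subgroup.mem_center_iff.mp hcen) ⟨y, hy⟩
        exact (congrArg Subtype.val this).symm
      · exact congrArg Subtype.val hsq
      · intro h
        apply hmin
        ext
        exact h
    by_cases hcase : ∀ z ∈ Z, a * z * a⁻¹ = z
    · -- quotient by Z
      have hπ : Function.Surjective (QuotientGroup.mk' Z) := QuotientGroup.mk'_surjective Z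
      have hcardlt : Nat.card (X ⧸ Z) ≤ n := by
        have h1 := Subgroup.card_eq_card_quotient_mul_card_subgroup Z
        have h2 : 2 ≤ Nat.card Z := by
          obtain ⟨z, hz, hz1⟩ := hZnt
          haveI : Nontrivial ↥Z := ⟨⟨⟨z, hz⟩, 1, fun h => hz1 (congrArg Subtype.val h)⟩⟩
          exact Finite.one_lt_card
        have hpos : 0 < Nat.card (X ⧸ Z) := Nat.card_pos
        nlinarith
      apply inv_of_quot (QuotientGroup.mk' Z) hπ
      haveI : (U.map (QuotientGroup.mk' Z)).Normal := Subgroup.Normal.map hUn _ hπ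
      refine ih (X ⧸ Z) (U.map (QuotientGroup.mk' Z)) (hU.map _) (QuotientGroup.mk' Z a)
        (QuotientGroup.mk' Z s) hcardlt ?_ ?_ ?_ ?_ ?_
      · obtain ⟨i, hi⟩ := ha; exact ⟨i, by rw [← map_pow, hi, map_one]⟩
      · obtain ⟨j, hj⟩ := hs; exact ⟨j, by rw [← map_pow, hj, map_one]⟩
      · rw [← map_mul, ← map_inv, ← map_mul, hinv, map_inv]
      · rintro _ ⟨x, hx, rfl⟩
        rw [← map_pow, ← map_mul, ← map_mul, hcube x hx]
      · by_contra hcon
        push Not at hcon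
        obtain ⟨x, hx, hxne⟩ := hnt
        apply hxne
        have hw : a * x * a⁻¹ * x⁻¹ ∈ Z := by
          have := hcon (QuotientGroup.mk' Z x) ⟨x, hx, rfl⟩
          have h' : QuotientGroup.mk' Z (a * x * a⁻¹ * x⁻¹) = 1 := by
            rw [map_mul, map_mul, map_mul, map_inv, map_inv, this, mul_inv_cancel]
          exact (QuotientGroup.eq_one_iff _).mp h'
        have haw : a * (a * x * a⁻¹ * x⁻¹) * a⁻¹ = a * x * a⁻¹ * x⁻¹ := hcase _ hw
        have hww : (a * x * a⁻¹ * x⁻¹) * (a * x * a⁻¹ * x⁻¹) = 1 := hZ2 _ hw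
        have hax : a * x = (a * x * a⁻¹ * x⁻¹) * x * a := by group
        have h2 : (a * a) * x = x * (a * a) := by
          calc a * a * x = a * (a * x) := by group
            _ = a * ((a * x * a⁻¹ * x⁻¹) * x * a) := by rw [← hax]
            _ = (a * (a * x * a⁻¹ * x⁻¹) * a⁻¹) * (a * x) * a := by group
            _ = (a * x * a⁻¹ * x⁻¹) * ((a * x * a⁻¹ * x⁻¹) * x * a) * a := by rw [haw, ← hax]
            _ = ((a * x * a⁻¹ * x⁻¹) * (a * x * a⁻¹ * x⁻¹)) * x * (a * a) := by group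
            _ = x * (a * a) := by rw [hww, one_mul]
        obtain ⟨i, hi⟩ := ha
        have hodd : Odd (3 ^ i) := Odd.pow (by decide)
        obtain ⟨m, hm⟩ := hodd
        have ha_eq : a = (a * a) ^ (m + 1) := by
          rw [← pow_two, ← pow_mul]
          have : 2 * (m + 1) = 3 ^ i + 1 := by omega
          rw [this, pow_succ, hi, one_mul]
        have hcomm : Commute a x := by
          rw [ha_eq]
          exact (Commute.pow_left (show Commute (a * a) x from h2) _)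
        rw [hcomm.eq]; group
    · -- a acts nontrivially on Z
      push Not at hcase
      obtain ⟨z, hz, hzne⟩ := hcase
      haveI := hZn
      have hc : ∀ x y : ↥Z, x * y = y * x := fun x y => Subtype.ext (hZc x.1 x.2 y.1 y.2)
      have h2 : ∀ x : ↥Z, x * x = 1 := fun x => Subtype.ext (hZ2 x.1 x.2)
      obtain ⟨j, hj⟩ := hs
      have hf3 : (MulAut.conjNormal a : MulAut ↥Z) ^ 3 = 1 := by
        rw [← map_pow]
        ext y
        rw [MulAut.conjNormal_apply]
        have := hcube y.1 y.2.1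
        rw [this]; simp
      have hg : (MulAut.conjNormal s : MulAut ↥Z) ^ 2 ^ j = 1 := by
        rw [← map_pow, hj, map_one]
      have hgf : (MulAut.conjNormal s : MulAut ↥Z) * MulAut.conjNormal a *
          (MulAut.conjNormal s)⁻¹ = (MulAut.conjNormal a)⁻¹ := by
        rw [← map_inv, ← map_mul, ← map_mul, hinv, map_inv]
      obtain ⟨u', hu1, hgu, hNu⟩ := elemE hc h2 (MulAut.conjNormal a) (MulAut.conjNormal s)
        hf3 j hg hgf ⟨⟨z, hz⟩, fun h => hzne (by
          have := congrArg Subtype.val h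
          rwa [MulAut.conjNormal_apply] at this)⟩
      have e1 : ((MulAut.conjNormal a u' : ↥Z) : X) = a * (u' : X) * a⁻¹ :=
        MulAut.conjNormal_apply a u'
      have e2 : ((MulAut.conjNormal a (MulAut.conjNormal a u') : ↥Z) : X) =
          a * (a * (u' : X) * a⁻¹) * a⁻¹ := by
        rw [MulAut.conjNormal_apply, e1]
      have e3 : ((MulAut.conjNormal s u' : ↥Z) : X) = s * (u' : X) * s⁻¹ :=
        MulAut.conjNormal_apply s u'
      have hN' : (u' : X) * (a * (u' : X) * a⁻¹) * (a * (a * (u' : X) * a⁻¹) * a⁻¹) = 1 := by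
        rw [← e2, ← e1]
        exact congrArg Subtype.val hNu
      have hu₁Z : a * (u' : X) * a⁻¹ ∈ Z := e1 ▸ Subtype.property _
      refine recog2 a s (u' : X) (a * (u' : X) * a⁻¹) ha ⟨j, hj⟩ hinv ?_ (hZ2 _ u'.2)
        (hZc _ hu₁Z _ u'.2) rfl ?_ ?_
      · intro h
        apply hu1
        ext
        exact h
      · have h3 := eq_inv_of_mul_eq_one_right hN'
        rw [h3]
        exact inv_eq_of_mul_eq_one_right (hZ2 _ (Z.mul_mem u'.2 hu₁Z))
      · rw [← e3, hgu]
theorem main' {X : Type u} [Group X] [Finite X] (U : Subgroup X) [U.Normal] (hU : IsPGroup 2 U)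
    (a s : X) (ha : ∃ i, a ^ 3 ^ i = 1) (hs : ∃ j, s ^ 2 ^ j = 1) (hinv : s * a * s⁻¹ = a⁻¹)
    (hnt : ∃ x ∈ U, a * x * a⁻¹ ≠ x) : Cfsg.Involves (Equiv.Perm (Fin 4)) X := by
  classical
  have hex : ∃ k, ∀ x ∈ U, a ^ 3 ^ k * x = x * a ^ 3 ^ k := by
    obtain ⟨i, hi⟩ := ha
    exact ⟨i, fun x _ => by rw [hi]; simp⟩
  have hk0 : Nat.find hex ≠ 0 := by
    intro h0
    have := Nat.find_spec hex
    rw [h0] at this
    obtain ⟨x, hx, hxne⟩ := hnt
    apply hxne
    have h := this x hx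
    simp only [pow_zero, pow_one] at h
    rw [h]; group
  obtain ⟨k, hk⟩ := Nat.exists_eq_succ_of_ne_zero hk0
  have hmin : ¬ ∀ x ∈ U, a ^ 3 ^ k * x = x * a ^ 3 ^ k := Nat.find_min hex (by omega)
  push Not at hmin
  obtain ⟨x, hx, hxne⟩ := hmin
  refine main_ind (Nat.card X) X U hU (a ^ 3 ^ k) s le_rfl ?_ hs ?_ ?_ ⟨x, hx, ?_⟩
  · obtain ⟨i, hi⟩ := ha
    exact ⟨i, by rw [← pow_mul, mul_comm, pow_mul, hi, one_pow]⟩
  · rw [← conj_pow, hinv, inv_pow]
  · have := Nat.find_spec hex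
    rw [hk] at this
    intro y hy
    rw [← pow_mul, ← pow_succ]
    exact this y hy
  · intro h
    apply hxne
    exact mul_inv_eq_iff_eq_mul.mp h
theorem c3_facts : Equiv.Perm.sign (Equiv.swap (0 : Fin 3) 1 * Equiv.swap 1 2) = 1 ∧
    (Equiv.swap (0 : Fin 3) 1 * Equiv.swap 1 2) ^ 3 = 1 ∧
    (Equiv.swap (0 : Fin 3) 1 * Equiv.swap 1 2) ≠ 1 ∧
    Equiv.Perm.sign (Equiv.swap (0 : Fin 3) 1) = -1 := by
  decide

theorem step_i {H : Type*} [Group H] [Finite H] (θ : H →* Equiv.Perm (Fin 3))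
    (hθ : Function.Surjective θ) :
    ∃ a s : H, (∃ i, a ^ 3 ^ i = 1) ∧ (∃ j, s ^ 2 ^ j = 1) ∧ s * a * s⁻¹ = a⁻¹ ∧ θ a ≠ 1 := by
  classical
  haveI : Fact (Nat.Prime 3) := ⟨Nat.prime_three⟩
  obtain ⟨hc_sign, hc3, hc1, hτ⟩ := c3_facts
  set c : Equiv.Perm (Fin 3) := Equiv.swap (0 : Fin 3) 1 * Equiv.swap 1 2 with hc
  have hcord : orderOf c = 3 := orderOf_eq_prime hc3 hc1
  set L : Subgroup H := (Equiv.Perm.sign.comp θ).ker with hL
  have hLmem : ∀ x : H, x ∈ L ↔ Equiv.Perm.sign (θ x) = 1 := fun x => by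
    rw [hL, MonoidHom.mem_ker]; rfl
  -- the 3-element d
  obtain ⟨x₃, hx₃⟩ := hθ c
  obtain ⟨k, m, hm, hkm⟩ := Nat.exists_eq_pow_mul_and_not_dvd (orderOf_pos x₃).ne' 3 (by norm_num)
  have hd3 : (x₃ ^ m) ^ 3 ^ k = 1 := by
    rw [← pow_mul, mul_comm, ← hkm, pow_orderOf_eq_one]
  have hdθ : θ (x₃ ^ m) ≠ 1 := by
    rw [map_pow, hx₃]
    intro h
    apply hm
    rw [← hcord]
    exact orderOf_dvd_of_pow_eq_one h
  have hdL : x₃ ^ m ∈ L := by
    rw [hLmem, map_pow, hx₃, map_pow, hc_sign, one_pow]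
  -- Sylow 3-subgroup of L containing d
  have hzp : IsPGroup 3 ↥(Subgroup.zpowers (⟨x₃ ^ m, hdL⟩ : ↥L)) := by
    have h1 : orderOf (⟨x₃ ^ m, hdL⟩ : ↥L) ∣ 3 ^ k := by
      apply orderOf_dvd_of_pow_eq_one
      ext
      simpa using hd3
    obtain ⟨e, -, he⟩ := (Nat.dvd_prime_pow Nat.prime_three).mp h1
    exact IsPGroup.of_card (n := e) (by rw [Nat.card_zpowers, he])
  obtain ⟨P, hP⟩ := hzp.exists_le_sylow
  set D : Subgroup H := (P : Subgroup ↥L).map L.subtype with hD
  have hDp : IsPGroup 3 ↥D := P.isPGroup'.map L.subtype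
  have hdD : x₃ ^ m ∈ D := ⟨⟨x₃ ^ m, hdL⟩, hP (Subgroup.mem_zpowers _), rfl⟩
  have hDL : D ≤ L := by
    rintro _ ⟨y, -, rfl⟩
    exact y.2
  have hfr : Subgroup.normalizer (D : Set H) ⊔ L = ⊤ := Sylow.normalizer_sup_eq_top P
  -- an element of the normalizer outside L
  obtain ⟨y₀, hy₀⟩ := hθ (Equiv.swap (0 : Fin 3) 1)
  have hy₀L : y₀ ∉ L := by
    rw [hLmem, hy₀, hτ]; decide
  have hex : ∃ x ∈ Subgroup.normalizer (D : Set H), x ∉ L := by
    by_contra hcon
    push Not at hcon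
    have hle : Subgroup.normalizer (D : Set H) ≤ L := hcon
    rw [sup_eq_right.mpr hle] at hfr
    apply hy₀L
    rw [hfr]; trivial
  obtain ⟨x, hxN, hxL⟩ := hex
  obtain ⟨k', m', hm', hkm'⟩ := Nat.exists_eq_two_pow_mul_odd (orderOf_pos x).ne'
  have ht2 : (x ^ m') ^ 2 ^ k' = 1 := by
    rw [← pow_mul, mul_comm, ← hkm', pow_orderOf_eq_one]
  have htN : x ^ m' ∈ Subgroup.normalizer (D : Set H) := Subgroup.pow_mem _ hxN _
  have htsign : Equiv.Perm.sign (θ (x ^ m')) = -1 := by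
    have h1 : Equiv.Perm.sign (θ x) = -1 := by
      rcases Int.units_eq_one_or (Equiv.Perm.sign (θ x)) with h | h
      · exact absurd ((hLmem x).mpr h) hxL
      · exact h
    rw [map_pow, map_pow, h1, hm'.neg_one_pow]
  set t := x ^ m' with ht
  set q := θ (x₃ ^ m) with hq
  have hqsign : Equiv.Perm.sign q = 1 := (hLmem _).mp hdL
  have htiN : t⁻¹ ∈ Subgroup.normalizer (D : Set H) := Subgroup.inv_mem _ htN
  have htisign : Equiv.Perm.sign (θ t⁻¹) = -1 := by
    rw [map_inv, map_inv, htsign]; rfl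
  -- the permutation of the coset
  let ψ : Equiv.Perm {w : H // w ∈ D ∧ θ w = q} :=
    { toFun := fun w => ⟨t * w.1⁻¹ * t⁻¹,
        ((Subgroup.mem_normalizer_iff.mp htN) _).mp (D.inv_mem w.2.1), by
          rw [map_mul, map_mul, map_inv, map_inv, w.2.2]
          exact s3_inv _ _ htsign hqsign⟩
      invFun := fun w => ⟨t⁻¹ * w.1⁻¹ * t⁻¹⁻¹,
        ((Subgroup.mem_normalizer_iff.mp htiN) _).mp (D.inv_mem w.2.1), by
          rw [map_mul, map_mul, map_inv (f := θ) w.1, map_inv (f := θ) t⁻¹, w.2.2]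
          exact s3_inv _ _ htisign hqsign⟩
      left_inv := fun w => by
        apply Subtype.ext
        show t⁻¹ * (t * w.1⁻¹ * t⁻¹)⁻¹ * t⁻¹⁻¹ = w.1
        group
      right_inv := fun w => by
        apply Subtype.ext
        show t * (t⁻¹ * w.1⁻¹ * t⁻¹⁻¹)⁻¹ * t⁻¹ = w.1
        group }
  have hψ2 : ∀ (n : ℕ) (w : {w : H // w ∈ D ∧ θ w = q}),
      (((ψ * ψ) ^ n) w).1 = (t * t) ^ n * w.1 * ((t * t) ^ n)⁻¹ := by
    intro n
    induction n with
    | zero => intro w; simp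
    | succ n ih =>
      intro w
      rw [pow_succ', Equiv.Perm.mul_apply, Equiv.Perm.mul_apply]
      show t * (t * (((ψ * ψ) ^ n) w).1⁻¹ * t⁻¹)⁻¹ * t⁻¹ = _
      rw [ih w, pow_succ']
      generalize (t * t) ^ n = g
      group
  have hψpow : ψ ^ 2 ^ (k' + 1) = 1 := by
    ext w
    rw [pow_succ', pow_mul, pow_two, hψ2]
    have : (t * t) ^ 2 ^ k' = 1 := by
      rw [← pow_two, ← pow_mul, mul_comm, pow_mul, ht2, one_pow]
    rw [this]; simp
  -- the coset has odd size
  haveI : Fintype {w : H // w ∈ D ∧ θ w = q} := Fintype.ofFinite _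
  have hcardodd : ¬ 2 ∣ Fintype.card {w : H // w ∈ D ∧ θ w = q} := by
    have hequiv : {w : H // w ∈ D ∧ θ w = q} ≃ ↥(D ⊓ θ.ker) :=
      { toFun := fun w => ⟨(x₃ ^ m)⁻¹ * w.1, D.mul_mem (D.inv_mem hdD) w.2.1, by
          show θ ((x₃ ^ m)⁻¹ * w.1) = 1
          rw [map_mul, map_inv, w.2.2, ← hq, inv_mul_cancel]⟩
        invFun := fun v => ⟨x₃ ^ m * v.1, D.mul_mem hdD v.2.1, by
          have hv : θ v.1 = 1 := v.2.2
          rw [map_mul, hv, mul_one]⟩
        left_inv := fun w => by apply Subtype.ext; simp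
        right_inv := fun v => by apply Subtype.ext; simp }
    have hp : IsPGroup 3 ↥(D ⊓ θ.ker) := hDp.to_le inf_le_left
    obtain ⟨e, he⟩ := (IsPGroup.iff_card).mp hp
    rw [← Nat.card_eq_fintype_card, Nat.card_congr hequiv, he]
    intro h2
    have := (Nat.Prime.dvd_of_dvd_pow Nat.prime_two h2)
    omega
  haveI : Fact (Nat.Prime 2) := ⟨Nat.prime_two⟩
  obtain ⟨w, hw⟩ := Equiv.Perm.exists_fixed_point_of_prime hcardodd hψpow
  have hw' : t * w.1⁻¹ * t⁻¹ = w.1 := congrArg Subtype.val hw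
  refine ⟨w.1, t, ?_, ⟨k', ht2⟩, ?_, ?_⟩
  · obtain ⟨i, hi⟩ := hDp ⟨w.1, w.2.1⟩
    exact ⟨i, by simpa using congrArg Subtype.val hi⟩
  · have : t * w.1 * t⁻¹ = (t * w.1⁻¹ * t⁻¹)⁻¹ := by group
    rw [this, hw']
  · rw [w.2.2]; exact hdθ
theorem bwd {G : Type*} [Group G] [Finite G] (T : Subgroup G) (hT : IsPGroup 2 ↥T)
    (h : Cfsg.Involves (Equiv.Perm (Fin 3))
      (↥(Subgroup.normalizer (T : Set G)) ⧸ (Subgroup.centralizer (T : Set G)).subgroupOf
        (Subgroup.normalizer (T : Set G)))) :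
    Cfsg.Involves (Equiv.Perm (Fin 4)) G := by
  classical
  obtain ⟨K, R, hR, ⟨e⟩⟩ := h
  have hθs : Function.Surjective ((e.toMonoidHom.comp (QuotientGroup.mk' (R.subgroupOf K))).comp
      ((QuotientGroup.mk' ((Subgroup.centralizer (T : Set G)).subgroupOf
        (Subgroup.normalizer (T : Set G)))).subgroupComap K)) :=
    (e.surjective.comp (QuotientGroup.mk'_surjective _)).comp
      (MonoidHom.subgroupComap_surjective_of_surjective _ K (QuotientGroup.mk'_surjective _))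
  obtain ⟨a, s, ha, hs, hinv, hane⟩ := step_i _ hθs
  apply inv_of_sub (Subgroup.normalizer (T : Set G))
  refine main' (T.subgroupOf (Subgroup.normalizer (T : Set G))) hT.comap_subtype
    (a : ↥(Subgroup.normalizer (T : Set G))) (s : ↥(Subgroup.normalizer (T : Set G))) ?_ ?_ ?_ ?_
  · obtain ⟨i, hi⟩ := ha
    exact ⟨i, by
      have := congrArg Subtype.val hi
      simpa using this⟩
  · obtain ⟨j, hj⟩ := hs
    exact ⟨j, by
      have := congrArg Subtype.val hj
      simpa using this⟩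
  · have := congrArg Subtype.val hinv
    simpa using this
  · by_contra hcon
    push Not at hcon
    apply hane
    have haC : (a : ↥(Subgroup.normalizer (T : Set G))) ∈
        (Subgroup.centralizer (T : Set G)).subgroupOf (Subgroup.normalizer (T : Set G)) := by
      rw [Subgroup.mem_subgroupOf, Subgroup.mem_centralizer_iff]
      intro t ht
      have htN : t ∈ Subgroup.normalizer (T : Set G) := Subgroup.le_normalizer ht
      have h1 := hcon ⟨t, htN⟩ (Subgroup.mem_subgroupOf.mpr ht)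
      have h2 : ((a : ↥(Subgroup.normalizer (T : Set G))) : G) * t *
          ((a : ↥(Subgroup.normalizer (T : Set G))) : G)⁻¹ = t := congrArg Subtype.val h1
      exact (mul_inv_eq_iff_eq_mul.mp h2).symm
    have h3 : ((QuotientGroup.mk' ((Subgroup.centralizer (T : Set G)).subgroupOf
        (Subgroup.normalizer (T : Set G)))).subgroupComap K) a = 1 := by
      apply Subtype.ext
      exact (QuotientGroup.eq_one_iff _).mpr haC
    rw [MonoidHom.comp_apply, h3, map_one]

/-- For a finite group G, the symmetric group of degree 4 is involved in G if and only if there is a 2-subgroup T of G such that the symmetric group of degree 3 is involved in N(T)/C(T). -/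
theorem result {G : Type*} [Group G] [Finite G] : Cfsg.Involves (Equiv.Perm (Fin 4)) G ↔ ∃ T : Subgroup G, IsPGroup 2 ↥T ∧ Cfsg.Involves (Equiv.Perm (Fin 3)) (↥(Subgroup.normalizer (T : Set G)) ⧸ (Subgroup.centralizer (T : Set G)).subgroupOf (Subgroup.normalizer (T : Set G))) := by
  constructor
  · exact fwd
  · rintro ⟨T, hT, h⟩
    exact bwd T hT h

end Cfsg.Agent.S2759
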