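import Cfsg.Statements.S2760
import Cfsg.Agent.Lib.Helper16.Basic
import Cfsg.Agent.Lib.Helper17.CharP2
import Cfsg.Agent.Lib.Helper16.CharP

set_option autoImplicit false
open Cfsg

namespace Cfsg.Agent.S2760

/-- Let G be a finite group with C_G(O₂(G)) ≤ O₂(G) and H a subgroup of G such that H is normal in G, or the subgroup O²(H) generated by the elements of H of odd order is normal in G. Then C_H(O₂(H)) ≤ O₂(H). -/
theorem result {G : Type*} [Group G] [Finite G] (hchar : Subgroup.centralizer (Cfsg.pCore 2 G : Set G) ≤ Cfsg.pCore 2 G) (H : Subgroup G) (hH : H.Normal ∨ ((Cfsg.pResidual 2 ↥H).map H.subtype).Normal) : Subgroup.centralizer (Cfsg.pCore 2 ↥H : Set ↥H) ≤ Cfsg.pCore 2 ↥H := by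
  open Cfsg.Agent.Lib.Helper16.Basic in
  haveI : Fact (Nat.Prime 2) := ⟨Nat.prime_two⟩
  rcases hH with hH | hH
  · exact Cfsg.Agent.Lib.Helper17.CharP2.charp_of_normal hchar H
      (by rw [Subgroup.normalizer_eq_top]; exact le_top)
  · generalize hK : (Cfsg.pResidual 2 ↥H).map H.subtype = K at hH
    have hKH : K ≤ H := by rw [← hK]; exact Subgroup.map_subtype_le _
    have hKc := Cfsg.Agent.Lib.Helper17.CharP2.charp_of_normal hchar K
      (by rw [Subgroup.normalizer_eq_top]; exact le_top)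
    apply Cfsg.Agent.Lib.Helper17.CharP.charp_of_coprime_trivial
    intro x hx hxo
    have hxR : x ∈ Cfsg.pResidual 2 ↥H := Subgroup.subset_closure hxo
    have hxK : (x : G) ∈ K := by rw [← hK]; exact ⟨x, hxR, rfl⟩
    have hHn : H ≤ Subgroup.normalizer ((((pCore 2 ↥K).map K.subtype : Subgroup G)) : Set G) := by
      intro h _
      have h1 : h ∈ Subgroup.normalizer (K : Set G) := by
        rw [Subgroup.normalizer_eq_top]; exact Subgroup.mem_top h
      exact Cfsg.Agent.Lib.Helper16.CharP.normalizer_le_normalizer_pCoreOf (p := 2) K h1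
    have h1 : (⟨(x : G), hxK⟩ : K) ∈ Subgroup.centralizer (Cfsg.pCore 2 ↥K : Set ↥K) := by
      rw [Subgroup.mem_centralizer_iff]
      intro d hd
      have hdH : (d : G) ∈ H := hKH d.2
      have hdN : (d : G) ∈ (pCore 2 ↥K).map K.subtype := ⟨d, hd, rfl⟩
      have h3 : (⟨(d : G), hdH⟩ : H) ∈ Cfsg.pCore 2 ↥H :=
        Cfsg.Agent.Lib.Helper17.CharP.mem_pCore_of_mem (pCoreOf_isPGroup) hHn ⟨d, hdH⟩ hdN
      have h4 := Subgroup.mem_centralizer_iff.1 hx _ h3
      apply Subtype.ext
      have h5 := congrArg Subtype.val h4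
      simpa using h5
    have h2 := hKc h1
    obtain ⟨k, hk⟩ := (pCore_isPGroup (p := 2) (G := ↥K)) ⟨_, h2⟩
    have h6 : (x : G) ^ 2 ^ k = 1 := by
      have := congrArg (fun z : ↥(pCore 2 ↥K) => ((z : ↥K) : G)) hk
      simpa using this
    have h7 : (x : G) ^ orderOf x = 1 := by
      rw [← Subgroup.orderOf_coe]; exact pow_orderOf_eq_one _
    have h8 : (x : G) = 1 :=
      eq_one_of_pow_eq_one_of_coprime h7 h6 (Nat.Coprime.pow_right k hxo)
    exact Subtype.ext h8

end Cfsg.Agent.S2760
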