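import Cfsg.Statements.S2761
import Mathlib
import Cfsg.Agent.Lib.Helper13.QdAlt

set_option autoImplicit false
open Cfsg

namespace Cfsg.Agent.S2761
open Cfsg.Agent.Lib.Helper13.QdAlt

/-- The group Qd(2), the natural semidirect product of an elementary abelian group of order 4 by SL₂(2) (realised as the affine subgroup of SL₃(2)), is isomorphic to the symmetric group of degree 4. -/
theorem result : Nonempty (↥(Cfsg.qd 2) ≃* Equiv.Perm (Fin 4)) := by
  classical
  have : NeZero 2 := ⟨by norm_num⟩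
  have hinj := rho_injective 2
  have hcardY : Fintype.card (Y 2) = 4 := by rw [card_Y]; norm_num
  have hcardP : Nat.card (Equiv.Perm (Y 2)) = 24 := by
    rw [Nat.card_eq_fintype_card, Fintype.card_perm, hcardY]; rfl
  have hdvd : Nat.card (Cfsg.qd 2) ∣ 24 := by
    rw [← hcardP]; exact Subgroup.card_dvd_of_injective (rho 2) hinj
  let φ : ZMod 2 × ZMod 2 × ZMod 2 × ZMod 2 → Cfsg.qd 2 := fun t =>
    ⟨hE t.1 t.2.1 t.2.2.1, hE_mem _ _ _⟩ * ⟨lE t.2.2.2, lE_mem _⟩
  have hφ : Function.Injective φ := by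
    rintro ⟨s1, s2, s3, s4⟩ ⟨t1, t2, t3, t4⟩ hst
    have h : (hE s1 s2 s3).1 * (lE s4).1 = (hE t1 t2 t3).1 * (lE t4).1 :=
      congrArg (fun M : Cfsg.qd 2 => M.1.1) hst
    have e01 := congrFun (congrFun h 0) 1
    have e02 := congrFun (congrFun h 0) 2
    have e12 := congrFun (congrFun h 1) 2
    have e10 := congrFun (congrFun h 1) 0
    simp [hE, lE, Matrix.mul_apply, Fin.sum_univ_three] at e01 e02 e12 e10
    simp only [Prod.mk.injEq]
    exact ⟨e01, e02, e12, e10⟩
  have hge : 16 ≤ Nat.card (Cfsg.qd 2) := by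
    have h1 := Nat.card_le_card_of_injective φ hφ
    have h2 : Nat.card (ZMod 2 × ZMod 2 × ZMod 2 × ZMod 2) = 16 := by
      simp [Nat.card_eq_fintype_card, ZMod.card]
    omega
  have hcard : Nat.card (Cfsg.qd 2) = 24 := by
    obtain ⟨k, hk⟩ := hdvd
    have hk2 : k < 2 := by
      by_contra hcon
      push Not at hcon
      have := Nat.mul_le_mul hge hcon
      omega
    interval_cases k <;> omega
  have hbij : Function.Bijective (rho 2) := by
    rw [Nat.bijective_iff_injective_and_card]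
    exact ⟨hinj, by rw [hcard, hcardP]⟩
  exact ⟨(MulEquiv.ofBijective (rho 2) hbij).trans
    (Equiv.permCongrHom (Fintype.equivFinOfCardEq hcardY))⟩

end Cfsg.Agent.S2761
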