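import Cfsg.Statements.S2762
import Cfsg.Agent.Lib.Helper16.QdOver

set_option autoImplicit false
open Cfsg

namespace Cfsg.Agent.S2762

open Cfsg Cfsg.Agent.Lib.Helper16.QdOver

/-- Structure of Qd over a finite field F of characteristic p (the affine subgroup of SL₃(F)): its largest normal p-subgroup is the group of translations (matrices with upper-left block the identity), the block-diagonal matrices form a complement isomorphic to SL₂(F), and the translation subgroup is a natural SL₂(F)-module for that complement. -/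
theorem result {F : Type*} [Field F] [Fintype F] {p : ℕ} [Fact p.Prime] [CharP F p] : (∀ M : ↥(Cfsg.qdOver F), M ∈ Cfsg.pCore p ↥(Cfsg.qdOver F) ↔ ((M : Matrix.SpecialLinearGroup (Fin 3) F) : Matrix (Fin 3) (Fin 3) F) 0 0 = 1 ∧ ((M : Matrix.SpecialLinearGroup (Fin 3) F) : Matrix (Fin 3) (Fin 3) F) 0 1 = 0 ∧ ((M : Matrix.SpecialLinearGroup (Fin 3) F) : Matrix (Fin 3) (Fin 3) F) 1 0 = 0 ∧ ((M : Matrix.SpecialLinearGroup (Fin 3) F) : Matrix (Fin 3) (Fin 3) F) 1 1 = 1) ∧ ∃ K : Subgroup ↥(Cfsg.qdOver F), (∀ M : ↥(Cfsg.qdOver F), M ∈ K ↔ ((M : Matrix.SpecialLinearGroup (Fin 3) F) : Matrix (Fin 3) (Fin 3) F) 0 2 = 0 ∧ ((M : Matrix.SpecialLinearGroup (Fin 3) F) : Matrix (Fin 3) (Fin 3) F) 1 2 = 0) ∧ K ⊓ Cfsg.pCore p ↥(Cfsg.qdOver F) = ⊥ ∧ K ⊔ Cfsg.pCore p ↥(Cfsg.qdOver F) = ⊤ ∧ Nonempty (↥K ≃* Matrix.SpecialLinearGroup (Fin 2) F) ∧ Cfsg.IsNaturalSL2Module F (Cfsg.pCore p ↥(Cfsg.qdOver F)) K := by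
  classical
  have hcore := pCore_eq_ker (F := F) p
  have hmem : ∀ M : Cfsg.qdOver F, M ∈ Cfsg.pCore p (Cfsg.qdOver F) ↔ blk M = 1 := by
    intro M; rw [hcore, MonoidHom.mem_ker]
  refine ⟨fun M => (hmem M).trans (blk_eq_one_iff M), ?_⟩
  obtain ⟨K, hK⟩ : ∃ K : Subgroup (Cfsg.qdOver F),
      ∀ M, M ∈ K ↔ M.1.1 0 2 = 0 ∧ M.1.1 1 2 = 0 :=
    ⟨{ carrier := {M | M.1.1 0 2 = 0 ∧ M.1.1 1 2 = 0}
       mul_mem' := by
         rintro M N ⟨m0, m1⟩ ⟨n0, n1⟩
         refine ⟨?_, ?_⟩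
         · show (M * N).1.1 0 2 = 0
           rw [mul_entry, n0, n1, m0]; ring
         · show (M * N).1.1 1 2 = 0
           rw [mul_entry, n0, n1, m1]; ring
       one_mem' := by
         refine ⟨?_, ?_⟩
         · show (1 : Cfsg.qdOver F).1.1 0 2 = 0
           rw [coe_one2]; simp
         · show (1 : Cfsg.qdOver F).1.1 1 2 = 0
           rw [coe_one2]; simp
       inv_mem' := by
         rintro M ⟨m0, m1⟩
         have h : M⁻¹ * M = 1 := inv_mul_cancel M
         have e0 : (M⁻¹ * M).1.1 0 2 = 0 := by rw [h, coe_one2]; simp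
         have e1 : (M⁻¹ * M).1.1 1 2 = 0 := by rw [h, coe_one2]; simp
         rw [mul_entry, m0, m1, (row2 M).2.2] at e0 e1
         refine ⟨?_, ?_⟩
         · show (M⁻¹).1.1 0 2 = 0
           linear_combination e0
         · show (M⁻¹).1.1 1 2 = 0
           linear_combination e1 }, fun M => Iff.rfl⟩
  have hKker : ∀ M : Cfsg.qdOver F, M ∈ K → blk M = 1 → M = 1 := by
    intro M hM hb
    obtain ⟨m0, m1⟩ := (hK M).mp hM
    rw [eq_tr_of_blk M hb, m0, m1]
    have h0 : (![0, 0] : Fin 2 → F) = 0 := by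
      ext i; fin_cases i <;> rfl
    rw [h0, tr_zero]
  have hdgK : ∀ A, dg A ∈ K := fun A => (hK _).mpr ⟨dg_02 A, dg_12 A⟩
  have hinj : Function.Injective (blk.comp K.subtype) := by
    rw [injective_iff_map_eq_one]
    intro M hM
    apply Subtype.ext
    exact hKker M.1 M.2 hM
  have hsurj : Function.Surjective (blk.comp K.subtype) := by
    intro A
    exact ⟨⟨dg A, hdgK A⟩, blk_dg A⟩
  have hadd : ∀ v w : Cfsg.qdOver F, blk v = 1 →
      (v * w).1.1 0 2 = v.1.1 0 2 + w.1.1 0 2 ∧ (v * w).1.1 1 2 = v.1.1 1 2 + w.1.1 1 2 := by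
    intro v w hv
    obtain ⟨h00, h01, h10, h11⟩ := (blk_eq_one_iff v).mp hv
    rw [mul_entry, mul_entry, h00, h01, h10, h11, (row2 w).2.2]
    constructor <;> ring
  have hψ : ∃ ψ : Additive ↥(Cfsg.pCore p ↥(Cfsg.qdOver F)) ≃+ (Fin 2 → F),
      ∀ v : ↥(Cfsg.pCore p ↥(Cfsg.qdOver F)),
        ψ (Additive.ofMul v) = ![v.1.1.1 0 2, v.1.1.1 1 2] := by
    refine ⟨{ toFun := fun v => ![(Additive.toMul v).1.1.1 0 2, (Additive.toMul v).1.1.1 1 2]
              invFun := fun z => Additive.ofMul ⟨tr z, (hmem _).mpr (blk_tr z)⟩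
              left_inv := ?_
              right_inv := ?_
              map_add' := ?_ }, fun v => rfl⟩
    · intro v
      apply Additive.toMul.injective
      apply Subtype.ext
      exact (eq_tr_of_blk _ ((hmem _).mp (Additive.toMul v).2)).symm
    · intro z
      ext i
      fin_cases i <;> rfl
    · intro v w
      obtain ⟨a0, a1⟩ := hadd (Additive.toMul v).1 (Additive.toMul w).1
        ((hmem _).mp (Additive.toMul v).2)
      show ![((Additive.toMul v).1 * (Additive.toMul w).1).1.1 0 2,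
          ((Additive.toMul v).1 * (Additive.toMul w).1).1.1 1 2] =
        ![(Additive.toMul v).1.1.1 0 2, (Additive.toMul v).1.1.1 1 2] +
          ![(Additive.toMul w).1.1.1 0 2, (Additive.toMul w).1.1.1 1 2]
      rw [a0, a1]
      ext i
      fin_cases i <;> rfl
  obtain ⟨ψ, hψ⟩ := hψ
  refine ⟨K, hK, ?_, ?_, ⟨MulEquiv.ofBijective (blk.comp K.subtype) ⟨hinj, hsurj⟩⟩, ?_⟩
  · rw [eq_bot_iff]
    rintro M ⟨hMK, hMc⟩
    rw [Subgroup.mem_bot]
    exact hKker M hMK ((hmem M).mp hMc)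
  · rw [eq_top_iff]
    intro M _
    have hdec : M = dg (blk M) * ((dg (blk M))⁻¹ * M) := by group
    rw [hdec]
    apply Subgroup.mul_mem_sup (hdgK _)
    rw [hmem, map_mul, map_inv, blk_dg, inv_mul_cancel]
  · refine ⟨?_, blk.comp K.subtype, ψ, hsurj, ?_, ?_⟩
    · intro x _
      rw [Subgroup.normalizer_eq_top_iff.mpr (Cfsg.pCore_normal p _)]
      exact Subgroup.mem_top x
    · have h1 : (blk.comp K.subtype).ker = ⊥ := (MonoidHom.ker_eq_bot_iff _).mpr hinj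
      have h2 : (Subgroup.centralizer ((Cfsg.pCore p ↥(Cfsg.qdOver F) :
          Subgroup ↥(Cfsg.qdOver F)) : Set ↥(Cfsg.qdOver F))).subgroupOf K = ⊥ := by
        rw [Subgroup.subgroupOf_eq_bot, disjoint_iff, eq_bot_iff]
        rintro x ⟨hxC, hxK⟩
        rw [Subgroup.mem_bot]
        apply hKker x hxK
        rw [blk_eq_one_iff]
        obtain ⟨x0, x1⟩ := (hK x).mp hxK
        have c1 := (Subgroup.mem_centralizer_iff.mp hxC) (tr ![1, 0]) ((hmem _).mpr (blk_tr _))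
        have c2 := (Subgroup.mem_centralizer_iff.mp hxC) (tr ![0, 1]) ((hmem _).mpr (blk_tr _))
        have a0 : (tr ![1, 0] * x).1.1 0 2 = (x * tr ![1, 0]).1.1 0 2 := by rw [c1]
        have a1 : (tr ![1, 0] * x).1.1 1 2 = (x * tr ![1, 0]).1.1 1 2 := by rw [c1]
        have b0 : (tr ![0, 1] * x).1.1 0 2 = (x * tr ![0, 1]).1.1 0 2 := by rw [c2]
        have b1 : (tr ![0, 1] * x).1.1 1 2 = (x * tr ![0, 1]).1.1 1 2 := by rw [c2]
        rw [mul_entry, mul_entry] at a0 a1 b0 b1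
        simp only [tr_00, tr_01, tr_02, tr_10, tr_11, tr_12, tr_22, x0, x1, (row2 x).2.2]
          at a0 a1 b0 b1
        simp at a0 a1 b0 b1
        exact ⟨a0.symm, b0.symm, a1.symm, b1.symm⟩
      rw [h1, h2]
    · intro l v
      have hn : (l : Cfsg.qdOver F) * v * (l : Cfsg.qdOver F)⁻¹ ∈
          Cfsg.pCore p ↥(Cfsg.qdOver F) := (Cfsg.pCore_normal p _).conj_mem v.1 v.2 l.1
      refine ⟨⟨_, hn⟩, rfl, ?_⟩
      rw [hψ, hψ]
      obtain ⟨l0, l1⟩ := (hK l.1).mp l.2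
      obtain ⟨X, hX⟩ : ∃ X : Cfsg.qdOver F,
        X = (l : Cfsg.qdOver F) * v * (l : Cfsg.qdOver F)⁻¹ := ⟨_, rfl⟩
      have hXl : X * l.1 = l.1 * v.1 := by rw [hX]; group
      have e0 : (X * l.1).1.1 0 2 = (l.1 * v.1).1.1 0 2 := by rw [hXl]
      have e1 : (X * l.1).1.1 1 2 = (l.1 * v.1).1.1 1 2 := by rw [hXl]
      rw [mul_entry, mul_entry, l0, l1, (row2 l.1).2.2, (row2 v.1).2.2] at e0 e1
      show ![((l : Cfsg.qdOver F) * v * (l : Cfsg.qdOver F)⁻¹).1.1 0 2,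
          ((l : Cfsg.qdOver F) * v * (l : Cfsg.qdOver F)⁻¹).1.1 1 2] =
        (blk l.1).1.mulVec ![v.1.1.1 0 2, v.1.1.1 1 2]
      rw [← hX]
      ext i
      fin_cases i
      · show X.1.1 0 2 = ((blk l.1).1.mulVec ![v.1.1.1 0 2, v.1.1.1 1 2]) 0
        simp only [Matrix.mulVec, dotProduct, Fin.sum_univ_two, blk_00, blk_01]
        simp
        linear_combination e0
      · show X.1.1 1 2 = ((blk l.1).1.mulVec ![v.1.1.1 0 2, v.1.1.1 1 2]) 1
        simp only [Matrix.mulVec, dotProduct, Fin.sum_univ_two, blk_10, blk_11]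
        simp
        linear_combination e1

end Cfsg.Agent.S2762
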