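import Cfsg.Statements.S2763
import Mathlib
import Cfsg.Agent.Lib.Helper13.QdSylow

set_option autoImplicit false
open Cfsg

namespace Cfsg.Agent.S2763

open Cfsg.Agent.Lib.Helper13.QdSylow Cfsg.Agent.Lib.Helper13.QdAlt

/-- In the group Qd(p) (p prime; the natural semidirect product of an elementary abelian group of order p² by SL₂(p)), the normalizer of every nontrivial characteristic subgroup of a Sylow p-subgroup S equals the normalizer of S, which is a proper subgroup; in particular no such characteristic subgroup is normal. -/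
theorem result {p : ℕ} [Fact p.Prime] (S : Sylow p ↥(Cfsg.qd p)) (T : Subgroup ↥(S : Subgroup ↥(Cfsg.qd p))) (hT : T ≠ ⊥) (hTc : T.Characteristic) : Subgroup.normalizer ((T.map (S : Subgroup ↥(Cfsg.qd p)).subtype : Subgroup ↥(Cfsg.qd p)) : Set ↥(Cfsg.qd p)) = Subgroup.normalizer ((S : Subgroup ↥(Cfsg.qd p)) : Set ↥(Cfsg.qd p)) ∧ Subgroup.normalizer ((S : Subgroup ↥(Cfsg.qd p)) : Set ↥(Cfsg.qd p)) ≠ ⊤ := by
  obtain ⟨c, hS⟩ := sylow_mem_iff S
  obtain ⟨T₁, hT₁, hT₁c, hmap⟩ := transport (U p) (S : Subgroup ↥(Cfsg.qd p)) c hS T hT hTc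
  constructor
  · ext g
    rw [normalizer_conj _ _ c hmap, normalizer_conj _ _ c hS, normalizer_char_eq T₁ hT₁ hT₁c]
  · intro htop
    have h1 : c * (⟨lE 1, lE_mem 1⟩ : Cfsg.qd p) * c⁻¹ ∈
        Subgroup.normalizer ((S : Subgroup ↥(Cfsg.qd p)) : Set ↥(Cfsg.qd p)) := by
      rw [htop]; trivial
    rw [normalizer_conj _ _ c hS] at h1
    have e : c⁻¹ * (c * (⟨lE 1, lE_mem 1⟩ : Cfsg.qd p) * c⁻¹) * c = ⟨lE 1, lE_mem 1⟩ := by group
    rw [e] at h1
    exact lE_not_mem_normalizer h1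

end Cfsg.Agent.S2763
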