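import Cfsg.Statements.S2779
import Cfsg.Agent.Lib.Helper16.NatSL2

set_option autoImplicit false
open Cfsg

namespace Cfsg.Agent.S2779

open Cfsg Cfsg.Agent.S2301 Cfsg.Agent.Lib.Helper16.NatSL2
open scoped commutatorElement

/-- Let L act on the elementary abelian p-group V (inside a finite group, by conjugation, faithfully) as SL₂(F) on its natural module, F a field with p^n elements, and let S be a Sylow p-subgroup of L. Then [V, S, S] = 1; |V| = p^(2n) and |C_V(S)| = p^n; and for every nonidentity s ∈ S and every v ∈ V outside C_V(S): C_V(s) = C_V(S) = [V, S] = [V, s] = the subgroup generated by the commutators [v, t], t ∈ S. -/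
theorem result {G : Type*} [Group G] [Finite G] {p : ℕ} [Fact p.Prime] {F : Type*} [Field F] [Fintype F] (n : ℕ) (hF : Fintype.card F = p ^ n) (V L : Subgroup G) (hnat : Cfsg.IsNaturalSL2Module F V L) (hf : L ⊓ Subgroup.centralizer (V : Set G) = ⊥) (S : Sylow p ↥L) (T : Subgroup G) (hT : T = ((S : Subgroup ↥L).map L.subtype)) : ⁅⁅V, T⁆, T⁆ = ⊥ ∧ Nat.card V = p ^ (2 * n) ∧ Nat.card ↥(V ⊓ Subgroup.centralizer ((T : Subgroup G) : Set G)) = p ^ n ∧ ∀ s ∈ T, s ≠ 1 → (V ⊓ Subgroup.centralizer ({s} : Set G)) = (V ⊓ Subgroup.centralizer ((T : Subgroup G) : Set G)) ∧ ⁅V, T⁆ = (V ⊓ Subgroup.centralizer ((T : Subgroup G) : Set G)) ∧ ⁅V, Subgroup.zpowers s⁆ = (V ⊓ Subgroup.centralizer ((T : Subgroup G) : Set G)) ∧ ∀ v ∈ V, v ∉ Subgroup.centralizer (T : Set G) → Subgroup.closure {x : G | ∃ t ∈ T, x = v * t * v⁻¹ * t⁻¹} = (V ⊓ Subgroup.centralizer ((T : Subgroup G) : Set G)) := by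
  classical
  haveI : CharP F p := charP_of_card n hF
  obtain ⟨ρ, χ, hρ, hχ, hadd, hact, hS⟩ := normal_form n hF V L hnat hf S
  have hfix := fix_iff ρ χ hχ.1 hact
  have hcomm := comm_coord ρ χ hadd hact
  have hTmem : ∀ t : G, t ∈ T ↔ ∃ l : L, l ∈ S ∧ (l : G) = t := by
    intro t; rw [hT]; exact Subgroup.mem_map
  have hex : ∀ x : F, ∃ l : L, l ∈ S ∧ ρ l = uMat x := by
    intro x
    obtain ⟨l, hl⟩ := hρ.2 (uMat x)
    exact ⟨l, (hS l).mpr ⟨x, hl⟩, hl⟩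
  have hcent : ∀ v : V, (v : G) ∈ Subgroup.centralizer (T : Set G) ↔ χ v 1 = 0 := by
    intro v
    rw [Subgroup.mem_centralizer_iff]
    constructor
    · intro h
      obtain ⟨l, hlS, hl⟩ := hex 1
      have h1 := h (l : G) ((hTmem _).mpr ⟨l, hlS, rfl⟩)
      have h2 := (hfix l 1 hl v).mp h1
      rwa [one_mul] at h2
    · intro h t ht
      obtain ⟨l, hlS, rfl⟩ := (hTmem t).mp ht
      obtain ⟨x, hl⟩ := (hS l).mp hlS
      exact (hfix l x hl v).mpr (by rw [h, mul_zero])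
  obtain ⟨W, hWdef⟩ : ∃ W : Subgroup G, W = V ⊓ Subgroup.centralizer (T : Set G) := ⟨_, rfl⟩
  rw [← hWdef]
  have hWV : W ≤ V := by rw [hWdef]; exact inf_le_left
  have hWT : W ≤ Subgroup.centralizer (T : Set G) := by rw [hWdef]; exact inf_le_right
  have hWmem : ∀ g : G, g ∈ W ↔ ∃ v : V, (v : G) = g ∧ χ v 1 = 0 := by
    intro g
    rw [hWdef, Subgroup.mem_inf]
    constructor
    · rintro ⟨hgV, hgC⟩
      exact ⟨⟨g, hgV⟩, rfl, (hcent ⟨g, hgV⟩).mp hgC⟩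
    · rintro ⟨v, rfl, hv⟩
      exact ⟨v.2, (hcent v).mpr hv⟩
  have hVT_le : ⁅V, T⁆ ≤ W := by
    rw [Subgroup.commutator_le]
    intro v hv t ht
    obtain ⟨l, hlS, rfl⟩ := (hTmem t).mp ht
    obtain ⟨x, hl⟩ := (hS l).mp hlS
    obtain ⟨w, hw1, hw2⟩ := hcomm l x hl ⟨v, hv⟩
    rw [hWmem]
    refine ⟨w, ?_, ?_⟩
    · rw [hw1, commutatorElement_def]
    · rw [hw2]; rfl
  have hvec : ∀ v : V, χ v 1 = 0 → χ v = ![χ v 0, 0] := by
    intro v hv
    ext i
    fin_cases i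
    · rfl
    · exact hv
  have hW_comm : ∀ (l : L) (x : F), ρ l = uMat x → x ≠ 0 → ∀ g ∈ W,
      ∃ v : V, g = ⁅(v : G), (l : G)⁆ := by
    intro l x hl hx g hg
    obtain ⟨w', rfl, hw'⟩ := (hWmem g).mp hg
    obtain ⟨v, hv⟩ := hχ.2 ![0, -(χ w' 0) / x]
    obtain ⟨w, hw1, hw2⟩ := hcomm l x hl v
    have hww : w = w' := by
      apply hχ.1
      rw [hw2, hvec w' hw', hv]
      have e1 : -(x * (-(χ w' 0) / x)) = χ w' 0 := by field_simp
      show ![-(x * (-(χ w' 0) / x)), 0] = ![χ w' 0, 0]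
      rw [e1]
    refine ⟨v, ?_⟩
    rw [← hww, hw1, commutatorElement_def]
  refine ⟨?_, ?_, ?_, ?_⟩
  · rw [Subgroup.commutator_eq_bot_iff_le_centralizer]
    exact hVT_le.trans hWT
  · rw [Nat.card_congr (Equiv.ofBijective χ hχ), Nat.card_eq_fintype_card, Fintype.card_fun,
      Fintype.card_fin, hF, ← pow_mul, mul_comm]
  · have hcW : Nat.card W = Nat.card F := by
      apply Nat.card_congr
      refine Equiv.ofBijective (fun g : W => χ ⟨g.1, hWV g.2⟩ 0) ⟨?_, ?_⟩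
      · intro g₁ g₂ h
        have h1 : χ ⟨g₁.1, hWV g₁.2⟩ 1 = 0 := (hcent ⟨g₁.1, hWV g₁.2⟩).mp (hWT g₁.2)
        have h2 : χ ⟨g₂.1, hWV g₂.2⟩ 1 = 0 := (hcent ⟨g₂.1, hWV g₂.2⟩).mp (hWT g₂.2)
        have h3 : χ ⟨g₁.1, hWV g₁.2⟩ = χ ⟨g₂.1, hWV g₂.2⟩ := by
          rw [hvec _ h1, hvec _ h2]
          have h' : χ ⟨g₁.1, hWV g₁.2⟩ 0 = χ ⟨g₂.1, hWV g₂.2⟩ 0 := h
          rw [h']
        have h4 := hχ.1 h3
        apply Subtype.ext
        exact congrArg (fun z : V => (z : G)) h4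
      · intro c
        obtain ⟨v, hv⟩ := hχ.2 ![c, 0]
        have hvW : (v : G) ∈ W := (hWmem _).mpr ⟨v, rfl, by rw [hv]; rfl⟩
        refine ⟨⟨(v : G), hvW⟩, ?_⟩
        show χ ⟨(v : G), _⟩ 0 = c
        rw [Subtype.coe_eta, hv]; rfl
    rw [hcW, Nat.card_eq_fintype_card, hF]
  · intro s hs hs1
    obtain ⟨l, hlS, rfl⟩ := (hTmem s).mp hs
    obtain ⟨x, hl⟩ := (hS l).mp hlS
    have hx : x ≠ 0 := by
      rintro rfl
      apply hs1
      rw [uMat_zero] at hl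
      have hl1 : l = 1 := hρ.1 (by rw [hl, map_one])
      rw [hl1]; rfl
    refine ⟨?_, ?_, ?_, ?_⟩
    · ext g
      rw [hWmem, Subgroup.mem_inf, Subgroup.mem_centralizer_iff]
      constructor
      · rintro ⟨hgV, hgC⟩
        refine ⟨⟨g, hgV⟩, rfl, ?_⟩
        have h1 := (hfix l x hl ⟨g, hgV⟩).mp (hgC (l : G) rfl)
        exact (mul_eq_zero.mp h1).resolve_left hx
      · rintro ⟨v, rfl, hv⟩
        refine ⟨v.2, fun h hh => ?_⟩
        rw [Set.mem_singleton_iff.mp hh]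
        exact (hfix l x hl v).mpr (by rw [hv, mul_zero])
    · apply le_antisymm hVT_le
      intro g hg
      obtain ⟨l₁, hl₁S, hl₁⟩ := hex 1
      obtain ⟨v, rfl⟩ := hW_comm l₁ 1 hl₁ one_ne_zero g hg
      exact Subgroup.commutator_mem_commutator v.2 ((hTmem _).mpr ⟨l₁, hl₁S, rfl⟩)
    · apply le_antisymm
      · exact (Subgroup.commutator_mono le_rfl (Subgroup.zpowers_le.mpr hs)).trans hVT_le
      · intro g hg
        obtain ⟨v, rfl⟩ := hW_comm l x hl hx g hg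
        exact Subgroup.commutator_mem_commutator v.2 (Subgroup.mem_zpowers _)
    · intro v hv hvC
      have hv1 : χ ⟨v, hv⟩ 1 ≠ 0 := fun h => hvC ((hcent ⟨v, hv⟩).mpr h)
      apply le_antisymm
      · rw [Subgroup.closure_le]
        rintro g ⟨t, ht, rfl⟩
        apply hVT_le
        have h1 := Subgroup.commutator_mem_commutator hv ht
        rwa [commutatorElement_def] at h1
      · intro g hg
        obtain ⟨w', rfl, hw'⟩ := (hWmem g).mp hg
        obtain ⟨l₂, hl₂S, hl₂⟩ := hex (-(χ w' 0) / χ ⟨v, hv⟩ 1)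
        obtain ⟨w, hw1, hw2⟩ := hcomm l₂ _ hl₂ ⟨v, hv⟩
        have hww : w = w' := by
          apply hχ.1
          have e1 : -(-(χ w' 0) / χ ⟨v, hv⟩ 1 * χ ⟨v, hv⟩ 1) = χ w' 0 := by field_simp
          rw [hw2, e1]
          exact (hvec w' hw').symm
        apply Subgroup.subset_closure
        refine ⟨(l₂ : G), (hTmem _).mpr ⟨l₂, hl₂S, rfl⟩, ?_⟩
        rw [← hww, hw1]

end Cfsg.Agent.S2779
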