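import Cfsg.Statements.S2780
import Cfsg.Agent.Lib.Helper16.NatSL2

set_option autoImplicit false
open Cfsg

namespace Cfsg.Agent.S2780

open Cfsg Cfsg.Agent.S2301 Cfsg.Agent.Lib.Helper16.NatSL2 Cfsg.Agent.Lib.Helper13
  Cfsg.Agent.Lib.Helper13.SL2Syl

/-- Let L act on the elementary abelian p-group V (inside a finite group, faithfully) as SL₂(F) on its natural module, F a field with p^n elements, S a Sylow p-subgroup of L. Then: for every g ∈ L not normalizing S, V is the internal direct product of C_V(S) and C_V(gSg⁻¹); every nonidentity element of L of order prime to p acts on V without nonidentity fixed points; and C_V(S) and V/C_V(S) are irreducible for N_L(S): the only N_L(S)-invariant subgroups of C_V(S) are 1 and C_V(S), and the only N_L(S)-invariant subgroups between C_V(S) and V are those two. -/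
theorem result {G : Type*} [Group G] [Finite G] {p : ℕ} [Fact p.Prime] {F : Type*} [Field F] [Fintype F] (n : ℕ) (hF : Fintype.card F = p ^ n) (V L : Subgroup G) (hnat : Cfsg.IsNaturalSL2Module F V L) (hf : L ⊓ Subgroup.centralizer (V : Set G) = ⊥) (S : Sylow p ↥L) (T : Subgroup G) (hT : T = ((S : Subgroup ↥L).map L.subtype)) : (∀ g ∈ L, g ∉ Subgroup.normalizer (T : Set G) → Cfsg.IsInternalDirectProduct (V ⊓ Subgroup.centralizer ((T : Subgroup G) : Set G)) (V ⊓ Subgroup.centralizer ((T.map (MulAut.conj g).toMonoidHom : Subgroup G) : Set G)) V) ∧ (∀ x ∈ L, x ≠ 1 → (orderOf x).Coprime p → (V ⊓ Subgroup.centralizer ({x} : Set G)) = ⊥) ∧ (∀ U : Subgroup G, U ≤ (V ⊓ Subgroup.centralizer ((T : Subgroup G) : Set G)) → L ⊓ Subgroup.normalizer (T : Set G) ≤ Subgroup.normalizer (U : Set G) → U = ⊥ ∨ U = (V ⊓ Subgroup.centralizer ((T : Subgroup G) : Set G))) ∧ (∀ U : Subgroup G, (V ⊓ Subgroup.centralizer ((T : Subgroup G) : Set G))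 ≤ U → U ≤ V → L ⊓ Subgroup.normalizer (T : Set G) ≤ Subgroup.normalizer (U : Set G) → U = (V ⊓ Subgroup.centralizer ((T : Subgroup G) : Set G)) ∨ U = V) := by
  classical
  haveI : CharP F p := charP_of_card n hF
  obtain ⟨ρ, χ, hρ, hχ, hadd, hact, hS⟩ := normal_form n hF V L hnat hf S
  have hfix := fix_iff ρ χ hχ.1 hact
  have hχ1 := chi_one χ hadd
  have hχinv := chi_inv χ hadd
  have hTmem : ∀ t : G, t ∈ T ↔ ∃ l : L, l ∈ S ∧ (l : G) = t := by
    intro t; rw [hT]; exact Subgroup.mem_map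
  have hex : ∀ x : F, ∃ l : L, l ∈ S ∧ ρ l = uMat x := by
    intro x
    obtain ⟨l, hl⟩ := hρ.2 (uMat x)
    exact ⟨l, (hS l).mpr ⟨x, hl⟩, hl⟩
  have hcent : ∀ v : V, (v : G) ∈ Subgroup.centralizer (T : Set G) ↔ χ v 1 = 0 := by
    intro v
    rw [Subgroup.mem_centralizer_iff]
    constructor
    · intro h
      obtain ⟨l, hlS, hl⟩ := hex 1
      have h1 := h (l : G) ((hTmem _).mpr ⟨l, hlS, rfl⟩)
      have h2 := (hfix l 1 hl v).mp h1
      rwa [one_mul] at h2
    · intro h t ht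
      obtain ⟨l, hlS, rfl⟩ := (hTmem t).mp ht
      obtain ⟨x, hl⟩ := (hS l).mp hlS
      exact (hfix l x hl v).mpr (by rw [h, mul_zero])
  obtain ⟨W, hWdef⟩ : ∃ W : Subgroup G, W = V ⊓ Subgroup.centralizer (T : Set G) := ⟨_, rfl⟩
  rw [← hWdef]
  have hWV : W ≤ V := by rw [hWdef]; exact inf_le_left
  have hWT : W ≤ Subgroup.centralizer (T : Set G) := by rw [hWdef]; exact inf_le_right
  have hWmem : ∀ g : G, g ∈ W ↔ ∃ v : V, (v : G) = g ∧ χ v 1 = 0 := by
    intro g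
    rw [hWdef, Subgroup.mem_inf]
    constructor
    · rintro ⟨hgV, hgC⟩
      exact ⟨⟨g, hgV⟩, rfl, (hcent ⟨g, hgV⟩).mp hgC⟩
    · rintro ⟨v, rfl, hv⟩
      exact ⟨v.2, (hcent v).mpr hv⟩
  have hVcomm : ∀ v w : V, v * w = w * v := by
    intro v w; apply hχ.1; rw [hadd, hadd, add_comm]
  have hzero : ∀ v : V, χ v 0 = 0 → χ v 1 = 0 → v = 1 := by
    intro v h0 h1
    apply hχ.1
    rw [hχ1]
    ext i
    fin_cases i
    · exact h0
    · exact h1
  have hnorm : ∀ h : L, (ρ h).1 1 0 = 0 → (h : G) ∈ Subgroup.normalizer (T : Set G) := by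
    intro h hh
    have hB : ρ h ∈ SL2Ind.BS F := (SL2Ind.mem_BS_iff _).mpr hh
    have hN := BS_le_normalizer hB
    rw [Subgroup.mem_normalizer_iff] at hN ⊢
    intro t
    constructor
    · intro ht
      obtain ⟨l, hlS, rfl⟩ := (hTmem t).mp ht
      obtain ⟨x, hl⟩ := (hS l).mp hlS
      have h1 : ρ h * ρ l * (ρ h)⁻¹ ∈ US F := (hN (ρ l)).mp (by rw [hl]; exact uMat_mem x)
      obtain ⟨x', hx'⟩ := exists_of_mem_US h1
      exact (hTmem _).mpr ⟨h * l * h⁻¹,
        (hS _).mpr ⟨x', by rw [map_mul, map_mul, map_inv, hx']⟩, rfl⟩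
    · intro ht
      obtain ⟨l', hl'S, hl'⟩ := (hTmem _).mp ht
      obtain ⟨x', hx'⟩ := (hS l').mp hl'S
      refine (hTmem t).mpr ⟨h⁻¹ * l' * h, ?_, ?_⟩
      · rw [hS]
        have h1 : ρ (h⁻¹ * l' * h) ∈ US F := by
          rw [hN]
          have h2 : ρ h * ρ (h⁻¹ * l' * h) * (ρ h)⁻¹ = ρ l' := by
            rw [map_mul, map_mul, map_inv]; group
          rw [h2, hx']; exact uMat_mem x'
        exact exists_of_mem_US h1
      · show (h : G)⁻¹ * l' * h = t
        rw [hl']; group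
  have hdiag : ∀ a : F, a ≠ 0 → ∃ h : L, (h : G) ∈ L ⊓ Subgroup.normalizer (T : Set G) ∧
      ∀ v : V, ∃ w : V, (w : G) = h * v * (h : G)⁻¹ ∧ χ w = ![a * χ v 0, a⁻¹ * χ v 1] := by
    intro a ha
    obtain ⟨h, hh⟩ := hρ.2 ⟨!![a, 0; 0, a⁻¹], by rw [Matrix.det_fin_two_of]; field_simp; ring⟩
    refine ⟨h, ⟨h.2, hnorm h (by rw [hh]; rfl)⟩, ?_⟩
    intro v
    obtain ⟨w, hw1, hw2⟩ := hact h v
    refine ⟨w, hw1, ?_⟩
    rw [hw2, hh]
    ext i
    fin_cases i <;> simp [Matrix.mulVec, dotProduct, Fin.sum_univ_two]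
  refine ⟨?_, ?_, ?_, ?_⟩
  · intro g hgL hgN
    obtain ⟨a, ha⟩ : ∃ a : F, a = (ρ ⟨g, hgL⟩).1 0 0 := ⟨_, rfl⟩
    obtain ⟨c, hc⟩ : ∃ c : F, c = (ρ ⟨g, hgL⟩).1 1 0 := ⟨_, rfl⟩
    have hc0 : c ≠ 0 := by
      intro h
      exact hgN (hnorm ⟨g, hgL⟩ (by rw [← hc, h]))
    have hcent' : ∀ v : V, (v : G) ∈ Subgroup.centralizer
        ((T.map (MulAut.conj g).toMonoidHom : Subgroup G) : Set G) ↔
        -c * χ v 0 + a * χ v 1 = 0 := by
      intro v
      obtain ⟨w, hw1, hw2⟩ := hact (⟨g, hgL⟩⁻¹) v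
      have hw1' : (w : G) = g⁻¹ * v * g := by
        rw [hw1]
        show g⁻¹ * (v : G) * g⁻¹⁻¹ = g⁻¹ * v * g
        rw [inv_inv]
      have hiff : (v : G) ∈ Subgroup.centralizer
          ((T.map (MulAut.conj g).toMonoidHom : Subgroup G) : Set G) ↔
          (w : G) ∈ Subgroup.centralizer (T : Set G) := by
        rw [Subgroup.mem_centralizer_iff, Subgroup.mem_centralizer_iff]
        constructor
        · intro h t ht
          have h1 := h (g * t * g⁻¹) ⟨t, ht, rfl⟩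
          rw [hw1']
          calc t * (g⁻¹ * v * g) = g⁻¹ * ((g * t * g⁻¹) * v) * g := by group
            _ = g⁻¹ * (v * (g * t * g⁻¹)) * g := by rw [h1]
            _ = g⁻¹ * v * g * t := by group
        · rintro h y ⟨t, ht, rfl⟩
          have h1 := h t ht
          rw [hw1'] at h1
          show g * t * g⁻¹ * v = v * (g * t * g⁻¹)
          calc g * t * g⁻¹ * v = g * (t * (g⁻¹ * v * g)) * g⁻¹ := by group
            _ = g * ((g⁻¹ * v * g) * t) * g⁻¹ := by rw [h1]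
            _ = v * (g * t * g⁻¹) := by group
      rw [hiff, hcent w, hw2, map_inv]
      have hval : ((ρ ⟨g, hgL⟩)⁻¹.1.mulVec (χ v)) 1 = -c * χ v 0 + a * χ v 1 := by
        rw [Matrix.SpecialLinearGroup.coe_inv, Matrix.adjugate_fin_two, hc, ha]
        simp [Matrix.mulVec, dotProduct, Fin.sum_univ_two]
      rw [hval]
    refine ⟨hWV, inf_le_left, ?_, ?_, ?_⟩
    · intro x hx y hy
      have h1 := hVcomm ⟨x, hWV hx⟩ ⟨y, hy.1⟩
      exact congrArg Subtype.val h1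
    · rw [eq_bot_iff]
      rintro x ⟨hxW, hxW'⟩
      rw [Subgroup.mem_bot]
      obtain ⟨v, rfl, hv⟩ := (hWmem x).mp hxW
      have h2 := (hcent' v).mp hxW'.2
      rw [hv, mul_zero, add_zero] at h2
      have h3 : χ v 0 = 0 := by
        rcases mul_eq_zero.mp h2 with h | h
        · exact absurd (neg_eq_zero.mp h) hc0
        · exact h
      rw [hzero v h3 hv]; rfl
    · apply le_antisymm
      · exact sup_le hWV inf_le_left
      · intro x hx
        obtain ⟨w', hw'⟩ := hχ.2 ![a * χ ⟨x, hx⟩ 1 / c, χ ⟨x, hx⟩ 1]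
        obtain ⟨w, hw⟩ := hχ.2 ![χ ⟨x, hx⟩ 0 - a * χ ⟨x, hx⟩ 1 / c, 0]
        have hsum : (⟨x, hx⟩ : V) = w * w' := by
          apply hχ.1
          rw [hadd, hw, hw']
          ext i
          fin_cases i
          · show χ ⟨x, hx⟩ 0 = χ ⟨x, hx⟩ 0 - a * χ ⟨x, hx⟩ 1 / c + a * χ ⟨x, hx⟩ 1 / c
            ring
          · show χ ⟨x, hx⟩ 1 = 0 + χ ⟨x, hx⟩ 1
            ring
        have hx' : x = (w : G) * (w' : G) := congrArg Subtype.val hsum
        rw [hx']
        apply Subgroup.mul_mem_sup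
        · exact (hWmem _).mpr ⟨w, rfl, by rw [hw]; rfl⟩
        · rw [Subgroup.mem_inf]
          refine ⟨w'.2, (hcent' w').mpr ?_⟩
          rw [hw']
          show -c * (a * χ ⟨x, hx⟩ 1 / c) + a * χ ⟨x, hx⟩ 1 = 0
          field_simp
          ring
  · intro x hxL hx1 hcop
    rw [eq_bot_iff]
    rintro v ⟨hvV, hvC⟩
    rw [Subgroup.mem_bot]
    by_contra hv1
    have hxv : x * v = v * x := (Subgroup.mem_centralizer_iff.mp hvC) x rfl
    obtain ⟨w, hw1, hw2⟩ := hact ⟨x, hxL⟩ ⟨v, hvV⟩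
    have hwv : w = ⟨v, hvV⟩ := by
      apply Subtype.ext
      rw [hw1]
      show x * v * x⁻¹ = v
      rw [hxv]; group
    rw [hwv] at hw2
    have hχv : χ ⟨v, hvV⟩ ≠ 0 := by
      intro h
      apply hv1
      have h1 : (⟨v, hvV⟩ : V) = 1 := hχ.1 (by rw [h, hχ1])
      exact congrArg Subtype.val h1
    obtain ⟨m, hm⟩ : ∃ m : Matrix.SpecialLinearGroup (Fin 2) F, m = ρ ⟨x, hxL⟩ := ⟨_, rfl⟩
    rw [← hm] at hw2
    have hdet := SL2Ind.det_eq m
    have E1 : m.1 0 0 * χ ⟨v, hvV⟩ 0 + m.1 0 1 * χ ⟨v, hvV⟩ 1 = χ ⟨v, hvV⟩ 0 := by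
      have h0 := congrFun hw2 0
      simp only [Matrix.mulVec, dotProduct, Fin.sum_univ_two] at h0
      exact h0.symm
    have E2 : m.1 1 0 * χ ⟨v, hvV⟩ 0 + m.1 1 1 * χ ⟨v, hvV⟩ 1 = χ ⟨v, hvV⟩ 1 := by
      have h0 := congrFun hw2 1
      simp only [Matrix.mulVec, dotProduct, Fin.sum_univ_two] at h0
      exact h0.symm
    have htr : m.1 0 0 + m.1 1 1 = 2 := by
      have h0 : (2 - m.1 0 0 - m.1 1 1) * χ ⟨v, hvV⟩ 0 = 0 := by
        linear_combination (m.1 1 1 - 1) * E1 - m.1 0 1 * E2 - χ ⟨v, hvV⟩ 0 * hdet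
      have h1 : (2 - m.1 0 0 - m.1 1 1) * χ ⟨v, hvV⟩ 1 = 0 := by
        linear_combination (m.1 0 0 - 1) * E2 - m.1 1 0 * E1 - χ ⟨v, hvV⟩ 1 * hdet
      by_contra hne
      have hne' : 2 - m.1 0 0 - m.1 1 1 ≠ 0 := fun h => hne (by linear_combination -h)
      apply hχv
      ext i
      fin_cases i
      · exact (mul_eq_zero.mp h0).resolve_left hne'
      · exact (mul_eq_zero.mp h1).resolve_left hne'
    have hm1 : m ≠ 1 := by
      intro h
      apply hx1
      have h1 : (⟨x, hxL⟩ : L) = 1 := hρ.1 (by rw [← hm, h, map_one])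
      exact congrArg Subtype.val h1
    obtain ⟨δ, hδ, hconj⟩ := conj_uMat m htr hm1
    obtain ⟨cc, hcc⟩ := isConj_iff.mp hconj
    have hord : orderOf m = p := by
      rw [← hcc]
      have h1 := MulEquiv.orderOf_eq (MulAut.conj cc) (uMat δ)
      rw [MulAut.conj_apply] at h1
      rw [h1, uMat_order p hδ]
    have hordx : orderOf x = p := by
      rw [← Subgroup.orderOf_mk x hxL, ← orderOf_injective ρ hρ.1, ← hm, hord]
    rw [hordx, Nat.coprime_self] at hcop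
    exact (Fact.out : p.Prime).ne_one hcop
  · intro U hUW hUN
    by_cases hU : U = ⊥
    · exact Or.inl hU
    · right
      apply le_antisymm hUW
      obtain ⟨⟨u, huU⟩, hu1⟩ := Subgroup.ne_bot_iff_exists_ne_one.mp hU
      have hu1' : u ≠ 1 := fun h => hu1 (Subtype.ext h)
      obtain ⟨u', rfl, hu'⟩ := (hWmem u).mp (hUW huU)
      have hc : χ u' 0 ≠ 0 := by
        intro h
        apply hu1'
        rw [hzero u' h hu']; rfl
      intro g hg
      obtain ⟨w', rfl, hw'⟩ := (hWmem g).mp hg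
      by_cases hw0 : χ w' 0 = 0
      · rw [hzero w' hw0 hw']; exact U.one_mem
      · obtain ⟨h, hhN, hh⟩ := hdiag (χ w' 0 / χ u' 0) (div_ne_zero hw0 hc)
        obtain ⟨w, hw1, hw2⟩ := hh u'
        have hww : w = w' := by
          apply hχ.1
          rw [hw2]
          ext i
          fin_cases i
          · show χ w' 0 / χ u' 0 * χ u' 0 = χ w' 0
            field_simp
          · show (χ w' 0 / χ u' 0)⁻¹ * χ u' 1 = χ w' 1
            rw [hu', hw', mul_zero]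
        rw [← hww, hw1]
        exact (Subgroup.mem_normalizer_iff.mp (hUN hhN) u').mp huU
  · intro U hWU hUV hUN
    by_cases hU : U ≤ W
    · exact Or.inl (le_antisymm hU hWU)
    · right
      apply le_antisymm hUV
      obtain ⟨u, huU, huW⟩ := SetLike.not_le_iff_exists.mp hU
      have hu1 : χ ⟨u, hUV huU⟩ 1 ≠ 0 := by
        intro h
        exact huW ((hWmem u).mpr ⟨⟨u, hUV huU⟩, rfl, h⟩)
      intro g hg
      by_cases hg1 : χ ⟨g, hg⟩ 1 = 0
      · exact hWU ((hWmem g).mpr ⟨⟨g, hg⟩, rfl, hg1⟩)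
      · obtain ⟨h, hhN, hh⟩ := hdiag (χ ⟨u, hUV huU⟩ 1 / χ ⟨g, hg⟩ 1) (div_ne_zero hu1 hg1)
        obtain ⟨w, hw1, hw2⟩ := hh ⟨u, hUV huU⟩
        have hwU : (w : G) ∈ U := by
          rw [hw1]; exact (Subgroup.mem_normalizer_iff.mp (hUN hhN) u).mp huU
        have hgw : g * (w : G)⁻¹ ∈ W := by
          rw [hWmem]
          refine ⟨⟨g, hg⟩ * w⁻¹, rfl, ?_⟩
          rw [hadd, hχinv, hw2]
          show χ ⟨g, hg⟩ 1 + -((χ ⟨u, hUV huU⟩ 1 / χ ⟨g, hg⟩ 1)⁻¹ * χ ⟨u, hUV huU⟩ 1) = 0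
          field_simp
          ring
        have hgdec : g = (g * (w : G)⁻¹) * w := by group
        rw [hgdec]
        exact U.mul_mem (hWU hgw) hwU

end Cfsg.Agent.S2780
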