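import Cfsg.Statements.S2941
import Cfsg.Agent.Lib.Helper12.SylowBasic
import Cfsg.Agent.Lib.Helper17.Syl
import Cfsg.Agent.Lib.Helper19.RelIndex
import Cfsg.Agent.Lib.Helper4.Thompson2

set_option autoImplicit false
open Cfsg

namespace Cfsg.Agent.S2941


open scoped commutatorElement in

/-- Let G be a finite group of characteristic 2 type in which every 2-local subgroup is solvable and the centralizer of Ω₁(Z(S)) lies in N_G(S) for every Sylow 2-subgroup S, and let T be a nontrivial 2-subgroup and K a J(T)-component (J the Thompson subgroup generated by the elementary abelian 2-subgroups of largest order). If a subgroup Q is normalized by ⟨K, J(T)⟩ and normalizes J(T), then Q normalizes K. -/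
theorem result {G : Type*} [Group G] [Finite G] (hL : Cfsg.IsCharacteristicTwoType G) (hN : ∀ N : Subgroup G, Cfsg.IsTwoLocal N → Group.IsSolvable ↥N)
    (hZ : ∀ S : Sylow 2 G, Subgroup.centralizer (Cfsg.omegaCenterOf (S : Subgroup G) : Set G) ≤ Subgroup.normalizer ((S : Subgroup G) : Set G)) (T : Subgroup G) (hT : IsPGroup 2 ↥T) (hT1 : T ≠ ⊥) (K : Subgroup G) (hK : Cfsg.IsJComponent T K)
    (Q : Subgroup G) (hQ1 : K ⊔ Cfsg.thompsonSubgroupOf 2 T ≤ Subgroup.normalizer (Q : Set G)) (hQ2 : Q ≤ Subgroup.normalizer (Cfsg.thompsonSubgroupOf 2 T : Set G)) :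
    Q ≤ Subgroup.normalizer (K : Set G) := by
  classical
  obtain ⟨hK1, hK2, -, -, -, -⟩ := hK
  obtain ⟨J, hJdef⟩ : ∃ J : Subgroup G, J = Cfsg.thompsonSubgroupOf 2 T := ⟨_, rfl⟩
  rw [← hJdef] at hK2 hQ1 hQ2
  have hJT : J ≤ T := by
    rw [hJdef]; exact Cfsg.Agent.Lib.Helper4.Thompson2.thompsonSubgroupOf_le T
  have hJ2 : IsPGroup 2 ↥J := hT.to_le hJT
  have hJK : J ≤ Subgroup.normalizer (K : Set G) := by
    intro j hj
    apply Cfsg.Agent.Lib.Helper17.Syl.mem_normalizer_of_conj_mem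
    intro k hk
    have h1 : ⁅k⁻¹, j⁆ ∈ K := by
      have h2 : ⁅k⁻¹, j⁆ ∈ ⁅K, J⁆ := Subgroup.commutator_mem_commutator (K.inv_mem hk) hj
      rwa [hK2] at h2
    have e : j * k * j⁻¹ = k * ⁅k⁻¹, j⁆ := by rw [commutatorElement_def]; group
    rw [e]; exact K.mul_mem hk h1
  have hodd : ∀ g ∈ K ⊔ J, Odd (orderOf g) → g ∈ K := by
    intro g hg hgo
    obtain ⟨k, hk, j, hj, rfl⟩ := Cfsg.Agent.Lib.Helper19.exists_mul_of_mem_sup K J hJK g hg
    have hpow : ∀ m : ℕ, ∃ k' ∈ K, (k * j) ^ m = k' * j ^ m := by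
      intro m
      induction m with
      | zero => exact ⟨1, K.one_mem, by simp⟩
      | succ m ih =>
        obtain ⟨k', hk', he⟩ := ih
        refine ⟨k' * (j ^ m * k * (j ^ m)⁻¹), K.mul_mem hk' ?_, ?_⟩
        · have hjm : j ^ m ∈ Subgroup.normalizer (K : Set G) := Subgroup.pow_mem _ (hJK hj) m
          exact (Subgroup.mem_normalizer_iff.1 hjm k).1 hk
        · rw [pow_succ, he, pow_succ]; group
    obtain ⟨k', hk', he⟩ := hpow (orderOf (k * j))
    rw [pow_orderOf_eq_one] at he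
    have hjn : j ^ orderOf (k * j) ∈ K := by
      have h1 : j ^ orderOf (k * j) = k'⁻¹ := eq_inv_of_mul_eq_one_right he.symm
      rw [h1]; exact K.inv_mem hk'
    obtain ⟨a, ha⟩ := (IsPGroup.iff_orderOf.1 hJ2) ⟨j, hj⟩
    rw [Subgroup.orderOf_mk] at ha
    have hcop : Nat.Coprime (orderOf (k * j)) (orderOf j) := by
      rw [ha]
      exact Nat.Coprime.pow_right a (Nat.coprime_two_right.2 hgo)
    obtain ⟨m, hm⟩ := exists_pow_eq_self_of_coprime hcop
    have hjK : j ∈ K := by rw [← hm]; exact K.pow_mem hjn m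
    exact K.mul_mem hk hjK
  have hconj : ∀ q ∈ Q, ∀ x ∈ K, q * x * q⁻¹ ∈ K ⊔ J := by
    intro q hq x hx
    have hle : ⁅K, J⁆ ≤ (K ⊔ J).map (MulAut.conj q⁻¹).toMonoidHom := by
      rw [Subgroup.commutator_le]
      intro k hk j hj
      rw [Cfsg.Agent.Lib.Helper12.SylowBasic.mem_map_conj_iff]
      have hkN : k⁻¹ ∈ Subgroup.normalizer (Q : Set G) :=
        Subgroup.inv_mem _ (hQ1 ((le_sup_left : K ≤ K ⊔ J) hk))
      have h1 : k⁻¹ * q * k ∈ Q := by
        have h2 := (Subgroup.mem_normalizer_iff.1 hkN q).1 hq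
        rwa [inv_inv] at h2
      have h3 : (k⁻¹ * q * k) * j * (k⁻¹ * q * k)⁻¹ ∈ J :=
        (Subgroup.mem_normalizer_iff.1 (hQ2 h1) j).1 hj
      have h4 : q * j⁻¹ * q⁻¹ ∈ J := (Subgroup.mem_normalizer_iff.1 (hQ2 hq) j⁻¹).1 (J.inv_mem hj)
      have e : q⁻¹⁻¹ * ⁅k, j⁆ * q⁻¹
          = (k * ((k⁻¹ * q * k) * j * (k⁻¹ * q * k)⁻¹) * k⁻¹) * (q * j⁻¹ * q⁻¹) := by
        rw [commutatorElement_def]; group
      rw [e]
      have hkS : k ∈ K ⊔ J := (le_sup_left : K ≤ K ⊔ J) hk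
      exact (K ⊔ J).mul_mem ((K ⊔ J).mul_mem ((K ⊔ J).mul_mem hkS
        ((le_sup_right : J ≤ K ⊔ J) h3)) ((K ⊔ J).inv_mem hkS)) ((le_sup_right : J ≤ K ⊔ J) h4)
    rw [hK2] at hle
    have h5 := hle hx
    rw [Cfsg.Agent.Lib.Helper12.SylowBasic.mem_map_conj_iff, inv_inv] at h5
    exact h5
  intro q hq
  apply Cfsg.Agent.Lib.Helper17.Syl.mem_normalizer_of_conj_mem
  have hle : Subgroup.closure {g : G | g ∈ K ∧ Odd (orderOf g)}
      ≤ K.map (MulAut.conj q⁻¹).toMonoidHom := by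
    rw [Subgroup.closure_le]
    rintro g ⟨hgK, hgo⟩
    show g ∈ K.map (MulAut.conj q⁻¹).toMonoidHom
    rw [Cfsg.Agent.Lib.Helper12.SylowBasic.mem_map_conj_iff, inv_inv]
    refine hodd _ (hconj q hq g hgK) ?_
    have e : orderOf (q * g * q⁻¹) = orderOf g := by
      have h1 := MulEquiv.orderOf_eq (MulAut.conj q) g
      rwa [MulAut.conj_apply] at h1
    rw [e]; exact hgo
  rw [hK1] at hle
  intro k hk
  have h5 := hle hk
  rw [Cfsg.Agent.Lib.Helper12.SylowBasic.mem_map_conj_iff, inv_inv] at h5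
  exact h5

end Cfsg.Agent.S2941
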