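import Cfsg.Statements.S3103
import Mathlib
import Cfsg.Agent.S0256
import Cfsg.Agent.S0630
import Cfsg.Agent.Lib.Helper9.Cores
import Cfsg.Agent.Lib.Helper2.Ext2

set_option autoImplicit false
open Cfsg

namespace Cfsg.Agent.S3103

universe u

/-- In a finite 2-group, squares lie in every maximal subgroup. -/
theorem sq_mem_coatom {Q : Type*} [Group Q] [Finite Q] (hQ : IsPGroup 2 Q) (M : Subgroup Q)
    (hM : IsCoatom M) (x : Q) : x ^ 2 ∈ M := by
  haveI : Fact (Nat.Prime 2) := ⟨Nat.prime_two⟩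
  haveI hnil : Group.IsNilpotent Q := hQ.isNilpotent
  haveI hN : M.Normal :=
    Subgroup.NormalizerCondition.normal_of_coatom M Group.normalizerCondition_of_isNilpotent hM
  by_contra hx2
  have hx : x ∉ M := fun h => hx2 (M.pow_mem h 2)
  have htop : M ⊔ Subgroup.zpowers (x ^ 2) = ⊤ := by
    apply hM.2
    refine lt_of_le_of_ne le_sup_left ?_
    intro h
    apply hx2
    have : x ^ 2 ∈ M ⊔ Subgroup.zpowers (x ^ 2) :=
      Subgroup.mem_sup_right (Subgroup.mem_zpowers _)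
    rw [← h] at this; exact this
  have hxm : x ∈ M ⊔ Subgroup.zpowers (x ^ 2) := by rw [htop]; trivial
  obtain ⟨m, hm, z, hz, hmz⟩ := Subgroup.mem_sup_of_normal_left.mp hxm
  obtain ⟨k, rfl⟩ := Subgroup.mem_zpowers_iff.mp hz
  obtain ⟨n, hn⟩ := hQ x
  -- x ^ (1 - 2k) ∈ M
  have h1 : x ^ (1 - 2 * k : ℤ) ∈ M := by
    have : x ^ (1 - 2 * k : ℤ) = m := by
      have h2 : (x ^ 2) ^ k = x ^ (2 * k : ℤ) := by
        rw [zpow_mul]; norm_cast
      rw [h2] at hmz
      have h3 : x ^ (1 - 2 * k : ℤ) = x * (x ^ (2 * k : ℤ))⁻¹ := by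
        rw [zpow_sub, zpow_one]
      rw [h3]
      nth_rewrite 1 [← hmz]
      group
    rw [this]; exact hm
  have hcop : IsCoprime (1 - 2 * k : ℤ) ((2 : ℤ) ^ n) := by
    have : IsCoprime (1 - 2 * k : ℤ) 2 := ⟨1, k, by ring⟩
    exact this.pow_right
  obtain ⟨a, b, hab⟩ := hcop
  apply hx
  have h4 : x = (x ^ (1 - 2 * k : ℤ)) ^ a * (x ^ ((2 : ℤ) ^ n)) ^ b := by
    rw [← zpow_mul, ← zpow_mul, ← zpow_add]
    have : (1 - 2 * k) * a + 2 ^ n * b = 1 := by linarith
    rw [this, zpow_one]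
  rw [h4]
  have h5 : x ^ ((2 : ℤ) ^ n) = 1 := by
    have : ((2 : ℤ) ^ n) = ((2 ^ n : ℕ) : ℤ) := by norm_cast
    rw [this, zpow_natCast, hn]
  rw [h5, one_zpow, mul_one]
  exact M.zpow_mem h1 a

/-- A subgroup of a finite 2-group which covers the group modulo squares is everything. -/
theorem eq_top_of_squares {Q : Type*} [Group Q] [Finite Q] (_hQ : IsPGroup 2 Q) (C N : Subgroup Q)
    (hN : ∀ M : Subgroup Q, IsCoatom M → N ≤ M)
    (h : ∀ x : Q, ∃ c ∈ C, ∃ f ∈ N, x = c * f) : C = ⊤ := by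
  rcases eq_top_or_exists_le_coatom C with h1 | ⟨M, hM, hCM⟩
  · exact h1
  · exfalso
    apply hM.1
    rw [eq_top_iff]
    intro x _
    obtain ⟨c, hc, f, hf, rfl⟩ := h x
    exact M.mul_mem (hCM hc) (hN M hM hf)

theorem comm_of_sq {G : Type*} [Group G] (h : ∀ a : G, a ^ 2 = 1) (a b : G) : a * b = b * a := by
  have h1 := h a
  have h2 := h b
  have h3 := h (b * a)
  calc a * b = a * b * ((b * a) ^ 2) := by rw [h3, mul_one]
    _ = a * (b ^ 2) * a * (b * a) := by simp only [sq, mul_assoc]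
    _ = a ^ 2 * (b * a) := by rw [h2, mul_one, sq]
    _ = b * a := by rw [h1, one_mul]

theorem zmod2_cases : ∀ y : ZMod 2, y = 0 ∨ y = 1 := by decide

/-- The automorphism group of a finite group of exponent 2 and order at most 16 embeds in SL_4(2). -/
theorem autEmb {B : Type*} [Group B] [Finite B] (h2 : ∀ b : B, b ^ 2 = 1) (hc : Nat.card B ≤ 16) :
    ∃ f : MulAut B →* Matrix.SpecialLinearGroup (Fin 4) (ZMod 2), Function.Injective f := by
  classical
  letI cg : CommGroup B := { (inferInstance : Group B) with mul_comm := comm_of_sq h2 }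
  letI md : Module (ZMod 2) (Additive B) := AddCommGroup.zmodModule (n := 2) (by
    intro x
    have := h2 (Additive.toMul x)
    exact congrArg Additive.ofMul this)
  haveI : Finite (Additive B) := inferInstanceAs (Finite B)
  set d := Module.finrank (ZMod 2) (Additive B) with hd
  have hcard : Nat.card (Additive B) = 2 ^ d := by
    have := Module.natCard_eq_pow_finrank (K := ZMod 2) (V := Additive B)
    rw [this, Nat.card_zmod]
  have hd4 : d ≤ 4 := by
    by_contra hlt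
    push Not at hlt
    have h5 : 2 ^ 5 ≤ 2 ^ d := Nat.pow_le_pow_right (by norm_num) hlt
    have h6 : Nat.card (Additive B) = Nat.card B := rfl
    rw [h6] at hcard
    omega
  let W := Fin (4 - d) → ZMod 2
  have hfr : Module.finrank (ZMod 2) (Additive B × W) = Module.finrank (ZMod 2) (Fin 4 → ZMod 2) := by
    rw [Module.finrank_prod, Module.finrank_fin_fun, Module.finrank_fin_fun, ← hd]
    omega
  let e : (Additive B × W) ≃ₗ[ZMod 2] (Fin 4 → ZMod 2) := LinearEquiv.ofFinrankEq _ _ hfr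
  let L : MulAut B → (Additive B →ₗ[ZMod 2] Additive B) := fun φ =>
    (MulEquiv.toAdditive φ).toAddMonoidHom.toZModLinearMap 2
  have hL : ∀ (φ : MulAut B) (b : Additive B), L φ b = Additive.ofMul (φ (Additive.toMul b)) :=
    fun φ b => rfl
  let T : MulAut B → ((Fin 4 → ZMod 2) →ₗ[ZMod 2] (Fin 4 → ZMod 2)) := fun φ =>
    e.toLinearMap ∘ₗ (LinearMap.prodMap (L φ) LinearMap.id) ∘ₗ e.symm.toLinearMap
  have hT : ∀ (φ : MulAut B) (v : Fin 4 → ZMod 2),
      T φ v = e (L φ (e.symm v).1, (e.symm v).2) := fun φ v => rfl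
  have hT1 : T 1 = LinearMap.id := by
    have key : ∀ v, T 1 v = v := by
      intro v
      rw [hT]
      have : L 1 (e.symm v).1 = (e.symm v).1 := by rw [hL]; rfl
      rw [this]
      simp
    exact LinearMap.ext key
  have hTm : ∀ φ ψ : MulAut B, T (φ * ψ) = T φ ∘ₗ T ψ := by
    intro φ ψ
    have key : ∀ v, T (φ * ψ) v = T φ (T ψ v) := by
      intro v
      rw [hT (φ * ψ), hT φ, hT ψ]
      simp only [LinearEquiv.symm_apply_apply]
      rw [hL, hL, hL]
      rfl
    exact LinearMap.ext key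
  let M : MulAut B → Matrix (Fin 4) (Fin 4) (ZMod 2) := fun φ => LinearMap.toMatrix' (T φ)
  have hM1 : M 1 = 1 := by
    show LinearMap.toMatrix' (T 1) = 1
    rw [hT1, LinearMap.toMatrix'_id]
  have hMm : ∀ φ ψ : MulAut B, M (φ * ψ) = M φ * M ψ := by
    intro φ ψ
    show LinearMap.toMatrix' (T (φ * ψ)) = _
    rw [hTm, LinearMap.toMatrix'_comp]
  have hdet : ∀ φ : MulAut B, (M φ).det = 1 := by
    intro φ
    have h1 : M φ * M φ⁻¹ = 1 := by rw [← hMm, mul_inv_cancel, hM1]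
    have h3 : (M φ).det * (M φ⁻¹).det = 1 := by rw [← Matrix.det_mul, h1, Matrix.det_one]
    rcases zmod2_cases (M φ).det with h0 | h0
    · rw [h0, zero_mul] at h3
      exact absurd h3 (by decide)
    · exact h0
  let f : MulAut B →* Matrix.SpecialLinearGroup (Fin 4) (ZMod 2) :=
    { toFun := fun φ => ⟨M φ, hdet φ⟩
      map_one' := Subtype.ext hM1
      map_mul' := fun φ ψ => Subtype.ext (hMm φ ψ) }
  refine ⟨f, ?_⟩
  intro φ ψ hφψ
  have h1 : M φ = M ψ := congrArg Subtype.val hφψ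
  have h3 : T φ = T ψ := LinearMap.toMatrix'.injective h1
  apply MulEquiv.ext
  intro b
  have h4 := congrArg (fun t => t (e (Additive.ofMul b, 0))) h3
  simp only [hT, LinearEquiv.symm_apply_apply] at h4
  have h5 := e.injective h4
  have h6 := congrArg Prod.fst h5
  simp only [hL] at h6
  exact h6

theorem main {X : Type*} [Group X] [Finite X] (Q : Subgroup X) [hQn : Q.Normal] (hQp : IsPGroup 2 ↥Q)
    (hCQ : Subgroup.centralizer (Q : Set X) ≤ Q)
    (hmax : ∀ K : Subgroup X, K.Normal → IsPGroup 2 ↥K → K ≤ Q)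
    (h4 : Cfsg.SectionalPRankLE 2 4 ↥Q) :
    ∃ f : X ⧸ Q →* ↥(alternatingGroup (Fin 8)), Function.Injective f := by
  classical
  haveI : Fact (Nat.Prime 2) := ⟨Nat.prime_two⟩
  -- squares
  set S : Set X := (fun x => x ^ 2) '' (Q : Set X) with hS
  set Φ : Subgroup X := Subgroup.normalClosure S with hΦ
  have hΦQ : Φ ≤ Q :=
    Subgroup.normalClosure_le_normal (by rintro _ ⟨x, hx, rfl⟩; exact Q.pow_mem hx 2)
  have hSconj : ∀ s ∈ S, ∀ g : X, g * s * g⁻¹ ∈ S := by
    rintro _ ⟨x, hx, rfl⟩ g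
    refine ⟨g * x * g⁻¹, hQn.conj_mem x hx g, ?_⟩
    simp [conj_pow]
  have hΦcl : Φ = Subgroup.closure S := by
    rw [hΦ, Subgroup.normalClosure]
    congr 1
    apply Set.Subset.antisymm
    · intro a ha
      obtain ⟨b, hb, hba⟩ := Group.mem_conjugatesOfSet_iff.mp ha
      obtain ⟨c, rfl⟩ := isConj_iff.mp hba
      exact hSconj b hb c
    · exact Group.subset_conjugatesOfSet
  have hsqΦ : ∀ x ∈ Q, x ^ 2 ∈ Φ := fun x hx => Subgroup.subset_normalClosure ⟨x, hx, rfl⟩
  have hΦp : IsPGroup 2 ↥Φ := hQp.to_le hΦQ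
  let π : X →* X ⧸ Φ := QuotientGroup.mk' Φ
  have hπs : Function.Surjective π := QuotientGroup.mk'_surjective Φ
  have hπ1 : ∀ x : X, π x = 1 ↔ x ∈ Φ := fun x => QuotientGroup.eq_one_iff x
  set Qb : Subgroup (X ⧸ Φ) := Q.map π with hQb
  haveI hQbn : Qb.Normal := Subgroup.Normal.map hQn π hπs
  have hQb2 : ∀ y : Qb, y ^ 2 = 1 := by
    rintro ⟨_, ⟨q, hq, rfl⟩⟩
    apply Subtype.ext
    show (π q) ^ 2 = 1
    rw [← map_pow]
    exact (hπ1 _).mpr (hsqΦ q hq)
  have hQbc : ∀ a ∈ Qb, ∀ b ∈ Qb, a * b = b * a := by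
    intro a ha b hb
    exact congrArg Subtype.val (comm_of_sq hQb2 ⟨a, ha⟩ ⟨b, hb⟩)
  let α : X →* MulAut Qb := (MulAut.conjNormal (H := Qb)).comp π
  have hα : ∀ (x : X) (y : Qb), ((α x y : Qb) : X ⧸ Φ) = π x * y * (π x)⁻¹ := fun x y => rfl
  have hQK : Q ≤ α.ker := by
    intro q hq
    rw [MonoidHom.mem_ker]
    apply MulEquiv.ext
    intro y
    apply Subtype.ext
    rw [hα]
    have hπq : π q ∈ Qb := Subgroup.mem_map_of_mem π hq
    rw [hQbc (π q) hπq y y.2]
    simp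
  have hKmem : ∀ g ∈ α.ker, ∀ x ∈ Q, x⁻¹ * (g * x * g⁻¹) ∈ Φ := by
    intro g hg x hx
    have h1 : α g = 1 := hg
    have h2 := hα g ⟨π x, Subgroup.mem_map_of_mem π hx⟩
    rw [h1] at h2
    have h2' : π x = π g * π x * (π g)⁻¹ := h2
    rw [← hπ1]
    rw [map_mul, map_inv, map_mul, map_mul, map_inv, ← h2']
    simp
  have hclaim : ∀ h ∈ α.ker, ∀ r : ℕ, r.Prime → r ≠ 2 → orderOf h = r → False := by
    intro h hh r hr hr2 hord
    haveI : Fact r.Prime := ⟨hr⟩
    have hzK : Subgroup.zpowers h ≤ α.ker := by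
      rw [Subgroup.zpowers_le]; exact hh
    have hrΦ : ¬ r ∣ Nat.card ↥Φ := by
      obtain ⟨k, hk⟩ := IsPGroup.iff_card.mp hΦp
      rw [hk]
      intro hdvd
      exact hr2 ((Nat.prime_dvd_prime_iff_eq hr Nat.prime_two).mp (hr.dvd_of_dvd_pow hdvd))
    have hzp : IsPGroup r ↥(Subgroup.zpowers h) := by
      apply IsPGroup.of_card (n := 1)
      rw [Nat.card_zpowers, hord, pow_one]
    have hcent : ∀ x ∈ Q, x * h = h * x := by
      let C : Subgroup ↥Q := (Subgroup.centralizer {h}).subgroupOf Q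
      let N : Subgroup ↥Q := Φ.subgroupOf Q
      have hN : ∀ M : Subgroup ↥Q, IsCoatom M → N ≤ M := by
        intro M hM
        have h1 : Φ ≤ M.map Q.subtype := by
          rw [hΦcl, Subgroup.closure_le]
          rintro _ ⟨x, hx, rfl⟩
          exact ⟨(⟨x, hx⟩ : ↥Q) ^ 2, sq_mem_coatom hQp M hM ⟨x, hx⟩, rfl⟩
        intro f hf
        obtain ⟨m, hm, hmf⟩ := h1 (Subgroup.mem_subgroupOf.mp hf)
        have : m = f := Subtype.ext hmf
        rw [← this]; exact hm
      have hcov : ∀ x : ↥Q, ∃ c ∈ C, ∃ f ∈ N, x = c * f := by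
        rintro ⟨x, hx⟩
        letI act : MulAction ↥(Subgroup.zpowers h) ↥Φ :=
          { smul := fun g φ => ⟨x⁻¹ * (g : X) * x * φ * (g : X)⁻¹, by
              have h1 := hKmem g (hzK g.2) x hx
              have h2 : (g : X) * φ * (g : X)⁻¹ ∈ Φ :=
                (inferInstance : Φ.Normal).conj_mem _ φ.2 _
              have h3 : x⁻¹ * (g : X) * x * φ * (g : X)⁻¹
                  = (x⁻¹ * ((g : X) * x * (g : X)⁻¹)) * ((g : X) * φ * (g : X)⁻¹) := by group
              rw [h3]; exact Φ.mul_mem h1 h2⟩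
            one_smul := fun φ => by
              apply Subtype.ext
              show x⁻¹ * ((1 : ↥(Subgroup.zpowers h)) : X) * x * φ * ((1 : ↥(Subgroup.zpowers h)) : X)⁻¹ = φ
              simp
            mul_smul := fun g₁ g₂ φ => by
              apply Subtype.ext
              show x⁻¹ * ((g₁ * g₂ : ↥(Subgroup.zpowers h)) : X) * x * φ
                  * ((g₁ * g₂ : ↥(Subgroup.zpowers h)) : X)⁻¹
                = x⁻¹ * (g₁ : X) * x * (x⁻¹ * (g₂ : X) * x * φ * (g₂ : X)⁻¹) * (g₁ : X)⁻¹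
              simp only [Subgroup.coe_mul]
              group }
        obtain ⟨φ₀, hφ₀⟩ := IsPGroup.nonempty_fixed_point_of_prime_not_dvd_card hzp ↥Φ hrΦ
        have h1 := hφ₀ ⟨h, Subgroup.mem_zpowers h⟩
        have h2 : x⁻¹ * h * x * φ₀ * h⁻¹ = φ₀ := congrArg Subtype.val h1
        have h3 : x * φ₀ * h = h * (x * φ₀) := by
          have : h * (x * φ₀) = x * (x⁻¹ * h * x * φ₀ * h⁻¹) * h := by group
          rw [this, h2]
        refine ⟨⟨x * φ₀, Q.mul_mem hx (hΦQ φ₀.2)⟩, ?_, ⟨(φ₀ : X)⁻¹, Q.inv_mem (hΦQ φ₀.2)⟩, ?_, ?_⟩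
        · rw [Subgroup.mem_subgroupOf, Subgroup.mem_centralizer_singleton_iff]
          exact h3
        · rw [Subgroup.mem_subgroupOf]
          exact Φ.inv_mem φ₀.2
        · apply Subtype.ext
          simp
      have htop := eq_top_of_squares hQp C N hN hcov
      intro x hx
      have h1 : (⟨x, hx⟩ : ↥Q) ∈ C := by rw [htop]; trivial
      rw [Subgroup.mem_subgroupOf, Subgroup.mem_centralizer_singleton_iff] at h1
      exact h1
    have hhQ : h ∈ Q := hCQ (by
      rw [Subgroup.mem_centralizer_iff]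
      intro x hx
      exact hcent x hx)
    obtain ⟨n, hn⟩ := hQp ⟨h, hhQ⟩
    have hn' : h ^ 2 ^ n = 1 := congrArg Subtype.val hn
    have h1 : r ∣ 2 ^ n := by rw [← hord]; exact orderOf_dvd_of_pow_eq_one hn'
    exact hr2 ((Nat.prime_dvd_prime_iff_eq hr Nat.prime_two).mp (hr.dvd_of_dvd_pow h1))
  have hKp : IsPGroup 2 ↥α.ker := by
    rintro ⟨g, hg⟩
    have hpos : 0 < orderOf g := orderOf_pos g
    obtain ⟨a, m, hm, hgm⟩ := Nat.exists_eq_two_pow_mul_odd hpos.ne'
    by_cases hm1 : m = 1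
    · refine ⟨a, ?_⟩
      apply Subtype.ext
      show g ^ 2 ^ a = 1
      rw [← orderOf_dvd_iff_pow_eq_one, hgm, hm1, mul_one]
    · exfalso
      obtain ⟨r, hr, hrm⟩ := Nat.exists_prime_and_dvd hm1
      have hr2 : r ≠ 2 := by
        rintro rfl
        exact (Nat.not_even_iff_odd.mpr hm) (even_iff_two_dvd.mpr hrm)
      have hro : r ∣ orderOf g := by rw [hgm]; exact Dvd.dvd.mul_left hrm _
      exact hclaim (g ^ (orderOf g / r)) (α.ker.pow_mem hg _) r hr hr2
        (orderOf_pow_orderOf_div hpos.ne' hro)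
  have hKQ : α.ker = Q :=
    le_antisymm (hmax _ (MonoidHom.normal_ker α) hKp) hQK
  -- card bound
  have hcard : Nat.card Qb ≤ 16 := by
    let ρ : ↥Q →* X ⧸ Φ := π.comp Q.subtype
    have hρ : ρ.range = Qb := by
      rw [MonoidHom.range_comp, Subgroup.range_subtype]
    have h1 : Nat.card Qb = ρ.ker.index := by rw [Subgroup.index_ker, hρ]
    let N : Subgroup ↥(⊤ : Subgroup ↥Q) := ρ.ker.subgroupOf ⊤
    have hexp : ∀ a : ↥(⊤ : Subgroup ↥Q) ⧸ N, a ^ 2 = 1 := by
      intro a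
      induction a using QuotientGroup.induction_on with
      | H t =>
        rw [← QuotientGroup.mk_pow, QuotientGroup.eq_one_iff, Subgroup.mem_subgroupOf,
          MonoidHom.mem_ker]
        show π (((t : ↥Q) : X) ^ 2) = 1
        exact (hπ1 _).mpr (hsqΦ _ (t : ↥Q).2)
    have h2 := h4 ⊤ N ⊤ ⟨⟨fun a b => Subtype.ext (comm_of_sq hexp a.1 b.1)⟩⟩ (fun a _ => hexp a)
    have h3 : Nat.card (↥(⊤ : Subgroup ↥Q) ⧸ N) = ρ.ker.index := by
      rw [← Subgroup.index_eq_card]
      exact Subgroup.relIndex_top_right (H := ρ.ker)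
    rw [Subgroup.card_top, h3] at h2
    rw [h1]
    norm_num at h2
    exact h2
  obtain ⟨g, hg⟩ := autEmb hQb2 hcard
  obtain ⟨ι⟩ := Cfsg.Agent.S0256.result (F := ZMod 2) (ZMod.card 2)
  let f₁ : X ⧸ Q →* MulAut Qb :=
    (QuotientGroup.kerLift α).comp (QuotientGroup.quotientMulEquivOfEq hKQ.symm).toMonoidHom
  have hf₁ : Function.Injective f₁ :=
    (QuotientGroup.kerLift_injective α).comp
      (QuotientGroup.quotientMulEquivOfEq hKQ.symm).injective
  let q : Matrix.SpecialLinearGroup (Fin 4) (ZMod 2) →*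
      Matrix.ProjectiveSpecialLinearGroup (Fin 4) (ZMod 2) := QuotientGroup.mk' _
  have hq : Function.Injective q := by
    rw [← MonoidHom.ker_eq_bot_iff, QuotientGroup.ker_mk']
    exact Cfsg.Agent.Lib.Helper2.Ext2.center_eq_bot (ZMod.card 2)
  exact ⟨ι.toMonoidHom.comp (q.comp (g.comp f₁)), ι.injective.comp (hq.comp (hg.comp hf₁))⟩

/-- Let X be a finite 2-constrained group with no nontrivial normal subgroup of odd order such that O₂(X) has sectional 2-rank at most 4. Then X/O₂(X) is isomorphic to a subgroup of the alternating group of degree 8. -/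
theorem result {X : Type*} [Group X] [Finite X] (hc : Cfsg.IsPConstrained 2 X) (hO : Cfsg.oddCore X = ⊥)
    (h4 : Cfsg.SectionalPRankLE 2 4 ↥(Cfsg.pCore 2 X)) :
    ∃ f : X ⧸ Cfsg.pCore 2 X →* ↥(alternatingGroup (Fin 8)), Function.Injective f := by
  classical
  haveI : Fact (Nat.Prime 2) := ⟨Nat.prime_two⟩
  haveI hQch : (Cfsg.pCore 2 X).Characteristic := Cfsg.Agent.Lib.Helper9.pCore_characteristic 2 X
  haveI hQn : (Cfsg.pCore 2 X).Normal := Subgroup.normal_of_characteristic _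
  have hQp : IsPGroup 2 ↥(Cfsg.pCore 2 X) := Cfsg.Agent.Lib.Helper9.pCore_isPGroup 2 X
  -- centralizer of Q lies in Q
  have hCQ : Subgroup.centralizer ((Cfsg.pCore 2 X : Subgroup X) : Set X) ≤ Cfsg.pCore 2 X := by
    have hA : pPrimePCore 2 X = Cfsg.pCore 2 X := Cfsg.Agent.S0630.pPrimePCore_eq_pCore 2 hO
    have hP2 : IsPGroup 2 ↥(pPrimePCore 2 X) := by rw [hA]; exact hQp
    obtain ⟨P⟩ : Nonempty (Sylow 2 ↥(pPrimePCore 2 X)) := Sylow.nonempty
    have h1 := hc P
    rw [Cfsg.Agent.S0630.sylow_eq_top_of_isPGroup hP2 P] at h1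
    have h3 : (⊤ : Subgroup ↥(pPrimePCore 2 X)).map (pPrimePCore 2 X).subtype = pPrimePCore 2 X := by
      rw [← MonoidHom.range_eq_map, Subgroup.range_subtype]
    rw [h3, hA] at h1
    exact h1
  exact main (Cfsg.pCore 2 X) hQp hCQ
    (fun K hK hKp => Cfsg.Agent.Lib.Helper9.le_pCore hK hKp) h4

end Cfsg.Agent.S3103
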