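import Cfsg.Statements.S3116
import Mathlib

set_option autoImplicit false
open Cfsg

namespace Cfsg.Agent.S3116

theorem core {X : Type*} [Group X] [Finite X] (x : X) (m : ℕ) (hm : 1 ≤ m)
    (hx : orderOf x = 2 ^ m) (hidx : (Subgroup.zpowers x).index = 2)
    (hout : ∀ g : X, g ∉ Subgroup.zpowers x → orderOf g ≠ 2 ^ m) (α : MulAut X) :
    α ^ (2 ^ (m - 1) * Nat.card X) = 1 := by
  have h1 : ∀ β : MulAut X, β x ∈ Subgroup.zpowers x := by
    intro β
    by_contra hc
    exact hout _ hc (by rw [MulEquiv.orderOf_eq, hx])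
  obtain ⟨i, hi⟩ := (Submonoid.mem_powers_iff _ _).1 ((mem_powers_iff_mem_zpowers).2 (h1 α))
  have hcop : Nat.Coprime i (2 ^ m) := by
    have h2 : orderOf (x ^ i) = 2 ^ m := by rw [hi, MulEquiv.orderOf_eq, hx]
    rw [orderOf_pow, hx] at h2
    have hdvd : Nat.gcd (2 ^ m) i ∣ 2 ^ m := Nat.gcd_dvd_left _ _
    have h3 := Nat.div_mul_cancel hdvd
    rw [h2] at h3
    have h4 : 2 ^ m * Nat.gcd (2 ^ m) i = 2 ^ m * 1 := by rw [h3, mul_one]
    have h5 : Nat.gcd (2 ^ m) i = 1 := Nat.eq_of_mul_eq_mul_left (by positivity) h4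
    rw [Nat.coprime_comm]
    exact h5
  have hpowk : ∀ k : ℕ, (α ^ k) x = x ^ (i ^ k) := by
    intro k
    induction k with
    | zero => simp
    | succ k ih =>
      rw [pow_succ', MulAut.mul_apply, ih, map_pow, ← hi, ← pow_mul, ← pow_succ']
  have hβx : (α ^ (2 ^ (m - 1))) x = x := by
    rw [hpowk]
    have h4 : i ^ (2 ^ (m - 1)) ≡ 1 [MOD 2 ^ m] := by
      have h5 := Nat.ModEq.pow_totient hcop
      rw [Nat.totient_prime_pow Nat.prime_two (by omega)] at h5
      simpa using h5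
    have h6 : x ^ (i ^ (2 ^ (m - 1))) = x ^ 1 :=
      (pow_eq_pow_iff_modEq (x := x)).2 (by rw [hx]; exact h4)
    rw [h6, pow_one]
  have hC_ne_top : ∃ y, y ∉ Subgroup.zpowers x := by
    by_contra hall
    push Not at hall
    have h7 : Subgroup.zpowers x = ⊤ := (Subgroup.eq_top_iff' _).2 hall
    rw [h7, Subgroup.index_top] at hidx
    omega
  obtain ⟨y, hy⟩ := hC_ne_top
  have hβC : ∀ c ∈ Subgroup.zpowers x, (α ^ (2 ^ (m - 1))) c = c := by
    intro c hc
    obtain ⟨k, rfl⟩ := Subgroup.mem_zpowers_iff.1 hc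
    rw [map_zpow, hβx]
  have key := fun a b => Subgroup.mul_mem_iff_of_index_two hidx (a := a) (b := b)
  have hβy : (α ^ (2 ^ (m - 1))) y * y⁻¹ ∈ Subgroup.zpowers x := by
    rw [key, inv_mem_iff]
    have h8 : (α ^ (2 ^ (m - 1))) y ∉ Subgroup.zpowers x := by
      intro hc
      obtain ⟨k, hk⟩ := Subgroup.mem_zpowers_iff.1 hc
      apply hy
      have h9 : y = ((α ^ (2 ^ (m - 1)))⁻¹ x) ^ k := by
        rw [← map_zpow, hk]
        simp
      rw [h9]
      exact zpow_mem (h1 _) k
    tauto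
  have hβy' : (α ^ (2 ^ (m - 1))) y = ((α ^ (2 ^ (m - 1))) y * y⁻¹) * y := by group
  have hpow2 : ∀ k : ℕ, ((α ^ (2 ^ (m - 1))) ^ k) y = ((α ^ (2 ^ (m - 1))) y * y⁻¹) ^ k * y := by
    intro k
    induction k with
    | zero => simp
    | succ k ih =>
      rw [pow_succ', MulAut.mul_apply, ih, map_mul, map_pow, hβC _ hβy, pow_succ, mul_assoc,
        ← hβy']
  have hγy : ((α ^ (2 ^ (m - 1))) ^ Nat.card X) y = y := by
    rw [hpow2, pow_card_eq_one', one_mul]
  have hγC : ∀ c ∈ Subgroup.zpowers x, ((α ^ (2 ^ (m - 1))) ^ Nat.card X) c = c := by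
    intro c hc
    have h10 : ∀ k : ℕ, ((α ^ (2 ^ (m - 1))) ^ k) c = c := by
      intro k
      induction k with
      | zero => simp
      | succ k ih => rw [pow_succ', MulAut.mul_apply, ih, hβC c hc]
    exact h10 _
  rw [pow_mul]
  ext g
  rw [MulAut.one_apply]
  by_cases hg : g ∈ Subgroup.zpowers x
  · exact hγC g hg
  · have hgy : g * y⁻¹ ∈ Subgroup.zpowers x := by
      rw [key, inv_mem_iff]
      tauto
    have h11 : g = (g * y⁻¹) * y := by group
    rw [h11, map_mul, hγC _ hgy, hγy]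

theorem pgroup_of_core {X : Type*} [Group X] [Finite X] (x : X) (m : ℕ) (hm : 1 ≤ m)
    (hx : orderOf x = 2 ^ m) (hcard : Nat.card X = 2 ^ (m + 1))
    (hout : ∀ g : X, g ∉ Subgroup.zpowers x → orderOf g ≠ 2 ^ m) : IsPGroup 2 (MulAut X) := by
  have hidx : (Subgroup.zpowers x).index = 2 := by
    have h1 := Subgroup.card_mul_index (Subgroup.zpowers x)
    rw [Nat.card_zpowers, hx, hcard, pow_succ] at h1
    exact Nat.eq_of_mul_eq_mul_left (by positivity) h1
  intro α
  refine ⟨(m - 1) + (m + 1), ?_⟩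
  rw [pow_add, ← hcard]
  exact core x m hm hx hidx hout α

/-- The automorphism group of a dihedral 2-group of order at least 8, or of a quasi-dihedral (semidihedral) 2-group of order at least 16, is a 2-group. -/
theorem result {X : Type*} [Group X] [Finite X] (h2 : IsPGroup 2 X)
    (h : (∃ n : ℕ, 4 ≤ n ∧ Nonempty (X ≃* DihedralGroup n)) ∨ Cfsg.IsQuasiDihedral X) : IsPGroup 2 (MulAut X) := by
  rcases h with ⟨n, hn, ⟨e⟩⟩ | ⟨n, hn, hcard, x, y, hxo, hyo, hrel⟩
  · haveI : NeZero n := ⟨by omega⟩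
    have hcardX : Nat.card X = 2 * n := by
      rw [Nat.card_congr e.toEquiv, DihedralGroup.nat_card]
    obtain ⟨k, hk⟩ := h2.exists_card_eq
    have hk1 : 3 ≤ k := by
      by_contra hlt
      have h3 : k ≤ 2 := by omega
      have h4 : 2 ^ k ≤ 2 ^ 2 := Nat.pow_le_pow_right (by norm_num) h3
      omega
    have hn2 : n = 2 ^ (k - 1) := by
      have h5 : 2 ^ k = 2 * 2 ^ (k - 1) := by
        rw [← pow_succ']
        congr 1
        omega
      omega
    have hxo : orderOf (e.symm (DihedralGroup.r 1)) = 2 ^ (k - 1) := by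
      rw [MulEquiv.orderOf_eq, DihedralGroup.orderOf_r_one, hn2]
    apply pgroup_of_core (e.symm (DihedralGroup.r 1)) (k - 1) (by omega) hxo
    · rw [hk]
      congr 1
      omega
    · intro g hg
      have h6 : orderOf g = orderOf (e g) := (MulEquiv.orderOf_eq e g).symm
      rw [h6]
      rcases hg' : e g with i | i
      · exfalso
        apply hg
        have h7 : g = e.symm (DihedralGroup.r 1) ^ i.val := by
          rw [← map_pow, DihedralGroup.r_one_pow, ZMod.natCast_zmod_val, ← hg',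
            MulEquiv.symm_apply_apply]
        rw [h7]
        exact Subgroup.pow_mem _ (Subgroup.mem_zpowers _) _
      · rw [DihedralGroup.orderOf_sr]
        have h8 : 2 ^ 2 ≤ 2 ^ (k - 1) := Nat.pow_le_pow_right (by norm_num) (by omega)
        omega
  · have hy2 : y * y = 1 := by rw [← pow_two, ← hyo, pow_orderOf_eq_one]
    have hyinv : y⁻¹ = y := inv_eq_of_mul_eq_one_left hy2
    have h4le : 2 ^ 2 ≤ 2 ^ (n - 1) := Nat.pow_le_pow_right (by norm_num) (by omega)
    have h2n : 2 ^ n = 2 * 2 ^ (n - 1) := by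
      rw [← pow_succ']
      congr 1
      omega
    have hidx : (Subgroup.zpowers x).index = 2 := by
      have h1 := Subgroup.card_mul_index (Subgroup.zpowers x)
      rw [Nat.card_zpowers, hxo, hcard, pow_succ] at h1
      exact Nat.eq_of_mul_eq_mul_left (by positivity) h1
    have key := fun a b => Subgroup.mul_mem_iff_of_index_two hidx (a := a) (b := b)
    have hyC : y ∉ Subgroup.zpowers x := by
      intro hc
      obtain ⟨k, hk⟩ := Subgroup.mem_zpowers_iff.1 hc
      have h1 : y * x * y⁻¹ = x := by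
        rw [← hk]
        have h3 : x ^ k * x = x * x ^ k := by
          rw [← zpow_add_one, ← zpow_one_add, add_comm]
        rw [h3, mul_inv_cancel_right]
      rw [hrel] at h1
      have h5 : x ^ (2 ^ (n - 1) - 1) = x ^ 1 := by rw [h1, pow_one]
      have h6 := (pow_eq_pow_iff_modEq (x := x)).1 h5
      rw [hxo] at h6
      have h7 := Nat.ModEq.eq_of_lt_of_lt h6 (by omega) (by omega)
      omega
    apply pgroup_of_core x n (by omega) hxo hcard
    intro g hg
    have hgy : g * y⁻¹ ∈ Subgroup.zpowers x := by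
      rw [key, inv_mem_iff]
      tauto
    obtain ⟨i, hi⟩ := (Submonoid.mem_powers_iff _ _).1 ((mem_powers_iff_mem_zpowers).2 hgy)
    have hgeq : g = x ^ i * y := by
      rw [hi]
      group
    have hconj : y * x ^ i * y⁻¹ = (x ^ (2 ^ (n - 1) - 1)) ^ i := by rw [← hrel, conj_pow]
    have hg2 : g * g = x ^ (i * 2 ^ (n - 1)) := by
      rw [hgeq]
      calc x ^ i * y * (x ^ i * y) = x ^ i * (y * x ^ i * y⁻¹) * (y * y) := by group
        _ = x ^ i * (x ^ (2 ^ (n - 1) - 1)) ^ i * 1 := by rw [hconj, hy2]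
        _ = x ^ (i * 2 ^ (n - 1)) := by
          rw [mul_one, ← pow_mul, ← pow_add]
          congr 1
          obtain ⟨t, ht⟩ : ∃ t, 2 ^ (n - 1) = t + 1 := ⟨2 ^ (n - 1) - 1, by omega⟩
          rw [ht]
          simp only [Nat.add_sub_cancel]
          ring
    have hg4 : g ^ 4 = 1 := by
      have h1 : g ^ 4 = (g * g) * (g * g) := by
        rw [show (4 : ℕ) = 2 + 2 from rfl, pow_add, pow_two]
      rw [h1, hg2, ← pow_add, ← two_mul, ← mul_assoc, mul_comm 2 i, mul_assoc, ← h2n, pow_mul',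
        ← hxo, pow_orderOf_eq_one, one_pow]
    have h9 := orderOf_le_of_pow_eq_one (by norm_num) hg4
    omega

end Cfsg.Agent.S3116
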