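import Cfsg.Statements.S3362
import Mathlib

set_option autoImplicit false
open Cfsg

namespace Cfsg.Agent.S3362

abbrev P := Equiv.Perm (Fin 12)

def gs : P := Equiv.swap (3 : Fin 12) 5 * Equiv.swap (3 : Fin 12) 4 * Equiv.swap (6 : Fin 12) 8 * Equiv.swap (6 : Fin 12) 7 * Equiv.swap (9 : Fin 12) 11 * Equiv.swap (9 : Fin 12) 10
def gt : P := Equiv.swap (3 : Fin 12) 9 * Equiv.swap (3 : Fin 12) 6 * Equiv.swap (4 : Fin 12) 10 * Equiv.swap (4 : Fin 12) 7 * Equiv.swap (5 : Fin 12) 11 * Equiv.swap (5 : Fin 12) 8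
def gu : P := Equiv.swap (4 : Fin 12) 9 * Equiv.swap (4 : Fin 12) 5 * Equiv.swap (4 : Fin 12) 6 * Equiv.swap (7 : Fin 12) 10 * Equiv.swap (7 : Fin 12) 11 * Equiv.swap (7 : Fin 12) 8
def gv : P := Equiv.swap (4 : Fin 12) 11 * Equiv.swap (4 : Fin 12) 5 * Equiv.swap (4 : Fin 12) 7 * Equiv.swap (6 : Fin 12) 8 * Equiv.swap (6 : Fin 12) 9 * Equiv.swap (6 : Fin 12) 10
def gw : P := Equiv.swap (4 : Fin 12) 8 * Equiv.swap (4 : Fin 12) 5 * Equiv.swap (4 : Fin 12) 10 * Equiv.swap (6 : Fin 12) 7 * Equiv.swap (6 : Fin 12) 9 * Equiv.swap (6 : Fin 12) 11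
def gx1 : P := Equiv.swap (0 : Fin 12) 3 * Equiv.swap (6 : Fin 12) 7 * Equiv.swap (8 : Fin 12) 10 * Equiv.swap (9 : Fin 12) 11
def gx2 : P := Equiv.swap (0 : Fin 12) 1 * Equiv.swap (6 : Fin 12) 9 * Equiv.swap (7 : Fin 12) 10 * Equiv.swap (8 : Fin 12) 11
def gx3 : P := Equiv.swap (1 : Fin 12) 2 * Equiv.swap (6 : Fin 12) 11 * Equiv.swap (7 : Fin 12) 9 * Equiv.swap (8 : Fin 12) 10

def genL : List P := [gu, gv, gw, gs, gt, gx1, gx2, gx3]
def gen (j : ℕ) : P := genL.getD j 1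
def gl (k : ℕ) : List P := (List.range k).map gen
def G (k : ℕ) : Subgroup P := Subgroup.closure {g | g ∈ gl k}
def wprod (w : List ℕ) : P := (w.map gen).prod
def Kt : List ℕ := [8, 7, 6, 5, 3]
def K (i : ℕ) : ℕ := Kt.getD i 0
def Bt : List (Fin 12) := [2, 1, 0, 3, 4]
def B (i : ℕ) : Fin 12 := Bt.getD i 0
def F : ℕ → List (Fin 12)
  | 0 => []
  | i + 1 => B i :: F i

def Wt : List (List (List ℕ)) :=
  [[[6, 7], [7], [], [5, 6, 7], [3, 5, 6, 7], [3, 3, 5, 6, 7], [4, 5, 6, 7], [1, 3, 5, 6, 7], [0, 1, 3, 5, 6, 7], [4, 4, 5, 6, 7], [2, 3, 5, 6, 7], [2, 4, 5, 6, 7]], [[6], [], [], [5, 6], [3, 5, 6], [3, 3, 5, 6], [4, 5, 6], [1, 3, 5, 6], [0, 1, 3, 5, 6], [4, 4, 5, 6], [2, 3, 5, 6], [2, 4, 5, 6]], [[], [], [], [5], [3, 5], [3, 3, 5], [4, 5], [1, 3, 5], [0, 1, 3, 5], [4, 4, 5], [2, 3, 5], [2, 4, 5]], [[], [], [], [], [3], [3, 3], [4], [1, 3], [0, 1, 3], [4, 4], [2, 3], [2, 4]], [[], [], [], [], [], [0,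 0], [0], [1], [0, 1], [1, 2], [2], [2, 0]]]

def Ct : List (List (List (List (Fin 12)))) :=
  [[[[1, 0, 3, 7], [1, 0, 3, 8], [1, 0, 3, 9], [1, 0, 4, 4], [1, 0, 7, 11], [1, 0, 3, 4], [1, 0, 3, 4], [0, 0, 3, 4]], [[1, 0, 3, 11], [1, 0, 3, 9], [1, 0, 3, 8], [1, 0, 4, 4], [1, 0, 11, 8], [1, 3, 3, 4], [1, 0, 3, 4], [1, 0, 3, 4]], [[1, 0, 3, 6], [1, 0, 3, 7], [1, 0, 3, 10], [1, 0, 4, 4], [1, 0, 6, 4], [1, 3, 3, 4], [0, 0, 3, 4], [1, 0, 3, 4]], [[1, 0, 3, 8], [1, 0, 3, 7], [1, 0, 3, 6], [1, 0, 3, 4], [1, 0, 3, 4], [1, 0, 3, 4], [1, 3, 3, 4], [0, 0, 3, 4]], [[1, 0, 3, 8], [1, 0, 3, 4], [1, 0, 3, 4], [1, 0, 3, 4], [1, 0, 3, 11], [1, 0, 5, 5], [1, 3, 3, 4], [0, 0, 3, 4]], [[1, 0, 3, 8], [1, 0, 3, 10], [1, 0, 3, 5], [1, 0, 3, 4], [1, 0, 3, 6], [1, 0, 4, 5], [1, 3, 3, 4], [0, 0, 3, 4]], [[1, 0, 3, 8], [1, 0, 3, 10], [1, 0, 3, 4], [1, 0, 3, 11], [1, 0, 3, 4], [1, 0, 5, 8], [1, 3, 3, 4], [0, 0, 3, 6]], [[1,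 0, 3, 4], [1, 0, 3, 5], [1, 0, 3, 8], [1, 0, 3, 8], [1, 0, 3, 10], [1, 0, 10, 4], [1, 3, 3, 4], [0, 0, 3, 7]], [[1, 0, 3, 8], [1, 0, 3, 8], [1, 0, 3, 4], [1, 0, 3, 9], [1, 0, 3, 5], [1, 0, 5, 5], [1, 3, 3, 10], [0, 0, 3, 4]], [[1, 0, 3, 8], [1, 0, 3, 8], [1, 0, 3, 8], [1, 0, 3, 9], [1, 0, 3, 4], [1, 0, 10, 8], [1, 3, 3, 4], [0, 0, 3, 8]], [[1, 0, 3, 4], [1, 0, 3, 10], [1, 0, 3, 5], [1, 0, 3, 4], [1, 0, 3, 6], [1, 0, 5, 5], [1, 3, 3, 4], [0, 0, 3, 4]], [[1, 0, 3, 10], [1, 0, 3, 10], [1, 0, 3, 5], [1, 0, 3, 6], [1, 0, 3, 6], [1, 0, 8, 10], [1, 3, 3, 10], [0, 0, 3, 6]]], [[[0, 3, 9], [0, 3, 10], [0, 3, 7], [0, 4, 4], [0, 9, 4], [0, 3, 4], [0, 3, 4]], [[0, 3, 6], [0, 3, 7], [0, 3, 10], [0, 4, 4], [0, 6, 4], [3, 3, 4], [0, 3, 4]], [], [[0, 3, 10], [0, 3, 9], [0, 3, 11], [0, 3, 4], [0, 3, 4], [0, 3, 4], [3, 3, 4]], [[0, 3, 10], [0, 3, 4], [0, 3, 4], [0, 3, 4], [0, 3, 6], [0, 5, 5], [3, 3, 4]], [[0, 3,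 10], [0, 3, 8], [0, 3, 5], [0, 3, 4], [0, 3, 11], [0, 4, 5], [3, 3, 4]], [[0, 3, 10], [0, 3, 8], [0, 3, 4], [0, 3, 6], [0, 3, 4], [0, 5, 10], [3, 3, 4]], [[0, 3, 4], [0, 3, 5], [0, 3, 10], [0, 3, 10], [0, 3, 8], [0, 8, 4], [3, 3, 4]], [[0, 3, 10], [0, 3, 10], [0, 3, 4], [0, 3, 7], [0, 3, 5], [0, 5, 5], [3, 3, 8]], [[0, 3, 10], [0, 3, 10], [0, 3, 10], [0, 3, 7], [0, 3, 4], [0, 8, 10], [3, 3, 4]], [[0, 3, 4], [0, 3, 8], [0, 3, 5], [0, 3, 4], [0, 3, 11], [0, 5, 5], [3, 3, 4]], [[0, 3, 8], [0, 3, 8], [0, 3, 5], [0, 3, 11], [0, 3, 11], [0, 10, 8], [3, 3, 8]]], [[[3, 6], [3, 7], [3, 10], [4, 4], [6, 4], [3, 4]], [], [], [[3, 7], [3, 6], [3, 8], [3, 4], [3, 4], [3, 4]], [[3, 7], [3, 4], [3, 4], [3, 4], [3, 9], [5, 5]], [[3, 7], [3, 11], [3, 5], [3, 4], [3, 8], [4, 5]], [[3, 7], [3, 11], [3, 4], [3, 9], [3, 4], [5, 7]], [[3, 4], [3, 5], [3, 7], [3, 7], [3, 11], [11, 6]], [[3, 7], [3, 7], [3, 4], [3, 10],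 [3, 5], [5, 5]], [[3, 7], [3, 7], [3, 7], [3, 10], [3, 4], [11, 8]], [[3, 4], [3, 11], [3, 5], [3, 4], [3, 8], [5, 5]], [[3, 11], [3, 11], [3, 5], [3, 8], [3, 8], [7, 11]]], [[], [], [], [[6], [7], [10], [4], [4]], [[6], [4], [4], [4], [11]], [[6], [9], [5], [4], [10]], [[6], [9], [4], [11], [4]], [[4], [5], [6], [6], [9]], [[6], [6], [4], [8], [5]], [[6], [6], [6], [8], [4]], [[4], [9], [5], [4], [10]], [[9], [9], [5], [10], [10]]], [[], [], [], [], [[], [], []], [[], [], []], [[], [], []], [[], [], []], [[], [], []], [[], [], []], [[], [], []], [[], [], []]]]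


def U (i : ℕ) (a : Fin 12) : P := wprod ((Wt.getD i []).getD a.val [])
def tprod : ℕ → List (Fin 12) → P
  | _, [] => 1
  | i, c :: cs => U i c * tprod (i + 1) cs

def Check (i : ℕ) : Prop :=
  B i ∉ F i ∧ U i (B i) = 1 ∧ ∀ a : Fin 12, a ∉ F i → (U i a (B i) = a ∧
    ∀ j ∈ List.range (K i), gen j a ∉ F i ∧
      gen j * U i a = U i (gen j a) * tprod (i + 1) (((Ct.getD i []).getD a.val []).getD j []))

instance (i : ℕ) : Decidable (Check i) := by unfold Check; infer_instance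

def wordsOK : Bool := (List.range 5).all fun i => (List.range 12).all fun a =>
  ((Wt.getD i []).getD a []).all fun j => decide (j < K i)
def fixOK : Bool := (List.range 6).all fun i => (List.range (K i)).all fun j =>
  (F i).all fun f => gen j f == f
def antiOK : Bool := (List.range 5).all fun i => decide (K (i + 1) ≤ K i)

theorem wordsOK_true : wordsOK = true := by decide +kernel
theorem fixOK_true : fixOK = true := by decide +kernel
theorem antiOK_true : antiOK = true := by decide +kernel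
theorem c4 : Check 4 := by decide +kernel
theorem c3 : Check 3 := by decide +kernel
theorem c2 : Check 2 := by decide +kernel
theorem c1 : Check 1 := by decide +kernel
theorem c0 : Check 0 := by decide +kernel

theorem mem_gl {k : ℕ} {g : P} : g ∈ gl k ↔ ∃ j < k, gen j = g := by
  simp [gl]

theorem G_mono {k l : ℕ} (h : k ≤ l) : G k ≤ G l := by
  apply Subgroup.closure_mono
  intro g hg
  obtain ⟨j, hj, rfl⟩ := mem_gl.1 hg
  exact mem_gl.2 ⟨j, lt_of_lt_of_le hj h, rfl⟩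

theorem gen_mem {j k : ℕ} (h : j < k) : gen j ∈ G k :=
  Subgroup.subset_closure (mem_gl.2 ⟨j, h, rfl⟩)

theorem wprod_mem {k : ℕ} (w : List ℕ) (h : ∀ j ∈ w, j < k) : wprod w ∈ G k := by
  unfold wprod
  apply Subgroup.list_prod_mem
  intro x hx
  obtain ⟨j, hj, rfl⟩ := List.mem_map.1 hx
  exact gen_mem (h j hj)

theorem K_anti (i : ℕ) : K (i + 1) ≤ K i := by
  by_cases hi : i < 5
  · have := (List.all_eq_true.1 antiOK_true) i (List.mem_range.2 hi)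
    simpa using this
  · have h5 : Kt.length = 5 := rfl
    have : K (i + 1) = 0 := by
      unfold K; exact List.getD_eq_default _ _ (by rw [h5]; omega)
    omega

theorem U_mem (i : ℕ) (a : Fin 12) : U i a ∈ G (K i) := by
  unfold U
  by_cases hi : i < 5
  · apply wprod_mem
    have h1 := (List.all_eq_true.1 wordsOK_true) i (List.mem_range.2 hi)
    have h2 := (List.all_eq_true.1 h1) a.val (List.mem_range.2 a.isLt)
    intro j hj
    have h3 := (List.all_eq_true.1 h2) j hj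
    simpa using h3
  · have h5 : Wt.length = 5 := rfl
    have : Wt.getD i [] = [] := List.getD_eq_default _ _ (by rw [h5]; omega)
    rw [this]
    have h1 : ([] : List (List ℕ)).getD a.val [] = [] := by simp
    rw [h1]
    have h2 : wprod [] = 1 := by simp [wprod]
    rw [h2]
    exact Subgroup.one_mem _

theorem tprod_mem : ∀ (cs : List (Fin 12)) (i : ℕ), tprod i cs ∈ G (K i)
  | [], i => by
    rw [tprod]; exact Subgroup.one_mem _
  | c :: cs, i => by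
    rw [tprod]
    exact Subgroup.mul_mem _ (U_mem i c) (G_mono (K_anti i) (tprod_mem cs (i + 1)))

theorem fixes (i : ℕ) (hi : i < 6) : ∀ g ∈ G (K i), ∀ f ∈ F i, g f = f := by
  intro g hg f hf
  have hle : G (K i) ≤ MulAction.stabilizer P f := by
    unfold G
    rw [Subgroup.closure_le]
    intro g hg
    obtain ⟨j, hj, rfl⟩ := mem_gl.1 hg
    have h1 := (List.all_eq_true.1 fixOK_true) i (List.mem_range.2 hi)
    have h2 := (List.all_eq_true.1 h1) j (List.mem_range.2 hj)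
    have h3 := (List.all_eq_true.1 h2) f hf
    have h4 : gen j f = f := by simpa using h3
    exact MulAction.mem_stabilizer_iff.2 h4
  exact MulAction.mem_stabilizer_iff.1 (hle hg)

theorem level_aux (L : List P) (H : Subgroup P) (b : Fin 12) (O : Fin 12 → Prop) (U : Fin 12 → P)
    (hHb : ∀ h ∈ H, h b = b)
    (hb : O b) (hUb : U b = 1)
    (hU : ∀ a, O a → U a b = a)
    (hS : ∀ a, O a → ∀ g ∈ L, O (g a) ∧ (U (g a))⁻¹ * g * U a ∈ H) :
    ∀ g ∈ Subgroup.closure {g | g ∈ L}, O (g b) ∧ (g b = b → g ∈ H) := by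
  have key : ∀ g ∈ Subgroup.closure {g | g ∈ L}, ∀ p : P,
      (∃ a, O a ∧ ∃ h ∈ H, p = U a * h) → ∃ a, O a ∧ ∃ h ∈ H, g * p = U a * h := by
    intro g hg
    induction hg using Subgroup.closure_induction with
    | mem g hg =>
      rintro p ⟨a, ha, h, hh, rfl⟩
      obtain ⟨h1, h2⟩ := hS a ha g hg
      refine ⟨g a, h1, (U (g a))⁻¹ * g * U a * h, H.mul_mem h2 hh, ?_⟩
      group
    | one =>
      intro p hp
      rw [one_mul]; exact hp
    | mul x y _ _ hx hy =>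
      intro p hp
      rw [mul_assoc]
      exact hx _ (hy p hp)
    | inv x _ hx =>
      intro p hp
      have hpow : ∀ n : ℕ, ∀ p : P, (∃ a, O a ∧ ∃ h ∈ H, p = U a * h) →
          ∃ a, O a ∧ ∃ h ∈ H, x ^ n * p = U a * h := by
        intro n
        induction n with
        | zero => intro p hp; rw [pow_zero, one_mul]; exact hp
        | succ n ih =>
          intro p hp
          rw [pow_succ', mul_assoc]
          exact hx _ (ih p hp)
      have hinv : x⁻¹ = x ^ (orderOf x - 1) := by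
        apply inv_eq_of_mul_eq_one_right
        rw [← pow_succ', Nat.sub_add_cancel (orderOf_pos x), pow_orderOf_eq_one]
      rw [hinv]
      exact hpow _ p hp
  intro g hg
  obtain ⟨a, ha, h, hh, hgp⟩ := key g hg 1 ⟨b, hb, 1, H.one_mem, by rw [hUb, mul_one]⟩
  rw [mul_one] at hgp
  have hgb : g b = a := by
    rw [hgp, Equiv.Perm.mul_apply, hHb h hh, hU a ha]
  refine ⟨by rw [hgb]; exact ha, fun hfix => ?_⟩
  have hab : a = b := by rw [← hgb, hfix]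
  rw [hgp, hab, hUb, one_mul]
  exact hh

theorem level (i : ℕ) (hi : i < 5) (hc : Check i) :
    ∀ g ∈ G (K i), g (B i) ∉ F i ∧ (g (B i) = B i → g ∈ G (K (i + 1))) := by
  obtain ⟨hb, hUb, hall⟩ := hc
  apply level_aux (gl (K i)) (G (K (i + 1))) (B i) (fun a => a ∉ F i) (U i)
  · intro h hh
    exact fixes (i + 1) (by omega) h hh (B i) (List.mem_cons_self ..)
  · exact hb
  · exact hUb
  · intro a ha; exact (hall a ha).1
  · intro a ha g hg
    obtain ⟨j, hj, rfl⟩ := mem_gl.1 hg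
    obtain ⟨h1, h2⟩ := (hall a ha).2 j (List.mem_range.2 hj)
    refine ⟨h1, ?_⟩
    have h3 : (U i (gen j a))⁻¹ * gen j * U i a =
        tprod (i + 1) (((Ct.getD i []).getD a.val []).getD j []) := by
      rw [mul_assoc, h2]; group
    rw [h3]
    exact tprod_mem _ _

theorem trans_of_check (i : ℕ) (hc : Check i) : ∀ a, a ∉ F i → ∃ g ∈ G (K i), g (B i) = a := by
  intro a ha
  exact ⟨U i a, U_mem i a, (hc.2.2 a ha).1⟩

def TT (K : Subgroup P) (F : List (Fin 12)) (bs : List (Fin 12)) : Prop :=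
  ∀ y : List (Fin 12), y.Nodup → (∀ a ∈ y, a ∉ F) → y.length = bs.length →
    ∃ g ∈ K, bs.map (⇑g) = y

theorem TT_nil (K : Subgroup P) (F : List (Fin 12)) : TT K F [] := by
  intro y _ _ hlen
  refine ⟨1, K.one_mem, ?_⟩
  rw [List.length_nil] at hlen
  rw [List.length_eq_zero_iff.1 hlen]; rfl

theorem TT_step (K H : Subgroup P) (F : List (Fin 12)) (b : Fin 12) (bs : List (Fin 12))
    (hHK : H ≤ K) (hHb : ∀ h ∈ H, h b = b) (hKF : ∀ g ∈ K, ∀ f ∈ F, g f = f)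
    (htr : ∀ a, a ∉ F → ∃ g ∈ K, g b = a) (hT : TT H (b :: F) bs) : TT K F (b :: bs) := by
  intro y hy hyF hlen
  cases y with
  | nil => simp at hlen
  | cons a y' =>
    obtain ⟨g₁, hg₁, hg₁b⟩ := htr a (hyF a (List.mem_cons_self ..))
    have hnd : (y'.map (⇑g₁⁻¹)).Nodup := (List.nodup_cons.1 hy).2.map g₁⁻¹.injective
    have hav : ∀ c ∈ y'.map (⇑g₁⁻¹), c ∉ b :: F := by
      intro c hc hcF
      obtain ⟨d, hd, rfl⟩ := List.mem_map.1 hc
      rcases List.mem_cons.1 hcF with h | h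
      · have hda : d = a := by
          rw [← hg₁b, ← h]; simp
        exact (List.nodup_cons.1 hy).1 (hda ▸ hd)
      · have h1 := hKF g₁ hg₁ _ h
        have h2 : d = g₁⁻¹ d := by simpa using h1
        exact hyF d (List.mem_cons_of_mem _ hd) (h2 ▸ h)
    obtain ⟨h, hh, hmap⟩ := hT (y'.map (⇑g₁⁻¹)) hnd hav (by simpa using hlen)
    refine ⟨g₁ * h, K.mul_mem hg₁ (hHK hh), ?_⟩
    rw [List.map_cons, Equiv.Perm.mul_apply, hHb h hh, hg₁b]
    congr 1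
    have h3 : bs.map (⇑(g₁ * h)) = (bs.map ⇑h).map ⇑g₁ := by
      rw [List.map_map]; rfl
    rw [h3, hmap, List.map_map]
    simp

theorem exists_map (y : Fin 5 ↪ Fin 12) :
    ∃ g ∈ G 8, g 2 = y 0 ∧ g 1 = y 1 ∧ g 0 = y 2 ∧ g 3 = y 3 ∧ g 4 = y 4 := by
  have t5 : TT (G (K 5)) (F 5) [] := TT_nil _ _
  have t4 : TT (G (K 4)) (F 4) [B 4] :=
    TT_step (G (K 4)) (G (K 5)) (F 4) (B 4) [] (G_mono (K_anti 4))
      (fun h hh => fixes 5 (by norm_num) h hh (B 4) (List.mem_cons_self ..))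
      (fixes 4 (by norm_num)) (trans_of_check 4 c4) t5
  have t3 : TT (G (K 3)) (F 3) [B 3, B 4] :=
    TT_step (G (K 3)) (G (K 4)) (F 3) (B 3) _ (G_mono (K_anti 3))
      (fun h hh => fixes 4 (by norm_num) h hh (B 3) (List.mem_cons_self ..))
      (fixes 3 (by norm_num)) (trans_of_check 3 c3) t4
  have t2 : TT (G (K 2)) (F 2) [B 2, B 3, B 4] :=
    TT_step (G (K 2)) (G (K 3)) (F 2) (B 2) _ (G_mono (K_anti 2))
      (fun h hh => fixes 3 (by norm_num) h hh (B 2) (List.mem_cons_self ..))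
      (fixes 2 (by norm_num)) (trans_of_check 2 c2) t3
  have t1 : TT (G (K 1)) (F 1) [B 1, B 2, B 3, B 4] :=
    TT_step (G (K 1)) (G (K 2)) (F 1) (B 1) _ (G_mono (K_anti 1))
      (fun h hh => fixes 2 (by norm_num) h hh (B 1) (List.mem_cons_self ..))
      (fixes 1 (by norm_num)) (trans_of_check 1 c1) t2
  have t0 : TT (G (K 0)) (F 0) [B 0, B 1, B 2, B 3, B 4] :=
    TT_step (G (K 0)) (G (K 1)) (F 0) (B 0) _ (G_mono (K_anti 0))
      (fun h hh => fixes 1 (by norm_num) h hh (B 0) (List.mem_cons_self ..))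
      (fixes 0 (by norm_num)) (trans_of_check 0 c0) t1
  obtain ⟨g, hg, hmap⟩ := t0 [y 0, y 1, y 2, y 3, y 4]
    (by
      have h := List.nodup_ofFn.2 y.injective
      have e : List.ofFn (⇑y) = [y 0, y 1, y 2, y 3, y 4] := by
        simp [List.ofFn_succ]
      rw [e] at h; exact h)
    (fun a _ h => by simp [F] at h) rfl
  refine ⟨g, hg, ?_⟩
  simp only [List.map_cons, List.map_nil, List.cons.injEq, and_true] at hmap
  exact hmap

theorem stab_chain (g : P) (hg : g ∈ G 8) (h2 : g 2 = 2) (h1 : g 1 = 1) (h0 : g 0 = 0)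
    (h3 : g 3 = 3) (h4 : g 4 = 4) : g = 1 := by
  have a1 : g ∈ G (K 1) := (level 0 (by norm_num) c0 g hg).2 h2
  have a2 : g ∈ G (K 2) := (level 1 (by norm_num) c1 g a1).2 h1
  have a3 : g ∈ G (K 3) := (level 2 (by norm_num) c2 g a2).2 h0
  have a4 : g ∈ G (K 4) := (level 3 (by norm_num) c3 g a3).2 h3
  have a5 : g ∈ G (K 5) := (level 4 (by norm_num) c4 g a4).2 h4
  have hbot : G (K 5) = ⊥ := by
    have : K 5 = 0 := rfl
    rw [this]
    unfold G
    rw [Subgroup.closure_eq_bot_iff]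
    intro x hx
    obtain ⟨j, hj, -⟩ := mem_gl.1 hx
    omega
  rw [hbot] at a5
  exact Subgroup.mem_bot.1 a5

theorem G7_eq : G 7 = G 8 ⊓ MulAction.stabilizer (Equiv.Perm (Fin 12)) (2 : Fin 12) := by
  apply le_antisymm
  · apply le_inf (G_mono (by norm_num))
    intro g hg
    exact MulAction.mem_stabilizer_iff.2 (fixes 1 (by norm_num) g hg 2 (by decide))
  · rintro g ⟨hg, hg2⟩
    exact (level 0 (by norm_num) c0 g hg).2 (MulAction.mem_stabilizer_iff.1 hg2)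

theorem pretrans : MulAction.IsMultiplyPretransitive (G 8) (Fin 12) 5 := by
  refine ⟨fun x y => ?_⟩
  obtain ⟨gx, hgx, hx2, hx1, hx0, hx3, hx4⟩ := exists_map x
  obtain ⟨gy, hgy, hy2, hy1, hy0, hy3, hy4⟩ := exists_map y
  refine ⟨⟨gy * gx⁻¹, (G 8).mul_mem hgy ((G 8).inv_mem hgx)⟩, ?_⟩
  ext i
  show ((gy * gx⁻¹) (x i) : ℕ) = y i
  congr 1
  rw [Equiv.Perm.mul_apply]
  fin_cases i
  · show gy (gx⁻¹ (x 0)) = y 0
    rw [← hx2, ← hy2]; simp
  · show gy (gx⁻¹ (x 1)) = y 1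
    rw [← hx1, ← hy1]; simp
  · show gy (gx⁻¹ (x 2)) = y 2
    rw [← hx0, ← hy0]; simp
  · show gy (gx⁻¹ (x 3)) = y 3
    rw [← hx3, ← hy3]; simp
  · show gy (gx⁻¹ (x 4)) = y 4
    rw [← hx4, ← hy4]; simp

theorem stab_bot (y : Fin 5 ↪ Fin 12) : MulAction.stabilizer (G 8) y = ⊥ := by
  rw [Subgroup.eq_bot_iff_forall]
  rintro ⟨g, hg⟩ hstab
  obtain ⟨gy, hgy, hy2, hy1, hy0, hy3, hy4⟩ := exists_map y
  have hfix : ∀ i, g (y i) = y i := by
    intro i
    have := MulAction.mem_stabilizer_iff.1 hstab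
    exact congrArg (fun z : Fin 5 ↪ Fin 12 => z i) this
  have hc : gy⁻¹ * g * gy = 1 := by
    apply stab_chain _ ((G 8).mul_mem ((G 8).mul_mem ((G 8).inv_mem hgy) hg) hgy)
    · rw [Equiv.Perm.mul_apply, Equiv.Perm.mul_apply, hy2, hfix, ← hy2]; simp
    · rw [Equiv.Perm.mul_apply, Equiv.Perm.mul_apply, hy1, hfix, ← hy1]; simp
    · rw [Equiv.Perm.mul_apply, Equiv.Perm.mul_apply, hy0, hfix, ← hy0]; simp
    · rw [Equiv.Perm.mul_apply, Equiv.Perm.mul_apply, hy3, hfix, ← hy3]; simp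
    · rw [Equiv.Perm.mul_apply, Equiv.Perm.mul_apply, hy4, hfix, ← hy4]; simp
  apply Subtype.ext
  show g = 1
  have : g = gy * (gy⁻¹ * g * gy) * gy⁻¹ := by group
  rw [this, hc]; group

theorem card_G8 : Nat.card (G 8) = 95040 := by
  haveI := pretrans
  let x₀ : Fin 5 ↪ Fin 12 := ⟨![2, 1, 0, 3, 4], by decide⟩
  have hbij : Function.Bijective (fun g : G 8 => g • x₀) := by
    constructor
    · intro g h hgh
      have hgh' : ∀ i, (g : P) (x₀ i) = (h : P) (x₀ i) := fun i =>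
        congrArg (fun z : Fin 5 ↪ Fin 12 => z i) hgh
      have e2 : (g : P) 2 = (h : P) 2 := hgh' 0
      have e1 : (g : P) 1 = (h : P) 1 := hgh' 1
      have e0 : (g : P) 0 = (h : P) 0 := hgh' 2
      have e3 : (g : P) 3 = (h : P) 3 := hgh' 3
      have e4 : (g : P) 4 = (h : P) 4 := hgh' 4
      have hc : (h : P)⁻¹ * (g : P) = 1 := by
        apply stab_chain _ ((G 8).mul_mem ((G 8).inv_mem h.2) g.2)
        · rw [Equiv.Perm.mul_apply, e2]; simp
        · rw [Equiv.Perm.mul_apply, e1]; simp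
        · rw [Equiv.Perm.mul_apply, e0]; simp
        · rw [Equiv.Perm.mul_apply, e3]; simp
        · rw [Equiv.Perm.mul_apply, e4]; simp
      apply Subtype.ext
      have h5 : (g : P) = (h : P) * ((h : P)⁻¹ * (g : P)) := by group
      rw [h5, hc, mul_one]
    · intro y
      exact MulAction.exists_smul_eq (G 8) x₀ y
  rw [Nat.card_eq_of_bijective _ hbij, Nat.card_eq_fintype_card, Fintype.card_embedding_eq]
  simp [Nat.descFactorial]

theorem card_G7 : Nat.card (G 7) = 7920 := by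
  haveI := pretrans
  haveI : MulAction.IsPretransitive (G 8) (Fin 12) := by
    have h51 : MulAction.IsMultiplyPretransitive (G 8) (Fin 12) 1 :=
      MulAction.isMultiplyPretransitive_of_le (n := 5) (by norm_num) (by simp)
    exact MulAction.is_one_pretransitive_iff.1 h51
  have h1 := MulAction.index_stabilizer_of_transitive (G 8) (2 : Fin 12)
  have h2 := (MulAction.stabilizer (G 8) (2 : Fin 12)).card_mul_index
  rw [h1, card_G8] at h2
  have h3 : MulAction.stabilizer (G 8) (2 : Fin 12) = (G 7).subgroupOf (G 8) := by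
    ext ⟨g, hg⟩
    rw [Subgroup.mem_subgroupOf, G7_eq, MulAction.mem_stabilizer_iff]
    constructor
    · intro h
      exact ⟨hg, MulAction.mem_stabilizer_iff.2 h⟩
    · intro h
      exact MulAction.mem_stabilizer_iff.1 h.2
  rw [h3, Nat.card_congr (Subgroup.subgroupOfEquivOfLe (G_mono (by norm_num) : G 7 ≤ G 8)).toEquiv] at h2
  simp at h2
  omega

/-- An explicit construction of the Mathieu groups of degrees 11 and 12. On the points 0, …, 11 let s = (3 4 5)(6 7 8)(9 10 11), t = (3 6 9)(4 7 10)(5 8 11), u = (4 6 5 9)(7 8 11 10), v = (4 7 5 11)(6 10 9 8), w = (4 10 5 8)(6 11 9 7), x₁ = (0 3)(6 7)(8 10)(9 11), x₂ = (0 1)(6 9)(7 10)(8 11), x₃ = (1 2)(6 11)(7 9)(8 10) (each written as a product of transpositions). Then the group M₁₂ generated by all eight permutations is sharply 5-transitive on the 12 points and has order 95040, and the group M₁₁ generated by the first seven has order 7920 and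 is the stabilizer of the point 2 in M₁₂. -/
theorem result
    (s t u v w x₁ x₂ x₃ : Equiv.Perm (Fin 12))
    (hs : s = Equiv.swap (3 : Fin 12) 5 * Equiv.swap (3 : Fin 12) 4 * Equiv.swap (6 : Fin 12) 8 * Equiv.swap (6 : Fin 12) 7 * Equiv.swap (9 : Fin 12) 11 * Equiv.swap (9 : Fin 12) 10) (ht : t = Equiv.swap (3 : Fin 12) 9 * Equiv.swap (3 : Fin 12) 6 * Equiv.swap (4 : Fin 12) 10 * Equiv.swap (4 : Fin 12) 7 * Equiv.swap (5 : Fin 12) 11 * Equiv.swap (5 : Fin 12) 8)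
    (hu : u = Equiv.swap (4 : Fin 12) 9 * Equiv.swap (4 : Fin 12) 5 * Equiv.swap (4 : Fin 12) 6 * Equiv.swap (7 : Fin 12) 10 * Equiv.swap (7 : Fin 12) 11 * Equiv.swap (7 : Fin 12) 8) (hv : v = Equiv.swap (4 : Fin 12) 11 * Equiv.swap (4 : Fin 12) 5 * Equiv.swap (4 : Fin 12) 7 * Equiv.swap (6 : Fin 12) 8 * Equiv.swap (6 : Fin 12) 9 * Equiv.swap (6 : Fin 12) 10) (hw : w = Equiv.swap (4 : Fin 12) 8 * Equiv.swap (4 : Fin 12) 5 * Equiv.swap (4 : Fin 12) 10 * Equiv.swap (6 : Fin 12) 7 * Equiv.swap (6 : Fin 12) 9 * Equiv.swap (6 : Fin 12) 11)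
    (hx₁ : x₁ = Equiv.swap (0 : Fin 12) 3 * Equiv.swap (6 : Fin 12) 7 * Equiv.swap (8 : Fin 12) 10 * Equiv.swap (9 : Fin 12) 11) (hx₂ : x₂ = Equiv.swap (0 : Fin 12) 1 * Equiv.swap (6 : Fin 12) 9 * Equiv.swap (7 : Fin 12) 10 * Equiv.swap (8 : Fin 12) 11)
    (hx₃ : x₃ = Equiv.swap (1 : Fin 12) 2 * Equiv.swap (6 : Fin 12) 11 * Equiv.swap (7 : Fin 12) 9 * Equiv.swap (8 : Fin 12) 10)
    (M₁₂ M₁₁ : Subgroup (Equiv.Perm (Fin 12))) (hM₁₂ : M₁₂ = Subgroup.closure {s, t, u, v, w, x₁, x₂, x₃})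
    (hM₁₁ : M₁₁ = Subgroup.closure {s, t, u, v, w, x₁, x₂}) :
    MulAction.IsMultiplyPretransitive M₁₂ (Fin 12) 5 ∧ (∀ y : Fin 5 ↪ Fin 12, MulAction.stabilizer M₁₂ y = ⊥) ∧
    Nat.card M₁₂ = 95040 ∧ Nat.card M₁₁ = 7920 ∧
    M₁₁ = M₁₂ ⊓ MulAction.stabilizer (Equiv.Perm (Fin 12)) (2 : Fin 12) := by
  subst hs ht hu hv hw hx₁ hx₂ hx₃
  have hl8 : gl 8 = [gu, gv, gw, gs, gt, gx1, gx2, gx3] := rfl
  have hl7 : gl 7 = [gu, gv, gw, gs, gt, gx1, gx2] := rfl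
  have e8 : M₁₂ = G 8 := by
    rw [hM₁₂]
    show Subgroup.closure {gs, gt, gu, gv, gw, gx1, gx2, gx3} = Subgroup.closure {g | g ∈ gl 8}
    congr 1
    ext g
    rw [hl8]
    simp only [Set.mem_insert_iff, Set.mem_singleton_iff, Set.mem_setOf_eq, List.mem_cons,
      List.not_mem_nil, or_false]
    constructor <;> rintro (h | h | h | h | h | h | h | h) <;>
      simp only [h, eq_self, true_or, or_true]
  have e7 : M₁₁ = G 7 := by
    rw [hM₁₁]
    show Subgroup.closure {gs, gt, gu, gv, gw, gx1, gx2} = Subgroup.closure {g | g ∈ gl 7}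
    congr 1
    ext g
    rw [hl7]
    simp only [Set.mem_insert_iff, Set.mem_singleton_iff, Set.mem_setOf_eq, List.mem_cons,
      List.not_mem_nil, or_false]
    constructor <;> rintro (h | h | h | h | h | h | h) <;>
      simp only [h, eq_self, true_or, or_true]
  rw [e8, e7]
  exact ⟨pretrans, stab_bot, card_G8, card_G7, G7_eq⟩

end Cfsg.Agent.S3362
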