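import Cfsg.Statements.S3374
import Mathlib
import Cfsg.Agent.Lib.Helper18.SL25Pres
import Cfsg.Agent.Lib.Helper23.FrobSemi

set_option autoImplicit false
open Cfsg

namespace Cfsg.Agent.S3374

open Matrix Cfsg.Agent.Lib.Helper18.SL25Pres Cfsg.Agent.Lib.Helper23.FrobSemi

def nX : SpecialLinearGroup (Fin 2) (ZMod 11) := ⟨!![0, 5; 2, 10], by decide⟩
def nY : SpecialLinearGroup (Fin 2) (ZMod 11) := ⟨!![0, -1; 1, 3], by decide⟩
def nZ : SpecialLinearGroup (Fin 2) (ZMod 11) := (nX * nY) ^ 2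

theorem nX3 : nX ^ 3 = 1 := by decide
theorem nY5 : nY ^ 5 = 1 := by decide
theorem nZ2 : nZ ^ 2 = 1 := by decide
theorem nZX : nZ * nX = nX * nZ := by decide
theorem nZY : nZ * nY = nY * nZ := by decide
theorem nZ_ne : nZ ≠ 1 := by decide
theorem nX_ne : nX ≠ 1 := by decide
theorem nY_ne : nY ≠ 1 := by decide

set_option maxRecDepth 100000 in
theorem invol_unique : ∀ c : SpecialLinearGroup (Fin 2) (ZMod 5), c ^ 2 = 1 → c = 1 ∨ c = mZ := by
  decide

theorem c10a : ((10 : ℕ) : ZMod 11) + 1 = 0 := by decide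
theorem c10b : ((10 : ℕ) : ZMod 11) = -1 := by decide

/-- A matrix of determinant one over `ZMod 11` fixing a nonzero vector has order dividing 11. -/
theorem fpf_aux (M : Matrix (Fin 2) (Fin 2) (ZMod 11)) (hdet : M.det = 1) (v : Fin 2 → ZMod 11)
    (hv : v ≠ 0) (hMv : M *ᵥ v = v) : M ^ 11 = 1 := by
  have : Fact (Nat.Prime 11) := ⟨by norm_num⟩
  have e0 : M 0 0 * v 0 + M 0 1 * v 1 - v 0 = 0 := by
    have := congrFun hMv 0
    simp only [Matrix.mulVec, dotProduct, Fin.sum_univ_two] at this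
    rw [this, sub_self]
  have e1 : M 1 0 * v 0 + M 1 1 * v 1 - v 1 = 0 := by
    have := congrFun hMv 1
    simp only [Matrix.mulVec, dotProduct, Fin.sum_univ_two] at this
    rw [this, sub_self]
  have hd : M 0 0 * M 1 1 - M 0 1 * M 1 0 = 1 := by
    rw [← Matrix.det_fin_two]; exact hdet
  have hchar : (M 0 0 - 1) * (M 1 1 - 1) - M 0 1 * M 1 0 = 0 := by
    have hv01 : v 0 ≠ 0 ∨ v 1 ≠ 0 := by
      by_contra hcon
      push Not at hcon
      apply hv
      funext i
      fin_cases i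
      · exact hcon.1
      · exact hcon.2
    rcases hv01 with h0 | h1
    · have h : v 0 * ((M 0 0 - 1) * (M 1 1 - 1) - M 0 1 * M 1 0) = 0 := by
        linear_combination (M 1 1 - 1) * e0 - M 0 1 * e1
      rcases mul_eq_zero.1 h with h | h
      · exact absurd h h0
      · exact h
    · have h : v 1 * ((M 0 0 - 1) * (M 1 1 - 1) - M 0 1 * M 1 0) = 0 := by
        linear_combination (M 0 0 - 1) * e1 - M 1 0 * e0
      rcases mul_eq_zero.1 h with h | h
      · exact absurd h h1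
      · exact h
  have htr : M 0 0 + M 1 1 = 2 := by linear_combination hd - hchar
  have hMM : M * M = (2 : ZMod 11) • M - 1 := by
    ext i j
    fin_cases i <;> fin_cases j
    · simp only [Matrix.mul_apply, Fin.sum_univ_two, Matrix.sub_apply, Matrix.smul_apply,
        smul_eq_mul]
      show M 0 0 * M 0 0 + M 0 1 * M 1 0 = 2 * M 0 0 - (1 : Matrix (Fin 2) (Fin 2) (ZMod 11)) 0 0
      rw [Matrix.one_apply_eq]
      linear_combination M 0 0 * htr - hd
    · simp only [Matrix.mul_apply, Fin.sum_univ_two, Matrix.sub_apply, Matrix.smul_apply,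
        smul_eq_mul]
      show M 0 0 * M 0 1 + M 0 1 * M 1 1 = 2 * M 0 1 - (1 : Matrix (Fin 2) (Fin 2) (ZMod 11)) 0 1
      rw [Matrix.one_apply_ne (by decide)]
      linear_combination M 0 1 * htr
    · simp only [Matrix.mul_apply, Fin.sum_univ_two, Matrix.sub_apply, Matrix.smul_apply,
        smul_eq_mul]
      show M 1 0 * M 0 0 + M 1 1 * M 1 0 = 2 * M 1 0 - (1 : Matrix (Fin 2) (Fin 2) (ZMod 11)) 1 0
      rw [Matrix.one_apply_ne (by decide)]
      linear_combination M 1 0 * htr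
    · simp only [Matrix.mul_apply, Fin.sum_univ_two, Matrix.sub_apply, Matrix.smul_apply,
        smul_eq_mul]
      show M 1 0 * M 0 1 + M 1 1 * M 1 1 = 2 * M 1 1 - (1 : Matrix (Fin 2) (Fin 2) (ZMod 11)) 1 1
      rw [Matrix.one_apply_eq]
      linear_combination M 1 1 * htr - hd
  have hpow : ∀ n : ℕ, M ^ (n + 1) = ((n : ZMod 11) + 1) • M -
      (n : ZMod 11) • (1 : Matrix (Fin 2) (Fin 2) (ZMod 11)) := by
    intro n
    induction n with
    | zero => simp
    | succ k ih =>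
      rw [pow_succ, ih, sub_mul, smul_mul_assoc, smul_mul_assoc, one_mul, hMM]
      push_cast
      module
  rw [hpow 10]
  rw [c10a, c10b, zero_smul, neg_smul, one_smul, zero_sub, neg_neg]

/-- The action of `SL(2,5)` on `ZMod 11 × ZMod 11` through a homomorphism to `SL(2,11)`. -/
@[reducible] def dma
    (φ : SpecialLinearGroup (Fin 2) (ZMod 5) →* SpecialLinearGroup (Fin 2) (ZMod 11)) :
    DistribMulAction (SpecialLinearGroup (Fin 2) (ZMod 5)) (Fin 2 → ZMod 11) where
  smul c v := (φ c : Matrix (Fin 2) (Fin 2) (ZMod 11)) *ᵥ v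
  one_smul v := by
    show (φ 1 : Matrix (Fin 2) (Fin 2) (ZMod 11)) *ᵥ v = v
    rw [map_one]
    exact Matrix.one_mulVec v
  mul_smul a b v := by
    show (φ (a * b) : Matrix (Fin 2) (Fin 2) (ZMod 11)) *ᵥ v =
      (φ a : Matrix (Fin 2) (Fin 2) (ZMod 11)) *ᵥ
        ((φ b : Matrix (Fin 2) (Fin 2) (ZMod 11)) *ᵥ v)
    rw [map_mul]
    exact (Matrix.mulVec_mulVec v _ _).symm
  smul_zero a := Matrix.mulVec_zero _
  smul_add a v w := Matrix.mulVec_add _ _ _

theorem exists_phi : ∃ φ : SpecialLinearGroup (Fin 2) (ZMod 5) →*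
    SpecialLinearGroup (Fin 2) (ZMod 11), Function.Injective φ ∧
      ∀ c : SpecialLinearGroup (Fin 2) (ZMod 5), c ≠ 1 → ∀ v : Fin 2 → ZMod 11,
        (φ c : Matrix (Fin 2) (Fin 2) (ZMod 11)) *ᵥ v = v → v = 0 := by
  obtain ⟨f0, h0X, h0Y, h0Z⟩ := exists_hom nX nY nZ nX3 nY5 nZ2 nZX nZY rfl
  obtain ⟨e, heX, heY, heZ⟩ := pres_equiv
  obtain ⟨φ, hφ⟩ : ∃ φ : SpecialLinearGroup (Fin 2) (ZMod 5) →*
      SpecialLinearGroup (Fin 2) (ZMod 11), φ = f0.comp e.symm.toMonoidHom := ⟨_, rfl⟩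
  have hX : φ mX = nX := by
    rw [hφ]
    show f0 (e.symm mX) = nX
    rw [← heX, MulEquiv.symm_apply_apply, h0X]
  have hY : φ mY = nY := by
    rw [hφ]
    show f0 (e.symm mY) = nY
    rw [← heY, MulEquiv.symm_apply_apply, h0Y]
  have hZ : φ mZ = nZ := by
    rw [hφ]
    show f0 (e.symm mZ) = nZ
    rw [← heZ, MulEquiv.symm_apply_apply, h0Z]
  have hinj : Function.Injective φ := by
    have : Fact (Nat.Prime 2) := ⟨Nat.prime_two⟩
    have : Fact (Nat.Prime 3) := ⟨Nat.prime_three⟩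
    have : Fact (Nat.Prime 5) := ⟨by norm_num⟩
    rw [← MonoidHom.ker_eq_bot_iff]
    have o3 : orderOf nX = 3 := orderOf_eq_prime nX3 nX_ne
    have o5 : orderOf nY = 5 := orderOf_eq_prime nY5 nY_ne
    have o4 : orderOf (nX * nY) = 2 ^ (1 + 1) :=
      orderOf_eq_prime_pow (by rw [pow_one]; exact nZ_ne) (by
        have := nZ2
        unfold nZ at this
        rw [← pow_mul] at this
        exact this)
    have d3 : 3 ∣ Nat.card φ.range := by
      have h := Subgroup.orderOf_dvd_natCard φ.range ⟨mX, hX⟩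
      rw [o3] at h; exact h
    have d5 : 5 ∣ Nat.card φ.range := by
      have h := Subgroup.orderOf_dvd_natCard φ.range ⟨mY, hY⟩
      rw [o5] at h; exact h
    have d4 : 4 ∣ Nat.card φ.range := by
      have h := Subgroup.orderOf_dvd_natCard φ.range (φ.range.mul_mem ⟨mX, hX⟩ ⟨mY, hY⟩)
      rw [o4] at h; exact h
    have d60 : 60 ∣ Nat.card φ.range :=
      Nat.Coprime.mul_dvd_of_dvd_of_dvd (by norm_num : Nat.Coprime 12 5)
        (Nat.Coprime.mul_dvd_of_dvd_of_dvd (by norm_num : Nat.Coprime 3 4) d3 d4) d5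
    have hk := Subgroup.card_mul_index φ.ker
    rw [Subgroup.index_ker, card_sl] at hk
    have hker : Nat.card φ.ker ≤ 2 := by
      obtain ⟨c, hc⟩ := d60
      rw [hc] at hk
      have hc0 : c ≠ 0 := by
        rintro rfl
        omega
      by_contra hlt
      have : 3 * (60 * 1) ≤ Nat.card φ.ker * (60 * c) :=
        Nat.mul_le_mul (by omega) (Nat.mul_le_mul_left 60 (by omega))
      omega
    by_contra hne
    have h1 : 1 < Nat.card φ.ker := by
      rw [Subgroup.one_lt_card_iff_ne_bot]; exact hne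
    have h2 : Nat.card φ.ker = 2 := by omega
    obtain ⟨k, hk2⟩ := exists_prime_orderOf_dvd_card' (G := φ.ker) 2 (by rw [h2])
    have hko : orderOf (k : SpecialLinearGroup (Fin 2) (ZMod 5)) = 2 := by
      rw [Subgroup.orderOf_coe]; exact hk2
    have hk_sq : (k : SpecialLinearGroup (Fin 2) (ZMod 5)) ^ 2 = 1 := by
      have h := pow_orderOf_eq_one (k : SpecialLinearGroup (Fin 2) (ZMod 5))
      rw [hko] at h
      exact h
    have hk_ne : (k : SpecialLinearGroup (Fin 2) (ZMod 5)) ≠ 1 := by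
      intro h
      rw [h, orderOf_one] at hko
      omega
    rcases invol_unique (k : SpecialLinearGroup (Fin 2) (ZMod 5)) hk_sq with h | h
    · exact hk_ne h
    · have h3 : φ mZ = 1 := by
        rw [← h]; exact k.2
      rw [hZ] at h3
      exact nZ_ne h3
  refine ⟨φ, hinj, ?_⟩
  intro c hc v hv
  by_contra hv0
  have h11 : (φ c : Matrix (Fin 2) (Fin 2) (ZMod 11)) ^ 11 = 1 :=
    fpf_aux (φ c) (φ c).det_coe v hv0 hv
  have h11' : (φ c) ^ 11 = 1 := by
    apply Subtype.ext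
    exact h11
  have h120 : (φ c) ^ 120 = 1 := by
    rw [← map_pow, ← card_sl, pow_card_eq_one', map_one]
  have h1 : φ c = 1 := by
    have h121 : (φ c) ^ 121 = 1 := by
      have : (φ c) ^ 121 = ((φ c) ^ 11) ^ 11 := by rw [← pow_mul]
      rw [this, h11', one_pow]
    have : (φ c) ^ 121 = (φ c) ^ 120 * φ c := pow_succ _ _
    rw [h121, h120, one_mul] at this
    exact this.symm
  exact hc (hinj (by rw [h1, map_one]))

/-- SL(2,5) occurs as a Frobenius complement: there is a finite group L with a subgroup H isomorphic to SL(2,5) which is a non-trivial proper subgroup meeting each conjugate gHg⁻¹ with g outside H trivially. -/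
theorem result :
    ∃ (L : Type) (_ : Group L) (_ : Finite L) (H : Subgroup L),
      Cfsg.IsFrobeniusComplement H ∧ Nonempty (H ≃* Matrix.SpecialLinearGroup (Fin 2) (ZMod 5)) := by
  obtain ⟨φ, hinj, hfpf⟩ := exists_phi
  let _ := dma φ
  have : Nontrivial (SpecialLinearGroup (Fin 2) (ZMod 5)) := ⟨⟨1, mZ, mZ_ne.symm⟩⟩
  have : Nontrivial (Fin 2 → ZMod 11) := ⟨⟨0, fun _ => 1, by decide⟩⟩
  obtain ⟨L, hL, hF, H, hH, ⟨e⟩⟩ :=
    exists_frob_of_addAction (A := Fin 2 → ZMod 11) (C := SpecialLinearGroup (Fin 2) (ZMod 5))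
      (fun c hc a ha => hfpf c hc a ha)
  exact ⟨L, hL, hF, H, hH, ⟨e.symm⟩⟩

end Cfsg.Agent.S3374
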