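import Cfsg.Statements.S3375
import Mathlib

set_option autoImplicit false
open Cfsg

namespace Cfsg.Agent.S3375

theorem comm_of_inv {H : Type*} [Group H] (γ : MulAut H) (a b : H)
    (ha : γ a = a⁻¹) (hb : γ b = b⁻¹) (hab : γ (a * b) = (a * b)⁻¹) : a * b = b * a := by
  rw [map_mul, ha, hb, ← mul_inv_rev] at hab
  exact (inv_injective hab).symm

theorem part_i {H : Type*} [Group H] [Finite H] (γ : MulAut H) (hγ2 : ∀ h, γ (γ h) = h)
    (hfix : ∀ h : H, γ h = h → h = 1) : ∀ h : H, γ h = h⁻¹ := by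
  have hinj : Function.Injective (fun h : H => γ h * h⁻¹) := by
    intro a b hab
    have hab' : γ a * a⁻¹ = γ b * b⁻¹ := hab
    have h1 : γ (b⁻¹ * a) = b⁻¹ * a := by
      rw [map_mul, map_inv]
      have h2 : γ a = γ b * b⁻¹ * a := by rw [← hab']; group
      rw [h2]; group
    have h3 := hfix _ h1
    exact (inv_mul_eq_one.1 h3).symm
  have hsurj := Finite.surjective_of_injective hinj
  intro h
  obtain ⟨x, hx⟩ := hsurj h
  have hx' : γ x * x⁻¹ = h := hx
  rw [← hx', map_mul, map_inv, hγ2]; group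

theorem stepA {H : Type*} [Group H] (γ : MulAut H) (hγ2 : ∀ h, γ (γ h) = h)
    (M : Subgroup H) (hM : M.index = 2) :
    ∃ M' : Subgroup H, M'.index = 2 ∧ ∀ h ∈ M', γ h ∈ M' := by
  by_cases hinv : ∀ h ∈ M, γ h ∈ M
  · exact ⟨M, hM, hinv⟩
  · push Not at hinv
    obtain ⟨m, hm, hγm⟩ := hinv
    have key := fun a b => Subgroup.mul_mem_iff_of_index_two hM (a := a) (b := b)
    let M' : Subgroup H :=
      { carrier := {h | h ∈ M ↔ γ h ∈ M}
        mul_mem' := by
          intro a b ha hb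
          have ha' : a ∈ M ↔ γ a ∈ M := ha
          have hb' : b ∈ M ↔ γ b ∈ M := hb
          show a * b ∈ M ↔ γ (a * b) ∈ M
          rw [map_mul, key, key, ha', hb']
        one_mem' := by
          show (1 : H) ∈ M ↔ γ 1 ∈ M
          simp
        inv_mem' := by
          intro a ha
          have ha' : a ∈ M ↔ γ a ∈ M := ha
          show a⁻¹ ∈ M ↔ γ a⁻¹ ∈ M
          rw [map_inv, inv_mem_iff, inv_mem_iff]; exact ha' }
    refine ⟨M', ?_, ?_⟩
    · rw [Subgroup.index_eq_two_iff]
      refine ⟨m, fun b => ?_⟩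
      have h1 : b * m ∈ M' ↔ (b * m ∈ M ↔ γ (b * m) ∈ M) := Iff.rfl
      have h2 : b ∈ M' ↔ (b ∈ M ↔ γ b ∈ M) := Iff.rfl
      rw [h1, h2, map_mul, key, key]
      simp only [hm, hγm, iff_true, iff_false]
      unfold Xor; tauto
    · intro h hh
      have h1 : h ∈ M ↔ γ h ∈ M := hh
      show γ h ∈ M ↔ γ (γ h) ∈ M
      rw [hγ2]; exact h1.symm

theorem stepB {H : Type*} [Group H] [Finite H] (γ : MulAut H) (hγ2 : ∀ h, γ (γ h) = h)
    (hcard : Nat.card {h : H // γ h = h} = 2)
    (M : Subgroup H) (hM : M.index = 2) (hinv : ∀ h ∈ M, γ h ∈ M) :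
    ∀ a ∈ M, γ a = a⁻¹ := by
  let F : Subgroup H :=
    { carrier := {h | γ h = h}
      mul_mem' := by
        intro a b ha hb
        have ha' : γ a = a := ha
        have hb' : γ b = b := hb
        show γ (a * b) = a * b
        rw [map_mul, ha', hb']
      one_mem' := by
        show γ 1 = 1
        simp
      inv_mem' := by
        intro a ha
        have ha' : γ a = a := ha
        show γ a⁻¹ = a⁻¹
        rw [map_inv, ha'] }
  have hF : Nat.card F = 2 := hcard
  have hmem : ∀ h : H, γ h * h⁻¹ ∈ M := by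
    intro h
    rw [Subgroup.mul_mem_iff_of_index_two hM, inv_mem_iff]
    constructor
    · intro h1
      have h2 := hinv _ h1
      rwa [hγ2] at h2
    · exact hinv h
  let φ : H ⧸ F → M := Quotient.lift (fun h => (⟨γ h * h⁻¹, hmem h⟩ : M)) (by
    intro a b hab
    have hab' : a⁻¹ * b ∈ F := QuotientGroup.leftRel_apply.1 hab
    have hab2 : γ (a⁻¹ * b) = a⁻¹ * b := hab'
    apply Subtype.ext
    show γ a * a⁻¹ = γ b * b⁻¹
    rw [map_mul, map_inv] at hab2
    have h3 : γ b = γ a * (a⁻¹ * b) := by rw [← hab2]; group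
    rw [h3]; group)
  have hφinj : Function.Injective φ := by
    intro q₁ q₂
    refine Quotient.inductionOn₂ q₁ q₂ ?_
    intro a b hab
    have hab' : γ a * a⁻¹ = γ b * b⁻¹ := congrArg Subtype.val hab
    apply Quotient.sound
    apply QuotientGroup.leftRel_apply.2
    show γ (a⁻¹ * b) = a⁻¹ * b
    rw [map_mul, map_inv]
    have h3 : γ b = γ a * a⁻¹ * b := by rw [hab']; group
    rw [h3]; group
  have hcardle : Nat.card M ≤ Nat.card (H ⧸ F) := by
    have h1 := Subgroup.card_mul_index M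
    have h2 := Subgroup.card_mul_index F
    rw [hM] at h1
    rw [hF] at h2
    have h3 : F.index = Nat.card (H ⧸ F) := rfl
    omega
  have hbij := hφinj.bijective_of_nat_card_le hcardle
  intro a ha
  obtain ⟨q, hq⟩ := hbij.2 ⟨a, ha⟩
  revert hq
  refine Quotient.inductionOn q ?_
  intro h hq
  have hq' : γ h * h⁻¹ = a := congrArg Subtype.val hq
  rw [← hq', map_mul, map_inv, hγ2]; group

/-- Let γ be an automorphism of order 2 of a finite group H. (i) If γ fixes only the identity, then H is abelian and γ inverts every element. (ii) If γ has exactly two fixed points and H has a subgroup of index 2, then H has a γ-invariant abelian subgroup of index 2 on which γ acts by inversion. -/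
theorem result {H : Type*} [Group H] [Finite H] (γ : MulAut H) (hγ : orderOf γ = 2) :
    ((∀ h : H, γ h = h → h = 1) → (∀ a b : H, a * b = b * a) ∧ ∀ h : H, γ h = h⁻¹) ∧
    ((Nat.card {h : H // γ h = h} = 2 ∧ ∃ M : Subgroup H, M.index = 2) →
      ∃ A : Subgroup H, A.index = 2 ∧ IsMulCommutative A ∧ (∀ a ∈ A, γ a ∈ A) ∧ ∀ a ∈ A, γ a = a⁻¹) := by
  have hsq : ∀ h, γ (γ h) = h := by
    intro h
    have h1 := pow_orderOf_eq_one γ
    rw [hγ] at h1
    have h2 := congrArg (fun f : MulAut H => f h) h1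
    simpa [pow_two] using h2
  refine ⟨?_, ?_⟩
  · intro hfix
    have hinvt := part_i γ hsq hfix
    exact ⟨fun a b => comm_of_inv γ a b (hinvt a) (hinvt b) (hinvt _), hinvt⟩
  · rintro ⟨hcard, M, hM⟩
    obtain ⟨M', hM', hinv⟩ := stepA γ hsq M hM
    have hB := stepB γ hsq hcard M' hM' hinv
    refine ⟨M', hM', ⟨⟨fun a b => Subtype.ext ?_⟩⟩, hinv, hB⟩
    exact comm_of_inv γ a b (hB a a.2) (hB b b.2) (hB _ (mul_mem a.2 b.2))

end Cfsg.Agent.S3375
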