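import Cfsg.Statements.S3379
import Mathlib

set_option autoImplicit false
open Cfsg

namespace Cfsg.Agent.S3379

/-- Let G be a finite group all of whose Sylow subgroups are cyclic. Then G is generated by two elements x and y of coprime orders n and m with x⁻¹yx = y^r, where gcd(r − 1, m) = 1 and r^n ≡ 1 (mod m). -/
theorem result {G : Type*} [Group G] [Finite G]
    (hZ : ∀ (p : ℕ) [Fact p.Prime] (P : Sylow p G), IsCyclic (P : Subgroup G)) :
    ∃ (x y : G) (n m r : ℕ), Subgroup.closure {x, y} = ⊤ ∧ orderOf x = n ∧ orderOf y = m ∧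
      x⁻¹ * y * x = y ^ r ∧ Nat.Coprime (r - 1) m ∧ Nat.Coprime n m ∧ 1 ≤ r ∧ r ^ n % m = 1 % m := by
  have hZG : IsZGroup G := ⟨fun p hp P => @hZ p ⟨hp⟩ P⟩
  have hNc : IsCyclic (commutator G) := IsZGroup.isCyclic_commutator G
  have hcop := IsZGroup.coprime_commutator_index G
  obtain ⟨H, hH⟩ := Subgroup.exists_right_complement'_of_coprime hcop
  have hHc : IsCyclic H := by
    have h1 : Abelianization G ≃* H := hH.symm.QuotientMulEquiv
    exact isCyclic_of_surjective _ h1.surjective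
  obtain ⟨y', hy'⟩ := hNc.exists_generator
  obtain ⟨x', hx'⟩ := hHc.exists_generator
  obtain ⟨N, hN⟩ : ∃ N : Subgroup G, N = commutator G := ⟨_, rfl⟩
  have hNn : N.Normal := by rw [hN]; infer_instance
  obtain ⟨y, hy⟩ : ∃ y : G, y = (y' : G) := ⟨_, rfl⟩
  obtain ⟨x, hx⟩ : ∃ x : G, x = (x' : G) := ⟨_, rfl⟩
  have hyN : ∀ g : G, g ∈ N ↔ g ∈ Subgroup.zpowers y := by
    intro g
    constructor
    · intro hg
      rw [hN] at hg
      obtain ⟨k, hk⟩ := Subgroup.mem_zpowers_iff.1 (hy' ⟨g, hg⟩)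
      refine Subgroup.mem_zpowers_iff.2 ⟨k, ?_⟩
      rw [hy]
      have := congrArg Subtype.val hk
      simpa using this
    · intro hg
      obtain ⟨k, rfl⟩ := Subgroup.mem_zpowers_iff.1 hg
      rw [hy, hN]
      exact (commutator G).zpow_mem y'.2 k
  have hxH : ∀ g : G, g ∈ H ↔ g ∈ Subgroup.zpowers x := by
    intro g
    constructor
    · intro hg
      obtain ⟨k, hk⟩ := Subgroup.mem_zpowers_iff.1 (hx' ⟨g, hg⟩)
      refine Subgroup.mem_zpowers_iff.2 ⟨k, ?_⟩
      rw [hx]
      have := congrArg Subtype.val hk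
      simpa using this
    · intro hg
      obtain ⟨k, rfl⟩ := Subgroup.mem_zpowers_iff.1 hg
      rw [hx]
      exact H.zpow_mem x'.2 k
  have hm : orderOf y = Nat.card (commutator G) := by
    rw [hy, Subgroup.orderOf_coe]; exact orderOf_eq_card_of_forall_mem_zpowers hy'
  have hn : orderOf x = Nat.card H := by
    rw [hx, Subgroup.orderOf_coe]; exact orderOf_eq_card_of_forall_mem_zpowers hx'
  have hidx : (commutator G).index = Nat.card H := hH.symm.index_eq_card
  have hcop' : Nat.Coprime (orderOf x) (orderOf y) := by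
    rw [hm, hn, ← hidx]; exact hcop.symm
  have hyN' : y ∈ N := (hyN y).2 (Subgroup.mem_zpowers y)
  have hcl : Subgroup.closure {x, y} = ⊤ := by
    rw [eq_top_iff, ← hH.sup_eq_top, ← hN]
    apply sup_le
    · intro g hg
      rw [hyN] at hg
      exact (Subgroup.zpowers_le.2 (Subgroup.subset_closure (by simp))) hg
    · intro g hg
      rw [hxH] at hg
      exact (Subgroup.zpowers_le.2 (Subgroup.subset_closure (by simp))) hg
  have hconj : x⁻¹ * y * x ∈ N := by
    have := hNn.conj_mem y hyN' x⁻¹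
    simpa using this
  obtain ⟨k, hk⟩ := Subgroup.mem_zpowers_iff.1 ((hyN _).1 hconj)
  have hmpos : 0 < orderOf y := orderOf_pos y
  obtain ⟨r, hr1, hr⟩ : ∃ r : ℕ, 1 ≤ r ∧ y ^ r = x⁻¹ * y * x := by
    refine ⟨(k % (orderOf y : ℤ)).toNat + orderOf y, by omega, ?_⟩
    rw [pow_add, pow_orderOf_eq_one, mul_one, ← zpow_natCast,
      Int.toNat_of_nonneg (Int.emod_nonneg _ (by exact_mod_cast hmpos.ne')), zpow_mod_orderOf, hk]
  obtain ⟨r', rfl⟩ : ∃ r', r = r' + 1 := ⟨r - 1, by omega⟩
  refine ⟨x, y, orderOf x, orderOf y, r' + 1, hcl, rfl, rfl, hr.symm, ?_, hcop', hr1, ?_⟩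
  · rw [Nat.add_sub_cancel]
    obtain ⟨K, hK⟩ : ∃ K : Subgroup G, K = Subgroup.zpowers (y ^ r') := ⟨_, rfl⟩
    have hKN : K.Normal := by
      constructor
      intro a ha g
      rw [hK] at ha ⊢
      obtain ⟨j, rfl⟩ := Subgroup.mem_zpowers_iff.1 ha
      have hgy : g * y * g⁻¹ ∈ N := hNn.conj_mem y hyN' g
      obtain ⟨i, hi⟩ := Subgroup.mem_zpowers_iff.1 ((hyN _).1 hgy)
      have e1 : g * (y ^ r') ^ j * g⁻¹ = ((g * y * g⁻¹) ^ r') ^ j := by
        rw [conj_pow, conj_zpow]
      have e2 : (y ^ i) ^ r' = (y ^ r') ^ i := by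
        rw [← zpow_natCast, ← zpow_mul, mul_comm, zpow_mul, zpow_natCast]
      rw [e1, ← hi, e2]
      exact Subgroup.zpow_mem _ (Subgroup.zpow_mem _ (Subgroup.mem_zpowers _) i) j
    have hπxy : (QuotientGroup.mk' K) x * (QuotientGroup.mk' K) y =
        (QuotientGroup.mk' K) y * (QuotientGroup.mk' K) x := by
      have h1 : (QuotientGroup.mk' K) (x⁻¹ * y * x) = (QuotientGroup.mk' K) y := by
        rw [← hr, pow_succ, map_mul]
        have h0 : (QuotientGroup.mk' K) (y ^ r') = 1 := by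
          rw [QuotientGroup.mk'_apply, QuotientGroup.eq_one_iff, hK]
          exact Subgroup.mem_zpowers _
        rw [h0, one_mul]
      rw [map_mul, map_mul, map_inv] at h1
      calc (QuotientGroup.mk' K) x * (QuotientGroup.mk' K) y
          = (QuotientGroup.mk' K) x * (((QuotientGroup.mk' K) x)⁻¹ * (QuotientGroup.mk' K) y *
              (QuotientGroup.mk' K) x) := by rw [h1]
        _ = (QuotientGroup.mk' K) y * (QuotientGroup.mk' K) x := by group
    have hab : ∀ a b : G ⧸ K, a * b = b * a := by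
      have htop : Subgroup.closure ({(QuotientGroup.mk' K) x, (QuotientGroup.mk' K) y} :
          Set (G ⧸ K)) = ⊤ := by
        have := congrArg (Subgroup.map (QuotientGroup.mk' K)) hcl
        rw [MonoidHom.map_closure,
          Subgroup.map_top_of_surjective _ (QuotientGroup.mk'_surjective K), Set.image_pair] at this
        exact this
      have hcc := Subgroup.isMulCommutative_closure
        (k := ({(QuotientGroup.mk' K) x, (QuotientGroup.mk' K) y} : Set (G ⧸ K))) (by
          rintro a (rfl | rfl) b (rfl | rfl)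
          · rfl
          · exact hπxy
          · exact hπxy.symm
          · rfl)
      intro a b
      have ha : a ∈ Subgroup.closure ({(QuotientGroup.mk' K) x, (QuotientGroup.mk' K) y} :
          Set (G ⧸ K)) := by rw [htop]; trivial
      have hb : b ∈ Subgroup.closure ({(QuotientGroup.mk' K) x, (QuotientGroup.mk' K) y} :
          Set (G ⧸ K)) := by rw [htop]; trivial
      have := hcc.is_comm.comm (⟨a, ha⟩ : Subgroup.closure ({(QuotientGroup.mk' K) x,
        (QuotientGroup.mk' K) y} : Set (G ⧸ K))) ⟨b, hb⟩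
      exact congrArg Subtype.val this
    have hcomm_le : N ≤ K := by
      rw [hN, commutator_def, Subgroup.commutator_le]
      intro g₁ _ g₂ _
      rw [← QuotientGroup.eq_one_iff, commutatorElement_def]
      have : ((g₁ * g₂ * g₁⁻¹ * g₂⁻¹ : G) : G ⧸ K) =
          (g₁ : G ⧸ K) * (g₂ : G ⧸ K) * (g₁ : G ⧸ K)⁻¹ * (g₂ : G ⧸ K)⁻¹ := rfl
      rw [this, hab (g₁ : G ⧸ K) (g₂ : G ⧸ K)]
      group
    have hyK : y ∈ K := hcomm_le hyN'
    rw [hK] at hyK
    obtain ⟨s, hs⟩ := Subgroup.mem_zpowers_iff.1 hyK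
    rw [← zpow_natCast, ← zpow_mul] at hs
    have h1 : y ^ ((r' : ℤ) * s - 1) = 1 := by
      rw [zpow_sub, hs, zpow_one, mul_inv_cancel]
    have h2 : (orderOf y : ℤ) ∣ (r' : ℤ) * s - 1 := orderOf_dvd_iff_zpow_eq_one.2 h1
    obtain ⟨c, hc⟩ := h2
    have h3 : IsCoprime (r' : ℤ) (orderOf y : ℤ) := ⟨s, -c, by linarith⟩
    exact Nat.isCoprime_iff_coprime.1 h3
  · have key : ∀ j : ℕ, (x ^ j)⁻¹ * y * x ^ j = y ^ ((r' + 1) ^ j) := by
      intro j
      induction j with
      | zero => simp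
      | succ j ih =>
        calc (x ^ (j + 1))⁻¹ * y * x ^ (j + 1) = x⁻¹ * ((x ^ j)⁻¹ * y * x ^ j) * x := by
              rw [pow_succ]; group
          _ = x⁻¹ * y ^ ((r' + 1) ^ j) * x := by rw [ih]
          _ = (x⁻¹ * y * x) ^ ((r' + 1) ^ j) := by
              have := conj_pow (a := x⁻¹) (b := y) (i := (r' + 1) ^ j)
              rw [inv_inv] at this
              exact this.symm
          _ = y ^ ((r' + 1) ^ (j + 1)) := by rw [← hr, ← pow_mul, pow_succ']
    have h1 := key (orderOf x)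
    rw [pow_orderOf_eq_one, inv_one, one_mul, mul_one] at h1
    have h2 : y ^ ((r' + 1) ^ orderOf x) = y ^ 1 := by rw [pow_one]; exact h1.symm
    exact pow_eq_pow_iff_modEq.1 h2

end Cfsg.Agent.S3379
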