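import Cfsg.Statements.S3380
import Mathlib
import Cfsg.Agent.Lib.Helper18.UniqueInvolution
import Cfsg.Agent.Lib.Lead.CyclicMax
import Cfsg.Agent.S0126
import Cfsg.Agent.S0519

set_option autoImplicit false
open Cfsg

namespace Cfsg.Agent.S3380

section core
variable {q : ℕ} [Fact q.Prime] {V : Type*} [AddCommGroup V] [Module (ZMod q) V]
  {G : Type*} [Group G] (ρ : G →* (V ≃ₗ[ZMod q] V))

/-- the trace of the cyclic group generated by `b` (of order dividing `p`) -/
def tr (p : ℕ) (b : G) : V →ₗ[ZMod q] V :=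
  ∑ j ∈ Finset.range p, ((ρ (b ^ j) : V ≃ₗ[ZMod q] V) : V →ₗ[ZMod q] V)

theorem tr_apply (p : ℕ) (b : G) (v : V) : tr ρ p b v = ∑ j ∈ Finset.range p, ρ (b ^ j) v := by
  simp [tr, LinearMap.sum_apply]

theorem rho_mul (g h : G) (v : V) : ρ (g * h) v = ρ g (ρ h v) := by
  rw [map_mul]; rfl

theorem tr_fixed (p : ℕ) (b : G) (hb : b ^ p = 1) (v : V) : ρ b (tr ρ p b v) = tr ρ p b v := by
  rw [tr_apply, map_sum]
  have h1 : ∀ j, ρ b (ρ (b ^ j) v) = ρ (b ^ (j + 1)) v := by
    intro j; rw [pow_succ', rho_mul]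
  simp only [h1]
  have h2 := Finset.sum_range_succ' (fun j => ρ (b ^ j) v) p
  have h3 := Finset.sum_range_succ (fun j => ρ (b ^ j) v) p
  rw [h3] at h2
  simp only [hb, pow_zero] at h2
  exact (add_right_cancel h2).symm

theorem fix_central (hρ : Function.Injective ρ)
    (hirr : ∀ W : Submodule (ZMod q) V, (∀ g : G, ∀ w ∈ W, ρ g w ∈ W) → W = ⊥ ∨ W = ⊤)
    (c : G) (hc : ∀ g, g * c = c * g) (hc1 : c ≠ 1) (v : V) (hv : ρ c v = v) : v = 0 := by
  let W : Submodule (ZMod q) V :=
    LinearMap.eqLocus ((ρ c : V ≃ₗ[ZMod q] V) : V →ₗ[ZMod q] V) LinearMap.id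
  have hW : ∀ g : G, ∀ w ∈ W, ρ g w ∈ W := by
    intro g w hw
    have hw' : ρ c w = w := hw
    show ρ c (ρ g w) = ρ g w
    rw [← rho_mul, ← hc, rho_mul, hw']
  rcases hirr W hW with h | h
  · have h1 : v ∈ W := hv
    rw [h] at h1
    exact (Submodule.mem_bot _).1 h1
  · exfalso
    apply hc1
    apply hρ
    rw [map_one]
    ext w
    have h1 : w ∈ W := by rw [h]; trivial
    exact h1

theorem smul_p_eq_zero (p : ℕ) [hp : Fact p.Prime] (hpq : p ≠ q) (v : V) (h : p • v = 0) :
    v = 0 := by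
  have hq : q.Prime := Fact.out
  have h1 : ((p : ZMod q)) ≠ 0 := by
    intro h0
    rw [ZMod.natCast_eq_zero_iff] at h0
    exact hpq ((Nat.prime_dvd_prime_iff_eq hq hp.out).1 h0).symm
  rw [← Nat.cast_smul_eq_nsmul (ZMod q)] at h
  rcases smul_eq_zero.1 h with h2 | h2
  · exact absurd h2 h1
  · exact h2

theorem core (p : ℕ) [hp : Fact p.Prime] (hpq : p ≠ q) [Finite G] [Nontrivial V]
    (hρ : Function.Injective ρ)
    (hirr : ∀ W : Submodule (ZMod q) V, (∀ g : G, ∀ w ∈ W, ρ g w ∈ W) → W = ⊥ ∨ W = ⊤)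
    (a z : G) (hzc : ∀ g, g * z = z * g) (hz1 : z ≠ 1) (hzp : z ^ p = 1) (hap : a ^ p = 1)
    (haz : a ∉ Subgroup.zpowers z) (hcomm : ∀ g : G, g * a * g⁻¹ * a⁻¹ ∈ Subgroup.zpowers z) :
    ∃ (H : Subgroup G) (W : Fin p → Submodule (ZMod q) V), H.index = p ∧
      iSup W = ⊤ ∧ iSupIndep W ∧
      (∀ h ∈ H, ∀ i, ∀ w ∈ W i, ρ h w ∈ W i) ∧
      (∀ i, ∃ h ∈ H, h ≠ 1 ∧ ∀ w ∈ W i, ρ h w = w) ∧
      ∀ g : G, g ∉ H → ∃ σ : Equiv.Perm (Fin p), orderOf σ = p ∧
        ∀ i, (W i).map (ρ g : V →ₗ[ZMod q] V) = W (σ i) := by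
  classical
  haveI : NeZero p := ⟨hp.out.ne_zero⟩
  have hzo : orderOf z = p := orderOf_eq_prime hzp hz1
  -- powers of z are central
  have hzpc : ∀ (i : ℕ) (g : G), g * z ^ i = z ^ i * g := by
    intro i g
    induction i with
    | zero => simp
    | succ i ih => rw [pow_succ, ← mul_assoc, ih, mul_assoc, hzc, ← mul_assoc]
  have hcen : ∀ w ∈ Subgroup.zpowers z, ∀ g : G, g * w = w * g := by
    intro w hw g
    obtain ⟨k, rfl⟩ := Cfsg.Agent.Lib.Lead.CyclicMax.exists_nat_pow hw
    exact hzpc k g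
  -- the elements b i
  obtain ⟨b, hbdef⟩ : ∃ b : ℕ → G, ∀ i, b i = a * z ^ i := ⟨fun i => a * z ^ i, fun _ => rfl⟩
  have hbp : ∀ i, b i ^ p = 1 := by
    intro i
    rw [hbdef, Commute.mul_pow (show Commute a (z ^ i) from hzpc i a), hap, ← pow_mul,
      mul_comm i p, pow_mul, hzp, one_pow, one_mul]
  have hb1 : ∀ i, b i ≠ 1 := by
    intro i h
    apply haz
    rw [hbdef] at h
    have : a = (z ^ i)⁻¹ := eq_inv_of_mul_eq_one_left h
    rw [this]
    exact Subgroup.inv_mem _ (Subgroup.pow_mem _ (Subgroup.mem_zpowers z) i)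
  have hba : ∀ i, b i * a = a * b i := by
    intro i
    rw [hbdef, mul_assoc, ← hzpc i a]
  have hbpow : ∀ i j, b i ^ j = a ^ j * (z ^ j) ^ i := by
    intro i j
    rw [hbdef, Commute.mul_pow (show Commute a (z ^ i) from hzpc i a), ← pow_mul, ← pow_mul,
      mul_comm i j]
  -- trace formula
  have hF3 : ∀ v : V, p • v = ∑ i ∈ Finset.range p, tr ρ p (b i) v := by
    intro v
    have h1 : ∀ i ∈ Finset.range p, tr ρ p (b i) v =
        ∑ j ∈ Finset.range p, ρ (a ^ j) (ρ ((z ^ j) ^ i) v) := by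
      intro i _
      rw [tr_apply]
      apply Finset.sum_congr rfl
      intro j _
      rw [hbpow, rho_mul]
    rw [Finset.sum_congr rfl h1, Finset.sum_comm]
    have h2 : ∀ j ∈ Finset.range p, ∑ i ∈ Finset.range p, ρ (a ^ j) (ρ ((z ^ j) ^ i) v) =
        ρ (a ^ j) (tr ρ p (z ^ j) v) := by
      intro j _
      rw [tr_apply, map_sum]
    rw [Finset.sum_congr rfl h2]
    rw [Finset.sum_eq_single 0]
    · rw [pow_zero, pow_zero, map_one, tr_apply]
      simp
    · intro j hj hj0
      have hjp : j < p := Finset.mem_range.1 hj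
      have h3 : tr ρ p (z ^ j) v = 0 := by
        apply fix_central ρ hρ hirr (z ^ j) (hzpc j)
          (pow_ne_one_of_lt_orderOf hj0 (by rw [hzo]; exact hjp))
        apply tr_fixed
        rw [← pow_mul, mul_comm, pow_mul, hzp, one_pow]
      rw [h3, map_zero]
    · intro h0
      exact absurd (Finset.mem_range.2 hp.out.pos) h0
  -- a is not central
  have hanc : ∃ g : G, g * a * g⁻¹ * a⁻¹ ≠ 1 := by
    by_contra hcon
    push_neg at hcon
    have hac : ∀ g : G, g * a = a * g := by
      intro g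
      have := hcon g
      have h1 : g * a * g⁻¹ = a := by
        rw [mul_inv_eq_one] at this; exact this
      calc g * a = g * a * g⁻¹ * g := by group
        _ = a * g := by rw [h1]
    obtain ⟨v, hv⟩ := exists_ne (0 : V)
    apply hv
    apply smul_p_eq_zero p hpq
    rw [hF3]
    apply Finset.sum_eq_zero
    intro i _
    apply fix_central ρ hρ hirr (b i) _ (hb1 i)
    · exact tr_fixed ρ p (b i) (hbp i) v
    · intro g
      rw [hbdef, ← mul_assoc, hac, mul_assoc, hzpc, ← mul_assoc]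
  -- the subgroup H
  let χ : G →* Subgroup.zpowers z := MonoidHom.mk' (fun g => ⟨g * a * g⁻¹ * a⁻¹, hcomm g⟩) (by
    intro g h
    apply Subtype.ext
    show g * h * a * (g * h)⁻¹ * a⁻¹ = (g * a * g⁻¹ * a⁻¹) * (h * a * h⁻¹ * a⁻¹)
    have hw := hcen _ (hcomm h)
    have e1 : g * h * a * (g * h)⁻¹ * a⁻¹ = g * (h * a * h⁻¹ * a⁻¹) * a * g⁻¹ * a⁻¹ := by group
    rw [e1, hw g]
    have e2 : h * a * h⁻¹ * a⁻¹ * g * a * g⁻¹ * a⁻¹ = (h * a * h⁻¹ * a⁻¹) * (g * a * g⁻¹ * a⁻¹) := by
      group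
    rw [e2, hw])
  have hχ : ∀ g, (χ g : G) = g * a * g⁻¹ * a⁻¹ := fun g => rfl
  have hker : ∀ g, g ∈ χ.ker ↔ g * a = a * g := by
    intro g
    rw [MonoidHom.mem_ker]
    constructor
    · intro h
      have h1 : g * a * g⁻¹ * a⁻¹ = 1 := by rw [← hχ, h]; rfl
      have h2 : g * a * g⁻¹ = a := by rw [mul_inv_eq_one] at h1; exact h1
      calc g * a = g * a * g⁻¹ * g := by group
        _ = a * g := by rw [h2]
    · intro h
      apply Subtype.ext
      rw [hχ, h]
      show a * g * g⁻¹ * a⁻¹ = 1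
      group
  have hindex : χ.ker.index = p := by
    rw [Subgroup.index_ker]
    have h1 : Nat.card χ.range ∣ p := by
      have := Subgroup.card_subgroup_dvd_card χ.range
      rwa [Nat.card_zpowers, hzo] at this
    rcases (Nat.dvd_prime hp.out).1 h1 with h2 | h2
    · exfalso
      obtain ⟨g, hg⟩ := hanc
      apply hg
      have h3 : χ.range = ⊥ := Subgroup.card_eq_one.1 h2
      have h4 : χ g ∈ χ.range := ⟨g, rfl⟩
      rw [h3, Subgroup.mem_bot] at h4
      rw [← hχ, h4]; rfl
    · exact h2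
  -- the subspaces
  let W : Fin p → Submodule (ZMod q) V := fun i =>
    LinearMap.eqLocus ((ρ (b i.val) : V ≃ₗ[ZMod q] V) : V →ₗ[ZMod q] V) LinearMap.id
  have hW : ∀ (i : Fin p) (w : V), w ∈ W i ↔ ρ (b i.val) w = w := fun i w => Iff.rfl
  refine ⟨χ.ker, W, hindex, ?_, ?_, ?_, ?_, ?_⟩
  · -- span
    rw [eq_top_iff]
    intro v _
    have h1 : p • v ∈ iSup W := by
      rw [hF3]
      apply Submodule.sum_mem
      intro i hi
      apply Submodule.mem_iSup_of_mem (⟨i, Finset.mem_range.1 hi⟩ : Fin p)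
      rw [hW]
      exact tr_fixed ρ p (b i) (hbp i) v
    have hq : q.Prime := Fact.out
    have h2 : ((p : ZMod q)) ≠ 0 := by
      intro h0
      rw [ZMod.natCast_eq_zero_iff] at h0
      exact hpq ((Nat.prime_dvd_prime_iff_eq hq hp.out).1 h0).symm
    have h3 : v = (p : ZMod q)⁻¹ • (p • v) := by
      rw [← Nat.cast_smul_eq_nsmul (ZMod q), smul_smul, inv_mul_cancel₀ h2, one_smul]
    rw [h3]
    exact Submodule.smul_mem _ _ h1
  · -- independence
    intro i
    rw [Submodule.disjoint_def]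
    intro w hw1 hw2
    have hfix : ∀ j : ℕ, ρ (b i.val ^ j) w = w := by
      intro j
      induction j with
      | zero => rw [pow_zero, map_one]; rfl
      | succ j ih => rw [pow_succ, rho_mul, (hW i w).1 hw1, ih]
    have h1 : tr ρ p (b i.val) w = p • w := by
      rw [tr_apply, Finset.sum_congr rfl (fun j _ => hfix j)]
      simp
    have hle : (⨆ j, ⨆ (_ : j ≠ i), W j) ≤ LinearMap.ker (tr ρ p (b i.val)) := by
      apply iSup_le
      intro j
      apply iSup_le
      intro hj w' hw'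
      rw [LinearMap.mem_ker]
      have hwmem : z ^ i.val * (z ^ j.val)⁻¹ ∈ Subgroup.zpowers z :=
        Subgroup.mul_mem _ (Subgroup.pow_mem _ (Subgroup.mem_zpowers z) _)
          (Subgroup.inv_mem _ (Subgroup.pow_mem _ (Subgroup.mem_zpowers z) _))
      have hwc := hcen _ hwmem
      have e : b i.val * (b j.val)⁻¹ = z ^ i.val * (z ^ j.val)⁻¹ := by
        rw [hbdef, hbdef]
        calc a * z ^ i.val * (a * z ^ j.val)⁻¹ = a * (z ^ i.val * (z ^ j.val)⁻¹) * a⁻¹ := by group
          _ = z ^ i.val * (z ^ j.val)⁻¹ * a * a⁻¹ := by rw [hwc a]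
          _ = z ^ i.val * (z ^ j.val)⁻¹ := by group
      have hcj : ∀ g : G, g * (b i.val * (b j.val)⁻¹) = (b i.val * (b j.val)⁻¹) * g := by
        intro g; rw [e]; exact hwc g
      apply fix_central ρ hρ hirr (b i.val * (b j.val)⁻¹) hcj
      · intro h
        have h2 : b i.val = b j.val := mul_inv_eq_one.1 h
        rw [hbdef, hbdef] at h2
        have h3 : z ^ i.val = z ^ j.val := mul_left_cancel h2
        have h4 := pow_injOn_Iio_orderOf (x := z) (by rw [hzo]; exact i.isLt) (by rw [hzo]; exact j.isLt) h3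
        exact hj (Fin.ext h4).symm
      · have h5 : ρ (b j.val) (tr ρ p (b i.val) w') = tr ρ p (b i.val) w' := by
          rw [tr_apply, map_sum]
          apply Finset.sum_congr rfl
          intro k _
          have hcomm' : b j.val * b i.val ^ k = b i.val ^ k * b j.val := by
            have hc0 : Commute (b j.val) (b i.val) := by
              show b j.val * b i.val = b i.val * b j.val
              rw [hbdef i.val, ← mul_assoc, hba, mul_assoc, hzpc, ← mul_assoc]
            exact (hc0.pow_right k)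
          rw [← rho_mul, hcomm', rho_mul, (hW j w').1 hw']
        have h6 : ρ ((b j.val)⁻¹) (tr ρ p (b i.val) w') = tr ρ p (b i.val) w' := by
          conv_lhs => rw [← h5]
          rw [← rho_mul, inv_mul_cancel, map_one]; rfl
        rw [rho_mul, h6]
        exact tr_fixed ρ p (b i.val) (hbp i.val) w'
    have h2 : tr ρ p (b i.val) w = 0 := LinearMap.mem_ker.1 (hle hw2)
    rw [h1] at h2
    exact smul_p_eq_zero p hpq w h2
  · -- invariance
    intro h hh i w hw
    rw [hW] at hw ⊢
    have hha : h * a = a * h := (hker h).1 hh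
    have hhb : b i.val * h = h * b i.val := by
      rw [hbdef, mul_assoc, ← hzpc, ← mul_assoc, ← hha, mul_assoc]
    rw [← rho_mul, hhb, rho_mul, hw]
  · -- non-faithful
    intro i
    refine ⟨b i.val, (hker _).2 (hba i.val), hb1 i.val, fun w hw => (hW i w).1 hw⟩
  · -- p-cycle
    intro g hg
    obtain ⟨c, hc⟩ := Cfsg.Agent.Lib.Lead.CyclicMax.exists_nat_pow (hcomm g)
    have hgc : g * a * g⁻¹ = a * z ^ c := by
      rw [hzpc c a, ← hc]; group
    have hc0 : c % p ≠ 0 := by
      intro h0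
      apply hg
      rw [hker]
      have h1 : z ^ c = 1 := by rw [pow_eq_pow_mod c hzp, h0, pow_zero]
      rw [h1, mul_one] at hgc
      calc g * a = g * a * g⁻¹ * g := by group
        _ = a * g := by rw [hgc]
    let c' : Fin p := ⟨c % p, Nat.mod_lt _ hp.out.pos⟩
    refine ⟨Equiv.addRight c', ?_, ?_⟩
    · apply orderOf_eq_prime
      · ext i
        have hpow : ∀ k : ℕ, (Equiv.addRight c' ^ k) i = i + k • c' := by
          intro k
          induction k with
          | zero => simp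
          | succ k ih =>
            rw [pow_succ', Equiv.Perm.mul_apply, ih]
            show i + k • c' + c' = i + (k + 1) • c'
            rw [succ_nsmul, add_assoc]
        rw [hpow]
        have h0 : p • c' = 0 := by
          have := card_nsmul_eq_zero (G := Fin p) (x := c')
          rwa [Fintype.card_fin] at this
        rw [h0, add_zero]; rfl
      · intro h
        have h1 : (0 : Fin p) + c' = 0 := congrArg (fun e : Equiv.Perm (Fin p) => e 0) h
        rw [zero_add] at h1
        exact hc0 (congrArg Fin.val h1)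
    · intro i
      have hσ : ((Equiv.addRight c') i).val = (i.val + c % p) % p := by
        rw [Equiv.coe_addRight, Fin.val_add]
      have hconj : g * b i.val * g⁻¹ = b ((Equiv.addRight c') i).val := by
        rw [hbdef, hbdef, hσ, ← pow_eq_pow_mod _ hzp, pow_add, ← pow_eq_pow_mod _ hzp]
        have e : g * (a * z ^ i.val) * g⁻¹ = (g * a * g⁻¹) * (g * z ^ i.val * g⁻¹) := by group
        rw [e, hgc, hzpc i.val g]
        have e2 : z ^ i.val * g * g⁻¹ = z ^ i.val := by group
        rw [e2, mul_assoc]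
        congr 1
        exact (hzpc i.val (z ^ c))
      ext w
      rw [Submodule.mem_map, hW]
      constructor
      · rintro ⟨v, hv, rfl⟩
        rw [hW] at hv
        show ρ (b ((Equiv.addRight c') i).val) (ρ g v) = ρ g v
        rw [← hconj, ← rho_mul]
        have e : g * b i.val * g⁻¹ * g = g * b i.val := by group
        rw [e, rho_mul, hv]
      · intro hw
        refine ⟨ρ g⁻¹ w, ?_, ?_⟩
        · rw [hW, ← rho_mul]
          have e : b i.val * g⁻¹ = g⁻¹ * (g * b i.val * g⁻¹) := by group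
          rw [e, hconj, rho_mul, hw]
        · show ρ g (ρ g⁻¹ w) = w
          rw [← rho_mul, mul_inv_cancel, map_one]; rfl

end core


theorem exists_az {G : Type*} [Group G] [Finite G] (p : ℕ) [hp : Fact p.Prime] (hG : IsPGroup p G)
    (E : Subgroup G) (hEn : E.Normal) (hEe : ∀ x ∈ E, x ^ p = 1) (hEc : p < Nat.card E) :
    ∃ a z : G, (∀ g, g * z = z * g) ∧ z ≠ 1 ∧ z ^ p = 1 ∧ a ^ p = 1 ∧ a ∉ Subgroup.zpowers z ∧
      ∀ g : G, g * a * g⁻¹ * a⁻¹ ∈ Subgroup.zpowers z := by
  have hE1 : E ≠ ⊥ := by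
    rintro rfl
    rw [Subgroup.card_bot] at hEc
    have := hp.out.one_lt
    omega
  obtain ⟨z, hzE, hz1, hzc⟩ :=
    Cfsg.Agent.Lib.Helper18.UniqueInvolution.exists_central_mem_of_normal hG E hEn hE1
  have hzp := hEe z hzE
  have hzo : orderOf z = p := orderOf_eq_prime hzp hz1
  have hcen : ∀ w ∈ Subgroup.zpowers z, ∀ g : G, g * w = w * g := by
    intro w hw g
    obtain ⟨k, rfl⟩ := Subgroup.mem_zpowers_iff.1 hw
    exact (Commute.zpow_right (hzc g) k)
  haveI hZn : (Subgroup.zpowers z).Normal := by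
    constructor
    intro n hn g
    have : g * n * g⁻¹ = n := by rw [hcen n hn g]; group
    rw [this]; exact hn
  have hN1 : E.map (QuotientGroup.mk' (Subgroup.zpowers z)) ≠ ⊥ := by
    intro h
    have hle : E ≤ Subgroup.zpowers z := by
      intro x hx
      have h1 : QuotientGroup.mk' (Subgroup.zpowers z) x ∈
          E.map (QuotientGroup.mk' (Subgroup.zpowers z)) := Subgroup.mem_map_of_mem _ hx
      rw [h, Subgroup.mem_bot] at h1
      exact (QuotientGroup.eq_one_iff x).1 h1
    have h2 := Subgroup.card_le_of_le hle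
    rw [Nat.card_zpowers, hzo] at h2
    omega
  have hNn : (E.map (QuotientGroup.mk' (Subgroup.zpowers z))).Normal :=
    Subgroup.Normal.map hEn _ (QuotientGroup.mk'_surjective _)
  have hQ : IsPGroup p (G ⧸ Subgroup.zpowers z) := hG.to_quotient _
  obtain ⟨n, hnN, hn1, hnc⟩ :=
    Cfsg.Agent.Lib.Helper18.UniqueInvolution.exists_central_mem_of_normal hQ _ hNn hN1
  obtain ⟨a, haE, rfl⟩ := Subgroup.mem_map.1 hnN
  refine ⟨a, z, fun g => hzc g, hz1, hzp, hEe a haE, ?_, ?_⟩
  · intro ha
    apply hn1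
    exact (QuotientGroup.eq_one_iff a).2 ha
  · intro g
    have h1 := hnc (QuotientGroup.mk' (Subgroup.zpowers z) g)
    have h2 : QuotientGroup.mk' (Subgroup.zpowers z) (g * a * g⁻¹ * a⁻¹) = 1 := by
      rw [map_mul, map_mul, map_mul, h1, map_inv, map_inv]
      group
    exact (QuotientGroup.eq_one_iff _).1 h2

theorem three_sq_not_cyclic {G : Type*} [Group G] [Finite G] (B : Subgroup G) (z t : G)
    (hzB : z ∈ B) (htB : t ∈ B) (hz2 : z ^ 2 = 1) (hz1 : z ≠ 1) (ht2 : t ^ 2 = 1) (ht1 : t ≠ 1)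
    (htz : t ≠ z) : ¬ IsCyclic B := by
  classical
  intro hcyc
  haveI := Fintype.ofFinite B
  have h1 := IsCyclic.card_pow_eq_one_le (α := B) (n := 2) (by norm_num)
  have h3 : ({1, ⟨z, hzB⟩, ⟨t, htB⟩} : Finset B) ⊆
      Finset.univ.filter (fun a : B => a ^ 2 = 1) := by
    intro a ha
    rw [Finset.mem_filter]
    refine ⟨Finset.mem_univ _, ?_⟩
    rw [Finset.mem_insert, Finset.mem_insert, Finset.mem_singleton] at ha
    rcases ha with rfl | rfl | rfl
    · simp
    · exact Subtype.ext hz2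
    · exact Subtype.ext ht2
  have h4 : ({1, ⟨z, hzB⟩, ⟨t, htB⟩} : Finset B).card = 3 := by
    rw [Finset.card_insert_of_notMem, Finset.card_insert_of_notMem, Finset.card_singleton]
    · rw [Finset.mem_singleton]
      intro h
      exact htz (congrArg Subtype.val h).symm
    · rw [Finset.mem_insert, Finset.mem_singleton]
      rintro (h | h)
      · exact hz1 (congrArg Subtype.val h).symm
      · exact ht1 (congrArg Subtype.val h).symm
  have h5 := Finset.card_le_card h3
  omega

theorem normal_four {G : Type*} [Group G] [Finite G] (hG : IsPGroup 2 G)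
    (hnc : ¬ IsCyclic G) (hnq : ∀ n : ℕ, ¬ Nonempty (G ≃* QuaternionGroup n))
    (hnd : ∀ n : ℕ, ¬ Nonempty (G ≃* DihedralGroup n)) (hnsd : ¬ Cfsg.IsQuasiDihedral G) :
    ∃ E : Subgroup G, E.Normal ∧ (∀ x ∈ E, x ^ 2 = 1) ∧ 2 < Nat.card E := by
  by_contra hno
  push_neg at hno
  -- every normal abelian subgroup is cyclic
  have hn : ∀ A : Subgroup G, A.Normal → IsMulCommutative A → IsCyclic A := by
    intro A hAn hAc
    have hcomm : ∀ x ∈ A, ∀ y ∈ A, x * y = y * x := fun x hx y hy =>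
      congrArg Subtype.val (hAc.is_comm.comm ⟨x, hx⟩ ⟨y, hy⟩)
    let Ω : Subgroup G :=
      { carrier := {x | x ∈ A ∧ x ^ 2 = 1}
        one_mem' := ⟨A.one_mem, one_pow 2⟩
        mul_mem' := by
          rintro x y ⟨hx, hx2⟩ ⟨hy, hy2⟩
          refine ⟨A.mul_mem hx hy, ?_⟩
          rw [(show Commute x y from hcomm x hx y hy).mul_pow, hx2, hy2, one_mul]
        inv_mem' := by
          rintro x ⟨hx, hx2⟩
          exact ⟨A.inv_mem hx, by rw [inv_pow, hx2, inv_one]⟩ }
    have hΩn : Ω.Normal := by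
      constructor
      rintro x ⟨hx, hx2⟩ g
      exact ⟨hAn.conj_mem x hx g, by rw [conj_pow, hx2]; group⟩
    have hΩc := hno Ω hΩn (fun x hx => hx.2)
    apply Cfsg.Agent.Lib.Helper18.UniqueInvolution.isCyclic_of_comm 2 (hG.to_subgroup A)
      (fun x y => hAc.is_comm.comm x y)
    rw [← Nat.card_coe_set_eq]
    refine le_trans ?_ hΩc
    apply Nat.card_le_card_of_injective
      (fun g : {g : A | g ^ 2 = 1} => (⟨g.1.1, g.1.2, by
        have := g.2
        exact congrArg Subtype.val this⟩ : Ω))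
    intro g h hgh
    apply Subtype.ext
    apply Subtype.ext
    exact congrArg (fun w : Ω => (w : G)) hgh
  have hm : ¬ ∃ B : Subgroup G, IsMulCommutative B ∧ ¬ IsCyclic B := by
    intro hm
    obtain ⟨-, h | h | h⟩ := Cfsg.Agent.S0519.result 2 hG hn hm
    · obtain ⟨n, hn'⟩ := h; exact hnq n hn'
    · obtain ⟨n, -, hn'⟩ := h; exact hnd n hn'
    · exact hnsd h
  push_neg at hm
  -- central involution
  haveI : Nontrivial G := by
    by_contra h
    rw [not_nontrivial_iff_subsingleton] at h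
    exact hnc inferInstance
  have hcard2 : 2 ∣ Nat.card (Subgroup.center G) := by
    haveI : Nontrivial (Subgroup.center G) := hG.center_nontrivial
    obtain ⟨k, hk0, hk⟩ := (IsPGroup.nontrivial_iff_card (hG.to_subgroup (Subgroup.center G))).1
      inferInstance
    rw [hk]; exact dvd_pow_self 2 (by omega)
  obtain ⟨z', hz'⟩ := exists_prime_orderOf_dvd_card' (G := Subgroup.center G) 2 hcard2
  obtain ⟨z, hzdef⟩ : ∃ z : G, z = z'.1 := ⟨_, rfl⟩
  have hzo : orderOf z = 2 := by rw [hzdef, Subgroup.orderOf_coe]; exact hz'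
  have hz2 : z ^ 2 = 1 := by rw [← hzo, pow_orderOf_eq_one]
  have hz1 : z ≠ 1 := by
    intro h; rw [h, orderOf_one] at hzo; omega
  have hzc : ∀ g : G, g * z = z * g := by
    intro g
    rw [hzdef]
    exact (Subgroup.mem_center_iff.1 z'.2 g)
  have hinv : ∀ t : G, t ^ 2 = 1 → t = 1 ∨ t = z := by
    intro t ht2
    by_contra hcon
    push_neg at hcon
    obtain ⟨ht1, htz⟩ := hcon
    have hB : IsMulCommutative (Subgroup.closure ({z, t} : Set G)) := by
      apply Subgroup.isMulCommutative_closure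
      intro a ha b hb
      rcases ha with rfl | ha <;> rcases hb with rfl | hb
      · rfl
      · exact (hzc b).symm
      · exact hzc a
      · have ha' : a = t := ha
        have hb' : b = t := hb
        rw [ha', hb']
    exact three_sq_not_cyclic _ z t (Subgroup.subset_closure (by simp))
      (Subgroup.subset_closure (by simp)) hz2 hz1 ht2 ht1 htz (hm _ hB)
  have hE : Set.ncard {g : G | g ^ 2 = 1} ≤ 2 := by
    have hsub : {g : G | g ^ 2 = 1} ⊆ ({1, z} : Set G) := by
      intro t ht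
      rcases hinv t ht with h | h
      · left; exact h
      · right; exact h
    refine le_trans (Set.ncard_le_ncard hsub (Set.toFinite _)) ?_
    exact (Set.ncard_insert_le _ _).trans (by rw [Set.ncard_singleton])
  rcases Cfsg.Agent.Lib.Helper18.UniqueInvolution.cyclic_or_quaternion hG hE with h | ⟨n, h⟩
  · exact hnc h
  · exact hnq _ h

theorem q_eq_p_contra (q : ℕ) [hq : Fact q.Prime] {V : Type*} [AddCommGroup V] [Module (ZMod q) V]
    [Finite V] [Nontrivial V] {G : Type*} [Group G] [Finite G] (hG : IsPGroup q G)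
    (ρ : G →* (V ≃ₗ[ZMod q] V)) (hρ : Function.Injective ρ)
    (hirr : ∀ W : Submodule (ZMod q) V, (∀ g : G, ∀ w ∈ W, ρ g w ∈ W) → W = ⊥ ∨ W = ⊤) :
    ∀ g : G, g = 1 := by
  letI : MulAction G V := MulAction.compHom V ρ
  have hsmul : ∀ (g : G) (v : V), g • v = ρ g v := fun g v => rfl
  have hdvd : q ∣ Nat.card V := by
    obtain ⟨v, hv⟩ := exists_ne (0 : V)
    have h1 : q • v = 0 := by
      rw [← Nat.cast_smul_eq_nsmul (ZMod q), ZMod.natCast_self, zero_smul]
    have h2 : addOrderOf v = q := addOrderOf_eq_prime h1 hv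
    rw [← h2]
    exact addOrderOf_dvd_natCard v
  have h0 : (0 : V) ∈ MulAction.fixedPoints G V := by
    intro g
    rw [hsmul, map_zero]
  obtain ⟨w, hw, hw0⟩ := hG.exists_fixed_point_of_prime_dvd_card_of_fixed_point V hdvd h0
  let W : Submodule (ZMod q) V :=
    { carrier := {v | ∀ g : G, ρ g v = v}
      add_mem' := by
        intro a b ha hb g
        rw [map_add, ha g, hb g]
      zero_mem' := fun g => map_zero _
      smul_mem' := by
        intro c v hv g
        rw [map_smul, hv g] }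
  have hW : ∀ g : G, ∀ v ∈ W, ρ g v ∈ W := by
    intro g v hv
    have : ρ g v = v := hv g
    rw [this]; exact hv
  have hwW : w ∈ W := fun g => hw g
  rcases hirr W hW with h | h
  · exfalso
    rw [h] at hwW
    exact hw0 ((Submodule.mem_bot _).1 hwW).symm
  · intro g
    apply hρ
    rw [map_one]
    ext v
    have hv : v ∈ W := by rw [h]; trivial
    exact hv g

/-- Let a finite p-group G act faithfully and irreducibly on a non-trivial finite vector space V over the field with q elements (q prime), and suppose G is not cyclic, generalized quaternion, dihedral or semidihedral. Then G has a subgroup H of index p and V is the direct sum of p subspaces, each invariant under H, on none of which H acts faithfully, and which every element of G outside H permutes in a single p-cycle. -/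
theorem result
    (q : ℕ) [Fact q.Prime] {V : Type*} [AddCommGroup V] [Module (ZMod q) V] [Finite V] [Nontrivial V]
    {G : Type*} [Group G] [Finite G] (p : ℕ) [Fact p.Prime] (hG : IsPGroup p G)
    (ρ : G →* (V ≃ₗ[ZMod q] V)) (hρ : Function.Injective ρ)
    (hirr : ∀ W : Submodule (ZMod q) V, (∀ g : G, ∀ w ∈ W, ρ g w ∈ W) → W = ⊥ ∨ W = ⊤)
    (hnc : ¬ IsCyclic G) (hnq : ∀ n : ℕ, ¬ Nonempty (G ≃* QuaternionGroup n))
    (hnd : ∀ n : ℕ, ¬ Nonempty (G ≃* DihedralGroup n)) (hnsd : ¬ Cfsg.IsQuasiDihedral G) :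
    ∃ (H : Subgroup G) (W : Fin p → Submodule (ZMod q) V), H.index = p ∧
      iSup W = ⊤ ∧ iSupIndep W ∧
      (∀ h ∈ H, ∀ i, ∀ w ∈ W i, ρ h w ∈ W i) ∧
      (∀ i, ∃ h ∈ H, h ≠ 1 ∧ ∀ w ∈ W i, ρ h w = w) ∧
      ∀ g : G, g ∉ H → ∃ σ : Equiv.Perm (Fin p), orderOf σ = p ∧ ∀ i, (W i).map (ρ g : V →ₗ[ZMod q] V) = W (σ i) := by
  classical
  have hpq : p ≠ q := by
    rintro rfl
    apply hnc
    have h1 := q_eq_p_contra p hG ρ hρ hirr
    haveI : Subsingleton G := ⟨fun a b => by rw [h1 a, h1 b]⟩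
    infer_instance
  obtain ⟨E, hEn, hEe, hEc⟩ :
      ∃ E : Subgroup G, E.Normal ∧ (∀ x ∈ E, x ^ p = 1) ∧ p < Nat.card E := by
    by_cases hp2 : p = 2
    · subst hp2
      exact normal_four hG hnc hnq hnd hnsd
    · obtain ⟨A, hAn, hAe, hAcard⟩ := Cfsg.Agent.S0126.result hp2 hG hnc
      refine ⟨A, hAn, hAe.2, ?_⟩
      rw [hAcard]
      have hpp := (Fact.out : p.Prime)
      have h4 : p * 2 ≤ p ^ 2 := by rw [pow_two]; exact Nat.mul_le_mul_left p hpp.two_le
      have := hpp.pos
      omega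
  obtain ⟨a, z, hzc, hz1, hzp, hap, haz, hcomm⟩ := exists_az p hG E hEn hEe hEc
  exact core ρ p hpq hρ hirr a z hzc hz1 hzp hap haz hcomm

end Cfsg.Agent.S3380
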