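import Cfsg.Statements.S3381
import Mathlib

set_option autoImplicit false
open Cfsg

namespace Cfsg.Agent.S3381

open Module

/-- The subspace of vectors fixed by `ρ t`. -/
def fixSub {q : ℕ} {V : Type*} [AddCommGroup V] [Module (ZMod q) V] {G : Type*} [Group G]
    (ρ : G →* (V ≃ₗ[ZMod q] V)) (t : G) : Submodule (ZMod q) V :=
  LinearMap.ker (((ρ t : V ≃ₗ[ZMod q] V) : V →ₗ[ZMod q] V) - LinearMap.id)

theorem mem_fixSub {q : ℕ} {V : Type*} [AddCommGroup V] [Module (ZMod q) V] {G : Type*} [Group G]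
    (ρ : G →* (V ≃ₗ[ZMod q] V)) (t : G) (v : V) : v ∈ fixSub ρ t ↔ ρ t v = v := by
  unfold fixSub
  rw [LinearMap.mem_ker, LinearMap.sub_apply, sub_eq_zero]
  rfl

theorem ne1 {G : Type*} [Group G] (t : G) (ht : orderOf t = 2) : t ≠ 1 := by
  intro h
  rw [h, orderOf_one] at ht
  omega

/-- Let G be a finite group acting faithfully and linearly on a non-trivial finite vector space V over the field with q elements (q prime) so that every non-zero vector has a stabilizer of order 2, and suppose G has a central involution. Then V has q^(2r) elements for some r and G contains exactly q^r + 1 non-central involutions. -/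
theorem result
    (q : ℕ) [Fact q.Prime] {V : Type*} [AddCommGroup V] [Module (ZMod q) V] [Finite V] [Nontrivial V]
    {G : Type*} [Group G] [Finite G] (ρ : G →* (V ≃ₗ[ZMod q] V)) (hρ : Function.Injective ρ)
    (hstab : ∀ v : V, v ≠ 0 → Nat.card {g : G // ρ g v = v} = 2)
    (z : G) (hz : orderOf z = 2) (hzc : z ∈ Subgroup.center G) :
    ∃ r : ℕ, Nat.card V = q ^ (2 * r) ∧
      Nat.card {g : G // orderOf g = 2 ∧ g ∉ Subgroup.center G} = q ^ r + 1 := by
  classical
  have hq : q.Prime := Fact.out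
  have hmul : ∀ (a b : G) (v : V), ρ (a * b) v = ρ a (ρ b v) := by
    intro a b v
    rw [map_mul]; rfl
  have hone : ∀ v : V, ρ 1 v = v := by
    intro v
    rw [map_one]; rfl
  have hstab2 : ∀ (v : V), v ≠ 0 → ∀ a b : G, a ≠ 1 → b ≠ 1 → ρ a v = v → ρ b v = v →
      a = b := by
    intro v hv a b ha hb hav hbv
    obtain ⟨y, hy, hyu⟩ := (Nat.card_eq_two_iff' (⟨1, hone v⟩ : {g : G // ρ g v = v})).1
      (hstab v hv)
    have h1 := hyu ⟨a, hav⟩ (fun h => ha (congrArg Subtype.val h))
    have h2 := hyu ⟨b, hbv⟩ (fun h => hb (congrArg Subtype.val h))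
    exact congrArg Subtype.val (h1.trans h2.symm)
  have hstab_ex : ∀ v : V, v ≠ 0 → ∃ t : G, t ≠ 1 ∧ ρ t v = v := by
    intro v hv
    obtain ⟨y, hy, hyu⟩ := (Nat.card_eq_two_iff' (⟨1, hone v⟩ : {g : G // ρ g v = v})).1
      (hstab v hv)
    exact ⟨y.1, fun h => hy (Subtype.ext h), y.2⟩
  have hinv_sq : ∀ t : G, orderOf t = 2 → ∀ v : V, ρ t (ρ t v) = v := by
    intro t ht v
    rw [← hmul, ← pow_two, ← ht, pow_orderOf_eq_one, hone]
  have hdouble : q ≠ 2 → ∀ v : V, v + v = 0 → v = 0 := by
    intro hq2 v hv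
    have h2ne : (2 : ZMod q) ≠ 0 := by
      intro h
      have h' : ((2 : ℕ) : ZMod q) = 0 := by exact_mod_cast h
      rw [ZMod.natCast_eq_zero_iff] at h'
      have h1 := Nat.le_of_dvd (by norm_num) h'
      have h2 := hq.two_le
      omega
    rw [← two_smul (ZMod q) v] at hv
    rcases smul_eq_zero.1 hv with h | h
    · exact absurd h h2ne
    · exact h
  have hcentral : ∀ c : G, orderOf c = 2 → c ∈ Subgroup.center G →
      (∀ w : V, ρ c w = -w) ∧ q ≠ 2 := by
    intro c hc hcc
    have hc1 : c ≠ 1 := ne1 c hc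
    have hcomm : ∀ g : G, g * c = c * g := Subgroup.mem_center_iff.1 hcc
    have hA1 : ∀ w : V, ρ c w ≠ w → ρ c w = -w := by
      intro w hw
      have hw0 : w ≠ 0 := by
        rintro rfl
        exact hw (map_zero _)
      obtain ⟨s, hs1, hsw⟩ := hstab_ex w hw0
      have hsc : s ≠ c := by
        rintro rfl
        exact hw hsw
      by_contra hne
      have hu0 : w + ρ c w ≠ 0 := by
        intro h
        apply hne
        exact (neg_eq_iff_add_eq_zero.2 h).symm
      have hcu : ρ c (w + ρ c w) = w + ρ c w := by rw [map_add, hinv_sq c hc, add_comm]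
      have hsu : ρ s (w + ρ c w) = w + ρ c w := by
        rw [map_add, hsw, ← hmul, hcomm s, hmul, hsw]
      exact hsc (hstab2 _ hu0 s c hs1 hc1 hsu hcu)
    have hex : ∃ w : V, ρ c w ≠ w := by
      by_contra hall
      push Not at hall
      apply hc1
      apply hρ
      rw [map_one]
      ext w
      exact hall w
    obtain ⟨w, hw⟩ := hex
    have hwneg := hA1 w hw
    have hq2 : q ≠ 2 := by
      intro hq2
      apply hw
      rw [hwneg]
      have h2 : (2 : ZMod q) = 0 := by
        have := (ZMod.natCast_eq_zero_iff 2 q).2 (by rw [hq2])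
        exact_mod_cast this
      have hww : w + w = 0 := by
        rw [← two_smul (ZMod q) w, h2, zero_smul]
      exact neg_eq_iff_add_eq_zero.2 hww
    refine ⟨?_, hq2⟩
    intro v
    by_cases hv : ρ c v = v
    · have hv0 : v = 0 := by
        by_contra hv0
        by_cases hvw : ρ c (v + w) = v + w
        · rw [map_add, hv, hwneg] at hvw
          have h3 : -w = w := add_left_cancel hvw
          have hww : w + w = 0 := neg_eq_iff_add_eq_zero.1 h3
          have hw0 := hdouble hq2 w hww
          exact hw (by rw [hw0, map_zero])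
        · have h3 := hA1 (v + w) hvw
          rw [map_add, hv, hwneg, neg_add] at h3
          have h4 : v = -v := add_right_cancel h3
          exact hv0 (hdouble hq2 v (eq_neg_iff_add_eq_zero.1 h4))
      rw [hv0, map_zero, neg_zero]
    · exact hA1 v hv
  obtain ⟨hzneg, hq2⟩ := hcentral z hz hzc
  have hdbl := hdouble hq2
  have h2ne : (2 : ZMod q) ≠ 0 := by
    intro h
    have h' : ((2 : ℕ) : ZMod q) = 0 := by exact_mod_cast h
    rw [ZMod.natCast_eq_zero_iff] at h'
    have h1 := Nat.le_of_dvd (by norm_num) h'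
    have h2 := hq.two_le
    omega
  have hB : ∀ v : V, v ≠ 0 → ∀ t : G, t ≠ 1 → ρ t v = v →
      orderOf t = 2 ∧ t ∉ Subgroup.center G := by
    intro v hv t ht htv
    have ht2 : t ^ 2 = 1 := by
      by_contra hne
      have h1 : ρ (t ^ 2) v = v := by rw [pow_two, hmul, htv, htv]
      have h2 := hstab2 v hv (t ^ 2) t hne ht h1 htv
      apply ht
      have : t * t = t * 1 := by rw [← pow_two, h2, mul_one]
      exact mul_left_cancel this
    have : Fact (Nat.Prime 2) := ⟨Nat.prime_two⟩
    have hto : orderOf t = 2 := orderOf_eq_prime ht2 ht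
    refine ⟨hto, fun hc => ?_⟩
    obtain ⟨hneg, -⟩ := hcentral t hto hc
    have h1 : v = -v := htv.symm.trans (hneg v)
    exact hv (hdbl v (eq_neg_iff_add_eq_zero.1 h1))
  have hC : ∀ t : G, orderOf t = 2 → t ∉ Subgroup.center G → ∃ v : V, v ≠ 0 ∧ ρ t v = v := by
    intro t ht htc
    by_contra hcon
    push Not at hcon
    apply htc
    have : t = z := by
      apply hρ
      ext w
      have hfix : ρ t (w + ρ t w) = w + ρ t w := by rw [map_add, hinv_sq t ht, add_comm]
      have h0 : w + ρ t w = 0 := by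
        by_contra hne
        exact hcon _ hne hfix
      rw [hzneg w]
      exact (neg_eq_iff_add_eq_zero.2 h0).symm
    rw [this]; exact hzc
  have hz1 : z ≠ 1 := ne1 z hz
  have hzcomm : ∀ g : G, g * z = z * g := Subgroup.mem_center_iff.1 hzc
  have hz2 : z * z = 1 := by rw [← pow_two, ← hz, pow_orderOf_eq_one]
  have hItz : ∀ t : G, orderOf t = 2 → t ∉ Subgroup.center G →
      orderOf (t * z) = 2 ∧ t * z ∉ Subgroup.center G := by
    intro t ht htc
    have : Fact (Nat.Prime 2) := ⟨Nat.prime_two⟩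
    have htt : t * t = 1 := by rw [← pow_two, ← ht, pow_orderOf_eq_one]
    have h1 : (t * z) ^ 2 = 1 := by
      rw [pow_two]
      calc t * z * (t * z) = t * (z * t) * z := by group
        _ = t * (t * z) * z := by rw [← hzcomm t]
        _ = (t * t) * (z * z) := by group
        _ = 1 := by rw [htt, hz2, one_mul]
    have h2 : t * z ≠ 1 := by
      intro h
      apply htc
      have : t = z := by
        calc t = t * z * z := by rw [mul_assoc, hz2, mul_one]
          _ = z := by rw [h, one_mul]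
      rw [this]; exact hzc
    refine ⟨orderOf_eq_prime h1 h2, fun hc => htc ?_⟩
    have : t = t * z * z := by rw [mul_assoc, hz2, mul_one]
    rw [this]
    exact Subgroup.mul_mem _ hc hzc
  have hne_tz : ∀ t : G, t ≠ t * z := by
    intro t h
    apply hz1
    have : t * 1 = t * z := by rw [mul_one]; exact h
    exact (mul_left_cancel this).symm
  have hdisj : ∀ t t' : G, orderOf t = 2 → orderOf t' = 2 → t ≠ t' →
      fixSub ρ t ⊓ fixSub ρ t' = ⊥ := by
    intro t t' ht ht' hne
    rw [eq_bot_iff]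
    intro v hv
    rw [Submodule.mem_inf, mem_fixSub, mem_fixSub] at hv
    rw [Submodule.mem_bot]
    by_contra hv0
    exact hne (hstab2 v hv0 t t' (ne1 t ht) (ne1 t' ht') hv.1 hv.2)
  have hle : ∀ t t' : G, orderOf t = 2 → orderOf t' = 2 → t ≠ t' →
      finrank (ZMod q) (fixSub ρ t) + finrank (ZMod q) (fixSub ρ t') ≤ finrank (ZMod q) V := by
    intro t t' ht ht' hne
    have h := Submodule.finrank_sup_add_finrank_inf_eq (fixSub ρ t) (fixSub ρ t')
    rw [hdisj t t' ht ht' hne, finrank_bot, add_zero] at h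
    rw [← h]
    exact Submodule.finrank_le _
  have hsum : ∀ t : G, orderOf t = 2 → t ∉ Subgroup.center G →
      finrank (ZMod q) (fixSub ρ t) + finrank (ZMod q) (fixSub ρ (t * z)) =
        finrank (ZMod q) V := by
    intro t ht htc
    have h := Submodule.finrank_sup_add_finrank_inf_eq (fixSub ρ t) (fixSub ρ (t * z))
    rw [hdisj t (t * z) ht (hItz t ht htc).1 (hne_tz t), finrank_bot, add_zero] at h
    rw [← h]
    have htop : fixSub ρ t ⊔ fixSub ρ (t * z) = ⊤ := by
      rw [eq_top_iff]
      intro v _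
      rw [Submodule.mem_sup]
      refine ⟨(2 : ZMod q)⁻¹ • (v + ρ t v), ?_, (2 : ZMod q)⁻¹ • (v - ρ t v), ?_, ?_⟩
      · rw [mem_fixSub, map_smul, map_add, hinv_sq t ht, add_comm]
      · rw [mem_fixSub, hmul, hzneg, map_neg, map_smul, map_sub, hinv_sq t ht, ← smul_neg,
          neg_sub]
      · rw [← smul_add]
        have : v + ρ t v + (v - ρ t v) = (2 : ZMod q) • v := by
          rw [two_smul]; abel
        rw [this, smul_smul, inv_mul_cancel₀ h2ne, one_smul]
    rw [htop, finrank_top]
  have hD : ∀ t : G, orderOf t = 2 → t ∉ Subgroup.center G →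
      2 * finrank (ZMod q) (fixSub ρ t) = finrank (ZMod q) V := by
    intro t ht htc
    obtain ⟨htz, htzc⟩ := hItz t ht htc
    obtain ⟨a, ha0, ha⟩ := hC t ht htc
    obtain ⟨b, hb0, hb⟩ := hC (t * z) htz htzc
    have hne := hne_tz t
    have hab0 : a + b ≠ 0 := by
      intro h
      have hb' : ρ t b = b := by
        have hba : b = -a := eq_neg_of_add_eq_zero_right h
        rw [hba, map_neg, ha]
      exact hne (hstab2 b hb0 t (t * z) (ne1 t ht) (ne1 _ htz) hb' hb)
    obtain ⟨s, hs1, hsv⟩ := hstab_ex (a + b) hab0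
    obtain ⟨hs, hsc⟩ := hB (a + b) hab0 s hs1 hsv
    have hst : s ≠ t := by
      intro h
      rw [h] at hsv
      have hb' : ρ t b = b := by
        rw [map_add, ha] at hsv
        exact add_left_cancel hsv
      exact hne (hstab2 b hb0 t (t * z) (ne1 t ht) (ne1 _ htz) hb' hb)
    have hstz : s ≠ t * z := by
      intro h
      rw [h] at hsv
      have ha' : ρ (t * z) a = a := by
        rw [map_add, hb] at hsv
        exact add_right_cancel hsv
      exact hne (hstab2 a ha0 t (t * z) (ne1 t ht) (ne1 _ htz) ha ha')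
    obtain ⟨hsz, hszc⟩ := hItz s hs hsc
    have hszt : s * z ≠ t := by
      intro h
      apply hstz
      rw [← h, mul_assoc, hz2, mul_one]
    have hsztz : s * z ≠ t * z := fun h => hst (mul_right_cancel h)
    have e1 := hle s t hs ht hst
    have e2 := hle s (t * z) hs htz hstz
    have e3 := hle (s * z) t hsz ht hszt
    have e4 := hle (s * z) (t * z) hsz htz hsztz
    have e5 := hsum s hs hsc
    have e6 := hsum t ht htc
    omega
  obtain ⟨v0, hv0⟩ := exists_ne (0 : V)
  obtain ⟨t0, ht01, ht0v⟩ := hstab_ex v0 hv0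
  obtain ⟨ht0, ht0c⟩ := hB v0 hv0 t0 ht01 ht0v
  obtain ⟨r, hr⟩ : ∃ r, r = finrank (ZMod q) (fixSub ρ t0) := ⟨_, rfl⟩
  have hn : finrank (ZMod q) V = 2 * r := by
    rw [hr]; exact (hD t0 ht0 ht0c).symm
  have hrI : ∀ t : G, orderOf t = 2 → t ∉ Subgroup.center G →
      finrank (ZMod q) (fixSub ρ t) = r := by
    intro t ht htc
    have := hD t ht htc
    omega
  have hcardV : Nat.card V = q ^ (2 * r) := by
    rw [Module.natCard_eq_pow_finrank (K := ZMod q), Nat.card_zmod, hn]
  have hcardfix : ∀ t : G, orderOf t = 2 → t ∉ Subgroup.center G →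
      Nat.card (fixSub ρ t) = q ^ r := by
    intro t ht htc
    rw [Module.natCard_eq_pow_finrank (K := ZMod q), Nat.card_zmod, hrI t ht htc]
  refine ⟨r, hcardV, ?_⟩
  have : Fintype V := Fintype.ofFinite V
  have : Fintype G := Fintype.ofFinite G
  obtain ⟨If, hIf⟩ : ∃ If : Finset G, If = Finset.univ.filter
      (fun g => orderOf g = 2 ∧ g ∉ Subgroup.center G) := ⟨_, rfl⟩
  have hIcard : Nat.card {g : G // orderOf g = 2 ∧ g ∉ Subgroup.center G} = If.card := by
    rw [Nat.card_eq_fintype_card, Fintype.card_subtype, hIf]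
  rw [hIcard]
  obtain ⟨Cf, hCf⟩ : ∃ Cf : G → Finset V, Cf = fun t => Finset.univ.filter
      (fun v => v ≠ 0 ∧ ρ t v = v) := ⟨_, rfl⟩
  have hCfcard : ∀ t ∈ If, (Cf t).card = q ^ r - 1 := by
    intro t ht
    rw [hIf, Finset.mem_filter] at ht
    have h1 : Nat.card (fixSub ρ t) = (Finset.univ.filter (fun v => ρ t v = v)).card := by
      rw [Nat.card_congr (Equiv.subtypeEquivRight (mem_fixSub ρ t)), Nat.card_eq_fintype_card,
        Fintype.card_subtype]
    have h2 : Cf t = (Finset.univ.filter (fun v => ρ t v = v)).erase 0 := by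
      rw [hCf]
      ext v
      simp only [Finset.mem_filter, Finset.mem_univ, true_and, Finset.mem_erase]
    rw [h2, Finset.card_erase_of_mem (by
      rw [Finset.mem_filter]; exact ⟨Finset.mem_univ _, map_zero _⟩), ← h1,
      hcardfix t ht.2.1 ht.2.2]
  have hcover : Finset.univ.filter (fun v : V => v ≠ 0) = If.biUnion Cf := by
    ext v
    rw [Finset.mem_filter, Finset.mem_biUnion]
    constructor
    · rintro ⟨-, hv⟩
      obtain ⟨t, ht1, htv⟩ := hstab_ex v hv
      refine ⟨t, ?_, ?_⟩
      · rw [hIf, Finset.mem_filter]; exact ⟨Finset.mem_univ _, hB v hv t ht1 htv⟩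
      · rw [hCf]; exact Finset.mem_filter.2 ⟨Finset.mem_univ _, hv, htv⟩
    · rintro ⟨t, -, hv⟩
      rw [hCf] at hv
      exact ⟨Finset.mem_univ _, (Finset.mem_filter.1 hv).2.1⟩
  have hdisjF : ∀ t ∈ If, ∀ t' ∈ If, t ≠ t' → Disjoint (Cf t) (Cf t') := by
    intro t ht t' ht' hne
    rw [Finset.disjoint_left]
    intro v hv hv'
    rw [hCf] at hv hv'
    obtain ⟨-, hv0, h1⟩ := Finset.mem_filter.1 hv
    obtain ⟨-, -, h2⟩ := Finset.mem_filter.1 hv'
    rw [hIf] at ht ht'
    exact hne (hstab2 v hv0 t t' (ne1 t (Finset.mem_filter.1 ht).2.1)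
      (ne1 t' (Finset.mem_filter.1 ht').2.1) h1 h2)
  have hcount : (Finset.univ.filter (fun v : V => v ≠ 0)).card = If.card * (q ^ r - 1) := by
    rw [hcover, Finset.card_biUnion (fun t ht t' ht' hne =>
      hdisjF t (Finset.mem_coe.1 ht) t' (Finset.mem_coe.1 ht') hne),
      Finset.sum_congr rfl hCfcard, Finset.sum_const, smul_eq_mul]
  have hVf : (Finset.univ.filter (fun v : V => v ≠ 0)).card = q ^ (2 * r) - 1 := by
    rw [Finset.filter_ne', Finset.card_erase_of_mem (Finset.mem_univ _), Finset.card_univ,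
      ← Nat.card_eq_fintype_card, hcardV]
  have hqr : 2 ≤ q ^ r := by
    have h1 := hcardfix t0 ht0 ht0c
    have hnt : Nontrivial (fixSub ρ t0) :=
      ⟨⟨⟨v0, (mem_fixSub ρ t0 v0).2 ht0v⟩, 0, fun h => hv0 (congrArg Subtype.val h)⟩⟩
    have h2 := Finite.one_lt_card (α := fixSub ρ t0)
    omega
  rw [hVf] at hcount
  obtain ⟨k, hk⟩ : ∃ k, q ^ r = k + 2 := ⟨q ^ r - 2, by omega⟩
  rw [pow_mul', hk] at hcount
  rw [hk]
  have h3 : (k + 2) ^ 2 - 1 = (k + 3) * (k + 1) := by
    have : (k + 2) ^ 2 = (k + 3) * (k + 1) + 1 := by ring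
    omega
  have h4 : k + 2 - 1 = k + 1 := by omega
  rw [h3, h4] at hcount
  exact (Nat.eq_of_mul_eq_mul_right (by omega) hcount).symm

end Cfsg.Agent.S3381
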