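import Cfsg.Statements.S3383
import Mathlib

set_option autoImplicit false
open Cfsg

namespace Cfsg.Agent.S3383

open scoped Pointwise

theorem mem_conj_smul {L : Type*} [Group L] (H : Subgroup L) (g x : L) :
    x ∈ MulAut.conj g • H ↔ g⁻¹ * x * g ∈ H := by
  rw [Subgroup.mem_pointwise_smul_iff_inv_smul_mem]
  simp [MulAut.smul_def]

theorem kernel_conj {L : Type*} [Group L]
    (H : Subgroup L)
    (K : Subgroup L) (hK : ∀ x : L, x ∈ K ↔ (x = 1 ∨ ∀ g : L, g⁻¹ * x * g ∉ H)) :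
    ∀ c x : L, x ∈ K → c⁻¹ * x * c ∈ K := by
  intro c x hx
  rw [hK] at hx ⊢
  rcases hx with rfl | hx
  · left; simp
  · right
    intro g hg
    apply hx (c * g)
    have : (c * g)⁻¹ * x * (c * g) = g⁻¹ * (c⁻¹ * x * c) * g := by group
    rw [this]; exact hg

theorem dichotomy {L : Type*} [Group L] [Finite L]
    (H : Subgroup L) (hF : ∀ g : L, g ∉ H → ∀ x ∈ H, g⁻¹ * x * g ∈ H → x = 1)
    (K : Subgroup L) (hK : ∀ x : L, x ∈ K ↔ (x = 1 ∨ ∀ g : L, g⁻¹ * x * g ∉ H))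
    (N : Subgroup L) (hN : N.Normal) : K ≤ N ∨ N ≤ K := by
  by_cases hNK : N ≤ K
  · exact Or.inr hNK
  left
  have hKn := kernel_conj H K hK
  have hKH : ∀ x ∈ K, x ∈ H → x = 1 := by
    intro x hx hxH
    rcases (hK x).1 hx with h | h
    · exact h
    · exact absurd (by simpa using hxH) (h 1)
  obtain ⟨x, hxN, hxK⟩ := SetLike.not_le_iff_exists.1 hNK
  rw [hK] at hxK
  push Not at hxK
  obtain ⟨hx1, g, hg⟩ := hxK
  set h := g⁻¹ * x * g with hh
  have hhN : h ∈ N := by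
    have := hN.conj_mem x hxN g⁻¹
    simpa [hh] using this
  have hh1 : h ≠ 1 := by
    intro h1
    apply hx1
    have : x = g * h * g⁻¹ := by rw [hh]; group
    rw [this, h1]; simp
  let f : K → K := fun k => ⟨(k:L)⁻¹ * (h⁻¹ * k * h), K.mul_mem (K.inv_mem k.2) (hKn h k k.2)⟩
  have hf : Function.Injective f := by
    intro k₁ k₂ h12
    have h12' : (k₁:L)⁻¹ * (h⁻¹ * k₁ * h) = (k₂:L)⁻¹ * (h⁻¹ * k₂ * h) :=
      congrArg Subtype.val h12
    set c : L := (k₁ : L) * (k₂ : L)⁻¹ with hc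
    have hcK : c ∈ K := K.mul_mem k₁.2 (K.inv_mem k₂.2)
    have hconj : c⁻¹ * h⁻¹ * c = h⁻¹ := by
      have e : (k₁:L)⁻¹ * h⁻¹ * k₁ = (k₂:L)⁻¹ * h⁻¹ * k₂ := by
        have := congrArg (· * h⁻¹) h12'
        simpa [mul_assoc] using this
      calc c⁻¹ * h⁻¹ * c = k₂ * ((k₁:L)⁻¹ * h⁻¹ * k₁) * (k₂:L)⁻¹ := by rw [hc]; group
        _ = k₂ * ((k₂:L)⁻¹ * h⁻¹ * k₂) * (k₂:L)⁻¹ := by rw [e]
        _ = h⁻¹ := by group
    have hcH : c ∈ H := by
      by_contra hcH
      have := hF c hcH h⁻¹ (H.inv_mem hg) (by rw [hconj]; exact H.inv_mem hg)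
      exact hh1 (inv_eq_one.1 this)
    have hc1 : c = 1 := hKH c hcK hcH
    apply Subtype.ext
    have : (k₁ : L) = c * k₂ := by rw [hc]; group
    rw [this, hc1, one_mul]
  have hsurj : Function.Surjective f := Finite.surjective_of_injective hf
  intro k hk
  obtain ⟨k', hk'⟩ := hsurj ⟨k, hk⟩
  have hk2 : k = (k':L)⁻¹ * (h⁻¹ * k' * h) := (congrArg Subtype.val hk').symm
  rw [hk2]
  have h1 : (k':L)⁻¹ * h⁻¹ * k' ∈ N := by
    have := hN.conj_mem h⁻¹ (N.inv_mem hhN) (k':L)⁻¹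
    simpa using this
  have := N.mul_mem h1 hhN
  simpa [mul_assoc] using this

/-- Let H be a Frobenius complement in a finite group L and K the Frobenius kernel (as a subgroup). Then K is characteristic in L, and every normal subgroup of L either contains K or is contained in K. -/
theorem result {L : Type*} [Group L] [Finite L]
    (H : Subgroup L) (hH : Cfsg.IsFrobeniusComplement H)
    (K : Subgroup L) (hK : (K : Set L) = Cfsg.frobeniusKernel H) :
    K.Characteristic ∧ ∀ N : Subgroup L, N.Normal → K ≤ N ∨ N ≤ K := by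
  obtain ⟨_, _, hF0⟩ := hH
  have hF : ∀ g : L, g ∉ H → ∀ x ∈ H, g⁻¹ * x * g ∈ H → x = 1 := by
    intro g hg x hx hx2
    have : x ∈ H ⊓ (MulAut.conj g • H) := ⟨hx, (mem_conj_smul H g x).2 hx2⟩
    rw [hF0 g hg] at this
    exact Subgroup.mem_bot.1 this
  have hK' : ∀ x : L, x ∈ K ↔ (x = 1 ∨ ∀ g : L, g⁻¹ * x * g ∉ H) := by
    intro x
    rw [← SetLike.mem_coe, hK]
    simp only [Cfsg.frobeniusKernel, Set.mem_ofPred_eq, mem_conj_smul]
  have hdich := dichotomy H hF K hK'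
  refine ⟨?_, hdich⟩
  have hKnorm : K.Normal := by
    refine ⟨fun x hx c => ?_⟩
    have := kernel_conj H K hK' c⁻¹ x hx
    simpa using this
  rw [Subgroup.characteristic_iff_map_le]
  intro φ
  have hn : (K.map φ.toMonoidHom).Normal := hKnorm.map φ.toMonoidHom φ.surjective
  rcases hdich (K.map φ.toMonoidHom) hn with h | h
  · have hcard : Nat.card (K.map φ.toMonoidHom) = Nat.card K :=
      Subgroup.card_map_of_injective φ.injective
    exact le_of_eq (Subgroup.eq_of_le_of_card_ge h (le_of_eq hcard)).symm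
  · exact h

end Cfsg.Agent.S3383
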