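import Cfsg.Statements.S3419
import Cfsg.Agent.Lib.Helper19.AltSec

set_option autoImplicit false
open Cfsg

namespace Cfsg.Agent.S3419

open Cfsg.Agent.Lib.Helper19

/-- Let n ≥ 5 and let G be a finite group with the same order and the same set of element orders as the alternating group of degree n. Then G is not solvable. -/
theorem result {G : Type*} [Group G] [Finite G] (n : ℕ) (hn : 5 ≤ n)
    (hcard : Nat.card G = Nat.card ↥(alternatingGroup (Fin n)))
    (hspec : Set.range (orderOf : G → ℕ) = Set.range (orderOf : ↥(alternatingGroup (Fin n)) → ℕ)) :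
    ¬ Group.IsSolvable G := by
  intro hsol
  have h2N := two_mul_card_of_alt n (by omega) hcard
  have key : ∃ p r : ℕ, p.Prime ∧ r.Prime ∧ p ≠ r ∧ p ∣ Nat.card G ∧ ¬ p ^ 2 ∣ Nat.card G ∧
      r ∣ Nat.card G ∧ (∀ g : G, orderOf g ≠ p * r) ∧
      (∀ j : ℕ, 1 ≤ j → r ^ j ∣ Nat.card G → ¬ (r ^ j ≡ 1 [MOD p])) ∧ ¬ (p ≡ 1 [MOD r]) := by
    have large : ∀ p r : ℕ, p.Prime → r.Prime → p ≠ r → p ≤ n → n < 2 * p → r ≤ n →
        n < 2 * r → ∃ p r : ℕ, p.Prime ∧ r.Prime ∧ p ≠ r ∧ p ∣ Nat.card G ∧
        ¬ p ^ 2 ∣ Nat.card G ∧ r ∣ Nat.card G ∧ (∀ g : G, orderOf g ≠ p * r) ∧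
        (∀ j : ℕ, 1 ≤ j → r ^ j ∣ Nat.card G → ¬ (r ^ j ≡ 1 [MOD p])) ∧
        ¬ (p ≡ 1 [MOD r]) := by
      intro p r hp hr hpr a b c d
      obtain ⟨h1, h2⟩ := large_prime_dvd n p _ h2N hp (by omega) a b
      obtain ⟨e1, e2, e3, e4⟩ := large_pair n hn hcard hspec p r hp hr hpr a b c d
      exact ⟨p, r, hp, hr, hpr, h1, h2, e1, e2, e3, e4⟩
    rcases Nat.lt_or_ge n 12 with h | h
    · rcases Nat.lt_or_ge n 6 with h6 | h6
      · exact large 5 3 (by norm_num) (by norm_num) (by norm_num) (by omega) (by omega)
          (by omega) (by omega)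
      rcases Nat.lt_or_ge n 7 with h7 | h7
      · have hn6 : n = 6 := by omega
        subst hn6
        have hc : Nat.card G = 360 := by
          have : Nat.factorial 6 = 720 := by decide
          omega
        refine ⟨5, 3, by norm_num, by norm_num, by norm_num, by rw [hc]; norm_num,
          by rw [hc]; norm_num, by rw [hc]; norm_num,
          no_orderOf_mul_of_spec 6 hspec 5 3 (by norm_num) (by norm_num) (by norm_num)
            (by norm_num), ?_, by decide⟩
        intro j hj hjd
        rw [hc] at hjd
        have hj2 : j ≤ 2 := by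
          by_contra hcon
          have h3 : 3 ≤ j := by omega
          have h27 : 3 ^ 3 ∣ 360 := (pow_dvd_pow 3 h3).trans hjd
          norm_num at h27
        interval_cases j <;> decide
      rcases Nat.lt_or_ge n 10 with h10 | h10
      · exact large 7 5 (by norm_num) (by norm_num) (by norm_num) (by omega) (by omega)
          (by omega) (by omega)
      rcases Nat.lt_or_ge n 11 with h11 | h11
      · have hn10 : n = 10 := by omega
        subst hn10
        have hc : Nat.card G = 1814400 := by
          have : Nat.factorial 10 = 3628800 := by decide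
          omega
        refine ⟨7, 5, by norm_num, by norm_num, by norm_num, by rw [hc]; norm_num,
          by rw [hc]; norm_num, by rw [hc]; norm_num,
          no_orderOf_mul_of_spec 10 hspec 7 5 (by norm_num) (by norm_num) (by norm_num)
            (by norm_num), ?_, by decide⟩
        intro j hj hjd
        rw [hc] at hjd
        have hj2 : j ≤ 2 := by
          by_contra hcon
          have h3 : 3 ≤ j := by omega
          have h125 : 5 ^ 3 ∣ 1814400 := (pow_dvd_pow 5 h3).trans hjd
          norm_num at h125
        interval_cases j <;> decide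
      · exact large 11 7 (by norm_num) (by norm_num) (by norm_num) (by omega) (by omega)
          (by omega) (by omega)
    · obtain ⟨p, q, hp, hq, h1, h2, h3⟩ := exists_two_primes (n / 2) (by omega)
      exact large p q hp hq (by omega) (by omega) (by omega) (by omega) (by omega)
  obtain ⟨p, r, hp, hr, hpr, hpG, hp2, hrG, hno, hpow, hmod⟩ := key
  obtain ⟨N, H, hNn, hHn, hlt, hsimp, hpdvd, hall⟩ := exists_simple_section p hp hpG hp2
  have hrdvd := hall r hr hrG hno hpow hmod
  have hnc := not_comm_of_two_primes p r hp hpr hr hpdvd hrdvd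
  have hsolsec : Group.IsSolvable (↥H ⧸ N.subgroupOf H) := inferInstance
  apply hnc
  exact ⟨⟨(IsSimpleGroup.comm_iff_isSolvable).mpr hsolsec⟩⟩

end Cfsg.Agent.S3419
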