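import Cfsg.Statements.S3420
import Cfsg.Agent.Lib.Helper19.AltSec

set_option autoImplicit false
open Cfsg

namespace Cfsg.Agent.S3420

open Cfsg.Agent.Lib.Helper19

/-- Let n ≥ 11 and let G be a finite group with the same order and the same set of element orders as the alternating group of degree n. Then G has normal subgroups N < H such that H/N is a non-abelian simple group whose order is divisible by every prime p with n/2 < p ≤ n. -/
theorem result {G : Type*} [Group G] [Finite G] (n : ℕ) (hn : 11 ≤ n)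
    (hcard : Nat.card G = Nat.card ↥(alternatingGroup (Fin n)))
    (hspec : Set.range (orderOf : G → ℕ) = Set.range (orderOf : ↥(alternatingGroup (Fin n)) → ℕ)) :
    ∃ (N H : Subgroup G) (_ : N.Normal), H.Normal ∧ N < H ∧
      IsSimpleGroup (↥H ⧸ N.subgroupOf H) ∧ ¬ IsMulCommutative (↥H ⧸ N.subgroupOf H) ∧
      ∀ p : ℕ, p.Prime → n < 2 * p → p ≤ n → p ∣ Nat.card (↥H ⧸ N.subgroupOf H) := by
  have h2N := two_mul_card_of_alt n (by omega) hcard
  obtain ⟨p₁, p₂, hp₁, hp₂, hne, h1a, h1b, h2a, h2b⟩ : ∃ p₁ p₂ : ℕ, p₁.Prime ∧ p₂.Prime ∧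
      p₁ ≠ p₂ ∧ p₁ ≤ n ∧ n < 2 * p₁ ∧ p₂ ≤ n ∧ n < 2 * p₂ := by
    rcases Nat.lt_or_ge n 12 with h | h
    · have h11 : n = 11 := by omega
      subst h11
      exact ⟨7, 11, by norm_num, by norm_num, by norm_num, by norm_num, by norm_num,
        by norm_num, by norm_num⟩
    · obtain ⟨p, q, hp, hq, h1, h2, h3⟩ := exists_two_primes (n / 2) (by omega)
      exact ⟨p, q, hp, hq, by omega, by omega, by omega, by omega, by omega⟩
  obtain ⟨hp₁G, hp₁2⟩ := large_prime_dvd n p₁ _ h2N hp₁ (by omega) h1a h1b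
  obtain ⟨N, H, hNn, hHn, hlt, hsimp, hpdvd, hall⟩ := exists_simple_section p₁ hp₁ hp₁G hp₁2
  have hdiv : ∀ r : ℕ, r.Prime → n < 2 * r → r ≤ n →
      r ∣ Nat.card (↥H ⧸ N.subgroupOf H) := by
    intro r hr hnr hrn
    by_cases hrp : r = p₁
    · rw [hrp]; exact hpdvd
    · obtain ⟨a, b, c, d⟩ := large_pair n (by omega) hcard hspec p₁ r hp₁ hr (Ne.symm hrp)
        h1a h1b hrn hnr
      exact hall r hr a b c d
  refine ⟨N, H, hNn, hHn, hlt, hsimp, ?_, hdiv⟩
  exact not_comm_of_two_primes p₁ p₂ hp₁ hne hp₂ (hdiv p₁ hp₁ h1b h1a) (hdiv p₂ hp₂ h2b h2a)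

end Cfsg.Agent.S3420
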