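import Cfsg.Statements.S3704
import Mathlib

set_option autoImplicit false
open Cfsg

namespace Cfsg.Agent.S3704

section

variable {G Ω : Type*} [Group G] [MulAction G Ω]

noncomputable def M (H : Subgroup G) (S : Set Ω) (ω : Ω) (δ : G ⧸ H) : ℚ :=
  S.indicator (fun _ => (1 : ℚ)) ((Quotient.out δ : G)⁻¹ • ω)

theorem M_mk (H : Subgroup G) (S : Set Ω) (hS : ∀ h ∈ H, ∀ s : Ω, h • s ∈ S ↔ s ∈ S) (ω : Ω)
    (g : G) : M H S ω (QuotientGroup.mk g) = S.indicator (fun _ => (1 : ℚ)) (g⁻¹ • ω) := by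
  obtain ⟨h, hh⟩ := QuotientGroup.mk_out_eq_mul H g
  unfold M
  rw [hh]
  have e : (g * (h : G))⁻¹ • ω = (h : G)⁻¹ • (g⁻¹ • ω) := by rw [mul_inv_rev, mul_smul]
  rw [e]
  by_cases hm : g⁻¹ • ω ∈ S
  · rw [Set.indicator_of_mem hm, Set.indicator_of_mem ((hS _ (H.inv_mem h.2) _).2 hm)]
  · rw [Set.indicator_of_notMem hm,
      Set.indicator_of_notMem (fun hc => hm ((hS _ (H.inv_mem h.2) _).1 hc))]

theorem M_smul (H : Subgroup G) (S : Set Ω) (hS : ∀ h ∈ H, ∀ s : Ω, h • s ∈ S ↔ s ∈ S) (x : G)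
    (ω : Ω) (δ : G ⧸ H) : M H S (x • ω) (x • δ) = M H S ω δ := by
  induction δ using QuotientGroup.induction_on with
  | H g =>
    rw [MulAction.Quotient.smul_mk, M_mk H S hS, M_mk H S hS]
    congr 1
    rw [smul_eq_mul, mul_inv_rev, mul_smul, inv_smul_smul]

theorem M_one (H : Subgroup G) (S : Set Ω) (hS : ∀ h ∈ H, ∀ s : Ω, h • s ∈ S ↔ s ∈ S) (ω : Ω) :
    M H S ω (QuotientGroup.mk 1) = S.indicator (fun _ => (1 : ℚ)) ω := by
  rw [M_mk H S hS, inv_one, one_smul]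

theorem M_sq (H : Subgroup G) (S : Set Ω) (ω : Ω) (δ : G ⧸ H) :
    M H S ω δ * M H S ω δ = M H S ω δ := by
  unfold M
  by_cases hm : (Quotient.out δ : G)⁻¹ • ω ∈ S
  · rw [Set.indicator_of_mem hm, mul_one]
  · rw [Set.indicator_of_notMem hm, mul_zero]

theorem M_nonneg (H : Subgroup G) (S : Set Ω) (ω : Ω) (δ : G ⧸ H) : 0 ≤ M H S ω δ := by
  unfold M
  by_cases hm : (Quotient.out δ : G)⁻¹ • ω ∈ S
  · rw [Set.indicator_of_mem hm]; exact zero_le_one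
  · rw [Set.indicator_of_notMem hm]

theorem M_disj (H : Subgroup G) (S T : Set Ω) (hST : Disjoint S T) (ω : Ω) (δ : G ⧸ H) :
    M H S ω δ * M H T ω δ = 0 := by
  unfold M
  by_cases hm : (Quotient.out δ : G)⁻¹ • ω ∈ S
  · rw [Set.indicator_of_notMem (Set.disjoint_left.1 hST hm), mul_zero]
  · rw [Set.indicator_of_notMem hm, zero_mul]

noncomputable def N (H : Subgroup G) [Fintype (G ⧸ H)] (S T : Set Ω) (ω ω' : Ω) : ℚ :=
  ∑ δ : G ⧸ H, M H S ω δ * M H T ω' δ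

theorem N_smul (H : Subgroup G) [Fintype (G ⧸ H)] (S T : Set Ω)
    (hS : ∀ h ∈ H, ∀ s : Ω, h • s ∈ S ↔ s ∈ S) (hT : ∀ h ∈ H, ∀ s : Ω, h • s ∈ T ↔ s ∈ T)
    (x : G) (ω ω' : Ω) : N H S T (x • ω) (x • ω') = N H S T ω ω' := by
  unfold N
  rw [← Equiv.sum_comp (MulAction.toPerm x : (G ⧸ H) ≃ (G ⧸ H))]
  apply Finset.sum_congr rfl
  intro δ _
  rw [MulAction.toPerm_apply, M_smul H S hS, M_smul H T hT]

theorem N_off (H : Subgroup G) [Fintype (G ⧸ H)] (S T : Set Ω)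
    (h2 : ∀ {a b c d : Ω}, a ≠ b → c ≠ d → ∃ g : G, g • a = c ∧ g • b = d)
    (hS : ∀ h ∈ H, ∀ s : Ω, h • s ∈ S ↔ s ∈ S) (hT : ∀ h ∈ H, ∀ s : Ω, h • s ∈ T ↔ s ∈ T)
    (a b c d : Ω) (hab : a ≠ b) (hcd : c ≠ d) : N H S T a b = N H S T c d := by
  obtain ⟨g, rfl, rfl⟩ := h2 hab hcd
  rw [N_smul H S T hS hT]

theorem N_diag (H : Subgroup G) [Fintype (G ⧸ H)] (S T : Set Ω)
    (h2 : ∀ {a b c d : Ω}, a ≠ b → c ≠ d → ∃ g : G, g • a = c ∧ g • b = d)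
    (hS : ∀ h ∈ H, ∀ s : Ω, h • s ∈ S ↔ s ∈ S) (hT : ∀ h ∈ H, ∀ s : Ω, h • s ∈ T ↔ s ∈ T)
    (a c : Ω) : N H S T a a = N H S T c c := by
  by_cases hac : a = c
  · rw [hac]
  · obtain ⟨g, rfl, -⟩ := h2 hac (Ne.symm hac)
    rw [N_smul H S T hS hT]

theorem N_disj (H : Subgroup G) [Fintype (G ⧸ H)] (S T : Set Ω) (hST : Disjoint S T) (ω : Ω) :
    N H S T ω ω = 0 := by
  unfold N
  apply Finset.sum_eq_zero
  intro δ _
  exact M_disj H S T hST ω δ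

theorem no_three [Finite G] [Finite Ω]
    (h2 : ∀ {a b c d : Ω}, a ≠ b → c ≠ d → ∃ g : G, g • a = c ∧ g • b = d)
    (H : Subgroup G) (hcard : Nat.card Ω = Nat.card (G ⧸ H)) (S₁ S₂ S₃ : Set Ω)
    (hS₁ : ∀ h ∈ H, ∀ s : Ω, h • s ∈ S₁ ↔ s ∈ S₁) (hS₂ : ∀ h ∈ H, ∀ s : Ω, h • s ∈ S₂ ↔ s ∈ S₂)
    (hS₃ : ∀ h ∈ H, ∀ s : Ω, h • s ∈ S₃ ↔ s ∈ S₃)
    (ne1 : S₁.Nonempty) (ne2 : S₂.Nonempty) (ne3 : S₃.Nonempty)
    (d12 : Disjoint S₁ S₂) (d13 : Disjoint S₁ S₃) (d23 : Disjoint S₂ S₃) : False := by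
  classical
  letI := Fintype.ofFinite Ω
  letI := Fintype.ofFinite (G ⧸ H)
  obtain ⟨e⟩ := Finite.card_eq.1 hcard
  obtain ⟨ω₁, hω₁⟩ := ne1
  obtain ⟨ω₂, hω₂⟩ := ne2
  obtain ⟨ω₃, hω₃⟩ := ne3
  have hω12 : ω₁ ≠ ω₂ := by
    rintro rfl
    exact Set.disjoint_left.1 d12 hω₁ hω₂
  have h21n : ω₂ ∉ S₁ := fun h => Set.disjoint_left.1 d12 h hω₂
  have h31n : ω₃ ∉ S₁ := fun h => Set.disjoint_left.1 d13 h hω₃
  have h32n : ω₃ ∉ S₂ := fun h => Set.disjoint_left.1 d23 h hω₃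
  have h23n : ω₂ ∉ S₃ := fun h => Set.disjoint_left.1 d23 hω₂ h
  obtain ⟨d, hd⟩ : ∃ d : ℚ, d = N H S₁ S₁ ω₁ ω₁ := ⟨_, rfl⟩
  obtain ⟨b, hb⟩ : ∃ b : ℚ, b = N H S₁ S₁ ω₁ ω₂ := ⟨_, rfl⟩
  have hdiag : ∀ ω, N H S₁ S₁ ω ω = d := fun ω => by
    rw [hd]; exact N_diag H S₁ S₁ h2 hS₁ hS₁ ω ω₁
  have hoff : ∀ ω ω', ω ≠ ω' → N H S₁ S₁ ω ω' = b := fun ω ω' h => by
    rw [hb]; exact N_off H S₁ S₁ h2 hS₁ hS₁ ω ω' ω₁ ω₂ h hω12
  have hdb : d ≠ b := by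
    intro heq
    have hsum : ∑ δ : G ⧸ H, (M H S₁ ω₁ δ - M H S₁ ω₂ δ) ^ 2 = 0 := by
      have h1 : ∀ δ : G ⧸ H, (M H S₁ ω₁ δ - M H S₁ ω₂ δ) ^ 2 =
          M H S₁ ω₁ δ * M H S₁ ω₁ δ + M H S₁ ω₂ δ * M H S₁ ω₂ δ -
            2 * (M H S₁ ω₁ δ * M H S₁ ω₂ δ) := by
        intro δ; ring
      simp_rw [h1]
      rw [Finset.sum_sub_distrib, Finset.sum_add_distrib, ← Finset.mul_sum]
      have e1 : ∑ δ : G ⧸ H, M H S₁ ω₁ δ * M H S₁ ω₁ δ = d := hdiag ω₁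
      have e2 : ∑ δ : G ⧸ H, M H S₁ ω₂ δ * M H S₁ ω₂ δ = d := hdiag ω₂
      have e3 : ∑ δ : G ⧸ H, M H S₁ ω₁ δ * M H S₁ ω₂ δ = b := hoff ω₁ ω₂ hω12
      rw [e1, e2, e3, heq]; ring
    have h0 := (Finset.sum_eq_zero_iff_of_nonneg (fun δ _ => sq_nonneg _)).1 hsum
      (QuotientGroup.mk 1) (Finset.mem_univ _)
    have h1 : M H S₁ ω₁ (QuotientGroup.mk 1) = M H S₁ ω₂ (QuotientGroup.mk 1) := by
      have := pow_eq_zero_iff (two_ne_zero) |>.1 h0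
      exact sub_eq_zero.1 this
    rw [M_one H S₁ hS₁, M_one H S₁ hS₁, Set.indicator_of_mem hω₁,
      Set.indicator_of_notMem h21n] at h1
    exact one_ne_zero h1
  obtain ⟨A, hA⟩ : ∃ A : Matrix Ω Ω ℚ, ∀ ω ω', A ω ω' = M H S₁ ω (e ω') :=
    ⟨fun ω ω' => M H S₁ ω (e ω'), fun _ _ => rfl⟩
  have hmulT : ∀ (S : Set Ω) (B : Matrix Ω Ω ℚ), (∀ ω ω', B ω ω' = M H S ω (e ω')) →
      ∀ ω ω', (B * A.transpose) ω ω' = N H S S₁ ω ω' := by
    intro S B hB ω ω'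
    rw [Matrix.mul_apply]
    unfold N
    rw [← e.sum_comp]
    apply Finset.sum_congr rfl
    intro x _
    rw [Matrix.transpose_apply, hB, hA]
  have hdet : A.det ≠ 0 := by
    intro h0
    obtain ⟨v, hv0, hv⟩ := Matrix.exists_vecMul_eq_zero_iff.2 h0
    have hvA : Matrix.vecMul v (A * A.transpose) = 0 := by
      rw [← Matrix.vecMul_vecMul, hv, Matrix.zero_vecMul]
    have hv' : ∀ ω', (d - b) * v ω' + b * ∑ ω, v ω = 0 := by
      intro ω'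
      have h1 := congrFun hvA ω'
      rw [Matrix.vecMul, dotProduct] at h1
      simp only [Pi.zero_apply] at h1
      have h2' : ∀ ω ∈ (Finset.univ : Finset Ω), v ω * (A * A.transpose) ω ω' =
          v ω * b + (if ω = ω' then (d - b) * v ω' else 0) := by
        intro ω _
        rw [hmulT S₁ A hA]
        by_cases hww : ω = ω'
        · rw [if_pos hww, hww, hdiag]; ring
        · rw [if_neg hww, hoff ω ω' hww]; ring
      rw [Finset.sum_congr rfl h2', Finset.sum_add_distrib, Finset.sum_ite_eq' Finset.univ ω',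
        if_pos (Finset.mem_univ _), ← Finset.sum_mul] at h1
      linarith
    have hconst : ∀ ω', v ω' = v ω₁ := by
      intro ω'
      have h1 := hv' ω'
      have h2' := hv' ω₁
      have h3 : (d - b) * (v ω' - v ω₁) = 0 := by linarith
      rcases mul_eq_zero.1 h3 with h | h
      · exact absurd (sub_eq_zero.1 h) hdb
      · exact sub_eq_zero.1 h
    have ht : v ω₁ ≠ 0 := by
      intro h
      apply hv0
      funext ω
      rw [hconst ω, h]; rfl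
    have hcol := congrFun hv (e.symm (QuotientGroup.mk 1))
    rw [Matrix.vecMul, dotProduct] at hcol
    simp only [Pi.zero_apply] at hcol
    have h3 : ∀ ω ∈ (Finset.univ : Finset Ω), v ω * A ω (e.symm (QuotientGroup.mk 1)) =
        v ω₁ * S₁.indicator (fun _ => (1 : ℚ)) ω := by
      intro ω _
      rw [hA, e.apply_symm_apply, M_one H S₁ hS₁, hconst ω]
    rw [Finset.sum_congr rfl h3, ← Finset.mul_sum] at hcol
    have hpos : 0 < ∑ ω : Ω, S₁.indicator (fun _ => (1 : ℚ)) ω := by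
      apply Finset.sum_pos'
      · intro ω _
        exact Set.indicator_nonneg (fun _ _ => zero_le_one) ω
      · exact ⟨ω₁, Finset.mem_univ _, by rw [Set.indicator_of_mem hω₁]; exact zero_lt_one⟩
    rcases mul_eq_zero.1 hcol with h | h
    · exact ht h
    · exact hpos.ne' h
  have hcancel : ∀ Y : Matrix Ω Ω ℚ, Y * A.transpose = 0 → Y = 0 := by
    intro Y hY
    have hu : IsUnit A.transpose.det := by
      rw [Matrix.det_transpose]; exact isUnit_iff_ne_zero.2 hdet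
    have := Matrix.mul_nonsing_inv_cancel_right (A := A.transpose) Y hu
    rw [hY, Matrix.zero_mul] at this
    exact this.symm
  obtain ⟨B, hB⟩ : ∃ B : Matrix Ω Ω ℚ, ∀ ω ω', B ω ω' = M H S₂ ω (e ω') :=
    ⟨fun ω ω' => M H S₂ ω (e ω'), fun _ _ => rfl⟩
  obtain ⟨C, hC⟩ : ∃ C : Matrix Ω Ω ℚ, ∀ ω ω', C ω ω' = M H S₃ ω (e ω') :=
    ⟨fun ω ω' => M H S₃ ω (e ω'), fun _ _ => rfl⟩
  obtain ⟨c₂, hc₂⟩ : ∃ c : ℚ, c = N H S₂ S₁ ω₁ ω₂ := ⟨_, rfl⟩
  obtain ⟨c₃, hc₃⟩ : ∃ c : ℚ, c = N H S₃ S₁ ω₁ ω₂ := ⟨_, rfl⟩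
  have hBA : ∀ ω ω', (B * A.transpose) ω ω' = if ω = ω' then 0 else c₂ := by
    intro ω ω'
    rw [hmulT S₂ B hB]
    by_cases hww : ω = ω'
    · rw [if_pos hww, hww]; exact N_disj H S₂ S₁ d12.symm ω'
    · rw [if_neg hww, hc₂]; exact N_off H S₂ S₁ h2 hS₂ hS₁ ω ω' ω₁ ω₂ hww hω12
  have hCA : ∀ ω ω', (C * A.transpose) ω ω' = if ω = ω' then 0 else c₃ := by
    intro ω ω'
    rw [hmulT S₃ C hC]
    by_cases hww : ω = ω'
    · rw [if_pos hww, hww]; exact N_disj H S₃ S₁ d13.symm ω'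
    · rw [if_neg hww, hc₃]; exact N_off H S₃ S₁ h2 hS₃ hS₁ ω ω' ω₁ ω₂ hww hω12
  have hX : (c₃ • B - c₂ • C) * A.transpose = 0 := by
    rw [Matrix.sub_mul, Matrix.smul_mul, Matrix.smul_mul]
    ext ω ω'
    rw [Matrix.sub_apply, Matrix.smul_apply, Matrix.smul_apply, hBA, hCA, Matrix.zero_apply]
    by_cases hww : ω = ω'
    · rw [if_pos hww, if_pos hww]; simp
    · rw [if_neg hww, if_neg hww]; simp [mul_comm]
  have hX0 := hcancel _ hX
  have hB2 : B ω₂ (e.symm (QuotientGroup.mk 1)) = 1 := by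
    rw [hB, e.apply_symm_apply, M_one H S₂ hS₂, Set.indicator_of_mem hω₂]
  have hC2 : C ω₂ (e.symm (QuotientGroup.mk 1)) = 0 := by
    rw [hC, e.apply_symm_apply, M_one H S₃ hS₃, Set.indicator_of_notMem h23n]
  have hc3 : c₃ = 0 := by
    have := congrFun (congrFun hX0 ω₂) (e.symm (QuotientGroup.mk 1))
    rw [Matrix.sub_apply, Matrix.smul_apply, Matrix.smul_apply, hB2, hC2, Matrix.zero_apply] at this
    simpa using this
  have hC0 : C = 0 := by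
    apply hcancel
    ext ω ω'
    rw [hCA, hc3, Matrix.zero_apply]
    simp
  have hC3 : C ω₃ (e.symm (QuotientGroup.mk 1)) = 1 := by
    rw [hC, e.apply_symm_apply, M_one H S₃ hS₃, Set.indicator_of_mem hω₃]
  rw [hC0, Matrix.zero_apply] at hC3
  exact zero_ne_one hC3

end

theorem result {G Ω : Type*} [Group G] [Finite G] [MulAction G Ω] [FaithfulSMul G Ω] [Finite Ω] (h2 : MulAction.IsMultiplyPretransitive G Ω 2) (H : Subgroup G) (hidx : H.index = Nat.card Ω) (hnt : ¬ MulAction.IsPretransitive H Ω) (hfix : ∀ a : Ω, ∃ h : H, h • a ≠ a) : Nat.card (MulAction.orbitRel.Quotient H Ω) = 2 := by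
  classical
  have h2' : ∀ {a b c d : Ω}, a ≠ b → c ≠ d → ∃ g : G, g • a = c ∧ g • b = d :=
    MulAction.is_two_pretransitive_iff.1 h2
  letI := Fintype.ofFinite (MulAction.orbitRel.Quotient H Ω)
  rw [Nat.card_eq_fintype_card]
  have hcard : Nat.card Ω = Nat.card (G ⧸ H) := by rw [← hidx, Subgroup.index_eq_card]
  have hinv : ∀ q : MulAction.orbitRel.Quotient H Ω, ∀ h ∈ H, ∀ s : Ω,
      h • s ∈ {ω : Ω | (Quotient.mk'' ω : MulAction.orbitRel.Quotient H Ω) = q} ↔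
        s ∈ {ω : Ω | (Quotient.mk'' ω : MulAction.orbitRel.Quotient H Ω) = q} := by
    intro q h hh s
    have e : (Quotient.mk'' (h • s) : MulAction.orbitRel.Quotient H Ω) = Quotient.mk'' s := by
      apply Quotient.sound'
      exact ⟨⟨h, hh⟩, rfl⟩
    rw [Set.mem_setOf_eq, Set.mem_setOf_eq, e]
  have hnonempty : ∀ q : MulAction.orbitRel.Quotient H Ω,
      {ω : Ω | (Quotient.mk'' ω : MulAction.orbitRel.Quotient H Ω) = q}.Nonempty := by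
    intro q
    obtain ⟨ω, hω⟩ := Quotient.exists_rep q
    exact ⟨ω, hω⟩
  have hdisj : ∀ q q' : MulAction.orbitRel.Quotient H Ω, q ≠ q' →
      Disjoint {ω : Ω | (Quotient.mk'' ω : MulAction.orbitRel.Quotient H Ω) = q}
        {ω : Ω | (Quotient.mk'' ω : MulAction.orbitRel.Quotient H Ω) = q'} := by
    intro q q' hqq
    rw [Set.disjoint_left]
    intro ω h1 h2
    exact hqq (h1.symm.trans h2)
  by_contra hne
  rcases lt_or_gt_of_ne hne with h | h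
  · apply hnt
    have hsub : Subsingleton (MulAction.orbitRel.Quotient H Ω) :=
      Fintype.card_le_one_iff_subsingleton.1 (by omega)
    constructor
    intro a b
    have h1 : (Quotient.mk'' a : MulAction.orbitRel.Quotient H Ω) = Quotient.mk'' b :=
      Subsingleton.elim _ _
    have h3 := Quotient.exact' h1
    obtain ⟨g, hg⟩ := h3
    exact ⟨g⁻¹, by rw [← hg]; exact inv_smul_smul g b⟩
  · obtain ⟨q₁, q₂, q₃, h12, h13, h23⟩ := Fintype.two_lt_card_iff.1 h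
    exact no_three h2' H hcard _ _ _ (hinv q₁) (hinv q₂) (hinv q₃) (hnonempty q₁) (hnonempty q₂)
      (hnonempty q₃) (hdisj _ _ h12) (hdisj _ _ h13) (hdisj _ _ h23)

end Cfsg.Agent.S3704
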