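import Cfsg.Statements.S3707
import Mathlib

set_option autoImplicit false
open Cfsg

namespace Cfsg.Agent.S3707

open scoped Pointwise

section core

variable {G Ω : Type*} [Group G] [MulAction G Ω]

def JC (G : Type*) {Ω : Type*} [Group G] [MulAction G Ω] (D : Set Ω) : Prop :=
  ∀ x ∉ D, ∀ y ∉ D, ∃ g : G, (∀ z ∈ D, g • z = z) ∧ g • x = y

theorem JC_smul {D : Set Ω} (h : JC G D) (g : G) : JC G (g • D) := by
  intro x hx y hy
  have hx' : g⁻¹ • x ∉ D := fun hh => hx (Set.mem_smul_set_iff_inv_smul_mem.mpr hh)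
  have hy' : g⁻¹ • y ∉ D := fun hh => hy (Set.mem_smul_set_iff_inv_smul_mem.mpr hh)
  obtain ⟨k, hk, hkx⟩ := h _ hx' _ hy'
  refine ⟨g * k * g⁻¹, fun z hz => ?_, ?_⟩
  · have hz' := Set.mem_smul_set_iff_inv_smul_mem.mp hz
    rw [mul_smul, mul_smul, hk _ hz', smul_inv_smul]
  · rw [mul_smul, mul_smul, hkx, smul_inv_smul]

theorem JC_inter {D₁ D₂ : Set Ω} (h1 : JC G D₁) (h2 : JC G D₂) (hne : D₁ ∪ D₂ ≠ Set.univ) :
    JC G (D₁ ∩ D₂) := by
  obtain ⟨w, hw⟩ := (Set.ne_univ_iff_exists_notMem _).mp hne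
  have hw1 : w ∉ D₁ := fun h => hw (Or.inl h)
  have hw2 : w ∉ D₂ := fun h => hw (Or.inr h)
  have key : ∀ x ∉ D₁ ∩ D₂, ∃ g : G, (∀ z ∈ D₁ ∩ D₂, g • z = z) ∧ g • x = w := by
    intro x hx
    by_cases hx1 : x ∈ D₁
    · have hx2 : x ∉ D₂ := fun h => hx ⟨hx1, h⟩
      obtain ⟨g, hg, hgx⟩ := h2 x hx2 w hw2
      exact ⟨g, fun z hz => hg z hz.2, hgx⟩
    · obtain ⟨g, hg, hgx⟩ := h1 x hx1 w hw1
      exact ⟨g, fun z hz => hg z hz.1, hgx⟩
  intro x hx y hy
  obtain ⟨g, hg, hgx⟩ := key x hx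
  obtain ⟨k, hk, hky⟩ := key y hy
  refine ⟨k⁻¹ * g, fun z hz => ?_, ?_⟩
  · rw [mul_smul, hg z hz, inv_smul_eq_iff, hk z hz]
  · rw [mul_smul, hgx, inv_smul_eq_iff, hky]

theorem mem_of_union_eq_univ {A B : Set Ω} (h : A ∪ B = Set.univ) {x : Ω} (hx : x ∉ B) :
    x ∈ A := by
  have h1 : x ∈ A ∪ B := by
    rw [h]
    exact Set.mem_univ x
  rcases h1 with h2 | h2
  · exact h2
  · exact absurd h2 hx

theorem core [Finite Ω]
    (h2t : ∀ {a b c d : Ω}, a ≠ b → c ≠ d → ∃ g : G, g • a = c ∧ g • b = d)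
    (Γ : Set Ω) (h1 : 1 < Γ.ncard) (h2 : 2 * Γ.ncard ≤ Nat.card Ω) (hJ : JC G Γᶜ) :
    ∃ a b : Ω, a ≠ b ∧ JC G ({a, b} : Set Ω) := by
  classical
  have hn := Set.ncard_add_ncard_compl Γ
  have hex : ∃ k, ∃ D : Set Ω, JC G D ∧ 2 ≤ D.ncard ∧ D.ncard = k :=
    ⟨_, Γᶜ, hJ, by omega, rfl⟩
  obtain ⟨D, hD, hD2, hDk⟩ := Nat.find_spec hex
  have hmin : ∀ D' : Set Ω, JC G D' → 2 ≤ D'.ncard → D.ncard ≤ D'.ncard := by
    intro D' h h'
    rw [hDk]
    exact Nat.find_min' hex ⟨D', h, h', rfl⟩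
  by_cases hd : D.ncard = 2
  · obtain ⟨a, b, hab, rfl⟩ := Set.ncard_eq_two.mp hd
    exact ⟨a, b, hab, hD⟩
  exfalso
  have hd3 : 3 ≤ D.ncard := by omega
  have hdle : D.ncard ≤ Γᶜ.ncard := hmin _ hJ (by omega)
  have F2 : ∀ (D' : Set Ω) (g : G), JC G D' → 2 ≤ (g • D ∩ D').ncard →
      g • D ⊆ D' ∨ g • D ∪ D' = Set.univ := by
    intro D' g hD' hc
    by_contra hcon
    push_neg at hcon
    have hJ' := JC_inter (JC_smul hD g) hD' hcon.2
    have h3 := hmin _ hJ' hc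
    have h4 : g • D ∩ D' = g • D :=
      Set.eq_of_subset_of_ncard_le Set.inter_subset_left (by
        rw [Set.ncard_smul_set]
        exact h3) (Set.toFinite _)
    apply hcon.1
    rw [← h4]
    exact Set.inter_subset_right
  obtain ⟨u, hu, v, hv, huv⟩ := (Set.one_lt_ncard (Set.toFinite D)).mp (by omega : 1 < D.ncard)
  have F1 : ∀ x y : Ω, x ≠ y → ∃ g : G, x ∈ g • D ∧ y ∈ g • D := by
    intro x y hxy
    obtain ⟨g, hgu, hgv⟩ := h2t huv hxy
    exact ⟨g, ⟨u, hu, hgu⟩, ⟨v, hv, hgv⟩⟩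
  have h2d : 2 * D.ncard ≤ Nat.card Ω := by
    by_contra hlt
    push_neg at hlt
    have hDc : 2 ≤ Dᶜ.ncard := by
      have h5 := Set.ncard_add_ncard_compl D
      omega
    obtain ⟨a, ha, b, hb, hab⟩ := (Set.one_lt_ncard (Set.toFinite Dᶜ)).mp (by omega)
    have hau : a ≠ u := fun h => ha (h ▸ hu)
    obtain ⟨k, hka, hkb⟩ := h2t hab hau
    have h_a : a ∉ k⁻¹ • D := by
      rw [Set.mem_smul_set_iff_inv_smul_mem, inv_inv, hka]
      exact ha
    have h_b : b ∈ k⁻¹ • D := by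
      rw [Set.mem_smul_set_iff_inv_smul_mem, inv_inv, hkb]
      exact hu
    have hne : k⁻¹ • D ∪ D ≠ Set.univ := by
      intro h
      exact h_a (mem_of_union_eq_univ h ha)
    have hc : 2 ≤ (k⁻¹ • D ∩ D).ncard := by
      have e1 := Set.ncard_union_add_ncard_inter (k⁻¹ • D) D
      have e2 : (k⁻¹ • D ∪ D).ncard < Nat.card Ω := Set.ncard_lt_card hne
      rw [Set.ncard_smul_set] at e1
      omega
    rcases F2 D k⁻¹ hD hc with h | h
    · exact hb (h h_b)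
    · exact hne h
  have L : ∀ g g' : G, 2 ≤ (g • D ∩ g' • D).ncard → g • D = g' • D := by
    intro g g' hc
    rcases F2 (g' • D) g (JC_smul hD g') hc with h | h
    · exact Set.eq_of_subset_of_ncard_le h (by
        rw [Set.ncard_smul_set, Set.ncard_smul_set]) (Set.toFinite _)
    · exfalso
      have e1 := Set.ncard_union_add_ncard_inter (g • D) (g' • D)
      rw [h, Set.ncard_univ, Set.ncard_smul_set, Set.ncard_smul_set] at e1
      omega
  obtain ⟨p, hp⟩ : Γ.Nonempty := by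
    rw [← Set.ncard_pos]
    omega
  by_cases hA : ∃ g₀ : G, Γ ⊆ g₀ • D
  · obtain ⟨g₀, hg₀⟩ := hA
    have hlt : (g₀ • D).ncard < Nat.card Ω := by
      rw [Set.ncard_smul_set]
      omega
    obtain ⟨s, hs⟩ : ∃ s, s ∉ g₀ • D := by
      by_contra hcon
      push_neg at hcon
      have h5 : g₀ • D = Set.univ := Set.eq_univ_of_forall hcon
      rw [h5, Set.ncard_univ] at hlt
      omega
    have hsp : p ≠ s := fun h => hs (h ▸ hg₀ hp)
    obtain ⟨g, hgp, hgs⟩ := F1 p s hsp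
    have hne : g • D ≠ g₀ • D := fun h => hs (h ▸ hgs)
    have hle1 : (g • D ∩ g₀ • D).ncard ≤ 1 := by
      by_contra hcon
      push_neg at hcon
      exact hne (L g g₀ (by omega))
    have hsub : g • D \ g₀ • D ⊆ g • D ∩ Γᶜ := fun x hx => ⟨hx.1, fun hxΓ => hx.2 (hg₀ hxΓ)⟩
    have hc : 2 ≤ (g • D ∩ Γᶜ).ncard := by
      have e1 := Set.ncard_inter_add_ncard_sdiff_eq_ncard (g • D) (g₀ • D)
      have e2 := Set.ncard_le_ncard hsub (Set.toFinite _)
      rw [Set.ncard_smul_set] at e1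
      omega
    rcases F2 Γᶜ g hJ hc with h | h
    · exact h hgp hp
    · have hΓg : Γ ⊆ g • D := fun x hx => mem_of_union_eq_univ h (fun hx' => hx' hx)
      have h6 : Γ ⊆ g • D ∩ g₀ • D := fun x hx => ⟨hΓg hx, hg₀ hx⟩
      have h7 := Set.ncard_le_ncard h6 (Set.toFinite _)
      omega
  · push_neg at hA
    have hex2 : ∀ s ∈ Γᶜ, ∃ g : G, ∃ t : Ω,
        p ∈ g • D ∧ s ∈ g • D ∧ t ∈ g • D ∧ t ≠ p ∧ t ≠ s := by
      intro s hs
      have hps : p ≠ s := fun h => hs (h ▸ hp)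
      obtain ⟨g, hgp, hgs⟩ := F1 p s hps
      have h3 : ((g • D) \ {p, s}).Nonempty := by
        rw [← Set.ncard_pos]
        have e1 := Set.ncard_inter_add_ncard_sdiff_eq_ncard (g • D) ({p, s} : Set Ω)
        have e2 : ((g • D) ∩ ({p, s} : Set Ω)).ncard ≤ ({p, s} : Set Ω).ncard :=
          Set.ncard_le_ncard Set.inter_subset_right (Set.toFinite _)
        have e3 : ({p, s} : Set Ω).ncard = 2 := Set.ncard_pair hps
        rw [Set.ncard_smul_set] at e1
        omega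
      obtain ⟨t, htg, htps⟩ := h3
      refine ⟨g, t, hgp, hgs, htg, fun h => htps ?_, fun h => htps ?_⟩
      · rw [h]
        exact Set.mem_insert _ _
      · rw [h]
        exact Set.mem_insert_of_mem _ rfl
    haveI : Nonempty Ω := ⟨p⟩
    choose! gs ts hgs using hex2
    have two_mem : ∀ (g : G) (x y : Ω), x ≠ y → x ∈ g • D → y ∈ g • D → x ∈ Γᶜ → y ∈ Γᶜ →
        p ∈ g • D → False := by
      intro g x y hxy hx hy hxΓ hyΓ hpg
      have hc : 2 ≤ (g • D ∩ Γᶜ).ncard := by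
        have hsub : ({x, y} : Set Ω) ⊆ g • D ∩ Γᶜ := by
          intro z hz
          rcases hz with rfl | rfl
          · exact ⟨hx, hxΓ⟩
          · exact ⟨hy, hyΓ⟩
        have h8 := Set.ncard_le_ncard hsub (Set.toFinite _)
        rw [Set.ncard_pair hxy] at h8
        exact h8
      rcases F2 Γᶜ g hJ hc with h | h
      · exact h hpg hp
      · exact hA g (fun z hz => mem_of_union_eq_univ h (fun hz' => hz' hz))
    have hts : ∀ s ∈ Γᶜ, ts s ∈ Γ \ {p} := by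
      intro s hs
      obtain ⟨hgp, hgs', htg, htp, hts'⟩ := hgs s hs
      refine ⟨?_, htp⟩
      by_contra htΓ
      exact two_mem (gs s) s (ts s) (Ne.symm hts') hgs' htg hs htΓ hgp
    have hinj : Set.InjOn ts Γᶜ := by
      intro s hs s' hs' heq
      by_contra hne
      obtain ⟨hgp, hgs1, htg, htp, hts1⟩ := hgs s hs
      obtain ⟨hgp', hgs2, htg', htp', hts2⟩ := hgs s' hs'
      have hLL : gs s • D = gs s' • D := by
        apply L
        have hsub : ({p, ts s} : Set Ω) ⊆ gs s • D ∩ gs s' • D := by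
          intro z hz
          rcases hz with rfl | rfl
          · exact ⟨hgp, hgp'⟩
          · exact ⟨htg, heq ▸ htg'⟩
        have h8 := Set.ncard_le_ncard hsub (Set.toFinite _)
        rw [Set.ncard_pair (Ne.symm htp)] at h8
        exact h8
      exact two_mem (gs s) s s' hne hgs1 (hLL ▸ hgs2) hs hs' hgp
    have hcard := Set.ncard_le_ncard_of_injOn ts hts hinj (Set.toFinite _)
    have hdiff : (Γ \ {p}).ncard = Γ.ncard - 1 := Set.ncard_sdiff_singleton_of_mem hp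
    omega

end core

theorem result {G Ω : Type*} [Group G] [Finite G] [MulAction G Ω] [FaithfulSMul G Ω] [Finite Ω] (hprim : MulAction.IsPreprimitive G Ω) (Γ : Set Ω) (h1 : 1 < Γ.ncard) (h2 : 2 * Γ.ncard ≤ Nat.card Ω) (htr : ∀ x ∈ Γ, ∀ y ∈ Γ, ∃ g : G, (∀ z ∉ Γ, g • z = z) ∧ g • x = y) : MulAction.IsMultiplyPretransitive G Ω 3 := by
  have hn := Set.ncard_add_ncard_compl Γ
  have hJ : JC G Γᶜ := by
    intro x hx y hy
    have hx' : x ∈ Γ := Set.notMem_compl_iff.mp hx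
    have hy' : y ∈ Γ := Set.notMem_compl_iff.mp hy
    obtain ⟨g, hg, hgx⟩ := htr x hx' y hy'
    exact ⟨g, fun z hz => hg z hz, hgx⟩
  have h2p : MulAction.IsMultiplyPretransitive G Ω 2 := by
    apply MulAction.IsPreprimitive.is_two_pretransitive hprim (s := Γᶜ) (n := Γᶜ.ncard - 1)
      (by omega) (by omega)
    constructor
    intro x y
    have hx : (x : Ω) ∉ Γᶜ := (SubMulAction.mem_ofFixingSubgroup_iff G).mp x.2
    have hy : (y : Ω) ∉ Γᶜ := (SubMulAction.mem_ofFixingSubgroup_iff G).mp y.2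
    obtain ⟨g, hg, hgx⟩ := hJ _ hx _ hy
    exact ⟨⟨g, (mem_fixingSubgroup_iff G).mpr hg⟩, Subtype.ext hgx⟩
  have h2t : ∀ {a b c d : Ω}, a ≠ b → c ≠ d → ∃ g : G, g • a = c ∧ g • b = d :=
    fun {a b c d} hab hcd => MulAction.is_two_pretransitive_iff.mp h2p hab hcd
  obtain ⟨a, b, hab, hJab⟩ := core (G := G) h2t Γ h1 h2 hJ
  rw [MulAction.isMultiplyPretransitive_iff]
  intro e e'
  have he01 : e 0 ≠ e 1 := e.injective.ne (by decide)
  have he01' : e' 0 ≠ e' 1 := e'.injective.ne (by decide)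
  obtain ⟨g₁, hg₁0, hg₁1⟩ := h2t he01 hab
  obtain ⟨g₂, hg₂0, hg₂1⟩ := h2t he01' hab
  have hx : g₁ • e 2 ∉ ({a, b} : Set Ω) := by
    rintro (h | h)
    · rw [← hg₁0] at h
      exact absurd (e.injective (smul_left_cancel g₁ h)) (by decide)
    · rw [Set.mem_singleton_iff, ← hg₁1] at h
      exact absurd (e.injective (smul_left_cancel g₁ h)) (by decide)
  have hy : g₂ • e' 2 ∉ ({a, b} : Set Ω) := by
    rintro (h | h)
    · rw [← hg₂0] at h
      exact absurd (e'.injective (smul_left_cancel g₂ h)) (by decide)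
    · rw [Set.mem_singleton_iff, ← hg₂1] at h
      exact absurd (e'.injective (smul_left_cancel g₂ h)) (by decide)
  obtain ⟨h, hh, hhx⟩ := hJab _ hx _ hy
  refine ⟨g₂⁻¹ * h * g₁, ?_⟩
  ext i
  rw [Function.Embedding.smul_apply]
  fin_cases i
  · show (g₂⁻¹ * h * g₁) • e 0 = e' 0
    rw [mul_smul, mul_smul, hg₁0, hh a (Set.mem_insert _ _), inv_smul_eq_iff, hg₂0]
  · show (g₂⁻¹ * h * g₁) • e 1 = e' 1
    rw [mul_smul, mul_smul, hg₁1, hh b (Set.mem_insert_of_mem _ rfl), inv_smul_eq_iff, hg₂1]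
  · show (g₂⁻¹ * h * g₁) • e 2 = e' 2
    rw [mul_smul, mul_smul, hhx, inv_smul_smul]

end Cfsg.Agent.S3707
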