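import Cfsg.Statements.S3733
import Mathlib

set_option autoImplicit false
open Cfsg

namespace Cfsg.Agent.S3733

open scoped IsMulCommutative

variable {G : Type*} [Group G]

def cjHom (V : Subgroup G) (c : Subgroup.normalizer (V : Set G)) : V →* V where
  toFun v := ⟨(c : G) * v * (c : G)⁻¹, (c.2 v).mp v.2⟩
  map_one' := by ext; simp
  map_mul' := by intro a b; ext; simp

open Classical in
noncomputable def F (V : Subgroup G) (v : V) (g : G) : V :=
  if h : g ∈ Subgroup.normalizer (V : Set G) then cjHom V ⟨g, h⟩ v else 1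

theorem F_of_mem (V : Subgroup G) (v : V) (g : G) (h : g ∈ Subgroup.normalizer (V : Set G)) :
    F V v g = cjHom V ⟨g, h⟩ v := by
  unfold F
  rw [dif_pos h]

theorem F_one (V : Subgroup G) (v : V) : F V v 1 = v := by
  rw [F_of_mem V v 1 (one_mem _)]
  ext
  simp [cjHom]

theorem cj_F (V : Subgroup G) (v : V) (c g : G) (hc : c ∈ Subgroup.normalizer (V : Set G))
    (hg : g ∈ Subgroup.normalizer (V : Set G)) :
    cjHom V ⟨c, hc⟩ (F V v g) = F V v (c * g) := by
  rw [F_of_mem V v g hg, F_of_mem V v (c * g) (mul_mem hc hg)]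
  ext
  simp [cjHom, mul_assoc]

open Classical in
theorem N_fixed [Fintype G] (V : Subgroup G) [IsMulCommutative V] (B : Subgroup G)
    (hB : B ≤ Subgroup.normalizer (V : Set G)) (v : V) (c : G) (hc : c ∈ B) :
    cjHom V ⟨c, hB hc⟩ (∏ g ∈ Finset.univ.filter (fun g => g ∈ B), F V v g) =
      ∏ g ∈ Finset.univ.filter (fun g => g ∈ B), F V v g := by
  rw [map_prod]
  refine Finset.prod_nbij' (fun g => c * g) (fun g => c⁻¹ * g) ?_ ?_ ?_ ?_ ?_
  · intro g hg
    simp only [Finset.mem_filter, Finset.mem_univ, true_and] at hg ⊢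
    exact mul_mem hc hg
  · intro g hg
    simp only [Finset.mem_filter, Finset.mem_univ, true_and] at hg ⊢
    exact mul_mem (inv_mem hc) hg
  · intro g _; simp
  · intro g _; simp
  · intro g hg
    simp only [Finset.mem_filter, Finset.mem_univ, true_and] at hg
    exact cj_F V v c g (hB hc) (hB hg)

open Classical in
theorem N_mem_centralizer [Fintype G] (V : Subgroup G) [IsMulCommutative V] (B : Subgroup G)
    (hB : B ≤ Subgroup.normalizer (V : Set G)) (v : V) :
    ((∏ g ∈ Finset.univ.filter (fun g => g ∈ B), F V v g : V) : G) ∈ V ⊓ Subgroup.centralizer (B : Set G) := by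
  refine Subgroup.mem_inf.mpr ⟨SetLike.coe_mem _, ?_⟩
  rw [Subgroup.mem_centralizer_iff]
  intro c hc
  have h := congrArg Subtype.val (N_fixed V B hB v c hc)
  simp only [cjHom, MonoidHom.coe_mk, OneHom.coe_mk] at h
  exact (mul_inv_eq_iff_eq_mul.mp h)

open Classical in
theorem count_identity [Fintype G] (A V : Subgroup G) [IsMulCommutative V]
    (𝒜 : Finset (Subgroup G)) (hne : 𝒜.Nonempty) (hprop : ∀ B ∈ 𝒜, B < A)
    (hpart : ∀ a ∈ A, a ≠ 1 → ∃! B, B ∈ 𝒜 ∧ a ∈ B) (v : V) :
    ∏ B ∈ 𝒜, ∏ g ∈ Finset.univ.filter (fun g => g ∈ B), F V v g =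
      (∏ g ∈ Finset.univ.filter (fun g => g ∈ A), F V v g) * v ^ (𝒜.card - 1) := by
  have h1 : ∀ B ∈ 𝒜, ∏ g ∈ Finset.univ.filter (fun g => g ∈ B), F V v g =
      ∏ g : G, if g ∈ B then F V v g else 1 := by
    intro B _
    rw [Finset.prod_filter]
  rw [Finset.prod_congr rfl h1, Finset.prod_comm, Finset.prod_filter]
  have h2 : ∀ g : G, (∏ B ∈ 𝒜, if g ∈ B then F V v g else 1) =
      (if g ∈ A then F V v g else 1) * (if g = 1 then v ^ (𝒜.card - 1) else 1) := by
    intro g
    rw [← Finset.prod_filter, Finset.prod_const]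
    by_cases hg1 : g = 1
    · subst hg1
      have hall : 𝒜.filter (fun B => (1 : G) ∈ B) = 𝒜 := by
        apply Finset.filter_true_of_mem
        intro B _
        exact one_mem B
      rw [hall, F_one, if_pos (one_mem A), if_pos rfl, ← pow_succ']
      congr 1
      have := Finset.card_pos.mpr hne
      omega
    · rw [if_neg hg1, mul_one]
      by_cases hgA : g ∈ A
      · rw [if_pos hgA]
        obtain ⟨B, ⟨hB, hgB⟩, huniq⟩ := hpart g hgA hg1
        have : 𝒜.filter (fun B => g ∈ B) = {B} := by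
          ext C
          simp only [Finset.mem_filter, Finset.mem_singleton]
          constructor
          · intro hC
            exact huniq C hC
          · rintro rfl
            exact ⟨hB, hgB⟩
        rw [this, Finset.card_singleton, pow_one]
      · rw [if_neg hgA]
        have : 𝒜.filter (fun B => g ∈ B) = ∅ := by
          apply Finset.filter_false_of_mem
          intro B hB hgB
          exact hgA ((hprop B hB).le hgB)
        rw [this, Finset.card_empty, pow_zero]
  rw [Finset.prod_congr rfl (fun g _ => h2 g), Finset.prod_mul_distrib, Finset.prod_ite_eq']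
  simp

theorem result {G : Type*} [Group G] [Finite G] (A V : Subgroup G) (hVab : IsMulCommutative V) (hV : V ≠ ⊥) (hAV : A ≤ Subgroup.normalizer (V : Set G)) (𝒜 : Finset (Subgroup G)) (hne : 𝒜.Nonempty) (hprop : ∀ B ∈ 𝒜, B < A) (hpart : ∀ a ∈ A, a ≠ 1 → ∃! B, B ∈ 𝒜 ∧ a ∈ B) (hk : (𝒜.card - 1).Coprime (Nat.card V)) : ∃ B ∈ 𝒜, V ⊓ Subgroup.centralizer (B : Set G) ≠ ⊥ := by
  classical
  by_contra hcon
  push Not at hcon
  let _ : Fintype G := Fintype.ofFinite G
  apply hV
  rw [eq_bot_iff]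
  intro x hx
  rw [Subgroup.mem_bot]
  obtain ⟨B₀, hB₀⟩ := hne
  have hne' : 𝒜.Nonempty := ⟨B₀, hB₀⟩
  have key : (⟨x, hx⟩ : V) ^ (𝒜.card - 1) = 1 := by
    have h1 := count_identity A V 𝒜 hne' hprop hpart ⟨x, hx⟩
    have h2 : ∀ B ∈ 𝒜, ∏ g ∈ Finset.univ.filter (fun g => g ∈ B), F V (⟨x, hx⟩ : V) g = 1 := by
      intro B hB
      have h3 := N_mem_centralizer V B ((hprop B hB).le.trans hAV) ⟨x, hx⟩
      rw [hcon B hB, Subgroup.mem_bot] at h3
      exact Subtype.ext h3
    have h4 : ∏ g ∈ Finset.univ.filter (fun g => g ∈ A), F V (⟨x, hx⟩ : V) g = 1 := by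
      have h3 := N_mem_centralizer V A hAV ⟨x, hx⟩
      have h5 : V ⊓ Subgroup.centralizer (A : Set G) ≤ V ⊓ Subgroup.centralizer (B₀ : Set G) :=
        inf_le_inf_left V (Subgroup.centralizer_le (hprop B₀ hB₀).le)
      have h6 := h5 h3
      rw [hcon B₀ hB₀, Subgroup.mem_bot] at h6
      exact Subtype.ext h6
    rw [Finset.prod_congr rfl h2, Finset.prod_const_one, h4, one_mul] at h1
    exact h1.symm
  have ho1 : orderOf (⟨x, hx⟩ : V) ∣ 𝒜.card - 1 := orderOf_dvd_of_pow_eq_one key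
  have ho2 : orderOf (⟨x, hx⟩ : V) ∣ Nat.card V := orderOf_dvd_natCard _
  have ho3 : orderOf (⟨x, hx⟩ : V) = 1 := Nat.eq_one_of_dvd_coprimes hk ho1 ho2
  have := orderOf_eq_one_iff.mp ho3
  exact congrArg Subtype.val this

end Cfsg.Agent.S3733
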