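import Cfsg.Statements.S3734
import Mathlib
import Cfsg.Agent.Lib.Helper20.AbGen
import Cfsg.Agent.Lib.Helper20.CosetFix
import Cfsg.Agent.Lib.Helper10.Coprime

set_option autoImplicit false
open Cfsg

namespace Cfsg.Agent.S3734

open scoped commutatorElement
open Cfsg.Agent.Lib.Helper20

theorem gen {X : Type*} [Group X] [Finite X] (A G : Subgroup X) (hAab : IsMulCommutative A)
    (hAG : A ≤ Subgroup.normalizer (G : Set X)) (hcop : (Nat.card A).Coprime (Nat.card G)) :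
    G ≤ ⨆ B ∈ {B : Subgroup X | B ≤ A ∧ ∃ a ∈ A, B ⊔ Subgroup.zpowers a = A},
      G ⊓ Subgroup.centralizer (B : Set X) := by
  let φ : ↥A →* MulAut ↥G := G.normalizerMonoidHom.comp (Subgroup.inclusion hAG)
  have hφ : ∀ (a : ↥A) (x : ↥G), ((φ a x : ↥G) : X) = a * x * (a : X)⁻¹ := fun a x => rfl
  have key := AbGen.gen_abs _ ↥G ↥A φ rfl hcop
  intro g hg
  have hg' : (⟨g, hg⟩ : ↥G) ∈ ⨆ B ∈ {B : Subgroup ↥A | ∃ a : ↥A, B ⊔ Subgroup.zpowers a = ⊤},
      AbGen.fix φ B := by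
    rw [key]; trivial
  have hmap : (⨆ B ∈ {B : Subgroup ↥A | ∃ a : ↥A, B ⊔ Subgroup.zpowers a = ⊤},
      AbGen.fix φ B).map G.subtype ≤
      ⨆ B ∈ {B : Subgroup X | B ≤ A ∧ ∃ a ∈ A, B ⊔ Subgroup.zpowers a = A},
        G ⊓ Subgroup.centralizer (B : Set X) := by
    rw [Subgroup.map_iSup]
    apply iSup_le; intro B'
    rw [Subgroup.map_iSup]
    apply iSup_le; intro hB'
    obtain ⟨a', ha'⟩ := hB'
    have hmem : B'.map A.subtype ∈
        {B : Subgroup X | B ≤ A ∧ ∃ a ∈ A, B ⊔ Subgroup.zpowers a = A} := by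
      refine ⟨Subgroup.map_subtype_le _, (a' : X), a'.2, ?_⟩
      have h1 := congrArg (Subgroup.map A.subtype) ha'
      rw [Subgroup.map_sup, MonoidHom.map_zpowers] at h1
      rw [← MonoidHom.range_eq_map, Subgroup.range_subtype] at h1
      exact h1
    refine le_trans ?_ (le_biSup (fun B : Subgroup X => G ⊓ Subgroup.centralizer (B : Set X)) hmem)
    rintro _ ⟨y, hy, rfl⟩
    refine Subgroup.mem_inf.2 ⟨y.2, Subgroup.mem_centralizer_iff.2 ?_⟩
    intro h hh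
    obtain ⟨b, hb, rfl⟩ := Subgroup.mem_map.1 hh
    have h1 : φ b y = y := hy b hb
    have h2 : ((φ b y : ↥G) : X) = (y : X) := congrArg Subtype.val h1
    exact mul_inv_eq_iff_eq_mul.1 ((hφ b y).symm.trans h2)
  exact hmap (Subgroup.mem_map_of_mem G.subtype hg')

theorem result {X : Type*} [Group X] [Finite X] (A G : Subgroup X) (hAab : IsMulCommutative A) (hAG : A ≤ Subgroup.normalizer (G : Set X)) (hcop : (Nat.card A).Coprime (Nat.card G)) : (⨆ B ∈ {B : Subgroup X | B ≤ A ∧ ∃ a ∈ A, B ⊔ Subgroup.zpowers a = A}, G ⊓ Subgroup.centralizer (B : Set X)) = G ∧ (⨆ B ∈ {B : Subgroup X | B ≤ A ∧ ∃ a ∈ A, B ⊔ Subgroup.zpowers a = A}, ⁅G ⊓ Subgroup.centralizer (B : Set X), A⁆) = ⁅G, A⁆ := by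
  have hgen := gen A G hAab hAG hcop
  refine ⟨le_antisymm (iSup₂_le fun B _ => inf_le_left) hgen, ?_⟩
  apply le_antisymm (iSup₂_le fun B _ => Subgroup.commutator_mono inf_le_left le_rfl)
  have hab : ∀ a ∈ A, ∀ b ∈ A, a * b = b * a := by
    intro a ha b hb
    exact congrArg Subtype.val (hAab.is_comm.comm ⟨a, ha⟩ ⟨b, hb⟩)
  obtain ⟨M, hM⟩ : ∃ M, M = ⨆ B ∈ {B : Subgroup X | B ≤ A ∧ ∃ a ∈ A, B ⊔ Subgroup.zpowers a = A},
    ⁅G ⊓ Subgroup.centralizer (B : Set X), A⁆ := ⟨_, rfl⟩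
  rw [← hM]
  have hle : ∀ B ∈ {B : Subgroup X | B ≤ A ∧ ∃ a ∈ A, B ⊔ Subgroup.zpowers a = A},
      ⁅G ⊓ Subgroup.centralizer (B : Set X), A⁆ ≤ M := by
    intro B hB
    rw [hM]
    exact le_biSup (fun B : Subgroup X => ⁅G ⊓ Subgroup.centralizer (B : Set X), A⁆) hB
  have hconjG : ∀ a ∈ A, ∀ x ∈ G, a * x * a⁻¹ ∈ G := fun a ha x hx =>
    (Subgroup.mem_normalizer_iff.1 (hAG ha) x).1 hx
  have hAGB : ∀ B : Subgroup X, B ≤ A →
      A ≤ Subgroup.normalizer ((G ⊓ Subgroup.centralizer (B : Set X) : Subgroup X) : Set X) := by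
    intro B hBA a ha
    apply Cfsg.Agent.Lib.Helper10.Coprime.mem_normalizer_of_conj_mem
    intro x hx
    obtain ⟨hxG, hxc⟩ := Subgroup.mem_inf.1 hx
    refine Subgroup.mem_inf.2 ⟨hconjG a ha x hxG, Subgroup.mem_centralizer_iff.2 ?_⟩
    intro b hb
    have cb : Commute b a := hab b (hBA hb) a ha
    have cx : Commute b x := Subgroup.mem_centralizer_iff.1 hxc b hb
    exact ((cb.mul_right cx).mul_right cb.inv_right).eq
  have hcopB : ∀ B : Subgroup X,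
      (Nat.card A).Coprime (Nat.card ↥(G ⊓ Subgroup.centralizer (B : Set X))) := fun B =>
    Nat.Coprime.coprime_dvd_right (Subgroup.card_dvd_of_le inf_le_left) hcop
  have hstepA : ∀ c ∈ G ⊓ Subgroup.centralizer (A : Set X),
      c ∈ Subgroup.normalizer (M : Set X) := by
    intro c hc
    obtain ⟨hcG, hcA⟩ := Subgroup.mem_inf.1 hc
    apply Cfsg.Agent.Lib.Helper10.Coprime.mem_normalizer_of_conj_mem
    have h1 : M ≤ M.comap (MulAut.conj c).toMonoidHom := by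
      rw [hM]
      apply iSup₂_le
      intro B hB
      rw [← hM]
      intro y hy
      have hcB : c ∈ G ⊓ Subgroup.centralizer (B : Set X) :=
        Subgroup.mem_inf.2 ⟨hcG, Subgroup.centralizer_le hB.1 hcA⟩
      have h2 := Cfsg.Agent.Lib.Helper10.Coprime.le_normalizer_commutator_left
        (G ⊓ Subgroup.centralizer (B : Set X)) A hcB
      have h3 : c * y * c⁻¹ ∈ ⁅G ⊓ Subgroup.centralizer (B : Set X), A⁆ :=
        (Subgroup.mem_normalizer_iff.1 h2 y).1 hy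
      exact hle B hB h3
    intro s hs
    exact h1 hs
  have hstepB : ∀ B ∈ {B : Subgroup X | B ≤ A ∧ ∃ a ∈ A, B ⊔ Subgroup.zpowers a = A},
      G ⊓ Subgroup.centralizer (B : Set X) ≤ Subgroup.normalizer (M : Set X) := by
    intro B hB x hx
    obtain ⟨c, hc, k, hk, rfl⟩ := CosetFix.coprime_factor A
      (G ⊓ Subgroup.centralizer (B : Set X)) hab (hAGB B hB.1) (hcopB B) x hx
    have hc' : c ∈ G ⊓ Subgroup.centralizer (A : Set X) :=
      Subgroup.mem_inf.2 ⟨(Subgroup.mem_inf.1 (Subgroup.mem_inf.1 hc).1).1, (Subgroup.mem_inf.1 hc).2⟩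
    exact Subgroup.mul_mem _ (hstepA c hc') (Subgroup.le_normalizer (hle B hB hk))
  obtain ⟨T, hT⟩ : ∃ T : Subgroup X, ∀ g, g ∈ T ↔
      (g ∈ Subgroup.normalizer (M : Set X) ∧ ∀ a ∈ A, ⁅g, a⁆ ∈ M) := by
    refine ⟨{ carrier := {g | g ∈ Subgroup.normalizer (M : Set X) ∧ ∀ a ∈ A, ⁅g, a⁆ ∈ M}
              one_mem' := ⟨Subgroup.one_mem _, fun a _ => by
                rw [commutatorElement_one_left]; exact M.one_mem⟩
              mul_mem' := ?_
              inv_mem' := ?_ }, fun g => Iff.rfl⟩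
    · rintro g h ⟨hg1, hg2⟩ ⟨hh1, hh2⟩
      refine ⟨Subgroup.mul_mem _ hg1 hh1, fun a ha => ?_⟩
      have h1 : ⁅g * h, a⁆ = g * ⁅h, a⁆ * g⁻¹ * ⁅g, a⁆ := by
        simp only [commutatorElement_def]; group
      rw [h1]
      exact M.mul_mem ((Subgroup.mem_normalizer_iff.1 hg1 _).1 (hh2 a ha)) (hg2 a ha)
    · rintro g ⟨hg1, hg2⟩
      refine ⟨Subgroup.inv_mem _ hg1, fun a ha => ?_⟩
      have h1 : ⁅g⁻¹, a⁆ = g⁻¹ * ⁅g, a⁆⁻¹ * g⁻¹⁻¹ := by
        simp only [commutatorElement_def]; group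
      rw [h1]
      exact (Subgroup.mem_normalizer_iff.1 (Subgroup.inv_mem _ hg1) _).1 (M.inv_mem (hg2 a ha))
  have hGT : G ≤ T := by
    refine hgen.trans (iSup₂_le ?_)
    intro B hB x hx
    rw [hT]
    refine ⟨hstepB B hB hx, fun a ha => ?_⟩
    exact hle B hB (Subgroup.commutator_mem_commutator hx ha)
  rw [Subgroup.commutator_le]
  intro g hg a ha
  exact ((hT g).1 (hGT hg)).2 a ha

end Cfsg.Agent.S3734
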