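import Cfsg.Statements.S3735
import Mathlib

set_option autoImplicit false
open Cfsg

namespace Cfsg.Agent.S3735

theorem le_normalizer_sSup {G : Type*} [Group G] (A : Subgroup G) (S : Set (Subgroup G))
    (h : ∀ M ∈ S, A ≤ Subgroup.normalizer (M : Set G)) :
    A ≤ Subgroup.normalizer ((sSup S : Subgroup G) : Set G) := by
  rw [sSup_eq_iSup']
  exact (le_iInf (fun M : S => h M.1 M.2)).trans (Subgroup.iInf_normalizer_le_normalizer_iSup _)

theorem map_conj_map_conj {G : Type*} [Group G] (M : Subgroup G) (a b : G) :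
    (M.map (MulAut.conj b : G →* G)).map (MulAut.conj a : G →* G)
      = M.map (MulAut.conj (a * b) : G →* G) := by
  rw [Subgroup.map_map]
  congr 1
  ext x
  simp [mul_assoc]

theorem map_conj_one {G : Type*} [Group G] (M : Subgroup G) :
    M.map (MulAut.conj (1 : G) : G →* G) = M := by
  ext x
  simp

theorem inv_map_conj {G : Type*} [Group G] {A K : Subgroup G} {h : G}
    (hh : h ∈ Subgroup.normalizer (A : Set G)) (hK : A ≤ Subgroup.normalizer (K : Set G)) :
    A ≤ Subgroup.normalizer ((K.map (MulAut.conj h : G →* G) : Subgroup G) : Set G) := by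
  have h1 : A.map (MulAut.conj h : G →* G) = A := Subgroup.mem_normalizer_iff_map_conj_eq.mp hh
  calc A = A.map (MulAut.conj h : G →* G) := h1.symm
    _ ≤ (Subgroup.normalizer (K : Set G)).map (MulAut.conj h : G →* G) := Subgroup.map_mono hK
    _ ≤ Subgroup.normalizer ((K.map (MulAut.conj h : G →* G) : Subgroup G) : Set G) :=
      Subgroup.le_normalizer_map _

theorem comm_of_mem {G : Type*} [Group G] {V : Subgroup G} (hVab : IsMulCommutative V) {x y : G}
    (hx : x ∈ V) (hy : y ∈ V) : x * y = y * x := by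
  have := hVab.is_comm.comm ⟨x, hx⟩ ⟨y, hy⟩
  exact congrArg Subtype.val this

theorem result {G : Type*} [Group G] [Finite G] (H A V : Subgroup G) (hVab : IsMulCommutative V) (hHV : H ≤ Subgroup.normalizer (V : Set G)) (hAH : A ≤ H) (hAn : H ≤ Subgroup.normalizer (A : Set G)) (hss : ∀ U : Subgroup G, U ≤ V → H ≤ Subgroup.normalizer (U : Set G) → ∃ W : Subgroup G, W ≤ V ∧ H ≤ Subgroup.normalizer (W : Set G) ∧ U ⊓ W = ⊥ ∧ U ⊔ W = V) (U : Subgroup G) (hUV : U ≤ V) (hAU : A ≤ Subgroup.normalizer (U : Set G)) : ∃ W : Subgroup G, W ≤ V ∧ A ≤ Subgroup.normalizer (W : Set G) ∧ U ⊓ W = ⊥ ∧ U ⊔ W = V := by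
  classical
  obtain ⟨P, hPdef⟩ : ∃ P : Subgroup G → Prop, P = fun K =>
      K ≤ V ∧ A ≤ Subgroup.normalizer (K : Set G) ∧ K ≠ ⊥ := ⟨_, rfl⟩
  have hPiff : ∀ K, P K ↔ (K ≤ V ∧ A ≤ Subgroup.normalizer (K : Set G) ∧ K ≠ ⊥) := by
    intro K
    rw [hPdef]
  have hPconj : ∀ h ∈ H, ∀ K, P K → P (K.map (MulAut.conj h : G →* G)) := by
    intro h hh K hK
    rw [hPiff] at hK ⊢
    refine ⟨?_, inv_map_conj (hAn hh) hK.2.1, ?_⟩
    · have h1 : V.map (MulAut.conj h : G →* G) = V := Subgroup.mem_normalizer_iff_map_conj_eq.mp (hHV hh)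
      calc K.map (MulAut.conj h : G →* G) ≤ V.map (MulAut.conj h : G →* G) := Subgroup.map_mono hK.1
        _ = V := h1
    · intro hb
      apply hK.2.2
      exact (Subgroup.map_eq_bot_iff_of_injective K (MulAut.conj h).injective).mp hb
  have hminconj : ∀ h ∈ H, ∀ M, Minimal P M → Minimal P (M.map (MulAut.conj h : G →* G)) := by
    intro h hh M hM
    refine ⟨hPconj h hh M hM.prop, ?_⟩
    intro K hK hKM
    have h1 : K.map (MulAut.conj h⁻¹ : G →* G) ≤ M := by
      have := Subgroup.map_mono (f := (MulAut.conj h⁻¹ : G →* G)) hKM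
      rw [map_conj_map_conj, inv_mul_cancel, map_conj_one] at this
      exact this
    have h2 := hM.le_of_le (hPconj h⁻¹ (H.inv_mem hh) K hK) h1
    have h3 := Subgroup.map_mono (f := (MulAut.conj h : G →* G)) h2
    rw [map_conj_map_conj, mul_inv_cancel, map_conj_one] at h3
    exact h3
  obtain ⟨S, hSdef⟩ : ∃ S : Subgroup G, S = sSup {M | Minimal P M} := ⟨_, rfl⟩
  have hSV : S ≤ V := by
    rw [hSdef]
    exact sSup_le (fun M hM => ((hPiff M).mp hM.prop).1)
  have hSkey : ∀ h ∈ H, S ≤ S.comap (MulAut.conj h : G →* G) := by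
    intro h hh
    rw [hSdef]
    apply sSup_le
    intro M hM
    rw [← Subgroup.map_le_iff_le_comap]
    exact le_sSup (hminconj h hh M hM)
  have hSH : H ≤ Subgroup.normalizer (S : Set G) := by
    intro h hh
    rw [Subgroup.mem_normalizer_iff]
    intro x
    constructor
    · intro hx
      have := hSkey h hh hx
      simpa using this
    · intro hx
      have := hSkey h⁻¹ (H.inv_mem hh) hx
      simpa [mul_assoc] using this
  obtain ⟨T, hTV, hTH, hST, hSTV⟩ := hss S hSV hSH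
  have hTbot : T = ⊥ := by
    by_contra hT
    have hPT : P T := (hPiff T).mpr ⟨hTV, hAH.trans hTH, hT⟩
    obtain ⟨M, hMT, hM⟩ := exists_minimal_le_of_wellFoundedLT P T hPT
    have hMS : M ≤ S := by
      rw [hSdef]
      exact le_sSup hM
    have h1 : M ≤ S ⊓ T := le_inf hMS hMT
    rw [hST] at h1
    exact ((hPiff M).mp hM.prop).2.2 (le_bot_iff.mp h1)
  have hSeq : S = V := by rw [← hSTV, hTbot, sup_bot_eq]
  obtain ⟨Q, hQdef⟩ : ∃ Q : Subgroup G → Prop, Q = fun W =>
      W ≤ V ∧ A ≤ Subgroup.normalizer (W : Set G) ∧ U ⊓ W = ⊥ := ⟨_, rfl⟩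
  have hQiff : ∀ W, Q W ↔ (W ≤ V ∧ A ≤ Subgroup.normalizer (W : Set G) ∧ U ⊓ W = ⊥) := by
    intro W
    rw [hQdef]
  have hQbot : Q ⊥ := by
    rw [hQiff]
    refine ⟨bot_le, ?_, inf_bot_eq _⟩
    intro a _
    rw [Subgroup.mem_normalizer_iff]
    intro x
    simp
  obtain ⟨W, -, hW⟩ := exists_maximal_ge_of_wellFoundedGT Q ⊥ hQbot
  have hWQ := (hQiff W).mp hW.prop
  refine ⟨W, hWQ.1, hWQ.2.1, hWQ.2.2, ?_⟩
  by_contra hne
  have hUWV : U ⊔ W ≤ V := sup_le hUV hWQ.1
  have hex : ∃ M, Minimal P M ∧ ¬ M ≤ U ⊔ W := by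
    by_contra hcon
    push Not at hcon
    apply hne
    apply le_antisymm hUWV
    rw [← hSeq, hSdef]
    exact sSup_le (fun M hM => hcon M hM)
  obtain ⟨M, hM, hMle⟩ := hex
  have hMP := (hPiff M).mp hM.prop
  have hMint : M ⊓ (U ⊔ W) = ⊥ := by
    by_contra hb
    have hP' : P (M ⊓ (U ⊔ W)) := by
      rw [hPiff]
      refine ⟨inf_le_left.trans hMP.1, ?_, hb⟩
      exact (le_inf hMP.2.1 ((le_inf hAU hWQ.2.1).trans
        (Subgroup.normalizer_inf_normalizer_le_normalizer_sup U W))).trans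
        Subgroup.inf_normalizer_le_normalizer_inf
    have h1 := hM.le_of_le hP' inf_le_left
    exact hMle (h1.trans inf_le_right)
  have hQ' : Q (W ⊔ M) := by
    rw [hQiff]
    refine ⟨sup_le hWQ.1 hMP.1, ?_, ?_⟩
    · exact (le_inf hWQ.2.1 hMP.2.1).trans
        (Subgroup.normalizer_inf_normalizer_le_normalizer_sup W M)
    · rw [eq_bot_iff]
      rintro x ⟨hxU, hxWM⟩
      have hWM : W ≤ Subgroup.normalizer (M : Set G) := by
        refine le_trans ?_ (Subgroup.centralizer_le_normalizer (M : Set G))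
        intro w hw
        rw [Subgroup.mem_centralizer_iff]
        intro m hm
        exact comm_of_mem hVab (hMP.1 hm) (hWQ.1 hw)
      have hxWM' : x ∈ ((W ⊔ M : Subgroup G) : Set G) := hxWM
      rw [Subgroup.coe_mul_of_left_le_normalizer_right W M hWM] at hxWM'
      obtain ⟨w, hw, m, hm, rfl⟩ := hxWM'
      have hm' : m ∈ U ⊔ W := by
        have h1 : m = w⁻¹ * (w * m) := by group
        rw [h1]
        exact (U ⊔ W).mul_mem ((U ⊔ W).inv_mem ((le_sup_right : W ≤ U ⊔ W) hw))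
          ((le_sup_left : U ≤ U ⊔ W) hxU)
      have hm1 : m = 1 := by
        have h1 : m ∈ M ⊓ (U ⊔ W) := ⟨hm, hm'⟩
        rw [hMint] at h1
        exact h1
      subst hm1
      have h2 : w * 1 ∈ U ⊓ W := ⟨hxU, by simpa using hw⟩
      rw [hWQ.2.2] at h2
      exact h2
  have h3 := hW.le_of_ge hQ' le_sup_left
  exact hMle ((le_sup_right.trans h3).trans le_sup_right)

end Cfsg.Agent.S3735
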