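import Cfsg.Statements.S3736
import Mathlib
import Cfsg.Agent.Lib.Helper20.Omega
import Cfsg.Agent.Lib.Helper20.CoprimeAb
import Cfsg.Agent.Lib.Helper9.Coprime
import Cfsg.Agent.Lib.Helper10.Coprime

set_option autoImplicit false
open Cfsg

namespace Cfsg.Agent.S3736

open scoped commutatorElement
open Cfsg.Agent.Lib.Helper20.Omega

theorem result {X : Type*} [Group X] [Finite X] {p : ℕ} [Fact p.Prime] (B A P : Subgroup X) (hP : IsPGroup p P) (hBP : B ≤ Subgroup.normalizer (P : Set X)) (hAB : A ≤ B) (hAn : B ≤ Subgroup.normalizer (A : Set X)) (hAp : (Nat.card A).Coprime p) (hnt : ⁅P, A⁆ ≠ ⊥) (hmin : ∀ U : Subgroup X, U < P → B ≤ Subgroup.normalizer (U : Set X) → ⁅U, A⁆ = ⊥) : ⁅P, A⁆ = P ∧ (Cfsg.IsElementaryAbelian p P ∨ Cfsg.IsSpecial p ↥P) ∧ (∀ U : Subgroup X, (frattini ↥P).map P.subtype ≤ U → U ≤ P → B ≤ Subgroup.normalizer (U : Set X) → U = (frattini ↥P).map P.subtype ∨ U = P) ∧ (p ≠ 2 → ∀ x ∈ P, x ^ p = 1) := by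
  have hp : p.Prime := Fact.out
  have hAP : A ≤ Subgroup.normalizer (P : Set X) := hAB.trans hBP
  have hconjP : ∀ b ∈ B, ∀ x ∈ P, b * x * b⁻¹ ∈ P := fun b hb x hx =>
    (Subgroup.mem_normalizer_iff.1 (hBP hb) x).1 hx
  have hcopa : ∀ a ∈ A, (orderOf a).Coprime p := by
    intro a ha
    have h1 : orderOf a ∣ Nat.card A := by
      have := orderOf_dvd_natCard (⟨a, ha⟩ : ↥A)
      rwa [Subgroup.orderOf_mk] at this
    exact Nat.Coprime.coprime_dvd_left h1 hAp
  have hcomle : ⁅P, A⁆ ≤ P := by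
    rw [Subgroup.commutator_le]
    intro x hx a ha
    rw [commutatorElement_def]
    have h1 : a * x⁻¹ * a⁻¹ ∈ P := hconjP a (hAB ha) _ (P.inv_mem hx)
    have h2 : x * a * x⁻¹ * a⁻¹ = x * (a * x⁻¹ * a⁻¹) := by group
    rw [h2]; exact P.mul_mem hx h1
  have hS1 : ⁅P, A⁆ = P := by
    by_contra hne
    have hlt : ⁅P, A⁆ < P := lt_of_le_of_ne hcomle hne
    have hBn : B ≤ Subgroup.normalizer ((⁅P, A⁆ : Subgroup X) : Set X) := fun b hb =>
      Cfsg.Agent.Lib.Helper9.mem_normalizer_commutator (hBP hb) (hAn hb)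
    have h1 := hmin _ hlt hBn
    apply hnt
    rw [Subgroup.commutator_eq_bot_iff_le_centralizer]
    intro x hx
    rw [Subgroup.mem_centralizer_iff]
    intro a ha
    have h2 : ∀ y ∈ P, a * ⁅y, a⁆ = ⁅y, a⁆ * a := by
      intro y hy
      have h3 : ⁅y, a⁆ ∈ ⁅P, A⁆ := Subgroup.commutator_mem_commutator hy ha
      have h4 := (Subgroup.commutator_eq_bot_iff_le_centralizer.1 h1) h3
      exact (Subgroup.mem_centralizer_iff.1 h4 a ha)
    exact (Cfsg.Agent.Lib.Helper9.commute_of_commute_commutator hP (hcopa a ha) (hAP ha) h2 x hx)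
  obtain ⟨D, hD⟩ : ∃ D, D = P ⊓ Subgroup.centralizer (A : Set X) := ⟨_, rfl⟩
  have hDP : D ≤ P := by rw [hD]; exact inf_le_left
  have hDc : ∀ x ∈ D, ∀ a ∈ A, a * x = x * a := by
    intro x hx a ha
    rw [hD] at hx
    exact Subgroup.mem_centralizer_iff.1 (Subgroup.mem_inf.1 hx).2 a ha
  have hinv : ∀ U : Subgroup X, U ≤ P → B ≤ Subgroup.normalizer (U : Set X) → U = P ∨ U ≤ D := by
    intro U hUP hBU
    by_cases hU : U = P
    · exact Or.inl hU
    · right
      have h1 := hmin U (lt_of_le_of_ne hUP hU) hBU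
      rw [Subgroup.commutator_eq_bot_iff_le_centralizer] at h1
      rw [hD]
      exact le_inf hUP h1
  have hP1 : P ≠ ⊥ := by
    intro h
    apply hnt
    rw [eq_bot_iff]
    calc ⁅P, A⁆ ≤ P := hcomle
      _ = ⊥ := h
  obtain ⟨Φ, hΦ⟩ : ∃ Φ, Φ = frat P := ⟨_, rfl⟩
  have hΦP : Φ ≤ P := by rw [hΦ]; exact frat_le P
  have hΦne : Φ ≠ P := by rw [hΦ]; exact frat_ne hP1
  have hBΦ : B ≤ Subgroup.normalizer (Φ : Set X) := by
    intro b hb
    apply Cfsg.Agent.Lib.Helper10.Coprime.mem_normalizer_of_conj_mem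
    intro t ht
    rw [hΦ] at ht ⊢
    exact conj_mem_frat (hBP hb) ht
  have hΦD : Φ ≤ D := (hinv Φ hΦP hBΦ).resolve_left hΦne
  have hPA : P ≤ ⁅P, A⁆ := hS1.ge
  have hK : ∀ M : Subgroup X, M ≤ P → ⁅P, P⁆ ≤ M → D ≤ M := by
    intro M hMP hPM x hx
    apply Cfsg.Agent.Lib.Helper20.CoprimeAb.mem_of_fixed_mod A P M hP hAP hMP hPM hPA hAp x
      (hDP hx)
    intro a ha
    have h1 : a * x * a⁻¹ = x := by rw [hDc x hx a ha]; group
    rw [h1, inv_mul_cancel]
    exact M.one_mem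
  have hPPΦ : ⁅P, P⁆ ≤ Φ := by
    rw [Subgroup.commutator_le]
    intro x hx y hy
    rw [commutatorElement_def, hΦ]
    exact comm_mem_frat hP hx hy
  have hDΦ : D = Φ := le_antisymm (hK Φ hΦP hPPΦ) hΦD
  have h3 : ∀ U : Subgroup X, (frattini ↥P).map P.subtype ≤ U → U ≤ P →
      B ≤ Subgroup.normalizer (U : Set X) → U = (frattini ↥P).map P.subtype ∨ U = P := by
    intro U hΦU hUP hBU
    rcases hinv U hUP hBU with h | h
    · exact Or.inr h
    · left
      apply le_antisymm _ hΦU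
      rw [hDΦ, hΦ] at h
      exact h
  have hΦcA : Φ ≤ Subgroup.centralizer (A : Set X) := by
    rw [← hDΦ, hD]; exact inf_le_right
  have hΦA : ⁅A, Φ⁆ = ⊥ := by
    rw [Subgroup.commutator_comm, Subgroup.commutator_eq_bot_iff_le_centralizer]
    exact hΦcA
  have hΦPle : ⁅Φ, P⁆ ≤ Φ := by
    rw [Subgroup.commutator_le]
    intro t ht x hx
    rw [commutatorElement_def]
    have h1 : x * t⁻¹ * x⁻¹ ∈ Φ := by
      rw [hΦ] at ht ⊢; exact frat_conj_mem hx (Subgroup.inv_mem _ ht)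
    have h2 : t * x * t⁻¹ * x⁻¹ = t * (x * t⁻¹ * x⁻¹) := by group
    rw [h2]; exact Φ.mul_mem ht h1
  have hΦPA : ⁅⁅Φ, P⁆, A⁆ = ⊥ := by
    rw [Subgroup.commutator_eq_bot_iff_le_centralizer]
    exact hΦPle.trans hΦcA
  have hAΦP : ⁅⁅A, Φ⁆, P⁆ = ⊥ := by
    rw [hΦA]; exact Subgroup.commutator_bot_left P
  have hPAΦ : ⁅⁅P, A⁆, Φ⁆ = ⊥ := Subgroup.commutator_commutator_eq_bot_of_rotate hAΦP hΦPA
  rw [hS1] at hPAΦ
  have hΦZ : ∀ t ∈ Φ, ∀ x ∈ P, x * t = t * x := by
    intro t ht x hx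
    have h1 := Subgroup.commutator_eq_bot_iff_le_centralizer.1 hPAΦ hx
    exact (Subgroup.mem_centralizer_iff.1 h1 t ht).symm
  obtain ⟨Z, hZ⟩ : ∃ Z, Z = P ⊓ Subgroup.centralizer (P : Set X) := ⟨_, rfl⟩
  have hZP : Z ≤ P := by rw [hZ]; exact inf_le_left
  have hBZ : B ≤ Subgroup.normalizer (Z : Set X) := by
    intro b hb
    apply Cfsg.Agent.Lib.Helper10.Coprime.mem_normalizer_of_conj_mem
    intro z hz
    rw [hZ] at hz ⊢
    obtain ⟨hzP, hzc⟩ := Subgroup.mem_inf.1 hz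
    refine Subgroup.mem_inf.2 ⟨hconjP b hb z hzP, Subgroup.mem_centralizer_iff.2 ?_⟩
    intro y hy
    have h1 : b⁻¹ * y * b ∈ P := by
      have := hconjP b⁻¹ (B.inv_mem hb) y hy
      simpa using this
    have h2 := Subgroup.mem_centralizer_iff.1 hzc _ h1
    calc y * (b * z * b⁻¹) = b * ((b⁻¹ * y * b) * z) * b⁻¹ := by group
      _ = b * (z * (b⁻¹ * y * b)) * b⁻¹ := by rw [h2]
      _ = b * z * b⁻¹ * y := by group
  have hΦleZ : Φ ≤ Z := by
    intro t ht
    rw [hZ]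
    exact Subgroup.mem_inf.2 ⟨hΦP ht, Subgroup.mem_centralizer_iff.2 (fun x hx => hΦZ t ht x hx)⟩
  rcases hinv Z hZP hBZ with hZeq | hZD
  · have hab : ∀ x ∈ P, ∀ y ∈ P, x * y = y * x := by
      intro x hx y hy
      have hy' : y ∈ Z := by rw [hZeq]; exact hy
      rw [hZ] at hy'
      exact Subgroup.mem_centralizer_iff.1 (Subgroup.mem_inf.1 hy').2 x hx
    have hPP : ⁅P, P⁆ ≤ ⊥ := by
      rw [Subgroup.commutator_le]
      intro x hx y hy
      rw [Subgroup.mem_bot, commutatorElement_def, hab x hx y hy]; group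
    have hDbot : D ≤ ⊥ := hK ⊥ bot_le hPP
    have hΦbot : Φ = ⊥ := by rw [← hDΦ]; exact eq_bot_iff.2 hDbot
    have hexp : ∀ x ∈ P, x ^ p = 1 := by
      intro x hx
      have h1 : x ^ p ∈ Φ := by rw [hΦ]; exact pow_mem_frat hP hx
      rw [hΦbot, Subgroup.mem_bot] at h1
      exact h1
    refine ⟨hS1, Or.inl ⟨?_, hexp⟩, h3, fun _ => hexp⟩
    exact ⟨⟨fun x y => Subtype.ext (hab x x.2 y y.2)⟩⟩
  · have hZΦ : Z = Φ := le_antisymm (by rw [← hDΦ]; exact hZD) hΦleZ
    have hΦPP : Φ ≤ ⁅P, P⁆ := by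
      rw [← hDΦ]
      exact hK ⁅P, P⁆ (hPPΦ.trans hΦP) le_rfl
    have hPPeq : ⁅P, P⁆ = Φ := le_antisymm hPPΦ hΦPP
    have hcen : (Subgroup.center ↥P).map P.subtype = Z := by
      ext x
      rw [hZ]
      constructor
      · rintro ⟨z, hz, rfl⟩
        refine Subgroup.mem_inf.2 ⟨z.2, Subgroup.mem_centralizer_iff.2 ?_⟩
        intro y hy
        have := Subgroup.mem_center_iff.1 hz ⟨y, hy⟩
        exact congrArg Subtype.val this
      · intro hx
        obtain ⟨hxP, hxc⟩ := Subgroup.mem_inf.1 hx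
        refine ⟨⟨x, hxP⟩, Subgroup.mem_center_iff.2 ?_, rfl⟩
        intro y
        exact Subtype.ext (Subgroup.mem_centralizer_iff.1 hxc y y.2)
    have hfr : frattini ↥P = Subgroup.center ↥P := by
      apply Subgroup.map_injective P.subtype_injective
      rw [hcen, hZΦ, hΦ]; rfl
    have hcm : commutator ↥P = Subgroup.center ↥P := by
      apply Subgroup.map_injective P.subtype_injective
      rw [hcen, Subgroup.map_subtype_commutator, hPPeq, hZΦ]
    have h4 : p ≠ 2 → ∀ x ∈ P, x ^ p = 1 := by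
      intro hp2
      obtain ⟨Ω, hΩ⟩ : ∃ Ω, Ω = Subgroup.closure {x : X | x ∈ P ∧ x ^ p = 1} := ⟨_, rfl⟩
      have hΩP : Ω ≤ P := by
        rw [hΩ, Subgroup.closure_le]
        intro x hx; exact hx.1
      have hBΩ : B ≤ Subgroup.normalizer (Ω : Set X) := by
        intro b hb
        apply Cfsg.Agent.Lib.Helper10.Coprime.mem_normalizer_of_conj_mem
        intro s hs
        rw [hΩ] at hs ⊢
        have h1 : Subgroup.closure {x : X | x ∈ P ∧ x ^ p = 1} ≤
            (Subgroup.closure {x : X | x ∈ P ∧ x ^ p = 1}).comap (MulAut.conj b).toMonoidHom := by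
          rw [Subgroup.closure_le]
          intro x hx
          apply Subgroup.subset_closure
          show b * x * b⁻¹ ∈ P ∧ (b * x * b⁻¹) ^ p = 1
          refine ⟨hconjP b hb x hx.1, ?_⟩
          rw [conj_pow, hx.2]; group
        exact h1 hs
      have hΩeq : Ω = P := by
        rcases hinv Ω hΩP hBΩ with h | h
        · exact h
        · exfalso
          apply hnt
          rw [Subgroup.commutator_eq_bot_iff_le_centralizer]
          intro x hx
          rw [Subgroup.mem_centralizer_iff]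
          intro a ha
          have hex : expo p = p := by simp [expo, hp2]
          apply centralizes_of_omega a (hcopa a ha) _ P rfl hP (hAP ha) _ x hx
          intro y hy hyp
          rw [hex] at hyp
          have hyΩ : y ∈ Ω := by rw [hΩ]; exact Subgroup.subset_closure ⟨hy, hyp⟩
          exact hDc y (h hyΩ) a ha
      intro x hx
      have hxΩ : x ∈ Ω := by rw [hΩeq]; exact hx
      rw [hΩ] at hxΩ
      have key : ∀ y ∈ Subgroup.closure {x : X | x ∈ P ∧ x ^ p = 1}, y ∈ P ∧ y ^ p = 1 := by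
        intro y hy
        induction hy using Subgroup.closure_induction with
        | mem y hy => exact hy
        | one => exact ⟨P.one_mem, one_pow _⟩
        | mul u v _ _ hu hv =>
          refine ⟨P.mul_mem hu.1 hv.1, ?_⟩
          have hc : v * u * v⁻¹ * u⁻¹ ∈ Φ := by rw [hΦ]; exact comm_mem_frat hP hv.1 hu.1
          have e1 : Commute (v * u * v⁻¹ * u⁻¹) u := (hΦZ _ hc u hu.1).symm
          have e2 : Commute (v * u * v⁻¹ * u⁻¹) v := (hΦZ _ hc v hv.1).symm
          rw [mul_pow_class_two u v e1 e2 p, hu.2, hv.2, mul_one, mul_one]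
          have hcp : (v * u * v⁻¹ * u⁻¹) ^ p = 1 := by
            have h1 : v * u * v⁻¹ = (v * u * v⁻¹ * u⁻¹) * u := by group
            have h2 : (v * u * v⁻¹) ^ p = 1 := by rw [conj_pow, hu.2]; group
            rw [h1, e1.mul_pow, hu.2, mul_one] at h2
            exact h2
          have hdvd : p ∣ p.choose 2 :=
            hp.dvd_choose_self (by norm_num) (lt_of_le_of_ne hp.two_le (Ne.symm hp2))
          obtain ⟨m, hm⟩ := hdvd
          rw [hm, pow_mul, hcp, one_pow]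
        | inv u _ hu => exact ⟨P.inv_mem hu.1, by rw [inv_pow, hu.2, inv_one]⟩
      exact (key x hxΩ).2
    exact ⟨hS1, Or.inr ⟨hP, hfr, hcm⟩, h3, h4⟩

end Cfsg.Agent.S3736
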