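import Cfsg.Statements.S3737
import Mathlib
import Cfsg.Agent.S3736
import Cfsg.Agent.Lib.Helper20.Baer
import Cfsg.Agent.Lib.Helper9.Coprime
import Cfsg.Agent.Lib.Helper10.Coprime

set_option autoImplicit false
open Cfsg

namespace Cfsg.Agent.S3737

open scoped commutatorElement
open Cfsg.Agent.Lib.Helper20

theorem core {X : Type*} [Group X] [Finite X] {p : ℕ} [Fact p.Prime] (hp : p ≠ 2)
    (P Q G : Subgroup X) (hP : IsPGroup p P) (hQ : (Nat.card Q).Coprime p)
    (hPQ : P ≤ Subgroup.normalizer (Q : Set X))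
    (hPG : P ≤ Subgroup.normalizer (G : Set X)) (hQG : Q ≤ Subgroup.normalizer (G : Set X))
    (hcl : ∀ x y z : ↥G, z * (x * y * x⁻¹ * y⁻¹) = (x * y * x⁻¹ * y⁻¹) * z)
    (hexp : ∀ x ∈ G, x ^ p = 1)
    (hC : G ⊓ Subgroup.centralizer (P : Set X) ≤ Subgroup.centralizer (Q : Set X)) :
    Q ≤ Subgroup.centralizer (G : Set X) := by
  classical
  have hp' : p.Prime := Fact.out
  obtain ⟨h, hh⟩ : ∃ h, 2 * h = p + 1 := by
    rcases hp'.eq_two_or_odd' with h2 | hodd
    · exact absurd h2 hp
    · obtain ⟨k, hk⟩ := hodd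
      exact ⟨k + 1, by omega⟩
  have hcl' : Baer.Cl2 ↥G := fun x y z => hcl x y z
  have hh' : ∀ x y : ↥G, Baer.cm x y ^ (2 * h) = Baer.cm x y := by
    intro x y
    have h1 : Baer.cm x y ^ p = 1 := by
      apply Subtype.ext
      rw [Subgroup.coe_pow]
      exact hexp _ (Baer.cm x y).2
    rw [hh, pow_succ, h1, one_mul]
  letI inst : AddCommGroup ↥G := Baer.addCommGroup h hcl' hh'
  let ρ : ↥(Subgroup.normalizer (G : Set X)) →* AddMonoid.End ↥G :=
    { toFun := fun n =>
        { toFun := fun x => n • x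
          map_zero' := smul_one n
          map_add' := fun x y => Baer.map_add' h (MulDistribMulAction.toMonoidHom ↥G n) x y }
      map_one' := by
        apply AddMonoidHom.ext
        intro x
        exact one_smul _ x
      map_mul' := fun n m => by
        apply AddMonoidHom.ext
        intro x
        exact mul_smul n m x }
  have hρ : ∀ (n : ↥(Subgroup.normalizer (G : Set X))) (x : ↥G),
      ((ρ n x : ↥G) : X) = n * x * (n : X)⁻¹ := fun n x => rfl
  have hV : ∀ v : ↥G, p • v = 0 := by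
    intro v
    have h1 := Baer.nsmul_eq h hcl' hh' p v
    have h2 : v ^ p = 1 := by
      apply Subtype.ext
      rw [Subgroup.coe_pow]
      exact hexp v v.2
    rw [h2] at h1
    exact h1
  have hP' : IsPGroup p ↥(P.subgroupOf (Subgroup.normalizer (G : Set X))) := hP.comap_subtype
  have hQ' : (Nat.card ↥(Q.subgroupOf (Subgroup.normalizer (G : Set X)))).Coprime p := by
    rw [Nat.card_congr (Subgroup.subgroupOfEquivOfLe hQG).toEquiv]
    exact hQ
  have hPQ' : P.subgroupOf (Subgroup.normalizer (G : Set X)) ≤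
      Subgroup.normalizer ((Q.subgroupOf (Subgroup.normalizer (G : Set X)) : Subgroup _) : Set _) := by
    intro g hg
    rw [Subgroup.mem_normalizer_iff]
    intro a
    rw [Subgroup.mem_subgroupOf, Subgroup.mem_subgroupOf]
    exact Subgroup.mem_normalizer_iff.1 (hPQ (Subgroup.mem_subgroupOf.1 hg)) a
  have hC' : ∀ v : ↥G, (∀ g ∈ P.subgroupOf (Subgroup.normalizer (G : Set X)), ρ g v = v) →
      ∀ a ∈ Q.subgroupOf (Subgroup.normalizer (G : Set X)), ρ a v = v := by
    intro v hv a ha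
    have hvP : (v : X) ∈ G ⊓ Subgroup.centralizer (P : Set X) := by
      refine Subgroup.mem_inf.2 ⟨v.2, Subgroup.mem_centralizer_iff.2 ?_⟩
      intro g hg
      have h1 := hv ⟨g, hPG hg⟩ (Subgroup.mem_subgroupOf.2 hg)
      have h2 := congrArg Subtype.val h1
      rw [hρ] at h2
      exact mul_inv_eq_iff_eq_mul.1 h2
    have hvQ := Subgroup.mem_centralizer_iff.1 (hC hvP) a (Subgroup.mem_subgroupOf.1 ha)
    apply Subtype.ext
    rw [hρ]
    exact mul_inv_eq_iff_eq_mul.2 hvQ
  have key := Baer.abs_fixed hV ρ (P.subgroupOf (Subgroup.normalizer (G : Set X)))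
    (Q.subgroupOf (Subgroup.normalizer (G : Set X))) hP' hQ' hPQ' hC'
  intro a ha
  rw [Subgroup.mem_centralizer_iff]
  intro v hv
  have h1 := key ⟨a, hQG ha⟩ (Subgroup.mem_subgroupOf.2 ha) ⟨v, hv⟩
  have h2 := congrArg Subtype.val h1
  rw [hρ] at h2
  exact (mul_inv_eq_iff_eq_mul.1 h2).symm

theorem result {X : Type*} [Group X] [Finite X] {p : ℕ} [Fact p.Prime] (hp : p ≠ 2) (P Q G : Subgroup X) (hP : IsPGroup p P) (hQ : (Nat.card Q).Coprime p) (hPQ : P ≤ Subgroup.normalizer (Q : Set X)) (hG : IsPGroup p G) (hPG : P ≤ Subgroup.normalizer (G : Set X)) (hQG : Q ≤ Subgroup.normalizer (G : Set X)) (hC : G ⊓ Subgroup.centralizer (P : Set X) ≤ Subgroup.centralizer (Q : Set X)) : Q ≤ Subgroup.centralizer (G : Set X) := by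
  suffices H : ∀ n : ℕ, ∀ G : Subgroup X, Nat.card G = n → IsPGroup p G →
      P ≤ Subgroup.normalizer (G : Set X) → Q ≤ Subgroup.normalizer (G : Set X) →
      G ⊓ Subgroup.centralizer (P : Set X) ≤ Subgroup.centralizer (Q : Set X) →
      Q ≤ Subgroup.centralizer (G : Set X) from H _ G rfl hG hPG hQG hC
  intro n
  induction n using Nat.strong_induction_on with
  | _ n ih =>
    intro G hn hG hPG hQG hC
    by_contra hne
    have hnt : ⁅G, Q⁆ ≠ ⊥ := by
      intro h
      rw [Subgroup.commutator_eq_bot_iff_le_centralizer] at h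
      exact hne (Subgroup.le_centralizer_iff.1 h)
    have hBG : P ⊔ Q ≤ Subgroup.normalizer (G : Set X) := sup_le hPG hQG
    have hBQ : P ⊔ Q ≤ Subgroup.normalizer (Q : Set X) := sup_le hPQ Subgroup.le_normalizer
    have hmin : ∀ U : Subgroup X, U < G → P ⊔ Q ≤ Subgroup.normalizer (U : Set X) →
        ⁅U, Q⁆ = ⊥ := by
      intro U hU hBU
      rw [Subgroup.commutator_eq_bot_iff_le_centralizer]
      apply Subgroup.le_centralizer_iff.1
      have hcard : Nat.card U < n := by
        rw [← hn]; exact Cfsg.Agent.Lib.Helper9.card_lt_of_le_of_ne hU.le hU.ne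
      exact ih _ hcard U rfl (hG.to_le hU.le) (le_sup_left.trans hBU) (le_sup_right.trans hBU)
        ((inf_le_inf_right _ hU.le).trans hC)
    obtain ⟨_, hstr, _, hexp⟩ :=
      Cfsg.Agent.S3736.result (P ⊔ Q) Q G hG hBG le_sup_right hBQ hQ hnt hmin
    apply hne
    apply core hp P Q G hP hQ hPQ hPG hQG _ (hexp hp) hC
    intro x y z
    rcases hstr with ⟨hcomm, _⟩ | ⟨_, _, hcm⟩
    · exact hcomm.is_comm.comm _ _
    · have h1 : x * y * x⁻¹ * y⁻¹ ∈ Subgroup.center ↥G := by
        rw [← hcm]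
        exact Subgroup.commutator_mem_commutator (Subgroup.mem_top x) (Subgroup.mem_top y)
      exact Subgroup.mem_center_iff.1 h1 z

end Cfsg.Agent.S3737
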