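import Cfsg.Statements.S3739
import Mathlib
import Cfsg.Agent.Lib.Lead.Cores
import Cfsg.Agent.Lib.Helper4.Thompson
import Cfsg.Agent.Lib.Helper12.SylowBasic
import Cfsg.Agent.Lib.Helper20.CWQuad

set_option autoImplicit false
set_option linter.style.haveILetI false
open Cfsg
open Cfsg.Agent.Lib.Helper4.Thompson
open Cfsg.Agent.Lib.Helper20.CWQuad

namespace Cfsg.Agent.S3739

open scoped commutatorElement

theorem nil_center {Q : Type*} [Group Q] [hQ : Group.IsNilpotent Q] (N : Subgroup Q)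
    [hN : N.Normal] (hne : N ≠ ⊥) : ∃ z ∈ N, z ≠ 1 ∧ ∀ b : Q, b * z = z * b := by
  obtain ⟨n, hn⟩ := hQ.nilpotent'
  have key : ∀ k, (∃ a ∈ N, a ≠ 1 ∧ a ∈ Subgroup.upperCentralSeries Q k) →
      ∃ z ∈ N, z ≠ 1 ∧ ∀ b : Q, b * z = z * b := by
    intro k
    induction k with
    | zero =>
      rintro ⟨a, _, ha1, ha⟩
      rw [Subgroup.upperCentralSeries_zero, Subgroup.mem_bot] at ha
      exact absurd ha ha1
    | succ k ih =>
      rintro ⟨a, haN, ha1, ha⟩
      by_cases hc : ∃ a' ∈ N, a' ≠ 1 ∧ a' ∈ Subgroup.upperCentralSeries Q k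
      · exact ih hc
      · refine ⟨a, haN, ha1, fun b => ?_⟩
        have h1 : ⁅a, b⁆ ∈ Subgroup.upperCentralSeries Q k :=
          Subgroup.mem_upperCentralSeries_succ_iff.mp ha b
        have h2 : ⁅a, b⁆ ∈ N := by
          rw [commutatorElement_def]
          have h3 : b * a⁻¹ * b⁻¹ ∈ N := hN.conj_mem _ (N.inv_mem haN) b
          have h4 := N.mul_mem haN h3
          have e : a * b * a⁻¹ * b⁻¹ = a * (b * a⁻¹ * b⁻¹) := by group
          rw [e]; exact h4
        by_contra hne'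
        apply hc
        refine ⟨⁅a, b⁆, h2, ?_, h1⟩
        intro h
        apply hne'
        rw [commutatorElement_def] at h
        have e : b * a = (a * b * a⁻¹ * b⁻¹)⁻¹ * (a * b) := by group
        rw [e, h, inv_one, one_mul]
  obtain ⟨a, ha1⟩ := (Subgroup.ne_bot_iff_exists_ne_one).mp hne
  exact key n ⟨a, a.2, fun h => ha1 (Subtype.ext h), by rw [hn]; exact Subgroup.mem_top _⟩

theorem pgrp_central {G : Type*} [Group G] [Finite G] {p : ℕ} [hp : Fact p.Prime]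
    (P N : Subgroup G) (hP : IsPGroup p P) (hNP : N ≤ P)
    (hnorm : ∀ g ∈ P, ∀ n ∈ N, g * n * g⁻¹ ∈ N) (hN : N ≠ ⊥) :
    ∃ z ∈ N, orderOf z = p ∧ ∀ b ∈ P, b * z = z * b := by
  haveI : Group.IsNilpotent P := hP.isNilpotent
  haveI hN' : (N.subgroupOf P).Normal := by
    refine ⟨fun n hn g => ?_⟩
    rw [Subgroup.mem_subgroupOf] at hn ⊢
    exact hnorm g.1 g.2 n.1 hn
  have hne : N.subgroupOf P ≠ ⊥ := by
    intro h
    apply hN
    rw [eq_bot_iff]
    intro x hx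
    have : (⟨x, hNP hx⟩ : P) ∈ N.subgroupOf P := by rw [Subgroup.mem_subgroupOf]; exact hx
    rw [h, Subgroup.mem_bot] at this
    rw [Subgroup.mem_bot]
    exact congrArg Subtype.val this
  obtain ⟨z, hzN, hz1, hzc⟩ := nil_center (N.subgroupOf P) hne
  rw [Subgroup.mem_subgroupOf] at hzN
  have hz1' : (z : G) ≠ 1 := fun h => hz1 (Subtype.ext h)
  obtain ⟨j, hj⟩ := hP z
  have hj' : (z : G) ^ (p ^ j) = 1 := by simpa using congrArg Subtype.val hj
  obtain ⟨m, hm⟩ := (Nat.dvd_prime_pow hp.out).1 (orderOf_dvd_of_pow_eq_one hj')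
  have hm0 : m ≠ 0 := by
    intro h
    rw [h, pow_zero, orderOf_eq_one_iff] at hm
    exact hz1' hm.2
  have hpd : p ∣ orderOf (z : G) := by
    rw [hm.2]
    exact dvd_pow_self p hm0
  have hpos : orderOf (z : G) ≠ 0 := by
    rw [hm.2]
    exact pow_ne_zero _ hp.out.ne_zero
  refine ⟨(z : G) ^ (orderOf (z : G) / p), N.pow_mem hzN _, orderOf_pow_orderOf_div hpos hpd, ?_⟩
  · intro b hb
    have h1 : b * (z : G) = (z : G) * b := congrArg Subtype.val (hzc ⟨b, hb⟩)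
    have h2 : Commute b (z : G) := h1
    exact (h2.pow_right _).eq

theorem card_le_four {G : Type*} [Group G] [Finite G]
    (hno : ¬ ∃ E : Subgroup G, Cfsg.IsElementaryAbelian 2 E ∧ Nat.card E = 8)
    (E : Subgroup G) (hE : Cfsg.IsElementaryAbelian 2 E) : Nat.card E ≤ 4 := by
  by_contra h
  push Not at h
  apply hno
  have hE2 : IsPGroup 2 E := elab_isPGroup hE
  obtain ⟨n, hn⟩ := IsPGroup.iff_card.1 hE2
  have hn3 : 3 ≤ n := by
    by_contra h3
    push Not at h3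
    have : 2 ^ n ≤ 2 ^ 2 := Nat.pow_le_pow_right (by norm_num) (by omega)
    omega
  obtain ⟨H, hH⟩ := Sylow.exists_subgroup_card_pow_prime_of_le_card Nat.prime_two hE2 (n := 3)
    (by rw [hn]; exact Nat.pow_le_pow_right (by norm_num) hn3)
  refine ⟨H.map E.subtype, elab_mono (Subgroup.map_subtype_le H) hE, ?_⟩
  rw [Subgroup.card_map_of_injective E.subtype_injective, hH]
  norm_num

theorem mem_of_comm {G : Type*} [Group G] [Finite G]
    (h4 : ∀ E : Subgroup G, Cfsg.IsElementaryAbelian 2 E → Nat.card E ≤ 4)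
    {W : Subgroup G} (hW : Cfsg.IsElementaryAbelian 2 W) (hW4 : 4 ≤ Nat.card W)
    (t : G) (ht : t ^ 2 = 1) (hc : ∀ w ∈ W, w * t = t * w) : t ∈ W := by
  by_contra htn
  have hE : Cfsg.IsElementaryAbelian 2 (W ⊔ Subgroup.zpowers t) :=
    elab_sup hW (elab_zpowers ht) (by
      intro a ha b hb
      obtain ⟨k, rfl⟩ := Subgroup.mem_zpowers_iff.1 hb
      have : Commute a t := hc a ha
      exact (this.zpow_right k).eq)
  have hlt : Nat.card W < Nat.card (W ⊔ Subgroup.zpowers t : Subgroup G) := by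
    by_contra hle
    push Not at hle
    have := Subgroup.eq_of_le_of_card_ge (le_sup_left : W ≤ W ⊔ Subgroup.zpowers t) hle
    apply htn
    rw [this]
    exact Subgroup.mem_sup_right (Subgroup.mem_zpowers t)
  have := h4 _ hE
  omega

theorem fpf_card_two {G : Type*} [Group G] (d : G) (U : Subgroup G) (hU : Nat.card U = 2)
    (hd : ∀ u ∈ U, d * u * d⁻¹ ∈ U) : ∃ u ∈ U, u ≠ 1 ∧ d * u = u * d := by
  obtain ⟨y, hy1, hy2⟩ := (Nat.card_eq_two_iff' (1 : U)).1 hU
  have hy1' : (y : G) ≠ 1 := fun h => hy1 (Subtype.ext h)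
  have h1 : (⟨d * y * d⁻¹, hd y y.2⟩ : U) ≠ 1 := by
    intro h
    have := congrArg Subtype.val h
    simp at this
    exact hy1 this
  have h2 := hy2 _ h1
  have h3 : d * y * d⁻¹ = (y : G) := congrArg Subtype.val h2
  refine ⟨y, y.2, hy1', ?_⟩
  calc d * (y : G) = d * y * d⁻¹ * d := by group
    _ = y * d := by rw [h3]

theorem four_elts {G : Type*} [Group G] (W : Subgroup G) (h4 : Nat.card W = 4)
    (hexp : ∀ w ∈ W, w ^ 2 = 1) (a b : G) (ha : a ∈ W) (hb : b ∈ W) (ha1 : a ≠ 1) (hb1 : b ≠ 1)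
    (hab : a ≠ b) : ∀ y ∈ W, y = 1 ∨ y = a ∨ y = b ∨ y = a * b := by
  classical
  haveI : Finite W := Nat.finite_of_card_ne_zero (by rw [h4]; norm_num)
  have hainv : a⁻¹ = a := by
    have := hexp a ha
    rw [pow_two] at this
    exact inv_eq_of_mul_eq_one_left this
  have hsub : (({1, a, b, a * b} : Finset G) : Set G) ⊆ (W : Set G) := by
    intro x hx
    simp only [Finset.coe_insert, Finset.coe_singleton, Set.mem_insert_iff,
      Set.mem_singleton_iff] at hx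
    rcases hx with rfl | rfl | rfl | rfl
    · exact W.one_mem
    · exact ha
    · exact hb
    · exact W.mul_mem ha hb
  have h1 : b ∉ ({a * b} : Finset G) := by
    simp only [Finset.mem_singleton]
    intro h
    apply ha1
    have : 1 * b = a * b := by rw [one_mul]; exact h
    exact (mul_right_cancel this).symm
  have h2 : a ∉ ({b, a * b} : Finset G) := by
    simp only [Finset.mem_insert, Finset.mem_singleton]
    rintro (h | h)
    · exact hab h
    · apply hb1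
      have : a * 1 = a * b := by rw [mul_one]; exact h
      exact (mul_left_cancel this).symm
  have h3 : (1 : G) ∉ ({a, b, a * b} : Finset G) := by
    simp only [Finset.mem_insert, Finset.mem_singleton]
    rintro (h | h | h)
    · exact ha1 h.symm
    · exact hb1 h.symm
    · apply hab
      have hb' : b = a⁻¹ := eq_inv_of_mul_eq_one_right h.symm
      rw [hb', hainv]
  have hcard : ({1, a, b, a * b} : Finset G).card = 4 := by
    rw [Finset.card_insert_of_notMem h3, Finset.card_insert_of_notMem h2,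
      Finset.card_insert_of_notMem h1, Finset.card_singleton]
  have heq := Set.eq_of_subset_of_ncard_le hsub (by
    rw [Set.ncard_coe_finset, hcard, ← h4]
    exact (Nat.card_coe_set_eq (W : Set G)).ge) (Set.toFinite _)
  intro y hy
  have : y ∈ (({1, a, b, a * b} : Finset G) : Set G) := by rw [heq]; exact hy
  simpa using this

theorem cent_of_fix {G : Type*} [Group G] (W : Subgroup G) (hW4 : Nat.card W = 4)
    (hexp : ∀ w ∈ W, w ^ 2 = 1) (e : G) (he3 : e ^ 3 = 1) (hn : ∀ w ∈ W, e * w * e⁻¹ ∈ W)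
    (w₀ : G) (hw₀ : w₀ ∈ W) (hw₀1 : w₀ ≠ 1) (hfix : e * w₀ = w₀ * e) :
    ∀ w ∈ W, e * w = w * e := by
  intro x hx
  by_cases hx1 : x = 1
  · subst hx1; simp
  by_cases hxw : x = w₀
  · subst hxw; exact hfix
  have hall := four_elts W hW4 hexp w₀ x hw₀ hx hw₀1 hx1 (Ne.symm hxw)
  have hconj : e * w₀ * e⁻¹ = w₀ := by rw [hfix]; group
  rcases hall (e * x * e⁻¹) (hn x hx) with h | h | h | h
  · exact absurd (by simpa using h) hx1
  · exfalso
    apply hxw
    have : e * x * e⁻¹ = e * w₀ * e⁻¹ := by rw [h, hconj]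
    simpa using this
  · calc e * x = e * x * e⁻¹ * e := by group
      _ = x * e := by rw [h]
  · exfalso
    have h2 : e * (e * x * e⁻¹) * e⁻¹ = x := by
      rw [h]
      have : e * (w₀ * x) * e⁻¹ = (e * w₀ * e⁻¹) * (e * x * e⁻¹) := by group
      rw [this, hconj, h, ← mul_assoc]
      have := hexp w₀ hw₀
      rw [pow_two] at this
      rw [this, one_mul]
    have he3' : e * e * e = 1 := by
      have := he3
      rw [pow_succ, pow_two] at this
      exact this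
    have h3 : e * x * e⁻¹ = x := by
      have : e * (e * (e * x * e⁻¹) * e⁻¹) * e⁻¹ = (e * e * e) * x * (e * e * e)⁻¹ := by group
      rw [h2, he3'] at this
      rw [this]; group
    rw [h3] at h
    apply hw₀1
    have : w₀ * x = 1 * x := by rw [one_mul]; exact h.symm
    exact mul_right_cancel this

theorem inv_conj {G : Type*} [Group G] [Finite G] (K : Subgroup G) (x : G)
    (h : ∀ k ∈ K, x * k * x⁻¹ ∈ K) : ∀ k ∈ K, x⁻¹ * k * x ∈ K := by
  have hn : ∀ n : ℕ, ∀ k ∈ K, x ^ n * k * (x ^ n)⁻¹ ∈ K := by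
    intro n
    induction n with
    | zero => intro k hk; simpa using hk
    | succ n ih =>
      intro k hk
      have := h _ (ih k hk)
      have e : x ^ (n + 1) * k * (x ^ (n + 1))⁻¹ = x * (x ^ n * k * (x ^ n)⁻¹) * x⁻¹ := by
        rw [pow_succ']; group
      rw [e]; exact this
  have hinv : x⁻¹ = x ^ (orderOf x - 1) := by
    have hpos : 0 < orderOf x := orderOf_pos x
    have h1 : x ^ (orderOf x - 1) * x = 1 := by
      rw [← pow_succ, Nat.sub_add_cancel hpos, pow_orderOf_eq_one]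
    exact (eq_inv_of_mul_eq_one_left h1).symm
  intro k hk
  have := hn (orderOf x - 1) k hk
  rw [← hinv, inv_inv] at this
  exact this

theorem closure_conj {G : Type*} [Group G] (S : Set G) (x : G)
    (h : ∀ s ∈ S, x * s * x⁻¹ ∈ Subgroup.closure S) :
    ∀ m ∈ Subgroup.closure S, x * m * x⁻¹ ∈ Subgroup.closure S := by
  intro m hm
  induction hm using Subgroup.closure_induction with
  | mem s hs => exact h s hs
  | one => simp
  | mul a b _ _ iha ihb =>
    have : x * (a * b) * x⁻¹ = (x * a * x⁻¹) * (x * b * x⁻¹) := by group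
    rw [this]; exact Subgroup.mul_mem _ iha ihb
  | inv a _ iha =>
    have : x * a⁻¹ * x⁻¹ = (x * a * x⁻¹)⁻¹ := by group
    rw [this]; exact Subgroup.inv_mem _ iha

def pairSub {G : Type*} [Group G] (a : G) (ha : a * a = 1) : Subgroup G where
  carrier := {1, a}
  mul_mem' := by
    rintro x y (rfl | rfl) (rfl | rfl)
    · left; simp
    · right; simp
    · right; simp
    · left; exact ha
  one_mem' := Or.inl rfl
  inv_mem' := by
    rintro x (rfl | rfl)
    · left; simp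
    · right; exact inv_eq_of_mul_eq_one_left ha

theorem mem_pairSub {G : Type*} [Group G] (a : G) (ha : a * a = 1) (x : G) :
    x ∈ pairSub a ha ↔ x = 1 ∨ x = a := Iff.rfl

theorem card_pairSub {G : Type*} [Group G] (a : G) (ha : a * a = 1) (ha1 : a ≠ 1) :
    Nat.card (pairSub a ha) = 2 := by
  change Nat.card (({1, a} : Set G)) = 2
  rw [Nat.card_coe_set_eq, Set.ncard_pair (Ne.symm ha1)]

theorem idx2 {G : Type*} [Group G] (U W : Subgroup G) (h : U.relIndex W = 2) :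
    ∀ x ∈ W, ∀ y ∈ W, (x * y ∈ U ↔ (x ∈ U ↔ y ∈ U)) := by
  intro x hx y hy
  have := Subgroup.mul_mem_iff_of_index_two (H := U.subgroupOf W) h (a := ⟨x, hx⟩) (b := ⟨y, hy⟩)
  simpa [Subgroup.mem_subgroupOf] using this

noncomputable def lam {G : Type*} [Group G] (U : Subgroup G) (x : G) : ZMod 2 := by
  classical exact if x ∈ U then 0 else 1

theorem lam_eq_zero {G : Type*} [Group G] (U : Subgroup G) (x : G) : lam U x = 0 ↔ x ∈ U := by
  classical
  unfold lam
  by_cases h : x ∈ U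
  · simp [h]
  · simp [h]

theorem lam_of_mem {G : Type*} [Group G] (U : Subgroup G) (x : G) (h : x ∈ U) : lam U x = 0 :=
  (lam_eq_zero U x).2 h

theorem lam_of_not_mem {G : Type*} [Group G] (U : Subgroup G) (x : G) (h : x ∉ U) :
    lam U x = 1 := by
  classical
  unfold lam
  simp [h]

theorem lam_add {G : Type*} [Group G] (U W : Subgroup G) (h : U.relIndex W = 2) (x y : G)
    (hx : x ∈ W) (hy : y ∈ W) : lam U (x * y) = lam U x + lam U y := by
  have := idx2 U W h x hx y hy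
  by_cases h1 : x ∈ U <;> by_cases h2 : y ∈ U
  · rw [lam_of_mem U x h1, lam_of_mem U y h2, lam_of_mem U _ (this.2 ⟨fun _ => h2, fun _ => h1⟩)]
    simp
  · rw [lam_of_mem U x h1, lam_of_not_mem U y h2,
      lam_of_not_mem U _ (fun h3 => h2 ((this.1 h3).1 h1))]
    simp
  · rw [lam_of_not_mem U x h1, lam_of_mem U y h2,
      lam_of_not_mem U _ (fun h3 => h1 ((this.1 h3).2 h2))]
    simp
  · rw [lam_of_not_mem U x h1, lam_of_not_mem U y h2,
      lam_of_mem U _ (this.2 ⟨fun h3 => absurd h3 h1, fun h3 => absurd h3 h2⟩)]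
    decide

structure Cfg {G : Type*} [Group G] (Q W K : Subgroup G) (d e : G) : Prop where
  hQ2 : IsPGroup 2 Q
  hWQ : W ≤ Q
  hWc : ∀ w ∈ W, ∀ q ∈ Q, w * q = q * w
  hWexp : ∀ w ∈ W, w ^ 2 = 1
  hWn : ∀ g : G, ∀ w ∈ W, g * w * g⁻¹ ∈ W
  hΩ : ∀ q ∈ Q, q ^ 2 = 1 → q ∈ W
  hde : d * e = e * d
  he3 : e ^ 3 = 1
  heW : ∀ w ∈ W, e * w = w * e
  hKQ : K ≤ Q
  hdK : ∀ k ∈ K, d * k * d⁻¹ ∈ K
  heK : ∀ k ∈ K, e * k * e⁻¹ ∈ K
  hdK' : ∀ k ∈ K, d⁻¹ * k * d ∈ K
  heK' : ∀ k ∈ K, e⁻¹ * k * e ∈ K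
  hne : ¬ ∀ k ∈ K, e * k = k * e
  hmin : ∀ H : Subgroup G, H ≤ K → (∀ h ∈ H, d * h * d⁻¹ ∈ H) → (∀ h ∈ H, e * h * e⁻¹ ∈ H) →
    H ≠ K → ∀ h ∈ H, e * h = h * e

section cfg

variable {G : Type*} [Group G] {Q W K : Subgroup G} {d e : G}

theorem stab (c : Cfg Q W K d e) (H : Subgroup G) (hHK : H ≤ K)
    (hd : ∀ h ∈ H, d * h * d⁻¹ ∈ H) (he : ∀ h ∈ H, e * h * e⁻¹ ∈ H)
    (hτ : ∀ k ∈ K, k⁻¹ * (e * k * e⁻¹) ∈ H) : H = K := by
  by_contra hne
  have hcen := c.hmin H hHK hd he hne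
  apply c.hne
  intro k hk
  set x := k⁻¹ * (e * k * e⁻¹) with hx
  have hxH := hτ k hk
  have hxe : e * x = x * e := hcen x hxH
  have h1 : e * k * e⁻¹ = k * x := by rw [hx]; group
  have hxe' : e * x * e⁻¹ = x := by rw [hxe]; group
  have h2 : e * (k * x) * e⁻¹ = k * x * x := by
    have : e * (k * x) * e⁻¹ = (e * k * e⁻¹) * (e * x * e⁻¹) := by group
    rw [this, h1, hxe']
  have h3 : e * (k * x * x) * e⁻¹ = k * x * x * x := by
    have : e * (k * x * x) * e⁻¹ = (e * (k * x) * e⁻¹) * (e * x * e⁻¹) := by group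
    rw [this, h2, hxe']
  have he3' : e * e * e = 1 := by
    have := c.he3
    rw [pow_succ, pow_two] at this
    exact this
  have he3 : (e * e * e) * k * (e * e * e)⁻¹ = k * x * x * x := by
    have : (e * e * e) * k * (e * e * e)⁻¹ = e * (e * (e * k * e⁻¹) * e⁻¹) * e⁻¹ := by group
    rw [this, h1, h2, h3]
  rw [he3'] at he3
  have h5 : k * x * x * x = k := by rw [← he3]; simp
  have hx3 : x ^ 3 = 1 := by
    have hpow : ∀ y : G, k * y ^ 3 = k * y * y * y := by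
      intro y
      rw [pow_succ, pow_two, ← mul_assoc, ← mul_assoc]
    have h4 : k * x ^ 3 = k * 1 := by
      rw [mul_one, hpow]
      exact h5
    exact mul_left_cancel h4
  have hxK : x ∈ K := hHK hxH
  obtain ⟨j, hj⟩ := c.hQ2 ⟨x, c.hKQ hxK⟩
  have hj' : x ^ (2 ^ j) = 1 := by simpa using congrArg Subtype.val hj
  have hx1 : x = 1 := by
    have h1 : orderOf x ∣ 3 := orderOf_dvd_of_pow_eq_one hx3
    have h2 : orderOf x ∣ 2 ^ j := orderOf_dvd_of_pow_eq_one hj'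
    have h3 : orderOf x ∣ Nat.gcd 3 (2 ^ j) := Nat.dvd_gcd h1 h2
    have hg : Nat.gcd 3 (2 ^ j) = 1 := Nat.Coprime.pow_right j (by norm_num)
    rw [hg, Nat.dvd_one, orderOf_eq_one_iff] at h3
    exact h3
  rw [hx1, mul_one] at h1
  calc e * k = e * k * e⁻¹ * e := by group
    _ = k * e := by rw [h1]

def sqCl (K : Subgroup G) : Subgroup G := Subgroup.closure {g : G | ∃ k ∈ K, g = k ^ 2}

theorem sqCl_le (K : Subgroup G) : sqCl K ≤ K := by
  rw [sqCl, Subgroup.closure_le]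
  rintro _ ⟨k, hk, rfl⟩
  exact K.pow_mem hk 2

theorem sq_mem_sqCl (K : Subgroup G) (k : G) (hk : k ∈ K) : k ^ 2 ∈ sqCl K :=
  Subgroup.subset_closure ⟨k, hk, rfl⟩

theorem sqCl_conj (K : Subgroup G) (x : G) (hx : ∀ k ∈ K, x * k * x⁻¹ ∈ K) :
    ∀ m ∈ sqCl K, x * m * x⁻¹ ∈ sqCl K := by
  apply closure_conj
  rintro _ ⟨k, hk, rfl⟩
  apply Subgroup.subset_closure
  exact ⟨x * k * x⁻¹, hx k hk, (conj_pow).symm⟩

theorem sqCl_ne [Finite G] (c : Cfg Q W K d e) : sqCl K ≠ K := by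
  have hK2 : IsPGroup 2 K := c.hQ2.to_le c.hKQ
  obtain ⟨n, hn⟩ := IsPGroup.iff_card.1 hK2
  have hn0 : n ≠ 0 := by
    intro h
    rw [h, pow_zero] at hn
    have hb := Subgroup.eq_bot_of_card_eq K hn
    apply c.hne
    intro k hk
    rw [hb, Subgroup.mem_bot] at hk
    rw [hk]; simp
  have h2n : 2 ^ n = 2 ^ (n - 1) * 2 := by rw [← pow_succ]; congr 1; omega
  obtain ⟨H, hH⟩ := Sylow.exists_subgroup_card_pow_prime_of_le_card Nat.prime_two hK2
    (n := n - 1) (by rw [hn]; exact Nat.pow_le_pow_right (by norm_num) (Nat.sub_le n 1))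
  have hidx : H.index = 2 := by
    have := H.card_mul_index
    rw [hH, hn, h2n] at this
    exact Nat.eq_of_mul_eq_mul_left (by positivity) this
  have hML : sqCl K ≤ H.map K.subtype := by
    rw [sqCl, Subgroup.closure_le]
    rintro _ ⟨k, hk, rfl⟩
    exact ⟨⟨k, hk⟩ ^ 2, Subgroup.sq_mem_of_index_two hidx ⟨k, hk⟩, by simp⟩
  intro hEq
  have hcard : Nat.card (H.map K.subtype) = 2 ^ (n - 1) := by
    rw [Subgroup.card_map_of_injective K.subtype_injective, hH]
  have hle : Nat.card K ≤ Nat.card (H.map K.subtype) :=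
    Subgroup.card_le_of_le (le_trans (le_of_eq hEq.symm) hML)
  rw [hcard, hn, h2n] at hle
  have : 0 < 2 ^ (n - 1) := by positivity
  omega

theorem sq_cent [Finite G] (c : Cfg Q W K d e) : ∀ m ∈ sqCl K, e * m = m * e :=
  c.hmin (sqCl K) (sqCl_le K) (sqCl_conj K d c.hdK) (sqCl_conj K e c.heK) (sqCl_ne c)

theorem sq_central [Finite G] (c : Cfg Q W K d e) : ∀ m ∈ sqCl K, ∀ y ∈ K, m * y = y * m := by
  have hMe := sq_cent c
  have hinv : ∀ x : G, (∀ k ∈ K, x * k * x⁻¹ ∈ K) → (∀ k ∈ K, x⁻¹ * k * x ∈ K) →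
      ∀ h ∈ K ⊓ Subgroup.centralizer (sqCl K : Set G),
        x * h * x⁻¹ ∈ K ⊓ Subgroup.centralizer (sqCl K : Set G) := by
    intro x hx hx' h hh
    rw [Subgroup.mem_inf] at hh ⊢
    refine ⟨hx h hh.1, ?_⟩
    rw [Subgroup.mem_centralizer_iff]
    intro m hm
    have hm' : x⁻¹ * m * x ∈ sqCl K := by
      have := sqCl_conj K x⁻¹ (by simpa using hx') m hm
      simpa using this
    have h5 := (Subgroup.mem_centralizer_iff.1 hh.2) _ hm'
    calc m * (x * h * x⁻¹) = x * ((x⁻¹ * m * x) * h) * x⁻¹ := by group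
      _ = x * (h * (x⁻¹ * m * x)) * x⁻¹ := by rw [h5]
      _ = x * h * x⁻¹ * m := by group
  have hEq : K ⊓ Subgroup.centralizer (sqCl K : Set G) = K := by
    apply stab c _ inf_le_left (hinv d c.hdK c.hdK') (hinv e c.heK c.heK')
    intro k hk
    rw [Subgroup.mem_inf]
    refine ⟨K.mul_mem (K.inv_mem hk) (c.heK k hk), ?_⟩
    rw [Subgroup.mem_centralizer_iff]
    intro m hm
    have h1 : Commute e m := hMe m hm
    have hm2 : k * m * k⁻¹ ∈ sqCl K :=
      sqCl_conj K k (fun k' hk' => K.mul_mem (K.mul_mem hk hk') (K.inv_mem hk)) m hm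
    have h2 : e * (k * m * k⁻¹) = (k * m * k⁻¹) * e := hMe _ hm2
    symm
    calc k⁻¹ * (e * k * e⁻¹) * m = k⁻¹ * e * k * (e⁻¹ * m) := by group
      _ = k⁻¹ * e * k * (m * e⁻¹) := by rw [h1.inv_left.eq]
      _ = k⁻¹ * (e * (k * m * k⁻¹)) * k * e⁻¹ := by group
      _ = k⁻¹ * ((k * m * k⁻¹) * e) * k * e⁻¹ := by rw [h2]
      _ = m * (k⁻¹ * (e * k * e⁻¹)) := by group
  intro m hm y hy
  have hy' : y ∈ K ⊓ Subgroup.centralizer (sqCl K : Set G) := by rw [hEq]; exact hy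
  exact (Subgroup.mem_centralizer_iff.1 hy'.2) m hm

theorem comm_mem [Finite G] (c : Cfg Q W K d e) : ∀ x ∈ K, ∀ y ∈ K, x * y * x⁻¹ * y⁻¹ ∈ W := by
  intro x hx y hy
  have hcen := sq_central c
  set z := x * y * x⁻¹ * y⁻¹ with hz
  have hzK : z ∈ K := K.mul_mem (K.mul_mem (K.mul_mem hx hy) (K.inv_mem hx)) (K.inv_mem hy)
  have hx2 : ∀ u ∈ K, Commute (x ^ 2) u := fun u hu => hcen _ (sq_mem_sqCl K x hx) u hu
  have hy2 : ∀ u ∈ K, Commute (y ^ 2) u := fun u hu => hcen _ (sq_mem_sqCl K y hy) u hu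
  have hxy2 : ∀ u ∈ K, Commute ((x * y) ^ 2) u := fun u hu =>
    hcen _ (sq_mem_sqCl K (x * y) (K.mul_mem hx hy)) u hu
  have hzeq : z = (x * y) ^ 2 * (x ^ 2)⁻¹ * (y ^ 2)⁻¹ := by
    have h : (x * x)⁻¹ * y = y * (x * x)⁻¹ := by
      have := (hx2 y hy).inv_left.eq
      rwa [pow_two] at this
    rw [pow_two, pow_two, pow_two]
    calc z = x * y * x * ((x * x)⁻¹ * y) * (y * y)⁻¹ := by rw [hz]; group
      _ = x * y * x * (y * (x * x)⁻¹) * (y * y)⁻¹ := by rw [h]
      _ = (x * y) * (x * y) * (x * x)⁻¹ * (y * y)⁻¹ := by group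
  have hzc : ∀ u ∈ K, Commute z u := by
    intro u hu
    rw [hzeq]
    exact ((hxy2 u hu).mul_left (hx2 u hu).inv_left).mul_left (hy2 u hu).inv_left
  have h1 : x * y * x⁻¹ = z * y := by rw [hz]; group
  have h2 : (x * y * x⁻¹) ^ 2 = y ^ 2 := by
    rw [conj_pow]
    have := (hy2 x hx).eq
    rw [← this]; group
  have h3 : (z * y) ^ 2 = z ^ 2 * y ^ 2 := (hzc y hy).mul_pow 2
  have hz2 : z ^ 2 = 1 := by
    rw [h1, h3] at h2
    have : z ^ 2 * y ^ 2 = 1 * y ^ 2 := by rw [one_mul]; exact h2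
    exact mul_right_cancel this
  exact c.hΩ z (c.hKQ hzK) hz2

def comCl (K : Subgroup G) (e : G) : Subgroup G :=
  Subgroup.closure {g : G | ∃ x ∈ K, g = x⁻¹ * (e * x * e⁻¹)}

theorem gen (c : Cfg Q W K d e) : comCl K e = K := by
  apply stab c
  · rw [comCl, Subgroup.closure_le]
    rintro _ ⟨x, hx, rfl⟩
    exact K.mul_mem (K.inv_mem hx) (c.heK x hx)
  · apply closure_conj
    rintro _ ⟨x, hx, rfl⟩
    apply Subgroup.subset_closure
    refine ⟨d * x * d⁻¹, c.hdK x hx, ?_⟩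
    have h1 : e * d = d * e := c.hde.symm
    have h2 : d⁻¹ * e⁻¹ = e⁻¹ * d⁻¹ := by rw [← mul_inv_rev, ← mul_inv_rev, h1]
    calc d * (x⁻¹ * (e * x * e⁻¹)) * d⁻¹ = d * x⁻¹ * d⁻¹ * (d * e) * x * (e⁻¹ * d⁻¹) := by group
      _ = d * x⁻¹ * d⁻¹ * (e * d) * x * (d⁻¹ * e⁻¹) := by rw [h1, h2]
      _ = (d * x * d⁻¹)⁻¹ * (e * (d * x * d⁻¹) * e⁻¹) := by group
  · apply closure_conj
    rintro _ ⟨x, hx, rfl⟩
    apply Subgroup.subset_closure
    exact ⟨e * x * e⁻¹, c.heK x hx, by group⟩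
  · intro k hk
    exact Subgroup.subset_closure ⟨k, hk, rfl⟩

end cfg

section cfg2

variable {G : Type*} [Group G] [Finite G] {Q W K : Subgroup G} {d e : G}

theorem commπ (c : Cfg Q W K d e) [hWn : W.Normal] :
    ∀ x ∈ K, ∀ y ∈ K, Commute (QuotientGroup.mk' W x) (QuotientGroup.mk' W y) := by
  intro x hx y hy
  have h1 : QuotientGroup.mk' W (x * y * x⁻¹ * y⁻¹) = 1 := by
    rw [QuotientGroup.mk'_apply]
    exact (QuotientGroup.eq_one_iff _).2 (comm_mem c x hx y hy)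
  rw [map_mul, map_mul, map_mul, map_inv, map_inv] at h1
  have h2 := mul_inv_eq_one.1 h1
  exact mul_inv_eq_iff_eq_mul.1 h2

theorem sq_mem (c : Cfg Q W K d e) : ∀ k ∈ K, k ^ 2 ∈ W := by
  haveI hWn : W.Normal := ⟨fun w hw g => c.hWn g w hw⟩
  have hcomm := commπ c
  have key : ∀ g ∈ comCl K e, g ∈ K ∧ (QuotientGroup.mk' W g) ^ 2 = 1 := by
    intro g hg
    induction hg using Subgroup.closure_induction with
    | mem s hs =>
      obtain ⟨x, hx, rfl⟩ := hs
      refine ⟨K.mul_mem (K.inv_mem hx) (c.heK x hx), ?_⟩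
      have hc : Commute (QuotientGroup.mk' W x⁻¹) (QuotientGroup.mk' W (e * x * e⁻¹)) :=
        hcomm _ (K.inv_mem hx) _ (c.heK x hx)
      rw [map_mul, hc.mul_pow, ← map_pow, ← map_pow, ← map_mul]
      have h1 : x⁻¹ ^ 2 * (e * x * e⁻¹) ^ 2 = 1 := by
        rw [conj_pow, inv_pow]
        have := sq_cent c (x ^ 2) (sq_mem_sqCl K x hx)
        rw [this]; group
      rw [h1, map_one]
    | one => exact ⟨K.one_mem, by simp⟩
    | mul a b _ _ iha ihb =>
      refine ⟨K.mul_mem iha.1 ihb.1, ?_⟩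
      rw [map_mul, (hcomm a iha.1 b ihb.1).mul_pow, iha.2, ihb.2, one_mul]
    | inv a _ iha =>
      refine ⟨K.inv_mem iha.1, ?_⟩
      rw [map_inv, inv_pow, iha.2, inv_one]
  intro k hk
  have := (key k (by rw [gen c]; exact hk)).2
  rw [← map_pow, QuotientGroup.mk'_apply] at this
  exact (QuotientGroup.eq_one_iff _).1 this

theorem norm_mem (c : Cfg Q W K d e) [hWn : W.Normal] : ∀ k ∈ K,
    QuotientGroup.mk' W k * QuotientGroup.mk' W (e * k * e⁻¹) *
      QuotientGroup.mk' W (e * (e * k * e⁻¹) * e⁻¹) = 1 := by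
  have hcomm := commπ c
  have hsq := sq_mem c
  have hinvπ : ∀ g ∈ K, (QuotientGroup.mk' W g)⁻¹ = QuotientGroup.mk' W g := by
    intro g hg
    have h1 : QuotientGroup.mk' W (g ^ 2) = 1 := by
      rw [QuotientGroup.mk'_apply]
      exact (QuotientGroup.eq_one_iff _).2 (hsq g hg)
    rw [map_pow, pow_two] at h1
    exact inv_eq_of_mul_eq_one_left h1
  have he3' : e * e * e = 1 := by
    have := c.he3
    rw [pow_succ, pow_two] at this
    exact this
  have key : ∀ g ∈ comCl K e, g ∈ K ∧ QuotientGroup.mk' W g * QuotientGroup.mk' W (e * g * e⁻¹) *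
      QuotientGroup.mk' W (e * (e * g * e⁻¹) * e⁻¹) = 1 := by
    intro g hg
    induction hg using Subgroup.closure_induction with
    | mem s hs =>
      obtain ⟨x, hx, rfl⟩ := hs
      refine ⟨K.mul_mem (K.inv_mem hx) (c.heK x hx), ?_⟩
      have h1 : x⁻¹ * (e * x * e⁻¹) * (e * (x⁻¹ * (e * x * e⁻¹)) * e⁻¹) *
          (e * (e * (x⁻¹ * (e * x * e⁻¹)) * e⁻¹) * e⁻¹) = x⁻¹ * (e * e * e) * x * (e * e * e)⁻¹ := by
        group
      rw [← map_mul, ← map_mul, h1, he3']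
      simp
    | one => exact ⟨K.one_mem, by simp⟩
    | mul a b _ _ iha ihb =>
      refine ⟨K.mul_mem iha.1 ihb.1, ?_⟩
      have ha' : e * a * e⁻¹ ∈ K := c.heK a iha.1
      have ha'' : e * (e * a * e⁻¹) * e⁻¹ ∈ K := c.heK _ ha'
      have hb' : e * b * e⁻¹ ∈ K := c.heK b ihb.1
      have e1 : e * (a * b) * e⁻¹ = (e * a * e⁻¹) * (e * b * e⁻¹) := by group
      have e2 : e * ((e * a * e⁻¹) * (e * b * e⁻¹)) * e⁻¹ =
          (e * (e * a * e⁻¹) * e⁻¹) * (e * (e * b * e⁻¹) * e⁻¹) := by group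
      rw [e1, e2, map_mul (QuotientGroup.mk' W) a b,
        map_mul (QuotientGroup.mk' W) (e * a * e⁻¹) (e * b * e⁻¹),
        map_mul (QuotientGroup.mk' W) (e * (e * a * e⁻¹) * e⁻¹) (e * (e * b * e⁻¹) * e⁻¹)]
      rw [(hcomm b ihb.1 _ ha').mul_mul_mul_comm]
      have hc2 : Commute (QuotientGroup.mk' W b * QuotientGroup.mk' W (e * b * e⁻¹))
          (QuotientGroup.mk' W (e * (e * a * e⁻¹) * e⁻¹)) :=
        (hcomm b ihb.1 _ ha'').mul_left (hcomm _ hb' _ ha'')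
      rw [hc2.mul_mul_mul_comm, iha.2, ihb.2, one_mul]
    | inv a _ iha =>
      refine ⟨K.inv_mem iha.1, ?_⟩
      have ha' : e * a * e⁻¹ ∈ K := c.heK a iha.1
      have ha'' : e * (e * a * e⁻¹) * e⁻¹ ∈ K := c.heK _ ha'
      have e1 : e * a⁻¹ * e⁻¹ = (e * a * e⁻¹)⁻¹ := (conj_inv).symm
      have e2 : e * (e * a * e⁻¹)⁻¹ * e⁻¹ = (e * (e * a * e⁻¹) * e⁻¹)⁻¹ := (conj_inv).symm
      rw [e1, e2, map_inv, map_inv, map_inv, hinvπ a iha.1, hinvπ _ ha', hinvπ _ ha'']
      exact iha.2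
  intro k hk
  exact (key k (by rw [gen c]; exact hk)).2

theorem fix_mem (c : Cfg Q W K d e) : ∀ k ∈ K, e * k = k * e → k ∈ W := by
  haveI hWn : W.Normal := ⟨fun w hw g => c.hWn g w hw⟩
  intro k hk hek
  have h1 : e * k * e⁻¹ = k := by rw [hek]; group
  have h2 := norm_mem c k hk
  rw [h1, h1] at h2
  have h3 : QuotientGroup.mk' W (k ^ 2) = 1 := by
    rw [QuotientGroup.mk'_apply]
    exact (QuotientGroup.eq_one_iff _).2 (sq_mem c k hk)
  rw [map_pow, pow_two] at h3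
  rw [h3, one_mul, QuotientGroup.mk'_apply] at h2
  exact (QuotientGroup.eq_one_iff _).1 h2

end cfg2

section cfg3

variable {G : Type*} [Group G] [Finite G] {Q W K : Subgroup G} {d e : G}

theorem arith (u m n k : ℕ) (hupos : 0 < u) (hule : u ≤ 4) (_hu3 : u ≠ 3) (hn6 : n ≤ 6)
    (hn : k = 2 ^ n) (hcard : k = u + 3 * (3 * m)) (hlt : u < k) (hCW : k ≤ 16 * u) : False := by
  rw [hn] at hcard hlt hCW
  interval_cases n <;> norm_num at hcard hlt hCW <;> omega

theorem exists_ne_one_of_card (W : Subgroup G) (hW4 : Nat.card W = 4) : ∃ a ∈ W, a ≠ 1 := by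
  by_contra h
  push Not at h
  have : W = ⊥ := by
    rw [eq_bot_iff]
    intro w hw
    rw [Subgroup.mem_bot]
    exact h w hw
  rw [this, Subgroup.card_bot] at hW4
  omega

theorem count (c : Cfg Q W K d e) (hW4 : Nat.card W = 4)
    (hfpf : ∀ w ∈ W, d * w = w * d → w = 1)
    (hCW : Nat.card K ≤ 16 * Nat.card (K ⊓ W : Subgroup G)) : False := by
  classical
  have hsq := sq_mem c
  have hfix := fix_mem c
  obtain ⟨a, haW, ha1⟩ := exists_ne_one_of_card W hW4
  set b := d * a * d⁻¹ with hb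
  set c' := d * b * d⁻¹ with hc'
  have hbW : b ∈ W := c.hWn d a haW
  have hcW : c' ∈ W := c.hWn d b hbW
  have hb1 : b ≠ 1 := by
    intro h
    apply ha1
    rw [hb] at h
    simpa using h
  have hc1 : c' ≠ 1 := by
    intro h
    apply hb1
    rw [hc'] at h
    simpa using h
  have hcomm_of : ∀ x : G, x = d * x * d⁻¹ → d * x = x * d := by
    intro x h
    calc d * x = d * x * d⁻¹ * d := by group
      _ = x * d := by rw [← h]
  have hab : a ≠ b := fun h => ha1 (hfpf a haW (hcomm_of a h))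
  have hbc : b ≠ c' := fun h => hb1 (hfpf b hbW (hcomm_of b h))
  have hall := four_elts W hW4 c.hWexp a b haW hbW ha1 hb1 hab
  have hainv : a⁻¹ = a := by
    have := c.hWexp a haW
    rw [pow_two] at this
    exact inv_eq_of_mul_eq_one_left this
  have hab1 : a * b ≠ 1 := by
    intro h
    apply hab
    have hb' : b = a⁻¹ := eq_inv_of_mul_eq_one_right h
    rw [hb', hainv]
  have hWcomm : ∀ x ∈ W, ∀ y ∈ W, x * y = y * x := fun x hx y hy => c.hWc x hx y (c.hWQ hy)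
  have hca : c' ≠ a := by
    intro h
    apply hab1
    apply hfpf (a * b) (W.mul_mem haW hbW)
    apply hcomm_of
    have : d * (a * b) * d⁻¹ = (d * a * d⁻¹) * (d * b * d⁻¹) := by group
    rw [this, ← hb, ← hc', h]
    exact hWcomm a haW b hbW
  have hcab : c' = a * b := by
    rcases hall c' hcW with h | h | h | h
    · exact absurd h hc1
    · exact absurd h hca
    · exact absurd h.symm hbc
    · exact h
  let X : G → Set G := fun w => {k | k ∈ K ∧ k ^ 2 = w}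
  have hXd : ∀ w, (X (d * w * d⁻¹)).ncard = (X w).ncard := by
    intro w
    have himg : X (d * w * d⁻¹) = (fun k => d * k * d⁻¹) '' X w := by
      ext k
      constructor
      · rintro ⟨hk, hk2⟩
        refine ⟨d⁻¹ * k * d, ⟨c.hdK' k hk, ?_⟩, by group⟩
        have h1 : (d⁻¹ * k * d) ^ 2 = d⁻¹ * k ^ 2 * d := by
          have := conj_pow (a := d⁻¹) (b := k) (i := 2)
          rwa [inv_inv] at this
        rw [h1, hk2]; group
      · rintro ⟨k', ⟨hk', hk'2⟩, rfl⟩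
        exact ⟨c.hdK k' hk', by rw [conj_pow, hk'2]⟩
    rw [himg, Set.ncard_image_of_injective _ (fun x y h => by simpa using h)]
  have hX3 : ∀ w ∈ W, w ≠ 1 → 3 ∣ (X w).ncard := by
    intro w hw hw1
    haveI : Fintype ↥(X w) := Fintype.ofFinite _
    have hmem : ∀ k ∈ X w, e * k * e⁻¹ ∈ X w := by
      rintro k ⟨hk, hk2⟩
      refine ⟨c.heK k hk, ?_⟩
      rw [conj_pow, hk2, c.heW w hw]; group
    have hmem' : ∀ k ∈ X w, e⁻¹ * k * e ∈ X w := by
      rintro k ⟨hk, hk2⟩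
      refine ⟨c.heK' k hk, ?_⟩
      have h1 : (e⁻¹ * k * e) ^ 2 = e⁻¹ * k ^ 2 * e := by
        have := conj_pow (a := e⁻¹) (b := k) (i := 2)
        rwa [inv_inv] at this
      rw [h1, hk2]
      have := c.heW w hw
      calc e⁻¹ * w * e = e⁻¹ * (w * e) := by group
        _ = e⁻¹ * (e * w) := by rw [this]
        _ = w := by group
    let σ : Equiv.Perm ↥(X w) :=
      { toFun := fun k => ⟨e * k.1 * e⁻¹, hmem k.1 k.2⟩
        invFun := fun k => ⟨e⁻¹ * k.1 * e, hmem' k.1 k.2⟩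
        left_inv := fun k => Subtype.ext (by
          show e⁻¹ * (e * k.1 * e⁻¹) * e = k.1
          group)
        right_inv := fun k => Subtype.ext (by
          show e * (e⁻¹ * k.1 * e) * e⁻¹ = k.1
          group) }
    have he3' : e * e * e = 1 := by
      have := c.he3
      rw [pow_succ, pow_two] at this
      exact this
    have hσ3 : σ ^ 3 ^ 1 = 1 := by
      ext k
      have h1 : (σ ^ 3 ^ 1) k = σ (σ (σ k)) := by
        rw [pow_one, pow_succ, pow_two]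
        rfl
      rw [h1]
      show e * (e * (e * k.1 * e⁻¹) * e⁻¹) * e⁻¹ = k.1
      have : e * (e * (e * k.1 * e⁻¹) * e⁻¹) * e⁻¹ = (e * e * e) * k.1 * (e * e * e)⁻¹ := by group
      rw [this, he3']; group
    by_contra hnd
    rw [← Nat.card_coe_set_eq, Nat.card_eq_fintype_card] at hnd
    obtain ⟨k, hk⟩ := Equiv.Perm.exists_fixed_point_of_prime (p := 3) (n := 1) hnd hσ3
    have hk' : e * k.1 * e⁻¹ = k.1 := congrArg Subtype.val hk
    have hek : e * k.1 = k.1 * e := by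
      calc e * k.1 = e * k.1 * e⁻¹ * e := by group
        _ = k.1 * e := by rw [hk']
    have hkW := hfix k.1 k.2.1 hek
    have h2 : k.1 ^ 2 = w := k.2.2
    rw [c.hWexp k.1 hkW] at h2
    exact hw1 h2.symm
  have hKset : (K : Set G) = ((K ⊓ W : Subgroup G) : Set G) ∪ (X a ∪ (X b ∪ X c')) := by
    ext k
    constructor
    · intro hk
      have hk2 := hsq k hk
      rcases hall _ hk2 with h | h | h | h
      · left; exact ⟨hk, c.hΩ k (c.hKQ hk) h⟩
      · right; left; exact ⟨hk, h⟩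
      · right; right; left; exact ⟨hk, h⟩
      · right; right; right; exact ⟨hk, by rw [hcab]; exact h⟩
    · rintro (h | h | h | h)
      · exact h.1
      · exact h.1
      · exact h.1
      · exact h.1
  have hdisj1 : Disjoint ((K ⊓ W : Subgroup G) : Set G) (X a ∪ (X b ∪ X c')) := by
    rw [Set.disjoint_left]
    intro k hk hk'
    have h1 : k ^ 2 = 1 := c.hWexp k hk.2
    rcases hk' with h | h | h
    · exact ha1 (h.2.symm.trans h1)
    · exact hb1 (h.2.symm.trans h1)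
    · exact hc1 (h.2.symm.trans h1)
  have hdisj2 : Disjoint (X a) (X b ∪ X c') := by
    rw [Set.disjoint_left]
    intro k hk hk'
    rcases hk' with h | h
    · exact hab (hk.2.symm.trans h.2)
    · exact hca (h.2.symm.trans hk.2)
  have hdisj3 : Disjoint (X b) (X c') := by
    rw [Set.disjoint_left]
    intro k hk hk'
    exact hbc (hk.2.symm.trans hk'.2)
  have hcard : Nat.card K = Nat.card (K ⊓ W : Subgroup G) + 3 * (X a).ncard := by
    have h1 : Nat.card K = (K : Set G).ncard := (Nat.card_coe_set_eq (K : Set G))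
    have h2 : Nat.card (K ⊓ W : Subgroup G) = ((K ⊓ W : Subgroup G) : Set G).ncard :=
      (Nat.card_coe_set_eq ((K ⊓ W : Subgroup G) : Set G))
    have h3 : (X b).ncard = (X a).ncard := hXd a
    have h4 : (X c').ncard = (X a).ncard := (hXd b).trans h3
    rw [h1, hKset, Set.ncard_union_eq hdisj1 (Set.toFinite _) (Set.toFinite _),
      Set.ncard_union_eq hdisj2 (Set.toFinite _) (Set.toFinite _),
      Set.ncard_union_eq hdisj3 (Set.toFinite _) (Set.toFinite _), h3, h4, ← h2]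
    ring
  obtain ⟨m, hm⟩ := hX3 a haW ha1
  have hu : Nat.card (K ⊓ W : Subgroup G) ∣ 4 := by
    rw [← hW4]
    exact Subgroup.card_dvd_of_le inf_le_right
  have hupos : 0 < Nat.card (K ⊓ W : Subgroup G) := Nat.card_pos
  have hule : Nat.card (K ⊓ W : Subgroup G) ≤ 4 := Nat.le_of_dvd (by norm_num) hu
  have hu3 : Nat.card (K ⊓ W : Subgroup G) ≠ 3 := by
    intro h
    rw [h] at hu
    norm_num at hu
  have hlt : Nat.card (K ⊓ W : Subgroup G) < Nat.card K := by
    by_contra hle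
    push Not at hle
    have hEq := Subgroup.eq_of_le_of_card_ge (inf_le_left : K ⊓ W ≤ K) hle
    apply c.hne
    intro k hk
    have : k ∈ K ⊓ W := by rw [hEq]; exact hk
    exact c.heW k this.2
  obtain ⟨n, hn⟩ := IsPGroup.iff_card.1 (c.hQ2.to_le c.hKQ)
  have hn6 : n ≤ 6 := by
    by_contra h
    push Not at h
    have h7 : 2 ^ 7 ≤ 2 ^ n := Nat.pow_le_pow_right (by norm_num) h
    norm_num at h7
    omega
  rw [hm] at hcard
  exact arith _ m n _ hupos hule hu3 hn6 hn hcard hlt hCW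

end cfg3

section cfg4

variable {G : Type*} [Group G] [Finite G] {Q W K : Subgroup G} {d e : G}

theorem pw_zero (k : G) : pw k 0 = 1 := by
  unfold pw
  simp

theorem pw_ne (k : G) {x : ZMod 2} (h : x ≠ 0) : pw k x = k := by
  unfold pw
  simp [h]

theorem relIndex_pair (W : Subgroup G) (hW4 : Nat.card W = 4) (a : G) (ha : a * a = 1)
    (ha1 : a ≠ 1) (haW : a ∈ W) : (pairSub a ha).relIndex W = 2 := by
  have hle : pairSub a ha ≤ W := by
    intro x hx
    rcases hx with rfl | rfl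
    · exact W.one_mem
    · exact haW
  have := Cfsg.Agent.Lib.Lead.Cores.card_mul_relIndex_of_le hle
  rw [card_pairSub a ha ha1, hW4] at this
  omega

theorem cw_bound (c : Cfg Q W K d e) (hW4 : Nat.card W = 4) :
    Nat.card K ≤ 16 * Nat.card (K ⊓ W : Subgroup G) := by
  by_contra hbig
  push Not at hbig
  have hsq := sq_mem c
  have hcm := comm_mem c
  obtain ⟨a, haW, ha1⟩ := exists_ne_one_of_card W hW4
  obtain ⟨b, hbW, hb1, hba⟩ : ∃ b ∈ W, b ≠ 1 ∧ b ≠ a := by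
    by_contra h
    push Not at h
    have hsub : (W : Set G) ⊆ {1, a} := by
      intro w hw
      by_cases hw1 : w = 1
      · left; exact hw1
      · right; exact h w hw hw1
    have h1 : Nat.card W = (W : Set G).ncard := Nat.card_coe_set_eq _
    have h2 := Set.ncard_le_ncard hsub (Set.toFinite _)
    have h3 : ({1, a} : Set G).ncard ≤ 2 := by
      refine (Set.ncard_insert_le 1 {a}).trans ?_
      rw [Set.ncard_singleton]
    omega
  have haa : a * a = 1 := by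
    have := c.hWexp a haW
    rwa [pow_two] at this
  have hbb : b * b = 1 := by
    have := c.hWexp b hbW
    rwa [pow_two] at this
  have hr₁ : (pairSub a haa).relIndex W = 2 := relIndex_pair W hW4 a haa ha1 haW
  have hr₂ : (pairSub b hbb).relIndex W = 2 := relIndex_pair W hW4 b hbb hb1 hbW
  have hU12 : ∀ x, x ∈ pairSub a haa → x ∈ pairSub b hbb → x = 1 := by
    intro x h1 h2
    rcases h1 with rfl | rfl
    · rfl
    · rcases h2 with h | h
      · exact h
      · exact absurd h.symm hba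
  let φ : Subgroup G → ↥K → ZMod 2 := fun U k => lam U ((k : G) ^ 2)
  let B : Subgroup G → ↥K → ↥K → ZMod 2 :=
    fun U x y => lam U ((y : G) * x * (y : G)⁻¹ * (x : G)⁻¹)
  have hφ1 : ∀ U : Subgroup G, φ U 1 = 0 := by
    intro U
    show lam U (((1 : K) : G) ^ 2) = 0
    apply lam_of_mem
    simp
  have hφ : ∀ U : Subgroup G, U.relIndex W = 2 →
      ∀ x y : K, φ U (x * y) = φ U x + φ U y + B U x y := by
    intro U hU x y
    have hz : (y : G) * x * (y : G)⁻¹ * (x : G)⁻¹ ∈ W := hcm y y.2 x x.2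
    have hzx : (y : G) * x * (y : G)⁻¹ * (x : G)⁻¹ * x
        = x * ((y : G) * x * (y : G)⁻¹ * (x : G)⁻¹) := c.hWc _ hz x (c.hKQ x.2)
    have key : (((x * y : K) : G)) ^ 2
        = ((y : G) * x * (y : G)⁻¹ * (x : G)⁻¹) * ((x : G) ^ 2 * (y : G) ^ 2) := by
      rw [Subgroup.coe_mul]
      symm
      calc ((y : G) * x * (y : G)⁻¹ * (x : G)⁻¹) * ((x : G) ^ 2 * (y : G) ^ 2)
          = (((y : G) * x * (y : G)⁻¹ * (x : G)⁻¹) * x) * (x * (y * y)) := by
            rw [pow_two, pow_two]; group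
        _ = ((x : G) * ((y : G) * x * (y : G)⁻¹ * (x : G)⁻¹)) * (x * (y * y)) := by rw [hzx]
        _ = ((x : G) * y) ^ 2 := by rw [pow_two]; group
    show lam U (((x * y : K) : G) ^ 2) = lam U ((x : G) ^ 2) + lam U ((y : G) ^ 2)
      + lam U ((y : G) * x * (y : G)⁻¹ * (x : G)⁻¹)
    rw [key, lam_add U W hU _ _ hz (W.mul_mem (hsq x x.2) (hsq y y.2)),
      lam_add U W hU _ _ (hsq x x.2) (hsq y y.2)]
    ring
  have hB : ∀ U : Subgroup G, U.relIndex W = 2 →
      ∀ x y z : K, B U (x * y) z = B U x z + B U y z := by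
    intro U hU x y z
    have hc₂ : (z : G) * y * (z : G)⁻¹ * (y : G)⁻¹ ∈ W := hcm z z.2 y y.2
    have hc₁ : (z : G) * x * (z : G)⁻¹ * (x : G)⁻¹ ∈ W := hcm z z.2 x x.2
    have hc₂x := c.hWc _ hc₂ x (c.hKQ x.2)
    have key : (z : G) * ((x * y : K) : G) * (z : G)⁻¹ * ((x * y : K) : G)⁻¹
        = ((z : G) * x * (z : G)⁻¹ * (x : G)⁻¹) * ((z : G) * y * (z : G)⁻¹ * (y : G)⁻¹) := by
      rw [Subgroup.coe_mul]
      calc (z : G) * ((x : G) * y) * (z : G)⁻¹ * ((x : G) * y)⁻¹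
          = ((z : G) * x * (z : G)⁻¹ * (x : G)⁻¹)
            * ((x : G) * ((z : G) * y * (z : G)⁻¹ * (y : G)⁻¹)) * (x : G)⁻¹ := by group
        _ = ((z : G) * x * (z : G)⁻¹ * (x : G)⁻¹)
            * (((z : G) * y * (z : G)⁻¹ * (y : G)⁻¹) * x) * (x : G)⁻¹ := by rw [hc₂x]
        _ = _ := by group
    show lam U ((z : G) * ((x * y : K) : G) * (z : G)⁻¹ * ((x * y : K) : G)⁻¹)
      = lam U ((z : G) * x * (z : G)⁻¹ * (x : G)⁻¹) + lam U ((z : G) * y * (z : G)⁻¹ * (y : G)⁻¹)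
    rw [key, lam_add U W hU _ _ hc₁ hc₂]
  obtain ⟨k₀, hk₀K, hk₀⟩ := pick K (K ⊓ W) hbig (fun _ => 1)
  obtain ⟨k₁, hk₁K, hk₁⟩ := pick K (K ⊓ W) hbig (fun i => (pw k₀ i.1)⁻¹)
  obtain ⟨k₂, hk₂K, hk₂⟩ := pick K (K ⊓ W) hbig (fun i => (pw k₀ i.1 * pw k₁ i.2.1)⁻¹)
  obtain ⟨k₃, hk₃K, hk₃⟩ := pick K (K ⊓ W) hbig
    (fun i => (pw k₀ i.1 * pw k₁ i.2.1 * pw k₂ i.2.2.1)⁻¹)
  obtain ⟨k₄, hk₄K, hk₄⟩ := pick K (K ⊓ W) hbig
    (fun i => (pw k₀ i.1 * pw k₁ i.2.1 * pw k₂ i.2.2.1 * pw k₃ i.2.2.2)⁻¹)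
  obtain ⟨x₀, x₁, x₂, x₃, x₄, hnz, hz1, hz2⟩ := exists_zero (φ (pairSub a haa))
    (φ (pairSub b hbb)) (B (pairSub a haa)) (B (pairSub b hbb)) (hφ1 _) (hφ1 _)
    (hφ _ hr₁) (hφ _ hr₂) (hB _ hr₁) (hB _ hr₂)
    ⟨k₀, hk₀K⟩ ⟨k₁, hk₁K⟩ ⟨k₂, hk₂K⟩ ⟨k₃, hk₃K⟩ ⟨k₄, hk₄K⟩
  have hcoe : ∀ (k : G) (hk : k ∈ K) (x : ZMod 2), ((pw (⟨k, hk⟩ : K) x : K) : G) = pw k x := by
    intro k hk x
    unfold pw
    split_ifs <;> rfl
  have hgcoe : ((pw (⟨k₀, hk₀K⟩ : K) x₀ * pw ⟨k₁, hk₁K⟩ x₁ * pw ⟨k₂, hk₂K⟩ x₂ * pw ⟨k₃, hk₃K⟩ x₃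
      * pw ⟨k₄, hk₄K⟩ x₄ : K) : G) = pw k₀ x₀ * pw k₁ x₁ * pw k₂ x₂ * pw k₃ x₃ * pw k₄ x₄ := by
    simp only [Subgroup.coe_mul, hcoe]
  have hgK : pw k₀ x₀ * pw k₁ x₁ * pw k₂ x₂ * pw k₃ x₃ * pw k₄ x₄ ∈ K := by
    rw [← hgcoe]
    exact Subtype.property _
  have hg1 : (pw k₀ x₀ * pw k₁ x₁ * pw k₂ x₂ * pw k₃ x₃ * pw k₄ x₄) ^ 2 ∈ pairSub a haa := by
    have := (lam_eq_zero (pairSub a haa) _).1 hz1
    rwa [hgcoe] at this
  have hg2 : (pw k₀ x₀ * pw k₁ x₁ * pw k₂ x₂ * pw k₃ x₃ * pw k₄ x₄) ^ 2 ∈ pairSub b hbb := by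
    have := (lam_eq_zero (pairSub b hbb) _).1 hz2
    rwa [hgcoe] at this
  have hgsq := hU12 _ hg1 hg2
  have hgU : pw k₀ x₀ * pw k₁ x₁ * pw k₂ x₂ * pw k₃ x₃ * pw k₄ x₄ ∈ K ⊓ W :=
    ⟨hgK, c.hΩ _ (c.hKQ hgK) hgsq⟩
  by_cases h4 : x₄ = 0
  · by_cases h3 : x₃ = 0
    · by_cases h2 : x₂ = 0
      · by_cases h1 : x₁ = 0
        · by_cases h0 : x₀ = 0
          · exact hnz ⟨h0, h1, h2, h3, h4⟩
          · apply hk₀ (0, 0, 0, 0) _ hgU
            rw [h4, h3, h2, h1]
            simp only [pw_zero, mul_one, one_mul, pw_ne k₀ h0]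
        · apply hk₁ (x₀, 0, 0, 0) _ hgU
          rw [h4, h3, h2]
          simp only [pw_zero, mul_one, pw_ne k₁ h1]
          rw [inv_mul_cancel_left]
      · apply hk₂ (x₀, x₁, 0, 0) _ hgU
        rw [h4, h3]
        simp only [pw_zero, mul_one, pw_ne k₂ h2]
        rw [inv_mul_cancel_left]
    · apply hk₃ (x₀, x₁, x₂, 0) _ hgU
      rw [h4]
      simp only [pw_zero, mul_one, pw_ne k₃ h3]
      rw [inv_mul_cancel_left]
  · apply hk₄ (x₀, x₁, x₂, x₃) _ hgU
    simp only [pw_ne k₄ h4]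
    rw [inv_mul_cancel_left]

end cfg4

theorem result {G : Type*} [Group G] [Finite G] (hchar : Subgroup.centralizer (Cfsg.pCore 2 G : Set G) ≤ Cfsg.pCore 2 G) (hsix : ∃ g : G, orderOf g = 6) (d : G) (hd1 : d ≠ 1) (hd : IsPGroup 3 ↥(Subgroup.zpowers d)) (W : Subgroup G) (hW : Cfsg.IsElementaryAbelian 2 W) (hW1 : W ≠ ⊥) (hdW : d ∈ Subgroup.normalizer (W : Set G)) (hfpf : W ⊓ Subgroup.centralizer {d} = ⊥) : ∃ E : Subgroup G, Cfsg.IsElementaryAbelian 2 E ∧ Nat.card E = 8 := by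
  classical
  by_contra hno
  have h4 : ∀ E : Subgroup G, Cfsg.IsElementaryAbelian 2 E → Nat.card E ≤ 4 := card_le_four hno
  set Q := Cfsg.pCore 2 G with hQdef
  haveI hQn : Q.Normal := Cfsg.Agent.Lib.Lead.Cores.pCore_normal 2
  have hQ2 : IsPGroup 2 Q := Cfsg.Agent.Lib.Lead.Cores.pCore_isPGroup 2
  have hWexp : ∀ w ∈ W, w ^ 2 = 1 := hW.2
  have hWcomm : ∀ x ∈ W, ∀ y ∈ W, x * y = y * x := by
    intro x hx y hy
    haveI := hW.1
    exact setLike_mul_comm hx hy
  have hW2 : IsPGroup 2 W := elab_isPGroup hW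
  have hdconj : ∀ w ∈ W, d * w * d⁻¹ ∈ W := fun w hw => (Subgroup.mem_normalizer_iff.1 hdW w).1 hw
  have hfpf' : ∀ w ∈ W, d * w = w * d → w = 1 := by
    intro w hw h
    have hmem : w ∈ W ⊓ Subgroup.centralizer {d} := by
      refine Subgroup.mem_inf.2 ⟨hw, ?_⟩
      rw [Subgroup.mem_centralizer_iff]
      intro x hx
      rw [Set.mem_singleton_iff] at hx
      subst hx
      exact h
    rw [hfpf, Subgroup.mem_bot] at hmem
    exact hmem
  have hW4 : Nat.card W = 4 := by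
    have hle := h4 W hW
    obtain ⟨m, hm⟩ := IsPGroup.iff_card.1 hW2
    have hne1 : Nat.card W ≠ 1 := fun h => hW1 (Subgroup.eq_bot_of_card_eq W h)
    have hne2 : Nat.card W ≠ 2 := by
      intro h2
      obtain ⟨u, huW, hu1, hud⟩ := fpf_card_two d W h2 hdconj
      exact hu1 (hfpf' u huW hud)
    have hm2 : m ≤ 2 := by
      by_contra h
      push Not at h
      have h8 : 2 ^ 3 ≤ 2 ^ m := Nat.pow_le_pow_right (by norm_num) h
      norm_num at h8
      omega
    interval_cases m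
    · exact absurd hm hne1
    · exact absurd hm hne2
    · rw [hm]; norm_num
  have hirr : ∀ U : Subgroup G, U ≤ W → U ≠ ⊥ → (∀ u ∈ U, d * u * d⁻¹ ∈ U) → U = W := by
    intro U hUW hU1 hUd
    have hdvd : Nat.card U ∣ 4 := by
      rw [← hW4]
      exact Subgroup.card_dvd_of_le hUW
    have hne1 : Nat.card U ≠ 1 := fun h => hU1 (Subgroup.eq_bot_of_card_eq U h)
    have hne2 : Nat.card U ≠ 2 := by
      intro h2
      obtain ⟨u, huU, hu1, hud⟩ := fpf_card_two d U h2 hUd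
      exact hu1 (hfpf' u (hUW huU) hud)
    have hle : Nat.card U ≤ 4 := Nat.le_of_dvd (by norm_num) hdvd
    have hpos : 0 < Nat.card U := Nat.card_pos
    have hne3 : Nat.card U ≠ 3 := by
      intro h
      rw [h] at hdvd
      norm_num at hdvd
    exact Subgroup.eq_of_le_of_card_ge hUW (by rw [hW4]; omega)
  have hQne : Q ≠ ⊥ := by
    intro hQb
    apply hd1
    have hdc : d ∈ Subgroup.centralizer (Q : Set G) := by
      rw [Subgroup.mem_centralizer_iff]
      intro q hq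
      have hq' : q ∈ Q := hq
      rw [hQb, Subgroup.mem_bot] at hq'
      rw [hq']; simp
    have hdQ := hchar hdc
    rw [hQb, Subgroup.mem_bot] at hdQ
    exact hdQ
  set ZQ := Q ⊓ Subgroup.centralizer (Q : Set G) with hZQ
  haveI hZQn : ZQ.Normal := inferInstance
  have hZQne : ZQ ≠ ⊥ := by
    obtain ⟨z, hzQ, hz2, hzc⟩ := pgrp_central (p := 2) Q Q hQ2 le_rfl
      (fun g _ n hn => hQn.conj_mem n hn g) hQne
    intro h
    have hz : z ∈ ZQ := by
      refine Subgroup.mem_inf.2 ⟨hzQ, ?_⟩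
      rw [Subgroup.mem_centralizer_iff]
      intro q hq
      exact hzc q hq
    rw [h, Subgroup.mem_bot] at hz
    rw [hz, orderOf_one] at hz2
    norm_num at hz2
  have hZQ2 : IsPGroup 2 ZQ := hQ2.to_le inf_le_left
  have hP2 : IsPGroup 2 (W ⊔ ZQ : Subgroup G) := IsPGroup.to_sup_of_normal_right hW2 hZQ2
  obtain ⟨z, hzZ, hz2, hzc⟩ := pgrp_central (p := 2) (W ⊔ ZQ) ZQ hP2 le_sup_right
    (fun g _ n hn => hZQn.conj_mem n hn g) hZQne
  have hz1 : z ≠ 1 := by
    intro h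
    rw [h, orderOf_one] at hz2
    norm_num at hz2
  have hzsq : z ^ 2 = 1 := by
    rw [← hz2]
    exact pow_orderOf_eq_one z
  have hzW : z ∈ W := mem_of_comm h4 hW hW4.ge z hzsq
    (fun w hw => hzc w (Subgroup.mem_sup_left hw))
  have hWZQ : W ≤ ZQ := by
    have hU : W ⊓ ZQ = W := hirr (W ⊓ ZQ) inf_le_left
      (by
        intro h
        apply hz1
        have hz : z ∈ W ⊓ ZQ := ⟨hzW, hzZ⟩
        rw [h, Subgroup.mem_bot] at hz
        exact hz)
      (fun u hu => ⟨hdconj u hu.1, hZQn.conj_mem u hu.2 d⟩)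
    rw [← hU]
    exact inf_le_right
  have hWQ : W ≤ Q := hWZQ.trans inf_le_left
  have hWc : ∀ w ∈ W, ∀ q ∈ Q, w * q = q * w := by
    intro w hw q hq
    exact ((Subgroup.mem_centralizer_iff.1 (hWZQ hw).2) q hq).symm
  have hΩ : ∀ q ∈ Q, q ^ 2 = 1 → q ∈ W := fun q hq hq2 =>
    mem_of_comm h4 hW hW4.ge q hq2 (fun w hw => hWc w hw q hq)
  have hWn : ∀ g : G, ∀ w ∈ W, g * w * g⁻¹ ∈ W := by
    intro g w hw
    apply hΩ _ (hQn.conj_mem w (hWQ hw) g)
    rw [conj_pow, hWexp w hw]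
    simp
  obtain ⟨g, hg⟩ := hsix
  have hg6 : g ^ 6 = 1 := by
    rw [← hg]
    exact pow_orderOf_eq_one g
  have ht2 : (g ^ 3) ^ 2 = 1 := by
    rw [← pow_mul]
    exact hg6
  have ht1 : g ^ 3 ≠ 1 := by
    intro h
    have := orderOf_dvd_of_pow_eq_one h
    rw [hg] at this
    norm_num at this
  have he3 : (g ^ 2) ^ 3 = 1 := by
    rw [← pow_mul]
    exact hg6
  have he1 : g ^ 2 ≠ 1 := by
    intro h
    have := orderOf_dvd_of_pow_eq_one h
    rw [hg] at this
    norm_num at this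
  have hte : Commute (g ^ 3) (g ^ 2) := (Commute.refl g).pow_pow 3 2
  have he₀W : ∀ w ∈ W, g ^ 2 * w = w * g ^ 2 := by
    by_cases htW : g ^ 3 ∈ W
    · exact cent_of_fix W hW4 hWexp (g ^ 2) he3 (hWn (g ^ 2)) (g ^ 3) htW ht1 hte.symm.eq
    · have hnc : ¬ ∀ w ∈ W, w * g ^ 3 = g ^ 3 * w :=
        fun h => htW (mem_of_comm h4 hW hW4.ge (g ^ 3) ht2 h)
      push Not at hnc
      obtain ⟨a, haW, hat⟩ := hnc
      have ha'W : g ^ 3 * a * (g ^ 3)⁻¹ ∈ W := hWn (g ^ 3) a haW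
      have haa' : g ^ 3 * a * (g ^ 3)⁻¹ ≠ a := by
        intro h
        apply hat
        calc a * g ^ 3 = g ^ 3 * a * (g ^ 3)⁻¹ * g ^ 3 := by rw [h]
          _ = g ^ 3 * a := by group
      have ha1 : a ≠ 1 := by
        intro h
        apply hat
        rw [h]; simp
      have hainv : a⁻¹ = a := by
        have := hWexp a haW
        rw [pow_two] at this
        exact inv_eq_of_mul_eq_one_left this
      have hw₀W : a * (g ^ 3 * a * (g ^ 3)⁻¹) ∈ W := W.mul_mem haW ha'W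
      have hw₀1 : a * (g ^ 3 * a * (g ^ 3)⁻¹) ≠ 1 := by
        intro h
        apply haa'
        have h1 : g ^ 3 * a * (g ^ 3)⁻¹ = a⁻¹ := eq_inv_of_mul_eq_one_right h
        rw [h1, hainv]
      have hw₀a : a * (g ^ 3 * a * (g ^ 3)⁻¹) ≠ a := by
        intro h
        have h1 : a * (g ^ 3 * a * (g ^ 3)⁻¹) = a * 1 := by rw [mul_one]; exact h
        have h2 := mul_left_cancel h1
        apply ha1
        simpa using h2
      have htt : g ^ 3 * g ^ 3 = 1 := by
        rw [← pow_two]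
        exact ht2
      have htw₀ : Commute (g ^ 3) (a * (g ^ 3 * a * (g ^ 3)⁻¹)) := by
        have h1 : g ^ 3 * (g ^ 3 * a * (g ^ 3)⁻¹) * (g ^ 3)⁻¹ = a := by
          have : g ^ 3 * (g ^ 3 * a * (g ^ 3)⁻¹) * (g ^ 3)⁻¹
              = (g ^ 3 * g ^ 3) * a * (g ^ 3 * g ^ 3)⁻¹ := by group
          rw [this, htt]; simp
        show g ^ 3 * (a * (g ^ 3 * a * (g ^ 3)⁻¹)) = a * (g ^ 3 * a * (g ^ 3)⁻¹) * g ^ 3
        calc g ^ 3 * (a * (g ^ 3 * a * (g ^ 3)⁻¹))
            = (g ^ 3 * a * (g ^ 3)⁻¹) * (g ^ 3 * (g ^ 3 * a * (g ^ 3)⁻¹) * (g ^ 3)⁻¹) * g ^ 3 := by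
              group
          _ = (g ^ 3 * a * (g ^ 3)⁻¹) * a * g ^ 3 := by rw [h1]
          _ = a * (g ^ 3 * a * (g ^ 3)⁻¹) * g ^ 3 := by rw [hWcomm _ ha'W a haW]
      have hall := four_elts W hW4 hWexp _ a hw₀W haW hw₀1 ha1 hw₀a
      have hcent : ∀ x ∈ W, g ^ 3 * x = x * g ^ 3 →
          x = 1 ∨ x = a * (g ^ 3 * a * (g ^ 3)⁻¹) := by
        intro x hx hxt
        rcases hall x hx with h | h | h | h
        · left; exact h
        · right; exact h
        · exfalso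
          apply hat
          rw [← h]
          exact hxt.symm
        · exfalso
          apply hat
          rw [h] at hxt
          have h5 : g ^ 3 * (a * (g ^ 3 * a * (g ^ 3)⁻¹) * a)
              = a * (g ^ 3 * a * (g ^ 3)⁻¹) * (g ^ 3 * a) := by
            rw [← mul_assoc, htw₀.eq, mul_assoc]
          have h6 : a * (g ^ 3 * a * (g ^ 3)⁻¹) * (g ^ 3 * a)
              = a * (g ^ 3 * a * (g ^ 3)⁻¹) * (a * g ^ 3) :=
            h5.symm.trans (hxt.trans (mul_assoc _ _ _))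
          exact (mul_left_cancel h6).symm
      have hcw : Commute (g ^ 3) (g ^ 2 * (a * (g ^ 3 * a * (g ^ 3)⁻¹)) * (g ^ 2)⁻¹) :=
        (hte.mul_right htw₀).mul_right hte.inv_right
      have hw₁ := hcent _ (hWn (g ^ 2) _ hw₀W) hcw.eq
      rcases hw₁ with h | h
      · exfalso
        apply hw₀1
        simpa using h
      · apply cent_of_fix W hW4 hWexp (g ^ 2) he3 (hWn (g ^ 2)) _ hw₀W hw₀1
        calc g ^ 2 * (a * (g ^ 3 * a * (g ^ 3)⁻¹))
            = g ^ 2 * (a * (g ^ 3 * a * (g ^ 3)⁻¹)) * (g ^ 2)⁻¹ * g ^ 2 := by group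
          _ = a * (g ^ 3 * a * (g ^ 3)⁻¹) * g ^ 2 := by rw [h]
  haveI hWnorm : W.Normal := ⟨fun w hw g => hWn g w hw⟩
  haveI hCn : (Subgroup.centralizer (W : Set G)).Normal := inferInstance
  have he₀C : g ^ 2 ∈ Subgroup.centralizer (W : Set G) := by
    rw [Subgroup.mem_centralizer_iff]
    intro w hw
    exact (he₀W w hw).symm
  obtain ⟨T, hdT⟩ := hd.exists_le_sylow
  have he₀p : IsPGroup 3 (Subgroup.zpowers (g ^ 2)) := by
    apply IsPGroup.of_card (n := 1)
    rw [Nat.card_zpowers, pow_one]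
    exact orderOf_eq_prime he3 he1
  obtain ⟨x, hx⟩ := Cfsg.Agent.Lib.Helper12.SylowBasic.exists_conj_le_sylow T
    (Subgroup.zpowers (g ^ 2)) he₀p
  have hTC : (T : Subgroup G) ⊓ Subgroup.centralizer (W : Set G) ≠ ⊥ := by
    intro h
    have hmem : x * g ^ 2 * x⁻¹ ∈ (T : Subgroup G) ⊓ Subgroup.centralizer (W : Set G) :=
      ⟨hx _ (Subgroup.mem_zpowers _), hCn.conj_mem _ he₀C x⟩
    rw [h, Subgroup.mem_bot] at hmem
    apply he1
    simpa using hmem
  obtain ⟨e, heTC, heo, hecen⟩ := pgrp_central (p := 3) (T : Subgroup G)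
    ((T : Subgroup G) ⊓ Subgroup.centralizer (W : Set G)) T.isPGroup' inf_le_left
    (fun t ht n hn => ⟨(T : Subgroup G).mul_mem ((T : Subgroup G).mul_mem ht hn.1)
      ((T : Subgroup G).inv_mem ht), hCn.conj_mem n hn.2 t⟩) hTC
  have hde : d * e = e * d := hecen d (hdT (Subgroup.mem_zpowers d))
  have hee3 : e ^ 3 = 1 := by
    rw [← heo]
    exact pow_orderOf_eq_one e
  have heW : ∀ w ∈ W, e * w = w * e := by
    intro w hw
    exact ((Subgroup.mem_centralizer_iff.1 heTC.2) w hw).symm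
  let P : Subgroup G → Prop := fun K => K ≤ Q ∧ (∀ k ∈ K, d * k * d⁻¹ ∈ K) ∧
      (∀ k ∈ K, e * k * e⁻¹ ∈ K) ∧ ¬ ∀ k ∈ K, e * k = k * e
  have hPQ : P Q := by
    refine ⟨le_rfl, fun k hk => hQn.conj_mem k hk d, fun k hk => hQn.conj_mem k hk e, ?_⟩
    intro hcen
    have heQ : e ∈ Q := hchar (by
      rw [Subgroup.mem_centralizer_iff]
      intro q hq
      exact (hcen q hq).symm)
    obtain ⟨j, hj⟩ := hQ2 ⟨e, heQ⟩
    have hj' : e ^ (2 ^ j) = 1 := by simpa using congrArg Subtype.val hj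
    have h1 := orderOf_dvd_of_pow_eq_one hj'
    rw [heo] at h1
    have h2 := Nat.Prime.dvd_of_dvd_pow Nat.prime_three h1
    norm_num at h2
  obtain ⟨K, -, hKmin⟩ := Finite.exists_le_minimal (p := P) hPQ
  obtain ⟨hPK, hmin'⟩ := hKmin
  obtain ⟨hKQ, hdK, heK, hne⟩ := hPK
  have cfg : Cfg Q W K d e :=
    { hQ2 := hQ2
      hWQ := hWQ
      hWc := hWc
      hWexp := hWexp
      hWn := hWn
      hΩ := hΩ
      hde := hde
      he3 := hee3
      heW := heW
      hKQ := hKQ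
      hdK := hdK
      heK := heK
      hdK' := inv_conj K d hdK
      heK' := inv_conj K e heK
      hne := hne
      hmin := by
        intro H hHK hd' he' hneq
        by_contra hcon
        exact hneq (le_antisymm hHK (hmin' ⟨hHK.trans hKQ, hd', he', hcon⟩ hHK)) }
  exact count cfg hW4 hfpf' (cw_bound cfg hW4)

end Cfsg.Agent.S3739
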