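import Cfsg.Statements.S3743
import Mathlib
import Cfsg.Agent.Lib.Helper9.Cores

set_option autoImplicit false
open Cfsg

namespace Cfsg.Agent.S3743

open Cfsg.Agent.Lib.Helper9

universe u

def PiG (π : Set ℕ) : ∀ (H : Type u) [Group H], Prop :=
  fun H _ => ∀ p : ℕ, p.Prime → p ∣ Nat.card H → p ∈ π

theorem piCore_eq_rad (π : Set ℕ) (G : Type u) [Group G] : Cfsg.piCore π G = rad (PiG π) G := rfl

theorem PiG_isoInv (π : Set ℕ) : IsoInv (PiG.{u} π) := fun H K _ _ e h => by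
  intro p hp hd
  rw [← Nat.card_congr e.toEquiv] at hd
  exact h p hp hd

theorem PiG_supClosed (π : Set ℕ) : SupClosed (PiG.{u} π) := fun _ _ _ A B _ hB h1 h2 => by
  have := hB
  intro p hp hd
  have h3 := hd.trans (Cfsg.Agent.Lib.Helper9.card_sup_dvd A B)
  rcases (Nat.Prime.dvd_mul hp).mp h3 with h4 | h4
  · exact h1 p hp h4
  · exact h2 p hp h4

theorem PiG_botMem (π : Set ℕ) : BotMem (PiG.{u} π) := fun G _ => by
  intro p hp hd
  exfalso
  have h1 : Nat.card (⊥ : Subgroup G) = 1 := by simp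
  rw [h1] at hd
  exact hp.one_lt.ne' (Nat.dvd_one.mp hd)

theorem result {G : Type*} [Group G] [Finite G] (A : Subgroup G) (hA : A.IsSubnormal) : (Group.IsNilpotent A → A ≤ Cfsg.fittingSubgroup G) ∧ ∀ π : Set ℕ, (∀ p : ℕ, p.Prime → p ∣ Nat.card A → p ∈ π) → A ≤ Cfsg.piCore π G := by
  refine ⟨fun h => le_fitting_of_isSubnormal hA h, ?_⟩
  intro π h
  rw [piCore_eq_rad]
  exact IsSubnormal.le_rad (PiG_isoInv π) (PiG_supClosed π) (PiG_botMem π) hA h

end Cfsg.Agent.S3743
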