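import Cfsg.Statements.S3745
import Mathlib
import Cfsg.Agent.Lib.Helper20.InvHall

set_option autoImplicit false
open Cfsg

namespace Cfsg.Agent.S3745

open Cfsg.Agent.Lib.Helper20

theorem result {X : Type*} [Group X] [Finite X] (A G : Subgroup X) (hAG : A ≤ Subgroup.normalizer (G : Set X)) (hcop : (Nat.card A).Coprime (Nat.card G)) (hsolv : Group.IsSolvable G) (π : Set ℕ) : (∃ H : Subgroup X, Cfsg.IsPiHallOf π H G ∧ A ≤ Subgroup.normalizer (H : Set X)) ∧ (∀ H₁ H₂ : Subgroup X, Cfsg.IsPiHallOf π H₁ G → A ≤ Subgroup.normalizer (H₁ : Set X) → Cfsg.IsPiHallOf π H₂ G → A ≤ Subgroup.normalizer (H₂ : Set X) → ∃ c ∈ G ⊓ Subgroup.centralizer (A : Set X), H₂ = H₁.map (MulAut.conj c).toMonoidHom) ∧ (∀ U : Subgroup X, U ≤ G → A ≤ Subgroup.normalizer (U : Set X) → (∀ p : ℕ, p.Prime → p ∣ Nat.card U → p ∈ π) → ∃ H : Subgroup X, Cfsg.IsPiHallOf π H G ∧ A ≤ Subgroup.normalizer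 (H : Set X) ∧ U ≤ H) := by
  haveI := hsolv
  obtain ⟨m, n, hmn, hcopmn, hm, hn⟩ := InvHall.exists_pi_part π (Nat.card G) Nat.card_pos
  obtain ⟨hex, hconj⟩ := InvHall.inv_hall_card A G hAG hcop m n hmn hcopmn
  refine ⟨?_, ?_, ?_⟩
  · obtain ⟨H, hHG, hHc, hAH⟩ := hex
    exact ⟨H, (InvHall.hall_iff π G m n hmn hm hn H).2 ⟨hHG, hHc⟩, hAH⟩
  · intro H₁ H₂ h1 n1 h2 n2
    obtain ⟨h1G, h1c⟩ := (InvHall.hall_iff π G m n hmn hm hn H₁).1 h1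
    obtain ⟨h2G, h2c⟩ := (InvHall.hall_iff π G m n hmn hm hn H₂).1 h2
    exact hconj H₁ H₂ h1G h1c n1 h2G h2c n2
  · intro U hUG hAU hUπ
    exact InvHall.inv_hall_le π _ X A G U rfl hAG hcop hsolv hUG hAU hUπ

end Cfsg.Agent.S3745
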