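import Cfsg.Statements.S3746
import Mathlib
import Cfsg.Agent.Lib.Helper20.QS
import Cfsg.Agent.Lib.Helper16.Basic

set_option autoImplicit false
open Cfsg

namespace Cfsg.Agent.S3746

open Cfsg.Agent.Lib.Helper20.QS Cfsg.Agent.Lib.Helper9
open scoped commutatorElement

theorem result {G : Type*} [Group G] [Finite G] (Z : Subgroup G) (hZ : Z ≤ Subgroup.center G) [Z.Normal] (E : Subgroup G) (hZE : Z ≤ E) (hE : Cfsg.IsComponent (E.map (QuotientGroup.mk' Z))) : Cfsg.IsComponent ⁅E, E⁆ := by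
  obtain ⟨π, hπ⟩ : ∃ π : G →* G ⧸ Z, π = QuotientGroup.mk' Z := ⟨_, rfl⟩
  rw [← hπ] at hE
  have hker : π.ker = Z := by rw [hπ]; exact QuotientGroup.ker_mk' Z
  have hZc : ∀ z ∈ Z, ∀ g : G, g * z = z * g :=
    fun z hz g => Subgroup.mem_center_iff.mp (hZ hz) g
  have hEb := hE.2
  have hperfb : ⁅E.map π, E.map π⁆ = E.map π := (isPerfect_iff _).mp hEb.1
  obtain ⟨K, hK⟩ : ∃ K : Subgroup G, K = ⁅E, E⁆ := ⟨_, rfl⟩
  rw [← hK]
  have hKE : K ≤ E := hK ▸ commutator_le_self E
  have hKmap : K.map π = E.map π := by rw [hK, Subgroup.map_commutator, hperfb]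
  have hEsup : E ≤ K ⊔ Z := by
    have h1 : E ≤ (E.map π).comap π := Subgroup.le_comap_map _ _
    rw [← hKmap, Subgroup.comap_map_eq, hker] at h1
    exact h1
  have hdecomp : ∀ e ∈ E, ∃ k ∈ K, ∃ z ∈ Z, e = k * z := by
    intro e he
    obtain ⟨k, hk, z, hz, rfl⟩ := Subgroup.mem_sup_of_normal_right.mp (hEsup he)
    exact ⟨k, hk, z, hz, rfl⟩
  have hKperf : ⁅K, K⁆ = K := by
    apply le_antisymm (commutator_le_self K)
    have h1 : ⁅E, E⁆ ≤ ⁅K, K⁆ := by
      rw [Subgroup.commutator_le]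
      intro a ha b hb
      obtain ⟨k, hk, z, hz, rfl⟩ := hdecomp a ha
      obtain ⟨k', hk', z', hz', rfl⟩ := hdecomp b hb
      rw [commutatorElement_central hZ k z k' z' hz hz']
      exact Subgroup.commutator_mem_commutator hk hk'
    rw [← hK] at h1
    exact h1
  have hEcomap : (E.map π).comap π = E := by
    rw [Subgroup.comap_map_eq, hker, sup_eq_left.mpr hZE]
  have hEsn : E.IsSubnormal := hEcomap ▸ hE.1.comap π
  have hKn : (K.subgroupOf E).Normal := by
    rw [Subgroup.normal_subgroupOf_iff_le_normalizer hKE, hK]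
    exact Cfsg.Agent.Lib.Helper16.Basic.le_normalizer_commutator_left E E
  have hKsn : K.IsSubnormal := Subgroup.IsSubnormal.step K E hKE hEsn hKn
  have hKb : K ≠ ⊥ := by
    intro h
    have h1 : E.map π = ⊥ := by rw [← hKmap, h, Subgroup.map_bot]
    have h2 := qs_nontrivial hEb
    rw [Subgroup.nontrivial_iff_ne_bot] at h2
    exact h2 h1
  refine ⟨hKsn, qs_of_internal K hKperf hKb ?_⟩
  intro M hMK hnorm
  have h1 := qs_internal hEb (M.map π) (by rw [← hKmap]; exact Subgroup.map_mono hMK) (by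
    rw [← hKmap]
    exact (Subgroup.map_mono hnorm).trans (Subgroup.le_normalizer_map π))
  rcases h1 with h | h
  · left
    have hMKZ : ⁅M, K⁆ ≤ Z := by
      rw [Subgroup.commutator_le]
      intro m hm k hk
      rw [← hker, MonoidHom.mem_ker, map_commutatorElement,
        commutatorElement_eq_one_iff_mul_comm]
      exact h _ (Subgroup.mem_map_of_mem π hm) _ (hKmap ▸ Subgroup.mem_map_of_mem π hk)
    have hZK : ∀ X : Subgroup G, X ≤ Z → ⁅X, K⁆ = ⊥ := by
      intro X hX
      rw [eq_bot_iff, Subgroup.commutator_le]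
      intro x hx k hk
      rw [Subgroup.mem_bot, commutatorElement_eq_one_iff_mul_comm]
      exact (hZc x (hX hx) k).symm
    have h3 : ⁅⁅K, K⁆, M⁆ = ⊥ := by
      apply Subgroup.commutator_commutator_eq_bot_of_rotate
      · rw [Subgroup.commutator_comm K M]
        exact hZK _ hMKZ
      · exact hZK _ hMKZ
    rw [hKperf] at h3
    intro m hm k hk
    have h4 : ⁅k, m⁆ ∈ ⁅K, M⁆ := Subgroup.commutator_mem_commutator hk hm
    rw [h3, Subgroup.mem_bot, commutatorElement_eq_one_iff_mul_comm] at h4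
    exact h4.symm
  · right
    apply le_antisymm hMK
    have h5 : K ≤ M ⊔ Z := by
      have h6 : K ≤ (K.map π).comap π := Subgroup.le_comap_map _ _
      rw [hKmap, ← h, Subgroup.comap_map_eq, hker] at h6
      exact h6
    have h7 : ⁅K, K⁆ ≤ M := by
      rw [Subgroup.commutator_le]
      intro a ha b hb
      obtain ⟨m, hm, z, hz, rfl⟩ := Subgroup.mem_sup_of_normal_right.mp (h5 ha)
      obtain ⟨m', hm', z', hz', rfl⟩ := Subgroup.mem_sup_of_normal_right.mp (h5 hb)
      rw [commutatorElement_central hZ m z m' z' hz hz']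
      exact M.mul_mem (M.mul_mem (M.mul_mem hm hm') (M.inv_mem hm)) (M.inv_mem hm')
    rw [hKperf] at h7
    exact h7

end Cfsg.Agent.S3746
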