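import Cfsg.Statements.S3747
import Mathlib
import Cfsg.Agent.Lib.Helper9.Central

set_option autoImplicit false
open Cfsg

namespace Cfsg.Agent.S3747

open Cfsg.Agent.Lib.Helper9
open scoped commutatorElement

universe u

open Classical in
theorem eq_one_of_centralizes {G : Type*} [Group G] (S : Finset (Subgroup G))
    (hcomm : ∀ A ∈ S, ∀ B ∈ S, A ≠ B → ⁅A, B⁆ = ⊥)
    (hcen : ∀ A ∈ S, ∀ a ∈ A, (∀ b ∈ A, a * b = b * a) → a = 1) :
    ∀ z ∈ sSup (S : Set (Subgroup G)), (∀ A ∈ S, ∀ a ∈ A, z * a = a * z) → z = 1 := by
  induction S using Finset.induction_on with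
  | empty =>
    intro z hz _
    simpa using hz
  | insert K S hKS ih =>
    intro z hz hzc
    rw [Finset.coe_insert, sSup_insert] at hz
    have hKS' : ⁅K, sSup (S : Set (Subgroup G))⁆ = ⊥ := by
      rw [Subgroup.commutator_comm, Subgroup.commutator_eq_bot_iff_le_centralizer]
      apply sSup_le
      intro B hB
      rw [← Subgroup.commutator_eq_bot_iff_le_centralizer]
      exact hcomm B (Finset.mem_insert_of_mem hB) K (Finset.mem_insert_self K S)
        (fun h => hKS (h ▸ hB))
    obtain ⟨k, hk, a, ha, rfl⟩ := (mem_sup_of_commute hKS').mp hz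
    have hk1 : k = 1 := by
      apply hcen K (Finset.mem_insert_self K S) k hk
      intro b hb
      have h1 := hzc K (Finset.mem_insert_self K S) b hb
      have h2 : b * a = a * b := commute_of_commutator_eq_bot hKS' hb ha
      calc k * b = (k * a * b) * a⁻¹ := by rw [mul_assoc k a b, ← h2]; group
        _ = (b * (k * a)) * a⁻¹ := by rw [h1]
        _ = b * k := by group
    rw [hk1, one_mul] at hzc ⊢
    apply ih (fun A hA B hB hne => hcomm A (Finset.mem_insert_of_mem hA) B
      (Finset.mem_insert_of_mem hB) hne)
      (fun A hA => hcen A (Finset.mem_insert_of_mem hA)) a ha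
    intro A hA b hb
    exact hzc A (Finset.mem_insert_of_mem hA) b hb

theorem part_a {G : Type u} [Group G] [Finite G] (K : Subgroup G) (hK : IsComponent K)
    (hZ : Subgroup.center ↥K = ⊥) :
    Subgroup.normalClosure (K : Set G) ≠ ⊥ ∧ ∀ N : Subgroup G, N.Normal →
      N ≤ Subgroup.normalClosure (K : Set G) → N = ⊥ ∨ N = Subgroup.normalClosure (K : Set G) := by
  classical
  have := Fintype.ofFinite G
  have hKnt : K ≠ ⊥ := by
    have := qs_nontrivial hK.2
    exact (Subgroup.nontrivial_iff_ne_bot K).mp this
  constructor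
  · intro h
    exact hKnt (le_bot_iff.mp (h ▸ Subgroup.le_normalClosure))
  · intro N hN hNL
    rcases component_le_or_commute hK hN.isSubnormal with h | h
    · right
      exact le_antisymm hNL (Subgroup.normalClosure_le_normal h)
    · left
      rw [eq_bot_iff]
      intro z hz
      rw [Subgroup.mem_bot]
      obtain ⟨S, hSdef⟩ : ∃ S : Finset (Subgroup G),
          S = Finset.univ.image (fun g : G => K.map (MulAut.conj g).toMonoidHom) := ⟨_, rfl⟩
      have hS : ∀ A ∈ S, ∃ g : G, A = K.map (MulAut.conj g).toMonoidHom := by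
        intro A hA
        rw [hSdef] at hA
        obtain ⟨g, -, rfl⟩ := Finset.mem_image.mp hA
        exact ⟨g, rfl⟩
      have hcomp : ∀ A ∈ S, IsComponent A := by
        intro A hA
        obtain ⟨g, rfl⟩ := hS A hA
        exact isComponent_map_equiv (MulAut.conj g) hK
      apply eq_one_of_centralizes S
      · intro A hA B hB hne
        exact component_commute (hcomp A hA) (hcomp B hB) hne
      · intro A hA a ha hcen
        obtain ⟨g, rfl⟩ := hS A hA
        obtain ⟨k, hk, rfl⟩ := ha
        have h1 : (⟨k, hk⟩ : K) ∈ Subgroup.center ↥K := by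
          rw [Subgroup.mem_center_iff]
          intro b
          apply Subtype.ext
          have h2 := hcen (g * b * g⁻¹) ⟨b, b.2, rfl⟩
          simp only [MulEquiv.coe_toMonoidHom, MulAut.conj_apply] at h2
          show (b : G) * k = k * b
          calc (b : G) * k = g⁻¹ * ((g * b * g⁻¹) * (g * k * g⁻¹)) * g := by group
            _ = g⁻¹ * ((g * k * g⁻¹) * (g * b * g⁻¹)) * g := by rw [h2]
            _ = k * b := by group
        rw [hZ, Subgroup.mem_bot] at h1
        have h4 : k = 1 := congrArg Subtype.val h1
        rw [h4]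
        simp
      · have hle : Subgroup.normalClosure (K : Set G) ≤ sSup (S : Set (Subgroup G)) := by
          unfold Subgroup.normalClosure
          rw [Subgroup.closure_le]
          intro x hx
          rw [Group.mem_conjugatesOfSet_iff] at hx
          obtain ⟨a, ha, hax⟩ := hx
          obtain ⟨g, rfl⟩ := isConj_iff.mp hax
          have h5 : K.map (MulAut.conj g).toMonoidHom ≤ sSup (S : Set (Subgroup G)) := by
            apply le_sSup
            rw [Finset.mem_coe, hSdef]
            exact Finset.mem_image.mpr ⟨g, Finset.mem_univ g, rfl⟩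
          exact h5 ⟨a, ha, rfl⟩
        exact hle (hNL hz)
      · intro A hA a ha
        obtain ⟨g, rfl⟩ := hS A hA
        obtain ⟨k, hk, rfl⟩ := ha
        have h1 : g⁻¹ * z * g ∈ N := by
          have := hN.conj_mem z hz g⁻¹
          simpa using this
        have h2 := commute_of_commutator_eq_bot h hk h1
        simp only [MulEquiv.coe_toMonoidHom, MulAut.conj_apply]
        calc z * (g * k * g⁻¹) = g * ((g⁻¹ * z * g) * k) * g⁻¹ := by group
          _ = g * (k * (g⁻¹ * z * g)) * g⁻¹ := by rw [h2]
          _ = g * k * g⁻¹ * z := by group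

theorem part_b {G : Type u} [Group G] [Finite G] (hF : fittingSubgroup G = ⊥) :
    sSup {N : Subgroup G | N ≠ ⊥ ∧ N.Normal ∧
      ∀ N' : Subgroup G, N'.Normal → N' ≤ N → N' = ⊥ ∨ N' = N} = layer G := by
  apply le_antisymm
  · apply sSup_le
    rintro N ⟨hNb, hNn, hNmin⟩
    have hEn := layer_normal G
    have hinf : (N ⊓ layer G).Normal := Subgroup.normal_inf_normal N (layer G)
    rcases hNmin _ hinf inf_le_left with h | h
    · exfalso
      have h1 : ⁅N, layer G⁆ = ⊥ := by
        rw [eq_bot_iff, ← h]
        exact le_inf (Subgroup.commutator_le_left N (layer G))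
          (Subgroup.commutator_le_right N (layer G))
      have hgf : generalizedFittingSubgroup G = layer G := by
        unfold generalizedFittingSubgroup
        rw [hF, sup_bot_eq]
      have h2 : N ≤ Subgroup.centralizer (layer G : Set G) :=
        Subgroup.commutator_eq_bot_iff_le_centralizer.mp h1
      have h3 := centralizer_gfitting_le G
      rw [hgf] at h3
      have h4 : N ≤ N ⊓ layer G := le_inf le_rfl (h2.trans h3)
      rw [h] at h4
      exact hNb (le_bot_iff.mp h4)
    · exact h ▸ inf_le_right
  · apply sSup_le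
    intro K hK
    have hZ : Subgroup.center ↥K = ⊥ := by
      have hsn : ((Subgroup.center ↥K).map K.subtype).IsSubnormal :=
        Subgroup.IsSubnormal.trans' (Subgroup.Normal.isSubnormal inferInstance) hK.1
      have hnil : Group.IsNilpotent ((Subgroup.center ↥K).map K.subtype) := by
        have h1 : Group.IsNilpotent (Subgroup.center ↥K) := isNilpotent_of_isMulCommutative _
        exact Group.nilpotent_of_mulEquiv
          ((Subgroup.center ↥K).equivMapOfInjective K.subtype K.subtype_injective)
      have h1 := le_fitting_of_isSubnormal hsn hnil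
      rw [hF] at h1
      rw [eq_bot_iff]
      intro z hz
      have h2 : (z : G) ∈ (Subgroup.center ↥K).map K.subtype := ⟨z, hz, rfl⟩
      have h3 := h1 h2
      rw [Subgroup.mem_bot] at h3 ⊢
      exact Subtype.ext h3
    have hmin := part_a K hK hZ
    exact Subgroup.le_normalClosure.trans
      (le_sSup ⟨hmin.1, Subgroup.normalClosure_normal, hmin.2⟩)

theorem result {G : Type*} [Group G] [Finite G] : (∀ K : Subgroup G, Cfsg.IsComponent K → Subgroup.center ↥K = ⊥ → (Subgroup.normalClosure (K : Set G) ≠ ⊥ ∧ ∀ N : Subgroup G, N.Normal → N ≤ Subgroup.normalClosure (K : Set G) → N = ⊥ ∨ N = Subgroup.normalClosure (K : Set G))) ∧ (Cfsg.fittingSubgroup G = ⊥ → sSup {N : Subgroup G | N ≠ ⊥ ∧ N.Normal ∧ ∀ N' : Subgroup G, N'.Normal → N' ≤ N → N' = ⊥ ∨ N' = N} = Cfsg.layer G) := by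
  exact ⟨fun K hK hZ => part_a K hK hZ, fun hF => part_b hF⟩

end Cfsg.Agent.S3747
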