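import Cfsg.Statements.S3748
import Mathlib
import Cfsg.Agent.S0538
import Cfsg.Agent.S0064
import Cfsg.Agent.Lib.Helper9.Cores

set_option autoImplicit false
open Cfsg

namespace Cfsg.Agent.S3748

theorem part_one {G : Type*} [Group G] [Finite G] (M : Subgroup G) (hM : M ≠ ⊤) (hprim : ∀ N : Subgroup G, N ≤ M → M ≤ Subgroup.normalizer (N : Set G) → N ≠ ⊥ → Subgroup.normalizer (N : Set G) = M) :
    ∀ L : Subgroup G, L.IsSubnormal → L ≤ M → L = ⊥ := by
  set S : Set (Subgroup G) := {L : Subgroup G | L.IsSubnormal ∧ L ≤ M} with hS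
  set W : Subgroup G := sSup S with hW
  have hWM : W ≤ M := sSup_le (fun L hL => hL.2)
  have hWsn : W.IsSubnormal :=
    Cfsg.Agent.Lib.Helper9.sSup_induction (G := G) (fun A => A.IsSubnormal)
      Subgroup.IsSubnormal.bot (fun A B hA hB => Cfsg.Agent.S0538.result A B hA hB) S
      (fun A hA => hA.1)
  have hconj : ∀ m ∈ M, W ≤ W.comap (MulAut.conj m).toMonoidHom := by
    intro m hm
    apply sSup_le
    intro L hL
    rw [← Subgroup.map_le_iff_le_comap]
    apply le_sSup
    refine ⟨?_, ?_⟩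
    · have h1 := hL.1.smul (MulAut.conj m)
      exact h1
    · rintro _ ⟨x, hx, rfl⟩
      simp only [MulEquiv.coe_toMonoidHom, MulAut.conj_apply]
      exact M.mul_mem (M.mul_mem hm (hL.2 hx)) (M.inv_mem hm)
  have hMN : M ≤ Subgroup.normalizer (W : Set G) := by
    intro m hm
    rw [Subgroup.mem_normalizer_iff]
    intro h
    constructor
    · intro hh
      have := hconj m hm hh
      simpa [MulAut.conj_apply] using this
    · intro hh
      have := hconj m⁻¹ (M.inv_mem hm) hh
      simpa [MulAut.conj_apply, mul_assoc] using this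
  intro L hL hLM
  by_cases hWb : W = ⊥
  · have : L ≤ W := le_sSup ⟨hL, hLM⟩
    rw [hWb] at this
    exact le_bot_iff.mp this
  · exfalso
    have hN := hprim W hWM hMN hWb
    have hWtop : W ≠ ⊤ := by
      intro h
      apply hM
      rw [h] at hWM
      exact top_le_iff.mp hWM
    rcases Subgroup.IsSubnormal.iff_eq_top_or_exists.mp hWsn with h | ⟨K, hWK, hKsn, hKn⟩
    · exact hWtop h
    · rw [Subgroup.normal_subgroupOf_iff_le_normalizer hWK.le] at hKn
      rw [hN] at hKn
      have : K ≤ W := le_sSup ⟨hKsn, hKn⟩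
      exact (not_le_of_gt hWK) this

theorem result {G : Type*} [Group G] [Finite G] (M : Subgroup G) (hM : M ≠ ⊤) (hprim : ∀ N : Subgroup G, N ≤ M → M ≤ Subgroup.normalizer (N : Set G) → N ≠ ⊥ → Subgroup.normalizer (N : Set G) = M) : (∀ L : Subgroup G, L.IsSubnormal → L ≤ M → L = ⊥) ∧ M ⊓ Cfsg.fittingSubgroup G = ⊥ := by
  have h1 := part_one M hM hprim
  refine ⟨h1, ?_⟩
  apply h1 _ _ inf_le_left
  have hF : (Cfsg.fittingSubgroup G).Normal := Cfsg.Agent.Lib.Helper9.fitting_normal G
  have hnil : Group.IsNilpotent (Cfsg.fittingSubgroup G) := Cfsg.Agent.Lib.Helper9.fitting_isNilpotent G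
  have h2 : ((M ⊓ Cfsg.fittingSubgroup G).subgroupOf (Cfsg.fittingSubgroup G)).IsSubnormal :=
    Cfsg.Agent.S0064.result.mp hnil _
  exact Subgroup.IsSubnormal.trans inf_le_right h2 hF.isSubnormal

end Cfsg.Agent.S3748
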