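import Cfsg.Statements.S3750
import Mathlib
import Cfsg.Agent.Lib.Helper9.CharP
import Cfsg.Agent.Lib.Helper10.Coprime

set_option autoImplicit false
open Cfsg

namespace Cfsg.Agent.S3750

open Cfsg.Agent.Lib.Helper9

theorem center_ne_bot_of_nilpotent {H : Type*} [Group H] [Group.IsNilpotent H] [Nontrivial H] :
    Subgroup.center H ≠ ⊥ := by
  intro h
  have h1 : ∀ n : ℕ, Subgroup.upperCentralSeries H n = ⊥ := by
    intro n
    induction n with
    | zero => exact Subgroup.upperCentralSeries_zero H
    | succ n ih =>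
      rw [eq_bot_iff]
      intro x hx
      rw [Subgroup.mem_upperCentralSeries_succ_iff] at hx
      have h2 : x ∈ Subgroup.center H := by
        rw [Subgroup.mem_center_iff]
        intro y
        have h3 := hx y
        rw [ih, Subgroup.mem_bot] at h3
        have h4 : x * y * x⁻¹ * y⁻¹ = 1 := h3
        have h5 : x * y = y * x := by
          have : x * y = (x * y * x⁻¹ * y⁻¹) * (y * x) := by group
          rw [this, h4, one_mul]
        exact h5.symm
      rw [h] at h2
      exact h2
  obtain ⟨n, hn⟩ := Group.IsNilpotent.nilpotent H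
  rw [h1 n] at hn
  exact bot_ne_top hn

theorem result {G : Type*} [Group G] [Finite G] (M : Subgroup G) (hM : M ≠ ⊤) (hprim : ∀ N : Subgroup G, N ≤ M → M ≤ Subgroup.normalizer (N : Set G) → N ≠ ⊥ → Subgroup.normalizer (N : Set G) = M) (N : Subgroup G) [N.Normal] (hMF : M ⊓ (Cfsg.generalizedFittingSubgroup ↥N).map N.subtype ≠ ⊥) : Cfsg.fittingSubgroup G = ⊥ ∧ (Cfsg.generalizedFittingSubgroup ↥N).map N.subtype = Cfsg.generalizedFittingSubgroup G ∧ Cfsg.generalizedFittingSubgroup G = Cfsg.layer G ∧ ∀ K : Subgroup G, K.Normal → K ≠ ⊥ → (∀ K' : Subgroup G, K'.Normal → K' ≤ K → K' = ⊥ ∨ K' = K) → K ≤ N := by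
  haveI hchar : (Cfsg.generalizedFittingSubgroup ↥N).Characteristic :=
    Subgroup.characteristic_iff_map_eq.mpr (fun ϕ => gfitting_map_equiv ϕ)
  obtain ⟨Fs, hFs⟩ : ∃ Fs : Subgroup G, Fs = (Cfsg.generalizedFittingSubgroup ↥N).map N.subtype :=
    ⟨_, rfl⟩
  rw [← hFs] at hMF ⊢
  haveI hFsn : Fs.Normal := by
    rw [hFs]; exact ConjAct.normal_of_characteristic_of_normal
  have hFsN : Fs ≤ N := by rw [hFs]; exact Subgroup.map_subtype_le _
  have hDnorm : Subgroup.normalizer ((M ⊓ Fs : Subgroup G) : Set G) = M := by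
    apply hprim _ inf_le_left _ hMF
    intro m hm
    apply Cfsg.Agent.Lib.Helper10.Coprime.mem_normalizer_of_conj_mem
    intro s hs
    exact Subgroup.mem_inf.2 ⟨M.mul_mem (M.mul_mem hm (Subgroup.mem_inf.1 hs).1) (M.inv_mem hm),
      hFsn.conj_mem s (Subgroup.mem_inf.1 hs).2 m⟩
  have hnM : ∀ X : Subgroup G, X.Normal → X ≤ M → X = ⊥ := by
    intro X hX hXM
    by_contra hX1
    have h1 : Subgroup.normalizer (X : Set G) = ⊤ := Subgroup.normalizer_eq_top_iff.2 hX
    have h2 := hprim X hXM (by rw [h1]; exact le_top) hX1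
    rw [h1] at h2
    exact hM h2.symm
  have hcent : Subgroup.centralizer (Fs : Set G) = ⊥ := by
    apply hnM _ Subgroup.normal_centralizer
    intro c hc
    rw [← hDnorm]
    apply Cfsg.Agent.Lib.Helper10.Coprime.mem_normalizer_of_conj_mem
    intro s hs
    have h1 : s * c = c * s := (Subgroup.mem_centralizer_iff.1 hc) s (Subgroup.mem_inf.1 hs).2
    have h2 : c * s * c⁻¹ = s := by rw [← h1]; group
    rw [h2]; exact hs
  have hFN : Cfsg.fittingSubgroup ↥N = ⊥ := by
    by_contra hne
    haveI : Group.IsNilpotent (Cfsg.fittingSubgroup ↥N) := fitting_isNilpotent ↥N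
    haveI : Nontrivial (Cfsg.fittingSubgroup ↥N) := (Subgroup.nontrivial_iff_ne_bot _).2 hne
    have hz := center_ne_bot_of_nilpotent (H := Cfsg.fittingSubgroup ↥N)
    obtain ⟨z', hz2⟩ := (Subgroup.ne_bot_iff_exists_ne_one).1 hz
    obtain ⟨z, hzdef⟩ : ∃ z : Cfsg.fittingSubgroup ↥N, z = (z' : Cfsg.fittingSubgroup ↥N) := ⟨_, rfl⟩
    have hzcen : z ∈ Subgroup.center (Cfsg.fittingSubgroup ↥N) := by rw [hzdef]; exact z'.2
    have hzc : ((z : Cfsg.fittingSubgroup ↥N) : ↥N) ∈
        Subgroup.centralizer (Cfsg.generalizedFittingSubgroup ↥N : Set ↥N) := by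
      have h1 : Cfsg.generalizedFittingSubgroup ↥N ≤
          Subgroup.centralizer (Subgroup.zpowers ((z : Cfsg.fittingSubgroup ↥N) : ↥N) : Set ↥N) := by
        unfold generalizedFittingSubgroup
        apply sup_le
        · intro e he
          rw [Subgroup.mem_centralizer_iff]
          intro y hy
          obtain ⟨k, rfl⟩ := Subgroup.mem_zpowers_iff.1 hy
          have h2 : e * ((z : Cfsg.fittingSubgroup ↥N) : ↥N) = ((z : Cfsg.fittingSubgroup ↥N) : ↥N) * e :=
            commute_of_commutator_eq_bot (layer_commutator_fitting ↥N) he (Subtype.property _)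
          have h3 : Commute e ((z : Cfsg.fittingSubgroup ↥N) : ↥N) := h2
          exact (h3.zpow_right k).eq.symm
        · intro f hf
          rw [Subgroup.mem_centralizer_iff]
          intro y hy
          obtain ⟨k, rfl⟩ := Subgroup.mem_zpowers_iff.1 hy
          have h2 := (Subgroup.mem_center_iff.1 hzcen) ⟨f, hf⟩
          have h3 : f * ((z : Cfsg.fittingSubgroup ↥N) : ↥N) = ((z : Cfsg.fittingSubgroup ↥N) : ↥N) * f := by
            have := congrArg Subtype.val h2
            exact this
          have h4 : Commute f ((z : Cfsg.fittingSubgroup ↥N) : ↥N) := h3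
          exact (h4.zpow_right k).eq.symm
      have h5 := Subgroup.le_centralizer_iff.1 h1
      exact h5 (Subgroup.mem_zpowers _)
    have hzG : (((z : Cfsg.fittingSubgroup ↥N) : ↥N) : G) ∈ Subgroup.centralizer (Fs : Set G) := by
      rw [Subgroup.mem_centralizer_iff]
      intro y hy
      rw [hFs] at hy
      obtain ⟨y', hy', rfl⟩ := Subgroup.mem_map.1 hy
      have h1 := (Subgroup.mem_centralizer_iff.1 hzc) y' hy'
      have h2 := congrArg Subtype.val h1
      exact h2
    rw [hcent, Subgroup.mem_bot] at hzG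
    apply hz2
    apply Subtype.ext
    apply Subtype.ext
    apply Subtype.ext
    rw [← hzdef]
    exact hzG
  have hFG : Cfsg.fittingSubgroup G = ⊥ := by
    haveI := fitting_normal G
    have h1 : Cfsg.fittingSubgroup G ⊓ N = ⊥ := by
      rw [← fitting_subtype_eq_inf N, hFN, Subgroup.map_bot]
    have h2 : ⁅Cfsg.fittingSubgroup G, N⁆ = ⊥ := by
      rw [eq_bot_iff, ← h1]
      exact Subgroup.commutator_le_inf _ _
    have h3 : Cfsg.fittingSubgroup G ≤ Subgroup.centralizer (Fs : Set G) := by
      have h4 := Subgroup.commutator_eq_bot_iff_le_centralizer.1 h2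
      exact h4.trans (Subgroup.centralizer_le hFsN)
    rw [hcent] at h3
    exact le_bot_iff.1 h3
  have hFsL : Fs = (Cfsg.layer ↥N).map N.subtype := by
    rw [hFs]
    unfold generalizedFittingSubgroup
    rw [hFN, sup_bot_eq]
  have hge : Cfsg.layer G ≤ Fs := by
    apply sSup_le
    intro L hL
    rcases component_le_or_commute hL hFsn.isSubnormal with h | h
    · exact h
    · exfalso
      have h1 := Subgroup.commutator_eq_bot_iff_le_centralizer.1 h
      rw [hcent] at h1
      have h2 : L = ⊥ := le_bot_iff.1 h1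
      haveI := qs_nontrivial hL.2
      exact (Subgroup.nontrivial_iff_ne_bot L).1 inferInstance h2
  have hle : Fs ≤ Cfsg.layer G := by
    rw [hFsL]
    have hNn : N.Normal := inferInstance
    exact layer_subtype_le hNn.isSubnormal
  have hEq : Fs = Cfsg.layer G := le_antisymm hle hge
  have hgf : Cfsg.generalizedFittingSubgroup G = Cfsg.layer G := by
    unfold generalizedFittingSubgroup
    rw [hFG, sup_bot_eq]
  refine ⟨hFG, ?_, hgf, ?_⟩
  · rw [hgf, hEq]
  · intro K hK hK1 hmin
    haveI := hK
    have h1 : (K ⊓ Fs).Normal := Subgroup.normal_inf_normal K Fs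
    rcases hmin (K ⊓ Fs) h1 inf_le_left with h | h
    · exfalso
      have h2 : ⁅K, Fs⁆ = ⊥ := by
        rw [eq_bot_iff, ← h]
        exact Subgroup.commutator_le_inf _ _
      have h3 := Subgroup.commutator_eq_bot_iff_le_centralizer.1 h2
      rw [hcent] at h3
      exact hK1 (le_bot_iff.1 h3)
    · have h2 : K ≤ Fs := by
        rw [← h]; exact inf_le_right
      exact h2.trans hFsN

end Cfsg.Agent.S3750
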