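import Cfsg.Statements.S3751
import Mathlib
import Cfsg.Agent.Lib.Helper16.Basic

set_option autoImplicit false
open Cfsg

namespace Cfsg.Agent.S3751

open Cfsg.Agent.Lib.Helper16.Basic

section aux

variable {G : Type*} [Group G] [Finite G] {p : ℕ} [Fact p.Prime]

def IsLoc (p : ℕ) (M : Subgroup G) : Prop :=
  ∃ T : Subgroup G, IsPGroup p T ∧ T ≠ ⊥ ∧ M = Subgroup.normalizer (T : Set G)

def IsMaxLoc (p : ℕ) (M : Subgroup G) : Prop :=
  IsLoc p M ∧ ∀ L : Subgroup G, IsLoc p L → M ≤ L → L = M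

def PMax (p : ℕ) (T K : Subgroup G) : Prop :=
  ∀ P : Subgroup G, IsPGroup p P → T ≤ P → P ≤ K → P = T

omit [Fact p.Prime] in
theorem exists_maxLoc_ge {L : Subgroup G} (hL : IsLoc p L) : ∃ M, IsMaxLoc p M ∧ L ≤ M := by
  haveI : Nonempty {M : Subgroup G // IsLoc p M ∧ L ≤ M} := ⟨⟨L, hL, le_rfl⟩⟩
  obtain ⟨M₀, hM₀⟩ := Finite.exists_max (fun M : {M : Subgroup G // IsLoc p M ∧ L ≤ M} =>
    Nat.card (M.1 : Subgroup G))
  refine ⟨M₀.1, ⟨M₀.2.1, ?_⟩, M₀.2.2⟩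
  intro L' hL' hle
  have h1 := hM₀ ⟨L', hL', M₀.2.2.trans hle⟩
  exact (Subgroup.eq_of_le_of_card_ge hle h1).symm

omit [Finite G] [Fact p.Prime] in
theorem isLoc_conj {M : Subgroup G} (hM : IsLoc p M) (g : G) :
    IsLoc p (M.map (MulAut.conj g).toMonoidHom) := by
  obtain ⟨T, hT, hne, rfl⟩ := hM
  exact ⟨T.map (MulAut.conj g).toMonoidHom, isPGroup_conj hT g, conj_ne_bot hne g,
    (normalizer_conj T g).symm⟩

omit [Finite G] [Fact p.Prime] in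
theorem isMaxLoc_conj {M : Subgroup G} (hM : IsMaxLoc p M) (g : G) :
    IsMaxLoc p (M.map (MulAut.conj g).toMonoidHom) := by
  refine ⟨isLoc_conj hM.1 g, ?_⟩
  intro L hL hle
  have h1 : M ≤ L.map (MulAut.conj g⁻¹).toMonoidHom := (conj_le_iff M L g).mp hle
  have h2 := hM.2 _ (isLoc_conj hL g⁻¹) h1
  have h3 := (conj_eq_iff L M g⁻¹).mp h2
  rw [inv_inv] at h3
  exact h3

omit [Fact p.Prime] in
theorem charp_of_isLoc (hloc : Cfsg.IsOfLocalCharacteristic p G) {M : Subgroup G}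
    (hM : IsLoc p M) :
    Subgroup.centralizer (Cfsg.pCore p ↥M : Set ↥M) ≤ Cfsg.pCore p ↥M := by
  obtain ⟨T, hT, hne, rfl⟩ := hM
  exact hloc.2 T hT hne

theorem pCoreOf_ne_bot (hloc : Cfsg.IsOfLocalCharacteristic p G) {M : Subgroup G}
    (hM : IsLoc p M) {A : Subgroup G} (hA : A ≠ ⊥) (hAM : A ≤ M)
    (hMA : M ≤ Subgroup.normalizer (A : Set G)) :
    (Cfsg.pCore p ↥A).map A.subtype ≠ ⊥ := by
  intro hR
  apply hA
  have hc := charp_of_isLoc hloc hM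
  have hQn := le_normalizer_pCoreOf (p := p) M
  have hQp : IsPGroup p ((Cfsg.pCore p ↥M).map M.subtype) := pCoreOf_isPGroup
  have hQM := pCoreOf_le (p := p) M
  have h1 : A ⊓ (Cfsg.pCore p ↥M).map M.subtype ≤ (Cfsg.pCore p ↥A).map A.subtype := by
    apply le_pCoreOf inf_le_left
    · intro a ha
      rw [Subgroup.mem_normalizer_iff]
      intro h
      have han := hQn (hAM ha)
      rw [Subgroup.mem_normalizer_iff] at han
      constructor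
      · intro hh
        exact ⟨A.mul_mem (A.mul_mem ha hh.1) (A.inv_mem ha), (han h).mp hh.2⟩
      · intro hh
        refine ⟨?_, (han h).mpr hh.2⟩
        have h2 := A.mul_mem (A.mul_mem (A.inv_mem ha) hh.1) ha
        have h3 : a⁻¹ * (a * h * a⁻¹) * a = h := by group
        rwa [h3] at h2
    · exact hQp.to_le inf_le_right
  rw [hR, le_bot_iff] at h1
  rw [Subgroup.eq_bot_iff_forall]
  intro a ha
  have hcomm : ∀ q ∈ (Cfsg.pCore p ↥M).map M.subtype, a * q * a⁻¹ * q⁻¹ = 1 := by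
    intro q hq
    have h2 : a * q * a⁻¹ * q⁻¹ ∈ A ⊓ (Cfsg.pCore p ↥M).map M.subtype := by
      constructor
      · have hqn := hMA (hQM hq)
        rw [Subgroup.mem_normalizer_iff] at hqn
        have h3 : q * a⁻¹ * q⁻¹ ∈ A := (hqn a⁻¹).mp (A.inv_mem ha)
        have h4 := A.mul_mem ha h3
        have h5 : a * (q * a⁻¹ * q⁻¹) = a * q * a⁻¹ * q⁻¹ := by group
        rwa [h5] at h4
      · have han := hQn (hAM ha)
        rw [Subgroup.mem_normalizer_iff] at han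
        exact Subgroup.mul_mem _ ((han q).mp hq) (Subgroup.inv_mem _ hq)
    rw [h1] at h2
    exact Subgroup.mem_bot.mp h2
  have hmem : (⟨a, hAM ha⟩ : ↥M) ∈ Subgroup.centralizer (Cfsg.pCore p ↥M : Set ↥M) := by
    rw [Subgroup.mem_centralizer_iff]
    intro d hd
    apply Subtype.ext
    have h2 := hcomm (d : G) ⟨d, hd, rfl⟩
    show (d : G) * a = a * (d : G)
    have h3 : a * (d : G) = (a * (d : G) * a⁻¹ * (d : G)⁻¹) * ((d : G) * a) := by group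
    rw [h3, h2, one_mul]
  have haQ : a ∈ (Cfsg.pCore p ↥M).map M.subtype := ⟨⟨a, hAM ha⟩, hc hmem, rfl⟩
  have h6 : a ∈ A ⊓ (Cfsg.pCore p ↥M).map M.subtype := ⟨ha, haQ⟩
  rw [h1] at h6
  exact Subgroup.mem_bot.mp h6

theorem normalizer_le_normalizer_pCoreOf (A : Subgroup G) :
    Subgroup.normalizer (A : Set G) ≤
      Subgroup.normalizer (((Cfsg.pCore p ↥A).map A.subtype : Subgroup G) : Set G) := by
  intro g hg
  have hAg : A.map (MulAut.conj g).toMonoidHom = A := (conj_eq_self_iff A g).mpr hg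
  rw [← conj_eq_self_iff]
  have hle : ((Cfsg.pCore p ↥A).map A.subtype).map (MulAut.conj g).toMonoidHom ≤
      (Cfsg.pCore p ↥A).map A.subtype := by
    apply le_pCoreOf
    · have h1 := conj_mono g (pCoreOf_le (p := p) A)
      rwa [hAg] at h1
    · rw [normalizer_conj]
      have h1 := conj_mono g (le_normalizer_pCoreOf (p := p) A)
      rwa [hAg] at h1
    · exact isPGroup_conj pCoreOf_isPGroup g
  exact Subgroup.eq_of_le_of_card_ge hle (le_of_eq (card_conj _ g).symm)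

theorem normalizer_eq (hloc : Cfsg.IsOfLocalCharacteristic p G) {M : Subgroup G}
    (hM : IsMaxLoc p M) {A : Subgroup G} (hA : A ≠ ⊥) (hAM : A ≤ M)
    (hMA : M ≤ Subgroup.normalizer (A : Set G)) :
    Subgroup.normalizer (A : Set G) = M := by
  have hR := pCoreOf_ne_bot hloc hM.1 hA hAM hMA
  have hRp : IsPGroup p ((Cfsg.pCore p ↥A).map A.subtype) := pCoreOf_isPGroup
  have h1 := hM.2 _ ⟨_, hRp, hR, rfl⟩ (hMA.trans (normalizer_le_normalizer_pCoreOf A))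
  exact le_antisymm ((normalizer_le_normalizer_pCoreOf A).trans (le_of_eq h1)) hMA

omit [Finite G] [Fact p.Prime] in
theorem isLoc_ne_bot {M : Subgroup G} (hM : IsLoc p M) : M ≠ ⊥ := by
  obtain ⟨T, hT, hne, rfl⟩ := hM
  intro h
  apply hne
  rw [eq_bot_iff, ← h]
  exact Subgroup.le_normalizer

theorem self_normalizing (hloc : Cfsg.IsOfLocalCharacteristic p G) {M : Subgroup G}
    (hM : IsMaxLoc p M) : Subgroup.normalizer (M : Set G) = M :=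
  normalizer_eq hloc hM (isLoc_ne_bot hM.1) le_rfl Subgroup.le_normalizer

theorem pCoreOf_le_of_pMax {T M : Subgroup G} (hT : IsPGroup p T) (hTM : T ≤ M)
    (hmax : PMax p T M) : (Cfsg.pCore p ↥M).map M.subtype ≤ T := by
  have h1 : IsPGroup p (T ⊔ (Cfsg.pCore p ↥M).map M.subtype : Subgroup G) :=
    IsPGroup.to_sup_of_normal_right' hT pCoreOf_isPGroup
      (hTM.trans (le_normalizer_pCoreOf (p := p) M))
  have h2 := hmax _ h1 le_sup_left (sup_le hTM (pCoreOf_le M))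
  calc (Cfsg.pCore p ↥M).map M.subtype ≤ T ⊔ (Cfsg.pCore p ↥M).map M.subtype := le_sup_right
    _ = T := h2

theorem grow {T M : Subgroup G} (hTM : T ≤ M) (h : ¬ PMax p T M) :
    ∃ P : Subgroup G, IsPGroup p P ∧ T ≤ P ∧ P ≤ M ∧ P ≤ Subgroup.normalizer (T : Set G) ∧
      ∃ y ∈ P, y ∉ T := by
  unfold PMax at h
  push Not at h
  obtain ⟨P, hP, hTP, hPM, hne⟩ := h
  haveI : Group.IsNilpotent ↥P := hP.isNilpotent
  have hlt : T.subgroupOf P < ⊤ := by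
    rw [lt_top_iff_ne_top]
    intro h1
    apply hne
    exact le_antisymm (Subgroup.subgroupOf_eq_top.mp h1) hTP
  have h2 := Group.normalizerCondition_of_isNilpotent (G := ↥P) (T.subgroupOf P) hlt
  obtain ⟨y, hyN, hyT⟩ := SetLike.exists_of_lt h2
  rw [← Subgroup.subgroupOf_normalizer_eq hTP, Subgroup.mem_subgroupOf] at hyN
  rw [Subgroup.mem_subgroupOf] at hyT
  refine ⟨P ⊓ Subgroup.normalizer (T : Set G), hP.to_le inf_le_left,
    le_inf hTP Subgroup.le_normalizer, inf_le_left.trans hPM, inf_le_right, (y : G),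
    ⟨y.2, hyN⟩, hyT⟩

theorem final_of_pMax (hloc : Cfsg.IsOfLocalCharacteristic p G) {M₁ M₂ T : Subgroup G}
    (h1 : IsMaxLoc p M₁) (h2 : IsMaxLoc p M₂) (hne : M₁ ≠ M₂) (hT : IsPGroup p T)
    (hT1 : T ≤ M₁) (hT2 : T ≤ M₂) (hm1 : PMax p T M₁) (hm2 : PMax p T M₂) :
    ∃ M₁ M₂ : Subgroup G, M₁ ≠ M₂ ∧ (∀ A : Subgroup G, A ≠ ⊥ → A ≤ M₁ ⊓ M₂ → (M₁ ≤ Subgroup.normalizer (A : Set G) → M₂ ⊓ Subgroup.normalizer (A : Set G) = M₁ ⊓ M₂) ∧ (M₂ ≤ Subgroup.normalizer (A : Set G) → M₁ ⊓ Subgroup.normalizer (A : Set G) = M₁ ⊓ M₂)) ∧ Subgroup.centralizer (Cfsg.pCore p ↥M₁ : Set ↥M₁) ≤ Cfsg.pCore p ↥M₁ ∧ Subgroup.centralizer (Cfsg.pCore p ↥M₂ : Set ↥M₂) ≤ Cfsg.pCore p ↥M₂ ∧ (Cfsg.pCore p ↥M₁).map M₁.subtype ⊔ (Cfsg.pCore p ↥M₂).map M₂.subtype ≤ M₁ ⊓ M₂ := by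
  refine ⟨M₁, M₂, hne, ?_, charp_of_isLoc hloc h1.1, charp_of_isLoc hloc h2.1, ?_⟩
  · intro A hA hAle
    constructor
    · intro hle
      rw [normalizer_eq hloc h1 hA (hAle.trans inf_le_left) hle, inf_comm]
    · intro hle
      rw [normalizer_eq hloc h2 hA (hAle.trans inf_le_right) hle]
  · exact sup_le ((pCoreOf_le_of_pMax hT hT1 hm1).trans (le_inf hT1 hT2))
      ((pCoreOf_le_of_pMax hT hT2 hm2).trans (le_inf hT1 hT2))

theorem exists_pMax_conj (hloc : Cfsg.IsOfLocalCharacteristic p G) {M₁ M₂ T : Subgroup G}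
    (h1 : IsMaxLoc p M₁) (hT1 : T ≤ M₁) (hT2 : T ≤ M₂)
    (hm1 : PMax p T M₁) (hm2 : ¬ PMax p T M₂) :
    ∃ M₃ : Subgroup G, IsMaxLoc p M₃ ∧ M₁ ≠ M₃ ∧ T ≤ M₃ ∧ PMax p T M₃ := by
  obtain ⟨P, hP, hTP, hPM, hPN, y, hyP, hyT⟩ := grow hT2 hm2
  have hPnot : ¬ P ≤ M₁ := by
    intro hle
    have := hm1 P hP hTP hle
    rw [this] at hyP
    exact hyT hyP
  obtain ⟨g, hgP, hgM⟩ := SetLike.not_le_iff_exists.mp hPnot
  have hgN : g ∈ Subgroup.normalizer (T : Set G) := hPN hgP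
  have hTg : T.map (MulAut.conj g).toMonoidHom = T := (conj_eq_self_iff T g).mpr hgN
  have hginvN : g⁻¹ ∈ Subgroup.normalizer (T : Set G) := Subgroup.inv_mem _ hgN
  have hTginv : T.map (MulAut.conj g⁻¹).toMonoidHom = T := (conj_eq_self_iff T g⁻¹).mpr hginvN
  refine ⟨M₁.map (MulAut.conj g).toMonoidHom, isMaxLoc_conj h1 g, ?_, ?_, ?_⟩
  · intro heq
    apply hgM
    have h2 : g ∈ Subgroup.normalizer (M₁ : Set G) := (conj_eq_self_iff M₁ g).mp heq.symm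
    rwa [self_normalizing hloc h1] at h2
  · have h2 := conj_mono g hT1
    rwa [hTg] at h2
  · intro P' hP' hTP' hP'M
    have h2 : P'.map (MulAut.conj g⁻¹).toMonoidHom ≤ M₁ := by
      have h3 := conj_mono g⁻¹ hP'M
      rwa [conj_inv_conj] at h3
    have h3 : T ≤ P'.map (MulAut.conj g⁻¹).toMonoidHom := by
      have h4 := conj_mono g⁻¹ hTP'
      rwa [hTginv] at h4
    have h4 := hm1 _ (isPGroup_conj hP' g⁻¹) h3 h2
    have h5 := (conj_eq_iff P' T g⁻¹).mp h4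
    rw [inv_inv, hTg] at h5
    exact h5

end aux

theorem result {G : Type*} [Group G] [Finite G] {p : ℕ} [Fact p.Prime] (hloc : Cfsg.IsOfLocalCharacteristic p G) (hOp : Cfsg.pCore p G = ⊥) : (∃ M₁ M₂ : Subgroup G, M₁ ≠ M₂ ∧ (∀ A : Subgroup G, A ≠ ⊥ → A ≤ M₁ ⊓ M₂ → (M₁ ≤ Subgroup.normalizer (A : Set G) → M₂ ⊓ Subgroup.normalizer (A : Set G) = M₁ ⊓ M₂) ∧ (M₂ ≤ Subgroup.normalizer (A : Set G) → M₁ ⊓ Subgroup.normalizer (A : Set G) = M₁ ⊓ M₂)) ∧ Subgroup.centralizer (Cfsg.pCore p ↥M₁ : Set ↥M₁) ≤ Cfsg.pCore p ↥M₁ ∧ Subgroup.centralizer (Cfsg.pCore p ↥M₂ : Set ↥M₂) ≤ Cfsg.pCore p ↥M₂ ∧ (Cfsg.pCore p ↥M₁).map M₁.subtype ⊔ (Cfsg.pCore p ↥M₂).map M₂.subtype ≤ M₁ ⊓ M₂) ∨ (∀ M : Subgroup G, (∃ T : Subgroup G, IsPGroup p T ∧ T ≠ ⊥ ∧ M = Subgroup.normalizer (T : Set G)) → (∀ L : Subgroup G, (∃ T : Subgroup G, IsPGroup p T ∧ T ≠ ⊥ ∧ L = Subgroup.normalizer (T : Set G)) → M ≤ L → L = M)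 → M ≠ ⊤ ∧ p ∣ Nat.card M ∧ ∀ g : G, g ∉ M → ¬ p ∣ Nat.card ↥(M ⊓ M.map (MulAut.conj g).toMonoidHom)) := by
  by_cases hsec : ∀ M : Subgroup G, (∃ T : Subgroup G, IsPGroup p T ∧ T ≠ ⊥ ∧ M = Subgroup.normalizer (T : Set G)) → (∀ L : Subgroup G, (∃ T : Subgroup G, IsPGroup p T ∧ T ≠ ⊥ ∧ L = Subgroup.normalizer (T : Set G)) → M ≤ L → L = M) → M ≠ ⊤ ∧ p ∣ Nat.card M ∧ ∀ g : G, g ∉ M → ¬ p ∣ Nat.card ↥(M ⊓ M.map (MulAut.conj g).toMonoidHom)
  · exact Or.inr hsec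
  left
  push Not at hsec
  obtain ⟨M, hMloc, hMmax, hM⟩ := hsec
  have hMM : IsMaxLoc p M := ⟨hMloc, hMmax⟩
  have hMtop : M ≠ ⊤ := by
    obtain ⟨T, hT, hne, rfl⟩ := hMloc
    intro h
    apply hne
    have hn : T.Normal := Subgroup.normalizer_eq_top_iff.mp h
    have := le_pCore hn hT
    rwa [hOp, le_bot_iff] at this
  have hpM : p ∣ Nat.card M := by
    obtain ⟨T, hT, hne, rfl⟩ := hMloc
    obtain ⟨k, hk⟩ := IsPGroup.iff_card.mp hT
    have hk0 : k ≠ 0 := by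
      rintro rfl
      apply hne
      rw [pow_zero] at hk
      exact Subgroup.eq_bot_of_card_eq T hk
    have h1 : p ∣ Nat.card T := by
      rw [hk]
      exact dvd_pow_self p hk0
    exact h1.trans (Subgroup.card_dvd_of_le Subgroup.le_normalizer)
  obtain ⟨g, hgM, hpg⟩ := hM hMtop hpM
  obtain ⟨x, hx⟩ := exists_prime_orderOf_dvd_card' (G := ↥(M ⊓ M.map (MulAut.conj g).toMonoidHom)) p hpg
  have hxo : orderOf (x : G) = p := by
    rw [← hx]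
    exact Subgroup.orderOf_coe x
  have hMg : IsMaxLoc p (M.map (MulAut.conj g).toMonoidHom) := isMaxLoc_conj hMM g
  have hMne : M ≠ M.map (MulAut.conj g).toMonoidHom := by
    intro heq
    apply hgM
    have h2 : g ∈ Subgroup.normalizer (M : Set G) := (conj_eq_self_iff M g).mp heq.symm
    rwa [self_normalizing hloc hMM] at h2
  have hzp : IsPGroup p (Subgroup.zpowers (x : G)) := by
    apply IsPGroup.of_card (n := 1)
    rw [Nat.card_zpowers, hxo, pow_one]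
  have hzle : Subgroup.zpowers (x : G) ≤ M ⊓ M.map (MulAut.conj g).toMonoidHom := by
    rw [Subgroup.zpowers_le]
    exact x.2
  haveI : Nonempty {t : Subgroup G × Subgroup G × Subgroup G // IsMaxLoc p t.1 ∧ IsMaxLoc p t.2.1 ∧
      t.1 ≠ t.2.1 ∧ IsPGroup p t.2.2 ∧ t.2.2 ≤ t.1 ⊓ t.2.1} :=
    ⟨⟨(M, M.map (MulAut.conj g).toMonoidHom, Subgroup.zpowers (x : G)), hMM, hMg, hMne, hzp, hzle⟩⟩
  obtain ⟨t₀, ht₀⟩ := Finite.exists_max
    (fun t : {t : Subgroup G × Subgroup G × Subgroup G // IsMaxLoc p t.1 ∧ IsMaxLoc p t.2.1 ∧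
      t.1 ≠ t.2.1 ∧ IsPGroup p t.2.2 ∧ t.2.2 ≤ t.1 ⊓ t.2.1} => Nat.card (t.1.2.2 : Subgroup G))
  obtain ⟨⟨M₁, M₂, T⟩, h1, h2, hne, hT, hTle⟩ := t₀
  simp only at h1 h2 hne hT hTle ht₀
  have hT1 : T ≤ M₁ := hTle.trans inf_le_left
  have hT2 : T ≤ M₂ := hTle.trans inf_le_right
  have hTne : T ≠ ⊥ := by
    intro h
    have h3 := ht₀ ⟨(M, M.map (MulAut.conj g).toMonoidHom, Subgroup.zpowers (x : G)), hMM, hMg, hMne, hzp, hzle⟩
    simp only at h3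
    rw [h, Subgroup.card_bot, Nat.card_zpowers, hxo] at h3
    have := (Fact.out : p.Prime).two_le
    omega
  have hkey : ∀ M₃ M₄ : Subgroup G, IsMaxLoc p M₃ → IsMaxLoc p M₄ → ∀ P : Subgroup G,
      IsPGroup p P → T ≤ P → P ≤ M₃ → P ≤ M₄ → (∃ y ∈ P, y ∉ T) → M₃ = M₄ := by
    intro M₃ M₄ h3 h4 P hP hTP hP3 hP4 hy
    by_contra hne34
    have h5 := ht₀ ⟨(M₃, M₄, P), h3, h4, hne34, hP, le_inf hP3 hP4⟩
    simp only at h5
    have h6 : P = T := (Subgroup.eq_of_le_of_card_ge hTP h5).symm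
    obtain ⟨y, hyP, hyT⟩ := hy
    rw [h6] at hyP
    exact hyT hyP
  by_cases hm1 : PMax p T M₁
  · by_cases hm2 : PMax p T M₂
    · exact final_of_pMax hloc h1 h2 hne hT hT1 hT2 hm1 hm2
    · obtain ⟨M₃, h3, hne3, hT3, hm3⟩ := exists_pMax_conj hloc h1 hT1 hT2 hm1 hm2
      exact final_of_pMax hloc h1 h3 hne3 hT hT1 hT3 hm1 hm3
  · by_cases hm2 : PMax p T M₂
    · obtain ⟨M₃, h3, hne3, hT3, hm3⟩ := exists_pMax_conj hloc h2 hT2 hT1 hm2 hm1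
      exact final_of_pMax hloc h2 h3 hne3 hT hT2 hT3 hm2 hm3
    · exfalso
      obtain ⟨P₁, hP₁, hTP₁, hP₁M, hP₁N, hy₁⟩ := grow hT1 hm1
      obtain ⟨P₂, hP₂, hTP₂, hP₂M, hP₂N, hy₂⟩ := grow hT2 hm2
      obtain ⟨M₃, h3, hle3⟩ := exists_maxLoc_ge (p := p) (L := Subgroup.normalizer (T : Set G))
        ⟨T, hT, hTne, rfl⟩
      have e1 := hkey M₃ M₁ h3 h1 P₁ hP₁ hTP₁ (hP₁N.trans hle3) hP₁M hy₁
      have e2 := hkey M₃ M₂ h3 h2 P₂ hP₂ hTP₂ (hP₂N.trans hle3) hP₂M hy₂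
      exact hne (e1.symm.trans e2)

end Cfsg.Agent.S3751
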