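import Cfsg.Statements.S3752
import Mathlib
import Cfsg.Agent.Lib.Lead.Cores
import Cfsg.Agent.Lib.Helper9.Components

set_option autoImplicit false
set_option linter.style.haveILetI false
open Cfsg
open Cfsg.Agent.Lib.Helper9
open Cfsg.Agent.Lib.Lead.Cores

namespace Cfsg.Agent.S3752

theorem p_and_coprime {M : Type*} [Group M] {p : ℕ} (y : M) (j : ℕ) (h1 : y ^ (p ^ j) = 1)
    (h2 : (orderOf y).Coprime p) : y = 1 := by
  have h3 : orderOf y ∣ p ^ j := orderOf_dvd_of_pow_eq_one h1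
  have h4 : (orderOf y).Coprime (p ^ j) := Nat.Coprime.pow_right j h2
  have h5 := Nat.Coprime.eq_one_of_dvd h4 h3
  exact orderOf_eq_one_iff.1 h5

theorem core {M : Type*} [Group M] [Finite M] {p : ℕ} [hp : Fact p.Prime]
    (hF : Subgroup.centralizer (fittingSubgroup M : Set M) ≤ fittingSubgroup M)
    (x : M) (a₀ : ℕ) (hxo : x ^ (p ^ a₀) = 1)
    (hxR : ∀ r ∈ fittingSubgroup M ⊓ pPrimeCore p M, x * r = r * x)
    (n : M) (hn : (orderOf n).Coprime p) (hnP : ∀ a ∈ pCore p M, n * a = a * n) :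
    n * x = x * n := by
  classical
  haveI hPn : (pCore p M).Normal := pCore_normal p M
  have hPp : IsPGroup p (pCore p M) := pCore_isPGroup p
  haveI hFn : (fittingSubgroup M).Normal := fittingSubgroup_normal
  haveI hOn : (pPrimeCore p M).Normal := pPrimeCore_normal p M
  have hRn : (fittingSubgroup M ⊓ pPrimeCore p M).Normal := inferInstance
  have hPpow : ∀ a ∈ pCore p M, ∃ j : ℕ, a ^ (p ^ j) = 1 := by
    intro a ha
    obtain ⟨j, hj⟩ := hPp ⟨a, ha⟩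
    exact ⟨j, by simpa using congrArg Subtype.val hj⟩
  have hRcop : ∀ r ∈ fittingSubgroup M ⊓ pPrimeCore p M, (orderOf r).Coprime p := by
    intro r hr
    have h1 : orderOf r ∣ Nat.card (pPrimeCore p M) := by
      have := orderOf_dvd_natCard (⟨r, hr.2⟩ : pPrimeCore p M)
      rwa [Subgroup.orderOf_mk] at this
    exact Nat.Coprime.coprime_dvd_left h1 (pPrimeCore_card_coprime p)
  have hdecomp : ∀ f ∈ fittingSubgroup M, ∃ a ∈ pCore p M,
      ∃ r ∈ fittingSubgroup M ⊓ pPrimeCore p M, f = a * r := by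
    intro f hf
    have h1 : f ∈ pCore p M ⊔ pPrimeCore p M := fittingSubgroup_le_sup p hf
    rw [← SetLike.mem_coe, Subgroup.normal_mul] at h1
    obtain ⟨a, ha, r, hr, rfl⟩ := h1
    refine ⟨a, ha, r, ⟨?_, hr⟩, rfl⟩
    have haF : a ∈ fittingSubgroup M := pCore_le_fittingSubgroup p ha
    have e : r = a⁻¹ * (a * r) := by group
    rw [e]
    exact Subgroup.mul_mem _ (Subgroup.inv_mem _ haF) hf
  set c := n⁻¹ * (x⁻¹ * n * x) with hc
  have hcP : ∀ a ∈ pCore p M, c * a = a * c := by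
    intro a ha
    have h1 : Commute n a := hnP a ha
    have h2 : Commute n (x * a * x⁻¹) := hnP _ (hPn.conj_mem a ha x)
    have h3 : Commute (x⁻¹ * n * x) a := by
      show x⁻¹ * n * x * a = a * (x⁻¹ * n * x)
      calc x⁻¹ * n * x * a = x⁻¹ * (n * (x * a * x⁻¹)) * x := by group
        _ = x⁻¹ * ((x * a * x⁻¹) * n) * x := by rw [h2.eq]
        _ = a * (x⁻¹ * n * x) := by group
    exact (h1.inv_left.mul_left h3).eq
  have hcR : ∀ r ∈ fittingSubgroup M ⊓ pPrimeCore p M, c * r = r * c := by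
    intro r hr
    have h1 : Commute x r := hxR r hr
    have h2 : Commute x (n * r * n⁻¹) := hxR _ (hRn.conj_mem r hr n)
    calc c * r = n⁻¹ * x⁻¹ * n * (x * r) := by rw [hc]; group
      _ = n⁻¹ * x⁻¹ * n * (r * x) := by rw [h1.eq]
      _ = n⁻¹ * (x⁻¹ * (n * r * n⁻¹)) * n * x := by group
      _ = n⁻¹ * ((n * r * n⁻¹) * x⁻¹) * n * x := by rw [h2.inv_left.eq]
      _ = r * c := by rw [hc]; group
  have hcF : c ∈ fittingSubgroup M := by
    apply hF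
    rw [Subgroup.mem_centralizer_iff]
    intro f hf
    obtain ⟨a, ha, r, hr, rfl⟩ := hdecomp f hf
    have e1 := hcP a ha
    have e2 := hcR r hr
    calc a * r * c = a * (r * c) := by group
      _ = a * (c * r) := by rw [e2]
      _ = (a * c) * r := by group
      _ = (c * a) * r := by rw [e1]
      _ = c * (a * r) := by group
  obtain ⟨a, ha, r, hr, hcar⟩ := hdecomp c hcF
  have hPR : ∀ a' ∈ pCore p M, a' * r = r * a' := by
    intro a' ha'
    have h1 : a'⁻¹ * (r⁻¹ * a' * r) ∈ pCore p M := by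
      refine Subgroup.mul_mem _ (Subgroup.inv_mem _ ha') ?_
      have := hPn.conj_mem a' ha' r⁻¹
      simpa using this
    have h2 : a'⁻¹ * (r⁻¹ * a' * r) ∈ fittingSubgroup M ⊓ pPrimeCore p M := by
      have e : a'⁻¹ * (r⁻¹ * a' * r) = (a'⁻¹ * r⁻¹ * a'⁻¹⁻¹) * r := by group
      rw [e]
      exact Subgroup.mul_mem _ (hRn.conj_mem r⁻¹ (Subgroup.inv_mem _ hr) a'⁻¹) hr
    obtain ⟨j, hj⟩ := hPpow _ h1
    have h3 := p_and_coprime _ j hj (hRcop _ h2)
    have e : a' * r = r * a' * (a'⁻¹ * (r⁻¹ * a' * r)) := by group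
    rw [e, h3, mul_one]
  have hx1 : x⁻¹ * n * x = n * a * r := by
    have e : x⁻¹ * n * x = n * c := by rw [hc]; group
    rw [e, hcar, mul_assoc]
  have hxr : Commute x r := hxR r hr
  have key : ∀ k : ℕ, ∃ b ∈ pCore p M, (x ^ k)⁻¹ * n * x ^ k = n * b * r ^ k := by
    intro k
    induction k with
    | zero => exact ⟨1, Subgroup.one_mem _, by simp⟩
    | succ k ih =>
      obtain ⟨b, hb, hk⟩ := ih
      have hb' : x⁻¹ * b * x ∈ pCore p M := by
        have := hPn.conj_mem b hb x⁻¹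
        simpa using this
      refine ⟨a * (x⁻¹ * b * x), Subgroup.mul_mem _ ha hb', ?_⟩
      have e1 : (x ^ (k + 1))⁻¹ * n * x ^ (k + 1) = x⁻¹ * ((x ^ k)⁻¹ * n * x ^ k) * x := by
        rw [pow_succ]; group
      have e2 : x⁻¹ * (n * b * r ^ k) * x = (x⁻¹ * n * x) * (x⁻¹ * b * x) * (x⁻¹ * r ^ k * x) := by
        group
      have e3 : x⁻¹ * r ^ k * x = r ^ k := by
        have := (hxr.pow_right k).eq
        calc x⁻¹ * r ^ k * x = x⁻¹ * (r ^ k * x) := by group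
          _ = x⁻¹ * (x * r ^ k) := by rw [this]
          _ = r ^ k := by group
      have e4 := hPR (x⁻¹ * b * x) hb'
      rw [e1, hk, e2, e3, hx1]
      calc n * a * r * (x⁻¹ * b * x) * r ^ k = n * a * (r * (x⁻¹ * b * x)) * r ^ k := by group
        _ = n * a * ((x⁻¹ * b * x) * r) * r ^ k := by rw [e4]
        _ = n * (a * (x⁻¹ * b * x)) * (r * r ^ k) := by group
        _ = n * (a * (x⁻¹ * b * x)) * r ^ (k + 1) := by rw [← pow_succ']
  obtain ⟨b, hb, hk⟩ := key (p ^ a₀)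
  rw [hxo] at hk
  have h5 : b * r ^ (p ^ a₀) = 1 := by
    have e : n * (b * r ^ (p ^ a₀)) = n * 1 := by
      rw [mul_one, ← mul_assoc, ← hk]; simp
    exact mul_left_cancel e
  have h6 : r ^ (p ^ a₀) = 1 := by
    have hmemP : r ^ (p ^ a₀) ∈ pCore p M := by
      have e : r ^ (p ^ a₀) = b⁻¹ := eq_inv_of_mul_eq_one_right h5
      rw [e]
      exact Subgroup.inv_mem _ hb
    obtain ⟨j, hj⟩ := hPpow _ hmemP
    exact p_and_coprime _ j hj (hRcop _ (Subgroup.pow_mem _ hr _))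
  have hr1 : r = 1 := p_and_coprime r a₀ h6 (hRcop r hr)
  rw [hr1, mul_one] at hx1
  have hna : Commute n a := hnP a ha
  have h7 : (x⁻¹ * n * x) ^ orderOf n = 1 := by
    have e : x⁻¹ * n * x = x⁻¹ * n * x⁻¹⁻¹ := by rw [inv_inv]
    rw [e, conj_pow, pow_orderOf_eq_one]
    simp
  rw [hx1, hna.mul_pow, pow_orderOf_eq_one, one_mul] at h7
  have ha1 : a = 1 := by
    obtain ⟨j, hj⟩ := hPpow a ha
    apply p_and_coprime a j hj
    exact Nat.Coprime.coprime_dvd_left (orderOf_dvd_of_pow_eq_one h7) hn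
  rw [ha1, mul_one] at hx1
  calc n * x = x * (x⁻¹ * n * x) := by group
    _ = x * n := by rw [hx1]


theorem layer_le {G : Type*} [Group G] [Finite G] (M₁ M₂ : Subgroup G)
    (h₁ : (generalizedFittingSubgroup ↥M₁).map M₁.subtype ≤ M₂)
    (h₂ : (generalizedFittingSubgroup ↥M₂).map M₂.subtype ≤ M₁) :
    (layer ↥M₁).map M₁.subtype ≤ (layer ↥M₂).map M₂.subtype := by
  show (sSup {K : Subgroup ↥M₁ | IsComponent K}).map M₁.subtype ≤ _
  rw [Subgroup.map_le_iff_le_comap, sSup_le_iff]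
  intro K hK
  rw [← Subgroup.map_le_iff_le_comap]
  have hK1 : K.map M₁.subtype ≤ M₁ := Subgroup.map_subtype_le K
  have hK2 : K.map M₁.subtype ≤ M₂ :=
    (Subgroup.map_mono ((component_le_layer hK).trans (layer_le_gfitting _))).trans h₁
  have hKD : K.map M₁.subtype ≤ M₁ ⊓ M₂ := le_inf hK1 hK2
  have hcompD : IsComponent ((K.map M₁.subtype).subgroupOf (M₁ ⊓ M₂)) := by
    refine ⟨?_, qs_of_equiv hK.2 ((K.equivMapOfInjective _ M₁.subtype_injective).trans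
      (Subgroup.subgroupOfEquivOfLe hKD).symm)⟩
    have e : (K.map M₁.subtype).subgroupOf (M₁ ⊓ M₂)
        = K.comap (Subgroup.inclusion (inf_le_left : M₁ ⊓ M₂ ≤ M₁)) := by
      ext x
      rw [Subgroup.mem_subgroupOf, Subgroup.mem_comap, Subgroup.mem_map]
      constructor
      · rintro ⟨k, hk, hkx⟩
        have : k = Subgroup.inclusion inf_le_left x := Subtype.ext hkx
        rwa [← this]
      · intro h
        exact ⟨_, h, rfl⟩
    rw [e]
    exact hK.1.comap _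
  have hF2M2 : (generalizedFittingSubgroup ↥M₂).map M₂.subtype ≤ M₂ := Subgroup.map_subtype_le _
  have hF2D : (generalizedFittingSubgroup ↥M₂).map M₂.subtype ≤ M₁ ⊓ M₂ := le_inf h₂ hF2M2
  have hF2n : (((generalizedFittingSubgroup ↥M₂).map M₂.subtype).subgroupOf (M₁ ⊓ M₂)).Normal := by
    have hn := gfitting_normal ↥M₂
    constructor
    intro n hn' g
    rw [Subgroup.mem_subgroupOf] at hn' ⊢
    rw [Subgroup.mem_map] at hn' ⊢
    obtain ⟨f, hf, hfn⟩ := hn'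
    refine ⟨⟨(g : G), g.2.2⟩ * f * ⟨(g : G), g.2.2⟩⁻¹, hn.conj_mem f hf _, ?_⟩
    have hfn' : (f : G) = (n : G) := hfn
    simp [hfn']
  have hKF : K.map M₁.subtype ≤ (generalizedFittingSubgroup ↥M₂).map M₂.subtype := by
    rcases component_le_or_commute hcompD hF2n.isSubnormal with h | h
    · exact le_of_subgroupOf_le hKD h
    · have h' := commutator_subgroupOf_eq_bot hKD hF2D h
      rw [Subgroup.commutator_eq_bot_iff_le_centralizer] at h'
      intro k hk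
      have hkc := h' hk
      have : (⟨k, hK2 hk⟩ : ↥M₂) ∈ generalizedFittingSubgroup ↥M₂ := by
        apply centralizer_gfitting_le
        rw [Subgroup.mem_centralizer_iff]
        intro f hf
        rw [Subgroup.mem_centralizer_iff] at hkc
        have := hkc (f : G) (Subgroup.mem_map_of_mem _ hf)
        exact Subtype.ext this
      exact ⟨_, this, rfl⟩
  have hcomp2 : IsComponent ((K.map M₁.subtype).subgroupOf M₂) := by
    refine ⟨?_, qs_of_equiv hK.2 ((K.equivMapOfInjective _ M₁.subtype_injective).trans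
      (Subgroup.subgroupOfEquivOfLe hK2).symm)⟩
    have hle : (K.map M₁.subtype).subgroupOf M₂ ≤ generalizedFittingSubgroup ↥M₂ := by
      intro x hx
      rw [Subgroup.mem_subgroupOf] at hx
      obtain ⟨f, hf, hfx⟩ := hKF hx
      have : f = x := Subtype.ext hfx
      rwa [← this]
    refine Subgroup.IsSubnormal.trans hle ?_ (gfitting_normal ↥M₂).isSubnormal
    let j : ↥(generalizedFittingSubgroup ↥M₂) →* ↥(M₁ ⊓ M₂) :=
      { toFun := fun f => ⟨((f : ↥M₂) : G), hF2D (Subgroup.mem_map_of_mem _ f.2)⟩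
        map_one' := rfl
        map_mul' := fun _ _ => rfl }
    have e : ((K.map M₁.subtype).subgroupOf M₂).subgroupOf (generalizedFittingSubgroup ↥M₂)
        = ((K.map M₁.subtype).subgroupOf (M₁ ⊓ M₂)).comap j := by
      ext x
      rfl
    rw [e]
    exact hcompD.1.comap j
  have h3 := component_le_layer hcomp2
  calc K.map M₁.subtype = ((K.map M₁.subtype).subgroupOf M₂).map M₂.subtype :=
        (Subgroup.map_subgroupOf_eq_of_le hK2).symm
    _ ≤ _ := Subgroup.map_mono h3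


theorem commA {G : Type*} [Group G] [Finite G] (M₁ M₂ : Subgroup G) {p : ℕ} [hp : Fact p.Prime]
    (hP1 : (pCore p ↥M₁).map M₁.subtype ≤ M₂)
    (hR2 : (fittingSubgroup ↥M₂).map M₂.subtype ≤ M₁)
    (x : ↥M₁) (hx : x ∈ pCore p ↥M₁) (r : ↥M₂)
    (hr : r ∈ fittingSubgroup ↥M₂ ⊓ pPrimeCore p ↥M₂) :
    (x : G) * (r : G) = (r : G) * (x : G) := by
  have hx2 : (x : G) ∈ M₂ := hP1 (Subgroup.mem_map_of_mem _ hx)
  have hr1 : (r : G) ∈ M₁ := hR2 (Subgroup.mem_map_of_mem _ hr.1)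
  haveI hPn : (pCore p ↥M₁).Normal := pCore_normal p ↥M₁
  haveI hFn : (fittingSubgroup ↥M₂).Normal := fittingSubgroup_normal
  haveI hOn : (pPrimeCore p ↥M₂).Normal := pPrimeCore_normal p ↥M₂
  have hRn : (fittingSubgroup ↥M₂ ⊓ pPrimeCore p ↥M₂).Normal := inferInstance
  have h1 : x⁻¹ * ((⟨(r : G), hr1⟩ : ↥M₁)⁻¹ * x * ⟨(r : G), hr1⟩) ∈ pCore p ↥M₁ := by
    refine Subgroup.mul_mem _ (Subgroup.inv_mem _ hx) ?_
    have := hPn.conj_mem x hx (⟨(r : G), hr1⟩ : ↥M₁)⁻¹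
    simpa using this
  have h2 : ((⟨(x : G), hx2⟩ : ↥M₂)⁻¹ * r⁻¹ * (⟨(x : G), hx2⟩ : ↥M₂)⁻¹⁻¹) * r
      ∈ fittingSubgroup ↥M₂ ⊓ pPrimeCore p ↥M₂ :=
    Subgroup.mul_mem _ (hRn.conj_mem r⁻¹ (Subgroup.inv_mem _ hr) _) hr
  obtain ⟨j, hj⟩ := (Cfsg.Agent.Lib.Lead.Cores.pCore_isPGroup (G := ↥M₁) p) ⟨_, h1⟩
  have hj' : ((x : G)⁻¹ * ((r : G)⁻¹ * (x : G) * (r : G))) ^ (p ^ j) = 1 := by
    have := congrArg (fun z : ↥(pCore p ↥M₁) => ((z : ↥M₁) : G)) hj
    simpa using this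
  have hcop : (orderOf ((x : G)⁻¹ * ((r : G)⁻¹ * (x : G) * (r : G)))).Coprime p := by
    have h3 : orderOf (⟨_, h2.2⟩ : ↥(pPrimeCore p ↥M₂)) ∣ Nat.card (pPrimeCore p ↥M₂) :=
      orderOf_dvd_natCard _
    rw [Subgroup.orderOf_mk, ← Subgroup.orderOf_coe] at h3
    have h4 : (((⟨(x : G), hx2⟩ : ↥M₂)⁻¹ * r⁻¹ * (⟨(x : G), hx2⟩ : ↥M₂)⁻¹⁻¹ * r : ↥M₂) : G)
        = (x : G)⁻¹ * ((r : G)⁻¹ * (x : G) * (r : G)) := by
      simp only [Subgroup.coe_mul, Subgroup.coe_inv]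
      group
    rw [h4] at h3
    exact Nat.Coprime.coprime_dvd_left h3 (pPrimeCore_card_coprime p)
  have h5 := p_and_coprime _ j hj' hcop
  have e : (x : G) * (r : G)
      = (r : G) * (x : G) * ((x : G)⁻¹ * ((r : G)⁻¹ * (x : G) * (r : G))) := by group
  rw [e, h5, mul_one]

theorem claim3 {G : Type*} [Group G] [Finite G] (M₁ M₂ : Subgroup G) {p : ℕ} [hp : Fact p.Prime]
    (hP1 : (pCore p ↥M₁).map M₁.subtype ≤ M₂)
    (hR2 : (fittingSubgroup ↥M₂).map M₂.subtype ≤ M₁)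
    (hcF2 : Subgroup.centralizer (fittingSubgroup ↥M₂ : Set ↥M₂) ≤ fittingSubgroup ↥M₂)
    (n : ↥M₂) (hn : (orderOf n).Coprime p) (hnP : ∀ a ∈ pCore p ↥M₂, n * a = a * n)
    (x : ↥M₁) (hx : x ∈ pCore p ↥M₁) : (n : G) * (x : G) = (x : G) * (n : G) := by
  have hx2 : (x : G) ∈ M₂ := hP1 (Subgroup.mem_map_of_mem _ hx)
  obtain ⟨a₀, ha₀⟩ := (Cfsg.Agent.Lib.Lead.Cores.pCore_isPGroup (G := ↥M₁) p) ⟨x, hx⟩
  have hxo : (⟨(x : G), hx2⟩ : ↥M₂) ^ (p ^ a₀) = 1 := by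
    have := congrArg (fun z : ↥(pCore p ↥M₁) => ((z : ↥M₁) : G)) ha₀
    apply Subtype.ext
    simpa using this
  have hxR : ∀ r ∈ fittingSubgroup ↥M₂ ⊓ pPrimeCore p ↥M₂,
      (⟨(x : G), hx2⟩ : ↥M₂) * r = r * ⟨(x : G), hx2⟩ := by
    intro r hr
    apply Subtype.ext
    exact commA M₁ M₂ hP1 hR2 x hx r hr
  have := core hcF2 (⟨(x : G), hx2⟩ : ↥M₂) a₀ hxo hxR n hn hnP
  exact congrArg Subtype.val this

theorem le_norm_map {G : Type*} [Group G] [Finite G] (M : Subgroup G) (N : Subgroup ↥M)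
    (hN : N.Normal) :
    M ≤ Subgroup.normalizer ((N.map M.subtype : Subgroup G) : Set G) := by
  intro g hg
  apply Subgroup.mem_normalizer_fintype
  rintro _ ⟨y, hy, rfl⟩
  exact ⟨⟨g, hg⟩ * y * ⟨g, hg⟩⁻¹, hN.conj_mem y hy _, by simp⟩

theorem closure_norm {G : Type*} [Group G] [Finite G] (S : Set G) (m : G)
    (h : ∀ g ∈ S, m * g * m⁻¹ ∈ S) :
    m ∈ Subgroup.normalizer ((Subgroup.closure S : Subgroup G) : Set G) := by
  apply Subgroup.mem_normalizer_fintype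
  intro y hy
  have h1 : (Subgroup.closure S).map (MulAut.conj m).toMonoidHom ≤ Subgroup.closure S := by
    rw [MonoidHom.map_closure, Subgroup.closure_le]
    rintro _ ⟨g, hg, rfl⟩
    exact Subgroup.subset_closure (h g hg)
  exact h1 ⟨y, hy, rfl⟩

theorem bot_of_fit {G : Type*} [Group G] (M : Subgroup G)
    (hc : Subgroup.centralizer (fittingSubgroup ↥M : Set ↥M) ≤ fittingSubgroup ↥M)
    (h : fittingSubgroup ↥M = ⊥) : M = ⊥ := by
  rw [eq_bot_iff]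
  intro g hg
  have h1 : (⟨g, hg⟩ : ↥M) ∈ Subgroup.centralizer (fittingSubgroup ↥M : Set ↥M) := by
    rw [Subgroup.mem_centralizer_iff]
    intro f hf
    rw [h] at hf
    have hf1 : f = 1 := Subgroup.mem_bot.1 hf
    rw [hf1]
    simp
  have h2 := hc h1
  rw [h, Subgroup.mem_bot] at h2
  exact Subgroup.mem_bot.2 (congrArg Subtype.val h2)

def Sset {G : Type*} [Group G] (p : ℕ) (M : Subgroup G) : Set G :=
  {g | g ∈ M ∧ (orderOf g).Coprime p ∧
    ∀ a ∈ (pCore p ↥M).map M.subtype, g * a = a * g}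

theorem S_le {G : Type*} [Group G] (M : Subgroup G) (p : ℕ) :
    Subgroup.closure (Sset p M) ≤ M := by
  rw [Subgroup.closure_le]
  intro g hg
  exact hg.1

theorem S_norm {G : Type*} [Group G] [Finite G] (M : Subgroup G) (p : ℕ) :
    M ≤ Subgroup.normalizer ((Subgroup.closure (Sset p M) : Subgroup G) : Set G) := by
  intro m hm
  apply closure_norm
  rintro g ⟨hgM, hgo, hgc⟩
  refine ⟨M.mul_mem (M.mul_mem hm hgM) (M.inv_mem hm), ?_, ?_⟩
  · have : orderOf (m * g * m⁻¹) = orderOf g := (MulAut.conj m).orderOf_eq g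
    rwa [this]
  · rintro _ ⟨a, ha, rfl⟩
    haveI hPn : (pCore p ↥M).Normal := pCore_normal p ↥M
    have h1 : ((⟨m, hm⟩ : ↥M)⁻¹ * a * (⟨m, hm⟩ : ↥M)⁻¹⁻¹) ∈ pCore p ↥M := hPn.conj_mem a ha _
    have h2 := hgc _ (Subgroup.mem_map_of_mem M.subtype h1)
    have h2' : g * (m⁻¹ * (a : G) * m) = (m⁻¹ * (a : G) * m) * g := by simpa using h2
    show m * g * m⁻¹ * (a : G) = (a : G) * (m * g * m⁻¹)
    calc m * g * m⁻¹ * (a : G) = m * (g * (m⁻¹ * (a : G) * m)) * m⁻¹ := by group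
      _ = m * ((m⁻¹ * (a : G) * m) * g) * m⁻¹ := by rw [h2']
      _ = (a : G) * (m * g * m⁻¹) := by group

theorem S_sub {G : Type*} [Group G] [Finite G] (M₁ M₂ : Subgroup G) {p : ℕ} [hp : Fact p.Prime]
    (hP1 : (pCore p ↥M₁).map M₁.subtype ≤ M₂)
    (hR2 : (fittingSubgroup ↥M₂).map M₂.subtype ≤ M₁)
    (hcF2 : Subgroup.centralizer (fittingSubgroup ↥M₂ : Set ↥M₂) ≤ fittingSubgroup ↥M₂)
    (hPrim : M₂ ⊓ Subgroup.normalizer (((pCore p ↥M₁).map M₁.subtype : Subgroup G) : Set G)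
      ≤ M₁) :
    Sset p M₂ ⊆ Sset p M₁ := by
  rintro g ⟨hgM, hgo, hgc⟩
  have hcomm : ∀ x ∈ pCore p ↥M₁, g * (x : G) = (x : G) * g := by
    intro x hx
    refine claim3 M₁ M₂ hP1 hR2 hcF2 ⟨g, hgM⟩ ?_ ?_ x hx
    · rw [Subgroup.orderOf_mk]; exact hgo
    · intro a ha
      apply Subtype.ext
      exact hgc _ (Subgroup.mem_map_of_mem M₂.subtype ha)
  have hgN : g ∈ Subgroup.normalizer
      (((pCore p ↥M₁).map M₁.subtype : Subgroup G) : Set G) := by
    apply Subgroup.centralizer_le_normalizer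
    rw [Subgroup.mem_centralizer_iff]
    rintro _ ⟨x, hx, rfl⟩
    exact (hcomm x hx).symm
  refine ⟨hPrim ⟨hgM, hgN⟩, hgo, ?_⟩
  rintro _ ⟨x, hx, rfl⟩
  exact hcomm x hx

theorem cent_le {G : Type*} [Group G] [Finite G] (M : Subgroup G) {p : ℕ} [hp : Fact p.Prime]
    (hS : ∀ g ∈ Sset p M, g = 1) :
    Subgroup.centralizer (pCore p ↥M : Set ↥M) ≤ pCore p ↥M := by
  haveI hPn : (pCore p ↥M).Normal := pCore_normal p ↥M
  have hCn : (Subgroup.centralizer (pCore p ↥M : Set ↥M)).Normal := Subgroup.normal_centralizer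
  apply Cfsg.Agent.Lib.Lead.Cores.le_pCore hCn
  rintro ⟨c, hc⟩
  have hpos : orderOf c ≠ 0 := (orderOf_pos c).ne'
  obtain ⟨k, m, hm, hkm⟩ := Nat.exists_eq_pow_mul_and_not_dvd hpos p hp.1.ne_one
  refine ⟨k, ?_⟩
  have h1 : orderOf (c ^ (p ^ k)) = m := by
    rw [orderOf_pow_of_dvd (pow_ne_zero _ hp.1.ne_zero) (hkm ▸ dvd_mul_right _ _), hkm,
      Nat.mul_div_cancel_left _ (pow_pos hp.1.pos _)]
  have h2 : ((c ^ (p ^ k) : ↥M) : G) ∈ Sset p M := by
    refine ⟨(c ^ (p ^ k)).2, ?_, ?_⟩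
    · rw [Subgroup.orderOf_coe, h1]
      exact (Nat.Coprime.symm ((Nat.Prime.coprime_iff_not_dvd hp.1).2 hm))
    · rintro _ ⟨a, ha, rfl⟩
      have := (Subgroup.mem_centralizer_iff.1 (Subgroup.pow_mem _ hc (p ^ k))) a ha
      exact congrArg Subtype.val this.symm
  have h3 := hS _ h2
  apply Subtype.ext
  have h4 : c ^ (p ^ k) = 1 := Subtype.ext h3
  simpa using h4

theorem result {G : Type*} [Group G] [Finite G] (M₁ M₂ : Subgroup G) (hne : M₁ ≠ M₂) (hP : ∀ A : Subgroup G, A ≠ ⊥ → A ≤ M₁ ⊓ M₂ → (M₁ ≤ Subgroup.normalizer (A : Set G) → M₂ ⊓ Subgroup.normalizer (A : Set G) = M₁ ⊓ M₂) ∧ (M₂ ≤ Subgroup.normalizer (A : Set G) → M₁ ⊓ Subgroup.normalizer (A : Set G) = M₁ ⊓ M₂)) (h₁ : (Cfsg.generalizedFittingSubgroup ↥M₁).map M₁.subtype ≤ M₂) (h₂ : (Cfsg.generalizedFittingSubgroup ↥M₂).map M₂.subtype ≤ M₁) : ∃ p : ℕ, p.Prime ∧ Subgroup.centralizer (Cfsg.pCore p ↥M₁ : Set ↥M₁) ≤ Cfsg.pCore p ↥M₁ ∧ Subgroup.centralizer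 (Cfsg.pCore p ↥M₂ : Set ↥M₂) ≤ Cfsg.pCore p ↥M₂ ∧ (Cfsg.pCore p ↥M₁).map M₁.subtype ⊔ (Cfsg.pCore p ↥M₂).map M₂.subtype ≤ M₁ ⊓ M₂ := by
  classical
  have hNB : ∀ A : Subgroup G, A ≤ M₁ ⊓ M₂ → M₁ ≤ Subgroup.normalizer (A : Set G) →
      M₂ ≤ Subgroup.normalizer (A : Set G) → A = ⊥ := by
    intro A hA hn1 hn2
    by_contra hne'
    obtain ⟨ha, hb⟩ := hP A hne' hA
    have e1 := ha hn1
    have e2 := hb hn2
    rw [inf_eq_left.2 hn2] at e1
    rw [inf_eq_left.2 hn1] at e2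
    exact hne (e2.trans e1.symm)
  have hE12 : (layer ↥M₁).map M₁.subtype = (layer ↥M₂).map M₂.subtype :=
    le_antisymm (layer_le M₁ M₂ h₁ h₂) (layer_le M₂ M₁ h₂ h₁)
  have hE : (layer ↥M₁).map M₁.subtype = ⊥ := by
    apply hNB
    · refine le_inf (Subgroup.map_subtype_le _) ?_
      rw [hE12]; exact Subgroup.map_subtype_le _
    · exact le_norm_map M₁ _ (layer_normal ↥M₁)
    · rw [hE12]; exact le_norm_map M₂ _ (layer_normal ↥M₂)
  have hl1 : layer ↥M₁ = ⊥ := (Subgroup.map_eq_bot_iff_of_injective _ M₁.subtype_injective).1 hE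
  have hl2 : layer ↥M₂ = ⊥ := by
    rw [hE12] at hE
    exact (Subgroup.map_eq_bot_iff_of_injective _ M₂.subtype_injective).1 hE
  have hg1 : generalizedFittingSubgroup ↥M₁ = fittingSubgroup ↥M₁ := by
    show layer ↥M₁ ⊔ fittingSubgroup ↥M₁ = _
    rw [hl1, bot_sup_eq]
  have hg2 : generalizedFittingSubgroup ↥M₂ = fittingSubgroup ↥M₂ := by
    show layer ↥M₂ ⊔ fittingSubgroup ↥M₂ = _
    rw [hl2, bot_sup_eq]
  have hcF1 : Subgroup.centralizer (fittingSubgroup ↥M₁ : Set ↥M₁) ≤ fittingSubgroup ↥M₁ := by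
    have := centralizer_gfitting_le ↥M₁
    rwa [hg1] at this
  have hcF2 : Subgroup.centralizer (fittingSubgroup ↥M₂ : Set ↥M₂) ≤ fittingSubgroup ↥M₂ := by
    have := centralizer_gfitting_le ↥M₂
    rwa [hg2] at this
  rw [hg1] at h₁
  rw [hg2] at h₂
  have hM1 : M₁ ≠ ⊥ := by
    intro h
    have h2' : fittingSubgroup ↥M₂ = ⊥ := by
      rw [← Subgroup.map_eq_bot_iff_of_injective _ M₂.subtype_injective, eq_bot_iff, ← h]
      exact h₂
    have hM2 : M₂ = ⊥ := bot_of_fit M₂ hcF2 h2'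
    exact hne (h.trans hM2.symm)
  have hF1 : fittingSubgroup ↥M₁ ≠ ⊥ := fun h => hM1 (bot_of_fit M₁ hcF1 h)
  obtain ⟨⟨p, hpp⟩, hq⟩ : ∃ q : Nat.Primes, pCore (q : ℕ) ↥M₁ ≠ ⊥ := by
    by_contra hcon
    push Not at hcon
    apply hF1
    rw [fittingSubgroup_eq_iSup_pCore]
    simp [hcon]
  change pCore p ↥M₁ ≠ ⊥ at hq
  haveI hpf : Fact p.Prime := ⟨hpp⟩
  have hP1F : pCore p ↥M₁ ≤ fittingSubgroup ↥M₁ := pCore_le_fittingSubgroup p
  have hP2F : pCore p ↥M₂ ≤ fittingSubgroup ↥M₂ := pCore_le_fittingSubgroup p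
  have hP1M2 : (pCore p ↥M₁).map M₁.subtype ≤ M₂ := (Subgroup.map_mono hP1F).trans h₁
  have hP2M1 : (pCore p ↥M₂).map M₂.subtype ≤ M₁ := (Subgroup.map_mono hP2F).trans h₂
  have hq2 : pCore p ↥M₂ ≠ ⊥ := by
    intro hbot
    apply hq
    rw [eq_bot_iff]
    intro x hx
    have hx2 : (x : G) ∈ M₂ := hP1M2 (Subgroup.mem_map_of_mem _ hx)
    have hFle : fittingSubgroup ↥M₂ ≤ pPrimeCore p ↥M₂ := by
      have := fittingSubgroup_le_sup (G := ↥M₂) p
      rwa [hbot, bot_sup_eq] at this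
    have hxc : (⟨(x : G), hx2⟩ : ↥M₂) ∈
        Subgroup.centralizer (fittingSubgroup ↥M₂ : Set ↥M₂) := by
      rw [Subgroup.mem_centralizer_iff]
      intro r hr
      apply Subtype.ext
      exact (commA M₁ M₂ hP1M2 h₂ x hx r ⟨hr, hFle hr⟩).symm
    have hxO : (⟨(x : G), hx2⟩ : ↥M₂) ∈ pPrimeCore p ↥M₂ := hFle (hcF2 hxc)
    have hcop : (orderOf (x : G)).Coprime p := by
      have h3 : orderOf (⟨_, hxO⟩ : ↥(pPrimeCore p ↥M₂)) ∣ Nat.card (pPrimeCore p ↥M₂) :=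
        orderOf_dvd_natCard _
      rw [Subgroup.orderOf_mk, Subgroup.orderOf_mk] at h3
      exact Nat.Coprime.coprime_dvd_left h3 (pPrimeCore_card_coprime p)
    obtain ⟨j, hj⟩ := (Cfsg.Agent.Lib.Lead.Cores.pCore_isPGroup (G := ↥M₁) p) ⟨x, hx⟩
    have hj' : (x : G) ^ (p ^ j) = 1 := by
      have := congrArg (fun z : ↥(pCore p ↥M₁) => ((z : ↥M₁) : G)) hj
      simpa using this
    have := p_and_coprime _ j hj' hcop
    rw [Subgroup.mem_bot]
    exact Subtype.ext this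
  have hP1ne : (pCore p ↥M₁).map M₁.subtype ≠ ⊥ := fun h =>
    hq ((Subgroup.map_eq_bot_iff_of_injective _ M₁.subtype_injective).1 h)
  have hP2ne : (pCore p ↥M₂).map M₂.subtype ≠ ⊥ := fun h =>
    hq2 ((Subgroup.map_eq_bot_iff_of_injective _ M₂.subtype_injective).1 h)
  have hP1D : (pCore p ↥M₁).map M₁.subtype ≤ M₁ ⊓ M₂ :=
    le_inf (Subgroup.map_subtype_le _) hP1M2
  have hP2D : (pCore p ↥M₂).map M₂.subtype ≤ M₁ ⊓ M₂ :=
    le_inf hP2M1 (Subgroup.map_subtype_le _)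
  have hprim1 : M₂ ⊓ Subgroup.normalizer
      (((pCore p ↥M₁).map M₁.subtype : Subgroup G) : Set G) ≤ M₁ := by
    rw [(hP _ hP1ne hP1D).1 (le_norm_map M₁ _ (pCore_normal p ↥M₁))]
    exact inf_le_left
  have hprim2 : M₁ ⊓ Subgroup.normalizer
      (((pCore p ↥M₂).map M₂.subtype : Subgroup G) : Set G) ≤ M₂ := by
    rw [(hP _ hP2ne hP2D).2 (le_norm_map M₂ _ (pCore_normal p ↥M₂))]
    exact inf_le_right
  have hS12 : Sset p M₁ = Sset p M₂ :=
    Set.Subset.antisymm (S_sub M₂ M₁ hP2M1 h₁ hcF1 hprim2) (S_sub M₁ M₂ hP1M2 h₂ hcF2 hprim1)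
  have hX : Subgroup.closure (Sset p M₁) = ⊥ := by
    apply hNB
    · refine le_inf (S_le M₁ p) ?_
      rw [hS12]; exact S_le M₂ p
    · exact S_norm M₁ p
    · rw [hS12]; exact S_norm M₂ p
  have hS1 : ∀ g ∈ Sset p M₁, g = 1 := by
    intro g hg
    have := Subgroup.subset_closure hg
    rw [hX] at this
    exact Subgroup.mem_bot.1 this
  have hS2 : ∀ g ∈ Sset p M₂, g = 1 := by rw [← hS12]; exact hS1
  exact ⟨p, hpp, cent_le M₁ hS1, cent_le M₂ hS2, sup_le hP1D hP2D⟩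

end Cfsg.Agent.S3752
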