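import Cfsg.Statements.S3760
import Mathlib

set_option autoImplicit false
open Cfsg

namespace Cfsg.Agent.S3760

theorem conj_le_stab_iff {G : Type*} [Group G] {X : Type*} [MulAction G X] (x : X) (K : Subgroup G) (g : G) :
    K.map (MulAut.conj g).toMonoidHom ≤ MulAction.stabilizer G x ↔ ∀ k ∈ K, k • (g⁻¹ • x) = g⁻¹ • x := by
  constructor
  · intro h k hk
    have h1 : g * k * g⁻¹ ∈ MulAction.stabilizer G x := h ⟨k, hk, by simp⟩
    rw [MulAction.mem_stabilizer_iff] at h1
    have h2 : g⁻¹ • ((g * k * g⁻¹) • x) = g⁻¹ • x := by rw [h1]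
    calc k • g⁻¹ • x = g⁻¹ • (g * k * g⁻¹) • x := by simp [smul_smul, mul_assoc]
      _ = g⁻¹ • x := h2
  · rintro h _ ⟨k, hk, rfl⟩
    rw [MulAction.mem_stabilizer_iff]
    have h1 := h k hk
    simp only [MulEquiv.toMonoidHom_eq_coe, MonoidHom.coe_coe, MulAut.conj_apply]
    rw [mul_smul, mul_smul, h1]
    simp

theorem map_conj_eq_of_mem_normalizer {G : Type*} [Group G] (K : Subgroup G) (n : G)
    (hn : n ∈ Subgroup.normalizer (K : Set G)) : K.map (MulAut.conj n).toMonoidHom = K :=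
  Subgroup.mem_normalizer_iff_map_conj_eq.mp hn

theorem map_conj_mul {G : Type*} [Group G] (K : Subgroup G) (a b : G) :
    K.map (MulAut.conj (a * b)).toMonoidHom = (K.map (MulAut.conj b).toMonoidHom).map (MulAut.conj a).toMonoidHom := by
  rw [Subgroup.map_map]
  congr 1
  ext y
  simp [mul_assoc]

theorem result {G : Type*} [Group G] {X : Type*} [MulAction G X] (htrans : ∀ a b : X, ∃ g : G, g • a = b) (x : X) (K : Subgroup G) (hK : K ≤ MulAction.stabilizer G x) : (∀ a b : X, (∀ k ∈ K, k • a = a) → (∀ k ∈ K, k • b = b) → ∃ g ∈ Subgroup.normalizer (K : Set G), g • a = b) ↔ ∀ g : G, K.map (MulAut.conj g).toMonoidHom ≤ MulAction.stabilizer G x → ∃ h ∈ MulAction.stabilizer G x, K.map (MulAut.conj g).toMonoidHom = K.map (MulAut.conj h).toMonoidHom := by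
  constructor
  · intro H g hg
    have h1 : ∀ k ∈ K, k • (g⁻¹ • x) = g⁻¹ • x := (conj_le_stab_iff x K g).mp hg
    have h2 : ∀ k ∈ K, k • x = x := fun k hk => MulAction.mem_stabilizer_iff.mp (hK hk)
    obtain ⟨n, hn, hnx⟩ := H (g⁻¹ • x) x h1 h2
    refine ⟨g * n⁻¹, ?_, ?_⟩
    · rw [MulAction.mem_stabilizer_iff, mul_smul]
      have : n⁻¹ • x = g⁻¹ • x := by rw [← hnx, inv_smul_smul, hnx]
      rw [this]; simp
    · rw [map_conj_mul, map_conj_eq_of_mem_normalizer K n⁻¹ (inv_mem hn)]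
  · intro H a b ha hb
    have key : ∀ c : X, (∀ k ∈ K, k • c = c) → ∃ n ∈ Subgroup.normalizer (K : Set G), n • x = c := by
      intro c hc
      obtain ⟨g, hg⟩ := htrans x c
      have h1 : K.map (MulAut.conj g⁻¹).toMonoidHom ≤ MulAction.stabilizer G x := by
        rw [conj_le_stab_iff]
        simpa [hg] using hc
      obtain ⟨h, hh, heq⟩ := H g⁻¹ h1
      refine ⟨g * h, ?_, ?_⟩
      · rw [Subgroup.mem_normalizer_iff_map_conj_eq]
        have h3 := map_conj_mul K g h
        have h4 := map_conj_mul K g g⁻¹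
        rw [← heq, ← h4] at h3
        have h5 : K.map (MulAut.conj (g * g⁻¹)).toMonoidHom = K := by
          rw [mul_inv_cancel]
          ext y
          simp
        rw [h5] at h3
        exact h3
      · rw [mul_smul, MulAction.mem_stabilizer_iff.mp hh, hg]
    obtain ⟨n₁, hn₁, h₁⟩ := key a ha
    obtain ⟨n₂, hn₂, h₂⟩ := key b hb
    refine ⟨n₂ * n₁⁻¹, mul_mem hn₂ (inv_mem hn₁), ?_⟩
    rw [mul_smul, ← h₁]
    simp [h₂]

end Cfsg.Agent.S3760
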