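import Cfsg.Statements.S3763
import Cfsg.Agent.Lib.Helper1.ESTwoC

set_option autoImplicit false
open Cfsg

namespace Cfsg.Agent.S3763

/-- Let E be an extraspecial 2-group of order 2^(2n+1). Then the largest elementary abelian subgroups of E have order 2^n or 2^(n+1); and two extraspecial 2-groups of the same order whose largest elementary abelian subgroups have the same order are isomorphic. -/
theorem result {E : Type*} [Group E] [Finite E] (hE : Cfsg.IsExtraspecial 2 E) (n : ℕ) (hn : Nat.card E = 2 ^ (2 * n + 1)) : ((Cfsg.PRankLE 2 n E ∧ ¬ Cfsg.PRankLE 2 (n - 1) E) ∨ (Cfsg.PRankLE 2 (n + 1) E ∧ ¬ Cfsg.PRankLE 2 n E)) ∧ ∀ (E' : Type*) [Group E'] [Finite E'], Cfsg.IsExtraspecial 2 E' → Nat.card E' = Nat.card E → (∀ k : ℕ, Cfsg.PRankLE 2 k E ↔ Cfsg.PRankLE 2 k E') → Nonempty (E ≃* E') := by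
  obtain ⟨z, hG⟩ := Cfsg.Agent.Lib.Lead.Extraspecial.good_of_extraspecial hE
  have e : (2 : ℕ) ^ (2 * n + 1) = 2 * (2 ^ n) ^ 2 := by rw [pow_succ, pow_mul']; ring
  have hcard : Nat.card E = 2 * (2 ^ n) ^ 2 := by rw [hn, e]
  have hd := Cfsg.Agent.Lib.Helper1.ESTwo.rank_dichotomy hG n hcard
  constructor
  · rcases hd with ⟨-, h1, h2⟩ | ⟨-, h1, h2⟩
    · exact Or.inr ⟨h1, h2⟩
    · exact Or.inl ⟨h1, h2⟩
  · intro E' _ _ hE' hc hrk
    obtain ⟨z', hG'⟩ := Cfsg.Agent.Lib.Lead.Extraspecial.good_of_extraspecial hE'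
    have hcard' : Nat.card E' = 2 * (2 ^ n) ^ 2 := by rw [hc, hcard]
    have hd' := Cfsg.Agent.Lib.Helper1.ESTwo.rank_dichotomy hG' n hcard'
    have hN : Nat.card {g : E // g ^ 2 = 1} = Nat.card {g : E' // g ^ 2 = 1} := by
      rcases hd with ⟨a1, a2, a3⟩ | ⟨a1, a2, a3⟩
      · rcases hd' with ⟨b1, b2, b3⟩ | ⟨b1, b2, b3⟩
        · rw [a1, b1]
        · exact absurd ((hrk n).2 b2) a3
      · rcases hd' with ⟨b1, b2, b3⟩ | ⟨b1, b2, b3⟩
        · exact absurd ((hrk n).1 a2) b3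
        · omega
    obtain ⟨F, -⟩ := Cfsg.Agent.Lib.Helper1.ESTwo.iso_of_count (Nat.card E) E E' z z' hG hG' rfl hc
      hN
    exact ⟨F⟩

end Cfsg.Agent.S3763
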