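import Cfsg.Statements.S3766
import Mathlib
import Cfsg.Agent.Lib.Lead.Cores
import Cfsg.Agent.Lib.Helper9.Cores

set_option autoImplicit false
open Cfsg

namespace Cfsg.Agent.S3766

open scoped commutatorElement

variable {G : Type*} [Group G]

theorem centr [Finite G] (F : Subgroup G) [hF : F.Normal] (hnil : Group.IsNilpotent F)
    (U V : Subgroup G) (hU : U.Normal) (hV : V.Normal) (hVU : V < U)
    (hch : ∀ W : Subgroup G, W.Normal → V ≤ W → W ≤ U → W = V ∨ W = U) :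
    ∀ u ∈ U, ∀ g ∈ F, u * g * u⁻¹ * g⁻¹ ∈ V := by
  haveI := hU
  haveI := hV
  have hW : (V ⊔ ⁅U, F⁆).Normal := inferInstance
  rcases hch (V ⊔ ⁅U, F⁆) hW le_sup_left (sup_le hVU.le (Subgroup.commutator_le_left U F)) with h | h
  · intro u hu g hg
    have : ⁅u, g⁆ ∈ V := by
      rw [← h]
      exact Subgroup.mem_sup_right (Subgroup.commutator_mem_commutator hu hg)
    rwa [commutatorElement_def] at this
  · exfalso
    have key : ∀ i, U ≤ V ⊔ F.lowerCentralSeries i := by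
      intro i
      induction i with
      | zero =>
        rw [Subgroup.lowerCentralSeries_zero]
        have h' : U ≤ V ⊔ ⁅U, F⁆ := h.ge
        exact h'.trans (sup_le_sup_left (Subgroup.commutator_le_right U F) V)
      | succ i ih =>
        have h' : U ≤ V ⊔ ⁅U, F⁆ := h.ge
        refine h'.trans (sup_le le_sup_left ?_)
        rw [Subgroup.commutator_le]
        intro u hu f hf
        obtain ⟨v, hv, m, hm, rfl⟩ : ∃ v ∈ V, ∃ m ∈ F.lowerCentralSeries i, v * m = u := by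
          have := ih hu
          rw [← SetLike.mem_coe, Subgroup.normal_mul] at this
          exact Set.mem_mul.1 this
        have e1 : ⁅v * m, f⁆ = v * ⁅m, f⁆ * (f * v⁻¹ * f⁻¹) := by
          simp only [commutatorElement_def]
          group
        rw [e1]
        have hmf : ⁅m, f⁆ ∈ F.lowerCentralSeries (i + 1) :=
          Subgroup.commutator_mem_commutator hm hf
        exact mul_mem (mul_mem (Subgroup.mem_sup_left hv) (Subgroup.mem_sup_right hmf))
          (Subgroup.mem_sup_left (hV.conj_mem _ (inv_mem hv) f))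
    obtain ⟨n, hn⟩ := (Subgroup.isNilpotent_iff_lowerCentralSeries F).1 hnil
    have := key n
    rw [hn, sup_bot_eq] at this
    exact (lt_irrefl V) (lt_of_lt_of_le hVU this)

theorem le_fit (N : Subgroup G) (D : Subgroup G) (hD : D.Normal) (hDN : D ≤ N)
    (hnil : Group.IsNilpotent D) : D ≤ (Cfsg.fittingSubgroup ↥N).map N.subtype := by
  have h1 : (D.subgroupOf N).Normal := hD.subgroupOf N
  have h2 : Group.IsNilpotent (D.subgroupOf N) :=
    Group.nilpotent_of_mulEquiv (Subgroup.subgroupOfEquivOfLe hDN).symm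
  have h3 := Cfsg.Agent.Lib.Lead.Cores.le_fittingSubgroup h1 h2
  have h4 := Subgroup.map_mono (f := N.subtype) h3
  rwa [Subgroup.map_subgroupOf_eq_of_le hDN] at h4

theorem fit_normal (N : Subgroup G) [N.Normal] :
    ((Cfsg.fittingSubgroup ↥N).map N.subtype).Normal := by
  haveI := Cfsg.Agent.Lib.Helper9.fitting_characteristic ↥N
  exact ConjAct.normal_of_characteristic_of_normal

theorem fit_nil [Finite G] (N : Subgroup G) :
    Group.IsNilpotent ↥((Cfsg.fittingSubgroup ↥N).map N.subtype) := by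
  haveI : Group.IsNilpotent ↥(Cfsg.fittingSubgroup ↥N) :=
    Cfsg.Agent.Lib.Lead.Cores.fittingSubgroup_isNilpotent
  exact Group.nilpotent_of_mulEquiv
    ((Cfsg.fittingSubgroup ↥N).equivMapOfInjective N.subtype (Subgroup.subtype_injective N))

def Cs (N F : Subgroup G) : Subgroup G where
  carrier := {x | x ∈ N ∧ ∀ U V : Subgroup G, (U.Normal ∧ V.Normal ∧ V < U ∧
    ∀ W : Subgroup G, W.Normal → V ≤ W → W ≤ U → W = V ∨ W = U) → U ≤ F →
    ∀ u ∈ U, u * x * u⁻¹ * x⁻¹ ∈ V}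
  mul_mem' := by
    rintro x y ⟨hx, hx'⟩ ⟨hy, hy'⟩
    refine ⟨mul_mem hx hy, fun U V hUV hUF u hu => ?_⟩
    have e : u * (x * y) * u⁻¹ * (x * y)⁻¹ = (u * x * u⁻¹ * x⁻¹) * (x * (u * y * u⁻¹ * y⁻¹) * x⁻¹) := by
      group
    rw [e]
    exact mul_mem (hx' U V hUV hUF u hu) (hUV.2.1.conj_mem _ (hy' U V hUV hUF u hu) x)
  one_mem' := by
    refine ⟨one_mem N, fun U V hUV hUF u hu => ?_⟩
    have e : u * 1 * u⁻¹ * (1 : G)⁻¹ = 1 := by group
    rw [e]
    exact one_mem V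
  inv_mem' := by
    rintro x ⟨hx, hx'⟩
    refine ⟨inv_mem hx, fun U V hUV hUF u hu => ?_⟩
    have e : u * x⁻¹ * u⁻¹ * x⁻¹⁻¹ = x⁻¹ * (u * x * u⁻¹ * x⁻¹)⁻¹ * x⁻¹⁻¹ := by group
    rw [e]
    exact hUV.2.1.conj_mem _ (inv_mem (hx' U V hUV hUF u hu)) x⁻¹

theorem mem_Cs (N F : Subgroup G) (x : G) : x ∈ Cs N F ↔ x ∈ N ∧ ∀ U V : Subgroup G,
    (U.Normal ∧ V.Normal ∧ V < U ∧
    ∀ W : Subgroup G, W.Normal → V ≤ W → W ≤ U → W = V ∨ W = U) → U ≤ F →
    ∀ u ∈ U, u * x * u⁻¹ * x⁻¹ ∈ V := Iff.rfl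

theorem Cs_normal (N F : Subgroup G) [hN : N.Normal] : (Cs N F).Normal := by
  refine ⟨fun x hx y => ?_⟩
  rw [mem_Cs] at hx ⊢
  refine ⟨hN.conj_mem x hx.1 y, fun U V hUV hUF u hu => ?_⟩
  have e : u * (y * x * y⁻¹) * u⁻¹ * (y * x * y⁻¹)⁻¹ =
      y * ((y⁻¹ * u * y⁻¹⁻¹) * x * (y⁻¹ * u * y⁻¹⁻¹)⁻¹ * x⁻¹) * y⁻¹ := by group
  rw [e]
  exact hUV.2.1.conj_mem _ (hx.2 U V hUV hUF _ (hUV.1.conj_mem u hu y⁻¹)) y

theorem Cs_le [Finite G] (hG : Group.IsSolvable G) (N : Subgroup G) [hN : N.Normal] :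
    Cs N ((Cfsg.fittingSubgroup ↥N).map N.subtype) ≤ (Cfsg.fittingSubgroup ↥N).map N.subtype := by
  classical
  haveI := hG
  by_contra hnot
  haveI hCn : (Cs N ((Cfsg.fittingSubgroup ↥N).map N.subtype)).Normal := Cs_normal N _
  have hCN : Cs N ((Cfsg.fittingSubgroup ↥N).map N.subtype) ≤ N := fun x hx => hx.1
  generalize hCdef : Cs N ((Cfsg.fittingSubgroup ↥N).map N.subtype) = C at hnot hCn hCN
  have hE : ∀ i, ((derivedSeries ↥C i).map C.subtype).Normal := fun i =>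
    ConjAct.normal_of_characteristic_of_normal
  obtain ⟨n, hn⟩ := (isSolvable_def ↥C).1 inferInstance
  have hex : ∃ i, (derivedSeries ↥C i).map C.subtype ≤ (Cfsg.fittingSubgroup ↥N).map N.subtype :=
    ⟨n, by rw [hn, Subgroup.map_bot]; exact bot_le⟩
  have hi0 : Nat.find hex ≠ 0 := by
    intro h0
    have := Nat.find_spec hex
    rw [h0, derivedSeries_zero, ← MonoidHom.range_eq_map, Subgroup.range_subtype] at this
    exact hnot this
  obtain ⟨i, hi⟩ := Nat.exists_eq_succ_of_ne_zero hi0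
  have hD : ¬ (derivedSeries ↥C i).map C.subtype ≤ (Cfsg.fittingSubgroup ↥N).map N.subtype :=
    Nat.find_min hex (by omega)
  have hDD : ⁅(derivedSeries ↥C i).map C.subtype, (derivedSeries ↥C i).map C.subtype⁆ ≤
      (Cfsg.fittingSubgroup ↥N).map N.subtype := by
    have := Nat.find_spec hex
    rw [hi, Nat.succ_eq_add_one, derivedSeries_succ, Subgroup.map_commutator] at this
    exact this
  have hDC : (derivedSeries ↥C i).map C.subtype ≤ C := Subgroup.map_subtype_le _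
  have hDn := hE i
  generalize (derivedSeries ↥C i).map C.subtype = D at hD hDD hDC hDn
  haveI := hDn
  have hL1 : ∀ j, 1 ≤ j → D.lowerCentralSeries j ≤ (Cfsg.fittingSubgroup ↥N).map N.subtype := by
    intro j hj
    exact (D.lowerCentralSeries_antitone hj).trans hDD
  have hexc : ∃ c, ∃ j, 1 ≤ j ∧ Nat.card (D.lowerCentralSeries j) = c := ⟨_, 1, le_rfl, rfl⟩
  obtain ⟨j, hj1, hjc⟩ := Nat.find_spec hexc
  have hstab : D.lowerCentralSeries (j + 1) = D.lowerCentralSeries j := by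
    apply Subgroup.eq_of_le_of_card_ge (D.lowerCentralSeries_antitone (Nat.le_succ j))
    rw [hjc]
    exact Nat.find_min' hexc ⟨j + 1, by omega, rfl⟩
  by_cases hK : D.lowerCentralSeries j = ⊥
  · exact hD (le_fit N D hDn (hDC.trans hCN) ((Subgroup.isNilpotent_iff_lowerCentralSeries D).2 ⟨j, hK⟩))
  · have hKn : (D.lowerCentralSeries j).Normal := inferInstance
    obtain ⟨V, -, hVmax⟩ := Finite.exists_le_maximal
      (p := fun W : Subgroup G => W.Normal ∧ W < D.lowerCentralSeries j) (a := ⊥)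
      ⟨Subgroup.normal_bot, bot_lt_iff_ne_bot.2 hK⟩
    have hch : ∀ W : Subgroup G, W.Normal → V ≤ W → W ≤ D.lowerCentralSeries j →
        W = V ∨ W = D.lowerCentralSeries j := by
      intro W hW hVW hWK
      by_cases hWK' : W = D.lowerCentralSeries j
      · right
        exact hWK'
      · left
        exact le_antisymm (hVmax.le_of_ge ⟨hW, lt_of_le_of_ne hWK hWK'⟩ hVW) hVW
    have hle : ⁅D.lowerCentralSeries j, D⁆ ≤ V := by
      rw [Subgroup.commutator_le]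
      intro u hu d hd
      have hdC : d ∈ Cs N ((Cfsg.fittingSubgroup ↥N).map N.subtype) := by
        rw [hCdef]
        exact hDC hd
      have := ((mem_Cs _ _ d).1 hdC).2 (D.lowerCentralSeries j) V
        ⟨hKn, hVmax.prop.1, hVmax.prop.2, hch⟩ (hL1 j hj1) u hu
      rw [commutatorElement_def]
      exact this
    have hKK : D.lowerCentralSeries j ≤ V := by
      rw [← hstab]
      exact hle
    exact (lt_irrefl V) (lt_of_lt_of_le hVmax.prop.2 hKK)

theorem result {G : Type*} [Group G] [Finite G] (hG : Group.IsSolvable G) (N : Subgroup G) [N.Normal] (g : G) : (g ∈ (Cfsg.fittingSubgroup ↥N).map N.subtype ↔ g ∈ N ∧ ∀ U V : Subgroup G, (U.Normal ∧ V.Normal ∧ V < U ∧ ∀ W : Subgroup G, W.Normal → V ≤ W → W ≤ U → W = V ∨ W = U) → ∀ u ∈ U, u * g * u⁻¹ * g⁻¹ ∈ V) ∧ (g ∈ (Cfsg.fittingSubgroup ↥N).map N.subtype ↔ g ∈ N ∧ ∀ U V : Subgroup G, (U.Normal ∧ V.Normal ∧ V < U ∧ ∀ W : Subgroup G, W.Normal → V ≤ W → W ≤ U → W = V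 ∨ W = U) → U ≤ (Cfsg.fittingSubgroup ↥N).map N.subtype → ∀ u ∈ U, u * g * u⁻¹ * g⁻¹ ∈ V) := by
  haveI hFn := fit_normal N
  have hFnil := fit_nil N
  have hFN : (Cfsg.fittingSubgroup ↥N).map N.subtype ≤ N := Subgroup.map_subtype_le _
  have hB : (g ∈ N ∧ ∀ U V : Subgroup G, (U.Normal ∧ V.Normal ∧ V < U ∧ ∀ W : Subgroup G, W.Normal → V ≤ W → W ≤ U → W = V ∨ W = U) → U ≤ (Cfsg.fittingSubgroup ↥N).map N.subtype → ∀ u ∈ U, u * g * u⁻¹ * g⁻¹ ∈ V) → g ∈ (Cfsg.fittingSubgroup ↥N).map N.subtype := by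
    intro h
    exact Cs_le hG N ((mem_Cs _ _ g).2 h)
  have hA : g ∈ (Cfsg.fittingSubgroup ↥N).map N.subtype → g ∈ N ∧ ∀ U V : Subgroup G, (U.Normal ∧ V.Normal ∧ V < U ∧ ∀ W : Subgroup G, W.Normal → V ≤ W → W ≤ U → W = V ∨ W = U) → ∀ u ∈ U, u * g * u⁻¹ * g⁻¹ ∈ V := by
    intro h
    refine ⟨hFN h, fun U V hUV u hu => ?_⟩
    exact centr _ hFnil U V hUV.1 hUV.2.1 hUV.2.2.1 hUV.2.2.2 u hu g h
  refine ⟨⟨hA, fun h => hB ⟨h.1, fun U V hUV _ => h.2 U V hUV⟩⟩, ⟨fun h => ?_, hB⟩⟩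
  have := hA h
  exact ⟨this.1, fun U V hUV _ => this.2 U V hUV⟩

end Cfsg.Agent.S3766
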