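import Cfsg.Statements.S3768
import Mathlib
import Cfsg.Agent.S0035
import Cfsg.Agent.S0039

set_option autoImplicit false
open Cfsg
open Pointwise

namespace Cfsg.Agent.S3768

theorem mem_conj {G : Type*} [Group G] (H : Subgroup G) (g x : G) :
    x ∈ MulAut.conj g • H ↔ g⁻¹ * x * g ∈ H := Cfsg.Agent.S0039.mem_conj H g x

theorem conj_mem' {G : Type*} [Group G] (N : Subgroup G) [hN : N.Normal] (n g : G) (hn : n ∈ N) :
    g⁻¹ * n * g ∈ N := by
  have := hN.conj_mem n hn g⁻¹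
  rwa [inv_inv] at this

theorem phi_inj {G : Type*} [Group G] (K : Subgroup G) (r : G)
    (hfpf : K ⊓ Subgroup.centralizer {r} = ⊥) (k₁ k₂ : G) (h1 : k₁ ∈ K) (h2 : k₂ ∈ K)
    (h : r⁻¹ * k₁⁻¹ * r * k₁ = r⁻¹ * k₂⁻¹ * r * k₂) : k₁ = k₂ := by
  have h' : k₁⁻¹ * (r * k₁) = k₂⁻¹ * (r * k₂) := by
    simp only [mul_assoc] at h
    exact mul_left_cancel h
  have h3 : k₁ * k₂⁻¹ ∈ K ⊓ Subgroup.centralizer {r} := by
    refine Subgroup.mem_inf.2 ⟨K.mul_mem h1 (K.inv_mem h2), ?_⟩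
    rw [Subgroup.mem_centralizer_singleton_iff]
    have e1 : r * k₁ = k₁ * (k₂⁻¹ * (r * k₂)) := by rw [← h', mul_inv_cancel_left]
    calc k₁ * k₂⁻¹ * r = k₁ * (k₂⁻¹ * (r * k₂)) * k₂⁻¹ := by group
      _ = r * k₁ * k₂⁻¹ := by rw [← e1]
      _ = r * (k₁ * k₂⁻¹) := by group
  rw [hfpf, Subgroup.mem_bot] at h3
  exact mul_inv_eq_one.1 h3

theorem result {G : Type*} [Group G] [Finite G] (R : Subgroup G) (hR : Cfsg.IsFrobeniusComplement R) (N : Subgroup G) [N.Normal] (hKN : ¬ Cfsg.frobeniusKernel R ⊆ N) : Cfsg.IsFrobeniusComplement (R.map (QuotientGroup.mk' N)) ∧ Cfsg.frobeniusKernel (R.map (QuotientGroup.mk' N)) = QuotientGroup.mk' N '' Cfsg.frobeniusKernel R := by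
  obtain ⟨K, hKset, hKn, hKc⟩ := Cfsg.Agent.S0035.result R hR
  haveI := hKn
  have hdisj : ∀ x : G, x ∈ K → x ∈ R → x = 1 := by
    intro x hxK hxR
    have h1 : x ∈ K ⊓ R := Subgroup.mem_inf.2 ⟨hxK, hxR⟩
    rw [disjoint_iff.1 hKc.disjoint] at h1
    exact Subgroup.mem_bot.1 h1
  have hR1 : R ≠ ⊥ := hR.1
  have hRtop : R ≠ ⊤ := hR.2.1
  have hK1 : K ≠ ⊥ := by
    intro h
    rw [h, Subgroup.isComplement'_bot_left] at hKc
    exact hRtop hKc
  have hfpf := (Cfsg.Agent.S0039.result K R hKc hK1 hR1).1 hR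
  have hKN' : ¬ K ≤ N := by
    intro h
    apply hKN
    rw [← hKset]
    exact h
  have hNK : N ≤ K := by
    by_contra hcon
    obtain ⟨n, hnN, hnK⟩ := SetLike.not_le_iff_exists.1 hcon
    have hn1 : n ≠ 1 := fun h => hnK (h ▸ K.one_mem)
    have hnker : n ∉ Cfsg.frobeniusKernel R := by
      rw [← hKset]; exact hnK
    have hex : ∃ g : G, n ∈ MulAut.conj g • R := by
      by_contra hne
      push_neg at hne
      exact hnker (Or.inr hne)
    obtain ⟨g, hg⟩ := hex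
    rw [mem_conj] at hg
    obtain ⟨r, hr⟩ : ∃ r, r = g⁻¹ * n * g := ⟨_, rfl⟩
    rw [← hr] at hg
    have hrN : r ∈ N := by rw [hr]; exact conj_mem' N n g hnN
    have hr1 : r ≠ 1 := by
      intro h
      apply hn1
      rw [hr] at h
      have : n = g * (g⁻¹ * n * g) * g⁻¹ := by group
      rw [this, h]; group
    have hf := hfpf r hg hr1
    have hmemK : ∀ k : K, r⁻¹ * (k : G)⁻¹ * r * k ∈ K := by
      intro k
      have h1 : r⁻¹ * (k : G)⁻¹ * r ∈ K := conj_mem' K _ r (K.inv_mem k.2)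
      exact K.mul_mem h1 k.2
    have hinj : Function.Injective (fun k : K => (⟨r⁻¹ * (k : G)⁻¹ * r * k, hmemK k⟩ : K)) := by
      intro k₁ k₂ h
      have h' := congrArg Subtype.val h
      exact Subtype.ext (phi_inj K r hf k₁ k₂ k₁.2 k₂.2 h')
    have hsurj := Finite.surjective_of_injective hinj
    apply hKN'
    intro k hk
    obtain ⟨k', hk'⟩ := hsurj ⟨k, hk⟩
    have h2 : r⁻¹ * (k' : G)⁻¹ * r * k' = k := congrArg Subtype.val hk'
    rw [← h2]
    have h3 : (k' : G)⁻¹ * r * k' ∈ N := conj_mem' N r k' hrN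
    have h4 : r⁻¹ * (k' : G)⁻¹ * r * k' = r⁻¹ * ((k' : G)⁻¹ * r * k') := by group
    rw [h4]
    exact N.mul_mem (N.inv_mem hrN) h3
  have hπs : Function.Surjective (QuotientGroup.mk' N) := QuotientGroup.mk'_surjective N
  have hπ1 : ∀ x : G, (QuotientGroup.mk' N) x = 1 ↔ x ∈ N := fun x => QuotientGroup.eq_one_iff x
  haveI hKbn : (K.map (QuotientGroup.mk' N)).Normal := hKn.map _ hπs
  have hmul : ∀ g : G, ∃ k ∈ K, ∃ r ∈ R, g = k * r := by
    intro g
    obtain ⟨⟨k, r⟩, h⟩ := hKc.2 g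
    exact ⟨k, k.2, r, r.2, h.symm⟩
  have hcompl : Subgroup.IsComplement' (K.map (QuotientGroup.mk' N)) (R.map (QuotientGroup.mk' N)) := by
    apply Subgroup.isComplement'_of_disjoint_and_mul_eq_univ
    · rw [Subgroup.disjoint_def]
      intro x hxK hxR
      obtain ⟨k, hk, rfl⟩ := Subgroup.mem_map.1 hxK
      obtain ⟨r, hr, hrk⟩ := Subgroup.mem_map.1 hxR
      have h1 : k⁻¹ * r ∈ N := by
        rw [← hπ1, map_mul, map_inv, hrk, inv_mul_cancel]
      have h2 : r ∈ K := by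
        have := K.mul_mem hk (hNK h1)
        rwa [mul_inv_cancel_left] at this
      have h3 := hdisj r h2 hr
      rw [← hrk, h3, map_one]
    · rw [Set.eq_univ_iff_forall]
      intro x
      obtain ⟨g, rfl⟩ := hπs x
      obtain ⟨k, hk, r, hr, rfl⟩ := hmul g
      rw [map_mul]
      exact Set.mul_mem_mul (Subgroup.mem_map_of_mem _ hk) (Subgroup.mem_map_of_mem _ hr)
  have hKb1 : K.map (QuotientGroup.mk' N) ≠ ⊥ := by
    intro h
    apply hKN'
    intro k hk
    have h1 : (QuotientGroup.mk' N) k ∈ K.map (QuotientGroup.mk' N) := Subgroup.mem_map_of_mem _ hk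
    rw [h, Subgroup.mem_bot] at h1
    exact (hπ1 k).1 h1
  have hRb1 : R.map (QuotientGroup.mk' N) ≠ ⊥ := by
    intro h
    apply hR1
    rw [eq_bot_iff]
    intro r hr
    have h1 : (QuotientGroup.mk' N) r ∈ R.map (QuotientGroup.mk' N) := Subgroup.mem_map_of_mem _ hr
    rw [h, Subgroup.mem_bot] at h1
    exact Subgroup.mem_bot.2 (hdisj r (hNK ((hπ1 r).1 h1)) hr)
  have hfpfb : ∀ h ∈ R.map (QuotientGroup.mk' N), h ≠ 1 →
      K.map (QuotientGroup.mk' N) ⊓ Subgroup.centralizer {h} = ⊥ := by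
    intro h hh hh1
    obtain ⟨r, hr, rfl⟩ := Subgroup.mem_map.1 hh
    have hr1 : r ≠ 1 := fun h => hh1 (by rw [h, map_one])
    have hf := hfpf r hr hr1
    rw [eq_bot_iff]
    intro x hx
    obtain ⟨hxK, hxC⟩ := Subgroup.mem_inf.1 hx
    obtain ⟨k, hk, rfl⟩ := Subgroup.mem_map.1 hxK
    rw [Subgroup.mem_bot, hπ1]
    have hcomm : r⁻¹ * k⁻¹ * r * k ∈ N := by
      rw [← hπ1]
      simp only [map_mul, map_inv]
      have h1 := Subgroup.mem_centralizer_singleton_iff.1 hxC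
      rw [mul_assoc, ← h1]
      group
    have hmemN : ∀ n : N, r⁻¹ * (n : G)⁻¹ * r * n ∈ N := by
      intro n
      have h1 : r⁻¹ * (n : G)⁻¹ * r ∈ N := conj_mem' N _ r (N.inv_mem n.2)
      exact N.mul_mem h1 n.2
    have hinj : Function.Injective (fun n : N => (⟨r⁻¹ * (n : G)⁻¹ * r * n, hmemN n⟩ : N)) := by
      intro n₁ n₂ h
      have h' := congrArg Subtype.val h
      exact Subtype.ext (phi_inj K r hf n₁ n₂ (hNK n₁.2) (hNK n₂.2) h')
    obtain ⟨n, hn⟩ := Finite.surjective_of_injective hinj ⟨_, hcomm⟩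
    have h2 : r⁻¹ * (n : G)⁻¹ * r * n = r⁻¹ * k⁻¹ * r * k := congrArg Subtype.val hn
    have h3 : (n : G) = k := phi_inj K r hf n k (hNK n.2) hk h2
    rw [← h3]
    exact n.2
  have hfrob : Cfsg.IsFrobeniusComplement (R.map (QuotientGroup.mk' N)) :=
    (Cfsg.Agent.S0039.result _ _ hcompl hKb1 hRb1).2 hfpfb
  refine ⟨hfrob, ?_⟩
  obtain ⟨K', hK'set, hK'n, hK'c⟩ := Cfsg.Agent.S0035.result _ hfrob
  have hle : K.map (QuotientGroup.mk' N) ≤ K' := by
    intro x hx
    have hxk : x ∈ Cfsg.frobeniusKernel (R.map (QuotientGroup.mk' N)) := by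
      by_cases hx1 : x = 1
      · exact Or.inl hx1
      · right
        intro g hg
        rw [mem_conj] at hg
        have h1 : g⁻¹ * x * g ∈ K.map (QuotientGroup.mk' N) := conj_mem' _ x g hx
        have h2 : g⁻¹ * x * g = 1 := by
          have h3 : g⁻¹ * x * g ∈ K.map (QuotientGroup.mk' N) ⊓ R.map (QuotientGroup.mk' N) :=
            Subgroup.mem_inf.2 ⟨h1, hg⟩
          rw [disjoint_iff.1 hcompl.disjoint] at h3
          exact Subgroup.mem_bot.1 h3
        apply hx1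
        have h4 : x = g * (g⁻¹ * x * g) * g⁻¹ := by group
        rw [h4, h2]; group
    rw [← hK'set] at hxk
    exact hxk
  have hcard : Nat.card (K.map (QuotientGroup.mk' N)) = Nat.card K' := by
    have h1 := hcompl.card_mul_card
    have h2 := hK'c.card_mul_card
    have h3 : 0 < Nat.card (R.map (QuotientGroup.mk' N)) := Nat.card_pos
    have h4 : Nat.card (K.map (QuotientGroup.mk' N)) * Nat.card (R.map (QuotientGroup.mk' N)) =
        Nat.card K' * Nat.card (R.map (QuotientGroup.mk' N)) := by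
      rw [h1]; exact h2.symm
    exact Nat.eq_of_mul_eq_mul_right h3 h4
  have hKK' : K.map (QuotientGroup.mk' N) = K' := Subgroup.eq_of_le_of_card_ge hle hcard.ge
  rw [← hK'set, ← hKK', ← hKset]
  rfl

end Cfsg.Agent.S3768
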