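import Cfsg.Statements.S3774
import Mathlib

set_option autoImplicit false
open Cfsg

namespace Cfsg.Agent.S3774

theorem dvd_of_pow_sub_one_dvd {n N : ℕ} (h : 2 ^ n - 1 ∣ 2 ^ N - 1) : n ∣ N := by
  have h1 : Nat.gcd (2 ^ n - 1) (2 ^ N - 1) = 2 ^ n - 1 := Nat.gcd_eq_left h
  rw [Nat.pow_sub_one_gcd_pow_sub_one] at h1
  have h2 : 2 ^ Nat.gcd n N = 2 ^ n := by
    have a1 : 1 ≤ 2 ^ Nat.gcd n N := Nat.one_le_two_pow
    have a2 : 1 ≤ 2 ^ n := Nat.one_le_two_pow
    omega
  have h3 : Nat.gcd n N = n := Nat.pow_right_injective (le_refl 2) h2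
  rw [← h3]
  exact Nat.gcd_dvd_right n N

theorem fiber_count {G : Type*} [Group G] [Fintype G] [DecidableEq G] (hG : IsPGroup 2 G)
    (z₀ : G) (hz1 : z₀ ≠ 1) (hz2 : z₀ ^ 2 = 1)
    (htrans : ∀ y : G, y ≠ 1 → y ^ 2 = 1 → ∃ a : MulAut G, a z₀ = y) :
    ∃ r : ℕ, (Finset.univ.filter (fun x : G => x ≠ 1)).card
      = (Finset.univ.filter (fun w : G => w ≠ 1 ∧ w ^ 2 = 1)).card * r := by
  have hf : ∀ x : G, x ≠ 1 → x ^ (orderOf x / 2) ≠ 1 ∧ (x ^ (orderOf x / 2)) ^ 2 = 1 := by
    intro x hx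
    obtain ⟨k, hk⟩ := hG x
    obtain ⟨j, hj, hjo⟩ := (Nat.dvd_prime_pow Nat.prime_two).mp (orderOf_dvd_of_pow_eq_one hk)
    have hj0 : j ≠ 0 := by
      rintro rfl
      rw [pow_zero, orderOf_eq_one_iff] at hjo
      exact hx hjo
    obtain ⟨i, rfl⟩ := Nat.exists_eq_succ_of_ne_zero hj0
    have h2 : orderOf x / 2 = 2 ^ i := by
      rw [hjo, pow_succ]
      exact Nat.mul_div_cancel _ (by norm_num)
    rw [h2]
    constructor
    · apply pow_ne_one_of_lt_orderOf (by positivity)
      rw [hjo, pow_succ]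
      have : 0 < 2 ^ i := by positivity
      omega
    · rw [← pow_mul, ← pow_succ, ← hjo]
      exact pow_orderOf_eq_one x
  have hfa : ∀ (a : MulAut G) (x : G),
      (a x) ^ (orderOf (a x) / 2) = a (x ^ (orderOf x / 2)) := by
    intro a x
    rw [MulEquiv.orderOf_eq, map_pow]
  have hsum := Finset.card_eq_sum_card_fiberwise (f := fun x : G => x ^ (orderOf x / 2))
    (s := Finset.univ.filter (fun x : G => x ≠ 1))
    (t := Finset.univ.filter (fun w : G => w ≠ 1 ∧ w ^ 2 = 1))
    (by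
      intro x hx
      have hx' : x ≠ 1 := by simpa using hx
      simpa using hf x hx')
  have hfib : ∀ w ∈ Finset.univ.filter (fun w : G => w ≠ 1 ∧ w ^ 2 = 1),
      ((Finset.univ.filter (fun x : G => x ≠ 1)).filter
        (fun x => x ^ (orderOf x / 2) = w)).card
      = ((Finset.univ.filter (fun x : G => x ≠ 1)).filter
        (fun x => x ^ (orderOf x / 2) = z₀)).card := by
    intro w hw
    obtain ⟨hw1, hw2⟩ := (Finset.mem_filter.mp hw).2
    obtain ⟨a, ha⟩ := htrans w hw1 hw2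
    symm
    apply Finset.card_nbij' (fun x => a x) (fun y => a.symm y)
    · intro x hx
      simp only [Finset.coe_filter, Finset.mem_filter, Finset.mem_univ, true_and,
        Set.mem_ofPred_eq] at hx ⊢
      refine ⟨?_, ?_⟩
      · intro h
        apply hx.1
        have := congrArg a.symm h
        simpa using this
      · rw [hfa, hx.2, ha]
    · intro y hy
      simp only [Finset.coe_filter, Finset.mem_filter, Finset.mem_univ, true_and,
        Set.mem_ofPred_eq] at hy ⊢
      refine ⟨?_, ?_⟩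
      · intro h
        apply hy.1
        have := congrArg a h
        simpa using this
      · have h1 := hfa a.symm y
        have h2 : (a.symm y) ^ (orderOf (a.symm y) / 2) = a.symm (y ^ (orderOf y / 2)) := h1
        rw [h2, hy.2, ← ha]
        simp
    · intro x _
      simp
    · intro y _
      simp
  refine ⟨((Finset.univ.filter (fun x : G => x ≠ 1)).filter
        (fun x => x ^ (orderOf x / 2) = z₀)).card, ?_⟩
  rw [hsum, Finset.sum_congr rfl hfib, Finset.sum_const, smul_eq_mul]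

theorem result {G : Type*} [Group G] [Finite G] [Nontrivial G] (hG : IsPGroup 2 G) (htrans : ∀ x y : G, x ≠ 1 → x ^ 2 = 1 → y ≠ 1 → y ^ 2 = 1 → ∃ a : MulAut G, a x = y) : (∀ x : G, x ^ 2 = 1 → x ∈ Subgroup.center G) ∧ ∃ m : ℕ, Nat.card G = Nat.card {z : G // z ^ 2 = 1} ^ m := by
  classical
  have hp2 : Fact (Nat.Prime 2) := ⟨Nat.prime_two⟩
  have hcn : Nontrivial (Subgroup.center G) := hG.center_nontrivial
  obtain ⟨z₀, hz₀c, hz₀1, hz₀2⟩ : ∃ z : G, z ∈ Subgroup.center G ∧ z ≠ 1 ∧ z ^ 2 = 1 := by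
    have h2 : 2 ∣ Nat.card (Subgroup.center G) := by
      obtain ⟨k, hk⟩ := (IsPGroup.iff_card.mp (hG.to_subgroup (Subgroup.center G)))
      have hk0 : k ≠ 0 := by
        rintro rfl
        rw [pow_zero] at hk
        have := Finite.one_lt_card (α := Subgroup.center G)
        omega
      rw [hk]
      exact dvd_pow_self 2 hk0
    obtain ⟨c, hc⟩ := exists_prime_orderOf_dvd_card' 2 h2
    have hc' : orderOf (c : G) = 2 := by rw [Subgroup.orderOf_coe]; exact hc
    refine ⟨c, c.2, ?_, ?_⟩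
    · intro h
      rw [h, orderOf_one] at hc'
      omega
    · rw [← hc']
      exact pow_orderOf_eq_one _
  have hcent : ∀ x : G, x ^ 2 = 1 → x ∈ Subgroup.center G := by
    intro x hx
    by_cases hx1 : x = 1
    · rw [hx1]
      exact one_mem _
    · obtain ⟨a, ha⟩ := htrans z₀ x hz₀1 hz₀2 hx1 hx
      rw [← ha, Subgroup.mem_center_iff]
      intro g
      have h3 := congrArg a ((Subgroup.mem_center_iff.mp hz₀c) (a.symm g))
      simpa using h3
  refine ⟨hcent, ?_⟩
  let W : Subgroup G :=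
    { carrier := {z | z ^ 2 = 1}
      one_mem' := by simp
      mul_mem' := by
        intro a b (ha : a ^ 2 = 1) (hb : b ^ 2 = 1)
        have hac := hcent a ha
        show (a * b) ^ 2 = 1
        have hcomm : b * a = a * b := Subgroup.mem_center_iff.mp hac b
        rw [pow_two]
        calc a * b * (a * b) = a * (b * a) * b := by group
          _ = a * (a * b) * b := by rw [hcomm]
          _ = a ^ 2 * b ^ 2 := by rw [pow_two, pow_two]; simp only [mul_assoc]
          _ = 1 := by rw [ha, hb, one_mul]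
      inv_mem' := by
        intro a (ha : a ^ 2 = 1)
        show (a⁻¹) ^ 2 = 1
        rw [inv_pow, ha, inv_one] }
  have hWcard : Nat.card {z : G // z ^ 2 = 1} = Nat.card W :=
    Nat.card_congr (Equiv.subtypeEquivRight (fun z => Iff.rfl))
  obtain ⟨n, hn⟩ := IsPGroup.iff_card.mp (hG.to_subgroup W)
  obtain ⟨N, hN⟩ := IsPGroup.iff_card.mp hG
  have hFin : Fintype G := Fintype.ofFinite G
  obtain ⟨r, hr⟩ := fiber_count hG z₀ hz₀1 hz₀2 (fun y hy1 hy2 => htrans z₀ y hz₀1 hz₀2 hy1 hy2)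
  have hX : (Finset.univ.filter (fun x : G => x ≠ 1)).card = 2 ^ N - 1 := by
    rw [Finset.filter_ne' Finset.univ (1 : G), Finset.card_erase_of_mem (Finset.mem_univ _),
      Finset.card_univ, ← Nat.card_eq_fintype_card, hN]
  have hI : (Finset.univ.filter (fun w : G => w ≠ 1 ∧ w ^ 2 = 1)).card = 2 ^ n - 1 := by
    have h1 : (Finset.univ.filter (fun w : G => w ≠ 1 ∧ w ^ 2 = 1))
        = (Finset.univ.filter (fun w : G => w ^ 2 = 1)).erase 1 := by
      ext w
      simp
    rw [h1, Finset.card_erase_of_mem (by simp)]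
    have h2 : (Finset.univ.filter (fun w : G => w ^ 2 = 1)).card = Nat.card {z : G // z ^ 2 = 1} := by
      rw [Nat.card_eq_fintype_card, Fintype.card_subtype]
    rw [h2, hWcard, hn]
  rw [hX, hI] at hr
  have hdvd : n ∣ N := dvd_of_pow_sub_one_dvd ⟨r, hr⟩
  obtain ⟨m, rfl⟩ := hdvd
  refine ⟨m, ?_⟩
  rw [hWcard, hn, hN, pow_mul]

end Cfsg.Agent.S3774
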