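import Cfsg.Statements.S3778

set_option autoImplicit false
open Cfsg

namespace Cfsg.Agent.S3778

open Subgroup
open scoped commutatorElement

section lemmas

variable {G : Type*} [Group G]

/-- centralizer of the section `A/B`: the elements `x` with `[x, A] ⊆ B` -/
def sectCent (A B : Subgroup G) [hB : B.Normal] : Subgroup G where
  carrier := {x | ∀ g ∈ A, x * g * x⁻¹ * g⁻¹ ∈ B}
  one_mem' := by
    intro g _
    simp
  mul_mem' := by
    intro x y hx hy g hg
    have e : x * y * g * (x * y)⁻¹ * g⁻¹ =
        x * (y * g * y⁻¹ * g⁻¹) * x⁻¹ * (x * g * x⁻¹ * g⁻¹) := by group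
    rw [e]
    exact B.mul_mem (hB.conj_mem _ (hy g hg) x) (hx g hg)
  inv_mem' := by
    intro x hx g hg
    have e : x⁻¹ * g * x⁻¹⁻¹ * g⁻¹ = x⁻¹ * (x * g * x⁻¹ * g⁻¹)⁻¹ * x⁻¹⁻¹ := by group
    rw [e]
    exact hB.conj_mem _ (B.inv_mem (hx g hg)) x⁻¹

theorem card_mul_le_of_lt [Finite G] {p : ℕ} [Fact p.Prime] (hG : IsPGroup p G) {A B : Subgroup G}
    (h : A < B) : Nat.card A * p ≤ Nat.card B := by
  obtain ⟨n, hn⟩ := IsPGroup.iff_card.mp (hG.to_subgroup A)
  obtain ⟨m, hm⟩ := IsPGroup.iff_card.mp (hG.to_subgroup B)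
  have hlt : Nat.card A < Nat.card B := by
    by_contra hcon
    push Not at hcon
    exact h.ne (Subgroup.eq_of_le_of_card_ge h.le hcon)
  rw [hn, hm] at hlt ⊢
  have hp : 1 < p := (Fact.out : p.Prime).one_lt
  have hnm : n < m := (Nat.pow_lt_pow_iff_right hp).mp hlt
  rw [← pow_succ]
  exact Nat.pow_le_pow_right hp.le hnm

theorem lcs_stable (k : ℕ)
    (h : (⊤ : Subgroup G).lowerCentralSeries (k + 1) = (⊤ : Subgroup G).lowerCentralSeries k) :
    ∀ j, (⊤ : Subgroup G).lowerCentralSeries (k + j) = (⊤ : Subgroup G).lowerCentralSeries k := by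
  intro j
  induction j with
  | zero => rfl
  | succ j ih =>
    have e : (⊤ : Subgroup G).lowerCentralSeries (k + (j + 1)) =
        ⁅(⊤ : Subgroup G).lowerCentralSeries (k + j), (⊤ : Subgroup G)⁆ := rfl
    rw [e, ih]
    exact h

theorem sectCent_ne_top (k : ℕ)
    (h : (⊤ : Subgroup G).lowerCentralSeries (k + 2) ≠ (⊤ : Subgroup G).lowerCentralSeries (k + 1)) :
    sectCent ((⊤ : Subgroup G).lowerCentralSeries k) ((⊤ : Subgroup G).lowerCentralSeries (k + 2)) ≠ ⊤ := by
  intro htop
  apply h
  apply le_antisymm ((Subgroup.lowerCentralSeries_antitone (⊤ : Subgroup G)) (Nat.le_succ _))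
  show ⁅(⊤ : Subgroup G).lowerCentralSeries k, (⊤ : Subgroup G)⁆ ≤ _
  rw [Subgroup.commutator_le]
  intro g hg x _
  have hx : x ∈ sectCent ((⊤ : Subgroup G).lowerCentralSeries k)
      ((⊤ : Subgroup G).lowerCentralSeries (k + 2)) := by
    rw [htop]; exact Subgroup.mem_top x
  have h1 := hx g hg
  have e : ⁅g, x⁆ = (x * g * x⁻¹ * g⁻¹)⁻¹ := by rw [commutatorElement_def]; group
  rw [e]
  exact Subgroup.inv_mem _ h1

theorem mem_sectCent_of_le_sup (x : G) (j : ℕ)
    (h : (⊤ : Subgroup G).lowerCentralSeries j ≤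
      centralizer {x} ⊔ (⊤ : Subgroup G).lowerCentralSeries (j + 1)) :
    x ∈ sectCent ((⊤ : Subgroup G).lowerCentralSeries j)
      ((⊤ : Subgroup G).lowerCentralSeries (j + 2)) := by
  intro g hg
  have hg' : g ∈ ((centralizer {x} ⊔ (⊤ : Subgroup G).lowerCentralSeries (j + 1) : Subgroup G) :
      Set G) := h hg
  rw [Subgroup.mul_normal] at hg'
  obtain ⟨u, hu, l, hl, rfl⟩ := Set.mem_mul.mp hg'
  have hu' : u * x = x * u := Subgroup.mem_centralizer_singleton_iff.mp hu
  have hl' : l ∈ (⊤ : Subgroup G).lowerCentralSeries (j + 1) := hl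
  have hn : ((⊤ : Subgroup G).lowerCentralSeries (j + 2)).Normal := inferInstance
  have e : x * (u * l) * x⁻¹ * (u * l)⁻¹ = u * (l * x * l⁻¹ * x⁻¹)⁻¹ * u⁻¹ := by
    calc x * (u * l) * x⁻¹ * (u * l)⁻¹ = (x * u) * l * x⁻¹ * l⁻¹ * u⁻¹ := by group
      _ = (u * x) * l * x⁻¹ * l⁻¹ * u⁻¹ := by rw [hu']
      _ = _ := by group
  rw [e]
  apply hn.conj_mem
  apply Subgroup.inv_mem
  have h1 : ⁅l, x⁆ ∈ ⁅(⊤ : Subgroup G).lowerCentralSeries (j + 1), (⊤ : Subgroup G)⁆ :=
    Subgroup.commutator_mem_commutator hl' (Subgroup.mem_top x)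
  rw [commutatorElement_def] at h1
  exact h1

open Classical in
theorem chain_bound [Finite G] {p : ℕ} [Fact p.Prime] (hG : IsPGroup p G) (x : G) (j : ℕ) :
    Nat.card ↥(centralizer {x} ⊔ (⊤ : Subgroup G).lowerCentralSeries j) *
      p ^ ((Finset.range j).filter (fun k => x ∉ sectCent ((⊤ : Subgroup G).lowerCentralSeries k)
        ((⊤ : Subgroup G).lowerCentralSeries (k + 2)))).card ≤ Nat.card G := by
  classical
  induction j with
  | zero =>
    rw [Finset.range_zero, Finset.filter_empty, Finset.card_empty, pow_zero, mul_one]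
    exact Subgroup.card_le_card_group _
  | succ j ih =>
    have hle : centralizer {x} ⊔ (⊤ : Subgroup G).lowerCentralSeries (j + 1) ≤
        centralizer {x} ⊔ (⊤ : Subgroup G).lowerCentralSeries j :=
      sup_le_sup_left ((Subgroup.lowerCentralSeries_antitone (⊤ : Subgroup G)) (Nat.le_succ j)) _
    rw [Finset.range_add_one, Finset.filter_insert]
    split_ifs with hx
    · exact (Nat.mul_le_mul_right _ (Subgroup.card_le_of_le hle)).trans ih
    · rw [Finset.card_insert_of_notMem (by
        intro hmem
        exact absurd (Finset.mem_range.mp (Finset.mem_filter.mp hmem).1) (lt_irrefl j)), pow_succ]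
      have hne : centralizer {x} ⊔ (⊤ : Subgroup G).lowerCentralSeries (j + 1) ≠
          centralizer {x} ⊔ (⊤ : Subgroup G).lowerCentralSeries j := by
        intro heq
        apply hx
        apply mem_sectCent_of_le_sup
        rw [heq]
        exact le_sup_right
      have h1 := card_mul_le_of_lt hG (lt_of_le_of_ne hle hne)
      calc Nat.card ↥(centralizer {x} ⊔ (⊤ : Subgroup G).lowerCentralSeries (j + 1)) *
            (p ^ ((Finset.range j).filter (fun k => x ∉ sectCent ((⊤ : Subgroup G).lowerCentralSeries k)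
              ((⊤ : Subgroup G).lowerCentralSeries (k + 2)))).card * p)
          = (Nat.card ↥(centralizer {x} ⊔ (⊤ : Subgroup G).lowerCentralSeries (j + 1)) * p) *
            p ^ ((Finset.range j).filter (fun k => x ∉ sectCent ((⊤ : Subgroup G).lowerCentralSeries k)
              ((⊤ : Subgroup G).lowerCentralSeries (k + 2)))).card := by ring
        _ ≤ Nat.card ↥(centralizer {x} ⊔ (⊤ : Subgroup G).lowerCentralSeries j) *
            p ^ ((Finset.range j).filter (fun k => x ∉ sectCent ((⊤ : Subgroup G).lowerCentralSeries k)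
              ((⊤ : Subgroup G).lowerCentralSeries (k + 2)))).card := Nat.mul_le_mul_right _ h1
        _ ≤ Nat.card G := ih

theorem main_ineq [Finite G] {p : ℕ} [Fact p.Prime] (hG : IsPGroup p G) (b : ℕ)
    (hb : ∀ x : G, (centralizer ({x} : Set G)).index ≤ p ^ b) (c : ℕ)
    (hc : (⊤ : Subgroup G).lowerCentralSeries c = ⊥)
    (hmin : ∀ k < c, (⊤ : Subgroup G).lowerCentralSeries k ≠ ⊥) (hb0 : b ≠ 0) :
    (c - 1) * (p - 1) < b * p := by
  classical
  haveI : Fintype G := Fintype.ofFinite G
  have hp : 1 < p := (Fact.out : p.Prime).one_lt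
  let C : ℕ → Subgroup G := fun k => sectCent ((⊤ : Subgroup G).lowerCentralSeries k)
    ((⊤ : Subgroup G).lowerCentralSeries (k + 2))
  let m : G → ℕ := fun x => ((Finset.range (c - 1)).filter (fun k => x ∉ C k)).card
  have hm : ∀ x, m x ≤ b := by
    intro x
    have h1 := chain_bound hG x (c - 1)
    have h2 : Nat.card ↥(centralizer ({x} : Set G)) * p ^ m x ≤ Nat.card G :=
      (Nat.mul_le_mul_right _ (Subgroup.card_le_of_le le_sup_left)).trans h1
    have h3 : Nat.card ↥(centralizer ({x} : Set G)) * (centralizer ({x} : Set G)).index =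
        Nat.card G := Subgroup.card_mul_index _
    have h4 : p ^ m x ≤ (centralizer ({x} : Set G)).index := by
      rw [← h3] at h2
      exact Nat.le_of_mul_le_mul_left h2 Nat.card_pos
    exact (Nat.pow_le_pow_iff_right hp).mp (h4.trans (hb x))
  have hm1 : m 1 = 0 := by
    simp only [m]
    rw [Finset.card_eq_zero, Finset.filter_eq_empty_iff]
    intro k _
    simp only [not_not]
    exact Subgroup.one_mem _
  have hCk : ∀ k ∈ Finset.range (c - 1),
      (p - 1) * Fintype.card G ≤ p * (Finset.univ.filter (fun x : G => x ∉ C k)).card := by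
    intro k hk
    rw [Finset.mem_range] at hk
    have hne : (⊤ : Subgroup G).lowerCentralSeries (k + 2) ≠
        (⊤ : Subgroup G).lowerCentralSeries (k + 1) := by
      intro heq
      have h1 := lcs_stable (k + 1) heq (c - (k + 1))
      have e : k + 1 + (c - (k + 1)) = c := by omega
      rw [e, hc] at h1
      exact hmin (k + 1) (by omega) h1.symm
    have htop : C k ≠ ⊤ := sectCent_ne_top k hne
    have hlt : C k < ⊤ := lt_top_iff_ne_top.mpr htop
    have h1 := card_mul_le_of_lt hG hlt
    have hcG : Nat.card G = Fintype.card G := Nat.card_eq_fintype_card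
    rw [Subgroup.card_top, hcG] at h1
    have h2 : (Finset.univ.filter (fun x : G => x ∉ C k)).card + Nat.card (C k) =
        Fintype.card G := by
      have h3 := Finset.card_filter_add_card_filter_not (s := (Finset.univ : Finset G))
        (fun x : G => x ∈ C k)
      rw [Finset.card_univ] at h3
      have h4 : (Finset.univ.filter (fun x : G => x ∈ C k)).card = Nat.card (C k) := by
        rw [Nat.card_eq_fintype_card, Fintype.card_subtype]
      omega
    have hpp : p = (p - 1) + 1 := by omega
    generalize p - 1 = q at hpp ⊢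
    rw [hpp] at h1 ⊢
    have h5 : q * Fintype.card G = q * (Finset.univ.filter (fun x : G => x ∉ C k)).card +
        q * Nat.card (C k) := by rw [← h2]; ring
    nlinarith
  have hsum : ∑ x : G, m x =
      ∑ k ∈ Finset.range (c - 1), (Finset.univ.filter (fun x : G => x ∉ C k)).card := by
    simp only [m, Finset.card_filter]
    rw [Finset.sum_comm]
  have hup : ∑ x : G, m x ≤ (Fintype.card G - 1) * b := by
    rw [← Finset.sum_erase (Finset.univ) hm1]
    calc ∑ x ∈ Finset.univ.erase (1 : G), m x ≤ ∑ x ∈ Finset.univ.erase (1 : G), b :=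
          Finset.sum_le_sum (fun x _ => hm x)
      _ = (Fintype.card G - 1) * b := by
          rw [Finset.sum_const, Finset.card_erase_of_mem (Finset.mem_univ _), Finset.card_univ,
            smul_eq_mul]
  have hlow : (c - 1) * ((p - 1) * Fintype.card G) ≤ p * ∑ x : G, m x := by
    rw [hsum, Finset.mul_sum]
    calc (c - 1) * ((p - 1) * Fintype.card G)
          = ∑ k ∈ Finset.range (c - 1), (p - 1) * Fintype.card G := by
            rw [Finset.sum_const, Finset.card_range, smul_eq_mul]
      _ ≤ _ := Finset.sum_le_sum hCk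
  have hN : 0 < Fintype.card G := Fintype.card_pos
  have hb1 : 1 ≤ b := Nat.pos_of_ne_zero hb0
  have h7 : (c - 1) * (p - 1) * Fintype.card G < b * p * Fintype.card G := by
    calc (c - 1) * (p - 1) * Fintype.card G = (c - 1) * ((p - 1) * Fintype.card G) := by ring
      _ ≤ p * ∑ x : G, m x := hlow
      _ ≤ p * ((Fintype.card G - 1) * b) := Nat.mul_le_mul_left _ hup
      _ < b * p * Fintype.card G := by
          obtain ⟨N', hN'⟩ : ∃ N', Fintype.card G = N' + 1 := ⟨Fintype.card G - 1, by omega⟩
          rw [hN']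
          simp only [Nat.add_sub_cancel]
          have : 0 < b * p := by positivity
          nlinarith
  exact Nat.lt_of_mul_lt_mul_right h7

end lemmas

/-- If G is a finite p-group in which every conjugacy class has at most p^b elements (every element has centralizer of index at most p^b), then G is abelian when b = 0, and when b ≥ 1 its nilpotency class c satisfies (c − 1)(p − 1) < bp, that is c < bp/(p − 1) + 1, and hence c ≤ 2b. -/
theorem result {G : Type*} [Group G] [Finite G] {p : ℕ} [Fact p.Prime] (hG : IsPGroup p G) (b : ℕ) (hb : ∀ x : G, (Subgroup.centralizer ({x} : Set G)).index ≤ p ^ b) : ∃ c : ℕ, (⊤ : Subgroup G).lowerCentralSeries c = ⊥ ∧ (b ≠ 0 → (c - 1) * (p - 1) < b * p ∧ c ≤ 2 * b) ∧ (b = 0 → c ≤ 1) := by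
  classical
  have hnil : Group.IsNilpotent G := hG.isNilpotent
  have hex : ∃ n, (⊤ : Subgroup G).lowerCentralSeries n = ⊥ :=
    Subgroup.nilpotent_iff_lowerCentralSeries.mp hnil
  refine ⟨Nat.find hex, Nat.find_spec hex, ?_, ?_⟩
  · intro hb0
    have key := main_ineq hG b hb (Nat.find hex) (Nat.find_spec hex)
      (fun k hk => Nat.find_min hex hk) hb0
    refine ⟨key, ?_⟩
    by_contra hcon
    push Not at hcon
    have hp : 2 ≤ p := (Fact.out : p.Prime).two_le
    have h1 : 2 * b ≤ Nat.find hex - 1 := by omega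
    have h3 : b * p ≤ (Nat.find hex - 1) * (p - 1) := by
      calc b * p ≤ 2 * b * (p - 1) := by
            have hpp : p = (p - 1) + 1 := by omega
            have hq : 1 ≤ p - 1 := by omega
            generalize p - 1 = q at hpp hq ⊢
            rw [hpp]
            nlinarith
        _ ≤ (Nat.find hex - 1) * (p - 1) := Nat.mul_le_mul_right _ h1
    omega
  · intro hb0
    apply Nat.find_min' hex
    rw [Subgroup.top_lowerCentralSeries_one]
    rw [hb0, pow_zero] at hb
    have hcomm : ∀ x y : G, x * y = y * x := by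
      intro x y
      have h1 : (centralizer ({x} : Set G)).index = 1 :=
        le_antisymm (hb x) (Nat.pos_of_ne_zero Subgroup.index_ne_zero_of_finite)
      have h2 : centralizer ({x} : Set G) = ⊤ := Subgroup.index_eq_one.mp h1
      have h3 : y ∈ centralizer ({x} : Set G) := by rw [h2]; exact Subgroup.mem_top y
      exact (Subgroup.mem_centralizer_singleton_iff.mp h3).symm
    rw [_root_.commutator_def, Subgroup.commutator_eq_bot_iff_le_centralizer]
    intro x _
    rw [Subgroup.mem_centralizer_iff]
    intro y _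
    exact hcomm y x

end Cfsg.Agent.S3778
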