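import Cfsg.Statements.S3780
import Mathlib

set_option autoImplicit false
open Cfsg

namespace Cfsg.Agent.S3780

def iter {V : Type*} [Monoid V] (T : V →* V) : ℕ → (V →* V)
  | 0 => MonoidHom.id V
  | k + 1 => (iter T k).comp T

theorem card_comap_le {V : Type*} [Group V] [Finite V] (f : V →* V) (K : Subgroup V) :
    Nat.card (K.comap f) ≤ Nat.card f.ker * Nat.card K := by
  have h1 := Subgroup.card_mul_index (f.subgroupComap K).ker
  rw [Subgroup.index_ker] at h1
  have h2 : Nat.card (f.subgroupComap K).ker ≤ Nat.card f.ker := by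
    refine Nat.card_le_card_of_injective
      (fun x => (⟨x.1.1, ?_⟩ : f.ker)) ?_
    · have hx := x.2
      rw [MonoidHom.mem_ker] at hx ⊢
      exact congrArg Subtype.val hx
    · intro x y hxy
      have h := congrArg (fun z : f.ker => (z : V)) hxy
      exact Subtype.ext (Subtype.ext h)
  have h3 : Nat.card (f.subgroupComap K).range ≤ Nat.card K := Subgroup.card_le_card_group _
  calc Nat.card (K.comap f) = Nat.card (f.subgroupComap K).ker * Nat.card (f.subgroupComap K).range :=
        h1.symm
    _ ≤ Nat.card f.ker * Nat.card K := Nat.mul_le_mul h2 h3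

theorem card_ker_iter_le {V : Type*} [Group V] [Finite V] (T : V →* V) (k : ℕ) :
    Nat.card (MonoidHom.ker (iter T k)) ≤ Nat.card (MonoidHom.ker T) ^ k := by
  induction k with
  | zero =>
    have h : MonoidHom.ker (iter T 0) = ⊥ := by
      ext v
      rw [MonoidHom.mem_ker, Subgroup.mem_bot]
      rfl
    rw [h]
    simp
  | succ k ih =>
    have h : MonoidHom.ker (iter T (k + 1)) = (MonoidHom.ker (iter T k)).comap T := by
      ext v
      rw [MonoidHom.mem_ker, Subgroup.mem_comap, MonoidHom.mem_ker]
      rfl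
    rw [h, pow_succ]
    calc Nat.card ((MonoidHom.ker (iter T k)).comap T)
        ≤ Nat.card (MonoidHom.ker T) * Nat.card (MonoidHom.ker (iter T k)) :=
          card_comap_le T _
      _ ≤ Nat.card (MonoidHom.ker T) * Nat.card (MonoidHom.ker T) ^ k :=
          Nat.mul_le_mul_left _ ih
      _ = Nat.card (MonoidHom.ker T) ^ k * Nat.card (MonoidHom.ker T) := by ring

theorem exists_pow_eq {V : Type*} [CommGroup V] {p : ℕ} (hp : p.Prime) (α : MulAut V)
    (hα : α ^ p = 1) (T : V →* V) (hT : ∀ v, T v = α v * v⁻¹) :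
    ∀ v : V, ∃ w : V, (iter T p) v = w ^ p := by
  let a : AddMonoid.End (Additive V) := MonoidHom.toAdditive (α : V →* V)
  have ha1 : ∀ v : V, a (Additive.ofMul v) = Additive.ofMul (α v) := fun v => rfl
  have ha : ∀ (k : ℕ) (v : V), (a ^ k) (Additive.ofMul v) = Additive.ofMul ((α ^ k) v) := by
    intro k
    induction k with
    | zero => intro v; simp
    | succ k ih =>
      intro v
      rw [pow_succ, pow_succ]
      show (a ^ k) (a (Additive.ofMul v)) = Additive.ofMul ((α ^ k) (α v))
      rw [ha1, ih]
  have hap : a ^ p = 1 := by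
    ext x
    have := ha p (Additive.toMul x)
    rw [hα] at this
    simpa using this
  obtain ⟨b, hb⟩ : ∃ b : AddMonoid.End (Additive V), b + 1 = a := ⟨a - 1, sub_add_cancel a 1⟩
  have hb1 : ∀ v : V, b (Additive.ofMul v) = Additive.ofMul (T v) := by
    intro v
    have h1 : (b + 1) (Additive.ofMul v) = Additive.ofMul (α v) := by rw [hb, ha1]
    have h2 : (b + 1) (Additive.ofMul v) = b (Additive.ofMul v) + Additive.ofMul v := rfl
    rw [h2] at h1
    rw [hT, eq_sub_of_add_eq h1, ← div_eq_mul_inv]
    rfl
  have hT' : ∀ (k : ℕ) (v : V),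
      (b ^ k) (Additive.ofMul v) = Additive.ofMul ((iter T k) v) := by
    intro k
    induction k with
    | zero => intro v; rfl
    | succ k ih =>
      intro v
      rw [pow_succ]
      show (b ^ k) (b (Additive.ofMul v)) = Additive.ofMul ((iter T k) (T v))
      rw [hb1, ih]
  have hcomm : Commute b (1 : AddMonoid.End (Additive V)) := Commute.one_right b
  obtain ⟨r, hr⟩ := hcomm.exists_add_pow_prime_eq hp
  rw [hb, hap, one_pow] at hr
  have h1 : b ^ p + (p : AddMonoid.End (Additive V)) * b * 1 * r = 0 := by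
    have h2 := hr.symm
    rw [add_right_comm] at h2
    exact add_eq_right.mp h2
  intro v
  refine ⟨(Additive.toMul (b (r (Additive.ofMul v))))⁻¹, ?_⟩
  have h5 : (b ^ p) (Additive.ofMul v) + p • (b (r (Additive.ofMul v))) = 0 :=
    congrArg (fun f : AddMonoid.End (Additive V) => f (Additive.ofMul v)) h1
  rw [hT' p v] at h5
  have h6 := congrArg Additive.toMul h5
  rw [toMul_add, toMul_nsmul, toMul_ofMul, toMul_zero] at h6
  rw [inv_pow]
  exact eq_inv_of_mul_eq_one_left h6

theorem exists_gen {Q : Type*} [CommGroup Q] [Finite Q] {p : ℕ} (hp : p.Prime)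
    (hexp : ∀ q : Q, q ^ p = 1) :
    ∀ k : ℕ, ∃ S : Finset Q, S.card ≤ k ∧
      (Subgroup.closure (S : Set Q) = ⊤ ∨ p ^ k ≤ Nat.card (Subgroup.closure (S : Set Q))) := by
  classical
  have hpf : Fact p.Prime := ⟨hp⟩
  have hQ : IsPGroup p Q := fun q => ⟨1, by rw [pow_one]; exact hexp q⟩
  intro k
  induction k with
  | zero =>
    refine ⟨∅, le_refl _, Or.inr ?_⟩
    rw [pow_zero]
    exact Nat.card_pos
  | succ k ih =>
    obtain ⟨S, hS, h⟩ := ih
    rcases h with h | h
    · exact ⟨S, hS.trans (Nat.le_succ k), Or.inl h⟩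
    · by_cases htop : Subgroup.closure (S : Set Q) = ⊤
      · exact ⟨S, hS.trans (Nat.le_succ k), Or.inl htop⟩
      · obtain ⟨x, hx⟩ : ∃ x : Q, x ∉ Subgroup.closure (S : Set Q) := by
          by_contra hcon
          push Not at hcon
          exact htop (top_le_iff.mp (fun x _ => hcon x))
        refine ⟨insert x S, (Finset.card_insert_le x S).trans (Nat.succ_le_succ hS), Or.inr ?_⟩
        have hle : Subgroup.closure (S : Set Q) ≤ Subgroup.closure ((insert x S : Finset Q) : Set Q) := by
          apply Subgroup.closure_mono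
          intro y hy
          simp only [Finset.coe_insert]
          exact Set.mem_insert_of_mem x hy
        have hxm : x ∈ Subgroup.closure ((insert x S : Finset Q) : Set Q) := by
          apply Subgroup.subset_closure
          simp
        have hrel : (Subgroup.closure (S : Set Q)).relIndex
            (Subgroup.closure ((insert x S : Finset Q) : Set Q)) ≠ 1 := by
          intro h1
          rw [Subgroup.relIndex_eq_one] at h1
          exact hx (h1 hxm)
        obtain ⟨m, hm⟩ := (hQ.to_subgroup (Subgroup.closure ((insert x S : Finset Q) : Set Q))).index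
          ((Subgroup.closure (S : Set Q)).subgroupOf
            (Subgroup.closure ((insert x S : Finset Q) : Set Q)))
        have hm' : (Subgroup.closure (S : Set Q)).relIndex
            (Subgroup.closure ((insert x S : Finset Q) : Set Q)) = p ^ m := hm
        have hm0 : m ≠ 0 := by
          rintro rfl
          rw [pow_zero] at hm'
          exact hrel hm'
        have hpm : p ≤ p ^ m := Nat.le_self_pow hm0 p
        have hcard : Nat.card (Subgroup.closure (S : Set Q)) *
            (Subgroup.closure (S : Set Q)).relIndex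
              (Subgroup.closure ((insert x S : Finset Q) : Set Q))
            = Nat.card (Subgroup.closure ((insert x S : Finset Q) : Set Q)) := by
          rw [← Subgroup.relIndex_bot_left, ← Subgroup.relIndex_bot_left]
          exact Subgroup.relIndex_mul_relIndex _ _ _ bot_le hle
        rw [← hcard, hm', pow_succ]
        exact Nat.mul_le_mul h hpm

theorem result {V : Type*} [CommGroup V] [Finite V] {p : ℕ} [Fact p.Prime] (hV : IsPGroup p V) (α : MulAut V) (hα : orderOf α = p) (n : ℕ) (hfix : Nat.card {v : V // α v = v} = p ^ n) : ∃ S : Finset V, S.card ≤ p * n ∧ Subgroup.closure (S : Set V) = ⊤ := by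
  classical
  have hp : p.Prime := Fact.out
  have hαp : α ^ p = 1 := by rw [← hα]; exact pow_orderOf_eq_one α
  obtain ⟨T, hT⟩ : ∃ T : V →* V, ∀ v, T v = α v * v⁻¹ :=
    ⟨MonoidHom.mk' (fun v => α v * v⁻¹) (by
      intro x y
      rw [map_mul, mul_inv]
      exact mul_mul_mul_comm _ _ _ _), fun v => rfl⟩
  have hker : Nat.card (MonoidHom.ker T) = p ^ n := by
    rw [← hfix]
    apply Nat.card_congr
    apply Equiv.subtypeEquivRight
    intro v
    rw [MonoidHom.mem_ker, hT, mul_inv_eq_one]
  have hrange : MonoidHom.range (iter T p) ≤ MonoidHom.range (powMonoidHom p : V →* V) := by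
    rintro _ ⟨v, rfl⟩
    obtain ⟨w, hw⟩ := exists_pow_eq hp α hαp T hT v
    exact ⟨w, by rw [powMonoidHom_apply]; exact hw.symm⟩
  have hidx : (MonoidHom.range (powMonoidHom p : V →* V)).index ≤ p ^ (p * n) := by
    have h1 := Subgroup.index_dvd_of_le hrange
    have h2 : (MonoidHom.range (iter T p)).index
        = Nat.card (MonoidHom.ker (iter T p)) := Subgroup.index_range
    rw [h2] at h1
    have h3 := card_ker_iter_le T p
    rw [hker, ← pow_mul, mul_comm n p] at h3
    exact (Nat.le_of_dvd Nat.card_pos h1).trans h3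
  obtain ⟨e, he⟩ := IsPGroup.iff_card.mp hV
  obtain ⟨r, hr⟩ := hV.index (MonoidHom.range (powMonoidHom p : V →* V))
  have hrn : r ≤ p * n := by
    rw [hr] at hidx
    exact (Nat.pow_le_pow_iff_right hp.one_lt).mp hidx
  have hexpQ : ∀ q : V ⧸ MonoidHom.range (powMonoidHom p : V →* V), q ^ p = 1 := by
    intro q
    obtain ⟨v, rfl⟩ := QuotientGroup.mk_surjective q
    rw [← QuotientGroup.mk_pow, QuotientGroup.eq_one_iff]
    exact ⟨v, rfl⟩
  obtain ⟨S', hS'card, hS'⟩ := exists_gen hp hexpQ r
  have hS'top : Subgroup.closure (S' : Set (V ⧸ MonoidHom.range (powMonoidHom p : V →* V))) = ⊤ := by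
    rcases hS' with h | h
    · exact h
    · apply Subgroup.eq_top_of_le_card
      have : Nat.card (V ⧸ MonoidHom.range (powMonoidHom p : V →* V)) = p ^ r := by
        rw [← Subgroup.index_eq_card, hr]
      rw [this]
      exact h
  refine ⟨S'.image (fun q => q.out), (Finset.card_image_le).trans (hS'card.trans hrn), ?_⟩
  have hmap : (Subgroup.closure ((S'.image (fun q => q.out) : Finset V) : Set V)).map
      (QuotientGroup.mk' (MonoidHom.range (powMonoidHom p : V →* V))) = ⊤ := by
    rw [MonoidHom.map_closure, ← hS'top]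
    congr 1
    ext q
    simp only [Finset.coe_image, Set.mem_image, Finset.mem_coe, QuotientGroup.mk'_apply]
    constructor
    · rintro ⟨v, ⟨q', hq', rfl⟩, rfl⟩
      rw [QuotientGroup.out_eq']
      exact hq'
    · intro hq
      exact ⟨q.out, ⟨q, hq, rfl⟩, QuotientGroup.out_eq' q⟩
  have hstep : ∀ v : V, ∃ h ∈ Subgroup.closure ((S'.image (fun q => q.out) : Finset V) : Set V),
      ∃ w : V, v = h * w ^ p := by
    intro v
    have hv : QuotientGroup.mk' (MonoidHom.range (powMonoidHom p : V →* V)) v ∈
        (Subgroup.closure ((S'.image (fun q => q.out) : Finset V) : Set V)).map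
          (QuotientGroup.mk' (MonoidHom.range (powMonoidHom p : V →* V))) := by
      rw [hmap]
      trivial
    obtain ⟨h, hh, hhe⟩ := hv
    have h1 : h⁻¹ * v ∈ MonoidHom.range (powMonoidHom p : V →* V) := by
      rw [← QuotientGroup.eq]
      exact hhe
    obtain ⟨w, hw⟩ := h1
    refine ⟨h, hh, w, ?_⟩
    rw [powMonoidHom_apply] at hw
    rw [hw]
    group
  have hiter : ∀ (k : ℕ) (v : V), ∃ h ∈ Subgroup.closure ((S'.image (fun q => q.out) : Finset V) : Set V),
      ∃ w : V, v = h * w ^ (p ^ k) := by
    intro k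
    induction k with
    | zero =>
      intro v
      exact ⟨1, one_mem _, v, by simp⟩
    | succ k ih =>
      intro v
      obtain ⟨h, hh, w, rfl⟩ := ih v
      obtain ⟨h', hh', u, rfl⟩ := hstep w
      refine ⟨h * h' ^ (p ^ k), mul_mem hh (pow_mem hh' _), u, ?_⟩
      rw [mul_pow, ← pow_mul, pow_succ, mul_assoc, mul_comm p (p ^ k)]
  rw [eq_top_iff]
  intro v _
  obtain ⟨h, hh, w, rfl⟩ := hiter e v
  have hw : w ^ (p ^ e) = 1 := by
    rw [← he]
    exact pow_card_eq_one'
  rw [hw, mul_one]
  exact hh

end Cfsg.Agent.S3780
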