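import Cfsg.Statements.S3781
import Mathlib

set_option autoImplicit false
open Cfsg

namespace Cfsg.Agent.S3781

open scoped commutatorElement

variable {G : Type*} [Group G]

theorem three_sub (A B C M : Subgroup G) [M.Normal] (h1 : ⁅⁅B, C⁆, A⁆ ≤ M) (h2 : ⁅⁅C, A⁆, B⁆ ≤ M) :
    ⁅⁅A, B⁆, C⁆ ≤ M := by
  have key : ∀ X : Subgroup G, X ≤ M ↔ X.map (QuotientGroup.mk' M) = ⊥ := by
    intro X
    rw [Subgroup.map_eq_bot_iff, QuotientGroup.ker_mk']
  rw [key] at h1 h2 ⊢
  rw [Subgroup.map_commutator, Subgroup.map_commutator] at h1 h2 ⊢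
  exact Subgroup.commutator_commutator_eq_bot_of_rotate h1 h2

def Pc (A : Subgroup G) : ℕ → Subgroup G
  | 0 => A
  | j + 1 => ⁅Pc A j, ⊤⁆

theorem Pc_zero (A : Subgroup G) : Pc A 0 = A := rfl

theorem Pc_succ (A : Subgroup G) (j : ℕ) : Pc A (j + 1) = ⁅Pc A j, ⊤⁆ := rfl

theorem Pc_normal (A : Subgroup G) [A.Normal] (j : ℕ) : (Pc A j).Normal := by
  induction j with
  | zero => rw [Pc_zero]; infer_instance
  | succ j ih =>
    rw [Pc_succ]
    haveI := ih
    infer_instance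

theorem Pc_succ' (A : Subgroup G) (j : ℕ) : Pc A (j + 1) = Pc ⁅A, ⊤⁆ j := by
  induction j with
  | zero => rfl
  | succ j ih => rw [Pc_succ, ih, Pc_succ]

theorem Pc_mono {A B : Subgroup G} (h : A ≤ B) (j : ℕ) : Pc A j ≤ Pc B j := by
  induction j with
  | zero => exact h
  | succ j ih =>
    rw [Pc_succ, Pc_succ]
    exact Subgroup.commutator_mono ih le_rfl

theorem Pc_le (A : Subgroup G) [A.Normal] (j : ℕ) : Pc A j ≤ A := by
  induction j with
  | zero => exact le_rfl
  | succ j ih =>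
    rw [Pc_succ]
    haveI := Pc_normal A j
    exact (Subgroup.commutator_le_left _ _).trans ih

theorem Pc_comm (A : Subgroup G) [A.Normal] : ∀ t j : ℕ,
    ⁅Pc A j, (⊤ : Subgroup G).lowerCentralSeries t⁆ ≤ Pc A (j + t + 1) := by
  intro t
  induction t with
  | zero =>
    intro j
    rw [Subgroup.lowerCentralSeries_zero]
    exact le_rfl
  | succ t ih =>
    intro j
    rw [Subgroup.lowerCentralSeries_succ, Subgroup.commutator_comm]
    haveI := Pc_normal A (j + (t + 1) + 1)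
    apply three_sub
    · rw [Subgroup.commutator_comm ⊤ (Pc A j), ← Pc_succ]
      have h := ih (j + 1)
      have e : j + 1 + t + 1 = j + (t + 1) + 1 := by omega
      rw [e] at h
      exact h
    · have h := Subgroup.commutator_mono (ih j) (le_refl (⊤ : Subgroup G))
      rw [← Pc_succ] at h
      exact h

theorem nil_aux (hnil : ∃ c, (⊤ : Subgroup G).lowerCentralSeries c = ⊥) (A B : Subgroup G)
    [hB : B.Normal] (h : A ≤ ⁅A, ⊤⁆ ⊔ B) : A ≤ B := by
  have key : ∀ j, A ≤ (⊤ : Subgroup G).lowerCentralSeries j ⊔ B := by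
    intro j
    induction j with
    | zero =>
      rw [Subgroup.lowerCentralSeries_zero]
      exact le_top.trans le_sup_left
    | succ j ih =>
      refine h.trans (sup_le ?_ le_sup_right)
      refine (Subgroup.commutator_mono ih (le_refl ⊤)).trans ?_
      rw [Subgroup.commutator_le]
      intro x hx g _
      obtain ⟨l, hl, b, hb, rfl⟩ : ∃ l ∈ (⊤ : Subgroup G).lowerCentralSeries j, ∃ b ∈ B, l * b = x := by
        rw [← SetLike.mem_coe, Subgroup.mul_normal] at hx
        exact Set.mem_mul.1 hx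
      have e : ⁅l * b, g⁆ = (l * (b * (g * b⁻¹ * g⁻¹)) * l⁻¹) * ⁅l, g⁆ := by
        simp only [commutatorElement_def]
        group
      rw [e]
      refine mul_mem (Subgroup.mem_sup_right ?_) (Subgroup.mem_sup_left ?_)
      · exact hB.conj_mem _ (mul_mem hb (hB.conj_mem _ (inv_mem hb) g)) l
      · exact Subgroup.commutator_mem_commutator hl (Subgroup.mem_top g)
  obtain ⟨c, hc⟩ := hnil
  have := key c
  rwa [hc, bot_sup_eq] at this

theorem Pc_index [Finite G] {p : ℕ} [Fact p.Prime] (hG : IsPGroup p G) : ∀ (k : ℕ) (A B : Subgroup G)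
    [A.Normal] [B.Normal], B ≤ A → B.relIndex A ≤ p ^ k → Pc A k ≤ B := by
  have hp : p.Prime := Fact.out
  haveI : Group.IsNilpotent G := hG.isNilpotent
  have hnil : ∃ c, (⊤ : Subgroup G).lowerCentralSeries c = ⊥ :=
    Subgroup.nilpotent_iff_lowerCentralSeries.1 inferInstance
  intro k
  induction k with
  | zero =>
    intro A B _ _ hBA hidx
    rw [pow_zero] at hidx
    have h0 : B.relIndex A ≠ 0 := by
      show (B.subgroupOf A).index ≠ 0
      exact Subgroup.index_ne_zero_of_finite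
    have h1 : B.relIndex A = 1 := by omega
    rw [Subgroup.relIndex_eq_one] at h1
    exact h1
  | succ k ih =>
    intro A B hA hB hBA hidx
    by_cases h : A ≤ ⁅A, ⊤⁆ ⊔ B
    · exact (Pc_le A (k + 1)).trans (nil_aux hnil A B h)
    · have hA₁A : ⁅A, ⊤⁆ ⊔ B ≤ A := sup_le (Subgroup.commutator_le_left A ⊤) hBA
      have hmul := Subgroup.relIndex_mul_relIndex B (⁅A, ⊤⁆ ⊔ B) A le_sup_right hA₁A
      have hne1 : (⁅A, ⊤⁆ ⊔ B).relIndex A ≠ 1 := by
        intro h1
        rw [Subgroup.relIndex_eq_one] at h1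
        exact h h1
      have hdvd : (⁅A, ⊤⁆ ⊔ B).relIndex A ∣ Nat.card G :=
        (Subgroup.relIndex_dvd_card _ _).trans (Subgroup.card_subgroup_dvd_card A)
      obtain ⟨m, hm⟩ := IsPGroup.iff_card.1 hG
      rw [hm] at hdvd
      obtain ⟨a, -, ha⟩ := (Nat.dvd_prime_pow hp).1 hdvd
      have ha0 : a ≠ 0 := by
        intro h0
        rw [h0, pow_zero] at ha
        exact hne1 ha
      have hpd : p ≤ (⁅A, ⊤⁆ ⊔ B).relIndex A := by
        rw [ha]
        calc p = p ^ 1 := (pow_one p).symm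
          _ ≤ p ^ a := Nat.pow_le_pow_right hp.pos (by omega)
      have hle : B.relIndex (⁅A, ⊤⁆ ⊔ B) ≤ p ^ k := by
        have h1 : B.relIndex (⁅A, ⊤⁆ ⊔ B) * p ≤ p ^ k * p := by
          calc B.relIndex (⁅A, ⊤⁆ ⊔ B) * p ≤ B.relIndex (⁅A, ⊤⁆ ⊔ B) * (⁅A, ⊤⁆ ⊔ B).relIndex A :=
                Nat.mul_le_mul_left _ hpd
            _ = B.relIndex A := hmul
            _ ≤ p ^ (k + 1) := hidx
            _ = p ^ k * p := pow_succ p k
        exact Nat.le_of_mul_le_mul_right h1 hp.pos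
      have h2 := ih (⁅A, ⊤⁆ ⊔ B) B le_sup_right hle
      rw [Pc_succ']
      exact (Pc_mono le_sup_left k).trans h2

theorem result {G : Type*} [Group G] [Finite G] {p : ℕ} [Fact p.Prime] (hG : IsPGroup p G) (n : ℕ) (hn : 1 ≤ n) (N : Subgroup G) [N.Normal] (hN : N ≤ (⊤ : Subgroup G).lowerCentralSeries (n - 1)) (i : ℕ) (hi : 1 < i) (hne : N.lowerCentralSeries i ≠ ⊥) : p ^ n ≤ (N.lowerCentralSeries i).relIndex (N.lowerCentralSeries (i - 1)) := by
  have hp : p.Prime := Fact.out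
  haveI : Group.IsNilpotent G := hG.isNilpotent
  have hnil : ∃ c, (⊤ : Subgroup G).lowerCentralSeries c = ⊥ :=
    Subgroup.nilpotent_iff_lowerCentralSeries.1 inferInstance
  by_contra hlt
  push Not at hlt
  obtain ⟨i', rfl⟩ : ∃ i', i = i' + 1 := ⟨i - 1, by omega⟩
  obtain ⟨n', rfl⟩ : ∃ n', n = n' + 1 := ⟨n - 1, by omega⟩
  rw [Nat.add_sub_cancel] at hlt hN
  have hdvd : (N.lowerCentralSeries (i' + 1)).relIndex (N.lowerCentralSeries i') ∣ Nat.card G :=
    (Subgroup.relIndex_dvd_card _ _).trans (Subgroup.card_subgroup_dvd_card _)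
  obtain ⟨m, hm⟩ := IsPGroup.iff_card.1 hG
  rw [hm] at hdvd
  obtain ⟨a, -, ha⟩ := (Nat.dvd_prime_pow hp).1 hdvd
  have han : a ≤ n' := by
    rw [ha] at hlt
    have := (Nat.pow_lt_pow_iff_right hp.one_lt).1 hlt
    omega
  have hidx : (N.lowerCentralSeries (i' + 1)).relIndex (N.lowerCentralSeries i') ≤ p ^ n' := by
    rw [ha]
    exact Nat.pow_le_pow_right hp.pos han
  have hanti : N.lowerCentralSeries (i' + 1) ≤ N.lowerCentralSeries i' :=
    N.lowerCentralSeries_antitone (Nat.le_succ i')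
  have h1 := Pc_index hG n' (N.lowerCentralSeries i') (N.lowerCentralSeries (i' + 1)) hanti hidx
  have h2 : Pc (N.lowerCentralSeries i') (n' + 1) ≤ ⁅N.lowerCentralSeries (i' + 1), ⊤⁆ := by
    rw [Pc_succ]
    exact Subgroup.commutator_mono h1 le_rfl
  have h3 := Pc_comm (N.lowerCentralSeries i') n' 0
  rw [Pc_zero, zero_add] at h3
  have h4 : N.lowerCentralSeries (i' + 1) ≤ ⁅N.lowerCentralSeries (i' + 1), ⊤⁆ := by
    rw [Subgroup.lowerCentralSeries_succ N i']
    exact ((Subgroup.commutator_mono le_rfl hN).trans h3).trans h2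
  have h5 := nil_aux hnil (N.lowerCentralSeries (i' + 1)) ⊥ (h4.trans le_sup_left)
  exact hne (le_bot_iff.1 h5)

end Cfsg.Agent.S3781
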