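import Cfsg.Statements.S3784
import Mathlib

set_option autoImplicit false
open Cfsg

namespace Cfsg.Agent.S3784

open Finset

theorem geom_parity (x : ℤ) (hx : Odd x) : ∀ n : ℕ, Even (∑ i ∈ range n, x ^ i) ↔ Even n
  | 0 => by simp
  | n + 1 => by
    have hodd : ¬ Even (x ^ n) := by
      rw [Int.not_even_iff_odd]
      exact hx.pow
    rw [sum_range_succ, Int.even_add, geom_parity x hx n, Nat.even_add_one]
    simp [hodd]

theorem odd_dvd_two_pow (n b : ℕ) (h : Odd n) (hd : n ∣ 2 ^ b) : n = 1 :=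
  Nat.Coprime.eq_one_of_dvd (Nat.Coprime.pow_right b (Nat.coprime_two_right.mpr h)) hd

theorem int_odd_dvd_two_pow (t : ℤ) (b : ℕ) (h : Odd t) (hd : t ∣ 2 ^ b) : t = 1 ∨ t = -1 := by
  have h1 : t.natAbs = 1 := by
    apply odd_dvd_two_pow t.natAbs b
    · exact Int.natAbs_odd.mpr h
    · have : (t.natAbs : ℤ) ∣ ((2 ^ b : ℕ) : ℤ) := by
        rw [Int.natAbs_dvd]
        exact_mod_cast hd
      exact_mod_cast this
  exact Int.natAbs_eq_natAbs_iff.mp (by simpa using h1)

theorem case_two_pow (q a b : ℕ) (hq : q.Prime) (hqodd : Odd q) (hb : 1 ≤ b) (h : 2 ^ a = q ^ b + 1) :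
    b = 1 := by
  have hq2 : 2 ≤ q := hq.two_le
  rcases Nat.even_or_odd b with hbe | hbo
  · exfalso
    obtain ⟨c, rfl⟩ := hbe
    have hc : 1 ≤ c := by omega
    have hqc : Odd (q ^ c) := hqodd.pow
    have h4 : q ^ (c + c) % 4 = 1 := by
      rw [pow_add]
      have : q ^ c % 4 = 1 ∨ q ^ c % 4 = 3 := by
        have := Nat.odd_iff.mp hqc
        omega
      rcases this with h1 | h1 <;> simp [Nat.mul_mod, h1]
    have h2 : 2 ^ a % 4 = 2 := by omega
    rcases Nat.lt_or_ge a 2 with h1 | h1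
    · have hqq : 2 ^ 1 ≤ q ^ (c + c) :=
        (Nat.pow_le_pow_left hq2 1).trans (Nat.pow_le_pow_right (by omega) (by omega))
      interval_cases a <;> omega
    · obtain ⟨k, rfl⟩ := Nat.exists_eq_add_of_le h1
      rw [pow_add] at h2
      omega
  · by_contra hne
    have hb2 : 2 ≤ b := by omega
    have hkey : (∑ i ∈ range b, (-(q : ℤ)) ^ i) * (-(q : ℤ) - 1) = (-(q : ℤ)) ^ b - 1 := geom_sum_mul _ _
    rw [Odd.neg_pow hbo] at hkey
    have hT : (∑ i ∈ range b, (-(q : ℤ)) ^ i) * ((q : ℤ) + 1) = 2 ^ a := by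
      have h' : ((2 : ℤ) ^ a) = (q : ℤ) ^ b + 1 := by exact_mod_cast h
      rw [h']
      linear_combination -hkey
    have hTodd : Odd (∑ i ∈ range b, (-(q : ℤ)) ^ i) := by
      rw [← Int.not_even_iff_odd, geom_parity _ (by simpa using ((Int.odd_coe_nat q).mpr hqodd : Odd (q : ℤ)).neg) b]
      exact Nat.not_even_iff_odd.mpr hbo
    have hdvd : (∑ i ∈ range b, (-(q : ℤ)) ^ i) ∣ 2 ^ a := Dvd.intro _ hT
    rcases int_odd_dvd_two_pow _ a hTodd hdvd with h1 | h1
    · rw [h1] at hT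
      have h' : ((2 : ℤ) ^ a) = (q : ℤ) ^ b + 1 := by exact_mod_cast h
      have h3 : (q : ℤ) ^ b = q := by linarith
      have h4 : q ^ b = q ^ 1 := by
        rw [pow_one]
        exact_mod_cast h3
      have := Nat.pow_right_injective hq2 h4
      omega
    · rw [h1] at hT
      have : (0 : ℤ) < 2 ^ a := by positivity
      have : (0 : ℤ) ≤ q := by positivity
      linarith

theorem case_odd_pow (p a b : ℕ) (hpodd : Odd p) (hp2 : 2 ≤ p) (ha2 : 2 ≤ a) (h : p ^ a = 2 ^ b + 1) :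
    p ^ a = 9 ∧ 2 ^ b = 8 := by
  rcases Nat.even_or_odd a with hae | hao
  · obtain ⟨c, rfl⟩ := hae
    have hc : 1 ≤ c := by omega
    have hx : Odd (p ^ c) := hpodd.pow
    have hx2 : 2 ≤ p ^ c := (Nat.pow_le_pow_left hp2 1).trans (Nat.pow_le_pow_right (by omega) hc) |>.trans' (by simp)
    rw [pow_add] at h ⊢
    generalize p ^ c = x at *
    have hm : (x - 1) * (x + 1) = 2 ^ b := by
      have : 1 ≤ x := by omega
      zify [this]
      have h' : ((x : ℤ) * x) = 2 ^ b + 1 := by exact_mod_cast h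
      linear_combination h'
    have h1 : x - 1 ∣ 2 ^ b := Dvd.intro _ hm
    have h2 : x + 1 ∣ 2 ^ b := Dvd.intro_left _ hm
    obtain ⟨i, -, hi⟩ := (Nat.dvd_prime_pow Nat.prime_two).mp h1
    obtain ⟨j, -, hj⟩ := (Nat.dvd_prime_pow Nat.prime_two).mp h2
    have hij : 2 ^ j = 2 ^ i + 2 := by omega
    have hodd := Nat.odd_iff.mp hx
    rcases Nat.lt_or_ge i 2 with hi2 | hi2
    · interval_cases i
      · omega
      · have hx3 : x = 3 := by omega
        subst hx3
        omega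
    · exfalso
      obtain ⟨k, rfl⟩ := Nat.exists_eq_add_of_le hi2
      have hj2 : 2 ≤ j := by
        by_contra hj'
        have : j = 0 ∨ j = 1 := by omega
        have h4 : 4 ≤ 2 ^ (2 + k) := by
          rw [pow_add]; have := Nat.one_le_two_pow (n := k); omega
        rcases this with rfl | rfl <;> omega
      obtain ⟨l, rfl⟩ := Nat.exists_eq_add_of_le hj2
      rw [pow_add, pow_add] at hij
      omega
  · exfalso
    have hkey : (∑ i ∈ range a, (p : ℤ) ^ i) * ((p : ℤ) - 1) = (p : ℤ) ^ a - 1 := geom_sum_mul _ _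
    have h' : ((p : ℤ) ^ a) = 2 ^ b + 1 := by exact_mod_cast h
    have hT : (∑ i ∈ range a, (p : ℤ) ^ i) * ((p : ℤ) - 1) = 2 ^ b := by rw [hkey, h']; ring
    have hTodd : Odd (∑ i ∈ range a, (p : ℤ) ^ i) := by
      rw [← Int.not_even_iff_odd, geom_parity _ ((Int.odd_coe_nat p).mpr hpodd) a]
      exact Nat.not_even_iff_odd.mpr hao
    have hdvd : (∑ i ∈ range a, (p : ℤ) ^ i) ∣ 2 ^ b := Dvd.intro _ hT
    have hge : (1 : ℤ) + p ≤ ∑ i ∈ range a, (p : ℤ) ^ i := by
      obtain ⟨k, rfl⟩ := Nat.exists_eq_add_of_le ha2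
      rw [add_comm 2 k, sum_range_succ, sum_range_succ]
      have h0 : (0 : ℤ) ≤ ∑ i ∈ range k, (p : ℤ) ^ i := Finset.sum_nonneg (fun i _ => by positivity)
      have h1 : (1 : ℤ) ≤ (p : ℤ) ^ k := one_le_pow₀ (by exact_mod_cast (by omega : 1 ≤ p))
      have h2 : (p : ℤ) ≤ (p : ℤ) ^ (k + 1) := by
        have : (p : ℤ) ^ 1 ≤ (p : ℤ) ^ (k + 1) :=
          pow_le_pow_right₀ (by exact_mod_cast (by omega : 1 ≤ p)) (by omega)
        simpa using this
      linarith
    have hp0 : (2 : ℤ) ≤ p := by exact_mod_cast hp2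
    rcases int_odd_dvd_two_pow _ b hTodd hdvd with h1 | h1 <;> rw [h1] at hge <;> linarith

theorem result (p q a b : ℕ) (hp : p.Prime) (hq : q.Prime) (ha : 1 ≤ a) (hb : 1 ≤ b) (h : p ^ a = q ^ b + 1) : (p = 2 ∧ b = 1 ∧ a.Prime ∧ q + 1 = 2 ^ a) ∨ (q = 2 ∧ a = 1 ∧ (∃ m : ℕ, b = 2 ^ m) ∧ p = 2 ^ b + 1) ∨ (p ^ a = 9 ∧ q ^ b = 8) := by
  rcases hp.eq_two_or_odd' with rfl | hpodd
  · have hqodd : Odd q := by
      rcases hq.eq_two_or_odd' with rfl | h'
      · exfalso
        have h1 : Even (2 ^ a) := (Nat.even_pow' (by omega)).mpr even_two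
        have h2 : Even (2 ^ b) := (Nat.even_pow' (by omega)).mpr even_two
        rw [h] at h1
        exact (Nat.not_even_iff_odd.mpr h2.add_one) h1
      · exact h'
    left
    have hb1 : b = 1 := case_two_pow q a b hq hqodd hb h
    subst hb1
    rw [pow_one] at h
    refine ⟨rfl, rfl, ?_, h.symm⟩
    have hq' : (2 ^ a - 1).Prime := by
      have : 2 ^ a - 1 = q := by omega
      rw [this]; exact hq
    have ha1 : a ≠ 1 := by
      rintro rfl
      have : q = 1 := by omega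
      exact hq.ne_one this
    exact (Nat.prime_of_pow_sub_one_prime ha1 hq').2
  · have hq2 : q = 2 := by
      rcases hq.eq_two_or_odd' with rfl | h'
      · rfl
      · exfalso
        have h1 : Odd (p ^ a) := hpodd.pow
        have h2 : Odd (q ^ b) := h'.pow
        rw [h] at h1
        exact (Nat.not_even_iff_odd.mpr h1) h2.add_one
    subst hq2
    right
    rcases Nat.lt_or_ge a 2 with ha1 | ha2
    · left
      have : a = 1 := by omega
      subst this
      rw [pow_one] at h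
      refine ⟨rfl, rfl, ?_, h⟩
      apply Nat.pow_of_pow_add_prime (a := 2) (by norm_num) (by omega)
      rw [← h]; exact hp
    · right
      exact case_odd_pow p a b hpodd hp.two_le ha2 h

end Cfsg.Agent.S3784
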