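import Cfsg.Statements.S3785
import Mathlib
import Cfsg.Agent.Lib.Helper20.Omega
import Cfsg.Agent.Lib.Helper9.Misc

set_option autoImplicit false
open Cfsg

namespace Cfsg.Agent.S3785

open Cfsg.Agent.Lib.Helper20.Omega
open Cfsg.Agent.Lib.Helper9

universe u

theorem mem_of_primary {G : Type*} [Group G] [Finite G] (S T : Subgroup G) (Q : ℕ → Prop)
    (h : ∀ w ∈ S, ∀ r n : ℕ, r.Prime → Q r → orderOf w = r ^ n → w ∈ T) :
    ∀ (m : ℕ) (w : G), w ∈ S → orderOf w = m → (∀ r : ℕ, r.Prime → r ∣ m → Q r) → w ∈ T := by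
  intro m
  induction m using Nat.recOnPosPrimePosCoprime with
  | prime_pow p n hp hn =>
    intro w hw hord hQ
    exact h w hw p n hp (hQ p hp (dvd_pow_self p hn.ne')) hord
  | zero =>
    intro w _ hord _
    exact absurd hord (orderOf_pos w).ne'
  | one =>
    intro w _ hord _
    rw [orderOf_eq_one_iff] at hord
    rw [hord]; exact T.one_mem
  | coprime a b ha hb hab iha ihb =>
    intro w hw hord hQ
    have ha0 : a ≠ 0 := by omega
    have hb0 : b ≠ 0 := by omega
    have h1 : orderOf (w ^ a) = b := by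
      rw [orderOf_pow' w ha0, hord, Nat.gcd_mul_right_left, Nat.mul_div_cancel_left b (by omega)]
    have h2 : orderOf (w ^ b) = a := by
      rw [orderOf_pow' w hb0, hord, Nat.gcd_mul_left_left, Nat.mul_div_cancel a (by omega)]
    have h3 : w ^ a ∈ T := ihb (w ^ a) (S.pow_mem hw a) h1
      (fun r hr hrb => hQ r hr (Dvd.dvd.mul_left hrb a))
    have h4 : w ^ b ∈ T := iha (w ^ b) (S.pow_mem hw b) h2
      (fun r hr hra => hQ r hr (Dvd.dvd.mul_right hra b))
    have h5 := Int.gcd_eq_gcd_ab (a : ℤ) (b : ℤ)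
    have h6 : Int.gcd (a : ℤ) (b : ℤ) = 1 := by
      rw [Int.gcd_natCast_natCast]; exact hab
    rw [h6] at h5
    have h7 : w = (w ^ a) ^ (Int.gcdA a b) * (w ^ b) ^ (Int.gcdB a b) := by
      rw [← zpow_natCast w a, ← zpow_natCast w b, ← zpow_mul, ← zpow_mul, ← zpow_add, ← h5]
      simp
    rw [h7]
    exact T.mul_mem (T.zpow_mem h3 _) (T.zpow_mem h4 _)

theorem normal_centralizer_of_invariant {G : Type*} [Group G] (S : Set G)
    (hS : ∀ g : G, ∀ x ∈ S, g * x * g⁻¹ ∈ S) : (Subgroup.centralizer S).Normal := by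
  constructor
  intro w hw g
  rw [Subgroup.mem_centralizer_iff]
  intro x hx
  have h0 : g⁻¹ * x * g ∈ S := by
    have := hS g⁻¹ x hx
    rwa [inv_inv] at this
  have h1 := (Subgroup.mem_centralizer_iff.1 hw) (g⁻¹ * x * g) h0
  calc x * (g * w * g⁻¹) = g * ((g⁻¹ * x * g) * w) * g⁻¹ := by group
    _ = g * (w * (g⁻¹ * x * g)) * g⁻¹ := by rw [h1]
    _ = g * w * g⁻¹ * x := by group

theorem mem_pCore_of_mem_fitting {G : Type u} [Group G] [Finite G] {r : ℕ} [Fact r.Prime] {z : G}
    (hz : z ∈ fittingSubgroup G) {n : ℕ} (hord : orderOf z = r ^ n) : z ∈ pCore r G := by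
  have hFn : (fittingSubgroup G).Normal := fitting_normal G
  have hnil : Group.IsNilpotent (fittingSubgroup G) := fitting_isNilpotent G
  let P : Sylow r (fittingSubgroup G) := default
  have hPnormal : (P : Subgroup (fittingSubgroup G)).Normal := inferInstance
  have hPc : (P : Subgroup (fittingSubgroup G)).Characteristic := P.characteristic_of_normal hPnormal
  have hPn : ((P : Subgroup (fittingSubgroup G)).map (fittingSubgroup G).subtype).Normal :=
    ConjAct.normal_of_characteristic_of_normal
  have hle := le_pCore hPn (P.isPGroup'.map _)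
  apply hle
  have hzp : IsPGroup r (Subgroup.zpowers (⟨z, hz⟩ : fittingSubgroup G)) := by
    apply IsPGroup.of_card (n := n)
    rw [Nat.card_zpowers, Subgroup.orderOf_mk, hord]
  obtain ⟨Q, hQ⟩ := hzp.exists_le_sylow
  have hQP : Q = P := by
    haveI := Sylow.unique_of_normal P hPnormal
    exact Subsingleton.elim _ _
  rw [hQP] at hQ
  exact Subgroup.mem_map.2 ⟨⟨z, hz⟩, hQ (Subgroup.mem_zpowers _), rfl⟩

theorem aux {G : Type u} [Group G] [Finite G] (hG : Group.IsSolvable G)
    (hodd : Odd (Nat.card (Cfsg.fittingSubgroup G))) (g : G)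
    (hg : ∀ x ∈ Cfsg.fittingSubgroup G, (orderOf x).Prime → g * x = x * g) :
    g ∈ Cfsg.fittingSubgroup G := by
  haveI := hG
  have hFn : (fittingSubgroup G).Normal := fitting_normal G
  obtain ⟨S₀, hS₀⟩ : ∃ S₀ : Set G, S₀ = {x | x ∈ fittingSubgroup G ∧ (orderOf x).Prime} := ⟨_, rfl⟩
  have hconjord : ∀ (g x : G), orderOf (g * x * g⁻¹) = orderOf x := by
    intro g x
    rw [← MulAut.conj_apply]
    exact MulEquiv.orderOf_eq _ _
  have hS₀inv : ∀ g : G, ∀ x ∈ S₀, g * x * g⁻¹ ∈ S₀ := by
    intro g x hx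
    rw [hS₀] at hx ⊢
    exact ⟨hFn.conj_mem x hx.1 g, by rw [hconjord]; exact hx.2⟩
  have h2 : pCore 2 G = ⊥ := by
    haveI : Fact (Nat.Prime 2) := ⟨Nat.prime_two⟩
    have h1 : pCore 2 G ≤ fittingSubgroup G := pCore_le_fitting 2 G
    have h3 : Nat.card (pCore 2 G) ∣ Nat.card (fittingSubgroup G) := Subgroup.card_dvd_of_le h1
    obtain ⟨j, hj⟩ := IsPGroup.iff_card.1 (pCore_isPGroup 2 G)
    have h4 : Odd (Nat.card (pCore 2 G)) := hodd.of_dvd_nat h3
    rw [hj] at h4
    have hj0 : j = 0 := by
      by_contra hne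
      have : Even (2 ^ j) := (Nat.even_pow' hne).2 even_two
      exact (Nat.not_odd_iff_even.2 this) h4
    rw [hj0, pow_zero] at hj
    exact Subgroup.eq_bot_of_card_eq _ hj
  have key2 : ∀ (z : G) (r n : ℕ), r.Prime → orderOf z = r ^ n → z ∈ Subgroup.centralizer S₀ →
      ∀ p : ℕ, p.Prime → p ≠ r → ∀ x ∈ pCore p G, z * x = x * z := by
    intro z r n hr hord hzC p hp hpr
    haveI : Fact p.Prime := ⟨hp⟩
    have hcop : (orderOf z).Coprime p := by
      rw [hord]
      exact Nat.Coprime.pow_left n ((Nat.coprime_primes hr hp).2 (Ne.symm hpr))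
    have hnorm : z ∈ Subgroup.normalizer ((pCore p G : Subgroup G) : Set G) := by
      haveI : (pCore p G).Characteristic := pCore_characteristic p G
      have hn : (pCore p G).Normal := inferInstance
      rw [Subgroup.normalizer_eq_top_iff.2 hn]; trivial
    apply centralizes_of_omega z hcop _ (pCore p G) rfl (pCore_isPGroup p G) hnorm
    intro x hx hxe
    by_cases hp2 : p = 2
    · rw [hp2, h2, Subgroup.mem_bot] at hx
      rw [hx, mul_one, one_mul]
    · have hexpo : expo p = p := by unfold expo; simp [hp2]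
      rw [hexpo] at hxe
      by_cases hx1 : x = 1
      · rw [hx1, mul_one, one_mul]
      · have hox : orderOf x = p := orderOf_eq_prime hxe hx1
        have hxS : x ∈ S₀ := by
          rw [hS₀]
          exact ⟨pCore_le_fitting p G hx, by rw [hox]; exact hp⟩
        exact ((Subgroup.mem_centralizer_iff.1 hzC) x hxS).symm
  have hD : ∀ q : ℕ, q.Prime → ∀ w : G, w ∈ Subgroup.centralizer S₀ → ∀ n : ℕ, orderOf w = q ^ n →
      w ∈ fittingSubgroup G := by
    intro q hq w hwC n hwn
    haveI : Fact q.Prime := ⟨hq⟩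
    obtain ⟨Sq, hSq⟩ : ∃ Sq : Set G, Sq = S₀ ∪ {x | ∃ p : ℕ, p.Prime ∧ p ≠ q ∧ x ∈ pCore p G} :=
      ⟨_, rfl⟩
    have hSqinv : ∀ g : G, ∀ x ∈ Sq, g * x * g⁻¹ ∈ Sq := by
      intro g x hx
      rw [hSq] at hx ⊢
      rcases hx with hx | ⟨p, hp, hpq, hx⟩
      · exact Or.inl (hS₀inv g x hx)
      · right
        haveI : (pCore p G).Characteristic := pCore_characteristic p G
        have hn : (pCore p G).Normal := inferInstance
        exact ⟨p, hp, hpq, hn.conj_mem x hx g⟩
    obtain ⟨D, hDdef⟩ : ∃ D : Subgroup G, D = Subgroup.centralizer Sq := ⟨_, rfl⟩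
    have hDn : D.Normal := by rw [hDdef]; exact normal_centralizer_of_invariant Sq hSqinv
    have hDC : D ≤ Subgroup.centralizer S₀ := by
      rw [hDdef]
      apply Subgroup.centralizer_le
      rw [hSq]; exact Set.subset_union_left
    have hDp : ∀ d ∈ D, ∀ p : ℕ, p.Prime → p ≠ q → ∀ x ∈ pCore p G, d * x = x * d := by
      intro d hd p hp hpq x hx
      rw [hDdef] at hd
      have hxS : x ∈ Sq := by rw [hSq]; exact Or.inr ⟨p, hp, hpq, hx⟩
      exact ((Subgroup.mem_centralizer_iff.1 hd) x hxS).symm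
    have hcentral : ∀ z ∈ D, ∀ r n : ℕ, r.Prime → r ≠ q → orderOf z = r ^ n →
        z ∈ Subgroup.centralizer (D : Set G) := by
      intro z hz r n hr hrq hord
      haveI : Fact r.Prime := ⟨hr⟩
      have hzC := hDC hz
      have hall : ∀ p : ℕ, p.Prime → pCore p G ≤ Subgroup.centralizer ({z} : Set G) := by
        intro p hp x hx
        rw [Subgroup.mem_centralizer_singleton_iff]
        by_cases hpr : p = r
        · rw [hpr] at hx
          exact (hDp z hz r hr hrq x hx).symm
        · exact (key2 z r n hr hord hzC p hp hpr x hx).symm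
      have hF := fitting_le_of_forall_pCore_le _ hall
      have hzcF : z ∈ Subgroup.centralizer (fittingSubgroup G : Set G) := by
        rw [Subgroup.mem_centralizer_iff]
        intro x hx
        have := hF hx
        rw [Subgroup.mem_centralizer_singleton_iff] at this
        exact this
      have hzF : z ∈ fittingSubgroup G :=
        ((layer_eq_bot_iff G).2 (layer_eq_bot_of_isSolvable G)) hzcF
      have hzr : z ∈ pCore r G := mem_pCore_of_mem_fitting hzF hord
      rw [Subgroup.mem_centralizer_iff]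
      intro d hd
      exact hDp d hd r hr hrq z hzr
    have hDnil : Group.IsNilpotent D := by
      apply Group.of_quotient_center_nilpotent
      have hpg : IsPGroup q (↥D ⧸ Subgroup.center ↥D) := by
        apply isPGroup_quotient_of_forall_coprime_mem
        intro w hwcop
        have h1 := mem_of_primary D (Subgroup.centralizer (D : Set G)) (fun r => r ≠ q)
          (fun z hz r n hr hrq hord => hcentral z hz r n hr hrq hord) (orderOf (w : G)) (w : G) w.2 rfl
          (by
            intro r hr hrd hrq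
            rw [hrq, Subgroup.orderOf_coe] at hrd
            have h3 : q ∣ Nat.gcd (orderOf w) q := Nat.dvd_gcd hrd dvd_rfl
            rw [hwcop.gcd_eq_one] at h3
            exact hq.one_lt.ne' (Nat.dvd_one.1 h3))
        rw [Subgroup.mem_center_iff]
        intro d
        apply Subtype.ext
        exact (Subgroup.mem_centralizer_iff.1 h1) d d.2
      exact hpg.isNilpotent
    have hDF : D ≤ fittingSubgroup G := le_fitting hDn hDnil
    apply hDF
    rw [hDdef, Subgroup.mem_centralizer_iff]
    intro x hx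
    rw [hSq] at hx
    rcases hx with hx | ⟨p, hp, hpq, hx⟩
    · exact (Subgroup.mem_centralizer_iff.1 hwC) x hx
    · exact (key2 w q n hq hwn hwC p hp hpq x hx).symm
  have hgC : g ∈ Subgroup.centralizer S₀ := by
    rw [Subgroup.mem_centralizer_iff]
    intro x hx
    rw [hS₀] at hx
    exact (hg x hx.1 hx.2).symm
  exact mem_of_primary (Subgroup.centralizer S₀) (fittingSubgroup G) (fun _ => True)
    (fun w hw r n hr _ hord => hD r hr w hw n hord) (orderOf g) g hgC rfl (fun _ _ _ => trivial)

theorem result {G : Type*} [Group G] [Finite G] (hG : Group.IsSolvable G) (hodd : Odd (Nat.card (Cfsg.fittingSubgroup G))) (g : G) (hg : ∀ x ∈ Cfsg.fittingSubgroup G, (orderOf x).Prime → g * x = x * g) : g ∈ Cfsg.fittingSubgroup G := by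
  exact aux hG hodd g hg

end Cfsg.Agent.S3785
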