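import Cfsg.Statements.S3790
import Mathlib
import Cfsg.Agent.Lib.Helper20.UpperSeries

set_option autoImplicit false
open Cfsg

namespace Cfsg.Agent.S3790

open Cfsg.Agent.Lib.Helper20.UpperSeries
open Cfsg.Agent.Lib.Helper9

universe u

theorem step (p q : ℕ) [Fact p.Prime] [Fact q.Prime] (hqp : q ≠ p) (m : ℕ)
    (C : ∀ (H : Type u) [Group H] [Finite H], Prop)
    (hsub : ∀ (H : Type u) [Group H] [Finite H], C H → ∀ K : Subgroup H, C ↥K)
    (hquot : ∀ (H : Type u) [Group H] [Finite H], C H → ∀ (K : Subgroup H) [K.Normal], C (H ⧸ K))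
    (IH : ∀ (H : Type u) [Group H] [Finite H], C H → (Nat.card H).Coprime q → PLengthLE p m H) :
    ∀ (L : ℕ) (G : Type u) [Group G] [Finite G], C G → PLengthLE q L G →
      PLengthLE p ((1 + L) * m) G := by
  intro L
  induction L with
  | zero =>
    intro G _ _ hC hL
    have h1 := IH G hC (coprime_of_pl_zero hL)
    rw [add_zero, one_mul]
    exact h1
  | succ L ih =>
    intro G _ _ hC hL
    have hQ : PLengthLE p ((1 + L) * m) (G ⧸ (upperPSeries q G 2).1) :=
      ih _ (hquot G hC _) (pl_shift hL)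
    have h12 : (upperPSeries q G 1).1 ≤ (upperPSeries q G 2).1 := upper_le_succ q 1
    have hK1 : PLengthLE p m ↥((upperPSeries q G 1).1.subgroupOf (upperPSeries q G 2).1) := by
      apply IH _ (hsub _ (hsub G hC _) _)
      rw [Nat.card_congr (Subgroup.subgroupOfEquivOfLe h12).toEquiv,
        Cfsg.Agent.S0635.ups_one]
      exact pPrimeCore_coprime q G
    have hK2 : PLengthLE p 0 (↥(upperPSeries q G 2).1 ⧸
        (upperPSeries q G 1).1.subgroupOf (upperPSeries q G 2).1) := by
      apply pl_zero_of_coprime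
      obtain ⟨n, hn⟩ := relIndex_upper_odd (G := G) q 1 (by decide)
      have h3 : Nat.card (↥(upperPSeries q G 2).1 ⧸
          (upperPSeries q G 1).1.subgroupOf (upperPSeries q G 2).1) = q ^ n := by
        rw [← Subgroup.index_eq_card]
        exact hn
      rw [h3]
      apply Nat.Coprime.pow_left
      exact (Nat.coprime_primes (Fact.out : q.Prime) (Fact.out : p.Prime)).mpr hqp
    have hK : PLengthLE p (m + 0) ↥(upperPSeries q G 2).1 := pl_extension _ hK1 hK2
    have hG := pl_extension _ hK hQ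
    have e : m + 0 + (1 + L) * m = (1 + (L + 1)) * m := by ring
    rw [e] at hG
    exact hG

theorem main (p : ℕ) [Fact p.Prime] (l : ℕ → ℕ) : ∀ (S : Finset ℕ) (G : Type u) [Group G] [Finite G],
    (∀ s ∈ S, s.Prime ∧ s ≠ p) → (∀ s : ℕ, s.Prime → s ∣ Nat.card G → s ≠ p → s ∈ S) →
    (∀ s ∈ S, PLengthLE s (l s) G) → PLengthLE p (∏ s ∈ S, (1 + l s)) G := by
  intro S
  induction S using Finset.induction_on with
  | empty =>
    intro G _ _ _ hcov _
    rw [Finset.prod_empty]
    apply pl_one_of_isPGroup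
    have h1 : Nat.card G = p ^ (Nat.card G).primeFactorsList.length := by
      apply Nat.eq_prime_pow_of_unique_prime_dvd Nat.card_pos.ne'
      intro d hd hdvd
      by_contra hne
      exact absurd (hcov d hd hdvd hne) (Finset.notMem_empty d)
    exact IsPGroup.of_card h1
  | insert q S' hq ih =>
    intro G _ _ hS hcov hl
    haveI : Fact q.Prime := ⟨(hS q (Finset.mem_insert_self q S')).1⟩
    have hqp : q ≠ p := (hS q (Finset.mem_insert_self q S')).2
    rw [Finset.prod_insert hq]
    apply step p q hqp (∏ s ∈ S', (1 + l s))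
      (fun H _ _ => (∀ s : ℕ, s.Prime → s ∣ Nat.card H → s ≠ p → s ≠ q → s ∈ S') ∧
        (∀ s ∈ S', PLengthLE s (l s) H))
    · intro H _ _ hC K
      refine ⟨fun s hs hdvd hsp hsq => hC.1 s hs (hdvd.trans (Subgroup.card_subgroup_dvd_card K)) hsp hsq,
        fun s hs => ?_⟩
      haveI : Fact s.Prime := ⟨(hS s (Finset.mem_insert_of_mem hs)).1⟩
      exact pl_subgroup (hC.2 s hs) K
    · intro H _ _ hC K _
      refine ⟨fun s hs hdvd hsp hsq => hC.1 s hs (hdvd.trans (Subgroup.card_quotient_dvd_card K)) hsp hsq,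
        fun s hs => ?_⟩
      haveI : Fact s.Prime := ⟨(hS s (Finset.mem_insert_of_mem hs)).1⟩
      exact pl_quotient (hC.2 s hs) K
    · intro H _ _ hC hcop
      apply ih H (fun s hs => hS s (Finset.mem_insert_of_mem hs)) _ hC.2
      intro s hs hdvd hsp
      apply hC.1 s hs hdvd hsp
      rintro rfl
      have h1 := Nat.Coprime.coprime_dvd_left hdvd hcop
      rw [Nat.coprime_self] at h1
      exact hs.one_lt.ne' h1
    · refine ⟨fun s hs hdvd hsp hsq => ?_, fun s hs => hl s (Finset.mem_insert_of_mem hs)⟩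
      have h1 := hcov s hs hdvd hsp
      rw [Finset.mem_insert] at h1
      rcases h1 with h1 | h1
      · exact absurd h1 hsq
      · exact h1
    · exact hl q (Finset.mem_insert_self q S')

theorem result {G : Type*} [Group G] [Finite G] (hG : Group.IsSolvable G) (p : ℕ) [Fact p.Prime] (r : ℕ) (q : Fin r → ℕ) (hq : ∀ i, (q i).Prime ∧ q i ≠ p) (hinj : Function.Injective q) (hcover : ∀ s : ℕ, s.Prime → s ∣ Nat.card G → s ≠ p → ∃ i, q i = s) (l : Fin r → ℕ) (hl : ∀ i, Cfsg.PLengthLE (q i) (l i) G) : Cfsg.PLengthLE p (Finset.univ.prod fun i => 1 + l i) G := by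
  classical
  have hchoose : ∀ i : Fin r, ∀ h : ∃ j, q j = q i, Classical.choose h = i :=
    fun i h => hinj (Classical.choose_spec h)
  have h1 := main p (fun s => if h : ∃ i, q i = s then l (Classical.choose h) else 0)
    (Finset.univ.image q) G
    (by
      intro s hs
      rw [Finset.mem_image] at hs
      obtain ⟨i, _, rfl⟩ := hs
      exact hq i)
    (by
      intro s hs hdvd hsp
      obtain ⟨i, hi⟩ := hcover s hs hdvd hsp
      rw [Finset.mem_image]
      exact ⟨i, Finset.mem_univ i, hi⟩)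
    (by
      intro s hs
      rw [Finset.mem_image] at hs
      obtain ⟨i, _, rfl⟩ := hs
      have h2 : ∃ j, q j = q i := ⟨i, rfl⟩
      rw [dif_pos h2, hchoose i h2]
      exact hl i)
  rw [Finset.prod_image (fun a _ b _ hab => hinj hab)] at h1
  have h3 : ∀ i : Fin r, (1 + if h : ∃ j, q j = q i then l (Classical.choose h) else 0) = 1 + l i := by
    intro i
    have h2 : ∃ j, q j = q i := ⟨i, rfl⟩
    rw [dif_pos h2, hchoose i h2]
  rw [Finset.prod_congr rfl (fun i _ => h3 i)] at h1
  exact h1

end Cfsg.Agent.S3790
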