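import Cfsg.Statements.S3791
import Mathlib
import Cfsg.Agent.Lib.Helper20.UpperSeries

set_option autoImplicit false
open Cfsg

namespace Cfsg.Agent.S3791

open Cfsg.Agent.Lib.Helper20.UpperSeries
open Cfsg.Agent.Lib.Helper9

universe u

theorem quot_dl {G : Type u} [Group G] [Finite G] {p : ℕ} [Fact p.Prime] {n : ℕ}
    (h : ∀ P : Subgroup G, IsPGroup p P → derivedSeries ↥P n = ⊥) (K : Subgroup G) [K.Normal] :
    ∀ P : Subgroup (G ⧸ K), IsPGroup p P → derivedSeries ↥P n = ⊥ := by
  intro P hP
  obtain ⟨S⟩ : Nonempty (Sylow p G) := inferInstance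
  obtain ⟨Q, hPQ⟩ := hP.exists_le_sylow
  obtain ⟨g, hg⟩ := MulAction.exists_smul_eq (G ⧸ K)
    (Sylow.mapSurjective (QuotientGroup.mk'_surjective K) S) Q
  have h1 : derivedSeries ↥(S : Subgroup G) n = ⊥ := h S S.2
  have h2 : derivedSeries ↥((Sylow.mapSurjective (QuotientGroup.mk'_surjective K) S :
      Sylow p (G ⧸ K)) : Subgroup (G ⧸ K)) n = ⊥ :=
    ds_bot_of_surjective ((QuotientGroup.mk' K).subgroupMap (S : Subgroup G))
      ((QuotientGroup.mk' K).subgroupMap_surjective _) h1
  have h3 : derivedSeries ↥(Q : Subgroup (G ⧸ K)) n = ⊥ := by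
    subst hg
    exact ds_bot_of_surjective
      (Sylow.equivSMul (Sylow.mapSurjective (QuotientGroup.mk'_surjective K) S) g).toMonoidHom
      (Sylow.equivSMul (Sylow.mapSurjective (QuotientGroup.mk'_surjective K) S) g).surjective h2
  exact ds_bot_of_injective (Subgroup.inclusion hPQ) (Subgroup.inclusion_injective hPQ) h3

theorem layer_dl {G : Type u} [Group G] [Finite G] {p : ℕ} [Fact p.Prime] {n : ℕ}
    (h : ∀ P : Subgroup G, IsPGroup p P → derivedSeries ↥P n = ⊥) :
    (derivedSeries ↥(upperPSeries p G 2).1 n).map (upperPSeries p G 2).1.subtype ≤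
      (upperPSeries p G 1).1 := by
  obtain ⟨m, hm⟩ := relIndex_upper_odd (G := G) p 1 (by decide)
  have hcard : Nat.card (↥(upperPSeries p G 2).1 ⧸
      (upperPSeries p G 1).1.subgroupOf (upperPSeries p G 2).1) = p ^ m := by
    rw [← Subgroup.index_eq_card]
    exact hm
  have hQ : IsPGroup p (↥(upperPSeries p G 2).1 ⧸
      (upperPSeries p G 1).1.subgroupOf (upperPSeries p G 2).1) := IsPGroup.of_card hcard
  obtain ⟨PK⟩ : Nonempty (Sylow p ↥(upperPSeries p G 2).1) := inferInstance
  have htop :=
    ((Sylow.mapSurjective (QuotientGroup.mk'_surjective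
      ((upperPSeries p G 1).1.subgroupOf (upperPSeries p G 2).1)) PK).is_maximal'
        (hQ.to_subgroup ⊤) le_top).symm
  have hsurj : Function.Surjective ((QuotientGroup.mk'
      ((upperPSeries p G 1).1.subgroupOf (upperPSeries p G 2).1)).comp
        (PK : Subgroup ↥(upperPSeries p G 2).1).subtype) := by
    intro y
    have hy : y ∈ ((Sylow.mapSurjective (QuotientGroup.mk'_surjective
      ((upperPSeries p G 1).1.subgroupOf (upperPSeries p G 2).1)) PK :
      Sylow p (↥(upperPSeries p G 2).1 ⧸
        (upperPSeries p G 1).1.subgroupOf (upperPSeries p G 2).1)) : Subgroup _) := by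
      rw [htop]
      exact Subgroup.mem_top y
    rw [Sylow.coe_mapSurjective] at hy
    obtain ⟨x, hx, rfl⟩ := hy
    exact ⟨⟨x, hx⟩, rfl⟩
  have h1 : derivedSeries ↥((PK : Subgroup ↥(upperPSeries p G 2).1).map
      (upperPSeries p G 2).1.subtype) n = ⊥ := h _ (PK.2.map _)
  have h2 : derivedSeries ↥(PK : Subgroup ↥(upperPSeries p G 2).1) n = ⊥ :=
    ds_bot_of_injective
      ((PK : Subgroup ↥(upperPSeries p G 2).1).equivMapOfInjective _
        (upperPSeries p G 2).1.subtype_injective).toMonoidHom
      ((PK : Subgroup ↥(upperPSeries p G 2).1).equivMapOfInjective _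
        (upperPSeries p G 2).1.subtype_injective).injective h1
  have h3 := ds_bot_of_surjective _ hsurj h2
  have h4 := ds_le_of_quotient _ h3
  calc (derivedSeries ↥(upperPSeries p G 2).1 n).map (upperPSeries p G 2).1.subtype
      ≤ ((upperPSeries p G 1).1.subgroupOf (upperPSeries p G 2).1).map
          (upperPSeries p G 2).1.subtype := Subgroup.map_mono h4
    _ = (upperPSeries p G 1).1 ⊓ (upperPSeries p G 2).1 := Subgroup.subgroupOf_map_subtype _ _
    _ ≤ (upperPSeries p G 1).1 := inf_le_left

theorem main (r : ℕ) (q : Fin r → ℕ) (hq : ∀ i, (q i).Prime) (d : Fin r → ℕ) :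
    ∀ (N : ℕ) (G : Type u) [Group G] [Finite G] (l : Fin r → ℕ), ∑ i, l i = N →
      (∀ s : ℕ, s.Prime → s ∣ Nat.card G → ∃ i, q i = s) →
      (∀ i, ∀ P : Subgroup G, IsPGroup (q i) P → derivedSeries ↥P (d i) = ⊥) →
      (∀ i, PLengthLE (q i) (l i) G) → derivedSeries G (∑ i, d i * l i) = ⊥ := by
  intro N
  induction N using Nat.strong_induction_on with
  | _ N IH =>
    intro G _ _ l hN hcov hd hl
    apply Subgroup.eq_bot_of_card_eq
    rw [Nat.eq_one_iff_not_exists_prime_dvd]
    intro s hs hdvd
    have hsG : s ∣ Nat.card G := hdvd.trans (Subgroup.card_subgroup_dvd_card _)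
    obtain ⟨i, rfl⟩ := hcov s hs hsG
    haveI : Fact (q i).Prime := ⟨hs⟩
    have hli : l i ≠ 0 := by
      intro h0
      have h1 := hl i
      rw [h0] at h1
      have h2 := Nat.Coprime.coprime_dvd_left hsG (coprime_of_pl_zero h1)
      rw [Nat.coprime_self] at h2
      exact hs.one_lt.ne' h2
    obtain ⟨L, hL⟩ : ∃ L, l i = L + 1 := ⟨l i - 1, by omega⟩
    have hsum1 : ∑ j, Function.update l i L j + 1 = ∑ j, l j := by
      rw [← Finset.add_sum_erase Finset.univ (Function.update l i L) (Finset.mem_univ i),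
        ← Finset.add_sum_erase Finset.univ l (Finset.mem_univ i), Function.update_self, hL]
      have e : ∑ x ∈ Finset.univ.erase i, Function.update l i L x = ∑ x ∈ Finset.univ.erase i, l x :=
        Finset.sum_congr rfl (fun x hx => by rw [Function.update_of_ne (Finset.ne_of_mem_erase hx)])
      rw [e]
      omega
    have hsum2 : ∑ j, d j * Function.update l i L j + d i = ∑ j, d j * l j := by
      rw [← Finset.add_sum_erase Finset.univ (fun j => d j * Function.update l i L j)
        (Finset.mem_univ i),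
        ← Finset.add_sum_erase Finset.univ (fun j => d j * l j) (Finset.mem_univ i),
        Function.update_self, hL]
      have e : ∑ x ∈ Finset.univ.erase i, d x * Function.update l i L x =
          ∑ x ∈ Finset.univ.erase i, d x * l x :=
        Finset.sum_congr rfl (fun x hx => by rw [Function.update_of_ne (Finset.ne_of_mem_erase hx)])
      rw [e]
      ring
    have hIH := IH (∑ j, Function.update l i L j) (by omega) (G ⧸ (upperPSeries (q i) G 2).1)
      (Function.update l i L) rfl
      (fun s hs hdvd => hcov s hs (hdvd.trans (Subgroup.card_quotient_dvd_card _)))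
      (fun j => by
        haveI : Fact (q j).Prime := ⟨hq j⟩
        exact quot_dl (hd j) _)
      (fun j => by
        by_cases hj : j = i
        · subst hj
          rw [Function.update_self]
          have h1 := hl j
          rw [hL] at h1
          exact pl_shift h1
        · rw [Function.update_of_ne hj]
          haveI : Fact (q j).Prime := ⟨hq j⟩
          exact pl_quotient (hl j) _)
    have h8 := ds_le_of_quotient _ hIH
    have h9 := ds_add_le _ _ h8 (d i)
    rw [hsum2] at h9
    have h10 := h9.trans (layer_dl (hd i))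
    have h11 : (Nat.card (upperPSeries (q i) G 1).1).Coprime (q i) := by
      rw [Cfsg.Agent.S0635.ups_one]
      exact pPrimeCore_coprime (q i) G
    have h12 := Nat.Coprime.coprime_dvd_left (hdvd.trans (Subgroup.card_dvd_of_le h10)) h11
    rw [Nat.coprime_self] at h12
    exact hs.one_lt.ne' h12

theorem result {G : Type*} [Group G] [Finite G] (hG : Group.IsSolvable G) (r : ℕ) (q : Fin r → ℕ) (hq : ∀ i, (q i).Prime) (hinj : Function.Injective q) (hcover : ∀ s : ℕ, s.Prime → s ∣ Nat.card G → ∃ i, q i = s) (d l : Fin r → ℕ) (hd : ∀ i, ∀ P : Subgroup G, (haveI := Fact.mk (hq i); ∃ S : Sylow (q i) G, (S : Subgroup G) = P) → derivedSeries ↥P (d i) = ⊥) (hl : ∀ i, Cfsg.PLengthLE (q i) (l i) G) : derivedSeries G (Finset.univ.sum fun i => d i * l i) = ⊥ := by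
  apply main r q hq d (∑ i, l i) G l rfl hcover _ hl
  intro i P hP
  haveI : Fact (q i).Prime := ⟨hq i⟩
  obtain ⟨S, hPS⟩ := hP.exists_le_sylow
  have h1 := hd i (S : Subgroup G) ⟨S, rfl⟩
  exact ds_bot_of_injective (Subgroup.inclusion hPS) (Subgroup.inclusion_injective hPS) h1

end Cfsg.Agent.S3791
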