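import Cfsg.Statements.S3799
import Mathlib
import Cfsg.Agent.Lib.Helper16.Basic
import Cfsg.Agent.S4218

set_option autoImplicit false
open Cfsg

namespace Cfsg.Agent.S3799

theorem extraspecial_of {E : Type*} [Group E] [Finite E] (p : ℕ) [Fact p.Prime] (z : E)
    (hz1 : z ≠ 1) (hpow : ∀ x : E, x ^ p = 1)
    (hzc : ∀ x : E, x * z = z * x)
    (hcen : ∀ x : E, (∀ y, y * x = x * y) → ∃ k : ℕ, x = z ^ k)
    (hcomm : ∀ x y : E, ∃ k : ℕ, x * y * x⁻¹ * y⁻¹ = z ^ k)
    (hex : ∃ x y : E, x * y * x⁻¹ * y⁻¹ = z) :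
    Cfsg.IsExtraspecial p E := by
  have hP : IsPGroup p E := fun x => ⟨1, by simpa using hpow x⟩
  have hzmem : z ∈ Subgroup.center E := Subgroup.mem_center_iff.mpr (fun y => hzc y)
  have hcenter : Subgroup.center E = Subgroup.zpowers z := by
    apply le_antisymm
    · intro x hx
      obtain ⟨k, hk⟩ := hcen x (fun y => (Subgroup.mem_center_iff.mp hx y))
      rw [hk]
      exact Subgroup.pow_mem _ (Subgroup.mem_zpowers z) k
    · rw [Subgroup.zpowers_le]
      exact hzmem
  refine ⟨⟨hP, ?_, ?_⟩, ?_⟩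
  · apply le_antisymm
    · have h1 := Cfsg.Agent.Lib.Helper16.Basic.frattini_le_ker_of_elementary (p := p)
        (QuotientGroup.mk' (Subgroup.center E)) ?_ ?_
      · rwa [QuotientGroup.ker_mk'] at h1
      · intro x y
        rw [← map_mul, ← map_mul]
        apply (QuotientGroup.eq (s := Subgroup.center E)).mpr
        obtain ⟨k, hk⟩ := hcomm y⁻¹ x⁻¹
        have h2 : (x * y)⁻¹ * (y * x) = y⁻¹ * x⁻¹ * y⁻¹⁻¹ * x⁻¹⁻¹ := by group
        rw [h2, hk]
        exact Subgroup.pow_mem _ hzmem k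
      · intro x
        rw [← map_pow, hpow x, map_one]
    · rw [hcenter, Subgroup.zpowers_le]
      obtain ⟨x, y, hxy⟩ := hex
      rw [← hxy]
      exact Cfsg.Agent.S4218.comm_mem_frattini hP x y
  · apply le_antisymm
    · rw [commutator_def, Subgroup.commutator_le]
      intro x _ y _
      obtain ⟨k, hk⟩ := hcomm x y
      rw [commutatorElement_def, hk]
      exact Subgroup.pow_mem _ hzmem k
    · rw [hcenter, Subgroup.zpowers_le]
      obtain ⟨x, y, hxy⟩ := hex
      rw [← hxy, commutator_def, ← commutatorElement_def]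
      exact Subgroup.commutator_mem_commutator (Subgroup.mem_top x) (Subgroup.mem_top y)
  · rw [hcenter, Nat.card_zpowers]
    exact orderOf_eq_prime (hpow z) hz1

@[ext] structure Heis (n p : ℕ) where
  a : Fin n → ZMod p
  b : Fin n → ZMod p
  c : ZMod p

namespace Heis

variable {n p : ℕ}

instance : Mul (Heis n p) := ⟨fun x y => ⟨x.a + y.a, x.b + y.b, x.c + y.c + dotProduct x.a y.b⟩⟩
instance : One (Heis n p) := ⟨⟨0, 0, 0⟩⟩
instance : Inv (Heis n p) := ⟨fun x => ⟨-x.a, -x.b, -x.c + dotProduct x.a x.b⟩⟩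

@[simp] theorem mul_a (x y : Heis n p) : (x * y).a = x.a + y.a := rfl
@[simp] theorem mul_b (x y : Heis n p) : (x * y).b = x.b + y.b := rfl
@[simp] theorem mul_c (x y : Heis n p) : (x * y).c = x.c + y.c + dotProduct x.a y.b := rfl
@[simp] theorem one_a : (1 : Heis n p).a = 0 := rfl
@[simp] theorem one_b : (1 : Heis n p).b = 0 := rfl
@[simp] theorem one_c : (1 : Heis n p).c = 0 := rfl
@[simp] theorem inv_a (x : Heis n p) : (x⁻¹).a = -x.a := rfl
@[simp] theorem inv_b (x : Heis n p) : (x⁻¹).b = -x.b := rfl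
@[simp] theorem inv_c (x : Heis n p) : (x⁻¹).c = -x.c + dotProduct x.a x.b := rfl

instance : Group (Heis n p) where
  mul_assoc x y z := by
    ext
    · simp [add_assoc]
    · simp [add_assoc]
    · simp [add_dotProduct, dotProduct_add]
      ring
  one_mul x := by ext <;> simp
  mul_one x := by ext <;> simp
  inv_mul_cancel x := by
    ext
    · simp
    · simp
    · simp [neg_dotProduct]

def toProd : Heis n p ≃ (Fin n → ZMod p) × (Fin n → ZMod p) × ZMod p where
  toFun x := (x.a, x.b, x.c)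
  invFun y := ⟨y.1, y.2.1, y.2.2⟩
  left_inv _ := rfl
  right_inv _ := rfl

theorem finite_heis [NeZero p] : Finite (Heis n p) := Finite.of_equiv _ toProd.symm

theorem card_heis [NeZero p] : Nat.card (Heis n p) = p ^ (1 + 2 * n) := by
  rw [Nat.card_congr toProd, Nat.card_prod, Nat.card_prod, Nat.card_fun, Nat.card_zmod,
    Nat.card_fin]
  ring

theorem pow_formula (x : Heis n p) (k : ℕ) :
    x ^ k = ⟨k • x.a, k • x.b, k * x.c + (k.choose 2 : ℕ) * dotProduct x.a x.b⟩ := by
  induction k with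
  | zero => ext <;> simp
  | succ k ih =>
    rw [pow_succ, ih]
    ext
    · simp [add_smul]
    · simp [add_smul]
    · have h1 : (k + 1).choose 2 = k + k.choose 2 := by
        rw [Nat.choose_succ_succ, Nat.choose_one_right]
      simp only [mul_c, h1, smul_dotProduct]
      simp only [nsmul_eq_mul]
      push_cast
      ring

theorem pow_p [Fact p.Prime] (hp : p ≠ 2) (x : Heis n p) : x ^ p = 1 := by
  have hpp : p.Prime := Fact.out
  rw [pow_formula]
  have h2 : ((p.choose 2 : ℕ) : ZMod p) = 0 := by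
    rw [ZMod.natCast_eq_zero_iff]
    apply Nat.Prime.dvd_choose_self hpp (by norm_num)
    have := hpp.two_le
    omega
  ext
  · simp
  · simp
  · simp [h2]

def z₀ : Heis n p := ⟨0, 0, 1⟩

theorem cform [NeZero p] (c : ZMod p) : (⟨0, 0, c⟩ : Heis n p) = z₀ ^ c.val := by
  rw [pow_formula]
  ext <;> simp [z₀]

theorem z₀_central (x : Heis n p) : x * z₀ = z₀ * x := by
  ext
  · simp [z₀]
  · simp [z₀]
  · simp [z₀]
    ring

theorem z₀_ne_one [Fact p.Prime] : (z₀ : Heis n p) ≠ 1 := by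
  intro h
  have h1 := congrArg Heis.c h
  simp [z₀] at h1

theorem central_form [NeZero p] (x : Heis n p) (hx : ∀ y, y * x = x * y) :
    ∃ k : ℕ, x = z₀ ^ k := by
  have ha : x.a = 0 := by
    funext l
    have h1 := congrArg Heis.c (hx ⟨0, Pi.single l 1, 0⟩)
    simp at h1
    simpa using h1
  have hb : x.b = 0 := by
    funext l
    have h1 := congrArg Heis.c (hx ⟨Pi.single l 1, 0, 0⟩)
    simp at h1
    simpa using h1
  refine ⟨x.c.val, ?_⟩
  rw [← cform]
  ext
  · simp [ha]
  · simp [hb]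
  · rfl

theorem comm_form [NeZero p] (x y : Heis n p) : ∃ k : ℕ, x * y * x⁻¹ * y⁻¹ = z₀ ^ k := by
  refine ⟨(dotProduct x.a y.b - dotProduct y.a x.b).val, ?_⟩
  rw [← cform]
  ext
  · simp
  · simp
  · simp [add_dotProduct, dotProduct_neg]
    ring

theorem comm_ex (hn : 1 ≤ n) : ∃ x y : Heis n p, x * y * x⁻¹ * y⁻¹ = z₀ := by
  refine ⟨⟨Pi.single ⟨0, hn⟩ 1, 0, 0⟩, ⟨0, Pi.single ⟨0, hn⟩ 1, 0⟩, ?_⟩
  ext
  · simp [z₀]
  · simp [z₀]
  · simp [z₀]

abbrev Idx (n : ℕ) := Unit ⊕ (Fin n ⊕ Unit)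

def mat (x : Heis n p) : Matrix (Idx n) (Idx n) (ZMod p) :=
  Matrix.of fun i j =>
    match i, j with
    | Sum.inl _, Sum.inl _ => 1
    | Sum.inl _, Sum.inr (Sum.inl j) => x.a j
    | Sum.inl _, Sum.inr (Sum.inr _) => x.c
    | Sum.inr (Sum.inl _), Sum.inl _ => 0
    | Sum.inr (Sum.inl i), Sum.inr (Sum.inl j) => if i = j then 1 else 0
    | Sum.inr (Sum.inl i), Sum.inr (Sum.inr _) => x.b i
    | Sum.inr (Sum.inr _), Sum.inl _ => 0
    | Sum.inr (Sum.inr _), Sum.inr (Sum.inl _) => 0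
    | Sum.inr (Sum.inr _), Sum.inr (Sum.inr _) => 1

theorem mat_one : mat (1 : Heis n p) = 1 := by
  ext (i | i | i) (j | j | j) <;> simp [mat, Matrix.one_apply]

theorem mat_mul (x y : Heis n p) : mat (x * y) = mat x * mat y := by
  ext (i | i | i) (j | j | j) <;>
    simp [mat, Matrix.mul_apply, Fintype.sum_sum_type, dotProduct] <;> ring

theorem mat_inj : Function.Injective (mat : Heis n p → _) := by
  intro x y h
  ext l
  · have := congrFun (congrFun h (Sum.inl ())) (Sum.inr (Sum.inl l))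
    simpa [mat] using this
  · have := congrFun (congrFun h (Sum.inr (Sum.inl l))) (Sum.inr (Sum.inr ()))
    simpa [mat] using this
  · have := congrFun (congrFun h (Sum.inl ())) (Sum.inr (Sum.inr ()))
    simpa [mat] using this

def matHom : Heis n p →* Matrix (Idx n) (Idx n) (ZMod p) where
  toFun := mat
  map_one' := mat_one
  map_mul' := mat_mul

theorem card_idx : Fintype.card (Idx n) = Fintype.card (Fin (n + 2)) := by
  simp [Idx]
  omega

noncomputable def glHom : Heis n p →* Matrix.GeneralLinearGroup (Fin (n + 2)) (ZMod p) :=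
  (Units.mapEquiv (Matrix.reindexAlgEquiv (ZMod p) (ZMod p)
    (Fintype.equivOfCardEq (card_idx (n := n)))).toMulEquiv).toMonoidHom.comp
    (matHom (n := n) (p := p)).toHomUnits

theorem glHom_inj : Function.Injective (glHom : Heis n p → _) := by
  intro x y h
  have h1 : (matHom (n := n) (p := p)).toHomUnits x = (matHom (n := n) (p := p)).toHomUnits y :=
    (Units.mapEquiv (Matrix.reindexAlgEquiv (ZMod p) (ZMod p)
      (Fintype.equivOfCardEq (card_idx (n := n)))).toMulEquiv).injective h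
  have h2 := congrArg (fun u : (Matrix (Idx n) (Idx n) (ZMod p))ˣ => Units.val u) h1
  simp only [MonoidHom.coe_toHomUnits] at h2
  exact mat_inj h2

end Heis

/-- For every odd prime p and every n ≥ 1 there is an extraspecial p-group of order p^(1+2n) and exponent p; concretely, the general linear group of degree n + 2 over the field with p elements contains such a subgroup. -/
theorem result (p : ℕ) [Fact p.Prime] (hp : p ≠ 2) (n : ℕ) (hn : 1 ≤ n) : ∃ E : Subgroup (Matrix.GeneralLinearGroup (Fin (n + 2)) (ZMod p)), Cfsg.IsExtraspecial p ↥E ∧ Nat.card E = p ^ (1 + 2 * n) ∧ ∀ x ∈ E, x ^ p = 1 := by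
  have hpp : p.Prime := Fact.out
  have : NeZero p := ⟨hpp.ne_zero⟩
  have hfin : Finite (Heis n p) := Heis.finite_heis
  let φ : Heis n p →* Matrix.GeneralLinearGroup (Fin (n + 2)) (ZMod p) := Heis.glHom
  have hφ : Function.Injective φ := Heis.glHom_inj
  let ψ : Heis n p ≃* φ.range := MonoidHom.ofInjective hφ
  have hfinE : Finite φ.range := Finite.of_equiv _ ψ.toEquiv
  refine ⟨φ.range, ?_, ?_, ?_⟩
  · refine extraspecial_of p (ψ Heis.z₀) ?_ ?_ ?_ ?_ ?_ ?_
    · intro h
      rw [← map_one ψ] at h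
      exact Heis.z₀_ne_one (ψ.injective h)
    · intro x
      obtain ⟨x, rfl⟩ := ψ.surjective x
      rw [← map_pow, Heis.pow_p hp, map_one]
    · intro x
      obtain ⟨x, rfl⟩ := ψ.surjective x
      rw [← map_mul, ← map_mul, Heis.z₀_central]
    · intro x hx
      obtain ⟨x, rfl⟩ := ψ.surjective x
      obtain ⟨k, hk⟩ := Heis.central_form x (fun y => by
        apply ψ.injective
        rw [map_mul, map_mul]
        exact hx (ψ y))
      exact ⟨k, by rw [← map_pow, ← hk]⟩
    · intro x y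
      obtain ⟨x, rfl⟩ := ψ.surjective x
      obtain ⟨y, rfl⟩ := ψ.surjective y
      obtain ⟨k, hk⟩ := Heis.comm_form x y
      exact ⟨k, by rw [← map_pow, ← hk]; simp⟩
    · obtain ⟨x, y, hxy⟩ := Heis.comm_ex (p := p) hn
      exact ⟨ψ x, ψ y, by rw [← hxy]; simp⟩
  · rw [← Nat.card_congr ψ.toEquiv, Heis.card_heis]
  · intro x hx
    obtain ⟨x, rfl⟩ := hx
    rw [← map_pow, Heis.pow_p hp, map_one]


end Cfsg.Agent.S3799
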