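import Cfsg.Statements.S3800
import Mathlib
import Cfsg.Agent.Lib.Helper12.SylowBasic

set_option autoImplicit false
open Cfsg

namespace Cfsg.Agent.S3800

theorem relIndex_sup_eq {G : Type*} [Group G] [Finite G] (R T : Subgroup G) [T.Normal] :
    R.relIndex (R ⊔ T) = (R ⊓ T).relIndex T := by
  have h1 : Nat.card ↥(R ⊓ T) * (R ⊓ T).relIndex R = Nat.card R := by
    rw [← Subgroup.relIndex_bot_left, ← Subgroup.relIndex_bot_left]
    exact Subgroup.relIndex_mul_relIndex _ _ _ bot_le inf_le_left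
  have h2 : Nat.card ↥(R ⊓ T) * (R ⊓ T).relIndex T = Nat.card T := by
    rw [← Subgroup.relIndex_bot_left, ← Subgroup.relIndex_bot_left]
    exact Subgroup.relIndex_mul_relIndex _ _ _ bot_le inf_le_right
  have h3 : Nat.card T * T.relIndex (R ⊔ T) = Nat.card ↥(R ⊔ T) := by
    rw [← Subgroup.relIndex_bot_left, ← Subgroup.relIndex_bot_left]
    exact Subgroup.relIndex_mul_relIndex _ _ _ bot_le le_sup_right
  have h4 : Nat.card R * R.relIndex (R ⊔ T) = Nat.card ↥(R ⊔ T) := by
    rw [← Subgroup.relIndex_bot_left, ← Subgroup.relIndex_bot_left]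
    exact Subgroup.relIndex_mul_relIndex _ _ _ bot_le le_sup_left
  rw [Subgroup.inf_relIndex_left] at h1
  rw [Subgroup.relIndex_sup_right] at h3
  have hpos : 0 < Nat.card ↥(R ⊓ T) * T.relIndex R := by
    rw [h1]
    exact Nat.card_pos
  symm
  apply Nat.eq_of_mul_eq_mul_left hpos
  calc Nat.card ↥(R ⊓ T) * T.relIndex R * (R ⊓ T).relIndex T
      = (Nat.card ↥(R ⊓ T) * (R ⊓ T).relIndex T) * T.relIndex R := by ring
    _ = Nat.card ↥(R ⊔ T) := by rw [h2, h3]
    _ = Nat.card ↥(R ⊓ T) * T.relIndex R * R.relIndex (R ⊔ T) := by rw [h1, h4]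

theorem mem_normalizer_of_conj_mem {G : Type*} [Group G] [Finite G] (P : Subgroup G) (a : G)
    (h : ∀ x ∈ P, a * x * a⁻¹ ∈ P) : a ∈ Subgroup.normalizer (P : Set G) := by
  rw [Subgroup.mem_normalizer_iff_map_conj_eq]
  apply Subgroup.eq_of_le_of_card_ge
  · rintro _ ⟨x, hx, rfl⟩
    simpa using h x hx
  · rw [Subgroup.card_map_of_injective (MulAut.conj a).injective]

theorem normalizer_part {G : Type*} [Group G] [Finite G] {p : ℕ} [Fact p.Prime] (N : Subgroup G) [N.Normal] (hN : (Nat.card N).Coprime p) (P : Subgroup G) (hP : IsPGroup p P) (g : G)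
    (hg : (QuotientGroup.mk' N g) ∈ Subgroup.normalizer ((P.map (QuotientGroup.mk' N)) : Set (G ⧸ N))) :
    ∃ h ∈ Subgroup.normalizer (P : Set G), QuotientGroup.mk' N h = QuotientGroup.mk' N g := by
  have hidx : ¬ p ∣ P.relIndex (P ⊔ N) := by
    rw [relIndex_sup_eq]
    intro hd
    have h1 : p ∣ Nat.card N := hd.trans (Subgroup.relIndex_dvd_card _ _)
    have h2 := Nat.Coprime.eq_one_of_dvd hN.symm h1
    exact (Fact.out : p.Prime).one_lt.ne' h2
  have hQle : P.map (MulAut.conj g).toMonoidHom ≤ P ⊔ N := by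
    rintro _ ⟨x, hx, rfl⟩
    have h1 : QuotientGroup.mk' N (g * x * g⁻¹) ∈ P.map (QuotientGroup.mk' N) := by
      have := (Subgroup.mem_normalizer_iff.mp hg (QuotientGroup.mk' N x)).mp ⟨x, hx, rfl⟩
      simpa using this
    obtain ⟨y, hy, hye⟩ := h1
    have h2 : y⁻¹ * (g * x * g⁻¹) ∈ N := by
      rw [← QuotientGroup.eq]
      exact hye
    have h3 : g * x * g⁻¹ = y * (y⁻¹ * (g * x * g⁻¹)) := by group
    simp only [MulEquiv.coe_toMonoidHom, MulAut.conj_apply]
    rw [h3]
    exact (P ⊔ N).mul_mem ((le_sup_left : P ≤ P ⊔ N) hy) ((le_sup_right : N ≤ P ⊔ N) h2)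
  have hQp : IsPGroup p ↥(P.map (MulAut.conj g).toMonoidHom) := hP.map _
  obtain ⟨c, hc, hcP⟩ := Cfsg.Agent.Lib.Helper12.SylowBasic.exists_conj_le_of_relIndex P (P ⊔ N)
    le_sup_left hP hidx _ hQle hQp
  have hc' : c ∈ ((P ⊔ N : Subgroup G) : Set G) := hc
  rw [Subgroup.mul_normal] at hc'
  obtain ⟨y, hy, n, hn, rfl⟩ := hc'
  have hcg : (y * n) * g ∈ Subgroup.normalizer (P : Set G) := by
    apply mem_normalizer_of_conj_mem
    intro x hx
    have := hcP (g * x * g⁻¹) ⟨x, hx, by simp⟩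
    have e : y * n * g * x * (y * n * g)⁻¹ = y * n * (g * x * g⁻¹) * (y * n)⁻¹ := by group
    rw [e]
    exact this
  refine ⟨n * g, ?_, ?_⟩
  · have h1 : n * g = y⁻¹ * (y * n * g) := by group
    rw [h1]
    exact (Subgroup.normalizer (P : Set G)).mul_mem
      ((Subgroup.normalizer (P : Set G)).inv_mem (Subgroup.le_normalizer hy)) hcg
  · rw [map_mul]
    have : QuotientGroup.mk' N n = 1 := (QuotientGroup.eq_one_iff n).mpr hn
    rw [this, one_mul]

theorem result {G : Type*} [Group G] [Finite G] {p : ℕ} [Fact p.Prime] (N : Subgroup G) [N.Normal] (hN : (Nat.card N).Coprime p) (P : Subgroup G) (hP : IsPGroup p P) : Subgroup.normalizer ((P.map (QuotientGroup.mk' N)) : Set (G ⧸ N)) = (Subgroup.normalizer (P : Set G)).map (QuotientGroup.mk' N) ∧ Subgroup.centralizer ((P.map (QuotientGroup.mk' N)) : Set (G ⧸ N)) = (Subgroup.centralizer (P : Set G)).map (QuotientGroup.mk' N) := by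
  constructor
  · apply le_antisymm
    · intro q hq
      obtain ⟨g, rfl⟩ := QuotientGroup.mk_surjective q
      obtain ⟨h, hh, he⟩ := normalizer_part N hN P hP g hq
      exact ⟨h, hh, he⟩
    · exact Subgroup.le_normalizer_map _
  · apply le_antisymm
    · intro q hq
      obtain ⟨g, rfl⟩ := QuotientGroup.mk_surjective q
      have hq' : (QuotientGroup.mk' N g) ∈
          Subgroup.normalizer ((P.map (QuotientGroup.mk' N)) : Set (G ⧸ N)) :=
        Subgroup.centralizer_le_normalizer _ hq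
      obtain ⟨h, hh, he⟩ := normalizer_part N hN P hP g hq'
      refine ⟨h, ?_, he⟩
      show h ∈ Subgroup.centralizer (P : Set G)
      rw [Subgroup.mem_centralizer_iff]
      intro x hx
      have hPN : P ⊓ N = ⊥ := by
        apply disjoint_iff.mp
        apply Subgroup.disjoint_of_coprime_natCard
        obtain ⟨k, hk⟩ := IsPGroup.iff_card.mp hP
        rw [hk]
        exact Nat.Coprime.pow_left k hN.symm
      have h1 : h * x * h⁻¹ * x⁻¹ ∈ P :=
        P.mul_mem ((Subgroup.mem_normalizer_iff.mp hh x).mp hx) (P.inv_mem hx)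
      have h2 : h * x * h⁻¹ * x⁻¹ ∈ N := by
        rw [← QuotientGroup.eq_one_iff]
        have h3 : (QuotientGroup.mk' N x) * (QuotientGroup.mk' N g) =
            (QuotientGroup.mk' N g) * (QuotientGroup.mk' N x) :=
          (Subgroup.mem_centralizer_iff.mp hq) _ ⟨x, hx, rfl⟩
        have h4 : ((h * x * h⁻¹ * x⁻¹ : G) : G ⧸ N) =
            (QuotientGroup.mk' N h) * (QuotientGroup.mk' N x) * (QuotientGroup.mk' N h)⁻¹ *
              (QuotientGroup.mk' N x)⁻¹ := by
          simp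
        rw [h4, he, ← h3]
        group
      have h5 : h * x * h⁻¹ * x⁻¹ ∈ P ⊓ N := ⟨h1, h2⟩
      rw [hPN, Subgroup.mem_bot] at h5
      have h6 : h * x = (h * x * h⁻¹ * x⁻¹) * (x * h) := by group
      rw [h6, h5, one_mul]
    · rintro _ ⟨c, hc, rfl⟩
      rw [Subgroup.mem_centralizer_iff]
      rintro _ ⟨x, hx, rfl⟩
      rw [← map_mul, ← map_mul, (Subgroup.mem_centralizer_iff.mp hc) x hx]

end Cfsg.Agent.S3800
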