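import Mathlib
import Cfsg.Statements.S3950
import Cfsg.Agent.Lib.Helper21.SchurBasic

set_option autoImplicit false
open Cfsg

namespace Cfsg.Agent.S3950

open Cfsg.Agent.Lib.Helper21.SchurBasic

open scoped commutatorElement

universe u

theorem isCyclic_pi_of_coprime {ι : Type} [Fintype ι] (n : ι → ℕ)
    (hco : Pairwise (Function.onFun Nat.Coprime n)) :
    IsCyclic ((i : ι) → Multiplicative (ZMod (n i))) := by
  let e1 : Multiplicative (ZMod (∏ i, n i)) ≃* Multiplicative ((i : ι) → ZMod (n i)) :=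
    AddEquiv.toMultiplicative (ZMod.prodEquivPi n hco).toAddEquiv
  let e2 := MulEquiv.piMultiplicative (fun i => ZMod (n i))
  exact isCyclic_of_surjective (e1.trans e2) (e1.trans e2).surjective

theorem exists_pair (G : Type u) [CommGroup G] [Finite G] (h : ¬ IsCyclic G) :
    ∃ (p : ℕ) (_ : Fact p.Prime) (f₁ f₂ : G →* Multiplicative (ZMod p)) (g k : G),
      f₁ g = Multiplicative.ofAdd 1 ∧ f₂ g = 1 ∧ f₁ k = 1 ∧ f₂ k = Multiplicative.ofAdd 1 := by
  classical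
  obtain ⟨ι, _, n, hn, ⟨e⟩⟩ := CommGroup.equiv_prod_multiplicative_zmod_of_finite G
  have hnc : ¬ Pairwise (Function.onFun Nat.Coprime n) := by
    intro hco
    have := isCyclic_pi_of_coprime n hco
    exact h (isCyclic_of_surjective e.symm e.symm.surjective)
  rw [Pairwise] at hnc
  push Not at hnc
  obtain ⟨i, j, hij, hc⟩ := hnc
  have hc' : ¬ Nat.Coprime (n i) (n j) := hc
  rw [Nat.Prime.not_coprime_iff_dvd] at hc'
  obtain ⟨p, hp, hpi, hpj⟩ := hc'
  have hpf : Fact p.Prime := ⟨hp⟩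
  let c₁ : Multiplicative (ZMod (n i)) →* Multiplicative (ZMod p) :=
    AddMonoidHom.toMultiplicative (ZMod.castHom hpi (ZMod p)).toAddMonoidHom
  let c₂ : Multiplicative (ZMod (n j)) →* Multiplicative (ZMod p) :=
    AddMonoidHom.toMultiplicative (ZMod.castHom hpj (ZMod p)).toAddMonoidHom
  let f₁ : G →* Multiplicative (ZMod p) :=
    c₁.comp ((Pi.evalMonoidHom (fun i => Multiplicative (ZMod (n i))) i).comp e.toMonoidHom)
  let f₂ : G →* Multiplicative (ZMod p) :=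
    c₂.comp ((Pi.evalMonoidHom (fun i => Multiplicative (ZMod (n i))) j).comp e.toMonoidHom)
  refine ⟨p, hpf, f₁, f₂, e.symm (Pi.mulSingle i (Multiplicative.ofAdd 1)),
    e.symm (Pi.mulSingle j (Multiplicative.ofAdd 1)), ?_, ?_, ?_, ?_⟩
  · show c₁ (e (e.symm (Pi.mulSingle i (Multiplicative.ofAdd 1))) i) = _
    rw [MulEquiv.apply_symm_apply, Pi.mulSingle_eq_same]
    show Multiplicative.ofAdd ((ZMod.castHom hpi (ZMod p)) 1) = _
    rw [map_one]
  · show c₂ (e (e.symm (Pi.mulSingle i (Multiplicative.ofAdd 1))) j) = _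
    rw [MulEquiv.apply_symm_apply, Pi.mulSingle_eq_of_ne (Ne.symm hij), map_one]
  · show c₁ (e (e.symm (Pi.mulSingle j (Multiplicative.ofAdd 1))) i) = _
    rw [MulEquiv.apply_symm_apply, Pi.mulSingle_eq_of_ne hij, map_one]
  · show c₂ (e (e.symm (Pi.mulSingle j (Multiplicative.ofAdd 1))) j) = _
    rw [MulEquiv.apply_symm_apply, Pi.mulSingle_eq_same]
    show Multiplicative.ofAdd ((ZMod.castHom hpj (ZMod p)) 1) = _
    rw [map_one]

@[ext] structure Tw {G : Type u} [CommGroup G] {p : ℕ} (f₁ f₂ : G →* Multiplicative (ZMod p)) where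
  g : G
  c : ZMod p

def F {G : Type u} [CommGroup G] {p : ℕ} (f : G →* Multiplicative (ZMod p)) (x : G) : ZMod p :=
  Multiplicative.toAdd (f x)

theorem F_mul {G : Type u} [CommGroup G] {p : ℕ} (f : G →* Multiplicative (ZMod p)) (x y : G) :
    F f (x * y) = F f x + F f y := by
  unfold F
  rw [map_mul]
  rfl

theorem F_one {G : Type u} [CommGroup G] {p : ℕ} (f : G →* Multiplicative (ZMod p)) :
    F f 1 = 0 := by
  unfold F
  rw [map_one]
  rfl

theorem F_inv {G : Type u} [CommGroup G] {p : ℕ} (f : G →* Multiplicative (ZMod p)) (x : G) :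
    F f x⁻¹ = - F f x := by
  unfold F
  rw [map_inv]
  rfl

instance twGroup {G : Type u} [CommGroup G] {p : ℕ} (f₁ f₂ : G →* Multiplicative (ZMod p)) :
    Group (Tw f₁ f₂) where
  mul x y := ⟨x.g * y.g, x.c + y.c + F f₁ x.g * F f₂ y.g⟩
  one := ⟨1, 0⟩
  inv x := ⟨x.g⁻¹, -x.c + F f₁ x.g * F f₂ x.g⟩
  mul_assoc x y z := by
    show (⟨x.g * y.g * z.g, x.c + y.c + F f₁ x.g * F f₂ y.g + z.c + F f₁ (x.g * y.g) * F f₂ z.g⟩ : Tw f₁ f₂) =
      ⟨x.g * (y.g * z.g), x.c + (y.c + z.c + F f₁ y.g * F f₂ z.g) + F f₁ x.g * F f₂ (y.g * z.g)⟩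
    rw [F_mul, F_mul, mul_assoc]
    ext
    · rfl
    · simp only; ring
  one_mul x := by
    show (⟨1 * x.g, 0 + x.c + F f₁ 1 * F f₂ x.g⟩ : Tw f₁ f₂) = x
    rw [F_one]
    ext <;> simp
  mul_one x := by
    show (⟨x.g * 1, x.c + 0 + F f₁ x.g * F f₂ 1⟩ : Tw f₁ f₂) = x
    rw [F_one]
    ext <;> simp
  inv_mul_cancel x := by
    show (⟨x.g⁻¹ * x.g, -x.c + F f₁ x.g * F f₂ x.g + x.c + F f₁ x.g⁻¹ * F f₂ x.g⟩ : Tw f₁ f₂) = ⟨1, 0⟩
    rw [F_inv]
    ext
    · simp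
    · simp only; ring

theorem mul_def {G : Type u} [CommGroup G] {p : ℕ} (f₁ f₂ : G →* Multiplicative (ZMod p))
    (x y : Tw f₁ f₂) : x * y = ⟨x.g * y.g, x.c + y.c + F f₁ x.g * F f₂ y.g⟩ := rfl

theorem one_def {G : Type u} [CommGroup G] {p : ℕ} (f₁ f₂ : G →* Multiplicative (ZMod p)) :
    (1 : Tw f₁ f₂) = ⟨1, 0⟩ := rfl

def twProj {G : Type u} [CommGroup G] {p : ℕ} (f₁ f₂ : G →* Multiplicative (ZMod p)) :
    Tw f₁ f₂ →* G where
  toFun x := x.g
  map_one' := rfl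
  map_mul' _ _ := rfl

theorem tw_pow {G : Type u} [CommGroup G] {p : ℕ} (f₁ f₂ : G →* Multiplicative (ZMod p)) (k : ℕ) :
    (⟨1, 1⟩ : Tw f₁ f₂) ^ k = ⟨1, (k : ZMod p)⟩ := by
  induction k with
  | zero => rw [pow_zero, one_def]; simp
  | succ k ih =>
    rw [pow_succ, ih, mul_def]
    simp only [F_one, mul_one, zero_mul, add_zero]
    push_cast
    rfl

theorem tw_finite {G : Type u} [CommGroup G] [Finite G] {p : ℕ} [Fact p.Prime]
    (f₁ f₂ : G →* Multiplicative (ZMod p)) : Finite (Tw f₁ f₂) := by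
  apply Finite.of_injective (fun x : Tw f₁ f₂ => (x.g, x.c))
  intro x y h
  simp only [Prod.mk.injEq] at h
  ext
  · exact h.1
  · exact h.2

theorem tw_stem {G : Type u} [CommGroup G] {p : ℕ} [Fact p.Prime]
    (f₁ f₂ : G →* Multiplicative (ZMod p)) (g k : G)
    (h1 : f₁ g = Multiplicative.ofAdd 1) (h2 : f₂ g = 1) (h3 : f₁ k = 1)
    (h4 : f₂ k = Multiplicative.ofAdd 1) :
    Cfsg.IsStemExtension (twProj f₁ f₂) ∧ (⟨1, 1⟩ : Tw f₁ f₂) ∈ (twProj f₁ f₂).ker := by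
  have hF1 : F f₁ g = 1 := by unfold F; rw [h1]; rfl
  have hF2 : F f₂ g = 0 := by unfold F; rw [h2]; rfl
  have hF3 : F f₁ k = 0 := by unfold F; rw [h3]; rfl
  have hF4 : F f₂ k = 1 := by unfold F; rw [h4]; rfl
  have hZ : (⟨1, 1⟩ : Tw f₁ f₂) ∈ commutator (Tw f₁ f₂) := by
    have key : (⟨1, 1⟩ : Tw f₁ f₂) = ⁅(⟨g, 0⟩ : Tw f₁ f₂), (⟨k, 0⟩ : Tw f₁ f₂)⁆ := by
      rw [commutatorElement_def, eq_mul_inv_iff_mul_eq, eq_mul_inv_iff_mul_eq]
      simp only [mul_def, F_one, hF1, hF2, hF3, hF4, F_mul]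
      ext
      · simp only; rw [mul_comm]; simp
      · simp
    rw [key]
    exact Subgroup.commutator_mem_commutator (Subgroup.mem_top _) (Subgroup.mem_top _)
  refine ⟨⟨?_, ?_, ?_⟩, rfl⟩
  · intro x
    exact ⟨⟨x, 0⟩, rfl⟩
  · intro x hx
    have hx' : x.g = 1 := hx
    rw [Subgroup.mem_center_iff]
    intro y
    simp only [mul_def, hx', F_one]
    ext
    · simp
    · simp only; ring
  · intro x hx
    have hx' : x.g = 1 := hx
    have : x = (⟨1, 1⟩ : Tw f₁ f₂) ^ (x.c.val) := by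
      rw [tw_pow]
      ext
      · exact hx'
      · simp
    rw [this]
    exact Subgroup.pow_mem _ hZ _

theorem result {G : Type*} [CommGroup G] [Finite G] : Cfsg.HasCyclicSchurMultiplier G 1 ↔ IsCyclic G := by
  constructor
  · intro hG
    by_contra hnc
    obtain ⟨p, hp, f₁, f₂, g, k, h1, h2, h3, h4⟩ := exists_pair G hnc
    have hfin := tw_finite f₁ f₂
    obtain ⟨hstem, hmem⟩ := tw_stem f₁ f₂ g k h1 h2 h3 h4
    have hker := ker_eq_bot_of_trivial hG (Tw f₁ f₂) (twProj f₁ f₂) hstem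
    rw [hker, Subgroup.mem_bot, one_def] at hmem
    have : (1 : ZMod p) = 0 := congrArg Tw.c hmem
    exact one_ne_zero this
  · intro hc
    apply trivial_of_forall_ker_eq_bot
    intro Γ _ _ σ hσ
    have hcm := MonoidHom.isMulCommutative_of_isCyclic_of_ker_le_center σ hσ.2.1
    exact ker_eq_bot_of_comm σ hσ (isMulCommutative_iff.mp hcm)

end Cfsg.Agent.S3950
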