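import Mathlib
import Cfsg.Statements.S3951
import Cfsg.Agent.Lib.Helper21.SchurBasic
import Cfsg.Agent.Lib.Helper21.SchurBasic2

set_option autoImplicit false
open Cfsg

namespace Cfsg.Agent.S3951

open Cfsg.Agent.Lib.Helper21.SchurBasic Cfsg.Agent.Lib.Helper21.SchurBasic2

@[ext] structure Heis (m n : ℕ) (hnm : n ∣ m) where
  a : ZMod m
  b : ZMod n
  c : ZMod n

def phi (m n : ℕ) (hnm : n ∣ m) : ZMod m →+* ZMod n := ZMod.castHom hnm (ZMod n)

instance heisGroup (m n : ℕ) (hnm : n ∣ m) : Group (Heis m n hnm) where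
  mul x y := ⟨x.a + y.a, x.b + y.b, x.c + y.c + phi m n hnm x.a * y.b⟩
  one := ⟨0, 0, 0⟩
  inv x := ⟨-x.a, -x.b, -x.c + phi m n hnm x.a * x.b⟩
  mul_assoc x y z := by
    show (⟨x.a + y.a + z.a, x.b + y.b + z.b,
      x.c + y.c + phi m n hnm x.a * y.b + z.c + phi m n hnm (x.a + y.a) * z.b⟩ : Heis m n hnm) =
      ⟨x.a + (y.a + z.a), x.b + (y.b + z.b),
      x.c + (y.c + z.c + phi m n hnm y.a * z.b) + phi m n hnm x.a * (y.b + z.b)⟩
    rw [map_add]
    ext <;> simp only <;> ring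
  one_mul x := by
    show (⟨0 + x.a, 0 + x.b, 0 + x.c + phi m n hnm 0 * x.b⟩ : Heis m n hnm) = x
    rw [map_zero]
    ext <;> simp
  mul_one x := by
    show (⟨x.a + 0, x.b + 0, x.c + 0 + phi m n hnm x.a * 0⟩ : Heis m n hnm) = x
    ext <;> simp
  inv_mul_cancel x := by
    show (⟨-x.a + x.a, -x.b + x.b, -x.c + phi m n hnm x.a * x.b + x.c + phi m n hnm (-x.a) * x.b⟩ :
      Heis m n hnm) = ⟨0, 0, 0⟩
    rw [map_neg]
    ext <;> simp only <;> ring

theorem mul_def (m n : ℕ) (hnm : n ∣ m) (x y : Heis m n hnm) :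
    x * y = ⟨x.a + y.a, x.b + y.b, x.c + y.c + phi m n hnm x.a * y.b⟩ := rfl

theorem one_def (m n : ℕ) (hnm : n ∣ m) : (1 : Heis m n hnm) = ⟨0, 0, 0⟩ := rfl

theorem inv_def (m n : ℕ) (hnm : n ∣ m) (x : Heis m n hnm) :
    x⁻¹ = ⟨-x.a, -x.b, -x.c + phi m n hnm x.a * x.b⟩ := rfl

instance heisFinite (m n : ℕ) [NeZero m] [NeZero n] (hnm : n ∣ m) : Finite (Heis m n hnm) := by
  apply Finite.of_injective (fun x : Heis m n hnm => (x.a, x.b, x.c))
  intro x y h
  simp only [Prod.mk.injEq] at h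
  ext
  · exact h.1
  · exact h.2.1
  · exact h.2.2

def proj (m n : ℕ) (hnm : n ∣ m) : Heis m n hnm →* Multiplicative (ZMod m × ZMod n) where
  toFun x := Multiplicative.ofAdd (x.a, x.b)
  map_one' := rfl
  map_mul' x y := rfl

theorem mem_ker_iff (m n : ℕ) (hnm : n ∣ m) (x : Heis m n hnm) :
    x ∈ (proj m n hnm).ker ↔ x.a = 0 ∧ x.b = 0 := by
  rw [MonoidHom.mem_ker]
  show Multiplicative.ofAdd (x.a, x.b) = Multiplicative.ofAdd (0, 0) ↔ _
  rw [Multiplicative.ofAdd.apply_eq_iff_eq, Prod.mk.injEq]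

def kerEquiv (m n : ℕ) (hnm : n ∣ m) : (proj m n hnm).ker ≃* Multiplicative (ZMod n) where
  toFun k := Multiplicative.ofAdd k.1.c
  invFun z := ⟨⟨0, 0, Multiplicative.toAdd z⟩, (mem_ker_iff m n hnm _).mpr ⟨rfl, rfl⟩⟩
  left_inv k := by
    have hk := (mem_ker_iff m n hnm _).mp k.2
    apply Subtype.ext
    ext
    · exact hk.1.symm
    · exact hk.2.symm
    · rfl
  right_inv z := rfl
  map_mul' k k' := by
    have hk := (mem_ker_iff m n hnm _).mp k.2
    show Multiplicative.ofAdd (k.1.c + k'.1.c + phi m n hnm k.1.a * k'.1.b) =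
      Multiplicative.ofAdd k.1.c * Multiplicative.ofAdd k'.1.c
    rw [hk.1, map_zero, zero_mul, add_zero]
    rfl

theorem proj_stem (m n : ℕ) (hnm : n ∣ m) : Cfsg.IsStemExtension (proj m n hnm) := by
  refine ⟨?_, ?_, ?_⟩
  · intro z
    exact ⟨⟨(Multiplicative.toAdd z).1, (Multiplicative.toAdd z).2, 0⟩, rfl⟩
  · intro x hx
    rw [mem_ker_iff] at hx
    rw [Subgroup.mem_center_iff]
    intro g
    rw [mul_def, mul_def, hx.1, hx.2, map_zero]
    ext <;> simp only <;> ring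
  · intro x hx
    rw [mem_ker_iff] at hx
    have key : x = (⟨1, 0, 0⟩ : Heis m n hnm) * ⟨0, x.c, 0⟩ * (⟨1, 0, 0⟩ : Heis m n hnm)⁻¹ *
        (⟨0, x.c, 0⟩ : Heis m n hnm)⁻¹ := by
      simp only [mul_def, inv_def, map_zero, map_one, map_add, map_neg]
      ext
      · simp only; rw [hx.1]; ring
      · simp only; rw [hx.2]; ring
      · simp only; ring
    rw [key, ← commutatorElement_def]
    exact Subgroup.commutator_mem_commutator (Subgroup.mem_top _) (Subgroup.mem_top _)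

theorem upper (m n : ℕ) [NeZero m] [NeZero n] (Γ : Type) [Group Γ] [Finite Γ]
    (σ : Γ →* Multiplicative (ZMod m × ZMod n)) (hσ : Cfsg.IsStemExtension σ) :
    ∃ π : Multiplicative (ZMod n) →* σ.ker, Function.Surjective π := by
  obtain ⟨x, hx⟩ := hσ.1 (Multiplicative.ofAdd ((1 : ZMod m), (0 : ZMod n)))
  obtain ⟨y, hy⟩ := hσ.1 (Multiplicative.ofAdd ((0 : ZMod m), (1 : ZMod n)))
  have hpowx : ∀ j : ℕ, σ (x ^ j) = Multiplicative.ofAdd ((j : ZMod m), (0 : ZMod n)) := by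
    intro j
    rw [map_pow, hx, ← ofAdd_nsmul]
    simp
  have hpowy : ∀ j : ℕ, σ (y ^ j) = Multiplicative.ofAdd ((0 : ZMod m), (j : ZMod n)) := by
    intro j
    rw [map_pow, hy, ← ofAdd_nsmul]
    simp
  have hcker : x * y * x⁻¹ * y⁻¹ ∈ σ.ker := by
    rw [MonoidHom.mem_ker, map_mul, map_mul, map_mul, map_inv, map_inv, mul_comm (σ x) (σ y)]
    simp
  have hcc := hσ.2.1 hcker
  have hcn : (x * y * x⁻¹ * y⁻¹) ^ n = 1 := by
    rw [← comm_pow_right x y hcc n]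
    have hyn : y ^ n ∈ σ.ker := by
      rw [MonoidHom.mem_ker, hpowy, ZMod.natCast_self]
      rfl
    have := hσ.2.1 hyn
    rw [Subgroup.mem_center_iff] at this
    rw [this x]
    group
  have hform : ∀ k ∈ σ.ker, ∃ a : ℕ, k = (x * y * x⁻¹ * y⁻¹) ^ a := by
    intro k hk
    have hgen : ∀ g : Multiplicative (ZMod m × ZMod n), ∃ i : ℕ, g * (σ y ^ i)⁻¹ ∈
        Subgroup.zpowers (Multiplicative.ofAdd ((1 : ZMod m), (0 : ZMod n))) := by
      intro g
      refine ⟨(Multiplicative.toAdd g).2.val, (Multiplicative.toAdd g).1.val, ?_⟩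
      simp only
      rw [← map_pow, hpowy, zpow_natCast, ← ofAdd_nsmul]
      apply Multiplicative.toAdd.injective
      simp [Prod.ext_iff]
    obtain ⟨b, hb, hkb⟩ := stem_ker_form_pow σ hσ
      (Subgroup.zpowers (Multiplicative.ofAdd ((1 : ZMod m), (0 : ZMod n)))) y hgen k hk
    obtain ⟨j, hj⟩ := hb
    simp only at hj
    have hbx : σ b = σ (x ^ ((j : ZMod m).val)) := by
      rw [hpowx, ← hj, ← ofAdd_zsmul]
      simp
    refine ⟨(j : ZMod m).val, ?_⟩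
    have hbk : b * (x ^ ((j : ZMod m).val))⁻¹ ∈ σ.ker := by
      rw [MonoidHom.mem_ker, map_mul, map_inv, hbx, mul_inv_cancel]
    have hbc := hσ.2.1 hbk
    rw [Subgroup.mem_center_iff] at hbc
    rw [← comm_pow_left x y hcc, hkb]
    generalize x ^ ((j : ZMod m).val) = w at hbc ⊢
    have e : b * y * b⁻¹ * y⁻¹ = (b * w⁻¹) * (w * y * w⁻¹) * (b * w⁻¹)⁻¹ * y⁻¹ := by group
    rw [e, ← hbc (w * y * w⁻¹)]
    group
  have hcyc : IsCyclic σ.ker := by
    refine ⟨⟨⟨x * y * x⁻¹ * y⁻¹, hcker⟩, fun k => ?_⟩⟩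
    obtain ⟨a, ha⟩ := hform k.1 k.2
    refine ⟨(a : ℤ), ?_⟩
    apply Subtype.ext
    simp only [zpow_natCast, Subgroup.coe_pow]
    exact ha.symm
  apply exists_surjective_of_cyclic_of_pow_eq_one
  intro g
  obtain ⟨a, ha⟩ := hform g.1 g.2
  apply Subtype.ext
  rw [Subgroup.coe_pow, ha, ← pow_mul, mul_comm, pow_mul, hcn, one_pow]
  rfl

theorem result (m n : ℕ) [NeZero m] [NeZero n] (hnm : n ∣ m) : Cfsg.HasCyclicSchurMultiplier (Multiplicative (ZMod m × ZMod n)) n := by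
  constructor
  · exact ⟨Heis m n hnm, inferInstance, inferInstance, proj m n hnm, proj_stem m n hnm, ⟨kerEquiv m n hnm⟩⟩
  · intro Γ _ _ σ hσ
    exact upper m n Γ σ hσ

end Cfsg.Agent.S3951
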