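import Mathlib
import Cfsg.Statements.S3952
import Cfsg.Agent.Lib.Helper21.SchurBasic
import Cfsg.Agent.Lib.Helper21.SchurCover
import Cfsg.Agent.Lib.Helper21.SchurInd

set_option autoImplicit false
open Cfsg

namespace Cfsg.Agent.S3952

open Cfsg.Agent.Lib.Helper21.SchurCover Cfsg.Agent.Lib.Helper21.SchurBasic
open Cfsg.Agent.Lib.Helper21.SchurInd

universe u

theorem core_gen {G : Type u} [Group G] [Finite G] (Z : Subgroup G) (hZc : Z ≤ commutator G)
    (χ : Z →* ℂˣ) {V : Type u} [AddCommGroup V] [Module ℂ V] [Module.Finite ℂ V]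
    (T : G →* Module.End ℂ V) (hT : ∀ z : Z, T z = (χ z : ℂ) • (1 : Module.End ℂ V))
    (hrank : Module.finrank ℂ (MonoidAlgebra.lift ℂ (Module.End ℂ V) G T).range = Z.index)
    (z : Z) : orderOf (χ z) ^ 2 ∣ Z.index := by
  classical
  have hne : NeZero ((Nat.card G : ℕ) : ℂ) := ⟨Nat.cast_ne_zero.mpr Nat.card_pos.ne'⟩
  have hss : IsSemisimpleRing (MonoidAlgebra.lift ℂ (Module.End ℂ V) G T).range :=
    RingHom.isSemisimpleRing_of_surjective
      ((MonoidAlgebra.lift ℂ (Module.End ℂ V) G T).rangeRestrict :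
        MonoidAlgebra ℂ G →+* (MonoidAlgebra.lift ℂ (Module.End ℂ V) G T).range)
      (MonoidAlgebra.lift ℂ (Module.End ℂ V) G T).rangeRestrict_surjective
  have hfin : Module.Finite ℂ (MonoidAlgebra.lift ℂ (Module.End ℂ V) G T).range :=
    inferInstanceAs (Module.Finite ℂ
      (Subalgebra.toSubmodule (MonoidAlgebra.lift ℂ (Module.End ℂ V) G T).range))
  obtain ⟨n, d, hd, ⟨Φ⟩⟩ := IsSemisimpleRing.exists_algEquiv_pi_matrix_of_isAlgClosed ℂ
    (MonoidAlgebra.lift ℂ (Module.End ℂ V) G T).range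
  have hfr : Z.index = ∑ i, d i ^ 2 := by
    rw [← hrank, LinearEquiv.finrank_eq Φ.toLinearEquiv, Module.finrank_pi_fintype]
    apply Finset.sum_congr rfl
    intro i _
    rw [Module.finrank_matrix, Fintype.card_fin, Module.finrank_self, mul_one, sq]
  rw [hfr]
  apply Finset.dvd_sum
  intro i _
  apply pow_dvd_pow_of_dvd
  apply orderOf_dvd_of_pow_eq_one
  let ρ : G →* Matrix (Fin (d i)) (Fin (d i)) ℂ :=
    (Pi.evalMonoidHom (fun i => Matrix (Fin (d i)) (Fin (d i)) ℂ) i).comp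
      ((MonoidHomClass.toMonoidHom Φ).comp
        ((MonoidHomClass.toMonoidHom
          (MonoidAlgebra.lift ℂ (Module.End ℂ V) G T).rangeRestrict).comp (MonoidAlgebra.of ℂ G)))
  let δ : G →* ℂˣ := (Matrix.detMonoidHom.comp ρ).toHomUnits
  have h1 : δ z = 1 := Abelianization.commutator_subset_ker δ (hZc z.2)
  have h2 : ρ z = (χ z : ℂ) • 1 := by
    show Φ ((MonoidAlgebra.lift ℂ (Module.End ℂ V) G T).rangeRestrict (MonoidAlgebra.of ℂ G z)) i
      = _
    have h3 : (MonoidAlgebra.lift ℂ (Module.End ℂ V) G T).rangeRestrict (MonoidAlgebra.of ℂ G z)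
        = (χ z : ℂ) • 1 := by
      apply Subtype.ext
      show MonoidAlgebra.lift ℂ (Module.End ℂ V) G T (MonoidAlgebra.of ℂ G z) = _
      rw [MonoidAlgebra.lift_of, hT z]
      rfl
    rw [h3, map_smul, map_one]
    rfl
  have h4 : ((δ z : ℂˣ) : ℂ) = (χ z : ℂ) ^ d i := by
    show Matrix.det (ρ z) = _
    rw [h2, Matrix.det_smul, Matrix.det_one, mul_one, Fintype.card_fin]
  rw [h1] at h4
  apply Units.ext
  rw [Units.val_pow_eq_pow_val, ← h4]

section Alg

variable {G : Type u} [Group G] (Z : Subgroup G) (χ : Z →* ℂˣ)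

open Classical in
noncomputable def f0 : G → ℂ := fun x => if hx : x ∈ Z then (χ ⟨x, hx⟩ : ℂ) else 0

theorem f0_mem : f0 Z χ ∈ indSub Z χ := by
  classical
  intro z x
  by_cases hx : x ∈ Z
  · have hzx : (z : G) * x ∈ Z := Z.mul_mem z.2 hx
    simp only [f0, dif_pos hx, dif_pos hzx]
    have : (⟨(z : G) * x, hzx⟩ : Z) = z * ⟨x, hx⟩ := rfl
    rw [this, map_mul, Units.val_mul]
  · have hzx : (z : G) * x ∉ Z := fun h' => hx (by simpa using Z.mul_mem (Z.inv_mem z.2) h')
    simp only [f0, dif_neg hx, dif_neg hzx, mul_zero]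

theorem f0_one : f0 Z χ 1 = 1 := by
  classical
  simp only [f0, dif_pos Z.one_mem]
  have h2 : (⟨1, Z.one_mem⟩ : Z) = 1 := rfl
  rw [h2, map_one]
  rfl

theorem f0_not_mem (x : G) (hx : x ∉ Z) : f0 Z χ x = 0 := by
  classical
  simp only [f0, dif_neg hx]

theorem linInd [Finite G] :
    LinearIndependent ℂ (fun q : G ⧸ Z => indHom Z χ (Quotient.out q)) := by
  classical
  have : Fintype (G ⧸ Z) := Fintype.ofFinite _
  refine (@Fintype.linearIndependent_iff (G ⧸ Z) ℂ (Module.End ℂ (indSub Z χ)) _ _ _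
    (fun q : G ⧸ Z => indHom Z χ (Quotient.out q)) _).mpr ?_
  intro c hc q₀
  have h1 := congrArg (fun S : Module.End ℂ (indSub Z χ) =>
    (S ⟨f0 Z χ, f0_mem Z χ⟩ : G → ℂ) (Quotient.out q₀)⁻¹) hc
  simp only [LinearMap.sum_apply, LinearMap.smul_apply, LinearMap.zero_apply,
    Submodule.coe_sum, Submodule.coe_smul, Submodule.coe_zero, Finset.sum_apply, Pi.smul_apply,
    Pi.zero_apply, smul_eq_mul] at h1
  rw [Finset.sum_eq_single q₀] at h1
  · have h2 : ((indHom Z χ (Quotient.out q₀)) ⟨f0 Z χ, f0_mem Z χ⟩ : G → ℂ) (Quotient.out q₀)⁻¹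
        = 1 := by
      show f0 Z χ ((Quotient.out q₀)⁻¹ * Quotient.out q₀) = 1
      rw [inv_mul_cancel, f0_one]
    rw [h2, mul_one] at h1
    exact h1
  · intro q _ hq
    have h2 : ((indHom Z χ (Quotient.out q)) ⟨f0 Z χ, f0_mem Z χ⟩ : G → ℂ) (Quotient.out q₀)⁻¹
        = 0 := by
      show f0 Z χ ((Quotient.out q₀)⁻¹ * Quotient.out q) = 0
      apply f0_not_mem
      intro hmem
      apply hq
      have h3 : (QuotientGroup.mk (Quotient.out q₀) : G ⧸ Z) = QuotientGroup.mk (Quotient.out q) :=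
        QuotientGroup.eq.mpr hmem
      rw [QuotientGroup.out_eq', QuotientGroup.out_eq'] at h3
      exact h3.symm
    rw [h2, mul_zero]
  · intro h
    exact absurd (Finset.mem_univ q₀) h

noncomputable def Psi : MonoidAlgebra ℂ G →ₐ[ℂ] Module.End ℂ (indSub Z χ) :=
  MonoidAlgebra.lift ℂ (Module.End ℂ (indSub Z χ)) G (indHom Z χ)

theorem Psi_of (g : G) : Psi Z χ (MonoidAlgebra.of ℂ G g) = indHom Z χ g :=
  MonoidAlgebra.lift_of _ _

theorem indHom_out (hZ : Z ≤ Subgroup.center G) (g : G) :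
    ∃ c : ℂ, indHom Z χ g = c • indHom Z χ (Quotient.out (QuotientGroup.mk g : G ⧸ Z)) := by
  have h1 : (Quotient.out (QuotientGroup.mk g : G ⧸ Z))⁻¹ * g ∈ Z := by
    apply QuotientGroup.eq.mp
    rw [QuotientGroup.out_eq']
  refine ⟨(χ ⟨_, h1⟩ : ℂ), ?_⟩
  have h2 : g = (⟨_, h1⟩ : Z) * Quotient.out (QuotientGroup.mk g : G ⧸ Z) := by
    have hz := hZ h1
    rw [Subgroup.mem_center_iff] at hz
    show g = (Quotient.out (QuotientGroup.mk g : G ⧸ Z))⁻¹ * g * Quotient.out (QuotientGroup.mk g : G ⧸ Z)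
    rw [← hz]
    group
  conv_lhs => rw [h2]
  rw [map_mul, indHom_central Z hZ χ ⟨_, h1⟩, smul_mul_assoc, one_mul]

theorem Psi_mem_span (hZ : Z ≤ Subgroup.center G) (x : MonoidAlgebra ℂ G) :
    Psi Z χ x ∈ Submodule.span ℂ
      (Set.range (fun q : G ⧸ Z => indHom Z χ (Quotient.out q))) := by
  induction x using MonoidAlgebra.induction_on with
  | of g =>
    rw [Psi_of]
    obtain ⟨c, hc⟩ := indHom_out Z χ hZ g
    rw [hc]
    exact Submodule.smul_mem _ c (Submodule.subset_span ⟨_, rfl⟩)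
  | add x y hx hy =>
    rw [map_add]
    exact Submodule.add_mem _ hx hy
  | smul c x hx =>
    rw [map_smul]
    exact Submodule.smul_mem _ c hx

theorem finrank_range [Finite G] (hZ : Z ≤ Subgroup.center G) :
    Module.finrank ℂ (Psi Z χ).range = Z.index := by
  classical
  have : Fintype (G ⧸ Z) := Fintype.ofFinite _
  have hidx : Z.index = Fintype.card (G ⧸ Z) := by
    rw [Subgroup.index, Nat.card_eq_fintype_card]
  apply le_antisymm
  · have h1 : Subalgebra.toSubmodule (Psi Z χ).range ≤ Submodule.span ℂ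
        (Set.range (fun q : G ⧸ Z => indHom Z χ (Quotient.out q))) := by
      rintro _ ⟨x, rfl⟩
      exact Psi_mem_span Z χ hZ x
    have h2 := Submodule.finrank_mono h1
    have h3 := finrank_range_le_card (R := ℂ) (fun q : G ⧸ Z => indHom Z χ (Quotient.out q))
    rw [hidx]
    exact le_trans h2 h3
  · have hmem : ∀ q : G ⧸ Z, indHom Z χ (Quotient.out q) ∈ (Psi Z χ).range :=
      fun q => ⟨MonoidAlgebra.of ℂ G (Quotient.out q), Psi_of Z χ _⟩
    have hli : LinearIndependent ℂ (fun q : G ⧸ Z =>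
        (⟨indHom Z χ (Quotient.out q), hmem q⟩ : (Psi Z χ).range)) := by
      apply LinearIndependent.of_comp (Psi Z χ).range.val.toLinearMap
      exact linInd Z χ
    have hfin : Module.Finite ℂ (Psi Z χ).range :=
      inferInstanceAs (Module.Finite ℂ (Subalgebra.toSubmodule (Psi Z χ).range))
    rw [hidx]
    exact hli.fintype_card_le_finrank


theorem core [Finite G] (hZ : Z ≤ Subgroup.center G) (hZc : Z ≤ commutator G) (z : Z) :
    orderOf (χ z) ^ 2 ∣ Z.index :=
  core_gen Z hZc χ (indHom Z χ) (indHom_central Z hZ χ) (finrank_range Z χ hZ) z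

end Alg

theorem result {Q : Type*} [Group Q] [Finite Q] {A : Type*} [CommGroup A] (hA : Cfsg.HasSchurMultiplier Q A) : Monoid.exponent A ^ 2 ∣ Nat.card Q := by
  have hAfin : Finite A := finite_mult_of_hasSchurMultiplier hA
  obtain ⟨⟨Γ, _, _, σ, hσ, ⟨e⟩⟩, _⟩ := hA
  have hidx : σ.ker.index = Nat.card Q := by
    rw [Subgroup.index_ker, MonoidHom.range_eq_top.mpr hσ.1]
    exact Subgroup.card_top
  have hcore : ∀ (lam : A →* ℂˣ) (a : A), orderOf (lam a) ^ 2 ∣ Nat.card Q := by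
    intro lam a
    have := core σ.ker (lam.comp e.toMonoidHom) hσ.2.1 hσ.2.2 (e.symm a)
    rw [hidx] at this
    simpa using this
  have hE0 : Monoid.exponent A ≠ 0 := Monoid.exponent_ne_zero_of_finite
  have hQ0 : Nat.card Q ≠ 0 := Nat.card_pos.ne'
  rw [← Nat.factorization_prime_le_iff_dvd (pow_ne_zero 2 hE0) hQ0]
  intro p hp
  rw [Nat.factorization_pow]
  obtain ⟨a, ha⟩ := hp.exists_orderOf_eq_pow_factorization_exponent (G := A)
  by_cases hk0 : (Monoid.exponent A).factorization p = 0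
  · simp [hk0]
  have hb : a ^ p ^ ((Monoid.exponent A).factorization p - 1) ≠ 1 := by
    intro h
    have h1 := orderOf_dvd_of_pow_eq_one h
    rw [ha] at h1
    have h2 := (Nat.pow_dvd_pow_iff_le_right hp.one_lt).mp h1
    omega
  have hne : NeZero ((Monoid.exponent A : ℕ) : ℂ) := ⟨Nat.cast_ne_zero.mpr hE0⟩
  obtain ⟨lam, hlam⟩ := CommGroup.exists_apply_ne_one_of_hasEnoughRootsOfUnity A ℂ hb
  have hord : orderOf (lam a) = p ^ (Monoid.exponent A).factorization p := by
    have h1 : orderOf (lam a) ∣ p ^ (Monoid.exponent A).factorization p := by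
      rw [← ha]; exact orderOf_map_dvd lam a
    obtain ⟨j, hj, hjeq⟩ := (Nat.dvd_prime_pow hp).mp h1
    rcases Nat.lt_or_ge j ((Monoid.exponent A).factorization p) with hlt | hge
    · exfalso
      apply hlam
      rw [map_pow]
      apply orderOf_dvd_iff_pow_eq_one.mp
      rw [hjeq]
      exact pow_dvd_pow p (by omega)
    · have : j = (Monoid.exponent A).factorization p := le_antisymm hj hge
      rw [hjeq, this]
  have h2 := hcore lam a
  rw [hord, ← pow_mul] at h2
  have h3 := (hp.pow_dvd_iff_le_factorization hQ0).mp h2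
  simpa [mul_comm] using h3

end Cfsg.Agent.S3952
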