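import Mathlib
import Cfsg.Statements.S3957
import Cfsg.Agent.Lib.Helper21.SchurCover

set_option autoImplicit false
open Cfsg

universe u v

namespace Cfsg.Agent.S3957

open Cfsg.Agent.Lib.Helper21.SchurCover

theorem result {Q : Type u} [Group Q] [Finite Q] {A : Type v} [CommGroup A] (hA : Cfsg.HasSchurMultiplier Q A) {Δ : Type u} [Group Δ] [Finite Δ] (τ : Δ →* Q) (hτ : Cfsg.IsStemExtension τ) : ∃ (Γ : Type u) (_ : Group Γ) (_ : Finite Γ) (σ : Γ →* Q), Cfsg.IsStemExtension σ ∧ Nonempty (σ.ker ≃* A) ∧ ∃ β : Γ →* Δ, Function.Surjective β ∧ τ.comp β = σ := by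
  exact exists_cover_over_of_has hA τ hτ

end Cfsg.Agent.S3957
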