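import Mathlib
import Cfsg.Statements.S3958
import Cfsg.Agent.Lib.Helper21.SchurBasic
import Cfsg.Agent.Lib.Helper21.SchurCover

set_option autoImplicit false
universe u v
open Cfsg

namespace Cfsg.Agent.S3958

open Cfsg.Agent.Lib.Helper21.SchurCover Cfsg.Agent.Lib.Helper21.SchurBasic

universe w

theorem stem_comp_equiv {H' : Type w} {H : Type u} {Γ : Type v} [Group H'] [Group H] [Group Γ]
    (β : H →* Γ) (hβ : Cfsg.IsStemExtension β) (c : H' ≃* H) :
    Cfsg.IsStemExtension (β.comp c.toMonoidHom) := by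
  refine ⟨hβ.1.comp c.surjective, ?_, ?_⟩
  · intro x hx
    have h1 : c x ∈ β.ker := hx
    have h2 := hβ.2.1 h1
    rw [Subgroup.mem_center_iff] at h2 ⊢
    intro y
    apply c.injective
    rw [map_mul, map_mul, h2 (c y)]
  · intro x hx
    have h1 : c x ∈ β.ker := hx
    have h2 := hβ.2.2 h1
    have h3 := map_commutator_le' c.symm.toMonoidHom (Subgroup.mem_map_of_mem _ h2)
    have h4 : c.symm.toMonoidHom (c x) = x := c.symm_apply_apply x
    rw [h4] at h3
    exact h3

theorem result {Q : Type u} [Group Q] [Finite Q] {Γ : Type v} [Group Γ] [Finite Γ] (σ : Γ →* Q) (hσ : Cfsg.IsStemExtension σ) (hΓ : Cfsg.HasCyclicSchurMultiplier Γ 1) (Δ : Type u) [Group Δ] [Finite Δ] (τ : Δ →* Q) (hτ : Cfsg.IsStemExtension τ) : ∃ π : σ.ker →* τ.ker, Function.Surjective π := by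
  obtain ⟨Γh, _, _, σh, hσh, ⟨e⟩, β, hβ, hβσ⟩ := exists_cover_over σ hσ
  have hσh' : ∀ x, σh x = σ (β x) := fun x => by rw [← hβσ]; rfl
  have hβstem : Cfsg.IsStemExtension β := by
    refine ⟨hβ, ?_, ?_⟩
    · intro x hx
      apply hσh.2.1
      rw [MonoidHom.mem_ker, hσh', (MonoidHom.mem_ker).mp hx, map_one]
    · intro x hx
      apply hσh.2.2
      rw [MonoidHom.mem_ker, hσh', (MonoidHom.mem_ker).mp hx, map_one]
  obtain ⟨H', _, _, ⟨c⟩⟩ := exists_copy.{u, v} Γh
  have hker := ker_eq_bot_of_trivial hΓ H' (β.comp c.toMonoidHom) (stem_comp_equiv β hβstem c)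
  have hβinj : Function.Injective β := by
    rw [injective_iff_map_eq_one]
    intro x hx
    have h1 : c.symm x ∈ (β.comp c.toMonoidHom).ker := by
      rw [MonoidHom.mem_ker, MonoidHom.comp_apply]
      show β (c (c.symm x)) = 1
      rw [c.apply_symm_apply, hx]
    rw [hker, Subgroup.mem_bot] at h1
    have := congrArg c h1
    rw [c.apply_symm_apply, map_one] at this
    exact this
  let βe : Γh ≃* Γ := MulEquiv.ofBijective β ⟨hβinj, hβ⟩
  have hβe : ∀ y, β (βe.symm y) = y := fun y => βe.apply_symm_apply y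
  let g : σ.ker →* σh.ker := (βe.symm.toMonoidHom.comp σ.ker.subtype).codRestrict σh.ker (by
    intro k
    rw [MonoidHom.mem_ker, hσh']
    show σ (β (βe.symm k)) = 1
    rw [hβe]
    exact k.2)
  have hg : Function.Surjective g := by
    intro x
    have hx : β x ∈ σ.ker := by
      rw [MonoidHom.mem_ker, ← hσh']
      exact x.2
    refine ⟨⟨β x, hx⟩, Subtype.ext ?_⟩
    show βe.symm (β x) = x
    exact βe.symm_apply_apply x
  obtain ⟨f, hf⟩ := surj_of_stem τ hτ
  exact ⟨f.comp (e.toMonoidHom.comp g), hf.comp (e.surjective.comp hg)⟩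

end Cfsg.Agent.S3958
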