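import Mathlib
import Cfsg.Statements.S3960
import Cfsg.Agent.Lib.Helper21.SchurCover

set_option autoImplicit false
universe u
open Cfsg

namespace Cfsg.Agent.S3960

open Cfsg.Agent.Lib.Helper21.SchurCover

open scoped commutatorElement

universe v w

theorem homs_eq_of_perfect {C : Type v} {X : Type w} [Group C] [Group X]
    (hC : commutator C = ⊤) (η η' : C →* X)
    (h : ∀ c : C, η c * (η' c)⁻¹ ∈ Subgroup.center X) : η = η' := by
  have h1 : commutator C ≤ η.eqLocus η' := by
    rw [commutator_eq_closure, Subgroup.closure_le]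
    rintro x ⟨a, b, rfl⟩
    show η ⁅a, b⁆ = η' ⁅a, b⁆
    rw [map_commutatorElement, map_commutatorElement]
    have ha := h a
    have hb := h b
    have ea : η a = η' a * (η a * (η' a)⁻¹) := by
      have := ha
      rw [Subgroup.mem_center_iff] at this
      rw [this (η' a)]
      group
    have eb : η b = η' b * (η b * (η' b)⁻¹) := by
      have := hb
      rw [Subgroup.mem_center_iff] at this
      rw [this (η' b)]
      group
    rw [ea, eb, commutatorElement_mul_central _ _ _ _ ha hb]
  rw [hC] at h1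
  exact MonoidHom.ext (fun c => h1 (Subgroup.mem_top c))

theorem homs_eq_of_perfect_of_central {C : Type v} {X : Type w} {Q : Type u} [Group C] [Group X]
    [Group Q] (hC : commutator C = ⊤) (ξ : X →* Q) (hξ : ξ.ker ≤ Subgroup.center X)
    (η η' : C →* X) (h : ξ.comp η = ξ.comp η') : η = η' := by
  apply homs_eq_of_perfect hC
  intro c
  apply hξ
  rw [MonoidHom.mem_ker, map_mul, map_inv, ← MonoidHom.comp_apply, h, MonoidHom.comp_apply,
    mul_inv_cancel]

theorem rhoBar_comm_surj {Q : Type u} [Group Q] (hQ : commutator Q = ⊤) (q : Q) :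
    ∃ c ∈ commutator (Fb Q), rhoBar Q c = q := by
  have h1 : (commutator (Fb Q)).map (rhoBar Q) = ⊤ := by
    rw [map_commutator_eq, MonoidHom.range_eq_top.mpr (rhoBar_surj Q), ← _root_.commutator_def, hQ]
  have h2 : q ∈ (commutator (Fb Q)).map (rhoBar Q) := by rw [h1]; trivial
  obtain ⟨c, hc, hcq⟩ := h2
  exact ⟨c, hc, hcq⟩

theorem comm_perfect {Q : Type u} [Group Q] (hQ : commutator Q = ⊤) :
    commutator (↥(commutator (Fb Q))) = ⊤ := by
  have key0 : ∀ x ∈ commutatorSet (Fb Q),
      x ∈ (commutator (↥(commutator (Fb Q)))).map (commutator (Fb Q)).subtype := by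
    rintro x ⟨a, b, rfl⟩
    obtain ⟨a', ha', haa⟩ := rhoBar_comm_surj hQ (rhoBar Q a)
    obtain ⟨b', hb', hbb⟩ := rhoBar_comm_surj hQ (rhoBar Q b)
    have hza : a'⁻¹ * a ∈ Subgroup.center (Fb Q) := by
      apply rhoBar_ker_le_center
      rw [MonoidHom.mem_ker, map_mul, map_inv, haa, inv_mul_cancel]
    have hzb : b'⁻¹ * b ∈ Subgroup.center (Fb Q) := by
      apply rhoBar_ker_le_center
      rw [MonoidHom.mem_ker, map_mul, map_inv, hbb, inv_mul_cancel]
    have e : ⁅a, b⁆ = ⁅a', b'⁆ := by
      have ea : a = a' * (a'⁻¹ * a) := by group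
      have eb : b = b' * (b'⁻¹ * b) := by group
      conv_lhs => rw [ea, eb]
      exact commutatorElement_mul_central _ _ _ _ hza hzb
    rw [e]
    refine ⟨⁅(⟨a', ha'⟩ : commutator (Fb Q)), (⟨b', hb'⟩ : commutator (Fb Q))⁆,
      Subgroup.commutator_mem_commutator (Subgroup.mem_top _) (Subgroup.mem_top _), ?_⟩
    rw [map_commutatorElement]
    rfl
  have key : commutator (Fb Q) ≤
      (commutator (↥(commutator (Fb Q)))).map (commutator (Fb Q)).subtype := by
    intro x hx
    have h : commutator (Fb Q) = Subgroup.closure (commutatorSet (Fb Q)) :=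
      commutator_eq_closure (Fb Q)
    have hx' : x ∈ Subgroup.closure (commutatorSet (Fb Q)) := h ▸ hx
    exact (Subgroup.closure_le _).mpr key0 hx'
  rw [eq_top_iff]
  intro x _
  obtain ⟨y, hy, hyx⟩ := key x.2
  have : y = x := Subtype.ext hyx
  rw [← this]
  exact hy

theorem result {Q : Type u} [Group Q] [Finite Q] (hQ : Group.IsPerfect Q) : ∃ (G : Type u) (_ : Group G) (_ : Finite G) (π : G →* Q), Group.IsPerfect G ∧ Function.Surjective π ∧ π.ker ≤ Subgroup.center G ∧ ∀ (X : Type u) [Group X] (ξ : X →* Q), Function.Surjective ξ → ξ.ker ≤ Subgroup.center X → ∃! η : G →* X, ξ.comp η = π := by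
  have hQ' : commutator Q = ⊤ := (Group.isPerfect_def).mp hQ
  have hfin : Finite (commutator (Fb Q)) :=
    finite_commutator_of_central (rhoBar Q) (rhoBar_surj Q) (rhoBar_ker_le_center Q)
  have hperf := comm_perfect hQ'
  refine ⟨↥(commutator (Fb Q)), inferInstance, hfin, (rhoBar Q).comp (commutator (Fb Q)).subtype,
    (Group.isPerfect_def).mpr hperf, ?_, ?_, ?_⟩
  · intro q
    obtain ⟨c, hc, hcq⟩ := rhoBar_comm_surj hQ' q
    exact ⟨⟨c, hc⟩, hcq⟩
  · intro x hx
    have h1 : (x : Fb Q) ∈ (rhoBar Q).ker := hx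
    have h2 := rhoBar_ker_le_center Q h1
    rw [Subgroup.mem_center_iff] at h2 ⊢
    intro y
    exact Subtype.ext (h2 y)
  · intro X _ ξ hξ hξc
    obtain ⟨φ, hφ⟩ := exists_lift ξ hξ hξc
    refine ⟨φ.comp (commutator (Fb Q)).subtype, ?_, ?_⟩
    · show ξ.comp (φ.comp (commutator (Fb Q)).subtype) = (rhoBar Q).comp (commutator (Fb Q)).subtype
      rw [← MonoidHom.comp_assoc, hφ]
    · intro η' hη'
      apply homs_eq_of_perfect_of_central hperf ξ hξc
      rw [hη', ← MonoidHom.comp_assoc, hφ]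

end Cfsg.Agent.S3960
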