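import Cfsg.Statements.S3962

set_option autoImplicit false
open Cfsg

namespace Cfsg.Agent.S3962

theorem comm_left_central {G : Type*} [Group G] (z a c : G) (hz : ∀ g : G, g * z = z * g) :
    (z * a) * c * (z * a)⁻¹ * c⁻¹ = a * c * a⁻¹ * c⁻¹ := by
  calc (z * a) * c * (z * a)⁻¹ * c⁻¹ = z * (a * c * a⁻¹) * z⁻¹ * c⁻¹ := by group
    _ = (a * c * a⁻¹) * z * z⁻¹ * c⁻¹ := by rw [hz (a * c * a⁻¹)]
    _ = _ := by group

theorem comm_right_central {G : Type*} [Group G] (w a b : G) (hw : ∀ g : G, g * w = w * g) :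
    a * (w * b) * a⁻¹ * (w * b)⁻¹ = a * b * a⁻¹ * b⁻¹ := by
  calc a * (w * b) * a⁻¹ * (w * b)⁻¹ = (a * w) * (b * a⁻¹ * b⁻¹) * w⁻¹ := by group
    _ = w * a * (b * a⁻¹ * b⁻¹) * w⁻¹ := by rw [hw a]
    _ = w * (a * b * a⁻¹ * b⁻¹) * w⁻¹ := by group
    _ = (a * b * a⁻¹ * b⁻¹) * w * w⁻¹ := by rw [hw (a * b * a⁻¹ * b⁻¹)]
    _ = _ := by group

theorem central_of_comm_mem_center {G : Type*} [Group G] (hG : Group.IsPerfect G) (g : G)
    (h : ∀ k : G, g * k * g⁻¹ * k⁻¹ ∈ Subgroup.center G) : g ∈ Subgroup.center G := by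
  have h1 : commutator G ≤ Subgroup.centralizer {g} := by
    rw [commutator_eq_closure, Subgroup.closure_le]
    rintro x ⟨a, b, rfl⟩
    rw [SetLike.mem_coe, Subgroup.mem_centralizer_iff]
    intro y hy
    rw [Set.mem_singleton_iff] at hy
    subst hy
    have ha := h a
    have hb := h b
    rw [Subgroup.mem_center_iff] at ha hb
    rw [commutatorElement_def]
    have key : y * (a * b * a⁻¹ * b⁻¹) * y⁻¹ = a * b * a⁻¹ * b⁻¹ := by
      calc y * (a * b * a⁻¹ * b⁻¹) * y⁻¹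
          = ((y * a * y⁻¹ * a⁻¹) * a) * ((y * b * y⁻¹ * b⁻¹) * b) * ((y * a * y⁻¹ * a⁻¹) * a)⁻¹ * ((y * b * y⁻¹ * b⁻¹) * b)⁻¹ := by group
        _ = a * ((y * b * y⁻¹ * b⁻¹) * b) * a⁻¹ * ((y * b * y⁻¹ * b⁻¹) * b)⁻¹ := comm_left_central _ _ _ ha
        _ = _ := comm_right_central _ _ _ hb
    rw [mul_inv_eq_iff_eq_mul] at key
    exact key
  rw [Group.isPerfect_def] at hG
  rw [hG] at h1
  rw [Subgroup.mem_center_iff]
  intro k
  have hk : k ∈ Subgroup.centralizer {g} := h1 (Subgroup.mem_top k)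
  rw [Subgroup.mem_centralizer_iff] at hk
  exact (hk g rfl).symm

theorem result {G Q : Type*} [Group G] [Group Q] (hG : Group.IsPerfect G) (π : G →* Q) (hπ : Function.Surjective π) (hker : π.ker ≤ Subgroup.center G) : (Subgroup.center G).map π = Subgroup.center Q := by
  apply le_antisymm
  · rintro _ ⟨z, hz, rfl⟩
    rw [Subgroup.mem_center_iff]
    intro q
    obtain ⟨g, rfl⟩ := hπ q
    rw [SetLike.mem_coe, Subgroup.mem_center_iff] at hz
    rw [← map_mul, ← map_mul, hz g]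
  · intro q hq
    obtain ⟨g, rfl⟩ := hπ q
    refine ⟨g, ?_, rfl⟩
    apply central_of_comm_mem_center hG
    intro k
    apply hker
    rw [MonoidHom.mem_ker]
    rw [Subgroup.mem_center_iff] at hq
    simp only [map_mul, map_inv]
    rw [← hq (π k)]
    group

end Cfsg.Agent.S3962
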