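import Mathlib
import Cfsg.Statements.S3961
import Cfsg.Agent.Lib.Helper21.SchurBasic
import Cfsg.Agent.Lib.Helper21.SchurCover
import Cfsg.Agent.S3960
import Cfsg.Agent.S3962

set_option autoImplicit false
universe u v
open Cfsg

namespace Cfsg.Agent.S3961

open Cfsg.Agent.Lib.Helper21.SchurCover Cfsg.Agent.Lib.Helper21.SchurBasic

open scoped commutatorElement

universe w

theorem exists_section {G : Type u} [Group G] (hG : commutator G = ⊤) (hM : MultSub G = ⊥) :
    ∃ s : G →* Fb G, (rhoBar G).comp s = MonoidHom.id G := by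
  let r : commutator (Fb G) →* G := (rhoBar G).comp (commutator (Fb G)).subtype
  have hinj : Function.Injective r := by
    rw [injective_iff_map_eq_one]
    intro x hx
    have : (x : Fb G) ∈ MultSub G := Subgroup.mem_inf.mpr ⟨hx, x.2⟩
    rw [hM, Subgroup.mem_bot] at this
    exact Subtype.ext this
  have hsurj : Function.Surjective r := by
    intro g
    obtain ⟨c, hc, hcg⟩ := Cfsg.Agent.S3960.rhoBar_comm_surj hG g
    exact ⟨⟨c, hc⟩, hcg⟩
  let e : commutator (Fb G) ≃* G := MulEquiv.ofBijective r ⟨hinj, hsurj⟩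
  refine ⟨(commutator (Fb G)).subtype.comp e.symm.toMonoidHom, ?_⟩
  ext g
  show r (e.symm g) = g
  exact e.apply_symm_apply g

theorem exists_lift_of_section {G : Type u} {Q : Type v} [Group G] [Group Q] (π : G →* Q)
    (s : G →* Fb G) (hs : (rhoBar G).comp s = MonoidHom.id G)
    {X : Type w} [Group X] (ξ : X →* Q) (hξ : Function.Surjective ξ)
    (hξc : ξ.ker ≤ Subgroup.center X) :
    ∃ η : G →* X, ξ.comp η = π := by
  let P : Subgroup (G × X) := (π.comp (MonoidHom.fst G X)).eqLocus (ξ.comp (MonoidHom.snd G X))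
  let p1 : P →* G := (MonoidHom.fst G X).comp P.subtype
  let p2 : P →* X := (MonoidHom.snd G X).comp P.subtype
  have hP : ∀ y : P, π (p1 y) = ξ (p2 y) := fun y => y.2
  have hp1 : Function.Surjective p1 := by
    intro g
    obtain ⟨x, hx⟩ := hξ (π g)
    exact ⟨⟨(g, x), hx.symm⟩, rfl⟩
  have hp1c : p1.ker ≤ Subgroup.center P := by
    intro y hy
    rw [MonoidHom.mem_ker] at hy
    have h2 : p2 y ∈ ξ.ker := by rw [MonoidHom.mem_ker, ← hP y, hy, map_one]
    have h3 := hξc h2
    rw [Subgroup.mem_center_iff] at h3 ⊢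
    intro z
    apply Subtype.ext
    apply Prod.ext
    · show p1 z * p1 y = p1 y * p1 z
      rw [hy, mul_one, one_mul]
    · exact h3 (p2 z)
  obtain ⟨φ, hφ⟩ := exists_lift p1 hp1 hp1c
  refine ⟨p2.comp (φ.comp s), ?_⟩
  ext g
  show ξ (p2 (φ (s g))) = π g
  rw [← hP]
  have h0 : p1 (φ (s g)) = g := by
    have h1 : p1 (φ (s g)) = rhoBar G (s g) := by rw [← hφ]; rfl
    rw [h1]
    exact congrArg (fun f : G →* G => f g) hs
  rw [h0]

theorem perfect_of_stem {Γ : Type u} {G : Type v} [Group Γ] [Group G] (τ : Γ →* G)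
    (hτ : IsStemExtension τ) (hG : commutator G = ⊤) : commutator Γ = ⊤ := by
  rw [eq_top_iff]
  intro x _
  have h1 : (commutator Γ).map τ = ⊤ := by
    rw [map_commutator_eq, MonoidHom.range_eq_top.mpr hτ.1, ← _root_.commutator_def, hG]
  have h2 : τ x ∈ (commutator Γ).map τ := by rw [h1]; trivial
  obtain ⟨c, hc, hcx⟩ := h2
  have h3 : c⁻¹ * x ∈ τ.ker := by rw [MonoidHom.mem_ker, map_mul, map_inv, hcx, inv_mul_cancel]
  have h4 := hτ.2.2 h3
  have e : x = c * (c⁻¹ * x) := by group
  rw [e]
  exact Subgroup.mul_mem _ hc h4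

theorem result {G : Type u} {Q : Type v} [Group G] [Group Q] [Finite G] (hG : Group.IsPerfect G) (π : G →* Q) (hπ : Function.Surjective π) (hker : π.ker ≤ Subgroup.center G) : (∀ (X : Type u) [Group X] (ξ : X →* Q), Function.Surjective ξ → ξ.ker ≤ Subgroup.center X → ∃ η : G →* X, ξ.comp η = π) ↔ Cfsg.HasCyclicSchurMultiplier G 1 := by
  have hG' : commutator G = ⊤ := (Group.isPerfect_def).mp hG
  constructor
  · intro huniv
    apply trivial_of_forall_ker_eq_bot
    intro Γ _ _ τ hτ
    have hΓ : commutator Γ = ⊤ := perfect_of_stem τ hτ hG'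
    have hΓp : Group.IsPerfect Γ := (Group.isPerfect_def).mpr hΓ
    have hc : (π.comp τ).ker ≤ Subgroup.center Γ := by
      intro x hx
      apply Cfsg.Agent.S3962.central_of_comm_mem_center hΓp
      intro k
      apply hτ.2.1
      rw [MonoidHom.mem_ker, map_mul, map_mul, map_mul, map_inv, map_inv]
      have h1 : τ x ∈ π.ker := hx
      have h2 := hker h1
      rw [Subgroup.mem_center_iff] at h2
      rw [← h2 (τ k)]
      group
    obtain ⟨η, hη⟩ := huniv Γ (π.comp τ) (hπ.comp hτ.1) hc
    have h1 : τ.comp η = MonoidHom.id G := by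
      apply Cfsg.Agent.S3960.homs_eq_of_perfect_of_central hG' π hker
      rw [← MonoidHom.comp_assoc, hη, MonoidHom.comp_id]
    have h1' : ∀ g : G, τ (η g) = g := fun g => congrArg (fun f : G →* G => f g) h1
    have h2 : commutator Γ ≤ η.range := by
      rw [commutator_eq_closure, Subgroup.closure_le]
      rintro x ⟨a, b, rfl⟩
      have hza : (η (τ a))⁻¹ * a ∈ Subgroup.center Γ := by
        apply hτ.2.1
        rw [MonoidHom.mem_ker, map_mul, map_inv, h1', inv_mul_cancel]
      have hzb : (η (τ b))⁻¹ * b ∈ Subgroup.center Γ := by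
        apply hτ.2.1
        rw [MonoidHom.mem_ker, map_mul, map_inv, h1', inv_mul_cancel]
      have e : ⁅a, b⁆ = ⁅η (τ a), η (τ b)⁆ := by
        have ea : a = η (τ a) * ((η (τ a))⁻¹ * a) := by group
        have eb : b = η (τ b) * ((η (τ b))⁻¹ * b) := by group
        conv_lhs => rw [ea, eb]
        exact commutatorElement_mul_central _ _ _ _ hza hzb
      rw [e, ← map_commutatorElement]
      exact ⟨_, rfl⟩
    rw [hΓ] at h2
    rw [eq_bot_iff]
    intro x hx
    obtain ⟨g, rfl⟩ := h2 (Subgroup.mem_top x)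
    rw [MonoidHom.mem_ker, h1'] at hx
    rw [hx, map_one]
    exact Subgroup.one_mem _
  · intro hM X _ ξ hξ hξc
    have hsub := subsingleton_mult_of_trivial hM
    have hMS : MultSub G = ⊥ := by
      rw [eq_bot_iff]
      intro x hx
      obtain ⟨m, rfl⟩ := multVal_surj G x hx
      have : m = 1 := Subsingleton.elim _ _
      rw [this, map_one]
      exact Subgroup.one_mem _
    obtain ⟨s, hs⟩ := exists_section hG' hMS
    exact exists_lift_of_section π s hs ξ hξ hξc

end Cfsg.Agent.S3961
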