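import Mathlib
import Cfsg.Statements.S3963
import Cfsg.Agent.Lib.Helper21.SchurBasic

set_option autoImplicit false
open Cfsg

namespace Cfsg.Agent.S3963

open Cfsg.Agent.Lib.Helper21.SchurBasic

theorem inv_a {n : ℕ} (i : ZMod (2 * n)) : (QuaternionGroup.a i)⁻¹ = QuaternionGroup.a (-i) := rfl

theorem inv_xa {n : ℕ} (i : ZMod (2 * n)) :
    (QuaternionGroup.xa i)⁻¹ = QuaternionGroup.xa ((n : ZMod (2 * n)) + i) := rfl

theorem two_n_zero (n : ℕ) : (n : ZMod (2 * n)) + n = 0 := by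
  have : ((2 * n : ℕ) : ZMod (2 * n)) = 0 := ZMod.natCast_self _
  rw [← this]
  push_cast
  ring

theorem mem_rot_iff (n : ℕ) [NeZero n] (g : QuaternionGroup n) :
    g ∈ Subgroup.zpowers (QuaternionGroup.a (1 : ZMod (2 * n))) ↔ ∃ i : ZMod (2 * n), g = QuaternionGroup.a i := by
  have : NeZero (2 * n) := ⟨by have := NeZero.ne n; omega⟩
  constructor
  · rintro ⟨k, rfl⟩
    obtain ⟨m, rfl | rfl⟩ := Int.eq_nat_or_neg k
    · refine ⟨(m : ZMod (2 * n)), ?_⟩
      simp only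
      rw [zpow_natCast, QuaternionGroup.a_one_pow]
    · refine ⟨-(m : ZMod (2 * n)), ?_⟩
      simp only
      rw [zpow_neg, zpow_natCast, QuaternionGroup.a_one_pow, inv_a]
  · rintro ⟨i, rfl⟩
    refine ⟨(i.val : ℤ), ?_⟩
    simp only
    rw [zpow_natCast, QuaternionGroup.a_one_pow, ZMod.natCast_zmod_val]

theorem rot_normal (n : ℕ) [NeZero n] : (Subgroup.zpowers (QuaternionGroup.a (1 : ZMod (2 * n)))).Normal := by
  constructor
  intro x hx g
  rw [mem_rot_iff] at hx ⊢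
  obtain ⟨i, rfl⟩ := hx
  cases g with
  | a j => exact ⟨j + i + -j, by rw [inv_a, QuaternionGroup.a_mul_a, QuaternionGroup.a_mul_a]⟩
  | xa j => exact ⟨_, by rw [inv_xa, QuaternionGroup.xa_mul_a, QuaternionGroup.xa_mul_xa]⟩

theorem two_mul_eq_zero_iff (n : ℕ) [NeZero n] (i : ZMod (2 * n)) :
    i + i = 0 → i = 0 ∨ i = (n : ZMod (2 * n)) := by
  have : NeZero (2 * n) := ⟨by have := NeZero.ne n; omega⟩
  intro h
  have h1 : ((i.val + i.val : ℕ) : ZMod (2 * n)) = 0 := by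
    push_cast
    rw [ZMod.natCast_zmod_val]
    exact h
  rw [ZMod.natCast_eq_zero_iff] at h1
  have hlt : i.val < 2 * n := ZMod.val_lt i
  obtain ⟨c, hc⟩ := h1
  have hn : 0 < n := Nat.pos_of_ne_zero (NeZero.ne n)
  have hc2 : c < 2 := by
    by_contra hcc
    push Not at hcc
    have : 2 * n * 2 ≤ 2 * n * c := Nat.mul_le_mul_left (2 * n) hcc
    omega
  interval_cases c
  · left
    have : i.val = 0 := by omega
    rw [← ZMod.natCast_zmod_val i, this]
    simp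
  · right
    have : i.val = n := by omega
    rw [← ZMod.natCast_zmod_val i, this]

theorem result (n : ℕ) [NeZero n] : Cfsg.HasCyclicSchurMultiplier (QuaternionGroup n) 1 := by
  apply trivial_of_forall_ker_eq_bot
  intro Γ _ _ σ hσ
  have := rot_normal n
  obtain ⟨ξ, hξ⟩ := hσ.1 (QuaternionGroup.xa 0)
  rw [eq_bot_iff]
  intro k hk
  have hgen : ∀ g : QuaternionGroup n, g ∈ Subgroup.zpowers (QuaternionGroup.a (1 : ZMod (2 * n))) ∨
      g * (σ ξ)⁻¹ ∈ Subgroup.zpowers (QuaternionGroup.a (1 : ZMod (2 * n))) := by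
    intro g
    rw [hξ]
    cases g with
    | a j => left; rw [mem_rot_iff]; exact ⟨j, rfl⟩
    | xa j => right; rw [mem_rot_iff]; exact ⟨_, by rw [inv_xa, QuaternionGroup.xa_mul_xa]⟩
  obtain ⟨b, hb, hkb⟩ := stem_ker_form σ hσ (Subgroup.zpowers (QuaternionGroup.a (1 : ZMod (2 * n)))) ξ hgen k hk
  rw [mem_rot_iff] at hb
  obtain ⟨i, hi⟩ := hb
  have h1 : σ k = 1 := hk
  rw [hkb, map_mul, map_mul, map_mul, map_inv, map_inv, hi, hξ, inv_a, inv_xa,
    QuaternionGroup.a_mul_xa, QuaternionGroup.xa_mul_a, QuaternionGroup.xa_mul_xa,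
    QuaternionGroup.one_def] at h1
  have h2 : (n : ZMod (2 * n)) + (n + 0) - (0 - i + -i) = 0 := by
    injection h1
  have h3 : i + i = 0 := by
    have e : (n : ZMod (2 * n)) + (n + 0) - (0 - i + -i) = (n + n) + (i + i) := by ring
    rw [e, two_n_zero, zero_add] at h2
    exact h2
  rcases two_mul_eq_zero_iff n i h3 with h4 | h4
  · have hbk : b ∈ σ.ker := by
      rw [MonoidHom.mem_ker, hi, h4, QuaternionGroup.a_zero]
    have hbc := hσ.2.1 hbk
    rw [Subgroup.mem_center_iff] at hbc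
    rw [Subgroup.mem_bot, hkb, ← hbc ξ]
    group
  · have hbk : b * (ξ ^ 2)⁻¹ ∈ σ.ker := by
      rw [MonoidHom.mem_ker, map_mul, map_inv, map_pow, hi, h4, hξ, QuaternionGroup.xa_sq, mul_inv_cancel]
    have hbc := hσ.2.1 hbk
    rw [Subgroup.mem_center_iff] at hbc
    rw [Subgroup.mem_bot, hkb]
    have e : b * ξ * b⁻¹ * ξ⁻¹ = (b * (ξ ^ 2)⁻¹) * ξ * (b * (ξ ^ 2)⁻¹)⁻¹ * ξ⁻¹ := by group
    rw [e, ← hbc ξ]
    group

end Cfsg.Agent.S3963
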