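import Mathlib
import Cfsg.Statements.S3967
import Cfsg.Agent.Lib.Helper21.SchurBasic
import Cfsg.Agent.Lib.Helper21.SchurBasic2
import Cfsg.Agent.Lib.Helper21.SchurCover

set_option autoImplicit false
open Cfsg

namespace Cfsg.Agent.S3967

open Finset
open Cfsg.Agent.Lib.Helper21.SchurBasic Cfsg.Agent.Lib.Helper21.SchurBasic2
open Cfsg.Agent.Lib.Helper21.SchurCover


theorem geo (b n : ℕ) (hb : 0 < b) : (b - 1) * (∑ i ∈ range n, b ^ i) + 1 = b ^ n := by
  induction n with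
  | zero => simp
  | succ n ih =>
    rw [Finset.sum_range_succ, mul_add, pow_succ]
    have h1 : b - 1 + 1 = b := Nat.sub_add_cancel hb
    calc (b - 1) * ∑ i ∈ range n, b ^ i + (b - 1) * b ^ n + 1
        = ((b - 1) * ∑ i ∈ range n, b ^ i + 1) + (b - 1) * b ^ n := by ring
      _ = b ^ n + (b - 1) * b ^ n := by rw [ih]
      _ = (b - 1 + 1) * b ^ n := by ring
      _ = b ^ n * b := by rw [h1]; ring

/-- divisibility facts -/
theorem nt1 (m n r : ℕ) (hr : 0 < r) (hrn : r ^ n ≡ 1 [MOD m]) :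
    m ∣ Nat.gcd m (r - 1) * Nat.gcd m (∑ i ∈ range n, r ^ i) := by
  rw [Nat.dvd_gcd_mul_gcd_iff_dvd_mul]
  have h1 : 1 ≤ r ^ n := Nat.one_le_pow _ _ hr
  have h2 : m ∣ r ^ n - 1 := (Nat.modEq_iff_dvd' h1).mp hrn.symm
  have h3 := geo r n hr
  have h4 : (r - 1) * (∑ i ∈ range n, r ^ i) = r ^ n - 1 := by omega
  rw [h4]
  exact h2

theorem exists_v (x y k : ℕ) (hk : 0 < k) (hxy : Nat.Coprime y x) :
    ∃ v : ℕ, Nat.Coprime (x + v * y) k := by
  refine ⟨∏ p ∈ k.primeFactors.filter (fun p => ¬ p ∣ x), p, ?_⟩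
  apply Nat.Coprime.symm
  apply Nat.coprime_of_dvd
  intro p hp hpk hdiv
  by_cases hpx : p ∣ x
  · -- p ∣ x, so p ∤ v and p ∤ y
    have h1 : p ∣ (∏ p ∈ k.primeFactors.filter (fun p => ¬ p ∣ x), p) * y :=
      (Nat.dvd_add_right hpx).mp hdiv
    rcases (Nat.Prime.dvd_mul hp).mp h1 with h2 | h2
    · rw [Prime.dvd_finsetProd_iff hp.prime] at h2
      obtain ⟨a, ha, hpa⟩ := h2
      rw [Finset.mem_filter, Nat.mem_primeFactors] at ha
      have : p = a := (Nat.prime_dvd_prime_iff_eq hp ha.1.1).mp hpa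
      rw [← this] at ha
      exact ha.2 hpx
    · have h3 : p ∣ Nat.gcd y x := Nat.dvd_gcd h2 hpx
      rw [Nat.Coprime.gcd_eq_one hxy] at h3
      exact hp.one_lt.ne' (Nat.dvd_one.mp h3)
  · have h1 : p ∣ ∏ p ∈ k.primeFactors.filter (fun p => ¬ p ∣ x), p := by
      apply Finset.dvd_prod_of_mem (fun p => p)
      rw [Finset.mem_filter, Nat.mem_primeFactors]
      exact ⟨⟨hp, hpk, hk.ne'⟩, hpx⟩
    have h2 : p ∣ (∏ p ∈ k.primeFactors.filter (fun p => ¬ p ∣ x), p) * y := Dvd.dvd.mul_right h1 y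
    exact hpx ((Nat.dvd_add_left h2).mp hdiv)



section EEsec

variable (M : ℕ) (u : (ZMod M)ˣ)

def autE : MulAut (Multiplicative (ZMod M)) where
  toFun x := Multiplicative.ofAdd ((u : ZMod M) * Multiplicative.toAdd x)
  invFun x := Multiplicative.ofAdd ((↑u⁻¹ : ZMod M) * Multiplicative.toAdd x)
  left_inv x := by
    show Multiplicative.ofAdd ((↑u⁻¹ : ZMod M) * ((u : ZMod M) * Multiplicative.toAdd x)) = x
    rw [← mul_assoc, Units.inv_mul, one_mul]
    rfl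
  right_inv x := by
    show Multiplicative.ofAdd ((u : ZMod M) * ((↑u⁻¹ : ZMod M) * Multiplicative.toAdd x)) = x
    rw [← mul_assoc, Units.mul_inv, one_mul]
    rfl
  map_mul' x y := by
    show Multiplicative.ofAdd ((u : ZMod M) * (Multiplicative.toAdd x + Multiplicative.toAdd y)) = _
    rw [mul_add]
    rfl

noncomputable def phiE : Multiplicative ℤ →* MulAut (Multiplicative (ZMod M)) :=
  zpowersHom _ (autE M u)

abbrev EE := Multiplicative (ZMod M) ⋊[phiE M u] Multiplicative ℤ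

noncomputable def al : EE M u := SemidirectProduct.inl (Multiplicative.ofAdd 1)
noncomputable def be : EE M u := SemidirectProduct.inr (Multiplicative.ofAdd 1)

theorem al_pow (j : ℕ) :
    al M u ^ j = SemidirectProduct.inl (Multiplicative.ofAdd (j : ZMod M)) := by
  rw [al, ← map_pow, ← ofAdd_nsmul, nsmul_one]

theorem be_zpow (i : ℤ) :
    be M u ^ i = SemidirectProduct.inr (Multiplicative.ofAdd i) := by
  rw [be, ← map_zpow, ← ofAdd_zsmul, smul_eq_mul, mul_one]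

theorem phiE_one : phiE M u (Multiplicative.ofAdd 1) = autE M u := by
  rw [phiE, zpowersHom_apply, toAdd_ofAdd, zpow_one]

theorem be_conj (ρ : ℕ) (hρ : (ρ : ZMod M) = u) :
    be M u * al M u * (be M u)⁻¹ = al M u ^ ρ := by
  rw [al_pow, be, al, ← map_inv, ← SemidirectProduct.inl_aut, phiE_one]
  congr 1
  show Multiplicative.ofAdd ((u : ZMod M) * 1) = _
  rw [mul_one, hρ]

theorem orderOf_al : orderOf (al M u) = M := by
  rw [al, orderOf_injective _ SemidirectProduct.inl_injective, orderOf_ofAdd_eq_addOrderOf,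
    ZMod.addOrderOf_one]

theorem al_pow_eq_one_iff (j : ℕ) : al M u ^ j = 1 ↔ M ∣ j := by
  rw [← orderOf_dvd_iff_pow_eq_one, orderOf_al]

theorem rightHom_al : SemidirectProduct.rightHom (al M u) = 1 := by
  rw [al, SemidirectProduct.rightHom_inl]

theorem rightHom_be : SemidirectProduct.rightHom (be M u) = Multiplicative.ofAdd 1 := by
  rw [be, SemidirectProduct.rightHom_inr]

theorem decomp [NeZero M] (e : EE M u) :
    e = al M u ^ (Multiplicative.toAdd e.left).val * be M u ^ (Multiplicative.toAdd e.right) := by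
  rw [al_pow, be_zpow, ZMod.natCast_zmod_val]
  exact (SemidirectProduct.inl_left_mul_inr_right e).symm

theorem mem_center [NeZero M] (x : EE M u) (h1 : x * al M u = al M u * x)
    (h2 : x * be M u = be M u * x) : x ∈ Subgroup.center (EE M u) := by
  rw [Subgroup.mem_center_iff]
  intro g
  rw [decomp M u g]
  have c1 : Commute x (al M u) := h1
  have c2 : Commute x (be M u) := h2
  exact ((c1.pow_right _).mul_right (c2.zpow_right _)).eq.symm

theorem conj_pow_pow {G : Type*} [Group G] (x y : G) (ρ : ℕ) (h : y * x * y⁻¹ = x ^ ρ) (j : ℕ) :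
    y ^ j * x * (y ^ j)⁻¹ = x ^ (ρ ^ j) := by
  induction j with
  | zero => simp
  | succ j ih =>
    have e : y ^ (j + 1) * x * (y ^ (j + 1))⁻¹ = y * (y ^ j * x * (y ^ j)⁻¹) * y⁻¹ := by
      rw [pow_succ']
      group
    rw [e, ih, ← conj_pow, h, ← pow_mul, pow_succ, mul_comm]

/-- `al ^ t` is fixed under conjugation by `be` when `M ∣ (ρ - 1) * t`. -/
theorem be_conj_al_pow (ρ : ℕ) (hρ : (ρ : ZMod M) = u) (hρpos : 0 < ρ) (t : ℕ)
    (h : M ∣ (ρ - 1) * t) : be M u * al M u ^ t * (be M u)⁻¹ = al M u ^ t := by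
  rw [← conj_pow, be_conj M u ρ hρ, ← pow_mul]
  have e : ρ * t = (ρ - 1) * t + t := by
    have h1 : ρ - 1 + 1 = ρ := Nat.sub_add_cancel hρpos
    calc ρ * t = (ρ - 1 + 1) * t := by rw [h1]
      _ = (ρ - 1) * t + t := by ring
  rw [e, pow_add, (al_pow_eq_one_iff M u _).mpr h, one_mul]

theorem al_pow_central [NeZero M] (ρ : ℕ) (hρ : (ρ : ZMod M) = u) (hρpos : 0 < ρ) (t : ℕ)
    (h : M ∣ (ρ - 1) * t) : al M u ^ t ∈ Subgroup.center (EE M u) := by
  apply mem_center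
  · exact (Commute.pow_left (Commute.refl (al M u)) t).eq
  · have := be_conj_al_pow M u ρ hρ hρpos t h
    rw [mul_inv_eq_iff_eq_mul] at this
    exact this.symm

theorem w_central [NeZero M] (ρ : ℕ) (hρ : (ρ : ZMod M) = u) (hρpos : 0 < ρ) (n t : ℕ)
    (h1 : M ∣ ρ ^ n - 1) (h2 : M ∣ (ρ - 1) * t) :
    be M u ^ n * (al M u ^ t)⁻¹ ∈ Subgroup.center (EE M u) := by
  apply mem_center
  · -- commutes with al
    have h3 := conj_pow_pow (al M u) (be M u) ρ (be_conj M u ρ hρ) n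
    have e : ρ ^ n = (ρ ^ n - 1) + 1 := (Nat.sub_add_cancel (Nat.one_le_pow _ _ hρpos)).symm
    rw [e, pow_add, (al_pow_eq_one_iff M u _).mpr h1, one_mul, pow_one, mul_inv_eq_iff_eq_mul] at h3
    have c1 : Commute (be M u ^ n) (al M u) := h3
    have c2 : Commute ((al M u ^ t)⁻¹) (al M u) :=
      (Commute.pow_left (Commute.refl (al M u)) t).inv_left
    exact (c1.mul_left c2).eq
  · -- commutes with be
    have h3 := be_conj_al_pow M u ρ hρ hρpos t h2
    rw [mul_inv_eq_iff_eq_mul] at h3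
    have c1 : Commute (be M u ^ n) (be M u) := Commute.pow_left (Commute.refl _) n
    have c2 : Commute ((al M u ^ t)⁻¹) (be M u) := (Commute.inv_left (h3.symm))
    exact (c1.mul_left c2).eq

end EEsec

theorem closure_pair_form {E : Type*} [Group E] (p q : E) (hpq : Commute p q) :
    ∀ e ∈ Subgroup.closure ({p, q} : Set E), ∃ s t : ℤ, e = p ^ s * q ^ t := by
  intro e he
  induction he using Subgroup.closure_induction with
  | mem x hx =>
    rcases hx with rfl | rfl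
    · exact ⟨1, 0, by simp⟩
    · exact ⟨0, 1, by simp⟩
  | one => exact ⟨0, 0, by simp⟩
  | mul x y _ _ hx hy =>
    obtain ⟨s, t, rfl⟩ := hx
    obtain ⟨s', t', rfl⟩ := hy
    refine ⟨s + s', t + t', ?_⟩
    have hc : q ^ t * p ^ s' = p ^ s' * q ^ t := ((hpq.zpow_zpow s' t).eq).symm
    calc p ^ s * q ^ t * (p ^ s' * q ^ t') = p ^ s * (q ^ t * p ^ s') * q ^ t' := by group
      _ = p ^ s * (p ^ s' * q ^ t) * q ^ t' := by rw [hc]
      _ = p ^ (s + s') * q ^ (t + t') := by rw [zpow_add, zpow_add]; group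
  | inv x _ hx =>
    obtain ⟨s, t, rfl⟩ := hx
    refine ⟨-s, -t, ?_⟩
    have hc : (p ^ s)⁻¹ * (q ^ t)⁻¹ = (q ^ t)⁻¹ * (p ^ s)⁻¹ := ((hpq.zpow_zpow s t).inv_inv).eq
    rw [mul_inv_rev, ← hc, zpow_neg, zpow_neg]



theorem upper {G : Type*} [Group G] (a b : G) (m n r l : ℕ) (hm : 0 < m) (hr : 0 < r)
    (h1 : a ^ m = 1) (h2 : b ^ n = a ^ (m * l / Nat.gcd m (r - 1))) (h3 : b * a * b⁻¹ = a ^ r)
    (C : Subgroup G) [C.Normal] [IsCyclic C] (hC : ∀ g ∈ C, ∃ j : ℕ, g = a ^ j) (haC : a ∈ C)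
    (hgen : ∀ g : G, ∃ i : ℕ, g * (b ^ i)⁻¹ ∈ C) (hord : ∀ j : ℕ, a ^ j = 1 → m ∣ j)
    (hmdg : m ∣ Nat.gcd m (r - 1) * Nat.gcd m (∑ i ∈ range n, r ^ i))
    {Γ : Type*} [Group Γ] (σ : Γ →* G) (hσ : Cfsg.IsStemExtension σ) :
    IsCyclic σ.ker ∧ ∀ z ∈ σ.ker,
      z ^ (Nat.gcd l (Nat.gcd m (r - 1) * Nat.gcd m (∑ i ∈ range n, r ^ i) / m)) = 1 := by
  classical
  have hcop0 := Nat.coprime_div_gcd_div_gcd (Nat.gcd_pos_of_pos_left (r - 1) hm)
  obtain ⟨d, hd⟩ : ∃ d, d = Nat.gcd m (r - 1) := ⟨_, rfl⟩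
  rw [← hd] at h2 hmdg hcop0 ⊢
  have hdpos : 0 < d := by rw [hd]; exact Nat.gcd_pos_of_pos_left _ hm
  obtain ⟨y₀, hmd⟩ : ∃ y₀, m = d * y₀ := by rw [hd]; exact Nat.gcd_dvd_left m (r - 1)
  obtain ⟨x₀, hrd⟩ : ∃ x₀, r - 1 = d * x₀ := by rw [hd]; exact Nat.gcd_dvd_right m (r - 1)
  have hcop : Nat.Coprime y₀ x₀ := by
    rw [hmd, hrd, Nat.mul_div_cancel_left _ hdpos, Nat.mul_div_cancel_left _ hdpos] at hcop0
    exact hcop0
  obtain ⟨S, hS0⟩ : ∃ S, S = ∑ i ∈ range n, r ^ i := ⟨_, rfl⟩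
  rw [← hS0] at hmdg ⊢
  have ht' : m * l / d = y₀ * l := by
    rw [hmd, mul_assoc, Nat.mul_div_cancel_left _ hdpos]
  rw [ht'] at h2
  obtain ⟨x, hx⟩ := hσ.1 a
  obtain ⟨y, hy⟩ := hσ.1 b
  have hA := comm_of_comap_cyclic σ hσ.2.1 C
  have hAn : (C.comap σ).Normal := inferInstance
  obtain ⟨τ, hτ⟩ : ∃ τ : Γ → Γ, ∀ w, τ w = w * y * w⁻¹ * y⁻¹ := ⟨fun w => w * y * w⁻¹ * y⁻¹, fun _ => rfl⟩
  have hconjA : ∀ w ∈ C.comap σ, y * w * y⁻¹ ∈ C.comap σ := fun w hw => hAn.conj_mem w hw y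
  have hτmul : ∀ p ∈ C.comap σ, ∀ q ∈ C.comap σ, τ (p * q) = τ p * τ q := by
    intro p hp q hq
    have hp' : y * p⁻¹ * y⁻¹ ∈ C.comap σ := hconjA _ (inv_mem hp)
    have hq' : y * q⁻¹ * y⁻¹ ∈ C.comap σ := hconjA _ (inv_mem hq)
    have e1 : τ (p * q) = p * (q * ((y * q⁻¹ * y⁻¹) * (y * p⁻¹ * y⁻¹))) := by
      rw [hτ]; group
    have e2 : τ p * τ q = p * ((y * p⁻¹ * y⁻¹) * (q * (y * q⁻¹ * y⁻¹))) := by
      rw [hτ, hτ]; group
    rw [e1, e2, hA _ hq' _ hp', ← mul_assoc q (y * p⁻¹ * y⁻¹) (y * q⁻¹ * y⁻¹), hA q hq _ hp',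
      mul_assoc (y * p⁻¹ * y⁻¹) q (y * q⁻¹ * y⁻¹)]
  have hτpow : ∀ p ∈ C.comap σ, ∀ j : ℕ, τ (p ^ j) = τ p ^ j := by
    intro p hp j
    induction j with
    | zero => rw [hτ]; group
    | succ j ih => rw [pow_succ, hτmul _ (pow_mem hp j) _ hp, ih, pow_succ]
  have hτz : ∀ p : Γ, ∀ z ∈ σ.ker, τ (p * z) = τ p := by
    intro p z hz
    have hc := hσ.2.1 hz
    rw [Subgroup.mem_center_iff] at hc
    rw [hτ, hτ]
    have e : p * z * y * (p * z)⁻¹ * y⁻¹ = p * (z * y) * z⁻¹ * p⁻¹ * y⁻¹ := by group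
    rw [e, ← hc y]
    group
  have hxA : x ∈ C.comap σ := by rw [Subgroup.mem_comap, hx]; exact haC
  obtain ⟨c₀, hc₀⟩ : ∃ c, c = τ x := ⟨_, rfl⟩
  have hform : ∀ z ∈ σ.ker, ∃ j : ℕ, z = c₀ ^ j := by
    intro z hz
    have hgen' : ∀ g : G, ∃ i : ℕ, g * (σ y ^ i)⁻¹ ∈ C := by rw [hy]; exact hgen
    obtain ⟨b', hb', hzb⟩ := stem_ker_form_pow σ hσ C y hgen' z hz
    obtain ⟨j, hj⟩ := hC _ hb'
    refine ⟨j, ?_⟩
    have hk : (x ^ j)⁻¹ * b' ∈ σ.ker := by
      rw [MonoidHom.mem_ker, map_mul, map_inv, map_pow, hx, hj, inv_mul_cancel]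
    have e : b' = x ^ j * ((x ^ j)⁻¹ * b') := by group
    rw [hzb, ← hτ, e, hτz _ _ hk, hτpow x hxA j, hc₀]
  have hσc : σ c₀ = a * (a ^ r)⁻¹ := by
    rw [hc₀, hτ, map_mul, map_mul, map_mul, map_inv, map_inv, hx, hy, ← h3]
    group
  have hσcpow : ∀ j : ℕ, σ (c₀ ^ j) = a ^ j * (a ^ (r * j))⁻¹ := by
    intro j
    rw [map_pow, hσc]
    have hcm : Commute a (a ^ r)⁻¹ := (Commute.pow_right (Commute.refl a) r).inv_right
    rw [hcm.mul_pow, inv_pow, ← pow_mul]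
  have hr1 : r - 1 + 1 = r := Nat.sub_add_cancel hr
  have hdiv : ∀ j : ℕ, c₀ ^ j ∈ σ.ker → y₀ ∣ j := by
    intro j hj
    rw [MonoidHom.mem_ker, hσcpow, mul_inv_eq_one] at hj
    have h5 : r * j = (r - 1) * j + j := by
      calc r * j = (r - 1 + 1) * j := by rw [hr1]
        _ = (r - 1) * j + j := by ring
    rw [h5, pow_add] at hj
    have h6 : a ^ ((r - 1) * j) = 1 := by
      calc a ^ ((r - 1) * j) = a ^ ((r - 1) * j) * a ^ j * (a ^ j)⁻¹ := by group
        _ = a ^ j * (a ^ j)⁻¹ := by rw [← hj]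
        _ = 1 := mul_inv_cancel _
    have h7 := hord _ h6
    rw [hmd, hrd, mul_assoc] at h7
    have h8 : y₀ ∣ x₀ * j := Nat.dvd_of_mul_dvd_mul_left hdpos h7
    exact hcop.dvd_of_dvd_mul_left h8
  have hw₀ : c₀ ^ y₀ ∈ σ.ker := by
    rw [MonoidHom.mem_ker, hσcpow, mul_inv_eq_one]
    have h5 : r * y₀ = m * x₀ + y₀ := by
      calc r * y₀ = (r - 1 + 1) * y₀ := by rw [hr1]
        _ = (r - 1) * y₀ + y₀ := by ring
        _ = d * x₀ * y₀ + y₀ := by rw [hrd]
        _ = d * y₀ * x₀ + y₀ := by ring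
        _ = m * x₀ + y₀ := by rw [← hmd]
    rw [h5, pow_add, pow_mul, h1, one_pow, one_mul]
  have hform2 : ∀ z ∈ σ.ker, ∃ j : ℕ, z = (c₀ ^ y₀) ^ j := by
    intro z hz
    obtain ⟨j, rfl⟩ := hform z hz
    obtain ⟨j', rfl⟩ := hdiv j hz
    exact ⟨j', pow_mul _ _ _⟩
  refine ⟨⟨⟨⟨c₀ ^ y₀, hw₀⟩, fun z => ?_⟩⟩, ?_⟩
  · obtain ⟨j, hj⟩ := hform2 z.1 z.2
    refine ⟨(j : ℤ), ?_⟩
    apply Subtype.ext
    simp only [zpow_natCast, Subgroup.coe_pow]
    exact hj.symm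
  · have hxm : x ^ m ∈ σ.ker := by rw [MonoidHom.mem_ker, map_pow, hx, h1]
    have hcm : c₀ ^ m = 1 := by
      rw [hc₀, ← hτpow x hxA m]
      have := hτz 1 _ hxm
      rw [one_mul] at this
      rw [this, hτ]
      group
    have hyn : y ^ n ∈ C.comap σ := by
      rw [Subgroup.mem_comap, map_pow, hy, h2]
      exact pow_mem haC _
    have hct : c₀ ^ (y₀ * l) = 1 := by
      have hk : (x ^ (y₀ * l))⁻¹ * y ^ n ∈ σ.ker := by
        rw [MonoidHom.mem_ker, map_mul, map_inv, map_pow, map_pow, hx, hy, h2, inv_mul_cancel]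
      have e : y ^ n = x ^ (y₀ * l) * ((x ^ (y₀ * l))⁻¹ * y ^ n) := by group
      have h9 : τ (y ^ n) = 1 := by
        rw [hτ]; group
      rw [e, hτz _ _ hk, hτpow x hxA, ← hc₀] at h9
      exact h9
    have hκx : y * x * y⁻¹ = c₀⁻¹ * x := by
      rw [hc₀, hτ]
      group
    have hκc : y * c₀ * y⁻¹ = c₀ ^ r := by
      have hk : (x ^ r)⁻¹ * (y * x * y⁻¹) ∈ σ.ker := by
        rw [MonoidHom.mem_ker, map_mul, map_inv, map_pow, map_mul, map_mul, map_inv, hx, hy, h3,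
          inv_mul_cancel]
      have e : y * x * y⁻¹ = x ^ r * ((x ^ r)⁻¹ * (y * x * y⁻¹)) := by group
      have h10 : τ (y * x * y⁻¹) = y * c₀ * y⁻¹ := by
        rw [hc₀, hτ, hτ]
        group
      rw [← h10, e, hτz _ _ hk, hτpow x hxA, hc₀]
    have hSj : ∀ j : ℕ, y ^ j * x * (y ^ j)⁻¹ = (c₀ ^ (∑ i ∈ range j, r ^ i))⁻¹ * x := by
      intro j
      induction j with
      | zero => simp
      | succ j ih =>
        have e : y ^ (j + 1) * x * (y ^ (j + 1))⁻¹ = y * (y ^ j * x * (y ^ j)⁻¹) * y⁻¹ := by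
          rw [pow_succ']; group
        have e2 : y * ((c₀ ^ (∑ i ∈ range j, r ^ i))⁻¹ * x) * y⁻¹ =
            ((y * c₀ * y⁻¹) ^ (∑ i ∈ range j, r ^ i))⁻¹ * (y * x * y⁻¹) := by
          rw [conj_pow]; group
        have e3 : ∑ i ∈ range (j + 1), r ^ i = r * (∑ i ∈ range j, r ^ i) + 1 := by
          rw [Finset.sum_range_succ', Finset.mul_sum]
          simp [pow_succ, mul_comm]
        rw [e, ih, e2, hκc, hκx, e3, ← pow_mul, pow_succ', mul_inv_rev, mul_assoc]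
    have hcS : c₀ ^ S = 1 := by
      have h11 := hSj n
      have h12 : y ^ n * x = x * y ^ n := hA _ hyn _ hxA
      rw [h12, mul_inv_cancel_right, ← hS0] at h11
      have h13 : (c₀ ^ S)⁻¹ = 1 := by
        calc (c₀ ^ S)⁻¹ = ((c₀ ^ S)⁻¹ * x) * x⁻¹ := by group
          _ = x * x⁻¹ := by rw [← h11]
          _ = 1 := mul_inv_cancel x
      exact inv_eq_one.mp h13
    have hcg : c₀ ^ (Nat.gcd m S) = 1 := pow_gcd_eq_one.mpr ⟨hcm, hcS⟩
    have hh : y₀ * (d * Nat.gcd m S / m) = Nat.gcd m S := by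
      obtain ⟨h', hh'⟩ := hmdg
      rw [hh', Nat.mul_div_cancel_left _ hm]
      have : d * (y₀ * h') = d * Nat.gcd m S := by rw [← mul_assoc, ← hmd, ← hh']
      exact Nat.eq_of_mul_eq_mul_left hdpos this
    have hwl : (c₀ ^ y₀) ^ l = 1 := by rw [← pow_mul]; exact hct
    have hwh : (c₀ ^ y₀) ^ (d * Nat.gcd m S / m) = 1 := by rw [← pow_mul, hh]; exact hcg
    have hwk : (c₀ ^ y₀) ^ (Nat.gcd l (d * Nat.gcd m S / m)) = 1 := pow_gcd_eq_one.mpr ⟨hwl, hwh⟩
    intro z hz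
    obtain ⟨j, rfl⟩ := hform2 z hz
    rw [← pow_mul, mul_comm, pow_mul, hwk, one_pow]


abbrev rels (m n r l : ℕ) : Set (FreeGroup Bool) :=
  {FreeGroup.of true ^ m, (FreeGroup.of false) ^ n * (FreeGroup.of true ^ (m * l / Nat.gcd m (r - 1)))⁻¹, FreeGroup.of false * FreeGroup.of true * (FreeGroup.of false)⁻¹ * (FreeGroup.of true ^ r)⁻¹}

def powHom {G : Type*} [Group G] (a : G) (M : ℕ) [NeZero M] (haM : a ^ M = 1) :
    Multiplicative (ZMod M) →* G where
  toFun x := a ^ (Multiplicative.toAdd x).val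
  map_one' := by
    show a ^ (0 : ZMod M).val = 1
    rw [ZMod.val_zero, pow_zero]
  map_mul' := by
    intro x y
    show a ^ (Multiplicative.toAdd x + Multiplicative.toAdd y).val =
      a ^ (Multiplicative.toAdd x).val * a ^ (Multiplicative.toAdd y).val
    rw [ZMod.val_add, ← pow_add]
    exact (pow_eq_pow_mod _ haM).symm

theorem powHom_apply {G : Type*} [Group G] (a : G) (M : ℕ) [NeZero M] (haM : a ^ M = 1)
    (x : Multiplicative (ZMod M)) : powHom a M haM x = a ^ (Multiplicative.toAdd x).val := rfl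

theorem exists_pi {G : Type*} [Group G] (a b : G) (M : ℕ) [NeZero M] (u : (ZMod M)ˣ)
    (ρ r m v : ℕ) (hu : ((ρ : ℕ) : ZMod M) = u) (hρ : ρ = m * v + r) (ham : a ^ m = 1)
    (haM : a ^ M = 1) (hba : b * a * b⁻¹ = a ^ r) :
    ∃ π : EE M u →* G, π (al M u) = a ∧ π (be M u) = b := by
  have hP1 : ∀ x : Multiplicative (ZMod M),
      powHom a M haM (autE M u x) = b * powHom a M haM x * b⁻¹ := by
    intro x
    show a ^ ((u : ZMod M) * Multiplicative.toAdd x).val = b * a ^ (Multiplicative.toAdd x).val * b⁻¹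
    rw [← conj_pow, hba, ← pow_mul]
    have e1 : ((u : ZMod M) * Multiplicative.toAdd x).val =
        (ρ * (Multiplicative.toAdd x).val) % M := by
      rw [← ZMod.val_natCast, Nat.cast_mul, ZMod.natCast_zmod_val, hu]
    rw [e1, ← pow_eq_pow_mod _ haM, hρ, add_mul, pow_add, mul_assoc, pow_mul a m, ham, one_pow,
      one_mul]
  have hmul : ∀ g g' : Multiplicative ℤ,
      (∀ x, powHom a M haM (phiE M u g x) = zpowersHom G b g * powHom a M haM x * (zpowersHom G b g)⁻¹) →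
      (∀ x, powHom a M haM (phiE M u g' x) = zpowersHom G b g' * powHom a M haM x * (zpowersHom G b g')⁻¹) →
      ∀ x, powHom a M haM (phiE M u (g * g') x) =
        zpowersHom G b (g * g') * powHom a M haM x * (zpowersHom G b (g * g'))⁻¹ := by
    intro g g' h h' x
    rw [map_mul, MulAut.mul_apply, h, h', map_mul]
    group
  have hinv : ∀ g : Multiplicative ℤ,
      (∀ x, powHom a M haM (phiE M u g x) = zpowersHom G b g * powHom a M haM x * (zpowersHom G b g)⁻¹) →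
      ∀ x, powHom a M haM (phiE M u g⁻¹ x) =
        zpowersHom G b g⁻¹ * powHom a M haM x * (zpowersHom G b g⁻¹)⁻¹ := by
    intro g h x
    have h0 := h (phiE M u g⁻¹ x)
    have e : phiE M u g (phiE M u g⁻¹ x) = x := by
      rw [map_inv]
      exact MulAut.apply_inv_self _ _ _
    rw [e] at h0
    rw [map_inv (zpowersHom G b), h0]
    group
  have hb1 : zpowersHom G b (Multiplicative.ofAdd 1) = b := by
    rw [zpowersHom_apply, toAdd_ofAdd, zpow_one]
  have hgen1 : ∀ x, powHom a M haM (phiE M u (Multiplicative.ofAdd 1) x) =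
      zpowersHom G b (Multiplicative.ofAdd 1) * powHom a M haM x *
        (zpowersHom G b (Multiplicative.ofAdd 1))⁻¹ := by
    intro x
    rw [phiE_one, hb1]
    exact hP1 x
  have hall : ∀ i : ℤ, ∀ x, powHom a M haM (phiE M u (Multiplicative.ofAdd i) x) =
      zpowersHom G b (Multiplicative.ofAdd i) * powHom a M haM x *
        (zpowersHom G b (Multiplicative.ofAdd i))⁻¹ := by
    intro i
    induction i using Int.induction_on with
    | zero =>
      intro x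
      rw [ofAdd_zero, map_one, map_one]
      simp
    | succ i ih =>
      rw [ofAdd_add]
      exact hmul _ _ ih hgen1
    | pred i ih =>
      rw [sub_eq_add_neg, ofAdd_add, ofAdd_neg]
      exact hmul _ _ ih (hinv _ hgen1)
  have hcompat : ∀ g : Multiplicative ℤ,
      (powHom a M haM).comp (MulEquiv.toMonoidHom (phiE M u g)) =
        (MulEquiv.toMonoidHom (MulAut.conj (zpowersHom G b g))).comp (powHom a M haM) := by
    intro g
    ext x
    exact hall (Multiplicative.toAdd g) x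
  refine ⟨SemidirectProduct.lift (powHom a M haM) (zpowersHom G b) hcompat, ?_, ?_⟩
  · rw [al, SemidirectProduct.lift_inl, powHom_apply, toAdd_ofAdd, ZMod.val_one_eq_one_mod,
      ← pow_eq_pow_mod _ haM, pow_one]
  · rw [be, SemidirectProduct.lift_inr, hb1]

theorem exists_psi {Q : Type*} [Group Q] (m n r l : ℕ) (A B : Q) (h1 : A ^ m = 1)
    (h2 : B ^ n * (A ^ (m * l / Nat.gcd m (r - 1)))⁻¹ = 1) (h3 : B * A * B⁻¹ * (A ^ r)⁻¹ = 1) :
    ∃ ψ : PresentedGroup (rels m n r l) →* Q,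
      ψ (PresentedGroup.of true) = A ∧ ψ (PresentedGroup.of false) = B := by
  have hf : ∀ rel ∈ rels m n r l, FreeGroup.lift (fun x : Bool => if x then A else B) rel = 1 := by
    intro rel hrel
    rcases hrel with rfl | rfl | rfl
    · simp only [map_pow, FreeGroup.lift_apply_of]
      exact h1
    · simp only [map_pow, map_mul, map_inv, FreeGroup.lift_apply_of]
      exact h2
    · simp only [map_pow, map_mul, map_inv, FreeGroup.lift_apply_of]
      exact h3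
  exact ⟨PresentedGroup.toGroup hf, PresentedGroup.toGroup.of hf, PresentedGroup.toGroup.of hf⟩

theorem main (m n r l : ℕ) (hm : 0 < m) (hn : 0 < n) (hr : 0 < r) (hrn : r ^ n ≡ 1 [MOD m]) :
    Cfsg.HasCyclicSchurMultiplier (PresentedGroup (rels m n r l))
      (Nat.gcd l (Nat.gcd m (r - 1) * Nat.gcd m (∑ i ∈ Finset.range n, r ^ i) / m)) := by
  classical
  -- number theory
  have hmdg := nt1 m n r hr hrn
  obtain ⟨k, hk0⟩ : ∃ k, k = Nat.gcd l (Nat.gcd m (r - 1) * Nat.gcd m (∑ i ∈ range n, r ^ i) / m) :=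
    ⟨_, rfl⟩
  rw [← hk0]
  have hcop0 := Nat.coprime_div_gcd_div_gcd (Nat.gcd_pos_of_pos_left (r - 1) hm)
  obtain ⟨d, hd⟩ : ∃ d, d = Nat.gcd m (r - 1) := ⟨_, rfl⟩
  obtain ⟨S, hS0⟩ : ∃ S, S = ∑ i ∈ range n, r ^ i := ⟨_, rfl⟩
  have hdpos : 0 < d := by rw [hd]; exact Nat.gcd_pos_of_pos_left _ hm
  obtain ⟨y₀, hmd⟩ : ∃ y₀, m = d * y₀ := by rw [hd]; exact Nat.gcd_dvd_left m (r - 1)
  obtain ⟨x₀, hrd⟩ : ∃ x₀, r - 1 = d * x₀ := by rw [hd]; exact Nat.gcd_dvd_right m (r - 1)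
  have hcop : Nat.Coprime y₀ x₀ := by
    rw [← hd] at hcop0
    rw [hmd, hrd, Nat.mul_div_cancel_left _ hdpos, Nat.mul_div_cancel_left _ hdpos] at hcop0
    exact hcop0
  have hy₀pos : 0 < y₀ := by
    rcases Nat.eq_zero_or_pos y₀ with h | h
    · rw [h, mul_zero] at hmd
      omega
    · exact h
  obtain ⟨h, hh⟩ := id hmdg
  rw [← hd, ← hS0] at hh
  have hk1 : k = Nat.gcd l h := by
    rw [hk0, ← hd, ← hS0, hh, Nat.mul_div_cancel_left _ hm]
  have hyh : y₀ * h = Nat.gcd m S := by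
    have : d * (y₀ * h) = d * Nat.gcd m S := by rw [← mul_assoc, ← hmd, ← hh]
    exact Nat.eq_of_mul_eq_mul_left hdpos this
  have hgpos : 0 < Nat.gcd m S := Nat.gcd_pos_of_pos_left _ hm
  have hhpos : 0 < h := by
    rcases Nat.eq_zero_or_pos h with h0 | h0
    · rw [h0, mul_zero] at hyh
      omega
    · exact h0
  have hkpos : 0 < k := by rw [hk1]; exact Nat.gcd_pos_of_pos_right _ hhpos
  have hkl : k ∣ l := by rw [hk1]; exact Nat.gcd_dvd_left _ _
  have hkh : k ∣ h := by rw [hk1]; exact Nat.gcd_dvd_right _ _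
  have hhd : h ∣ d := by
    have h1 : y₀ * h ∣ y₀ * d := by
      rw [hyh, mul_comm y₀ d, ← hmd]
      exact Nat.gcd_dvd_left _ _
    exact Nat.dvd_of_mul_dvd_mul_left hy₀pos h1
  have hkd : k ∣ d := hkh.trans hhd
  obtain ⟨v, hv⟩ := exists_v x₀ y₀ k hkpos hcop
  obtain ⟨q, hq⟩ : ∃ q, q = x₀ + v * y₀ := ⟨_, rfl⟩
  rw [← hq] at hv
  obtain ⟨ρ, hρ⟩ : ∃ ρ, ρ = m * v + r := ⟨_, rfl⟩
  have hρpos : 0 < ρ := by rw [hρ]; omega
  have hρ1 : ρ - 1 = d * q := by
    rw [hρ, Nat.add_sub_assoc hr, hrd, hmd, hq]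
    ring
  obtain ⟨M, hM⟩ : ∃ M, M = m * k := ⟨_, rfl⟩
  have hMne : NeZero M := ⟨by rw [hM]; exact (Nat.mul_pos hm hkpos).ne'⟩
  have hρm : (ρ : ZMod m) = (r : ZMod m) := by
    rw [hρ]
    push_cast
    rw [ZMod.natCast_self, zero_mul, zero_add]
  have hMρ : M ∣ ρ ^ n - 1 := by
    have hg := geo ρ n hρpos
    have e1 : ρ ^ n - 1 = (ρ - 1) * ∑ i ∈ range n, ρ ^ i := by
      rw [← hg]
      exact Nat.add_sub_cancel _ _
    have hmod : (∑ i ∈ range n, ρ ^ i) ≡ S [MOD m] := by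
      rw [← ZMod.natCast_eq_natCast_iff, hS0]
      push_cast
      rw [hρm]
    have hgcd : Nat.gcd m (∑ i ∈ range n, ρ ^ i) = Nat.gcd m S := by
      rw [Nat.gcd_comm, hmod.gcd_eq, Nat.gcd_comm]
    rw [e1, hρ1, hM]
    obtain ⟨k', hk'⟩ := hkh
    have h2 : m * k ∣ d * Nat.gcd m (∑ i ∈ range n, ρ ^ i) := by
      rw [hgcd, hh, hk']
      exact ⟨k', by ring⟩
    have h3 : d * Nat.gcd m (∑ i ∈ range n, ρ ^ i) ∣ d * q * ∑ i ∈ range n, ρ ^ i := by
      exact (Nat.mul_dvd_mul_left d (Nat.gcd_dvd_right m _)).trans ⟨q, by ring⟩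
    exact h2.trans h3
  have hρn : ((ρ : ℕ) : ZMod M) ^ n = 1 := by
    have h1 : ((ρ ^ n : ℕ) : ZMod M) = ((1 : ℕ) : ZMod M) :=
      (ZMod.natCast_eq_natCast_iff _ _ M).mpr ((Nat.modEq_iff_dvd' (Nat.one_le_pow _ _ hρpos)).mpr hMρ).symm
    push_cast at h1
    exact h1
  obtain ⟨u, hu⟩ : ∃ u : (ZMod M)ˣ, ((ρ : ℕ) : ZMod M) = u :=
    ⟨Units.ofPowEqOne _ n hρn hn.ne', rfl⟩
  have hM1 : M ∣ (ρ - 1) * m := by
    rw [hρ1, hM]
    obtain ⟨d', hd'⟩ := hkd
    rw [hd']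
    exact ⟨d' * q, by ring⟩
  have ht' : m * l / Nat.gcd m (r - 1) = y₀ * l := by
    rw [← hd, hmd, mul_assoc, Nat.mul_div_cancel_left _ hdpos]
  have hM2 : M ∣ (ρ - 1) * (m * l / Nat.gcd m (r - 1)) := by
    rw [ht', hρ1, hM]
    obtain ⟨l', hl'⟩ := hkl
    rw [hl', hmd]
    exact ⟨q * l', by ring⟩
  have hqm : (ρ - 1) * y₀ = q * m := by
    rw [hρ1, hmd]
    ring
  obtain ⟨t, ht⟩ : ∃ t, t = m * l / Nat.gcd m (r - 1) := ⟨_, rfl⟩
  rw [← ht] at ht' hM2
  -- the extension E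
  have hβα := be_conj M u ρ hu
  have hαm_c : al M u ^ m ∈ Subgroup.center (EE M u) := al_pow_central M u ρ hu hρpos m hM1
  have hw_c : be M u ^ n * (al M u ^ t)⁻¹ ∈ Subgroup.center (EE M u) :=
    w_central M u ρ hu hρpos n t hMρ hM2
  -- the presented group
  obtain ⟨a, haeq⟩ : ∃ a : PresentedGroup (rels m n r l), a = PresentedGroup.of true := ⟨_, rfl⟩
  obtain ⟨b, hbeq⟩ : ∃ b : PresentedGroup (rels m n r l), b = PresentedGroup.of false := ⟨_, rfl⟩
  have ha : a ^ m = 1 := by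
    have := PresentedGroup.one_of_mem (rels := rels m n r l) (x := FreeGroup.of true ^ m)
      (Set.mem_insert _ _)
    rw [map_pow] at this
    rw [haeq]
    exact this
  have hb : b ^ n = a ^ t := by
    have := PresentedGroup.one_of_mem (rels := rels m n r l)
      (x := (FreeGroup.of false) ^ n * (FreeGroup.of true ^ (m * l / Nat.gcd m (r - 1)))⁻¹)
      (Set.mem_insert_of_mem _ (Set.mem_insert _ _))
    rw [map_mul, map_inv, map_pow, map_pow, mul_inv_eq_one] at this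
    rw [haeq, hbeq, ht]
    exact this
  have hba : b * a * b⁻¹ = a ^ r := by
    have := PresentedGroup.one_of_mem (rels := rels m n r l)
      (x := FreeGroup.of false * FreeGroup.of true * (FreeGroup.of false)⁻¹ * (FreeGroup.of true ^ r)⁻¹)
      (Set.mem_insert_of_mem _ (Set.mem_insert_of_mem _ (Set.mem_singleton _)))
    rw [map_mul, map_mul, map_mul, map_inv, map_inv, map_pow, mul_inv_eq_one] at this
    rw [haeq, hbeq]
    exact this
  have haM : a ^ M = 1 := by rw [hM, pow_mul, ha, one_pow]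
  obtain ⟨π, hπα, hπβ⟩ := exists_pi a b M u ρ r m v hu hρ ha haM hba
  have hπsurj : Function.Surjective π := by
    rw [← MonoidHom.range_eq_top, eq_top_iff, ← PresentedGroup.closure_range_of, Subgroup.closure_le]
    rintro _ ⟨x, rfl⟩
    cases x
    · exact ⟨be M u, by rw [hπβ, hbeq]⟩
    · exact ⟨al M u, by rw [hπα, haeq]⟩
  -- the model quotient
  obtain ⟨Z₀, hZ₀⟩ : ∃ Z : Subgroup (EE M u),
      Z = Subgroup.closure {al M u ^ m, be M u ^ n * (al M u ^ t)⁻¹} := ⟨_, rfl⟩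
  have hZ₀c : Z₀ ≤ Subgroup.center (EE M u) := by
    rw [hZ₀, Subgroup.closure_le]
    intro x hx
    rcases hx with rfl | rfl
    · exact hαm_c
    · exact hw_c
  have hZ₁ : al M u ^ m ∈ Z₀ := by
    rw [hZ₀]; exact Subgroup.subset_closure (Set.mem_insert _ _)
  have hZ₂ : be M u ^ n * (al M u ^ t)⁻¹ ∈ Z₀ := by
    rw [hZ₀]; exact Subgroup.subset_closure (Set.mem_insert_of_mem _ (Set.mem_singleton _))
  have hZ₀n : Z₀.Normal := ⟨fun x hx g => by
    have := hZ₀c hx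
    rw [Subgroup.mem_center_iff] at this
    rw [this g, mul_inv_cancel_right]
    exact hx⟩
  obtain ⟨ψ, hψa, hψb⟩ := exists_psi m n r l (QuotientGroup.mk (al M u) : EE M u ⧸ Z₀)
    (QuotientGroup.mk (be M u))
    (by rw [← QuotientGroup.mk_pow, QuotientGroup.eq_one_iff]; exact hZ₁)
    (by
      rw [← QuotientGroup.mk_pow, ← QuotientGroup.mk_pow, ← QuotientGroup.mk_inv,
        ← QuotientGroup.mk_mul, QuotientGroup.eq_one_iff, ← ht]
      exact hZ₂)
    (by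
      rw [← QuotientGroup.mk_pow, ← QuotientGroup.mk_inv, ← QuotientGroup.mk_inv,
        ← QuotientGroup.mk_mul, ← QuotientGroup.mk_mul, ← QuotientGroup.mk_mul,
        QuotientGroup.eq_one_iff, hβα, hρ, pow_add, mul_inv_cancel_right, pow_mul]
      exact Subgroup.pow_mem _ hZ₁ v)
  rw [← haeq] at hψa
  rw [← hbeq] at hψb
  have hψπ : ∀ e : EE M u, ψ (π e) = QuotientGroup.mk e := by
    intro e
    obtain ⟨i, z, rfl⟩ : ∃ i : ℕ, ∃ z : ℤ, e = al M u ^ i * be M u ^ z := ⟨_, _, decomp M u e⟩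
    rw [map_mul, map_pow, map_zpow, hπα, hπβ, map_mul, map_pow, map_zpow, hψa, hψb]
    rfl
  have hkerc : π.ker ≤ Subgroup.center (EE M u) := by
    intro e he
    apply hZ₀c
    rw [← QuotientGroup.eq_one_iff, ← hψπ, MonoidHom.mem_ker.mp he, map_one]
  have hw_right : SemidirectProduct.rightHom (be M u ^ n * (al M u ^ t)⁻¹) =
      Multiplicative.ofAdd (n : ℤ) := by
    rw [map_mul, map_inv, map_pow, map_pow, rightHom_be, rightHom_al, one_pow, inv_one, mul_one,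
      ← ofAdd_nsmul, nsmul_one]
  have hord : ∀ j : ℕ, a ^ j = 1 → m ∣ j := by
    intro j hj
    have h1 : (QuotientGroup.mk (al M u ^ j) : EE M u ⧸ Z₀) = 1 := by
      rw [QuotientGroup.mk_pow, ← hψa, ← map_pow, hj, map_one]
    rw [QuotientGroup.eq_one_iff, hZ₀] at h1
    have hcomm : Commute (al M u ^ m) (be M u ^ n * (al M u ^ t)⁻¹) := by
      have := hαm_c
      rw [Subgroup.mem_center_iff] at this
      exact (this _).symm
    obtain ⟨s, t', hst⟩ := closure_pair_form _ _ hcomm _ h1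
    have h2 := congrArg SemidirectProduct.rightHom hst
    rw [map_pow, rightHom_al, one_pow, map_mul, map_zpow, map_zpow, map_pow, rightHom_al, one_pow,
      one_zpow, one_mul, hw_right] at h2
    have h3 : t' = 0 := by
      have h4 : Multiplicative.toAdd ((Multiplicative.ofAdd (n : ℤ)) ^ t') = 0 := by
        rw [← h2]; rfl
      rw [toAdd_zpow, toAdd_ofAdd, smul_eq_mul] at h4
      rcases mul_eq_zero.mp h4 with h | h
      · exact h
      · exact absurd h (by exact_mod_cast hn.ne')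
    rw [h3, zpow_zero, mul_one, ← zpow_natCast, ← zpow_natCast, ← zpow_mul] at hst
    have h4 : al M u ^ ((j : ℤ) - (m : ℤ) * s) = 1 := by
      rw [zpow_sub, hst, mul_inv_cancel]
    rw [← orderOf_dvd_iff_zpow_eq_one, orderOf_al] at h4
    have h5 : (m : ℤ) ∣ (j : ℤ) := by
      have h6 : (m : ℤ) ∣ (M : ℤ) := ⟨k, by rw [hM]; push_cast; ring⟩
      have h7 := h6.trans h4
      have h8 : (m : ℤ) ∣ (m : ℤ) * s := dvd_mul_right _ _
      have h9 := dvd_add h7 h8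
      rwa [sub_add_cancel] at h9
    exact_mod_cast h5
  have hbN : b ^ (n * m) = 1 := by
    rw [pow_mul, hb, ← pow_mul, mul_comm, pow_mul, ha, one_pow]
  have hGform : ∀ g : PresentedGroup (rels m n r l), ∃ i j : ℕ, g = a ^ i * b ^ j := by
    intro g
    obtain ⟨e, rfl⟩ := hπsurj g
    obtain ⟨i, z, rfl⟩ : ∃ i : ℕ, ∃ z : ℤ, e = al M u ^ i * be M u ^ z := ⟨_, _, decomp M u e⟩
    refine ⟨i, (z % ((n * m : ℕ) : ℤ)).toNat, ?_⟩
    rw [map_mul, map_pow, map_zpow, hπα, hπβ]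
    congr 1
    have hbN' : b ^ (((n * m : ℕ)) : ℤ) = 1 := by rw [zpow_natCast, hbN]
    rw [zpow_eq_zpow_emod z hbN', ← zpow_natCast,
      Int.toNat_of_nonneg (Int.emod_nonneg _ (by exact_mod_cast (Nat.mul_pos hn hm).ne'))]
  have hGfin : Finite (PresentedGroup (rels m n r l)) := by
    apply Finite.of_surjective (fun p : Fin m × Fin (n * m) => a ^ (p.1 : ℕ) * b ^ (p.2 : ℕ))
    intro g
    obtain ⟨i, j, rfl⟩ := hGform g
    refine ⟨(⟨i % m, Nat.mod_lt _ hm⟩, ⟨j % (n * m), Nat.mod_lt _ (Nat.mul_pos hn hm)⟩), ?_⟩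
    show a ^ (i % m) * b ^ (j % (n * m)) = _
    rw [← pow_eq_pow_mod _ ha, ← pow_eq_pow_mod _ hbN]
  -- the cyclic normal subgroup generated by a
  have hrnorm : (SemidirectProduct.inl : Multiplicative (ZMod M) →* EE M u).range.Normal := by
    rw [SemidirectProduct.range_inl_eq_ker_rightHom]
    infer_instance
  obtain ⟨C, hCdef⟩ : ∃ C : Subgroup (PresentedGroup (rels m n r l)),
      C = (SemidirectProduct.inl : Multiplicative (ZMod M) →* EE M u).range.map π := ⟨_, rfl⟩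
  have hCn : C.Normal := by rw [hCdef]; exact hrnorm.map π hπsurj
  have hCmem : ∀ g ∈ C, ∃ j : ℕ, g = a ^ j := by
    intro g hg
    rw [hCdef] at hg
    obtain ⟨e, ⟨x, rfl⟩, rfl⟩ := hg
    refine ⟨(Multiplicative.toAdd x).val, ?_⟩
    rw [← hπα, ← map_pow, al_pow, ZMod.natCast_zmod_val]
    rfl
  have hapow : ∀ j : ℕ, a ^ j ∈ C := by
    intro j
    rw [hCdef]
    exact ⟨al M u ^ j, ⟨Multiplicative.ofAdd (j : ZMod M), (al_pow M u j).symm⟩,
      by rw [map_pow, hπα]⟩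
  have haC : a ∈ C := by
    have := hapow 1
    rwa [pow_one] at this
  have hCc : IsCyclic C := by
    refine ⟨⟨⟨a, haC⟩, fun g => ?_⟩⟩
    obtain ⟨j, hj⟩ := hCmem g.1 g.2
    refine ⟨(j : ℤ), ?_⟩
    apply Subtype.ext
    simp only [zpow_natCast, Subgroup.coe_pow]
    exact hj.symm
  have hgen : ∀ g : PresentedGroup (rels m n r l), ∃ i : ℕ, g * (b ^ i)⁻¹ ∈ C := by
    intro g
    obtain ⟨i, j, rfl⟩ := hGform g
    exact ⟨j, by rw [mul_inv_cancel_right]; exact hapow i⟩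
  -- upper bound on the multiplier
  have hb' : b ^ n = a ^ (m * l / Nat.gcd m (r - 1)) := by rw [← ht]; exact hb
  obtain ⟨⟨Γ₀, hg₀, hf₀, σ₀, hσ₀, ⟨e₀⟩⟩, _⟩ := hasSchurMultiplier_mult (PresentedGroup (rels m n r l))
  obtain ⟨hcyc₀, hexp₀⟩ := upper a b m n r l hm hr ha hb' hba C hCmem haC hgen hord hmdg σ₀ hσ₀
  rw [← hk0] at hexp₀
  have hcycM : IsCyclic (Mult (PresentedGroup (rels m n r l))) :=
    isCyclic_of_surjective e₀.toMonoidHom e₀.surjective
  have hexpM : ∀ x : Mult (PresentedGroup (rels m n r l)), x ^ k = 1 := by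
    intro x
    obtain ⟨z, rfl⟩ := e₀.surjective x
    rw [← map_pow]
    have hz : z ^ k = 1 := Subtype.ext (by rw [Subgroup.coe_pow]; exact hexp₀ z.1 z.2)
    rw [hz, map_one]
  have hdvd1 : Nat.card (Mult (PresentedGroup (rels m n r l))) ∣ k := by
    rw [← IsCyclic.exponent_eq_card]
    exact Monoid.exponent_dvd_of_forall_pow_eq_one hexpM
  -- lower bound
  obtain ⟨fM, hfM⟩ := surj_of_central π hπsurj hkerc
  have hcE : be M u * al M u * (be M u)⁻¹ * (al M u)⁻¹ = al M u ^ (ρ - 1) := by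
    rw [hβα]
    have e : ρ = (ρ - 1) + 1 := (Nat.sub_add_cancel hρpos).symm
    rw [e, pow_add, pow_one, mul_inv_cancel_right]
    simp
  have hx1 : (be M u * al M u * (be M u)⁻¹ * (al M u)⁻¹) ^ y₀ = al M u ^ (q * m) := by
    rw [hcE, ← pow_mul, hqm]
  have hx1mem : al M u ^ (q * m) ∈ π.ker ⊓ commutator (EE M u) := by
    refine Subgroup.mem_inf.mpr ⟨?_, ?_⟩
    · rw [MonoidHom.mem_ker, map_pow, hπα, mul_comm, pow_mul, ha, one_pow]
    · rw [← hx1]
      apply Subgroup.pow_mem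
      rw [← commutatorElement_def]
      exact Subgroup.commutator_mem_commutator (Subgroup.mem_top _) (Subgroup.mem_top _)
  obtain ⟨μ, hμ⟩ := (hfM _).mp hx1mem
  have hx1ord : ∀ j : ℕ, (al M u ^ (q * m)) ^ j = 1 → k ∣ j := by
    intro j hj
    rw [← pow_mul, al_pow_eq_one_iff, hM] at hj
    have h1 : m * k ∣ m * (q * j) := by
      have e : q * m * j = m * (q * j) := by ring
      rwa [e] at hj
    have h2 : k ∣ q * j := Nat.dvd_of_mul_dvd_mul_left hm h1
    exact (Nat.Coprime.symm hv).dvd_of_dvd_mul_left h2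
  have hdvd2 : k ∣ Nat.card (Mult (PresentedGroup (rels m n r l))) := by
    have h1 : orderOf (al M u ^ (q * m)) ∣ Nat.card (Mult (PresentedGroup (rels m n r l))) := by
      rw [← hμ]
      exact (orderOf_map_dvd fM μ).trans (orderOf_dvd_natCard μ)
    exact (hx1ord _ (pow_orderOf_eq_one _)).trans h1
  have hcard : Nat.card (Mult (PresentedGroup (rels m n r l))) = k := Nat.dvd_antisymm hdvd1 hdvd2
  have hfin := hasSchurMultiplier_congr (hasSchurMultiplier_mult (PresentedGroup (rels m n r l)))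
    (zmodCyclicMulEquiv hcycM).symm
  rw [hcard] at hfin
  exact hfin

/-- Let `m, n ≥ 1`, `r ≥ 1` with `r ^ n ≡ 1 (mod m)`, and `l` a natural number; put `d = gcd(m, r - 1)`, `t = m l / d` and `h = d · gcd(m, 1 + r + ⋯ + r^(n-1)) / m`. The group presented by generators `a, b` and relations `a ^ m = 1`, `b ^ n = a ^ t`, `b a b⁻¹ = a ^ r` (a metacyclic group of order `m n`) has Schur multiplier cyclic of order `gcd(l, h)`. -/
theorem result (m n r l : ℕ) (hm : 0 < m) (hn : 0 < n) (hr : 0 < r) (hrn : r ^ n ≡ 1 [MOD m]) : Cfsg.HasCyclicSchurMultiplier (PresentedGroup ({FreeGroup.of true ^ m, (FreeGroup.of false) ^ n * (FreeGroup.of true ^ (m * l / Nat.gcd m (r - 1)))⁻¹, FreeGroup.of false * FreeGroup.of true * (FreeGroup.of false)⁻¹ * (FreeGroup.of true ^ r)⁻¹} : Set (FreeGroup Bool))) (Nat.gcd l (Nat.gcd m (r - 1) * Nat.gcd m (∑ i ∈ Finset.range n, r ^ i) / m)) := by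
  exact main m n r l hm hn hr hrn

end Cfsg.Agent.S3967
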