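import Mathlib
import Cfsg.Statements.S3968
import Cfsg.Agent.Lib.Helper1.CharMisc

set_option autoImplicit false
open Cfsg

namespace Cfsg.Agent.S3968

open Cfsg.Agent.Lib.Helper1 Representation Module
open scoped ComplexConjugate

/-- Let `p` be a prime and `G` a finite group with a faithful irreducible complex character of degree `p` (so `G` is an irreducible linear group in `p` variables). If `p ^ 2` divides the order of `G`, then the centre of `G` is nontrivial. -/
theorem result {G : Type*} [Group G] [Finite G] (p : ℕ) (hp : p.Prime) (χ : Cfsg.IrrCharacter G) (hdeg : χ.1 1 = p) (hfaith : ∀ g : G, χ.1 g = χ.1 1 → g = 1) (hdiv : p ^ 2 ∣ Nat.card G) : Subgroup.center G ≠ ⊥ := by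
  intro hZ
  haveI : Fact p.Prime := ⟨hp⟩
  classical
  haveI : Fintype G := Fintype.ofFinite G
  obtain ⟨n, ρ, hirr, hchar⟩ := χ.2
  haveI := hirr
  have hfin : Module.finrank ℂ (Fin n → ℂ) = n := by simp
  have hn : n = p := by
    have h1 : ρ.character 1 = (n : ℂ) := by rw [Representation.char_one, hfin]
    rw [hchar, hdeg] at h1
    exact_mod_cast h1.symm
  have hfinp : Module.finrank ℂ (Fin n → ℂ) = p := hfin.trans hn
  have hker : ∀ g : G, ρ g = LinearMap.id → g = 1 := by
    intro g hg
    apply hfaith g
    rw [← hchar, (char_eq_finrank_iff ρ g).mpr hg, Representation.char_one]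
  have hscalar : ∀ x : G,
      (∃ ω : ℂ, ρ x = ω • (LinearMap.id : (Fin n → ℂ) →ₗ[ℂ] (Fin n → ℂ))) → x = 1 := by
    rintro x ⟨ω, hω⟩
    have hcen : x ∈ Subgroup.center G := by
      rw [Subgroup.mem_center_iff]
      intro g
      have h1 : ρ (g * x * (x * g)⁻¹) = LinearMap.id := by
        have e1 : ρ (g * x) = ρ (x * g) := by
          rw [map_mul, map_mul, hω]
          ext v
          simp
        have e2 : g * x * (x * g)⁻¹ = 1 → True := fun _ => trivial
        rw [map_mul, e1, ← map_mul, mul_inv_cancel, map_one]
        rfl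
      have h2 := hker _ h1
      exact mul_inv_eq_one.mp h2
    rw [hZ, Subgroup.mem_bot] at hcen
    exact hcen
  let P : Sylow p G := default
  have hPcard : p ^ 2 ∣ Nat.card P := P.pow_dvd_card_of_pow_dvd_card hdiv
  have hPpos : 0 < Nat.card P := Nat.card_pos
  have hPge : p ^ 2 ≤ Nat.card P := Nat.le_of_dvd hPpos hPcard
  haveI : Fintype (P : Subgroup G) := Fintype.ofFinite _
  let σ : Representation ℂ (P : Subgroup G) (Fin n → ℂ) := ρ.comp (P : Subgroup G).subtype
  haveI hVnt : Nontrivial (Fin n → ℂ) := nontrivial_of_isIrreducible ρ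
  obtain ⟨W, W', hW, hc⟩ := exists_irreducible_isCompl σ
  haveI := hW
  have hdvd := degree_dvd_card W.toRepresentation
  have hle : Module.finrank ℂ W.toSubmodule ≤ Module.finrank ℂ (Fin n → ℂ) := Submodule.finrank_le _
  obtain ⟨k, hk⟩ := IsPGroup.iff_card.mp P.2
  rw [hk] at hdvd
  obtain ⟨j, hj, hWj⟩ := (Nat.dvd_prime_pow hp).mp hdvd
  rcases j with _ | j
  · -- all of `P` commutes
    rw [pow_zero] at hWj
    have hlt := finrank_lt_of_isCompl_irreducible hW hc
    have hcomm : ∀ a b : (P : Subgroup G), σ a * σ b = σ b * σ a := by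
      intro a b
      have h1 := end_commute_of_finrank_one hWj (W.toRepresentation a) (W.toRepresentation b)
      have h2 := commute_of_small_degree W'.toRepresentation (by
        intro q hq hqd
        rw [hk] at hqd
        have : q = p := (Nat.prime_dvd_prime_iff_eq hq hp).mp (hq.dvd_of_dvd_pow hqd)
        have h' : Module.finrank ℂ W'.toSubmodule < p := hfinp ▸ hlt
        rw [this]
        exact h') a b
      have hcs := subrep_toSubmodule_isCompl hc
      refine LinearMap.ext (fun v => ?_)
      have hv : v ∈ W.toSubmodule ⊔ W'.toSubmodule := by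
        rw [hcs.sup_eq_top]; trivial
      obtain ⟨w, hw, w', hw', rfl⟩ := Submodule.mem_sup.mp hv
      simp only [Module.End.mul_apply, map_add]
      have e1 := congrArg Subtype.val (LinearMap.congr_fun h1 ⟨w, hw⟩)
      have e2 := congrArg Subtype.val (LinearMap.congr_fun h2 ⟨w', hw'⟩)
      simp only [Module.End.mul_apply] at e1 e2
      have e1' : σ a (σ b w) = σ b (σ a w) := e1
      have e2' : σ a (σ b w') = σ b (σ a w') := e2
      rw [e1', e2']
    have hPab : ∀ a b : G, a ∈ (P : Subgroup G) → b ∈ (P : Subgroup G) → a * b = b * a := by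
      intro a b ha hb
      have h1 : ρ (a * b * (b * a)⁻¹) = LinearMap.id := by
        have e1 : ρ (a * b) = ρ (b * a) := by
          rw [map_mul, map_mul]
          exact hcomm ⟨a, ha⟩ ⟨b, hb⟩
        rw [map_mul, e1, ← map_mul, mul_inv_cancel, map_one]
        rfl
      exact mul_inv_eq_one.mp (hker _ h1)
    have hvanish : ∀ x : (P : Subgroup G), x ≠ 1 → ρ.character (x : G) = 0 := by
      intro x hx
      have hcent : (P : Subgroup G) ≤ Subgroup.centralizer ({(x : G)} : Set G) := by
        intro y hy
        rw [Subgroup.mem_centralizer_singleton_iff]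
        exact hPab y x hy x.2
      have hidx : ¬ p ∣ (Subgroup.centralizer ({(x : G)} : Set G)).index := by
        intro hd
        exact P.not_dvd_index (hd.trans (Subgroup.index_dvd_of_le hcent))
      have hcop : Nat.Coprime (Module.finrank ℂ (Fin n → ℂ))
          (Subgroup.centralizer ({(x : G)} : Set G)).index := by
        rw [hfinp]
        exact (Nat.Prime.coprime_iff_not_dvd hp).mpr hidx
      rcases char_zero_or_norm_of_coprime ρ (x : G) hcop with h | h
      · exact h
      · exfalso
        apply hx
        apply Subtype.ext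
        exact hscalar _ ((norm_char_eq_iff ρ (x : G)).mp h)
    have hinner := classInner_restrict_one ρ (P : Subgroup G)
    have hsum : ∑ x : (P : Subgroup G), ρ.character (x : G) * conj ((fun _ => (1 : ℂ)) x) = (p : ℂ) := by
      rw [Finset.sum_eq_single (1 : (P : Subgroup G))]
      · simp only [map_one, mul_one]
        have : ρ.character ((1 : (P : Subgroup G)) : G) = ρ.character 1 := rfl
        rw [this, Representation.char_one, hfinp]
      · intro x _ hx
        rw [hvanish x hx, zero_mul]
      · intro h
        exact absurd (Finset.mem_univ _) h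
    unfold Cfsg.classInner at hinner
    rw [hsum] at hinner
    set d := Module.finrank ℂ (invariants (ρ.comp (P : Subgroup G).subtype)) with hd
    have hne : (Nat.card (P : Subgroup G) : ℂ) ≠ 0 := by exact_mod_cast hPpos.ne'
    have hnat : (p : ℂ) = (d : ℂ) * (Nat.card (P : Subgroup G) : ℂ) := by
      rw [← hinner]
      field_simp
    have hnat' : p = d * Nat.card (P : Subgroup G) := by exact_mod_cast hnat
    have h3 : Nat.card (P : Subgroup G) ∣ p := Dvd.intro_left d hnat'.symm
    have h4 : Nat.card (P : Subgroup G) ≤ p := Nat.le_of_dvd hp.pos h3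
    have h5 : p ^ 2 ≤ p := hPge.trans h4
    have h6 := hp.one_lt
    nlinarith
  · -- `W` is everything
    have h1 : p ≤ p ^ (j + 1) := by
      calc p = p ^ 1 := (pow_one p).symm
        _ ≤ p ^ (j + 1) := Nat.pow_le_pow_right hp.pos (by omega)
    have hWfull : Module.finrank ℂ W.toSubmodule = Module.finrank ℂ (Fin n → ℂ) := by
      rw [hfinp] at hle ⊢
      omega
    have hWtop : W.toSubmodule = ⊤ := Submodule.eq_top_of_finrank_eq hWfull
    haveI : Nontrivial (P : Subgroup G) := by
      rw [← Finite.one_lt_card_iff_nontrivial]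
      have := hp.one_lt
      nlinarith
    have hcnt : Nontrivial (Subgroup.center (P : Subgroup G)) := P.2.center_nontrivial
    obtain ⟨⟨z, hz⟩, hz1⟩ := exists_ne (1 : Subgroup.center (P : Subgroup G))
    obtain ⟨lam, hlam, -⟩ := central_scalar W.toRepresentation hz
    have hzG : (z : G) = 1 := by
      apply hscalar
      refine ⟨lam, ?_⟩
      refine LinearMap.ext (fun v => ?_)
      have hv : v ∈ W.toSubmodule := by rw [hWtop]; trivial
      have e1 := congrArg Subtype.val (LinearMap.congr_fun hlam ⟨v, hv⟩)
      have e1' : σ z v = lam • v := e1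
      exact e1'
    apply hz1
    apply Subtype.ext
    apply Subtype.ext
    exact hzG

end Cfsg.Agent.S3968
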