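import Mathlib
import Cfsg.Statements.S3969
import Cfsg.Agent.Lib.Helper21.CoprimeAut

set_option autoImplicit false
open Cfsg

namespace Cfsg.Agent.S3969

open Cfsg.Agent.Lib.Helper21.CoprimeAut
open scoped IsMulCommutative

/-- Let `P` be an abelian Sylow `p`-subgroup of the finite group `G`, generated by `d` elements (`d` its minimal number of generators). If the order of `G` is coprime to `(p - 1)(p ^ 2 - 1) ⋯ (p ^ d - 1)`, then `G` has a normal `p`-complement. (The classical statement needs only the largest number of cyclic factors of `P` of equal order in place of `d`; the form here follows from it.) -/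
theorem result {G : Type*} [Group G] [Finite G] (p : ℕ) [Fact p.Prime] (P : Sylow p G) (hab : IsMulCommutative (P : Subgroup G)) (hcop : Nat.Coprime (Nat.card G) (∏ i ∈ Finset.Icc 1 (Group.rank (P : Subgroup G)), (p ^ i - 1))) : Cfsg.HasNormalPComplement p G := by
  have hp := (Fact.out : p.Prime)
  have key : Subgroup.normalizer ((P : Subgroup G) : Set G) ≤
      Subgroup.centralizer ((P : Subgroup G) : Set G) := by
    set φ := (P : Subgroup G).normalizerMonoidHom with hφ
    by_contra hcon
    have hker : φ.ker = (Subgroup.centralizer ((P : Subgroup G) : Set G)).subgroupOf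
        (Subgroup.normalizer ((P : Subgroup G) : Set G)) := Subgroup.normalizerMonoidHom_ker _
    have hrange : Nat.card φ.range ≠ 1 := by
      intro h1
      rw [← Subgroup.index_ker, Subgroup.index_eq_one, hker, Subgroup.subgroupOf_eq_top] at h1
      exact hcon h1
    obtain ⟨q, hq, hqdvd⟩ := Nat.exists_prime_and_dvd hrange
    have : Fact q.Prime := ⟨hq⟩
    obtain ⟨a, ha⟩ := exists_prime_orderOf_dvd_card' q hqdvd
    have hα : orderOf (a : MulAut (P : Subgroup G)) = q := by
      rw [Subgroup.orderOf_coe]; exact ha
    have hqG : q ∣ Nat.card G :=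
      (hqdvd.trans (Subgroup.card_range_dvd φ)).trans (Subgroup.card_subgroup_dvd_card _)
    have hqp : q ≠ p := by
      rintro rfl
      have h1 : (P : Subgroup G).subgroupOf (Subgroup.normalizer ((P : Subgroup G) : Set G)) ≤
          φ.ker := by
        rw [hker]
        intro x hx
        rw [Subgroup.mem_subgroupOf] at hx ⊢
        rw [Subgroup.mem_centralizer_iff]
        intro y hy
        exact congrArg Subtype.val (hab.is_comm.comm ⟨y, hy⟩ ⟨x.1, hx⟩)
      have h2 := Subgroup.index_dvd_of_le h1
      rw [Subgroup.index_ker] at h2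
      have h3 : ((P : Subgroup G).subgroupOf
          (Subgroup.normalizer ((P : Subgroup G) : Set G))).index ∣ (P : Subgroup G).index := by
        have h4 := Subgroup.relIndex_mul_index (Subgroup.le_normalizer (H := (P : Subgroup G)))
        exact Dvd.intro _ h4
      exact P.not_dvd_index (hqdvd.trans (h2.trans h3))
    obtain ⟨i, hi1, hi2, hi3⟩ :=
      exists_dvd_pow_sub_one (P.isPGroup') (a : MulAut (P : Subgroup G)) q hqp hα
    have h4 : q ∣ ∏ i ∈ Finset.Icc 1 (Group.rank (P : Subgroup G)), (p ^ i - 1) :=
      hi3.trans (Finset.dvd_prod_of_mem _ (Finset.mem_Icc.mpr ⟨hi1, hi2⟩))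
    have h5 := Nat.dvd_gcd hqG h4
    rw [hcop.gcd_eq_one] at h5
    exact hq.one_lt.ne' (Nat.dvd_one.mp h5)
  exact ⟨P, (MonoidHom.transferSylow P key).ker, inferInstance,
    MonoidHom.ker_transferSylow_isComplement' P key⟩

end Cfsg.Agent.S3969
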