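-- Statement S3970: solvability from small abelian Sylow subgroups (via Burnside transfer).
import Mathlib
import Cfsg.Statements.S3970
import Cfsg.Agent.S3969

set_option autoImplicit false
open Cfsg

namespace Cfsg.Agent.S3970

universe u

theorem npc {G : Type u} [Group G] [Finite G] (n : ℕ) (hn : Nat.card G = n) (h1 : n ≠ 1)
    (h12 : ¬ 12 ∣ n) (P : Sylow n.minFac G)
    (hPc : IsMulCommutative (P : Subgroup G)) (hPr : Group.rank (P : Subgroup G) ≤ 2) :
    Cfsg.HasNormalPComplement n.minFac G := by
  have hn0 : n ≠ 0 := by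
    rw [← hn]; exact Nat.card_pos.ne'
  have hpp : n.minFac.Prime := Nat.minFac_prime h1
  haveI : Fact n.minFac.Prime := ⟨hpp⟩
  have hpn : n.minFac ∣ n := Nat.minFac_dvd n
  have hmin : ∀ r : ℕ, r.Prime → r ∣ n → n.minFac ≤ r :=
    fun r hr hrn => Nat.minFac_le_of_dvd hr.two_le hrn
  by_cases h23 : n.minFac = 2 ∧ 3 ∣ n
  · obtain ⟨hp2, h3⟩ := h23
    have h4 : ¬ 4 ∣ n := fun h4 =>
      h12 (Nat.Coprime.mul_dvd_of_dvd_of_dvd (by norm_num : Nat.Coprime 4 3) h4 h3)
    have hc := P.card_eq_multiplicity
    rw [hn] at hc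
    have hk1 : n.factorization n.minFac = 1 := by
      rw [hp2]
      have hge : 1 ≤ n.factorization 2 :=
        (Nat.Prime.dvd_iff_one_le_factorization Nat.prime_two hn0).mp (hp2 ▸ hpn)
      have hlt : ¬ 2 ≤ n.factorization 2 := fun h2 =>
        h4 ((Nat.Prime.pow_dvd_iff_le_factorization Nat.prime_two hn0).mpr h2)
      omega
    rw [hk1, pow_one] at hc
    have hcyc : IsCyclic (P : Subgroup G) := isCyclic_of_prime_card hc
    have hminfac : (Nat.card G).minFac = n.minFac := by rw [hn]
    exact ⟨P, _, inferInstance, IsCyclic.isComplement' hminfac hcyc⟩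
  · apply Cfsg.Agent.S3969.result n.minFac P hPc
    rw [hn]
    by_contra hc
    obtain ⟨r, hr, hrn, hrprod⟩ := Nat.Prime.not_coprime_iff_dvd.mp hc
    obtain ⟨i, hi, hri⟩ := (Prime.dvd_finset_prod_iff (Nat.Prime.prime hr) _).mp hrprod
    rw [Finset.mem_Icc] at hi
    have hi2 : i ≤ 2 := hi.2.trans hPr
    have hpr : n.minFac ≤ r := hmin r hr hrn
    have hp2 : 2 ≤ n.minFac := hpp.two_le
    have hsub1 : ¬ r ∣ n.minFac - 1 := by
      intro hd
      have := Nat.le_of_dvd (by omega) hd
      omega
    have hi12 : i = 1 ∨ i = 2 := by omega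
    rcases hi12 with rfl | rfl
    · rw [pow_one] at hri
      exact hsub1 hri
    · have hsq : n.minFac ^ 2 - 1 = (n.minFac + 1) * (n.minFac - 1) := by
        have := Nat.sq_sub_sq n.minFac 1
        rwa [one_pow] at this
      rw [hsq] at hri
      rcases (Nat.Prime.dvd_mul hr).mp hri with hd | hd
      · have hle := Nat.le_of_dvd (by omega) hd
        have hreq : r = n.minFac ∨ r = n.minFac + 1 := by omega
        rcases hreq with hreq | hreq
        · rw [hreq] at hd
          have : n.minFac ∣ 1 := (Nat.dvd_add_right (dvd_refl _)).mp hd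
          exact hpp.one_lt.ne' (Nat.dvd_one.mp this)
        · rcases hpp.eq_two_or_odd with hp2' | hodd
          · apply h23
            refine ⟨hp2', ?_⟩
            have : r = 3 := by omega
            rw [← this]; exact hrn
          · have h2r : 2 ∣ r := by omega
            have := (Nat.prime_dvd_prime_iff_eq Nat.prime_two hr).mp h2r
            omega
      · exact hsub1 hd

theorem main (n : ℕ) : ∀ (G : Type u) [Group G] [Finite G], Nat.card G = n →
    (∀ p : ℕ, p.Prime → p ∣ Nat.card G → (∃ q : ℕ, q.Prime ∧ q ∣ Nat.card G ∧ p < q) →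
      ∀ P : Sylow p G, IsMulCommutative (P : Subgroup G) ∧ Group.rank (P : Subgroup G) ≤ 2) →
    ¬ 12 ∣ Nat.card G → Group.IsSolvable G := by
  induction n using Nat.strong_induction_on with
  | _ n ih =>
  intro G _ _ hn h h12
  by_cases h1 : n = 1
  · have hsub : Subsingleton G := (Nat.card_eq_one_iff_unique.mp (hn.trans h1)).1
    infer_instance
  have hn0 : n ≠ 0 := by
    rw [← hn]; exact Nat.card_pos.ne'
  have hpp : n.minFac.Prime := Nat.minFac_prime h1
  haveI : Fact n.minFac.Prime := ⟨hpp⟩
  have hpn : n.minFac ∣ n := Nat.minFac_dvd n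
  have hmin : ∀ r : ℕ, r.Prime → r ∣ n → n.minFac ≤ r :=
    fun r hr hrn => Nat.minFac_le_of_dvd hr.two_le hrn
  by_cases hpg : IsPGroup n.minFac G
  · haveI := hpg.isNilpotent
    infer_instance
  have hq : ∃ q : ℕ, q.Prime ∧ q ∣ Nat.card G ∧ n.minFac < q := by
    by_contra hcon
    apply hpg
    rw [IsPGroup.iff_card, hn]
    refine ⟨_, Nat.eq_prime_pow_of_unique_prime_dvd hn0 (fun {d} hd hdn => ?_)⟩
    by_contra hne
    exact hcon ⟨d, hd, hn ▸ hdn, lt_of_le_of_ne (hmin d hd hdn) (Ne.symm hne)⟩
  obtain P : Sylow n.minFac G := default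
  have hP := h n.minFac hpp (hn ▸ hpn) hq P
  obtain ⟨P₀, K, hKn, hKc⟩ := npc n hn h1 (hn ▸ h12) P hP.1 hP.2
  haveI := hKn
  have hcardK : Nat.card K * Nat.card (P₀ : Subgroup G) = n := hn ▸ hKc.card_mul
  have hP₀card := P₀.card_eq_multiplicity
  rw [hn] at hP₀card
  have hfpos : 0 < n.factorization n.minFac :=
    (Nat.Prime.dvd_iff_one_le_factorization hpp hn0).mp hpn
  have hP₀ : 1 < Nat.card (P₀ : Subgroup G) := by
    rw [hP₀card]
    exact Nat.one_lt_pow hfpos.ne' hpp.one_lt
  have hKpos : 0 < Nat.card K := Nat.card_pos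
  have hKlt : Nat.card K < n := by
    rw [← hcardK]
    exact lt_mul_of_one_lt_right hKpos hP₀
  have hpK : ¬ n.minFac ∣ Nat.card K := by
    have h2 := P₀.not_dvd_index
    have h3 : (P₀ : Subgroup G).index = Nat.card K := hKc.index_eq_card
    rwa [h3] at h2
  have hKsol : Group.IsSolvable K := by
    apply ih (Nat.card K) hKlt K rfl
    · rintro r hr hrK ⟨q, hq, hqK, hrq⟩ R
      haveI : Fact r.Prime := ⟨hr⟩
      have hKG : Nat.card K ∣ Nat.card G := Subgroup.card_subgroup_dvd_card K
      have hR' := h r hr (hrK.trans hKG) ⟨q, hq, hqK.trans hKG, hrq⟩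
      obtain ⟨R', hRR'⟩ := IsPGroup.exists_le_sylow (R.2.map K.subtype)
      obtain ⟨hR'c, hR'r⟩ := hR' R'
      have hrp : r ≠ n.minFac := by
        rintro rfl
        exact hpK hrK
      have hcard1 : Nat.card ((R : Subgroup K).map K.subtype) = Nat.card (R : Subgroup K) :=
        Subgroup.card_map_of_injective K.subtype_injective
      have hcard2 : Nat.card (R : Subgroup K) = Nat.card (R' : Subgroup G) := by
        rw [R.card_eq_multiplicity, R'.card_eq_multiplicity, hn, ← hcardK, hP₀card]
        congr 1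
        rw [Nat.factorization_mul hKpos.ne' (pow_ne_zero _ hpp.ne_zero), Nat.factorization_pow,
          Nat.Prime.factorization hpp]
        simp [Finsupp.single_apply, Ne.symm hrp]
      have heq : (R : Subgroup K).map K.subtype = (R' : Subgroup G) :=
        Subgroup.eq_of_le_of_card_ge hRR' (by rw [hcard1, hcard2])
      constructor
      · refine ⟨⟨fun a b => ?_⟩⟩
        have ha : (a.1 : G) ∈ (R' : Subgroup G) := hRR' (Subgroup.mem_map_of_mem _ a.2)
        have hb : (b.1 : G) ∈ (R' : Subgroup G) := hRR' (Subgroup.mem_map_of_mem _ b.2)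
        have hcomm := hR'c.is_comm.comm ⟨_, ha⟩ ⟨_, hb⟩
        have hcomm' : (a.1 : G) * (b.1 : G) = (b.1 : G) * (a.1 : G) := congrArg Subtype.val hcomm
        exact Subtype.ext (Subtype.ext hcomm')
      · have e := (R : Subgroup K).equivMapOfInjective K.subtype K.subtype_injective
        rw [Group.rank_congr e, Subgroup.rank_congr heq]
        exact hR'r
    · intro h12K
      exact h12 (h12K.trans (Subgroup.card_subgroup_dvd_card K))
  have hQ : Group.IsSolvable (G ⧸ K) := by
    have hQp : IsPGroup n.minFac (G ⧸ K) := by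
      rw [IsPGroup.iff_card]
      refine ⟨n.factorization n.minFac, ?_⟩
      rw [← Subgroup.index_eq_card, hKc.symm.index_eq_card, hP₀card]
    haveI := hQp.isNilpotent
    infer_instance
  exact Group.isSolvable_of_ker_le_range K.subtype (QuotientGroup.mk' K)
    (by rw [QuotientGroup.ker_mk', Subgroup.range_subtype])

/-- Let `G` be a finite group such that for every prime `p` dividing its order, other than the largest such prime, the Sylow `p`-subgroups are abelian and generated by at most two elements, and suppose `12` does not divide the order of `G`. Then `G` is solvable. In particular a group of cube-free order not divisible by `12` is solvable. -/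
theorem result {G : Type*} [Group G] [Finite G] (h : ∀ p : ℕ, p.Prime → p ∣ Nat.card G → (∃ q : ℕ, q.Prime ∧ q ∣ Nat.card G ∧ p < q) → ∀ P : Sylow p G, IsMulCommutative (P : Subgroup G) ∧ Group.rank (P : Subgroup G) ≤ 2) (h12 : ¬ 12 ∣ Nat.card G) : Group.IsSolvable G :=
  main (Nat.card G) G rfl h h12

end Cfsg.Agent.S3970
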