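import Mathlib
import Cfsg.Statements.S3973
import Cfsg.Agent.Lib.Helper21.SchurPres

set_option autoImplicit false
open Cfsg

namespace Cfsg.Agent.S3973

theorem result (n : ℕ) (rels : Finset (FreeGroup (Fin n))) [Finite (PresentedGroup (rels : Set (FreeGroup (Fin n))))] {A : Type*} [CommGroup A] [Finite A] (hA : Cfsg.HasSchurMultiplier (PresentedGroup (rels : Set (FreeGroup (Fin n)))) A) : Group.rank A ≤ rels.card - n :=
  Cfsg.Agent.Lib.Helper21.SchurPres.rank_le_of_presentation n rels hA

end Cfsg.Agent.S3973
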