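import Mathlib
import Cfsg.Statements.S3974
import Cfsg.Agent.Lib.Helper21.SchurCover
import Cfsg.Agent.Lib.Helper21.SchurUnique

set_option autoImplicit false
universe u v
open Cfsg

namespace Cfsg.Agent.S3974

/-- Let `Q` be a finite group with Schur multiplier `A`. Any two Schur covering groups of `Q` (finite stem extensions `σ₁ : Γ₁ →* Q`, `σ₂ : Γ₂ →* Q` with kernels isomorphic to `A`, `Γ₁, Γ₂` in the universe of `Q`) are isomorphic over `Q` — there is a group isomorphism `e : Γ₁ ≃* Γ₂` with `σ₂ ∘ e = σ₁` — if and only if the order of the commutator quotient of `Q` is coprime to the order of `A`. In particular a finite perfect group has a unique Schur covering group up to isomorphism over it. -/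
theorem result {Q : Type u} [Group Q] [Finite Q] {A : Type v} [CommGroup A] (hA : Cfsg.HasSchurMultiplier Q A) : (∀ (Γ₁ Γ₂ : Type u) [Group Γ₁] [Finite Γ₁] [Group Γ₂] [Finite Γ₂] (σ₁ : Γ₁ →* Q) (σ₂ : Γ₂ →* Q), Cfsg.IsStemExtension σ₁ → Cfsg.IsStemExtension σ₂ → Nonempty (σ₁.ker ≃* A) → Nonempty (σ₂.ker ≃* A) → ∃ e : Γ₁ ≃* Γ₂, σ₂.comp e.toMonoidHom = σ₁) ↔ Nat.Coprime (Nat.card (Abelianization Q)) (Nat.card A) := by
  classical
  obtain ⟨eA⟩ := Cfsg.Agent.Lib.Helper21.SchurCover.mulEquiv_of_hasSchurMultiplier hA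
  have hcardA : Nat.card A = Nat.card (Cfsg.Agent.Lib.Helper21.SchurCover.Mult Q) :=
    Nat.card_congr eA.toEquiv
  constructor
  · intro hall
    by_contra hcop
    rw [hcardA] at hcop
    obtain ⟨p, hp, hpA, hpM⟩ := Nat.Prime.not_coprime_iff_dvd.mp hcop
    obtain ⟨C₁, C₂, h₁, h₂, hno⟩ :=
      Cfsg.Agent.Lib.Helper21.SchurUnique.not_unique (G := Q) p hp hpA hpM
    apply hno
    have := Cfsg.Agent.Lib.Helper21.SchurUnique.cov_finite C₁ h₁
    have := Cfsg.Agent.Lib.Helper21.SchurUnique.cov_finite C₂ h₂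
    obtain ⟨e₁⟩ := Cfsg.Agent.Lib.Helper21.SchurUnique.sig_ker_equiv C₁ h₁
    obtain ⟨e₂⟩ := Cfsg.Agent.Lib.Helper21.SchurUnique.sig_ker_equiv C₂ h₂
    exact hall (Cfsg.Agent.Lib.Helper21.SchurUnique.Cov C₁ h₁)
      (Cfsg.Agent.Lib.Helper21.SchurUnique.Cov C₂ h₂)
      (Cfsg.Agent.Lib.Helper21.SchurUnique.sig C₁ h₁)
      (Cfsg.Agent.Lib.Helper21.SchurUnique.sig C₂ h₂)
      (Cfsg.Agent.Lib.Helper21.SchurUnique.sig_stem C₁ h₁)
      (Cfsg.Agent.Lib.Helper21.SchurUnique.sig_stem C₂ h₂)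
      ⟨e₁.trans eA.symm⟩ ⟨e₂.trans eA.symm⟩
  · intro hcop Γ₁ Γ₂ _ _ _ _ σ₁ σ₂ hσ₁ hσ₂ hk₁ hk₂
    obtain ⟨e₁⟩ := hk₁
    obtain ⟨e₂⟩ := hk₂
    rw [hcardA] at hcop
    exact Cfsg.Agent.Lib.Helper21.SchurUnique.iso_of_coprime hcop σ₁ σ₂ hσ₁ hσ₂
      (Nat.card_congr (e₁.trans eA).toEquiv) (Nat.card_congr (e₂.trans eA).toEquiv)

end Cfsg.Agent.S3974
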