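import Mathlib
import Cfsg.Statements.S3976
import Cfsg.Agent.S3975

set_option autoImplicit false
open Cfsg
open scoped Pointwise

namespace Cfsg.Agent.S3976

/-- Let `p` be a prime and `G` a group of order `p ^ m`. For every `s ≤ m` the number of normal subgroups of `G` of order `p ^ s` is congruent to `1` modulo `p`. -/
theorem result {G : Type*} [Group G] [Finite G] (p m s : ℕ) (hp : p.Prime) (hG : Nat.card G = p ^ m) (hs : s ≤ m) : Nat.card {H : Subgroup G // H.Normal ∧ Nat.card H = p ^ s} ≡ 1 [MOD p] := by
  classical
  have : Fact p.Prime := ⟨hp⟩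
  have hdiv : p ^ s ∣ Nat.card G := by rw [hG]; exact pow_dvd_pow p hs
  have h1 := Cfsg.Agent.S3975.result (G := G) p s hp hdiv
  have hPG : IsPGroup p (ConjAct G) := IsPGroup.of_card (n := m) hG
  let B : SubMulAction (ConjAct G) (Subgroup G) :=
    { carrier := {H | Nat.card H = p ^ s}
      smul_mem' := by
        intro g H hH
        show Nat.card (g • H : Subgroup G) = p ^ s
        rw [← Nat.card_congr (Subgroup.equivSMul g H).toEquiv]
        exact hH }
  have h2 := hPG.card_modEq_card_fixedPoints B
  have e : MulAction.fixedPoints (ConjAct G) B ≃ {H : Subgroup G // H.Normal ∧ Nat.card H = p ^ s} :=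
    { toFun := fun x => ⟨x.1.1, by
        refine ⟨?_, x.1.2⟩
        have hx := x.2
        constructor
        intro n hn g
        have h3 : (ConjAct.toConjAct g) • x.1 = x.1 := hx (ConjAct.toConjAct g)
        have h4 : (ConjAct.toConjAct g) • (x.1.1 : Subgroup G) = x.1.1 := congrArg Subtype.val h3
        rw [← h4]
        have h5 := Subgroup.smul_mem_pointwise_smul n (ConjAct.toConjAct g) x.1.1 hn
        rw [ConjAct.smul_def] at h5
        simpa using h5⟩
      invFun := fun H => ⟨⟨H.1, H.2.2⟩, by
        intro g
        apply Subtype.ext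
        exact H.2.1.conjAct g⟩
      left_inv := fun _ => rfl
      right_inv := fun _ => rfl }
  have h6 : Nat.card B = Nat.card {H : Subgroup G // Nat.card H = p ^ s} := rfl
  rw [h6, Nat.card_congr e] at h2
  exact h2.symm.trans h1

end Cfsg.Agent.S3976
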