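import Mathlib
import Cfsg.Statements.S3978
import Cfsg.Agent.Lib.Helper21.SchurInd

set_option autoImplicit false
open Cfsg

namespace Cfsg.Agent.S3978

open Cfsg.Agent.Lib.Helper21.SchurCover Cfsg.Agent.Lib.Helper21.SchurInd
open Cfsg.Agent.Lib.Helper21.SchurBasic Cfsg.Agent.Lib.Helper21.SchurProj

theorem subsingleton_ker_id (Q : Type*) [Group Q] : Subsingleton (MonoidHom.id Q).ker := by
  constructor
  intro a b
  have ha : (a : Q) = 1 := a.2
  have hb : (b : Q) = 1 := b.2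
  exact Subtype.ext (ha.trans hb.symm)

theorem result {Q : Type*} [Group Q] [Finite Q] : Cfsg.HasCyclicSchurMultiplier Q 1 ↔ ∀ (n : ℕ) (γ : Q →* (GL (Fin n) ℂ ⧸ Subgroup.center (GL (Fin n) ℂ))), ∃ ρ : Q →* GL (Fin n) ℂ, (QuotientGroup.mk' (Subgroup.center (GL (Fin n) ℂ))).comp ρ = γ := by
  have hs1 := subsingleton_ker_id Q
  have hs2 := subsingleton_mult_zmod_one
  constructor
  · intro hA n γ
    have hk : Nonempty ((MonoidHom.id Q).ker ≃* Multiplicative (ZMod 1)) :=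
      nonempty_mulEquiv_of_subsingleton _ _
    obtain ⟨ρ, hρ⟩ := lift_projective hA (MonoidHom.id Q) (id_stem Q) hk n γ
    exact ⟨ρ, by rw [hρ, MonoidHom.comp_id]⟩
  · intro h
    have hlift : ∀ (n : ℕ) (γ : Q →* (GL (Fin n) ℂ ⧸ Subgroup.center (GL (Fin n) ℂ))),
        ∃ ρ : Q →* GL (Fin n) ℂ,
          (QuotientGroup.mk' (Subgroup.center (GL (Fin n) ℂ))).comp ρ =
            γ.comp (MonoidHom.id Q) := by
      intro n γ
      obtain ⟨ρ, hρ⟩ := h n γ
      exact ⟨ρ, by rw [hρ, MonoidHom.comp_id]⟩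
    obtain ⟨er⟩ := ker_surj_of_lifting (MonoidHom.id Q) (id_stem Q) hlift
    have hs3 : Subsingleton (Mult Q) := er.toEquiv.subsingleton
    obtain ⟨e⟩ := nonempty_mulEquiv_of_subsingleton (Mult Q) (Multiplicative (ZMod 1))
    exact hasSchurMultiplier_congr (hasSchurMultiplier_mult Q) e

end Cfsg.Agent.S3978
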