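import Mathlib
import Cfsg.Statements.S3992
import Cfsg.Agent.Lib.Helper21.CPGroups

set_option autoImplicit false
open Cfsg

namespace Cfsg.Agent.S3992

open Cfsg.Agent.Lib.Helper21.CPGroups Cfsg.Agent.Lib.Helper21.Higman

/-- Let G be a finite non-solvable group in which every element has prime-power order, and let R be its largest solvable normal subgroup. Then R is a p-group for some prime p; G/R has a non-abelian simple normal subgroup contained in every nontrivial normal subgroup of G/R (its unique minimal normal subgroup); and the order of every solvable subgroup of G has at most two prime divisors. -/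
theorem result {G : Type*} [Group G] [Finite G] (hns : ¬ Group.IsSolvable G) (hpp : ∀ g : G, g ≠ 1 → IsPrimePow (orderOf g))
    (R : Subgroup G) [R.Normal] (hRs : Group.IsSolvable ↥R) (hRmax : ∀ N : Subgroup G, N.Normal → Group.IsSolvable ↥N → N ≤ R) :
    (∃ p : ℕ, p.Prime ∧ IsPGroup p ↥R) ∧
      (∃ M : Subgroup (G ⧸ R), M.Normal ∧ IsSimpleGroup ↥M ∧ ¬ IsMulCommutative ↥M ∧
        ∀ N : Subgroup (G ⧸ R), N.Normal → N ≠ ⊥ → M ≤ N) ∧
      ∀ H : Subgroup G, Group.IsSolvable ↥H → (Nat.card ↥H).primeFactors.card ≤ 2 := by
  haveI := hRs
  have hQcp := cp_quotient hpp R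
  refine ⟨radical_isPGroup hns hpp R, ?_, ?_⟩
  · have hQns : ∀ N : Subgroup (G ⧸ R), N.Normal → Group.IsSolvable N → N = ⊥ := by
      intro N hN hNs
      haveI := hN
      haveI := hNs
      let π := QuotientGroup.mk' R
      have hle : R ≤ N.comap π := by
        intro x hx
        show π x ∈ N
        have h1 : π x = 1 := (QuotientGroup.eq_one_iff x).mpr hx
        rw [h1]; exact N.one_mem
      have hsol : Group.IsSolvable (N.comap π) := by
        refine Group.isSolvable_of_ker_le_range (Subgroup.inclusion hle) (π.subgroupComap N) ?_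
        intro x hx
        rw [MonoidHom.mem_ker] at hx
        have hxR : (x : G) ∈ R := by
          have h1 : π (x : G) = 1 := congrArg Subtype.val hx
          exact (QuotientGroup.eq_one_iff _).mp h1
        exact ⟨⟨x, hxR⟩, Subtype.ext rfl⟩
      have h2 := hRmax _ (Subgroup.Normal.comap hN π) hsol
      rw [eq_bot_iff]
      intro y hy
      obtain ⟨x, rfl⟩ := QuotientGroup.mk_surjective y
      rw [Subgroup.mem_bot]
      exact (QuotientGroup.eq_one_iff x).mpr (h2 hy)
    haveI : Nontrivial (G ⧸ R) := by
      by_contra h
      rw [not_nontrivial_iff_subsingleton] at h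
      haveI := h
      exact hns ((Group.isSolvable_iff_subgroup_quotient R).mpr ⟨hRs, inferInstance⟩)
    exact exists_min_normal_simple hQcp hQns
  · intro H hH
    haveI := hH
    exact higman (cp_subgroup hpp H)

end Cfsg.Agent.S3992
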