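import Mathlib
import Cfsg.Statements.S3994
import Cfsg.Agent.Lib.Helper21.Frobenius2

set_option autoImplicit false
open Cfsg

namespace Cfsg.Agent.S3994

open Cfsg.Agent.Lib.Helper21.Frobenius Cfsg.Agent.Lib.Helper21.Frobenius2

theorem coprime_compl (g n : ℕ) (hg : 0 < g) : Nat.Coprime (g / Nat.gcd g (n ^ g)) n := by
  set a := Nat.gcd g (n ^ g) with ha
  have hag : a ∣ g := Nat.gcd_dvd_left _ _
  by_contra hcon
  obtain ⟨q, hq, hqb, hqn⟩ := Nat.Prime.not_coprime_iff_dvd.mp hcon
  have : Fact q.Prime := ⟨hq⟩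
  set v := padicValNat q g with hv
  have h1 : q ^ v ∣ g := pow_padicValNat_dvd
  have h2 : v < g := by
    have h3 : q ^ v ≤ g := Nat.le_of_dvd hg h1
    have h4 : v < q ^ v := Nat.lt_pow_self hq.one_lt
    omega
  have h5 : q ^ v ∣ n ^ g := (pow_dvd_pow_of_dvd hqn v).trans (pow_dvd_pow n h2.le)
  have h6 : q ^ v ∣ a := Nat.dvd_gcd h1 h5
  have h7 : q ^ (v + 1) ∣ g := by
    have h8 : a * (g / a) = g := Nat.mul_div_cancel' hag
    rw [← h8, pow_succ]
    exact Nat.mul_dvd_mul h6 hqb
  exact pow_succ_padicValNat_not_dvd hg.ne' h7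

/-- Let G be a finite group and n a positive integer. The number of elements of G whose order is divisible by n is either 0 or divisible by the largest divisor of the order of G that is coprime to n. -/
theorem result {G : Type*} [Group G] [Finite G] (n : ℕ) (hn : 0 < n) :
    Nat.card {g : G // n ∣ orderOf g} = 0 ∨
      (Nat.card G / Nat.gcd (Nat.card G) (n ^ Nat.card G)) ∣ Nat.card {g : G // n ∣ orderOf g} := by
  right
  have hg : 0 < Nat.card G := Nat.card_pos
  set a := Nat.gcd (Nat.card G) (n ^ Nat.card G) with ha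
  set b := Nat.card G / a with hb
  have hag : a ∣ Nat.card G := Nat.gcd_dvd_left _ _
  have hab : a * b = Nat.card G := Nat.mul_div_cancel' hag
  have hbn : Nat.Coprime b n := coprime_compl _ n hg
  have hba : Nat.Coprime b a :=
    Nat.Coprime.coprime_dvd_right (Nat.gcd_dvd_right _ _) (Nat.Coprime.pow_right _ hbn)
  have ha0 : a ≠ 0 := by
    intro h
    rw [h, zero_mul] at hab
    omega
  obtain ⟨e', -, he'⟩ := Nat.exists_mul_mod_eq_of_coprime 1 hba ha0
  have hu1 : b * e' ≡ 1 [MOD a] := he'
  have hu0 : b ∣ b * e' := dvd_mul_right _ _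
  have hua : Nat.Coprime (b * e') a := by
    have h := hu1.gcd_eq
    rw [Nat.gcd_one_left] at h
    exact h
  have e1 : {g : G // n ∣ orderOf g} ≃
      {x : G // x ^ (a * b) = 1 ∧ (fun y : G => n ∣ orderOf y) (x ^ (b * e'))} :=
    Equiv.subtypeEquivRight (fun x => by
      show _ ↔ (x ^ (a * b) = 1 ∧ n ∣ orderOf (x ^ (b * e')))
      have hx : x ^ (a * b) = 1 := by rw [hab]; exact pow_card_eq_one'
      constructor
      · intro h
        refine ⟨hx, ?_⟩
        have h1 : orderOf (x ^ (b * e')) = orderOf x / Nat.gcd (orderOf x) (b * e') :=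
          orderOf_pow x
        have h2 : orderOf (x ^ (b * e')) * Nat.gcd (orderOf x) (b * e') = orderOf x := by
          rw [h1]; exact Nat.div_mul_cancel (Nat.gcd_dvd_left _ _)
        have h3 : Nat.gcd (orderOf x) (b * e') ∣ b := by
          have h4 : Nat.gcd (orderOf x) (b * e') ∣ a * b :=
            (Nat.gcd_dvd_left _ _).trans (orderOf_dvd_of_pow_eq_one hx)
          have h5 : Nat.Coprime (Nat.gcd (orderOf x) (b * e')) a :=
            Nat.Coprime.coprime_dvd_left (Nat.gcd_dvd_right _ _) hua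
          exact h5.dvd_of_dvd_mul_left h4
        have h6 : Nat.Coprime n (Nat.gcd (orderOf x) (b * e')) :=
          Nat.Coprime.coprime_dvd_right h3 hbn.symm
        rw [← h2] at h
        exact h6.dvd_of_dvd_mul_right h
      · rintro ⟨-, h⟩
        exact h.trans (orderOf_pow_dvd _))
  rw [Nat.card_congr e1, card_decomp a b (b * e') hu1 hu0 (fun y : G => n ∣ orderOf y)]
  apply dvd_card_sigma_centralizer (fun y : G => y ^ a = 1 ∧ n ∣ orderOf y)
  · rintro g y ⟨hy1, hy2⟩
    refine ⟨by rw [conj_pow, hy1, mul_one, mul_inv_cancel], ?_⟩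
    have h1 : orderOf (MulAut.conj g y) = orderOf y := MulEquiv.orderOf_eq (MulAut.conj g) y
    rw [MulAut.conj_apply] at h1
    rw [h1]
    exact hy2
  · rintro y -
    have h1 := frob_gcd (G := ↥(Subgroup.centralizer ({y} : Set G))) b
    have h2 : b ∣ (Subgroup.centralizer {y}).index *
        Nat.card ↥(Subgroup.centralizer ({y} : Set G)) := by
      rw [Subgroup.index_mul_card, ← hab]
      exact dvd_mul_left _ _
    exact (Cfsg.Agent.Lib.Helper21.Frobenius2.dvd_mul_gcd_of_dvd_mul h2).trans (Nat.mul_dvd_mul_left _ h1)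

end Cfsg.Agent.S3994
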