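import Mathlib
import Cfsg.Statements.S3995
import Cfsg.Agent.Lib.Helper21.Frobenius
import Cfsg.Agent.Lib.Helper21.Frobenius2
import Cfsg.Agent.Lib.Helper18.UniqueInvolution

set_option autoImplicit false
open Cfsg

namespace Cfsg.Agent.S3995

/-- Exactly one element has order one. -/
theorem cnt_one (K : Type*) [Group K] : Nat.card {g : K // orderOf g = 1} = 1 := by
  rw [Nat.card_eq_one_iff_unique]
  refine ⟨⟨fun a b => Subtype.ext ?_⟩, ⟨⟨1, orderOf_one⟩⟩⟩
  rw [orderOf_eq_one_iff.1 a.2, orderOf_eq_one_iff.1 b.2]

/-- The number of solutions of `g ^ d = 1` as a sum over a finite set `T` of divisors of `d`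
containing all the orders of the solutions. -/
theorem card_pow_eq_sum (K : Type*) [Group K] [Finite K] (d : ℕ) (T : Finset ℕ)
    (h1 : ∀ g : K, g ^ d = 1 → orderOf g ∈ T) (h2 : ∀ m ∈ T, m ∣ d) :
    Nat.card {g : K // g ^ d = 1} = ∑ m ∈ T, Nat.card {g : K // orderOf g = m} := by
  classical
  have : Fintype K := Fintype.ofFinite K
  rw [Nat.card_eq_fintype_card, Fintype.card_subtype]
  rw [Finset.card_eq_sum_card_fiberwise (f := orderOf) (t := T)
    (fun g hg => h1 g (Finset.mem_filter.1 hg).2)]
  refine Finset.sum_congr rfl fun m hm => ?_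
  rw [Nat.card_eq_fintype_card, Fintype.card_subtype, Finset.filter_filter]
  congr 1
  ext g
  simp only [Finset.mem_filter, Finset.mem_univ, true_and]
  constructor
  · exact fun h => h.2
  · intro h
    exact ⟨orderOf_dvd_iff_pow_eq_one.1 (h ▸ h2 m hm), h⟩

/-- A prime cannot divide two numbers with a combination equal to one. -/
theorem dvd_lin {p : ℕ} (hp : p.Prime) {a b : ℕ} (ha : p ∣ a) (hb : p ∣ b) (c d : ℕ)
    (h : c * a = d * b + 1) : False := by
  have h1 : p ∣ d * b + 1 := h ▸ ha.mul_left c
  have h2 : p ∣ 1 := (Nat.dvd_add_right (hb.mul_left d)).1 h1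
  exact hp.ne_one (Nat.dvd_one.1 h2)

/-- The exponent of a nontrivial group all of whose elements satisfy `g ^ p = 1`. -/
theorem exponent_eq (K : Type*) [Group K] [Nontrivial K] {p : ℕ} (hp : p.Prime)
    (hpow : ∀ g : K, g ^ p = 1) : Monoid.exponent K = p := by
  have h1 : Monoid.exponent K ∣ p := Monoid.exponent_dvd_of_forall_pow_eq_one hpow
  rcases (Nat.dvd_prime hp).1 h1 with h | h
  · exfalso
    rw [Monoid.exp_eq_one_iff] at h
    exact not_subsingleton K h
  · exact h

/-- Solutions of `x ^ p = 1` for a prime `p`. -/
theorem card_pow_prime (K : Type*) [Group K] [Finite K] {p : ℕ} (hp : p.Prime) :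
    Nat.card {x : K // x ^ p = 1} = 1 + Nat.card {x : K // orderOf x = p} := by
  rw [card_pow_eq_sum K p {1, p}]
  · rw [Finset.sum_pair hp.one_lt.ne, cnt_one]
  · intro x hx
    rcases (Nat.dvd_prime hp).1 (orderOf_dvd_of_pow_eq_one hx) with h | h
    · simp [h]
    · simp [h]
  · intro m hm
    simp only [Finset.mem_insert, Finset.mem_singleton] at hm
    rcases hm with rfl | rfl
    · exact one_dvd _
    · exact dvd_rfl

/-- The core counting lemma: if all the non-identity element orders of a non-trivial finite group
occur the same number `n` of times, the group has prime exponent and order `1 + n`. -/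
theorem core (K : Type*) [Group K] [Finite K] [Nontrivial K] (n : ℕ)
    (hK : ∀ g : K, g ≠ 1 → Nat.card {x : K // orderOf x = orderOf g} = n) :
    ∃ p, p.Prime ∧ (∀ g : K, g ^ p = 1) ∧ Nat.card K = 1 + n := by
  have hne : ∀ g : K, (orderOf g).Prime → g ≠ 1 := by
    rintro g hg rfl
    rw [orderOf_one] at hg
    exact Nat.not_prime_one hg
  -- (a)
  have ha' : ∀ g : K, (orderOf g).Prime →
      Nat.card {x : K // x ^ orderOf g = 1} = 1 + n := by
    intro g hg
    rw [card_pow_prime K hg, hK g (hne g hg)]
  have ha : ∀ g : K, (orderOf g).Prime → orderOf g ∣ 1 + n := by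
    intro g hg
    rw [← ha' g hg]
    exact Cfsg.Agent.Lib.Helper21.Frobenius2.frob _ (orderOf_dvd_natCard g)
  -- (b)
  have hb : ∀ g : K, ∀ p q : ℕ, p.Prime → q.Prime → orderOf g = p * q → False := by
    intro g p q hp hq hg
    have hgq : orderOf (g ^ q) = p := by
      rw [orderOf_pow_of_dvd hq.ne_zero ⟨p, by rw [hg, mul_comm]⟩, hg]
      exact Nat.mul_div_cancel _ hq.pos
    have hgp : orderOf (g ^ p) = q := by
      rw [orderOf_pow_of_dvd hp.ne_zero ⟨q, by rw [hg]⟩, hg]
      exact Nat.mul_div_cancel_left _ hp.pos
    have hpn : p ∣ 1 + n := by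
      have := ha (g ^ q) (hgq ▸ hp)
      rwa [hgq] at this
    have hqn : q ∣ 1 + n := by
      have := ha (g ^ p) (hgp ▸ hq)
      rwa [hgp] at this
    have hsp : Nat.card {x : K // orderOf x = p} = n := by
      have := hK (g ^ q) (hne _ (hgq ▸ hp))
      rwa [hgq] at this
    have hsq : Nat.card {x : K // orderOf x = q} = n := by
      have := hK (g ^ p) (hne _ (hgp ▸ hq))
      rwa [hgp] at this
    have hg1 : g ≠ 1 := by
      rintro rfl
      rw [orderOf_one] at hg
      have := hp.two_le
      have := hq.two_le
      nlinarith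
    have hspq : Nat.card {x : K // orderOf x = p * q} = n := by
      have := hK g hg1
      rwa [hg] at this
    have hdvd : p * q ∣ Nat.card K := hg ▸ orderOf_dvd_natCard g
    have hfr := Cfsg.Agent.Lib.Helper21.Frobenius2.frob (G := K) _ hdvd
    have h1p : 1 ≠ p := hp.one_lt.ne
    have h1q : 1 ≠ q := hq.one_lt.ne
    have h1pq : 1 ≠ p * q := by
      have := hp.two_le
      have := hq.two_le
      nlinarith
    have hppq : p ≠ p * q := by
      have := hp.two_le
      have := hq.two_le
      nlinarith
    have hqpq : q ≠ p * q := by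
      have := hp.two_le
      have := hq.two_le
      nlinarith
    by_cases hpq : p = q
    · subst hpq
      have hf : Nat.card {x : K // x ^ (p * p) = 1} = 1 + n + n := by
        rw [card_pow_eq_sum K (p * p) {1, p, p * p}]
        · rw [Finset.sum_insert (by simp [h1p, h1pq]), Finset.sum_pair hppq, cnt_one, hsp, hspq]
          ring
        · intro x hx
          have hd : orderOf x ∣ p ^ 2 := by
            rw [pow_two]
            exact orderOf_dvd_of_pow_eq_one hx
          obtain ⟨k, hk, hk'⟩ := (Nat.dvd_prime_pow hp).1 hd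
          interval_cases k
          · simp [hk']
          · simp [hk']
          · simp [hk', pow_two]
        · intro m hm
          simp only [Finset.mem_insert, Finset.mem_singleton] at hm
          rcases hm with rfl | rfl | rfl
          · exact one_dvd _
          · exact Dvd.intro _ rfl
          · exact dvd_rfl
      rw [hf] at hfr
      have h2 : p ∣ 1 + n + n := (Dvd.intro _ rfl).trans hfr
      exact dvd_lin hp hpn h2 2 1 (by ring)
    · have hf : Nat.card {x : K // x ^ (p * q) = 1} = 1 + n + n + n := by
        rw [card_pow_eq_sum K (p * q) {1, p, q, p * q}]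
        · rw [Finset.sum_insert (by simp [h1p, h1q, h1pq]),
            Finset.sum_insert (by simp [hpq, hppq]), Finset.sum_pair hqpq, cnt_one, hsp, hsq,
            hspq]
          ring
        · intro x hx
          obtain ⟨a, b, ha, hb, hab⟩ := (Nat.dvd_mul).1 (orderOf_dvd_of_pow_eq_one hx)
          rw [← hab]
          rcases (Nat.dvd_prime hp).1 ha with rfl | rfl <;>
            rcases (Nat.dvd_prime hq).1 hb with rfl | rfl <;> simp
        · intro m hm
          simp only [Finset.mem_insert, Finset.mem_singleton] at hm
          rcases hm with rfl | rfl | rfl | rfl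
          · exact one_dvd _
          · exact Dvd.intro _ rfl
          · exact Dvd.intro_left _ rfl
          · exact dvd_rfl
      rw [hf] at hfr
      have h2 : p ∣ 1 + n + n + n := (Dvd.intro _ rfl).trans hfr
      have h3 : q ∣ 1 + n + n + n := (Dvd.intro_left _ rfl).trans hfr
      have hp2 : p ∣ 2 := by
        have h4 : p ∣ (1 + n + n + n) + 2 := by
          have : (1 + n + n + n) + 2 = 3 * (1 + n) := by ring
          rw [this]
          exact hpn.mul_left 3
        exact (Nat.dvd_add_right h2).1 h4
      have hq2 : q ∣ 2 := by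
        have h4 : q ∣ (1 + n + n + n) + 2 := by
          have : (1 + n + n + n) + 2 = 3 * (1 + n) := by ring
          rw [this]
          exact hqn.mul_left 3
        exact (Nat.dvd_add_right h3).1 h4
      exact hpq (((Nat.prime_dvd_prime_iff_eq hp Nat.prime_two).1 hp2).trans
        ((Nat.prime_dvd_prime_iff_eq hq Nat.prime_two).1 hq2).symm)
  -- (c)
  have hc : ∀ g : K, g ≠ 1 → (orderOf g).Prime := by
    intro g hg
    by_contra hnp
    have hm1 : orderOf g ≠ 1 := fun h => hg (orderOf_eq_one_iff.1 h)
    have hm0 : orderOf g ≠ 0 := (orderOf_pos g).ne'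
    have hp := Nat.minFac_prime hm1
    obtain ⟨m', hm'⟩ := Nat.minFac_dvd (orderOf g)
    have hm'1 : m' ≠ 1 := by
      rintro rfl
      rw [mul_one] at hm'
      exact hnp (hm' ▸ hp)
    have hm'0 : m' ≠ 0 := by
      rintro rfl
      rw [mul_zero] at hm'
      exact hm0 hm'
    have hq := Nat.minFac_prime hm'1
    obtain ⟨m'', hm''⟩ := Nat.minFac_dvd m'
    have hm''0 : m'' ≠ 0 := by
      rintro rfl
      rw [mul_zero] at hm''
      exact hm'0 hm''
    have hord : orderOf (g ^ m'') = (orderOf g).minFac * m'.minFac := by
      have hdv : m'' ∣ orderOf g := ⟨(orderOf g).minFac * m'.minFac, by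
        conv_lhs => rw [hm', hm'']
        ring⟩
      rw [orderOf_pow_of_dvd hm''0 hdv]
      apply Nat.div_eq_of_eq_mul_left (Nat.pos_of_ne_zero hm''0)
      conv_lhs => rw [hm', hm'']
      ring
    exact hb _ _ _ hp hq hord
  -- (d)
  have hd : ∀ g h : K, g ≠ 1 → h ≠ 1 → orderOf g = orderOf h := by
    intro g h hg hh
    by_contra hne'
    have hp := hc g hg
    have hq := hc h hh
    have hf : Nat.card {x : K // x ^ (orderOf g * orderOf h) = 1} = 1 + n + n := by
      rw [card_pow_eq_sum K (orderOf g * orderOf h) {1, orderOf g, orderOf h}]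
      · rw [Finset.sum_insert (by simp [hp.one_lt.ne, hq.one_lt.ne]), Finset.sum_pair hne',
          cnt_one, hK g hg, hK h hh]
        ring
      · intro x hx
        by_cases hx1 : x = 1
        · simp [hx1]
        · have hr := hc x hx1
          rcases (Nat.Prime.dvd_mul hr).1 (orderOf_dvd_of_pow_eq_one hx) with h' | h'
          · simp [(Nat.prime_dvd_prime_iff_eq hr hp).1 h']
          · simp [(Nat.prime_dvd_prime_iff_eq hr hq).1 h']
      · intro m hm
        simp only [Finset.mem_insert, Finset.mem_singleton] at hm
        rcases hm with rfl | rfl | rfl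
        · exact one_dvd _
        · exact Dvd.intro _ rfl
        · exact Dvd.intro_left _ rfl
    have hdvd : orderOf g * orderOf h ∣ Nat.card K :=
      Nat.Coprime.mul_dvd_of_dvd_of_dvd ((Nat.coprime_primes hp hq).2 hne')
        (orderOf_dvd_natCard g) (orderOf_dvd_natCard h)
    have hfr := Cfsg.Agent.Lib.Helper21.Frobenius2.frob (G := K) _ hdvd
    rw [hf] at hfr
    have h2 : orderOf g ∣ 1 + n + n := (Dvd.intro _ rfl).trans hfr
    exact dvd_lin hp (ha g hp) h2 2 1 (by ring)
  -- (e)
  obtain ⟨g₀, hg₀⟩ := exists_ne (1 : K)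
  have hpow : ∀ g : K, g ^ orderOf g₀ = 1 := by
    intro g
    by_cases hg : g = 1
    · rw [hg, one_pow]
    · rw [← hd g g₀ hg hg₀]
      exact pow_orderOf_eq_one g
  refine ⟨orderOf g₀, hc g₀ hg₀, hpow, ?_⟩
  rw [← ha' g₀ (hc g₀ hg₀)]
  exact (Nat.card_congr (Equiv.subtypeUnivEquiv hpow)).symm

/-- A group of order two is the multiplicative `ZMod 2`. -/
theorem equiv_zmod2 {H : Type*} [Group H] (h : Nat.card H = 2) :
    Nonempty (H ≃* Multiplicative (ZMod 2)) := by
  haveI : Fact (Nat.Prime 2) := ⟨Nat.prime_two⟩
  have hc : IsCyclic H := isCyclic_of_prime_card h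
  have e := zmodCyclicMulEquiv hc
  rw [h] at e
  exact ⟨e.symm⟩

/-- A small copy of a finite group. -/
theorem small_copy.{u} (K : Type u) [Group K] [Finite K] :
    ∃ (E : Type) (_ : Group E) (_ : Finite E), Nonempty (K ≃* E) := by
  let e : K ≃ {k : ℕ // k < Nat.card K} := (Finite.equivFin K).trans Fin.equivSubtype
  letI : Group {k : ℕ // k < Nat.card K} := e.symm.group
  exact ⟨{k : ℕ // k < Nat.card K}, e.symm.group, inferInstance, ⟨(e.symm.mulEquiv).symm⟩⟩

/-- Let G be a finite group such that the numbers of elements of each order that occurs in G (the numbers #{g : o(g) = m}, m ranging over the element orders of G) take exactly two values, 1 and some n ≠ 1. Then either G is a p-group of exponent p and order at least 3 for some prime p, or G is the quaternion group of order 8, or G is cyclic of order 4, or G ≅ Z₂ × P for a p-group P of exponent p with p an odd prime. -/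
theorem result {G : Type*} [Group G] [Finite G] (n : ℕ) (hn : n ≠ 1) (h : ((fun m : ℕ => Nat.card {g : G // orderOf g = m}) '' Set.range (orderOf : G → ℕ)) = {1, n}) :
    (∃ p : ℕ, p.Prime ∧ IsPGroup p G ∧ 3 ≤ Nat.card G ∧ Monoid.exponent G = p) ∨
      Nonempty (G ≃* QuaternionGroup 2) ∨ (IsCyclic G ∧ Nat.card G = 4) ∨
      (∃ (p : ℕ) (P : Type) (_ : Group P) (_ : Finite P), p.Prime ∧ p ≠ 2 ∧ IsPGroup p P ∧ Monoid.exponent P = p ∧
        Nonempty (G ≃* Multiplicative (ZMod 2) × P)) := by
  haveI : Fact (Nat.Prime 2) := ⟨Nat.prime_two⟩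
  have H1 : ∀ g : G, Nat.card {x : G // orderOf x = orderOf g} = 1 ∨
      Nat.card {x : G // orderOf x = orderOf g} = n := by
    intro g
    have : Nat.card {x : G // orderOf x = orderOf g} ∈ ({1, n} : Set ℕ) := by
      rw [← h]
      exact ⟨orderOf g, ⟨g, rfl⟩, rfl⟩
    simpa using this
  have H2 : ∃ g : G, Nat.card {x : G // orderOf x = orderOf g} = n := by
    have : n ∈ ((fun m : ℕ => Nat.card {g : G // orderOf g = m}) ''
        Set.range (orderOf : G → ℕ)) := by
      rw [h]
      simp
    obtain ⟨m, ⟨g, rfl⟩, hg⟩ := this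
    exact ⟨g, hg⟩
  have H3 : ∀ g : G, orderOf g ≠ 1 → orderOf g ≠ 2 →
      Nat.card {x : G // orderOf x = orderOf g} = n := by
    intro g h1 h2
    rcases H1 g with h' | h'
    · exfalso
      have := Cfsg.Agent.Lib.Helper21.Frobenius.totient_dvd_card_orderOf (G := G) (orderOf g)
      rw [h', Nat.dvd_one, Nat.totient_eq_one_iff] at this
      rcases this with h | h
      · exact h1 h
      · exact h2 h
    · exact h'
  obtain ⟨g₀, hg₀⟩ := H2
  have hg₀1 : orderOf g₀ ≠ 1 := by
    intro h1
    rw [h1, cnt_one] at hg₀
    exact hn hg₀.symm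
  have hn0 : n ≠ 0 := by
    intro h0
    rw [h0] at hg₀
    haveI : Nonempty {x : G // orderOf x = orderOf g₀} := ⟨⟨g₀, rfl⟩⟩
    have : 0 < Nat.card {x : G // orderOf x = orderOf g₀} := Nat.card_pos
    omega
  haveI hnt : Nontrivial G := ⟨⟨g₀, 1, fun h => hg₀1 (by rw [h, orderOf_one])⟩⟩
  by_cases hA : ∀ g : G, orderOf g = 2 → Nat.card {x : G // orderOf x = orderOf g} = n
  · -- Case A
    left
    obtain ⟨p, hp, hpow, hcard⟩ := core G n (fun g hg => by
      by_cases h2 : orderOf g = 2
      · exact hA g h2
      · exact H3 g (fun h => hg (orderOf_eq_one_iff.1 h)) h2)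
    exact ⟨p, hp, fun g => ⟨1, by rw [pow_one]; exact hpow g⟩, by omega, exponent_eq G hp hpow⟩
  · -- Case B: a unique involution
    have hA' : ∃ z : G, orderOf z = 2 ∧ Nat.card {x : G // orderOf x = 2} = 1 := by
      by_contra hcon
      apply hA
      intro g hg
      rcases H1 g with h' | h'
      · exact absurd ⟨g, hg, hg ▸ h'⟩ hcon
      · exact h'
    obtain ⟨z, hz, hz1⟩ := hA'
    have huniq : ∀ g : G, orderOf g = 2 → g = z := by
      intro g hg
      haveI := (Nat.card_eq_one_iff_unique.1 hz1).1
      have := Subsingleton.elim (⟨g, hg⟩ : {x : G // orderOf x = 2}) ⟨z, hz⟩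
      exact congrArg Subtype.val this
    have hzc : ∀ g : G, g * z = z * g := by
      intro g
      have h1 := (MulAut.conj g).orderOf_eq z
      rw [MulAut.conj_apply, hz] at h1
      exact mul_inv_eq_iff_eq_mul.1 (huniq _ h1)
    have hsq : ∀ g : G, g ^ 2 = 1 → g = 1 ∨ g = z := by
      intro g hg
      by_cases h1 : g = 1
      · exact Or.inl h1
      · exact Or.inr (huniq g (orderOf_eq_prime hg h1))
    by_cases h4 : 4 ∣ Nat.card G
    · -- B1
      have h4d : Nat.divisors 4 = {1, 2, 4} := by decide
      have h8d : Nat.divisors 8 = {1, 2, 4, 8} := by decide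
      have hf4 : Nat.card {g : G // g ^ 4 = 1} = 1 + 1 + Nat.card {g : G // orderOf g = 4} := by
        rw [card_pow_eq_sum G 4 {1, 2, 4}]
        · rw [Finset.sum_insert (by decide), Finset.sum_pair (by decide), cnt_one, hz1]
          ring
        · intro g hg
          have : orderOf g ∈ Nat.divisors 4 :=
            Nat.mem_divisors.2 ⟨orderOf_dvd_of_pow_eq_one hg, by norm_num⟩
          rwa [h4d] at this
        · intro m hm
          rw [← h4d] at hm
          exact (Nat.mem_divisors.1 hm).1
      have h4n := Cfsg.Agent.Lib.Helper21.Frobenius2.frob (G := G) 4 h4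
      have hex4 : ∃ x : G, orderOf x = 4 := by
        by_contra hcon
        haveI : IsEmpty {g : G // orderOf g = 4} := ⟨fun x => hcon ⟨x.1, x.2⟩⟩
        rw [hf4, Nat.card_of_isEmpty] at h4n
        omega
      obtain ⟨x, hx⟩ := hex4
      have hs4 : Nat.card {g : G // orderOf g = 4} = n := by
        have := H3 x (by omega) (by omega)
        rwa [hx] at this
      have h4n' : 4 ∣ 2 + n := by
        rw [hf4, hs4] at h4n
        omega
      have hno8 : ∀ g : G, orderOf g ≠ 8 := by
        intro g hg
        have hs8 : Nat.card {y : G // orderOf y = 8} = n := by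
          have := H3 g (by omega) (by omega)
          rwa [hg] at this
        have hf8 : Nat.card {g : G // g ^ 8 = 1} = 1 + 1 + n + n := by
          rw [card_pow_eq_sum G 8 {1, 2, 4, 8}]
          · rw [Finset.sum_insert (by decide), Finset.sum_insert (by decide),
              Finset.sum_pair (by decide), cnt_one, hz1, hs4, hs8]
            ring
          · intro g hg
            have : orderOf g ∈ Nat.divisors 8 :=
              Nat.mem_divisors.2 ⟨orderOf_dvd_of_pow_eq_one hg, by norm_num⟩
            rwa [h8d] at this
          · intro m hm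
            rw [← h8d] at hm
            exact (Nat.mem_divisors.1 hm).1
        have h8 : 8 ∣ Nat.card G := hg ▸ orderOf_dvd_natCard g
        have := Cfsg.Agent.Lib.Helper21.Frobenius2.frob (G := G) 8 h8
        rw [hf8] at this
        omega
      have hnoodd : ∀ g : G, ∀ p : ℕ, p.Prime → p ≠ 2 → orderOf g ≠ p := by
        intro g p hp hp2 hg
        have hp3 : 3 ≤ p := by
          have := hp.two_le
          omega
        have hpodd : ¬ 2 ∣ p := fun h => hp2 ((Nat.prime_dvd_prime_iff_eq Nat.prime_two hp).1 h).symm
        have hsp : Nat.card {y : G // orderOf y = p} = n := by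
          have := H3 g (by omega) (by omega)
          rwa [hg] at this
        have hcop2 : Nat.Coprime 2 p := (Nat.coprime_primes Nat.prime_two hp).2 (Ne.symm hp2)
        have hzg : orderOf (z * g) = 2 * p := by
          rw [← hz, ← hg]
          exact Commute.orderOf_mul_eq_mul_orderOf_of_coprime (hzc g).symm (by rw [hz, hg]; exact hcop2)
        have hs2p : Nat.card {y : G // orderOf y = 2 * p} = n := by
          have := H3 (z * g) (by omega) (by omega)
          rwa [hzg] at this
        have hp1n : p ∣ 1 + n := by
          have h1 := Cfsg.Agent.Lib.Helper21.Frobenius2.frob (G := G) p (hg ▸ orderOf_dvd_natCard g)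
          rwa [card_pow_prime G hp, hsp] at h1
        have hcop : Nat.Coprime 4 p := by
          have : (4 : ℕ) = 2 ^ 2 := by norm_num
          rw [this]
          exact Nat.Coprime.pow_left 2 hcop2
        have h4p : 4 * p ∣ Nat.card G :=
          Nat.Coprime.mul_dvd_of_dvd_of_dvd hcop h4 (hg ▸ orderOf_dvd_natCard g)
        have hf4p : Nat.card {y : G // y ^ (4 * p) = 1} =
            1 + 1 + n + n + n + Nat.card {y : G // orderOf y = 4 * p} := by
          rw [card_pow_eq_sum G (4 * p) {1, 2, 4, p, 2 * p, 4 * p}]
          · rw [Finset.sum_insert (by simp; omega), Finset.sum_insert (by simp; omega),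
              Finset.sum_insert (by simp; omega), Finset.sum_insert (by simp; omega),
              Finset.sum_pair (by omega), cnt_one, hz1, hs4, hsp, hs2p]
            ring
          · intro y hy
            obtain ⟨a, b, ha, hb, hab⟩ := (Nat.dvd_mul).1 (orderOf_dvd_of_pow_eq_one hy)
            rw [← hab]
            have ha' : a ∈ Nat.divisors 4 := Nat.mem_divisors.2 ⟨ha, by norm_num⟩
            rw [h4d] at ha'
            simp only [Finset.mem_insert, Finset.mem_singleton] at ha'
            rcases ha' with rfl | rfl | rfl <;>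
              rcases (Nat.dvd_prime hp).1 hb with rfl | rfl <;> simp
          · intro m hm
            simp only [Finset.mem_insert, Finset.mem_singleton] at hm
            rcases hm with rfl | rfl | rfl | rfl | rfl | rfl
            · exact one_dvd _
            · exact Dvd.intro (2 * p) (by ring)
            · exact Dvd.intro _ rfl
            · exact Dvd.intro_left _ rfl
            · exact Dvd.intro 2 (by ring)
            · exact dvd_rfl
        have hfr := Cfsg.Agent.Lib.Helper21.Frobenius2.frob (G := G) (4 * p) h4p
        by_cases hex : ∃ y : G, orderOf y = 4 * p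
        · obtain ⟨y, hy⟩ := hex
          have hs4p : Nat.card {y : G // orderOf y = 4 * p} = n := by
            have := H3 y (by omega) (by omega)
            rwa [hy] at this
          rw [hf4p, hs4p] at hfr
          have : 4 ∣ 1 + 1 + n + n + n + n := (Dvd.intro _ rfl).trans hfr
          omega
        · haveI : IsEmpty {y : G // orderOf y = 4 * p} := ⟨fun y => hex ⟨y.1, y.2⟩⟩
          rw [hf4p, Nat.card_of_isEmpty] at hfr
          have h2 : p ∣ 1 + 1 + n + n + n + 0 := (Dvd.intro_left _ rfl).trans hfr
          exact dvd_lin hp hp1n h2 3 1 (by ring)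
      have hpow4 : ∀ g : G, g ^ 4 = 1 := by
        intro g
        have hm0 : orderOf g ≠ 0 := (orderOf_pos g).ne'
        obtain ⟨k, hk⟩ : ∃ k, orderOf g = 2 ^ k := by
          refine ⟨_, Nat.eq_prime_pow_of_unique_prime_dvd hm0 ?_⟩
          intro d hd hdm
          by_contra hd2
          obtain ⟨c, hc⟩ := hdm
          have hc0 : c ≠ 0 := by
            rintro rfl
            rw [mul_zero] at hc
            exact hm0 hc
          have : orderOf (g ^ c) = d := by
            rw [orderOf_pow_of_dvd hc0 ⟨d, by rw [hc, mul_comm]⟩, hc]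
            exact Nat.mul_div_cancel _ (Nat.pos_of_ne_zero hc0)
          exact hnoodd (g ^ c) d hd hd2 this
        by_cases hk3 : 3 ≤ k
        · exfalso
          have h8 : orderOf (g ^ (2 ^ (k - 3))) = 8 := by
            rw [orderOf_pow_of_dvd (by positivity) (by rw [hk]; exact pow_dvd_pow 2 (by omega)), hk,
              Nat.pow_div (by omega) (by norm_num)]
            have : k - (k - 3) = 3 := by omega
            rw [this]
          exact hno8 _ h8
        · have : orderOf g ∣ 4 := by
            rw [hk]
            exact pow_dvd_pow 2 (by omega : k ≤ 2)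
          exact orderOf_dvd_iff_pow_eq_one.1 this
      have hG2 : IsPGroup 2 G := fun g => ⟨2, by
        have : (2 : ℕ) ^ 2 = 4 := by norm_num
        rw [this]
        exact hpow4 g⟩
      have hE : Set.ncard {g : G | g ^ 2 = 1} ≤ 2 := by
        have hsub : {g : G | g ^ 2 = 1} ⊆ {1, z} := fun g hg => by
          simpa using hsq g hg
        refine (Set.ncard_le_ncard hsub (Set.toFinite _)).trans ?_
        refine (Set.ncard_insert_le 1 {z}).trans ?_
        rw [Set.ncard_singleton]
      rcases Cfsg.Agent.Lib.Helper18.UniqueInvolution.cyclic_or_quaternion hG2 hE with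
        hcyc | ⟨k, ⟨e⟩⟩
      · right; right; left
        refine ⟨hcyc, ?_⟩
        obtain ⟨g, hg⟩ := hcyc.exists_generator
        have hc : orderOf g = Nat.card G := orderOf_eq_card_of_forall_mem_zpowers hg
        have : Nat.card G ∣ 4 := hc ▸ orderOf_dvd_of_pow_eq_one (hpow4 g)
        exact Nat.dvd_antisymm this h4
      · have hk : 2 * 2 ^ k ∣ 4 := by
          haveI : NeZero (2 ^ k) := ⟨by positivity⟩
          have h1 : orderOf (e.symm (QuaternionGroup.a 1)) = 2 * 2 ^ k := by
            rw [e.symm.orderOf_eq, QuaternionGroup.orderOf_a_one]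
          rw [← h1]
          exact orderOf_dvd_of_pow_eq_one (hpow4 _)
        have hk1 : k ≤ 1 := by
          by_contra hk2
          have h2 : 2 ^ 2 ∣ 2 ^ k := pow_dvd_pow 2 (by omega)
          have h3 : 2 * 2 ^ 2 ∣ 4 := (Nat.mul_dvd_mul_left 2 h2).trans hk
          omega
        interval_cases k
        · right; right; left
          haveI hc1 : IsCyclic (QuaternionGroup (2 ^ 0)) :=
            QuaternionGroup.quaternionGroup_one_isCyclic
          refine ⟨isCyclic_of_surjective e.symm e.symm.surjective, ?_⟩
          rw [Nat.card_congr e.toEquiv, Nat.card_eq_fintype_card, QuaternionGroup.card]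
          norm_num
        · right; left
          exact ⟨e⟩
    · -- B2 : the order of G is twice an odd number
      right; right; right
      have h2G : 2 ∣ Nat.card G := hz ▸ orderOf_dvd_natCard z
      obtain ⟨P⟩ : Nonempty (Sylow 2 G) := inferInstance
      have hPcard : Nat.card (P : Subgroup G) = 2 := by
        obtain ⟨k, hk⟩ := (IsPGroup.iff_card.1 P.isPGroup')
        have h1 : 2 ∣ Nat.card (P : Subgroup G) := P.dvd_card_of_dvd_card h2G
        have h2 : Nat.card (P : Subgroup G) ∣ Nat.card G := Subgroup.card_subgroup_dvd_card _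
        rw [hk] at h1 h2 ⊢
        have hk1 : k ≠ 0 := by
          rintro rfl
          simp at h1
        have hk2 : k < 2 := by
          by_contra hk2
          exact h4 ((pow_dvd_pow 2 (by omega : 2 ≤ k)).trans h2)
        have : k = 1 := by omega
        rw [this]
        norm_num
      have hPmem : ∀ a : G, a ∈ (P : Subgroup G) → a = 1 ∨ a = z := by
        intro a ha
        apply hsq
        have h1 := pow_card_eq_one' (G := (P : Subgroup G)) (x := ⟨a, ha⟩)
        rw [hPcard] at h1
        exact congrArg Subtype.val h1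
      have hPcent : ∀ a ∈ (P : Subgroup G), ∀ g : G, g * a = a * g := by
        intro a ha g
        rcases hPmem a ha with rfl | rfl
        · simp
        · exact hzc g
      have hP : Subgroup.normalizer (P : Set G) ≤ Subgroup.centralizer (P : Set G) := by
        intro g _
        rw [Subgroup.mem_centralizer_iff]
        intro a ha
        exact (hPcent a ha g).symm
      have hc := MonoidHom.ker_transferSylow_isComplement' P hP
      obtain ⟨K, hKdef⟩ : ∃ K : Subgroup G, K = (MonoidHom.transferSylow P hP).ker := ⟨_, rfl⟩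
      rw [← hKdef] at hc
      have hcard := hc.card_mul_card
      rw [hPcard] at hcard
      have hKodd : ¬ 2 ∣ Nat.card K := by
        intro h2
        apply h4
        rw [← hcard]
        obtain ⟨c, hc'⟩ := h2
        exact ⟨c, by rw [hc']; ring⟩
      -- elements of odd order lie in K
      have hoddK : ∀ g : G, ¬ 2 ∣ orderOf g → g ∈ K := by
        intro g hg
        rw [hKdef, MonoidHom.mem_ker]
        have h1 : (MonoidHom.transferSylow P hP g) ^ orderOf g = 1 := by
          rw [← map_pow, pow_orderOf_eq_one, map_one]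
        have h2 : (MonoidHom.transferSylow P hP g) ^ 2 = 1 := by
          have h3 := pow_card_eq_one' (G := (P : Subgroup G)) (x := MonoidHom.transferSylow P hP g)
          rwa [hPcard] at h3
        have h3 : orderOf (MonoidHom.transferSylow P hP g) ∣ 2 := orderOf_dvd_of_pow_eq_one h2
        have h4' : orderOf (MonoidHom.transferSylow P hP g) ∣ orderOf g :=
          orderOf_dvd_of_pow_eq_one h1
        rcases (Nat.dvd_prime Nat.prime_two).1 h3 with h5 | h5
        · exact orderOf_eq_one_iff.1 h5
        · exact absurd (h5 ▸ h4') hg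
      have hKord : ∀ k : K, ¬ 2 ∣ orderOf k := fun k h2 =>
        hKodd (h2.trans (orderOf_dvd_natCard k))
      -- counts in K
      have hcnt : ∀ m : ℕ, ¬ 2 ∣ m →
          Nat.card {k : K // orderOf k = m} = Nat.card {g : G // orderOf g = m} := by
        intro m hm
        refine Nat.card_congr
          { toFun := fun k => ⟨k.1.1, by rw [Subgroup.orderOf_coe]; exact k.2⟩
            invFun := fun g => ⟨⟨g.1, hoddK g.1 (by rw [g.2]; exact hm)⟩, by
              rw [← Subgroup.orderOf_coe]; exact g.2⟩
            left_inv := fun k => rfl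
            right_inv := fun g => rfl }
      have hKnt : Nontrivial K := by
        by_contra hcon
        rw [not_nontrivial_iff_subsingleton] at hcon
        have h1 : Nat.card K = 1 := Nat.card_eq_one_iff_unique.2 ⟨hcon, ⟨1⟩⟩
        rw [h1] at hcard
        have h2 : orderOf g₀ ∣ 2 := by
          have := orderOf_dvd_natCard g₀
          rwa [← hcard] at this
        rcases (Nat.dvd_prime Nat.prime_two).1 h2 with h3 | h3
        · exact hg₀1 h3
        · rw [h3, hz1] at hg₀
          exact hn hg₀.symm
      obtain ⟨p, hp, hpow, -⟩ := core K n (fun k hk => by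
        have h2 := hKord k
        rw [hcnt _ h2]
        have h1 : orderOf (k : G) ≠ 1 := by
          rw [Subgroup.orderOf_coe]
          exact fun h => hk (orderOf_eq_one_iff.1 h)
        have h3 : orderOf (k : G) ≠ 2 := by
          rw [Subgroup.orderOf_coe]
          exact fun h => h2 (h ▸ dvd_rfl)
        have := H3 (k : G) h1 h3
        rwa [Subgroup.orderOf_coe] at this)
      have hp2 : p ≠ 2 := by
        rintro rfl
        obtain ⟨k, hk⟩ := exists_ne (1 : K)
        exact hKord k ((orderOf_eq_prime (hpow k) hk) ▸ dvd_rfl)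
      obtain ⟨E, iE, fE, ⟨e⟩⟩ := small_copy K
      have hpowE : ∀ x : E, x ^ p = 1 := by
        intro x
        obtain ⟨k, rfl⟩ := e.surjective x
        rw [← map_pow, hpow, map_one]
      haveI : Nontrivial E := e.symm.toEquiv.nontrivial
      refine ⟨p, E, iE, fE, hp, hp2, fun x => ⟨1, by rw [pow_one]; exact hpowE x⟩,
        exponent_eq E hp hpowE, ?_⟩
      -- the isomorphism
      obtain ⟨e2⟩ := equiv_zmod2 hPcard
      let ψ : ↥(P : Subgroup G) × ↥K →* G :=
        MonoidHom.noncommCoprod (P : Subgroup G).subtype K.subtype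
          (fun a k => (hPcent a.1 a.2 k.1).symm)
      have hψ : ∀ a : ↥(P : Subgroup G), ∀ k : K, ψ (a, k) = (a : G) * (k : G) := fun a k => rfl
      have hinj : Function.Injective ψ := by
        rw [injective_iff_map_eq_one]
        rintro ⟨a, k⟩ hak
        rw [hψ] at hak
        have h1 : (a : G) ∈ K ⊓ (P : Subgroup G) := by
          refine ⟨?_, a.2⟩
          rw [eq_inv_of_mul_eq_one_left hak]
          exact K.inv_mem k.2
        rw [hc.disjoint.eq_bot, Subgroup.mem_bot] at h1
        have h2 : (k : G) = 1 := by
          rw [h1, one_mul] at hak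
          exact hak
        exact Prod.ext (Subtype.ext h1) (Subtype.ext h2)
      have hbij : Function.Bijective ψ := by
        rw [Nat.bijective_iff_injective_and_card]
        refine ⟨hinj, ?_⟩
        rw [Nat.card_prod, hPcard, ← hcard, mul_comm]
      exact ⟨(MulEquiv.ofBijective ψ hbij).symm.trans (MulEquiv.prodCongr e2 e)⟩

end Cfsg.Agent.S3995
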