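import Cfsg.Statements.S3996
import Mathlib
import Cfsg.Agent.S3993
import Cfsg.Agent.S0144

set_option autoImplicit false
open Cfsg

namespace Cfsg.Agent.S3996

section Helpers

universe u

/-- number of elements of order `m` -/
noncomputable def sCnt (G : Type u) [Group G] (m : ℕ) : ℕ := Nat.card {g : G // orderOf g = m}

theorem sCnt_one (G : Type u) [Group G] [Finite G] : sCnt G 1 = 1 := by
  unfold sCnt
  rw [Nat.card_eq_one_iff_unique]
  refine ⟨⟨fun a b => Subtype.ext ?_⟩, ⟨⟨1, orderOf_one⟩⟩⟩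
  rw [orderOf_eq_one_iff.1 a.2, orderOf_eq_one_iff.1 b.2]

theorem sCnt_even (G : Type u) [Group G] [Finite G] (m : ℕ) (hm : 2 < m) : Even (sCnt G m) := by
  classical
  haveI := Fintype.ofFinite G
  let σ : Equiv.Perm {g : G // orderOf g = m} :=
    ⟨fun g => ⟨g.1⁻¹, by rw [orderOf_inv]; exact g.2⟩,
      fun g => ⟨g.1⁻¹, by rw [orderOf_inv]; exact g.2⟩,
      fun g => Subtype.ext (inv_inv _), fun g => Subtype.ext (inv_inv _)⟩
  have hσ : σ ^ 2 = 1 := by
    ext g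
    simp [σ, sq]
  have hsupp : σ.support = Finset.univ := by
    ext g
    simp only [Equiv.Perm.mem_support, Finset.mem_univ, iff_true]
    intro hg
    have h1 : g.1⁻¹ = g.1 := congrArg Subtype.val hg
    have h2 : g.1 ^ 2 = 1 := by
      rw [sq]
      nth_rewrite 1 [← h1]
      exact inv_mul_cancel _
    have h3 := orderOf_dvd_of_pow_eq_one h2
    rw [g.2] at h3
    have := Nat.le_of_dvd (by norm_num) h3
    omega
  have h4 := Equiv.Perm.two_dvd_card_support hσ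
  rw [hsupp, Finset.card_univ] at h4
  unfold sCnt
  rw [Nat.card_eq_fintype_card]
  exact even_iff_two_dvd.2 h4

theorem sCnt_sum (G : Type u) [Group G] [Finite G] (d : ℕ) (hd0 : d ≠ 0) :
    ∑ m ∈ d.divisors, sCnt G m = Nat.card {g : G // g ^ d = 1} := by
  classical
  haveI := Fintype.ofFinite G
  have h := sum_card_orderOf_eq_card_pow_eq_one (G := G) hd0
  have e1 : ∀ (P : G → Prop) (inst : DecidablePred P),
      Nat.card {g : G // P g} = (@Finset.filter G P inst Finset.univ).card := by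
    intro P inst
    rw [Nat.card_eq_fintype_card, Fintype.card_subtype]
  calc ∑ m ∈ d.divisors, sCnt G m
      = ∑ m ∈ d.divisors, (Finset.univ.filter fun x : G => orderOf x = m).card :=
        Finset.sum_congr rfl fun m _ => e1 _ _
    _ = (Finset.univ.filter fun x : G => x ^ d = 1).card := h
    _ = Nat.card {g : G // g ^ d = 1} := (e1 _ _).symm

theorem sCnt_frob (G : Type u) [Group G] [Finite G] (d : ℕ) (hd : d ∣ Nat.card G) :
    d ∣ ∑ m ∈ d.divisors, sCnt G m := by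
  have hd0 : d ≠ 0 := by
    rintro rfl
    exact (Nat.card_pos (α := G)).ne' (zero_dvd_iff.1 hd)
  rw [sCnt_sum G d hd0]
  exact Cfsg.Agent.S3993.result d hd

theorem sCnt_total (G : Type u) [Group G] [Finite G] :
    ∑ m ∈ (Nat.card G).divisors, sCnt G m = Nat.card G := by
  rw [sCnt_sum G _ (Nat.card_pos (α := G)).ne']
  exact Nat.card_congr (Equiv.subtypeUnivEquiv fun g => pow_card_eq_one')

theorem sCnt_values (G : Type u) [Group G] [Finite G]
    (h : ((fun m : ℕ => Nat.card {g : G // orderOf g = m}) ''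
      Set.range (orderOf : G → ℕ)).ncard = 3) :
    ∃ a b : ℕ, ∀ m, sCnt G m = 0 ∨ sCnt G m = 1 ∨ sCnt G m = a ∨ sCnt G m = b := by
  obtain ⟨x, y, z, hxy, hxz, hyz, hS⟩ := Set.ncard_eq_three.1 h
  have hmem : ∀ m, sCnt G m ≠ 0 → sCnt G m ∈ ({x, y, z} : Set ℕ) := by
    intro m hm
    rw [← hS]
    have hne : Nonempty {g : G // orderOf g = m} := by
      by_contra hne
      rw [not_nonempty_iff] at hne
      exact hm (by unfold sCnt; exact Nat.card_of_isEmpty)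
    obtain ⟨g, hg⟩ := hne
    exact ⟨m, ⟨g, hg⟩, rfl⟩
  have h1 : (1 : ℕ) ∈ ({x, y, z} : Set ℕ) := by
    have := hmem 1 (by rw [sCnt_one]; exact one_ne_zero)
    rwa [sCnt_one] at this
  have key : ∀ m, sCnt G m = 0 ∨ sCnt G m = x ∨ sCnt G m = y ∨ sCnt G m = z := by
    intro m
    by_cases hm : sCnt G m = 0
    · exact Or.inl hm
    · right
      simpa using hmem m hm
  simp only [Set.mem_insert_iff, Set.mem_singleton_iff] at h1
  rcases h1 with h1 | h1 | h1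
  · exact ⟨y, z, fun m => by rcases key m with h | h | h | h <;> [exact Or.inl h; exact Or.inr (Or.inl (h.trans h1.symm)); exact Or.inr (Or.inr (Or.inl h)); exact Or.inr (Or.inr (Or.inr h))]⟩
  · exact ⟨x, z, fun m => by rcases key m with h | h | h | h <;> [exact Or.inl h; exact Or.inr (Or.inr (Or.inl h)); exact Or.inr (Or.inl (h.trans h1.symm)); exact Or.inr (Or.inr (Or.inr h))]⟩
  · exact ⟨x, y, fun m => by rcases key m with h | h | h | h <;> [exact Or.inl h; exact Or.inr (Or.inr (Or.inl h)); exact Or.inr (Or.inr (Or.inr h)); exact Or.inr (Or.inl (h.trans h1.symm))]⟩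

theorem exists_central_invol (G : Type u) [Group G] [Finite G] (h2 : sCnt G 2 = 1) :
    ∃ z : G, orderOf z = 2 ∧ (∀ g : G, orderOf g = 2 → g = z) ∧ ∀ g : G, g * z = z * g := by
  unfold sCnt at h2
  rw [Nat.card_eq_one_iff_unique] at h2
  obtain ⟨hsub, ⟨⟨z, hz⟩⟩⟩ := h2
  have huniq : ∀ g : G, orderOf g = 2 → g = z := fun g hg =>
    congrArg Subtype.val (hsub.elim ⟨g, hg⟩ ⟨z, hz⟩)
  refine ⟨z, hz, huniq, fun g => ?_⟩
  have h3 : orderOf (g * z * g⁻¹) = 2 := by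
    have := (MulAut.conj g).orderOf_eq z
    rw [MulAut.conj_apply] at this
    rw [this, hz]
  have h4 := huniq _ h3
  calc g * z = g * z * g⁻¹ * g := by group
    _ = z * g := by rw [h4]

theorem sCnt_two_mul (G : Type u) [Group G] [Finite G] (h2 : sCnt G 2 = 1) (m : ℕ) (hm : Odd m) :
    sCnt G (2 * m) = sCnt G m := by
  obtain ⟨z, hz, huniq, hcomm⟩ := exists_central_invol G h2
  have hzz : z * z = 1 := by
    have := pow_orderOf_eq_one z
    rwa [hz, sq] at this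
  have hm0 : m ≠ 0 := by
    rintro rfl
    exact absurd hm (by decide)
  have hzm : z ^ m = z := by
    obtain ⟨j, rfl⟩ := hm
    rw [pow_succ, pow_mul, sq, hzz, one_pow, one_mul]
  have f1 : ∀ g : G, orderOf g = m → orderOf (z * g) = 2 * m := by
    intro g hg
    have hco : (orderOf z).Coprime (orderOf g) := by
      rw [hz, hg]
      exact Nat.coprime_two_left.2 hm
    rw [(show Commute z g from (hcomm g).symm).orderOf_mul_eq_mul_orderOf_of_coprime hco, hz, hg]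
  have f2 : ∀ g : G, orderOf g = 2 * m → orderOf (z * g) = m := by
    intro g hg
    have hgm : g ^ m = z := by
      apply huniq
      rw [orderOf_pow_of_dvd hm0 (by rw [hg]; exact dvd_mul_left m 2), hg]
      exact Nat.mul_div_cancel _ (Nat.pos_of_ne_zero hm0)
    have hpow : (z * g) ^ m = 1 := by
      rw [(show Commute z g from (hcomm g).symm).mul_pow, hzm, hgm, hzz]
    have hk : orderOf (z * g) ∣ m := orderOf_dvd_of_pow_eq_one hpow
    have hkodd : Odd (orderOf (z * g)) := hm.of_dvd_nat hk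
    have hco : (orderOf z).Coprime (orderOf (z * g)) := by
      rw [hz]
      exact Nat.coprime_two_left.2 hkodd
    have hc2 : Commute z (z * g) := (hcomm (z * g)).symm
    have h5 := hc2.orderOf_mul_eq_mul_orderOf_of_coprime hco
    rw [← mul_assoc, hzz, one_mul, hg, hz] at h5
    exact (Nat.eq_of_mul_eq_mul_left (by norm_num) h5).symm
  have e : {g : G // orderOf g = m} ≃ {g : G // orderOf g = 2 * m} :=
    ⟨fun g => ⟨z * g.1, f1 g.1 g.2⟩, fun g => ⟨z * g.1, f2 g.1 g.2⟩,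
      fun g => Subtype.ext (by simp [← mul_assoc, hzz]),
      fun g => Subtype.ext (by simp [← mul_assoc, hzz])⟩
  unfold sCnt
  exact (Nat.card_congr e).symm

theorem solvable_of_central_invol (G : Type u) [Group G] [Finite G] (h2 : sCnt G 2 = 1)
    (hq : ∀ (Q : Type u) [Group Q] [Finite Q], 2 * Nat.card Q = Nat.card G →
      Group.IsSolvable Q) : Group.IsSolvable G := by
  obtain ⟨z, hz, huniq, hcomm⟩ := exists_central_invol G h2
  haveI hN : (Subgroup.zpowers z).Normal := by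
    refine ⟨fun x hx g => ?_⟩
    obtain ⟨k, rfl⟩ := Subgroup.mem_zpowers_iff.1 hx
    have hc : Commute g (z ^ k) := (show Commute g z from hcomm g).zpow_right k
    rw [hc.eq, mul_inv_cancel_right]
    exact Subgroup.zpow_mem_zpowers z k
  have hcardZ : Nat.card (Subgroup.zpowers z) = 2 := by rw [Nat.card_zpowers, hz]
  have hcard : Nat.card G = Nat.card (G ⧸ Subgroup.zpowers z) * Nat.card (Subgroup.zpowers z) :=
    Subgroup.card_eq_card_quotient_mul_card_subgroup _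
  haveI : Group.IsSolvable (G ⧸ Subgroup.zpowers z) :=
    hq _ (by rw [hcard, hcardZ, mul_comm])
  haveI : Group.IsSolvable (Subgroup.zpowers z) := by
    apply Group.isSolvable_of_comm
    rintro ⟨a, ha⟩ ⟨b, hb⟩
    obtain ⟨i, rfl⟩ := Subgroup.mem_zpowers_iff.1 ha
    obtain ⟨j, rfl⟩ := Subgroup.mem_zpowers_iff.1 hb
    apply Subtype.ext
    show z ^ i * z ^ j = z ^ j * z ^ i
    rw [← zpow_add, ← zpow_add, add_comm]
  exact Group.isSolvable_of_ker_le_range (Subgroup.zpowers z).subtype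
    (QuotientGroup.mk' (Subgroup.zpowers z)) (by simp)


/-- the arithmetic context -/
@[reducible] def Ctx (s : ℕ → ℕ) (n e e' : ℕ) : Prop :=
  s 1 = 1 ∧ (∀ m, 2 < m → Even (s m)) ∧ (∀ m, s m = 0 ∨ s m = 1 ∨ s m = e ∨ s m = e') ∧
    (∀ d, d ∣ n → d ∣ ∑ m ∈ d.divisors, s m)

theorem Ctx.swap {s : ℕ → ℕ} {n e e' : ℕ} (h : Ctx s n e e') : Ctx s n e' e := by
  obtain ⟨h1, hev, hV, hF⟩ := h
  exact ⟨h1, hev, fun m => by rcases hV m with h | h | h | h <;> tauto, hF⟩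

theorem sum_div_coprime (f : ℕ → ℕ) {m k : ℕ} (h : m.Coprime k) :
    ∑ d ∈ (m * k).divisors, f d = ∑ x ∈ m.divisors, ∑ y ∈ k.divisors, f (x * y) := by
  rw [h.divisors_mul, Finset.sum_map, ← Finset.sum_product']
  exact Finset.sum_attach (m.divisors ×ˢ k.divisors) (fun p => f (p.1 * p.2))

theorem rel_pq (s : ℕ → ℕ) {p q : ℕ} (hp : p.Prime) (hq : q.Prime) (hpq : p ≠ q) :
    ∑ m ∈ (p * q).divisors, s m = s 1 + s p + s q + s (p * q) := by
  rw [sum_div_coprime s ((Nat.coprime_primes hp hq).2 hpq)]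
  simp only [hp.sum_divisors, hq.sum_divisors, one_mul, mul_one]
  ring

theorem rel_pqr (s : ℕ → ℕ) {p q r : ℕ} (hp : p.Prime) (hq : q.Prime) (hr : r.Prime)
    (hpq : p ≠ q) (hpr : p ≠ r) (hqr : q ≠ r) :
    ∑ m ∈ (p * q * r).divisors, s m =
      s 1 + s p + s q + s r + s (p * q) + s (p * r) + s (q * r) + s (p * q * r) := by
  have hco : Nat.Coprime (p * q) r :=
    Nat.coprime_mul_iff_left.2 ⟨(Nat.coprime_primes hp hr).2 hpr, (Nat.coprime_primes hq hr).2 hqr⟩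
  rw [sum_div_coprime s hco, sum_div_coprime _ ((Nat.coprime_primes hp hq).2 hpq)]
  simp only [hp.sum_divisors, hq.sum_divisors, hr.sum_divisors, one_mul, mul_one]
  ring

theorem cop4 {p : ℕ} (hp : p.Prime) (hp2 : p ≠ 2) : Nat.Coprime 4 p := by
  have h : Nat.Coprime (2 ^ 2) p :=
    Nat.Coprime.pow_left 2 ((Nat.coprime_primes Nat.prime_two hp).2 (Ne.symm hp2))
  exact h

theorem rel_4 (s : ℕ → ℕ) : ∑ m ∈ (4 : ℕ).divisors, s m = s 1 + s 2 + s 4 := by
  have e4 : (2 : ℕ) ^ 2 = 4 := by norm_num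
  have key : ∑ m ∈ (2 ^ 2 : ℕ).divisors, s m = s 1 + s 2 + s 4 := by
    rw [Nat.sum_divisors_prime_pow Nat.prime_two]
    simp only [Finset.sum_range_succ, Finset.sum_range_zero, pow_zero, pow_one, zero_add, e4]
  exact key

theorem rel_4p (s : ℕ → ℕ) {p : ℕ} (hp : p.Prime) (hp2 : p ≠ 2) :
    ∑ m ∈ (4 * p).divisors, s m = s 1 + s 2 + s 4 + s p + s (2 * p) + s (4 * p) := by
  have e4 : (2 : ℕ) ^ 2 = 4 := by norm_num
  have hco : Nat.Coprime (2 ^ 2) p := cop4 hp hp2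
  have key : ∑ m ∈ (2 ^ 2 * p).divisors, s m =
      s 1 + s 2 + s 4 + s p + s (2 * p) + s (4 * p) := by
    rw [sum_div_coprime s hco, Nat.sum_divisors_prime_pow Nat.prime_two]
    simp only [Finset.sum_range_succ, Finset.sum_range_zero, hp.sum_divisors, pow_zero, pow_one,
      one_mul, mul_one, zero_add, e4]
    ring
  exact key

theorem rel_4pq (s : ℕ → ℕ) {p q : ℕ} (hp : p.Prime) (hp2 : p ≠ 2) (hq : q.Prime) (hq2 : q ≠ 2)
    (hpq : p ≠ q) :
    ∑ m ∈ (4 * p * q).divisors, s m =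
      s 1 + s 2 + s 4 + s p + s (2 * p) + s (4 * p) + s q + s (2 * q) + s (4 * q)
        + s (p * q) + s (2 * p * q) + s (4 * p * q) := by
  have e4 : (2 : ℕ) ^ 2 = 4 := by norm_num
  have hco : Nat.Coprime (2 ^ 2) p := cop4 hp hp2
  have hco2 : Nat.Coprime (2 ^ 2 * p) q :=
    Nat.coprime_mul_iff_left.2 ⟨cop4 hq hq2, (Nat.coprime_primes hp hq).2 hpq⟩
  have key : ∑ m ∈ (2 ^ 2 * p * q).divisors, s m =
      s 1 + s 2 + s 4 + s p + s (2 * p) + s (4 * p) + s q + s (2 * q) + s (4 * q)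
        + s (p * q) + s (2 * p * q) + s (4 * p * q) := by
    rw [sum_div_coprime s hco2, sum_div_coprime _ hco, Nat.sum_divisors_prime_pow Nat.prime_two]
    simp only [Finset.sum_range_succ, Finset.sum_range_zero, hp.sum_divisors, hq.sum_divisors,
      pow_zero, pow_one, one_mul, mul_one, zero_add, e4]
    ring
  exact key

theorem zdist {p : ℕ} (hp : p.Prime) (hp2 : p ≠ 2) :
    (0 : ZMod p) ≠ 1 ∧ (0 : ZMod p) ≠ -1 ∧ (1 : ZMod p) ≠ -1 := by
  haveI := Fact.mk hp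
  have h2 : (2 : ZMod p) ≠ 0 := by
    intro h
    have h' : ((2 : ℕ) : ZMod p) = 0 := by exact_mod_cast h
    rw [ZMod.natCast_eq_zero_iff] at h'
    exact hp2 ((Nat.prime_dvd_prime_iff_eq hp Nat.prime_two).1 h')
  refine ⟨zero_ne_one, fun h => ?_, fun h => h2 ?_⟩
  · exact one_ne_zero (α := ZMod p) (by linear_combination h)
  · linear_combination h

theorem two_cancel {p : ℕ} (hp : p.Prime) (hp2 : p ≠ 2) {x : ZMod p} (h : 2 * x = 0) : x = 0 := by
  haveI := Fact.mk hp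
  have h2 : (2 : ZMod p) ≠ 0 := by
    intro h
    have h' : ((2 : ℕ) : ZMod p) = 0 := by exact_mod_cast h
    rw [ZMod.natCast_eq_zero_iff] at h'
    exact hp2 ((Nat.prime_dvd_prime_iff_eq hp Nat.prime_two).1 h')
  exact (mul_eq_zero.1 h).resolve_left h2

theorem cast_zero_of_dvd {p D E : ℕ} (h1 : p ∣ D) (h2 : D ∣ E) : ((E : ℕ) : ZMod p) = 0 :=
  (ZMod.natCast_eq_zero_iff _ _).2 (h1.trans h2)

theorem two_lt_mul {p q : ℕ} (hp : p.Prime) (hp2 : p ≠ 2) (hq : q.Prime) : 2 < p * q := by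
  have h3 : 3 ≤ p := by
    have := hp.two_le
    omega
  calc 2 < 3 * 2 := by norm_num
    _ ≤ p * q := Nat.mul_le_mul h3 hq.two_le

theorem L1 {s : ℕ → ℕ} {n e e' p : ℕ} (h : Ctx s n e e') (hp : p.Prime) (hp2 : p ≠ 2)
    (hpn : p ∣ n) : (s p : ZMod p) = -1 ∧ (s p = e ∨ s p = e') := by
  obtain ⟨h1, hev, hV, hF⟩ := id h
  obtain ⟨z01, z0m, z1m⟩ := zdist hp hp2
  have hR := hF p hpn
  rw [hp.sum_divisors, h1] at hR
  have R := cast_zero_of_dvd (dvd_refl p) hR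
  push_cast at R
  have R1 : (s p : ZMod p) = -1 := by linear_combination R
  refine ⟨R1, ?_⟩
  rcases hV p with h0 | h0 | h0 | h0
  · rw [h0] at R1
    push_cast at R1
    exact absurd R1 z0m
  · rw [h0] at R1
    push_cast at R1
    exact absurd R1 z1m
  · exact Or.inl h0
  · exact Or.inr h0

theorem L2 {s : ℕ → ℕ} {n e e' p q : ℕ} (h : Ctx s n e e') (hp : p.Prime) (hp2 : p ≠ 2)
    (hq : q.Prime) (hq2 : q ≠ 2) (hpq : p ≠ q) (hn : p * q ∣ n) (hsp : s p = e) (hsq : s q = e) :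
    s (p * q) = e' ∧ (e' : ZMod p) = 1 ∧ (e' : ZMod q) = 1 := by
  have hpn : p ∣ n := (dvd_mul_right p q).trans hn
  have hqn : q ∣ n := (dvd_mul_left q p).trans hn
  obtain ⟨ep, -⟩ := L1 h hp hp2 hpn
  obtain ⟨eq, -⟩ := L1 h hq hq2 hqn
  obtain ⟨h1, hev, hV, hF⟩ := id h
  obtain ⟨zp01, zp0m, zp1m⟩ := zdist hp hp2
  have hR := hF (p * q) hn
  rw [rel_pq s hp hq hpq, h1, hsp, hsq] at hR
  have Rp := cast_zero_of_dvd (dvd_mul_right p q) hR
  have Rq := cast_zero_of_dvd (dvd_mul_left q p) hR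
  push_cast at Rp Rq
  rw [hsp] at ep
  rw [hsq] at eq
  have X1 : (s (p * q) : ZMod p) = 1 := by linear_combination Rp - 2 * ep
  have X2 : (s (p * q) : ZMod q) = 1 := by linear_combination Rq - 2 * eq
  have hE := hev (p * q) (two_lt_mul hp hp2 hq)
  rcases hV (p * q) with h0 | h0 | h0 | h0
  · rw [h0] at X1
    push_cast at X1
    exact absurd X1 zp01
  · rw [h0] at hE
    exact absurd hE (by decide)
  · rw [h0] at X1
    exact absurd (X1.symm.trans ep) zp1m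
  · rw [h0] at X1 X2
    exact ⟨h0, X1, X2⟩

theorem TE {s : ℕ → ℕ} {n e e' p q r : ℕ} (h : Ctx s n e e') (hp : p.Prime) (hp2 : p ≠ 2)
    (hq : q.Prime) (hq2 : q ≠ 2) (hr : r.Prime) (hr2 : r ≠ 2) (hpq : p ≠ q) (hpr : p ≠ r)
    (hqr : q ≠ r) (hn : p * q * r ∣ n) (hsp : s p = e) (hsq : s q = e) : s r = e := by
  have hpqn : p * q ∣ n := (dvd_mul_right _ r).trans hn
  have hprn : p * r ∣ n := (Dvd.intro q (by ring) : p * r ∣ p * q * r).trans hn
  have hqrn : q * r ∣ n := (Dvd.intro p (by ring) : q * r ∣ p * q * r).trans hn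
  have hpn : p ∣ n := (dvd_mul_right p q).trans hpqn
  have hqn : q ∣ n := (dvd_mul_left q p).trans hpqn
  have hrn : r ∣ n := (dvd_mul_left r p).trans hprn
  obtain ⟨ep, -⟩ := L1 h hp hp2 hpn
  obtain ⟨eq, -⟩ := L1 h hq hq2 hqn
  obtain ⟨er, hr'⟩ := L1 h hr hr2 hrn
  obtain ⟨hspq, e'p, e'q⟩ := L2 h hp hp2 hq hq2 hpq hpqn hsp hsq
  rcases hr' with hsr | hsr
  · exact hsr
  exfalso
  obtain ⟨h1, hev, hV, hF⟩ := id h
  obtain ⟨zp01, zp0m, zp1m⟩ := zdist hp hp2
  obtain ⟨zq01, zq0m, zq1m⟩ := zdist hq hq2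
  obtain ⟨zr01, zr0m, zr1m⟩ := zdist hr hr2
  rw [hsp] at ep
  rw [hsq] at eq
  rw [hsr] at er
  -- the pair (p, r)
  have hRpr := hF (p * r) hprn
  rw [rel_pq s hp hr hpr, h1, hsp, hsr] at hRpr
  have Rpr_p := cast_zero_of_dvd (dvd_mul_right p r) hRpr
  have Rpr_r := cast_zero_of_dvd (dvd_mul_left r p) hRpr
  push_cast at Rpr_p Rpr_r
  have hspr : s (p * r) = e := by
    have X : (s (p * r) : ZMod p) = -1 := by linear_combination Rpr_p - ep - e'p
    rcases hV (p * r) with h0 | h0 | h0 | h0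
    · rw [h0] at X
      push_cast at X
      exact absurd X zp0m
    · have hE := hev (p * r) (two_lt_mul hp hp2 hr)
      rw [h0] at hE
      exact absurd hE (by decide)
    · exact h0
    · rw [h0] at X
      exact absurd (e'p.symm.trans X) zp1m
  rw [hspr] at Rpr_r
  have er0 : (e : ZMod r) = 0 := two_cancel hr hr2 (by linear_combination Rpr_r - er)
  -- the pair (q, r)
  have hRqr := hF (q * r) hqrn
  rw [rel_pq s hq hr hqr, h1, hsq, hsr] at hRqr
  have Rqr_q := cast_zero_of_dvd (dvd_mul_right q r) hRqr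
  push_cast at Rqr_q
  have hsqr : s (q * r) = e := by
    have X : (s (q * r) : ZMod q) = -1 := by linear_combination Rqr_q - eq - e'q
    rcases hV (q * r) with h0 | h0 | h0 | h0
    · rw [h0] at X
      push_cast at X
      exact absurd X zq0m
    · have hE := hev (q * r) (two_lt_mul hq hq2 hr)
      rw [h0] at hE
      exact absurd hE (by decide)
    · exact h0
    · rw [h0] at X
      exact absurd (e'q.symm.trans X) zq1m
  -- the triple
  have hR3 := hF (p * q * r) hn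
  rw [rel_pqr s hp hq hr hpq hpr hqr, h1, hsp, hsq, hsr, hspq, hspr, hsqr] at hR3
  have R3 := cast_zero_of_dvd (dvd_mul_left r (p * q)) hR3
  push_cast at R3
  have X : (s (p * q * r) : ZMod r) = 1 := by linear_combination R3 - 4 * er0 - 2 * er
  rcases hV (p * q * r) with h0 | h0 | h0 | h0
  · rw [h0] at X
    push_cast at X
    exact absurd X zr01
  · have hE := hev (p * q * r)
      (lt_of_lt_of_le (two_lt_mul hp hp2 hq) (Nat.le_mul_of_pos_right _ hr.pos))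
    rw [h0] at hE
    exact absurd hE (by decide)
  · rw [h0] at X
    exact absurd (er0.symm.trans X) zr01
  · rw [h0] at X
    exact absurd (X.symm.trans er) zr1m

theorem K2 {s : ℕ → ℕ} {n e e' d p q : ℕ} (h : Ctx s n e e') (hdn : d ∣ n) (hd : Odd d)
    (hle : ∑ m ∈ d.divisors, s m ≤ d)
    (hp : p.Prime) (hq : q.Prime) (hpq : p ≠ q) (hpd : p ∣ d) (hqd : q ∣ d)
    (hsp : s p = e) (hsq : s q = e) : False := by
  have odd2 : ∀ t, t ∣ d → t ≠ 2 := by
    intro t ht h2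
    rw [h2] at ht
    exact (Nat.not_even_iff_odd.2 hd) (even_iff_two_dvd.2 ht)
  have hd0 : d ≠ 0 := by
    rintro rfl
    exact absurd hd (by decide)
  have hp2 := odd2 p hpd
  have hq2 := odd2 q hqd
  have hpqd : p * q ∣ d := ((Nat.coprime_primes hp hq).2 hpq).mul_dvd_of_dvd_of_dvd hpd hqd
  obtain ⟨hspq, e'p, e'q⟩ := L2 h hp hp2 hq hq2 hpq (hpqd.trans hdn) hsp hsq
  obtain ⟨ep, -⟩ := L1 h hp hp2 (hpd.trans hdn)
  rw [hsp] at ep
  have hA : ∀ t : ℕ, t.Prime → t ∣ d → s t = e ∧ (e' : ZMod t) = 1 := by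
    intro t ht htd
    by_cases htp : t = p
    · rw [htp]
      exact ⟨hsp, e'p⟩
    by_cases htq : t = q
    · rw [htq]
      exact ⟨hsq, e'q⟩
    have ht2 := odd2 t htd
    have hpqt : p * q * t ∣ d := by
      refine Nat.Coprime.mul_dvd_of_dvd_of_dvd ?_ hpqd htd
      exact Nat.coprime_mul_iff_left.2 ⟨(Nat.coprime_primes hp ht).2 (Ne.symm htp),
        (Nat.coprime_primes hq ht).2 (Ne.symm htq)⟩
    have hst : s t = e := TE h hp hp2 hq hq2 ht ht2 hpq (Ne.symm htp) (Ne.symm htq)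
      (hpqt.trans hdn) hsp hsq
    have hptd : p * t ∣ d :=
      ((Nat.coprime_primes hp ht).2 (Ne.symm htp)).mul_dvd_of_dvd_of_dvd hpd htd
    obtain ⟨-, -, e't⟩ := L2 h hp hp2 ht ht2 (Ne.symm htp) (hptd.trans hdn) hsp hst
    exact ⟨hst, e't⟩
  obtain ⟨h1, hev, hV, hF⟩ := id h
  have hB : ∀ t : ℕ, t.Prime → t ∣ d → ∀ j, 1 ≤ j → t ^ (j + 1) ∣ d → s (t ^ (j + 1)) = 0 := by
    intro t ht htd j hj hdvd
    have ht2 := odd2 t htd
    obtain ⟨hst, e't⟩ := hA t ht htd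
    obtain ⟨et, -⟩ := L1 h ht ht2 (htd.trans hdn)
    rw [hst] at et
    obtain ⟨z01, z0m, z1m⟩ := zdist ht ht2
    have hR1 := hF (t ^ (j + 1)) (hdvd.trans hdn)
    have hR0 := hF (t ^ j) ((pow_dvd_pow t (Nat.le_succ j)).trans (hdvd.trans hdn))
    rw [Nat.sum_divisors_prime_pow ht] at hR1 hR0
    rw [Finset.sum_range_succ] at hR1
    have ht1 : t ∣ t ^ (j + 1) := dvd_pow_self t (by omega)
    have ht0 : t ∣ t ^ j := dvd_pow_self t (by omega)
    have hts : t ∣ s (t ^ (j + 1)) := (Nat.dvd_add_right (ht0.trans hR0)).1 (ht1.trans hR1)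
    have X : (s (t ^ (j + 1)) : ZMod t) = 0 := (ZMod.natCast_eq_zero_iff _ _).2 hts
    rcases hV (t ^ (j + 1)) with h0 | h0 | h0 | h0
    · exact h0
    · rw [h0] at X
      push_cast at X
      exact absurd X.symm z01
    · rw [h0] at X
      exact absurd (X.symm.trans et) z0m
    · rw [h0] at X
      exact absurd (X.symm.trans e't) z01
  have hC : ∀ t : ℕ, t.Prime → t ∣ d → ∀ k, 1 ≤ k → t ^ k ∣ d →
      ∑ i ∈ Finset.range (k + 1), s (t ^ i) = 1 + e := by
    intro t ht htd k hk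
    induction k, hk using Nat.le_induction with
    | base =>
      intro _
      rw [Finset.sum_range_succ, Finset.sum_range_one, pow_zero, pow_one, h1, (hA t ht htd).1]
    | succ k hk ih =>
      intro hdvd
      rw [Finset.sum_range_succ, ih ((pow_dvd_pow t (Nat.le_succ k)).trans hdvd),
        hB t ht htd k hk hdvd, add_zero]
  have hdiv : d ∣ 1 + e := by
    rw [Nat.dvd_iff_prime_pow_dvd_dvd]
    intro t k ht hk
    rcases Nat.eq_zero_or_pos k with rfl | hkpos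
    · rw [pow_zero]
      exact one_dvd _
    have htd : t ∣ d := (dvd_pow_self t (by omega)).trans hk
    have hR := hF (t ^ k) (hk.trans hdn)
    rw [Nat.sum_divisors_prime_pow ht, hC t ht htd k hkpos hk] at hR
    exact hR
  have hsub : (p * q).divisors ⊆ d.divisors := Nat.divisors_subset_of_dvd hd0 hpqd
  have hle2 : ∑ m ∈ (p * q).divisors, s m ≤ ∑ m ∈ d.divisors, s m :=
    Finset.sum_le_sum_of_subset hsub
  rw [rel_pq s hp hq hpq, h1, hsp, hsq] at hle2
  have hle3 : d ≤ 1 + e := Nat.le_of_dvd (by omega) hdiv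
  have he0 : e = 0 := by omega
  obtain ⟨z01, z0m, z1m⟩ := zdist hp hp2
  rw [he0] at ep
  push_cast at ep
  exact z0m ep

theorem K2' {s : ℕ → ℕ} {n a b d p q : ℕ} (h : Ctx s n a b) (hdn : d ∣ n) (hd : Odd d)
    (hle : ∑ m ∈ d.divisors, s m ≤ d) (hp : p.Prime) (hq : q.Prime) (hpq : p ≠ q)
    (hpd : p ∣ d) (hqd : q ∣ d) (e1 : s p = s q) : False := by
  have hp2 : p ≠ 2 := by
    intro h2
    rw [h2] at hpd
    exact (Nat.not_even_iff_odd.2 hd) (even_iff_two_dvd.2 hpd)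
  rcases (L1 h hp hp2 (hpd.trans hdn)).2 with v | v
  · exact K2 h hdn hd hle hp hq hpq hpd hqd v (e1.symm.trans v)
  · exact K2 (Ctx.swap h) hdn hd hle hp hq hpq hpd hqd v (e1.symm.trans v)

theorem no3_odd {s : ℕ → ℕ} {n a b d : ℕ} (h : Ctx s n a b) (hdn : d ∣ n) (hd : Odd d)
    (hle : ∑ m ∈ d.divisors, s m ≤ d) {p q r : ℕ} (hp : p.Prime) (hq : q.Prime) (hr : r.Prime)
    (hpq : p ≠ q) (hpr : p ≠ r) (hqr : q ≠ r) (hpd : p ∣ d) (hqd : q ∣ d) (hrd : r ∣ d) :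
    False := by
  have odd2 : ∀ t, t ∣ d → t ≠ 2 := by
    intro t ht h2
    rw [h2] at ht
    exact (Nat.not_even_iff_odd.2 hd) (even_iff_two_dvd.2 ht)
  obtain ⟨-, vp⟩ := L1 h hp (odd2 p hpd) (hpd.trans hdn)
  obtain ⟨-, vq⟩ := L1 h hq (odd2 q hqd) (hqd.trans hdn)
  obtain ⟨-, vr⟩ := L1 h hr (odd2 r hrd) (hrd.trans hdn)
  by_cases e1 : s p = s q
  · exact K2' h hdn hd hle hp hq hpq hpd hqd e1
  by_cases e2 : s p = s r
  · exact K2' h hdn hd hle hp hr hpr hpd hrd e2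
  have e3 : s q = s r := by omega
  exact K2' h hdn hd hle hq hr hqr hqd hrd e3

theorem K1aux {s : ℕ → ℕ} {n e e' p q : ℕ} (h : Ctx s n e e') (heo : Odd e)
    (hp : p.Prime) (hp2 : p ≠ 2) (hq : q.Prime) (hq2 : q ≠ 2) (hpq : p ≠ q) (hpn : p ∣ n)
    (hqn : q ∣ n) : False := by
  have hpqn : p * q ∣ n := ((Nat.coprime_primes hp hq).2 hpq).mul_dvd_of_dvd_of_dvd hpn hqn
  obtain ⟨-, vp⟩ := L1 h hp hp2 hpn
  obtain ⟨-, vq⟩ := L1 h hq hq2 hqn
  obtain ⟨h1, hev, hV, hF⟩ := id h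
  have hEp := hev p (by have := hp.two_le; omega)
  have hEq := hev q (by have := hq.two_le; omega)
  have hEpq := hev (p * q) (two_lt_mul hp hp2 hq)
  have hsp : s p = e' := by
    rcases vp with v | v
    · rw [v] at hEp
      exact absurd heo (Nat.not_odd_iff_even.2 hEp)
    · exact v
  have hsq : s q = e' := by
    rcases vq with v | v
    · rw [v] at hEq
      exact absurd heo (Nat.not_odd_iff_even.2 hEq)
    · exact v
  obtain ⟨hspq, -, -⟩ := L2 (Ctx.swap h) hp hp2 hq hq2 hpq hpqn hsp hsq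
  rw [hspq] at hEpq
  exact absurd heo (Nat.not_odd_iff_even.2 hEpq)

theorem K1 {s : ℕ → ℕ} {n e e' p q : ℕ} (h : Ctx s n e e') (h2n : 2 ∣ n) (hs2 : s 2 ≠ 1)
    (hp : p.Prime) (hp2 : p ≠ 2) (hq : q.Prime) (hq2 : q ≠ 2) (hpq : p ≠ q) (hpn : p ∣ n)
    (hqn : q ∣ n) : False := by
  obtain ⟨h1, hev, hV, hF⟩ := id h
  have hR := hF 2 h2n
  rw [Nat.prime_two.sum_divisors, h1] at hR
  rcases hV 2 with v | v | v | v
  · omega
  · exact hs2 v
  · exact K1aux h (by rw [← v, Nat.odd_iff]; omega) hp hp2 hq hq2 hpq hpn hqn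
  · exact K1aux (Ctx.swap h) (by rw [← v, Nat.odd_iff]; omega) hp hp2 hq hq2 hpq hpn hqn

theorem K4fact {s : ℕ → ℕ} {n e e' t : ℕ} (h : Ctx s n e e') (h4n : 4 ∣ n) (hs2 : s 2 = 1)
    (hG1 : ∀ m, Odd m → s (2 * m) = s m) (hs4 : s 4 = e) (he4 : e % 4 = 2)
    (ht : t.Prime) (ht2 : t ≠ 2) (htn : t ∣ n) :
    s (4 * t) % 4 = 0 ∧ (s (4 * t) = 0 ∨ s (4 * t) = e') ∧
      (e : ZMod t) + (s (4 * t) : ZMod t) = 0 := by
  obtain ⟨et, -⟩ := L1 h ht ht2 htn
  obtain ⟨h1, hev, hV, hF⟩ := id h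
  have htodd : Odd t := ht.odd_of_ne_two ht2
  have h4t : 4 * t ∣ n := (cop4 ht ht2).mul_dvd_of_dvd_of_dvd h4n htn
  have hR := hF (4 * t) h4t
  rw [rel_4p s ht ht2, h1, hs2, hs4, hG1 t htodd] at hR
  have hEt := hev t (by have := ht.two_le; omega)
  rw [Nat.even_iff] at hEt
  have hm4 : 4 ∣ 1 + 1 + e + s t + s t + s (4 * t) := (dvd_mul_right 4 t).trans hR
  have c1 : s (4 * t) % 4 = 0 := by omega
  have Rt := cast_zero_of_dvd (dvd_mul_left t 4) hR
  push_cast at Rt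
  have c3 : (e : ZMod t) + (s (4 * t) : ZMod t) = 0 := by linear_combination Rt - 2 * et
  refine ⟨c1, ?_, c3⟩
  rcases hV (4 * t) with h0 | h0 | h0 | h0
  · exact Or.inl h0
  · omega
  · omega
  · exact Or.inr h0

theorem K4_aa {s : ℕ → ℕ} {n e e' p q : ℕ} (h : Ctx s n e e') (h4n : 4 ∣ n) (hs2 : s 2 = 1)
    (hG1 : ∀ m, Odd m → s (2 * m) = s m) (hs4 : s 4 = e) (he4 : e % 4 = 2)
    (hp : p.Prime) (hp2 : p ≠ 2) (hq : q.Prime) (hq2 : q ≠ 2) (hpq : p ≠ q) (hpn : p ∣ n)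
    (hqn : q ∣ n) (hsp : s p = e) (hsq : s q = e) : False := by
  obtain ⟨c1p, c2p, c3p⟩ := K4fact h h4n hs2 hG1 hs4 he4 hp hp2 hpn
  obtain ⟨c1q, c2q, c3q⟩ := K4fact h h4n hs2 hG1 hs4 he4 hq hq2 hqn
  obtain ⟨ep, -⟩ := L1 h hp hp2 hpn
  obtain ⟨eq, -⟩ := L1 h hq hq2 hqn
  have hpqn : p * q ∣ n := ((Nat.coprime_primes hp hq).2 hpq).mul_dvd_of_dvd_of_dvd hpn hqn
  obtain ⟨hspq, e'p, e'q⟩ := L2 h hp hp2 hq hq2 hpq hpqn hsp hsq
  obtain ⟨zp01, zp0m, zp1m⟩ := zdist hp hp2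
  obtain ⟨zq01, zq0m, zq1m⟩ := zdist hq hq2
  rw [hsp] at ep
  rw [hsq] at eq
  have hpodd : Odd p := hp.odd_of_ne_two hp2
  have hqodd : Odd q := hq.odd_of_ne_two hq2
  have hs4p : s (4 * p) = e' := by
    rcases c2p with h0 | h0
    · rw [h0] at c3p
      push_cast at c3p
      exact absurd (show (0 : ZMod p) = -1 by linear_combination ep - c3p) zp0m
    · exact h0
  have hs4q : s (4 * q) = e' := by
    rcases c2q with h0 | h0
    · rw [h0] at c3q
      push_cast at c3q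
      exact absurd (show (0 : ZMod q) = -1 by linear_combination eq - c3q) zq0m
    · exact h0
  rw [hs4p] at c1p
  obtain ⟨h1, hev, hV, hF⟩ := id h
  have h4pqn : 4 * p * q ∣ n :=
    Nat.Coprime.mul_dvd_of_dvd_of_dvd
      (Nat.coprime_mul_iff_left.2 ⟨cop4 hq hq2, (Nat.coprime_primes hp hq).2 hpq⟩)
      ((cop4 hp hp2).mul_dvd_of_dvd_of_dvd h4n hpn) hqn
  have hR := hF (4 * p * q) h4pqn
  rw [rel_4pq s hp hp2 hq hq2 hpq, h1, hs2, hs4, hG1 p hpodd, hG1 q hqodd, mul_assoc 2 p q,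
    hG1 (p * q) (hpodd.mul hqodd), hsp, hsq, hs4p, hs4q, hspq] at hR
  have Rp := cast_zero_of_dvd ((dvd_mul_left p 4).mul_right q) hR
  push_cast at Rp
  have X : (s (4 * p * q) : ZMod p) = -1 := by linear_combination Rp - 5 * ep - 4 * e'p
  have hE := hev (4 * p * q)
    (lt_of_lt_of_le (by have := hp.two_le; omega : 2 < 4 * p) (Nat.le_mul_of_pos_right _ hq.pos))
  have hs4pq : s (4 * p * q) = e := by
    rcases hV (4 * p * q) with h0 | h0 | h0 | h0
    · rw [h0] at X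
      push_cast at X
      exact absurd X zp0m
    · rw [h0] at hE
      exact absurd hE (by decide)
    · exact h0
    · rw [h0] at X
      exact absurd (e'p.symm.trans X) zp1m
  rw [hs4pq] at hR
  have hm4 := ((dvd_mul_right 4 p).mul_right q).trans hR
  omega

theorem K4_bb {s : ℕ → ℕ} {n e e' p q : ℕ} (h : Ctx s n e e') (h4n : 4 ∣ n) (hs2 : s 2 = 1)
    (hG1 : ∀ m, Odd m → s (2 * m) = s m) (hs4 : s 4 = e) (he4 : e % 4 = 2)
    (hp : p.Prime) (hp2 : p ≠ 2) (hq : q.Prime) (hq2 : q ≠ 2) (hpq : p ≠ q) (hpn : p ∣ n)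
    (hqn : q ∣ n) (hsp : s p = e') (hsq : s q = e') : False := by
  obtain ⟨c1p, c2p, c3p⟩ := K4fact h h4n hs2 hG1 hs4 he4 hp hp2 hpn
  obtain ⟨c1q, c2q, c3q⟩ := K4fact h h4n hs2 hG1 hs4 he4 hq hq2 hqn
  obtain ⟨ep, -⟩ := L1 h hp hp2 hpn
  obtain ⟨eq, -⟩ := L1 h hq hq2 hqn
  have hpqn : p * q ∣ n := ((Nat.coprime_primes hp hq).2 hpq).mul_dvd_of_dvd_of_dvd hpn hqn
  obtain ⟨hspq, up, uq⟩ := L2 (Ctx.swap h) hp hp2 hq hq2 hpq hpqn hsp hsq
  obtain ⟨zp01, zp0m, zp1m⟩ := zdist hp hp2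
  obtain ⟨zq01, zq0m, zq1m⟩ := zdist hq hq2
  rw [hsp] at ep
  rw [hsq] at eq
  have hpodd : Odd p := hp.odd_of_ne_two hp2
  have hqodd : Odd q := hq.odd_of_ne_two hq2
  have hs4p : s (4 * p) = e' := by
    rcases c2p with h0 | h0
    · rw [h0] at c3p
      push_cast at c3p
      exact absurd (show (0 : ZMod p) = 1 by linear_combination up - c3p) zp01
    · exact h0
  have hs4q : s (4 * q) = e' := by
    rcases c2q with h0 | h0
    · rw [h0] at c3q
      push_cast at c3q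
      exact absurd (show (0 : ZMod q) = 1 by linear_combination uq - c3q) zq01
    · exact h0
  rw [hs4p] at c1p
  obtain ⟨h1, hev, hV, hF⟩ := id h
  have h4pqn : 4 * p * q ∣ n :=
    Nat.Coprime.mul_dvd_of_dvd_of_dvd
      (Nat.coprime_mul_iff_left.2 ⟨cop4 hq hq2, (Nat.coprime_primes hp hq).2 hpq⟩)
      ((cop4 hp hp2).mul_dvd_of_dvd_of_dvd h4n hpn) hqn
  have hR := hF (4 * p * q) h4pqn
  rw [rel_4pq s hp hp2 hq hq2 hpq, h1, hs2, hs4, hG1 p hpodd, hG1 q hqodd, mul_assoc 2 p q,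
    hG1 (p * q) (hpodd.mul hqodd), hsp, hsq, hs4p, hs4q, hspq] at hR
  have Rp := cast_zero_of_dvd ((dvd_mul_left p 4).mul_right q) hR
  push_cast at Rp
  have X : (s (4 * p * q) : ZMod p) = 1 := by linear_combination Rp - 3 * up - 6 * ep
  have hE := hev (4 * p * q)
    (lt_of_lt_of_le (by have := hp.two_le; omega : 2 < 4 * p) (Nat.le_mul_of_pos_right _ hq.pos))
  have hs4pq : s (4 * p * q) = e := by
    rcases hV (4 * p * q) with h0 | h0 | h0 | h0
    · rw [h0] at X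
      push_cast at X
      exact absurd X zp01
    · rw [h0] at hE
      exact absurd hE (by decide)
    · exact h0
    · rw [h0] at X
      exact absurd (X.symm.trans ep) zp1m
  rw [hs4pq] at hR
  have hm4 := ((dvd_mul_right 4 p).mul_right q).trans hR
  omega

theorem K4_ab {s : ℕ → ℕ} {n e e' p q : ℕ} (h : Ctx s n e e') (h4n : 4 ∣ n) (hs2 : s 2 = 1)
    (hG1 : ∀ m, Odd m → s (2 * m) = s m) (hs4 : s 4 = e) (he4 : e % 4 = 2)
    (hp : p.Prime) (hp2 : p ≠ 2) (hq : q.Prime) (hq2 : q ≠ 2) (hpq : p ≠ q) (hpn : p ∣ n)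
    (hqn : q ∣ n) (hsp : s p = e) (hsq : s q = e') : False := by
  obtain ⟨c1p, c2p, c3p⟩ := K4fact h h4n hs2 hG1 hs4 he4 hp hp2 hpn
  obtain ⟨c1q, c2q, c3q⟩ := K4fact h h4n hs2 hG1 hs4 he4 hq hq2 hqn
  obtain ⟨ep, -⟩ := L1 h hp hp2 hpn
  obtain ⟨eq, -⟩ := L1 h hq hq2 hqn
  have hpqn : p * q ∣ n := ((Nat.coprime_primes hp hq).2 hpq).mul_dvd_of_dvd_of_dvd hpn hqn
  obtain ⟨zp01, zp0m, zp1m⟩ := zdist hp hp2
  obtain ⟨zq01, zq0m, zq1m⟩ := zdist hq hq2
  rw [hsp] at ep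
  rw [hsq] at eq
  have hpodd : Odd p := hp.odd_of_ne_two hp2
  have hqodd : Odd q := hq.odd_of_ne_two hq2
  have hs4p : s (4 * p) = e' := by
    rcases c2p with h0 | h0
    · rw [h0] at c3p
      push_cast at c3p
      exact absurd (show (0 : ZMod p) = -1 by linear_combination ep - c3p) zp0m
    · exact h0
  rw [hs4p] at c3p
  have e'p : (e' : ZMod p) = 1 := by linear_combination c3p - ep
  obtain ⟨h1, hev, hV, hF⟩ := id h
  have hRpq := hF (p * q) hpqn
  rw [rel_pq s hp hq hpq, h1, hsp, hsq] at hRpq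
  have Rpq_p := cast_zero_of_dvd (dvd_mul_right p q) hRpq
  have Rpq_q := cast_zero_of_dvd (dvd_mul_left q p) hRpq
  push_cast at Rpq_p Rpq_q
  have hspq : s (p * q) = e := by
    have X : (s (p * q) : ZMod p) = -1 := by linear_combination Rpq_p - ep - e'p
    rcases hV (p * q) with h0 | h0 | h0 | h0
    · rw [h0] at X
      push_cast at X
      exact absurd X zp0m
    · have hE := hev (p * q) (two_lt_mul hp hp2 hq)
      rw [h0] at hE
      exact absurd hE (by decide)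
    · exact h0
    · rw [h0] at X
      exact absurd (e'p.symm.trans X) zp1m
  rw [hspq] at Rpq_q
  have uq0 : (e : ZMod q) = 0 := two_cancel hq hq2 (by linear_combination Rpq_q - eq)
  have hs4q : s (4 * q) = 0 := by
    rcases c2q with h0 | h0
    · exact h0
    · rw [h0] at c3q
      exact absurd (show (0 : ZMod q) = -1 by linear_combination eq - c3q + uq0) zq0m
  have h4pqn : 4 * p * q ∣ n :=
    Nat.Coprime.mul_dvd_of_dvd_of_dvd
      (Nat.coprime_mul_iff_left.2 ⟨cop4 hq hq2, (Nat.coprime_primes hp hq).2 hpq⟩)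
      ((cop4 hp hp2).mul_dvd_of_dvd_of_dvd h4n hpn) hqn
  have hR := hF (4 * p * q) h4pqn
  rw [rel_4pq s hp hp2 hq hq2 hpq, h1, hs2, hs4, hG1 p hpodd, hG1 q hqodd, mul_assoc 2 p q,
    hG1 (p * q) (hpodd.mul hqodd), hsp, hsq, hs4p, hs4q, hspq] at hR
  have Rq := cast_zero_of_dvd (dvd_mul_left q (4 * p)) hR
  push_cast at Rq
  have X : (s (4 * p * q) : ZMod q) = 1 := by linear_combination Rq - 5 * uq0 - 3 * eq
  have hE := hev (4 * p * q)
    (lt_of_lt_of_le (by have := hp.two_le; omega : 2 < 4 * p) (Nat.le_mul_of_pos_right _ hq.pos))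
  rcases hV (4 * p * q) with h0 | h0 | h0 | h0
  · rw [h0] at X
    push_cast at X
    exact absurd X zq01
  · rw [h0] at hE
    exact absurd hE (by decide)
  · rw [h0] at X
    exact absurd (uq0.symm.trans X) zq01
  · rw [h0] at X
    exact absurd (X.symm.trans eq) zq1m

theorem K4aux {s : ℕ → ℕ} {n e e' p q : ℕ} (h : Ctx s n e e') (h4n : 4 ∣ n) (hs2 : s 2 = 1)
    (hG1 : ∀ m, Odd m → s (2 * m) = s m) (hs4 : s 4 = e) (he4 : e % 4 = 2)
    (hp : p.Prime) (hp2 : p ≠ 2) (hq : q.Prime) (hq2 : q ≠ 2) (hpq : p ≠ q) (hpn : p ∣ n)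
    (hqn : q ∣ n) : False := by
  obtain ⟨-, vp⟩ := L1 h hp hp2 hpn
  obtain ⟨-, vq⟩ := L1 h hq hq2 hqn
  rcases vp with vp | vp <;> rcases vq with vq | vq
  · exact K4_aa h h4n hs2 hG1 hs4 he4 hp hp2 hq hq2 hpq hpn hqn vp vq
  · exact K4_ab h h4n hs2 hG1 hs4 he4 hp hp2 hq hq2 hpq hpn hqn vp vq
  · exact K4_ab h h4n hs2 hG1 hs4 he4 hq hq2 hp hp2 hpq.symm hqn hpn vq vp
  · exact K4_bb h h4n hs2 hG1 hs4 he4 hp hp2 hq hq2 hpq hpn hqn vp vq

theorem K4 {s : ℕ → ℕ} {n e e' p q : ℕ} (h : Ctx s n e e') (h4n : 4 ∣ n) (hs2 : s 2 = 1)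
    (hG1 : ∀ m, Odd m → s (2 * m) = s m)
    (hp : p.Prime) (hp2 : p ≠ 2) (hq : q.Prime) (hq2 : q ≠ 2) (hpq : p ≠ q) (hpn : p ∣ n)
    (hqn : q ∣ n) : False := by
  obtain ⟨h1, hev, hV, hF⟩ := id h
  have hR := hF 4 h4n
  rw [rel_4 s, h1, hs2] at hR
  have hm : s 4 % 4 = 2 := by omega
  rcases hV 4 with v | v | v | v
  · omega
  · omega
  · exact K4aux h h4n hs2 hG1 v (by rw [← v]; exact hm) hp hp2 hq hq2 hpq hpn hqn
  · exact K4aux (Ctx.swap h) h4n hs2 hG1 v (by rw [← v]; exact hm) hp hp2 hq hq2 hpq hpn hqn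

theorem no3_of_pair {n : ℕ}
    (H : ∀ p q : ℕ, p.Prime → p ≠ 2 → q.Prime → q ≠ 2 → p ≠ q → p ∣ n → q ∣ n → False)
    {p q r : ℕ} (hp : p.Prime) (hq : q.Prime) (hr : r.Prime) (hpq : p ≠ q) (hpr : p ≠ r)
    (hqr : q ≠ r) (hpn : p ∣ n) (hqn : q ∣ n) (hrn : r ∣ n) : False := by
  by_cases hp2 : p = 2
  · exact H q r hq (by omega) hr (by omega) hqr hqn hrn
  · by_cases hq2 : q = 2
    · exact H p r hp hp2 hr (by omega) hpr hpn hrn
    · exact H p q hp hp2 hq hq2 hpq hpn hqn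

theorem two_primes_of_no3 (n : ℕ) (hn : n ≠ 0)
    (H : ∀ p q r : ℕ, p.Prime → q.Prime → r.Prime → p ≠ q → p ≠ r → q ≠ r →
      p ∣ n → q ∣ n → r ∣ n → False) :
    ∃ p q α β : ℕ, p.Prime ∧ q.Prime ∧ n = p ^ α * q ^ β := by
  by_cases h1 : n = 1
  · exact ⟨2, 2, 0, 0, Nat.prime_two, Nat.prime_two, by simp [h1]⟩
  obtain ⟨p, hp, hpn⟩ : ∃ p : ℕ, p.Prime ∧ p ∣ n :=
    ⟨n.minFac, Nat.minFac_prime h1, Nat.minFac_dvd n⟩
  obtain ⟨m, hnm, hpm, hm0⟩ : ∃ m : ℕ, p ^ n.factorization p * m = n ∧ ¬ p ∣ m ∧ m ≠ 0 :=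
    ⟨_, Nat.ordProj_mul_ordCompl_eq_self n p, Nat.not_dvd_ordCompl hp hn,
      (Nat.ordCompl_pos p hn).ne'⟩
  have hmn : m ∣ n := Dvd.intro_left _ hnm
  by_cases hm1 : m = 1
  · refine ⟨p, p, n.factorization p, 0, hp, hp, ?_⟩
    rw [hm1] at hnm
    rw [pow_zero]
    exact hnm.symm
  obtain ⟨q, hq, hqm⟩ : ∃ q : ℕ, q.Prime ∧ q ∣ m :=
    ⟨m.minFac, Nat.minFac_prime hm1, Nat.minFac_dvd m⟩
  have hpq : p ≠ q := by
    intro hh
    rw [hh] at hpm
    exact hpm hqm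
  obtain ⟨m', hmm', hqm', hm'0⟩ :
      ∃ m' : ℕ, q ^ m.factorization q * m' = m ∧ ¬ q ∣ m' ∧ m' ≠ 0 :=
    ⟨_, Nat.ordProj_mul_ordCompl_eq_self m q, Nat.not_dvd_ordCompl hq hm0,
      (Nat.ordCompl_pos q hm0).ne'⟩
  have hm'm : m' ∣ m := Dvd.intro_left _ hmm'
  by_cases hm'1 : m' = 1
  · refine ⟨p, q, n.factorization p, m.factorization q, hp, hq, ?_⟩
    rw [hm'1, mul_one] at hmm'
    rw [hmm']
    exact hnm.symm
  exfalso
  have hr : m'.minFac.Prime := Nat.minFac_prime hm'1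
  have hrm' : m'.minFac ∣ m' := Nat.minFac_dvd m'
  refine H p q m'.minFac hp hq hr hpq ?_ ?_ hpn (hqm.trans hmn) ((hrm'.trans hm'm).trans hmn)
  · intro hh
    rw [hh] at hpm
    exact hpm (hrm'.trans hm'm)
  · intro hh
    rw [hh] at hqm'
    exact hqm' hrm'


theorem solv_of_no3 (G : Type u) [Group G] [Finite G]
    (H : ∀ p q r : ℕ, p.Prime → q.Prime → r.Prime → p ≠ q → p ≠ r → q ≠ r →
      p ∣ Nat.card G → q ∣ Nat.card G → r ∣ Nat.card G → False) : Group.IsSolvable G := by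
  obtain ⟨p, q, α, β, hp, hq, hn⟩ :=
    two_primes_of_no3 (Nat.card G) (Nat.card_pos (α := G)).ne' H
  exact Cfsg.Agent.S0144.result p q α β hp hq hn

end Helpers

/-- A finite group in which the numbers of elements of each order that occurs (the numbers #{g : o(g) = m}, m ranging over the element orders) take exactly three different values is solvable. -/
theorem result {G : Type*} [Group G] [Finite G] (h : (((fun m : ℕ => Nat.card {g : G // orderOf g = m}) '' Set.range (orderOf : G → ℕ))).ncard = 3) : Group.IsSolvable G := by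
  obtain ⟨a, b, hV⟩ := sCnt_values G h
  have hC : Ctx (sCnt G) (Nat.card G) a b := ⟨sCnt_one G, sCnt_even G, hV, sCnt_frob G⟩
  by_cases hodd : Odd (Nat.card G)
  · apply solv_of_no3 G
    intro p q r hp hq hr hpq hpr hqr hpn hqn hrn
    exact no3_odd hC (dvd_refl _) hodd (sCnt_total G).le hp hq hr hpq hpr hqr hpn hqn hrn
  have h2n : 2 ∣ Nat.card G := even_iff_two_dvd.1 (Nat.not_odd_iff_even.1 hodd)
  by_cases hs2 : sCnt G 2 = 1
  · by_cases h4 : 4 ∣ Nat.card G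
    · apply solv_of_no3 G
      intro p q r hp hq hr hpq hpr hqr hpn hqn hrn
      exact no3_of_pair (fun p q hp hp2 hq hq2 hpq hpn hqn =>
        K4 hC h4 hs2 (sCnt_two_mul G hs2) hp hp2 hq hq2 hpq hpn hqn)
        hp hq hr hpq hpr hqr hpn hqn hrn
    · apply solvable_of_central_invol G hs2
      intro Q _ _ hQ
      have hdn : Nat.card Q ∣ Nat.card G := Dvd.intro_left 2 hQ
      have hdodd : Odd (Nat.card Q) := by
        rw [Nat.odd_iff]
        omega
      have hsum : ∑ m ∈ (Nat.card Q).divisors, sCnt G m = Nat.card Q := by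
        have ht := sCnt_total G
        rw [← hQ, sum_div_coprime _ (Nat.coprime_two_left.2 hdodd),
          Nat.prime_two.sum_divisors] at ht
        have h2' : ∑ y ∈ (Nat.card Q).divisors, sCnt G (2 * y)
            = ∑ y ∈ (Nat.card Q).divisors, sCnt G y :=
          Finset.sum_congr rfl fun y hy =>
            sCnt_two_mul G hs2 y (hdodd.of_dvd_nat (Nat.dvd_of_mem_divisors hy))
        rw [h2'] at ht
        simp only [one_mul] at ht
        omega
      apply solv_of_no3 Q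
      intro p q r hp hq hr hpq hpr hqr hpn hqn hrn
      exact no3_odd hC hdn hdodd hsum.le hp hq hr hpq hpr hqr hpn hqn hrn
  · apply solv_of_no3 G
    intro p q r hp hq hr hpq hpr hqr hpn hqn hrn
    exact no3_of_pair (fun p q hp hp2 hq hq2 hpq hpn hqn =>
      K1 hC h2n hs2 hp hp2 hq hq2 hpq hpn hqn) hp hq hr hpq hpr hqr hpn hqn hrn

end Cfsg.Agent.S3996
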