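import Mathlib
import Cfsg.Statements.S3997

set_option autoImplicit false
open Cfsg

namespace Cfsg.Agent.S3997

/-- Counting elements whose order satisfies a predicate as a sum over the possible orders. -/
theorem card_pred_orderOf_sum {X : Type*} [Group X] [Finite X] (N : ℕ) (hN : Nat.card X ≤ N)
    (P : ℕ → Prop) [DecidablePred P] :
    Nat.card {x : X // P (orderOf x)} =
      ∑ d : {d : Fin (N + 1) // P d}, Nat.card {x : X // orderOf x = (d : ℕ)} := by
  classical
  let f : {x : X // P (orderOf x)} → {d : Fin (N + 1) // P d} :=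
    fun x => ⟨⟨orderOf x.1, Nat.lt_succ_of_le (orderOf_le_card.trans hN)⟩, x.2⟩
  have e := (Equiv.sigmaFiberEquiv f).symm
  rw [Nat.card_congr e, Nat.card_sigma]
  apply Finset.sum_congr rfl
  intro d _
  have e2 : {x : {x : X // P (orderOf x)} // f x = d} ≃ {x : X // orderOf x = (d : ℕ)} :=
    { toFun := fun x => ⟨x.1.1, by
        have h1 := congrArg (fun t : {d : Fin (N + 1) // P d} => t.1.1) x.2
        exact h1⟩
      invFun := fun x => ⟨⟨x.1, by rw [x.2]; exact d.2⟩, by
        apply Subtype.ext
        apply Fin.ext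
        exact x.2⟩
      left_inv := fun _ => rfl
      right_inv := fun _ => rfl }
  exact Nat.card_congr e2

theorem card_pred_orderOf_eq {G H : Type*} [Group G] [Finite G] [Group H] [Finite H]
    (hT : ∀ m : ℕ, Nat.card {g : G // orderOf g = m} = Nat.card {h : H // orderOf h = m})
    (P : ℕ → Prop) :
    Nat.card {g : G // P (orderOf g)} = Nat.card {h : H // P (orderOf h)} := by
  classical
  rw [card_pred_orderOf_sum (Nat.card G + Nat.card H) (Nat.le_add_right _ _) P,
    card_pred_orderOf_sum (Nat.card G + Nat.card H) (Nat.le_add_left _ _) P]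
  exact Finset.sum_congr rfl (fun d _ => hT d)

/-- Let G and H be finite groups with the same order type: for every m they have the same number of elements of order m. If G is nilpotent then so is H. -/
theorem result {G H : Type*} [Group G] [Finite G] [Group H] [Finite H] (hT : (∀ m : ℕ, Nat.card {g : G // orderOf g = m} = Nat.card {h : H // orderOf h = m})) (hG : Group.IsNilpotent G) :
    Group.IsNilpotent H := by
  have hcard : Nat.card G = Nat.card H := by
    have h1 := card_pred_orderOf_eq hT (fun _ => True)
    rw [Nat.card_congr (Equiv.subtypeUnivEquiv (fun _ => trivial)),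
      Nat.card_congr (Equiv.subtypeUnivEquiv (fun _ => trivial))] at h1
    exact h1
  apply ((Group.isNilpotent_of_finite_tfae (G := H)).out 0 3).mpr
  intro p hp Q
  -- the p-elements of G form the normal Sylow subgroup
  obtain ⟨P⟩ : Nonempty (Sylow p G) := inferInstance
  have hPn : (P : Subgroup G).Normal := inferInstance
  have hGp : Nat.card {g : G // (fun d => ∃ k : ℕ, d = p ^ k) (orderOf g)} =
      Nat.card (P : Subgroup G) := by
    apply Nat.card_congr
    apply Equiv.subtypeEquivRight
    intro x
    constructor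
    · rintro ⟨k, hk⟩
      have h1 : IsPGroup p (Subgroup.zpowers x) := IsPGroup.of_card (by rw [Nat.card_zpowers, hk])
      obtain ⟨Q₀, hQ₀⟩ := h1.exists_le_sylow
      obtain ⟨g, hg⟩ := MulAction.exists_smul_eq G P Q₀
      rw [Sylow.smul_eq_of_normal] at hg
      rw [hg]
      exact hQ₀ (Subgroup.mem_zpowers x)
    · intro hx
      obtain ⟨k, hk⟩ := (IsPGroup.iff_orderOf.mp P.isPGroup') ⟨x, hx⟩
      exact ⟨k, by rw [← hk, Subgroup.orderOf_mk]⟩
  have hcnt := card_pred_orderOf_eq hT (fun d => ∃ k : ℕ, d = p ^ k)
  rw [hGp, Sylow.card_eq_multiplicity, hcard, ← Sylow.card_eq_multiplicity Q] at hcnt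
  -- every Sylow p-subgroup of H is the set of p-elements
  have key : ∀ Q' : Sylow p H, ((Q' : Subgroup H) : Set H) = {h : H | ∃ k : ℕ, orderOf h = p ^ k} := by
    intro Q'
    apply Set.eq_of_subset_of_ncard_le
    · intro x hx
      obtain ⟨k, hk⟩ := (IsPGroup.iff_orderOf.mp Q'.isPGroup') ⟨x, hx⟩
      exact ⟨k, by rw [← hk, Subgroup.orderOf_mk]⟩
    · rw [← Nat.card_coe_set_eq, ← Nat.card_coe_set_eq]
      have h1 : Nat.card (Q' : Subgroup H) = Nat.card (Q : Subgroup H) := by
        rw [Sylow.card_eq_multiplicity, Sylow.card_eq_multiplicity]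
      show Nat.card {h : H // ∃ k : ℕ, orderOf h = p ^ k} ≤ Nat.card (Q' : Subgroup H)
      rw [h1, hcnt]
    · exact Set.toFinite _
  have hsub : Subsingleton (Sylow p H) := by
    constructor
    intro Q₁ Q₂
    apply Sylow.ext
    apply SetLike.coe_injective
    rw [key Q₁, key Q₂]
  exact Sylow.normal_of_subsingleton Q

end Cfsg.Agent.S3997
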