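import Mathlib
import Cfsg.Statements.S3998
import Cfsg.Agent.Lib.Helper21.OrderTypeSS

set_option autoImplicit false
open Cfsg

namespace Cfsg.Agent.S3998

open Cfsg.Agent.Lib.Helper21.OrderTypeSS

/-- Let G and H be finite groups with the same order type (for every m the same number of elements of order m). If G is supersolvable then H is solvable. -/
theorem result {G H : Type*} [Group G] [Finite G] [Group H] [Finite H] (hT : (∀ m : ℕ, Nat.card {g : G // orderOf g = m} = Nat.card {h : H // orderOf h = m})) (hG : Cfsg.IsSupersolvable G) :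
    Group.IsSolvable H := by
  classical
  have hem : ∀ m : ℕ, Nonempty ({g : G // orderOf g = m} ≃ {h : H // orderOf h = m}) :=
    fun m => Finite.card_eq.mp (hT m)
  let em : ∀ m : ℕ, {g : G // orderOf g = m} ≃ {h : H // orderOf h = m} :=
    fun m => Classical.choice (hem m)
  let e : G ≃ H := (Equiv.sigmaFiberEquiv (orderOf : G → ℕ)).symm.trans
    ((Equiv.sigmaCongrRight em).trans (Equiv.sigmaFiberEquiv (orderOf : H → ℕ)))
  have he : ∀ g : G, orderOf (e g) = orderOf g := fun g => (em (orderOf g) ⟨g, rfl⟩).2
  have hQG : Q G := Q_of_ss _ G rfl hG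
  have hQH : Q H := by
    intro r
    obtain ⟨b, hb1, hb2, hb3⟩ := hQG r
    have hc : Nat.card (E H r) = Nat.card (E G r) :=
      (Nat.card_congr (e.subtypeEquiv (p := fun g : G => g ∈ E G r)
        (q := fun h : H => h ∈ E H r) (fun g => by
          simp only [E, Set.mem_ofPred_eq, he g]))).symm
    refine ⟨b, ?_, ?_, hb3⟩
    · rw [hc, ← hb1]; exact (Nat.card_congr e).symm
    · rw [hc]; exact hb2
  exact solvable_of_Q _ H rfl hQH

end Cfsg.Agent.S3998
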