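import Mathlib
import Cfsg.Statements.S4002
import Cfsg.Agent.Lib.Helper21.Higman
import Cfsg.Agent.Lib.Lead.Hall

set_option autoImplicit false
open Cfsg

namespace Cfsg.Agent.S4002

/-- Three primes `p < q < r ≤ n` with `n < p * q`, for `7 ≤ n`. -/
theorem three_primes (n : ℕ) (hn : 7 ≤ n) :
    ∃ p q r : ℕ, p.Prime ∧ q.Prime ∧ r.Prime ∧ p < q ∧ q < r ∧ r ≤ n ∧ n < p * q := by
  by_cases h1 : n ≤ 14
  · exact ⟨3, 5, 7, by norm_num, by norm_num, by norm_num, by norm_num, by norm_num, hn, by omega⟩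
  by_cases h2 : n ≤ 34
  · exact ⟨5, 7, 11, by norm_num, by norm_num, by norm_num, by norm_num, by norm_num,
      by omega, by omega⟩
  obtain ⟨r, hr, hr1, hr2⟩ := Nat.exists_prime_lt_and_le_two_mul (n / 2) (by omega)
  obtain ⟨q, hq, hq1, hq2⟩ := Nat.exists_prime_lt_and_le_two_mul (n / 4) (by omega)
  obtain ⟨p, hp, hp1, hp2⟩ := Nat.exists_prime_lt_and_le_two_mul (n / 8) (by omega)
  refine ⟨p, q, r, hp, hq, hr, by omega, by omega, by omega, ?_⟩
  have h8 : n < 8 * p := by omega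
  have h4 : n < 4 * q := by omega
  have h3 : n * n < (8 * p) * (4 * q) := Nat.mul_lt_mul'' h8 h4
  have h5 : 32 * n ≤ n * n := Nat.mul_le_mul_right n (by omega)
  have h6 : 32 * n < 32 * (p * q) := by
    calc 32 * n ≤ n * n := h5
      _ < (8 * p) * (4 * q) := h3
      _ = 32 * (p * q) := by ring
  exact Nat.lt_of_mul_lt_mul_left h6

/-- Splitting off the `p`-part. -/
theorem split_prime (N p : ℕ) (hN : N ≠ 0) (hp : p.Prime) :
    ∃ a N' : ℕ, N = p ^ a * N' ∧ Nat.Coprime p N' ∧ N' ≠ 0 ∧ (p ∣ N → a ≠ 0) := by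
  refine ⟨N.factorization p, N / p ^ N.factorization p,
    (Nat.ordProj_mul_ordCompl_eq_self N p).symm, Nat.coprime_ordCompl hp hN, ?_, ?_⟩
  · exact (Nat.ordCompl_pos p hN).ne'
  · intro h
    exact (hp.factorization_pos_of_dvd hN h).ne'

/-- If the set of element orders of a finite group G is {1, 2, …, n} with n ≥ 7, then G is not solvable. -/
theorem result {G : Type*} [Group G] [Finite G] (n : ℕ) (hn : 7 ≤ n) (h : Set.range (orderOf : G → ℕ) = {k : ℕ | 1 ≤ k ∧ k ≤ n}) : ¬ Group.IsSolvable G := by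
  intro hsol
  obtain ⟨p, q, r, hp, hq, hr, hpq, hqr, hrn, hnpq⟩ := three_primes n hn
  have hex : ∀ k : ℕ, 1 ≤ k → k ≤ n → ∃ g : G, orderOf g = k := by
    intro k h1 h2
    have : k ∈ Set.range (orderOf : G → ℕ) := by rw [h]; exact ⟨h1, h2⟩
    exact this
  have hle : ∀ g : G, orderOf g ≤ n := by
    intro g
    have : orderOf g ∈ {k : ℕ | 1 ≤ k ∧ k ≤ n} := by rw [← h]; exact ⟨g, rfl⟩
    exact this.2
  have hdvd : ∀ k : ℕ, 1 ≤ k → k ≤ n → k ∣ Nat.card G := by
    intro k h1 h2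
    obtain ⟨g, hg⟩ := hex k h1 h2
    exact hg ▸ orderOf_dvd_natCard g
  have hpN := hdvd p hp.one_lt.le (by omega)
  have hqN := hdvd q hq.one_lt.le (by omega)
  have hrN := hdvd r hr.one_lt.le hrn
  have hN0 : Nat.card G ≠ 0 := Nat.card_pos.ne'
  obtain ⟨a, N1, hN1, hc1, hN10, ha⟩ := split_prime (Nat.card G) p hN0 hp
  obtain ⟨b, N2, hN2, hc2, hN20, hb⟩ := split_prime N1 q hN10 hq
  obtain ⟨c, N3, hN3, hc3, hN30, hc⟩ := split_prime N2 r hN20 hr
  have hpq' : Nat.Coprime p q := (Nat.coprime_primes hp hq).mpr (by omega)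
  have hpr' : Nat.Coprime p r := (Nat.coprime_primes hp hr).mpr (by omega)
  have hqr' : Nat.Coprime q r := (Nat.coprime_primes hq hr).mpr (by omega)
  have ha0 : a ≠ 0 := ha hpN
  have hb0 : b ≠ 0 := by
    apply hb
    rw [hN1] at hqN
    exact (Nat.Coprime.pow_right a hpq'.symm).dvd_of_dvd_mul_left hqN
  have hc0 : c ≠ 0 := by
    apply hc
    rw [hN1, hN2] at hrN
    have h1 : r ∣ q ^ b * N2 := (Nat.Coprime.pow_right a hpr'.symm).dvd_of_dvd_mul_left hrN
    exact (Nat.Coprime.pow_right b hqr'.symm).dvd_of_dvd_mul_left h1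
  -- coprimality of the Hall number with the rest
  have hpN3 : Nat.Coprime p N3 := by
    have h1 : N3 ∣ N1 := by rw [hN2, hN3]; exact Dvd.intro_left (q ^ b * r ^ c) (by ring)
    exact Nat.Coprime.coprime_dvd_right h1 hc1
  have hqN3 : Nat.Coprime q N3 := by
    have h1 : N3 ∣ N2 := by rw [hN3]; exact Dvd.intro_left _ rfl
    exact Nat.Coprime.coprime_dvd_right h1 hc2
  have hcard : Nat.card G = (p ^ a * q ^ b * r ^ c) * N3 := by
    rw [hN1, hN2, hN3]; ring
  have hcop : Nat.Coprime (p ^ a * q ^ b * r ^ c) N3 := by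
    apply Nat.Coprime.mul_left
    · apply Nat.Coprime.mul_left
      · exact Nat.Coprime.pow_left a hpN3
      · exact Nat.Coprime.pow_left b hqN3
    · exact Nat.Coprime.pow_left c hc3
  haveI := hsol
  obtain ⟨H, hH⟩ := Cfsg.Agent.Lib.Lead.Hall.hall_exists _ _ hcard hcop
  -- every element of `H` has prime power order
  have hHcp : ∀ x : H, x ≠ 1 → IsPrimePow (orderOf x) := by
    intro x hx
    by_contra hnpp
    have hx1 : orderOf x ≠ 1 := fun h1 => hx (orderOf_eq_one_iff.mp h1)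
    obtain ⟨s1, hs1, hs1d⟩ := Nat.exists_prime_and_dvd hx1
    have hnu : ¬ ∃! s : ℕ, s.Prime ∧ s ∣ orderOf x := fun hu =>
      hnpp (isPrimePow_iff_unique_prime_dvd.mpr hu)
    have hex2 : ∃ s2 : ℕ, s2.Prime ∧ s2 ∣ orderOf x ∧ s2 ≠ s1 := by
      by_contra hno
      apply hnu
      refine ⟨s1, ⟨hs1, hs1d⟩, ?_⟩
      rintro s ⟨hs, hsd⟩
      by_contra hne
      exact hno ⟨s, hs, hsd, hne⟩
    obtain ⟨s2, hs2, hs2d, hne⟩ := hex2
    have hmem : ∀ s : ℕ, s.Prime → s ∣ orderOf x → s = p ∨ s = q ∨ s = r := by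
      intro s hs hsd
      have h1 : s ∣ p ^ a * q ^ b * r ^ c := hH ▸ hsd.trans (orderOf_dvd_natCard x)
      rcases (Nat.Prime.dvd_mul hs).mp h1 with h2 | h2
      · rcases (Nat.Prime.dvd_mul hs).mp h2 with h3 | h3
        · exact Or.inl ((Nat.prime_dvd_prime_iff_eq hs hp).mp (hs.dvd_of_dvd_pow h3))
        · exact Or.inr (Or.inl ((Nat.prime_dvd_prime_iff_eq hs hq).mp (hs.dvd_of_dvd_pow h3)))
      · exact Or.inr (Or.inr ((Nat.prime_dvd_prime_iff_eq hs hr).mp (hs.dvd_of_dvd_pow h2)))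
    have hmul : s1 * s2 ∣ orderOf x :=
      Nat.Coprime.mul_dvd_of_dvd_of_dvd ((Nat.coprime_primes hs1 hs2).mpr (Ne.symm hne)) hs1d hs2d
    have hxn : orderOf x ≤ n := by
      rw [← Subgroup.orderOf_coe]
      exact hle _
    have hle2 : s1 * s2 ≤ n := (Nat.le_of_dvd (orderOf_pos x) hmul).trans hxn
    have hge : p * q ≤ s1 * s2 := by
      have hqr2 : p * q < p * r := Nat.mul_lt_mul_of_pos_left hqr hp.pos
      have hqr3 : p * q < q * r := by
        rw [mul_comm p q]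
        exact Nat.mul_lt_mul_of_pos_left (hpq.trans hqr) hq.pos
      rcases hmem s1 hs1 hs1d with e1 | e1 | e1 <;> rcases hmem s2 hs2 hs2d with e2 | e2 | e2
      · exact absurd (e2.trans e1.symm) hne
      · rw [e1, e2]
      · rw [e1, e2]; exact hqr2.le
      · rw [e1, e2, mul_comm]
      · exact absurd (e2.trans e1.symm) hne
      · rw [e1, e2]; exact hqr3.le
      · rw [e1, e2, mul_comm r p]; exact hqr2.le
      · rw [e1, e2, mul_comm r q]; exact hqr3.le
      · exact absurd (e2.trans e1.symm) hne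
    omega
  haveI : Group.IsSolvable H := inferInstance
  have h3 := Cfsg.Agent.Lib.Helper21.Higman.higman hHcp
  rw [hH] at h3
  have hsub : ({p, q, r} : Finset ℕ) ⊆ (p ^ a * q ^ b * r ^ c).primeFactors := by
    intro s hs
    simp only [Finset.mem_insert, Finset.mem_singleton] at hs
    have hne0 : p ^ a * q ^ b * r ^ c ≠ 0 := by
      have := hp.pos; have := hq.pos; have := hr.pos
      positivity
    rw [Nat.mem_primeFactors]
    rcases hs with rfl | rfl | rfl
    · exact ⟨hp, Dvd.dvd.mul_right (Dvd.dvd.mul_right (dvd_pow_self _ ha0) _) _, hne0⟩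
    · exact ⟨hq, Dvd.dvd.mul_right (Dvd.dvd.mul_left (dvd_pow_self _ hb0) _) _, hne0⟩
    · exact ⟨hr, Dvd.dvd.mul_left (dvd_pow_self _ hc0) _, hne0⟩
  have hcard3 : ({p, q, r} : Finset ℕ).card = 3 := by
    rw [Finset.card_insert_of_notMem, Finset.card_insert_of_notMem, Finset.card_singleton]
    · simp; omega
    · simp; omega
  have := Finset.card_le_card hsub
  omega

end Cfsg.Agent.S4002
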