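import Cfsg.Statements.S4004
import Mathlib
import Cfsg.Agent.S3996

set_option autoImplicit false
open Cfsg

namespace Cfsg.Agent.S4004

section Helpers

universe u


theorem pow_cancel {G : Type*} [Group G] {ρ k : ℕ} (hρ1 : 1 < ρ) (hco : Nat.Coprime k ρ) {a b : G}
    (ha : a ^ ρ = 1) (hb : b ^ ρ = 1) (h : a ^ k = b ^ k) : a = b := by
  obtain ⟨m, -, hm⟩ := Nat.exists_mul_mod_eq_one_of_coprime hco hρ1
  have key : ∀ c : G, c ^ ρ = 1 → (c ^ k) ^ m = c := by
    intro c hc
    rw [← pow_mul]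
    have h2 : c ^ (k * m) = c ^ (k * m % ρ) := by
      conv_lhs => rw [← Nat.div_add_mod (k * m) ρ]
      rw [pow_add, pow_mul, hc, one_pow, one_mul]
    rw [h2, hm, pow_one]
  rw [← key a ha, h, key b hb]

theorem prod_formula {G W : Type*} [Group G] [CommGroup W] (f : G →* MulAut W) (ι : W →* G)
    (hf : ∀ g w, ι (f g w) = g * ι w * g⁻¹) (x : G) (w : W) (k : ℕ) :
    (ι w * x) ^ k = ι (∏ i ∈ Finset.range k, f (x ^ i) w) * x ^ k := by
  induction k with
  | zero => simp
  | succ k ih =>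
    rw [pow_succ, ih, Finset.prod_range_succ, map_mul, hf, pow_succ]
    group

theorem norm_one {G W : Type*} [Group G] [CommGroup W] (f : G →* MulAut W) (ι : W →* G)
    (hι : Function.Injective ι) (hf : ∀ g w, ι (f g w) = g * ι w * g⁻¹) (x : G) (w : W) (ρ : ℕ)
    (hx : x ^ ρ = 1) (hwx : (ι w * x) ^ ρ = 1) : ∏ i ∈ Finset.range ρ, f (x ^ i) w = 1 := by
  apply hι
  have h := prod_formula f ι hf x w ρ
  rw [hwx, hx, mul_one] at h
  rw [map_one]
  exact h.symm

theorem norm_trick {G W : Type*} [Group G] [Finite G] [CommGroup W] (f : G →* MulAut W)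
    (ι : W →* G) (hι : Function.Injective ι) (hf : ∀ g w, ι (f g w) = g * ι w * g⁻¹)
    (z g : G) (t ρ : ℕ) (hρ : ρ.Prime) (hzt : orderOf z = t) (ht : 0 < t)
    (hxρ : ∀ j, (z ^ j * g) ^ ρ = 1)
    (hcos : ∀ j k : ℕ, (z ^ j * g) ^ k * (g ^ k)⁻¹ ∈ Subgroup.zpowers z)
    (hnx : ∀ j, ∀ w : W, (ι w * (z ^ j * g)) ^ ρ = 1)
    (hnz : ∀ w : W, (ι w * z) ^ t = 1)
    (w : W) : w ^ t = 1 := by
  classical
  have hzt1 : z ^ t = 1 := by
    rw [← hzt]
    exact pow_orderOf_eq_one z
  have Nx : ∀ j, ∀ w : W, ∏ k ∈ Finset.range ρ, f ((z ^ j * g) ^ k) w = 1 :=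
    fun j w => norm_one f ι hι hf _ w ρ (hxρ j) (hnx j w)
  have Nz : ∀ w : W, ∏ j ∈ Finset.range t, f (z ^ j) w = 1 :=
    fun w => norm_one f ι hι hf z w t hzt1 (hnz w)
  have hex : ∀ j k : ℕ, ∃ e : ℕ, e < t ∧ (z ^ j * g) ^ k = z ^ e * g ^ k := by
    intro j k
    have hm := hcos j k
    rw [← mem_powers_iff_mem_zpowers, Submonoid.mem_powers_iff] at hm
    obtain ⟨e, he⟩ := hm
    refine ⟨e % t, Nat.mod_lt _ ht, ?_⟩
    have h3 : z ^ (e % t) = z ^ e := by
      rw [← hzt]
      exact pow_mod_orderOf z e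
    rw [h3, he]
    exact (inv_mul_cancel_right _ _).symm
  choose σ hσlt hσ using hex
  have h1 : ∏ j ∈ Finset.range t, ∏ k ∈ Finset.range ρ, f ((z ^ j * g) ^ k) w = 1 :=
    Finset.prod_eq_one fun j _ => Nx j w
  rw [Finset.prod_comm] at h1
  obtain ⟨ρ', rfl⟩ : ∃ ρ', ρ = ρ' + 1 := ⟨ρ - 1, by have := hρ.pos; omega⟩
  rw [Finset.prod_range_succ'] at h1
  have hk : ∀ k ∈ Finset.range ρ',
      ∏ j ∈ Finset.range t, f ((z ^ j * g) ^ (k + 1)) w = 1 := by
    intro k hk
    have hk' : k + 1 < ρ' + 1 := by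
      have := Finset.mem_range.1 hk
      omega
    have hco : Nat.Coprime (k + 1) (ρ' + 1) :=
      Nat.Coprime.symm ((Nat.Prime.coprime_iff_not_dvd hρ).2
        (Nat.not_dvd_of_pos_of_lt (Nat.succ_pos k) hk'))
    have hinj : Set.InjOn (fun j => σ j (k + 1)) (Finset.range t : Set ℕ) := by
      intro j hj j' hj' hjj'
      have hj1 : j < t := Finset.mem_range.1 (Finset.mem_coe.1 hj)
      have hj1' : j' < t := Finset.mem_range.1 (Finset.mem_coe.1 hj')
      have hjj'' : σ j (k + 1) = σ j' (k + 1) := hjj'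
      have e1 : (z ^ j * g) ^ (k + 1) = (z ^ j' * g) ^ (k + 1) := by
        rw [hσ j (k + 1), hσ j' (k + 1), hjj'']
      have e2 : z ^ j * g = z ^ j' * g := pow_cancel hρ.one_lt hco (hxρ j) (hxρ j') e1
      have e3 : z ^ j = z ^ j' := mul_right_cancel e2
      exact pow_injOn_Iio_orderOf (by rw [hzt]; exact hj1) (by rw [hzt]; exact hj1') e3
    have himg : (Finset.range t).image (fun j => σ j (k + 1)) = Finset.range t := by
      apply Finset.eq_of_subset_of_card_le
      · intro i hi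
        obtain ⟨j, _, rfl⟩ := Finset.mem_image.1 hi
        exact Finset.mem_range.2 (hσlt j (k + 1))
      · rw [Finset.card_image_of_injOn hinj]
    calc ∏ j ∈ Finset.range t, f ((z ^ j * g) ^ (k + 1)) w
        = ∏ j ∈ Finset.range t, f (z ^ (σ j (k + 1))) (f (g ^ (k + 1)) w) := by
          refine Finset.prod_congr rfl fun j _ => ?_
          rw [hσ j (k + 1), map_mul, MulAut.mul_apply]
      _ = ∏ i ∈ (Finset.range t).image (fun j => σ j (k + 1)), f (z ^ i) (f (g ^ (k + 1)) w) :=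
          (Finset.prod_image (f := fun i => f (z ^ i) (f (g ^ (k + 1)) w)) hinj).symm
      _ = 1 := by
          rw [himg]
          exact Nz _
  rw [Finset.prod_eq_one hk, one_mul] at h1
  simpa using h1

theorem conj_pow_mem {G : Type*} [Group G] (C : Subgroup G) (c y : G) (hc : c ∈ C)
    (hy : ∀ k : ℕ, ∀ h ∈ C, y ^ k * h * (y ^ k)⁻¹ ∈ C) (k : ℕ) :
    (c * y) ^ k * (y ^ k)⁻¹ ∈ C := by
  induction k with
  | zero => simp [C.one_mem]
  | succ k ih =>
    have h2 := hy k c hc
    have e : (c * y) ^ (k + 1) * (y ^ (k + 1))⁻¹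
        = ((c * y) ^ k * (y ^ k)⁻¹) * (y ^ k * c * (y ^ k)⁻¹) := by
      rw [pow_succ, pow_succ]
      group
    rw [e]
    exact C.mul_mem ih h2

theorem OL_r {G : Type*} [Group G] (A : Subgroup G) [hAn : A.Normal] {t r : ℕ}
    (htr : Nat.Coprime t r) (hepo : ∀ g : G, g ^ t = 1 ∨ g ^ r = 1) (hA : ∀ a ∈ A, a ^ r = 1)
    (a x : G) (ha : a ∈ A) (hx : x ^ r = 1) : (a * x) ^ r = 1 := by
  rcases hepo (a * x) with h | h
  · have hN : (a * x) ^ r * (x ^ r)⁻¹ ∈ A :=
      conj_pow_mem A a x ha (fun k h hh => hAn.conj_mem h hh (x ^ k)) r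
    rw [hx, inv_one, mul_one] at hN
    have h1 : ((a * x) ^ r) ^ r = 1 := hA _ hN
    have h2 : ((a * x) ^ r) ^ t = 1 := by
      rw [← pow_mul, mul_comm, pow_mul, h, one_pow]
    have d1 := orderOf_dvd_of_pow_eq_one h1
    have d2 := orderOf_dvd_of_pow_eq_one h2
    have d3 := Nat.dvd_gcd d2 d1
    rw [Nat.Coprime.gcd_eq_one htr] at d3
    exact orderOf_eq_one_iff.1 (Nat.dvd_one.1 d3)
  · exact h

theorem OL_t {G : Type*} [Group G] (A : Subgroup G) [hAn : A.Normal] {t r : ℕ}
    (htr : Nat.Coprime t r) (hepo : ∀ g : G, g ^ t = 1 ∨ g ^ r = 1) (hA : ∀ a ∈ A, a ^ r = 1)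
    (a x : G) (ha : a ∈ A) (hx : x ^ t = 1) (hx1 : x ≠ 1) : (a * x) ^ t = 1 := by
  rcases hepo (a * x) with h | h
  · exact h
  · exfalso
    have hN : (a * x) ^ r * (x ^ r)⁻¹ ∈ A :=
      conj_pow_mem A a x ha (fun k h hh => hAn.conj_mem h hh (x ^ k)) r
    rw [h, one_mul] at hN
    have hxr : x ^ r ∈ A := by simpa using A.inv_mem hN
    have h1 : (x ^ r) ^ r = 1 := hA _ hxr
    rw [← pow_mul] at h1
    have d1 := orderOf_dvd_of_pow_eq_one h1
    have d2 := orderOf_dvd_of_pow_eq_one hx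
    have hco : Nat.Coprime t (r * r) := Nat.Coprime.mul_right htr htr
    have d3 := Nat.dvd_gcd d2 d1
    rw [Nat.Coprime.gcd_eq_one hco] at d3
    exact hx1 (orderOf_eq_one_iff.1 (Nat.dvd_one.1 d3))

theorem frob_of_epo {G : Type u} [Group G] [Finite G] (A : Subgroup G) [hAn : A.Normal]
    (hAbot : A ≠ ⊥) (hAcomm : ∀ a ∈ A, ∀ b ∈ A, a * b = b * a) {t r : ℕ} (ht : t.Prime)
    (hr : r.Prime) (htr : t ≠ r) (hepo : ∀ g : G, g ^ t = 1 ∨ g ^ r = 1)
    (hA : ∀ a ∈ A, a ^ r = 1) (htG : t ∣ Nat.card G) :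
    ∃ C : Subgroup G, Cfsg.IsFrobeniusComplement C ∧ (Nat.card ↥C).Prime := by
  haveI := Fact.mk ht
  have hco : Nat.Coprime t r := (Nat.coprime_primes ht hr).2 htr
  -- elements killed by both t and r are trivial
  have htriv : ∀ a : G, a ^ t = 1 → a ^ r = 1 → a = 1 := by
    intro a h1 h2
    have d1 := orderOf_dvd_of_pow_eq_one h1
    have d2 := orderOf_dvd_of_pow_eq_one h2
    have d3 := Nat.dvd_gcd d1 d2
    rw [Nat.Coprime.gcd_eq_one hco] at d3
    exact orderOf_eq_one_iff.1 (Nat.dvd_one.1 d3)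
  -- the key consequence of the norm trick
  have key : ∀ (z g : G) (ρ : ℕ), ρ.Prime → orderOf z = t → (∀ j, (z ^ j * g) ^ ρ = 1) →
      (∀ j k : ℕ, (z ^ j * g) ^ k * (g ^ k)⁻¹ ∈ Subgroup.zpowers z) →
      (∀ j, ∀ a ∈ A, (a * (z ^ j * g)) ^ ρ = 1) → False := by
    intro z g ρ hρ hzt hxρ hcos hnx
    letI : CommGroup ↥A :=
      { (inferInstance : Group ↥A) with
        mul_comm := fun a b => Subtype.ext (hAcomm a.1 a.2 b.1 b.2) }
    have hz1 : z ≠ 1 := by
      rintro rfl
      rw [orderOf_one] at hzt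
      exact ht.one_lt.ne' hzt.symm
    have hzt1 : z ^ t = 1 := by
      rw [← hzt]
      exact pow_orderOf_eq_one z
    have hall : ∀ w : ↥A, w ^ t = 1 :=
      norm_trick (MulAut.conjNormal : G →* MulAut ↥A) A.subtype A.subtype_injective
        (fun g w => rfl) z g t ρ hρ hzt ht.pos hxρ hcos (fun j w => hnx j w.1 w.2)
        (fun w => OL_t A hco hepo hA w.1 z w.2 hzt1 hz1)
    apply hAbot
    rw [Subgroup.eq_bot_iff_forall]
    intro a ha
    have h1 : a ^ t = 1 := congrArg Subtype.val (hall ⟨a, ha⟩)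
    exact htriv a h1 (hA a ha)
  obtain ⟨T⟩ : Nonempty (Sylow t G) := inferInstance
  have hTne : (T : Subgroup G) ≠ ⊥ := T.ne_bot_of_dvd_card htG
  have hTt : ∀ x ∈ (T : Subgroup G), x ^ t = 1 := by
    intro x hx
    rcases hepo x with h | h
    · exact h
    · obtain ⟨k, hk⟩ := T.2 ⟨x, hx⟩
      have hk' : x ^ t ^ k = 1 := congrArg Subtype.val hk
      have d1 := orderOf_dvd_of_pow_eq_one hk'
      have d2 := orderOf_dvd_of_pow_eq_one h
      have hco' : Nat.Coprime (t ^ k) r := Nat.Coprime.pow_left k hco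
      have d3 := Nat.dvd_gcd d1 d2
      rw [Nat.Coprime.gcd_eq_one hco'] at d3
      rw [orderOf_eq_one_iff.1 (Nat.dvd_one.1 d3), one_pow]
  -- a nontrivial central element of T
  haveI : Nontrivial ↥(T : Subgroup G) := (Subgroup.nontrivial_iff_ne_bot _).2 hTne
  haveI hcn : Nontrivial ↥(Subgroup.center ↥(T : Subgroup G)) := IsPGroup.center_nontrivial T.2
  obtain ⟨⟨z', hz'c⟩, hz'1⟩ := exists_ne (1 : ↥(Subgroup.center ↥(T : Subgroup G)))
  obtain ⟨z, hzT, hz1, hzc⟩ : ∃ z : G, z ∈ (T : Subgroup G) ∧ z ≠ 1 ∧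
      ∀ c ∈ (T : Subgroup G), z * c = c * z := by
    refine ⟨z'.1, z'.2, ?_, ?_⟩
    · intro h
      apply hz'1
      apply Subtype.ext
      apply Subtype.ext
      exact h
    · intro c hc
      have h3 := (Subgroup.mem_center_iff.1 hz'c) ⟨c, hc⟩
      exact (congrArg Subtype.val h3).symm
  have hzt1 : z ^ t = 1 := hTt z hzT
  have hzt : orderOf z = t := orderOf_eq_prime hzt1 hz1
  -- T is generated by z
  have hTz : ∀ c ∈ (T : Subgroup G), c ∈ Subgroup.zpowers z := by
    intro c hc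
    by_contra hcz
    refine key z c t ht hzt ?_ ?_ ?_
    · intro j
      exact hTt _ (Subgroup.mul_mem _ (Subgroup.pow_mem _ hzT j) hc)
    · intro j k
      have hcm : Commute (z ^ j) c := (show Commute z c from hzc c hc).pow_left j
      rw [hcm.mul_pow, mul_inv_cancel_right]
      exact Subgroup.pow_mem _ (Subgroup.pow_mem _ (Subgroup.mem_zpowers z) j) k
    · intro j a ha
      refine OL_t A hco hepo hA a (z ^ j * c) ha
        (hTt _ (Subgroup.mul_mem _ (Subgroup.pow_mem _ hzT j) hc)) ?_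
      intro h1
      apply hcz
      have h2 : c = (z ^ j)⁻¹ := eq_inv_of_mul_eq_one_right h1
      rw [h2]
      exact Subgroup.inv_mem _ (Subgroup.pow_mem _ (Subgroup.mem_zpowers z) j)
  have hzle : Subgroup.zpowers z ≤ (T : Subgroup G) := (Subgroup.zpowers_le).2 hzT
  have hgen : ∀ c ∈ (T : Subgroup G), c ≠ 1 → ∀ h ∈ (T : Subgroup G),
      h ∈ Subgroup.zpowers c := by
    intro c hc hc1 h hh
    have hct : orderOf c = t := orderOf_eq_prime (hTt c hc) hc1
    have hle : Subgroup.zpowers c ≤ Subgroup.zpowers z := (Subgroup.zpowers_le).2 (hTz c hc)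
    have heq : Subgroup.zpowers c = Subgroup.zpowers z :=
      Subgroup.eq_of_le_of_card_ge hle (by rw [Nat.card_zpowers, Nat.card_zpowers, hct, hzt])
    rw [heq]
    exact hTz h hh
  -- t-elements of the normalizer lie in T
  have hmemT : ∀ x ∈ Subgroup.normalizer ((T : Subgroup G) : Set G), x ^ t = 1 →
      x ∈ (T : Subgroup G) := by
    intro x hxN hxt
    have hP : IsPGroup t ↥(Subgroup.zpowers x) := by
      rintro ⟨g, hg⟩
      refine ⟨1, Subtype.ext ?_⟩
      obtain ⟨m, rfl⟩ := Subgroup.mem_zpowers_iff.1 hg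
      show (x ^ m) ^ t ^ 1 = 1
      rw [pow_one, ← zpow_natCast, ← zpow_mul, mul_comm, zpow_mul, zpow_natCast, hxt, one_zpow]
    have hinf := hP.inf_normalizer_sylow T
    have hx1 : x ∈ Subgroup.zpowers x ⊓ (T : Subgroup G) := by
      rw [← hinf]
      exact ⟨Subgroup.mem_zpowers x, hxN⟩
    exact hx1.2
  -- the normalizer of T is T
  have hnorm : ∀ y ∈ Subgroup.normalizer ((T : Subgroup G) : Set G), y ∈ (T : Subgroup G) := by
    intro y hy
    by_contra hyT
    have hxr : ∀ j, (z ^ j * y) ^ r = 1 := by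
      intro j
      rcases hepo (z ^ j * y) with h | h
      · exfalso
        have hzj : z ^ j ∈ Subgroup.normalizer ((T : Subgroup G) : Set G) :=
          Subgroup.le_normalizer (Subgroup.pow_mem _ hzT j)
        have h2 := hmemT _ (Subgroup.mul_mem _ hzj hy) h
        apply hyT
        have h3 : y = (z ^ j)⁻¹ * (z ^ j * y) := by group
        rw [h3]
        exact Subgroup.mul_mem _ (Subgroup.inv_mem _ (Subgroup.pow_mem _ hzT j)) h2
      · exact h
    refine key z y r hr hzt hxr ?_ ?_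
    · intro j k
      refine conj_pow_mem (Subgroup.zpowers z) (z ^ j) y
        (Subgroup.pow_mem _ (Subgroup.mem_zpowers z) j) ?_ k
      intro i h hh
      have hyi : y ^ i ∈ Subgroup.normalizer ((T : Subgroup G) : Set G) :=
        Subgroup.pow_mem _ hy i
      exact hTz _ ((Subgroup.mem_normalizer_iff.1 hyi h).1 (hzle hh))
    · intro j a ha
      exact OL_r A hco hepo hA a (z ^ j * y) ha (hxr j)
  have heqT : (T : Subgroup G) = Subgroup.zpowers z := le_antisymm hTz hzle
  refine ⟨(T : Subgroup G), ⟨hTne, ?_, ?_⟩, ?_⟩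
  · intro htop
    apply hAbot
    rw [Subgroup.eq_bot_iff_forall]
    intro a ha
    have haT : a ∈ (T : Subgroup G) := by
      rw [htop]
      exact Subgroup.mem_top a
    exact htriv a (hTt a haT) (hA a ha)
  · intro g hg
    rw [Subgroup.eq_bot_iff_forall]
    rintro x ⟨hxT, hxg⟩
    by_contra hx1
    obtain ⟨c, hcT, hcx⟩ := (Subgroup.mem_smul_pointwise_iff_exists _ _ _).1 hxg
    have hcx' : g * c * g⁻¹ = x := hcx
    have hc1 : c ≠ 1 := by
      rintro rfl
      apply hx1
      rw [← hcx']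
      group
    apply hg
    apply hnorm
    rw [Subgroup.mem_normalizer_iff]
    intro h
    constructor
    · intro hh
      obtain ⟨m, rfl⟩ := Subgroup.mem_zpowers_iff.1 (hgen c hcT hc1 h hh)
      rw [← conj_zpow, hcx']
      exact Subgroup.zpow_mem _ hxT m
    · intro hh
      obtain ⟨m, hm⟩ := Subgroup.mem_zpowers_iff.1 (hgen x hxT hx1 _ hh)
      have h4 : h = g⁻¹ * x ^ m * g := by
        rw [hm]
        group
      have h5 : g⁻¹ * x ^ m * g = c ^ m := by
        rw [← hcx', conj_zpow]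
        group
      rw [h4, h5]
      exact Subgroup.zpow_mem _ hcT m
  · rw [heqT, Nat.card_zpowers, hzt]
    exact ht

/-- conjugation action of a subgroup on the elements of a given order -/
def conjOrdAction {G : Type u} [Group G] (Q : Subgroup G) (m : ℕ) :
    MulAction ↥Q {g : G // orderOf g = m} where
  smul x g := ⟨x.1 * g.1 * x.1⁻¹, by
    have h := (MulAut.conj x.1).orderOf_eq g.1
    rw [MulAut.conj_apply] at h
    rw [h]
    exact g.2⟩
  one_smul g := Subtype.ext (by
    show (1 : G) * g.1 * (1 : G)⁻¹ = g.1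
    simp)
  mul_smul x y g := Subtype.ext (by
    show (x.1 * y.1) * g.1 * (x.1 * y.1)⁻¹ = x.1 * (y.1 * g.1 * y.1⁻¹) * x.1⁻¹
    group)

theorem two_mul_le_of_fixed {G : Type u} [Group G] [Finite G] {p q : ℕ} (hp : p.Prime)
    (hq : q.Prime) (hpq : p ≠ q) (hp2 : p ≠ 2) (hmod : ¬ q ∣ S3996.sCnt G p) :
    2 * S3996.sCnt G q ≤ S3996.sCnt G (p * q) := by
  haveI := Fact.mk hq
  have hcopq : Nat.Coprime p q := (Nat.coprime_primes hp hq).2 hpq
  have hfix : ∀ Q : Sylow q G, ∃ a : G, orderOf a = p ∧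
      ∀ b ∈ (Q : Subgroup G), a * b = b * a := by
    intro Q
    letI := conjOrdAction (Q : Subgroup G) p
    have hcong := Q.2.card_modEq_card_fixedPoints {g : G // orderOf g = p}
    have hne : Nat.card (MulAction.fixedPoints ↥(Q : Subgroup G) {g : G // orderOf g = p})
        ≠ 0 := by
      intro h0
      rw [h0] at hcong
      exact hmod ((Nat.modEq_zero_iff_dvd).1 hcong)
    obtain ⟨⟨a, hafix⟩⟩ :
        Nonempty (MulAction.fixedPoints ↥(Q : Subgroup G) {g : G // orderOf g = p}) := by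
      by_contra hemp
      rw [not_nonempty_iff] at hemp
      exact hne Nat.card_of_isEmpty
    refine ⟨a.1, a.2, fun b hb => ?_⟩
    have h1 := hafix ⟨b, hb⟩
    have h2 : b * a.1 * b⁻¹ = a.1 := congrArg Subtype.val h1
    calc a.1 * b = b * a.1 * b⁻¹ * b := by rw [h2]
      _ = b * a.1 := by group
  have hmain : ∀ b : G, orderOf b = q → ∃ a : G, orderOf a = p ∧ a * b = b * a := by
    intro b hb
    have hP : IsPGroup q ↥(Subgroup.zpowers b) :=
      IsPGroup.of_card (n := 1) (by rw [Nat.card_zpowers, hb, pow_one])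
    obtain ⟨Q, hQ⟩ := hP.exists_le_sylow
    obtain ⟨a, ha, hab⟩ := hfix Q
    exact ⟨a, ha, hab b (hQ (Subgroup.mem_zpowers b))⟩
  choose! a ha using hmain
  have hord : ∀ (b : G) (e : ℕ), orderOf b = q → Nat.Coprime p e →
      orderOf (a b ^ e * b) = p * q := by
    intro b e hb he
    have hcm : Commute (a b ^ e) b := (show Commute (a b) b from (ha b hb).2).pow_left e
    have h1 : orderOf (a b ^ e) = p := by
      rw [Nat.Coprime.orderOf_pow (by rw [(ha b hb).1]; exact he), (ha b hb).1]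
    rw [hcm.orderOf_mul_eq_mul_orderOf_of_coprime (by rw [h1, hb]; exact hcopq), h1, hb]
  have hcop : ∀ i : Fin 2, Nat.Coprime p (i.1 + 1) := by
    intro i
    have hi := i.2
    have h12 : i.1 + 1 = 1 ∨ i.1 + 1 = 2 := by omega
    rcases h12 with h | h
    · rw [h]
      exact Nat.coprime_one_right p
    · rw [h]
      exact (Nat.coprime_primes hp Nat.prime_two).2 hp2
  let φ : Fin 2 × {g : G // orderOf g = q} → {g : G // orderOf g = p * q} := fun x =>
    ⟨a x.2.1 ^ (x.1.1 + 1) * x.2.1, hord x.2.1 _ x.2.2 (hcop x.1)⟩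
  have hφ : Function.Injective φ := by
    rintro ⟨i, ⟨b, hb⟩⟩ ⟨i', ⟨b', hb'⟩⟩ h
    have h' : a b ^ (i.1 + 1) * b = a b' ^ (i'.1 + 1) * b' := congrArg Subtype.val h
    have e1 : ∀ (c : G) (e : ℕ), orderOf c = q → (a c ^ e * c) ^ p = c ^ p := by
      intro c e hc
      have hcm : Commute (a c ^ e) c := (show Commute (a c) c from (ha c hc).2).pow_left e
      have hap : a c ^ p = 1 := by
        have h5 := pow_orderOf_eq_one (a c)
        rwa [(ha c hc).1] at h5
      rw [hcm.mul_pow, ← pow_mul, pow_mul', hap, one_pow, one_mul]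
    have e2 : b ^ p = b' ^ p := by
      rw [← e1 b _ hb, ← e1 b' _ hb', h']
    have hbq : b ^ q = 1 := by
      have h5 := pow_orderOf_eq_one b
      rwa [hb] at h5
    have hbq' : b' ^ q = 1 := by
      have h5 := pow_orderOf_eq_one b'
      rwa [hb'] at h5
    have hbb : b = b' := pow_cancel hq.one_lt hcopq hbq hbq' e2
    subst hbb
    have e3 : a b ^ (i.1 + 1) = a b ^ (i'.1 + 1) := mul_right_cancel h'
    have hp3 : 3 ≤ p := by
      have := hp.two_le
      omega
    have hi := i.2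
    have hi' := i'.2
    have e4 : i.1 + 1 = i'.1 + 1 :=
      pow_injOn_Iio_orderOf (by rw [(ha b hb).1]; show i.1 + 1 < p; omega)
        (by rw [(ha b hb).1]; show i'.1 + 1 < p; omega) e3
    have e5 : i = i' := Fin.ext (by omega)
    rw [e5]
  calc 2 * S3996.sCnt G q = Nat.card (Fin 2 × {g : G // orderOf g = q}) := by
        rw [Nat.card_prod, Nat.card_fin]
        rfl
    _ ≤ Nat.card {g : G // orderOf g = p * q} := Nat.card_le_card_of_injective φ hφ

theorem rel_p2 (s : ℕ → ℕ) {p : ℕ} (hp : p.Prime) :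
    ∑ m ∈ (p ^ 2).divisors, s m = s 1 + s p + s (p ^ 2) := by
  rw [Nat.sum_divisors_prime_pow hp]
  simp only [Finset.sum_range_succ, Finset.sum_range_zero, pow_zero, pow_one, zero_add]

theorem rel_p2q (s : ℕ → ℕ) {p q : ℕ} (hp : p.Prime) (hq : q.Prime) (hpq : p ≠ q) :
    ∑ m ∈ (p ^ 2 * q).divisors, s m
      = s 1 + s p + s (p ^ 2) + s q + s (p * q) + s (p ^ 2 * q) := by
  have hco : Nat.Coprime (p ^ 2) q := Nat.Coprime.pow_left 2 ((Nat.coprime_primes hp hq).2 hpq)
  rw [S3996.sum_div_coprime s hco, Nat.sum_divisors_prime_pow hp]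
  simp only [Finset.sum_range_succ, Finset.sum_range_zero, hq.sum_divisors, pow_zero, pow_one,
    one_mul, mul_one, zero_add]
  ring

theorem no_sq {s : ℕ → ℕ} {n u v p q : ℕ} (h : S3996.Ctx s n u v) (hp : p.Prime) (hp2 : p ≠ 2)
    (hq : q.Prime) (hq2 : q ≠ 2) (hpq : p ≠ q) (hn : p ^ 2 * q ∣ n) (hsp : s p = u)
    (hsq : s q = v) : s (p ^ 2) = 0 := by
  by_contra hne
  have hp2n : p ^ 2 ∣ n := (dvd_mul_right _ q).trans hn
  have hpp2 : p ∣ p ^ 2 := dvd_pow_self p (by norm_num)
  have hpn : p ∣ n := hpp2.trans hp2n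
  have hqn : q ∣ n := (dvd_mul_left q _).trans hn
  have hpqn : p * q ∣ n := (mul_dvd_mul_right hpp2 q).trans hn
  obtain ⟨ep, -⟩ := S3996.L1 h hp hp2 hpn
  obtain ⟨eq, -⟩ := S3996.L1 h hq hq2 hqn
  rw [hsp] at ep
  rw [hsq] at eq
  obtain ⟨h1, hev, hV, hF⟩ := id h
  obtain ⟨zp01, zp0m, zp1m⟩ := S3996.zdist hp hp2
  obtain ⟨zq01, zq0m, zq1m⟩ := S3996.zdist hq hq2
  have hR2 := hF (p ^ 2) hp2n
  rw [rel_p2 s hp, h1, hsp] at hR2
  have R2 := S3996.cast_zero_of_dvd hpp2 hR2
  push_cast at R2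
  have X2 : (s (p ^ 2) : ZMod p) = 0 := by linear_combination R2 - ep
  have hs2 : s (p ^ 2) = v := by
    rcases hV (p ^ 2) with h0 | h0 | h0 | h0
    · exact absurd h0 hne
    · rw [h0] at X2
      push_cast at X2
      exact absurd X2.symm zp01
    · rw [h0] at X2
      exact absurd (X2.symm.trans ep) zp0m
    · exact h0
  rw [hs2] at X2
  have hRpq := hF (p * q) hpqn
  rw [S3996.rel_pq s hp hq hpq, h1, hsp, hsq] at hRpq
  have Rpq_p := S3996.cast_zero_of_dvd (dvd_mul_right p q) hRpq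
  have Rpq_q := S3996.cast_zero_of_dvd (dvd_mul_left q p) hRpq
  push_cast at Rpq_p Rpq_q
  have Y : (s (p * q) : ZMod p) = 0 := by linear_combination Rpq_p - ep - X2
  have Z : (u : ZMod q) + (s (p * q) : ZMod q) = 0 := by linear_combination Rpq_q - eq
  have hR3 := hF (p ^ 2 * q) hn
  rw [rel_p2q s hp hq hpq, h1, hsp, hs2, hsq] at hR3
  have R3p := S3996.cast_zero_of_dvd (hpp2.mul_right q) hR3
  have R3q := S3996.cast_zero_of_dvd (dvd_mul_left q (p ^ 2)) hR3
  push_cast at R3p R3q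
  have W : (s (p ^ 2 * q) : ZMod q) = 1 := by linear_combination R3q - Z - 2 * eq
  have hE := hev (p ^ 2 * q) (lt_of_lt_of_le (S3996.two_lt_mul hp hp2 hq)
    (Nat.mul_le_mul_right q (Nat.le_self_pow (by norm_num) p)))
  have hs3 : s (p ^ 2 * q) = u := by
    rcases hV (p ^ 2 * q) with h0 | h0 | h0 | h0
    · rw [h0] at W
      push_cast at W
      exact absurd W zq01
    · rw [h0] at hE
      exact absurd hE (by decide)
    · exact h0
    · rw [h0] at W
      exact absurd (W.symm.trans eq) zq1m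
  rw [hs3] at R3p
  exact zp0m (by linear_combination -R3p + 2 * ep + 2 * X2 + Y)

theorem pq_mod {s : ℕ → ℕ} {n u v p q : ℕ} (h : S3996.Ctx s n u v) (hp : p.Prime)
    (hq : q.Prime) (hq2 : q ≠ 2) (hpq : p ≠ q) (hn : p * q ∣ n) (hsp : s p = u)
    (hsq : s q = v) (hspq : s (p * q) = v) : (u : ZMod q) = 1 := by
  have hqn : q ∣ n := (dvd_mul_left q _).trans hn
  obtain ⟨eq, -⟩ := S3996.L1 h hq hq2 hqn
  rw [hsq] at eq
  obtain ⟨h1, hev, hV, hF⟩ := id h
  have hRpq := hF (p * q) hn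
  rw [S3996.rel_pq s hp hq hpq, h1, hsp, hsq, hspq] at hRpq
  have Rpq_q := S3996.cast_zero_of_dvd (dvd_mul_left q p) hRpq
  push_cast at Rpq_q
  linear_combination Rpq_q - 2 * eq

theorem no_sq_grp {G : Type u} [Group G] [Finite G] {u v p q : ℕ}
    (hC : S3996.Ctx (S3996.sCnt G) (Nat.card G) u v) (hp : p.Prime) (hp2 : p ≠ 2)
    (hq : q.Prime) (hq2 : q ≠ 2) (hpq : p ≠ q) (hqn : q ∣ Nat.card G)
    (hsp : S3996.sCnt G p = u) (hsq : S3996.sCnt G q = v) (g : G) : ¬ p ^ 2 ∣ orderOf g := by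
  intro hg
  have hpos : 0 < orderOf g := orderOf_pos g
  have hn0 : orderOf g / p ^ 2 ≠ 0 :=
    (Nat.div_pos (Nat.le_of_dvd hpos hg) (pow_pos hp.pos 2)).ne'
  have ho : orderOf (g ^ (orderOf g / p ^ 2)) = p ^ 2 := by
    rw [orderOf_pow_of_dvd hn0 (Nat.div_dvd_of_dvd hg), Nat.div_div_self hg hpos.ne']
  have hp2n : p ^ 2 ∣ Nat.card G := by
    rw [← ho]
    exact orderOf_dvd_natCard _
  have hdiv : p ^ 2 * q ∣ Nat.card G :=
    (Nat.Coprime.pow_left 2 ((Nat.coprime_primes hp hq).2 hpq)).mul_dvd_of_dvd_of_dvd hp2n hqn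
  have h0 := no_sq hC hp hp2 hq hq2 hpq hdiv hsp hsq
  haveI : Nonempty {x : G // orderOf x = p ^ 2} := ⟨⟨_, ho⟩⟩
  have hpos2 : 0 < Nat.card {x : G // orderOf x = p ^ 2} := Nat.card_pos
  have h0' : Nat.card {x : G // orderOf x = p ^ 2} = 0 := h0
  omega

theorem exists_abelian_normal (G : Type u) [Group G] [Nontrivial G] (hs : Group.IsSolvable G) :
    ∃ A : Subgroup G, A.Normal ∧ A ≠ ⊥ ∧ ∀ a ∈ A, ∀ b ∈ A, a * b = b * a := by
  classical
  have hex : ∃ n, derivedSeries G n = ⊥ := hs.solvable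
  have hmin := @Nat.find_min _ _ hex
  have hspec : derivedSeries G (Nat.find hex) = ⊥ := Nat.find_spec hex
  have h0 : Nat.find hex ≠ 0 := by
    intro h0
    rw [h0, derivedSeries_zero] at hspec
    exact top_ne_bot hspec
  obtain ⟨k, hk⟩ := Nat.exists_eq_succ_of_ne_zero h0
  have hk1 : derivedSeries G k ≠ ⊥ := hmin (by rw [hk]; exact Nat.lt_succ_self k)
  rw [hk, derivedSeries_succ] at hspec
  refine ⟨derivedSeries G k, derivedSeries_normal G k, hk1, fun a ha b hb => ?_⟩
  have hle := (Subgroup.commutator_eq_bot_iff_le_centralizer).1 hspec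
  exact (Subgroup.mem_centralizer_iff.1 (hle ha) b hb).symm

theorem partB {G : Type u} [Group G] [Finite G] {a b p q : ℕ}
    (hC : S3996.Ctx (S3996.sCnt G) (Nat.card G) a b) (hodd : Odd (Nat.card G))
    (hsol : Group.IsSolvable G)
    (hp : p.Prime) (hq : q.Prime) (hpq : p ≠ q) (hpn : p ∣ Nat.card G) (hqn : q ∣ Nat.card G)
    (hall : ∀ t : ℕ, t.Prime → t ∣ Nat.card G → t = p ∨ t = q) :
    (∀ (p' : ℕ) [Fact p'.Prime] (P : Sylow p' G), p' ∣ Nat.card G →
        Monoid.exponent ↥(P : Subgroup G) = p') ∧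
      ∃ C : Subgroup G, Cfsg.IsFrobeniusComplement C ∧ (Nat.card ↥C).Prime := by
  have hodd2 : ∀ t, t ∣ Nat.card G → t ≠ 2 := by
    intro t ht h2
    rw [h2] at ht
    exact (Nat.not_even_iff_odd.2 hodd) (even_iff_two_dvd.2 ht)
  have hp2 := hodd2 p hpn
  have hq2 := hodd2 q hqn
  obtain ⟨-, vp⟩ := S3996.L1 hC hp hp2 hpn
  obtain ⟨-, vq⟩ := S3996.L1 hC hq hq2 hqn
  have hne : S3996.sCnt G p ≠ S3996.sCnt G q := fun e =>
    S3996.K2' hC (dvd_refl _) hodd (S3996.sCnt_total G).le hp hq hpq hpn hqn e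
  have hC' : S3996.Ctx (S3996.sCnt G) (Nat.card G) (S3996.sCnt G p) (S3996.sCnt G q) := by
    rcases vp with vp | vp <;> rcases vq with vq | vq
    · exact absurd (vp.trans vq.symm) hne
    · rw [vp, vq]
      exact hC
    · rw [vp, vq]
      exact S3996.Ctx.swap hC
    · exact absurd (vp.trans vq.symm) hne
  obtain ⟨ep, -⟩ := S3996.L1 hC' hp hp2 hpn
  obtain ⟨eq, -⟩ := S3996.L1 hC' hq hq2 hqn
  obtain ⟨zp01, zp0m, zp1m⟩ := S3996.zdist hp hp2
  obtain ⟨zq01, zq0m, zq1m⟩ := S3996.zdist hq hq2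
  have hu0 : S3996.sCnt G p ≠ 0 := by
    intro h0
    rw [h0] at ep
    push_cast at ep
    exact zp0m ep
  have hv0 : S3996.sCnt G q ≠ 0 := by
    intro h0
    rw [h0] at eq
    push_cast at eq
    exact zq0m eq
  have hpqn : p * q ∣ Nat.card G :=
    ((Nat.coprime_primes hp hq).2 hpq).mul_dvd_of_dvd_of_dvd hpn hqn
  -- no elements of order divisible by a square
  have hnp : ∀ g : G, ¬ p ^ 2 ∣ orderOf g :=
    no_sq_grp hC' hp hp2 hq hq2 hpq hqn rfl rfl
  have hnq : ∀ g : G, ¬ q ^ 2 ∣ orderOf g :=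
    no_sq_grp (S3996.Ctx.swap hC') hq hq2 hp hp2 hpq.symm hpn rfl rfl
  have hord : ∀ g : G, orderOf g ∣ p * q := by
    intro g
    rw [Nat.dvd_iff_prime_pow_dvd_dvd]
    intro t k ht hk
    rcases Nat.eq_zero_or_pos k with rfl | hkpos
    · simp
    have htn : t ∣ Nat.card G :=
      ((dvd_pow_self t (by omega)).trans hk).trans (orderOf_dvd_natCard g)
    have hk1 : k = 1 := by
      by_contra hk1
      have hk2 : 2 ≤ k := by omega
      have ht2 : t ^ 2 ∣ orderOf g := (pow_dvd_pow t hk2).trans hk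
      rcases hall t ht htn with h | h
      · rw [h] at ht2
        exact hnp g ht2
      · rw [h] at ht2
        exact hnq g ht2
    rw [hk1, pow_one]
    rcases hall t ht htn with h | h
    · rw [h]
      exact dvd_mul_right _ _
    · rw [h]
      exact dvd_mul_left _ _
  -- no elements of order p * q
  have hspq : S3996.sCnt G (p * q) = 0 := by
    obtain ⟨h1, hev, hV', hF⟩ := id hC'
    have hE := hev (p * q) (S3996.two_lt_mul hp hp2 hq)
    rcases hV' (p * q) with h0 | h0 | h0 | h0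
    · exact h0
    · rw [h0] at hE
      exact absurd hE (by decide)
    · exfalso
      have hm : (S3996.sCnt G q : ZMod p) = 1 :=
        pq_mod (S3996.Ctx.swap hC') hq hp hp2 hpq.symm (by rw [mul_comm]; exact hpqn) rfl rfl
          (by rw [mul_comm]; exact h0)
      have hnd : ¬ p ∣ S3996.sCnt G q := by
        intro hd
        have h3 := (ZMod.natCast_eq_zero_iff _ _).2 hd
        rw [hm] at h3
        exact zp01 h3.symm
      have h2 := two_mul_le_of_fixed hq hp hpq.symm hq2 hnd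
      rw [mul_comm q p, h0] at h2
      omega
    · exfalso
      have hm : (S3996.sCnt G p : ZMod q) = 1 :=
        pq_mod hC' hp hq hq2 hpq hpqn rfl rfl h0
      have hnd : ¬ q ∣ S3996.sCnt G p := by
        intro hd
        have h3 := (ZMod.natCast_eq_zero_iff _ _).2 hd
        rw [hm] at h3
        exact zq01 h3.symm
      have h2 := two_mul_le_of_fixed hp hq hpq hp2 hnd
      rw [h0] at h2
      omega
  -- every element has prime order
  have hepo : ∀ g : G, g ^ p = 1 ∨ g ^ q = 1 := by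
    intro g
    by_cases hpg : p ∣ orderOf g
    · left
      have hqg : ¬ q ∣ orderOf g := by
        intro hqg
        have h3 : p * q ∣ orderOf g :=
          ((Nat.coprime_primes hp hq).2 hpq).mul_dvd_of_dvd_of_dvd hpg hqg
        have h4 : orderOf g = p * q := Nat.dvd_antisymm (hord g) h3
        haveI : Nonempty {x : G // orderOf x = p * q} := ⟨⟨g, h4⟩⟩
        have hpos2 : 0 < Nat.card {x : G // orderOf x = p * q} := Nat.card_pos
        have h0' : Nat.card {x : G // orderOf x = p * q} = 0 := hspq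
        omega
      have h5 : Nat.Coprime (orderOf g) q :=
        Nat.Coprime.symm ((Nat.Prime.coprime_iff_not_dvd hq).2 hqg)
      have h6 : orderOf g ∣ p := h5.dvd_of_dvd_mul_right (hord g)
      exact orderOf_dvd_iff_pow_eq_one.1 h6
    · right
      have h5 : Nat.Coprime (orderOf g) p :=
        Nat.Coprime.symm ((Nat.Prime.coprime_iff_not_dvd hp).2 hpg)
      have h6 : orderOf g ∣ q := h5.dvd_of_dvd_mul_left (hord g)
      exact orderOf_dvd_iff_pow_eq_one.1 h6
  refine ⟨?_, ?_⟩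
  · intro p' _ P hp'n
    have hp' : p'.Prime := Fact.out
    have hdvd : Monoid.exponent ↥(P : Subgroup G) ∣ p' := by
      rw [Monoid.exponent_dvd_iff_forall_pow_eq_one]
      rintro ⟨x, hx⟩
      apply Subtype.ext
      show x ^ p' = 1
      obtain ⟨k, hk⟩ := P.2 ⟨x, hx⟩
      have hk' : x ^ p' ^ k = 1 := congrArg Subtype.val hk
      obtain ⟨j, hj, hjo⟩ := (Nat.dvd_prime_pow hp').1 (orderOf_dvd_of_pow_eq_one hk')
      have hj1 : j ≤ 1 := by
        by_contra hj2
        have h7 : p' ^ 2 ∣ orderOf x := by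
          rw [hjo]
          exact pow_dvd_pow p' (by omega)
        rcases hall p' hp' hp'n with h | h
        · rw [h] at h7
          exact hnp x h7
        · rw [h] at h7
          exact hnq x h7
      have h8 : orderOf x ∣ p' := by
        rw [hjo]
        exact (pow_dvd_pow p' hj1).trans (by rw [pow_one])
      exact orderOf_dvd_iff_pow_eq_one.1 h8
    have hne1 : Monoid.exponent ↥(P : Subgroup G) ≠ 1 := by
      intro h1
      haveI hsub : Subsingleton ↥(P : Subgroup G) := Monoid.exp_eq_one_iff.1 h1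
      exact P.ne_bot_of_dvd_card hp'n (Subgroup.eq_bot_of_subsingleton _)
    exact ((Nat.dvd_prime hp').1 hdvd).resolve_left hne1
  · haveI : Nontrivial G :=
      Finite.one_lt_card_iff_nontrivial.1
        (lt_of_lt_of_le hp.one_lt (Nat.le_of_dvd Nat.card_pos hpn))
    obtain ⟨A, hAn, hAbot, hAcomm⟩ := exists_abelian_normal G hsol
    haveI := hAn
    have hAr : (∀ a ∈ A, a ^ p = 1) ∨ (∀ a ∈ A, a ^ q = 1) := by
      by_contra hcon
      push Not at hcon
      obtain ⟨⟨a, haA, hap⟩, ⟨b, hbA, hbq⟩⟩ := hcon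
      have haq : a ^ q = 1 := (hepo a).resolve_left hap
      have hbp : b ^ p = 1 := (hepo b).resolve_right hbq
      have hcm : Commute a b := hAcomm a haA b hbA
      rcases hepo (a * b) with h | h
      · rw [hcm.mul_pow, hbp, mul_one] at h
        exact hap h
      · rw [hcm.mul_pow, haq, one_mul] at h
        exact hbq h
    rcases hAr with hAp | hAq
    · exact frob_of_epo A hAbot hAcomm hq hp hpq.symm (fun g => (hepo g).symm) hAp hqn
    · exact frob_of_epo A hAbot hAcomm hp hq hpq hepo hAq hpn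

end Helpers

/-- Let G be a finite group of odd order in which the numbers of elements of each order that occurs (the numbers #{g : o(g) = m}, m ranging over the element orders of G) take exactly three different values. Then the order of G has at most two prime divisors; and if it has exactly two, then every Sylow subgroup of G for a prime dividing its order has prime exponent, G is a Frobenius group, and some Frobenius complement of G has prime order. -/
theorem result {G : Type*} [Group G] [Finite G] (hodd : Odd (Nat.card G)) (h : (((fun m : ℕ => Nat.card {g : G // orderOf g = m}) '' Set.range (orderOf : G → ℕ))).ncard = 3) :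
    (Nat.card G).primeFactors.card ≤ 2 ∧
      ((Nat.card G).primeFactors.card = 2 →
        (∀ (p : ℕ) [Fact p.Prime] (P : Sylow p G), p ∣ Nat.card G → Monoid.exponent ↥(P : Subgroup G) = p) ∧
        ∃ C : Subgroup G, Cfsg.IsFrobeniusComplement C ∧ (Nat.card ↥C).Prime) := by
  obtain ⟨a, b, hV⟩ := S3996.sCnt_values G h
  have hC : S3996.Ctx (S3996.sCnt G) (Nat.card G) a b :=
    ⟨S3996.sCnt_one G, S3996.sCnt_even G, hV, S3996.sCnt_frob G⟩
  have hodd2 : ∀ t, t ∣ Nat.card G → t ≠ 2 := by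
    intro t ht h2
    rw [h2] at ht
    exact (Nat.not_even_iff_odd.2 hodd) (even_iff_two_dvd.2 ht)
  have hn0 : Nat.card G ≠ 0 := (Nat.card_pos (α := G)).ne'
  refine ⟨?_, fun h2 => ?_⟩
  · have hinj : Set.InjOn (S3996.sCnt G) ((Nat.card G).primeFactors : Set ℕ) := by
      intro x hx y hy hxy
      by_contra hne
      have hx' := Finset.mem_coe.1 hx
      have hy' := Finset.mem_coe.1 hy
      exact S3996.K2' hC (dvd_refl _) hodd (S3996.sCnt_total G).le
        (Nat.prime_of_mem_primeFactors hx') (Nat.prime_of_mem_primeFactors hy') hne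
        (Nat.dvd_of_mem_primeFactors hx') (Nat.dvd_of_mem_primeFactors hy') hxy
    have hmaps : Set.MapsTo (S3996.sCnt G) ((Nat.card G).primeFactors : Set ℕ)
        (({a, b} : Finset ℕ) : Set ℕ) := by
      intro x hx
      have hx' := Finset.mem_coe.1 hx
      have hxp := Nat.prime_of_mem_primeFactors hx'
      have hxn := Nat.dvd_of_mem_primeFactors hx'
      have h3 := (S3996.L1 hC hxp (hodd2 x hxn) hxn).2
      simpa using h3
    calc (Nat.card G).primeFactors.card ≤ ({a, b} : Finset ℕ).card :=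
          Finset.card_le_card_of_injOn (S3996.sCnt G) hmaps hinj
      _ ≤ 2 := Finset.card_le_two
  · obtain ⟨p, q, hpq, hpf⟩ := Finset.card_eq_two.1 h2
    have hpm : p ∈ (Nat.card G).primeFactors := by
      rw [hpf]
      simp
    have hqm : q ∈ (Nat.card G).primeFactors := by
      rw [hpf]
      simp
    have hall : ∀ t : ℕ, t.Prime → t ∣ Nat.card G → t = p ∨ t = q := by
      intro t ht htn
      have htm : t ∈ (Nat.card G).primeFactors := Nat.mem_primeFactors.2 ⟨ht, htn, hn0⟩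
      rw [hpf] at htm
      simpa using htm
    exact partB hC hodd (S3996.result h) (Nat.prime_of_mem_primeFactors hpm)
      (Nat.prime_of_mem_primeFactors hqm) hpq (Nat.dvd_of_mem_primeFactors hpm)
      (Nat.dvd_of_mem_primeFactors hqm) hall

end Cfsg.Agent.S4004
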