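import Mathlib
import Cfsg.Statements.S4005
import Cfsg.Agent.S1009

set_option autoImplicit false
open Cfsg

namespace Cfsg.Agent.S4005

theorem braid {G : Type*} [Group G] (s t : G) (hs : s * s = 1) (ht : t * t = 1)
    (h : (s * t) ^ 3 = 1) : t * s * t = s * t * s := by
  have hsi : s⁻¹ = s := inv_eq_of_mul_eq_one_left hs
  have hti : t⁻¹ = t := inv_eq_of_mul_eq_one_left ht
  have h' : s * t * (s * t) * (s * t) = 1 := by
    rw [← h]
    simp [pow_succ]
  calc t * s * t = s⁻¹ * (s * t * (s * t) * (s * t)) * (s * t)⁻¹ := by group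
    _ = s * t * s := by rw [h', mul_one, mul_inv_rev, hsi, hti, mul_assoc]

theorem word {G : Type*} [Group G] (a b t : G) (ha : a * a = 1) (hb : b * b = 1) (ht : t * t = 1)
    (hab : a * b = b * a) (h1 : (a * t) ^ 3 = 1) (h2 : (b * t) ^ 3 = 1)
    (h3 : (a * b * t) ^ 3 = 1) : t * b * t⁻¹ = a := by
  have habab : a * b * (a * b) = 1 := by
    calc a * b * (a * b) = a * (b * a) * b := by group
      _ = a * (a * b) * b := by rw [hab]
      _ = (a * a) * (b * b) := by group
      _ = 1 := by rw [ha, hb, one_mul]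
  have E1 := braid a t ha ht h1
  have E2 := braid b t hb ht h2
  have E3 := braid (a * b) t habab ht h3
  have e4 : t * (a * b) * t = (t * a * t) * (t * b * t) := by
    calc t * (a * b) * t = t * a * 1 * b * t := by group
      _ = t * a * (t * t) * b * t := by rw [ht]
      _ = (t * a * t) * (t * b * t) := by group
  have F : a * b * t * (a * b) = a * t * a * (b * t * b) := by
    rw [← E3, e4, E1, E2]
  have star : t * (a * b) * t = b * t * a := by
    calc t * (a * b) * t = a⁻¹ * (a * t * a * (b * t * b)) * b⁻¹ := by group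
      _ = a⁻¹ * (a * b * t * (a * b)) * b⁻¹ := by rw [F]
      _ = b * t * a := by group
  have G1 : b * t * a = a * b * t * (a * b) := by rw [← star, E3]
  have c1 : b⁻¹ * a * b = a := by
    rw [mul_assoc, hab]
    group
  have c2 : a * b * a⁻¹ = b := by
    rw [hab]
    group
  have hT : t = a * t * b := by
    calc t = b⁻¹ * (b * t * a) * a⁻¹ := by group
      _ = b⁻¹ * (a * b * t * (a * b)) * a⁻¹ := by rw [G1]
      _ = (b⁻¹ * a * b) * t * (a * b * a⁻¹) := by group
      _ = a * t * b := by rw [c1, c2]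
  have h5 : t * b = a * t := by
    have h6 : a * t * b * b = a * t := by rw [mul_assoc, hb, mul_one]
    calc t * b = a * t * b * b := by rw [← hT]
      _ = a * t := h6
  rw [h5]
  group

section
variable {G : Type*} [Group G] [Finite G]

theorem no6 (hord : ∀ g : G, orderOf g = 1 ∨ orderOf g = 2 ∨ orderOf g = 3) (s y : G)
    (hs : orderOf s = 2) (hy : orderOf y = 3) (hc : Commute s y) : False := by
  have h := hc.orderOf_mul_eq_mul_orderOf_of_coprime (by rw [hs, hy]; norm_num)
  rw [hs, hy] at h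
  rcases hord (s * y) with h1 | h1 | h1 <;> omega

theorem sq_of_mem_sylow (hord : ∀ g : G, orderOf g = 1 ∨ orderOf g = 2 ∨ orderOf g = 3)
    (P : Sylow 2 G) (y : G) (hy : y ∈ (P : Subgroup G)) : y * y = 1 := by
  obtain ⟨k, hk⟩ := (P.2) ⟨y, hy⟩
  have hk' : y ^ 2 ^ k = 1 := by simpa using congrArg Subtype.val hk
  have hd : orderOf y ∣ 2 ^ k := orderOf_dvd_of_pow_eq_one hk'
  rcases hord y with h1 | h1 | h1
  · rw [orderOf_eq_one_iff.mp h1]
    simp
  · rw [← pow_two, ← h1]
    exact pow_orderOf_eq_one y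
  · rw [h1] at hd
    have h3 := Nat.Prime.dvd_of_dvd_pow Nat.prime_three hd
    norm_num at h3

theorem comm_of_mem_sylow (hord : ∀ g : G, orderOf g = 1 ∨ orderOf g = 2 ∨ orderOf g = 3)
    (P : Sylow 2 G) (x y : G) (hx : x ∈ (P : Subgroup G)) (hy : y ∈ (P : Subgroup G)) :
    x * y = y * x := by
  have hxx := sq_of_mem_sylow hord P x hx
  have hyy := sq_of_mem_sylow hord P y hy
  have hxy := sq_of_mem_sylow hord P (x * y) (Subgroup.mul_mem _ hx hy)
  have hxi : x⁻¹ = x := inv_eq_of_mul_eq_one_left hxx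
  have hyi : y⁻¹ = y := inv_eq_of_mul_eq_one_left hyy
  calc x * y = (x * y)⁻¹ := (inv_eq_of_mul_eq_one_left hxy).symm
    _ = y * x := by rw [mul_inv_rev, hxi, hyi]

theorem cent_eq (hord : ∀ g : G, orderOf g = 1 ∨ orderOf g = 2 ∨ orderOf g = 3)
    (P : Sylow 2 G) (s : G) (hs : s ∈ (P : Subgroup G)) (hs1 : s ≠ 1) :
    Subgroup.centralizer {s} = (P : Subgroup G) := by
  have hs2 : orderOf s = 2 :=
    orderOf_eq_prime (by rw [pow_two]; exact sq_of_mem_sylow hord P s hs) hs1
  apply P.is_maximal'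
  · intro y
    rcases hord (y : G) with h1 | h1 | h1
    · refine ⟨0, ?_⟩
      apply Subtype.ext
      simpa using orderOf_eq_one_iff.mp h1
    · refine ⟨1, ?_⟩
      apply Subtype.ext
      have := pow_orderOf_eq_one (y : G)
      rw [h1] at this
      simpa using this
    · exfalso
      have hc : Commute s (y : G) := (Subgroup.mem_centralizer_iff.mp y.2 s rfl)
      exact no6 hord s y hs2 h1 hc
  · intro y hy
    rw [Subgroup.mem_centralizer_iff]
    intro h hh
    rw [Set.mem_singleton_iff] at hh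
    rw [hh]
    exact comm_of_mem_sylow hord P s y hs hy

theorem ti (hord : ∀ g : G, orderOf g = 1 ∨ orderOf g = 2 ∨ orderOf g = 3)
    (P P' : Sylow 2 G) (s : G) (hs : s ∈ (P : Subgroup G)) (hs' : s ∈ (P' : Subgroup G))
    (hs1 : s ≠ 1) : P = P' := by
  apply Sylow.ext
  rw [← cent_eq hord P s hs hs1, ← cent_eq hord P' s hs' hs1]

theorem case_two (hord : ∀ g : G, orderOf g = 1 ∨ orderOf g = 2 ∨ orderOf g = 3)
    (S : Sylow 2 G) (hS : Nat.card ↥(S : Subgroup G) = 2) :
    ∃ N : Subgroup G, N.Normal ∧ Cfsg.IsElementaryAbelian 3 N ∧ N.index = 2 := by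
  have : Fact (Nat.Prime 2) := ⟨Nat.prime_two⟩
  have hNC : Subgroup.normalizer ((S : Subgroup G) : Set G)
      ≤ Subgroup.centralizer ((S : Subgroup G) : Set G) := by
    intro g hg
    rw [Subgroup.mem_centralizer_iff]
    intro y hy
    obtain ⟨s, hs1, hsu⟩ := (Nat.card_eq_two_iff' (1 : ↥(S : Subgroup G))).mp hS
    by_cases hy1 : y = 1
    · rw [hy1]
      simp
    · have h1 : (⟨y, hy⟩ : ↥(S : Subgroup G)) = s :=
        hsu _ (by intro h; exact hy1 (congrArg Subtype.val h))
      have hgy : g * y * g⁻¹ ∈ (S : Subgroup G) := (Subgroup.mem_normalizer_iff.mp hg y).mp hy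
      have h2 : (⟨g * y * g⁻¹, hgy⟩ : ↥(S : Subgroup G)) = s := hsu _ (by
        intro h
        have h3 : g * y * g⁻¹ = 1 := congrArg Subtype.val h
        apply hy1
        calc y = g⁻¹ * (g * y * g⁻¹) * g := by group
          _ = 1 := by rw [h3]; group)
      have h3 : g * y * g⁻¹ = y := congrArg Subtype.val (h2.trans h1.symm)
      exact (mul_inv_eq_iff_eq_mul.mp h3).symm
  set N := (MonoidHom.transferSylow S hNC).ker with hN
  have hcomp : Subgroup.IsComplement' N (S : Subgroup G) :=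
    MonoidHom.ker_transferSylow_isComplement' S hNC
  have hidx : N.index = 2 := by
    rw [hcomp.symm.index_eq_card, hS]
  have hnd : ¬ 2 ∣ Nat.card ↥N := MonoidHom.not_dvd_card_ker_transferSylow S hNC
  have hout : ∀ y : G, y ∉ N → y * y = 1 := by
    intro y hy
    rcases hord y with h1 | h1 | h1
    · exfalso
      apply hy
      rw [orderOf_eq_one_iff.mp h1]
      exact N.one_mem
    · rw [← pow_two, ← h1]
      exact pow_orderOf_eq_one y
    · exfalso
      apply hy
      have h2 : y * y ∈ N := Subgroup.mul_self_mem_of_index_two hidx y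
      have h3 : y ^ 3 = 1 := by
        rw [← h1]
        exact pow_orderOf_eq_one y
      have h4 : y = (y * y) * (y * y) := by
        calc y = y ^ 3 * y := by rw [h3, one_mul]
          _ = (y * y) * (y * y) := by simp [pow_succ, mul_assoc]
      rw [h4]
      exact N.mul_mem h2 h2
  obtain ⟨t, ht⟩ : ∃ t : G, t ∉ N := by
    by_contra hall
    push Not at hall
    have : N = ⊤ := (Subgroup.eq_top_iff' N).mpr hall
    rw [this, Subgroup.index_top] at hidx
    norm_num at hidx
  have htt : t * t = 1 := hout t ht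
  have hinv : ∀ a ∈ N, t * a * t = a⁻¹ := by
    intro a ha
    have h1 : t * a ∉ N := by
      rw [Subgroup.mul_mem_iff_of_index_two hidx]
      intro h
      exact ht (h.mpr ha)
    have h2 := hout (t * a) h1
    calc t * a * t = (t * a * (t * a)) * a⁻¹ := by group
      _ = a⁻¹ := by rw [h2, one_mul]
  have hcommN : ∀ a ∈ N, ∀ b ∈ N, a * b = b * a := by
    intro a ha b hb
    have h1 := hinv (a * b) (N.mul_mem ha hb)
    have h2 : t * (a * b) * t = (t * a * t) * (t * b * t) := by
      calc t * (a * b) * t = t * a * 1 * b * t := by group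
        _ = t * a * (t * t) * b * t := by rw [htt]
        _ = (t * a * t) * (t * b * t) := by group
    rw [h2, hinv a ha, hinv b hb, mul_inv_rev] at h1
    have h3 : (a⁻¹ * b⁻¹)⁻¹ = (b⁻¹ * a⁻¹)⁻¹ := by rw [h1]
    simpa using h3.symm
  refine ⟨N, ?_, ⟨⟨⟨fun x y => Subtype.ext (hcommN x x.2 y y.2)⟩⟩, ?_⟩, hidx⟩
  · rw [hN]
    infer_instance
  · intro a ha
    rcases hord a with h1 | h1 | h1
    · rw [orderOf_eq_one_iff.mp h1]
      simp
    · exfalso
      apply hnd
      have h2 : orderOf (⟨a, ha⟩ : ↥N) = 2 := by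
        rw [← h1]
        exact Subgroup.orderOf_mk a ha
      rw [← h2]
      exact orderOf_dvd_natCard _
    · rw [← h1]
      exact pow_orderOf_eq_one a

theorem comm_calc {A : Type*} [Group A] (hcA : ∀ x y : A, x * y = y * x)
    (hsq : ∀ x : A, x * x = 1) (α β : A ≃* A) (hc : ∀ v, α (β v) = β (α v))
    (h1 : ∀ v, v * α v * α (α v) = 1) (h2 : ∀ v, v * β v * β (β v) = 1)
    (h3 : ∀ v, v * α (β v) * α (β (α (β v))) = 1) (v : A) : α v = β v := by
  have hw : β (β v) = (v * β v)⁻¹ := eq_inv_of_mul_eq_one_right (h2 v)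
  have e1 : α (β (α (β v))) = α (α (β (β v))) := by rw [← hc (β v)]
  have hαw : α (β (β v)) = (α v * α (β v))⁻¹ := by rw [hw, map_inv, map_mul]
  have e2 : α (α (β (β v))) = (β (β v) * α (β (β v)))⁻¹ :=
    eq_inv_of_mul_eq_one_right (h1 (β (β v)))
  have e3 := h3 v
  rw [e1, e2, hαw, hw] at e3
  have e4 : v * α (β v) * ((v * β v)⁻¹ * (α v * α (β v))⁻¹)⁻¹
      = (v * v) * (α (β v) * α (β v)) * (β v * α v) := by
    rw [mul_inv_rev, inv_inv, inv_inv]
    have hcomI : Std.Commutative (α := A) (· * ·) := ⟨hcA⟩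
    ac_rfl
  rw [e4, hsq, hsq, one_mul, one_mul] at e3
  have e5 : α v = (β v)⁻¹ := eq_inv_of_mul_eq_one_right e3
  rw [e5]
  exact inv_eq_of_mul_eq_one_left (hsq (β v))

theorem fpf_rel (hord : ∀ g : G, orderOf g = 1 ∨ orderOf g = 2 ∨ orderOf g = 3)
    (S : Subgroup G) [hSn : S.Normal] (hsq : ∀ y ∈ S, y * y = 1)
    (hcomm : ∀ x y : G, x ∈ S → y ∈ S → x * y = y * x) (c : G) (hc : orderOf c = 3) (v : ↥S) :
    v * (MulAut.conjNormal c : MulAut ↥S) v
      * (MulAut.conjNormal c : MulAut ↥S) ((MulAut.conjNormal c : MulAut ↥S) v) = 1 := by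
  set α := (MulAut.conjNormal c : MulAut ↥S) with hα
  set w := v * α v * α (α v) with hw
  have hcS : ∀ x y : ↥S, x * y = y * x := fun x y => Subtype.ext (hcomm x y x.2 y.2)
  have h3 : α (α (α v)) = v := by
    apply Subtype.ext
    simp only [hα, MulAut.conjNormal_apply]
    have hc3 : c ^ 3 = 1 := by
      rw [← hc]
      exact pow_orderOf_eq_one c
    have hc3' : c * c * c = 1 := by simpa [pow_succ] using hc3
    calc c * (c * (c * (v : G) * c⁻¹) * c⁻¹) * c⁻¹ = (c * c * c) * v * (c * c * c)⁻¹ := by group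
      _ = v := by rw [hc3']; group
  have hfix : α w = w := by
    rw [hw, map_mul, map_mul, h3, hcS (α v * α (α v)) v, mul_assoc]
  by_contra hw1
  have hw2 : orderOf (w : G) = 2 :=
    orderOf_eq_prime (by rw [pow_two]; exact hsq w w.2) (fun h => hw1 (Subtype.ext h))
  have hfix' : c * (w : G) * c⁻¹ = w := by
    have := congrArg Subtype.val hfix
    simpa only [hα, MulAut.conjNormal_apply] using this
  have hcm : Commute (w : G) c := (mul_inv_eq_iff_eq_mul.mp hfix').symm
  exact no6 hord w c hw2 hc hcm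

theorem case_four (hord : ∀ g : G, orderOf g = 1 ∨ orderOf g = 2 ∨ orderOf g = 3)
    (S : Sylow 2 G) (x0 : G) (hx0 : orderOf x0 = 3) (hS : 4 ≤ Nat.card ↥(S : Subgroup G)) :
    ∃ N : Subgroup G, N.Normal ∧ Cfsg.IsElementaryAbelian 2 N ∧ N.index = 3 := by
  classical
  have : Fact (Nat.Prime 2) := ⟨Nat.prime_two⟩
  have hsq := sq_of_mem_sylow hord S
  have hcomm := comm_of_mem_sylow hord S
  have huniq : ∀ S' : Sylow 2 G, S' = S := by
    intro S'
    by_contra hne
    have hdisj : ∀ s, s ∈ (S : Subgroup G) → s ∈ (S' : Subgroup G) → s = 1 := by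
      intro s hs hs'
      by_contra hs1
      exact hne (ti hord S' S s hs' hs hs1)
    have hfin : Fintype ↥(S : Subgroup G) := Fintype.ofFinite _
    have h3 : 2 < Fintype.card ↥(S : Subgroup G) := by
      rw [← Nat.card_eq_fintype_card]
      omega
    obtain ⟨u1, u2, u3, h12, h13, h23⟩ := Fintype.two_lt_card_iff.mp h3
    obtain ⟨s1, s2, hs1, hs2, hs12⟩ :
        ∃ s1 s2 : ↥(S : Subgroup G), s1 ≠ 1 ∧ s2 ≠ 1 ∧ s1 ≠ s2 := by
      by_cases hu1 : u1 = 1
      · exact ⟨u2, u3, fun h => h12 (hu1.trans h.symm), fun h => h13 (hu1.trans h.symm), h23⟩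
      · by_cases hu2 : u2 = 1
        · exact ⟨u1, u3, hu1, fun h => h23 (hu2.trans h.symm), h13⟩
        · exact ⟨u1, u2, hu1, hu2, h12⟩
    have hcard' : Nat.card ↥(S' : Subgroup G) = Nat.card ↥(S : Subgroup G) := by
      rw [Sylow.card_eq_multiplicity, Sylow.card_eq_multiplicity]
    obtain ⟨t, ht, ht1⟩ : ∃ t ∈ (S' : Subgroup G), t ≠ 1 := by
      by_contra hall
      push Not at hall
      have hbot : (S' : Subgroup G) = ⊥ := (Subgroup.eq_bot_iff_forall _).mpr hall
      rw [hbot] at hcard'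
      simp at hcard'
      omega
    have htS : t ∉ (S : Subgroup G) := fun h => ht1 (hdisj t h ht)
    have htt : t * t = 1 := sq_of_mem_sylow hord S' t ht
    have hti : t⁻¹ = t := inv_eq_of_mul_eq_one_left htt
    have hcube : ∀ s ∈ (S : Subgroup G), s ≠ 1 → (s * t) ^ 3 = 1 := by
      intro s hs hs1
      rcases hord (s * t) with h1 | h1 | h1
      · exfalso
        have h2 : s * t = 1 := orderOf_eq_one_iff.mp h1
        apply htS
        have h4 : t = s⁻¹ := eq_inv_of_mul_eq_one_right h2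
        rw [h4]
        exact Subgroup.inv_mem _ hs
      · exfalso
        have h2 : (s * t) * (s * t) = 1 := by
          rw [← pow_two, ← h1]
          exact pow_orderOf_eq_one _
        have hsi : s⁻¹ = s := inv_eq_of_mul_eq_one_left (hsq s hs)
        have h3 : s * t = t * s := by
          calc s * t = (s * t)⁻¹ := (inv_eq_of_mul_eq_one_left h2).symm
            _ = t * s := by rw [mul_inv_rev, hti, hsi]
        apply htS
        rw [← cent_eq hord S s hs hs1, Subgroup.mem_centralizer_iff]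
        intro h hh
        rw [Set.mem_singleton_iff] at hh
        rw [hh]
        exact h3
      · rw [← h1]
        exact pow_orderOf_eq_one _
    have hs3 : (s1 : G) * s2 ≠ 1 := by
      intro h
      apply hs12
      apply Subtype.ext
      have h4 : (s1 : G) = (s2 : G)⁻¹ := eq_inv_of_mul_eq_one_left h
      rw [h4]
      exact inv_eq_of_mul_eq_one_left (hsq s2 s2.2)
    have hs1' : (s1 : G) ≠ 1 := fun h => hs1 (Subtype.ext h)
    have hs2' : (s2 : G) ≠ 1 := fun h => hs2 (Subtype.ext h)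
    have hw := word (s1 : G) s2 t (hsq s1 s1.2) (hsq s2 s2.2) htt (hcomm s1 s2 s1.2 s2.2)
      (hcube s1 s1.2 hs1') (hcube s2 s2.2 hs2')
      (hcube ((s1 : G) * s2) (Subgroup.mul_mem _ s1.2 s2.2) hs3)
    have hmem : (s1 : G) ∈ ((t • S : Sylow 2 G) : Subgroup G) := by
      rw [Cfsg.Agent.S1009.mem_smul_sylow, ← hw]
      have h4 : t⁻¹ * (t * (s2 : G) * t⁻¹) * t = s2 := by group
      rw [h4]
      exact s2.2
    have heq : S = t • S := ti hord S (t • S) s1 s1.2 hmem hs1'
    have htN : t ∈ Subgroup.normalizer ((S : Subgroup G) : Set G) :=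
      Sylow.smul_eq_iff_mem_normalizer.mp heq.symm
    have h5 := IsPGroup.inf_normalizer_sylow S'.2 S
    have h6 : t ∈ (S' : Subgroup G) ⊓ (S : Subgroup G) := by
      rw [← h5]
      exact ⟨ht, htN⟩
    exact htS h6.2
  have hSn : (S : Subgroup G).Normal := by
    rw [← Subgroup.normalizer_eq_top_iff, Subgroup.eq_top_iff']
    intro g
    exact Sylow.smul_eq_iff_mem_normalizer.mp (huniq (g • S))
  have hin : ∀ y : G, y * y = 1 → y ∈ (S : Subgroup G) := by
    intro y hy
    have hp : IsPGroup 2 (Subgroup.zpowers y) := by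
      intro z
      refine ⟨1, ?_⟩
      obtain ⟨k, hk⟩ := Subgroup.mem_zpowers_iff.mp z.2
      apply Subtype.ext
      simp only [pow_one, Subgroup.coe_pow, Subgroup.coe_one]
      rw [← hk, ← zpow_natCast, ← zpow_mul, mul_comm, zpow_mul, zpow_natCast, pow_two, hy,
        one_zpow]
    obtain ⟨P, hP⟩ := hp.exists_le_sylow
    rw [← huniq P]
    exact hP (Subgroup.mem_zpowers y)
  have hout : ∀ y : G, y ∉ (S : Subgroup G) → orderOf y = 3 := by
    intro y hy
    rcases hord y with h1 | h1 | h1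
    · exfalso
      apply hy
      rw [orderOf_eq_one_iff.mp h1]
      exact Subgroup.one_mem _
    · exfalso
      apply hy
      apply hin
      rw [← pow_two, ← h1]
      exact pow_orderOf_eq_one y
    · exact h1
  have hx0S : x0 ∉ (S : Subgroup G) := by
    intro h
    have h1 := hsq x0 h
    have h2 : orderOf x0 ∣ 2 := orderOf_dvd_of_pow_eq_one (by rw [pow_two]; exact h1)
    rw [hx0] at h2
    norm_num at h2
  refine ⟨(S : Subgroup G), hSn, ⟨⟨⟨fun x y => Subtype.ext (hcomm x y x.2 y.2)⟩⟩,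
    fun a ha => by rw [pow_two]; exact hsq a ha⟩, ?_⟩
  by_contra hidx
  have hSn' := hSn
  have hQ3 : ∀ q : G ⧸ (S : Subgroup G), q ^ 3 = 1 := by
    intro q
    induction q using QuotientGroup.induction_on with
    | H g =>
      by_cases hg : g ∈ (S : Subgroup G)
      · have h1 : (QuotientGroup.mk g : G ⧸ (S : Subgroup G)) = 1 :=
          (QuotientGroup.eq_one_iff g).mpr hg
        rw [h1]
        simp
      · rw [← QuotientGroup.mk_pow, ← hout g hg, pow_orderOf_eq_one]
        rfl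
  have hQp : IsPGroup 3 (G ⧸ (S : Subgroup G)) := fun q => ⟨1, by rw [pow_one]; exact hQ3 q⟩
  have : Fact (Nat.Prime 3) := ⟨Nat.prime_three⟩
  obtain ⟨l, hl⟩ := IsPGroup.iff_card.mp hQp
  have hQcard : Nat.card (G ⧸ (S : Subgroup G)) = (S : Subgroup G).index := rfl
  have hQnt : Nontrivial (G ⧸ (S : Subgroup G)) := by
    refine ⟨⟨QuotientGroup.mk x0, 1, ?_⟩⟩
    intro h
    exact hx0S ((QuotientGroup.eq_one_iff x0).mp h)
  have hl2 : 2 ≤ l := by
    by_contra hlt
    push Not at hlt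
    interval_cases l
    · have h1 := Finite.one_lt_card (α := G ⧸ (S : Subgroup G))
      rw [hl] at h1
      norm_num at h1
    · exact hidx (by rw [← hQcard, hl]; norm_num)
  have hcn := hQp.center_nontrivial
  obtain ⟨⟨z, hz⟩, hz1⟩ := exists_ne (1 : Subgroup.center (G ⧸ (S : Subgroup G)))
  have hz1' : z ≠ 1 := fun h => hz1 (Subtype.ext h)
  have hzo : orderOf z = 3 := orderOf_eq_prime (hQ3 z) hz1'
  obtain ⟨q, hq⟩ : ∃ q : G ⧸ (S : Subgroup G), q ∉ Subgroup.zpowers z := by
    by_contra hall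
    push Not at hall
    have htop : Subgroup.zpowers z = ⊤ := (Subgroup.eq_top_iff' _).mpr hall
    have hc := Nat.card_zpowers z
    rw [htop, Subgroup.card_top, hzo, hl] at hc
    have h9 : 3 ^ 2 ≤ 3 ^ l := Nat.pow_le_pow_right (by norm_num) hl2
    omega
  obtain ⟨a, rfl⟩ := QuotientGroup.mk_surjective z
  obtain ⟨b, rfl⟩ := QuotientGroup.mk_surjective q
  have haS : a ∉ (S : Subgroup G) := fun h => hz1' ((QuotientGroup.eq_one_iff a).mpr h)
  have hbS : b ∉ (S : Subgroup G) := fun h => hq (by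
    rw [(QuotientGroup.eq_one_iff b).mpr h]
    exact Subgroup.one_mem _)
  have habS : a * b ∉ (S : Subgroup G) := by
    intro h
    apply hq
    have h1 : (QuotientGroup.mk (a * b) : G ⧸ (S : Subgroup G)) = 1 :=
      (QuotientGroup.eq_one_iff _).mpr h
    rw [QuotientGroup.mk_mul] at h1
    have h2 : (QuotientGroup.mk b : G ⧸ (S : Subgroup G)) = (QuotientGroup.mk a)⁻¹ :=
      eq_inv_of_mul_eq_one_right h1
    rw [h2]
    exact Subgroup.inv_mem _ (Subgroup.mem_zpowers _)
  have hbaS : b⁻¹ * a ∉ (S : Subgroup G) := by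
    intro h
    apply hq
    have h1 : (QuotientGroup.mk (b⁻¹ * a) : G ⧸ (S : Subgroup G)) = 1 :=
      (QuotientGroup.eq_one_iff _).mpr h
    rw [QuotientGroup.mk_mul, QuotientGroup.mk_inv] at h1
    have h2 : (QuotientGroup.mk b : G ⧸ (S : Subgroup G)) = QuotientGroup.mk a :=
      inv_injective (eq_inv_of_mul_eq_one_left h1).symm.symm ▸ rfl
    rw [h2]
    exact Subgroup.mem_zpowers _
  have hcomS : (b * a)⁻¹ * (a * b) ∈ (S : Subgroup G) := by
    rw [← QuotientGroup.eq, QuotientGroup.mk_mul, QuotientGroup.mk_mul]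
    exact (Subgroup.mem_center_iff.mp hz (QuotientGroup.mk b))
  let α : MulAut ↥(S : Subgroup G) := MulAut.conjNormal a
  let β : MulAut ↥(S : Subgroup G) := MulAut.conjNormal b
  have hαβ : ∀ v, α (β v) = β (α v) := by
    intro v
    apply Subtype.ext
    simp only [α, β, MulAut.conjNormal_apply]
    set s' := (b * a)⁻¹ * (a * b) with hs'
    have h1 : a * b = b * a * s' := by
      rw [hs']
      group
    have h2 : s' * (v : G) * s'⁻¹ = v := by
      rw [hcomm s' v hcomS v.2]
      group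
    calc a * (b * v * b⁻¹) * a⁻¹ = (a * b) * v * (a * b)⁻¹ := by group
      _ = (b * a * s') * v * (b * a * s')⁻¹ := by rw [← h1]
      _ = b * a * (s' * v * s'⁻¹) * a⁻¹ * b⁻¹ := by group
      _ = b * (a * v * a⁻¹) * b⁻¹ := by rw [h2]; group
  have hcS : ∀ x y : ↥(S : Subgroup G), x * y = y * x :=
    fun x y => Subtype.ext (hcomm x y x.2 y.2)
  have hsqS : ∀ x : ↥(S : Subgroup G), x * x = 1 := fun x => Subtype.ext (hsq x x.2)
  have r1 := fpf_rel hord (S : Subgroup G) hsq hcomm a (hout a haS)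
  have r2 := fpf_rel hord (S : Subgroup G) hsq hcomm b (hout b hbS)
  have r3 := fpf_rel hord (S : Subgroup G) hsq hcomm (a * b) (hout _ habS)
  have r3' : ∀ v, v * α (β v) * α (β (α (β v))) = 1 := by
    intro v
    have h1 := r3 v
    rw [map_mul] at h1
    exact h1
  have hkey := comm_calc hcS hsqS α β hαβ r1 r2 r3'
  obtain ⟨v, hv1⟩ : ∃ v : ↥(S : Subgroup G), v ≠ 1 := by
    by_contra hall
    push Not at hall
    have hsub : Subsingleton ↥(S : Subgroup G) := ⟨fun x y => (hall x).trans (hall y).symm⟩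
    have h1 : Nat.card ↥(S : Subgroup G) = 1 := Nat.card_unique
    omega
  have hfix : (b⁻¹ * a) * (v : G) * (b⁻¹ * a)⁻¹ = v := by
    have h1 := congrArg Subtype.val (hkey v)
    simp only [α, β, MulAut.conjNormal_apply] at h1
    calc (b⁻¹ * a) * (v : G) * (b⁻¹ * a)⁻¹ = b⁻¹ * (a * v * a⁻¹) * b := by group
      _ = b⁻¹ * (b * v * b⁻¹) * b := by rw [h1]
      _ = v := by group
  have hv2 : orderOf (v : G) = 2 :=
    orderOf_eq_prime (by rw [pow_two]; exact hsq v v.2) (fun h => hv1 (Subtype.ext h))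
  have hcm : Commute (v : G) (b⁻¹ * a) := (mul_inv_eq_iff_eq_mul.mp hfix).symm
  exact no6 hord v (b⁻¹ * a) hv2 (hout _ hbaS) hcm

theorem result {G : Type*} [Group G] [Finite G] (h : Set.range (orderOf : G → ℕ) = {k : ℕ | 1 ≤ k ∧ k ≤ 3}) :
    (∃ N : Subgroup G, N.Normal ∧ Cfsg.IsElementaryAbelian 3 N ∧ N.index = 2) ∨
      (∃ N : Subgroup G, N.Normal ∧ Cfsg.IsElementaryAbelian 2 N ∧ N.index = 3) := by
  classical
  have : Fact (Nat.Prime 2) := ⟨Nat.prime_two⟩
  have hord : ∀ g : G, orderOf g = 1 ∨ orderOf g = 2 ∨ orderOf g = 3 := by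
    intro g
    have h1 : orderOf g ∈ Set.range (orderOf : G → ℕ) := ⟨g, rfl⟩
    rw [h] at h1
    obtain ⟨h1, h2⟩ := h1
    omega
  obtain ⟨t0, ht0⟩ : ∃ t : G, orderOf t = 2 := by
    have h1 : (2 : ℕ) ∈ {k : ℕ | 1 ≤ k ∧ k ≤ 3} := ⟨by norm_num, by norm_num⟩
    rw [← h] at h1
    exact h1
  obtain ⟨x0, hx0⟩ : ∃ x : G, orderOf x = 3 := by
    have h1 : (3 : ℕ) ∈ {k : ℕ | 1 ≤ k ∧ k ≤ 3} := ⟨by norm_num, by norm_num⟩
    rw [← h] at h1
    exact h1
  obtain ⟨S⟩ : Nonempty (Sylow 2 G) := inferInstance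
  obtain ⟨k, hk⟩ := IsPGroup.iff_card.mp S.2
  have h2dvd : 2 ∣ Nat.card G := ht0 ▸ orderOf_dvd_natCard t0
  have hk1 : 1 ≤ k := by
    have h1 := S.dvd_card_of_dvd_card h2dvd
    rw [hk] at h1
    by_contra hk0
    push Not at hk0
    interval_cases k
    simp at h1
  rcases Nat.lt_or_ge k 2 with hk2 | hk2
  · left
    have hk' : k = 1 := by omega
    exact case_two hord S (by rw [hk, hk']; rfl)
  · right
    refine case_four hord S x0 hx0 ?_
    rw [hk]
    have h4 : 2 ^ 2 ≤ 2 ^ k := Nat.pow_le_pow_right (by norm_num) hk2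
    omega

end

end Cfsg.Agent.S4005
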