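import Mathlib
import Cfsg.Statements.S4198

set_option autoImplicit false
open Cfsg

namespace Cfsg.Agent.S4198

theorem P_rec (k : ℕ) : Fintype.card (Nat.Partition (k + 2)) ≤
    Fintype.card (Nat.Partition (k + 1)) + Fintype.card (Nat.Partition k) := by
  classical
  have h1 : Fintype.card {p : Nat.Partition (k + 2) // 1 ∈ p.parts} =
      Fintype.card (Nat.Partition (k + 1)) :=
    Fintype.card_congr (Nat.Partition.partitionWithPartEquiv (le_refl 1) (by omega))
  have key : ∀ p : {p : Nat.Partition (k + 2) // ¬ 1 ∈ p.parts}, ∃ q : Nat.Partition k,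
      ∃ a ∈ p.1.parts, 2 ≤ a ∧
      q.parts = p.1.parts.erase a + Multiset.replicate (a - 2) 1 := by
    intro p
    have hne : p.1.parts ≠ 0 := by
      intro h0
      have := p.1.parts_sum
      rw [h0, Multiset.sum_zero] at this
      omega
    obtain ⟨a, ha⟩ := Multiset.exists_mem_of_ne_zero hne
    have ha0 : 0 < a := p.1.parts_pos ha
    have ha1 : a ≠ 1 := fun h => p.2 (h ▸ ha)
    have ha2 : 2 ≤ a := by omega
    have hsum : a + (p.1.parts.erase a).sum = k + 2 := by
      rw [Multiset.sum_erase ha, p.1.parts_sum]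
    refine ⟨⟨p.1.parts.erase a + Multiset.replicate (a - 2) 1, ?_, ?_⟩, a, ha, ha2, rfl⟩
    · intro i hi
      rcases Multiset.mem_add.1 hi with hi | hi
      · exact p.1.parts_pos (Multiset.mem_of_mem_erase hi)
      · rw [Multiset.eq_of_mem_replicate hi]
        exact Nat.one_pos
    · rw [Multiset.sum_add, Multiset.sum_replicate, smul_eq_mul, mul_one]
      omega
  choose f a ha ha2 hf using key
  have hinj : Function.Injective f := by
    intro p p' hpp
    have e : p.1.parts.erase (a p) + Multiset.replicate (a p - 2) 1 =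
        p'.1.parts.erase (a p') + Multiset.replicate (a p' - 2) 1 := by
      rw [← hf p, ← hf p', hpp]
    have c1 : ∀ q : {p : Nat.Partition (k + 2) // ¬ 1 ∈ p.parts},
        Multiset.count 1 (q.1.parts.erase (a q) + Multiset.replicate (a q - 2) 1) = a q - 2 := by
      intro q
      rw [Multiset.count_add, Multiset.count_replicate_self, Multiset.count_eq_zero_of_notMem,
        zero_add]
      intro h
      exact q.2 (Multiset.mem_of_mem_erase h)
    have e2 : a p - 2 = a p' - 2 := by
      rw [← c1 p, ← c1 p', e]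
    have e3 : a p = a p' := by
      have := ha2 p
      have := ha2 p'
      omega
    rw [e3] at e
    have e4 : p.1.parts.erase (a p') = p'.1.parts.erase (a p') := add_right_cancel e
    have hp : p.1.parts = a p ::ₘ p.1.parts.erase (a p) := (Multiset.cons_erase (ha p)).symm
    have hp' : p'.1.parts = a p' ::ₘ p'.1.parts.erase (a p') :=
      (Multiset.cons_erase (ha p')).symm
    apply Subtype.ext
    apply Nat.Partition.ext
    rw [hp, hp', e3, e4]
  have h2 : Fintype.card {p : Nat.Partition (k + 2) // ¬ 1 ∈ p.parts} ≤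
      Fintype.card (Nat.Partition k) :=
    Fintype.card_le_of_injective f hinj
  have h3 := Fintype.card_subtype_compl (fun p : Nat.Partition (k + 2) => 1 ∈ p.parts)
  have h4 := Fintype.card_subtype_le (fun p : Nat.Partition (k + 2) => 1 ∈ p.parts)
  omega

theorem P_bound : ∀ k, 5 ≤ k → Fintype.card (Nat.Partition k) ≤ 2 ^ (k - 2) := by
  have p0 : Fintype.card (Nat.Partition 0) = 1 := Fintype.card_unique
  have p1 : Fintype.card (Nat.Partition 1) = 1 := Fintype.card_unique
  have p2 : Fintype.card (Nat.Partition 2) ≤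
      Fintype.card (Nat.Partition 1) + Fintype.card (Nat.Partition 0) := P_rec 0
  have p3 : Fintype.card (Nat.Partition 3) ≤
      Fintype.card (Nat.Partition 2) + Fintype.card (Nat.Partition 1) := P_rec 1
  have p4 : Fintype.card (Nat.Partition 4) ≤
      Fintype.card (Nat.Partition 3) + Fintype.card (Nat.Partition 2) := P_rec 2
  have p5 : Fintype.card (Nat.Partition 5) ≤
      Fintype.card (Nat.Partition 4) + Fintype.card (Nat.Partition 3) := P_rec 3
  have p6 : Fintype.card (Nat.Partition 6) ≤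
      Fintype.card (Nat.Partition 5) + Fintype.card (Nat.Partition 4) := P_rec 4
  have main : ∀ k, 5 ≤ k → Fintype.card (Nat.Partition k) ≤ 2 ^ (k - 2) ∧
      Fintype.card (Nat.Partition (k + 1)) ≤ 2 ^ (k - 1) := by
    intro k hk
    induction k, hk using Nat.le_induction with
    | base =>
      have e1 : (2 : ℕ) ^ (5 - 2) = 8 := by norm_num
      have e2 : (2 : ℕ) ^ (5 - 1) = 16 := by norm_num
      rw [e1, e2]
      refine ⟨by omega, ?_⟩
      show Fintype.card (Nat.Partition 6) ≤ 16
      omega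
    | succ k hk ih =>
      obtain ⟨j, rfl⟩ : ∃ j, k = j + 2 := ⟨k - 2, by omega⟩
      have hr : Fintype.card (Nat.Partition (j + 2 + 1 + 1)) ≤
          Fintype.card (Nat.Partition (j + 2 + 1)) + Fintype.card (Nat.Partition (j + 2)) :=
        P_rec (j + 2)
      have e1 : j + 2 - 2 = j := by omega
      have e2 : j + 2 - 1 = j + 1 := by omega
      have e3 : j + 2 + 1 - 2 = j + 1 := by omega
      have e4 : j + 2 + 1 - 1 = j + 2 := by omega
      rw [e1, e2] at ih
      rw [e3, e4]
      refine ⟨ih.2, ?_⟩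
      have t1 : 2 ^ (j + 2) = 4 * 2 ^ j := by ring
      have t2 : 2 ^ (j + 1) = 2 * 2 ^ j := by ring
      have ih1 := ih.1
      have ih2 := ih.2
      rw [t2] at ih2
      rw [t1]
      omega
  intro k hk
  exact (main k hk).1

noncomputable def sg (m : Multiset ℕ) : ℤˣ := (m.map fun n => -(-1 : ℤˣ) ^ n).prod

theorem sg_add (a b : Multiset ℕ) : sg (a + b) = sg a * sg b := by
  unfold sg
  rw [Multiset.map_add, Multiset.prod_add]

theorem sg_cons (a : ℕ) (b : Multiset ℕ) : sg (a ::ₘ b) = (-(-1 : ℤˣ) ^ a) * sg b := by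
  unfold sg
  rw [Multiset.map_cons, Multiset.prod_cons]

theorem sg_zero : sg 0 = 1 := by
  unfold sg
  simp

theorem sg_of_odd (m : Multiset ℕ) (h : ∀ p ∈ m, ¬ Even p) : sg m = 1 := by
  unfold sg
  apply Multiset.prod_eq_one
  intro x hx
  rw [Multiset.mem_map] at hx
  obtain ⟨p, hp, rfl⟩ := hx
  have h1 := h p hp
  rw [Nat.not_even_iff_odd] at h1
  rw [h1.neg_one_pow, neg_neg]

def Bad {N : ℕ} (l : Nat.Partition N) : Prop :=
  (∀ p ∈ l.parts, ¬ Even p) ∧ Multiset.count 1 l.parts ≤ 1

theorem exists_bt (N : ℕ) : ∃ bt : Nat.Partition N → Nat.Partition N, ∀ l : Nat.Partition N,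
    (∃ p ∈ l.parts, 3 ≤ p) → ∃ L ∈ l.parts, 3 ≤ L ∧
      (bt l).parts = l.parts.erase L + (L - 1) ::ₘ 1 ::ₘ 0 := by
  have key : ∀ l : Nat.Partition N, ∃ q : Nat.Partition N,
      (∃ p ∈ l.parts, 3 ≤ p) → ∃ L ∈ l.parts, 3 ≤ L ∧
        q.parts = l.parts.erase L + (L - 1) ::ₘ 1 ::ₘ 0 := by
    intro l
    by_cases h : ∃ p ∈ l.parts, 3 ≤ p
    · obtain ⟨L, hL, hL3⟩ := h
      have hsum : L + (l.parts.erase L).sum = N := by
        rw [Multiset.sum_erase hL, l.parts_sum]
      refine ⟨⟨l.parts.erase L + (L - 1) ::ₘ 1 ::ₘ 0, ?_, ?_⟩, fun _ => ⟨L, hL, hL3, rfl⟩⟩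
      · intro i hi
        rcases Multiset.mem_add.1 hi with hi | hi
        · exact l.parts_pos (Multiset.mem_of_mem_erase hi)
        · rcases Multiset.mem_cons.1 hi with hi | hi
          · omega
          · rcases Multiset.mem_cons.1 hi with hi | hi
            · omega
            · exact absurd hi (Multiset.notMem_zero i)
      · rw [Multiset.sum_add, Multiset.sum_cons, Multiset.sum_cons, Multiset.sum_zero]
        omega
    · exact ⟨l, fun h' => absurd h' h⟩
  choose bt hbt using key
  exact ⟨bt, hbt⟩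

section perm

variable {α : Type*} [Fintype α] [DecidableEq α]

theorem sign_eq_sg (σ : Equiv.Perm α) : Equiv.Perm.sign σ = sg σ.partition.parts := by
  have h1 : sg (Multiset.replicate (Fintype.card α - σ.support.card) 1) = 1 := by
    apply sg_of_odd
    intro p hp
    rw [Multiset.eq_of_mem_replicate hp]
    exact Nat.not_even_one
  rw [Equiv.Perm.parts_partition, sg_add, h1, mul_one, Equiv.Perm.sign_of_cycleType']
  rfl

theorem realize (l : Nat.Partition (Fintype.card α)) : ∃ σ : Equiv.Perm α, σ.partition = l := by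
  have hsplit : l.parts = l.parts.filter (fun n => 2 ≤ n) + l.parts.filter (fun n => ¬ 2 ≤ n) :=
    (Multiset.filter_add_not (fun n => 2 ≤ n) l.parts).symm
  have hones : l.parts.filter (fun n => ¬ 2 ≤ n) =
      Multiset.replicate (Multiset.card (l.parts.filter (fun n => ¬ 2 ≤ n))) 1 := by
    apply Multiset.eq_replicate_card.2
    intro b hb
    have h1 := Multiset.of_mem_filter hb
    have h2 := l.parts_pos (Multiset.mem_of_mem_filter hb)
    omega
  have hsum : (l.parts.filter (fun n => 2 ≤ n)).sum +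
      Multiset.card (l.parts.filter (fun n => ¬ 2 ≤ n)) = Fintype.card α := by
    have h := l.parts_sum
    rw [hsplit, Multiset.sum_add] at h
    have h' : (l.parts.filter (fun n => ¬ 2 ≤ n)).sum =
        Multiset.card (l.parts.filter (fun n => ¬ 2 ≤ n)) := by
      conv_lhs => rw [hones]
      rw [Multiset.sum_replicate, smul_eq_mul, mul_one]
    rw [h'] at h
    exact h
  obtain ⟨g, hg⟩ := (Equiv.Perm.exists_with_cycleType_iff α
    (m := l.parts.filter (fun n => 2 ≤ n))).2
    ⟨by omega, fun a ha => Multiset.of_mem_filter ha⟩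
  refine ⟨g, ?_⟩
  apply Nat.Partition.ext
  rw [Equiv.Perm.parts_partition, ← Equiv.Perm.sum_cycleType, hg]
  have h3 : Fintype.card α - (l.parts.filter (fun n => 2 ≤ n)).sum =
      Multiset.card (l.parts.filter (fun n => ¬ 2 ≤ n)) := by omega
  rw [h3, ← hones]
  exact hsplit.symm

noncomputable def pS : ConjClasses (Equiv.Perm α) → Nat.Partition (Fintype.card α) :=
  Quotient.lift (fun σ : Equiv.Perm α => σ.partition)
    (fun _ _ h => Equiv.Perm.partition_eq_of_isConj.1 h)

theorem pS_mk (σ : Equiv.Perm α) : pS (ConjClasses.mk σ) = σ.partition := rfl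

theorem pS_bij : Function.Bijective (pS (α := α)) := by
  constructor
  · intro a b h
    obtain ⟨σ, rfl⟩ := ConjClasses.mk_surjective a
    obtain ⟨τ, rfl⟩ := ConjClasses.mk_surjective b
    rw [pS_mk, pS_mk] at h
    exact ConjClasses.mk_eq_mk_iff_isConj.2 (Equiv.Perm.partition_eq_of_isConj.2 h)
  · intro l
    obtain ⟨σ, hσ⟩ := realize l
    exact ⟨ConjClasses.mk σ, hσ⟩

noncomputable def pA : ConjClasses (alternatingGroup α) → Nat.Partition (Fintype.card α) :=
  Quotient.lift (fun σ : alternatingGroup α => (σ : Equiv.Perm α).partition) (fun a b h => by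
    apply Equiv.Perm.partition_eq_of_isConj.1
    obtain ⟨c, hc⟩ := isConj_iff.1 h
    exact isConj_iff.2 ⟨c, congrArg Subtype.val hc⟩)

theorem pA_mk (σ : alternatingGroup α) :
    pA (ConjClasses.mk σ) = (σ : Equiv.Perm α).partition := rfl

theorem mk_eq_of_conj (σ σ' : alternatingGroup α) (g : Equiv.Perm α)
    (hg : Equiv.Perm.sign g = 1) (h : g * (σ : Equiv.Perm α) * g⁻¹ = σ') :
    ConjClasses.mk σ = ConjClasses.mk σ' := by
  apply ConjClasses.mk_eq_mk_iff_isConj.2
  exact isConj_iff.2 ⟨⟨g, Equiv.Perm.mem_alternatingGroup.2 hg⟩, Subtype.ext h⟩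

theorem conj_in_alt (σ σ' : alternatingGroup α)
    (hp : (σ : Equiv.Perm α).partition = (σ' : Equiv.Perm α).partition)
    (τ : Equiv.Perm α) (hτ : Equiv.Perm.sign τ = -1)
    (hc : τ * (σ : Equiv.Perm α) = σ * τ) :
    ConjClasses.mk σ = ConjClasses.mk σ' := by
  obtain ⟨g, hg⟩ := isConj_iff.1 (Equiv.Perm.partition_eq_of_isConj.2 hp)
  rcases Int.units_eq_one_or (Equiv.Perm.sign g) with h1 | h1
  · exact mk_eq_of_conj σ σ' g h1 hg
  · apply mk_eq_of_conj σ σ' (g * τ)
    · rw [map_mul, h1, hτ]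
      simp
    · rw [← hg]
      have h2 : τ * (σ : Equiv.Perm α) * τ⁻¹ = σ := by
        rw [hc]
        group
      calc g * τ * (σ : Equiv.Perm α) * (g * τ)⁻¹
          = g * (τ * (σ : Equiv.Perm α) * τ⁻¹) * g⁻¹ := by group
        _ = g * (σ : Equiv.Perm α) * g⁻¹ := by rw [h2]

theorem fiber_two (σ₀ σ₁ σ₂ : alternatingGroup α)
    (h1 : (σ₀ : Equiv.Perm α).partition = (σ₁ : Equiv.Perm α).partition)
    (h2 : (σ₀ : Equiv.Perm α).partition = (σ₂ : Equiv.Perm α).partition) :
    ConjClasses.mk σ₀ = ConjClasses.mk σ₁ ∨ ConjClasses.mk σ₀ = ConjClasses.mk σ₂ ∨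
      ConjClasses.mk σ₁ = ConjClasses.mk σ₂ := by
  obtain ⟨g₁, hg₁⟩ := isConj_iff.1 (Equiv.Perm.partition_eq_of_isConj.2 h1)
  obtain ⟨g₂, hg₂⟩ := isConj_iff.1 (Equiv.Perm.partition_eq_of_isConj.2 h2)
  rcases Int.units_eq_one_or (Equiv.Perm.sign g₁) with s1 | s1
  · exact Or.inl (mk_eq_of_conj σ₀ σ₁ g₁ s1 hg₁)
  · rcases Int.units_eq_one_or (Equiv.Perm.sign g₂) with s2 | s2
    · exact Or.inr (Or.inl (mk_eq_of_conj σ₀ σ₂ g₂ s2 hg₂))
    · refine Or.inr (Or.inr (mk_eq_of_conj σ₁ σ₂ (g₂ * g₁⁻¹) ?_ ?_))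
      · rw [map_mul, map_inv, s1, s2]
        simp
      · rw [← hg₁, ← hg₂]
        group

theorem exists_odd_commute (σ : Equiv.Perm α)
    (h : (∃ p ∈ σ.partition.parts, Even p) ∨ 2 ≤ Multiset.count 1 σ.partition.parts) :
    ∃ τ : Equiv.Perm α, Equiv.Perm.sign τ = -1 ∧ τ * σ = σ * τ := by
  rcases h with ⟨p, hp, hpe⟩ | h
  · rw [Equiv.Perm.parts_partition, Multiset.mem_add] at hp
    rcases hp with hp | hp
    · obtain ⟨c, τ, hστ, hd, hc, hcard⟩ := Equiv.Perm.mem_cycleType_iff.1 hp
      refine ⟨c, ?_, ?_⟩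
      · rw [hc.sign, hcard, hpe.neg_one_pow]
      · rw [hστ, mul_assoc, ← hd.commute.eq]
    · exfalso
      rw [Multiset.eq_of_mem_replicate hp] at hpe
      exact Nat.not_even_one hpe
  · rw [Equiv.Perm.parts_partition, Multiset.count_add, Multiset.count_replicate_self,
      Multiset.count_eq_zero_of_notMem (fun h1 =>
        absurd (Equiv.Perm.two_le_of_mem_cycleType h1) (by norm_num)), zero_add] at h
    have hcard : 1 < (σ.supportᶜ).card := by
      rw [Finset.card_compl]
      omega
    obtain ⟨a, ha, b, hb, hab⟩ := Finset.one_lt_card.1 hcard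
    rw [Finset.mem_compl, Equiv.Perm.notMem_support] at ha hb
    refine ⟨Equiv.swap a b, Equiv.Perm.sign_swap hab, ?_⟩
    have h2 := Equiv.mul_swap_eq_swap_mul σ a b
    rw [ha, hb] at h2
    exact h2.symm

theorem alt_lt (hN : 5 ≤ Fintype.card α) :
    Nat.card (ConjClasses (alternatingGroup α)) < Nat.card (ConjClasses (Equiv.Perm α)) := by
  classical
  obtain ⟨bt, hbt⟩ := exists_bt (Fintype.card α)
  have F1 : ∀ l : Nat.Partition (Fintype.card α), Bad l → ∃ p ∈ l.parts, 3 ≤ p := by
    intro l hl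
    by_contra hcon
    push_neg at hcon
    have hall : ∀ b ∈ l.parts, b = 1 := by
      intro b hb
      have h1 := hcon b hb
      have h2 := l.parts_pos hb
      have h3 := hl.1 b hb
      have h4 : b = 1 ∨ b = 2 := by omega
      rcases h4 with h | h
      · exact h
      · exact absurd (by rw [h]; exact even_two : Even b) h3
    have hrep := Multiset.eq_replicate_card.2 hall
    have hs := l.parts_sum
    have hc := hl.2
    rw [hrep, Multiset.sum_replicate, smul_eq_mul, mul_one] at hs
    rw [hrep, Multiset.count_replicate_self] at hc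
    omega
  have hev : ∀ L : ℕ, ¬ Even L → 3 ≤ L → Even (L - 1) := by
    intro L hodd hL3
    rw [Nat.not_even_iff_odd] at hodd
    obtain ⟨t, ht⟩ := hodd
    exact ⟨t, by omega⟩
  have F2 : ∀ l : Nat.Partition (Fintype.card α), Bad l → sg (bt l).parts = -1 := by
    intro l hl
    obtain ⟨L, hL, hL3, hparts⟩ := hbt l (F1 l hl)
    rw [hparts, sg_add, sg_of_odd _ (fun p hp => hl.1 p (Multiset.mem_of_mem_erase hp)), one_mul,
      sg_cons, sg_cons, sg_zero, (hev L (hl.1 L hL) hL3).neg_one_pow]
    simp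
  have F3 : ∀ l l' : Nat.Partition (Fintype.card α), Bad l → Bad l' → bt l = bt l' → l = l' := by
    intro l l' hl hl' hbb
    obtain ⟨L, hL, hL3, hparts⟩ := hbt l (F1 l hl)
    obtain ⟨L', hL', hL3', hparts'⟩ := hbt l' (F1 l' hl')
    have e : l.parts.erase L + (L - 1) ::ₘ 1 ::ₘ 0 = l'.parts.erase L' + (L' - 1) ::ₘ 1 ::ₘ 0 := by
      rw [← hparts, ← hparts', hbb]
    have fe : ∀ (m : Nat.Partition (Fintype.card α)) (K : ℕ), Bad m → K ∈ m.parts → 3 ≤ K →
        (m.parts.erase K + (K - 1) ::ₘ 1 ::ₘ 0).filter Even = (K - 1) ::ₘ 0 := by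
      intro m K hm hK hK3
      rw [Multiset.filter_add,
        Multiset.filter_eq_nil.2 (fun p hp => hm.1 p (Multiset.mem_of_mem_erase hp)),
        zero_add, Multiset.filter_cons_of_pos _ (hev K (hm.1 K hK) hK3),
        Multiset.filter_cons_of_neg _ Nat.not_even_one, Multiset.filter_zero]
    have e1 : (L - 1) ::ₘ (0 : Multiset ℕ) = (L' - 1) ::ₘ 0 := by
      rw [← fe l L hl hL hL3, ← fe l' L' hl' hL' hL3', e]
    have e2 : L - 1 = L' - 1 := (Multiset.cons_inj_left _).1 e1
    have e3 : L = L' := by omega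
    rw [e3] at e
    have e4 := add_right_cancel e
    have hp : l.parts = L ::ₘ l.parts.erase L := (Multiset.cons_erase hL).symm
    have hp' : l'.parts = L' ::ₘ l'.parts.erase L' := (Multiset.cons_erase hL').symm
    apply Nat.Partition.ext
    rw [hp, hp', e3, e4]
  have F4 : ∀ l : Nat.Partition (Fintype.card α), Bad l → Multiset.count 1 (bt l).parts ≤ 2 := by
    intro l hl
    obtain ⟨L, hL, hL3, hparts⟩ := hbt l (F1 l hl)
    rw [hparts, Multiset.count_add, Multiset.count_cons_of_ne (by omega),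
      Multiset.count_cons_self, Multiset.count_zero]
    have h1 := Multiset.count_le_of_le 1 (Multiset.erase_le L l.parts)
    have h2 := hl.2
    omega
  obtain ⟨ls, hls1, hls2⟩ : ∃ ls : Nat.Partition (Fintype.card α), sg ls.parts = -1 ∧
      3 ≤ Multiset.count 1 ls.parts := by
    refine ⟨⟨2 ::ₘ Multiset.replicate (Fintype.card α - 2) 1, ?_, ?_⟩, ?_, ?_⟩
    · intro i hi
      rcases Multiset.mem_cons.1 hi with hi | hi
      · omega
      · rw [Multiset.eq_of_mem_replicate hi]
        exact Nat.one_pos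
    · rw [Multiset.sum_cons, Multiset.sum_replicate, smul_eq_mul, mul_one]
      omega
    · show sg (2 ::ₘ Multiset.replicate (Fintype.card α - 2) 1) = -1
      have h1 : sg (Multiset.replicate (Fintype.card α - 2) 1) = 1 :=
        sg_of_odd _ (fun p hp => by
          rw [Multiset.eq_of_mem_replicate hp]
          exact Nat.not_even_one)
      rw [sg_cons, h1]
      simp
    · show 3 ≤ Multiset.count 1 (2 ::ₘ Multiset.replicate (Fintype.card α - 2) 1)
      rw [Multiset.count_cons_of_ne (by norm_num), Multiset.count_replicate_self]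
      omega
  obtain ⟨ch, hch⟩ : ∃ ch : Nat.Partition (Fintype.card α) → ConjClasses (alternatingGroup α),
      ∀ l, (∃ c, pA c = l) → pA (ch l) = l := by
    refine ⟨fun l => if h : ∃ c, pA c = l then Classical.choose h else ConjClasses.mk 1, ?_⟩
    intro l h
    simp only [dif_pos h]
    exact Classical.choose_spec h
  have G1 : ∀ c : ConjClasses (alternatingGroup α), sg (pA c).parts = 1 := by
    intro c
    obtain ⟨σ, rfl⟩ := ConjClasses.mk_surjective c
    rw [pA_mk, ← sign_eq_sg]
    exact Equiv.Perm.mem_alternatingGroup.1 σ.2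
  have G2 : ∀ c : ConjClasses (alternatingGroup α), c ≠ ch (pA c) → Bad (pA c) := by
    intro c hc
    by_contra hb
    apply hc
    have hspec := hch (pA c) ⟨c, rfl⟩
    obtain ⟨σ, rfl⟩ := ConjClasses.mk_surjective c
    obtain ⟨σ₀, hσ₀⟩ := ConjClasses.mk_surjective (ch (pA (ConjClasses.mk σ)))
    rw [← hσ₀] at hspec ⊢
    rw [pA_mk, pA_mk] at hspec
    have hcase : (∃ p ∈ (σ : Equiv.Perm α).partition.parts, Even p) ∨
        2 ≤ Multiset.count 1 (σ : Equiv.Perm α).partition.parts := by
      by_contra hno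
      push_neg at hno
      apply hb
      refine And.intro (fun p hp => hno.1 p hp) ?_
      show Multiset.count 1 (σ : Equiv.Perm α).partition.parts ≤ 1
      have := hno.2
      omega
    obtain ⟨τ, hτ, hcomm⟩ := exists_odd_commute (σ : Equiv.Perm α) hcase
    exact conj_in_alt σ σ₀ hspec.symm τ hτ hcomm
  obtain ⟨Ξ, hΞ1, hΞ2⟩ : ∃ Ξ : ConjClasses (alternatingGroup α) → Nat.Partition (Fintype.card α),
      (∀ c, c = ch (pA c) → Ξ c = pA c) ∧ (∀ c, c ≠ ch (pA c) → Ξ c = bt (pA c)) :=
    ⟨fun c => if c = ch (pA c) then pA c else bt (pA c), fun c h => if_pos h, fun c h => if_neg h⟩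
  have hne : ¬ ((-1 : ℤˣ) = 1) := by decide
  have hinj : Function.Injective Ξ := by
    intro c c' hcc
    by_cases h1 : c = ch (pA c)
    · by_cases h2 : c' = ch (pA c')
      · rw [hΞ1 c h1, hΞ1 c' h2] at hcc
        exact h1.trans ((congrArg ch hcc).trans h2.symm)
      · exfalso
        rw [hΞ1 c h1, hΞ2 c' h2] at hcc
        have h3 := G1 c
        rw [hcc, F2 _ (G2 c' h2)] at h3
        exact hne h3
    · by_cases h2 : c' = ch (pA c')
      · exfalso
        rw [hΞ2 c h1, hΞ1 c' h2] at hcc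
        have h3 := G1 c'
        rw [← hcc, F2 _ (G2 c h1)] at h3
        exact hne h3
      · rw [hΞ2 c h1, hΞ2 c' h2] at hcc
        have hpp : pA c = pA c' := F3 _ _ (G2 c h1) (G2 c' h2) hcc
        have hspec := hch (pA c) ⟨c, rfl⟩
        obtain ⟨σ, hσ⟩ := ConjClasses.mk_surjective c
        obtain ⟨σ', hσ'⟩ := ConjClasses.mk_surjective c'
        obtain ⟨σ₀, hσ₀⟩ := ConjClasses.mk_surjective (ch (pA c))
        have e0 : (σ₀ : Equiv.Perm α).partition = (σ : Equiv.Perm α).partition := by
          rw [← pA_mk, ← pA_mk, hσ₀, hσ, hspec]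
        have e0' : (σ₀ : Equiv.Perm α).partition = (σ' : Equiv.Perm α).partition := by
          rw [← pA_mk, ← pA_mk, hσ₀, hσ', hspec, hpp]
        rcases fiber_two σ₀ σ σ' e0 e0' with h | h | h
        · exact absurd (hσ.symm.trans (h.symm.trans hσ₀)) h1
        · have h4 : c' = ch (pA c') := by
            rw [← hpp]
            exact hσ'.symm.trans (h.symm.trans hσ₀)
          exact absurd h4 h2
        · exact hσ.symm.trans (h.trans hσ')
  have hnot : ls ∉ Set.range Ξ := by
    rintro ⟨c, hc⟩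
    by_cases h1 : c = ch (pA c)
    · rw [hΞ1 c h1] at hc
      have h3 := G1 c
      rw [hc, hls1] at h3
      exact hne h3
    · rw [hΞ2 c h1] at hc
      have h3 := F4 _ (G2 c h1)
      rw [hc] at h3
      omega
  haveI : Fintype (ConjClasses (alternatingGroup α)) := Fintype.ofFinite _
  have h1 : Fintype.card (ConjClasses (alternatingGroup α)) <
      Fintype.card (Nat.Partition (Fintype.card α)) :=
    Fintype.card_lt_of_injective_of_notMem Ξ hinj hnot
  have h2 : Nat.card (Nat.Partition (Fintype.card α)) ≤ Nat.card (ConjClasses (Equiv.Perm α)) :=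
    Nat.card_le_card_of_surjective pS pS_bij.2
  calc Nat.card (ConjClasses (alternatingGroup α))
      = Fintype.card (ConjClasses (alternatingGroup α)) := Nat.card_eq_fintype_card
    _ < Fintype.card (Nat.Partition (Fintype.card α)) := h1
    _ = Nat.card (Nat.Partition (Fintype.card α)) := Nat.card_eq_fintype_card.symm
    _ ≤ Nat.card (ConjClasses (Equiv.Perm α)) := h2

theorem sym_le (hN : 5 ≤ Fintype.card α) :
    Nat.card (ConjClasses (Equiv.Perm α)) ≤ 2 ^ (Fintype.card α - 2) := by
  have h1 : Nat.card (ConjClasses (Equiv.Perm α)) ≤ Nat.card (Nat.Partition (Fintype.card α)) :=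
    Nat.card_le_card_of_injective pS pS_bij.1
  have e : Nat.card (Nat.Partition (Fintype.card α)) =
      Fintype.card (Nat.Partition (Fintype.card α)) := Nat.card_eq_fintype_card
  rw [e] at h1
  exact h1.trans (P_bound _ hN)

end perm

theorem result (n : ℕ) (hn : 5 ≤ n) : Nat.card (ConjClasses (alternatingGroup (Fin n))) < Nat.card (ConjClasses (Equiv.Perm (Fin n))) ∧ Nat.card (ConjClasses (Equiv.Perm (Fin n))) ≤ 2 ^ (n - 2) := by
  have hN : 5 ≤ Fintype.card (Fin n) := by
    rw [Fintype.card_fin]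
    exact hn
  refine ⟨alt_lt hN, ?_⟩
  have h := sym_le (α := Fin n) hN
  rw [Fintype.card_fin] at h
  exact h

end Cfsg.Agent.S4198
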