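import Mathlib
import Cfsg.Statements.S4200

set_option autoImplicit false
open Cfsg

namespace Cfsg.Agent.S4200

theorem keyK {X : Type*} [Group X] [Finite X] (Y : Subgroup X) (a : X) :
    Nat.card {b : X // Commute a b} ≤ Y.index * Nat.card {b : Y // Commute a (b : X)} ∧
    (a ∈ Y → (∃ g : X, g⁻¹ * a * g ∉ Y) →
      Nat.card {b : X // Commute a b} < Y.index * Nat.card {b : Y // Commute a (b : X)}) := by
  set C := Subgroup.centralizer ({a} : Set X) with hC
  have hmemC : ∀ x : X, x ∈ C ↔ Commute a x := by
    intro x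
    rw [hC, Subgroup.mem_centralizer_iff]
    constructor
    · intro h; exact h a rfl
    · intro h k hk
      rw [Set.mem_singleton_iff] at hk
      subst hk
      exact h
  have hcardC : Nat.card {b : X // Commute a b} = Nat.card C :=
    Nat.card_congr (Equiv.subtypeEquivRight (fun x => (hmemC x).symm))
  set S := MulAction.stabilizer C (QuotientGroup.mk 1 : X ⧸ Y) with hS
  have hsmul : ∀ (c : C) (g : X), c • (QuotientGroup.mk g : X ⧸ Y) = QuotientGroup.mk ((c : X) * g) :=
    fun c g => rfl
  have hmemS : ∀ c : C, c ∈ S ↔ (c : X) ∈ Y := by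
    intro c
    rw [hS, MulAction.mem_stabilizer_iff, hsmul, QuotientGroup.eq, mul_one, mul_one]
    exact inv_mem_iff
  have hcardS : Nat.card S = Nat.card {b : Y // Commute a (b : X)} := by
    apply Nat.card_congr
    exact
      { toFun := fun c => ⟨⟨(c.1 : X), (hmemS c.1).mp c.2⟩, (hmemC _).mp c.1.2⟩
        invFun := fun b => ⟨⟨(b.1 : X), (hmemC _).mpr b.2⟩, (hmemS _).mpr b.1.2⟩
        left_inv := fun c => rfl
        right_inv := fun b => rfl }
  have h1 : S.index = (MulAction.orbit C (QuotientGroup.mk 1 : X ⧸ Y)).ncard :=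
    MulAction.index_stabilizer _ _
  have h2 := Subgroup.card_mul_index S
  have hidx : Y.index = Nat.card (X ⧸ Y) := Subgroup.index_eq_card Y
  rw [hcardC, ← hcardS, ← h2, h1, hidx, mul_comm]
  constructor
  · exact Nat.mul_le_mul_right _ (Set.ncard_le_card _)
  · rintro haY ⟨g, hg⟩
    apply Nat.mul_lt_mul_of_pos_right _ Nat.card_pos
    apply Set.ncard_lt_card
    intro huniv
    have hmem : (QuotientGroup.mk g : X ⧸ Y) ∈ MulAction.orbit C (QuotientGroup.mk 1 : X ⧸ Y) := by
      rw [huniv]; trivial
    obtain ⟨c, hc⟩ := hmem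
    have hc' : (QuotientGroup.mk ((c : X) * 1) : X ⧸ Y) = QuotientGroup.mk g := hc
    rw [QuotientGroup.eq, mul_one] at hc'
    apply hg
    have hcomm : Commute a (c : X) := (hmemC _).mp c.2
    have e : g⁻¹ * a * g = ((c : X)⁻¹ * g)⁻¹ * a * ((c : X)⁻¹ * g) := by
      have e1 : ((c : X)⁻¹ * g)⁻¹ * a * ((c : X)⁻¹ * g) = g⁻¹ * ((c : X) * a) * (c : X)⁻¹ * g := by
        group
      rw [e1, ← hcomm.eq]
      group
    rw [e]
    exact Y.mul_mem (Y.mul_mem (Y.inv_mem hc') haY) hc'

theorem result {X : Type*} [Group X] [Finite X] (Y : Subgroup X) : Nat.card (ConjClasses Y) ≤ Y.index * Nat.card (ConjClasses X) ∧ Nat.card (ConjClasses X) ≤ Y.index * Nat.card (ConjClasses Y) ∧ (¬ Y.Normal → Nat.card (ConjClasses X) < Y.index * Nat.card (ConjClasses Y)) := by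
  have hXX := card_comm_eq_card_conjClasses_mul_card X
  have hYY := card_comm_eq_card_conjClasses_mul_card Y
  have hXY : Nat.card X = Nat.card Y * Y.index := (Subgroup.card_mul_index Y).symm
  have hYpos : 0 < Nat.card Y := Nat.card_pos
  have hXpos : 0 < Nat.card X := Nat.card_pos
  have : Fintype X := Fintype.ofFinite X
  have : Fintype Y := Fintype.ofFinite Y
  have hcommY : ∀ b c : Y, Commute b c ↔ Commute (b : X) (c : X) := by
    intro b c
    constructor
    · intro h
      have := congrArg Subtype.val h.eq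
      exact this
    · intro h
      exact Subtype.ext h.eq
  have s1 : Nat.card { p : X × X // Commute p.1 p.2 } = ∑ a : X, Nat.card {b : X // Commute a b} := by
    rw [Nat.card_congr (Equiv.subtypeProdEquivSigmaSubtype (fun a b : X => Commute a b)),
      Nat.card_sigma]
  have s2 : Nat.card { p : X × Y // Commute p.1 (p.2 : X) } =
      ∑ a : X, Nat.card {b : Y // Commute a (b : X)} := by
    rw [Nat.card_congr (Equiv.subtypeProdEquivSigmaSubtype (fun (a : X) (b : Y) => Commute a (b : X))),
      Nat.card_sigma]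
  have s3 : Nat.card { p : X × Y // Commute p.1 (p.2 : X) } =
      ∑ b : Y, Nat.card {a : X // Commute (b : X) a} := by
    have e : { p : X × Y // Commute p.1 (p.2 : X) } ≃ { p : Y × X // Commute (p.1 : X) p.2 } :=
      { toFun := fun p => ⟨(p.1.2, p.1.1), p.2.symm⟩
        invFun := fun p => ⟨(p.1.2, p.1.1), p.2.symm⟩
        left_inv := fun p => rfl
        right_inv := fun p => rfl }
    rw [Nat.card_congr e,
      Nat.card_congr (Equiv.subtypeProdEquivSigmaSubtype (fun (b : Y) (a : X) => Commute (b : X) a)),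
      Nat.card_sigma]
  have s4 : Nat.card { p : Y × Y // Commute p.1 p.2 } =
      ∑ b : Y, Nat.card {a : Y // Commute (b : X) (a : X)} := by
    rw [Nat.card_congr (Equiv.subtypeProdEquivSigmaSubtype (fun b a : Y => Commute b a)),
      Nat.card_sigma]
    apply Finset.sum_congr rfl
    intro b _
    exact Nat.card_congr (Equiv.subtypeEquivRight (fun a => hcommY b a))
  have i1 : Nat.card { p : X × X // Commute p.1 p.2 } ≤
      Y.index * Nat.card { p : X × Y // Commute p.1 (p.2 : X) } := by
    rw [s1, s2, Finset.mul_sum]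
    apply Finset.sum_le_sum
    intro a _
    exact (keyK Y a).1
  have i2 : Nat.card { p : X × Y // Commute p.1 (p.2 : X) } ≤
      Y.index * Nat.card { p : Y × Y // Commute p.1 p.2 } := by
    rw [s3, s4, Finset.mul_sum]
    apply Finset.sum_le_sum
    intro b _
    exact (keyK Y (b : X)).1
  refine ⟨?_, ?_, ?_⟩
  · have inj : Nat.card { p : Y × Y // Commute p.1 p.2 } ≤ Nat.card { p : X × X // Commute p.1 p.2 } := by
      apply Nat.card_le_card_of_injective
        (fun p : { p : Y × Y // Commute p.1 p.2 } =>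
          (⟨((p.1.1 : X), (p.1.2 : X)), (hcommY _ _).mp p.2⟩ : { p : X × X // Commute p.1 p.2 }))
      intro p p' h
      have h1 := congrArg Subtype.val h
      have h2 : (p.1.1 : X) = (p'.1.1 : X) := congrArg Prod.fst h1
      have h3 : (p.1.2 : X) = (p'.1.2 : X) := congrArg Prod.snd h1
      apply Subtype.ext
      exact Prod.ext (Subtype.ext h2) (Subtype.ext h3)
    rw [hXX, hYY, hXY] at inj
    have : Nat.card (ConjClasses Y) * Nat.card Y ≤ (Y.index * Nat.card (ConjClasses X)) * Nat.card Y := by
      calc Nat.card (ConjClasses Y) * Nat.card Y ≤ Nat.card (ConjClasses X) * (Nat.card Y * Y.index) := inj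
        _ = (Y.index * Nat.card (ConjClasses X)) * Nat.card Y := by ring
    exact Nat.le_of_mul_le_mul_right this hYpos
  · have : Nat.card (ConjClasses X) * Nat.card X ≤ (Y.index * Nat.card (ConjClasses Y)) * Nat.card X := by
      calc Nat.card (ConjClasses X) * Nat.card X = Nat.card { p : X × X // Commute p.1 p.2 } := hXX.symm
        _ ≤ Y.index * Nat.card { p : X × Y // Commute p.1 (p.2 : X) } := i1
        _ ≤ Y.index * (Y.index * Nat.card { p : Y × Y // Commute p.1 p.2 }) :=
          Nat.mul_le_mul_left _ i2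
        _ = Y.index * (Y.index * (Nat.card (ConjClasses Y) * Nat.card Y)) := by rw [hYY]
        _ = (Y.index * Nat.card (ConjClasses Y)) * (Nat.card Y * Y.index) := by ring
        _ = (Y.index * Nat.card (ConjClasses Y)) * Nat.card X := by rw [hXY]
    exact Nat.le_of_mul_le_mul_right this hXpos
  · intro hnorm
    have hex : ∃ b : Y, ∃ g : X, g⁻¹ * (b : X) * g ∉ Y := by
      by_contra hcon
      push Not at hcon
      apply hnorm
      constructor
      intro n hn g
      have := hcon ⟨n, hn⟩ g⁻¹
      rw [inv_inv] at this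
      exact this
    obtain ⟨b₀, hb₀⟩ := hex
    have i2' : Nat.card { p : X × Y // Commute p.1 (p.2 : X) } <
        Y.index * Nat.card { p : Y × Y // Commute p.1 p.2 } := by
      rw [s3, s4, Finset.mul_sum]
      apply Finset.sum_lt_sum
      · intro b _
        exact (keyK Y (b : X)).1
      · exact ⟨b₀, Finset.mem_univ _, (keyK Y (b₀ : X)).2 b₀.2 hb₀⟩
    have hidx : 0 < Y.index := Nat.pos_of_ne_zero Subgroup.index_ne_zero_of_finite
    have : Nat.card (ConjClasses X) * Nat.card X < (Y.index * Nat.card (ConjClasses Y)) * Nat.card X := by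
      calc Nat.card (ConjClasses X) * Nat.card X = Nat.card { p : X × X // Commute p.1 p.2 } := hXX.symm
        _ ≤ Y.index * Nat.card { p : X × Y // Commute p.1 (p.2 : X) } := i1
        _ < Y.index * (Y.index * Nat.card { p : Y × Y // Commute p.1 p.2 }) :=
          Nat.mul_lt_mul_of_pos_left i2' hidx
        _ = Y.index * (Y.index * (Nat.card (ConjClasses Y) * Nat.card Y)) := by rw [hYY]
        _ = (Y.index * Nat.card (ConjClasses Y)) * (Nat.card Y * Y.index) := by ring
        _ = (Y.index * Nat.card (ConjClasses Y)) * Nat.card X := by rw [hXY]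
    exact Nat.lt_of_mul_lt_mul_right this

end Cfsg.Agent.S4200
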