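import Mathlib
import Cfsg.Statements.S4201

set_option autoImplicit false
open Cfsg

namespace Cfsg.Agent.S4201

theorem card_pairs {A B : Type*} [Fintype A] [Finite B] (R : A → B → Prop) :
    Nat.card {p : A × B // R p.1 p.2} = ∑ a : A, Nat.card {b : B // R a b} := by
  rw [Nat.card_congr (Equiv.subtypeProdEquivSigmaSubtype R), Nat.card_sigma]

theorem cosetL {X : Type*} [Group X] [Finite X] (N : Subgroup X) [N.Normal] (P : Prop) (x : X)
    (b : X ⧸ N) :
    Nat.card {y : X // P ∧ (QuotientGroup.mk y : X ⧸ N) = b ∧ Commute x y} ≤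
      Nat.card {n : N // P ∧ Commute x (n : X)} := by
  by_cases hne : Nonempty {y : X // P ∧ (QuotientGroup.mk y : X ⧸ N) = b ∧ Commute x y}
  · obtain ⟨y₀, hP, hy₀b, hy₀c⟩ := hne
    have hmem : ∀ y : {y : X // P ∧ (QuotientGroup.mk y : X ⧸ N) = b ∧ Commute x y},
        y₀⁻¹ * (y : X) ∈ N := by
      intro y
      rw [← QuotientGroup.eq, hy₀b, y.2.2.1]
    apply Nat.card_le_card_of_injective
      (fun y : {y : X // P ∧ (QuotientGroup.mk y : X ⧸ N) = b ∧ Commute x y} =>
        (⟨⟨y₀⁻¹ * (y : X), hmem y⟩, hP, hy₀c.inv_right.mul_right y.2.2.2⟩ :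
          {n : N // P ∧ Commute x (n : X)}))
    intro y y' h
    have h1 : y₀⁻¹ * (y : X) = y₀⁻¹ * (y' : X) := congrArg (fun t => ((t.1 : N) : X)) h
    exact Subtype.ext (mul_left_cancel h1)
  · rw [not_nonempty_iff] at hne
    rw [Nat.card_of_isEmpty]
    exact Nat.zero_le _

theorem fiberBound {X : Type*} [Group X] [Finite X] (N : Subgroup X) [N.Normal] (qa qb : X ⧸ N) :
    Nat.card {p : X × X // (QuotientGroup.mk p.1 : X ⧸ N) = qa ∧
        (QuotientGroup.mk p.2 : X ⧸ N) = qb ∧ Commute p.1 p.2} ≤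
      Nat.card {p : N × N // Commute p.1 p.2} := by
  have : Fintype X := Fintype.ofFinite X
  have : Fintype N := Fintype.ofFinite N
  have e23 : {p : X × N // (QuotientGroup.mk p.1 : X ⧸ N) = qa ∧ Commute p.1 (p.2 : X)} ≃
      {p : N × X // True ∧ (QuotientGroup.mk p.2 : X ⧸ N) = qa ∧ Commute (p.1 : X) p.2} :=
    { toFun := fun p => ⟨(p.1.2, p.1.1), trivial, p.2.1, p.2.2.symm⟩
      invFun := fun p => ⟨(p.1.2, p.1.1), p.2.2.1, p.2.2.2.symm⟩
      left_inv := fun p => rfl
      right_inv := fun p => rfl }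
  have e4 : {p : N × N // True ∧ Commute (p.1 : X) (p.2 : X)} ≃ {p : N × N // Commute p.1 p.2} := by
    apply Equiv.subtypeEquivRight
    intro p
    constructor
    · rintro ⟨_, h⟩
      exact Subtype.ext h.eq
    · intro h
      exact ⟨trivial, congrArg Subtype.val h.eq⟩
  calc Nat.card {p : X × X // (QuotientGroup.mk p.1 : X ⧸ N) = qa ∧
        (QuotientGroup.mk p.2 : X ⧸ N) = qb ∧ Commute p.1 p.2}
      = ∑ x : X, Nat.card {y : X // (QuotientGroup.mk x : X ⧸ N) = qa ∧
        (QuotientGroup.mk y : X ⧸ N) = qb ∧ Commute x y} :=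
        card_pairs (fun x y : X => (QuotientGroup.mk x : X ⧸ N) = qa ∧
          (QuotientGroup.mk y : X ⧸ N) = qb ∧ Commute x y)
    _ ≤ ∑ x : X, Nat.card {n : N // (QuotientGroup.mk x : X ⧸ N) = qa ∧ Commute x (n : X)} :=
        Finset.sum_le_sum (fun x _ => cosetL N _ x qb)
    _ = Nat.card {p : X × N // (QuotientGroup.mk p.1 : X ⧸ N) = qa ∧ Commute p.1 (p.2 : X)} :=
        (card_pairs (fun (x : X) (n : N) => (QuotientGroup.mk x : X ⧸ N) = qa ∧
          Commute x (n : X))).symm
    _ = Nat.card {p : N × X // True ∧ (QuotientGroup.mk p.2 : X ⧸ N) = qa ∧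
          Commute (p.1 : X) p.2} := Nat.card_congr e23
    _ = ∑ n : N, Nat.card {x : X // True ∧ (QuotientGroup.mk x : X ⧸ N) = qa ∧
          Commute (n : X) x} :=
        card_pairs (fun (n : N) (x : X) => True ∧ (QuotientGroup.mk x : X ⧸ N) = qa ∧
          Commute (n : X) x)
    _ ≤ ∑ n : N, Nat.card {m : N // True ∧ Commute (n : X) (m : X)} :=
        Finset.sum_le_sum (fun n _ => cosetL N True (n : X) qa)
    _ = Nat.card {p : N × N // True ∧ Commute (p.1 : X) (p.2 : X)} :=
        (card_pairs (fun (n m : N) => True ∧ Commute (n : X) (m : X))).symm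
    _ = Nat.card {p : N × N // Commute p.1 p.2} := Nat.card_congr e4

theorem result {X : Type*} [Group X] [Finite X] (N : Subgroup X) [N.Normal] : Nat.card (ConjClasses X) ≤ Nat.card (ConjClasses N) * Nat.card (ConjClasses (X ⧸ N)) := by
  have hXX := card_comm_eq_card_conjClasses_mul_card X
  have hNN := card_comm_eq_card_conjClasses_mul_card N
  have hQQ := card_comm_eq_card_conjClasses_mul_card (X ⧸ N)
  have hXpos : 0 < Nat.card X := Nat.card_pos
  have hcard : Nat.card X = Nat.card (X ⧸ N) * Nat.card N :=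
    Subgroup.card_eq_card_quotient_mul_card_subgroup N
  let f : {p : X × X // Commute p.1 p.2} → {p : (X ⧸ N) × (X ⧸ N) // Commute p.1 p.2} :=
    fun p => ⟨((QuotientGroup.mk p.1.1 : X ⧸ N), (QuotientGroup.mk p.1.2 : X ⧸ N)),
      p.2.map (QuotientGroup.mk' N)⟩
  have : Fintype {p : (X ⧸ N) × (X ⧸ N) // Commute p.1 p.2} := Fintype.ofFinite _
  have h1 : Nat.card {p : X × X // Commute p.1 p.2} =
      ∑ s : {p : (X ⧸ N) × (X ⧸ N) // Commute p.1 p.2},
        Nat.card {p : {p : X × X // Commute p.1 p.2} // f p = s} := by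
    rw [← Nat.card_sigma]
    exact (Nat.card_congr (Equiv.sigmaFiberEquiv f)).symm
  have h2 : ∀ s : {p : (X ⧸ N) × (X ⧸ N) // Commute p.1 p.2},
      Nat.card {p : {p : X × X // Commute p.1 p.2} // f p = s} ≤
        Nat.card {p : N × N // Commute p.1 p.2} := by
    intro s
    refine le_trans ?_ (fiberBound N s.1.1 s.1.2)
    apply Nat.card_le_card_of_injective
      (fun p : {p : {p : X × X // Commute p.1 p.2} // f p = s} =>
        (⟨p.1.1, congrArg (fun t => t.1.1) p.2, congrArg (fun t => t.1.2) p.2, p.1.2⟩ :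
          {p : X × X // (QuotientGroup.mk p.1 : X ⧸ N) = s.1.1 ∧
            (QuotientGroup.mk p.2 : X ⧸ N) = s.1.2 ∧ Commute p.1 p.2}))
    intro p p' h
    have h3 : p.1.1 = p'.1.1 := by
      have := congrArg Subtype.val h
      exact this
    exact Subtype.ext (Subtype.ext h3)
  have h3 : Nat.card {p : X × X // Commute p.1 p.2} ≤
      Nat.card {p : (X ⧸ N) × (X ⧸ N) // Commute p.1 p.2} * Nat.card {p : N × N // Commute p.1 p.2} := by
    rw [h1]
    calc ∑ s : {p : (X ⧸ N) × (X ⧸ N) // Commute p.1 p.2},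
          Nat.card {p : {p : X × X // Commute p.1 p.2} // f p = s}
        ≤ ∑ _s : {p : (X ⧸ N) × (X ⧸ N) // Commute p.1 p.2},
          Nat.card {p : N × N // Commute p.1 p.2} := Finset.sum_le_sum (fun s _ => h2 s)
      _ = Nat.card {p : (X ⧸ N) × (X ⧸ N) // Commute p.1 p.2} *
          Nat.card {p : N × N // Commute p.1 p.2} := by
        rw [Finset.sum_const, Finset.card_univ, smul_eq_mul, ← Nat.card_eq_fintype_card]
  rw [hXX, hQQ, hNN] at h3
  have : Nat.card (ConjClasses X) * Nat.card X ≤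
      (Nat.card (ConjClasses N) * Nat.card (ConjClasses (X ⧸ N))) * Nat.card X := by
    calc Nat.card (ConjClasses X) * Nat.card X
        ≤ Nat.card (ConjClasses (X ⧸ N)) * Nat.card (X ⧸ N) *
          (Nat.card (ConjClasses N) * Nat.card N) := h3
      _ = (Nat.card (ConjClasses N) * Nat.card (ConjClasses (X ⧸ N))) *
          (Nat.card (X ⧸ N) * Nat.card N) := by ring
      _ = (Nat.card (ConjClasses N) * Nat.card (ConjClasses (X ⧸ N))) * Nat.card X := by
        rw [hcard]
  exact Nat.le_of_mul_le_mul_right this hXpos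

end Cfsg.Agent.S4201
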