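import Mathlib
import Cfsg.Statements.S4203
import Cfsg.Agent.S0580
import Cfsg.Agent.Lib.Helper1.CharGalois

set_option autoImplicit false
open Cfsg

namespace Cfsg.Agent.S4203

universe u

theorem coatom_comap {G : Type u} [Group G] (N : Subgroup G) [N.Normal] (M' : Subgroup (G ⧸ N))
    (hM : IsCoatom M') : IsCoatom (M'.comap (QuotientGroup.mk' N)) := by
  have hsurj : Function.Surjective (QuotientGroup.mk' N) := QuotientGroup.mk'_surjective N
  constructor
  · intro h
    apply hM.1
    rw [← Subgroup.map_comap_eq_self_of_surjective hsurj M', h, ← MonoidHom.range_eq_map]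
    exact MonoidHom.range_eq_top.mpr hsurj
  · intro K hK
    have h1 : M' ≤ K.map (QuotientGroup.mk' N) := by
      rw [← Subgroup.map_comap_eq_self_of_surjective hsurj M']
      exact Subgroup.map_mono hK.le
    have hker : (QuotientGroup.mk' N).ker ≤ K := by
      intro x hx
      apply hK.le
      rw [Subgroup.mem_comap, MonoidHom.mem_ker.mp hx]
      exact one_mem _
    have h2 : (K.map (QuotientGroup.mk' N)).comap (QuotientGroup.mk' N) = K := by
      rw [Subgroup.comap_map_eq, sup_eq_left.mpr hker]
    rcases h1.eq_or_lt with h3 | h3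
    · exfalso
      rw [h3, h2] at hK
      exact lt_irrefl _ hK
    · have h4 := hM.2 _ h3
      rw [h4, Subgroup.comap_top] at h2
      exact h2.symm

theorem arith (p q : ℕ) (hp : p.Prime) (hq : q.Prime) (hqp : q ≤ p)
    (h : q ≡ 1 [MOD p] ∨ q ^ 2 ≡ 1 [MOD p]) : p = 3 := by
  have hq2 := hq.two_le
  have hp2 := hp.two_le
  have key : ∀ m : ℕ, 0 < m → m < p → ¬ p ∣ m := fun m h0 hlt hd =>
    absurd (Nat.le_of_dvd h0 hd) (by omega)
  rcases h with h | h
  · exfalso
    have hd : p ∣ q - 1 := (Nat.modEq_iff_dvd' (by omega)).mp h.symm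
    exact key (q - 1) (by omega) (by omega) hd
  · have hd : p ∣ q ^ 2 - 1 := (Nat.modEq_iff_dvd' (Nat.one_le_pow _ _ (by omega))).mp h.symm
    have he : q ^ 2 - 1 = (q - 1) * (q + 1) := by
      obtain ⟨k, rfl⟩ : ∃ k, q = k + 1 := ⟨q - 1, by omega⟩
      have h1 : (k + 1) ^ 2 = k * (k + 1 + 1) + 1 := by ring
      rw [h1, Nat.add_sub_cancel, Nat.add_sub_cancel]
    rw [he] at hd
    rcases (Nat.Prime.dvd_mul hp).mp hd with h1 | h1
    · exfalso
      exact key (q - 1) (by omega) (by omega) h1
    · obtain ⟨k, hk⟩ := h1
      have hk1 : k = 1 := by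
        rcases Nat.lt_or_ge k 2 with h2 | h2
        · interval_cases k
          · omega
          · rfl
        · exfalso
          have : p * 2 ≤ p * k := Nat.mul_le_mul_left p h2
          omega
      subst hk1
      rw [mul_one] at hk
      rcases hq.eq_two_or_odd' with h2 | h2
      · omega
      · exfalso
        have h3 : 2 ∣ p := by
          obtain ⟨j, hj⟩ := h2
          exact ⟨j + 1, by omega⟩
        have h4 := (Nat.prime_dvd_prime_iff_eq Nat.prime_two hp).mp h3
        omega

theorem main : ∀ (n : ℕ) (G : Type u) [Group G] [Finite G], Nat.card G = n →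
    (∀ M : Subgroup G, IsCoatom M → ∃ p : ℕ, p.Prime ∧ (M.index = p ∨ M.index = p ^ 2)) →
    Group.IsSolvable G := by
  intro n
  induction n using Nat.strong_induction_on with
  | _ n ih =>
    intro G _ _ hn h
    rcases subsingleton_or_nontrivial G with hG | hG
    · infer_instance
    have hcard : 1 < Nat.card G := Finite.one_lt_card
    have hne : (Nat.card G).primeFactors.Nonempty := by
      rw [Nat.nonempty_primeFactors]; exact hcard
    obtain ⟨p, hpmem, hpmax⟩ := Finset.exists_max_image _ id hne
    have hp : p.Prime := Nat.prime_of_mem_primeFactors hpmem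
    have hpd : p ∣ Nat.card G := Nat.dvd_of_mem_primeFactors hpmem
    have hmax : ∀ r : ℕ, r.Prime → r ∣ Nat.card G → r ≤ p := by
      intro r hr hrd
      exact hpmax r (Nat.mem_primeFactors.mpr ⟨hr, hrd, by omega⟩)
    have : Fact p.Prime := ⟨hp⟩
    obtain ⟨P⟩ : Nonempty (Sylow p G) := inferInstance
    by_cases hPn : (P : Subgroup G).Normal
    · have hPne : (P : Subgroup G) ≠ ⊥ := P.ne_bot_of_dvd_card hpd
      have hlt : Nat.card (G ⧸ (P : Subgroup G)) < n := by
        rw [← hn, ← Subgroup.index_eq_card]
        have h1 : (P : Subgroup G).index * Nat.card (P : Subgroup G) = Nat.card G :=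
          (P : Subgroup G).index_mul_card
        have h2 : 1 < Nat.card (P : Subgroup G) :=
          (P : Subgroup G).one_lt_card_iff_ne_bot.mpr hPne
        have h3 : 0 < (P : Subgroup G).index :=
          Nat.pos_of_ne_zero (Subgroup.index_ne_zero_of_finite)
        nlinarith
      have hq : Group.IsSolvable (G ⧸ (P : Subgroup G)) := by
        apply ih _ hlt (G ⧸ (P : Subgroup G)) rfl
        intro M' hM'
        obtain ⟨q, hq, hidx⟩ := h _ (coatom_comap (P : Subgroup G) M' hM')
        refine ⟨q, hq, ?_⟩
        rwa [Subgroup.index_comap_of_surjective _ (QuotientGroup.mk'_surjective _)] at hidx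
      have : Group.IsSolvable (P : Subgroup G) := by
        have := P.isPGroup'.isNilpotent
        infer_instance
      exact Group.isSolvable_of_ker_le_range (P : Subgroup G).subtype
        (QuotientGroup.mk' (P : Subgroup G)) (by
          rw [QuotientGroup.ker_mk', Subgroup.range_subtype])
    · have hN : Subgroup.normalizer ((P : Subgroup G) : Set G) ≠ ⊤ := by
        intro h1; exact hPn (Subgroup.normalizer_eq_top_iff.mp h1)
      obtain ⟨M, hM, hNM⟩ := (eq_top_or_exists_le_coatom _).resolve_left hN
      have hmod := Cfsg.Agent.S0580.index_modEq_one p P M hNM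
      obtain ⟨q, hq, hidx⟩ := h M hM
      have hqd : q ∣ Nat.card G := by
        have := M.index_dvd_card
        rcases hidx with h1 | h1
        · rw [h1] at this; exact this
        · rw [h1] at this; exact (dvd_pow_self q two_ne_zero).trans this
      have hqp := hmax q hq hqd
      have hp3 : p = 3 := by
        apply arith p q hp hq hqp
        rcases hidx with h1 | h1
        · left; rw [← h1]; exact hmod
        · right; rw [← h1]; exact hmod
      apply Cfsg.Agent.Lib.Helper1.solvable_of_two_primes_aux 2 3 Nat.prime_two Nat.prime_three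
        _ G rfl
      intro r hr hrd
      have h1 := hmax r hr hrd
      have h2 := hr.two_le
      rw [hp3] at h1
      omega

theorem result {G : Type*} [Group G] [Finite G] (h : ∀ M : Subgroup G, IsCoatom M → ∃ p : ℕ, p.Prime ∧ (M.index = p ∨ M.index = p ^ 2)) : Group.IsSolvable G :=
  main _ G rfl h

end Cfsg.Agent.S4203
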