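import Mathlib
import Cfsg.Statements.S4204

set_option autoImplicit false
open Cfsg

namespace Cfsg.Agent.S4204

def Gam {G : Type*} [Group G] (S : Subgroup G) : ℕ → Subgroup G
  | 0 => ⊤
  | (a + 1) => S.lowerCentralSeries a

theorem lcs_normal {G : Type*} [Group G] (S : Subgroup G) [S.Normal] (n : ℕ) :
    (S.lowerCentralSeries n).Normal := by
  induction n with
  | zero => rw [Subgroup.lowerCentralSeries_zero]; infer_instance
  | succ n ih =>
    rw [Subgroup.lowerCentralSeries_succ]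
    exact Subgroup.commutator_normal _ _

theorem Gam_normal {G : Type*} [Group G] (S : Subgroup G) [S.Normal] (a : ℕ) :
    (Gam S a).Normal := by
  cases a with
  | zero => exact Subgroup.normal_top
  | succ a => exact lcs_normal S a

theorem Gam_comm_le {G : Type*} [Group G] (S : Subgroup G) [S.Normal] (a : ℕ) :
    ⁅Gam S a, S⁆ ≤ Gam S (a + 1) := by
  cases a with
  | zero => exact Subgroup.commutator_le_right _ _
  | succ a => exact le_rfl

theorem comm_le_iff {G : Type*} [Group G] (X Y Z : Subgroup G) [Z.Normal] :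
    ⁅X, Y⁆ ≤ Z ↔ X ≤ (Subgroup.centralizer ((Y.map (QuotientGroup.mk' Z) : Subgroup (G ⧸ Z)) : Set (G ⧸ Z))).comap (QuotientGroup.mk' Z) := by
  have key : ∀ W : Subgroup G, W ≤ Z ↔ W.map (QuotientGroup.mk' Z) = ⊥ := by
    intro W
    rw [Subgroup.map_eq_bot_iff, QuotientGroup.ker_mk']
  rw [key, Subgroup.map_commutator, Subgroup.commutator_eq_bot_iff_le_centralizer,
    Subgroup.map_le_iff_le_comap]

theorem iSup_comm_le {G : Type*} [Group G] {ι : Sort*} (X : ι → Subgroup G) (Y Z : Subgroup G) [Z.Normal]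
    (h : ∀ i, ⁅X i, Y⁆ ≤ Z) : ⁅⨆ i, X i, Y⁆ ≤ Z := by
  rw [comm_le_iff]
  apply iSup_le
  intro i
  rw [← comm_le_iff]
  exact h i

theorem comm_sup_le {G : Type*} [Group G] (X Y₁ Y₂ Z : Subgroup G) [Z.Normal]
    (h1 : ⁅X, Y₁⁆ ≤ Z) (h2 : ⁅X, Y₂⁆ ≤ Z) : ⁅X, Y₁ ⊔ Y₂⁆ ≤ Z := by
  rw [Subgroup.commutator_comm] at h1 h2 ⊢
  rw [comm_le_iff] at h1 h2 ⊢
  exact sup_le h1 h2

def Zn {G : Type*} [Group G] (H K : Subgroup G) (n : ℕ) : Subgroup G :=
  ⨆ p : {p : ℕ × ℕ // p.1 + p.2 = n + 1}, Gam H p.1.1 ⊓ Gam K p.1.2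

theorem Zn_normal {G : Type*} [Group G] (H K : Subgroup G) [H.Normal] [K.Normal] (n : ℕ) :
    (Zn H K n).Normal := by
  unfold Zn
  have : ∀ p : {p : ℕ × ℕ // p.1 + p.2 = n + 1}, (Gam H p.1.1 ⊓ Gam K p.1.2).Normal := by
    intro p
    have := Gam_normal H p.1.1
    have := Gam_normal K p.1.2
    infer_instance
  exact Subgroup.iSup_normal _

theorem main {G : Type*} [Group G] (H K : Subgroup G) [H.Normal] [K.Normal] (n : ℕ) :
    (H ⊔ K).lowerCentralSeries n ≤ Zn H K n := by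
  induction n with
  | zero =>
    rw [Subgroup.lowerCentralSeries_zero]
    apply sup_le
    · have := le_iSup (fun p : {p : ℕ × ℕ // p.1 + p.2 = 0 + 1} => Gam H p.1.1 ⊓ Gam K p.1.2) ⟨(1, 0), rfl⟩
      refine le_trans ?_ this
      show H ≤ H.lowerCentralSeries 0 ⊓ ⊤
      simp
    · have := le_iSup (fun p : {p : ℕ × ℕ // p.1 + p.2 = 0 + 1} => Gam H p.1.1 ⊓ Gam K p.1.2) ⟨(0, 1), rfl⟩
      refine le_trans ?_ this
      show K ≤ ⊤ ⊓ K.lowerCentralSeries 0
      simp
  | succ n ih =>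
    rw [Subgroup.lowerCentralSeries_succ]
    have hZ := Zn_normal H K (n + 1)
    refine le_trans (Subgroup.commutator_mono ih le_rfl) ?_
    unfold Zn at hZ ⊢
    apply iSup_comm_le
    rintro ⟨⟨a, b⟩, hab⟩
    have hab' : a + b = n + 1 := hab
    have hHa := Gam_normal H a
    have hKb := Gam_normal K b
    apply comm_sup_le
    · have h1 : ⁅Gam H a ⊓ Gam K b, H⁆ ≤ Gam H (a + 1) ⊓ Gam K b := by
        apply le_inf
        · exact le_trans (Subgroup.commutator_mono inf_le_left le_rfl) (Gam_comm_le H a)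
        · exact le_trans (Subgroup.commutator_mono inf_le_right le_rfl) (Subgroup.commutator_le_left _ _)
      refine le_trans h1 ?_
      exact le_iSup (fun p : {p : ℕ × ℕ // p.1 + p.2 = n + 1 + 1} => Gam H p.1.1 ⊓ Gam K p.1.2)
        ⟨(a + 1, b), by show a + 1 + b = n + 1 + 1; omega⟩
    · have h1 : ⁅Gam H a ⊓ Gam K b, K⁆ ≤ Gam H a ⊓ Gam K (b + 1) := by
        apply le_inf
        · exact le_trans (Subgroup.commutator_mono inf_le_left le_rfl) (Subgroup.commutator_le_left _ _)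
        · exact le_trans (Subgroup.commutator_mono inf_le_right le_rfl) (Gam_comm_le K b)
      refine le_trans h1 ?_
      exact le_iSup (fun p : {p : ℕ × ℕ // p.1 + p.2 = n + 1 + 1} => Gam H p.1.1 ⊓ Gam K p.1.2)
        ⟨(a, b + 1), by show a + (b + 1) = n + 1 + 1; omega⟩

theorem Gam_eq_bot {G : Type*} [Group G] (S : Subgroup G) (c : ℕ) (h : S.lowerCentralSeries c = ⊥)
    (a : ℕ) (ha : c + 1 ≤ a) : Gam S a = ⊥ := by
  obtain ⟨k, rfl⟩ := Nat.exists_eq_add_of_le ha
  have e : c + 1 + k = (c + k) + 1 := by ring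
  rw [e]
  show S.lowerCentralSeries (c + k) = ⊥
  have := S.lowerCentralSeries_antitone (Nat.le_add_right c k)
  rw [h] at this
  exact le_bot_iff.mp this

theorem result {G : Type*} [Group G] [Finite G] (H K : Subgroup G) [H.Normal] [K.Normal] (c d : ℕ) (hH : H.lowerCentralSeries c = ⊥) (hK : K.lowerCentralSeries d = ⊥) : (H ⊔ K).lowerCentralSeries (c + d) = ⊥ := by
  rw [← le_bot_iff]
  refine le_trans (main H K (c + d)) ?_
  unfold Zn
  apply iSup_le
  rintro ⟨⟨a, b⟩, hab⟩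
  have hab' : a + b = c + d + 1 := hab
  show Gam H a ⊓ Gam K b ≤ ⊥
  by_cases hac : c + 1 ≤ a
  · rw [Gam_eq_bot H c hH a hac]; exact inf_le_left
  · have hbd : d + 1 ≤ b := by omega
    rw [Gam_eq_bot K d hK b hbd]; exact inf_le_right

end Cfsg.Agent.S4204
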