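import Cfsg.Statements.S4205

set_option autoImplicit false
open Cfsg
open scoped commutatorElement

namespace Cfsg.Agent.S4205

theorem aux {G : Type*} [Group G] (H : Subgroup G) (i : ℕ) :
    Subgroup.upperCentralSeries G i ≤ (fun K : Subgroup G => Subgroup.normalizer (K : Set G))^[i] H := by
  induction i with
  | zero => simp
  | succ i ih =>
    rw [Function.iterate_succ_apply']
    intro z hz
    rw [Subgroup.mem_upperCentralSeries_succ_iff] at hz
    rw [Subgroup.mem_normalizer_iff]
    intro k
    have h1 : ⁅z, k⁆ ∈ (fun K : Subgroup G => Subgroup.normalizer (K : Set G))^[i] H := ih (hz k)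
    have h2 : z * k * z⁻¹ = ⁅z, k⁆ * k := by
      rw [commutatorElement_def]; group
    rw [h2]
    exact (Subgroup.mul_mem_cancel_left _ h1).symm

theorem result {G : Type*} [Group G] [Finite G] (c : ℕ) (hG : Subgroup.upperCentralSeries G c = ⊤) (H : Subgroup G) : (fun K : Subgroup G => Subgroup.normalizer (K : Set G))^[c] H = ⊤ := by
  have := aux H c
  rw [hG] at this
  exact top_le_iff.mp this

end Cfsg.Agent.S4205
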