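import Mathlib
import Cfsg.Statements.S4206

set_option autoImplicit false
open Cfsg

namespace Cfsg.Agent.S4206

theorem three_subgroups_normal {G : Type*} [Group G] (A B C N : Subgroup G) [N.Normal]
    (h1 : ⁅⁅B, C⁆, A⁆ ≤ N) (h2 : ⁅⁅C, A⁆, B⁆ ≤ N) : ⁅⁅A, B⁆, C⁆ ≤ N := by
  have key : ∀ X : Subgroup G, X ≤ N ↔ X.map (QuotientGroup.mk' N) = ⊥ := by
    intro X
    rw [Subgroup.map_eq_bot_iff, QuotientGroup.ker_mk']
  rw [key] at h1 h2 ⊢
  rw [Subgroup.map_commutator, Subgroup.map_commutator] at h1 h2 ⊢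
  exact Subgroup.commutator_commutator_eq_bot_of_rotate h1 h2

theorem result {G : Type*} [Group G] [Finite G] (H : ℕ → Subgroup G) (hN : ∀ i, (H i).Normal) (hdesc : ∀ i, H (i + 1) ≤ H i) (L : Subgroup G) (hL : ∀ i, ⁅H i, L⁆ ≤ H (i + 1)) (i j : ℕ) : ⁅H i, L.lowerCentralSeries j⁆ ≤ H (i + j + 1) := by
  induction j generalizing i with
  | zero => exact hL i
  | succ j ih =>
    rw [Subgroup.lowerCentralSeries_succ, Subgroup.commutator_comm]
    have hn : (H (i + (j + 1) + 1)).Normal := hN _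
    apply three_subgroups_normal
    · rw [Subgroup.commutator_comm L (H i)]
      have h1 : ⁅⁅H i, L⁆, L.lowerCentralSeries j⁆ ≤ ⁅H (i + 1), L.lowerCentralSeries j⁆ :=
        Subgroup.commutator_mono (hL i) le_rfl
      refine h1.trans ?_
      have := ih (i + 1)
      have e : i + 1 + j + 1 = i + (j + 1) + 1 := by ring
      rw [e] at this
      exact this
    · have h1 : ⁅⁅H i, L.lowerCentralSeries j⁆, L⁆ ≤ ⁅H (i + j + 1), L⁆ :=
        Subgroup.commutator_mono (ih i) le_rfl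
      refine h1.trans ?_
      exact hL (i + j + 1)

end Cfsg.Agent.S4206
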