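import Cfsg.Statements.S4209
import Mathlib
import Cfsg.Agent.S0643
import Cfsg.Agent.S0644
import Cfsg.Agent.Lib.Helper20.ClassLtP

set_option autoImplicit false
set_option linter.style.haveILetI false
open Cfsg

namespace Cfsg.Agent.S4209

open Cfsg.Agent.Lib.Helper20.ClassLtP

universe u

theorem quot_inC {K : Type*} [Group K] (p c : ℕ) (W : Subgroup K) [W.Normal]
    (h1 : (⊤ : Subgroup K).lowerCentralSeries c = ⊥) (h2 : ∀ d ∈ commutator K, d ^ p ∈ W) :
    InC p c (K ⧸ W) := by
  constructor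
  · have h3 : (⊤ : Subgroup (K ⧸ W)) = (⊤ : Subgroup K).map (QuotientGroup.mk' W) :=
      (Subgroup.map_top_of_surjective _ (QuotientGroup.mk'_surjective W)).symm
    rw [h3, ← Subgroup.map_lowerCentralSeries, h1, Subgroup.map_bot]
  · intro d hd
    have h3 : commutator (K ⧸ W) = (commutator K).map (QuotientGroup.mk' W) := by
      rw [_root_.commutator_def, _root_.commutator_def, Subgroup.map_commutator,
        Subgroup.map_top_of_surjective _ (QuotientGroup.mk'_surjective W)]
    rw [h3] at hd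
    obtain ⟨d0, hd0, rfl⟩ := hd
    rw [← map_pow]
    exact (QuotientGroup.eq_one_iff _).2 (h2 d0 hd0)

theorem aux (p : ℕ) [Fact p.Prime] : ∀ (n : ℕ) (G : Type u) [Group G] [Finite G],
    Nat.card G = n → IsPGroup p G → (⊤ : Subgroup G).lowerCentralSeries (p - 1) = ⊥ →
    Cfsg.IsRegularPGroup p G := by
  intro n
  induction n using Nat.strong_induction_on with
  | _ n ih =>
  intro G _ _ hn hG hcl
  refine (Cfsg.Agent.S0643.result hG).2 ?_
  intro a b
  have ha : a ∈ Subgroup.closure ({a, b} : Set G) := Subgroup.subset_closure (by simp)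
  have hb : b ∈ Subgroup.closure ({a, b} : Set G) := Subgroup.subset_closure (by simp)
  generalize Subgroup.closure ({a, b} : Set G) = H at ha hb ⊢
  have hHcl : (⊤ : Subgroup ↥H).lowerCentralSeries (p - 1) = ⊥ := by
    have h1 := Subgroup.top_subtype_lowerCentralSeries H (p - 1)
    have h2 : H.lowerCentralSeries (p - 1) = ⊥ := by
      rw [eq_bot_iff, ← hcl]; exact Subgroup.lowerCentralSeries_mono _ le_top
    rw [h2] at h1
    exact (Subgroup.map_eq_bot_iff_of_injective _ H.subtype_injective).1 h1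
  have hmapD : (commutator ↥H).map H.subtype = ⁅H, H⁆ := by
    rw [_root_.commutator_def, Subgroup.map_commutator, ← MonoidHom.range_eq_map,
      Subgroup.range_subtype]
  suffices hsuff : ∃ c ∈ commutator ↥H,
      ((⟨a, ha⟩ : ↥H) * ⟨b, hb⟩) ^ p = ⟨a, ha⟩ ^ p * ⟨b, hb⟩ ^ p * c ^ p by
    obtain ⟨c, hc, hc2⟩ := hsuff
    refine ⟨(c : G), ?_, ?_⟩
    · rw [← hmapD]; exact Subgroup.mem_map_of_mem _ hc
    · have h5 := congrArg Subtype.val hc2
      simpa using h5
  generalize (⟨a, ha⟩ : ↥H) = a'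
  generalize (⟨b, hb⟩ : ↥H) = b'
  have hKp : IsPGroup p ↥H := hG.to_subgroup H
  have hKcard : Nat.card ↥H ≤ Nat.card G := Subgroup.card_le_card_group H
  by_cases hDtop : commutator ↥H = ⊤
  · have h1 : ∀ k, (⊤ : Subgroup ↥H).lowerCentralSeries k = ⊤ := by
      intro k
      induction k with
      | zero => rfl
      | succ k ihk =>
        rw [Subgroup.lowerCentralSeries_succ, ihk]; exact hDtop
    have h2 : (⊤ : Subgroup ↥H) = ⊥ := by rw [← h1 (p - 1), hHcl]
    have h3 : ∀ x : ↥H, x = 1 := fun x => by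
      have h4 : x ∈ (⊤ : Subgroup ↥H) := Subgroup.mem_top x
      rw [h2] at h4; exact Subgroup.mem_bot.1 h4
    refine ⟨1, Subgroup.one_mem _, ?_⟩
    rw [h3 a', h3 b']; simp
  · have hcard : Nat.card ↥(commutator ↥H) < Nat.card G := by
      have h1 : Nat.card ↥(commutator ↥H) < Nat.card ↥H := by
        by_contra hlt
        push Not at hlt
        have h2 := Subgroup.card_le_card_group (commutator ↥H)
        exact hDtop (Subgroup.eq_top_of_card_eq _ (le_antisymm h2 hlt))
      omega
    have hDp : IsPGroup p ↥(commutator ↥H) := hKp.to_subgroup _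
    have hDcl : (⊤ : Subgroup ↥(commutator ↥H)).lowerCentralSeries (p - 1) = ⊥ := by
      have h1 := Subgroup.top_subtype_lowerCentralSeries (commutator ↥H) (p - 1)
      have h2 : (commutator ↥H).lowerCentralSeries (p - 1) = ⊥ := by
        rw [eq_bot_iff, ← hHcl]; exact Subgroup.lowerCentralSeries_mono _ le_top
      rw [h2] at h1
      exact (Subgroup.map_eq_bot_iff_of_injective _ (Subgroup.subtype_injective _)).1 h1
    have hDreg : Cfsg.IsRegularPGroup p ↥(commutator ↥H) :=
      ih _ (hn ▸ hcard) _ rfl hDp hDcl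
    have hWel : ∀ w ∈ Cfsg.powerClosure p 1 (commutator ↥H),
        ∃ c ∈ commutator ↥H, w = c ^ p := by
      have h1 := (Cfsg.Agent.S0644.result hDreg ⊤ 1).1
      have h2 : Cfsg.powerClosure p 1 (commutator ↥H)
          = (Cfsg.powerClosure p 1 (⊤ : Subgroup ↥(commutator ↥H))).map
            (Subgroup.subtype _) := by
        unfold Cfsg.powerClosure
        rw [MonoidHom.map_closure]
        congr 1
        ext y
        constructor
        · rintro ⟨x, hx, rfl⟩
          exact ⟨(⟨x, hx⟩ : ↥(commutator ↥H)) ^ (p ^ 1),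
            ⟨⟨x, hx⟩, Subgroup.mem_top _, rfl⟩, rfl⟩
        · rintro ⟨_, ⟨x, _, rfl⟩, rfl⟩
          exact ⟨x, x.2, rfl⟩
      intro w hw
      rw [h2] at hw
      obtain ⟨w0, hw0, rfl⟩ := hw
      have h3 : w0 ∈ {y : ↥(commutator ↥H) |
          ∃ x ∈ (⊤ : Subgroup ↥(commutator ↥H)), y = x ^ (p ^ 1)} := by
        rw [h1]; exact hw0
      obtain ⟨x, _, rfl⟩ := h3
      exact ⟨x, x.2, by simp⟩
    haveI hWn : (Cfsg.powerClosure p 1 (commutator ↥H)).Normal := by
      unfold Cfsg.powerClosure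
      have hS : Group.conjugatesOfSet {y : ↥H | ∃ x ∈ commutator ↥H, y = x ^ (p ^ 1)}
          = {y : ↥H | ∃ x ∈ commutator ↥H, y = x ^ (p ^ 1)} := by
        apply Set.Subset.antisymm
        · intro x hx
          rw [Group.mem_conjugatesOfSet_iff] at hx
          obtain ⟨y, ⟨d, hd, rfl⟩, hconj⟩ := hx
          obtain ⟨g, rfl⟩ := isConj_iff.1 hconj
          have hn : (commutator ↥H).Normal := inferInstance
          exact ⟨g * d * g⁻¹, hn.conj_mem d hd g, by rw [conj_pow]⟩
        · exact Group.subset_conjugatesOfSet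
      rw [← hS]; exact Subgroup.normalClosure_normal
    have hQ : InC p (p - 1) (↥H ⧸ Cfsg.powerClosure p 1 (commutator ↥H)) :=
      quot_inC p (p - 1) _ hHcl
        (fun d0 hd0 => Subgroup.subset_closure ⟨d0, hd0, by rw [pow_one]⟩)
    have hA := thmA p (le_refl (p - 1)) hQ (QuotientGroup.mk' _ a') (QuotientGroup.mk' _ b')
    have ht : (a' ^ p * b' ^ p)⁻¹ * (a' * b') ^ p ∈ Cfsg.powerClosure p 1 (commutator ↥H) := by
      have h2 : QuotientGroup.mk' (Cfsg.powerClosure p 1 (commutator ↥H))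
          ((a' ^ p * b' ^ p)⁻¹ * (a' * b') ^ p) = 1 := by
        have e1 : QuotientGroup.mk' (Cfsg.powerClosure p 1 (commutator ↥H)) ((a' * b') ^ p)
            = QuotientGroup.mk' (Cfsg.powerClosure p 1 (commutator ↥H)) (a' ^ p * b' ^ p) := by
          rw [map_pow, map_mul, hA, map_mul, map_pow, map_pow]
        rw [map_mul, map_inv, e1]
        exact inv_mul_cancel _
      exact (QuotientGroup.eq_one_iff _).1 h2
    obtain ⟨c, hc, hc2⟩ := hWel _ ht
    refine ⟨c, hc, ?_⟩
    rw [← hc2]; group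

theorem result {G : Type*} [Group G] [Finite G] {p : ℕ} [Fact p.Prime] (hG : IsPGroup p G) (hcl : (⊤ : Subgroup G).lowerCentralSeries (p - 1) = ⊥) : Cfsg.IsRegularPGroup p G := by
  exact aux p _ G rfl hG hcl

end Cfsg.Agent.S4209
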