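import Mathlib
import Cfsg.Statements.S4210
import Cfsg.Agent.Lib.Helper22.Regular

set_option autoImplicit false
open Cfsg

namespace Cfsg.Agent.S4210

open Cfsg.Agent.Lib.Helper22.Regular

theorem result {G : Type*} [Group G] [Finite G] {p : ℕ} [Fact p.Prime] (hG : Cfsg.IsRegularPGroup p G) (a b : G) (k : ℕ) : a ^ p ^ k = b ^ p ^ k ↔ (a * b⁻¹) ^ p ^ k = 1 := by
  constructor
  · intro h
    have h1 : (a⁻¹) ^ p ^ k = (b⁻¹) ^ p ^ k := by rw [inv_pow, inv_pow, h]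
    have h2 := cor2 hG a⁻¹ b⁻¹ k h1
    rwa [inv_inv] at h2
  · intro h
    have h1 := cor4 hG (a * b⁻¹) b k h
    rwa [inv_mul_cancel_right] at h1

end Cfsg.Agent.S4210
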