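import Mathlib
import Cfsg.Statements.S4212
import Cfsg.Agent.Lib.Helper14.ClassSize
import Cfsg.Agent.Lib.Helper21.Frobenius2

set_option autoImplicit false
open Cfsg

namespace Cfsg.Agent.S4212

open Cfsg.Agent.Lib.Helper21.Frobenius2

universe u

theorem dvd_fiber {α β : Type*} [Finite α] [Finite β] (f : α → β) (d : ℕ)
    (h : ∀ b, d ∣ Nat.card {a // f a = b}) : d ∣ Nat.card α := by
  classical
  haveI : Fintype β := Fintype.ofFinite β
  rw [Nat.card_congr (Equiv.sigmaFiberEquiv f).symm, Nat.card_sigma]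
  exact Finset.dvd_sum (fun b _ => h b)

variable {G : Type u} [Group G]

theorem self_mem (c : G) : c ∈ Subgroup.centralizer ({c} : Set G) := by
  rw [Subgroup.mem_centralizer_iff]
  intro h hh
  rw [Set.mem_singleton_iff] at hh
  rw [hh]

theorem pow_mem_cent (x : G) (n : ℕ) (c : G) (h : x ^ n = c) :
    x ∈ Subgroup.centralizer ({c} : Set G) := by
  rw [Subgroup.mem_centralizer_iff]
  intro h' hh
  rw [Set.mem_singleton_iff] at hh
  rw [hh, ← h]
  exact pow_mul_comm' x n

theorem class_fibers [Finite G] (c : G) (n : ℕ) :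
    Nat.card {x : G // IsConj c (x ^ n)} =
      Nat.card {y : G // IsConj c y} * Nat.card {x : G // x ^ n = c} := by
  classical
  haveI : Fintype {y : G // IsConj c y} := Fintype.ofFinite _
  let e : {x : G // IsConj c (x ^ n)} ≃ Σ y : {y : G // IsConj c y}, {x : G // x ^ n = y.1} :=
    { toFun := fun x => ⟨⟨x.1 ^ n, x.2⟩, ⟨x.1, rfl⟩⟩
      invFun := fun s => ⟨s.2.1, by rw [s.2.2]; exact s.1.2⟩
      left_inv := fun x => rfl
      right_inv := by
        rintro ⟨⟨y, hy⟩, ⟨x, hx⟩⟩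
        have hx' : x ^ n = y := hx
        subst hx'
        rfl }
  rw [Nat.card_congr e, Nat.card_sigma]
  have key : ∀ y : {y : G // IsConj c y},
      Nat.card {x : G // x ^ n = y.1} = Nat.card {x : G // x ^ n = c} := by
    rintro ⟨y, hy⟩
    obtain ⟨g, hg⟩ := isConj_iff.1 hy
    have hy' : MulAut.conj g⁻¹ y = c := by
      rw [← hg, MulAut.conj_apply]
      group
    apply Nat.card_congr
    apply Equiv.subtypeEquiv (MulAut.conj g⁻¹).toEquiv
    intro x
    show x ^ n = y ↔ (MulAut.conj g⁻¹ x) ^ n = c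
    rw [← map_pow]
    exact ⟨fun h => by rw [h, hy'], fun h => (MulAut.conj g⁻¹).injective (h.trans hy'.symm)⟩
  simp only [key]
  rw [Finset.sum_const, Finset.card_univ, smul_eq_mul, ← Nat.card_eq_fintype_card]

theorem orbit_stab [Finite G] (c : G) :
    Nat.card {y : G // IsConj c y} * Nat.card (Subgroup.centralizer ({c} : Set G)) =
      Nat.card G := by
  have h1 := Cfsg.Agent.Lib.Helper14.ClassSize.index_centralizer_eq_ncard c
  have h2 : Nat.card {y : G // IsConj c y} = Set.ncard {h : G | IsConj c h} :=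
    Nat.card_coe_set_eq {h : G | IsConj c h}
  rw [h2, ← h1]
  exact Subgroup.index_mul_card _

theorem sol_centralizer [Finite G] (c : G) (n : ℕ) :
    Nat.card {x : G // x ^ n = c} =
      Nat.card {x : Subgroup.centralizer ({c} : Set G) // x ^ n = ⟨c, self_mem c⟩} := by
  apply Nat.card_congr
  exact
    { toFun := fun x => ⟨⟨x.1, pow_mem_cent x.1 n c x.2⟩, Subtype.ext (by
        rw [Subgroup.coe_pow]
        exact x.2)⟩
      invFun := fun z => ⟨z.1.1, (Subgroup.coe_pow _ z.1 n).symm.trans (congrArg Subtype.val z.2)⟩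
      left_inv := fun x => rfl
      right_inv := fun z => rfl }

theorem card_conj_central [Finite G] (c : G) (hc : ∀ g : G, g * c = c * g) :
    Nat.card {y : G // IsConj c y} = 1 := by
  haveI : Unique {y : G // IsConj c y} :=
    { default := ⟨c, IsConj.refl c⟩
      uniq := by
        rintro ⟨y, hy⟩
        obtain ⟨g, hg⟩ := isConj_iff.1 hy
        apply Subtype.ext
        show y = c
        rw [← hg, hc g, mul_inv_cancel_right] }
  exact Nat.card_unique

theorem split_lemma [Finite G] (n₁ n₂ : ℕ) (c : G) (hc : ∀ g : G, g * c = c * g)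
    (hfull : ∀ y : G, Nat.gcd (Nat.card {z : G // IsConj y z} * n₁) (Nat.card G) ∣
      Nat.card {x : G // IsConj y (x ^ n₁)}) :
    Nat.gcd n₁ (Nat.card G) ∣ Nat.card {x : G // x ^ (n₁ * n₂) = c} := by
  apply dvd_fiber (fun x : {x : G // x ^ (n₁ * n₂) = c} => ConjClasses.mk (x.1 ^ n₁))
  intro D
  obtain ⟨y, rfl⟩ := ConjClasses.mk_surjective D
  by_cases hy : y ^ n₂ = c
  · have e : {x : {x : G // x ^ (n₁ * n₂) = c} //
        ConjClasses.mk (x.1 ^ n₁) = ConjClasses.mk y} ≃ {x : G // IsConj y (x ^ n₁)} :=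
      { toFun := fun x => ⟨x.1.1, (ConjClasses.mk_eq_mk_iff_isConj.1 x.2).symm⟩
        invFun := fun x => ⟨⟨x.1, by
          obtain ⟨g, hg⟩ := isConj_iff.1 x.2
          rw [pow_mul, ← hg, conj_pow, hy, hc g, mul_inv_cancel_right]⟩,
          ConjClasses.mk_eq_mk_iff_isConj.2 x.2.symm⟩
        left_inv := fun x => rfl
        right_inv := fun x => rfl }
    rw [Nat.card_congr e]
    exact (Nat.gcd_dvd_gcd_of_dvd_left _ (Dvd.intro_left _ rfl)).trans (hfull y)
  · haveI : IsEmpty {x : {x : G // x ^ (n₁ * n₂) = c} //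
        ConjClasses.mk (x.1 ^ n₁) = ConjClasses.mk y} := by
      constructor
      rintro ⟨⟨x, hx⟩, hx2⟩
      have hx2' : ConjClasses.mk (x ^ n₁) = ConjClasses.mk y := hx2
      apply hy
      obtain ⟨g, hg⟩ := isConj_iff.1 (ConjClasses.mk_eq_mk_iff_isConj.1 hx2')
      rw [← hg, conj_pow, ← pow_mul, hx, hc g, mul_inv_cancel_right]
    have h0 : Nat.card {x : {x : G // x ^ (n₁ * n₂) = c} //
        ConjClasses.mk (x.1 ^ n₁) = ConjClasses.mk y} = 0 := Nat.card_of_isEmpty
    rw [h0]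
    exact dvd_zero _

theorem ord_lemma [Finite G] (p a : ℕ) (hp : p.Prime) (w c : G) (hw : w ^ (p ^ a) = c)
    (hpm : p ∣ orderOf c) : orderOf w = orderOf c * p ^ a := by
  have hpa : p ^ a ≠ 0 := pow_ne_zero a hp.ne_zero
  have h1 : orderOf c = orderOf w / Nat.gcd (orderOf w) (p ^ a) := by
    rw [← hw, orderOf_pow' w hpa]
  obtain ⟨b, hb, hg⟩ := (Nat.dvd_prime_pow hp).1 (Nat.gcd_dvd_right (orderOf w) (p ^ a))
  have h2 : orderOf w = orderOf c * p ^ b := by
    rw [h1, hg]
    exact (Nat.div_mul_cancel (hg ▸ Nat.gcd_dvd_left (orderOf w) (p ^ a))).symm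
  have hba : b = a := by
    by_contra hne
    have hlt : b < a := lt_of_le_of_ne hb hne
    have h3 : p ^ (b + 1) ∣ orderOf w := by
      rw [h2, pow_succ, mul_comm (p ^ b) p]
      exact Nat.mul_dvd_mul hpm (dvd_refl _)
    have h4 : p ^ (b + 1) ∣ Nat.gcd (orderOf w) (p ^ a) := Nat.dvd_gcd h3 (pow_dvd_pow p hlt)
    rw [hg] at h4
    have h5 := (Nat.pow_dvd_pow_iff_le_right hp.one_lt).1 h4
    omega
  rw [h2, hba]

theorem pp_case [Finite G] (p a : ℕ) (hp : p.Prime) (c : G) (hpm : p ∣ orderOf c) :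
    p ^ a ∣ Nat.card {x : G // x ^ (p ^ a) = c} := by
  apply dvd_fiber (fun x : {x : G // x ^ (p ^ a) = c} => Subgroup.zpowers x.1)
  intro L
  by_cases hLne : Nonempty {x : {x : G // x ^ (p ^ a) = c} // Subgroup.zpowers x.1 = L}
  swap
  · rw [not_nonempty_iff] at hLne
    rw [Nat.card_of_isEmpty]
    exact dvd_zero _
  obtain ⟨⟨⟨x₀, hx₀⟩, hL⟩⟩ := hLne
  have hL' : Subgroup.zpowers x₀ = L := hL
  subst hL'
  obtain ⟨m, hm⟩ : ∃ m, m = orderOf c := ⟨_, rfl⟩
  have hm0 : m ≠ 0 := by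
    rw [hm]
    exact (orderOf_pos c).ne'
  have hord : ∀ w : G, w ^ (p ^ a) = c → orderOf w = m * p ^ a := fun w hw => by
    rw [hm]
    exact ord_lemma p a hp w c hw hpm
  have hcm : c ^ m = 1 := by
    rw [hm]
    exact pow_orderOf_eq_one c
  have hZ : Nat.card (Subgroup.zpowers (x₀ ^ m)) = p ^ a := by
    rw [Nat.card_zpowers, orderOf_pow' x₀ hm0, hord x₀ hx₀, Nat.gcd_eq_right (Dvd.intro _ rfl),
      Nat.mul_div_cancel_left _ (Nat.pos_of_ne_zero hm0)]
  have hpow1 : (x₀ ^ m) ^ (p ^ a) = 1 := by rw [← pow_mul, mul_comm, pow_mul, hx₀, hcm]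
  have hwell : ∀ z : G, z ∈ Subgroup.zpowers (x₀ ^ m) →
      (x₀ * z) ^ (p ^ a) = c ∧ Subgroup.zpowers (x₀ * z) = Subgroup.zpowers x₀ := by
    intro z hz
    obtain ⟨t, ht⟩ := Subgroup.mem_zpowers_iff.1 hz
    have hcomm : Commute x₀ z := by
      rw [← ht]
      exact ((Commute.refl x₀).pow_right m).zpow_right t
    have h2 : z ^ (p ^ a) = 1 := by
      rw [← ht, ← zpow_natCast, ← zpow_mul, mul_comm, zpow_mul, zpow_natCast, hpow1, one_zpow]
    have h3 : (x₀ * z) ^ (p ^ a) = c := by rw [hcomm.mul_pow, hx₀, h2, mul_one]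
    refine ⟨h3, ?_⟩
    apply Subgroup.eq_of_le_of_card_ge
    · rw [Subgroup.zpowers_le]
      apply Subgroup.mul_mem _ (Subgroup.mem_zpowers x₀)
      have h4 : Subgroup.zpowers (x₀ ^ m) ≤ Subgroup.zpowers x₀ :=
        Subgroup.zpowers_le.2 (Subgroup.pow_mem _ (Subgroup.mem_zpowers x₀) m)
      exact h4 hz
    · rw [Nat.card_zpowers, Nat.card_zpowers, hord x₀ hx₀, hord _ h3]
  have hcard : Nat.card {x : {x : G // x ^ (p ^ a) = c} //
      Subgroup.zpowers x.1 = Subgroup.zpowers x₀} = Nat.card (Subgroup.zpowers (x₀ ^ m)) := by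
    apply Nat.card_congr
    symm
    refine Equiv.ofBijective (fun z : Subgroup.zpowers (x₀ ^ m) =>
      (⟨⟨x₀ * z.1, (hwell z.1 z.2).1⟩, (hwell z.1 z.2).2⟩ :
        {x : {x : G // x ^ (p ^ a) = c} // Subgroup.zpowers x.1 = Subgroup.zpowers x₀})) ⟨?_, ?_⟩
    · intro z z' h
      have h1 : x₀ * z.1 = x₀ * z'.1 :=
        congrArg (fun q : {x : {x : G // x ^ (p ^ a) = c} //
          Subgroup.zpowers x.1 = Subgroup.zpowers x₀} => q.1.1) h
      exact Subtype.ext (mul_left_cancel h1)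
    · rintro ⟨⟨y, hy⟩, hyL⟩
      have hyL' : Subgroup.zpowers y = Subgroup.zpowers x₀ := hyL
      have hymem : y ∈ Subgroup.zpowers x₀ := by
        rw [← hyL']
        exact Subgroup.mem_zpowers y
      obtain ⟨j, hj⟩ := Subgroup.mem_zpowers_iff.1 hymem
      have h1 : x₀ ^ ((j - 1) * ((p ^ a : ℕ) : ℤ)) = 1 := by
        have e1 : (j - 1) * ((p ^ a : ℕ) : ℤ) = j * ((p ^ a : ℕ) : ℤ) - ((p ^ a : ℕ) : ℤ) := by
          ring
        rw [e1, zpow_sub, zpow_mul, zpow_natCast, zpow_natCast, hj, hy, hx₀, mul_inv_cancel]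
      have h2 : ((m * p ^ a : ℕ) : ℤ) ∣ (j - 1) * ((p ^ a : ℕ) : ℤ) := by
        rw [← hord x₀ hx₀]
        exact orderOf_dvd_iff_zpow_eq_one.2 h1
      have h3 : (m : ℤ) ∣ j - 1 := by
        rw [Nat.cast_mul] at h2
        exact (mul_dvd_mul_iff_right (by exact_mod_cast pow_ne_zero a hp.ne_zero)).1 h2
      obtain ⟨t, ht⟩ := h3
      have hz : x₀⁻¹ * y ∈ Subgroup.zpowers (x₀ ^ m) := by
        rw [Subgroup.mem_zpowers_iff]
        refine ⟨t, ?_⟩
        have e2 : (-1 : ℤ) + j = (m : ℤ) * t := by linarith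
        rw [← hj, ← zpow_neg_one, ← zpow_add, e2, zpow_mul, zpow_natCast]
      refine ⟨⟨x₀⁻¹ * y, hz⟩, ?_⟩
      apply Subtype.ext
      apply Subtype.ext
      show x₀ * (x₀⁻¹ * y) = y
      rw [mul_inv_cancel_left]
  rw [hcard, hZ]

theorem shift_case [Finite G] (n : ℕ) (c : G) (hc : ∀ g : G, g * c = c * g)
    (hcop : Nat.Coprime n (orderOf c)) :
    Nat.gcd n (Nat.card G) ∣ Nat.card {x : G // x ^ n = c} := by
  obtain ⟨u, w, huw⟩ : ∃ u w : ℤ, u * n + w * orderOf c = 1 := Nat.isCoprime_iff_coprime.2 hcop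
  have hd : (c ^ u) ^ n = c := by
    have h1 : u * (n : ℤ) = 1 - (orderOf c : ℤ) * w := by linarith
    rw [← zpow_natCast, ← zpow_mul, h1, zpow_sub, zpow_one, zpow_mul, zpow_natCast,
      pow_orderOf_eq_one, one_zpow, inv_one, mul_one]
  have hcomm : ∀ x : G, Commute x (c ^ u)⁻¹ := fun x =>
    ((show Commute x c from hc x).zpow_right u).inv_right
  have e : {x : G // x ^ n = c} ≃ {x : G // x ^ n = 1} := by
    apply Equiv.subtypeEquiv (Equiv.mulRight (c ^ u)⁻¹)
    intro x
    show x ^ n = c ↔ (x * (c ^ u)⁻¹) ^ n = 1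
    rw [(hcomm x).mul_pow, inv_pow, hd, mul_inv_eq_one]
  rw [Nat.card_congr e]
  exact frob_gcd n

theorem cent [Finite G] (n : ℕ) (c : G) (hc : ∀ g : G, g * c = c * g)
    (IH : ∀ n' : ℕ, n' < n → ∀ y : G,
      Nat.gcd (Nat.card {z : G // IsConj y z} * n') (Nat.card G) ∣
        Nat.card {x : G // IsConj y (x ^ n')}) :
    Nat.gcd n (Nat.card G) ∣ Nat.card {x : G // x ^ n = c} := by
  rcases Nat.eq_zero_or_pos n with rfl | hnpos
  · rw [Nat.gcd_zero_left]
    by_cases hc1 : c = 1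
    · have e : {x : G // x ^ 0 = c} ≃ G :=
        { toFun := fun x => x.1
          invFun := fun x => ⟨x, by rw [pow_zero, hc1]⟩
          left_inv := fun x => rfl
          right_inv := fun x => rfl }
      rw [Nat.card_congr e]
    · haveI : IsEmpty {x : G // x ^ 0 = c} := ⟨fun x => hc1 (by rw [← x.2, pow_zero])⟩
      have h0 : Nat.card {x : G // x ^ 0 = c} = 0 := Nat.card_of_isEmpty
      rw [h0]
      exact dvd_zero _
  by_cases hn1 : n = 1
  · subst hn1
    rw [Nat.gcd_one_left]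
    exact one_dvd _
  obtain ⟨p, hp, hpn⟩ := Nat.exists_prime_and_dvd hn1
  obtain ⟨a, n', hpn', hneq⟩ := Nat.exists_eq_pow_mul_and_not_dvd hnpos.ne' p hp.ne_one
  have ha0 : a ≠ 0 := by
    rintro rfl
    rw [pow_zero, one_mul] at hneq
    exact hpn' (hneq ▸ hpn)
  by_cases hn'1 : n' = 1
  · subst hn'1
    rw [mul_one] at hneq
    subst hneq
    by_cases hpm : p ∣ orderOf c
    · exact (Nat.gcd_dvd_left _ _).trans (pp_case p a hp c hpm)
    · exact shift_case (p ^ a) c hc
        (Nat.Coprime.pow_left a ((Nat.Prime.coprime_iff_not_dvd hp).2 hpm))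
  · have hn'0 : n' ≠ 0 := by
      rintro rfl
      rw [mul_zero] at hneq
      exact hnpos.ne' hneq
    have hlt1 : p ^ a < n := by
      rw [hneq]
      have h1 : 0 < p ^ a := Nat.pos_of_ne_zero (pow_ne_zero a hp.ne_zero)
      have h2 : 2 ≤ n' := by omega
      nlinarith
    have hlt2 : n' < n := by
      rw [hneq]
      have h1 : 2 ≤ p ^ a := (hp.two_le).trans (Nat.le_self_pow ha0 p)
      have h2 : 0 < n' := Nat.pos_of_ne_zero hn'0
      nlinarith
    have hcop : Nat.Coprime (p ^ a) n' :=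
      Nat.Coprime.pow_left a ((Nat.Prime.coprime_iff_not_dvd hp).2 hpn')
    have hd1 : Nat.gcd (p ^ a) (Nat.card G) ∣ Nat.card {x : G // x ^ n = c} := by
      rw [hneq]
      exact split_lemma (p ^ a) n' c hc (IH (p ^ a) hlt1)
    have hd2 : Nat.gcd n' (Nat.card G) ∣ Nat.card {x : G // x ^ n = c} := by
      rw [hneq, mul_comm]
      exact split_lemma n' (p ^ a) c hc (IH n' hlt2)
    have hcop2 : Nat.Coprime (Nat.gcd (p ^ a) (Nat.card G)) (Nat.gcd n' (Nat.card G)) :=
      (hcop.coprime_dvd_left (Nat.gcd_dvd_left _ _)).coprime_dvd_right (Nat.gcd_dvd_left _ _)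
    have hd3 := Nat.Coprime.mul_dvd_of_dvd_of_dvd hcop2 hd1 hd2
    refine Dvd.dvd.trans ?_ hd3
    rw [hneq, Nat.gcd_comm (p ^ a * n'), Nat.gcd_comm (p ^ a), Nat.gcd_comm n']
    exact Nat.gcd_mul_right_dvd_mul_gcd _ _ _

theorem full : ∀ (m : ℕ) (K : Type u) [Group K] [Finite K], Nat.card K = m → ∀ (n : ℕ) (c : K),
    Nat.gcd (Nat.card {y : K // IsConj c y} * n) (Nat.card K) ∣
      Nat.card {x : K // IsConj c (x ^ n)} := by
  intro m
  induction m using Nat.strong_induction_on with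
  | _ m ih1 =>
  intro K _ _ hm n
  induction n using Nat.strong_induction_on with
  | _ n ih2 =>
  intro c
  rw [class_fibers c n]
  by_cases hc : ∀ g : K, g * c = c * g
  · rw [card_conj_central c hc, one_mul, one_mul]
    exact cent n c hc ih2
  · obtain ⟨H, hH⟩ : ∃ H : Subgroup K, H = Subgroup.centralizer ({c} : Set K) := ⟨_, rfl⟩
    have hcH : c ∈ H := by
      rw [hH]
      exact self_mem c
    have hlt : Nat.card H < m := by
      rw [← hm]
      have hne : H ≠ ⊤ := by
        intro htop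
        apply hc
        intro g
        have hg : g ∈ H := by
          rw [htop]
          trivial
        rw [hH, Subgroup.mem_centralizer_iff] at hg
        exact (hg c (Set.mem_singleton c)).symm
      have h1 := Subgroup.card_mul_index H
      have h2 : H.index ≠ 1 := fun h => hne (Subgroup.index_eq_one.1 h)
      have h3 : H.index ≠ 0 := Subgroup.index_ne_zero_of_finite
      have h4 : 0 < Nat.card H := Nat.card_pos
      have h5 : 2 ≤ H.index := by omega
      nlinarith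
    have hcentral : ∀ g : H, g * (⟨c, hcH⟩ : H) = ⟨c, hcH⟩ * g := by
      intro g
      apply Subtype.ext
      have hg : (g : K) ∈ Subgroup.centralizer ({c} : Set K) := (le_of_eq hH) g.2
      rw [Subgroup.mem_centralizer_iff] at hg
      exact (hg c (Set.mem_singleton c)).symm
    have h1 := ih1 (Nat.card H) hlt H rfl n ⟨c, hcH⟩
    rw [class_fibers (⟨c, hcH⟩ : H) n, card_conj_central _ hcentral, one_mul, one_mul] at h1
    have h2 : Nat.card {x : K // x ^ n = c} = Nat.card {x : H // x ^ n = ⟨c, hcH⟩} := by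
      subst hH
      exact sol_centralizer c n
    have h3 : Nat.card {y : K // IsConj c y} * Nat.card H = Nat.card K := by
      subst hH
      exact orbit_stab c
    rw [h2, ← h3, Nat.gcd_mul_left]
    exact Nat.mul_dvd_mul_left _ h1

theorem result {G : Type*} [Group G] [Finite G] (c : G) (n : ℕ) : Nat.gcd (Nat.card {y : G // IsConj c y} * n) (Nat.card G) ∣ Nat.card {x : G // IsConj c (x ^ n)} := by
  exact full _ G rfl n c

end Cfsg.Agent.S4212
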