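import Mathlib
import Cfsg.Statements.S4213
import Cfsg.Agent.Lib.Helper21.Frobenius2
import Cfsg.Agent.Lib.Lead.Hall

set_option autoImplicit false
open Cfsg

namespace Cfsg.Agent.S4213

open Cfsg.Agent.Lib.Helper21.Frobenius2 Cfsg.Agent.Lib.Lead.Hall

universe u

theorem frob_lb {Q : Type u} [Group Q] [Finite Q] (e : ℕ) (he : e ∣ Nat.card Q) :
    e ≤ Nat.card {y : Q // y ^ e = 1} := by
  have h1 := frob (G := Q) e he
  haveI : Nonempty {y : Q // y ^ e = 1} := ⟨⟨1, one_pow e⟩⟩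
  exact Nat.le_of_dvd Nat.card_pos h1

theorem inj_card {G : Type u} [Group G] [Finite G] (K : Subgroup G) [K.Normal] (e : ℕ) :
    Nat.card K * Nat.card {y : G ⧸ K // y ^ e = 1} ≤
      Nat.card {x : G // (QuotientGroup.mk x : G ⧸ K) ^ e = 1} := by
  rw [← Nat.card_prod]
  have key : ∀ (y : G ⧸ K) (k : G), k ∈ K →
      (QuotientGroup.mk ((Quotient.out y : G) * k) : G ⧸ K) = y := by
    intro y k hk
    rw [QuotientGroup.mk_mul, (QuotientGroup.eq_one_iff k).2 hk, mul_one]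
    exact QuotientGroup.out_eq' y
  let f : K × {y : G ⧸ K // y ^ e = 1} → {x : G // (QuotientGroup.mk x : G ⧸ K) ^ e = 1} :=
    fun q => ⟨(Quotient.out q.2.1 : G) * q.1.1, by
      rw [key q.2.1 q.1.1 q.1.2]
      exact q.2.2⟩
  apply Nat.card_le_card_of_injective f
  intro q q' h
  have h2 : (Quotient.out q.2.1 : G) * q.1.1 = (Quotient.out q'.2.1 : G) * q'.1.1 :=
    congrArg Subtype.val h
  have h1 : q.2.1 = q'.2.1 := by
    rw [← key q.2.1 q.1.1 q.1.2, ← key q'.2.1 q'.1.1 q'.1.2, h2]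
  rw [h1] at h2
  have h3 : q.1.1 = q'.1.1 := mul_left_cancel h2
  exact Prod.ext (Subtype.ext h3) (Subtype.ext h1)

theorem pow_lemma {G : Type u} [Group G] (K : Subgroup G) [K.Normal] (p e n : ℕ)
    (hK : ∀ k ∈ K, k ^ p = 1) (he : e * p ∣ n) (x : G)
    (hx : (QuotientGroup.mk x : G ⧸ K) ^ e = 1) : x ^ n = 1 := by
  have h1 : x ^ e ∈ K := by
    rw [← QuotientGroup.eq_one_iff, QuotientGroup.mk_pow]
    exact hx
  obtain ⟨t, rfl⟩ := he
  rw [pow_mul, pow_mul, hK _ h1, one_pow]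

theorem aux : ∀ (m : ℕ) (G : Type u) [Group G] [Finite G] [Group.IsSolvable G], Nat.card G = m →
    ∀ n : ℕ, n ∣ Nat.card G → Nat.card {x : G // x ^ n = 1} = n →
      ∃ H : Subgroup G, H.Normal ∧ (H : Set G) = {x : G | x ^ n = 1} := by
  intro m
  induction m using Nat.strong_induction_on with
  | _ m ih =>
  intro G _ _ _ hm n hn hcount
  by_cases htriv : Subsingleton G
  · refine ⟨⊤, inferInstance, ?_⟩
    ext x
    simp only [Subgroup.coe_top, Set.mem_univ, Set.mem_setOf_eq, true_iff]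
    rw [Subsingleton.elim x 1, one_pow]
  have hnt : Nontrivial G := not_subsingleton_iff_nontrivial.1 htriv
  have hn0 : n ≠ 0 := by
    rintro rfl
    rw [zero_dvd_iff] at hn
    exact Nat.card_pos.ne' hn
  obtain ⟨K, -, hKmin⟩ := Finite.exists_le_minimal
    (p := fun L : Subgroup G => L.Normal ∧ L ≠ ⊥) (a := ⊤) ⟨inferInstance, top_ne_bot⟩
  haveI hKn : K.Normal := hKmin.prop.1
  have hK0 : K ≠ ⊥ := hKmin.prop.2
  obtain ⟨-, p, hp, hexp⟩ := Cfsg.Agent.S0043.result K hK0 (by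
    intro L hL hLK
    by_cases hL0 : L = ⊥
    · exact Or.inl hL0
    · exact Or.inr (le_antisymm hLK (hKmin.le_of_le ⟨hL, hL0⟩ hLK)))
  haveI : Fact p.Prime := ⟨hp⟩
  have hKp : IsPGroup p K := by
    intro g
    refine ⟨1, ?_⟩
    apply Subtype.ext
    simpa using hexp g g.2
  obtain ⟨i, hi⟩ := hKp.exists_card_eq
  have hi0 : i ≠ 0 := by
    rintro rfl
    rw [pow_zero, Subgroup.card_eq_one] at hi
    exact hK0 hi
  have hppos : 0 < p ^ i := Nat.pos_of_ne_zero (pow_ne_zero i hp.ne_zero)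
  have hGK : Nat.card G = Nat.card (G ⧸ K) * p ^ i := by
    rw [← hi]
    exact Subgroup.card_eq_card_quotient_mul_card_subgroup K
  have hQlt : Nat.card (G ⧸ K) < m := by
    rw [← hm, hGK]
    have h1 : 2 ≤ p ^ i := (hp.two_le).trans (Nat.le_self_pow hi0 p)
    have h2 : 0 < Nat.card (G ⧸ K) := Nat.card_pos
    nlinarith
  have bound : ∀ e : ℕ, e * p ∣ n →
      p ^ i * Nat.card {y : G ⧸ K // y ^ e = 1} ≤
        Nat.card {x : G // (QuotientGroup.mk x : G ⧸ K) ^ e = 1} ∧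
      Nat.card {x : G // (QuotientGroup.mk x : G ⧸ K) ^ e = 1} ≤ n := by
    intro e he
    refine ⟨by rw [← hi]; exact inj_card K e, ?_⟩
    refine le_of_le_of_eq ?_ hcount
    apply Nat.card_le_card_of_injective
      (fun x : {x : G // (QuotientGroup.mk x : G ⧸ K) ^ e = 1} =>
        (⟨x.1, pow_lemma K p e n hexp he x.1 x.2⟩ : {x : G // x ^ n = 1}))
    intro x x' h
    have h' : x.1 = x'.1 := congrArg (fun z : {x : G // x ^ n = 1} => z.1) h
    exact Subtype.ext h'
  by_cases hpi : p ^ i ∣ n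
  · obtain ⟨n', hn'⟩ := hpi
    have he : n' * p ∣ n := by
      rw [hn']
      obtain ⟨i', rfl⟩ := Nat.exists_eq_succ_of_ne_zero hi0
      exact ⟨p ^ i', by rw [pow_succ]; ring⟩
    have hn'Q : n' ∣ Nat.card (G ⧸ K) := by
      rw [hGK, hn', mul_comm (p ^ i) n'] at hn
      exact Nat.dvd_of_mul_dvd_mul_right hppos hn
    obtain ⟨hb1, hb2⟩ := bound n' he
    have hlb := frob_lb (Q := G ⧸ K) n' hn'Q
    have hcountQ : Nat.card {y : G ⧸ K // y ^ n' = 1} = n' := by
      have h1 : p ^ i * Nat.card {y : G ⧸ K // y ^ n' = 1} ≤ p ^ i * n' := by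
        rw [← hn']
        exact hb1.trans hb2
      exact le_antisymm (Nat.le_of_mul_le_mul_left h1 hppos) hlb
    obtain ⟨Hb, hHbn, hHb⟩ := ih (Nat.card (G ⧸ K)) hQlt (G ⧸ K) rfl n' hn'Q hcountQ
    refine ⟨Hb.comap (QuotientGroup.mk' K), hHbn.comap _, ?_⟩
    have hset : ((Hb.comap (QuotientGroup.mk' K) : Subgroup G) : Set G) =
        {x : G | (QuotientGroup.mk x : G ⧸ K) ^ n' = 1} := by
      ext x
      constructor
      · intro hx
        have h1 : (QuotientGroup.mk' K) x ∈ (Hb : Set (G ⧸ K)) := hx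
        rw [hHb] at h1
        exact h1
      · intro hx
        have h1 : (QuotientGroup.mk' K) x ∈ (Hb : Set (G ⧸ K)) := by
          rw [hHb]
          exact hx
        exact h1
    rw [hset]
    refine Set.eq_of_subset_of_ncard_le ?_ ?_ (Set.toFinite _)
    · intro x hx
      exact pow_lemma K p n' n hexp he x hx
    · rw [← Nat.card_coe_set_eq, ← Nat.card_coe_set_eq]
      have h3 : Nat.card {x : G // x ^ n = 1} ≤
          Nat.card {x : G // (QuotientGroup.mk x : G ⧸ K) ^ n' = 1} := by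
        rw [hcount]
        calc n = p ^ i * n' := hn'
          _ = p ^ i * Nat.card {y : G ⧸ K // y ^ n' = 1} := by rw [hcountQ]
          _ ≤ _ := hb1
      exact h3
  by_cases hpn : p ∣ n
  · exfalso
    obtain ⟨j, n₁, hpn₁, hnj⟩ := Nat.exists_eq_pow_mul_and_not_dvd hn0 p hp.ne_one
    have hj0 : j ≠ 0 := by
      rintro rfl
      rw [pow_zero, one_mul] at hnj
      exact hpn₁ (hnj ▸ hpn)
    have hji : j < i := by
      by_contra hcon
      push_neg at hcon
      exact hpi (hnj ▸ (pow_dvd_pow p hcon).trans (dvd_mul_right _ _))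
    have he : n₁ * p ∣ n := by
      rw [hnj]
      obtain ⟨j', rfl⟩ := Nat.exists_eq_succ_of_ne_zero hj0
      exact ⟨p ^ j', by rw [pow_succ]; ring⟩
    have hn₁Q : n₁ ∣ Nat.card (G ⧸ K) := by
      have h1 : n₁ ∣ Nat.card (G ⧸ K) * p ^ i := by
        rw [← hGK]
        exact (Dvd.intro_left _ hnj.symm).trans hn
      exact (Nat.Coprime.pow_right i
        ((Nat.Prime.coprime_iff_not_dvd hp).2 hpn₁).symm).dvd_of_dvd_mul_right h1
    obtain ⟨hb1, hb2⟩ := bound n₁ he
    have hlb := frob_lb (Q := G ⧸ K) n₁ hn₁Q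
    have hn₁0 : 0 < n₁ := Nat.pos_of_ne_zero (by
      rintro rfl
      rw [mul_zero] at hnj
      exact hn0 hnj)
    have h1 : p ^ i * n₁ ≤ p ^ j * n₁ := by
      calc p ^ i * n₁ ≤ p ^ i * Nat.card {y : G ⧸ K // y ^ n₁ = 1} := Nat.mul_le_mul_left _ hlb
        _ ≤ n := hb1.trans hb2
        _ = p ^ j * n₁ := hnj
    have h2 : p ^ i ≤ p ^ j := Nat.le_of_mul_le_mul_right h1 hn₁0
    have h3 : i ≤ j := (Nat.pow_le_pow_iff_right hp.one_lt).1 h2
    omega
  · have hcop : Nat.Coprime (p ^ i) n :=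
      Nat.Coprime.pow_left i ((Nat.Prime.coprime_iff_not_dvd hp).2 hpn)
    have hnQ : n ∣ Nat.card (G ⧸ K) := by
      rw [hGK] at hn
      exact hcop.symm.dvd_of_dvd_mul_right hn
    have hlb := frob_lb (Q := G ⧸ K) n hnQ
    obtain ⟨u, w, huw⟩ : ∃ u w : ℤ, u * p + w * n = 1 :=
      Nat.isCoprime_iff_coprime.2 ((Nat.Prime.coprime_iff_not_dvd hp).2 hpn)
    have keyB : ∀ y : {y : G ⧸ K // y ^ n = 1},
        ((Quotient.out y.1 : G) ^ (u * (p : ℤ))) ^ n = 1 ∧
        (QuotientGroup.mk ((Quotient.out y.1 : G) ^ (u * (p : ℤ))) : G ⧸ K) = y.1 := by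
      intro y
      have hx : (QuotientGroup.mk (Quotient.out y.1 : G) : G ⧸ K) = y.1 := QuotientGroup.out_eq' y.1
      have h1 : (Quotient.out y.1 : G) ^ n ∈ K := by
        rw [← QuotientGroup.eq_one_iff, QuotientGroup.mk_pow, hx]
        exact y.2
      have h2 : ((Quotient.out y.1 : G) ^ n) ^ p = 1 := hexp _ h1
      constructor
      · have h3 : u * (p : ℤ) * (n : ℤ) = ((n * p : ℕ) : ℤ) * u := by push_cast; ring
        rw [← zpow_natCast, ← zpow_mul, h3, zpow_mul, zpow_natCast, pow_mul, h2, one_zpow]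
      · rw [QuotientGroup.mk_zpow, hx]
        have h3 : u * (p : ℤ) = 1 - (n : ℤ) * w := by linarith
        rw [h3, zpow_sub, zpow_one, zpow_mul, zpow_natCast, y.2, one_zpow, inv_one, mul_one]
    have hub : Nat.card {y : G ⧸ K // y ^ n = 1} ≤ n := by
      refine le_of_le_of_eq ?_ hcount
      apply Nat.card_le_card_of_injective (fun y : {y : G ⧸ K // y ^ n = 1} =>
        (⟨(Quotient.out y.1 : G) ^ (u * (p : ℤ)), (keyB y).1⟩ : {x : G // x ^ n = 1}))
      intro y y' h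
      have h1 : (Quotient.out y.1 : G) ^ (u * (p : ℤ)) = (Quotient.out y'.1 : G) ^ (u * (p : ℤ)) :=
        congrArg Subtype.val h
      apply Subtype.ext
      rw [← (keyB y).2, ← (keyB y').2, h1]
    have hcountQ : Nat.card {y : G ⧸ K // y ^ n = 1} = n := le_antisymm hub hlb
    obtain ⟨Hb, hHbn, hHb⟩ := ih (Nat.card (G ⧸ K)) hQlt (G ⧸ K) rfl n hnQ hcountQ
    have hHbcard : Nat.card Hb = n := by
      have h1 : Nat.card (Hb : Set (G ⧸ K)) = Nat.card {y : G ⧸ K // y ^ n = 1} := by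
        rw [hHb]
        rfl
      exact (show Nat.card Hb = Nat.card (Hb : Set (G ⧸ K)) from rfl).trans (h1.trans hcountQ)
    have hL : Nat.card (Hb.comap (QuotientGroup.mk' K)) = Nat.card K * n := by
      rw [card_comap_mk, hHbcard]
    obtain ⟨M, -, hM⟩ := exists_compl_in K (Hb.comap (QuotientGroup.mk' K)) (le_comap_mk K Hb) n hL
      (by rw [hi]; exact hcop)
    have hMset : (M : Set G) = {x : G | x ^ n = 1} := by
      refine Set.eq_of_subset_of_ncard_le ?_ ?_ (Set.toFinite _)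
      · intro x hx
        have h1 : (⟨x, hx⟩ : M) ^ Nat.card M = 1 := pow_card_eq_one'
        rw [hM] at h1
        have h2 := congrArg Subtype.val h1
        simpa using h2
      · rw [← Nat.card_coe_set_eq, ← Nat.card_coe_set_eq]
        exact le_of_eq (hcount.trans hM.symm)
    refine ⟨M, ⟨?_⟩, hMset⟩
    intro x hx g
    have h1 : x ∈ (M : Set G) := hx
    rw [hMset] at h1
    have h2 : g * x * g⁻¹ ∈ (M : Set G) := by
      rw [hMset]
      show (g * x * g⁻¹) ^ n = 1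
      rw [conj_pow, (h1 : x ^ n = 1), mul_one, mul_inv_cancel]
    exact h2

theorem result {G : Type*} [Group G] [Finite G] [Group.IsSolvable G] (n : ℕ) (hn : n ∣ Nat.card G) (hcount : Nat.card {x : G // x ^ n = 1} = n) : ∃ H : Subgroup G, H.Normal ∧ (H : Set G) = {x : G | x ^ n = 1} := by
  exact aux _ G rfl n hn hcount

end Cfsg.Agent.S4213
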