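import Mathlib
import Cfsg.Statements.S4214
import Cfsg.Agent.Lib.Lead.Hall
import Cfsg.Agent.Lib.Helper10.Coprime

set_option autoImplicit false
open Cfsg
open Pointwise

namespace Cfsg.Agent.S4214

open Cfsg.Agent.Lib.Helper10.SZ Cfsg.Agent.Lib.Helper10.Coprime

universe u

def IsChief (G : Type u) [Group G] (x : ℕ) : Prop :=
  ∃ K L : Subgroup G, K.Normal ∧ L.Normal ∧ K < L ∧
    (∀ M : Subgroup G, M.Normal → K ≤ M → M ≤ L → M = K ∨ M = L) ∧ x ∣ K.relIndex L

def PP (x : ℕ) : Prop := ∃ q e : ℕ, q.Prime ∧ x = q ^ e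

def ModOK (m x : ℕ) : Prop := ∃ q : ℕ, q.Prime ∧ q ∣ m ∧ x ≡ 1 [MOD q]

def Concl (G : Type u) [Group G] (m n N : ℕ) : Prop :=
  ∃ l : List ℕ, N = l.prod ∧ N ∣ n ∧ ∀ x ∈ l, PP x ∧ IsChief G x ∧ ModOK m x

theorem isChief_of_quot {G : Type u} [Group G] (N : Subgroup G) [N.Normal] (x : ℕ)
    (h : IsChief (G ⧸ N) x) : IsChief G x := by
  obtain ⟨K, L, hK, hL, hKL, hmin, hx⟩ := h
  have hsurj := QuotientGroup.mk'_surjective N
  refine ⟨K.comap (QuotientGroup.mk' N), L.comap (QuotientGroup.mk' N), hK.comap _,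
    hL.comap _, ?_, ?_, ?_⟩
  · refine lt_of_le_of_ne (Subgroup.comap_mono hKL.le) ?_
    intro heq
    have := congrArg (Subgroup.map (QuotientGroup.mk' N)) heq
    rw [Subgroup.map_comap_eq_self_of_surjective hsurj,
      Subgroup.map_comap_eq_self_of_surjective hsurj] at this
    exact hKL.ne this
  · intro M hM hKM hML
    have hker : (QuotientGroup.mk' N).ker ≤ M := by
      intro y hy
      apply hKM
      rw [Subgroup.mem_comap, MonoidHom.mem_ker.mp hy]
      exact one_mem _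
    have hM' : (M.map (QuotientGroup.mk' N)).comap (QuotientGroup.mk' N) = M := by
      rw [Subgroup.comap_map_eq, sup_eq_left.mpr hker]
    have h1 : K ≤ M.map (QuotientGroup.mk' N) := by
      rw [← Subgroup.map_comap_eq_self_of_surjective hsurj K]
      exact Subgroup.map_mono hKM
    have h2 : M.map (QuotientGroup.mk' N) ≤ L := by
      rw [← Subgroup.map_comap_eq_self_of_surjective hsurj L]
      exact Subgroup.map_mono hML
    rcases hmin _ (hM.map _ hsurj) h1 h2 with h3 | h3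
    · left; rw [← hM', h3]
    · right; rw [← hM', h3]
  · rw [Subgroup.relIndex_comap, Subgroup.map_comap_eq_self_of_surjective hsurj]
    exact hx

theorem concl_of_quot {G : Type u} [Group G] (N : Subgroup G) [N.Normal] (m m' n n' c : ℕ)
    (hm : m' ∣ m) (hn : n' ∣ n) (h : Concl (G ⧸ N) m' n' c) : Concl G m n c := by
  obtain ⟨l, hl, hd, hx⟩ := h
  refine ⟨l, hl, hd.trans hn, fun x hxl => ?_⟩
  obtain ⟨h1, h2, q, hq, hqm, hmod⟩ := hx x hxl
  exact ⟨h1, isChief_of_quot N x h2, q, hq, hqm.trans hm, hmod⟩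

theorem concl_mul {G : Type u} [Group G] (m n₁ n₂ n a b : ℕ) (hn : n₁ * n₂ = n)
    (h1 : Concl G m n₁ a) (h2 : Concl G m n₂ b) : Concl G m n (a * b) := by
  obtain ⟨l₁, hl₁, hd₁, hx₁⟩ := h1
  obtain ⟨l₂, hl₂, hd₂, hx₂⟩ := h2
  refine ⟨l₁ ++ l₂, ?_, ?_, ?_⟩
  · rw [List.prod_append, hl₁, hl₂]
  · rw [← hn]; exact Nat.mul_dvd_mul hd₁ hd₂
  · intro x hx
    rcases List.mem_append.mp hx with h | h
    · exact hx₁ x h
    · exact hx₂ x h

theorem le_of_card_dvd {G : Type u} [Group G] [Finite G] (m n : ℕ) (hG : Nat.card G = m * n)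
    (hmn : m.Coprime n) (N : Subgroup G) [N.Normal] (hN : Nat.card N ∣ m) (H : Subgroup G)
    (hH : Nat.card H = m) : N ≤ H := by
  have h1 : Nat.card (H ⊔ N : Subgroup G) ∣ m * m := by
    have := card_sup_dvd' H N
    rw [hH] at this
    exact this.trans (Nat.mul_dvd_mul_left m hN)
  have h2 : Nat.card (H ⊔ N : Subgroup G) ∣ m * n := by
    rw [← hG]; exact Subgroup.card_subgroup_dvd_card _
  have h3 : Nat.card (H ⊔ N : Subgroup G) ∣ m := by
    have := Nat.dvd_gcd h1 h2
    rwa [Nat.gcd_mul_left, Nat.Coprime.gcd_eq_one hmn, mul_one] at this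
  have hm : 0 < m := by
    rw [← hH]; exact Nat.card_pos
  have h4 : H = H ⊔ N :=
    Subgroup.eq_of_le_of_card_ge le_sup_left (by rw [hH]; exact Nat.le_of_dvd hm h3)
  rw [h4]; exact le_sup_right

theorem card_caseA {G : Type u} [Group G] [Finite G] (m n : ℕ) (hG : Nat.card G = m * n)
    (hmn : m.Coprime n) (N : Subgroup G) [N.Normal] (hN : Nat.card N ∣ m) :
    Nat.card {H : Subgroup G // Nat.card H = m} =
      Nat.card {H : Subgroup (G ⧸ N) // Nat.card H = m / Nat.card N} := by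
  have hsurj := QuotientGroup.mk'_surjective N
  have hNpos : 0 < Nat.card N := Nat.card_pos
  refine Nat.card_congr ⟨fun H => ⟨H.1.map (QuotientGroup.mk' N), ?_⟩,
    fun K => ⟨K.1.comap (QuotientGroup.mk' N), ?_⟩, ?_, ?_⟩
  · have hle := le_of_card_dvd m n hG hmn N hN H.1 H.2
    have h1 := Cfsg.Agent.Lib.Lead.Hall.card_comap_mk N (H.1.map (QuotientGroup.mk' N))
    rw [Subgroup.comap_map_eq, QuotientGroup.ker_mk', sup_eq_left.mpr hle, H.2] at h1
    exact (Nat.div_eq_of_eq_mul_right hNpos h1).symm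
  · have h1 := Cfsg.Agent.Lib.Lead.Hall.card_comap_mk N K.1
    rw [h1, K.2, Nat.mul_div_cancel' hN]
  · intro H
    apply Subtype.ext
    have hle := le_of_card_dvd m n hG hmn N hN H.1 H.2
    show (H.1.map (QuotientGroup.mk' N)).comap (QuotientGroup.mk' N) = H.1
    rw [Subgroup.comap_map_eq, QuotientGroup.ker_mk', sup_eq_left.mpr hle]
  · intro K
    apply Subtype.ext
    exact Subgroup.map_comap_eq_self_of_surjective hsurj K.1

theorem card_map_mk_of_coprime {G : Type u} [Group G] [Finite G] (M : Subgroup G) [M.Normal]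
    (H : Subgroup G) (h : (Nat.card M).Coprime (Nat.card H)) :
    Nat.card (H.map (QuotientGroup.mk' M)) = Nat.card H := by
  have h1 := Cfsg.Agent.Lib.Lead.Hall.card_comap_mk M (H.map (QuotientGroup.mk' M))
  rw [Subgroup.comap_map_eq, QuotientGroup.ker_mk',
    Cfsg.Agent.Lib.Lead.Hall.card_sup_of_coprime H M h.symm] at h1
  have hpos : 0 < Nat.card M := Nat.card_pos
  apply Nat.eq_of_mul_eq_mul_left hpos
  rw [← h1, mul_comm]

theorem map_eq_iff {G : Type u} [Group G] [Finite G] (M : Subgroup G) [M.Normal]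
    (H₀ H : Subgroup G) (hcop : (Nat.card M).Coprime (Nat.card H₀))
    (hcard : Nat.card H = Nat.card H₀) :
    H.map (QuotientGroup.mk' M) = H₀.map (QuotientGroup.mk' M) ↔ H ≤ M ⊔ H₀ := by
  constructor
  · intro h
    have h1 : H ≤ (H.map (QuotientGroup.mk' M)).comap (QuotientGroup.mk' M) :=
      Subgroup.le_comap_map _ _
    rw [h, Subgroup.comap_map_eq, QuotientGroup.ker_mk', sup_comm] at h1
    exact h1
  · intro h
    apply Subgroup.eq_of_le_of_card_ge
    · have h1 := Subgroup.map_mono (f := QuotientGroup.mk' M) h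
      rw [Subgroup.map_sup] at h1
      have h2 : M.map (QuotientGroup.mk' M) = ⊥ := by
        rw [Subgroup.map_eq_bot_iff, QuotientGroup.ker_mk']
      rwa [h2, bot_sup_eq] at h1
    · rw [card_map_mk_of_coprime M H₀ hcop, card_map_mk_of_coprime M H (hcard ▸ hcop), hcard]

theorem card_caseB {G : Type u} [Group G] [Finite G] [Group.IsSolvable G] (m n : ℕ)
    (hG : Nat.card G = m * n) (hmn : m.Coprime n) (M : Subgroup G) [M.Normal]
    (hMn : Nat.card M ∣ n) (hMm : (Nat.card M).Coprime m) (H₀ : Subgroup G)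
    (hH₀ : Nat.card H₀ = m) :
    Nat.card {H : Subgroup G // Nat.card H = m} =
      Nat.card {H : Subgroup (G ⧸ M) // Nat.card H = m} *
        Nat.card {H : Subgroup G // Nat.card H = m ∧ H ≤ M ⊔ H₀} := by
  classical
  have hcm : ∀ H : Subgroup G, Nat.card H = m → Nat.card (H.map (QuotientGroup.mk' M)) = m :=
    fun H hH => by
      rw [card_map_mk_of_coprime M H (by rw [hH]; exact hMm)]; exact hH
  let φ : {H : Subgroup G // Nat.card H = m} → {H : Subgroup (G ⧸ M) // Nat.card H = m} :=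
    fun H => ⟨H.1.map (QuotientGroup.mk' M), hcm H.1 H.2⟩
  have hpos : 0 < Nat.card M := Nat.card_pos
  have hGq : Nat.card (G ⧸ M) = m * (n / Nat.card M) := by
    have h1 := Subgroup.card_eq_card_quotient_mul_card_subgroup M
    rw [hG] at h1
    obtain ⟨t, ht⟩ := hMn
    rw [ht, Nat.mul_div_cancel_left _ hpos]
    rw [ht] at h1
    apply Nat.eq_of_mul_eq_mul_right hpos
    rw [← h1]; ring
  have hcq : m.Coprime (n / Nat.card M) :=
    Nat.Coprime.coprime_dvd_right (Nat.div_dvd_of_dvd hMn) hmn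
  have hcop0 : (Nat.card M).Coprime (Nat.card H₀) := by rw [hH₀]; exact hMm
  have hfib : ∀ b : {H : Subgroup (G ⧸ M) // Nat.card H = m},
      Nat.card {H : {H : Subgroup G // Nat.card H = m} // φ H = b} =
        Nat.card {H : Subgroup G // Nat.card H = m ∧ H ≤ M ⊔ H₀} := by
    intro b
    obtain ⟨gb, hgb⟩ := Cfsg.Agent.Lib.Lead.Hall.hall_conj m (n / Nat.card M) hGq hcq
      (H₀.map (QuotientGroup.mk' M)) b.1 (hcm H₀ hH₀) b.2
    obtain ⟨g, rfl⟩ := QuotientGroup.mk'_surjective M gb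
    refine Nat.card_congr ⟨fun H => ⟨(MulAut.conj g)⁻¹ • H.1.1, ?_, ?_⟩,
      fun K => ⟨⟨MulAut.conj g • K.1, ?_⟩, ?_⟩, ?_, ?_⟩
    · rw [← map_inv, card_conj_smul]; exact H.1.2
    · have h1 : (H.1.1).map (QuotientGroup.mk' M) = b.1 := congrArg Subtype.val H.2
      have h2 : ((MulAut.conj g)⁻¹ • H.1.1).map (QuotientGroup.mk' M) =
          H₀.map (QuotientGroup.mk' M) := by
        rw [← map_inv, map_conj_smul, h1, ← hgb, map_inv, map_inv, inv_smul_smul]
      exact (map_eq_iff M H₀ _ hcop0 (by rw [← map_inv, card_conj_smul, H.1.2, hH₀])).mp h2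
    · rw [card_conj_smul]; exact K.2.1
    · apply Subtype.ext
      show (MulAut.conj g • K.1).map (QuotientGroup.mk' M) = b.1
      rw [map_conj_smul, (map_eq_iff M H₀ K.1 hcop0 (by rw [K.2.1, hH₀])).mpr K.2.2]
      exact hgb
    · intro H; apply Subtype.ext; apply Subtype.ext; exact smul_inv_smul _ _
    · intro K; apply Subtype.ext; exact inv_smul_smul _ _
  have : Fintype {H : Subgroup (G ⧸ M) // Nat.card H = m} := Fintype.ofFinite _
  rw [Nat.card_congr (Equiv.sigmaFiberEquiv φ).symm, Nat.card_sigma,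
    Finset.sum_congr rfl (fun b _ => hfib b), Finset.sum_const, Finset.card_univ, smul_eq_mul,
    ← Nat.card_eq_fintype_card]

theorem card_sub_eq {G : Type u} [Group G] [Finite G] (m : ℕ) (X : Subgroup G) :
    Nat.card {K : Subgroup X // Nat.card K = m} =
      Nat.card {H : Subgroup G // Nat.card H = m ∧ H ≤ X} := by
  refine Nat.card_congr ⟨fun K => ⟨K.1.map X.subtype, ?_, ?_⟩,
    fun H => ⟨H.1.subgroupOf X, ?_⟩, ?_, ?_⟩
  · rw [Subgroup.card_map_of_injective X.subtype_injective]; exact K.2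
  · exact Subgroup.map_subtype_le K.1
  · rw [Nat.card_congr (Subgroup.subgroupOfEquivOfLe H.2.2).toEquiv]; exact H.2.1
  · intro K; apply Subtype.ext
    exact Subgroup.comap_map_eq_self_of_injective X.subtype_injective K.1
  · intro H; apply Subtype.ext; exact Subgroup.map_subgroupOf_eq_of_le H.2.2

theorem card_free {G : Type u} [Group G] [Finite G] [Group.IsSolvable G] (m : ℕ)
    (M : Subgroup G) [M.Normal] (hMm : (Nat.card M).Coprime m) (H₀ : Subgroup G)
    (hH₀ : Nat.card H₀ = m) (hfree : ∀ a ∈ M, MulAut.conj a • H₀ = H₀ → a = 1) :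
    Nat.card {H : Subgroup G // Nat.card H = m ∧ H ≤ M ⊔ H₀} = Nat.card M := by
  symm
  have hle : ∀ a ∈ M, MulAut.conj a • H₀ ≤ M ⊔ H₀ := by
    intro a ha x hx
    rw [mem_conj_smul_iff] at hx
    have h1 : x = a * (a⁻¹ * x * a) * a⁻¹ := by group
    rw [h1]
    have haM : a ∈ M ⊔ H₀ := (le_sup_left : M ≤ M ⊔ H₀) ha
    exact mul_mem (mul_mem haM ((le_sup_right : H₀ ≤ M ⊔ H₀) hx)) (inv_mem haM)
  apply Nat.card_congr
  refine Equiv.ofBijective
    (fun a : M => (⟨MulAut.conj (a : G) • H₀, by rw [card_conj_smul]; exact hH₀, hle a a.2⟩ :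
      {H : Subgroup G // Nat.card H = m ∧ H ≤ M ⊔ H₀})) ⟨?_, ?_⟩
  · intro a b hab
    have h1 : MulAut.conj (a : G) • H₀ = MulAut.conj (b : G) • H₀ := congrArg Subtype.val hab
    have h2 : MulAut.conj ((b : G)⁻¹ * a) • H₀ = H₀ := by
      rw [conj_mul_smul, h1, ← conj_mul_smul, inv_mul_cancel, map_one, one_smul]
    have h3 := hfree _ (mul_mem (inv_mem b.2) a.2) h2
    apply Subtype.ext
    calc (a : G) = b * ((b : G)⁻¹ * a) := by group
      _ = b := by rw [h3, mul_one]
  · intro K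
    obtain ⟨a, ha, hK⟩ := rel_conj M H₀ K.1
      (by rw [Subgroup.normalizer_eq_top]; exact le_top) K.2.2 (by rw [K.2.1, hH₀])
      (by rw [hH₀]; exact hMm) (Or.inl inferInstance)
    exact ⟨⟨a, ha⟩, Subtype.ext hK⟩

theorem exists_min_normal (G : Type u) [Group G] [Finite G] [Group.IsSolvable G] [Nontrivial G] :
    ∃ N : Subgroup G, N.Normal ∧ N ≠ ⊥ ∧
      (∀ L : Subgroup G, L.Normal → L ≤ N → L = ⊥ ∨ L = N) ∧ IsMulCommutative N ∧
      ∃ p k : ℕ, p.Prime ∧ 0 < k ∧ Nat.card N = p ^ k := by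
  obtain ⟨N, -, hN⟩ := Finite.exists_le_minimal
    (p := fun L : Subgroup G => L.Normal ∧ L ≠ ⊥) (a := ⊤) ⟨inferInstance, top_ne_bot⟩
  have hNn : N.Normal := hN.prop.1
  have hN0 : N ≠ ⊥ := hN.prop.2
  have hmin : ∀ L : Subgroup G, L.Normal → L ≤ N → L = ⊥ ∨ L = N := by
    intro L hL hLN
    by_cases hL0 : L = ⊥
    · exact Or.inl hL0
    · exact Or.inr (le_antisymm hLN (hN.le_of_le ⟨hL, hL0⟩ hLN))
  obtain ⟨hc, p, hp, hexp⟩ := Cfsg.Agent.S0043.result N hN0 hmin
  have : Fact p.Prime := ⟨hp⟩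
  have hNp : IsPGroup p N := by
    intro g
    refine ⟨1, ?_⟩
    apply Subtype.ext
    simpa using hexp g g.2
  obtain ⟨k, hk⟩ := hNp.exists_card_eq
  refine ⟨N, hNn, hN0, hmin, hc, p, k, hp, ?_, hk⟩
  by_contra h0
  have hk0 : k = 0 := by omega
  rw [hk0, pow_zero, Subgroup.card_eq_one] at hk
  exact hN0 hk

@[reducible] def conjAction {G : Type u} [Group G] (M R : Subgroup G) [hM : M.Normal] : MulAction R M where
  smul y x := ⟨(y : G) * x * (y : G)⁻¹, hM.conj_mem x x.2 y⟩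
  one_smul x := Subtype.ext (by
    show ((1 : R) : G) * x * ((1 : R) : G)⁻¹ = x
    simp)
  mul_smul a b x := Subtype.ext (by
    show ((a * b : R) : G) * x * ((a * b : R) : G)⁻¹ = (a : G) * ((b : G) * x * (b : G)⁻¹) * (a : G)⁻¹
    simp [mul_assoc])

theorem card_modEq_one_of_fixed {G : Type u} [Group G] [Finite G] (M R : Subgroup G)
    [hM : M.Normal] (r : ℕ) [Fact r.Prime] (hR : IsPGroup r R)
    (hfix : ∀ x ∈ M, (∀ y ∈ R, y * x = x * y) → x = 1) : Nat.card M ≡ 1 [MOD r] := by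
  let _ : MulAction R M := conjAction M R
  have h1 := hR.card_modEq_card_fixedPoints M
  have h2 : Nat.card (MulAction.fixedPoints R M) = 1 := by
    have key : ∀ c : MulAction.fixedPoints R M, (c : M) = 1 := by
      intro c
      apply Subtype.ext
      apply hfix _ c.1.2
      intro y hy
      have h3 := c.2 ⟨y, hy⟩
      have h4 : y * ((c : M) : G) * y⁻¹ = ((c : M) : G) := congrArg Subtype.val h3
      calc y * ((c : M) : G) = y * ((c : M) : G) * y⁻¹ * y := by group
        _ = ((c : M) : G) * y := by rw [h4]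
    rw [Nat.card_eq_one_iff_unique]
    refine ⟨⟨fun a b => ?_⟩, ⟨⟨1, ?_⟩⟩⟩
    · apply Subtype.ext
      rw [key a, key b]
    · intro y
      apply Subtype.ext
      show (y : G) * ((1 : M) : G) * (y : G)⁻¹ = ((1 : M) : G)
      simp
  rw [h2] at h1
  exact h1

theorem caseB2 {G : Type u} [Group G] [Finite G] [Group.IsSolvable G] (m : ℕ) (hm1 : m ≠ 1)
    (M : Subgroup G) [hMn : M.Normal] [hMc : IsMulCommutative M]
    (hmin : ∀ L : Subgroup G, L.Normal → L ≤ M → L = ⊥ ∨ L = M)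
    (hMm : (Nat.card M).Coprime m) (H₀ : Subgroup G) (hH₀ : Nat.card H₀ = m)
    (htop : M ⊔ H₀ = ⊤) :
    (∃ R : Subgroup G, R.Normal ∧ R ≠ ⊥ ∧ Nat.card R ∣ m) ∨
    (∃ r : ℕ, r.Prime ∧ r ∣ m ∧ Nat.card M ≡ 1 [MOD r] ∧
      ∀ a ∈ M, MulAut.conj a • H₀ = H₀ → a = 1) := by
  have hmpos : 0 < m := by rw [← hH₀]; exact Nat.card_pos
  have hnt : Nontrivial H₀ := by
    rw [← Finite.one_lt_card_iff_nontrivial, hH₀]; omega
  obtain ⟨R₀, hR₀n, hR₀ne, -, -, r, k, hr, hk, hR₀card⟩ := exists_min_normal ↥H₀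
  obtain ⟨R, hRdef⟩ : ∃ R : Subgroup G, R = R₀.map H₀.subtype := ⟨_, rfl⟩
  have hRcard : Nat.card R = r ^ k := by
    rw [hRdef, Subgroup.card_map_of_injective H₀.subtype_injective]; exact hR₀card
  have hRle : R ≤ H₀ := by rw [hRdef]; exact Subgroup.map_subtype_le R₀
  have hRnorm : ∀ h ∈ H₀, ∀ x ∈ R, h * x * h⁻¹ ∈ R := by
    intro h hh x hx
    rw [hRdef] at hx ⊢
    obtain ⟨x₀, hx₀, rfl⟩ := hx
    exact ⟨⟨h, hh⟩ * x₀ * ⟨h, hh⟩⁻¹, hR₀n.conj_mem x₀ hx₀ ⟨h, hh⟩, rfl⟩
  have hRm : Nat.card R ∣ m := by rw [← hH₀]; exact Subgroup.card_dvd_of_le hRle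
  have hR0 : R ≠ ⊥ := by
    intro h
    rw [h, Subgroup.card_bot] at hRcard
    have := Nat.one_lt_pow hk.ne' hr.one_lt
    omega
  have hcomm : ∀ a ∈ M, ∀ y ∈ M, a * y = y * a := by
    intro a ha y hy
    have := hMc.is_comm.comm ⟨a, ha⟩ ⟨y, hy⟩
    exact congrArg Subtype.val this
  have hD : (M ⊓ Subgroup.centralizer (R : Set G)).Normal := by
    constructor
    intro x hx g
    have hg : g ∈ M ⊔ H₀ := by rw [htop]; exact Subgroup.mem_top g
    obtain ⟨a, ha, h, hh, rfl⟩ := Subgroup.mem_sup_of_normal_left.mp hg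
    have hy : h * x * h⁻¹ ∈ M := hMn.conj_mem x hx.1 h
    have hyc : h * x * h⁻¹ ∈ Subgroup.centralizer (R : Set G) := by
      rw [Subgroup.mem_centralizer_iff]
      intro z hz
      have hz' : h⁻¹ * z * h ∈ R := by
        have := hRnorm h⁻¹ (inv_mem hh) z hz
        rwa [inv_inv] at this
      have h1 := (Subgroup.mem_centralizer_iff.mp hx.2) _ hz'
      calc z * (h * x * h⁻¹) = h * ((h⁻¹ * z * h) * x) * h⁻¹ := by group
        _ = h * (x * (h⁻¹ * z * h)) * h⁻¹ := by rw [h1]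
        _ = h * x * h⁻¹ * z := by group
    have h2 : a * h * x * (a * h)⁻¹ = h * x * h⁻¹ := by
      calc a * h * x * (a * h)⁻¹ = a * (h * x * h⁻¹) * a⁻¹ := by group
        _ = (h * x * h⁻¹) * a * a⁻¹ := by rw [hcomm a ha _ hy]
        _ = h * x * h⁻¹ := by group
    rw [h2]
    exact ⟨hy, hyc⟩
  rcases hmin _ hD inf_le_left with hbot | hfull
  · right
    have : Fact r.Prime := ⟨hr⟩
    refine ⟨r, hr, ?_, ?_, ?_⟩
    · exact (dvd_pow_self r hk.ne').trans (hRcard ▸ hRm)
    · apply card_modEq_one_of_fixed M R r (IsPGroup.of_card hRcard)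
      intro x hx hxy
      have : x ∈ M ⊓ Subgroup.centralizer (R : Set G) :=
        ⟨hx, Subgroup.mem_centralizer_iff.mpr hxy⟩
      rw [hbot] at this
      exact Subgroup.mem_bot.mp this
    · intro a ha hconj
      have hdisj : H₀ ⊓ M = ⊥ :=
        (Subgroup.disjoint_of_coprime_natCard (by rw [hH₀]; exact hMm.symm)).eq_bot
      have h1 := mem_centralizer_of_normalizes H₀ M
        (by rw [Subgroup.normalizer_eq_top]; exact le_top) hdisj a ha hconj
      have : a ∈ M ⊓ Subgroup.centralizer (R : Set G) :=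
        ⟨ha, Subgroup.centralizer_le hRle h1⟩
      rw [hbot] at this
      exact Subgroup.mem_bot.mp this
  · left
    refine ⟨R, ?_, hR0, hRm⟩
    have hMC : M ≤ Subgroup.centralizer (R : Set G) := by
      rw [← hfull]; exact inf_le_right
    constructor
    intro x hx g
    have hg : g ∈ M ⊔ H₀ := by rw [htop]; exact Subgroup.mem_top g
    obtain ⟨a, ha, h, hh, rfl⟩ := Subgroup.mem_sup_of_normal_left.mp hg
    have hy : h * x * h⁻¹ ∈ R := hRnorm h hh x hx
    have h1 := (Subgroup.mem_centralizer_iff.mp (hMC ha)) _ hy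
    have h2 : a * h * x * (a * h)⁻¹ = h * x * h⁻¹ := by
      calc a * h * x * (a * h)⁻¹ = a * (h * x * h⁻¹) * a⁻¹ := by group
        _ = (h * x * h⁻¹) * a * a⁻¹ := by rw [← h1]
        _ = h * x * h⁻¹ := by group
    rw [h2]
    exact hy

theorem caseA {G : Type u} [Group G] [Finite G] [Group.IsSolvable G] (m n : ℕ)
    (hG : Nat.card G = m * n) (hmn : m.Coprime n) (N : Subgroup G) [N.Normal]
    (hN : Nat.card N ∣ m) (hN0 : N ≠ ⊥)
    (ih : ∀ (G' : Type u) [Group G'] [Finite G'] [Group.IsSolvable G'],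
      Nat.card G' < Nat.card G → ∀ m n : ℕ, Nat.card G' = m * n → m.Coprime n →
        Concl G' m n (Nat.card {H : Subgroup G' // Nat.card H = m})) :
    Concl G m n (Nat.card {H : Subgroup G // Nat.card H = m}) := by
  rw [card_caseA m n hG hmn N hN]
  apply concl_of_quot N m (m / Nat.card N) n n _ (Nat.div_dvd_of_dvd hN) dvd_rfl
  have hNpos : 0 < Nat.card N := Nat.card_pos
  have h1 := Subgroup.card_eq_card_quotient_mul_card_subgroup N
  have h2 : 1 < Nat.card N := N.one_lt_card_iff_ne_bot.mpr hN0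
  have h3 : 0 < Nat.card (G ⧸ N) := Nat.card_pos
  apply ih
  · rw [h1]; nlinarith
  · obtain ⟨t, ht⟩ := hN
    rw [ht, Nat.mul_div_cancel_left _ hNpos]
    rw [hG, ht] at h1
    apply Nat.eq_of_mul_eq_mul_right hNpos
    rw [← h1]; ring
  · exact Nat.Coprime.coprime_dvd_left (Nat.div_dvd_of_dvd hN) hmn

theorem main : ∀ (c : ℕ) (G : Type u) [Group G] [Finite G] [Group.IsSolvable G],
    Nat.card G = c → ∀ m n : ℕ, Nat.card G = m * n → m.Coprime n →
      Concl G m n (Nat.card {H : Subgroup G // Nat.card H = m}) := by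
  intro c
  induction c using Nat.strong_induction_on with
  | _ c ih =>
    intro G _ _ _ hc m n hG hmn
    have ih' : ∀ (G' : Type u) [Group G'] [Finite G'] [Group.IsSolvable G'],
        Nat.card G' < Nat.card G → ∀ m n : ℕ, Nat.card G' = m * n → m.Coprime n →
          Concl G' m n (Nat.card {H : Subgroup G' // Nat.card H = m}) := by
      intro G' _ _ _ hlt m' n' h1 h2
      exact ih _ (hc ▸ hlt) G' rfl m' n' h1 h2
    have hGpos : 0 < Nat.card G := Nat.card_pos
    have hmpos : 0 < m := by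
      rcases Nat.eq_zero_or_pos m with h | h
      · rw [h, zero_mul] at hG; omega
      · exact h
    have hnpos : 0 < n := by
      rcases Nat.eq_zero_or_pos n with h | h
      · rw [h, mul_zero] at hG; omega
      · exact h
    by_cases hm1 : m = 1
    · subst hm1
      have h1 : Nat.card {H : Subgroup G // Nat.card H = 1} = 1 := by
        rw [Nat.card_eq_one_iff_unique]
        refine ⟨⟨fun a b => ?_⟩, ⟨⟨⊥, Subgroup.card_bot⟩⟩⟩
        apply Subtype.ext
        rw [Subgroup.card_eq_one.mp a.2, Subgroup.card_eq_one.mp b.2]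
      rw [h1]
      exact ⟨[], by simp, one_dvd _, by simp⟩
    have hnt : Nontrivial G := by
      rw [← Finite.one_lt_card_iff_nontrivial, hG]
      have : 2 ≤ m := by omega
      nlinarith
    obtain ⟨H₀, hH₀⟩ := Cfsg.Agent.Lib.Lead.Hall.hall_exists m n hG hmn
    obtain ⟨M, hMn, hM0, hMmin, hMc, q, e, hq, he, hMcard⟩ := exists_min_normal G
    have hd : q ^ e ∣ m * n := by
      rw [← hMcard, ← hG]; exact Subgroup.card_subgroup_dvd_card M
    rcases Cfsg.Agent.Lib.Lead.Hall.split_cases hq hmn hd with ⟨h1, h2⟩ | ⟨h1, h2⟩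
    · exact caseA m n hG hmn M (hMcard ▸ h1) hM0 ih'
    · have hMdn : Nat.card M ∣ n := hMcard ▸ h1
      have hMm : (Nat.card M).Coprime m := hMcard ▸ h2
      have hMpos : 0 < Nat.card M := Nat.card_pos
      have hq1 : Concl G m (n / Nat.card M)
          (Nat.card {H : Subgroup (G ⧸ M) // Nat.card H = m}) := by
        apply concl_of_quot M m m (n / Nat.card M) (n / Nat.card M) _ dvd_rfl dvd_rfl
        have h3 := Subgroup.card_eq_card_quotient_mul_card_subgroup M
        have h4 : 1 < Nat.card M := M.one_lt_card_iff_ne_bot.mpr hM0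
        have h5 : 0 < Nat.card (G ⧸ M) := Nat.card_pos
        apply ih'
        · rw [h3]; nlinarith
        · obtain ⟨t, ht⟩ := hMdn
          rw [ht, Nat.mul_div_cancel_left _ hMpos]
          rw [hG, ht] at h3
          apply Nat.eq_of_mul_eq_mul_right hMpos
          rw [← h3]; ring
        · exact Nat.Coprime.coprime_dvd_right (Nat.div_dvd_of_dvd hMdn) hmn
      have hchief : ∀ x : ℕ, x ∣ Nat.card M → IsChief G x := by
        intro x hx
        refine ⟨⊥, M, inferInstance, hMn, bot_lt_iff_ne_bot.mpr hM0,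
          fun L hL _ hLM => hMmin L hL hLM, ?_⟩
        rw [Subgroup.relIndex_bot_left]; exact hx
      by_cases htop : M ⊔ H₀ = ⊤
      · rcases caseB2 m hm1 M hMmin hMm H₀ hH₀ htop with
          ⟨R, hRn, hR0, hRm⟩ | ⟨r, hr, hrm, hmod, hfree⟩
        · exact caseA m n hG hmn R hRm hR0 ih'
        · rw [card_caseB m n hG hmn M hMdn hMm H₀ hH₀, card_free m M hMm H₀ hH₀ hfree]
          apply concl_mul m (n / Nat.card M) (Nat.card M) n _ _ (Nat.div_mul_cancel hMdn) hq1
          refine ⟨[Nat.card M], by simp, dvd_rfl, ?_⟩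
          intro x hx
          rw [List.mem_singleton] at hx
          subst hx
          exact ⟨⟨q, e, hq, hMcard⟩, hchief _ dvd_rfl, r, hr, hrm, hmod⟩
      · rw [card_caseB m n hG hmn M hMdn hMm H₀ hH₀, ← card_sub_eq m (M ⊔ H₀)]
        apply concl_mul m (n / Nat.card M) (Nat.card M) n _ _ (Nat.div_mul_cancel hMdn) hq1
        have hXcard : Nat.card (M ⊔ H₀ : Subgroup G) = m * Nat.card M := by
          rw [sup_comm, Cfsg.Agent.Lib.Lead.Hall.card_sup_of_coprime H₀ M
            (by rw [hH₀]; exact hMm.symm), hH₀]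
        have hXlt : Nat.card (M ⊔ H₀ : Subgroup G) < Nat.card G := by
          refine lt_of_le_of_ne (Subgroup.card_le_card_group _) ?_
          intro h
          exact htop ((Subgroup.card_eq_iff_eq_top _).mp h)
        obtain ⟨l, hl, hdv, hx⟩ := ih' (↥(M ⊔ H₀ : Subgroup G)) hXlt m (Nat.card M) hXcard
          hMm.symm
        refine ⟨l, hl, hdv, fun x hxl => ?_⟩
        refine ⟨(hx x hxl).1, hchief x ?_, (hx x hxl).2.2⟩
        exact (List.dvd_prod hxl).trans (hl ▸ hdv)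

theorem result {G : Type*} [Group G] [Finite G] [Group.IsSolvable G] (m n : ℕ) (hG : Nat.card G = m * n) (hmn : Nat.Coprime m n) : ∃ (k : ℕ) (f : Fin k → ℕ), Nat.card {H : Subgroup G // Nat.card H = m} = ∏ i, f i ∧ ∀ i, (∃ q e : ℕ, q.Prime ∧ f i = q ^ e) ∧ (∃ K L : Subgroup G, K.Normal ∧ L.Normal ∧ K < L ∧ (∀ M : Subgroup G, M.Normal → K ≤ M → M ≤ L → M = K ∨ M = L) ∧ f i ∣ K.relIndex L) ∧ (∃ q : ℕ, q.Prime ∧ q ∣ m ∧ f i ≡ 1 [MOD q]) := by
  obtain ⟨l, hprod, -, hl⟩ := main _ G rfl m n hG hmn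
  refine ⟨l.length, fun i => l.get i, ?_, fun i => hl _ (List.get_mem l i)⟩
  rw [hprod, ← List.prod_ofFn, List.ofFn_get]

end Cfsg.Agent.S4214
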