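import Cfsg.Statements.S4215
import Cfsg.Agent.Lib.Helper12.EngelFocal
import Cfsg.Agent.Lib.Helper12.ResidualCtl
import Cfsg.Agent.Lib.Helper12.LocalGlobal

set_option autoImplicit false
universe u
open Cfsg

namespace Cfsg.Agent.S4215

open Cfsg.Agent.Lib.Helper12.SylowBasic Cfsg.Agent.Lib.Helper12.Alperin
  Cfsg.Agent.Lib.Helper12.TransferCtl Cfsg.Agent.Lib.Helper12.EngelFocal
  Cfsg.Agent.Lib.Helper12.LocalGlobal
open scoped Pointwise commutatorElement

/-- the local step: in the normalizer of a fully normalized subgroup `T` of `P`, all commutators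
`[t, m]` lie in `N_G(Q)'`, provided this holds for all conjugations of larger subgroups. -/
theorem local_step {G : Type*} [Group G] [Finite G] {p : ℕ} [Fact p.Prime] (P : Sylow p G)
    (Q : Subgroup G) (hQ : Cfsg.IsWeaklyClosed Q (P : Subgroup G))
    (h : ∀ u ∈ (P : Subgroup G), ∀ z ∈ Q, (fun y : G => y⁻¹ * z⁻¹ * y * z)^[p - 1] u = 1)
    (T : Subgroup G) (hTP : T ≤ (P : Subgroup G))
    (hfn : ¬ p ∣ ((P : Subgroup G) ⊓ Subgroup.normalizer (T : Set G)).relIndex
      (Subgroup.normalizer (T : Set G)))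
    (IH : ∀ Y : Subgroup G, Y ≤ (P : Subgroup G) → Nat.card ↥T < Nat.card ↥Y →
      ∀ g : G, rc g Y ≤ (P : Subgroup G) → ∀ y ∈ Y,
        y⁻¹ * g⁻¹ * y * g ∈ ⁅Subgroup.normalizer (Q : Set G), Subgroup.normalizer (Q : Set G)⁆)
    (m : G) (hm : m ∈ Subgroup.normalizer (T : Set G)) (t : G) (ht : t ∈ T) :
    t⁻¹ * m⁻¹ * t * m ∈ ⁅Subgroup.normalizer (Q : Set G), Subgroup.normalizer (Q : Set G)⁆ := by
  classical
  have hPp : IsPGroup p ↥(P : Subgroup G) := P.isPGroup'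
  have hwc : ∀ g : G, rc g Q ≤ (P : Subgroup G) → g ∈ Subgroup.normalizer (Q : Set G) := by
    intro g hg
    apply mem_normalizer_of_rc_eq
    exact hQ.2 g⁻¹ hg
  have hPH : (P : Subgroup G) ≤ Subgroup.normalizer (Q : Set G) := by
    intro g hg
    apply hwc
    rw [rc_le_iff]
    intro b hb
    exact Subgroup.mul_mem _ (Subgroup.mul_mem _ (Subgroup.inv_mem _ hg) (hQ.1 hb)) hg
  have hcommH : ∀ a ∈ Subgroup.normalizer (Q : Set G), ∀ b ∈ Subgroup.normalizer (Q : Set G),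
      a⁻¹ * b⁻¹ * a * b ∈
        ⁅Subgroup.normalizer (Q : Set G), Subgroup.normalizer (Q : Set G)⁆ := by
    intro a ha b hb
    have := Subgroup.commutator_mem_commutator (Subgroup.inv_mem _ ha) (Subgroup.inv_mem _ hb)
    rw [commutatorElement_def] at this
    simpa using this
  have hconjT : ∀ g ∈ Subgroup.normalizer (T : Set G), ∀ y ∈ T, g⁻¹ * y * g ∈ T := by
    intro g hg y hy
    have := (Subgroup.mem_normalizer_iff.mp (Subgroup.inv_mem _ hg) y).mp hy
    simpa using this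
  have hconjT' : ∀ g ∈ Subgroup.normalizer (T : Set G), ∀ y ∈ T, g * y * g⁻¹ ∈ T := by
    intro g hg y hy
    exact (Subgroup.mem_normalizer_iff.mp hg y).mp hy
  by_cases hQT : Q ≤ T
  · have hmH : m ∈ Subgroup.normalizer (Q : Set G) := by
      apply hwc
      rw [rc_le_iff]
      intro b hb
      exact hTP (hconjT m hm b (hQT hb))
    exact hcommH t (hPH (hTP ht)) m hmH
  · -- the subgroup `M` of the elements of `N_G(T)` acting trivially on `T` modulo `N_G(Q)'`
    obtain ⟨M, hMmem⟩ : ∃ M : Subgroup G, ∀ g, g ∈ M ↔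
        (g ∈ Subgroup.normalizer (T : Set G) ∧ ∀ y ∈ T, y⁻¹ * g⁻¹ * y * g ∈
          ⁅Subgroup.normalizer (Q : Set G), Subgroup.normalizer (Q : Set G)⁆) := by
      refine ⟨{ carrier := {g | g ∈ Subgroup.normalizer (T : Set G) ∧ ∀ y ∈ T,
                  y⁻¹ * g⁻¹ * y * g ∈
                    ⁅Subgroup.normalizer (Q : Set G), Subgroup.normalizer (Q : Set G)⁆}
                mul_mem' := ?_
                one_mem' := ?_
                inv_mem' := ?_ }, fun g => Iff.rfl⟩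
      · rintro a b ⟨ha, ha'⟩ ⟨hb, hb'⟩
        refine ⟨Subgroup.mul_mem _ ha hb, fun y hy => ?_⟩
        have e : y⁻¹ * (a * b)⁻¹ * y * (a * b) =
            (y⁻¹ * a⁻¹ * y * a) * ((a⁻¹ * y * a)⁻¹ * b⁻¹ * (a⁻¹ * y * a) * b) := by group
        rw [e]
        exact Subgroup.mul_mem _ (ha' y hy) (hb' _ (hconjT a ha y hy))
      · refine ⟨Subgroup.one_mem _, fun y hy => ?_⟩
        have e : y⁻¹ * (1 : G)⁻¹ * y * 1 = 1 := by group
        rw [e]
        exact Subgroup.one_mem _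
      · rintro a ⟨ha, ha'⟩
        refine ⟨Subgroup.inv_mem _ ha, fun y hy => ?_⟩
        have e : y⁻¹ * a⁻¹⁻¹ * y * a⁻¹ =
            ((a * y * a⁻¹)⁻¹ * a⁻¹ * (a * y * a⁻¹) * a)⁻¹ := by group
        rw [e]
        exact Subgroup.inv_mem _ (ha' _ (hconjT' a ha y hy))
    have hML : M ≤ Subgroup.normalizer (T : Set G) := fun g hg => ((hMmem g).mp hg).1
    have hP₁M : (P : Subgroup G) ⊓ Subgroup.normalizer (T : Set G) ≤ M := by
      intro g hg
      obtain ⟨hgP, hgL⟩ := Subgroup.mem_inf.mp hg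
      exact (hMmem g).mpr ⟨hgL, fun y hy => hcommH y (hPH (hTP hy)) g (hPH hgP)⟩
    have hTP₁ : T ≤ (P : Subgroup G) ⊓ Subgroup.normalizer (T : Set G) :=
      le_inf hTP Subgroup.le_normalizer
    have hP₁p : IsPGroup p ↥((P : Subgroup G) ⊓ Subgroup.normalizer (T : Set G)) :=
      hPp.to_le inf_le_left
    have hF2 : ∀ Y : Subgroup G, Y ≤ (P : Subgroup G) → T ≤ Y → Y ≠ T →
        ∀ g ∈ Subgroup.normalizer (T : Set G), g ∈ Subgroup.normalizer (Y : Set G) → g ∈ M := by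
      intro Y hYP hTY hne g hgL hgY
      have hlt : Nat.card ↥T < Nat.card ↥Y := by
        refine lt_of_le_of_ne (Subgroup.card_le_of_le hTY) (fun heq => hne ?_)
        exact (Subgroup.eq_of_le_of_card_ge hTY heq.ge).symm
      refine (hMmem g).mpr ⟨hgL, fun y hy => IH Y hYP hlt g ?_ y (hTY hy)⟩
      rw [rc_eq_of_mem_normalizer hgY]
      exact hYP
    have hz : ∃ z ∈ Q, z ∈ Subgroup.normalizer (T : Set G) ∧ z ∉ T := by
      by_contra hno
      push_neg at hno
      have hTQp : IsPGroup p ↥(T ⊔ Q) := hPp.to_le (sup_le hTP hQ.1)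
      have hne : T ≠ T ⊔ Q := by
        intro heq
        apply hQT
        rw [heq]
        exact le_sup_right
      have h1 := card_lt_card_normalizer hTQp le_sup_left hne
      have h2 : (T ⊔ Q) ⊓ Subgroup.normalizer (T : Set G) ≤ T := by
        intro x hx
        obtain ⟨hxTQ, hxN⟩ := Subgroup.mem_inf.mp hx
        have hTNQ : T ≤ Subgroup.normalizer (Q : Set G) := hTP.trans hPH
        rw [← SetLike.mem_coe, Subgroup.coe_mul_of_left_le_normalizer_right T Q hTNQ] at hxTQ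
        obtain ⟨a, ha, b, hb, rfl⟩ := Set.mem_mul.mp hxTQ
        have hbN : b ∈ Subgroup.normalizer (T : Set G) := by
          have : b = a⁻¹ * (a * b) := by group
          rw [this]
          exact Subgroup.mul_mem _ (Subgroup.inv_mem _ (Subgroup.le_normalizer ha)) hxN
        exact T.mul_mem ha (hno b hb hbN)
      exact absurd (Subgroup.card_le_of_le h2) (not_le_of_gt h1)
    obtain ⟨z, hzQ, hzL, hzT⟩ := hz
    obtain ⟨𝒟, h𝒟mem⟩ : ∃ 𝒟 : Set G, ∀ d, d ∈ 𝒟 ↔
        (d ∈ (P : Subgroup G) ⊓ Subgroup.normalizer (T : Set G) ∧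
          ∀ y ∈ T, (fun y : G => y⁻¹ * d⁻¹ * y * d)^[p - 1] y = 1) :=
      ⟨{d | d ∈ (P : Subgroup G) ⊓ Subgroup.normalizer (T : Set G) ∧
          ∀ y ∈ T, (fun y : G => y⁻¹ * d⁻¹ * y * d)^[p - 1] y = 1}, fun d => Iff.rfl⟩
    have hz𝒟 : z ∈ 𝒟 := (h𝒟mem z).mpr
      ⟨Subgroup.mem_inf.mpr ⟨hQ.1 hzQ, hzL⟩, fun y hy => h y (hTP hy) z hzQ⟩
    have h𝒟P₁ : ∀ d ∈ 𝒟, d ∈ (P : Subgroup G) ⊓ Subgroup.normalizer (T : Set G) :=
      fun d hd => ((h𝒟mem d).mp hd).1
    have hRP₁ : Subgroup.closure 𝒟 ≤ (P : Subgroup G) ⊓ Subgroup.normalizer (T : Set G) :=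
      (Subgroup.closure_le _).mpr h𝒟P₁
    have h3 := inf_commutator_le_of_engel_rel (Subgroup.normalizer (T : Set G))
      ((P : Subgroup G) ⊓ Subgroup.normalizer (T : Set G)) M T inf_le_right hP₁p hfn hP₁M hTP₁
      le_rfl 𝒟 h𝒟P₁
      (by
        intro d hd g hg hgd
        refine (h𝒟mem _).mpr ⟨hgd, fun y hy => ?_⟩
        rw [engel_conj, ((h𝒟mem d).mp hd).2 _ (hconjT' g hg y hy)]
        group)
      (by
        intro g hg
        obtain ⟨hgR, hgL⟩ := Subgroup.mem_inf.mp hg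
        apply hF2 (T ⊔ Subgroup.closure 𝒟) (sup_le hTP (hRP₁.trans inf_le_left)) le_sup_left
          _ g hgL
        · apply mem_normalizer_of_rc_eq
          rw [rc_def, Subgroup.map_sup, ← rc_def, ← rc_def, rc_eq_of_mem_normalizer hgL,
            rc_eq_of_mem_normalizer hgR]
        · intro heq
          apply hzT
          rw [← heq]
          exact Subgroup.mem_sup_right (Subgroup.subset_closure hz𝒟))
      (fun d hd y hy => ((h𝒟mem d).mp hd).2 y hy)
    have hidxM : ¬ p ∣ ((P : Subgroup G) ⊓ Subgroup.normalizer (T : Set G)).relIndex M := by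
      intro hdvd
      apply hfn
      rw [← Subgroup.relIndex_mul_relIndex _ _ _ hP₁M hML]
      exact Dvd.dvd.mul_right hdvd _
    have h4 := inf_commutator_le_of_comm_rel M
      ((P : Subgroup G) ⊓ Subgroup.normalizer (T : Set G)) T
      ⁅Subgroup.normalizer (Q : Set G), Subgroup.normalizer (Q : Set G)⁆ hP₁M hP₁p hidxM hTP₁ hML
      (Subgroup.commutator_mono (inf_le_left.trans hPH) (inf_le_left.trans hPH))
      (fun y hy g hg => ((hMmem g).mp hg).2 y hy)
    have hmT : t⁻¹ * m⁻¹ * t * m ∈ T := by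
      have : t⁻¹ * m⁻¹ * t * m = t⁻¹ * (m⁻¹ * t * m) := by group
      rw [this]
      exact T.mul_mem (T.inv_mem ht) (hconjT m hm t ht)
    have hmC : t⁻¹ * m⁻¹ * t * m ∈
        ⁅Subgroup.normalizer (T : Set G), Subgroup.normalizer (T : Set G)⁆ := by
      have := Subgroup.commutator_mem_commutator
        (Subgroup.inv_mem _ (Subgroup.le_normalizer (H := T) ht)) (Subgroup.inv_mem _ hm)
      rw [commutatorElement_def] at this
      simpa using this
    exact h4 (Subgroup.mem_inf.mpr ⟨hmT, h3 (Subgroup.mem_inf.mpr ⟨hmT, hmC⟩)⟩)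

/-- **Hall–Wielandt, focal form**: for `Q` weakly closed in `P` with all elements of `Q`
`(p - 1)`-Engel on `P`, `P ∩ G' ≤ N_G(Q)'`. -/
theorem focal_main {G : Type*} [Group G] [Finite G] {p : ℕ} [Fact p.Prime] (P : Sylow p G)
    (Q : Subgroup G) (hQ : Cfsg.IsWeaklyClosed Q (P : Subgroup G))
    (h : ∀ u ∈ (P : Subgroup G), ∀ z ∈ Q, (fun y : G => y⁻¹ * z⁻¹ * y * z)^[p - 1] u = 1) :
    (P : Subgroup G) ⊓ ⁅(⊤ : Subgroup G), (⊤ : Subgroup G)⁆ ≤
      ⁅Subgroup.normalizer (Q : Set G), Subgroup.normalizer (Q : Set G)⁆ := by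
  classical
  have hPp : IsPGroup p ↥(P : Subgroup G) := P.isPGroup'
  obtain ⟨R, hR⟩ : ∃ R : Subgroup G → G → Prop, ∀ T x, R T x ↔ ∀ t ∈ T, t⁻¹ * x⁻¹ * t * x ∈
      ⁅Subgroup.normalizer (Q : Set G), Subgroup.normalizer (Q : Set G)⁆ :=
    ⟨fun T x => ∀ t ∈ T, t⁻¹ * x⁻¹ * t * x ∈
      ⁅Subgroup.normalizer (Q : Set G), Subgroup.normalizer (Q : Set G)⁆, fun T x => Iff.rfl⟩
  have hchain : ∀ (l : List (Subgroup G × G)) (B : Subgroup G), Chain R B l → ∀ b ∈ B,
      b⁻¹ * (lprod l)⁻¹ * b * lprod l ∈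
        ⁅Subgroup.normalizer (Q : Set G), Subgroup.normalizer (Q : Set G)⁆ := by
    intro l
    induction l with
    | nil =>
      intro B _ b _
      rw [lprod_nil]
      have e : b⁻¹ * (1 : G)⁻¹ * b * 1 = 1 := by group
      rw [e]
      exact Subgroup.one_mem _
    | cons tx l ih =>
      intro B hc b hb
      obtain ⟨hRtx, hBT, hc'⟩ := hc
      rw [lprod_cons]
      have h1 := (hR _ _).mp hRtx b (hBT hb)
      have h2 := ih _ hc' _ (rc_mem tx.2 B hb)
      have e : b⁻¹ * (tx.2 * lprod l)⁻¹ * b * (tx.2 * lprod l) =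
          (b⁻¹ * tx.2⁻¹ * b * tx.2) *
            ((tx.2⁻¹ * b * tx.2)⁻¹ * (lprod l)⁻¹ * (tx.2⁻¹ * b * tx.2) * lprod l) := by group
      rw [e]
      exact Subgroup.mul_mem _ h1 h2
  have hdec : ∀ B : Subgroup G, B ≤ (P : Subgroup G) → ∀ g : G, rc g B ≤ (P : Subgroup G) →
      Dec R B g := by
    intro B hB g hg
    apply dec_of_local P R _ B hB g hg
    intro B hB IH
    obtain ⟨a, haB, hfn⟩ := exists_fn P B hB
    refine ⟨a, haB, hfn, fun m hm => Dec.single ?_ le_rfl⟩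
    have IH' : ∀ Y : Subgroup G, Y ≤ (P : Subgroup G) → Nat.card ↥(rc a B) < Nat.card ↥Y →
        ∀ g : G, rc g Y ≤ (P : Subgroup G) → ∀ y ∈ Y, y⁻¹ * g⁻¹ * y * g ∈
          ⁅Subgroup.normalizer (Q : Set G), Subgroup.normalizer (Q : Set G)⁆ := by
      intro Y hY hlt g' hg' y hy
      rw [card_rc] at hlt
      obtain ⟨l, hc, rfl⟩ := IH Y hY hlt g' hg'
      exact hchain l Y hc y hy
    exact (hR _ _).mpr (fun t ht => local_step P Q hQ h (rc a B) haB hfn IH' m hm t ht)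
  refine inf_commutator_le_of_focal ⊤ (P : Subgroup G) _ le_top hPp (sylow_relIndex_top P) ?_
  intro x hx u _ hxu
  have hconj : rc u⁻¹ (Subgroup.zpowers x) ≤ (P : Subgroup G) := by
    rw [rc_le_iff]
    intro b hb
    obtain ⟨k, rfl⟩ := Subgroup.mem_zpowers_iff.mp hb
    have h1 : u * x * u⁻¹ ∈ (P : Subgroup G) := by
      have e : u * x * u⁻¹ = (x⁻¹ * ⁅x, u⁆)⁻¹ := by
        rw [commutatorElement_def]
        group
      rw [e]
      exact Subgroup.inv_mem _ (Subgroup.mul_mem _ (Subgroup.inv_mem _ hx) hxu)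
    have e2 : u⁻¹⁻¹ * x ^ k * u⁻¹ = (u * x * u⁻¹) ^ k := by
      rw [inv_inv, conj_zpow]
    rw [e2]
    exact Subgroup.zpow_mem _ h1 k
  obtain ⟨l, hc, hl⟩ := hdec (Subgroup.zpowers x) ((Subgroup.zpowers_le).mpr hx) u⁻¹ hconj
  have h5 := hchain l _ hc x⁻¹ (Subgroup.inv_mem _ (Subgroup.mem_zpowers x))
  rw [hl] at h5
  have e : ⁅x, u⁆ = x⁻¹⁻¹ * u⁻¹⁻¹ * x⁻¹ * u⁻¹ := by
    rw [commutatorElement_def]
    group
  rw [e]
  exact h5

/-- Let `P` be a Sylow `p`-subgroup of the finite group `G`, `Q` a subgroup of `P` weakly closed in `P` with respect to `G`, and `H` the normalizer of `Q`. Suppose that for all `u ∈ P` and `z ∈ Q` the iterated commutator `[u, z, …, z]` with `p - 1` entries `z` is trivial, where `[x, z] = x⁻¹z⁻¹xz` and `[x, z, z] = [[x, z], z]`. Then `O^p(H) = O^p(G) ∩ H`, where `O^p` denotes the subgroup generated by the elements of order prime to `p`; so the largest `p`-factor groups of `G` and of `H` are isomorphic.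 -/
theorem result {G : Type*} [Group G] [Finite G] {p : ℕ} [Fact p.Prime] (P : Sylow p G) (Q : Subgroup G) (hQ : Cfsg.IsWeaklyClosed Q (P : Subgroup G)) (h : ∀ u ∈ (P : Subgroup G), ∀ z ∈ Q, (fun y : G => y⁻¹ * z⁻¹ * y * z)^[p - 1] u = 1) : Cfsg.pResidualOf p (Subgroup.normalizer (Q : Set G)) = Cfsg.pResidual p G ⊓ Subgroup.normalizer (Q : Set G) := by
  have hPH : (P : Subgroup G) ≤ Subgroup.normalizer (Q : Set G) := by
    intro g hg
    apply mem_normalizer_of_rc_eq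
    apply hQ.2 g⁻¹
    show rc g Q ≤ (P : Subgroup G)
    rw [rc_le_iff]
    intro b hb
    exact Subgroup.mul_mem _ (Subgroup.mul_mem _ (Subgroup.inv_mem _ hg) (hQ.1 hb)) hg
  exact Cfsg.Agent.Lib.Helper12.ResidualCtl.pResidualOf_eq_of_focal P _ hPH (focal_main P Q hQ h)

end Cfsg.Agent.S4215
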