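import Mathlib
import Cfsg.Agent.Lib.Helper16.Basic
import Cfsg.Statements.S4219

set_option autoImplicit false
open Cfsg

namespace Cfsg.Agent.S4219

open Cfsg.Agent.Lib.Helper16.Basic

theorem witt {G : Type*} [Group G] [Finite G] {α : Type*} [Fintype α] [MulAction G α] {t : ℕ}
    (hG : MulAction.IsMultiplyPretransitive G α t) (x : Fin t ↪ α) {p : ℕ} [Fact p.Prime]
    (P : Sylow p (MulAction.stabilizer G x)) (a : Fin t ↪ α)
    (ha : ∀ i, a i ∈ MulAction.fixedPoints
      ((P : Subgroup (MulAction.stabilizer G x)).map (MulAction.stabilizer G x).subtype) α) :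
    ∃ g ∈ Subgroup.normalizer ((((P : Subgroup (MulAction.stabilizer G x)).map
      (MulAction.stabilizer G x).subtype) : Subgroup G) : Set G), g • x = a := by
  set P' := (P : Subgroup (MulAction.stabilizer G x)).map (MulAction.stabilizer G x).subtype with hP'
  obtain ⟨g₁, hg₁⟩ := MulAction.exists_smul_eq G x a
  set A := P'.map (MulAut.conj g₁⁻¹).toMonoidHom with hA
  have hAH : A ≤ MulAction.stabilizer G x := by
    intro y hy
    rw [hA, mem_conj, inv_inv] at hy
    rw [MulAction.mem_stabilizer_iff]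
    ext i
    have h1 := ha i
    rw [MulAction.mem_fixedPoints] at h1
    have h2 := h1 ⟨g₁ * y * g₁⁻¹, hy⟩
    have h3 : (g₁ * y * g₁⁻¹) • a i = a i := h2
    rw [← hg₁] at h3
    have h4 : (g₁ • x) i = g₁ • x i := rfl
    rw [h4, smul_smul, inv_mul_cancel_right, mul_smul] at h3
    have h5 : (y • x) i = y • x i := rfl
    rw [h5]
    exact smul_left_cancel g₁ h3
  have hP'p : IsPGroup p P' := P.isPGroup'.map _
  have hAp : IsPGroup p A := isPGroup_conj hP'p _
  obtain ⟨k, hk, hkA⟩ := exists_conj_le_sylow_sub P hAH hAp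
  rw [hA, conj_conj] at hkA
  have hcard : Nat.card P' ≤ Nat.card (P'.map (MulAut.conj (k * g₁⁻¹)).toMonoidHom) := by
    rw [card_conj]
  have heq := Subgroup.eq_of_le_of_card_ge hkA hcard
  rw [conj_eq_self_iff] at heq
  refine ⟨(k * g₁⁻¹)⁻¹, Subgroup.inv_mem _ heq, ?_⟩
  rw [mul_inv_rev, inv_inv, mul_smul]
  have hk' : k⁻¹ • x = x := by
    have := (MulAction.stabilizer G x).inv_mem hk
    rw [MulAction.mem_stabilizer_iff] at this
    exact this
  rw [hk', hg₁]

theorem result {G : Type*} [Group G] [Finite G] {α : Type*} [Fintype α] [MulAction G α] {t : ℕ} (hG : MulAction.IsMultiplyPretransitive G α t) (x : Fin t ↪ α) {p : ℕ} [Fact p.Prime] (P : Sylow p (MulAction.stabilizer G x)) (a b : Fin t ↪ α) (ha : ∀ i, a i ∈ MulAction.fixedPoints ((P : Subgroup (MulAction.stabilizer G x)).map (MulAction.stabilizer G x).subtype) α) (hb : ∀ i, b i ∈ MulAction.fixedPoints ((P : Subgroup (MulAction.stabilizer G x)).map (MulAction.stabilizer G x).subtype) α) : ∃ g ∈ Subgroup.normalizer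 ((((P : Subgroup (MulAction.stabilizer G x)).map (MulAction.stabilizer G x).subtype) : Subgroup G) : Set G), g • a = b := by
  obtain ⟨n₁, hn₁, h1⟩ := witt hG x P a ha
  obtain ⟨n₂, hn₂, h2⟩ := witt hG x P b hb
  refine ⟨n₂ * n₁⁻¹, Subgroup.mul_mem _ hn₂ (Subgroup.inv_mem _ hn₁), ?_⟩
  rw [← h1, ← h2, mul_smul, inv_smul_smul]

end Cfsg.Agent.S4219
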