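import Mathlib
import Cfsg.Statements.S4222

set_option autoImplicit false
open Cfsg

namespace Cfsg.Agent.S4222

theorem result {T : Type*} [Group T] [Finite T] (N : Subgroup T) [N.Normal] (hz : Subgroup.center ↥N = ⊥) (ha : Function.Surjective (MulAut.conj : ↥N →* MulAut ↥N)) : (Subgroup.centralizer (N : Set T)).IsComplement' N := by
  apply Subgroup.isComplement'_of_disjoint_and_mul_eq_univ
  · rw [Subgroup.disjoint_def]
    intro x hxC hxN
    have : (⟨x, hxN⟩ : N) ∈ Subgroup.center ↥N := by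
      rw [Subgroup.mem_center_iff]
      rintro ⟨n, hn⟩
      apply Subtype.ext
      exact (Subgroup.mem_centralizer_iff.mp hxC) n hn
    rw [hz, Subgroup.mem_bot] at this
    exact congrArg Subtype.val this
  · rw [Set.eq_univ_iff_forall]
    intro t
    obtain ⟨m, hm⟩ := ha (MulAut.conjNormal t)
    have key : ∀ n : T, n ∈ N → (m : T) * n * (m : T)⁻¹ = t * n * t⁻¹ := by
      intro n hn
      have := congrArg (fun φ : MulAut ↥N => ((φ ⟨n, hn⟩ : N) : T)) hm
      simpa using this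
    refine Set.mem_mul.mpr ⟨t * (m : T)⁻¹, ?_, (m : T), m.2, by group⟩
    rw [SetLike.mem_coe, Subgroup.mem_centralizer_iff]
    intro n hn
    have h1 : (m : T)⁻¹ * n * (m : T) ∈ N := by
      have := N.mul_mem (N.mul_mem (N.inv_mem m.2) hn) m.2
      exact this
    have h2 := key _ h1
    have h3 : t * (m : T)⁻¹ * n * (t * (m : T)⁻¹)⁻¹ = n := by
      calc t * (m : T)⁻¹ * n * (t * (m : T)⁻¹)⁻¹ = t * ((m : T)⁻¹ * n * (m : T)) * t⁻¹ := by group
        _ = (m : T) * ((m : T)⁻¹ * n * (m : T)) * (m : T)⁻¹ := h2.symm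
        _ = n := by group
    calc n * (t * (m : T)⁻¹) = (t * (m : T)⁻¹ * n * (t * (m : T)⁻¹)⁻¹) * (t * (m : T)⁻¹) := by rw [h3]
      _ = t * (m : T)⁻¹ * n := by group

end Cfsg.Agent.S4222
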