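import Mathlib
import Cfsg.Statements.S4223

set_option autoImplicit false
open Cfsg

namespace Cfsg.Agent.S4223

universe u v

theorem fitting {X : Type u} [Group X] [Finite X]
    (hX : ∀ H K : Subgroup X, H.Normal → K.Normal → H ⊓ K = ⊥ → H ⊔ K = ⊤ → H = ⊥ ∨ K = ⊥)
    (φ : X →* X) (hn : ∀ a x : X, φ (a * x * a⁻¹) = a * φ x * a⁻¹)
    (hnb : ¬ Function.Injective φ) : ∃ k : ℕ, ∀ x : X, (φ : X → X)^[k] x = 1 := by
  classical
  have hpn : ∀ k : ℕ, ∀ a x : X, (φ : X → X)^[k] (a * x * a⁻¹) = a * (φ : X → X)^[k] x * a⁻¹ := by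
    intro k
    induction k with
    | zero => intro a x; rfl
    | succ k ih =>
      intro a x
      rw [Function.iterate_succ_apply', Function.iterate_succ_apply', ih, hn]
  have hone : ∀ k : ℕ, (φ : X → X)^[k] 1 = 1 := by
    intro k
    induction k with
    | zero => rfl
    | succ k ih => rw [Function.iterate_succ_apply', ih, map_one]
  obtain ⟨ψ, hψ⟩ : ∃ ψ : ℕ → (X →* X), ∀ k x, ψ k x = (φ : X → X)^[k] x := by
    refine ⟨fun k => Nat.rec (MonoidHom.id X) (fun _ g => φ.comp g) k, ?_⟩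
    intro k
    induction k with
    | zero => intro x; rfl
    | succ k ih =>
      intro x
      rw [Function.iterate_succ_apply', ← ih]
      rfl
  have hmono : Monotone (fun k => (ψ k).ker) := by
    apply monotone_nat_of_le_succ
    intro k x hx
    have hx' : ψ k x = 1 := MonoidHom.mem_ker.1 hx
    show x ∈ (ψ (k + 1)).ker
    rw [hψ] at hx'
    rw [MonoidHom.mem_ker, hψ, Function.iterate_succ_apply', hx', map_one]
  obtain ⟨k, hk0⟩ := WellFoundedGT.monotone_chain_condition
    (⟨fun k => (ψ k).ker, hmono⟩ : ℕ →o Subgroup X)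
  have hk : ∀ m, k ≤ m → (ψ k).ker = (ψ m).ker := hk0
  have hKI : (ψ k).ker ⊓ (ψ k).range = ⊥ := by
    rw [eq_bot_iff]
    rintro x ⟨hx1, ⟨y, rfl⟩⟩
    have h2 : ψ (k + k) y = ψ k (ψ k y) := by
      rw [hψ, hψ, hψ, Function.iterate_add_apply]
    have hy : y ∈ (ψ (k + k)).ker := MonoidHom.mem_ker.2 (h2.trans (MonoidHom.mem_ker.1 hx1))
    rw [← hk (k + k) (Nat.le_add_right k k)] at hy
    exact Subgroup.mem_bot.2 (MonoidHom.mem_ker.1 hy)
  have hIn : ((ψ k).range).Normal := by
    constructor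
    rintro _ ⟨x, rfl⟩ a
    exact ⟨a * x * a⁻¹, by rw [hψ, hψ, hpn]⟩
  have hcard : Nat.card (ψ k).ker * Nat.card (ψ k).range = Nat.card X := by
    rw [← Subgroup.index_ker]
    exact Subgroup.card_mul_index _
  have hdisj : Disjoint (ψ k).ker (ψ k).range := disjoint_iff.2 hKI
  have hsup : (ψ k).ker ⊔ (ψ k).range = ⊤ :=
    (Subgroup.isComplement'_of_card_mul_and_disjoint hcard hdisj).sup_eq_top
  rcases hX _ _ (MonoidHom.normal_ker _) hIn hKI hsup with h | h
  · exfalso
    apply hnb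
    rw [injective_iff_map_eq_one]
    intro x hx
    have hx' : x ∈ (ψ (k + 1)).ker := by
      rw [MonoidHom.mem_ker, hψ, Function.iterate_succ_apply, hx, hone]
    rw [← hk (k + 1) (Nat.le_succ k), h] at hx'
    exact Subgroup.mem_bot.1 hx'
  · refine ⟨k, fun x => ?_⟩
    have hx : ψ k x ∈ (ψ k).range := ⟨x, rfl⟩
    rw [h] at hx
    rw [← hψ]
    exact Subgroup.mem_bot.1 hx

noncomputable def splitAt {n : ℕ} (B : Fin (n + 1) → Type v) [∀ j, Group (B j)] (p : Fin (n + 1)) :
    ((j : Fin (n + 1)) → B j) ≃* (B p × ((j : Fin n) → B (p.succAbove j))) :=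
  { (Fin.insertNthEquiv B p).symm with map_mul' := fun _ _ => rfl }

theorem exch {H : Type u} {L : Type u} [Group H] [Group L] [Finite H] [Finite L] {n : ℕ}
    {B : Fin (n + 1) → Type v} [∀ j, Group (B j)] [∀ j, Finite (B j)]
    (hH1 : Nontrivial H)
    (hH : ∀ P Q : Subgroup H, P.Normal → Q.Normal → P ⊓ Q = ⊥ → P ⊔ Q = ⊤ → P = ⊥ ∨ Q = ⊥)
    (hB : ∀ j, ∀ P Q : Subgroup (B j), P.Normal → Q.Normal → P ⊓ Q = ⊥ → P ⊔ Q = ⊤ →
      P = ⊥ ∨ Q = ⊥)
    (f : H × L ≃* ((j : Fin (n + 1)) → B j)) :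
    ∃ j₀ : Fin (n + 1), Nonempty (H ≃* B j₀) ∧
      Nonempty (L ≃* ((j : Fin n) → B (j₀.succAbove j))) := by
  classical
  let π : ((j : Fin (n + 1)) → B j) →* H := (MonoidHom.fst H L).comp f.symm.toMonoidHom
  let ιH : H →* ((j : Fin (n + 1)) → B j) := f.toMonoidHom.comp (MonoidHom.inl H L)
  have hιH : ∀ h : H, ιH h = f (h, 1) := fun h => rfl
  have hπ : ∀ g, π g = (f.symm g).1 := fun g => rfl
  have hπι : ∀ h : H, π (ιH h) = h := by
    intro h
    rw [hπ, hιH, MulEquiv.symm_apply_apply]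
  let P : Finset (Fin (n + 1)) →
      (((j : Fin (n + 1)) → B j) →* ((j : Fin (n + 1)) → B j)) := fun S =>
    { toFun := fun g j => if j ∈ S then g j else 1
      map_one' := by
        funext j
        by_cases hj : j ∈ S <;> simp [hj]
      map_mul' := by
        intro a b
        funext j
        by_cases hj : j ∈ S <;> simp [hj] }
  have hP : ∀ S g j, P S g j = if j ∈ S then g j else 1 := fun S g j => rfl
  let φ : Finset (Fin (n + 1)) → (H →* H) := fun S => π.comp ((P S).comp ιH)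
  have hφ : ∀ S x, φ S x = π (P S (ιH x)) := fun S x => rfl
  have hPn : ∀ S (g y : (j : Fin (n + 1)) → B j), P S (g * y * g⁻¹) = g * P S y * g⁻¹ := by
    intro S g y
    funext j
    show (if j ∈ S then (g * y * g⁻¹) j else 1) = g j * (if j ∈ S then y j else 1) * (g j)⁻¹
    by_cases hj : j ∈ S <;> simp [hj]
  have hφn : ∀ S (a x : H), φ S (a * x * a⁻¹) = a * φ S x * a⁻¹ := by
    intro S a x
    have h1 : ιH (a * x * a⁻¹) = ιH a * ιH x * (ιH a)⁻¹ := by
      rw [map_mul, map_mul, map_inv]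
    rw [hφ, hφ, h1, hPn, map_mul, map_mul, map_inv, hπι]
  have hPins : ∀ (S : Finset (Fin (n + 1))) (j : Fin (n + 1)), j ∉ S →
      ∀ g, P (insert j S) g = P S g * P {j} g := by
    intro S j hj g
    funext i
    show (if i ∈ insert j S then g i else 1) =
      (if i ∈ S then g i else 1) * (if i ∈ ({j} : Finset (Fin (n + 1))) then g i else 1)
    by_cases hi : i = j
    · subst hi
      simp [hj]
    · by_cases hiS : i ∈ S <;> simp [hi, hiS]
  have hφins : ∀ (S : Finset (Fin (n + 1))) (j : Fin (n + 1)), j ∉ S →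
      ∀ x, φ (insert j S) x = φ S x * φ {j} x := by
    intro S j hj x
    rw [hφ, hφ, hφ, hPins S j hj, map_mul]
  have hφempty : ∀ x, φ ∅ x = 1 := by
    intro x
    have h1 : P ∅ (ιH x) = 1 := by
      funext i
      rw [hP]
      simp
    rw [hφ, h1, map_one]
  have hφuniv : ∀ x, φ Finset.univ x = x := by
    intro x
    have h1 : P Finset.univ (ιH x) = ιH x := by
      funext i
      rw [hP]
      simp
    rw [hφ, h1, hπι]
  have claim : ∀ S : Finset (Fin (n + 1)), Function.Injective (φ S) →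
      ∃ j ∈ S, Function.Injective (φ {j}) := by
    intro S
    induction S using Finset.induction_on with
    | empty =>
      intro hinj
      exfalso
      obtain ⟨a, b, hab⟩ := exists_pair_ne H
      apply hab
      apply hinj
      rw [hφempty, hφempty]
    | insert j S hj ih =>
      intro hinj
      by_cases hS : Function.Injective (φ S)
      · obtain ⟨i, hi, hii⟩ := ih hS
        exact ⟨i, Finset.mem_insert_of_mem hi, hii⟩
      · refine ⟨j, Finset.mem_insert_self j S, ?_⟩
        have hbij : Function.Bijective (φ (insert j S)) :=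
          ⟨hinj, Finite.surjective_of_injective hinj⟩
        let θ : H ≃* H := MulEquiv.ofBijective (φ (insert j S)) hbij
        have hθ : ∀ x, θ x = φ (insert j S) x := fun x => rfl
        let α : H →* H := θ.symm.toMonoidHom.comp (φ S)
        have hα : ∀ x, α x = θ.symm (φ S x) := fun x => rfl
        have hαn : ∀ a x, α (a * x * a⁻¹) = a * α x * a⁻¹ := by
          intro a x
          rw [hα, hα, hφn]
          apply θ.injective
          rw [MulEquiv.apply_symm_apply, hθ, hφn, ← hθ, MulEquiv.apply_symm_apply]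
        have hαni : ¬ Function.Injective α := by
          intro hc
          apply hS
          intro x y hxy
          apply hc
          rw [hα, hα, hxy]
        obtain ⟨k, hk⟩ := fitting hH α hαn hαni
        rw [injective_iff_map_eq_one]
        intro x hx
        have h1 : φ (insert j S) x = φ S x := by rw [hφins S j hj, hx, mul_one]
        have h2 : α x = x := by
          rw [hα, ← h1, ← hθ, MulEquiv.symm_apply_apply]
        have h3 : ∀ i : ℕ, (α : H → H)^[i] x = x := by
          intro i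
          induction i with
          | zero => rfl
          | succ i ih' => rw [Function.iterate_succ_apply', ih', h2]
        rw [← h3 k, hk]
  obtain ⟨j₀, -, hj₀⟩ := claim Finset.univ (by
    intro x y hxy
    rw [hφuniv, hφuniv] at hxy
    exact hxy)
  have hsurj : Function.Surjective (φ {j₀}) := Finite.surjective_of_injective hj₀
  let β : H →* B j₀ := (Pi.evalMonoidHom B j₀).comp ιH
  let γ : B j₀ →* H := π.comp (MonoidHom.mulSingle B j₀)
  have hβ : ∀ x, β x = ιH x j₀ := fun x => rfl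
  have hγ : ∀ b, γ b = π (Pi.mulSingle j₀ b) := fun b => rfl
  have hP1 : ∀ g, P {j₀} g = Pi.mulSingle j₀ (g j₀) := by
    intro g
    funext i
    rw [hP]
    by_cases hi : i = j₀
    · subst hi
      simp
    · simp [hi]
  have hγβ : ∀ x, γ (β x) = φ {j₀} x := by
    intro x
    rw [hγ, hβ, hφ, hP1]
  have hβinj : Function.Injective β := by
    intro x y hxy
    apply hj₀
    rw [← hγβ, ← hγβ, hxy]
  have hιn : ∀ (g : (j : Fin (n + 1)) → B j) (x : H),
      g * ιH x * g⁻¹ = ιH ((f.symm g).1 * x * (f.symm g).1⁻¹) := by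
    intro g x
    apply f.symm.injective
    rw [hιH, hιH, map_mul, map_mul, map_inv, MulEquiv.symm_apply_apply,
      MulEquiv.symm_apply_apply]
    ext
    · simp
    · simp
  have hPnorm : (β.range).Normal := by
    constructor
    rintro _ ⟨x, rfl⟩ c
    refine ⟨(f.symm (Pi.mulSingle j₀ c)).1 * x * (f.symm (Pi.mulSingle j₀ c)).1⁻¹, ?_⟩
    rw [hβ, hβ, ← hιn]
    simp
  have hPQ : β.range ⊓ γ.ker = ⊥ := by
    rw [eq_bot_iff]
    rintro _ ⟨⟨x, rfl⟩, hq⟩
    have h1 : γ (β x) = 1 := MonoidHom.mem_ker.1 hq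
    rw [hγβ] at h1
    have hx : x = 1 := hj₀ (h1.trans (map_one _).symm)
    rw [hx, map_one]
    exact Subgroup.one_mem _
  have hPQ' : β.range ⊔ γ.ker = ⊤ := by
    rw [eq_top_iff]
    intro b _
    obtain ⟨x, hx⟩ := hsurj (γ b)
    have hb : b = β x * ((β x)⁻¹ * b) := by group
    rw [hb]
    refine Subgroup.mul_mem_sup ⟨x, rfl⟩ ?_
    rw [MonoidHom.mem_ker, map_mul, map_inv, hγβ, hx, inv_mul_cancel]
  have hγinj : Function.Injective γ := by
    rcases hB j₀ _ _ hPnorm (MonoidHom.normal_ker _) hPQ hPQ' with h | h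
    · exfalso
      obtain ⟨a, b, hab⟩ := exists_pair_ne H
      apply hab
      apply hβinj
      have ha : β a ∈ β.range := ⟨a, rfl⟩
      have hb : β b ∈ β.range := ⟨b, rfl⟩
      rw [h] at ha hb
      rw [Subgroup.mem_bot.1 ha, Subgroup.mem_bot.1 hb]
    · exact (MonoidHom.ker_eq_bot_iff γ).1 h
  have hβsurj : Function.Surjective β := by
    intro b
    obtain ⟨x, hx⟩ := hsurj (γ b)
    refine ⟨x, ?_⟩
    apply hγinj
    rw [hγβ, hx]
  let e1 : H ≃* B j₀ := MulEquiv.ofBijective β ⟨hβinj, hβsurj⟩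
  refine ⟨j₀, ⟨e1⟩, ?_⟩
  let R : (((j : Fin (n + 1)) → B j)) →* ((j : Fin n) → B (j₀.succAbove j)) :=
    { toFun := fun g j => g (j₀.succAbove j)
      map_one' := rfl
      map_mul' := fun _ _ => rfl }
  let ψ : L →* ((j : Fin n) → B (j₀.succAbove j)) :=
    R.comp (f.toMonoidHom.comp (MonoidHom.inr H L))
  have hψ : ∀ l j, ψ l j = f (1, l) (j₀.succAbove j) := fun l j => rfl
  have hψinj : Function.Injective ψ := by
    rw [injective_iff_map_eq_one]
    intro l hl
    have h1 : f (1, l) = Pi.mulSingle j₀ (f (1, l) j₀) := by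
      funext i
      by_cases hi : i = j₀
      · subst hi
        simp
      · obtain ⟨j, rfl⟩ := Fin.exists_succAbove_eq hi
        rw [Pi.mulSingle_eq_of_ne (Fin.succAbove_ne j₀ j), ← hψ, hl]
        rfl
    have h2 : π (f (1, l)) = 1 := by
      rw [hπ, MulEquiv.symm_apply_apply]
    rw [h1, ← hγ] at h2
    have h3 : f (1, l) j₀ = 1 := hγinj (h2.trans (map_one _).symm)
    rw [h3, Pi.mulSingle_one] at h1
    have h4 : ((1 : H), l) = 1 := f.injective (h1.trans (map_one _).symm)
    exact (Prod.mk_eq_one.1 h4).2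
  have hcard : Nat.card ((j : Fin n) → B (j₀.succAbove j)) ≤ Nat.card L := by
    have c1 : Nat.card (H × L) = Nat.card ((j : Fin (n + 1)) → B j) := Nat.card_congr f.toEquiv
    have c2 : Nat.card ((j : Fin (n + 1)) → B j) =
        Nat.card (B j₀ × ((j : Fin n) → B (j₀.succAbove j))) :=
      Nat.card_congr (Fin.insertNthEquiv B j₀).symm
    have c3 : Nat.card H = Nat.card (B j₀) := Nat.card_congr e1.toEquiv
    rw [Nat.card_prod] at c1 c2
    rw [c2, ← c3] at c1
    have hpos : 0 < Nat.card H := Nat.card_pos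
    exact le_of_eq (Nat.eq_of_mul_eq_mul_left hpos c1).symm
  exact ⟨MulEquiv.ofBijective ψ (hψinj.bijective_of_nat_card_le hcard)⟩

theorem main : ∀ (m : ℕ) (n : ℕ) (A : Fin m → Type u) (B : Fin n → Type v)
    [∀ i, Group (A i)] [∀ j, Group (B j)] [∀ i, Finite (A i)] [∀ j, Finite (B j)]
    (_ : ∀ i, Nontrivial (A i) ∧ ∀ H K : Subgroup (A i), H.Normal → K.Normal → H ⊓ K = ⊥ →
      H ⊔ K = ⊤ → H = ⊥ ∨ K = ⊥)
    (_ : ∀ j, Nontrivial (B j) ∧ ∀ H K : Subgroup (B j), H.Normal → K.Normal → H ⊓ K = ⊥ →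
      H ⊔ K = ⊤ → H = ⊥ ∨ K = ⊥)
    (_ : ((i : Fin m) → A i) ≃* ((j : Fin n) → B j)),
    ∃ σ : Fin m ≃ Fin n, ∀ i, Nonempty (A i ≃* B (σ i)) := by
  intro m
  induction m with
  | zero =>
    intro n A B _ _ _ _ hA hB e
    cases n with
    | zero => exact ⟨Equiv.refl _, fun i => i.elim0⟩
    | succ n =>
      exfalso
      obtain ⟨a, b, hab⟩ := (hB 0).1
      have h1 : ∀ x y : ((j : Fin (n + 1)) → B j), x = y := by
        intro x y
        apply e.symm.injective
        exact Subsingleton.elim _ _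
      apply hab
      have h2 := congrFun (h1 (Pi.mulSingle 0 a) (Pi.mulSingle 0 b)) 0
      simpa using h2
  | succ m ih =>
    intro n A B _ _ _ _ hA hB e
    cases n with
    | zero =>
      exfalso
      obtain ⟨a, b, hab⟩ := (hA 0).1
      have h1 : ∀ x y : ((i : Fin (m + 1)) → A i), x = y := by
        intro x y
        apply e.injective
        exact Subsingleton.elim _ _
      apply hab
      have h2 := congrFun (h1 (Pi.mulSingle 0 a) (Pi.mulSingle 0 b)) 0
      simpa using h2
    | succ n =>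
      obtain ⟨j₀, ⟨e1⟩, ⟨e2⟩⟩ := exch (hA 0).1 (hA 0).2 (fun j => (hB j).2)
        ((splitAt A 0).symm.trans e)
      obtain ⟨σ', hσ'⟩ := ih n (fun i => A ((0 : Fin (m + 1)).succAbove i))
        (fun j => B (j₀.succAbove j)) (fun i => hA _) (fun j => hB _) e2
      refine ⟨(finSuccEquiv' (0 : Fin (m + 1))).trans
        ((Equiv.optionCongr σ').trans (finSuccEquiv' j₀).symm), ?_⟩
      intro i
      rcases Fin.eq_self_or_eq_succAbove 0 i with rfl | ⟨i', rfl⟩
      · have h : ((finSuccEquiv' (0 : Fin (m + 1))).trans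
            ((Equiv.optionCongr σ').trans (finSuccEquiv' j₀).symm)) 0 = j₀ := by
          simp [finSuccEquiv'_at]
        rw [h]
        exact ⟨e1⟩
      · have h : ((finSuccEquiv' (0 : Fin (m + 1))).trans
            ((Equiv.optionCongr σ').trans (finSuccEquiv' j₀).symm))
            ((0 : Fin (m + 1)).succAbove i') = j₀.succAbove (σ' i') := by
          rw [Equiv.trans_apply, Equiv.trans_apply, finSuccEquiv'_succAbove]
          simp
        rw [h]
        exact hσ' i'

theorem result {m n : ℕ} {A : Fin m → Type*} {B : Fin n → Type*} [∀ i, Group (A i)] [∀ j, Group (B j)] [∀ i, Finite (A i)] [∀ j, Finite (B j)] (hA : ∀ i, Nontrivial (A i) ∧ ∀ H K : Subgroup (A i), H.Normal → K.Normal → H ⊓ K = ⊥ → H ⊔ K = ⊤ → H = ⊥ ∨ K = ⊥) (hB : ∀ j, Nontrivial (B j) ∧ ∀ H K : Subgroup (B j), H.Normal → K.Normal → H ⊓ K = ⊥ → H ⊔ K = ⊤ → H = ⊥ ∨ K = ⊥) (e : ((i : Fin m) → A i) ≃* ((j : Fin n) → B j)) : ∃ σ : Fin m ≃ Fin n, ∀ i, Nonempty (A i ≃* B (σ i)) := by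
  exact main m n A B hA hB e

end Cfsg.Agent.S4223
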