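import Mathlib
import Cfsg.Statements.S4224
import Cfsg.Agent.Lib.Helper22.Regular

set_option autoImplicit false
open Cfsg

namespace Cfsg.Agent.S4224

open Cfsg.Agent.Lib.Helper22.Regular

theorem result {G : Type*} [Group G] [Finite G] {p : ℕ} [Fact p.Prime] (hG : Cfsg.IsRegularPGroup p G) (a b : G) (k : ℕ) : a ^ p ^ k * b = b * a ^ p ^ k ↔ (a⁻¹ * b⁻¹ * a * b) ^ p ^ k = 1 := by
  have hconjpow : (b⁻¹ * a * b) ^ p ^ k = b⁻¹ * a ^ p ^ k * b := by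
    have e : b⁻¹ * a * b = b⁻¹ * a * b⁻¹⁻¹ := by rw [inv_inv]
    rw [e, conj_pow, inv_inv]
  constructor
  · intro h
    have h1 : a ^ p ^ k = (b⁻¹ * a * b) ^ p ^ k := by
      rw [hconjpow, mul_assoc, h, inv_mul_cancel_left]
    have h2 := cor2 hG a (b⁻¹ * a * b) k h1
    have e : a⁻¹ * (b⁻¹ * a * b) = a⁻¹ * b⁻¹ * a * b := by group
    rwa [e] at h2
  · intro h
    have h1 : (a * (a⁻¹ * b⁻¹ * a * b) * a⁻¹) ^ p ^ k = 1 := by
      rw [conj_pow, h, mul_one, mul_inv_cancel]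
    have h2 := cor4 hG (a * (a⁻¹ * b⁻¹ * a * b) * a⁻¹) a k h1
    have e : a * (a⁻¹ * b⁻¹ * a * b) * a⁻¹ * a = b⁻¹ * a * b := by group
    rw [e, hconjpow] at h2
    calc a ^ p ^ k * b = b * (b⁻¹ * a ^ p ^ k * b) := by group
      _ = b * a ^ p ^ k := by rw [h2]

end Cfsg.Agent.S4224
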