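import Mathlib
import Cfsg.Statements.S4225
import Cfsg.Agent.Lib.Helper22.Regular

set_option autoImplicit false
open Cfsg

namespace Cfsg.Agent.S4225

open Cfsg.Agent.Lib.Helper22.Regular

theorem result {G : Type*} [Group G] [Finite G] {p : ℕ} [Fact p.Prime] (hG : Cfsg.IsRegularPGroup p G) (k : ℕ) : ∃ H : Subgroup G, H.Characteristic ∧ (H : Set G) = {x : G | x ^ p ^ k = 1} := by
  refine ⟨{ carrier := {x : G | x ^ p ^ k = 1}
            mul_mem' := fun {x y} hx hy => cor1 hG x y k hx hy
            one_mem' := one_pow _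
            inv_mem' := fun {x} hx => by
              show (x⁻¹) ^ p ^ k = 1
              rw [inv_pow, show x ^ p ^ k = 1 from hx, inv_one] }, ?_, rfl⟩
  rw [Subgroup.characteristic_iff_le_comap]
  intro ϕ x hx
  show (ϕ x) ^ p ^ k = 1
  rw [← map_pow, show x ^ p ^ k = 1 from hx, map_one]

end Cfsg.Agent.S4225
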