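import Mathlib
import Cfsg.Statements.S4227
import Cfsg.Agent.S0144
import Cfsg.Agent.S0635
import Cfsg.Agent.Lib.Helper9.Cores
import Cfsg.Agent.Lib.Helper10.PLength
import Cfsg.Agent.Lib.Helper12.Balance

set_option autoImplicit false
open Cfsg

namespace Cfsg.Agent.S4227

universe u

theorem a4_abs {M : Type*} [CommGroup M] (hexp : ∀ u : M, u ^ 3 = 1)
    (X F₁ F₂ F₃ : MulAut M)
    (hF1 : F₁ * F₁ = 1) (hF2 : F₂ * F₂ = 1)
    (hP : F₁ * F₂ * F₃ = 1) (hC : F₁ * F₂ = F₂ * F₁)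
    (c12 : F₁ * X = X * F₂) (c23 : F₂ * X = X * F₃) (c31 : F₃ * X = X * F₁)
    (hX : ∀ u : M, u * X u * X (X u) = 1)
    (h1 : ∀ u : M, u * (X * F₁) u * (X * F₁) ((X * F₁) u) = 1)
    (h2 : ∀ u : M, u * (X * F₂) u * (X * F₂) ((X * F₂) u) = 1)
    (h3 : ∀ u : M, u * (X * F₃) u * (X * F₃) ((X * F₃) u) = 1) :
    ∀ u : M, F₁ u = u := by
  have e12 : (F₁ * F₂) * (F₁ * F₂) = 1 := by
    calc (F₁ * F₂) * (F₁ * F₂) = F₁ * (F₂ * F₁) * F₂ := by group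
      _ = F₁ * (F₁ * F₂) * F₂ := by rw [hC]
      _ = (F₁ * F₁) * (F₂ * F₂) := by group
      _ = 1 := by rw [hF1, hF2, one_mul]
  have e3 : F₃ = F₁ * F₂ := by
    have h := eq_inv_of_mul_eq_one_right hP
    rw [h]
    exact inv_eq_of_mul_eq_one_right e12
  subst e3
  have a1 : ∀ u : M, F₁ (F₁ u) = u := fun u => by
    simpa only [MulAut.mul_apply, MulAut.one_apply] using DFunLike.congr_fun hF1 u
  have a2 : ∀ u : M, F₂ (F₂ u) = u := fun u => by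
    simpa only [MulAut.mul_apply, MulAut.one_apply] using DFunLike.congr_fun hF2 u
  have cm : ∀ u : M, F₁ (F₂ u) = F₂ (F₁ u) := fun u => by
    simpa only [MulAut.mul_apply] using DFunLike.congr_fun hC u
  have d12 : ∀ w : M, F₁ (X w) = X (F₂ w) := fun w => by
    simpa only [MulAut.mul_apply] using DFunLike.congr_fun c12 w
  have d23 : ∀ w : M, F₂ (X w) = X (F₁ (F₂ w)) := fun w => by
    simpa only [MulAut.mul_apply] using DFunLike.congr_fun c23 w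
  have d31 : ∀ w : M, F₁ (F₂ (X w)) = X (F₁ w) := fun w => by
    simpa only [MulAut.mul_apply] using DFunLike.congr_fun c31 w
  have key : ∀ u : M, F₁ u * F₂ u * F₁ (F₂ u) = 1 := by
    intro u
    have g1 : u * X (F₁ u) * X (X (F₁ (F₂ u))) = 1 := by
      have h := h1 u
      simp only [MulAut.mul_apply] at h
      rw [d12 (F₁ u), ← cm u] at h
      exact h
    have g2 : u * X (F₂ u) * X (X (F₁ u)) = 1 := by
      have h := h2 u
      simp only [MulAut.mul_apply] at h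
      rw [d23 (F₂ u), a2 u] at h
      exact h
    have g3 : u * X (F₁ (F₂ u)) * X (X (F₂ u)) = 1 := by
      have h := h3 u
      simp only [MulAut.mul_apply] at h
      rw [d31 (F₁ (F₂ u)), a1 (F₂ u)] at h
      exact h
    have hu3 : u * u * u = 1 := by
      have h := hexp u
      rwa [pow_succ, pow_two] at h
    have hS := hX (F₁ u * F₂ u * F₁ (F₂ u))
    simp only [map_mul] at hS
    have hprod : (u * X (F₁ u) * X (X (F₁ (F₂ u)))) * (u * X (F₂ u) * X (X (F₁ u)))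
        * (u * X (F₁ (F₂ u)) * X (X (F₂ u)))
        = (u * u * u) * ((X (F₁ u) * X (F₂ u) * X (F₁ (F₂ u)))
          * (X (X (F₁ u)) * X (X (F₂ u)) * X (X (F₁ (F₂ u))))) := by ac_rfl
    rw [g1, g2, g3, hu3, one_mul, one_mul, one_mul] at hprod
    rw [mul_assoc, ← hprod, mul_one] at hS
    exact hS
  intro u
  have k1 := key u
  have k2 := key (F₁ u)
  rw [a1 u, ← cm u, a1 (F₂ u)] at k2
  have k3 : F₁ u * (F₂ u * F₁ (F₂ u)) = u * (F₂ u * F₁ (F₂ u)) := by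
    rw [← mul_assoc, k1, mul_comm (F₂ u), ← mul_assoc, k2]
  exact mul_right_cancel k3

theorem a4 {H : Type*} [Group H] (h6 : ∀ g : H, g ^ 6 = 1) (Zs Vc : Subgroup H)
    [hZn : Zs.Normal] [hVn : Vc.Normal]
    (hab : ∀ a ∈ Zs, ∀ b ∈ Zs, a * b = b * a) (h3 : ∀ a ∈ Zs, a ^ 3 = 1)
    (hVc : ∀ v ∈ Vc, ∀ a ∈ Zs, v * a = a * v)
    (x t : H) (hx3 : x ^ 3 = 1) (ht2 : t ^ 2 = 1)
    (hR1 : t * (x⁻¹ * t * x) * (x⁻¹ * (x⁻¹ * t * x) * x) ∈ Vc)
    (hR2 : t * (x⁻¹ * t * x) * t⁻¹ * (x⁻¹ * t * x)⁻¹ ∈ Vc)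
    (hY : (x * t) ^ 3 ∈ Vc) :
    ∀ a ∈ Zs, t * a = a * t := by
  classical
  letI instC : CommGroup Zs :=
    { (inferInstance : Group Zs) with
      mul_comm := fun a b => Subtype.ext (hab a.1 a.2 b.1 b.2) }
  let ψ : H →* MulAut Zs := MulAut.conjNormal
  have hψ : ∀ (g : H) (u : Zs), ((ψ g u : Zs) : H) = g * u * g⁻¹ :=
    fun g u => MulAut.conjNormal_apply g u
  have hψV : ∀ v ∈ Vc, ψ v = 1 := by
    intro v hv
    apply MulEquiv.ext
    intro u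
    apply Subtype.ext
    rw [hψ, MulAut.one_apply, hVc v hv u.1 u.2, mul_assoc, mul_inv_cancel, mul_one]
  have hexp : ∀ u : Zs, u ^ 3 = 1 := fun u => Subtype.ext (h3 u.1 u.2)
  have hrel : ∀ y : H, y ^ 3 ∈ Vc → ∀ u : Zs, u * ψ y u * ψ y (ψ y u) = 1 := by
    intro y hy u
    have hW : ((u * ψ y u * ψ y (ψ y u) : Zs) : H)
        = (u : H) * (y * u * y⁻¹) * (y * (y * u * y⁻¹) * y⁻¹) := rfl
    obtain ⟨W, hWdef⟩ : ∃ W : H, W = (u : H) * (y * u * y⁻¹) * (y * (y * u * y⁻¹) * y⁻¹) :=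
      ⟨_, rfl⟩
    have hWZ : W ∈ Zs := by
      rw [hWdef, ← hW]
      exact (u * ψ y u * ψ y (ψ y u)).2
    have hcube : ((u : H) * y) ^ 3 = W * y ^ 3 := by
      have e3 : ((u : H) * y) ^ 3 = (u : H) * y * ((u : H) * y) * ((u : H) * y) := by
        rw [pow_succ, pow_two]
      rw [e3, hWdef]
      group
    have h6y : y ^ 3 * y ^ 3 = 1 := by
      rw [← pow_add]
      exact h6 y
    have hsix : ((u : H) * y) ^ 6 = W * W := by
      calc ((u : H) * y) ^ 6 = (((u : H) * y) ^ 3) ^ 2 := pow_mul _ 3 2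
        _ = (W * y ^ 3) * (W * y ^ 3) := by rw [hcube, pow_two]
        _ = W * (y ^ 3 * W) * y ^ 3 := by group
        _ = W * (W * y ^ 3) * y ^ 3 := by rw [hVc (y ^ 3) hy W hWZ]
        _ = W * W * (y ^ 3 * y ^ 3) := by group
        _ = W * W := by rw [h6y, mul_one]
    have hWW : W * W = 1 := by
      rw [← hsix]
      exact h6 _
    have hW3 : W ^ 3 = 1 := h3 W hWZ
    have hW1 : W = 1 := by
      have h4 : W ^ 3 = W * W * W := by rw [pow_succ, pow_two]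
      rw [h4, hWW, one_mul] at hW3
      exact hW3
    apply Subtype.ext
    exact hW.trans (hWdef.symm.trans hW1)
  have hx3' : x * x * x = 1 := by
    rw [← pow_two, ← pow_succ]
    exact hx3
  have hxi : x⁻¹ * x⁻¹ = x := by
    calc x⁻¹ * x⁻¹ = x⁻¹ * x⁻¹ * (x * x * x) := by rw [hx3', mul_one]
      _ = x := by group
  have htt : t * t = 1 := by
    rw [← pow_two]
    exact ht2
  have hF1 : ψ t * ψ t = 1 := by
    rw [← map_mul, htt, map_one]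
  have hF2 : ψ (x⁻¹ * t * x) * ψ (x⁻¹ * t * x) = 1 := by
    have h : (x⁻¹ * t * x) * (x⁻¹ * t * x) = 1 := by
      calc (x⁻¹ * t * x) * (x⁻¹ * t * x) = x⁻¹ * (t * t) * x := by group
        _ = 1 := by rw [htt]; group
    rw [← map_mul, h, map_one]
  have hP : ψ t * ψ (x⁻¹ * t * x) * ψ (x⁻¹ * (x⁻¹ * t * x) * x) = 1 := by
    rw [← map_mul, ← map_mul]
    exact hψV _ hR1
  have hC : ψ t * ψ (x⁻¹ * t * x) = ψ (x⁻¹ * t * x) * ψ t := by
    have h := hψV _ hR2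
    rw [map_mul, map_mul, map_mul, map_inv, map_inv] at h
    exact mul_inv_eq_iff_eq_mul.1 (mul_inv_eq_one.1 h)
  have c12 : ψ t * ψ x = ψ x * ψ (x⁻¹ * t * x) := by
    rw [← map_mul, ← map_mul]
    congr 1
    group
  have c23 : ψ (x⁻¹ * t * x) * ψ x = ψ x * ψ (x⁻¹ * (x⁻¹ * t * x) * x) := by
    rw [← map_mul, ← map_mul]
    congr 1
    group
  have c31 : ψ (x⁻¹ * (x⁻¹ * t * x) * x) * ψ x = ψ x * ψ t := by
    rw [← map_mul, ← map_mul]
    congr 1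
    calc x⁻¹ * (x⁻¹ * t * x) * x * x = x⁻¹ * x⁻¹ * t * (x * x * x) := by group
      _ = x * t := by rw [hx3', mul_one, hxi]
  have hX : ∀ u : Zs, u * ψ x u * ψ x (ψ x u) = 1 :=
    hrel x (by rw [hx3]; exact Vc.one_mem)
  have hY2 : (x * (x⁻¹ * t * x)) ^ 3 ∈ Vc := by
    have h := hVn.conj_mem _ hY x⁻¹
    have e : x * (x⁻¹ * t * x) = x⁻¹ * (x * t) * x⁻¹⁻¹ := by group
    rw [e, conj_pow]
    exact h
  have hY3 : (x * (x⁻¹ * (x⁻¹ * t * x) * x)) ^ 3 ∈ Vc := by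
    have h := hVn.conj_mem _ hY2 x⁻¹
    have e : x * (x⁻¹ * (x⁻¹ * t * x) * x)
        = x⁻¹ * (x * (x⁻¹ * t * x)) * x⁻¹⁻¹ := by group
    rw [e, conj_pow]
    exact h
  have h1 : ∀ u : Zs, u * (ψ x * ψ t) u * (ψ x * ψ t) ((ψ x * ψ t) u) = 1 := by
    intro u
    have h := hrel (x * t) hY u
    rwa [map_mul ψ x t] at h
  have h2 : ∀ u : Zs, u * (ψ x * ψ (x⁻¹ * t * x)) u
      * (ψ x * ψ (x⁻¹ * t * x)) ((ψ x * ψ (x⁻¹ * t * x)) u) = 1 := by
    intro u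
    have h := hrel (x * (x⁻¹ * t * x)) hY2 u
    rwa [map_mul ψ x (x⁻¹ * t * x)] at h
  have h3' : ∀ u : Zs, u * (ψ x * ψ (x⁻¹ * (x⁻¹ * t * x) * x)) u
      * (ψ x * ψ (x⁻¹ * (x⁻¹ * t * x) * x)) ((ψ x * ψ (x⁻¹ * (x⁻¹ * t * x) * x)) u) = 1 := by
    intro u
    have h := hrel (x * (x⁻¹ * (x⁻¹ * t * x) * x)) hY3 u
    rwa [map_mul ψ x (x⁻¹ * (x⁻¹ * t * x) * x)] at h
  have hfix := a4_abs hexp (ψ x) (ψ t) (ψ (x⁻¹ * t * x)) (ψ (x⁻¹ * (x⁻¹ * t * x) * x))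
    hF1 hF2 hP hC c12 c23 c31 hX h1 h2 h3'
  intro a ha
  have h := congrArg Subtype.val (hfix ⟨a, ha⟩)
  have h' : t * a * t⁻¹ = a := (hψ t ⟨a, ha⟩).symm.trans h
  exact mul_inv_eq_iff_eq_mul.1 h'

theorem centralize {X : Type*} [Group X] [Finite X] (h6 : ∀ g : X, g ^ 6 = 1) (V : Subgroup X)
    [hVn : V.Normal] (hV3 : ∀ v ∈ V, v ^ 3 = 1) (x t : X) (hx3 : x ^ 3 = 1) (ht2 : t ^ 2 = 1)
    (hR1 : t * (x⁻¹ * t * x) * (x⁻¹ * (x⁻¹ * t * x) * x) ∈ V)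
    (hR2 : t * (x⁻¹ * t * x) * t⁻¹ * (x⁻¹ * t * x)⁻¹ ∈ V)
    (hY : (x * t) ^ 3 ∈ V) :
    ∀ v ∈ V, t * v = v * t := by
  classical
  obtain ⟨S, hS⟩ : ∃ S : Set (Subgroup X),
      S = {Y | Y.Normal ∧ Y ≤ V ∧ ∀ a ∈ Y, t * a = a * t} := ⟨_, rfl⟩
  have hbot : (⊥ : Subgroup X) ∈ S := by
    rw [hS]
    refine ⟨inferInstance, bot_le, ?_⟩
    intro a ha
    rw [Subgroup.mem_bot] at ha
    rw [ha, mul_one, one_mul]
  obtain ⟨Y, hYmax⟩ := Set.Finite.exists_maximal (Set.toFinite S) ⟨⊥, hbot⟩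
  have hYS : Y ∈ S := hYmax.prop
  rw [hS] at hYS
  obtain ⟨hYn, hYV, hYt⟩ := hYS
  suffices hVY : V ≤ Y by
    intro v hv
    exact hYt v (hVY hv)
  by_contra hnle
  haveI := hYn
  obtain ⟨π, hπdef⟩ : ∃ π : X →* X ⧸ Y, π = QuotientGroup.mk' Y := ⟨_, rfl⟩
  have hπs : Function.Surjective π := by
    rw [hπdef]
    exact QuotientGroup.mk'_surjective Y
  have hπ1 : ∀ g : X, π g = 1 ↔ g ∈ Y := by
    intro g
    rw [hπdef]
    exact QuotientGroup.eq_one_iff g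
  have h6' : ∀ g : X ⧸ Y, g ^ 6 = 1 := by
    intro g
    obtain ⟨g', rfl⟩ := hπs g
    rw [← map_pow, h6, map_one]
  obtain ⟨Vt, hVtdef⟩ : ∃ Vt : Subgroup (X ⧸ Y), Vt = V.map π := ⟨_, rfl⟩
  haveI hVtn : Vt.Normal := by
    rw [hVtdef]
    exact hVn.map π hπs
  have hVtmem : ∀ g : X ⧸ Y, g ∈ Vt ↔ ∃ v ∈ V, π v = g := by
    intro g
    rw [hVtdef]
    exact Subgroup.mem_map
  obtain ⟨Zt, hZtdef⟩ : ∃ Zt : Subgroup (X ⧸ Y),
      Zt = Vt ⊓ Subgroup.centralizer (Vt : Set (X ⧸ Y)) := ⟨_, rfl⟩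
  haveI hZtn : Zt.Normal := by
    rw [hZtdef]
    infer_instance
  have hZtmem : ∀ g : X ⧸ Y, g ∈ Zt ↔ g ∈ Vt ∧ ∀ w ∈ Vt, w * g = g * w := by
    intro g
    rw [hZtdef, Subgroup.mem_inf, Subgroup.mem_centralizer_iff]
    exact Iff.rfl
  have hVt3 : ∀ a ∈ Vt, a ^ 3 = 1 := by
    intro a ha
    obtain ⟨v, hv, rfl⟩ := (hVtmem a).1 ha
    rw [← map_pow, hV3 v hv, map_one]
  have hcent : ∀ a ∈ Zt, π t * a = a * π t := by
    apply a4 h6' Zt Vt
      (fun a ha b hb => ((hZtmem b).1 hb).2 a ((hZtmem a).1 ha).1)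
      (fun a ha => hVt3 a ((hZtmem a).1 ha).1)
      (fun v hv a ha => ((hZtmem a).1 ha).2 v hv)
      (π x) (π t)
    · rw [← map_pow, hx3, map_one]
    · rw [← map_pow, ht2, map_one]
    · exact (hVtmem _).2 ⟨_, hR1, by simp only [map_mul, map_inv]⟩
    · exact (hVtmem _).2 ⟨_, hR2, by simp only [map_mul, map_inv]⟩
    · exact (hVtmem _).2 ⟨_, hY, by simp only [map_mul, map_pow]⟩
  obtain ⟨v₀, hv₀V, hv₀Y⟩ := SetLike.not_le_iff_exists.1 hnle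
  have hVtP : IsPGroup 3 Vt := by
    intro g
    refine ⟨1, ?_⟩
    apply Subtype.ext
    have h := hVt3 g.1 g.2
    simpa using h
  haveI hVtnt : Nontrivial Vt := by
    refine ⟨⟨⟨π v₀, (hVtmem _).2 ⟨v₀, hv₀V, rfl⟩⟩, 1, ?_⟩⟩
    intro h
    have h' : π v₀ = 1 := congrArg Subtype.val h
    exact hv₀Y ((hπ1 v₀).1 h')
  haveI : Fact (Nat.Prime 3) := ⟨Nat.prime_three⟩
  haveI hcnt : Nontrivial (Subgroup.center Vt) := hVtP.center_nontrivial
  obtain ⟨z, hz⟩ := exists_ne (1 : Subgroup.center Vt)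
  have hzZ : ((z : Vt) : X ⧸ Y) ∈ Zt := by
    rw [hZtmem]
    refine ⟨(z : Vt).2, ?_⟩
    intro w hw
    have h := Subgroup.mem_center_iff.1 z.2 ⟨w, hw⟩
    exact congrArg Subtype.val h
  have hz1 : ((z : Vt) : X ⧸ Y) ≠ 1 := by
    intro h
    apply hz
    apply Subtype.ext
    apply Subtype.ext
    exact h
  obtain ⟨a₀, ha₀V, ha₀⟩ := (hVtmem _).1 ((hZtmem _).1 hzZ).1
  have hY'S : Zt.comap π ∈ S := by
    rw [hS]
    refine ⟨hZtn.comap π, ?_, ?_⟩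
    · intro a ha
      have ha' : π a ∈ Zt := ha
      obtain ⟨v, hv, hva⟩ := (hVtmem _).1 ((hZtmem _).1 ha').1
      have h1 : π (v⁻¹ * a) = 1 := by
        rw [map_mul, map_inv, hva, inv_mul_cancel]
      have h2 : v⁻¹ * a ∈ V := hYV ((hπ1 _).1 h1)
      have h3 : a = v * (v⁻¹ * a) := by group
      rw [h3]
      exact mul_mem hv h2
    · intro a ha
      have ha' : π a ∈ Zt := ha
      have hc := hcent (π a) ha'
      obtain ⟨c, hcdef⟩ : ∃ c : X, c = t * a * t⁻¹ * a⁻¹ := ⟨_, rfl⟩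
      have hcY : c ∈ Y := by
        rw [← hπ1, hcdef, map_mul, map_mul, map_mul, map_inv, map_inv, hc]
        group
      have htt : t * t = 1 := by
        rw [← pow_two]
        exact ht2
      have hca : t * a * t⁻¹ = c * a := by
        rw [hcdef]
        group
      have hct : t * c * t⁻¹ = c := by
        rw [hYt c hcY, mul_assoc, mul_inv_cancel, mul_one]
      have h1 : a = c * c * a := by
        calc a = (t * t) * a * (t * t)⁻¹ := by rw [htt]; group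
          _ = t * (t * a * t⁻¹) * t⁻¹ := by group
          _ = t * (c * a) * t⁻¹ := by rw [hca]
          _ = (t * c * t⁻¹) * (t * a * t⁻¹) := by group
          _ = c * (c * a) := by rw [hct, hca]
          _ = c * c * a := by group
      have hcc : c * c = 1 := by
        have h2 : 1 * a = c * c * a := by
          rw [one_mul]
          exact h1
        exact (mul_right_cancel h2).symm
      have hc3 : c ^ 3 = 1 := hV3 c (hYV hcY)
      have hc1 : c = 1 := by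
        have h4 : c ^ 3 = c * c * c := by rw [pow_succ, pow_two]
        rw [h4, hcc, one_mul] at hc3
        exact hc3
      rw [hcdef] at hc1
      exact mul_inv_eq_iff_eq_mul.1 (mul_inv_eq_one.1 hc1)
  have hYY' : Y ≤ Zt.comap π := by
    intro a ha
    have h1 : π a = 1 := (hπ1 a).2 ha
    show π a ∈ Zt
    rw [h1]
    exact Zt.one_mem
  have hle : Zt.comap π ≤ Y := hYmax.2 hY'S hYY'
  have ha₀Y' : a₀ ∈ Zt.comap π := by
    show π a₀ ∈ Zt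
    rw [ha₀]
    exact hzZ
  have h5 : π a₀ = 1 := (hπ1 a₀).2 (hle ha₀Y')
  rw [ha₀] at h5
  exact hz1 h5

theorem sq_of_two {H : Type*} [Group H] (h6 : ∀ g : H, g ^ 6 = 1) (e : H) (k : ℕ)
    (he : e ^ (2 ^ k) = 1) : e ^ 2 = 1 := by
  have h1 : orderOf e ∣ 2 ^ k := orderOf_dvd_of_pow_eq_one he
  have h2 : orderOf e ∣ 6 := orderOf_dvd_of_pow_eq_one (h6 e)
  obtain ⟨j, -, hj⟩ := (Nat.dvd_prime_pow Nat.prime_two).1 h1
  have hj1 : j ≤ 1 := by
    by_contra hcon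
    have hj2 : 2 ≤ j := by omega
    have h4 : 2 ^ 2 ∣ orderOf e := by
      rw [hj]
      exact pow_dvd_pow 2 hj2
    have h5 : 2 ^ 2 ∣ 6 := dvd_trans h4 h2
    norm_num at h5
  apply orderOf_dvd_iff_pow_eq_one.1
  rw [hj]
  have h7 := pow_dvd_pow 2 hj1
  rwa [pow_one] at h7

theorem cube_of_three {H : Type*} [Group H] (h6 : ∀ g : H, g ^ 6 = 1) (e : H) (k : ℕ)
    (he : e ^ (3 ^ k) = 1) : e ^ 3 = 1 := by
  have h1 : orderOf e ∣ 3 ^ k := orderOf_dvd_of_pow_eq_one he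
  have h2 : orderOf e ∣ 6 := orderOf_dvd_of_pow_eq_one (h6 e)
  obtain ⟨j, -, hj⟩ := (Nat.dvd_prime_pow Nat.prime_three).1 h1
  have hj1 : j ≤ 1 := by
    by_contra hcon
    have hj2 : 2 ≤ j := by omega
    have h4 : 3 ^ 2 ∣ orderOf e := by
      rw [hj]
      exact pow_dvd_pow 3 hj2
    have h5 : 3 ^ 2 ∣ 6 := dvd_trans h4 h2
    norm_num at h5
  apply orderOf_dvd_iff_pow_eq_one.1
  rw [hj]
  have h7 := pow_dvd_pow 3 hj1
  rwa [pow_one] at h7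

theorem comm_of_sq {H : Type*} [Group H] (a b : H) (ha : a ^ 2 = 1) (hb : b ^ 2 = 1)
    (hab : (a * b) ^ 2 = 1) : a * b = b * a := by
  have ha' : a * a = 1 := by rw [← pow_two]; exact ha
  have hb' : b * b = 1 := by rw [← pow_two]; exact hb
  have hab' : a * b * (a * b) = 1 := by rw [← pow_two]; exact hab
  calc a * b = a * (a * b * (a * b)) * b := by rw [hab', mul_one]
    _ = (a * a) * (b * a) * (b * b) := by group
    _ = b * a := by rw [ha', hb', one_mul, mul_one]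

theorem core2 {X : Type u} [Group X] [Finite X] [Group.IsSolvable X] (h6 : ∀ g : X, g ^ 6 = 1)
    (hK : pPrimeCore 2 X = ⊥) : ¬ 2 ∣ (pCore 2 X).index := by
  have hHH := Cfsg.Agent.Lib.Helper12.Balance.hh_solvable X 2 hK
  obtain ⟨P⟩ : Nonempty (Sylow 2 X) := inferInstance
  have hle : pCore 2 X ≤ (P : Subgroup X) :=
    Cfsg.Agent.S0635.le_sylow_of_normal (pCore 2 X) (Cfsg.Agent.Lib.Helper9.pCore_isPGroup 2 X) P
  have hP2 : ∀ a ∈ (P : Subgroup X), a ^ 2 = 1 := by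
    intro a ha
    obtain ⟨k, hk⟩ := P.isPGroup' ⟨a, ha⟩
    exact sq_of_two h6 a k (congrArg Subtype.val hk)
  have hPle : (P : Subgroup X) ≤ pCore 2 X := by
    intro g hg
    apply hHH
    rw [Subgroup.mem_centralizer_iff]
    intro h hh
    have hh' : h ∈ (P : Subgroup X) := hle hh
    exact comm_of_sq h g (hP2 h hh') (hP2 g hg) (hP2 _ (mul_mem hh' hg))
  have heq : pCore 2 X = (P : Subgroup X) := le_antisymm hle hPle
  rw [heq]
  exact P.not_dvd_index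

theorem core3 {X : Type u} [Group X] [Finite X] [Group.IsSolvable X] (h6 : ∀ g : X, g ^ 6 = 1)
    (hK : pPrimeCore 3 X = ⊥) : ¬ 3 ∣ (pCore 3 X).index := by
  intro hdvd
  haveI : Fact (Nat.Prime 3) := ⟨Nat.prime_three⟩
  have hHH := Cfsg.Agent.Lib.Helper12.Balance.hh_solvable X 3 hK
  have hV3 : ∀ v ∈ pCore 3 X, v ^ 3 = 1 := by
    intro v hv
    obtain ⟨k, hk⟩ := Cfsg.Agent.Lib.Helper9.pCore_isPGroup 3 X ⟨v, hv⟩
    exact cube_of_three h6 v k (congrArg Subtype.val hk)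
  have h6Q : ∀ g : X ⧸ pCore 3 X, g ^ 6 = 1 := by
    intro g
    obtain ⟨g', rfl⟩ := QuotientGroup.mk_surjective g
    rw [← QuotientGroup.mk_pow, h6]
    rfl
  have hQ3 : pCore 3 (X ⧸ pCore 3 X) = ⊥ := Cfsg.Agent.Lib.Helper9.pCore_quotient_eq_bot 3 X
  have hQ2 : pPrimeCore 2 (X ⧸ pCore 3 X) = ⊥ := by
    rw [eq_bot_iff]
    show sSup {N : Subgroup (X ⧸ pCore 3 X) | N.Normal ∧ (Nat.card N).Coprime 2} ≤ ⊥
    apply sSup_le
    rintro N ⟨hNn, hNc⟩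
    rw [← hQ3]
    apply Cfsg.Agent.Lib.Helper9.le_pCore hNn
    intro g
    refine ⟨1, ?_⟩
    have ho1 : orderOf (g : X ⧸ pCore 3 X) ∣ 6 := orderOf_dvd_of_pow_eq_one (h6Q g)
    have ho2 : orderOf (g : X ⧸ pCore 3 X) ∣ Nat.card N := Subgroup.orderOf_dvd_natCard N g.2
    have ho3 : (orderOf (g : X ⧸ pCore 3 X)).Coprime 2 := Nat.Coprime.coprime_dvd_left ho2 hNc
    have ho4 : orderOf (g : X ⧸ pCore 3 X) ∣ 3 := by
      have ho5 : orderOf (g : X ⧸ pCore 3 X) ∣ 2 * 3 := ho1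
      exact (Nat.Coprime.dvd_mul_left ho3).1 ho5
    apply Subtype.ext
    have ho6 := orderOf_dvd_iff_pow_eq_one.1 ho4
    simpa using ho6
  have hE : ∀ e ∈ pCore 2 (X ⧸ pCore 3 X), e ^ 2 = 1 := by
    intro e he
    obtain ⟨k, hk⟩ := Cfsg.Agent.Lib.Helper9.pCore_isPGroup 2 (X ⧸ pCore 3 X) ⟨e, he⟩
    exact sq_of_two h6Q e k (congrArg Subtype.val hk)
  have hEn : (pCore 2 (X ⧸ pCore 3 X)).Normal := inferInstance
  have hEcomm : ∀ a ∈ pCore 2 (X ⧸ pCore 3 X), ∀ b ∈ pCore 2 (X ⧸ pCore 3 X), a * b = b * a :=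
    fun a ha b hb => comm_of_sq a b (hE a ha) (hE b hb) (hE _ (mul_mem ha hb))
  have hHHQ := Cfsg.Agent.Lib.Helper12.Balance.hh_solvable (X ⧸ pCore 3 X) 2 hQ2
  have hcardQ : 3 ∣ Nat.card (X ⧸ pCore 3 X) := by
    rw [← Subgroup.index_eq_card]
    exact hdvd
  obtain ⟨xb, hxb⟩ := exists_prime_orderOf_dvd_card' (G := X ⧸ pCore 3 X) 3 hcardQ
  have hxb3 : xb ^ 3 = 1 := by
    have h := pow_orderOf_eq_one xb
    rwa [hxb] at h
  have hxbE : xb ∉ pCore 2 (X ⧸ pCore 3 X) := by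
    intro hmem
    have h2 := hE xb hmem
    have h1 : xb = 1 := by
      calc xb = xb ^ 3 * (xb ^ 2)⁻¹ := by group
        _ = 1 := by rw [hxb3, h2, inv_one, mul_one]
    rw [h1, orderOf_one] at hxb
    omega
  obtain ⟨e, heE, hne⟩ : ∃ e ∈ pCore 2 (X ⧸ pCore 3 X), e * xb ≠ xb * e := by
    by_contra hcon
    push_neg at hcon
    apply hxbE
    apply hHHQ
    rw [Subgroup.mem_centralizer_iff]
    exact hcon
  have hxb3' : xb * xb * xb = 1 := by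
    rw [← pow_two, ← pow_succ]
    exact hxb3
  obtain ⟨e₂, he₂def⟩ : ∃ e₂, e₂ = xb⁻¹ * e * xb := ⟨_, rfl⟩
  obtain ⟨e₃, he₃def⟩ : ∃ e₃, e₃ = xb⁻¹ * e₂ * xb := ⟨_, rfl⟩
  have he₂E : e₂ ∈ pCore 2 (X ⧸ pCore 3 X) := by
    have h := hEn.conj_mem e heE xb⁻¹
    rw [inv_inv] at h
    rw [he₂def]
    exact h
  have he₃E : e₃ ∈ pCore 2 (X ⧸ pCore 3 X) := by
    have h := hEn.conj_mem e₂ he₂E xb⁻¹
    rw [inv_inv] at h
    rw [he₃def]
    exact h
  have hconj3 : xb⁻¹ * e₃ * xb = e := by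
    rw [he₃def, he₂def]
    calc xb⁻¹ * (xb⁻¹ * (xb⁻¹ * e * xb) * xb) * xb
        = (xb * xb * xb)⁻¹ * e * (xb * xb * xb) := by group
      _ = e := by rw [hxb3', inv_one, one_mul, mul_one]
  have hee : e * e = 1 := by rw [← pow_two]; exact hE e heE
  have he₂e₂ : e₂ * e₂ = 1 := by rw [← pow_two]; exact hE e₂ he₂E
  have he₃e₃ : e₃ * e₃ = 1 := by rw [← pow_two]; exact hE e₃ he₃E
  have hf₂ : xb⁻¹ * (e * e₂) * xb = e₂ * e₃ := by
    rw [he₃def, he₂def]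
    group
  have hf₃ : xb⁻¹ * (e₂ * e₃) * xb = e₃ * e := by
    calc xb⁻¹ * (e₂ * e₃) * xb = (xb⁻¹ * e₂ * xb) * (xb⁻¹ * e₃ * xb) := by group
      _ = e₃ * e := by rw [← he₃def, hconj3]
  have hf₁E : e * e₂ ∈ pCore 2 (X ⧸ pCore 3 X) := mul_mem heE he₂E
  have hf₂E : e₂ * e₃ ∈ pCore 2 (X ⧸ pCore 3 X) := mul_mem he₂E he₃E
  have hR1Q : (e * e₂) * (xb⁻¹ * (e * e₂) * xb) * (xb⁻¹ * (xb⁻¹ * (e * e₂) * xb) * xb) = 1 := by
    rw [hf₂, hf₃]
    calc e * e₂ * (e₂ * e₃) * (e₃ * e) = e * (e₂ * e₂) * (e₃ * e₃) * e := by group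
      _ = 1 := by rw [he₂e₂, he₃e₃, mul_one, mul_one, hee]
  have hR2Q : (e * e₂) * (xb⁻¹ * (e * e₂) * xb) * (e * e₂)⁻¹ * (xb⁻¹ * (e * e₂) * xb)⁻¹ = 1 := by
    rw [hf₂, hEcomm (e * e₂) hf₁E (e₂ * e₃) hf₂E]
    group
  have hYQ : (xb * (e * e₂)) ^ 3 = 1 := by
    have c1 : e * e₂ = e₂ * e := hEcomm e heE e₂ he₂E
    have c2 : e * e₃ = e₃ * e := hEcomm e heE e₃ he₃E
    have c3 : e₂ * e₃ = e₃ * e₂ := hEcomm e₂ he₂E e₃ he₃E
    calc (xb * (e * e₂)) ^ 3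
        = (xb * (e * e₂)) * (xb * (e * e₂)) * (xb * (e * e₂)) := by rw [pow_succ, pow_two]
      _ = (xb * xb * xb) * (xb⁻¹ * (xb⁻¹ * (e * e₂) * xb) * xb) * (xb⁻¹ * (e * e₂) * xb)
          * (e * e₂) := by group
      _ = (e₃ * e) * (e₂ * e₃) * (e * e₂) := by rw [hxb3', one_mul, hf₂, hf₃]
      _ = (e * e₃) * (e₃ * e₂) * (e₂ * e) := by rw [← c2, c3, c1]
      _ = e * (e₃ * e₃) * (e₂ * e₂) * e := by group
      _ = 1 := by rw [he₃e₃, he₂e₂, mul_one, mul_one, hee]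
  obtain ⟨x₀, hx₀⟩ := QuotientGroup.mk_surjective xb
  obtain ⟨t₀, ht₀⟩ := QuotientGroup.mk_surjective (e * e₂)
  have hx12 : x₀ ^ 12 = 1 := by
    calc x₀ ^ 12 = (x₀ ^ 6) ^ 2 := pow_mul x₀ 6 2
      _ = 1 := by rw [h6 x₀, one_pow]
  obtain ⟨x, hxdef⟩ : ∃ x : X, x = x₀ ^ 4 := ⟨_, rfl⟩
  obtain ⟨t, htdef⟩ : ∃ t : X, t = t₀ ^ 3 := ⟨_, rfl⟩
  have hx3 : x ^ 3 = 1 := by
    rw [hxdef]
    exact (pow_mul x₀ 4 3).symm.trans hx12
  have ht2 : t ^ 2 = 1 := by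
    rw [htdef]
    exact (pow_mul t₀ 3 2).symm.trans (h6 t₀)
  have hxmk : ((x : X) : X ⧸ pCore 3 X) = xb := by
    rw [hxdef, QuotientGroup.mk_pow, hx₀]
    calc xb ^ 4 = xb ^ 3 * xb := pow_succ xb 3
      _ = xb := by rw [hxb3, one_mul]
  have htmk : ((t : X) : X ⧸ pCore 3 X) = e * e₂ := by
    rw [htdef, QuotientGroup.mk_pow, ht₀]
    have hsq : (e * e₂) ^ 2 = 1 := hE _ hf₁E
    calc (e * e₂) ^ 3 = (e * e₂) ^ 2 * (e * e₂) := pow_succ _ 2
      _ = e * e₂ := by rw [hsq, one_mul]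
  have hR1 : t * (x⁻¹ * t * x) * (x⁻¹ * (x⁻¹ * t * x) * x) ∈ pCore 3 X := by
    rw [← QuotientGroup.eq_one_iff]
    simp only [QuotientGroup.mk_mul, QuotientGroup.mk_inv, hxmk, htmk]
    exact hR1Q
  have hR2 : t * (x⁻¹ * t * x) * t⁻¹ * (x⁻¹ * t * x)⁻¹ ∈ pCore 3 X := by
    rw [← QuotientGroup.eq_one_iff]
    simp only [QuotientGroup.mk_mul, QuotientGroup.mk_inv, hxmk, htmk]
    exact hR2Q
  have hY : (x * t) ^ 3 ∈ pCore 3 X := by
    rw [← QuotientGroup.eq_one_iff]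
    simp only [QuotientGroup.mk_pow, QuotientGroup.mk_mul, hxmk, htmk]
    exact hYQ
  have hcen := centralize h6 (pCore 3 X) hV3 x t hx3 ht2 hR1 hR2 hY
  have htV : t ∈ pCore 3 X := by
    apply hHH
    rw [Subgroup.mem_centralizer_iff]
    intro v hv
    exact (hcen v hv).symm
  have hmk1 : e * e₂ = 1 := by
    rw [← htmk]
    exact (QuotientGroup.eq_one_iff t).2 htV
  have h1 : e₂ = e := mul_left_cancel (a := e) (by rw [hmk1, hee])
  apply hne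
  calc e * xb = xb * (xb⁻¹ * e * xb) := by group
    _ = xb * e := by rw [← he₂def, h1]

theorem plen_of_core {G : Type u} [Group G] [Finite G] (p : ℕ) (hp : p.Prime)
    (hcore : ¬ p ∣ (pCore p (G ⧸ pPrimeCore p G)).index) :
    PLengthLE p 1 G := by
  show (upperPSeries p G 3).1 = ⊤
  obtain ⟨U₂, hU₂⟩ : ∃ U₂ : Subgroup G, U₂ = (upperPSeries p G 2).1 := ⟨_, rfl⟩
  haveI hn2 : U₂.Normal := hU₂ ▸ upperPSeries_normal p G 2
  have e3 : (upperPSeries p G 3).1 = (pPrimeCore p (G ⧸ U₂)).comap (QuotientGroup.mk' U₂) := by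
    subst hU₂
    exact Cfsg.Agent.Lib.Helper10.PLength.upper_three p
  have hU₂' : U₂ = (pCore p (G ⧸ pPrimeCore p G)).comap (QuotientGroup.mk' (pPrimeCore p G)) := by
    rw [hU₂, Cfsg.Agent.S0635.ups_two]
    rfl
  have hidx : U₂.index = (pCore p (G ⧸ pPrimeCore p G)).index := by
    rw [hU₂']
    exact Subgroup.index_comap_of_surjective _ (QuotientGroup.mk'_surjective _)
  have hcop : (Nat.card (G ⧸ U₂)).Coprime p := by
    rw [← Subgroup.index_eq_card, hidx, Nat.coprime_comm]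
    exact (Nat.Prime.coprime_iff_not_dvd hp).2 hcore
  have htop : pPrimeCore p (G ⧸ U₂) = ⊤ := by
    rw [eq_top_iff]
    apply Cfsg.Agent.Lib.Helper9.le_pPrimeCore (inferInstance : (⊤ : Subgroup (G ⧸ U₂)).Normal)
    rw [Subgroup.card_top]
    exact hcop
  rw [e3, htop, Subgroup.comap_top]

theorem card_two_three {G : Type*} [Group G] [Finite G] (h : ∀ x : G, x ^ 6 = 1) :
    ∃ a b : ℕ, Nat.card G = 2 ^ a * 3 ^ b := by
  have hpos : Nat.card G ≠ 0 := Nat.card_pos.ne'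
  have hprime : ∀ r : ℕ, r.Prime → r ∣ Nat.card G → r = 2 ∨ r = 3 := by
    intro r hr hrd
    haveI : Fact r.Prime := ⟨hr⟩
    obtain ⟨g, hg⟩ := exists_prime_orderOf_dvd_card' (G := G) r hrd
    have h1 : r ∣ 2 * 3 := by
      rw [← hg]
      exact orderOf_dvd_of_pow_eq_one (h g)
    rcases (Nat.Prime.dvd_mul hr).1 h1 with h3 | h3
    · left
      exact (Nat.prime_dvd_prime_iff_eq hr Nat.prime_two).1 h3
    · right
      exact (Nat.prime_dvd_prime_iff_eq hr Nat.prime_three).1 h3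
  obtain ⟨a, m, hm2, hm⟩ := Nat.exists_eq_pow_mul_and_not_dvd hpos 2 (by norm_num)
  have hm0 : m ≠ 0 := by
    rintro rfl
    exact hm2 (dvd_zero 2)
  obtain ⟨b, m', hm3, hm'⟩ := Nat.exists_eq_pow_mul_and_not_dvd hm0 3 (by norm_num)
  have hm'1 : m' = 1 := by
    by_contra hne
    obtain ⟨r, hr, hrd⟩ := Nat.exists_prime_and_dvd hne
    have hrm : r ∣ m := by
      rw [hm']
      exact dvd_mul_of_dvd_right hrd _
    have hrG : r ∣ Nat.card G := by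
      rw [hm]
      exact dvd_mul_of_dvd_right hrm _
    rcases hprime r hr hrG with h2 | h2
    · rw [h2] at hrm
      exact hm2 hrm
    · rw [h2] at hrd
      exact hm3 hrd
  refine ⟨a, b, ?_⟩
  rw [hm, hm', hm'1, mul_one]

theorem result {G : Type*} [Group G] [Finite G] (h : ∀ x : G, x ^ 6 = 1) : Cfsg.PLengthLE 2 1 G ∧ Cfsg.PLengthLE 3 1 G := by
  have hsolv : Group.IsSolvable G := by
    obtain ⟨a, b, hab⟩ := card_two_three h
    exact Cfsg.Agent.S0144.result 2 3 a b Nat.prime_two Nat.prime_three hab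
  haveI := hsolv
  constructor
  · apply plen_of_core 2 Nat.prime_two
    apply core2
    · intro g
      obtain ⟨g', rfl⟩ := QuotientGroup.mk_surjective g
      rw [← QuotientGroup.mk_pow, h]
      rfl
    · exact Cfsg.Agent.Lib.Helper9.pPrimeCore_quotient_eq_bot 2 G
  · apply plen_of_core 3 Nat.prime_three
    apply core3
    · intro g
      obtain ⟨g', rfl⟩ := QuotientGroup.mk_surjective g
      rw [← QuotientGroup.mk_pow, h]
      rfl
    · exact Cfsg.Agent.Lib.Helper9.pPrimeCore_quotient_eq_bot 3 G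

end Cfsg.Agent.S4227
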