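import Mathlib
import Cfsg.Statements.S4275

set_option autoImplicit false
open Cfsg

namespace Cfsg.Agent.S4275

theorem result {Ω : Type*} [Fintype Ω] (G : Subgroup (Equiv.Perm Ω)) (htr : MulAction.IsPretransitive G Ω) (o : Ω) (α : G ≃* G) : (∃ σ : Equiv.Perm Ω, σ ∈ Subgroup.normalizer (G : Set (Equiv.Perm Ω)) ∧ ∀ g : G, ((α g : G) : Equiv.Perm Ω) = σ * (g : Equiv.Perm Ω) * σ⁻¹) ↔ ∃ ω : Ω, ∀ g ∈ (MulAction.stabilizer G o).map α.toMonoidHom, g • ω = ω := by
  have hsm : ∀ (g : G) (x : Ω), g • x = (g : Equiv.Perm Ω) x := fun g x => rfl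
  constructor
  · rintro ⟨σ, -, hσ⟩
    refine ⟨σ o, ?_⟩
    rintro _ ⟨g, hg, rfl⟩
    have h1 : (α.toMonoidHom g) • σ o = ((α g : G) : Equiv.Perm Ω) (σ o) := rfl
    rw [h1, hσ g]
    have h2 : g • o = o := hg
    rw [hsm] at h2
    have h3 : (σ * (g : Equiv.Perm Ω) * σ⁻¹) (σ o) = σ ((g : Equiv.Perm Ω) (σ⁻¹ (σ o))) := rfl
    have h4 : σ⁻¹ (σ o) = o := σ.symm_apply_apply o
    rw [h3, h4, h2]
  · rintro ⟨ω, hω⟩
    have hle : (MulAction.stabilizer G o).map α.toMonoidHom ≤ MulAction.stabilizer G ω := by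
      intro g hg
      exact hω g hg
    have hne : Nonempty Ω := ⟨o⟩
    have hcard : Nat.card (MulAction.stabilizer G ω) ≤
        Nat.card ((MulAction.stabilizer G o).map α.toMonoidHom) := by
      have h1 : Nat.card ((MulAction.stabilizer G o).map α.toMonoidHom) =
          Nat.card (MulAction.stabilizer G o) :=
        (Nat.card_congr ((MulAction.stabilizer G o).equivMapOfInjective _ α.injective).toEquiv).symm
      have h2 := MulAction.index_stabilizer_of_transitive G o
      have h3 := MulAction.index_stabilizer_of_transitive G ω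
      have h4 := Subgroup.card_mul_index (MulAction.stabilizer G o)
      have h5 := Subgroup.card_mul_index (MulAction.stabilizer G ω)
      rw [h2] at h4
      rw [h3] at h5
      rw [h1]
      have hpos : 0 < Nat.card Ω := Nat.card_pos
      exact le_of_eq (Nat.eq_of_mul_eq_mul_right hpos (h5.trans h4.symm))
    have heq := Subgroup.eq_of_le_of_card_ge hle hcard
    choose γ hγ using fun x : Ω => MulAction.exists_smul_eq G o x
    let σ : Ω → Ω := fun x => α (γ x) • ω
    have hσ : ∀ g : G, σ (g • o) = α g • ω := by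
      intro g
      have h1 : (g⁻¹ * γ (g • o)) ∈ MulAction.stabilizer G o := by
        rw [MulAction.mem_stabilizer_iff, mul_smul, hγ, inv_smul_smul]
      have h2 : α (g⁻¹ * γ (g • o)) ∈ MulAction.stabilizer G ω := hle ⟨_, h1, rfl⟩
      rw [MulAction.mem_stabilizer_iff, map_mul, map_inv, mul_smul, inv_smul_eq_iff] at h2
      exact h2
    have hinj : Function.Injective σ := by
      intro x y hxy
      have h1 : α ((γ x)⁻¹ * γ y) ∈ MulAction.stabilizer G ω := by
        rw [MulAction.mem_stabilizer_iff, map_mul, map_inv, mul_smul, inv_smul_eq_iff]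
        exact hxy.symm
      rw [← heq] at h1
      obtain ⟨s, hs, hsα⟩ := h1
      have h2 : s = (γ x)⁻¹ * γ y := α.injective hsα
      rw [h2] at hs
      have hs' : ((γ x)⁻¹ * γ y) • o = o := hs
      rw [mul_smul, hγ, inv_smul_eq_iff, hγ] at hs'
      exact hs'.symm
    have hbij : Function.Bijective σ := Finite.injective_iff_bijective.mp hinj
    let σ' : Equiv.Perm Ω := Equiv.ofBijective σ hbij
    have hσ' : ∀ x, σ' x = σ x := fun x => rfl
    have hconj : ∀ g : G, ((α g : G) : Equiv.Perm Ω) = σ' * (g : Equiv.Perm Ω) * σ'⁻¹ := by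
      intro g
      ext x
      obtain ⟨y, rfl⟩ := hbij.2 x
      have h1 : (σ' * (g : Equiv.Perm Ω) * σ'⁻¹) (σ y) = σ ((g : Equiv.Perm Ω) y) := by
        rw [← hσ' y]
        have h3 : (σ' * (g : Equiv.Perm Ω) * σ'⁻¹) (σ' y) = σ' ((g : Equiv.Perm Ω) (σ'⁻¹ (σ' y))) := rfl
        have h4 : σ'⁻¹ (σ' y) = y := σ'.symm_apply_apply y
        rw [h3, h4]
        rfl
      rw [h1]
      have h2 : (g : Equiv.Perm Ω) y = (g * γ y) • o := by
        rw [mul_smul, hγ]
        rfl
      rw [h2, hσ, map_mul, mul_smul]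
      rfl
    refine ⟨σ', ?_, hconj⟩
    rw [Subgroup.mem_normalizer_iff]
    intro h
    constructor
    · intro hh
      have := hconj ⟨h, hh⟩
      rw [← this]
      exact (α ⟨h, hh⟩).2
    · intro hh
      obtain ⟨g', hg'⟩ := α.surjective ⟨_, hh⟩
      have h1 := hconj g'
      rw [hg'] at h1
      have h2 : h = (g' : Equiv.Perm Ω) := by
        have h3 : σ' * h * σ'⁻¹ = σ' * (g' : Equiv.Perm Ω) * σ'⁻¹ := h1
        exact mul_left_cancel (mul_right_cancel h3)
      rw [h2]
      exact g'.2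

end Cfsg.Agent.S4275
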