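import Cfsg.Statements.S4283
import Mathlib
import Cfsg.Agent.S0034

set_option autoImplicit false
open Cfsg

namespace Cfsg.Agent.S4283

open scoped Pointwise

theorem index_centralizer_conj {G : Type*} [Group G] (b y : G) :
    (Subgroup.centralizer ({b * y * b⁻¹} : Set G)).index =
      (Subgroup.centralizer ({y} : Set G)).index := by
  have e : Subgroup.centralizer ({b * y * b⁻¹} : Set G) =
      (Subgroup.centralizer ({y} : Set G)).map ((MulAut.conj b : G ≃* G) : G →* G) := by
    ext g
    rw [Subgroup.mem_map, Subgroup.mem_centralizer_singleton_iff]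
    constructor
    · intro hg
      refine ⟨b⁻¹ * g * b, ?_, ?_⟩
      · rw [Subgroup.mem_centralizer_singleton_iff]
        have e1 : b⁻¹ * g * b * y = b⁻¹ * (g * (b * y * b⁻¹)) * b := by group
        rw [e1, hg]
        group
      · show b * (b⁻¹ * g * b) * b⁻¹ = g
        group
    · rintro ⟨c, hc, rfl⟩
      rw [Subgroup.mem_centralizer_singleton_iff] at hc
      show b * c * b⁻¹ * (b * y * b⁻¹) = b * y * b⁻¹ * (b * c * b⁻¹)
      have e1 : b * c * b⁻¹ * (b * y * b⁻¹) = b * (c * y) * b⁻¹ := by group
      rw [e1, hc]
      group
  rw [e, Subgroup.index_map_equiv]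

theorem result {G : Type*} [Group G] [Finite G] (K H : Subgroup G) (hZK : Subgroup.center G ≤ K) (hZH : Subgroup.center G ≤ H) (hK : IsMulCommutative K) (hH : IsMulCommutative H) (hFrob : Cfsg.IsFrobeniusComplement (H.map (QuotientGroup.mk' (Subgroup.center G)))) (hker : Cfsg.frobeniusKernel (H.map (QuotientGroup.mk' (Subgroup.center G))) = (K.map (QuotientGroup.mk' (Subgroup.center G)) : Set (G ⧸ Subgroup.center G))) : Set.range (fun x : G => (Subgroup.centralizer ({x} : Set G)).index) = ({1, K.index, H.index} : Set ℕ) ∧ K.index.Coprime H.index := by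
  have hπs : Function.Surjective (QuotientGroup.mk' (Subgroup.center G)) :=
    QuotientGroup.mk'_surjective _
  have hkerπ : (QuotientGroup.mk' (Subgroup.center G)).ker = Subgroup.center G :=
    QuotientGroup.ker_mk' _
  have memK : ∀ g : G, QuotientGroup.mk' (Subgroup.center G) g ∈
      K.map (QuotientGroup.mk' (Subgroup.center G)) → g ∈ K := by
    intro g hg
    obtain ⟨k, hk, hkg⟩ := hg
    have h1 : k⁻¹ * g ∈ Subgroup.center G := by
      rw [← hkerπ, MonoidHom.mem_ker, map_mul, map_inv, hkg, inv_mul_cancel]
    have h2 := K.mul_mem hk (hZK h1)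
    rwa [mul_inv_cancel_left] at h2
  have memH : ∀ g : G, QuotientGroup.mk' (Subgroup.center G) g ∈
      H.map (QuotientGroup.mk' (Subgroup.center G)) → g ∈ H := by
    intro g hg
    obtain ⟨k, hk, hkg⟩ := hg
    have h1 : k⁻¹ * g ∈ Subgroup.center G := by
      rw [← hkerπ, MonoidHom.mem_ker, map_mul, map_inv, hkg, inv_mul_cancel]
    have h2 := H.mul_mem hk (hZH h1)
    rwa [mul_inv_cancel_left] at h2
  have S34 := Cfsg.Agent.S0034.result _ hFrob
  have hidxH : (H.map (QuotientGroup.mk' (Subgroup.center G))).index = H.index :=
    Subgroup.index_map_eq _ hπs (by rw [hkerπ]; exact hZH)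
  have hidxK : (K.map (QuotientGroup.mk' (Subgroup.center G))).index = K.index :=
    Subgroup.index_map_eq _ hπs (by rw [hkerπ]; exact hZK)
  have hcardK : Nat.card (K.map (QuotientGroup.mk' (Subgroup.center G))) =
      (H.map (QuotientGroup.mk' (Subgroup.center G))).index := by
    rw [← S34.1]
    exact Nat.card_congr (Equiv.setCongr hker.symm)
  have hidxKb : (K.map (QuotientGroup.mk' (Subgroup.center G))).index =
      Nat.card (H.map (QuotientGroup.mk' (Subgroup.center G))) := by
    have e1 := Subgroup.card_mul_index (K.map (QuotientGroup.mk' (Subgroup.center G)))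
    have e2 := Subgroup.card_mul_index (H.map (QuotientGroup.mk' (Subgroup.center G)))
    rw [hcardK] at e1
    have hpos : 0 < (H.map (QuotientGroup.mk' (Subgroup.center G))).index :=
      Nat.pos_of_ne_zero Subgroup.index_ne_zero_of_finite
    have e3 : (H.map (QuotientGroup.mk' (Subgroup.center G))).index *
        (K.map (QuotientGroup.mk' (Subgroup.center G))).index =
        (H.map (QuotientGroup.mk' (Subgroup.center G))).index *
        Nat.card (H.map (QuotientGroup.mk' (Subgroup.center G))) := by
      rw [e1, ← e2, mul_comm]
    exact Nat.eq_of_mul_eq_mul_left hpos e3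
  have hcop : K.index.Coprime H.index := by
    rw [← hidxK, ← hidxH, hidxKb]
    show Nat.gcd _ _ = 1
    rw [Nat.gcd_rec, S34.2, ← Nat.gcd_rec]
    exact Nat.gcd_one_right _
  have cZ : ∀ x ∈ Subgroup.center G, (Subgroup.centralizer ({x} : Set G)).index = 1 := by
    intro x hx
    rw [Subgroup.index_eq_one, eq_top_iff]
    intro g _
    rw [Subgroup.mem_centralizer_singleton_iff]
    exact (Subgroup.mem_center_iff.1 hx g)
  have cK : ∀ x ∈ K, x ∉ Subgroup.center G → Subgroup.centralizer ({x} : Set G) = K := by
    intro x hxK hxZ
    apply le_antisymm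
    · intro g hg
      rw [Subgroup.mem_centralizer_singleton_iff] at hg
      apply memK
      by_contra hgK
      have h1 : QuotientGroup.mk' (Subgroup.center G) g ∉
          Cfsg.frobeniusKernel (H.map (QuotientGroup.mk' (Subgroup.center G))) := by
        rw [hker]; exact hgK
      simp only [Cfsg.frobeniusKernel, Set.mem_ofPred_eq, not_or, not_forall, not_not] at h1
      obtain ⟨hg1, a, ha⟩ := h1
      rw [Cfsg.Agent.S0034.mem_conj] at ha
      have hx1 : QuotientGroup.mk' (Subgroup.center G) x ≠ 1 := by
        intro h
        apply hxZ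
        rw [← hkerπ]
        exact h
      have hxker : QuotientGroup.mk' (Subgroup.center G) x ∈
          Cfsg.frobeniusKernel (H.map (QuotientGroup.mk' (Subgroup.center G))) := by
        rw [hker]; exact ⟨x, hxK, rfl⟩
      rcases hxker with h | h
      · exact hx1 h
      · apply h a
        rw [Cfsg.Agent.S0034.mem_conj]
        apply Cfsg.Agent.S0034.key _ hFrob
          (a⁻¹ * QuotientGroup.mk' (Subgroup.center G) x * a)
          (a⁻¹ * QuotientGroup.mk' (Subgroup.center G) g * a) ha
        · have hc : QuotientGroup.mk' (Subgroup.center G) x *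
              QuotientGroup.mk' (Subgroup.center G) g =
              QuotientGroup.mk' (Subgroup.center G) g *
              QuotientGroup.mk' (Subgroup.center G) x := by
            rw [← map_mul, ← map_mul, hg]
          have e1 : a⁻¹ * QuotientGroup.mk' (Subgroup.center G) x * a *
              (a⁻¹ * QuotientGroup.mk' (Subgroup.center G) g * a) *
              (a⁻¹ * QuotientGroup.mk' (Subgroup.center G) x * a)⁻¹ =
              a⁻¹ * (QuotientGroup.mk' (Subgroup.center G) x *
                QuotientGroup.mk' (Subgroup.center G) g) *
              (QuotientGroup.mk' (Subgroup.center G) x)⁻¹ * a := by group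
          rw [e1, hc]
          have e2 : a⁻¹ * (QuotientGroup.mk' (Subgroup.center G) g *
              QuotientGroup.mk' (Subgroup.center G) x) *
              (QuotientGroup.mk' (Subgroup.center G) x)⁻¹ * a =
              a⁻¹ * QuotientGroup.mk' (Subgroup.center G) g * a := by group
          rw [e2]
          exact ha
        · intro h
          apply hg1
          have e1 : QuotientGroup.mk' (Subgroup.center G) g =
              a * (a⁻¹ * QuotientGroup.mk' (Subgroup.center G) g * a) * a⁻¹ := by group
          rw [e1, h]
          group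
    · intro k hk
      rw [Subgroup.mem_centralizer_singleton_iff]
      exact setLike_mul_comm hk hxK
  have cH : ∀ x ∈ H, x ∉ Subgroup.center G → Subgroup.centralizer ({x} : Set G) = H := by
    intro x hxH hxZ
    apply le_antisymm
    · intro g hg
      rw [Subgroup.mem_centralizer_singleton_iff] at hg
      apply memH
      apply Cfsg.Agent.S0034.key _ hFrob (QuotientGroup.mk' (Subgroup.center G) g)
        (QuotientGroup.mk' (Subgroup.center G) x) ⟨x, hxH, rfl⟩
      · have e1 : QuotientGroup.mk' (Subgroup.center G) g *
            QuotientGroup.mk' (Subgroup.center G) x *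
            (QuotientGroup.mk' (Subgroup.center G) g)⁻¹ =
            QuotientGroup.mk' (Subgroup.center G) x := by
          rw [← map_mul, hg, map_mul, mul_inv_cancel_right]
        rw [e1]
        exact ⟨x, hxH, rfl⟩
      · intro h
        apply hxZ
        rw [← hkerπ]
        exact h
    · intro k hk
      rw [Subgroup.mem_centralizer_singleton_iff]
      exact setLike_mul_comm hk hxH
  refine ⟨?_, hcop⟩
  ext n
  simp only [Set.mem_range, Set.mem_insert_iff, Set.mem_singleton_iff]
  constructor
  · rintro ⟨x, rfl⟩
    by_cases hxZ : x ∈ Subgroup.center G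
    · left
      exact cZ x hxZ
    · by_cases hxK : x ∈ K
      · right; left
        rw [cK x hxK hxZ]
      · right; right
        have h1 : QuotientGroup.mk' (Subgroup.center G) x ∉
            Cfsg.frobeniusKernel (H.map (QuotientGroup.mk' (Subgroup.center G))) := by
          rw [hker]; exact fun h => hxK (memK x h)
        simp only [Cfsg.frobeniusKernel, Set.mem_ofPred_eq, not_or, not_forall, not_not] at h1
        obtain ⟨h1a, a, ha⟩ := h1
        obtain ⟨b, rfl⟩ := hπs a
        rw [Cfsg.Agent.S0034.mem_conj] at ha
        have hmem : b⁻¹ * x * b ∈ H := by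
          apply memH
          rw [map_mul, map_mul, map_inv]
          exact ha
        have hnz : b⁻¹ * x * b ∉ Subgroup.center G := by
          intro h
          apply hxZ
          have h2 := (inferInstance : (Subgroup.center G).Normal).conj_mem _ h b
          have e : b * (b⁻¹ * x * b) * b⁻¹ = x := by group
          rwa [e] at h2
        have h3 := index_centralizer_conj b (b⁻¹ * x * b)
        have e : b * (b⁻¹ * x * b) * b⁻¹ = x := by group
        rw [e] at h3
        rw [h3, cH _ hmem hnz]
  · rintro (rfl | rfl | rfl)
    · exact ⟨1, cZ 1 (Subgroup.one_mem _)⟩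
    · by_contra hcon
      have hall : ∀ x ∈ K, x ∈ Subgroup.center G := by
        intro x hxK
        by_contra hxZ
        exact hcon ⟨x, by rw [cK x hxK hxZ]⟩
      have hbot : K.map (QuotientGroup.mk' (Subgroup.center G)) = ⊥ := by
        rw [eq_bot_iff]
        rintro _ ⟨k, hk, rfl⟩
        rw [Subgroup.mem_bot]
        have := hall k hk
        rw [← hkerπ] at this
        exact this
      rw [hbot, Subgroup.card_bot] at hcardK
      exact hFrob.2.1 (Subgroup.index_eq_one.1 hcardK.symm)
    · by_contra hcon
      have hall : ∀ x ∈ H, x ∈ Subgroup.center G := by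
        intro x hxH
        by_contra hxZ
        exact hcon ⟨x, by rw [cH x hxH hxZ]⟩
      have hbot : H.map (QuotientGroup.mk' (Subgroup.center G)) = ⊥ := by
        rw [eq_bot_iff]
        rintro _ ⟨k, hk, rfl⟩
        rw [Subgroup.mem_bot]
        have := hall k hk
        rw [← hkerπ] at this
        exact this
      exact hFrob.1 hbot

end Cfsg.Agent.S4283
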