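import Cfsg.Statements.S4293
import Mathlib
import Cfsg.Agent.Lib.Helper23.FrobSemi

set_option autoImplicit false
open Cfsg

namespace Cfsg.Agent.S4293

open Cfsg.Agent.Lib.Helper23.FrobSemi

theorem key_identity {A : Type*} [Ring A] (x : A) (n : ℕ) :
    (∑ i ∈ Finset.range n, i • x ^ i) * (x - 1) =
      n • x ^ n - (∑ i ∈ Finset.range n, x ^ i) * x := by
  induction n with
  | zero => simp
  | succ n ih =>
    rw [Finset.sum_range_succ, Finset.sum_range_succ, add_mul, ih, add_mul, smul_mul_assoc,
      mul_sub, mul_one, ← pow_succ, smul_sub, succ_nsmul]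
    abel

theorem key_identity' {A : Type*} [Ring A] [NoZeroDivisors A] (x : A) (n : ℕ) (hx : x ≠ 1)
    (hn : x ^ n = 1) :
    (∑ i ∈ Finset.range n, i • x ^ i) * (x - 1) = (n : A) := by
  have h0 : (∑ i ∈ Finset.range n, x ^ i) = 0 := by
    have h := geom_sum_mul x n
    rw [hn, sub_self] at h
    rcases mul_eq_zero.1 h with h | h
    · exact h
    · exact absurd (sub_eq_zero.1 h) hx
  rw [key_identity, h0, hn, zero_mul, sub_zero, nsmul_eq_mul, mul_one]

section

variable {D : Type*} [DivisionRing D] (H : Subgroup Dˣ)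

def M0 : Submonoid D := H.toSubmonoid.map (Units.coeHom D)

def R : Subring D := Subring.closure (M0 H : Set D)

def phi : H →* R H where
  toFun h := ⟨((h : Dˣ) : D), Subring.subset_closure ⟨(h : Dˣ), h.2, rfl⟩⟩
  map_one' := rfl
  map_mul' _ _ := rfl

theorem phi_inj (h : H) (hh : phi H h = 1) : h = 1 := by
  have h1 : ((h : Dˣ) : D) = 1 := congrArg Subtype.val hh
  apply Subtype.ext
  apply Units.ext
  exact h1

def S0 : Set (R H) := Set.range (phi H)

theorem S0_finite [Finite H] : (S0 H).Finite := Set.finite_range _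

theorem closure_S0 : AddSubgroup.closure (S0 H) = ⊤ := by
  rw [eq_top_iff]
  rintro ⟨x, hx⟩ -
  have hx' : x ∈ AddSubgroup.closure ((M0 H : Submonoid D) : Set D) := by
    have := Subring.mem_closure_iff.1 hx
    rwa [Submonoid.closure_eq] at this
  have key : ∀ y ∈ AddSubgroup.closure ((M0 H : Submonoid D) : Set D),
      ∀ hy : y ∈ R H, (⟨y, hy⟩ : R H) ∈ AddSubgroup.closure (S0 H) := by
    intro y hy
    induction hy using AddSubgroup.closure_induction with
    | mem y hy =>
      intro hy'
      obtain ⟨u, hu, rfl⟩ := hy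
      exact AddSubgroup.subset_closure ⟨⟨u, hu⟩, rfl⟩
    | zero =>
      intro hy'
      exact (AddSubgroup.closure (S0 H)).zero_mem
    | add a b ha hb iha ihb =>
      intro hy'
      have ha' : a ∈ R H := Subring.mem_closure_iff.2 (by rwa [Submonoid.closure_eq])
      have hb' : b ∈ R H := Subring.mem_closure_iff.2 (by rwa [Submonoid.closure_eq])
      exact (AddSubgroup.closure (S0 H)).add_mem (iha ha') (ihb hb')
    | neg a ha iha =>
      intro hy'
      have ha' : a ∈ R H := Subring.mem_closure_iff.2 (by rwa [Submonoid.closure_eq])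
      exact (AddSubgroup.closure (S0 H)).neg_mem (iha ha')
  exact key x hx' hx

theorem fgR [Finite H] : AddGroup.FG (R H) :=
  AddGroup.fg_iff.2 ⟨S0 H, closure_S0 H, S0_finite H⟩

end

theorem main {D : Type*} [DivisionRing D] (H : Subgroup Dˣ) [Finite H] (hH : H ≠ ⊥) (q : ℕ)
    (hq : q.Prime) (hyp : (q : D) = 0 ∨ (CharZero D ∧ Nat.card H < q)) :
    ∃ (L : Type) (_ : Group L) (_ : Finite L) (C : Subgroup L),
      Cfsg.IsFrobeniusComplement C ∧ Nonempty (H ≃* C) := by
  let I : Ideal (R H) := Ideal.span {(q : R H)}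
  have hqI : ∀ r : R H, q • r ∈ I := by
    intro r
    rw [nsmul_eq_mul, (Nat.cast_commute q r).eq]
    exact Ideal.mem_span_singleton'.2 ⟨r, rfl⟩
  have fgV : AddGroup.FG (R H ⧸ I) := by
    have := fgR H
    exact AddGroup.fg_of_surjective (f := (Submodule.mkQ I).toAddMonoidHom)
      (Submodule.mkQ_surjective I)
  have torsV : IsAddTorsion (R H ⧸ I) := by
    intro v
    obtain ⟨r, rfl⟩ := Submodule.mkQ_surjective I v
    rw [isOfFinAddOrder_iff_nsmul_eq_zero]
    refine ⟨q, hq.pos, ?_⟩
    rw [← map_nsmul]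
    exact (Submodule.Quotient.mk_eq_zero I).2 (hqI r)
  have finV : Finite (R H ⧸ I) := AddCommGroup.finite_of_fg_isAddTorsion _ torsV
  have h1I : (1 : R H) ∉ I := by
    intro h1
    obtain ⟨c, hc⟩ := Ideal.mem_span_singleton'.1 h1
    rcases hyp with hq0 | ⟨hchar, -⟩
    · have : (q : R H) = 0 := Subtype.ext (by simpa using hq0)
      rw [this, mul_zero] at hc
      exact zero_ne_one hc
    · have hfg : (⊤ : Submodule ℤ (R H)).FG := by
        have := fgR H
        have hmf : Module.Finite ℤ (R H) := Module.Finite.iff_addGroup_fg.2 this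
        exact hmf.fg_top
      have hin : (⊤ : Submodule ℤ (R H)) ≤
          (Ideal.span {(q : ℤ)}) • (⊤ : Submodule ℤ (R H)) := by
        intro r _
        have e : r = (q : ℤ) • (r * c) := by
          rw [zsmul_eq_mul, Int.cast_natCast, (Nat.cast_commute q (r * c)).eq, mul_assoc, hc,
            mul_one]
        rw [e]
        exact Submodule.smul_mem_smul (Ideal.mem_span_singleton_self _) Submodule.mem_top
      obtain ⟨z, hz1, hz2⟩ :=
        Submodule.exists_sub_one_mem_and_smul_eq_zero_of_fg_of_le_smul _ _ hfg hin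
      have hz0 : z = 0 := by
        have h0 := hz2 1 Submodule.mem_top
        rw [zsmul_eq_mul, mul_one] at h0
        have h' : ((z : R H) : D) = 0 := by rw [h0]; rfl
        have h'' : (z : D) = 0 := by simpa using h'
        exact_mod_cast h''
      rw [hz0, zero_sub, Ideal.mem_span_singleton] at hz1
      have h3 : (q : ℤ) ∣ 1 := (dvd_neg.1 hz1)
      have h4 : q ∣ 1 := by exact_mod_cast h3
      exact hq.one_lt.ne' (Nat.dvd_one.1 h4)
  have ntV : Nontrivial (R H ⧸ I) := by
    refine ⟨⟨Submodule.Quotient.mk 1, 0, ?_⟩⟩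
    rw [Ne, Submodule.Quotient.mk_eq_zero]
    exact h1I
  have ntH : Nontrivial H := (Subgroup.nontrivial_iff_ne_bot H).2 hH
  let _inst : DistribMulAction H (R H ⧸ I) := DistribMulAction.compHom _ (phi H)
  apply exists_frob_of_addAction (A := R H ⧸ I) (C := H)
  intro h hh v hv
  obtain ⟨r, rfl⟩ := Submodule.mkQ_surjective I v
  have hv' : (phi H h) * r - r ∈ I := by
    have : Submodule.Quotient.mk (phi H h * r) = (Submodule.Quotient.mk r : R H ⧸ I) := hv
    exact (Submodule.Quotient.eq I).1 this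
  show Submodule.Quotient.mk r = 0
  rw [Submodule.Quotient.mk_eq_zero]
  have hx1 : phi H h ≠ 1 := fun e => hh (phi_inj H h e)
  rcases hyp with hq0 | ⟨hchar, hcard⟩
  · have hq0' : (q : R H) = 0 := Subtype.ext (by simpa using hq0)
    have hI : I = ⊥ := by
      show Ideal.span {(q : R H)} = ⊥
      rw [hq0']
      exact Ideal.span_singleton_eq_bot.2 rfl
    rw [hI] at hv' ⊢
    rw [Submodule.mem_bot] at hv' ⊢
    have h0 : (phi H h - 1) * r = 0 := by rw [sub_mul, one_mul]; exact hv'
    rcases mul_eq_zero.1 h0 with h | h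
    · exact absurd (sub_eq_zero.1 h) hx1
    · exact h
  · have hnpos : 0 < orderOf h := orderOf_pos h
    have hxn : phi H h ^ orderOf h = 1 := by rw [← map_pow, pow_orderOf_eq_one, map_one]
    have hid := key_identity' (phi H h) (orderOf h) hx1 hxn
    obtain ⟨c, hc⟩ := Ideal.mem_span_singleton'.1 hv'
    have hnr : orderOf h • r ∈ I := by
      have e : orderOf h • r =
          ((∑ i ∈ Finset.range (orderOf h), i • phi H h ^ i) * c) * (q : R H) := by
        rw [nsmul_eq_mul, ← hid, mul_assoc, mul_assoc, hc, sub_mul, one_mul]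
      rw [e]
      exact Ideal.mem_span_singleton'.2 ⟨_, rfl⟩
    have hcop : Nat.Coprime (orderOf h) q := by
      have hle : orderOf h ≤ Nat.card H := orderOf_le_card
      rw [Nat.coprime_comm, Nat.Prime.coprime_iff_not_dvd hq]
      exact Nat.not_dvd_of_pos_of_lt hnpos (lt_of_le_of_lt hle hcard)
    obtain ⟨a, b, hab⟩ := (Nat.isCoprime_iff_coprime.2 hcop)
    have e : r = a • (orderOf h • r) + b • (q • r) := by
      rw [← natCast_zsmul r (orderOf h), ← natCast_zsmul r q, smul_smul, smul_smul, ← add_smul,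
        hab, one_smul]
    rw [e]
    exact I.add_mem (zsmul_mem hnr a) (zsmul_mem (hqI r) b)

theorem result {D : Type*} [DivisionRing D] (H : Subgroup Dˣ) [Finite H] (hH : H ≠ ⊥) :
    ∃ (L : Type) (_ : Group L) (_ : Finite L) (C : Subgroup L), Cfsg.IsFrobeniusComplement C ∧ Nonempty (H ≃* C) := by
  obtain ⟨p, hp⟩ := CharP.exists D
  rcases CharP.char_is_prime_or_zero D p with hpp | hp0
  · exact main H hH p hpp (Or.inl (CharP.cast_eq_zero D p))
  · subst hp0
    have hc : CharZero D := CharP.charP_to_charZero D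
    obtain ⟨q, hq1, hq2⟩ := Nat.exists_infinite_primes (Nat.card H + 1)
    exact main H hH q hq2 (Or.inr ⟨hc, by omega⟩)

end Cfsg.Agent.S4293
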