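import Cfsg.Statements.S4295
import Mathlib
import Cfsg.Agent.S0034
import Cfsg.Agent.Lib.Helper23.FrobSemi

set_option autoImplicit false
open Cfsg

namespace Cfsg.Agent.S4295

open Cfsg.Agent.Lib.Helper23.FrobSemi

universe u

theorem sq_card_elem (p : ℕ) [hp : Fact p.Prime] (hp2 : p ≠ 2) {W : Type*} [AddCommGroup W]
    [Finite W] (hpW : ∀ x : W, p • x = 0) (I J : W →+ W)
    (hI : ∀ x, I (I x) = -x) (hJ : ∀ x, J (J x) = -x) (hIJ : ∀ x, I (J x) = -J (I x)) :
    IsSquare (Nat.card W) := by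
  let _inst : Module (ZMod p) W := AddCommGroup.zmodModule hpW
  obtain ⟨a, b, hab⟩ := ZMod.sq_add_sq p (-1)
  have h2 : (2 : ZMod p) ≠ 0 := by
    intro h
    have h3 : ((2 : ℕ) : ZMod p) = 0 := by exact_mod_cast h
    rw [ZMod.natCast_eq_zero_iff] at h3
    have h4 := Nat.le_of_dvd (by norm_num) h3
    have h5 := hp.out.two_le
    omega
  have hIs : ∀ (c : ZMod p) (x : W), I (c • x) = c • I x := fun c x => ZMod.map_smul I c x
  have hJs : ∀ (c : ZMod p) (x : W), J (c • x) = c • J x := fun c x => ZMod.map_smul J c x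
  have hJIJ : ∀ x, J (I (J x)) = I x := by
    intro x
    rw [hIJ x, map_neg, hJ, neg_neg]
  have hIJI : ∀ x, I (J (I x)) = J x := by
    intro x
    rw [hIJ (I x), hI, map_neg, neg_neg]
  let w : W →+ W :=
    { toFun := fun x => a • I x + b • J x
      map_zero' := by simp
      map_add' := by
        intro x y
        simp only [map_add, smul_add]
        abel }
  have hwdef : ∀ x, w x = a • I x + b • J x := fun x => rfl
  have hw : ∀ x, w (w x) = x := by
    intro x
    rw [hwdef, hwdef, map_add, map_add, hIs, hIs, hJs, hJs, hI, hJ, hIJ]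
    linear_combination (norm := module) -(hab • x)
  let u : W → W := fun x => I (J x)
  have hudef : ∀ x, u x = I (J x) := fun x => rfl
  have huu : ∀ x, u (u x) = -x := by
    intro x
    rw [hudef, hudef, hJIJ, hI]
  have hu_inj : Function.Injective u := by
    intro x y hxy
    have := congrArg u hxy
    rw [huu, huu] at this
    exact neg_injective this
  have hu_neg : ∀ x, u (-x) = -u x := by
    intro x
    rw [hudef, hudef, map_neg, map_neg]
  have huw : ∀ x, w (u x) = -u (w x) := by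
    intro x
    rw [hwdef, hwdef, hudef, hudef, hI, hJIJ, map_add, map_add, hJs, hJs, hIs, hIs, hIJI, hJ,
      map_neg]
    module
  let f : W →+ W := w + AddMonoidHom.id W
  have hfdef : ∀ x, f x = w x + x := fun x => rfl
  have hker : ∀ x, x ∈ f.ker ↔ w x = -x := by
    intro x
    rw [AddMonoidHom.mem_ker, hfdef]
    exact add_eq_zero_iff_eq_neg
  have hrange : ∀ x, x ∈ f.range ↔ w x = x := by
    intro x
    constructor
    · rintro ⟨y, rfl⟩
      rw [hfdef, map_add, hw, add_comm]
    · intro hx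
      refine ⟨(2 : ZMod p)⁻¹ • x, ?_⟩
      rw [hfdef, ZMod.map_smul, hx, ← two_smul (ZMod p) ((2 : ZMod p)⁻¹ • x), smul_smul,
        mul_inv_cancel₀ h2, one_smul]
  have hcard : Nat.card f.ker * Nat.card f.range = Nat.card W := by
    rw [← AddSubgroup.index_ker]
    exact AddSubgroup.card_mul_index f.ker
  have hle1 : Nat.card f.range ≤ Nat.card f.ker := by
    apply Nat.card_le_card_of_injective
      (fun x : f.range => (⟨u x.1, (hker _).2 (by rw [huw, (hrange x.1).1 x.2])⟩ : f.ker))
    intro x y hxy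
    exact Subtype.ext (hu_inj (congrArg Subtype.val hxy))
  have hle2 : Nat.card f.ker ≤ Nat.card f.range := by
    apply Nat.card_le_card_of_injective
      (fun x : f.ker => (⟨u x.1, (hrange _).2 (by
        rw [huw, (hker x.1).1 x.2, hu_neg, neg_neg])⟩ : f.range))
    intro x y hxy
    exact Subtype.ext (hu_inj (congrArg Subtype.val hxy))
  have heq : Nat.card f.ker = Nat.card f.range := le_antisymm hle2 hle1
  exact ⟨Nat.card f.range, by rw [← hcard, heq]⟩

theorem sq_card_general : ∀ (n : ℕ) (A : Type u) [AddCommGroup A] [Finite A], Nat.card A = n →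
    Odd n → ∀ (I J : A →+ A), (∀ x, I (I x) = -x) → (∀ x, J (J x) = -x) →
    (∀ x, I (J x) = -J (I x)) → IsSquare n := by
  intro n
  induction n using Nat.strong_induction_on with
  | _ n ih =>
    intro A _ _ hcard hodd I J hI hJ hIJ
    by_cases h1 : n = 1
    · subst h1
      exact ⟨1, rfl⟩
    obtain ⟨p, hp, hpn⟩ := Nat.exists_prime_and_dvd h1
    have hpf : Fact p.Prime := ⟨hp⟩
    have hp2 : p ≠ 2 := by
      rintro rfl
      exact (Nat.not_even_iff_odd.2 hodd) (even_iff_two_dvd.2 hpn)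
    let μ : A →+ A := nsmulAddMonoidHom p
    have hμ : ∀ x, μ x = p • x := fun x => rfl
    have hcardWB : Nat.card μ.ker * Nat.card μ.range = n := by
      rw [← AddSubgroup.index_ker, AddSubgroup.card_mul_index, hcard]
    obtain ⟨x0, hx0⟩ := exists_prime_addOrderOf_dvd_card' p (by rw [hcard]; exact hpn)
    have hW1 : 1 < Nat.card μ.ker := by
      have hx0ker : x0 ∈ μ.ker := by
        rw [AddMonoidHom.mem_ker, hμ, ← hx0]
        exact addOrderOf_nsmul_eq_zero x0
      have hx0ne : x0 ≠ 0 := by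
        rintro rfl
        rw [addOrderOf_zero] at hx0
        exact hp.one_lt.ne hx0
      rw [Finite.one_lt_card_iff_nontrivial]
      exact ⟨⟨⟨x0, hx0ker⟩, 0, fun h => hx0ne (congrArg Subtype.val h)⟩⟩
    have hBpos : 0 < Nat.card μ.range := Nat.card_pos
    have hBlt : Nat.card μ.range < n := by nlinarith
    have hBodd : Odd (Nat.card μ.range) := by
      rw [← hcardWB] at hodd
      exact (Nat.odd_mul.1 hodd).2
    have hIB : ∀ x : μ.range, (I.comp μ.range.subtype) x ∈ μ.range := by
      rintro ⟨_, y, rfl⟩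
      refine ⟨I y, ?_⟩
      show p • I y = I (p • y)
      exact (map_nsmul I p y).symm
    have hJB : ∀ x : μ.range, (J.comp μ.range.subtype) x ∈ μ.range := by
      rintro ⟨_, y, rfl⟩
      refine ⟨J y, ?_⟩
      show p • J y = J (p • y)
      exact (map_nsmul J p y).symm
    have sqB : IsSquare (Nat.card μ.range) :=
      ih _ hBlt μ.range rfl hBodd
        ((I.comp μ.range.subtype).codRestrict μ.range hIB)
        ((J.comp μ.range.subtype).codRestrict μ.range hJB)
        (fun x => Subtype.ext (hI x.1)) (fun x => Subtype.ext (hJ x.1))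
        (fun x => Subtype.ext (hIJ x.1))
    have hIW : ∀ x : μ.ker, (I.comp μ.ker.subtype) x ∈ μ.ker := by
      rintro ⟨x, hx⟩
      rw [AddMonoidHom.mem_ker, hμ] at hx
      show μ (I x) = 0
      rw [hμ, ← map_nsmul, hx, map_zero]
    have hJW : ∀ x : μ.ker, (J.comp μ.ker.subtype) x ∈ μ.ker := by
      rintro ⟨x, hx⟩
      rw [AddMonoidHom.mem_ker, hμ] at hx
      show μ (J x) = 0
      rw [hμ, ← map_nsmul, hx, map_zero]
    have sqW : IsSquare (Nat.card μ.ker) :=
      sq_card_elem p hp2 (fun x => Subtype.ext (by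
          have := x.2
          rw [AddMonoidHom.mem_ker, hμ] at this
          exact this))
        ((I.comp μ.ker.subtype).codRestrict μ.ker hIW)
        ((J.comp μ.ker.subtype).codRestrict μ.ker hJW)
        (fun x => Subtype.ext (hI x.1)) (fun x => Subtype.ext (hJ x.1))
        (fun x => Subtype.ext (hIJ x.1))
    rw [← hcardWB]
    exact sqW.mul sqB

section PartB

open scoped Pointwise

variable {L : Type*} [Group L] (H : Subgroup L) (hH : Cfsg.IsFrobeniusComplement H) (t : L)
  (ht : t ∈ H) (ht1 : t ≠ 1) (ht2 : t * t = 1)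
  (huniq : ∀ h ∈ H, h * h = 1 → h ≠ 1 → h = t)

include ht2 in
theorem t_inv : t⁻¹ = t := inv_eq_of_mul_eq_one_left ht2

include ht2 in
theorem conj_sq (c : L) : (c * t * c⁻¹) * (c * t * c⁻¹) = 1 := by
  have e : (c * t * c⁻¹) * (c * t * c⁻¹) = c * (t * t) * c⁻¹ := by group
  rw [e, ht2]
  group

include ht1 in
theorem conj_ne (c : L) : c * t * c⁻¹ ≠ 1 := by
  intro h
  apply ht1
  have e : t = c⁻¹ * (c * t * c⁻¹) * c := by group
  rw [e, h]
  group

include huniq in
theorem inv_in_conj (s c : L) (hs : s * s = 1) (hs1 : s ≠ 1) (hc : c⁻¹ * s * c ∈ H) :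
    s = c * t * c⁻¹ := by
  have h1 : (c⁻¹ * s * c) * (c⁻¹ * s * c) = 1 := by
    have e : (c⁻¹ * s * c) * (c⁻¹ * s * c) = c⁻¹ * (s * s) * c := by group
    rw [e, hs]
    group
  have h2 : c⁻¹ * s * c ≠ 1 := by
    intro h
    apply hs1
    have e : s = c * (c⁻¹ * s * c) * c⁻¹ := by group
    rw [e, h]
    group
  have h3 := huniq _ hc h1 h2
  rw [← h3]
  group

include hH ht1 ht2 huniq in
theorem mul_mem_kernel (c1 c2 : L) :
    (c1 * t * c1⁻¹) * (c2 * t * c2⁻¹) ∈ Cfsg.frobeniusKernel H := by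
  have hs := conj_sq t ht2 c1
  have hs' := conj_sq t ht2 c2
  have hs1 := conj_ne t ht1 c1
  have hs'1 := conj_ne t ht1 c2
  generalize c1 * t * c1⁻¹ = s at hs hs1
  generalize c2 * t * c2⁻¹ = s' at hs' hs'1
  have hsi : s⁻¹ = s := inv_eq_of_mul_eq_one_left hs
  have hsi' : s'⁻¹ = s' := inv_eq_of_mul_eq_one_left hs'
  by_cases heq : s = s'
  · left
    rw [← heq]
    exact hs
  · right
    intro c hc
    rw [Cfsg.Agent.S0034.mem_conj] at hc
    have hd1 : s * s' ≠ 1 := by
      intro h
      apply heq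
      calc s = s * (s' * s') := by rw [hs', mul_one]
        _ = (s * s') * s' := by group
        _ = s' := by rw [h, one_mul]
    have hsH : c⁻¹ * s * c ∈ H := by
      apply Cfsg.Agent.S0034.key H hH (c⁻¹ * s * c) (c⁻¹ * (s * s') * c) hc
      · have e : c⁻¹ * s * c * (c⁻¹ * (s * s') * c) * (c⁻¹ * s * c)⁻¹ =
            (c⁻¹ * (s * s') * c)⁻¹ := by
          calc c⁻¹ * s * c * (c⁻¹ * (s * s') * c) * (c⁻¹ * s * c)⁻¹
              = c⁻¹ * ((s * s) * s' * s⁻¹) * c := by group
            _ = c⁻¹ * (s'⁻¹ * s⁻¹) * c := by rw [hs, one_mul, hsi, hsi']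
            _ = (c⁻¹ * (s * s') * c)⁻¹ := by group
        rw [e]
        exact H.inv_mem hc
      · intro h
        apply hd1
        have e : s * s' = c * (c⁻¹ * (s * s') * c) * c⁻¹ := by group
        rw [e, h]
        group
    have e1 := inv_in_conj H t huniq s c hs hs1 hsH
    have hs'H : c⁻¹ * s' * c ∈ H := by
      have e : c⁻¹ * s' * c = (c⁻¹ * s * c)⁻¹ * (c⁻¹ * (s * s') * c) := by group
      rw [e]
      exact H.mul_mem (H.inv_mem hsH) hc
    have e2 := inv_in_conj H t huniq s' c hs' hs'1 hs'H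
    exact heq (e1.trans e2.symm)

include hH ht ht1 ht2 huniq in
theorem kernel_surj [Finite L] (k : L) (hk : k ∈ Cfsg.frobeniusKernel H) :
    ∃ c : L, k = t * (c * t * c⁻¹) := by
  let f : L ⧸ H → Cfsg.frobeniusKernel H := fun q =>
    ⟨t * (q.out * t * q.out⁻¹), by
      have h := mul_mem_kernel H hH t ht1 ht2 huniq 1 q.out
      rwa [one_mul, inv_one, mul_one] at h⟩
  have finj : Function.Injective f := by
    intro q q' h
    have h' : t * (q.out * t * q.out⁻¹) = t * (q'.out * t * q'.out⁻¹) := congrArg Subtype.val h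
    have h2 : q.out * t * q.out⁻¹ = q'.out * t * q'.out⁻¹ := mul_left_cancel h'
    have hmem : (q'.out)⁻¹ * q.out ∈ H := by
      apply Cfsg.Agent.S0034.key H hH _ t ht _ ht1
      have e : (q'.out)⁻¹ * q.out * t * ((q'.out)⁻¹ * q.out)⁻¹ =
          (q'.out)⁻¹ * (q.out * t * q.out⁻¹) * q'.out := by group
      rw [e, h2]
      have e2 : (q'.out)⁻¹ * (q'.out * t * (q'.out)⁻¹) * q'.out = t := by group
      rw [e2]
      exact ht
    rw [← QuotientGroup.out_eq' q, ← QuotientGroup.out_eq' q']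
    exact (QuotientGroup.eq.2 hmem).symm
  have hfin : Finite (Cfsg.frobeniusKernel H) := Subtype.finite
  have fbij : Function.Bijective f := by
    apply finj.bijective_of_nat_card_le
    rw [(Cfsg.Agent.S0034.result H hH).1, Subgroup.index_eq_card]
  obtain ⟨q, hq⟩ := fbij.2 ⟨k, hk⟩
  exact ⟨q.out, (congrArg Subtype.val hq).symm⟩

include hH ht ht1 ht2 huniq in
theorem kernel_mul [Finite L] (a b : L) (ha : a ∈ Cfsg.frobeniusKernel H)
    (hb : b ∈ Cfsg.frobeniusKernel H) : a * b ∈ Cfsg.frobeniusKernel H := by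
  obtain ⟨c1, rfl⟩ := kernel_surj H hH t ht ht1 ht2 huniq a ha
  obtain ⟨c2, rfl⟩ := kernel_surj H hH t ht ht1 ht2 huniq b hb
  have hti := t_inv t ht2
  have e : t * (c1 * t * c1⁻¹) * (t * (c2 * t * c2⁻¹)) =
      ((t * c1) * t * (t * c1)⁻¹) * (c2 * t * c2⁻¹) := by
    have e1 : ((t * c1) * t * (t * c1)⁻¹) * (c2 * t * c2⁻¹) =
        t * (c1 * t * c1⁻¹) * (t⁻¹ * (c2 * t * c2⁻¹)) := by group
    rw [e1, hti]
  rw [e]
  exact mul_mem_kernel H hH t ht1 ht2 huniq _ _

include hH ht ht1 ht2 huniq in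
theorem kernel_inv [Finite L] (a : L) (ha : a ∈ Cfsg.frobeniusKernel H) :
    a⁻¹ ∈ Cfsg.frobeniusKernel H := by
  obtain ⟨c1, rfl⟩ := kernel_surj H hH t ht ht1 ht2 huniq a ha
  have hti := t_inv t ht2
  have e : (t * (c1 * t * c1⁻¹))⁻¹ = (c1 * t * c1⁻¹) * (1 * t * 1⁻¹) := by
    have e1 : (t * (c1 * t * c1⁻¹))⁻¹ = (c1 * t⁻¹ * c1⁻¹) * (1 * t⁻¹ * 1⁻¹) := by group
    rw [e1, hti]
  rw [e]
  exact mul_mem_kernel H hH t ht1 ht2 huniq _ _

include hH ht ht1 ht2 huniq in
theorem kernel_invert [Finite L] (a : L) (ha : a ∈ Cfsg.frobeniusKernel H) :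
    t * a * t⁻¹ = a⁻¹ := by
  obtain ⟨c1, rfl⟩ := kernel_surj H hH t ht ht1 ht2 huniq a ha
  have hti := t_inv t ht2
  have e1 : t * (t * (c1 * t * c1⁻¹)) * t⁻¹ = (t * t) * (c1 * t * c1⁻¹) * t⁻¹ := by group
  have e2 : (t * (c1 * t * c1⁻¹))⁻¹ = (c1 * t⁻¹ * c1⁻¹) * t⁻¹ := by group
  rw [e1, e2, ht2, one_mul, hti]

include hH ht ht1 ht2 huniq in
theorem kernel_comm [Finite L] (a b : L) (ha : a ∈ Cfsg.frobeniusKernel H)
    (hb : b ∈ Cfsg.frobeniusKernel H) : a * b = b * a := by
  have h1 := kernel_invert H hH t ht ht1 ht2 huniq a ha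
  have h2 := kernel_invert H hH t ht ht1 ht2 huniq b hb
  have h3 := kernel_invert H hH t ht ht1 ht2 huniq (a * b)
    (kernel_mul H hH t ht ht1 ht2 huniq a b ha hb)
  have e : t * (a * b) * t⁻¹ = (t * a * t⁻¹) * (t * b * t⁻¹) := by group
  rw [e, h1, h2] at h3
  have h4 : (a⁻¹ * b⁻¹)⁻¹ = ((a * b)⁻¹)⁻¹ := congrArg (·⁻¹) h3
  rw [inv_inv, mul_inv_rev, inv_inv, inv_inv] at h4
  exact h4.symm

theorem kernel_conj (g a : L) (ha : a ∈ Cfsg.frobeniusKernel H) :
    g * a * g⁻¹ ∈ Cfsg.frobeniusKernel H := by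
  rcases ha with rfl | ha
  · left
    group
  · right
    intro c hc
    apply ha (g⁻¹ * c)
    rw [Cfsg.Agent.S0034.mem_conj] at hc ⊢
    have e : (g⁻¹ * c)⁻¹ * a * (g⁻¹ * c) = c⁻¹ * (g * a * g⁻¹) * c := by group
    rw [e]
    exact hc

end PartB

theorem kernel_square {L : Type} [Group L] [Finite L] (H : Subgroup L)
    (hH : Cfsg.IsFrobeniusComplement H) (t i j : L)
    (ht : t ∈ H) (ht1 : t ≠ 1) (ht2 : t * t = 1)
    (huniq : ∀ h ∈ H, h * h = 1 → h ≠ 1 → h = t)
    (hi : i * i = t) (hj : j * j = t) (hji : j * i = t * (i * j))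
    (hodd : Odd (Nat.card (Cfsg.frobeniusKernel H))) :
    IsSquare (Nat.card (Cfsg.frobeniusKernel H)) := by
  let Ks : Subgroup L :=
    { carrier := Cfsg.frobeniusKernel H
      mul_mem' := fun {a b} ha hb => kernel_mul H hH t ht ht1 ht2 huniq a b ha hb
      one_mem' := Or.inl rfl
      inv_mem' := fun {a} ha => kernel_inv H hH t ht ht1 ht2 huniq a ha }
  let _cg : CommGroup Ks :=
    { (inferInstance : Group Ks) with
      mul_comm := fun a b => Subtype.ext (kernel_comm H hH t ht ht1 ht2 huniq a.1 b.1 a.2 b.2) }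
  let cI : Ks →* Ks :=
    { toFun := fun k => ⟨i * k.1 * i⁻¹, kernel_conj H i k.1 k.2⟩
      map_one' := Subtype.ext (by
        show i * 1 * i⁻¹ = 1
        group)
      map_mul' := fun a b => Subtype.ext (by
        show i * (a.1 * b.1) * i⁻¹ = (i * a.1 * i⁻¹) * (i * b.1 * i⁻¹)
        group) }
  let cJ : Ks →* Ks :=
    { toFun := fun k => ⟨j * k.1 * j⁻¹, kernel_conj H j k.1 k.2⟩
      map_one' := Subtype.ext (by
        show j * 1 * j⁻¹ = 1
        group)
      map_mul' := fun a b => Subtype.ext (by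
        show j * (a.1 * b.1) * j⁻¹ = (j * a.1 * j⁻¹) * (j * b.1 * j⁻¹)
        group) }
  have hII : ∀ k : Ks, cI (cI k) = k⁻¹ := by
    intro k
    apply Subtype.ext
    show i * (i * k.1 * i⁻¹) * i⁻¹ = (k.1)⁻¹
    have e : i * (i * k.1 * i⁻¹) * i⁻¹ = (i * i) * k.1 * (i * i)⁻¹ := by group
    rw [e, hi]
    exact kernel_invert H hH t ht ht1 ht2 huniq k.1 k.2
  have hJJ : ∀ k : Ks, cJ (cJ k) = k⁻¹ := by
    intro k
    apply Subtype.ext
    show j * (j * k.1 * j⁻¹) * j⁻¹ = (k.1)⁻¹
    have e : j * (j * k.1 * j⁻¹) * j⁻¹ = (j * j) * k.1 * (j * j)⁻¹ := by group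
    rw [e, hj]
    exact kernel_invert H hH t ht ht1 ht2 huniq k.1 k.2
  have hIJ : ∀ k : Ks, cI (cJ k) = (cJ (cI k))⁻¹ := by
    intro k
    apply Subtype.ext
    show i * (j * k.1 * j⁻¹) * i⁻¹ = (j * (i * k.1 * i⁻¹) * j⁻¹)⁻¹
    have hy : (i * j) * k.1 * (i * j)⁻¹ ∈ Cfsg.frobeniusKernel H := kernel_conj H (i * j) k.1 k.2
    have h1 := kernel_invert H hH t ht ht1 ht2 huniq _ hy
    have e1 : j * (i * k.1 * i⁻¹) * j⁻¹ = (j * i) * k.1 * (j * i)⁻¹ := by group
    have e2 : (t * (i * j)) * k.1 * (t * (i * j))⁻¹ = t * ((i * j) * k.1 * (i * j)⁻¹) * t⁻¹ := by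
      group
    rw [e1, hji, e2, h1, inv_inv]
    group
  have hcard : Nat.card (Additive Ks) = Nat.card (Cfsg.frobeniusKernel H) := rfl
  exact sq_card_general (Nat.card (Cfsg.frobeniusKernel H)) (Additive Ks) hcard hodd
    (MonoidHom.toAdditive cI) (MonoidHom.toAdditive cJ)
    (fun x => congrArg Additive.ofMul (hII (Additive.toMul x)))
    (fun x => congrArg Additive.ofMul (hJJ (Additive.toMul x)))
    (fun x => congrArg Additive.ofMul (hIJ (Additive.toMul x)))

theorem q1 : ∀ x : QuaternionGroup 2, x * x = 1 → x ≠ 1 → x = QuaternionGroup.a 2 := by decide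

theorem q6 : ∀ g : QuaternionGroup 2, g ≠ 1 → g = QuaternionGroup.a 2 ∨ g * g = QuaternionGroup.a 2 := by
  decide

theorem forward (m : ℕ)
    (h : ∃ (L : Type) (_ : Group L) (_ : Finite L) (H : Subgroup L), Cfsg.IsFrobeniusComplement H ∧
        Nonempty (H ≃* QuaternionGroup 2) ∧ Nat.card (Cfsg.frobeniusKernel H) = m) :
    Odd m ∧ IsSquare m ∧ 1 < m := by
  obtain ⟨L, hL, hfin, H, hH, ⟨e⟩, rfl⟩ := h
  have S := Cfsg.Agent.S0034.result H hH
  have hcardH : Nat.card H = 8 := by
    rw [Nat.card_congr e.toEquiv, Nat.card_eq_fintype_card, QuaternionGroup.card]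
  have hmod : H.index % 8 = 1 := by
    have h2 := S.2
    rw [hcardH] at h2
    exact h2
  have hne1 : H.index ≠ 1 := fun h => hH.2.1 (Subgroup.index_eq_one.1 h)
  have hodd : Odd (Nat.card (Cfsg.frobeniusKernel H)) := by
    rw [S.1, Nat.odd_iff]
    omega
  refine ⟨hodd, ?_, by rw [S.1]; omega⟩
  have ht1 : ((e.symm (QuaternionGroup.a 2) : H) : L) ≠ 1 := by
    intro h
    have h1 : e.symm (QuaternionGroup.a 2) = 1 := Subtype.ext h
    have h2 : e (e.symm (QuaternionGroup.a 2)) = 1 := by rw [h1, map_one]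
    rw [MulEquiv.apply_symm_apply] at h2
    exact absurd h2 (by decide)
  have ht2 : ((e.symm (QuaternionGroup.a 2) : H) : L) * ((e.symm (QuaternionGroup.a 2) : H) : L)
      = 1 := by
    have h1 : e.symm (QuaternionGroup.a 2) * e.symm (QuaternionGroup.a 2) = 1 := by
      rw [← map_mul]
      have h2 : (QuaternionGroup.a 2 : QuaternionGroup 2) * QuaternionGroup.a 2 = 1 := by decide
      rw [h2, map_one]
    exact congrArg Subtype.val h1
  have huniq : ∀ h ∈ H, h * h = 1 → h ≠ 1 → h = ((e.symm (QuaternionGroup.a 2) : H) : L) := by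
    intro h hh hh2 hh1
    have h3 : e ⟨h, hh⟩ * e ⟨h, hh⟩ = 1 := by
      rw [← map_mul]
      have : (⟨h, hh⟩ : H) * ⟨h, hh⟩ = 1 := Subtype.ext hh2
      rw [this, map_one]
    have h4 : e ⟨h, hh⟩ ≠ 1 := by
      intro h5
      apply hh1
      have := e.injective (h5.trans (map_one e).symm)
      exact congrArg Subtype.val this
    have h5 := q1 _ h3 h4
    have h6 : (⟨h, hh⟩ : H) = e.symm (QuaternionGroup.a 2) := by
      rw [← h5, MulEquiv.symm_apply_apply]
    exact congrArg Subtype.val h6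
  have hi : ((e.symm (QuaternionGroup.a 1) : H) : L) * ((e.symm (QuaternionGroup.a 1) : H) : L)
      = ((e.symm (QuaternionGroup.a 2) : H) : L) := by
    have h1 : e.symm (QuaternionGroup.a 1) * e.symm (QuaternionGroup.a 1) =
        e.symm (QuaternionGroup.a 2) := by
      rw [← map_mul]
      have h2 : (QuaternionGroup.a 1 : QuaternionGroup 2) * QuaternionGroup.a 1 =
          QuaternionGroup.a 2 := by decide
      rw [h2]
    exact congrArg Subtype.val h1
  have hj : ((e.symm (QuaternionGroup.xa 0) : H) : L) * ((e.symm (QuaternionGroup.xa 0) : H) : L)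
      = ((e.symm (QuaternionGroup.a 2) : H) : L) := by
    have h1 : e.symm (QuaternionGroup.xa 0) * e.symm (QuaternionGroup.xa 0) =
        e.symm (QuaternionGroup.a 2) := by
      rw [← map_mul]
      have h2 : (QuaternionGroup.xa 0 : QuaternionGroup 2) * QuaternionGroup.xa 0 =
          QuaternionGroup.a 2 := by decide
      rw [h2]
    exact congrArg Subtype.val h1
  have hji : ((e.symm (QuaternionGroup.xa 0) : H) : L) * ((e.symm (QuaternionGroup.a 1) : H) : L)
      = ((e.symm (QuaternionGroup.a 2) : H) : L) *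
        (((e.symm (QuaternionGroup.a 1) : H) : L) * ((e.symm (QuaternionGroup.xa 0) : H) : L)) := by
    have h1 : e.symm (QuaternionGroup.xa 0) * e.symm (QuaternionGroup.a 1) =
        e.symm (QuaternionGroup.a 2) *
          (e.symm (QuaternionGroup.a 1) * e.symm (QuaternionGroup.xa 0)) := by
      rw [← map_mul, ← map_mul, ← map_mul]
      have h2 : (QuaternionGroup.xa 0 : QuaternionGroup 2) * QuaternionGroup.a 1 =
          QuaternionGroup.a 2 * (QuaternionGroup.a 1 * QuaternionGroup.xa 0) := by decide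
      rw [h2]
    exact congrArg Subtype.val h1
  exact kernel_square H hH _ _ _ (e.symm (QuaternionGroup.a 2)).2 ht1 ht2 huniq hi hj hji hodd

section Hom

variable {M : Type*} [Monoid M] (A B X : M)

theorem E_add (hA4 : A ^ (2 * 2) = 1) (i j : ZMod (2 * 2)) :
    A ^ (i + j).val = A ^ i.val * A ^ j.val := by
  rw [ZMod.val_add, ← pow_add, ← pow_eq_pow_mod _ hA4]

theorem E_sub (hAB : A * B = 1) (hBA : B * A = 1) (hA4 : A ^ (2 * 2) = 1)
    (i j : ZMod (2 * 2)) : A ^ (j - i).val = A ^ j.val * B ^ i.val := by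
  have h1 := E_add A hA4 (j - i) i
  rw [sub_add_cancel] at h1
  have hc : Commute A B := by
    show A * B = B * A
    rw [hAB, hBA]
  rw [h1, mul_assoc, ← hc.mul_pow, hAB, one_pow, mul_one]

theorem AX_pow (hAB : A * B = 1) (hXA : X * A = B * X) (k : ℕ) :
    A ^ k * X = X * B ^ k := by
  have h1 : A * X = X * B := by
    calc A * X = A * X * (A * B) := by rw [hAB, mul_one]
      _ = A * (X * A) * B := by simp only [mul_assoc]
      _ = A * (B * X) * B := by rw [hXA]
      _ = (A * B) * X * B := by simp only [mul_assoc]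
      _ = X * B := by rw [hAB, one_mul]
  induction k with
  | zero => simp
  | succ k ih =>
    rw [pow_succ, mul_assoc, h1, ← mul_assoc, ih, mul_assoc, ← pow_succ]

def qhom (hAB : A * B = 1) (hBA : B * A = 1) (hA4 : A ^ (2 * 2) = 1)
    (hX : X * X = A * A) (hXA : X * A = B * X) : QuaternionGroup 2 →* M where
  toFun
    | QuaternionGroup.a i => A ^ i.val
    | QuaternionGroup.xa i => X * A ^ i.val
  map_one' := by
    show A ^ (0 : ZMod (2 * 2)).val = 1
    rw [ZMod.val_zero, pow_zero]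
  map_mul' := by
    have hc : Commute A B := by
      show A * B = B * A
      rw [hAB, hBA]
    rintro (i | i) (j | j)
    · rw [QuaternionGroup.a_mul_a]
      exact E_add A hA4 i j
    · rw [QuaternionGroup.a_mul_xa]
      show X * A ^ (j - i).val = A ^ i.val * (X * A ^ j.val)
      rw [E_sub A B hAB hBA hA4, ← mul_assoc (A ^ i.val), AX_pow A B X hAB hXA, mul_assoc,
        (hc.pow_pow j.val i.val).eq]
    · rw [QuaternionGroup.xa_mul_a]
      show X * A ^ (i + j).val = X * A ^ i.val * A ^ j.val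
      rw [E_add A hA4, mul_assoc]
    · rw [QuaternionGroup.xa_mul_xa]
      show A ^ (((2 : ℕ) : ZMod (2 * 2)) + j - i).val = X * A ^ i.val * (X * A ^ j.val)
      have e2 : (((2 : ℕ) : ZMod (2 * 2))).val = 2 := rfl
      rw [add_sub_assoc, E_add A hA4, e2, E_sub A B hAB hBA hA4, pow_two, ← hX,
        mul_assoc X (A ^ i.val), ← mul_assoc (A ^ i.val), AX_pow A B X hAB hXA,
        (hc.pow_pow j.val i.val).eq]
      simp only [mul_assoc]

theorem qhom_a2 (hAB : A * B = 1) (hBA : B * A = 1) (hA4 : A ^ (2 * 2) = 1)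
    (hX : X * X = A * A) (hXA : X * A = B * X) :
    qhom A B X hAB hBA hA4 hX hXA (QuaternionGroup.a 2) = A * A := by
  show A ^ ((2 : ZMod (2 * 2))).val = A * A
  have e2 : ((2 : ZMod (2 * 2))).val = 2 := rfl
  rw [e2, pow_two]

end Hom

structure QMod where
  N : Type
  grp : AddCommGroup N
  fin : Finite N
  act : DistribMulAction (QuaternionGroup 2) N
  neg : ∀ x : N, (QuaternionGroup.a 2 : QuaternionGroup 2) • x = -x

attribute [instance] QMod.grp QMod.fin QMod.act

def Iend (p : ℕ) : AddMonoid.End (ZMod p × ZMod p) where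
  toFun := fun x => (-x.2, x.1)
  map_zero' := by simp
  map_add' := by
    intro x y
    ext <;> simp <;> ring

def Bend (p : ℕ) : AddMonoid.End (ZMod p × ZMod p) where
  toFun := fun x => (x.2, -x.1)
  map_zero' := by simp
  map_add' := by
    intro x y
    ext <;> simp <;> ring

def Jend (p : ℕ) (a b : ZMod p) : AddMonoid.End (ZMod p × ZMod p) where
  toFun := fun x => (a * x.1 + b * x.2, b * x.1 - a * x.2)
  map_zero' := by simp
  map_add' := by
    intro x y
    ext <;> simp <;> ring

theorem Iend_apply (p : ℕ) (x : ZMod p × ZMod p) : Iend p x = (-x.2, x.1) := rfl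
theorem Bend_apply (p : ℕ) (x : ZMod p × ZMod p) : Bend p x = (x.2, -x.1) := rfl
theorem Jend_apply (p : ℕ) (a b : ZMod p) (x : ZMod p × ZMod p) :
    Jend p a b x = (a * x.1 + b * x.2, b * x.1 - a * x.2) := rfl

theorem end_mul_apply {N : Type*} [AddCommMonoid N] (f g : AddMonoid.End N) (x : N) :
    (f * g) x = f (g x) := rfl

theorem hAB_end (p : ℕ) : Iend p * Bend p = 1 := by
  ext x
  · rw [end_mul_apply, Bend_apply, Iend_apply]
    simp
  · rw [end_mul_apply, Bend_apply, Iend_apply]
    simp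

theorem hBA_end (p : ℕ) : Bend p * Iend p = 1 := by
  ext x
  · rw [end_mul_apply, Iend_apply, Bend_apply]
    simp
  · rw [end_mul_apply, Iend_apply, Bend_apply]
    simp

theorem hII_end (p : ℕ) (x : ZMod p × ZMod p) : (Iend p * Iend p) x = -x := by
  rw [end_mul_apply, Iend_apply, Iend_apply]
  rfl

theorem hA4_end (p : ℕ) : Iend p ^ (2 * 2) = 1 := by
  have e : Iend p ^ (2 * 2) = (Iend p * Iend p) * (Iend p * Iend p) := by
    rw [pow_mul, pow_two, pow_two]
  rw [e]
  ext x
  · rw [end_mul_apply, hII_end, hII_end]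
    simp
  · rw [end_mul_apply, hII_end, hII_end]
    simp

theorem hX_end (p : ℕ) (a b : ZMod p) (hab : a ^ 2 + b ^ 2 = -1) :
    Jend p a b * Jend p a b = Iend p * Iend p := by
  ext x
  · rw [hII_end, end_mul_apply, Jend_apply, Jend_apply]
    show a * (a * x.1 + b * x.2) + b * (b * x.1 - a * x.2) = -x.1
    linear_combination x.1 * hab
  · rw [hII_end, end_mul_apply, Jend_apply, Jend_apply]
    show b * (a * x.1 + b * x.2) - a * (b * x.1 - a * x.2) = -x.2
    linear_combination x.2 * hab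

theorem hXA_end (p : ℕ) (a b : ZMod p) : Jend p a b * Iend p = Bend p * Jend p a b := by
  ext x
  · rw [end_mul_apply, end_mul_apply, Iend_apply, Jend_apply, Jend_apply, Bend_apply]
    show a * -x.2 + b * x.1 = b * x.1 - a * x.2
    ring
  · rw [end_mul_apply, end_mul_apply, Iend_apply, Jend_apply, Jend_apply, Bend_apply]
    show b * -x.2 - a * x.1 = -(a * x.1 + b * x.2)
    ring

def primeMod (p : ℕ) (a b : ZMod p) (hab : a ^ 2 + b ^ 2 = -1) [Finite (ZMod p)] : QMod where
  N := ZMod p × ZMod p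
  grp := inferInstance
  fin := inferInstance
  act := DistribMulAction.compHom _ (qhom (Iend p) (Bend p) (Jend p a b) (hAB_end p) (hBA_end p)
    (hA4_end p) (hX_end p a b hab) (hXA_end p a b))
  neg := by
    intro x
    show (qhom (Iend p) (Bend p) (Jend p a b) (hAB_end p) (hBA_end p)
      (hA4_end p) (hX_end p a b hab) (hXA_end p a b) (QuaternionGroup.a 2)) x = -x
    rw [qhom_a2]
    exact hII_end p x

theorem exists_qmod (r : ℕ) : Odd r → ∃ Q : QMod, Nat.card Q.N = r * r := by
  induction r using Nat.recOnMul with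
  | zero =>
    intro h
    exact absurd h (by decide)
  | one =>
    intro _
    exact ⟨{ N := PUnit
             grp := inferInstance
             fin := inferInstance
             act := { smul := fun _ x => x
                      one_smul := fun _ => rfl
                      mul_smul := fun _ _ _ => rfl
                      smul_zero := fun _ => rfl
                      smul_add := fun _ _ _ => rfl }
             neg := fun _ => rfl }, by simp⟩
  | prime p hp =>
    intro hodd
    have hpf : Fact p.Prime := ⟨hp⟩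
    obtain ⟨a, b, hab⟩ := ZMod.sq_add_sq p (-1)
    have hfz : Finite (ZMod p) := inferInstance
    refine ⟨primeMod p a b hab, ?_⟩
    show Nat.card (ZMod p × ZMod p) = p * p
    rw [Nat.card_prod, Nat.card_zmod]
  | mul m n hm hn =>
    intro hodd
    obtain ⟨ho1, ho2⟩ := Nat.odd_mul.1 hodd
    obtain ⟨Q1, h1⟩ := hm ho1
    obtain ⟨Q2, h2⟩ := hn ho2
    refine ⟨{ N := Q1.N × Q2.N
              grp := inferInstance
              fin := inferInstance
              act := inferInstance
              neg := by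
                rintro ⟨x, y⟩
                show ((QuaternionGroup.a 2 : QuaternionGroup 2) • x,
                  (QuaternionGroup.a 2 : QuaternionGroup 2) • y) = -(x, y)
                rw [Q1.neg, Q2.neg]
                rfl }, ?_⟩
    show Nat.card (Q1.N × Q2.N) = m * n * (m * n)
    rw [Nat.card_prod, h1, h2]
    ring

theorem backward (m : ℕ) (h : Odd m ∧ IsSquare m ∧ 1 < m) :
    ∃ (L : Type) (_ : Group L) (_ : Finite L) (H : Subgroup L), Cfsg.IsFrobeniusComplement H ∧
        Nonempty (H ≃* QuaternionGroup 2) ∧ Nat.card (Cfsg.frobeniusKernel H) = m := by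
  obtain ⟨hodd, ⟨r, rfl⟩, h1⟩ := h
  have hr : Odd r := (Nat.odd_mul.1 hodd).1
  obtain ⟨Q, hQ⟩ := exists_qmod r hr
  have hfpf : ∀ g : QuaternionGroup 2, g ≠ 1 → ∀ x : Q.N, g • x = x → x = 0 := by
    intro g hg x hx
    have h2 : (QuaternionGroup.a 2 : QuaternionGroup 2) • x = x := by
      rcases q6 g hg with h | h
      · rw [← h]
        exact hx
      · rw [← h, mul_smul, hx, hx]
    rw [Q.neg] at h2
    have h3 : 2 • x = 0 := by
      rw [two_nsmul]
      nth_rewrite 1 [← h2]
      exact neg_add_cancel x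
    have d1 : addOrderOf x ∣ 2 := addOrderOf_dvd_of_nsmul_eq_zero h3
    have d2 : addOrderOf x ∣ Nat.card Q.N := addOrderOf_dvd_natCard x
    rw [hQ] at d2
    have d3 : addOrderOf x ∣ Nat.gcd 2 (r * r) := Nat.dvd_gcd d1 d2
    have hcop : Nat.gcd 2 (r * r) = 1 := Nat.coprime_two_left.2 hodd
    rw [hcop, Nat.dvd_one] at d3
    exact AddMonoid.addOrderOf_eq_one_iff.1 d3
  let φ : QuaternionGroup 2 →* MulAut (Multiplicative Q.N) :=
    (MulAutMultiplicative Q.N).symm.toMonoidHom.comp
      (DistribMulAction.toAddAut (QuaternionGroup 2) Q.N)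
  have hfpf' : ∀ c : QuaternionGroup 2, c ≠ 1 → ∀ n : Multiplicative Q.N, φ c n = n → n = 1 := by
    intro c hc n hn
    have h1 : c • (Multiplicative.toAdd n) = Multiplicative.toAdd n :=
      congrArg Multiplicative.toAdd hn
    exact Multiplicative.toAdd.injective (hfpf c hc _ h1)
  have hntN : Nontrivial (Multiplicative Q.N) := by
    have h2 : 1 < Nat.card (Multiplicative Q.N) := by
      rw [Nat.card_congr Multiplicative.toAdd, hQ]
      exact h1
    exact Finite.one_lt_card_iff_nontrivial.1 h2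
  have hfrob := isFrobeniusComplement_semidirect φ hfpf'
  have hfinL : Finite (Multiplicative Q.N ⋊[φ] QuaternionGroup 2) :=
    Finite.of_equiv (Multiplicative Q.N × QuaternionGroup 2) SemidirectProduct.equivProd.symm
  refine ⟨Multiplicative Q.N ⋊[φ] QuaternionGroup 2, inferInstance, hfinL,
    (SemidirectProduct.inr : QuaternionGroup 2 →* Multiplicative Q.N ⋊[φ] QuaternionGroup 2).range,
    hfrob, ⟨(MonoidHom.ofInjective SemidirectProduct.inr_injective).symm⟩, ?_⟩
  rw [(Cfsg.Agent.S0034.result _ hfrob).1]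
  have hc1 := Subgroup.card_mul_index
    (SemidirectProduct.inr : QuaternionGroup 2 →* Multiplicative Q.N ⋊[φ] QuaternionGroup 2).range
  have hc2 : Nat.card (Multiplicative Q.N ⋊[φ] QuaternionGroup 2) = r * r * 8 := by
    rw [Nat.card_congr SemidirectProduct.equivProd, Nat.card_prod,
      Nat.card_congr Multiplicative.toAdd, hQ, Nat.card_eq_fintype_card (α := QuaternionGroup 2),
      QuaternionGroup.card]
  have hc3 : Nat.card (SemidirectProduct.inr :
      QuaternionGroup 2 →* Multiplicative Q.N ⋊[φ] QuaternionGroup 2).range = 8 := by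
    rw [← Nat.card_congr (MonoidHom.ofInjective SemidirectProduct.inr_injective).toEquiv,
      Nat.card_eq_fintype_card, QuaternionGroup.card]
  rw [hc2, hc3] at hc1
  omega

theorem result (m : ℕ) :
    (∃ (L : Type) (_ : Group L) (_ : Finite L) (H : Subgroup L), Cfsg.IsFrobeniusComplement H ∧
        Nonempty (H ≃* QuaternionGroup 2) ∧ Nat.card (Cfsg.frobeniusKernel H) = m) ↔
    (Odd m ∧ IsSquare m ∧ 1 < m) :=
  ⟨forward m, backward m⟩

end Cfsg.Agent.S4295
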