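import Cfsg.Statements.S4297
import Mathlib
import Cfsg.Agent.Lib.Helper23.FrobSemi

set_option autoImplicit false
open Cfsg

namespace Cfsg.Agent.S4297

open Cfsg.Agent.Lib.Helper23.FrobSemi

variable {n p : ℕ}

def act (z w : ZMod p) : QuaternionGroup n → ZMod p × ZMod p → ZMod p × ZMod p
  | QuaternionGroup.a i, x => (z ^ i.val * x.1, w ^ i.val * x.2)
  | QuaternionGroup.xa i, x => (-(w ^ i.val * x.2), z ^ i.val * x.1)

lemma E_add [NeZero n] (z : ZMod p) (hz : z ^ (2 * n) = 1) (i j : ZMod (2 * n)) :
    z ^ (i + j).val = z ^ i.val * z ^ j.val := by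
  rw [ZMod.val_add, ← pow_add, ← pow_eq_pow_mod _ hz]

lemma E_sub [NeZero n] (z w : ZMod p) (hzw : z * w = 1) (hz : z ^ (2 * n) = 1)
    (i j : ZMod (2 * n)) : z ^ (j - i).val = z ^ j.val * w ^ i.val := by
  have h1 := E_add z hz (j - i) i
  rw [sub_add_cancel] at h1
  rw [h1, mul_assoc, ← mul_pow, hzw, one_pow, mul_one]

lemma E_n [NeZero n] (z : ZMod p) : z ^ ((n : ZMod (2 * n))).val = z ^ n := by
  rw [ZMod.val_natCast_of_lt]
  have := NeZero.pos n
  omega

@[instance_reducible]
def dma [NeZero n] (z w : ZMod p) (hzw : z * w = 1) (hz : z ^ (2 * n) = 1) (hzn : z ^ n = -1)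
    (hw : w ^ (2 * n) = 1) (hwn : w ^ n = -1) :
    DistribMulAction (QuaternionGroup n) (ZMod p × ZMod p) where
  smul := act z w
  one_smul := by
    rintro ⟨u, v⟩
    change act z w (QuaternionGroup.a 0) (u, v) = (u, v)
    simp [act]
  mul_smul := by
    have hwz : w * z = 1 := by rw [mul_comm]; exact hzw
    rintro (i | i) (j | j) ⟨u, v⟩
    · change act z w (QuaternionGroup.a i * QuaternionGroup.a j) (u, v)
        = act z w (QuaternionGroup.a i) (act z w (QuaternionGroup.a j) (u, v))
      rw [QuaternionGroup.a_mul_a]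
      simp only [act, E_add z hz, E_add w hw]
      ext <;> simp <;> ring
    · change act z w (QuaternionGroup.a i * QuaternionGroup.xa j) (u, v)
        = act z w (QuaternionGroup.a i) (act z w (QuaternionGroup.xa j) (u, v))
      rw [QuaternionGroup.a_mul_xa]
      simp only [act, E_sub z w hzw hz, E_sub w z hwz hw]
      ext <;> simp <;> ring
    · change act z w (QuaternionGroup.xa i * QuaternionGroup.a j) (u, v)
        = act z w (QuaternionGroup.xa i) (act z w (QuaternionGroup.a j) (u, v))
      rw [QuaternionGroup.xa_mul_a]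
      simp only [act, E_add z hz, E_add w hw]
      ext <;> simp <;> ring
    · change act z w (QuaternionGroup.xa i * QuaternionGroup.xa j) (u, v)
        = act z w (QuaternionGroup.xa i) (act z w (QuaternionGroup.xa j) (u, v))
      rw [QuaternionGroup.xa_mul_xa]
      simp only [act, E_sub z w hzw hz, E_sub w z hwz hw, E_add z hz, E_add w hw, E_n, hzn, hwn]
      ext <;> simp <;> ring
  smul_zero := by
    rintro (i | i)
    · change act z w (QuaternionGroup.a i) 0 = 0
      simp [act]
    · change act z w (QuaternionGroup.xa i) 0 = 0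
      simp [act]
  smul_add := by
    rintro (i | i) ⟨u, v⟩ ⟨u', v'⟩
    · change act z w (QuaternionGroup.a i) ((u, v) + (u', v'))
        = act z w (QuaternionGroup.a i) (u, v) + act z w (QuaternionGroup.a i) (u', v')
      simp only [act, Prod.mk_add_mk]
      ext <;> simp <;> ring
    · change act z w (QuaternionGroup.xa i) ((u, v) + (u', v'))
        = act z w (QuaternionGroup.xa i) (u, v) + act z w (QuaternionGroup.xa i) (u', v')
      simp only [act, Prod.mk_add_mk]
      ext <;> simp <;> ring

theorem result (n : ℕ) (hn : 2 ≤ n) :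
    ∃ (L : Type) (_ : Group L) (_ : Finite L) (H : Subgroup L), Cfsg.IsFrobeniusComplement H ∧ Nonempty (H ≃* QuaternionGroup n) := by
  have hn0 : NeZero n := ⟨by omega⟩
  have h2n0 : 2 * n ≠ 0 := by omega
  obtain ⟨p, hp, hp2, hmod⟩ := Nat.exists_prime_gt_modEq_one (k := 2 * n) 2 h2n0
  have hpf : Fact p.Prime := ⟨hp⟩
  have hdvd : 2 * n ∣ p - 1 := (Nat.modEq_iff_dvd' hp.one_lt.le).1 hmod.symm
  obtain ⟨ζ, hζ⟩ : ∃ ζ : (ZMod p)ˣ, orderOf ζ = 2 * n := by
    obtain ⟨u, hu⟩ := IsCyclic.exists_ofOrder_eq_natCard (α := (ZMod p)ˣ)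
    have hcard : Nat.card (ZMod p)ˣ = p - 1 := by
      rw [Nat.card_eq_fintype_card, ZMod.card_units]
    rw [hcard] at hu
    obtain ⟨m, hm⟩ := hdvd
    have hm0 : m ≠ 0 := by
      rintro rfl
      rw [mul_zero] at hm
      omega
    refine ⟨u ^ m, ?_⟩
    rw [orderOf_pow_of_dvd hm0 (by rw [hu, hm]; exact dvd_mul_left m (2 * n)), hu, hm]
    exact Nat.mul_div_cancel (2 * n) (Nat.pos_of_ne_zero hm0)
  set z : ZMod p := (ζ : ZMod p) with hzdef
  set w : ZMod p := ((ζ⁻¹ : (ZMod p)ˣ) : ZMod p) with hwdef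
  have hzw : z * w = 1 := by rw [hzdef, hwdef, ← Units.val_mul, mul_inv_cancel, Units.val_one]
  have hzpow : ∀ k : ℕ, z ^ k = ((ζ ^ k : (ZMod p)ˣ) : ZMod p) := fun k => by
    rw [hzdef, Units.val_pow_eq_pow_val]
  have hz : z ^ (2 * n) = 1 := by
    rw [hzpow, ← hζ, pow_orderOf_eq_one, Units.val_one]
  have hzne : ∀ k : ℕ, 0 < k → k < 2 * n → z ^ k ≠ 1 := by
    intro k hk0 hk h1
    rw [hzpow] at h1
    have h2 : ζ ^ k = 1 := Units.ext (by rw [h1, Units.val_one])
    exact pow_ne_one_of_lt_orderOf hk0.ne' (by rw [hζ]; exact hk) h2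
  have hzn : z ^ n = -1 := by
    have h1 : (z ^ n) ^ 2 = 1 := by rw [← pow_mul, mul_comm, hz]
    rcases sq_eq_one_iff.1 h1 with h | h
    · exact absurd h (hzne n (by omega) (by omega))
    · exact h
  have hw : w ^ (2 * n) = 1 := by
    have : (z * w) ^ (2 * n) = 1 := by rw [hzw, one_pow]
    rwa [mul_pow, hz, one_mul] at this
  have hwn : w ^ n = -1 := by
    have : (z * w) ^ n = 1 := by rw [hzw, one_pow]
    rw [mul_pow, hzn] at this
    have h2 : w ^ n = -(-1 * w ^ n) := by ring
    rw [h2, this]
  have h2ne : (2 : ZMod p) ≠ 0 := by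
    intro h
    have h3 : ((2 : ℕ) : ZMod p) = 0 := by exact_mod_cast h
    rw [ZMod.natCast_eq_zero_iff] at h3
    have := Nat.le_of_dvd (by norm_num) h3
    omega
  let _inst : DistribMulAction (QuaternionGroup n) (ZMod p × ZMod p) := dma z w hzw hz hzn hw hwn
  have hnt : Nontrivial (QuaternionGroup n) :=
    ⟨⟨QuaternionGroup.a 0, QuaternionGroup.xa 0, by intro h; cases h⟩⟩
  have hfin : Finite (QuaternionGroup n) := by
    have : Fintype (QuaternionGroup n) := inferInstance
    infer_instance
  obtain ⟨L, hL1, hL2, H, hH, ⟨e⟩⟩ :=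
    exists_frob_of_addAction (A := ZMod p × ZMod p) (C := QuaternionGroup n) (by
      rintro (i | i) hc ⟨u, v⟩ ha
      · have ha' : (z ^ i.val * u, w ^ i.val * v) = (u, v) := ha
        have hi : i ≠ 0 := by
          rintro rfl
          exact hc rfl
        have hival : 0 < i.val := Nat.pos_of_ne_zero (by rwa [Ne, ZMod.val_eq_zero])
        have hilt : i.val < 2 * n := ZMod.val_lt i
        have hz1 : z ^ i.val ≠ 1 := hzne _ hival hilt
        have hw1 : w ^ i.val ≠ 1 := by
          intro h
          apply hz1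
          have : (z * w) ^ i.val = 1 := by rw [hzw, one_pow]
          rwa [mul_pow, h, mul_one] at this
        have hu : (z ^ i.val - 1) * u = 0 := by
          have := congrArg Prod.fst ha'
          simp only at this
          rw [sub_mul, one_mul, this, sub_self]
        have hv : (w ^ i.val - 1) * v = 0 := by
          have := congrArg Prod.snd ha'
          simp only at this
          rw [sub_mul, one_mul, this, sub_self]
        have hu0 : u = 0 := (mul_eq_zero.1 hu).resolve_left (sub_ne_zero.2 hz1)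
        have hv0 : v = 0 := (mul_eq_zero.1 hv).resolve_left (sub_ne_zero.2 hw1)
        rw [hu0, hv0]
        rfl
      · have ha' : (-(w ^ i.val * v), z ^ i.val * u) = (u, v) := ha
        have h1 : -(w ^ i.val * v) = u := congrArg Prod.fst ha'
        have h2 : z ^ i.val * u = v := congrArg Prod.snd ha'
        have hzwi : z ^ i.val * w ^ i.val = 1 := by rw [← mul_pow, hzw, one_pow]
        have h3 : (2 : ZMod p) * v = 0 := by
          have : v = -v := by
            calc v = z ^ i.val * u := h2.symm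
              _ = z ^ i.val * (-(w ^ i.val * v)) := by rw [h1]
              _ = -((z ^ i.val * w ^ i.val) * v) := by ring
              _ = -v := by rw [hzwi, one_mul]
          calc (2 : ZMod p) * v = v + v := by ring
            _ = v + -v := by rw [← this]
            _ = 0 := by ring
        have hv0 : v = 0 := (mul_eq_zero.1 h3).resolve_left h2ne
        have hu0 : u = 0 := by rw [← h1, hv0, mul_zero, neg_zero]
        rw [hu0, hv0]
        rfl)
  exact ⟨L, hL1, hL2, H, hH, ⟨e.symm⟩⟩

end Cfsg.Agent.S4297
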