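import Cfsg.Statements.S4298
import Mathlib
import Cfsg.Agent.Lib.Helper23.FrobSemi

set_option autoImplicit false
open Cfsg

namespace Cfsg.Agent.S4298

open Cfsg.Agent.Lib.Helper23.FrobSemi

def Ss : Matrix (Fin 2) (Fin 2) (ZMod 5) := !![0, -1; 1, 0]
def Tt : Matrix (Fin 2) (Fin 2) (ZMod 5) := !![1, 2; 1, 3]

def F (M : Matrix (Fin 2) (Fin 2) (ZMod 3)) : Matrix (Fin 2) (Fin 2) (ZMod 5) :=
  if M 1 0 = 0 then (if M 0 0 = 1 then Tt ^ (M 0 1).val else -(Tt ^ (2 * M 0 1).val))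
  else if M 1 0 = 1 then Tt ^ (M 0 0).val * Ss * Tt ^ (M 1 1).val
  else -(Tt ^ (2 * M 0 0).val * Ss * Tt ^ (2 * M 1 1).val)

set_option maxRecDepth 100000 in
theorem F_mul : ∀ A B : Matrix.SpecialLinearGroup (Fin 2) (ZMod 3),
    F (A * B : Matrix.SpecialLinearGroup (Fin 2) (ZMod 3)).1 = F A.1 * F B.1 := by
  decide

set_option maxRecDepth 100000 in
theorem F_one : F (1 : Matrix.SpecialLinearGroup (Fin 2) (ZMod 3)).1 = 1 := by
  decide

set_option maxRecDepth 100000 in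
theorem F_fpf : ∀ A : Matrix.SpecialLinearGroup (Fin 2) (ZMod 3), A ≠ 1 →
    ∀ v : Fin 2 → ZMod 5, (F A.1).mulVec v = v → v = 0 := by
  decide

instance instSmul : SMul (Matrix.SpecialLinearGroup (Fin 2) (ZMod 3)) (Fin 2 → ZMod 5) :=
  ⟨fun M v => (F M.1).mulVec v⟩

theorem smul_def' (M : Matrix.SpecialLinearGroup (Fin 2) (ZMod 3)) (v : Fin 2 → ZMod 5) :
    M • v = (F M.1).mulVec v := rfl

instance instDMA : DistribMulAction (Matrix.SpecialLinearGroup (Fin 2) (ZMod 3)) (Fin 2 → ZMod 5) where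
  one_smul v := by rw [smul_def', F_one, Matrix.one_mulVec]
  mul_smul A B v := by
    rw [smul_def', smul_def', smul_def', F_mul, Matrix.mulVec_mulVec]
  smul_zero A := by rw [smul_def', Matrix.mulVec_zero]
  smul_add A v w := by rw [smul_def', smul_def', smul_def', Matrix.mulVec_add]

instance instNontriv : Nontrivial (Matrix.SpecialLinearGroup (Fin 2) (ZMod 3)) :=
  ⟨⟨1, -1, by decide⟩⟩

instance instNontrivVec : Nontrivial (Fin 2 → ZMod 5) :=
  ⟨⟨0, fun _ => 1, by decide⟩⟩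

theorem result :
    ∃ (L : Type) (_ : Group L) (_ : Finite L) (H : Subgroup L), Cfsg.IsFrobeniusComplement H ∧ Nonempty (H ≃* Matrix.SpecialLinearGroup (Fin 2) (ZMod 3)) := by
  obtain ⟨L, hL, hF, H, hH, ⟨e⟩⟩ :=
    exists_frob_of_addAction (A := Fin 2 → ZMod 5) (C := Matrix.SpecialLinearGroup (Fin 2) (ZMod 3))
      (fun c hc a ha => F_fpf c hc a ha)
  exact ⟨L, hL, hF, H, hH, ⟨e.symm⟩⟩

end Cfsg.Agent.S4298
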