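import Cfsg.Statements.S4299
import Mathlib
import Cfsg.Agent.Lib.Helper23.FrobSemi

set_option autoImplicit false
open Cfsg

namespace Cfsg.Agent.S4299

open Cfsg.Agent.Lib.Helper23.FrobSemi

lemma exists_unit_orderOf (p n : ℕ) [Fact p.Prime] (hn : n ≠ 0) (hdvd : n ∣ p - 1) :
    ∃ ζ : (ZMod p)ˣ, orderOf ζ = n := by
  obtain ⟨u, hu⟩ := IsCyclic.exists_ofOrder_eq_natCard (α := (ZMod p)ˣ)
  have hcard : Nat.card (ZMod p)ˣ = p - 1 := by
    rw [Nat.card_eq_fintype_card, ZMod.card_units]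
  rw [hcard] at hu
  obtain ⟨m, hm⟩ := hdvd
  have hp1 : p - 1 ≠ 0 := by
    have := (Fact.out : p.Prime).two_le
    omega
  have hm0 : m ≠ 0 := by
    rintro rfl
    rw [mul_zero] at hm
    exact hp1 hm
  refine ⟨u ^ m, ?_⟩
  rw [orderOf_pow_of_dvd hm0 (by rw [hu, hm]; exact dvd_mul_left m n), hu, hm]
  exact Nat.mul_div_cancel n (Nat.pos_of_ne_zero hm0)

theorem result {C : Type*} [Group C] [Finite C] [IsCyclic C] [Nontrivial C] :
    ∃ (L : Type) (_ : Group L) (_ : Finite L) (H : Subgroup L), Cfsg.IsFrobeniusComplement H ∧ Nonempty (C ≃* H) := by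
  obtain ⟨c, hc⟩ := IsCyclic.exists_ofOrder_eq_natCard (α := C)
  have hgen : ∀ x : C, x ∈ Subgroup.zpowers c := by
    intro x
    have : Subgroup.zpowers c = ⊤ := by
      apply Subgroup.eq_top_of_card_eq
      rw [Nat.card_zpowers, hc]
    rw [this]
    exact Subgroup.mem_top x
  have hn0 : Nat.card C ≠ 0 := Nat.card_pos.ne'
  obtain ⟨p, hp, -, hmod⟩ := Nat.exists_prime_gt_modEq_one (k := Nat.card C) 0 hn0
  have : Fact p.Prime := ⟨hp⟩
  have hdvd : Nat.card C ∣ p - 1 := (Nat.modEq_iff_dvd' hp.one_lt.le).1 hmod.symm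
  obtain ⟨ζ, hζ⟩ := exists_unit_orderOf p (Nat.card C) hn0 hdvd
  have hord : orderOf ζ ∣ orderOf c := by rw [hζ, hc]
  let f : C →* (ZMod p)ˣ := monoidHomOfForallMemZpowers hgen hord
  have hfc : f c = ζ := monoidHomOfForallMemZpowers_apply_gen hgen hord
  have hinj : ∀ x : C, f x = 1 → x = 1 := by
    intro x hx
    obtain ⟨k, rfl⟩ := Subgroup.mem_zpowers_iff.1 (hgen x)
    rw [map_zpow, hfc] at hx
    have h1 : (orderOf ζ : ℤ) ∣ k := orderOf_dvd_iff_zpow_eq_one.2 hx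
    rw [hζ, ← hc] at h1
    exact orderOf_dvd_iff_zpow_eq_one.1 h1
  letI : DistribMulAction C (ZMod p) :=
    DistribMulAction.compHom (ZMod p) ((Units.coeHom (ZMod p)).comp f)
  apply exists_frob_of_addAction (A := ZMod p) (C := C)
  intro x hx a ha
  have h1 : ((f x : (ZMod p)ˣ) : ZMod p) * a = a := ha
  have h2 : (((f x : (ZMod p)ˣ) : ZMod p) - 1) * a = 0 := by
    rw [sub_mul, one_mul, h1, sub_self]
  rcases mul_eq_zero.1 h2 with h3 | h3
  · exfalso
    apply hx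
    apply hinj
    apply Units.ext
    rw [Units.val_one]
    exact sub_eq_zero.1 h3
  · exact h3

end Cfsg.Agent.S4299
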