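import Cfsg.Statements.S4300
import Mathlib

set_option autoImplicit false
open Cfsg

namespace Cfsg.Agent.S4300

theorem result {G : Type*} [Group G] {X : Type*} [MulAction G X] [FaithfulSMul G X]
    (hprim : MulAction.IsPreprimitive G X) (x : X) (hsimple : IsSimpleGroup (MulAction.stabilizer G x)) :
    IsSimpleGroup G ∨ ∃ N : Subgroup G, N.Normal ∧ N ≠ ⊥ ∧ N ≠ ⊤ ∧
      MulAction.IsPretransitive N X ∧ ∀ y : X, MulAction.stabilizer N y = ⊥ := by
  by_cases hs : IsSimpleGroup G
  · exact Or.inl hs
  right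
  have hnt : Nontrivial G := by
    obtain ⟨a, b, hab⟩ := hsimple.toNontrivial
    exact ⟨⟨(a : G), (b : G), fun h => hab (Subtype.ext h)⟩⟩
  have hex : ∃ N : Subgroup G, N.Normal ∧ N ≠ ⊥ ∧ N ≠ ⊤ := by
    by_contra hcon
    push Not at hcon
    apply hs
    refine ⟨fun N hN => ?_⟩
    by_cases hb : N = ⊥
    · exact Or.inl hb
    · exact Or.inr (hcon N hN hb)
  obtain ⟨N, hN, hNbot, hNtop⟩ := hex
  have hfix : MulAction.fixedPoints N X ≠ Set.univ := by
    intro hfix
    apply hNbot
    rw [eq_bot_iff]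
    intro n hn
    rw [Subgroup.mem_bot]
    apply FaithfulSMul.eq_of_smul_eq_smul (α := X)
    intro y
    have hy : y ∈ MulAction.fixedPoints N X := by rw [hfix]; trivial
    rw [one_smul]
    exact hy ⟨n, hn⟩
  have htrans : MulAction.IsPretransitive N X :=
    MulAction.IsQuasiPreprimitive.isPretransitive_of_normal hfix
  have hGtrans : MulAction.IsPretransitive G X := hprim.toIsPretransitive
  have hKn : (N.subgroupOf (MulAction.stabilizer G x)).Normal := inferInstance
  have hinf : N ⊓ MulAction.stabilizer G x = ⊥ := by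
    rcases hsimple.eq_bot_or_eq_top_of_normal _ hKn with hbot | htop
    · rw [Subgroup.subgroupOf_eq_bot] at hbot
      exact disjoint_iff.1 hbot
    · exfalso
      rw [Subgroup.subgroupOf_eq_top] at htop
      apply hNtop
      rw [eq_top_iff]
      intro g _
      obtain ⟨n, hn⟩ := MulAction.exists_smul_eq N x (g • x)
      have h1 : (n : G)⁻¹ * g ∈ MulAction.stabilizer G x := by
        rw [MulAction.mem_stabilizer_iff, mul_smul, ← hn]
        exact inv_smul_smul (n : G) x
      have h2 : (n : G) * ((n : G)⁻¹ * g) ∈ N := N.mul_mem n.2 (htop h1)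
      simpa using h2
  refine ⟨N, hN, hNbot, hNtop, htrans, fun y => ?_⟩
  obtain ⟨g, rfl⟩ := MulAction.exists_smul_eq G x y
  rw [eq_bot_iff]
  intro n hn
  rw [Subgroup.mem_bot]
  rw [MulAction.mem_stabilizer_iff] at hn
  have h1 : g⁻¹ * (n : G) * g ∈ N ⊓ MulAction.stabilizer G x := by
    refine ⟨?_, ?_⟩
    · have := hN.conj_mem (n : G) n.2 g⁻¹
      simpa using this
    · change g⁻¹ * (n : G) * g ∈ MulAction.stabilizer G x
      rw [MulAction.mem_stabilizer_iff, mul_smul, mul_smul]
      have h2 : (n : G) • g • x = g • x := hn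
      rw [h2, inv_smul_smul]
  rw [hinf, Subgroup.mem_bot] at h1
  have h3 : (n : G) = 1 := by
    have := congrArg (fun t => g * t * g⁻¹) h1
    simpa [mul_assoc] using this
  exact Subtype.ext h3

end Cfsg.Agent.S4300
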