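import Cfsg.Statements.S4301
import Mathlib

set_option autoImplicit false
open Cfsg

namespace Cfsg.Agent.S4301

open Equiv

theorem pinv_apply {α : Type*} (f : Perm α) (x : α) : f⁻¹ (f x) = x := f.symm_apply_apply x

theorem some_of_fix {X : Type*} (f : Perm (Option X)) (hf : f none = none) (z : X) :
    ∃ w : X, f (some z) = some w := by
  rcases hfz : f (some z) with _ | w
  · exfalso
    have := f.injective (hfz.trans hf.symm)
    exact Option.some_ne_none z this
  · exact ⟨w, rfl⟩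

theorem result {X : Type*} (G : Subgroup (Equiv.Perm (Option X))) (hfix : ∀ f ∈ G, f none = none)
    (k : ℕ) (hk : 2 ≤ k) (hkX : Nonempty (Fin k ↪ X))
    (htrans : ∀ a b : Fin k ↪ X, ∃ f ∈ G, ∀ i, f (some (a i)) = some (b i))
    (h g : Equiv.Perm (Option X)) (hg : g ∈ G) (x y : X)
    (h1 : h none = some x) (h2 : h (some x) = none) (h3 : h (some y) = some y)
    (h4 : g (some x) = some y) (h5 : g (some y) = some x)
    (h6 : (g * h) ^ 3 ∈ G) (h7 : h ^ 2 ∈ G)
    (h8 : ∀ f ∈ G, f (some x) = some x → h * f * h ∈ G ∧ (h * f * h) (some x) = some x) :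
    (∀ f ∈ Subgroup.closure ((G : Set (Equiv.Perm (Option X))) ∪ {h}), f none = none ↔ f ∈ G) ∧
      MulAction.IsMultiplyPretransitive (Subgroup.closure ((G : Set (Equiv.Perm (Option X))) ∪ {h})) (Option X) (k + 1) := by
  classical
  obtain ⟨e⟩ := hkX
  have hxy : x ≠ y := by
    rintro rfl
    rw [h2] at h3
    exact Option.some_ne_none _ h3.symm
  have he01 : e ⟨0, by omega⟩ ≠ e ⟨1, by omega⟩ := by
    intro h'
    have := e.injective h'
    simp at this
  have T2 : ∀ x1 y1 x2 y2 : X, x1 ≠ y1 → x2 ≠ y2 →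
      ∃ f ∈ G, f (some x1) = some x2 ∧ f (some y1) = some y2 := by
    intro x1 y1 x2 y2 hne1 hne2
    have hinj0 : Function.Injective (![e ⟨0, by omega⟩, e ⟨1, by omega⟩] : Fin 2 → X) := by
      intro i j hij
      fin_cases i <;> fin_cases j <;> simp_all
    have hinj1 : Function.Injective (![x1, y1] : Fin 2 → X) := by
      intro i j hij
      fin_cases i <;> fin_cases j <;> simp_all
    have hinj2 : Function.Injective (![x2, y2] : Fin 2 → X) := by
      intro i j hij
      fin_cases i <;> fin_cases j <;> simp_all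
    obtain ⟨σ1, hσ1⟩ := Perm.exists_extending_pair _ _ hinj0 hinj1
    obtain ⟨σ2, hσ2⟩ := Perm.exists_extending_pair _ _ hinj0 hinj2
    obtain ⟨f, hf, hfa⟩ := htrans (e.trans σ1.toEmbedding) (e.trans σ2.toEmbedding)
    refine ⟨f, hf, ?_, ?_⟩
    · have := hfa ⟨0, by omega⟩
      have e1 : σ1 (e ⟨0, by omega⟩) = x1 := hσ1 0
      have e2 : σ2 (e ⟨0, by omega⟩) = x2 := hσ2 0
      simp only [Function.Embedding.trans_apply, Equiv.coe_toEmbedding] at this
      rw [e1, e2] at this
      exact this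
    · have := hfa ⟨1, by omega⟩
      have e1 : σ1 (e ⟨1, by omega⟩) = y1 := hσ1 1
      have e2 : σ2 (e ⟨1, by omega⟩) = y2 := hσ2 1
      simp only [Function.Embedding.trans_apply, Equiv.coe_toEmbedding] at this
      rw [e1, e2] at this
      exact this
  have T1 : ∀ z1 z2 : X, ∃ f ∈ G, f (some z1) = some z2 := by
    intro z1 z2
    obtain ⟨w1, hw1⟩ : ∃ w1, z1 ≠ w1 := by
      by_cases h' : e ⟨0, by omega⟩ = z1
      · exact ⟨e ⟨1, by omega⟩, by rw [← h']; exact he01⟩
      · exact ⟨e ⟨0, by omega⟩, fun h'' => h' h''.symm⟩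
    obtain ⟨w2, hw2⟩ : ∃ w2, z2 ≠ w2 := by
      by_cases h' : e ⟨0, by omega⟩ = z2
      · exact ⟨e ⟨1, by omega⟩, by rw [← h']; exact he01⟩
      · exact ⟨e ⟨0, by omega⟩, fun h'' => h' h''.symm⟩
    obtain ⟨f, hf, hf1, -⟩ := T2 z1 w1 z2 w2 hw1 hw2
    exact ⟨f, hf, hf1⟩
  have hc : (h ^ 2)⁻¹ ∈ G := G.inv_mem h7
  have K : ∀ f ∈ G, h * f * h ∈ G ∨ ∃ F1 ∈ G, ∃ F2 ∈ G, h * f * h = F1 * h * F2 := by
    intro f hf
    by_cases hfx : f (some x) = some x
    · exact Or.inl (h8 f hf hfx).1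
    · right
      obtain ⟨z, hz⟩ := some_of_fix f (hfix f hf) x
      have hzx : x ≠ z := by
        rintro rfl
        exact hfx hz
      obtain ⟨f1, hf1, hf1x, hf1y⟩ := T2 x y x z hxy hzx
      have hf2 : g⁻¹ * f1⁻¹ * f ∈ G := G.mul_mem (G.mul_mem (G.inv_mem hg) (G.inv_mem hf1)) hf
      have hf2x : (g⁻¹ * f1⁻¹ * f) (some x) = some x := by
        show g⁻¹ (f1⁻¹ (f (some x))) = some x
        rw [hz, ← hf1y, pinv_apply, ← h4, pinv_apply]
      have A1 := (h8 f1 hf1 hf1x).1
      have A2 := (h8 _ hf2 hf2x).1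
      refine ⟨h * f1 * h * (h ^ 2)⁻¹ * g⁻¹ * (g * h) ^ 3 * (h ^ 2)⁻¹,
        G.mul_mem (G.mul_mem (G.mul_mem (G.mul_mem A1 hc) (G.inv_mem hg)) h6) hc,
        g⁻¹ * (h ^ 2)⁻¹ * (h * (g⁻¹ * f1⁻¹ * f) * h),
        G.mul_mem (G.mul_mem (G.inv_mem hg) hc) A2, ?_⟩
      have e3 : (g * h) ^ 3 = g * h * g * h * g * h := by
        rw [pow_succ, pow_succ, pow_one]
        group
      rw [e3]
      group
  have hS : ∀ f ∈ Subgroup.closure ((G : Set (Equiv.Perm (Option X))) ∪ {h}),
      f ∈ G ∨ ∃ F1 ∈ G, ∃ F2 ∈ G, f = F1 * h * F2 := by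
    intro f hf
    induction hf using Subgroup.closure_induction with
    | mem f hf =>
      rcases hf with hf | hf
      · exact Or.inl hf
      · rw [Set.mem_singleton_iff] at hf
        exact Or.inr ⟨1, G.one_mem, 1, G.one_mem, by rw [hf]; group⟩
    | one => exact Or.inl G.one_mem
    | mul a b _ _ iha ihb =>
      rcases iha with ha | ⟨a1, ha1, a2, ha2, rfl⟩
      · rcases ihb with hb | ⟨b1, hb1, b2, hb2, rfl⟩
        · exact Or.inl (G.mul_mem ha hb)
        · exact Or.inr ⟨a * b1, G.mul_mem ha hb1, b2, hb2, by group⟩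
      · rcases ihb with hb | ⟨b1, hb1, b2, hb2, rfl⟩
        · exact Or.inr ⟨a1, ha1, a2 * b, G.mul_mem ha2 hb, by group⟩
        · rcases K (a2 * b1) (G.mul_mem ha2 hb1) with hK | ⟨F1, hF1, F2, hF2, hK⟩
          · left
            have e1 : a1 * h * a2 * (b1 * h * b2) = a1 * (h * (a2 * b1) * h) * b2 := by group
            rw [e1]
            exact G.mul_mem (G.mul_mem ha1 hK) hb2
          · right
            refine ⟨a1 * F1, G.mul_mem ha1 hF1, F2 * b2, G.mul_mem hF2 hb2, ?_⟩
            have e1 : a1 * h * a2 * (b1 * h * b2) = a1 * (h * (a2 * b1) * h) * b2 := by group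
            rw [e1, hK]
            group
    | inv a _ iha =>
      rcases iha with ha | ⟨a1, ha1, a2, ha2, rfl⟩
      · exact Or.inl (G.inv_mem ha)
      · exact Or.inr ⟨a2⁻¹ * (h ^ 2)⁻¹, G.mul_mem (G.inv_mem ha2) hc, a1⁻¹, G.inv_mem ha1, by group⟩
  have hGle : G ≤ Subgroup.closure ((G : Set (Equiv.Perm (Option X))) ∪ {h}) := by
    intro f hf
    exact Subgroup.subset_closure (Or.inl hf)
  have hhmem : h ∈ Subgroup.closure ((G : Set (Equiv.Perm (Option X))) ∪ {h}) :=
    Subgroup.subset_closure (Or.inr rfl)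
  constructor
  · intro f hf
    constructor
    · intro hfn
      rcases hS f hf with hfG | ⟨F1, hF1, F2, hF2, rfl⟩
      · exact hfG
      · exfalso
        have e1 : (F1 * h * F2) none = F1 (h (F2 none)) := rfl
        rw [e1, hfix F2 hF2, h1] at hfn
        have := F1.injective (hfn.trans (hfix F1 hF1).symm)
        exact Option.some_ne_none x this
    · exact hfix f
  · rw [MulAction.isMultiplyPretransitive_iff]
    have N : ∀ a : Fin (k + 1) ↪ Option X,
        ∃ γ ∈ Subgroup.closure ((G : Set (Equiv.Perm (Option X))) ∪ {h}),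
        ∃ a' : Fin k ↪ X, γ (a 0) = none ∧ ∀ i : Fin k, γ (a i.succ) = some (a' i) := by
      intro a
      obtain ⟨γ, hγ, hγ0⟩ : ∃ γ ∈ Subgroup.closure ((G : Set (Equiv.Perm (Option X))) ∪ {h}),
          γ (a 0) = none := by
        rcases ha0 : a 0 with _ | z
        · exact ⟨1, Subgroup.one_mem _, rfl⟩
        · obtain ⟨f, hf, hfz⟩ := T1 z x
          refine ⟨h * f, Subgroup.mul_mem _ hhmem (hGle hf), ?_⟩
          show h (f (some z)) = none
          rw [hfz, h2]
      have hsome : ∀ i : Fin k, (γ (a i.succ)).isSome := by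
        intro i
        rw [Option.isSome_iff_ne_none]
        intro hn
        have h' := a.injective (γ.injective (hn.trans hγ0.symm))
        exact Fin.succ_ne_zero i h'
      refine ⟨γ, hγ, ⟨fun i => (γ (a i.succ)).get (hsome i), ?_⟩, hγ0, ?_⟩
      · intro i j hij
        have h' : γ (a i.succ) = γ (a j.succ) := by
          rw [← Option.some_get (hsome i), ← Option.some_get (hsome j)]
          exact congrArg some hij
        exact Fin.succ_injective _ (a.injective (γ.injective h'))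
      · intro i
        exact (Option.some_get (hsome i)).symm
    intro a b
    obtain ⟨γa, hγa, a', ha0, ha'⟩ := N a
    obtain ⟨γb, hγb, b', hb0, hb'⟩ := N b
    obtain ⟨f, hf, hfab⟩ := htrans a' b'
    refine ⟨⟨γb⁻¹ * f * γa, Subgroup.mul_mem _ (Subgroup.mul_mem _ (Subgroup.inv_mem _ hγb)
      (hGle hf)) hγa⟩, ?_⟩
    ext1 i
    rw [Function.Embedding.smul_apply]
    show γb⁻¹ (f (γa (a i))) = b i
    refine Fin.cases ?_ (fun j => ?_) i
    · rw [ha0, hfix f hf, ← hb0, pinv_apply]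
    · rw [ha', hfab, ← hb', pinv_apply]

end Cfsg.Agent.S4301
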