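import Cfsg.Statements.S4309
import Mathlib

set_option autoImplicit false
open Cfsg

namespace Cfsg.Agent.S4309

lemma card_mul_relIndex {G : Type*} [Group G] {K L : Subgroup G} (h : K ≤ L) :
    Nat.card K * K.relIndex L = Nat.card L := by
  have := Subgroup.relIndex_mul_relIndex ⊥ K L bot_le h
  rwa [Subgroup.relIndex_bot_left, Subgroup.relIndex_bot_left] at this

lemma relIndex_dvd_index_of_normal_right {G : Type*} [Group G] [Finite G] (H A : Subgroup G)
    [A.Normal] : H.relIndex A ∣ H.index := by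
  have h1 : Nat.card (H ⊓ A : Subgroup G) * H.relIndex A = Nat.card A := by
    rw [← Subgroup.inf_relIndex_right]
    exact card_mul_relIndex inf_le_right
  have h2 : Nat.card A * A.relIndex H = Nat.card (H ⊔ A : Subgroup G) := by
    rw [← Subgroup.relIndex_sup_right H A]
    exact card_mul_relIndex le_sup_right
  have h3 : Nat.card (H ⊓ A : Subgroup G) * A.relIndex H = Nat.card H := by
    rw [← Subgroup.inf_relIndex_right A H, inf_comm]
    exact card_mul_relIndex inf_le_right
  have h4 : Nat.card H * H.relIndex (H ⊔ A) = Nat.card (H ⊔ A : Subgroup G) :=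
    card_mul_relIndex le_sup_left
  have h5 : H.relIndex A = H.relIndex (H ⊔ A) := by
    have hpos : 0 < Nat.card (H ⊓ A : Subgroup G) * A.relIndex H := by
      rw [h3]
      exact Nat.card_pos
    apply Nat.eq_of_mul_eq_mul_left hpos
    calc Nat.card (H ⊓ A : Subgroup G) * A.relIndex H * H.relIndex A
        = (Nat.card (H ⊓ A : Subgroup G) * H.relIndex A) * A.relIndex H := by ring
      _ = Nat.card (H ⊔ A : Subgroup G) := by rw [h1, h2]
      _ = Nat.card (H ⊓ A : Subgroup G) * A.relIndex H * H.relIndex (H ⊔ A) := by rw [h3, h4]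
  rw [h5]
  exact Subgroup.relIndex_dvd_index_of_le le_sup_left

theorem result {G : Type*} [Group G] [Finite G] (π : Set ℕ)
    (H A : Subgroup G) [A.Normal] (hH : Cfsg.IsPiHall π H) :
    Cfsg.IsPiHall π ((H ⊓ A).subgroupOf A) ∧ Cfsg.IsPiHall π (H.map (QuotientGroup.mk' A)) := by
  obtain ⟨hH1, hH2⟩ := hH
  refine ⟨⟨?_, ?_⟩, ⟨?_, ?_⟩⟩
  · intro p hp hpd
    apply hH1 p hp
    have h1 : Nat.card ((H ⊓ A).subgroupOf A) = Nat.card (H ⊓ A : Subgroup G) :=
      Nat.card_congr (Subgroup.subgroupOfEquivOfLe inf_le_right).toEquiv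
    rw [h1] at hpd
    exact dvd_trans hpd (Subgroup.card_dvd_of_le inf_le_left)
  · intro p hp hpπ hpd
    apply hH2 p hp hpπ
    have h1 : ((H ⊓ A).subgroupOf A).index = H.relIndex A := by
      change (H ⊓ A).relIndex A = H.relIndex A
      exact Subgroup.inf_relIndex_right H A
    rw [h1] at hpd
    exact dvd_trans hpd (relIndex_dvd_index_of_normal_right H A)
  · intro p hp hpd
    exact hH1 p hp (dvd_trans hpd (Subgroup.card_map_dvd H _))
  · intro p hp hpπ hpd
    exact hH2 p hp hpπ (dvd_trans hpd (Subgroup.index_map_dvd H (QuotientGroup.mk'_surjective A)))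

end Cfsg.Agent.S4309
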