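import Cfsg.Statements.S4314
import Mathlib
import Cfsg.Agent.Lib.Helper17.Syl

set_option autoImplicit false
open Cfsg
open scoped Pointwise

namespace Cfsg.Agent.S4314

variable {G : Type*} [Group G]

theorem eq_of_index_prime [Finite G] {C D : Subgroup G} (hCD : C ≤ D) (hC : C.index.Prime)
    (hD : D ≠ ⊤) : C = D := by
  have h1 := Subgroup.relIndex_mul_index hCD
  have h2 : C.relIndex D = 1 := by
    rcases (Nat.Prime.eq_one_or_self_of_dvd hC D.index (Dvd.intro_left _ h1)) with h | h
    · exact absurd (Subgroup.index_eq_one.1 h) hD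
    · rw [h] at h1
      have hpos : 0 < C.index := hC.pos
      exact Nat.eq_of_mul_eq_mul_right hpos (by rw [h1, one_mul])
  exact le_antisymm hCD (Subgroup.relIndex_eq_one.1 h2)

theorem mem_cent {x g : G} : g ∈ Subgroup.centralizer ({x} : Set G) ↔ x * g = g * x := by
  rw [Subgroup.mem_centralizer_iff]; simp

theorem normal_of_quot_comm {K A : Subgroup G} [K.Normal] (hKA : K ≤ A)
    (hc : ∀ a b : G ⧸ K, a * b = b * a) : A.Normal := by
  refine ⟨fun a ha g => ?_⟩
  have h1 : (g * a * g⁻¹) * a⁻¹ ∈ K := by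
    rw [← QuotientGroup.eq_one_iff]
    simp only [QuotientGroup.mk_mul, QuotientGroup.mk_inv]
    rw [hc (QuotientGroup.mk g) (QuotientGroup.mk a)]; simp
  have h2 := A.mul_mem (hKA h1) ha
  simpa using h2

theorem comm_mem_of_normal [Finite G] {N : Subgroup G} [N.Normal]
    (hN : N.index = 1 ∨ N.index.Prime) (a b : G) : a * b * a⁻¹ * b⁻¹ ∈ N := by
  rcases hN with h1 | hp
  · rw [Subgroup.index_eq_one.1 h1]; trivial
  · have : Fact (N.index.Prime) := ⟨hp⟩
    have hc : IsCyclic (G ⧸ N) := isCyclic_of_prime_card (p := N.index) rfl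
    have hcomm : ∀ u v : G ⧸ N, u * v = v * u := by
      have := hc.isMulCommutative
      intro u v
      exact mul_comm' u v
    rw [← QuotientGroup.eq_one_iff]
    simp only [QuotientGroup.mk_mul, QuotientGroup.mk_inv]
    rw [hcomm (QuotientGroup.mk a) (QuotientGroup.mk b)]; simp

theorem case2 [Finite G]
    (h : ∀ x : G, (Subgroup.centralizer ({x} : Set G)).index = 1 ∨
      ((Subgroup.centralizer ({x} : Set G)).index).Prime)
    (x : G) (hx : ¬ (Subgroup.centralizer ({x} : Set G)).Normal) :
    ∃ p q : ℕ, p.Prime ∧ q.Prime ∧ p ≠ q ∧ Nat.card (G ⧸ Subgroup.center G) = p * q ∧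
      ¬ IsMulCommutative (G ⧸ Subgroup.center G) := by
  classical
  have hprime : ∀ y : G, Subgroup.centralizer ({y} : Set G) ≠ ⊤ →
      (Subgroup.centralizer ({y} : Set G)).index.Prime := by
    intro y hy
    rcases h y with h1 | h1
    · exact absurd (Subgroup.index_eq_one.1 h1) hy
    · exact h1
  obtain ⟨A, hA⟩ : ∃ A : Subgroup G, A = Subgroup.centralizer ({x} : Set G) := ⟨_, rfl⟩
  rw [← hA] at hx
  have hAtop : A ≠ ⊤ := by
    intro e; apply hx; rw [e]; infer_instance
  have hp : A.index.Prime := by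
    rw [hA]; apply hprime; rw [← hA]; exact hAtop
  obtain ⟨p, hpdef⟩ : ∃ p : ℕ, p = A.index := ⟨_, rfl⟩
  rw [← hpdef] at hp
  have hNA : Subgroup.normalizer (A : Set G) = A := by
    by_contra hne
    have := eq_of_index_prime (Subgroup.le_normalizer) (hpdef ▸ hp)
      (fun e => hx (Subgroup.normalizer_eq_top_iff.1 e))
    exact hne this.symm
  obtain ⟨K, hK⟩ : ∃ K : Subgroup G, K = A.normalCore := ⟨_, rfl⟩
  have hKA : K ≤ A := hK ▸ A.normalCore_le
  have hKn : K.Normal := hK ▸ A.normalCore_normal
  have hKneA : K ≠ A := by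
    intro e; apply hx; rw [← e]; exact hKn
  have hKidx : K.relIndex A * p = K.index := hpdef ▸ Subgroup.relIndex_mul_index hKA
  have hfp : Fact p.Prime := ⟨hp⟩
  have hpdvd : p ∣ Nat.card (G ⧸ K) := by
    have : Nat.card (G ⧸ K) = K.index := rfl
    rw [this, ← hKidx]; exact dvd_mul_left _ _
  obtain ⟨y, hy⟩ := exists_prime_orderOf_dvd_card' p hpdvd
  obtain ⟨σ₀, rfl⟩ := QuotientGroup.mk_surjective y
  have hσ₀K : σ₀ ∉ K := by
    intro hmem
    have : (QuotientGroup.mk σ₀ : G ⧸ K) = 1 := (QuotientGroup.eq_one_iff σ₀).2 hmem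
    rw [this, orderOf_one] at hy
    exact hp.one_lt.ne hy
  have hσ₀p : σ₀ ^ p ∈ K := by
    rw [← QuotientGroup.eq_one_iff, QuotientGroup.mk_pow, ← hy]; exact pow_orderOf_eq_one _
  have hex : ∃ b : G, b * σ₀ * b⁻¹ ∉ A := by
    by_contra hcon
    push Not at hcon
    apply hσ₀K
    rw [hK]
    exact hcon
  obtain ⟨b, hb⟩ := hex
  obtain ⟨σ, hσ⟩ : ∃ σ : G, σ = b * σ₀ * b⁻¹ := ⟨_, rfl⟩
  rw [← hσ] at hb
  have hσp : σ ^ p ∈ K := by
    have : σ ^ p = b * σ₀ ^ p * b⁻¹ := by rw [hσ, conj_pow]
    rw [this]; exact hKn.conj_mem _ hσ₀p b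
  have hcos : ∀ g : G, ∃ i : ℕ, g * σ ^ i ∈ A := by
    have key : ∀ i j : ℕ, i < j → j < p →
        (QuotientGroup.mk (σ ^ i) : G ⧸ A) ≠ QuotientGroup.mk (σ ^ j) := by
      intro i j hij hjp e
      rw [QuotientGroup.eq] at e
      have hj : σ ^ j = σ ^ i * σ ^ (j - i) := by rw [← pow_add, Nat.add_sub_cancel' hij.le]
      rw [hj, inv_mul_cancel_left] at e
      have hcop : Nat.gcd (j - i) p = 1 := by
        have : Nat.Coprime p (j - i) :=
          (Nat.Prime.coprime_iff_not_dvd hp).2 (Nat.not_dvd_of_pos_of_lt (by omega) (by omega))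
        exact this.symm
      have hbez := Nat.gcd_eq_gcd_ab (j - i) p
      rw [hcop] at hbez
      have hσA : σ ∈ A := by
        have : σ = (σ ^ (j - i)) ^ (Nat.gcdA (j - i) p) * (σ ^ p) ^ (Nat.gcdB (j - i) p) := by
          rw [← zpow_natCast σ (j - i), ← zpow_natCast σ p, ← zpow_mul, ← zpow_mul, ← zpow_add,
            ← hbez]
          simp
        rw [this]
        exact A.mul_mem (A.zpow_mem e _) (A.zpow_mem (hKA hσp) _)
      exact hb hσA
    let f : Fin p → G ⧸ A := fun i => QuotientGroup.mk (σ ^ (i : ℕ))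
    have hinj : Function.Injective f := by
      intro i j e
      by_contra hne
      rcases lt_or_gt_of_ne (fun e' : (i : ℕ) = j => hne (Fin.ext e')) with hlt | hlt
      · exact key i j hlt j.2 e
      · exact key j i hlt i.2 e.symm
    have hbij : Function.Bijective f := hinj.bijective_of_nat_card_le (by
      rw [Nat.card_fin, hpdef]; exact le_of_eq rfl)
    intro g
    obtain ⟨i, hi⟩ := hbij.2 (QuotientGroup.mk g⁻¹)
    refine ⟨i, ?_⟩
    have hi' : (QuotientGroup.mk (σ ^ (i : ℕ)) : G ⧸ A) = QuotientGroup.mk g⁻¹ := hi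
    rw [QuotientGroup.eq] at hi'
    have := A.inv_mem hi'
    simpa using this
  obtain ⟨S, hS⟩ : ∃ S : Subgroup G, S = Subgroup.centralizer ({σ} : Set G) := ⟨_, rfl⟩
  have hStop : S ≠ ⊤ := by
    intro e
    apply hb
    rw [hA, mem_cent]
    have : x ∈ S := by rw [e]; trivial
    rw [hS, mem_cent] at this
    exact this.symm
  have hs : S.index.Prime := by
    rw [hS]; apply hprime; rw [← hS]; exact hStop
  have hSAK : S ⊓ A ≤ K := by
    intro c hc
    rw [Subgroup.mem_inf] at hc
    obtain ⟨hcS, hcA⟩ := hc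
    rw [hK]
    intro g
    obtain ⟨i, hi⟩ := hcos g
    rw [hS, mem_cent] at hcS
    have hc2 : σ ^ i * c = c * σ ^ i := (Commute.pow_left (show Commute σ c from hcS) i).eq
    have h3 : σ ^ i * c * (σ ^ i)⁻¹ = c := by rw [hc2, mul_inv_cancel_right]
    have h4 : g * c * g⁻¹ = (g * σ ^ i) * c * (g * σ ^ i)⁻¹ := by
      calc g * c * g⁻¹ = g * (σ ^ i * c * (σ ^ i)⁻¹) * g⁻¹ := by rw [h3]
        _ = _ := by group
    rw [h4]
    exact A.mul_mem (A.mul_mem hi hcA) (A.inv_mem hi)
  have hKS : K ≤ S := by
    by_contra hnot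
    have hSK : S ⊔ K = ⊤ := by
      by_contra hne
      have := eq_of_index_prime (le_sup_left : S ≤ S ⊔ K) hs hne
      exact hnot (le_sup_right.trans (le_of_eq this.symm))
    have h1 : K.relIndex (S ⊔ K) = K.relIndex S := Subgroup.relIndex_sup_right S K
    rw [hSK, Subgroup.relIndex_top_right] at h1
    have h2 : K.relIndex S = A.relIndex S := by
      rw [← Subgroup.inf_relIndex_right K S, ← Subgroup.inf_relIndex_right A S]
      congr 1
      exact le_antisymm (inf_le_inf_right S hKA) (le_inf (by rw [inf_comm]; exact hSAK) inf_le_right)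
    have h3 : A.relIndex S ≤ p := by
      have := Subgroup.relIndex_le_of_le_right (H := A) (le_top : S ≤ ⊤)
        (by rw [Subgroup.relIndex_top_right, ← hpdef]; exact hp.ne_zero)
      rw [Subgroup.relIndex_top_right, ← hpdef] at this
      exact this
    have h4 : K.relIndex A * p ≤ p := by rw [hKidx, h1, h2]; exact h3
    have h5 : K.relIndex A = 1 := by
      have hpos : 0 < K.relIndex A :=
        Nat.pos_of_ne_zero (Subgroup.index_ne_zero_of_finite : (K.subgroupOf A).index ≠ 0)
      have hle : K.relIndex A ≤ 1 := Nat.le_of_mul_le_mul_right (by rw [one_mul]; exact h4) hp.pos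
      omega
    exact hKneA (le_antisymm hKA (Subgroup.relIndex_eq_one.1 h5))
  have hAS : ((A : Set G) * (S : Set G)) = Set.univ := by
    rw [Set.eq_univ_iff_forall]
    intro g
    obtain ⟨i, hi⟩ := hcos g
    refine Set.mem_mul.2 ⟨g * σ ^ i, hi, (σ ^ i)⁻¹, ?_, by group⟩
    exact S.inv_mem (S.pow_mem (by rw [hS, mem_cent]) i)
  have hKeq : A ⊓ S = K := le_antisymm (by rw [inf_comm]; exact hSAK) (le_inf hKA hKS)
  have hcount := Cfsg.Agent.Lib.Helper17.CD.card_mulSet_mul_card_inf A S
  rw [hAS, hKeq, Nat.card_coe_set_eq, Set.ncard_univ] at hcount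
  have hKSp : K.relIndex S = p := by
    have e1 := Cfsg.Agent.Lib.Helper17.Syl.card_mul_relIndex_le hKS
    have e2 : Nat.card A * p = Nat.card G := hpdef ▸ Subgroup.card_mul_index A
    rw [← e2, ← e1] at hcount
    have hposA : 0 < Nat.card A := Nat.card_pos
    have hposK : 0 < Nat.card K := Nat.card_pos
    have e3 : Nat.card A * (Nat.card K * p) = Nat.card A * (Nat.card K * K.relIndex S) := by
      rw [← hcount]; ring
    exact (Nat.eq_of_mul_eq_mul_left hposK (Nat.eq_of_mul_eq_mul_left hposA e3)).symm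
  have hKidx2 : K.index = p * S.index := by
    rw [← Subgroup.relIndex_mul_index hKS, hKSp]
  have hsA : K.relIndex A = S.index := by
    have : K.relIndex A * p = S.index * p := by rw [hKidx, hKidx2, mul_comm]
    exact Nat.eq_of_mul_eq_mul_right hp.pos this
  have hne_ps : p ≠ S.index := by
    intro e
    have hcard : Nat.card (G ⧸ K) = p ^ 2 := by
      have : Nat.card (G ⧸ K) = K.index := rfl
      rw [this, hKidx2, ← e, sq]
    have hcm : IsMulCommutative (G ⧸ K) := IsPGroup.isMulCommutative_of_card_eq_prime_sq hcard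
    exact hx (normal_of_quot_comm hKA (fun a b => mul_comm' a b))
  have hCa : ∀ a ∈ A, a ∉ K → Subgroup.centralizer ({a} : Set G) = A := by
    intro a haA haK
    have hgen : A ≤ Subgroup.zpowers a ⊔ K := by
      have h1 := Subgroup.relIndex_mul_relIndex (H := K) (K := Subgroup.zpowers a ⊔ K) (L := A)
        le_sup_right (sup_le (by rw [Subgroup.zpowers_le]; exact haA) hKA)
      rw [hsA] at h1
      rcases Nat.Prime.eq_one_or_self_of_dvd hs _ (Dvd.intro _ h1) with h2 | h2
      · exfalso; apply haK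
        exact Subgroup.relIndex_eq_one.1 h2 (Subgroup.mem_sup_left (Subgroup.mem_zpowers a))
      · rw [h2] at h1
        have : (Subgroup.zpowers a ⊔ K).relIndex A = 1 := by
          have hpos := hs.pos
          exact Nat.eq_of_mul_eq_mul_left hpos (by rw [h1, mul_one])
        exact Subgroup.relIndex_eq_one.1 this
    have hle : Subgroup.centralizer ({a} : Set G) ≤ A := by
      intro c hc
      rw [mem_cent] at hc
      rw [← hNA]
      apply Cfsg.Agent.Lib.Helper17.Syl.mem_normalizer_of_conj_mem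
      intro r hr
      have hr' := hgen hr
      have hsub : Subgroup.zpowers a ⊔ K ≤ A.comap (MulAut.conj c).toMonoidHom := by
        apply sup_le
        · rw [Subgroup.zpowers_le, Subgroup.mem_comap]
          show c * a * c⁻¹ ∈ A
          rw [← hc, mul_inv_cancel_right]
          exact haA
        · intro k hk
          rw [Subgroup.mem_comap]
          exact hKA (hKn.conj_mem k hk c)
      have := hsub hr'
      rw [Subgroup.mem_comap] at this
      exact this
    exact eq_of_index_prime hle (hprime a (fun e => hAtop (top_le_iff.1 (e ▸ hle)))) hAtop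
  have hAab : ∀ a ∈ A, ∀ b ∈ A, a * b = b * a := by
    have h1 : ∀ a ∈ A, a ∉ K → ∀ b ∈ A, a * b = b * a := by
      intro a haA haK b hbA
      have : b ∈ Subgroup.centralizer ({a} : Set G) := by rw [hCa a haA haK]; exact hbA
      rw [mem_cent] at this
      exact this
    obtain ⟨c, hcA, hcK⟩ : ∃ c ∈ A, c ∉ K := by
      by_contra hcon
      push Not at hcon
      exact hKneA (le_antisymm hKA hcon)
    intro a haA b hbA
    by_cases haK : a ∈ K
    · by_cases hbK : b ∈ K
      · have hca : c * a ∉ K := fun hmem => hcK (by simpa using K.mul_mem hmem (K.inv_mem haK))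
        have e1 := h1 c hcA hcK b hbA
        have e2 := h1 (c * a) (A.mul_mem hcA haA) hca b hbA
        have : c * (a * b) = c * (b * a) := by
          rw [← mul_assoc, e2, ← mul_assoc, ← e1, mul_assoc]
        exact mul_left_cancel this
      · exact (h1 b hbA hbK a haA).symm
    · exact h1 a haA haK b hbA
  have hKZ : K ≤ Subgroup.center G := by
    intro u hu
    by_contra huZ
    have hCu : ∀ g : G, Subgroup.centralizer ({g * u * g⁻¹} : Set G) = A := by
      intro g
      have hmem : g * u * g⁻¹ ∈ K := hKn.conj_mem u hu g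
      have hle : A ≤ Subgroup.centralizer ({g * u * g⁻¹} : Set G) := by
        intro a ha
        rw [mem_cent]
        exact hAab _ (hKA hmem) a ha
      have hne : Subgroup.centralizer ({g * u * g⁻¹} : Set G) ≠ ⊤ := by
        intro e
        apply huZ
        rw [Subgroup.mem_center_iff]
        intro z
        have : g * z * g⁻¹ ∈ Subgroup.centralizer ({g * u * g⁻¹} : Set G) := by rw [e]; trivial
        rw [mem_cent] at this
        have h2 : g * (u * z) * g⁻¹ = g * (z * u) * g⁻¹ := by
          have e1 : g * u * g⁻¹ * (g * z * g⁻¹) = g * (u * z) * g⁻¹ := by group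
          have e2 : g * z * g⁻¹ * (g * u * g⁻¹) = g * (z * u) * g⁻¹ := by group
          rw [← e1, ← e2]; exact this
        exact (mul_left_cancel (mul_right_cancel h2)).symm
      exact (eq_of_index_prime hle (hpdef ▸ hp) hne).symm
    apply hx
    refine ⟨fun a ha g => ?_⟩
    have : g * a * g⁻¹ ∈ Subgroup.centralizer ({g * u * g⁻¹} : Set G) := by
      rw [mem_cent]
      have hau : u * a = a * u := hAab u (hKA hu) a ha
      have e1 : g * u * g⁻¹ * (g * a * g⁻¹) = g * (u * a) * g⁻¹ := by group
      have e2 : g * a * g⁻¹ * (g * u * g⁻¹) = g * (a * u) * g⁻¹ := by group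
      rw [e1, e2, hau]
    rw [hCu g] at this
    exact this
  have hZA : Subgroup.center G ≤ A := by
    rw [hA]; exact Subgroup.center_le_centralizer _
  have hZK : Subgroup.center G = K :=
    le_antisymm (by rw [hK]; exact Subgroup.normal_le_normalCore.2 hZA) hKZ
  refine ⟨p, S.index, hp, hs, hne_ps, ?_, ?_⟩
  · show (Subgroup.center G).index = _
    rw [hZK]; exact hKidx2
  · intro hcomm
    exact hx (normal_of_quot_comm hZA (fun a b => mul_comm' a b))

theorem result {G : Type*} [Group G] [Finite G]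
    (h : ∀ x : G, (Subgroup.centralizer ({x} : Set G)).index = 1 ∨ ((Subgroup.centralizer ({x} : Set G)).index).Prime) :
    Subgroup.upperCentralSeries G 2 = ⊤ ∨
      ∃ p q : ℕ, p.Prime ∧ q.Prime ∧ p ≠ q ∧ Nat.card (G ⧸ Subgroup.center G) = p * q ∧ ¬ IsMulCommutative (G ⧸ Subgroup.center G) := by
  classical
  by_cases hall : ∀ x : G, (Subgroup.centralizer ({x} : Set G)).Normal
  · left
    rw [eq_top_iff]
    intro g _
    rw [show (2 : ℕ) = 1 + 1 from rfl, Subgroup.mem_upperCentralSeries_succ_iff]
    intro y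
    rw [Subgroup.upperCentralSeries_one, Subgroup.mem_center_iff]
    intro z
    have := hall z
    have hm := comm_mem_of_normal (h z) g y
    rw [mem_cent] at hm
    rw [commutatorElement_def]
    exact hm
  · right
    push Not at hall
    obtain ⟨x, hx⟩ := hall
    exact case2 h x hx

end Cfsg.Agent.S4314
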