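import Cfsg.Statements.S4416
import Cfsg.Agent.Lib.Helper1.ESTwoB

set_option autoImplicit false
open Cfsg

namespace Cfsg.Agent.S4416

/-- Classification of extraspecial 2-groups in intrinsic form. An extraspecial 2-group has order 2^(2m+1) for some m ≥ 1, and the number of its elements squaring to the identity is either 2^(2m) + 2^m or 2^(2m) − 2^m; two extraspecial 2-groups of the same order with the same number of such elements are isomorphic. (The two cases are the central products of m dihedral groups of order 8, and of m − 1 dihedral groups with one quaternion group.) -/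
theorem result (E : Type*) [Group E] [Finite E] (hE : Cfsg.IsExtraspecial 2 E) :
    (∃ m : ℕ, 1 ≤ m ∧ Nat.card E = 2 ^ (2 * m + 1) ∧
      (Nat.card {x : E // x ^ 2 = 1} = 2 ^ (2 * m) + 2 ^ m ∨ Nat.card {x : E // x ^ 2 = 1} = 2 ^ (2 * m) - 2 ^ m)) ∧
    ∀ (E' : Type*) [Group E'] [Finite E'], Cfsg.IsExtraspecial 2 E' → Nat.card E' = Nat.card E →
      Nat.card {x : E' // x ^ 2 = 1} = Nat.card {x : E // x ^ 2 = 1} → Nonempty (E ≃* E') := by
  obtain ⟨z, hG⟩ := Cfsg.Agent.Lib.Lead.Extraspecial.good_of_extraspecial hE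
  have hne2 : Nat.card E ≠ 2 := by
    intro h2
    have hab := Cfsg.Agent.Lib.Lead.Extraspecial.abelian_of_card hG h2
    obtain ⟨⟨hP, hfr, hcomm⟩, hcard⟩ := hE
    have hct : Subgroup.center E = ⊤ := by
      rw [eq_top_iff]; intro g _
      rw [Subgroup.mem_center_iff]; intro h; exact hab h g
    have hcb : commutator E = ⊥ := (commutator_eq_bot_iff_center_eq_top E).2 hct
    rw [hcomm] at hcb
    rw [hcb, Subgroup.card_bot] at hcard
    omega
  constructor
  · obtain ⟨m, hm, hN⟩ := Cfsg.Agent.Lib.Helper1.ESTwo.card_and_count (Nat.card E) E z hG rfl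
    have e : (2 : ℕ) ^ (2 * m + 1) = 2 * (2 ^ m) ^ 2 := by rw [pow_succ, pow_mul']; ring
    have e' : (2 : ℕ) ^ (2 * m) = (2 ^ m) ^ 2 := by rw [pow_mul']
    refine ⟨m, ?_, by rw [e]; exact hm, ?_⟩
    · rcases Nat.eq_zero_or_pos m with h0 | h0
      · exfalso; rw [h0] at hm; simp at hm; exact hne2 hm
      · exact h0
    · rw [e']
      rcases hN with hN | hN
      · exact Or.inl hN
      · exact Or.inr (Nat.eq_sub_of_add_eq hN)
  · intro E' _ _ hE' hc hN
    obtain ⟨z', hG'⟩ := Cfsg.Agent.Lib.Lead.Extraspecial.good_of_extraspecial hE'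
    obtain ⟨F, -⟩ := Cfsg.Agent.Lib.Helper1.ESTwo.iso_of_count (Nat.card E) E E' z z' hG hG' rfl hc
      hN.symm
    exact ⟨F⟩

end Cfsg.Agent.S4416
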