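import Cfsg.Statements.S4421

set_option autoImplicit false
open Cfsg

namespace Cfsg.Agent.S4421

lemma cmul {G : Type*} [Group G] (K : Subgroup G) (g h : G) :
    K.map (MulAut.conj (g * h)).toMonoidHom
      = (K.map (MulAut.conj h).toMonoidHom).map (MulAut.conj g).toMonoidHom := by
  rw [Subgroup.map_map]
  congr 1
  ext x
  simp [mul_assoc]

lemma cone {G : Type*} [Group G] (K : Subgroup G) :
    K.map (MulAut.conj (1 : G)).toMonoidHom = K := by
  ext x
  simp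

lemma mem_norm {G : Type*} [Group G] (K : Subgroup G) (g : G) :
    g ∈ Subgroup.normalizer (K : Set G) ↔ K.map (MulAut.conj g).toMonoidHom = K :=
  Subgroup.mem_normalizer_iff_map_conj_eq

theorem result {G : Type*} [Group G] [Finite G] (A S H : Subgroup G)
    (hAS : A ≤ S) (hSH : S ≤ H)
    (h1 : ∀ g : G, A.map (MulAut.conj g).toMonoidHom ≤ S → ∃ s ∈ S, A.map (MulAut.conj g).toMonoidHom = A.map (MulAut.conj s).toMonoidHom)
    (h2 : ∀ g : G, S.map (MulAut.conj g).toMonoidHom ≤ H → ∃ y ∈ H, S.map (MulAut.conj g).toMonoidHom = S.map (MulAut.conj y).toMonoidHom)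
    (h3 : ∀ x ∈ Subgroup.normalizer (A : Set G), S.map (MulAut.conj x).toMonoidHom ≤ H) :
    ∀ x ∈ Subgroup.normalizer (A : Set G), ∃ y ∈ H ⊓ Subgroup.normalizer (A : Set G),
      ∃ z ∈ Subgroup.normalizer (S : Set G) ⊓ Subgroup.normalizer (A : Set G), x = y * z := by
  intro x hx
  obtain ⟨y, hyH, hy⟩ := h2 x (h3 x hx)
  have hxA : A.map (MulAut.conj x).toMonoidHom = A := (mem_norm A x).1 hx
  have hn : y⁻¹ * x ∈ Subgroup.normalizer (S : Set G) := by
    rw [mem_norm, cmul, hy, ← cmul, inv_mul_cancel, cone]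
  have hnS : S.map (MulAut.conj (y⁻¹ * x)).toMonoidHom = S := (mem_norm S _).1 hn
  have hA1 : A.map (MulAut.conj y⁻¹).toMonoidHom ≤ S := by
    have : A.map (MulAut.conj y⁻¹).toMonoidHom = A.map (MulAut.conj (y⁻¹ * x)).toMonoidHom := by
      rw [cmul, hxA]
    rw [this]
    calc A.map (MulAut.conj (y⁻¹ * x)).toMonoidHom
        ≤ S.map (MulAut.conj (y⁻¹ * x)).toMonoidHom := Subgroup.map_mono hAS
      _ = S := hnS
  obtain ⟨s, hsS, hs⟩ := h1 y⁻¹ hA1
  have hys : y * s ∈ Subgroup.normalizer (A : Set G) := by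
    rw [mem_norm, cmul, ← hs, ← cmul, mul_inv_cancel, cone]
  refine ⟨y * s, ⟨H.mul_mem hyH (hSH hsS), hys⟩, (y * s)⁻¹ * x, ⟨?_, ?_⟩, ?_⟩
  · have : (y * s)⁻¹ * x = s⁻¹ * (y⁻¹ * x) := by group
    rw [this]
    exact Subgroup.mul_mem _ (Subgroup.inv_mem _ (Subgroup.le_normalizer hsS)) hn
  · exact Subgroup.mul_mem _ (Subgroup.inv_mem _ hys) hx
  · group

end Cfsg.Agent.S4421
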