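import Cfsg.Statements.S4422
import Mathlib

set_option autoImplicit false
open Cfsg

namespace Cfsg.Agent.S4422

lemma list_prod_modEq_one (e : ℕ) (l : List ℕ) (h : ∀ p ∈ l, p ≡ 1 [MOD e]) :
    l.prod ≡ 1 [MOD e] := by
  induction l with
  | nil => simp [Nat.ModEq]
  | cons a t ih =>
    rw [List.prod_cons]
    have h1 : a ≡ 1 [MOD e] := h a (by simp)
    have h2 : t.prod ≡ 1 [MOD e] := ih (fun p hp => h p (by simp [hp]))
    simpa using Nat.ModEq.mul h1 h2

lemma prime_case (q e m p : ℕ) (hq : 2 ≤ q) (he : 1 ≤ e)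
    (hm : m ∣ q ^ e - 1) (hcop : ∀ i : ℕ, 1 ≤ i → i < e → Nat.Coprime m (q ^ i - 1))
    (hp : p.Prime) (hpm : p ∣ m) : p ≡ 1 [MOD e] := by
  haveI : Fact p.Prime := ⟨hp⟩
  have hqpos : ∀ k : ℕ, 1 ≤ q ^ k := fun k => Nat.one_le_pow _ _ (by omega)
  have hpd : p ∣ q ^ e - 1 := dvd_trans hpm hm
  have h1 : ((q : ZMod p)) ^ e = 1 := by
    have : ((q ^ e - 1 : ℕ) : ZMod p) = 0 := (ZMod.natCast_eq_zero_iff _ _).2 hpd
    rw [Nat.cast_sub (hqpos e)] at this
    push_cast at this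
    exact sub_eq_zero.1 this
  have hq0 : (q : ZMod p) ≠ 0 := by
    intro h0
    rw [h0, zero_pow (by omega)] at h1
    exact zero_ne_one h1
  set d := orderOf (q : ZMod p) with hd
  have hde : d ∣ e := orderOf_dvd_of_pow_eq_one h1
  have hdpos : 0 < d := Nat.pos_of_dvd_of_pos hde (by omega)
  have hdle : d ≤ e := Nat.le_of_dvd (by omega) hde
  have hdeq : d = e := by
    by_contra hne
    have hlt : d < e := lt_of_le_of_ne hdle hne
    have hc := hcop d hdpos hlt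
    have hpd' : p ∣ q ^ d - 1 := by
      rw [← ZMod.natCast_eq_zero_iff, Nat.cast_sub (hqpos d)]
      push_cast
      rw [hd, pow_orderOf_eq_one, sub_self]
    have : p ∣ Nat.gcd m (q ^ d - 1) := Nat.dvd_gcd hpm hpd'
    rw [hc] at this
    exact hp.one_lt.ne' (Nat.dvd_one.1 this)
  have hdp : d ∣ p - 1 := ZMod.orderOf_dvd_card_sub_one hq0
  rw [hdeq] at hdp
  exact ((Nat.modEq_iff_dvd' hp.one_lt.le).2 hdp).symm

theorem result (q e m : ℕ) (hq : 2 ≤ q) (he : 1 ≤ e)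
    (hm : m ∣ q ^ e - 1) (hcop : ∀ i : ℕ, 1 ≤ i → i < e → Nat.Coprime m (q ^ i - 1)) :
    m % e = 1 % e := by
  have hpos : 1 ≤ q ^ e - 1 := by
    have : 2 ^ 1 ≤ q ^ e := le_trans (Nat.pow_le_pow_left hq 1) (Nat.pow_le_pow_right (by omega) he)
    omega
  have hm0 : m ≠ 0 := by
    rintro rfl
    rw [zero_dvd_iff] at hm
    omega
  have key : m.primeFactorsList.prod ≡ 1 [MOD e] := by
    apply list_prod_modEq_one
    intro p hp
    exact prime_case q e m p hq he hm hcop (Nat.prime_of_mem_primeFactorsList hp)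
      (Nat.dvd_of_mem_primeFactorsList hp)
  rw [Nat.prod_primeFactorsList hm0] at key
  exact key

end Cfsg.Agent.S4422
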