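import Mathlib
import Cfsg.Statements.S4470
import Cfsg.Agent.Lib.Helper23.Jordan2
import Cfsg.Agent.Lib.Helper23.Jordan4
import Cfsg.Agent.Lib.Helper23.Jordan5
import Cfsg.Agent.Lib.Helper24.CharBasic

set_option autoImplicit false
open Cfsg

namespace Cfsg.Agent.S4470

open Cfsg.Agent.Lib.Helper23.Jordan

theorem box_mem (z : ℂ) : ⌈6 * Complex.arg z / Real.pi⌉ ∈ Finset.Icc (-5 : ℤ) 6 := by
  have hpi := Real.pi_pos
  have h1 := Complex.neg_pi_lt_arg z
  have h2 := Complex.arg_le_pi z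
  rw [Finset.mem_Icc]
  constructor
  · have h3 : ((-6 : ℤ) : ℝ) < 6 * Complex.arg z / Real.pi := by
      rw [lt_div_iff₀ hpi]
      push_cast
      nlinarith
    have h4 := Int.lt_ceil.mpr h3
    omega
  · apply Int.ceil_le.mpr
    rw [div_le_iff₀ hpi]
    push_cast
    nlinarith

theorem box_re (z z' : ℂ) (hz : ‖z‖ = 1) (hz' : ‖z'‖ = 1)
    (h : ⌈6 * Complex.arg z / Real.pi⌉ = ⌈6 * Complex.arg z' / Real.pi⌉) :
    c0 < (z⁻¹ * z').re := by
  have hpi := Real.pi_pos
  have h1 : 6 * Complex.arg z / Real.pi ≤ ⌈6 * Complex.arg z / Real.pi⌉ := Int.le_ceil _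
  have h2 : (⌈6 * Complex.arg z / Real.pi⌉ : ℝ) < 6 * Complex.arg z / Real.pi + 1 :=
    Int.ceil_lt_add_one _
  have h1' : 6 * Complex.arg z' / Real.pi ≤ ⌈6 * Complex.arg z' / Real.pi⌉ := Int.le_ceil _
  have h2' : (⌈6 * Complex.arg z' / Real.pi⌉ : ℝ) < 6 * Complex.arg z' / Real.pi + 1 :=
    Int.ceil_lt_add_one _
  rw [← h] at h1' h2'
  have e1 : 6 * Complex.arg z' / Real.pi - 6 * Complex.arg z / Real.pi
      = 6 * (Complex.arg z' - Complex.arg z) / Real.pi := by ring
  have habs : |Complex.arg z' - Complex.arg z| < Real.pi / 6 := by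
    rw [abs_lt]
    constructor
    · have h3 : -1 < 6 * (Complex.arg z' - Complex.arg z) / Real.pi := by
        rw [← e1]; linarith
      rw [lt_div_iff₀ hpi] at h3
      linarith
    · have h3 : 6 * (Complex.arg z' - Complex.arg z) / Real.pi < 1 := by
        rw [← e1]; linarith
      rw [div_lt_iff₀ hpi] at h3
      linarith
  have hzexp : z = Complex.exp (Complex.arg z * Complex.I) := by
    have := Complex.norm_mul_exp_arg_mul_I z
    rw [hz] at this
    simpa using this.symm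
  have hzexp' : z' = Complex.exp (Complex.arg z' * Complex.I) := by
    have := Complex.norm_mul_exp_arg_mul_I z'
    rw [hz'] at this
    simpa using this.symm
  have hprod : z⁻¹ * z' = Complex.exp (((Complex.arg z' - Complex.arg z : ℝ) : ℂ) * Complex.I) := by
    conv_lhs => rw [hzexp, hzexp']
    rw [← Complex.exp_neg, ← Complex.exp_add]
    congr 1
    push_cast
    ring
  rw [hprod, Complex.exp_ofReal_mul_I_re]
  have hcos : Real.cos (Real.pi / 6) < Real.cos |Complex.arg z' - Complex.arg z| :=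
    Real.cos_lt_cos_of_nonneg_of_le_pi_div_two (abs_nonneg _) (by linarith) habs
  rw [Real.cos_abs, Real.cos_pi_div_six] at hcos
  exact hcos

/-- Let the finite group G have a faithful character of degree n. Then G has an abelian normal subgroup A such that every abelian subgroup H of G satisfies [H : H ⊓ A] ≤ 12^n. -/
theorem result {G : Type*} [Group G] [Finite G] (χ : G → ℂ) (hχ : Cfsg.IsCharacter G χ) (hfaith : ∀ g : G, χ g = χ 1 → g = 1) (n : ℕ) (hn : Cfsg.charDegree χ = n) : ∃ A : Subgroup G, A.Normal ∧ (∀ x ∈ A, ∀ y ∈ A, x * y = y * x) ∧ ∀ H : Subgroup G, (∀ x ∈ H, ∀ y ∈ H, x * y = y * x) → (A.subgroupOf H).index ≤ 12 ^ n := by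
  classical
  obtain ⟨n', U, hU, htr⟩ := unitarize χ hχ
  have hdeg := Cfsg.Agent.Lib.Helper24.CharBasic.char_one_nat hχ
  have hn' : n' = n := by
    have h1 := htr 1
    rw [map_one, Matrix.trace_one, Fintype.card_fin, hdeg, hn] at h1
    exact_mod_cast h1
  subst hn'
  have hfa : ∀ g, U g = 1 → g = 1 := by
    intro g hg
    apply hfaith
    rw [← htr g, ← htr 1, hg, map_one]
  refine ⟨Subgroup.closure (SS U), closure_normal U hU, closure_comm U hU hfa, ?_⟩
  intro H hH
  letI : CommGroup H :=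
    { (inferInstance : Group H) with
      mul_comm := fun x y => Subtype.ext (hH x.1 x.2 y.1 y.2) }
  obtain ⟨Λ, hΛ, hkey⟩ := abel_key (U.comp H.subtype) (fun a => hU a)
  have hnorm : ∀ (μ : H →* ℂˣ) (h : H), ‖((μ h : ℂˣ) : ℂ)‖ = 1 := by
    intro μ h
    have h1 : ((μ h : ℂˣ) : ℂ) ^ Nat.card H = 1 := by
      rw [← Units.val_pow_eq_pow_val, ← map_pow, pow_card_eq_one', map_one, Units.val_one]
    exact Complex.norm_eq_one_of_pow_eq_one h1 Nat.card_pos.ne'
  let box : H → (Λ → Finset.Icc (-5 : ℤ) 6) := fun h μ =>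
    ⟨⌈6 * Complex.arg ((μ.1 h : ℂˣ) : ℂ) / Real.pi⌉, box_mem _⟩
  have hbox : ∀ h h' : H, box h = box h' →
      h⁻¹ * h' ∈ (Subgroup.closure (SS U)).subgroupOf H := by
    intro h h' hb
    rw [Subgroup.mem_subgroupOf]
    apply Subgroup.subset_closure
    have hre : ∀ μ ∈ Λ, c0 < ((μ (h⁻¹ * h') : ℂˣ) : ℂ).re := by
      intro μ hμ
      have h1 := congrArg Subtype.val (congrFun hb ⟨μ, hμ⟩)
      have h2 := box_re _ _ (hnorm μ h) (hnorm μ h') h1
      rw [map_mul, map_inv, Units.val_mul, Units.val_inv_eq_inv_val]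
      exact h2
    obtain ⟨γ, hγ1, hγ2⟩ : ∃ γ : ℝ, c0 < γ ∧ ∀ μ ∈ Λ, γ ≤ ((μ (h⁻¹ * h') : ℂˣ) : ℂ).re := by
      by_cases hne : Λ.Nonempty
      · obtain ⟨μ0, hμ0, hmin⟩ := Finset.exists_min_image Λ
          (fun μ => ((μ (h⁻¹ * h') : ℂˣ) : ℂ).re) hne
        exact ⟨_, hre μ0 hμ0, hmin⟩
      · rw [Finset.not_nonempty_iff_eq_empty] at hne
        exact ⟨c0 + 1, by linarith, fun μ hμ => by rw [hne] at hμ; simp at hμ⟩
    exact ⟨γ, hγ1, hkey (h⁻¹ * h') γ hγ2⟩
  have hinj : Function.Injective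
      (fun x : H ⧸ (Subgroup.closure (SS U)).subgroupOf H => box x.out) := by
    intro x y hxy
    have h1 := hbox _ _ hxy
    rw [← QuotientGroup.out_eq' x, ← QuotientGroup.out_eq' y]
    exact QuotientGroup.eq.mpr h1
  have hcard := Nat.card_le_card_of_injective _ hinj
  rw [Subgroup.index]
  refine le_trans hcard ?_
  rw [Nat.card_eq_fintype_card, Fintype.card_fun, Fintype.card_coe, Fintype.card_coe,
    Int.card_Icc]
  exact Nat.pow_le_pow_right (by norm_num) hΛ

end Cfsg.Agent.S4470
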