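import Cfsg.Statements.S4474
import Cfsg.Agent.Lib.Helper10.RealRep4

set_option autoImplicit false
open Cfsg

namespace Cfsg.Agent.S4474

open Cfsg.Agent.Lib.Helper10 Cfsg.Agent.Lib.Helper1


/-- Let χ be an irreducible character of the finite group G. Then the Frobenius–Schur indicator of χ (the average over s ∈ G of χ(s²)) equals 1 if and only if χ is afforded by a real representation: there is a representation of G on a real coordinate space whose trace function, viewed in ℂ, is χ. -/
theorem result {G : Type*} [Group G] [Fintype G] (χ : Cfsg.IrrCharacter G) : ((Nat.card G : ℂ)⁻¹ * ∑ s : G, (χ : G → ℂ) (s * s)) = 1 ↔ ∃ (n : ℕ) (ρ : Representation ℝ G (Fin n → ℝ)), ∀ g : G, ((LinearMap.trace ℝ (Fin n → ℝ) (ρ g) : ℝ) : ℂ) = (χ : G → ℂ) g := by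
  classical
  obtain ⟨χ, n, ρ, hρ, rfl⟩ := χ
  haveI := hρ
  show FS.ind ρ.character = 1 ↔ _
  let X : G → Matrix (Fin n) (Fin n) ℂ := fun g => LinearMap.toMatrix' (ρ g)
  have hX : ∀ g h, X (g * h) = X g * X h := by
    intro g h
    show LinearMap.toMatrix' (ρ (g * h)) = _
    rw [map_mul, LinearMap.toMatrix'_mul]
  have hX1 : X 1 = 1 := by
    show LinearMap.toMatrix' (ρ 1) = 1
    rw [map_one, LinearMap.toMatrix'_one]
  have hρX : ∀ g, ρ g = Matrix.toLin' (X g) := fun g => (Matrix.toLin'_toMatrix' (ρ g)).symm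
  have hχ : ∀ g, ρ.character g = (X g).trace := by
    intro g
    rw [character_apply, LinearMap.trace_eq_matrix_trace ℂ (Pi.basisFun ℂ (Fin n)) (ρ g),
      LinearMap.toMatrix_eq_toMatrix']
  have hn : 0 < n := by
    have hnt := nontrivial_of_isIrreducible ρ
    rcases Nat.eq_zero_or_pos n with h | h
    · subst h
      exact absurd hnt (not_nontrivial_iff_subsingleton.mpr inferInstance)
    · exact h
  constructor
  · intro hind
    rcases FS.dichotomy n ρ with ⟨-, h0, -⟩ | ⟨M0, ε, hinv, hne, hunit, hε, hindε, -, hT, -⟩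
    · rw [h0] at hind
      exact absurd hind zero_ne_one
    · have hε1 : ε = 1 := by rw [← hindε]; exact hind
      have hsym : M0.transpose = M0 := by
        have := hT M0 hinv
        rw [hε1, one_smul] at this
        exact this
      have hschur : ∀ Y : Matrix (Fin n) (Fin n) ℂ, (∀ g, Y * X g = X g * Y) →
          ∃ c : ℂ, Y = c • 1 := by
        intro Y hY
        have hs := schur_scalar ρ (Matrix.toLin' Y) (by
          intro h
          rw [hρX h, ← Matrix.toLin'_mul, ← Matrix.toLin'_mul, hY h])
        have h2 := congrArg LinearMap.toMatrix' hs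
        rw [LinearMap.toMatrix'_toLin', map_smul, LinearMap.toMatrix'_id] at h2
        exact ⟨_, h2⟩
      obtain ⟨N, hN1, hNint⟩ := RealRep.exists_structure X hX hX1 hn hschur M0 hsym hunit hinv
      obtain ⟨R, hRmul, hR1, hRtr⟩ := RealRep.real_form X hX hX1 N hN1 hNint
      refine ⟨n, { toFun := fun g => Matrix.toLin' (R g)
                   map_one' := by rw [hR1, Matrix.toLin'_one]; rfl
                   map_mul' := fun g h => by rw [hRmul, Matrix.toLin'_mul]; rfl }, ?_⟩
      intro g
      show ((LinearMap.trace ℝ (Fin n → ℝ) (Matrix.toLin' (R g)) : ℝ) : ℂ) = ρ.character g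
      rw [Matrix.trace_toLin'_eq, hRtr, hχ]
  · rintro ⟨m, ρr, htr⟩
    have htr' : ∀ g, ((LinearMap.trace ℝ (Fin m → ℝ) (ρr g) : ℝ) : ℂ) = ρ.character g := htr
    have hmn : m = n := by
      have h1 := htr' 1
      rw [map_one, LinearMap.trace_one, Module.finrank_fin_fun, character_apply, map_one,
        LinearMap.trace_one, Module.finrank_fin_fun] at h1
      exact_mod_cast h1
    subst hmn
    refine RealRep.real_ind m ρ (fun g => LinearMap.toMatrix' (ρr g)) ?_ ?_ ?_
    · intro g h
      rw [map_mul, LinearMap.toMatrix'_mul]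
    · rw [map_one, LinearMap.toMatrix'_one]
    · intro g
      rw [← htr' g, LinearMap.trace_eq_matrix_trace ℝ (Pi.basisFun ℝ (Fin m)) (ρr g),
        LinearMap.toMatrix_eq_toMatrix']

end Cfsg.Agent.S4474
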