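import Cfsg.Statements.S4476
import Cfsg.Agent.Lib.Helper10.FS2

set_option autoImplicit false
open Cfsg

namespace Cfsg.Agent.S4476

open scoped ComplexConjugate
open Cfsg.Agent.Lib.Helper10 Cfsg.Agent.Lib.Helper1

theorem card_sq_one {G : Type*} [Group G] [Fintype G] :
    Nat.card {s : G // s * s = 1} = 1 + Nat.card {x : G // orderOf x = 2} := by
  classical
  rw [Nat.card_eq_fintype_card, Nat.card_eq_fintype_card, Fintype.card_subtype,
    Fintype.card_subtype]
  have h1 : (Finset.univ.filter fun s : G => s * s = 1) =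
      insert 1 (Finset.univ.filter fun x : G => orderOf x = 2) := by
    ext s
    simp only [Finset.mem_filter, Finset.mem_univ, true_and, Finset.mem_insert]
    constructor
    · intro h
      by_cases hs : s = 1
      · exact Or.inl hs
      · right
        haveI : Fact (Nat.Prime 2) := ⟨Nat.prime_two⟩
        exact orderOf_eq_prime (by rw [pow_two]; exact h) hs
    · rintro (h | h)
      · rw [h, mul_one]
      · rw [← pow_two, ← h, pow_orderOf_eq_one]
  rw [h1, Finset.card_insert_of_notMem]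
  · ring
  · simp

set_option maxHeartbeats 1000000 in
theorem main {G : Type*} [Group G] [Fintype G] (heven : Even (Nat.card G)) (t : ℕ)
    (ht : Nat.card {x : G // orderOf x = 2} = t) :
    (∃ x : G, x ≠ 1 ∧ ((Subgroup.centralizer ({x} : Set G)).index : ℚ) ≤
        (((Nat.card G : ℚ) - 1) / t) ^ 2) ∧
    ∃ χ : Cfsg.IrrCharacter G, (χ : G → ℂ) ≠ (fun _ => 1) ∧ (∀ g : G, ((χ : G → ℂ) g).im = 0) ∧
      (Cfsg.charDegree (χ : G → ℂ) : ℚ) ≤ ((Nat.card G : ℚ) - 1) / t := by
  classical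
  haveI : Fintype (Cfsg.IrrCharacter G) := irrFintype
  have hgpos : 0 < Nat.card G := Nat.card_pos
  obtain ⟨g1, hg1⟩ : ∃ g1 : ℕ, Nat.card G = g1 + 1 := ⟨Nat.card G - 1, by omega⟩
  have hg1pos : 1 ≤ g1 := by
    obtain ⟨m, hm⟩ := heven
    omega
  -- t ≥ 1
  have ht1 : 1 ≤ t := by
    haveI : Fact (Nat.Prime 2) := ⟨Nat.prime_two⟩
    obtain ⟨x, hx⟩ := exists_prime_orderOf_dvd_card' (G := G) 2 heven.two_dvd
    rw [← ht]
    haveI : Nonempty {x : G // orderOf x = 2} := ⟨⟨x, hx⟩⟩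
    exact Nat.card_pos
  have hsq : Nat.card {s : G // s * s = 1} = 1 + t := by rw [card_sq_one, ht]
  -- degrees and indicators
  have hdex : ∀ χ : Cfsg.IrrCharacter G, ∃ n : ℕ, 0 < n ∧ (χ : G → ℂ) 1 = (n : ℂ) :=
    fun χ => IsIrrCharacter.degree_pos χ.2
  choose d hdpos hd using hdex
  have hνex : ∀ χ : Cfsg.IrrCharacter G, ∃ m : ℤ, (m = 0 ∨ m = 1 ∨ m = -1) ∧
      FS.ind (χ : G → ℂ) = (m : ℂ) ∧ (m ≠ 0 → ∀ s, ((χ : G → ℂ) s).im = 0) := by
    intro χ
    rcases FS.ind_irr χ.2 with ⟨h0, -⟩ | ⟨h1 | h1, hre⟩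
    · exact ⟨0, Or.inl rfl, by rw [h0]; simp, fun h => absurd rfl h⟩
    · exact ⟨1, Or.inr (Or.inl rfl), by rw [h1]; simp, fun _ => hre⟩
    · exact ⟨-1, Or.inr (Or.inr rfl), by rw [h1]; simp, fun _ => hre⟩
  choose ν hνval hνind hνre using hνex
  have hcd : ∀ χ : Cfsg.IrrCharacter G, Cfsg.charDegree (χ : G → ℂ) = d χ := by
    intro χ
    unfold Cfsg.charDegree
    rw [hd χ]
    simp
  -- the principal character
  let χ0 : Cfsg.IrrCharacter G := ⟨fun _ => 1, isIrrCharacter_one⟩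
  have hd0 : d χ0 = 1 := by
    have := hd χ0
    have h1 : (χ0 : G → ℂ) 1 = 1 := rfl
    rw [h1] at this
    exact_mod_cast this.symm
  have hν0 : ν χ0 = 1 := by
    have := hνind χ0
    have h1 : FS.ind (χ0 : G → ℂ) = 1 := FS.ind_one
    rw [h1] at this
    exact_mod_cast this.symm
  -- the sum formulas
  have F1 : ∑ χ : Cfsg.IrrCharacter G, d χ ^ 2 = g1 + 1 := by
    have h := sum_sq_degrees (G := G)
    rw [hg1] at h
    have h2 : ∑ χ : Cfsg.IrrCharacter G, ((d χ ^ 2 : ℕ) : ℂ) = ((g1 + 1 : ℕ) : ℂ) := by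
      rw [← h]
      refine Finset.sum_congr rfl fun χ _ => ?_
      rw [hd χ]
      push_cast
      ring
    exact_mod_cast h2
  have F2 : ∑ χ : Cfsg.IrrCharacter G, (d χ : ℤ) * ν χ = 1 + t := by
    have h := FS.sum_degree_mul_ind (G := G)
    rw [hsq] at h
    have h' : ∑ χ : Cfsg.IrrCharacter G, (χ : G → ℂ) 1 * FS.ind (χ : G → ℂ) = 1 + (t : ℂ) := by
      rw [h]; push_cast; ring
    have h2 : ∑ χ : Cfsg.IrrCharacter G, (((d χ : ℤ) * ν χ : ℤ) : ℂ) = ((1 + t : ℤ) : ℂ) := by
      push_cast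
      rw [← h']
      refine Finset.sum_congr rfl fun χ _ => ?_
      rw [hd χ, hνind χ]
    exact_mod_cast h2
  set k := Fintype.card (Cfsg.IrrCharacter G) with hk
  have F4 : ∑ x : G, Nat.card (Subgroup.centralizer ({x} : Set G)) = k * (g1 + 1) := by
    have h := FS.sum_card_centralizer (G := G)
    rw [hg1] at h
    exact_mod_cast h
  -- split off the principal character
  set S := (Finset.univ : Finset (Cfsg.IrrCharacter G)).erase χ0 with hS
  have hScard : S.card + 1 = k := by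
    rw [hS, Finset.card_erase_of_mem (Finset.mem_univ _), hk, Finset.card_univ]
    have : 0 < Fintype.card (Cfsg.IrrCharacter G) := Fintype.card_pos_iff.mpr ⟨χ0⟩
    omega
  have F1' : ∑ χ ∈ S, d χ ^ 2 = g1 := by
    have := Finset.add_sum_erase Finset.univ (fun χ : Cfsg.IrrCharacter G => d χ ^ 2)
      (Finset.mem_univ χ0)
    rw [F1, hd0, ← hS] at this
    omega
  have F2' : ∑ χ ∈ S, (d χ : ℤ) * ν χ = t := by
    have := Finset.add_sum_erase Finset.univ (fun χ : Cfsg.IrrCharacter G => (d χ : ℤ) * ν χ)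
      (Finset.mem_univ χ0)
    rw [F2, hd0, hν0, ← hS] at this
    push_cast at this
    linarith
  have hSne : ∀ χ ∈ S, (χ : G → ℂ) ≠ (fun _ => 1) := by
    intro χ hχ h
    rw [hS, Finset.mem_erase] at hχ
    exact hχ.1 (Subtype.ext h)
  constructor
  · -- (a)
    by_contra ha
    push_neg at ha
    -- t ≤ ∑_S d
    have h1 : (t : ℤ) ≤ ∑ χ ∈ S, (d χ : ℤ) := by
      rw [← F2']
      refine Finset.sum_le_sum fun χ _ => ?_
      have hdz : (0 : ℤ) ≤ d χ := Int.natCast_nonneg _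
      rcases hνval χ with h | h | h <;> rw [h] <;> nlinarith
    have h2 : (∑ χ ∈ S, (d χ : ℤ)) ^ 2 ≤ (S.card : ℤ) * ∑ χ ∈ S, (d χ : ℤ) ^ 2 :=
      sq_sum_le_card_mul_sum_sq
    have h3 : ∑ χ ∈ S, (d χ : ℤ) ^ 2 = g1 := by
      have := F1'
      have h4 : ((∑ χ ∈ S, d χ ^ 2 : ℕ) : ℤ) = (g1 : ℤ) := by rw [this]
      push_cast at h4
      exact h4
    have h5 : (t : ℤ) ^ 2 ≤ (S.card : ℤ) * g1 := by
      rw [← h3]
      refine le_trans ?_ h2
      have h0 : (0 : ℤ) ≤ t := Int.natCast_nonneg _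
      nlinarith
    -- the centralizer sum
    have hc1 : Nat.card (Subgroup.centralizer ({(1 : G)} : Set G)) = g1 + 1 := by
      rw [← hg1]
      have : Subgroup.centralizer ({(1 : G)} : Set G) = ⊤ := by
        rw [eq_top_iff]
        intro x _
        rw [Subgroup.mem_centralizer_singleton_iff]
        simp
      rw [this, Subgroup.card_top]
    set T := (Finset.univ : Finset G).erase 1 with hT
    have hTcard : T.card = g1 := by
      rw [hT, Finset.card_erase_of_mem (Finset.mem_univ _), Finset.card_univ,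
        ← Nat.card_eq_fintype_card, hg1]
      omega
    have F4' : ∑ x ∈ T, Nat.card (Subgroup.centralizer ({x} : Set G)) + (g1 + 1) =
        k * (g1 + 1) := by
      have := Finset.add_sum_erase Finset.univ
        (fun x : G => Nat.card (Subgroup.centralizer ({x} : Set G))) (Finset.mem_univ 1)
      rw [F4, hc1, ← hT] at this
      omega
    have hTne : T.Nonempty := by
      rw [← Finset.card_pos, hTcard]
      exact hg1pos
    have h6 : ∀ x ∈ T, g1 ^ 2 * Nat.card (Subgroup.centralizer ({x} : Set G)) <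
        (g1 + 1) * t ^ 2 := by
      intro x hx
      rw [hT, Finset.mem_erase] at hx
      have h7 := ha x hx.1
      have h8 := Subgroup.index_mul_card (Subgroup.centralizer ({x} : Set G))
      rw [hg1] at h8
      have hcpos : 0 < Nat.card (Subgroup.centralizer ({x} : Set G)) := Nat.card_pos
      set c := Nat.card (Subgroup.centralizer ({x} : Set G)) with hc
      set i := (Subgroup.centralizer ({x} : Set G)).index with hi
      rw [hg1] at h7
      have h9 : ((g1 : ℚ)) ^ 2 < (i : ℚ) * (t : ℚ) ^ 2 := by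
        have htq : (0 : ℚ) < (t : ℚ) ^ 2 := by
          have : (0 : ℚ) < t := by exact_mod_cast ht1
          positivity
        have h10 : ((((g1 + 1 : ℕ) : ℚ) - 1) / t) ^ 2 = (g1 : ℚ) ^ 2 / (t : ℚ) ^ 2 := by
          push_cast
          rw [div_pow]
          congr 1
          ring
        rw [h10, div_lt_iff₀ htq] at h7
        exact h7
      have h11 : ((g1 : ℚ)) ^ 2 * c < ((g1 : ℚ) + 1) * (t : ℚ) ^ 2 := by
        have hcq : (0 : ℚ) < c := by exact_mod_cast hcpos
        have h12 : (i : ℚ) * c = (g1 : ℚ) + 1 := by exact_mod_cast h8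
        calc ((g1 : ℚ)) ^ 2 * c < ((i : ℚ) * (t : ℚ) ^ 2) * c := by
              exact mul_lt_mul_of_pos_right h9 hcq
          _ = ((g1 : ℚ) + 1) * (t : ℚ) ^ 2 := by rw [← h12]; ring
      exact_mod_cast h11
    have h13 : ∑ x ∈ T, g1 ^ 2 * Nat.card (Subgroup.centralizer ({x} : Set G)) <
        ∑ x ∈ T, (g1 + 1) * t ^ 2 := Finset.sum_lt_sum_of_nonempty hTne h6
    rw [← Finset.mul_sum, Finset.sum_const, hTcard, smul_eq_mul] at h13
    -- arithmetic
    have h14 : (∑ x ∈ T, Nat.card (Subgroup.centralizer ({x} : Set G)) : ℤ) =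
        ((S.card : ℤ)) * (g1 + 1) := by
      have h15 : ((∑ x ∈ T, Nat.card (Subgroup.centralizer ({x} : Set G)) + (g1 + 1) : ℕ) : ℤ) =
          ((k * (g1 + 1) : ℕ) : ℤ) := by rw [F4']
      rw [← hScard] at h15
      push_cast at h15
      push_cast
      linarith
    have h16 : ((g1 : ℤ)) ^ 2 * (((S.card : ℤ)) * (g1 + 1)) < g1 * ((g1 + 1) * (t : ℤ) ^ 2) := by
      rw [← h14]
      exact_mod_cast h13
    have hg1z : (1 : ℤ) ≤ g1 := by exact_mod_cast hg1pos
    have h18 : (g1 : ℤ) * ((g1 + 1) * (t : ℤ) ^ 2) ≤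
        (g1 : ℤ) * ((g1 + 1) * ((S.card : ℤ) * g1)) :=
      mul_le_mul_of_nonneg_left (mul_le_mul_of_nonneg_left h5 (by linarith)) (by linarith)
    have h19 : (g1 : ℤ) * ((g1 + 1) * ((S.card : ℤ) * g1)) =
        ((g1 : ℤ)) ^ 2 * (((S.card : ℤ)) * (g1 + 1)) := by ring
    linarith
  · -- (b)
    by_contra hb
    push_neg at hb
    set R := S.filter (fun χ => ν χ ≠ 0) with hR
    have hRS : R ⊆ S := Finset.filter_subset _ _
    have h1 : (t : ℤ) ≤ ∑ χ ∈ R, (d χ : ℤ) := by
      rw [← F2', hR, Finset.sum_filter]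
      refine Finset.sum_le_sum fun χ _ => ?_
      have hdz : (0 : ℤ) ≤ d χ := Int.natCast_nonneg _
      rcases hνval χ with h | h | h <;> rw [h] <;> simp
    have h2 : ∀ χ ∈ R, g1 + 1 ≤ d χ * t := by
      intro χ hχ
      rw [hR, Finset.mem_filter] at hχ
      have h3 := hb χ (hSne χ hχ.1) (hνre χ hχ.2)
      rw [hcd χ, hg1] at h3
      have htq : (0 : ℚ) < t := by exact_mod_cast ht1
      rw [div_lt_iff₀ htq] at h3
      have h4 : (g1 : ℚ) < (d χ : ℚ) * t := by
        have : (((g1 + 1 : ℕ) : ℚ) - 1) = g1 := by push_cast; ring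
        rw [this] at h3
        exact h3
      have h5 : g1 < d χ * t := by exact_mod_cast h4
      omega
    have h6 : ∑ χ ∈ R, (g1 + 1) * d χ ≤ ∑ χ ∈ R, t * d χ ^ 2 := by
      refine Finset.sum_le_sum fun χ hχ => ?_
      have := h2 χ hχ
      calc (g1 + 1) * d χ ≤ (d χ * t) * d χ := Nat.mul_le_mul_right _ this
        _ = t * d χ ^ 2 := by ring
    have h7 : ∑ χ ∈ R, d χ ^ 2 ≤ g1 := by
      rw [← F1']
      exact Finset.sum_le_sum_of_subset hRS
    rw [← Finset.mul_sum, ← Finset.mul_sum] at h6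
    have h8 : (t : ℤ) ≤ ((∑ χ ∈ R, d χ : ℕ) : ℤ) := by
      push_cast
      exact h1
    have h9 : t ≤ ∑ χ ∈ R, d χ := by exact_mod_cast h8
    have h10 : (g1 + 1) * t ≤ t * g1 :=
      calc (g1 + 1) * t ≤ (g1 + 1) * ∑ χ ∈ R, d χ := Nat.mul_le_mul_left _ h9
        _ ≤ t * ∑ χ ∈ R, d χ ^ 2 := h6
        _ ≤ t * g1 := Nat.mul_le_mul_left _ h7
    nlinarith

/-- Let G be a finite group of even order g with exactly t involutions, and put α = (g − 1)/t (a rational number). Then (a) some non-identity element x of G has at most α² conjugates; and (b) some non-principal real-valued irreducible character of G has degree at most α. -/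
theorem result {G : Type*} [Group G] [Fintype G] (heven : Even (Nat.card G)) (t : ℕ) (ht : Nat.card {x : G // orderOf x = 2} = t) : (∃ x : G, x ≠ 1 ∧ ((Subgroup.centralizer ({x} : Set G)).index : ℚ) ≤ (((Nat.card G : ℚ) - 1) / t) ^ 2) ∧ ∃ χ : Cfsg.IrrCharacter G, (χ : G → ℂ) ≠ (fun _ => 1) ∧ (∀ g : G, ((χ : G → ℂ) g).im = 0) ∧ (Cfsg.charDegree (χ : G → ℂ) : ℚ) ≤ ((Nat.card G : ℚ) - 1) / t := by
  exact main heven t ht

end Cfsg.Agent.S4476
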