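import Mathlib
import Cfsg.Statements.S4488
import Cfsg.Agent.Lib.Helper23.Schur3

set_option autoImplicit false
open Cfsg

namespace Cfsg.Agent.S4488

open Cfsg.Agent.Lib.Helper23.Schur

theorem pow_char {G : Type*} [Group G] (χ : G → ℂ) (hχ : Cfsg.IsCharacter G χ) (j : ℕ) :
    Cfsg.IsCharacter G (fun g => χ g ^ j) := by
  induction j with
  | zero => simpa using Cfsg.Agent.Lib.Helper1.isCharacter_one (G := G)
  | succ n ih =>
    have := Cfsg.Agent.Lib.Helper1.IsCharacter.mul ih hχ
    convert this using 1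
    funext g
    simp [pow_succ]

/-- Let the finite group G have a faithful p-rational character χ of degree n (all values of χ lie in the field generated over ℚ by a root of unity of order prime to p), and let p^a be the order of a Sylow p-subgroup of G. Then a ≤ Σ_{i ≥ 0} ⌊n / ((p − 1)·p^i)⌋ (a finite sum; the terms vanish once (p − 1)p^i > n). -/
theorem result {G : Type*} [Group G] [Finite G] (p : ℕ) (hp : p.Prime) (χ : G → ℂ) (hχ : Cfsg.IsCharacter G χ) (hfaith : ∀ g : G, χ g = χ 1 → g = 1) (hrat : (∃ r : ℕ, 0 < r ∧ ¬ p ∣ r ∧ ∀ g : G, χ g ∈ IntermediateField.adjoin ℚ ({Complex.exp (2 * Real.pi * Complex.I / r)} : Set ℂ))) (n : ℕ) (hn : Cfsg.charDegree χ = n) : (Nat.card G).factorization p ≤ ∑ i ∈ Finset.range (n + 1), n / ((p - 1) * p ^ i) := by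
  classical
  obtain ⟨r, hr, hpr, hrat⟩ := hrat
  haveI : Fact p.Prime := ⟨hp⟩
  haveI : Fintype G := Fintype.ofFinite G
  let P : Sylow p G := default
  haveI : Fintype (P : Subgroup G) := Fintype.ofFinite _
  set a := (Nat.card G).factorization p with ha
  have hPcard : Nat.card (P : Subgroup G) = p ^ a := Sylow.card_eq_multiplicity P
  set m := n / (p - 1) with hm
  have hp1 : 0 < p - 1 := by have := hp.two_le; omega
  have hdeg := Cfsg.Agent.Lib.Helper24.CharBasic.char_one_nat hχ
  rw [hn] at hdeg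
  have hval : ∀ g : G, g ∈ (P : Subgroup G) → g ≠ 1 →
      ∃ y : ℕ, 1 ≤ y ∧ y ≤ m ∧ χ g = (n : ℂ) - (p : ℂ) * y := by
    intro g hg hg1
    obtain ⟨k, hk⟩ : ∃ k, orderOf g = p ^ k := by
      have hPp : IsPGroup p (P : Subgroup G) := P.isPGroup'
      obtain ⟨k, hk⟩ := (IsPGroup.iff_orderOf.mp hPp) ⟨g, hg⟩
      exact ⟨k, by rw [← hk]; exact (Subgroup.orderOf_mk g hg).symm⟩
    have hk0 : 0 < k := by
      rcases Nat.eq_zero_or_pos k with h | h
      · rw [h, pow_zero, orderOf_eq_one_iff] at hk; exact absurd hk hg1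
      · exact h
    obtain ⟨y, hy1, hy2⟩ := value p hp χ hχ r hr hpr hrat g k hk0 hk
    rw [hn] at hy2
    refine ⟨y, ?_, ?_, ?_⟩
    · rcases Nat.eq_zero_or_pos y with h | h
      · exfalso
        rw [h] at hy1
        simp only [Nat.cast_zero, mul_zero] at hy1
        exact hg1 (hfaith g (sub_eq_zero.mp hy1).symm)
      · exact h
    · rw [hm]; exact (Nat.le_div_iff_mul_le hp1).mpr (by rw [mul_comm]; exact hy2)
    · rw [← hdeg, ← hy1]; ring
  set F : Polynomial ℤ := ∏ y ∈ Finset.range m,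
    (Polynomial.X - Polynomial.C ((n : ℤ) - (p : ℤ) * ((y : ℤ) + 1))) with hF
  have haeval : ∀ z : ℂ, Polynomial.aeval z F
      = ∏ y ∈ Finset.range m, (z - ((n : ℂ) - (p : ℂ) * ((y : ℂ) + 1))) := by
    intro z
    rw [hF, map_prod]
    refine Finset.prod_congr rfl (fun y _ => ?_)
    simp
  have hzero : ∀ g : G, g ∈ (P : Subgroup G) → g ≠ 1 → Polynomial.aeval (χ g) F = 0 := by
    intro g hg hg1
    obtain ⟨y, hy1, hy2, hy3⟩ := hval g hg hg1
    rw [haeval]
    have hc : ((y - 1 : ℕ) : ℂ) + 1 = (y : ℂ) := by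
      rw [Nat.cast_sub hy1]; push_cast; ring
    exact Finset.prod_eq_zero (i := y - 1) (Finset.mem_range.mpr (by omega))
      (by rw [hy3, hc]; ring)
  have hone : Polynomial.aeval (χ 1) F = ((p ^ m * m.factorial : ℕ) : ℂ) := by
    rw [haeval, hdeg]
    have h1 : ∀ y ∈ Finset.range m, ((n : ℂ) - ((n : ℂ) - (p : ℂ) * ((y : ℂ) + 1)))
        = (p : ℂ) * ((y + 1 : ℕ) : ℂ) := fun y _ => by push_cast; ring
    rw [Finset.prod_congr rfl h1, Finset.prod_mul_distrib, Finset.prod_const, Finset.card_range,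
      ← Nat.cast_prod, Finset.prod_range_add_one_eq_factorial]
    push_cast
    ring
  have hsumF : ∑ g : (P : Subgroup G), Polynomial.aeval (χ (g : G)) F
      = ((p ^ m * m.factorial : ℕ) : ℂ) := by
    rw [Finset.sum_eq_single (1 : (P : Subgroup G))]
    · exact hone
    · intro g _ hg1
      exact hzero g g.2 (fun h => hg1 (Subtype.ext h))
    · intro h; exact absurd (Finset.mem_univ _) h
  have hpow : ∀ j : ℕ, ∃ N : ℕ, ∑ g : (P : Subgroup G), χ (g : G) ^ j
      = (Nat.card (P : Subgroup G) : ℂ) * N := by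
    intro j
    exact Cfsg.Agent.Lib.Helper24.CharBasic.sum_char_subgroup (pow_char χ hχ j) (P : Subgroup G)
  choose Nj hNj using hpow
  have hsum2 : ∑ g : (P : Subgroup G), Polynomial.aeval (χ (g : G)) F
      = (Nat.card (P : Subgroup G) : ℂ)
        * ((∑ j ∈ Finset.range (F.natDegree + 1), F.coeff j * (Nj j : ℤ) : ℤ) : ℂ) := by
    have h1 : ∀ g : (P : Subgroup G), Polynomial.aeval (χ (g : G)) F
        = ∑ j ∈ Finset.range (F.natDegree + 1), (F.coeff j : ℂ) * χ (g : G) ^ j := by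
      intro g
      rw [Polynomial.aeval_eq_sum_range]
      refine Finset.sum_congr rfl (fun j _ => ?_)
      rw [zsmul_eq_mul]
    simp_rw [h1]
    rw [Finset.sum_comm]
    push_cast
    rw [Finset.mul_sum]
    refine Finset.sum_congr rfl (fun j _ => ?_)
    rw [← Finset.mul_sum, hNj j]; ring
  have hdvd : p ^ a ∣ p ^ m * m.factorial := by
    have h := hsumF.symm.trans hsum2
    rw [hPcard] at h
    have h' : ((p ^ m * m.factorial : ℕ) : ℤ) = ((p ^ a : ℕ) : ℤ)
        * (∑ j ∈ Finset.range (F.natDegree + 1), F.coeff j * (Nj j : ℤ)) := by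
      exact_mod_cast h
    exact Int.natCast_dvd_natCast.mp ⟨_, h'⟩
  have hne : p ^ m * m.factorial ≠ 0 :=
    (Nat.mul_pos (pow_pos hp.pos m) (Nat.factorial_pos m)).ne'
  have hle : a ≤ padicValNat p (p ^ m * m.factorial) := (padicValNat_dvd_iff_le hne).mp hdvd
  have hlog : Nat.log p m < n + 1 := by
    have h1 := Nat.log_le_self p m
    have h2 := Nat.div_le_self n (p - 1)
    omega
  rw [padicValNat.mul (pow_pos hp.pos m).ne' (Nat.factorial_pos m).ne', padicValNat.prime_pow,
    padicValNat_factorial hlog] at hle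
  rw [Finset.range_eq_Ico, Finset.sum_eq_sum_Ico_succ_bot (Nat.succ_pos n)]
  simp only [pow_zero, mul_one]
  refine le_trans hle (Nat.add_le_add_left (le_of_eq ?_) _)
  refine Finset.sum_congr rfl (fun i _ => ?_)
  rw [hm, Nat.div_div_eq_div_mul]

end Cfsg.Agent.S4488
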