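import Cfsg.Statements.S4495
import Cfsg.Agent.Lib.Helper24.SelfCent2

set_option autoImplicit false
open Cfsg

namespace Cfsg.Agent.S4495

open Cfsg.Agent.Lib.Helper24.SelfCent

theorem result {G : Type*} [Group G] [Finite G] (p : ℕ) (hp : p.Prime) (x : G) (hx : orderOf x = p) (hC : Subgroup.centralizer ({x} : Set G) = Subgroup.zpowers x) (t : ℕ) (ht : Nat.card {C : ConjClasses G // ∃ g ∈ C.carrier, orderOf g = p} = t) : (t ≠ p - 1 → (commutator G).index * t ≤ p - 1) ∧ (t = p - 1 → (commutator G).index = p) := by
  subst ht
  constructor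
  · intro hne
    obtain ⟨n, hn, hn'⟩ := exists_normalizer_of_count hp hx hC hne
    have hle := zp_le_commutator hp hx hC hn hn'
    have hdvd := index_dvd hp hx hC (commutator G) hle
    have hcount := count_eq hp hx hC
    have hpos : 0 < p - 1 := Nat.sub_pos_of_lt hp.one_lt
    have hepos : 0 < (Subgroup.zpowers x).relIndex (Subgroup.normalizer (Subgroup.zpowers x : Set G)) := by
      rcases Nat.eq_zero_or_pos
        ((Subgroup.zpowers x).relIndex (Subgroup.normalizer (Subgroup.zpowers x : Set G))) with h | h
      · rw [h, mul_zero] at hcount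
        omega
      · exact h
    calc (commutator G).index * Nat.card {C : ConjClasses G // ∃ g ∈ C.carrier, orderOf g = p}
        ≤ (Subgroup.zpowers x).relIndex (Subgroup.normalizer (Subgroup.zpowers x : Set G)) *
          Nat.card {C : ConjClasses G // ∃ g ∈ C.carrier, orderOf g = p} :=
          Nat.mul_le_mul_right _ (Nat.le_of_dvd hepos hdvd)
      _ = p - 1 := by rw [mul_comm]; exact hcount
  · intro heq
    exact index_of_burnside hp hx hC (normalizer_eq_of_count hp hx hC heq)

end Cfsg.Agent.S4495
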