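import Cfsg.Statements.S4496
import Cfsg.Agent.Lib.Helper24.SelfCent

set_option autoImplicit false
open Cfsg

namespace Cfsg.Agent.S4496

open Cfsg.Agent.Lib.Helper24.SelfCent

theorem result {G : Type*} [Group G] [Finite G] (p : ℕ) (hp : p.Prime) (x : G) (hx : orderOf x = p) (hC : Subgroup.centralizer ({x} : Set G) = Subgroup.zpowers x) (S : Subgroup G) [S.Normal] : (p ∣ Nat.card S → commutator G ≤ S) ∧ (¬ p ∣ Nat.card S → Nat.card S ∣ Nat.card {H : Subgroup G // Nat.card H = p} ∧ Nat.card S % p = 1 ∧ orderOf (QuotientGroup.mk x : G ⧸ S) = p ∧ Subgroup.centralizer ({(QuotientGroup.mk x : G ⧸ S)} : Set (G ⧸ S)) = Subgroup.zpowers (QuotientGroup.mk x : G ⧸ S)) := by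
  refine ⟨fun h => commutator_le_of_le hp hx hC S (zp_le_of_dvd hp hx hC S h),
    fun h => ⟨?_, card_mod hp hx hC S h, quot_orderOf hp hx S h, quot_centralizer hp hx hC S h⟩⟩
  rw [card_subgroups hp hx hC]
  exact card_dvd_index_normalizer hp hx hC S h

end Cfsg.Agent.S4496
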