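import Cfsg.Statements.S4497
import Cfsg.Agent.Lib.Helper24.SelfCent3

set_option autoImplicit false
open Cfsg

namespace Cfsg.Agent.S4497

open Cfsg.Agent.Lib.Helper24.SelfCent

theorem result {G : Type*} [Group G] [Finite G] (p : ℕ) (hp : p.Prime) (x : G) (hx : orderOf x = p) (hC : Subgroup.centralizer ({x} : Set G) = Subgroup.zpowers x) (t : ℕ) (ht : Nat.card {C : ConjClasses G // ∃ g ∈ C.carrier, orderOf g = p} = t) : Cfsg.pPrimeCore p G ≤ commutator G ∧ (t ≠ p - 1 → ∀ h : ((Cfsg.pPrimeCore p G).subgroupOf (commutator G)).Normal, IsSimpleGroup (↥(commutator G) ⧸ (Cfsg.pPrimeCore p G).subgroupOf (commutator G))) ∧ (t = p - 1 → commutator G = Cfsg.pPrimeCore p G) := by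
  subst ht
  refine ⟨core_le_commutator hp hx hC, ?_, ?_⟩
  · intro hne h
    obtain ⟨n, hn, hn'⟩ := exists_normalizer_of_count hp hx hC hne
    exact quotient_simple hp hx hC (zp_le_commutator hp hx hC hn hn') h
  · intro heq
    exact commutator_eq_core hp hx hC (normalizer_eq_of_count hp hx hC heq)

end Cfsg.Agent.S4497
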