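import Cfsg.Statements.S4509
import Cfsg.Agent.Lib.Helper24.SelfCent3

set_option autoImplicit false
open Cfsg

namespace Cfsg.Agent.S4509

open Cfsg.Agent.Lib.Helper24.SelfCent
open Subgroup
open scoped commutatorElement

theorem part2 {G : Type*} [Group G] [Finite G] {p : ℕ} (hp : p.Prime) {x : G}
    (hx : orderOf x = p) (hC : centralizer ({x} : Set G) = zpowers x)
    (hN : normalizer (zpowers x : Set G) = zpowers x) {n : ℕ}
    (hidx : (normalizer (zpowers x : Set G)).index = 1 + n * p) :
    Nat.card (commutator G) = 1 + n * p ∧ IsCyclic (G ⧸ commutator G) ∧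
      (commutator G).index = p := by
  have hfact : Fact p.Prime := ⟨hp⟩
  have hb := (burnside hp hx hC hN).1
  have hcN : Nat.card (normalizer (zpowers x : Set G)) = p := by
    rw [hN]; exact card_zp hx
  have h1 := Subgroup.card_mul_index (normalizer (zpowers x : Set G))
  rw [hcN, hidx, ← hb, mul_comm] at h1
  have hi := index_of_burnside hp hx hC hN
  refine ⟨(Nat.eq_of_mul_eq_mul_right hp.pos h1).symm, ?_, hi⟩
  exact isCyclic_of_prime_card (p := p) hi

theorem part3 {G : Type*} [Group G] [Finite G] {p : ℕ} (hp : p.Prime) {x : G}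
    (hx : orderOf x = p) (hC : centralizer ({x} : Set G) = zpowers x)
    (hxG : zpowers x ≤ commutator G)
    (hne : (⁅commutator G, commutator G⁆ : Subgroup G) ≠ commutator G) {n : ℕ}
    (hidx : (normalizer (zpowers x : Set G)).index = 1 + n * p) :
    Nat.card (⁅commutator G, commutator G⁆ : Subgroup G) = 1 + n * p ∧
      Nat.card (commutator G) = p * (1 + n * p) := by
  have hn := core_normal p G
  have h2 : ¬ p ∣ Nat.card (⁅commutator G, commutator G⁆ : Subgroup G) := by
    intro h
    exact hne (le_antisymm (Subgroup.commutator_le_self _) (commutator_le_of_dvd_derived hp hx hC h))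
  have hle := commutator_le_zp_sup_core hp hx hC hxG h2
  have hcle := core_le_commutator hp hx hC
  have heq : commutator G = zpowers x ⊔ Cfsg.pPrimeCore p G :=
    le_antisymm hle (sup_le hxG hcle)
  have hder : (⁅commutator G, commutator G⁆ : Subgroup G) = Cfsg.pPrimeCore p G := by
    apply le_antisymm (le_core hp inferInstance h2)
    intro y hy
    obtain ⟨s, hs, rfl⟩ := exists_comm_eq hp hx hC _ (core_not_dvd hp) hy
    exact Subgroup.commutator_mem_commutator (hcle hs) (hxG (mem_zpowers x))
  have hdisj : Cfsg.pPrimeCore p G ⊓ zpowers x = ⊥ := by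
    rw [inf_comm]; exact inf_eq_bot_of_not_dvd hp hx _ (core_not_dvd hp)
  have hcardG' : Nat.card (commutator G) = Nat.card (Cfsg.pPrimeCore p G) * p := by
    have h := card_sup_of_disjoint (Cfsg.pPrimeCore p G) (zpowers x) hdisj
    rw [card_zp hx, ← heq] at h
    exact h
  have hinf : commutator G ⊓ normalizer (zpowers x : Set G) = zpowers x := by
    apply le_antisymm _ (le_inf hxG le_normalizer)
    rintro g ⟨hg1, hg2⟩
    have h4 : g ∈ ((zpowers x ⊔ Cfsg.pPrimeCore p G : Subgroup G) : Set G) := hle hg1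
    rw [Subgroup.mul_normal] at h4
    obtain ⟨u, hu, s, hs, rfl⟩ := Set.mem_mul.mp h4
    have hs2 : s ∈ normalizer (zpowers x : Set G) := by
      have e : s = u⁻¹ * (u * s) := by group
      rw [e]
      exact Subgroup.mul_mem _ (Subgroup.inv_mem _ (le_normalizer hu)) hg2
    have hs3 : s ∈ Cfsg.pPrimeCore p G ⊓ normalizer (zpowers x : Set G) := ⟨hs, hs2⟩
    rw [inf_normalizer_eq_bot hp hx hC _ (core_not_dvd hp), Subgroup.mem_bot] at hs3
    rw [hs3, mul_one]
    exact hu
  have hindex : (commutator G).index =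
      (zpowers x).relIndex (normalizer (zpowers x : Set G)) := by
    have hfr := frattini hp hx hC (commutator G) hxG
    have h1 : (commutator G).relIndex (normalizer (zpowers x : Set G) ⊔ commutator G) =
        (commutator G).relIndex (normalizer (zpowers x : Set G)) :=
      Subgroup.relIndex_sup_right _ _
    rw [hfr, Subgroup.relIndex_top_right] at h1
    rw [h1, Subgroup.relIndex, Subgroup.relIndex, ← Subgroup.inf_subgroupOf_right, hinf]
  have hG1 := Subgroup.card_mul_index (commutator G)
  have hG2 := Subgroup.card_mul_index (normalizer (zpowers x : Set G))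
  rw [hcardG', hindex] at hG1
  rw [card_normalizer hx, hidx, ← hG1] at hG2
  have hpos : 0 < p * (zpowers x).relIndex (normalizer (zpowers x : Set G)) := by
    rw [← card_normalizer hx]; exact Nat.card_pos
  have hcore : Nat.card (Cfsg.pPrimeCore p G) = 1 + n * p := by
    have h5 : (p * (zpowers x).relIndex (normalizer (zpowers x : Set G))) * (1 + n * p) =
        (p * (zpowers x).relIndex (normalizer (zpowers x : Set G))) *
          Nat.card (Cfsg.pPrimeCore p G) := by
      rw [hG2]; ring
    exact (Nat.eq_of_mul_eq_mul_left hpos h5).symm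
  refine ⟨by rw [hder, hcore], ?_⟩
  rw [hcardG', hcore, mul_comm]

theorem part1 {G : Type*} [Group G] [Finite G] {p : ℕ} (hp : p.Prime) {x : G}
    (hx : orderOf x = p) (hC : centralizer ({x} : Set G) = zpowers x)
    (hxG : zpowers x ≤ commutator G) {n : ℕ}
    (hidx : (normalizer (zpowers x : Set G)).index = 1 + n * p)
    (S : Subgroup G) (hS : S.Normal) (hcard : Nat.card S = 1 + n * p) :
    (⁅commutator G, commutator G⁆ : Subgroup G) ≠ commutator G := by
  have hcop : ¬ p ∣ Nat.card S := by
    rw [hcard]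
    intro h
    have h1 : p ∣ 1 := (Nat.dvd_add_left (dvd_mul_left p n)).mp h
    exact hp.one_lt.ne' (Nat.dvd_one.mp h1)
  have hdisj := inf_normalizer_eq_bot hp hx hC S hcop
  have hc := card_sup_of_disjoint S (normalizer (zpowers x : Set G)) hdisj
  rw [hcard, ← hidx, mul_comm, Subgroup.card_mul_index] at hc
  have htop : normalizer (zpowers x : Set G) ⊔ S = ⊤ := Subgroup.eq_top_of_card_eq _ hc
  have hle := commutator_le_sup hC S htop
  have hder : (⁅commutator G, commutator G⁆ : Subgroup G) ≤ S := by
    rw [Subgroup.commutator_le]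
    intro a ha b hb
    have ha' : a ∈ ((zpowers x ⊔ S : Subgroup G) : Set G) := hle ha
    have hb' : b ∈ ((zpowers x ⊔ S : Subgroup G) : Set G) := hle hb
    rw [Subgroup.mul_normal] at ha' hb'
    obtain ⟨u₁, hu₁, s₁, hs₁, rfl⟩ := Set.mem_mul.mp ha'
    obtain ⟨u₂, hu₂, s₂, hs₂, rfl⟩ := Set.mem_mul.mp hb'
    have e1 : (QuotientGroup.mk' S) s₁ = 1 := (QuotientGroup.eq_one_iff s₁).mpr hs₁
    have e2 : (QuotientGroup.mk' S) s₂ = 1 := (QuotientGroup.eq_one_iff s₂).mpr hs₂
    have h1 : (QuotientGroup.mk' S) ⁅u₁ * s₁, u₂ * s₂⁆ = 1 := by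
      rw [map_commutatorElement, map_mul, map_mul, e1, e2, mul_one, mul_one,
        ← map_commutatorElement, commutatorElement_eq_one_iff_mul_comm.mpr (zp_comm hu₁ hu₂),
        map_one]
    exact (QuotientGroup.eq_one_iff _).mp h1
  intro heq
  have hxG' : x ∈ (⁅commutator G, commutator G⁆ : Subgroup G) := by
    rw [heq]; exact hxG (mem_zpowers x)
  have hxS : x ∈ S := hder hxG'
  exact x_not_mem hp hx S hcop hxS

theorem result {G : Type*} [Group G] [Finite G] (p : ℕ) (hp : p.Prime) (x : G) (hx : orderOf x = p) (hC : Subgroup.centralizer ({x} : Set G) = Subgroup.zpowers x) (t : ℕ) (ht : Nat.card {C : ConjClasses G // ∃ g ∈ C.carrier, orderOf g = p} = t) (n : ℕ) (hn : Nat.card {H : Subgroup G // Nat.card H = p} = 1 + n * p) : ((∃ S : Subgroup G, S.Normal ∧ Nat.card S = 1 + n * p) ↔ (t = p - 1 ∨ (t < p - 1 ∧ derivedSeries G 2 ≠ derivedSeries G 1))) ∧ (t = p - 1 → Nat.card (commutator G) = 1 + n * p ∧ IsCyclic (G ⧸ commutator G) ∧ (commutator G).index = p) ∧ (t < p - 1 → derivedSeries G 2 ≠ derivedSeries G 1 →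 Nat.card (derivedSeries G 2) = 1 + n * p ∧ Nat.card (commutator G) = p * (1 + n * p)) := by
  subst ht
  have hidx : (normalizer (zpowers x : Set G)).index = 1 + n * p := by
    rw [← card_subgroups hp hx hC]; exact hn
  have hd1 : derivedSeries G 1 = commutator G := derivedSeries_one G
  have hd2 : derivedSeries G 2 = ⁅commutator G, commutator G⁆ := by
    rw [← hd1]; exact derivedSeries_succ G 1
  rw [hd1, hd2]
  have hA : Nat.card {C : ConjClasses G // ∃ g ∈ C.carrier, orderOf g = p} = p - 1 →
      Nat.card (commutator G) = 1 + n * p ∧ IsCyclic (G ⧸ commutator G) ∧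
        (commutator G).index = p :=
    fun heq => part2 hp hx hC (normalizer_eq_of_count hp hx hC heq) hidx
  have hB : Nat.card {C : ConjClasses G // ∃ g ∈ C.carrier, orderOf g = p} < p - 1 →
      (⁅commutator G, commutator G⁆ : Subgroup G) ≠ commutator G →
      Nat.card (⁅commutator G, commutator G⁆ : Subgroup G) = 1 + n * p ∧
        Nat.card (commutator G) = p * (1 + n * p) := by
    intro hlt hne
    obtain ⟨m, hm, hm'⟩ := exists_normalizer_of_count hp hx hC hlt.ne
    exact part3 hp hx hC (zp_le_commutator hp hx hC hm hm') hne hidx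
  refine ⟨⟨?_, ?_⟩, hA, hB⟩
  · rintro ⟨S, hS, hcard⟩
    by_cases heq : Nat.card {C : ConjClasses G // ∃ g ∈ C.carrier, orderOf g = p} = p - 1
    · exact Or.inl heq
    · right
      obtain ⟨m, hm, hm'⟩ := exists_normalizer_of_count hp hx hC heq
      exact ⟨lt_of_le_of_ne (count_le hp hx hC) heq,
        part1 hp hx hC (zp_le_commutator hp hx hC hm hm') hidx S hS hcard⟩
  · rintro (heq | ⟨hlt, hne⟩)
    · exact ⟨commutator G, inferInstance, (hA heq).1⟩
    · exact ⟨⁅commutator G, commutator G⁆, inferInstance, (hB hlt hne).1⟩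

end Cfsg.Agent.S4509
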