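import Cfsg.Statements.S4636
import Mathlib

set_option autoImplicit false
open Cfsg
open scoped Pointwise

namespace Cfsg.Agent.S4636

theorem cyc_unique {α : Type*} [Group α] [Finite α] [IsCyclic α] (H K : Subgroup α)
    (h : Nat.card H = Nat.card K) : H = K := by
  classical
  have := Fintype.ofFinite α
  have hpos : 0 < Nat.card H := Nat.card_pos
  have key : ∀ L : Subgroup α, Nat.card L = Nat.card H →
      (L : Set α) = {a : α | a ^ Nat.card H = 1} := by
    intro L hL
    apply Set.eq_of_subset_of_ncard_le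
    · intro a ha
      have : (⟨a, ha⟩ : L) ^ Nat.card L = 1 := pow_card_eq_one'
      rw [hL] at this
      simpa [Subtype.ext_iff] using this
    · have h1 := IsCyclic.card_pow_eq_one_le (α := α) hpos
      have h2 : ({a : α | a ^ Nat.card H = 1} : Set α).ncard
          = (Finset.univ.filter (fun a : α => a ^ Nat.card H = 1)).card := by
        rw [← Set.ncard_coe_finset]
        congr 1
        ext a
        simp
      rw [h2]
      have h3 : (L : Set α).ncard = Nat.card L := by
        rw [← Nat.card_coe_set_eq]; rfl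
      rw [h3, hL]
      exact h1
    · exact Set.toFinite _
  have e1 := key H rfl
  have e2 := key K h.symm
  exact SetLike.coe_injective (e1.trans e2.symm)

theorem sub_unique {G : Type*} [Group G] [Finite G] (C : Subgroup G) (hC : IsCyclic C)
    (H K : Subgroup G) (hH : H ≤ C) (hK : K ≤ C) (h : Nat.card H = Nat.card K) : H = K := by
  have h1 : H.subgroupOf C = K.subgroupOf C := by
    apply cyc_unique
    rw [Nat.card_congr (Subgroup.subgroupOfEquivOfLe hH).toEquiv,
      Nat.card_congr (Subgroup.subgroupOfEquivOfLe hK).toEquiv, h]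
  have := congrArg (Subgroup.map C.subtype) h1
  simpa [Subgroup.map_subgroupOf_eq_of_le hH, Subgroup.map_subgroupOf_eq_of_le hK] using this

theorem exists_sub_card_p {G : Type*} [Group G] [Finite G] (p : ℕ) [Fact p.Prime]
    (R : Subgroup G) (hR : IsPGroup p R) (hR1 : R ≠ ⊥) :
    ∃ W : Subgroup G, W ≤ R ∧ Nat.card W = p := by
  have hp : p.Prime := Fact.out
  have hcard : p ^ 1 ≤ Nat.card R := by
    obtain ⟨n, hn⟩ := hR.exists_card_eq
    rcases n with _ | n
    · exfalso
      apply hR1
      rw [pow_zero] at hn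
      exact Subgroup.card_eq_one.mp hn
    · rw [hn]
      exact Nat.pow_le_pow_right hp.pos (by omega)
  obtain ⟨W, hW, hWc⟩ := Sylow.exists_subgroup_le_card_pow_prime_of_le_card (G := R) (n := 1) hp hR
    (H := ⊤) (by simpa using hcard)
  refine ⟨W.map R.subtype, ?_, ?_⟩
  · intro x hx
    obtain ⟨y, _, rfl⟩ := hx
    exact y.2
  · rw [Nat.card_congr (Subgroup.equivMapOfInjective W R.subtype
      (Subgroup.subtype_injective R)).symm.toEquiv, hWc, pow_one]

theorem card_conj {G : Type*} [Group G] (x : G) (Z : Subgroup G) :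
    Nat.card (MulAut.conj x • Z : Subgroup G) = Nat.card Z := by
  exact Nat.card_congr (Subgroup.equivSMul (MulAut.conj x) Z).symm.toEquiv

theorem result {G : Type*} [Group G] [Finite G] (p : ℕ) [Fact p.Prime] (P : Subgroup G) (hP : IsPGroup p P) (hP1 : P ≠ ⊥) (hcyc : IsCyclic P) (Z : Subgroup G) (hZ : Z ≤ P) (hZcard : Nat.card Z = p) : (∀ x : G, x ∉ Subgroup.normalizer (Z : Set G) → P ⊓ MulAut.conj x • P = ⊥) ∧ ∀ Q : Subgroup G, Q ≤ P → Q ≠ ⊥ → Subgroup.normalizer (Q : Set G) ≤ Subgroup.normalizer (Z : Set G) := by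
  constructor
  · intro x hx
    by_contra hne
    have hR : IsPGroup p (P ⊓ MulAut.conj x • P : Subgroup G) := hP.to_le inf_le_left
    obtain ⟨W, hW, hWc⟩ := exists_sub_card_p p _ hR hne
    have e1 : W = Z := sub_unique P hcyc W Z (hW.trans inf_le_left) hZ (hWc.trans hZcard.symm)
    have hcyc' : IsCyclic (MulAut.conj x • P : Subgroup G) :=
      isCyclic_of_surjective (Subgroup.equivSMul (MulAut.conj x) P)
        (Subgroup.equivSMul (MulAut.conj x) P).surjective
    have e2 : W = MulAut.conj x • Z :=
      sub_unique (MulAut.conj x • P) hcyc' W (MulAut.conj x • Z) (hW.trans inf_le_right)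
        (Subgroup.pointwise_smul_le_pointwise_smul_iff.mpr hZ)
        (by rw [card_conj, hWc, hZcard])
    apply hx
    rw [Subgroup.mem_normalizer_iff_map_conj_eq]
    have : MulAut.conj x • Z = Z := e2.symm.trans e1
    exact this
  · intro Q hQ hQ1 g hg
    have hR : IsPGroup p Q := hP.to_le hQ
    obtain ⟨W, hW, hWc⟩ := exists_sub_card_p p _ hR hQ1
    have e1 : W = Z := sub_unique P hcyc W Z (hW.trans hQ) hZ (hWc.trans hZcard.symm)
    subst e1
    have hgQ : MulAut.conj g • Q = Q := by
      have := Subgroup.mem_normalizer_iff_map_conj_eq.mp hg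
      exact this
    have e2 : MulAut.conj g • W = W := by
      apply sub_unique P hcyc _ _ _ hZ (by rw [card_conj])
      calc MulAut.conj g • W ≤ MulAut.conj g • Q :=
            Subgroup.pointwise_smul_le_pointwise_smul_iff.mpr hW
        _ = Q := hgQ
        _ ≤ P := hQ
    rw [Subgroup.mem_normalizer_iff_map_conj_eq]
    exact e2

end Cfsg.Agent.S4636
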