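import Cfsg.Statements.S4665
import Cfsg.Agent.Lib.Helper24.CharBasic

set_option autoImplicit false
open Cfsg

namespace Cfsg.Agent.S4665

open Cfsg.Agent.Lib.Helper24.CharBasic

theorem result {G : Type*} [Group G] [Fintype G] (p : ℕ) [Fact p.Prime] (M : Ideal Cfsg.AlgInt) (hM : Cfsg.IsPModular p M) (B : Set (Cfsg.IrrCharacter G)) (hB : Cfsg.IsPBlock M B) (χ : G → ℂ) (hχ : (∃ n : Cfsg.IrrCharacter G → ℤ, ∀ g : G, χ g = ∑ᶠ ψ ∈ B, (n ψ : ℂ) * (ψ : G → ℂ) g)) (h0 : (∃ n : Cfsg.IrrCharacter G → ℤ, ∀ g : G, Cfsg.pRegularPart p χ g = ∑ᶠ ψ ∈ B, (n ψ : ℂ) * (ψ : G → ℂ) g)) : ∃ k : ℤ, χ 1 = (p ^ (Nat.card G).factorization p : ℂ) * k := by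
  classical
  have hp : p.Prime := Fact.out
  obtain ⟨n, hn⟩ := h0
  obtain ⟨P⟩ : Nonempty (Sylow p G) := inferInstance
  have : Fintype (P : Subgroup G) := Fintype.ofFinite _
  have hcard : Nat.card (P : Subgroup G) = p ^ (Nat.card G).factorization p :=
    Sylow.card_eq_multiplicity P
  have hBfin : B.Finite := Set.toFinite B
  have hm : ∀ ψ : Cfsg.IrrCharacter G, ∃ m : ℕ,
      ∑ x : (P : Subgroup G), (ψ : G → ℂ) x = (Nat.card (P : Subgroup G) : ℂ) * m :=
    fun ψ => sum_char_subgroup (isCharacter_of_irr ψ.2) (P : Subgroup G)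
  choose m hm using hm
  have hsum : ∑ x : (P : Subgroup G), Cfsg.pRegularPart p χ (x : G) = χ 1 := by
    rw [Finset.sum_eq_single (1 : (P : Subgroup G))]
    · unfold Cfsg.pRegularPart Cfsg.IsPRegular
      simp [hp.one_lt.ne', Nat.dvd_one]
    · intro x _ hx
      have hxo : p ∣ orderOf x := by
        obtain ⟨k, hk⟩ := (IsPGroup.iff_orderOf.mp P.isPGroup') x
        rw [hk]
        rcases Nat.eq_zero_or_pos k with rfl | hkpos
        · exfalso
          rw [pow_zero, orderOf_eq_one_iff] at hk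
          exact hx hk
        · exact dvd_pow_self p hkpos.ne'
      unfold Cfsg.pRegularPart Cfsg.IsPRegular
      simp only [Subgroup.orderOf_coe]
      rw [if_neg (not_not.mpr hxo)]
    · intro h; exact absurd (Finset.mem_univ _) h
  refine ⟨∑ ψ ∈ hBfin.toFinset, n ψ * (m ψ : ℤ), ?_⟩
  rw [← hsum]
  have e1 : ∀ x : (P : Subgroup G), Cfsg.pRegularPart p χ (x : G)
      = ∑ ψ ∈ hBfin.toFinset, (n ψ : ℂ) * (ψ : G → ℂ) x := by
    intro x
    rw [hn, finsum_mem_eq_finite_toFinset_sum _ hBfin]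
  rw [Finset.sum_congr rfl (fun x _ => e1 x), Finset.sum_comm]
  push_cast
  rw [Finset.mul_sum]
  apply Finset.sum_congr rfl
  intro ψ _
  rw [← Finset.mul_sum, hm ψ, hcard]
  push_cast
  ring

end Cfsg.Agent.S4665
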