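import Cfsg.Statements.S4729
import Cfsg.Agent.Lib.Helper24.SmallFaith

set_option autoImplicit false
open Cfsg

namespace Cfsg.Agent.S4729

theorem result {G : Type*} [Group G] [Finite G] (p : ℕ) [Fact p.Prime] (M : Ideal Cfsg.AlgInt) (hM : Cfsg.IsPModular p M) (hperf : commutator G = ⊤) (P : Sylow p G) (χ : Cfsg.IrrCharacter G) (hχ : χ ∈ Cfsg.principalBlock M G) (hfaith : ∀ g : G, (χ : G → ℂ) g = (χ : G → ℂ) 1 → g = 1) (hdeg : Cfsg.charDegree (χ : G → ℂ) < 2 * p) : IsPGroup p ↥(Subgroup.centralizer ((P : Subgroup G) : Set G)) := by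
  intro g
  have hp : p.Prime := Fact.out
  have hg0 : orderOf (g : G) ≠ 0 := (orderOf_pos (g : G)).ne'
  have hx : (g : G) ^ p ^ (orderOf (g : G)).factorization p ∈
      Subgroup.centralizer ((P : Subgroup G) : Set G) := pow_mem g.2 _
  have hord : orderOf ((g : G) ^ p ^ (orderOf (g : G)).factorization p)
      = orderOf (g : G) / p ^ (orderOf (g : G)).factorization p := by
    rw [orderOf_pow, Nat.gcd_eq_right (Nat.ordProj_dvd _ _)]
  have hxp : ¬ p ∣ orderOf ((g : G) ^ p ^ (orderOf (g : G)).factorization p) := by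
    rw [hord]
    exact Nat.not_dvd_ordCompl hp hg0
  have h1 := Cfsg.Agent.Lib.Helper24.SmallFaith.char_eq p M hM hperf P χ hχ hdeg _ hx hxp
  have h2 := hfaith _ h1
  refine ⟨(orderOf (g : G)).factorization p, ?_⟩
  apply Subtype.ext
  rw [Subgroup.coe_pow]
  exact h2

end Cfsg.Agent.S4729
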