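import Cfsg.Statements.S4965
import Mathlib

set_option autoImplicit false
open Cfsg

namespace Cfsg.Agent.S4965

/-- Let X be a finite group with an abelian normal subgroup V (any two elements of V commute), and let φ be the action of X ⧸ V on V induced by conjugation (well defined because V is abelian; the hypothesis hφ says that the class of x acts as conjugation by x). Then X has at most as many conjugacy classes as the semidirect product of V by X ⧸ V formed with this action: the split extension has the largest class number among extensions with the given action. -/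
theorem result {X : Type*} [Group X] [Finite X] (V : Subgroup X) [V.Normal] (hab : ∀ a ∈ V, ∀ b ∈ V, a * b = b * a) (φ : X ⧸ V →* MulAut ↥V) (hφ : ∀ (x : X) (v : ↥V), ((φ (QuotientGroup.mk x) v : ↥V) : X) = x * v * x⁻¹) : Nat.card (ConjClasses X) ≤ Nat.card (ConjClasses (SemidirectProduct ↥V (X ⧸ V) φ)) := by
  classical
  have hfinS : Finite (SemidirectProduct ↥V (X ⧸ V) φ) :=
    Finite.of_equiv _ SemidirectProduct.equivProd.symm
  -- base points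
  let base : (X ⧸ V) × (X ⧸ V) → X × X := fun ab =>
    if h : ∃ p : X × X, Commute p.1 p.2 ∧ (QuotientGroup.mk p.1 : X ⧸ V) = ab.1 ∧
        (QuotientGroup.mk p.2 : X ⧸ V) = ab.2 then Classical.choose h else (1, 1)
  have hbase : ∀ (x y : X), Commute x y →
      Commute (base ((x : X ⧸ V), (y : X ⧸ V))).1 (base ((x : X ⧸ V), (y : X ⧸ V))).2 ∧
      (QuotientGroup.mk (base ((x : X ⧸ V), (y : X ⧸ V))).1 : X ⧸ V) = x ∧
      (QuotientGroup.mk (base ((x : X ⧸ V), (y : X ⧸ V))).2 : X ⧸ V) = y := by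
    intro x y hxy
    have h : ∃ p : X × X, Commute p.1 p.2 ∧ (QuotientGroup.mk p.1 : X ⧸ V) = (x : X ⧸ V) ∧
        (QuotientGroup.mk p.2 : X ⧸ V) = (y : X ⧸ V) := ⟨(x, y), hxy, rfl, rfl⟩
    simp only [base, dif_pos h]
    exact Classical.choose_spec h
  have hmemV : ∀ (x x₀ : X), (QuotientGroup.mk x₀ : X ⧸ V) = x → x * x₀⁻¹ ∈ V := by
    intro x x₀ h
    have h1 : x₀⁻¹ * x ∈ V := QuotientGroup.eq.mp h
    have h2 := ‹V.Normal›.conj_mem _ h1 x
    have h3 : x * (x₀⁻¹ * x) * x⁻¹ = x * x₀⁻¹ := by group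
    rwa [h3] at h2
  have hmem1 : ∀ p : {p : X × X // Commute p.1 p.2},
      p.1.1 * (base ((p.1.1 : X ⧸ V), (p.1.2 : X ⧸ V))).1⁻¹ ∈ V :=
    fun p => hmemV _ _ (hbase p.1.1 p.1.2 p.2).2.1
  have hmem2 : ∀ p : {p : X × X // Commute p.1 p.2},
      p.1.2 * (base ((p.1.1 : X ⧸ V), (p.1.2 : X ⧸ V))).2⁻¹ ∈ V :=
    fun p => hmemV _ _ (hbase p.1.1 p.1.2 p.2).2.2
  have key : ∀ (x y x₀ y₀ : X) (hv : x * x₀⁻¹ ∈ V) (hw : y * y₀⁻¹ ∈ V), x * y = y * x →
      x₀ * y₀ = y₀ * x₀ → (QuotientGroup.mk x₀ : X ⧸ V) = x → (QuotientGroup.mk y₀ : X ⧸ V) = y →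
      Commute
        (⟨⟨x * x₀⁻¹, hv⟩, (x : X ⧸ V)⟩ : SemidirectProduct ↥V (X ⧸ V) φ)
        (⟨⟨y * y₀⁻¹, hw⟩, (y : X ⧸ V)⟩ : SemidirectProduct ↥V (X ⧸ V) φ) := by
    intro x y x₀ y₀ hv hw hxy' hc0' hx0 hy0
    apply SemidirectProduct.ext
    · apply Subtype.ext
      simp only [SemidirectProduct.mul_left, Subgroup.coe_mul]
      rw [← hx0, ← hy0, hφ, hφ]
      simp only
      have e1 : x * x₀⁻¹ * (x₀ * (y * y₀⁻¹) * x₀⁻¹) = x * y * (x₀ * y₀)⁻¹ := by group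
      have e2 : y * y₀⁻¹ * (y₀ * (x * x₀⁻¹) * y₀⁻¹) = y * x * (y₀ * x₀)⁻¹ := by group
      rw [e1, e2, hxy', hc0']
    · simp only [SemidirectProduct.mul_right]
      rw [← QuotientGroup.mk_mul, ← QuotientGroup.mk_mul, hxy']
  have hcomm : ∀ p : {p : X × X // Commute p.1 p.2},
      Commute
        (⟨⟨p.1.1 * (base ((p.1.1 : X ⧸ V), (p.1.2 : X ⧸ V))).1⁻¹, hmem1 p⟩, (p.1.1 : X ⧸ V)⟩ :
          SemidirectProduct ↥V (X ⧸ V) φ)
        (⟨⟨p.1.2 * (base ((p.1.1 : X ⧸ V), (p.1.2 : X ⧸ V))).2⁻¹, hmem2 p⟩, (p.1.2 : X ⧸ V)⟩ :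
          SemidirectProduct ↥V (X ⧸ V) φ) := fun p =>
    key _ _ _ _ (hmem1 p) (hmem2 p) p.2 (hbase p.1.1 p.1.2 p.2).1 (hbase p.1.1 p.1.2 p.2).2.1
      (hbase p.1.1 p.1.2 p.2).2.2
  let f : {p : X × X // Commute p.1 p.2} →
      {p : SemidirectProduct ↥V (X ⧸ V) φ × SemidirectProduct ↥V (X ⧸ V) φ // Commute p.1 p.2} :=
    fun p => ⟨(⟨⟨p.1.1 * (base ((p.1.1 : X ⧸ V), (p.1.2 : X ⧸ V))).1⁻¹, hmem1 p⟩, (p.1.1 : X ⧸ V)⟩,
      ⟨⟨p.1.2 * (base ((p.1.1 : X ⧸ V), (p.1.2 : X ⧸ V))).2⁻¹, hmem2 p⟩, (p.1.2 : X ⧸ V)⟩), hcomm p⟩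
  have hf : Function.Injective f := by
    rintro ⟨⟨x, y⟩, hxy⟩ ⟨⟨x', y'⟩, hxy'⟩ h
    simp only [f, Subtype.mk.injEq, Prod.mk.injEq, SemidirectProduct.ext_iff] at h
    obtain ⟨⟨h1, h2⟩, h3, h4⟩ := h
    rw [← h2, ← h4] at h1 h3
    have h1' : x * (base ((x : X ⧸ V), (y : X ⧸ V))).1⁻¹ = x' * (base ((x : X ⧸ V), (y : X ⧸ V))).1⁻¹ := h1
    have h3' : y * (base ((x : X ⧸ V), (y : X ⧸ V))).2⁻¹ = y' * (base ((x : X ⧸ V), (y : X ⧸ V))).2⁻¹ := h3
    have hx : x = x' := mul_right_cancel h1'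
    have hy : y = y' := mul_right_cancel h3'
    subst hx; subst hy; rfl
  have hle := Nat.card_le_card_of_injective f hf
  rw [card_comm_eq_card_conjClasses_mul_card, card_comm_eq_card_conjClasses_mul_card] at hle
  have hcard : Nat.card (SemidirectProduct ↥V (X ⧸ V) φ) = Nat.card X := by
    rw [SemidirectProduct.card, Subgroup.card_eq_card_quotient_mul_card_subgroup V, mul_comm]
  rw [hcard] at hle
  exact Nat.le_of_mul_le_mul_right hle Nat.card_pos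

end Cfsg.Agent.S4965
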