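import Cfsg.Statements.S4966
import Mathlib


set_option autoImplicit false
open Cfsg

namespace Cfsg.Agent.S4966

section generic

variable {F : Type*} [Field F] {V : Type*} [AddCommGroup V] [Module F V] [FiniteDimensional F V]

theorem proj_exists (B : LinearMap.BilinForm F V) (N : Submodule F V)
    (hN : ∀ x ∈ N, (∀ u ∈ N, B u x = 0) → x = 0) :
    ∃ P : V →ₗ[F] V, (∀ v, P v ∈ N) ∧ (∀ v, ∀ u ∈ N, B u (P v) = B u v) := by
  let Ψ : V →ₗ[F] Module.Dual F ↥N := B.flip.compl₂ N.subtype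
  let T : ↥N →ₗ[F] Module.Dual F ↥N := Ψ ∘ₗ N.subtype
  have hTapp : ∀ (x : ↥N) (u : ↥N), T x u = B (u : V) (x : V) := fun x u => rfl
  have hΨapp : ∀ (v : V) (u : ↥N), Ψ v u = B (u : V) v := fun v u => rfl
  have hinj : Function.Injective T := by
    rw [← LinearMap.ker_eq_bot, LinearMap.ker_eq_bot']
    intro x hx
    have h1 : (x : V) = 0 := hN x x.2 (fun u hu => by
      have := congrArg (fun φ : Module.Dual F ↥N => φ ⟨u, hu⟩) hx
      simpa [hTapp] using this)
    exact Subtype.ext h1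
  have hsurj : Function.Surjective T :=
    (LinearMap.injective_iff_surjective_of_finrank_eq_finrank
      (Subspace.dual_finrank_eq (K := F) (V := ↥N)).symm).mp hinj
  let Te : ↥N ≃ₗ[F] Module.Dual F ↥N := LinearEquiv.ofBijective T ⟨hinj, hsurj⟩
  refine ⟨N.subtype ∘ₗ Te.symm.toLinearMap ∘ₗ Ψ, fun v => ?_, fun v u hu => ?_⟩
  · simp
  · have h1 : T (Te.symm (Ψ v)) = Ψ v := Te.apply_symm_apply (Ψ v)
    have h2 := congrArg (fun φ : Module.Dual F ↥N => φ ⟨u, hu⟩) h1
    simpa [hTapp, hΨapp] using h2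

end generic

section swap

variable {F : Type*} [Field F] {G : Type*} [Group G]
  {V : Type*} [AddCommGroup V] [Module F V] (ρ : Representation F G V)

theorem inv_swap (B : LinearMap.BilinForm F V)
    (hBinv : ∀ g : G, ∀ x y : V, B (ρ g x) (ρ g y) = B x y) (g : G) (x y : V) :
    B (ρ g x) y = B x (ρ g⁻¹ y) := by
  have := hBinv g x (ρ g⁻¹ y)
  rwa [ρ.self_inv_apply] at this

theorem inv_swap' (B : LinearMap.BilinForm F V)
    (hBinv : ∀ g : G, ∀ x y : V, B (ρ g x) (ρ g y) = B x y) (g : G) (x y : V) :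
    B x (ρ g y) = B (ρ g⁻¹ x) y := by
  have := hBinv g (ρ g⁻¹ x) y
  rwa [ρ.self_inv_apply] at this

end swap

section avg

variable {F : Type*} [Field F] {G : Type*} [Group G] [Fintype G]
  {V : Type*} [AddCommGroup V] [Module F V] (ρ : Representation F G V)

theorem sum_fixed (h : G) (x : V) : ρ h (∑ g : G, ρ g x) = ∑ g : G, ρ g x := by
  rw [map_sum]
  refine Fintype.sum_equiv (Equiv.mulLeft h) _ _ (fun g => ?_)
  simp [map_mul]

theorem sum_comp (h : G) (x : V) : (∑ g : G, ρ g (ρ h x)) = ∑ g : G, ρ g x := by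
  refine Fintype.sum_equiv (Equiv.mulRight h) _ _ (fun g => ?_)
  simp [map_mul]

theorem sum_const_one (hc : ((Fintype.card G : ℕ) : F) = 1) (x : V) : (∑ _g : G, x) = x := by
  rw [Finset.sum_const, Finset.card_univ, ← Nat.cast_smul_eq_nsmul F, hc, one_smul]

theorem maschke [FiniteDimensional F V] (hc : ((Fintype.card G : ℕ) : F) = 1)
    (M : Submodule F V) (hM : ∀ g : G, ∀ x ∈ M, ρ g x ∈ M) :
    ∃ P : V →ₗ[F] V, (∀ x, P x ∈ M) ∧ (∀ x ∈ M, P x = x) ∧ (∀ g x, P (ρ g x) = ρ g (P x)) := by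
  obtain ⟨q, hq⟩ := Submodule.exists_isCompl M
  let π : V →ₗ[F] V := M.projection q hq
  have hπ1 : ∀ x, π x ∈ M := fun x => Submodule.projection_apply_mem hq x
  have hπ2 : ∀ x ∈ M, π x = x := fun x hx => Submodule.projection_apply_of_mem_left hq hx
  refine ⟨∑ g : G, ρ g ∘ₗ π ∘ₗ ρ g⁻¹, fun x => ?_, fun x hx => ?_, fun h x => ?_⟩
  · rw [LinearMap.sum_apply]
    exact Submodule.sum_mem _ (fun g _ => hM g _ (hπ1 _))
  · rw [LinearMap.sum_apply]
    have : ∀ g : G, (ρ g ∘ₗ π ∘ₗ ρ g⁻¹) x = x := fun g => by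
      simp only [LinearMap.comp_apply]
      rw [hπ2 _ (hM g⁻¹ x hx), ρ.self_inv_apply]
    simp only [this]
    exact sum_const_one hc x
  · rw [LinearMap.sum_apply, LinearMap.sum_apply, map_sum]
    refine Fintype.sum_equiv (Equiv.mulLeft h⁻¹) _ _ (fun g => ?_)
    simp [map_mul, mul_inv_rev]

end avg

section char2

variable {F : Type*} [Field F] {G : Type*} [Group G] [Fintype G]
  {V : Type*} [AddCommGroup V] [Module F V] [FiniteDimensional F V]

def Good (ρ : Representation F G V) (N : Submodule F V) (A : LinearMap.BilinForm F V) : Prop :=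
  (∀ x ∈ N, A x x = 0) ∧ (∀ g : G, ∀ x ∈ N, ∀ y ∈ N, A (ρ g x) (ρ g y) = A x y) ∧
    (∀ x ∈ N, (∀ y ∈ N, A x y = 0) → x = 0)

theorem split_step (ρ : Representation F G V) (B : LinearMap.BilinForm F V)
    (hBinv : ∀ g : G, ∀ x y : V, B (ρ g x) (ρ g y) = B x y)
    (N : Submodule F V)
    (hNl : ∀ x ∈ N, (∀ y ∈ N, B x y = 0) → x = 0)
    (hNr : ∀ x ∈ N, (∀ y ∈ N, B y x = 0) → x = 0)
    (U₁ : Submodule F V) (hU₁N : U₁ ≤ N) (hU₁inv : ∀ g : G, ∀ x ∈ U₁, ρ g x ∈ U₁)
    (hNinv : ∀ g : G, ∀ x ∈ N, ρ g x ∈ N)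
    (hU₁l : ∀ x ∈ U₁, (∀ y ∈ U₁, B x y = 0) → x = 0)
    (hU₁r : ∀ x ∈ U₁, (∀ y ∈ U₁, B y x = 0) → x = 0)
    (hU₁ne : U₁ ≠ ⊥)
    (A₁ : LinearMap.BilinForm F V) (hA₁ : Good ρ U₁ A₁)
    (ih : ∀ U₂ : Submodule F V, Module.finrank F U₂ < Module.finrank F N →
      (∀ g : G, ∀ x ∈ U₂, ρ g x ∈ U₂) →
      (∀ x ∈ U₂, (∀ y ∈ U₂, B x y = 0) → x = 0) →
      (∀ x ∈ U₂, (∀ y ∈ U₂, B y x = 0) → x = 0) →
      U₂ ≤ N → ∃ A : LinearMap.BilinForm F V, Good ρ U₂ A) :
    ∃ A : LinearMap.BilinForm F V, Good ρ N A := by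
  obtain ⟨P₁, hP₁mem, hP₁B⟩ := proj_exists B U₁ hU₁r
  obtain ⟨P₁', hP₁'mem, hP₁'B⟩ := proj_exists B.flip U₁ (by
    intro x hx h
    exact hU₁l x hx (fun y hy => by simpa using h y hy))
  have hP₁'B' : ∀ v, ∀ u ∈ U₁, B (P₁' v) u = B v u := fun v u hu => by
    simpa using hP₁'B v u hu
  let U₂ : Submodule F V :=
    { carrier := {y | y ∈ N ∧ ∀ u ∈ U₁, B u y = 0}
      add_mem' := fun {a b} ha hb => ⟨N.add_mem ha.1 hb.1, fun u hu => by
        rw [map_add, ha.2 u hu, hb.2 u hu, add_zero]⟩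
      zero_mem' := ⟨N.zero_mem, fun u _ => by simp⟩
      smul_mem' := fun c a ha => ⟨N.smul_mem c ha.1, fun u hu => by
        rw [map_smul, ha.2 u hu, smul_zero]⟩ }
  have hU₂def : ∀ y, y ∈ U₂ ↔ (y ∈ N ∧ ∀ u ∈ U₁, B u y = 0) := fun y => Iff.rfl
  have hU₂N : U₂ ≤ N := fun y hy => hy.1
  have hP₁id : ∀ u ∈ U₁, P₁ u = u := by
    intro u hu
    have h1 : P₁ u - u = 0 := hU₁r _ (U₁.sub_mem (hP₁mem u) hu) (fun u' hu' => by
      rw [map_sub, hP₁B u u' hu', sub_self])
    exact sub_eq_zero.mp h1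
  have hP₁zero : ∀ y ∈ U₂, P₁ y = 0 := by
    intro y hy
    exact hU₁r _ (hP₁mem y) (fun u' hu' => by rw [hP₁B y u' hu', hy.2 u' hu'])
  have hP₁eq : ∀ g v, P₁ (ρ g v) = ρ g (P₁ v) := by
    intro g v
    have h1 : P₁ (ρ g v) - ρ g (P₁ v) = 0 :=
      hU₁r _ (U₁.sub_mem (hP₁mem _) (hU₁inv g _ (hP₁mem v))) (fun u' hu' => by
        rw [map_sub, hP₁B _ u' hu', inv_swap' ρ B hBinv g u' v,
          inv_swap' ρ B hBinv g u' (P₁ v), hP₁B v _ (hU₁inv g⁻¹ u' hu'), sub_self])
    exact sub_eq_zero.mp h1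
  have hP₂mem : ∀ v ∈ N, v - P₁ v ∈ U₂ := by
    intro v hv
    refine ⟨N.sub_mem hv (hU₁N (hP₁mem v)), fun u hu => ?_⟩
    rw [map_sub, hP₁B v u hu, sub_self]
  have hU₂inv : ∀ g : G, ∀ x ∈ U₂, ρ g x ∈ U₂ := by
    intro g x hx
    refine ⟨hNinv g x hx.1, fun u hu => ?_⟩
    rw [inv_swap' ρ B hBinv g u x]
    exact hx.2 _ (hU₁inv g⁻¹ u hu)
  have hU₂l : ∀ x ∈ U₂, (∀ y ∈ U₂, B x y = 0) → x = 0 := by
    intro x hx h
    have hz : x - P₁' x = 0 := by
      refine hNl _ (N.sub_mem hx.1 (hU₁N (hP₁'mem x))) (fun v hv => ?_)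
      have hv' : v = P₁ v + (v - P₁ v) := by abel
      have e1 : B (x - P₁' x) (P₁ v) = 0 := by
        rw [LinearMap.map_sub₂, hP₁'B' x _ (hP₁mem v), sub_self]
      have e2 : B (x - P₁' x) (v - P₁ v) = 0 := by
        have a1 : B x (v - P₁ v) = 0 := h _ (hP₂mem v hv)
        have a2 : B (P₁' x) (v - P₁ v) = 0 := (hP₂mem v hv).2 _ (hP₁'mem x)
        rw [LinearMap.map_sub₂, a1, a2, sub_self]
      rw [hv', map_add, e1, e2, add_zero]
    have hx' : x = P₁' x := sub_eq_zero.mp hz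
    exact hU₁r x (hx' ▸ hP₁'mem x) (fun u hu => hx.2 u hu)
  have hU₂r : ∀ x ∈ U₂, (∀ y ∈ U₂, B y x = 0) → x = 0 := by
    intro x hx h
    refine hNr x hx.1 (fun v hv => ?_)
    have hv' : v = P₁ v + (v - P₁ v) := by abel
    rw [hv', map_add, LinearMap.add_apply, hx.2 _ (hP₁mem v), h _ (hP₂mem v hv), add_zero]
  have hinf : U₁ ⊓ U₂ = ⊥ := by
    rw [eq_bot_iff]
    intro x hx
    rw [Submodule.mem_inf] at hx
    exact (Submodule.mem_bot F).mpr (hU₁r x hx.1 (fun u hu => hx.2.2 u hu))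
  have hlt : Module.finrank F U₂ < Module.finrank F N := by
    have h1 := Submodule.finrank_sup_add_finrank_inf_eq U₁ U₂
    have h2 : Module.finrank F ↥(U₁ ⊓ U₂) = 0 := by rw [hinf]; simp
    have h3 : Module.finrank F ↥(U₁ ⊔ U₂) ≤ Module.finrank F ↥N :=
      Submodule.finrank_mono (sup_le hU₁N hU₂N)
    have h4 : 0 < Module.finrank F ↥U₁ := by
      rw [Nat.pos_iff_ne_zero]
      intro h0
      exact hU₁ne (Submodule.finrank_eq_zero.mp h0)
    omega
  obtain ⟨A₂, hA₂⟩ := ih U₂ hlt hU₂inv hU₂l hU₂r hU₂N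
  let P₂ : V →ₗ[F] V := LinearMap.id - P₁
  have hP₂ : ∀ v, P₂ v = v - P₁ v := fun v => rfl
  refine ⟨A₁.compl₁₂ P₁ P₁ + A₂.compl₁₂ P₂ P₂, ?_, ?_, ?_⟩
  · intro x hx
    rw [LinearMap.add_apply, LinearMap.add_apply, LinearMap.compl₁₂_apply,
      LinearMap.compl₁₂_apply, hA₁.1 _ (hP₁mem x), hP₂, hA₂.1 _ (hP₂mem x hx), add_zero]
  · intro g x hx y hy
    rw [LinearMap.add_apply, LinearMap.add_apply, LinearMap.compl₁₂_apply,
      LinearMap.compl₁₂_apply, LinearMap.add_apply, LinearMap.add_apply, LinearMap.compl₁₂_apply,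
      LinearMap.compl₁₂_apply]
    have e1 : P₂ (ρ g x) = ρ g (P₂ x) := by rw [hP₂, hP₂, hP₁eq, map_sub]
    have e2 : P₂ (ρ g y) = ρ g (P₂ y) := by rw [hP₂, hP₂, hP₁eq, map_sub]
    rw [hP₁eq, hP₁eq, e1, e2, hA₁.2.1 g _ (hP₁mem x) _ (hP₁mem y),
      hA₂.2.1 g (P₂ x) (hP₂mem x hx) (P₂ y) (hP₂mem y hy)]
  · intro x hx h
    have h1 : P₁ x = 0 := by
      refine hA₁.2.2 _ (hP₁mem x) (fun u hu => ?_)
      have := h u (hU₁N hu)
      rw [LinearMap.add_apply, LinearMap.add_apply, LinearMap.compl₁₂_apply,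
        LinearMap.compl₁₂_apply, hP₁id u hu, hP₂ u, hP₁id u hu, sub_self, map_zero,
        add_zero] at this
      exact this
    have h2 : P₂ x = 0 := by
      refine hA₂.2.2 _ (hP₂mem x hx) (fun y hy => ?_)
      have := h y (hU₂N hy)
      rw [LinearMap.add_apply, LinearMap.add_apply, LinearMap.compl₁₂_apply,
        LinearMap.compl₁₂_apply, hP₁zero y hy, hP₂ y, hP₁zero y hy, sub_zero, map_zero,
        zero_add] at this
      exact this
    rw [hP₂, h1, sub_zero] at h2
    exact h2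

end char2

section claim

variable {F : Type*} [Field F] {G : Type*} [Group G] [Fintype G]
  {V : Type*} [AddCommGroup V] [Module F V] [FiniteDimensional F V]

theorem no_inv_fixed (hodd : ¬ 2 ∣ Nat.card G) (g : G) (hg : g ≠ 1) : g⁻¹ ≠ g := by
  intro h
  have h1 : g ^ 2 = 1 := by
    rw [pow_two]
    nth_rewrite 1 [← h]
    exact inv_mul_cancel g
  have h2 : orderOf g ∣ 2 := orderOf_dvd_of_pow_eq_one h1
  rcases (Nat.dvd_prime Nat.prime_two).mp h2 with h3 | h3
  · exact hg (orderOf_eq_one_iff.mp h3)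
  · exact hodd (h3 ▸ orderOf_dvd_natCard g)

theorem claim (ρ : Representation F G V) (B : LinearMap.BilinForm F V)
    (hBinv : ∀ g : G, ∀ x y : V, B (ρ g x) (ρ g y) = B x y)
    (h2 : (2 : F) = 0) (hodd : ¬ 2 ∣ Nat.card G) (hc : ((Fintype.card G : ℕ) : F) = 1) :
    ∀ n : ℕ, ∀ N : Submodule F V, Module.finrank F N = n →
      (∀ g : G, ∀ x ∈ N, ρ g x ∈ N) →
      (∀ x ∈ N, (∀ y ∈ N, B x y = 0) → x = 0) →
      (∀ x ∈ N, (∀ y ∈ N, B y x = 0) → x = 0) →
      (∀ x ∈ N, (∀ g : G, ρ g x = x) → x = 0) →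
      ∃ A : LinearMap.BilinForm F V, Good ρ N A := by
  classical
  intro n
  induction n using Nat.strong_induction_on with
  | _ n ih =>
  intro N hn hNinv hNl hNr hNfix
  have two : ∀ a : F, a + a = 0 := fun a => by rw [← two_mul, h2, zero_mul]
  have eq_of_add : ∀ a b : F, a + b = 0 → a = b := fun a b h => by
    have := two b
    linear_combination h - this
  let R : Submodule F V :=
    { carrier := {x | x ∈ N ∧ ∀ y ∈ N, B x y = B y x}
      add_mem' := fun {a b} ha hb => ⟨N.add_mem ha.1 hb.1, fun y hy => by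
        rw [map_add, LinearMap.add_apply, map_add, ha.2 y hy, hb.2 y hy]⟩
      zero_mem' := ⟨N.zero_mem, fun y _ => by simp⟩
      smul_mem' := fun c a ha => ⟨N.smul_mem c ha.1, fun y hy => by
        rw [map_smul, LinearMap.smul_apply, map_smul, ha.2 y hy]⟩ }
  have ih' : ∀ U₂ : Submodule F V, Module.finrank F U₂ < Module.finrank F N →
      (∀ g : G, ∀ x ∈ U₂, ρ g x ∈ U₂) →
      (∀ x ∈ U₂, (∀ y ∈ U₂, B x y = 0) → x = 0) →
      (∀ x ∈ U₂, (∀ y ∈ U₂, B y x = 0) → x = 0) →
      U₂ ≤ N → ∃ A : LinearMap.BilinForm F V, Good ρ U₂ A :=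
    fun U₂ hlt hinv hl hr hle =>
      ih _ (hn ▸ hlt) U₂ rfl hinv hl hr (fun x hx => hNfix x (hle hx))
  by_cases hR : R = ⊥
  · refine ⟨B + B.flip, ?_, ?_, ?_⟩
    · intro x _
      simp [two]
    · intro g x _ y _
      simp [hBinv]
    · intro x hx h
      have hxR : x ∈ R := ⟨hx, fun y hy => eq_of_add _ _ (by simpa using h y hy)⟩
      rw [hR] at hxR
      simpa using hxR
  · have hRN : R ≤ N := fun x hx => hx.1
    have hRinv : ∀ g : G, ∀ x ∈ R, ρ g x ∈ R := by
      intro g x hx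
      refine ⟨hNinv g x hx.1, fun y hy => ?_⟩
      rw [inv_swap ρ B hBinv, hx.2 _ (hNinv g⁻¹ y hy), inv_swap' ρ B hBinv g y x]
    have hRalt : ∀ x ∈ R, B x x = 0 := by
      intro x hx
      have hs : (∑ g : G, ρ g x) = 0 :=
        hNfix _ (N.sum_mem (fun g _ => hNinv g x hx.1)) (fun h => sum_fixed ρ h x)
      have h1 : (∑ g : G, B x (ρ g x)) = 0 := by
        rw [← map_sum, hs, map_zero]
      have h3 : (∑ g ∈ (Finset.univ : Finset G).erase 1, B x (ρ g x)) = 0 := by
        refine Finset.sum_involution (fun g _ => g⁻¹) ?_ ?_ ?_ ?_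
        · intro g _
          have e1 : B x (ρ g⁻¹ x) = B x (ρ g x) := by
            rw [← inv_swap ρ B hBinv g x x]
            exact (hx.2 _ (hNinv g x hx.1)).symm
          rw [e1, two]
        · intro g hg _
          exact no_inv_fixed hodd g (Finset.ne_of_mem_erase hg)
        · intro g hg
          exact Finset.mem_erase.mpr
            ⟨inv_ne_one.mpr (Finset.ne_of_mem_erase hg), Finset.mem_univ _⟩
        · intro g _
          exact inv_inv g
      rw [← Finset.add_sum_erase Finset.univ _ (Finset.mem_univ (1 : G)), h3, add_zero,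
        map_one] at h1
      simpa using h1
    let I : Submodule F V :=
      { carrier := {x | x ∈ R ∧ ∀ r ∈ R, B x r = 0}
        add_mem' := fun {a b} ha hb => ⟨R.add_mem ha.1 hb.1, fun r hr => by
          rw [map_add, LinearMap.add_apply, ha.2 r hr, hb.2 r hr, add_zero]⟩
        zero_mem' := ⟨R.zero_mem, fun r _ => by simp⟩
        smul_mem' := fun c a ha => ⟨R.smul_mem c ha.1, fun r hr => by
          rw [map_smul, LinearMap.smul_apply, ha.2 r hr, smul_zero]⟩ }
    by_cases hI : I = ⊥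
    · have hl : ∀ x ∈ R, (∀ y ∈ R, B x y = 0) → x = 0 := by
        intro x hx h
        have hxI : x ∈ I := ⟨hx, h⟩
        rw [hI] at hxI
        simpa using hxI
      have hr : ∀ x ∈ R, (∀ y ∈ R, B y x = 0) → x = 0 := by
        intro x hx h
        exact hl x hx (fun y hy => by rw [hx.2 y (hRN hy)]; exact h y hy)
      exact split_step ρ B hBinv N hNl hNr R hRN hRinv hNinv hl hr hR B
        ⟨hRalt, fun g x _ y _ => hBinv g x y, hl⟩ ih'
    · have hIR : I ≤ R := fun x hx => hx.1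
      have hIN : I ≤ N := fun x hx => hRN hx.1
      have hIinv : ∀ g : G, ∀ x ∈ I, ρ g x ∈ I := by
        intro g x hx
        refine ⟨hRinv g x hx.1, fun r hr => ?_⟩
        rw [inv_swap ρ B hBinv]
        exact hx.2 _ (hRinv g⁻¹ r hr)
      let M : Submodule F V :=
        { carrier := {y | y ∈ N ∧ ∀ i ∈ I, B i y = 0}
          add_mem' := fun {a b} ha hb => ⟨N.add_mem ha.1 hb.1, fun i hi => by
            rw [map_add, ha.2 i hi, hb.2 i hi, add_zero]⟩
          zero_mem' := ⟨N.zero_mem, fun i _ => by simp⟩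
          smul_mem' := fun c a ha => ⟨N.smul_mem c ha.1, fun i hi => by
            rw [map_smul, ha.2 i hi, smul_zero]⟩ }
      have hMN : M ≤ N := fun y hy => hy.1
      have hMinv : ∀ g : G, ∀ x ∈ M, ρ g x ∈ M := by
        intro g x hx
        refine ⟨hNinv g x hx.1, fun i hi => ?_⟩
        rw [inv_swap' ρ B hBinv]
        exact hx.2 _ (hIinv g⁻¹ i hi)
      have hIM : I ≤ M := fun i hi => ⟨hIN hi, fun i' hi' => hi'.2 i hi.1⟩
      obtain ⟨P, hPmem, hPid, hPeq⟩ := maschke ρ hc M hMinv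
      let Q : V →ₗ[F] V := LinearMap.id - P
      have hQ : ∀ v, Q v = v - P v := fun v => rfl
      let J : Submodule F V :=
        { carrier := {x | x ∈ N ∧ P x = 0}
          add_mem' := fun {a b} ha hb => ⟨N.add_mem ha.1 hb.1, by
            show P (a + b) = 0
            rw [map_add, ha.2, hb.2, add_zero]⟩
          zero_mem' := ⟨N.zero_mem, map_zero P⟩
          smul_mem' := fun c a ha => ⟨N.smul_mem c ha.1, by
            show P (c • a) = 0
            rw [map_smul, ha.2, smul_zero]⟩ }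
      have hJN : J ≤ N := fun x hx => hx.1
      have hJinv : ∀ g : G, ∀ x ∈ J, ρ g x ∈ J := by
        intro g x hx
        refine ⟨hNinv g x hx.1, ?_⟩
        show P (ρ g x) = 0
        rw [hPeq, hx.2, map_zero]
      have hQJ : ∀ v ∈ N, v - P v ∈ J := by
        intro v hv
        refine ⟨N.sub_mem hv (hMN (hPmem v)), ?_⟩
        show P (v - P v) = 0
        rw [map_sub, hPid _ (hPmem v), sub_self]
      have k2 : ∀ i ∈ I, ∀ y ∈ N, B y i = B i y := fun i hi y hy => (hi.1.2 y hy).symm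
      have k3 : ∀ j ∈ J, j ∈ M → j = 0 := by
        intro j hj hjM
        rw [← hPid j hjM]
        exact hj.2
      have k4 : ∀ i ∈ I, (∀ j ∈ J, B i j = 0) → i = 0 := by
        intro i hi h
        refine hNl i (hIN hi) (fun v hv => ?_)
        have hv' : v = P v + (v - P v) := by abel
        rw [hv', map_add, (hPmem v).2 i hi, h _ (hQJ v hv), add_zero]
      have hU₁N : I ⊔ J ≤ N := sup_le hIN hJN
      have hU₁inv : ∀ g : G, ∀ x ∈ I ⊔ J, ρ g x ∈ I ⊔ J := by
        intro g x hx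
        obtain ⟨i, hi, j, hj, rfl⟩ := Submodule.mem_sup.mp hx
        rw [map_add]
        exact Submodule.add_mem_sup (hIinv g i hi) (hJinv g j hj)
      have hU₁ne : I ⊔ J ≠ ⊥ := by
        intro h
        exact hI (le_bot_iff.mp (h ▸ le_sup_left))
      have hl : ∀ x ∈ I ⊔ J, (∀ y ∈ I ⊔ J, B x y = 0) → x = 0 := by
        intro x hx h
        obtain ⟨i, hi, j, hj, rfl⟩ := Submodule.mem_sup.mp hx
        have hj0 : j = 0 := by
          refine k3 j hj ⟨hJN hj, fun i' hi' => ?_⟩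
          have := h i' (Submodule.mem_sup_left hi')
          rw [map_add, LinearMap.add_apply, hi.2 i' hi'.1, zero_add,
            k2 i' hi' j (hJN hj)] at this
          exact this
        subst hj0
        rw [add_zero] at h ⊢
        exact k4 i hi (fun j' hj' => h j' (Submodule.mem_sup_right hj'))
      have hr : ∀ x ∈ I ⊔ J, (∀ y ∈ I ⊔ J, B y x = 0) → x = 0 := by
        intro x hx h
        obtain ⟨i, hi, j, hj, rfl⟩ := Submodule.mem_sup.mp hx
        have hj0 : j = 0 := by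
          refine k3 j hj ⟨hJN hj, fun i' hi' => ?_⟩
          have := h i' (Submodule.mem_sup_left hi')
          rw [map_add, hi'.2 i hi.1, zero_add] at this
          exact this
        subst hj0
        rw [add_zero] at h ⊢
        exact k4 i hi (fun j' hj' => by
          rw [← k2 i hi j' (hJN hj')]
          exact h j' (Submodule.mem_sup_right hj'))
      have hQi : ∀ i ∈ I, Q i = 0 := fun i hi => by rw [hQ, hPid i (hIM hi), sub_self]
      have hQj : ∀ j ∈ J, Q j = j := fun j hj => by rw [hQ, hj.2, sub_zero]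
      have hQeq : ∀ g v, Q (ρ g v) = ρ g (Q v) := fun g v => by
        rw [hQ, hQ, hPeq, map_sub]
      refine split_step ρ B hBinv N hNl hNr (I ⊔ J) hU₁N hU₁inv hNinv hl hr hU₁ne
        (B + B.compl₁₂ Q Q) ⟨?_, ?_, ?_⟩ ih'
      · intro x hx
        obtain ⟨i, hi, j, hj, rfl⟩ := Submodule.mem_sup.mp hx
        rw [LinearMap.add_apply, LinearMap.add_apply, LinearMap.compl₁₂_apply, map_add Q,
          hQi i hi, hQj j hj, zero_add]
        have e1 : B (i + j) (i + j) = B i j + B i j + B j j := by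
          rw [LinearMap.map_add₂, map_add, map_add, hi.2 i hi.1, k2 i hi j (hJN hj)]
          ring
        rw [e1, two, zero_add, two]
      · intro g x _ y _
        rw [LinearMap.add_apply, LinearMap.add_apply, LinearMap.compl₁₂_apply,
          LinearMap.add_apply, LinearMap.add_apply, LinearMap.compl₁₂_apply, hQeq, hQeq,
          hBinv, hBinv]
      · intro x hx h
        obtain ⟨i, hi, j, hj, rfl⟩ := Submodule.mem_sup.mp hx
        have hj0 : j = 0 := by
          refine k3 j hj ⟨hJN hj, fun i' hi' => ?_⟩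
          have := h i' (Submodule.mem_sup_left hi')
          rw [LinearMap.add_apply, LinearMap.add_apply, LinearMap.compl₁₂_apply, hQi i' hi',
            map_zero, add_zero, map_add, LinearMap.add_apply, hi.2 i' hi'.1, zero_add,
            k2 i' hi' j (hJN hj)] at this
          exact this
        subst hj0
        rw [add_zero] at h ⊢
        refine k4 i hi (fun j' hj' => ?_)
        have := h j' (Submodule.mem_sup_right hj')
        rw [LinearMap.add_apply, LinearMap.add_apply, LinearMap.compl₁₂_apply, hQi i hi,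
          map_zero, LinearMap.zero_apply, add_zero] at this
        exact this

end claim

theorem case_two {F : Type*} [Field F] {G : Type*} [Group G] [Fintype G]
    {V : Type*} [AddCommGroup V] [Module F V] [FiniteDimensional F V]
    (ρ : Representation F G V) (B : LinearMap.BilinForm F V) (hB : B.Nondegenerate)
    (hBinv : ∀ g : G, ∀ x y : V, B (ρ g x) (ρ g y) = B x y)
    (h2 : (2 : F) = 0) (hodd : ¬ 2 ∣ Nat.card G) :
    ∃ U W : Submodule F V, IsCompl U W ∧ (∀ g : G, ∀ u ∈ U, ρ g u ∈ U) ∧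
      (∀ g : G, ∀ w ∈ W, ρ g w ∈ W) ∧
      (∃ A : LinearMap.BilinForm F V, (∀ x : V, A x x = 0) ∧
        (∀ g : G, ∀ x ∈ U, ∀ y ∈ U, A (ρ g x) (ρ g y) = A x y) ∧
        (∀ x ∈ U, (∀ y ∈ U, A x y = 0) → x = 0)) ∧
      (∃ S : LinearMap.BilinForm F V, (∀ x y : V, S x y = S y x) ∧
        (∀ g : G, ∀ x ∈ W, ∀ y ∈ W, S (ρ g x) (ρ g y) = S x y) ∧
        (∀ x ∈ W, (∀ y ∈ W, S x y = 0) → x = 0)) ∧
      (∀ g : G, ∀ w ∈ W, ρ g w = w) := by
  classical
  have hc : ((Fintype.card G : ℕ) : F) = 1 := by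
    have hodd' : Odd (Fintype.card G) := by
      rw [← Nat.card_eq_fintype_card]
      exact Nat.odd_iff.mpr (by omega)
    obtain ⟨m, hm⟩ := hodd'
    rw [hm]
    push_cast
    rw [h2, zero_mul, zero_add]
  let e : V →ₗ[F] V := ∑ g : G, ρ g
  have he : ∀ x, e x = ∑ g : G, ρ g x := fun x => by simp [e]
  have he_fix : ∀ h x, ρ h (e x) = e x := by
    intro h x
    rw [he]
    exact sum_fixed ρ h x
  have he_comp : ∀ h x, e (ρ h x) = e x := by
    intro h x
    rw [he, he]
    exact sum_comp ρ h x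
  have he_of_fix : ∀ x, (∀ g, ρ g x = x) → e x = x := by
    intro x hx
    rw [he]
    simp only [hx]
    exact sum_const_one hc x
  have he_idem : ∀ x, e (e x) = e x := fun x => he_of_fix _ (fun g => he_fix g x)
  have he_adj : ∀ x y, B (e x) y = B x (e y) := by
    intro x y
    calc B (e x) y = ∑ g : G, B (ρ g x) y := by rw [he, map_sum, LinearMap.sum_apply]
      _ = ∑ g : G, B x (ρ g⁻¹ y) := Finset.sum_congr rfl (fun g _ => inv_swap ρ B hBinv g x y)
      _ = ∑ g : G, B x (ρ g y) := Fintype.sum_equiv (Equiv.inv G) _ _ (fun g => rfl)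
      _ = B x (e y) := by rw [he, map_sum]
  let W : Submodule F V :=
    { carrier := {x | ∀ g : G, ρ g x = x}
      add_mem' := fun {a b} ha hb g => by rw [map_add, ha g, hb g]
      zero_mem' := fun g => map_zero _
      smul_mem' := fun c a ha g => by rw [map_smul, ha g] }
  let U : Submodule F V := LinearMap.ker e
  have hUmem : ∀ x, x ∈ U ↔ e x = 0 := fun x => LinearMap.mem_ker
  have hsub : ∀ v, v - e v ∈ U := fun v => by
    rw [hUmem, map_sub, he_idem, sub_self]
  have hUW : IsCompl U W := by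
    refine IsCompl.of_eq ?_ ?_
    · rw [eq_bot_iff]
      intro x hx
      rw [Submodule.mem_inf] at hx
      have h1 : e x = x := he_of_fix x hx.2
      rw [(hUmem x).mp hx.1] at h1
      exact (Submodule.mem_bot F).mpr h1.symm
    · rw [eq_top_iff]
      intro x _
      exact Submodule.mem_sup.mpr ⟨x - e x, hsub x, e x, fun g => he_fix g x, by abel⟩
  have hUinv : ∀ g : G, ∀ u ∈ U, ρ g u ∈ U := by
    intro g u hu
    rw [hUmem] at hu ⊢
    rw [he_comp, hu]
  have hUl : ∀ x ∈ U, (∀ y ∈ U, B x y = 0) → x = 0 := by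
    intro x hx h
    refine hB.1 x (fun v => ?_)
    have hv' : v = (v - e v) + e v := by abel
    rw [hv', map_add, h _ (hsub v), ← he_adj, (hUmem x).mp hx, map_zero,
      LinearMap.zero_apply, add_zero]
  have hUr : ∀ x ∈ U, (∀ y ∈ U, B y x = 0) → x = 0 := by
    intro x hx h
    refine hB.2 x (fun v => ?_)
    have hv' : v = (v - e v) + e v := by abel
    rw [hv', LinearMap.map_add₂, h _ (hsub v), he_adj, (hUmem x).mp hx, map_zero, add_zero]
  have hUfix : ∀ x ∈ U, (∀ g : G, ρ g x = x) → x = 0 := by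
    intro x hx h
    rw [← he_of_fix x h]
    exact (hUmem x).mp hx
  obtain ⟨A₀, hA₀⟩ := claim ρ B hBinv h2 hodd hc _ U rfl hUinv hUl hUr hUfix
  let PU : V →ₗ[F] V := LinearMap.id - e
  have hPU : ∀ v, PU v = v - e v := fun v => rfl
  have hPUid : ∀ x ∈ U, PU x = x := fun x hx => by rw [hPU, (hUmem x).mp hx, sub_zero]
  let b := Module.finBasis F ↥W
  let eW : V →ₗ[F] ↥W := e.codRestrict W (fun x g => he_fix g x)
  have heW : ∀ x, ((eW x : ↥W) : V) = e x := fun x => rfl
  let φ : Fin (Module.finrank F ↥W) → (V →ₗ[F] F) := fun i => (b.coord i) ∘ₗ eW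
  let S : LinearMap.BilinForm F V := ∑ i, (LinearMap.mul F F).compl₁₂ (φ i) (φ i)
  have hS : ∀ x y, S x y = ∑ i, φ i x * φ i y := by
    intro x y
    simp [S, LinearMap.sum_apply, LinearMap.compl₁₂_apply]
  refine ⟨U, W, hUW, hUinv, fun g w hw => by rw [hw g]; exact hw, ?_, ?_, fun g w hw => hw g⟩
  · refine ⟨A₀.compl₁₂ PU PU, fun x => ?_, fun g x hx y hy => ?_, fun x hx h => ?_⟩
    · rw [LinearMap.compl₁₂_apply]
      exact hA₀.1 _ (hsub x)
    · rw [LinearMap.compl₁₂_apply, LinearMap.compl₁₂_apply, hPUid _ (hUinv g x hx),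
        hPUid _ (hUinv g y hy), hPUid x hx, hPUid y hy]
      exact hA₀.2.1 g x hx y hy
    · refine hA₀.2.2 x hx (fun y hy => ?_)
      have := h y hy
      rw [LinearMap.compl₁₂_apply, hPUid x hx, hPUid y hy] at this
      exact this
  · refine ⟨S, fun x y => ?_, fun g x hx y hy => ?_, fun x hx h => ?_⟩
    · rw [hS, hS]
      exact Finset.sum_congr rfl (fun i _ => mul_comm _ _)
    · rw [hx g, hy g]
    · have key : ∀ j, φ j x = 0 := by
        intro j
        have h1 := h (b j : V) (b j).2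
        rw [hS] at h1
        have h2 : ∀ i, φ i (b j : V) = if j = i then 1 else 0 := by
          intro i
          have h3 : eW (b j : V) = b j := Subtype.ext (by
            rw [heW]
            exact he_of_fix _ (b j).2)
          show b.coord i (eW (b j : V)) = _
          rw [h3, Module.Basis.coord_apply, Module.Basis.repr_self_apply]
        simp only [h2] at h1
        simpa using h1
      have h4 : eW x = 0 := by
        apply b.ext_elem
        intro i
        have := key i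
        simpa [φ] using this
      have h5 : e x = 0 := by
        rw [← heW, h4]
        rfl
      rw [← he_of_fix x hx]
      exact h5

theorem case_odd {F : Type*} [Field F] {G : Type*} [Group G]
    {V : Type*} [AddCommGroup V] [Module F V] [FiniteDimensional F V]
    (ρ : Representation F G V) (B : LinearMap.BilinForm F V) (hB : B.Nondegenerate)
    (hBinv : ∀ g : G, ∀ x y : V, B (ρ g x) (ρ g y) = B x y)
    (h2 : (2 : F) ≠ 0) :
    ∃ U W : Submodule F V, IsCompl U W ∧ (∀ g : G, ∀ u ∈ U, ρ g u ∈ U) ∧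
      (∀ g : G, ∀ w ∈ W, ρ g w ∈ W) ∧
      (∃ A : LinearMap.BilinForm F V, (∀ x : V, A x x = 0) ∧
        (∀ g : G, ∀ x ∈ U, ∀ y ∈ U, A (ρ g x) (ρ g y) = A x y) ∧
        (∀ x ∈ U, (∀ y ∈ U, A x y = 0) → x = 0)) ∧
      (∃ S : LinearMap.BilinForm F V, (∀ x y : V, S x y = S y x) ∧
        (∀ g : G, ∀ x ∈ W, ∀ y ∈ W, S (ρ g x) (ρ g y) = S x y) ∧
        (∀ x ∈ W, (∀ y ∈ W, S x y = 0) → x = 0)) := by
  let σ : Module.End F V := (B.toDual hB).symm.toLinearMap ∘ₗ B.flip
  have hσ : ∀ x y, B (σ x) y = B y x := by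
    intro x y
    show B ((B.toDual hB).symm (B.flip x)) y = B y x
    rw [LinearMap.BilinForm.apply_toDual_symm_apply]
    rfl
  have hσρ : ∀ g x, σ (ρ g x) = ρ g (σ x) := by
    intro g x
    have h1 : σ (ρ g x) - ρ g (σ x) = 0 := hB.1 _ (fun y => by
      rw [LinearMap.map_sub₂, hσ, inv_swap' ρ B hBinv g y x, inv_swap ρ B hBinv g (σ x) y, hσ,
        sub_self])
    exact sub_eq_zero.mp h1
  let f : Module.End F V := σ + 1
  have hf : ∀ x, f x = σ x + x := fun x => rfl
  have hfρ : ∀ g x, f (ρ g x) = ρ g (f x) := fun g x => by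
    rw [hf, hf, hσρ, map_add]
  have hfσ : ∀ x, f (σ x) = σ (f x) := fun x => by
    rw [hf, hf, map_add]
  have hfnρ : ∀ n g x, (f ^ n) (ρ g x) = ρ g ((f ^ n) x) := by
    intro n
    induction n with
    | zero => intro g x; simp
    | succ n ih =>
      intro g x
      rw [pow_succ, Module.End.mul_apply, Module.End.mul_apply, hfρ, ih]
  have hfnσ : ∀ n x, (f ^ n) (σ x) = σ ((f ^ n) x) := by
    intro n
    induction n with
    | zero => intro x; simp
    | succ n ih =>
      intro x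
      rw [pow_succ, Module.End.mul_apply, Module.End.mul_apply, hfσ, ih]
  have step : ∀ y u, B (f y) u = B (σ y) (f u) := by
    intro y u
    rw [hf, hf, LinearMap.map_add₂, map_add, hσ y (σ u), hσ u y]
    exact add_comm _ _
  have hWU : ∀ n y u, (f ^ n) u = 0 → B ((f ^ n) y) u = 0 := by
    intro n
    induction n with
    | zero =>
      intro y u hu
      have : u = 0 := by simpa using hu
      rw [this, map_zero]
    | succ n ih =>
      intro y u hu
      rw [pow_succ', Module.End.mul_apply, step, ← hfnσ]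
      refine ih (σ y) (f u) ?_
      rw [← Module.End.mul_apply, ← pow_succ]
      exact hu
  have hUW' : ∀ n y u, (f ^ n) u = 0 → B u ((f ^ n) y) = 0 := by
    intro n y u hu
    rw [← hσ ((f ^ n) y) u, ← hfnσ]
    exact hWU n (σ y) u hu
  have hev := f.eventually_isCompl_ker_pow_range_pow
  obtain ⟨n, hn1, hn⟩ := ((Filter.eventually_ge_atTop 1).and hev).exists
  have hdecomp : ∀ v : V, ∃ u ∈ LinearMap.ker (f ^ n), ∃ w ∈ LinearMap.range (f ^ n), u + w = v := by
    intro v
    have hv : v ∈ LinearMap.ker (f ^ n) ⊔ LinearMap.range (f ^ n) := by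
      rw [hn.sup_eq_top]
      exact Submodule.mem_top
    exact Submodule.mem_sup.mp hv
  refine ⟨LinearMap.ker (f ^ n), LinearMap.range (f ^ n), hn, ?_, ?_, ?_, ?_⟩
  · intro g u hu
    rw [LinearMap.mem_ker] at hu ⊢
    rw [hfnρ, hu, map_zero]
  · intro g w hw
    obtain ⟨y, rfl⟩ := hw
    exact ⟨ρ g y, hfnρ n g y⟩
  · refine ⟨B - B.flip, fun x => by simp, fun g x _ y _ => by simp [hBinv], fun x hx h => ?_⟩
    have hx' : (f ^ n) x = 0 := LinearMap.mem_ker.mp hx
    have h1 : ∀ v, B x v = B (σ x) v := by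
      intro v
      obtain ⟨u, hu, w, hw, rfl⟩ := hdecomp v
      obtain ⟨y, rfl⟩ := hw
      have h3 := h u hu
      simp only [LinearMap.sub_apply, LinearMap.flip_apply] at h3
      rw [hσ, map_add, LinearMap.map_add₂, hUW' n y x hx', hWU n y x hx', add_zero, add_zero]
      exact sub_eq_zero.mp h3
    have h4 : σ x = x := by
      have : x - σ x = 0 := hB.1 _ (fun v => by rw [LinearMap.map_sub₂, h1 v, sub_self])
      exact (sub_eq_zero.mp this).symm
    have h5 : ∀ m : ℕ, (f ^ m) x = (2 : F) ^ m • x := by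
      intro m
      induction m with
      | zero => simp
      | succ m ih =>
        rw [pow_succ', Module.End.mul_apply, ih, map_smul, hf, h4, pow_succ, mul_smul,
          two_smul]
    rw [h5 n] at hx'
    rcases smul_eq_zero.mp hx' with h6 | h6
    · exact absurd h6 (pow_ne_zero n h2)
    · exact h6
  · refine ⟨B + B.flip, fun x y => by simp [add_comm], fun g x _ y _ => by simp [hBinv],
      fun x hx h => ?_⟩
    obtain ⟨y0, rfl⟩ := hx
    have h1 : ∀ v, B (f ((f ^ n) y0)) v = 0 := by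
      intro v
      obtain ⟨u, hu, w, hw, rfl⟩ := hdecomp v
      have hu' : (f ^ n) u = 0 := LinearMap.mem_ker.mp hu
      have h3 := h w hw
      simp only [LinearMap.add_apply, LinearMap.flip_apply] at h3
      have e1 : B (u + w) ((f ^ n) y0) = B w ((f ^ n) y0) := by
        rw [LinearMap.map_add₂, hUW' n y0 u hu', zero_add]
      have e2 : B ((f ^ n) y0) (u + w) = B ((f ^ n) y0) w := by
        rw [map_add, hWU n y0 u hu', zero_add]
      rw [hf, LinearMap.map_add₂, hσ, e1, e2, add_comm]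
      exact h3
    have h4 : f ((f ^ n) y0) = 0 := hB.1 _ h1
    have h5 : (f ^ n) ((f ^ n) y0) = 0 := by
      obtain ⟨m, rfl⟩ : ∃ m, n = m + 1 := ⟨n - 1, by omega⟩
      generalize (f ^ (m + 1)) y0 = z at h4 ⊢
      rw [pow_succ, Module.End.mul_apply, h4, map_zero]
    have h6 : (f ^ n) y0 ∈ LinearMap.ker (f ^ n) ⊓ LinearMap.range (f ^ n) :=
      Submodule.mem_inf.mpr ⟨LinearMap.mem_ker.mpr h5, ⟨y0, rfl⟩⟩
    rw [hn.inf_eq_bot] at h6
    exact (Submodule.mem_bot F).mp h6

/-- Let F be a finite field of characteristic p, G a finite group of order prime to p, and V a finite-dimensional representation of G over F carrying a nondegenerate G-invariant bilinear form (equivalently, V is self-dual). Then V is the direct sum of two G-invariant subspaces U and W such that U carries a G-invariant alternating bilinear form that is nondegenerate on U and W carries a G-invariant symmetric bilinear form that is nondegenerate on W; moreover when p = 2 the decomposition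 can be chosen with G acting trivially on W. -/
theorem result {F : Type*} [Field F] [Fintype F] (p : ℕ) [Fact p.Prime] [CharP F p] {G : Type*} [Group G] [Finite G] (hcop : ¬ p ∣ Nat.card G) {V : Type*} [AddCommGroup V] [Module F V] [FiniteDimensional F V] (ρ : Representation F G V) (B : LinearMap.BilinForm F V) (hB : B.Nondegenerate) (hBinv : ∀ g : G, ∀ x y : V, B (ρ g x) (ρ g y) = B x y) : ∃ U W : Submodule F V, IsCompl U W ∧ (∀ g : G, ∀ u ∈ U, ρ g u ∈ U) ∧ (∀ g : G, ∀ w ∈ W, ρ g w ∈ W) ∧ (∃ A : LinearMap.BilinForm F V, (∀ x : V, A x x = 0) ∧ (∀ g : G, ∀ x ∈ U, ∀ y ∈ U, A (ρ g x) (ρ g y) = A x y) ∧ (∀ x ∈ U, (∀ y ∈ U, A x y = 0) → x = 0)) ∧ (∃ S : LinearMap.BilinForm F V, (∀ x y : V, S x y = S y x) ∧ (∀ g : G, ∀ x ∈ W, ∀ y ∈ W, S (ρ g x) (ρ g y) = S x y) ∧ (∀ x ∈ W, (∀ y ∈ W, S x y = 0) → x = 0)) ∧ (p = 2 → ∀ g : G, ∀ w ∈ W, ρ g w = w) := by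
  classical
  let _ : Fintype G := Fintype.ofFinite G
  by_cases hp2 : p = 2
  · subst hp2
    have h2 : (2 : F) = 0 := by exact_mod_cast CharP.cast_eq_zero F 2
    obtain ⟨U, W, h1, h2', h3, h4, h5, h6⟩ := case_two ρ B hB hBinv h2 hcop
    exact ⟨U, W, h1, h2', h3, h4, h5, fun _ => h6⟩
  · have h2 : (2 : F) ≠ 0 := by
      intro h
      have h' : ((2 : ℕ) : F) = 0 := by exact_mod_cast h
      rw [CharP.cast_eq_zero_iff F p] at h'
      exact hp2 ((Nat.prime_dvd_prime_iff_eq (Fact.out) Nat.prime_two).mp h')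
    obtain ⟨U, W, h1, h2', h3, h4, h5⟩ := case_odd ρ B hB hBinv h2
    exact ⟨U, W, h1, h2', h3, h4, h5, fun h => absurd h hp2⟩


end Cfsg.Agent.S4966
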