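import Cfsg.Statements.S4967
import Mathlib

set_option autoImplicit false
open Cfsg

namespace Cfsg.Agent.S4967

open Polynomial

section abstract

variable {F : Type*} [Field F] [Fintype F] {K : Type*} [Field K] [Fintype K] [Algebra F K]

theorem aeval_pow_card (f : F[X]) (x : K) :
    aeval (x ^ Fintype.card F) f = (aeval x f) ^ Fintype.card F := by
  rw [← Polynomial.expand_aeval, FiniteField.expand_card, map_pow]

theorem aeval_pow_card_pow (f : F[X]) (x : K) (i : ℕ) (hx : aeval x f = 0) :
    aeval (x ^ (Fintype.card F ^ i)) f = 0 := by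
  induction i with
  | zero => simpa using hx
  | succ i ih =>
    rw [pow_succ, pow_mul, aeval_pow_card, ih, zero_pow Fintype.card_ne_zero]

theorem root_mem (f : F[X]) (hf : f ≠ 0) (n : ℕ) (hdeg : f.natDegree ≤ n) (g g' : K)
    (hg : aeval g f = 0) (hg' : aeval g' f = 0)
    (hinj : ∀ i j, i < n → j < n →
      g ^ (Fintype.card F ^ i) = g ^ (Fintype.card F ^ j) → i = j) :
    ∃ j, j < n ∧ g' = g ^ (Fintype.card F ^ j) := by
  classical
  by_contra hcon
  push Not at hcon
  have hfK : f.map (algebraMap F K) ≠ 0 :=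
    (Polynomial.map_ne_zero_iff (algebraMap F K).injective).mpr hf
  have hroot : ∀ x : K, aeval x f = 0 → x ∈ (f.map (algebraMap F K)).roots := by
    intro x hx
    rw [mem_roots hfK, IsRoot.def, eval_map_algebraMap]; exact hx
  have hS : insert g' ((Finset.range n).image (fun i => g ^ (Fintype.card F ^ i))) ⊆
      (f.map (algebraMap F K)).roots.toFinset := by
    intro x hx
    rw [Multiset.mem_toFinset]
    rw [Finset.mem_insert, Finset.mem_image] at hx
    rcases hx with rfl | ⟨i, _, rfl⟩
    · exact hroot _ hg'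
    · exact hroot _ (aeval_pow_card_pow f g i hg)
  have hcardS : (insert g' ((Finset.range n).image
      (fun i => g ^ (Fintype.card F ^ i)))).card = n + 1 := by
    rw [Finset.card_insert_of_notMem, Finset.card_image_of_injOn, Finset.card_range]
    · intro i hi j hj hij
      exact hinj i j (Finset.mem_range.mp hi) (Finset.mem_range.mp hj) hij
    · intro hmem
      rw [Finset.mem_image] at hmem
      obtain ⟨i, hi, hie⟩ := hmem
      exact hcon i (Finset.mem_range.mp hi) hie.symm
  have h1 := Finset.card_le_card hS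
  have h2 := Multiset.toFinset_card_le (f.map (algebraMap F K)).roots
  have h3 := card_roots' (f.map (algebraMap F K))
  have h4 : (f.map (algebraMap F K)).natDegree ≤ n := le_trans natDegree_map_le hdeg
  omega

variable {H : Type*} [CommGroup H] [Finite H]

theorem A2 (γ : H →* K) (hγ : Function.Injective γ) (n : ℕ)
    (hcard : Fintype.card K = Fintype.card F ^ n) (h₀ : H) (ho : orderOf h₀ = Nat.card H) :
    ((Fintype.card F : ℕ) : ZMod (Nat.card H)) ^ n = 1 := by
  have h1 : γ h₀ ^ (Fintype.card F ^ n) = γ h₀ := by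
    rw [← hcard]; exact FiniteField.pow_card _
  have h2 : h₀ ^ (Fintype.card F ^ n) = h₀ ^ 1 := by
    apply hγ; rw [map_pow, pow_one]; exact h1
  have h3 := pow_eq_pow_iff_modEq.mp h2
  rw [ho] at h3
  have h4 := (ZMod.natCast_eq_natCast_iff _ _ _).mpr h3
  push_cast at h4
  exact h4

theorem A3 (γ : H →* K)
    (hgen : ∀ P : K → Prop, (∀ h, P (γ h)) → (∀ x y, P x → P y → P (x + y)) →
      (∀ (c : F) x, P x → P (c • x)) → ∀ x, P x)
    (p : ℕ) [Fact p.Prime] [CharP F p] (n : ℕ)
    (hcard : Fintype.card K = Fintype.card F ^ n) (d : ℕ) (hd0 : 0 < d) (hdn : d < n) :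
    ((Fintype.card F : ℕ) : ZMod (Nat.card H)) ^ d ≠ 1 := by
  classical
  intro h1
  have h2 : (Fintype.card F ^ d) ≡ 1 [MOD Nat.card H] := by
    apply (ZMod.natCast_eq_natCast_iff _ _ _).mp
    push_cast
    exact h1
  have h3 : ∀ h : H, h ^ (Fintype.card F ^ d) = h := by
    intro h
    have h' : h ^ (Fintype.card F ^ d) = h ^ 1 := by
      rw [pow_eq_pow_iff_modEq]
      exact h2.of_dvd (orderOf_dvd_natCard h)
    rwa [pow_one] at h'
  obtain ⟨e, -, he⟩ := FiniteField.card F p
  haveI : CharP K p := charP_of_injective_algebraMap (algebraMap F K).injective p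
  have h4 : ∀ x : K, x ^ (Fintype.card F ^ d) = x := by
    apply hgen
    · intro h; rw [← map_pow, h3]
    · intro x y hx hy
      have hx' : x ^ (p ^ ((e : ℕ) * d)) = x := by rw [pow_mul, ← he]; exact hx
      have hy' : y ^ (p ^ ((e : ℕ) * d)) = y := by rw [pow_mul, ← he]; exact hy
      rw [he, ← pow_mul, add_pow_char_pow, hx', hy']
    · intro c x hx
      rw [Algebra.smul_def, mul_pow, hx, ← map_pow, FiniteField.pow_card_pow]
  have hq : 1 < Fintype.card F ^ d := Nat.one_lt_pow hd0.ne' Fintype.one_lt_card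
  have hne := FiniteField.X_pow_card_sub_X_ne_zero K hq
  have hdeg := FiniteField.X_pow_card_sub_X_natDegree_eq K hq
  have hroots : ∀ x : K, x ∈ (X ^ (Fintype.card F ^ d) - X : K[X]).roots := by
    intro x
    rw [mem_roots hne, IsRoot.def, eval_sub, eval_pow, eval_X, h4 x, sub_self]
  have h5 : Fintype.card K ≤ Fintype.card F ^ d := by
    calc Fintype.card K = (Finset.univ : Finset K).card := rfl
      _ ≤ (X ^ (Fintype.card F ^ d) - X : K[X]).roots.toFinset.card :=
          Finset.card_le_card (fun x _ => Multiset.mem_toFinset.mpr (hroots x))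
      _ ≤ Multiset.card (X ^ (Fintype.card F ^ d) - X : K[X]).roots :=
          Multiset.toFinset_card_le _
      _ ≤ (X ^ (Fintype.card F ^ d) - X : K[X]).natDegree := card_roots' _
      _ = Fintype.card F ^ d := hdeg
  rw [hcard] at h5
  have h6 := (Nat.pow_le_pow_iff_right (Fintype.one_lt_card (α := F))).mp h5
  omega

end abstract

theorem pow_inj_of_order {m : ℕ} (x : ZMod m) (n : ℕ) (h1 : x ^ n = 1)
    (h3 : ∀ d, 0 < d → d < n → x ^ d ≠ 1) (i j : ℕ) (hi : i < n) (hj : j < n)
    (h : x ^ i = x ^ j) : i = j := by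
  by_contra hne
  rcases Nat.lt_or_gt_of_ne hne with hlt | hlt
  · apply h3 (i + (n - j)) (by omega) (by omega)
    rw [pow_add, h, ← pow_add]
    have : j + (n - j) = n := by omega
    rw [this, h1]
  · apply h3 (j + (n - i)) (by omega) (by omega)
    rw [pow_add, ← h, ← pow_add]
    have : i + (n - i) = n := by omega
    rw [this, h1]

theorem adj_poly {F : Type*} [Field F] {V : Type*} [AddCommGroup V] [Module F V]
    (B : LinearMap.BilinForm F V) (G G' : Module.End F V)
    (hadj : ∀ x y, B (G' x) y = B x (G y)) (P : F[X]) (x y : V) :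
    B (aeval G' P x) y = B x (aeval G P y) := by
  have hk : ∀ k : ℕ, ∀ x y, B ((G' ^ k) x) y = B x ((G ^ k) y) := by
    intro k
    induction k with
    | zero => intro x y; simp
    | succ k ih =>
      intro x y
      rw [pow_succ, pow_succ', Module.End.mul_apply, Module.End.mul_apply, ih, hadj]
  induction P using Polynomial.induction_on' with
  | add p q hp hq =>
    simp only [map_add, LinearMap.add_apply, hp, hq]
  | monomial k c =>
    simp only [aeval_monomial, Module.End.mul_apply, Module.algebraMap_end_apply, map_smul,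
      LinearMap.smul_apply, hk]

theorem core {F : Type*} [Field F] [Fintype F] (p : ℕ) [Fact p.Prime] [CharP F p] {H : Type*}
    [CommGroup H] [Finite H] {V : Type*} [AddCommGroup V] [Module F V] [FiniteDimensional F V]
    (ρ : Representation F H V) (hfaith : Function.Injective ρ)
    (hirr : ∀ U : Submodule F V, (∀ h : H, ∀ u ∈ U, ρ h u ∈ U) → U = ⊥ ∨ U = ⊤)
    (hn : 1 ≤ Module.finrank F V) :
    ((Fintype.card F : ℕ) : ZMod (Nat.card H)) ^ (Module.finrank F V) = 1 ∧
    (∀ d, 0 < d → d < Module.finrank F V →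
      ((Fintype.card F : ℕ) : ZMod (Nat.card H)) ^ d ≠ 1) ∧
    ((∃ B : LinearMap.BilinForm F V, B.Nondegenerate ∧
        ∀ h : H, ∀ x y : V, B (ρ h x) (ρ h y) = B x y) →
      ∃ j, j < Module.finrank F V ∧ Nat.card H ∣ Fintype.card F ^ j + 1) ∧
    (∀ k : ℕ, Nat.card H ∣ Fintype.card F ^ k + 1 →
      ∃ B : LinearMap.BilinForm F V, B.Nondegenerate ∧
        ∀ h : H, ∀ x y : V, B (ρ h x) (ρ h y) = B x y) := by
  classical
  haveI : Nontrivial V := Module.nontrivial_of_finrank_pos (R := F) (by omega)
  obtain ⟨v₀, hv₀⟩ := exists_ne (0 : V)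
  obtain ⟨φ, hφdef⟩ : ∃ φ : MonoidAlgebra F H →ₐ[F] Module.End F V, φ = ρ.asAlgebraHom :=
    ⟨_, rfl⟩
  have hφof : ∀ h, φ (MonoidAlgebra.of F H h) = ρ h := fun h => by
    rw [hφdef]; exact Representation.asAlgebraHom_of ρ h
  have hcomm : ∀ (r : MonoidAlgebra F H) (h : H) (v : V), φ r (ρ h v) = ρ h (φ r v) := by
    intro r h v
    have h1 : φ r * φ (MonoidAlgebra.of F H h) = φ (MonoidAlgebra.of F H h) * φ r := by
      rw [← map_mul, ← map_mul, mul_comm]
    have h2 := congrArg (fun T : Module.End F V => T v) h1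
    simp only [Module.End.mul_apply, hφof] at h2
    exact h2
  have hinj : ∀ r, φ r ≠ 0 → Function.Injective (φ r) := by
    intro r hr
    have hker := hirr (LinearMap.ker (φ r)) (by
      intro h u hu
      rw [LinearMap.mem_ker] at hu ⊢
      rw [hcomm, hu, map_zero])
    rcases hker with hk | hk
    · exact LinearMap.ker_eq_bot.mp hk
    · exact absurd (LinearMap.ker_eq_top.mp hk) hr
  have hprime : (RingHom.ker φ).IsPrime := by
    refine ⟨?_, ?_⟩
    · intro htop
      have h1 : (1 : MonoidAlgebra F H) ∈ RingHom.ker φ := by rw [htop]; trivial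
      rw [RingHom.mem_ker, map_one] at h1
      have h2 := congrArg (fun T : Module.End F V => T v₀) h1
      exact hv₀ h2
    · intro r s hrs
      rw [RingHom.mem_ker] at hrs
      by_cases hs : φ s = 0
      · right; exact RingHom.mem_ker.mpr hs
      · left
        rw [RingHom.mem_ker]
        have hsurj : Function.Surjective (φ s) := LinearMap.surjective_of_injective (hinj s hs)
        apply LinearMap.ext; intro v
        obtain ⟨w, rfl⟩ := hsurj v
        have h1 := congrArg (fun T : Module.End F V => T w) hrs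
        rw [map_mul] at h1
        exact h1
  haveI := hprime
  haveI hfinE : Finite (Module.End F V) := Module.finite_of_finite F
  obtain ⟨φb, hφb⟩ : ∃ φb : (MonoidAlgebra F H ⧸ RingHom.ker φ) →ₐ[F] Module.End F V,
      ∀ r, φb (Ideal.Quotient.mk (RingHom.ker φ) r) = φ r :=
    ⟨Ideal.Quotient.liftₐ (RingHom.ker φ) φ (fun a ha => RingHom.mem_ker.mp ha), fun r => rfl⟩
  have hφb_inj : Function.Injective φb := by
    rw [injective_iff_map_eq_zero]
    intro x hx
    obtain ⟨r, rfl⟩ := Ideal.Quotient.mk_surjective x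
    rw [hφb] at hx
    exact Ideal.Quotient.eq_zero_iff_mem.mpr (RingHom.mem_ker.mpr hx)
  haveI : Finite (MonoidAlgebra F H ⧸ RingHom.ker φ) := Finite.of_injective φb hφb_inj
  haveI : IsDomain (MonoidAlgebra F H ⧸ RingHom.ker φ) := Ideal.Quotient.isDomain _
  have hfield : IsField (MonoidAlgebra F H ⧸ RingHom.ker φ) := Finite.isField_of_domain _
  haveI hmax : (RingHom.ker φ).IsMaximal := Ideal.Quotient.maximal_of_isField _ hfield
  letI : Field (MonoidAlgebra F H ⧸ RingHom.ker φ) := Ideal.Quotient.field _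
  letI : Fintype (MonoidAlgebra F H ⧸ RingHom.ker φ) := Fintype.ofFinite _
  obtain ⟨γ, hγdef⟩ : ∃ γ : H →* (MonoidAlgebra F H ⧸ RingHom.ker φ),
      ∀ h, γ h = Ideal.Quotient.mk (RingHom.ker φ) (MonoidAlgebra.of F H h) :=
    ⟨((Ideal.Quotient.mk (RingHom.ker φ) : MonoidAlgebra F H →+* _) :
      MonoidAlgebra F H →* _).comp (MonoidAlgebra.of F H), fun h => rfl⟩
  have hγ : ∀ h, φb (γ h) = ρ h := fun h => by rw [hγdef, hφb, hφof]
  have hγinj : Function.Injective γ := fun a b hab => hfaith (by rw [← hγ a, ← hγ b, hab])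
  have hgen : ∀ P : (MonoidAlgebra F H ⧸ RingHom.ker φ) → Prop, (∀ h, P (γ h)) →
      (∀ x y, P x → P y → P (x + y)) → (∀ (c : F) x, P x → P (c • x)) → ∀ x, P x := by
    intro P h1 h2 h3 x
    obtain ⟨r, rfl⟩ := Ideal.Quotient.mk_surjective x
    induction r using MonoidAlgebra.induction_on with
    | of g => rw [← hγdef]; exact h1 g
    | add f g hf hg => rw [map_add]; exact h2 _ _ hf hg
    | smul c f hf =>
      have he : Ideal.Quotient.mk (RingHom.ker φ) (c • f) =
          c • Ideal.Quotient.mk (RingHom.ker φ) f := rfl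
      rw [he]; exact h3 c _ hf
  obtain ⟨L, hL⟩ : ∃ L : (MonoidAlgebra F H ⧸ RingHom.ker φ) →ₗ[F] V, ∀ x, L x = φb x v₀ :=
    ⟨(LinearMap.applyₗ v₀).comp φb.toLinearMap, fun x => rfl⟩
  have hLinj : Function.Injective L := by
    rw [injective_iff_map_eq_zero]
    intro x hx
    by_contra hx0
    have h1 : φb x⁻¹ (φb x v₀) = v₀ := by
      rw [← Module.End.mul_apply, ← map_mul, inv_mul_cancel₀ hx0, map_one]; rfl
    rw [hL] at hx
    rw [hx, map_zero] at h1
    exact hv₀ h1.symm
  have hLsurj : Function.Surjective L := by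
    have hr := hirr (LinearMap.range L) (by
      rintro h _ ⟨x, rfl⟩
      refine ⟨γ h * x, ?_⟩
      rw [hL, hL, map_mul, hγ]; rfl)
    rcases hr with hr | hr
    · exfalso
      have h1 : v₀ ∈ LinearMap.range L := ⟨1, by rw [hL, map_one]; rfl⟩
      rw [hr] at h1
      exact hv₀ ((Submodule.mem_bot F).mp h1)
    · exact LinearMap.range_eq_top.mp hr
  obtain ⟨ψ, hψ⟩ : ∃ ψ : (MonoidAlgebra F H ⧸ RingHom.ker φ) ≃ₗ[F] V, ∀ x, ψ x = φb x v₀ :=
    ⟨LinearEquiv.ofBijective L ⟨hLinj, hLsurj⟩, fun x => hL x⟩
  have hcardK : Fintype.card (MonoidAlgebra F H ⧸ RingHom.ker φ) =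
      Fintype.card F ^ Module.finrank F V := by
    rw [Module.card_eq_pow_finrank (K := F) (V := (MonoidAlgebra F H ⧸ RingHom.ker φ)),
      ψ.finrank_eq]
  haveI : IsCyclic H := isCyclic_of_subgroup_isDomain γ hγinj
  obtain ⟨h₀, hh₀⟩ := IsCyclic.exists_generator (α := H)
  have ho : orderOf h₀ = Nat.card H := orderOf_eq_card_of_forall_mem_zpowers hh₀
  have hA2 := A2 γ hγinj (Module.finrank F V) hcardK h₀ ho
  have hA3 := fun d hd0 hdn => A3 (F := F) γ hgen p (Module.finrank F V) hcardK d hd0 hdn
  have hψsymm : ∀ h x, ψ.symm (ρ h x) = γ h * ψ.symm x := by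
    intro h x
    apply ψ.injective
    rw [LinearEquiv.apply_symm_apply, hψ, map_mul, hγ, Module.End.mul_apply, ← hψ,
      LinearEquiv.apply_symm_apply]
  refine ⟨hA2, hA3, ?_, ?_⟩
  · rintro ⟨B, hB, hBinv⟩
    have hadj : ∀ x y, B (ρ h₀⁻¹ x) y = B x (ρ h₀ y) := by
      intro x y
      rw [← hBinv h₀ (ρ h₀⁻¹ x) y, Representation.self_inv_apply]
    have hmonic : (minpoly F (ρ h₀)).Monic := minpoly.monic (Algebra.IsIntegral.isIntegral _)
    have hdeg : (minpoly F (ρ h₀)).natDegree ≤ Module.finrank F V := by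
      have h1 := LinearMap.minpoly_dvd_charpoly (ρ h₀)
      have h2 := Polynomial.natDegree_le_of_dvd h1 (LinearMap.charpoly_monic (ρ h₀)).ne_zero
      rwa [LinearMap.charpoly_natDegree] at h2
    have hzero' : aeval (ρ h₀⁻¹) (minpoly F (ρ h₀)) = 0 := by
      apply LinearMap.ext; intro x
      apply hB.1
      intro y
      rw [adj_poly B (ρ h₀) (ρ h₀⁻¹) hadj, minpoly.aeval]
      simp
    have hg : aeval (γ h₀) (minpoly F (ρ h₀)) = 0 := by
      apply hφb_inj
      rw [← Polynomial.aeval_algHom_apply, hγ, minpoly.aeval, map_zero]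
    have hg' : aeval (γ h₀⁻¹) (minpoly F (ρ h₀)) = 0 := by
      apply hφb_inj
      rw [← Polynomial.aeval_algHom_apply, hγ, hzero', map_zero]
    obtain ⟨j, hj, hje⟩ := root_mem (minpoly F (ρ h₀)) hmonic.ne_zero (Module.finrank F V) hdeg
      (γ h₀) (γ h₀⁻¹) hg hg' (by
        intro i j hi hj hij
        rw [← map_pow, ← map_pow] at hij
        have h1 := pow_eq_pow_iff_modEq.mp (hγinj hij)
        rw [ho] at h1
        have h2 := (ZMod.natCast_eq_natCast_iff _ _ _).mpr h1
        push_cast at h2
        exact pow_inj_of_order _ _ hA2 hA3 i j hi hj h2)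
    refine ⟨j, hj, ?_⟩
    rw [← map_pow] at hje
    have h1 : h₀⁻¹ = h₀ ^ (Fintype.card F ^ j) := hγinj hje
    have h2 : h₀ ^ (Fintype.card F ^ j + 1) = 1 := by
      rw [pow_succ, ← h1, inv_mul_cancel]
    rw [← ho]
    exact orderOf_dvd_of_pow_eq_one h2
  · intro k hk
    obtain ⟨e, -, he⟩ := FiniteField.card F p
    haveI : CharP (MonoidAlgebra F H ⧸ RingHom.ker φ) p :=
      charP_of_injective_algebraMap (algebraMap F _).injective p
    obtain ⟨σ, hσ⟩ : ∃ σ : (MonoidAlgebra F H ⧸ RingHom.ker φ) →ₗ[F]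
        (MonoidAlgebra F H ⧸ RingHom.ker φ), ∀ x, σ x = x ^ (Fintype.card F ^ k) := by
      refine ⟨{ toFun := fun x => x ^ (Fintype.card F ^ k), map_add' := ?_, map_smul' := ?_ },
        fun x => rfl⟩
      · intro x y
        show (x + y) ^ (Fintype.card F ^ k) = x ^ (Fintype.card F ^ k) + y ^ (Fintype.card F ^ k)
        rw [he, ← pow_mul, add_pow_char_pow]
      · intro c x
        show (c • x) ^ (Fintype.card F ^ k) = c • x ^ (Fintype.card F ^ k)
        rw [Algebra.smul_def, mul_pow, ← map_pow, FiniteField.pow_card_pow, Algebra.smul_def]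
    have hσinj : Function.Injective σ := by
      rw [injective_iff_map_eq_zero]
      intro x hx
      rw [hσ] at hx
      exact pow_eq_zero_iff (pow_ne_zero _ Fintype.card_ne_zero) |>.mp hx
    have hσsurj : Function.Surjective σ := Finite.injective_iff_surjective.mp hσinj
    have hσmul : ∀ a b, σ (a * b) = σ a * σ b := fun a b => by rw [hσ, hσ, hσ, mul_pow]
    obtain ⟨ℓ, hℓ, -⟩ := Submodule.exists_le_ker_of_lt_top (⊥ : Submodule F V) bot_lt_top
    refine ⟨LinearMap.mk₂ F (fun x y => ℓ (ψ (ψ.symm x * σ (ψ.symm y)))) ?_ ?_ ?_ ?_, ⟨?_, ?_⟩, ?_⟩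
    · intro x x' y
      simp only [map_add, add_mul]
    · intro c x y
      simp only [map_smul, smul_mul_assoc, smul_eq_mul]
    · intro x y y'
      simp only [map_add, mul_add]
    · intro c x y
      simp only [map_smul, mul_smul_comm, smul_eq_mul]
    · intro x hx
      by_contra hx0
      apply hℓ
      apply LinearMap.ext; intro w
      have ha : ψ.symm x ≠ 0 := fun h0 => hx0 (by
        have := congrArg ψ h0
        rwa [LinearEquiv.apply_symm_apply, map_zero] at this)
      obtain ⟨b, hb⟩ := hσsurj ((ψ.symm x)⁻¹ * ψ.symm w)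
      have h1 := hx (ψ b)
      rw [LinearMap.mk₂_apply, LinearEquiv.symm_apply_apply, hb, ← mul_assoc,
        mul_inv_cancel₀ ha, one_mul, LinearEquiv.apply_symm_apply] at h1
      rw [h1]; rfl
    · intro y hy
      by_contra hy0
      apply hℓ
      apply LinearMap.ext; intro w
      have hb : σ (ψ.symm y) ≠ 0 := fun h0 => hy0 (by
        have h1 : ψ.symm y = 0 := hσinj (by rw [h0, map_zero])
        have := congrArg ψ h1
        rwa [LinearEquiv.apply_symm_apply, map_zero] at this)
      have h1 := hy (ψ (ψ.symm w * (σ (ψ.symm y))⁻¹))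
      rw [LinearMap.mk₂_apply, LinearEquiv.symm_apply_apply, mul_assoc,
        inv_mul_cancel₀ hb, mul_one, LinearEquiv.apply_symm_apply] at h1
      rw [h1]; rfl
    · intro h x y
      rw [LinearMap.mk₂_apply, LinearMap.mk₂_apply, hψsymm, hψsymm, hσmul]
      have h1 : γ h * σ (γ h) = 1 := by
        rw [hσ, ← pow_succ', ← map_pow]
        have h2 : h ^ (Fintype.card F ^ k + 1) = 1 := by
          have h3 : orderOf h ∣ Fintype.card F ^ k + 1 := (orderOf_dvd_natCard h).trans hk
          exact orderOf_dvd_iff_pow_eq_one.mp h3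
        rw [h2, map_one]
      have h2 : γ h * ψ.symm x * (σ (γ h) * σ (ψ.symm y)) =
          ψ.symm x * σ (ψ.symm y) := by
        linear_combination (ψ.symm x * σ (ψ.symm y)) * h1
      rw [h2]

/-- Let F be a finite field with r elements and of characteristic p, H a finite abelian group of order prime to p, and V a faithful irreducible representation of H over F of dimension n (faithful: distinct elements act differently; irreducible: the only H-invariant subspaces are 0 and V). Call V self-dual when it carries a nondegenerate H-invariant bilinear form. If n = 1 and V is self-dual then H has order at most 2. If n ≥ 2 then V is self-dual if and only if n is even and the order of H divides r^(n/2) + 1. -/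
theorem result {F : Type*} [Field F] [Fintype F] (p : ℕ) [Fact p.Prime] [CharP F p] {H : Type*} [CommGroup H] [Finite H] (hcop : ¬ p ∣ Nat.card H) {V : Type*} [AddCommGroup V] [Module F V] [FiniteDimensional F V] (ρ : Representation F H V) (hfaith : Function.Injective ρ) (hirr : ∀ U : Submodule F V, (∀ h : H, ∀ u ∈ U, ρ h u ∈ U) → U = ⊥ ∨ U = ⊤) : (Module.finrank F V = 1 → (∃ B : LinearMap.BilinForm F V, B.Nondegenerate ∧ ∀ h : H, ∀ x y : V, B (ρ h x) (ρ h y) = B x y) → Nat.card H ≤ 2) ∧ (2 ≤ Module.finrank F V → ((∃ B : LinearMap.BilinForm F V, B.Nondegenerate ∧ ∀ h : H, ∀ x y : V, B (ρ h x) (ρ h y) = B x y) ↔ (Even (Module.finrank F V) ∧ Nat.card H ∣ Fintype.card F ^ (Module.finrank F V / 2) + 1))) := by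
  obtain ⟨e, -, he⟩ := FiniteField.card F p
  constructor
  · intro hn1 hB
    obtain ⟨-, -, h3, -⟩ := core p ρ hfaith hirr (by omega)
    obtain ⟨j, hj, hdvd⟩ := h3 hB
    have hj0 : j = 0 := by omega
    subst hj0
    rw [pow_zero] at hdvd
    exact Nat.le_of_dvd (by norm_num) hdvd
  · intro hn2
    obtain ⟨h1, h2, h3, h4⟩ := core p ρ hfaith hirr (by omega)
    constructor
    · intro hB
      obtain ⟨j, hj, hdvd⟩ := h3 hB
      have hx : ((Fintype.card F : ℕ) : ZMod (Nat.card H)) ^ j + 1 = 0 := by
        have h5 := (ZMod.natCast_eq_zero_iff _ _).mpr hdvd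
        push_cast at h5
        exact h5
      have hx2 : ((Fintype.card F : ℕ) : ZMod (Nat.card H)) ^ (2 * j) = 1 := by
        have h5 : ((Fintype.card F : ℕ) : ZMod (Nat.card H)) ^ j = -1 :=
          eq_neg_of_add_eq_zero_left hx
        rw [mul_comm, pow_mul, h5]; norm_num
      have hord : orderOf ((Fintype.card F : ℕ) : ZMod (Nat.card H)) = Module.finrank F V := by
        rw [orderOf_eq_iff (by omega)]
        exact ⟨h1, fun d hd hd0 => h2 d hd0 hd⟩
      have hdiv : Module.finrank F V ∣ 2 * j := by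
        rw [← hord]; exact orderOf_dvd_of_pow_eq_one hx2
      obtain ⟨c, hc⟩ := hdiv
      have hc01 : c = 0 ∨ c = 1 := by
        rcases Nat.lt_or_ge c 2 with h | h
        · omega
        · exfalso
          have h6 : Module.finrank F V * 2 ≤ Module.finrank F V * c := Nat.mul_le_mul_left _ h
          omega
      rcases hc01 with rfl | rfl
      · exfalso
        have hj0 : j = 0 := by omega
        subst hj0
        rw [pow_zero] at hdvd
        apply h2 1 (by norm_num) (by omega)
        rw [pow_one]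
        have hm : Nat.card H = 1 ∨ Nat.card H = 2 := by
          have h7 := Nat.le_of_dvd (by norm_num) hdvd
          have hpos : 0 < Nat.card H := Nat.card_pos
          omega
        have hmod : Fintype.card F ≡ 1 [MOD Nat.card H] := by
          rcases hm with hm | hm
          · rw [hm]; exact Nat.modEq_one
          · have hp2 : p ≠ 2 := by
              intro hp; apply hcop; rw [hm, hp]
            have hodd : Odd (Fintype.card F) := by
              rw [he]
              exact ((Fact.out : p.Prime).eq_two_or_odd'.resolve_left hp2).pow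
            obtain ⟨t, ht⟩ := hodd
            rw [hm, ht]
            exact ((Nat.modEq_iff_dvd' (by omega)).mpr ⟨t, by omega⟩).symm
        have h8 := (ZMod.natCast_eq_natCast_iff _ _ _).mpr hmod
        push_cast at h8
        exact h8
      · have hnj : Module.finrank F V = 2 * j := by omega
        refine ⟨⟨j, by omega⟩, ?_⟩
        have h9 : Module.finrank F V / 2 = j := by omega
        rw [h9]; exact hdvd
    · rintro ⟨-, hdvd⟩
      exact h4 _ hdvd

end Cfsg.Agent.S4967
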