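import Cfsg.Statements.S5013
import Cfsg.Agent.Lib.Helper25.RankOne

set_option autoImplicit false
open Cfsg

namespace Cfsg.Agent.S5013

open Cfsg.Agent.Lib.Helper25.RankOne

theorem result {G : Type*} [Group G] {A B : Subgroup G} (h : Cfsg.IsRankOnePair A B) :
    (∀ a ∈ A, a ≠ 1 → ∃! b : G, b ∈ B ∧ b ≠ 1 ∧ Cfsg.conjBy A b⁻¹ = Cfsg.conjBy B a⁻¹) ∧
    (∀ b ∈ B, b ≠ 1 → ∃! a : G, a ∈ A ∧ a ≠ 1 ∧ Cfsg.conjBy A b⁻¹ = Cfsg.conjBy B a⁻¹) ∧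
    A ⊓ Subgroup.normalizer (B : Set G) = ⊥ ∧ B ⊓ Subgroup.normalizer (A : Set G) = ⊥ := by
  exact ⟨fun a ha ha1 => existsUnique_left h ha ha1, fun b hb hb1 => existsUnique_right h hb hb1,
    inf_normalizer_eq_bot h, inf_normalizer_eq_bot' h⟩

end Cfsg.Agent.S5013
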