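import Cfsg.Statements.S5015
import Cfsg.Agent.Lib.Helper25.RankOne

set_option autoImplicit false
open Cfsg

namespace Cfsg.Agent.S5015

open Cfsg.Agent.Lib.Helper25.RankOne

theorem exists_third {Ω : Type*} (hΩ : 3 ≤ ENat.card Ω) (α β : Ω) : ∃ γ : Ω, γ ≠ α ∧ γ ≠ β := by
  by_contra hcon
  push Not at hcon
  have hsub : (Set.univ : Set Ω) ⊆ {α, β} := by
    intro γ _
    by_cases h : γ = α
    · left; exact h
    · right; exact hcon γ h
  have h1 : ENat.card Ω ≤ 2 := by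
    rw [← Set.encard_univ]
    refine (Set.encard_le_encard hsub).trans ?_
    refine (Set.encard_insert_le _ _).trans ?_
    rw [Set.encard_singleton]
    norm_num
  have : (3 : ℕ∞) ≤ 2 := hΩ.trans h1
  exact absurd this (by decide)

theorem result {Y Ω : Type*} [Group Y] [MulAction Y Ω]
    (h2 : MulAction.IsMultiplyPretransitive Y Ω 2) (hΩ : 3 ≤ ENat.card Ω) (α : Ω) (A : Subgroup Y)
    (hA : A ≤ MulAction.stabilizer Y α) (hAn : ∀ y ∈ MulAction.stabilizer Y α, Cfsg.conjBy A y = A)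
    (hnil : Group.IsNilpotent A) (hreg : ∀ β γ : Ω, β ≠ α → γ ≠ α → ∃! a : Y, a ∈ A ∧ a • β = γ)
    (y : Y) (hy : y ∉ MulAction.stabilizer Y α) :
    Cfsg.IsRankOnePair A (Cfsg.conjBy A y) ∧ Subgroup.normalClosure (A : Set Y) = A ⊔ Cfsg.conjBy A y := by
  have hfixA : ∀ a ∈ A, a • α = α := fun a ha => MulAction.mem_stabilizer_iff.mp (hA ha)
  have K : ∀ g h : Y, g • α = h • α → conjBy A g = conjBy A h := by
    intro g h hgh
    have hs : h⁻¹ * g ∈ MulAction.stabilizer Y α := by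
      rw [MulAction.mem_stabilizer_iff, mul_smul, hgh, inv_smul_smul]
    have := hAn _ hs
    have e : g = h * (h⁻¹ * g) := by simp
    rw [e, ← conjBy_conjBy, this]
  set β := y • α with hβ
  have hβα : β ≠ α := fun h => hy (MulAction.mem_stabilizer_iff.mpr h)
  have hyinv : y⁻¹ • α ≠ α := by
    intro h
    apply hβα
    rw [hβ]
    conv_lhs => rw [← h]
    simp
  have hsemi : ∀ a ∈ A, ∀ γ : Ω, γ ≠ α → a • γ = γ → a = 1 := by
    intro a ha γ hγ hfix
    obtain ⟨a₀, -, huniq⟩ := hreg γ γ hγ hγ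
    rw [huniq a ⟨ha, hfix⟩, huniq 1 ⟨A.one_mem, one_smul _ _⟩]
  set B := conjBy A y with hB
  have hfixB : ∀ b ∈ B, b • β = β := by
    intro b hb
    rw [hB, mem_conjBy] at hb
    have := hfixA _ hb
    rw [mul_smul, mul_smul] at this
    rw [hβ]
    have h3 := congrArg (fun ω => y • ω) this
    simpa using h3
  have htransB : ∀ γ δ : Ω, γ ≠ β → δ ≠ β → ∃ b ∈ B, b • γ = δ := by
    intro γ δ hγ hδ
    have hγ' : y⁻¹ • γ ≠ α := by
      intro h; apply hγ; rw [hβ, ← h]; simp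
    have hδ' : y⁻¹ • δ ≠ α := by
      intro h; apply hδ; rw [hβ, ← h]; simp
    obtain ⟨a, ⟨ha, hae⟩, -⟩ := hreg _ _ hγ' hδ'
    refine ⟨y * a * y⁻¹, conj_mem_conjBy ha, ?_⟩
    rw [mul_smul, mul_smul, hae]; simp
  have hsemiB : ∀ b ∈ B, ∀ γ : Ω, γ ≠ β → b • γ = γ → b = 1 := by
    intro b hb γ hγ hfix
    rw [hB, mem_conjBy] at hb
    have hγ' : y⁻¹ • γ ≠ α := by
      intro h; apply hγ; rw [hβ, ← h]; simp
    have := hsemi _ hb (y⁻¹ • γ) hγ' (by
      rw [mul_smul, mul_smul, smul_inv_smul, hfix])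
    have e : b = y * (y⁻¹ * b * y) * y⁻¹ := by simp [mul_assoc]
    rw [e, this]; simp
  obtain ⟨γ₀, hγ₀α, hγ₀β⟩ := exists_third hΩ α β
  have hAne : ∃ a ∈ A, a ≠ 1 := by
    obtain ⟨a, ⟨ha, hae⟩, -⟩ := hreg β γ₀ hβα hγ₀α
    refine ⟨a, ha, ?_⟩
    rintro rfl
    rw [one_smul] at hae
    exact hγ₀β hae.symm
  have hpair : IsRankOnePair A B := by
    refine ⟨?_, hnil, isNilpotent_conjBy y hnil, ?_, ?_⟩
    · intro hAB
      obtain ⟨a, ha, ha1⟩ := hAne
      have haB : a ∈ B := by rw [← hAB]; exact ha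
      exact ha1 (hsemi a ha β hβα (hfixB a haB))
    · intro a ha ha1
      set γ := a⁻¹ • β with hγ
      have hγα : γ ≠ α := by
        intro h
        apply hβα
        have : β = a • γ := by rw [hγ]; simp
        rw [this, h, hfixA a ha]
      have hγβ : γ ≠ β := by
        intro h
        have := hsemi a⁻¹ (A.inv_mem ha) β hβα h
        exact ha1 (inv_eq_one.mp this)
      obtain ⟨b, hb, hbe⟩ := htransB γ α hγβ hβα.symm
      refine ⟨b, hb, ?_, ?_⟩
      · rintro rfl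
        rw [one_smul] at hbe
        exact hγα hbe
      · rw [hB, conjBy_conjBy]
        apply K
        rw [mul_smul, ← hβ, ← hγ, ← hbe]; simp
    · intro b hb hb1
      set δ := b⁻¹ • α with hδ
      have hδβ : δ ≠ β := by
        intro h
        apply hβα
        have : α = b • δ := by rw [hδ]; simp
        rw [this, h, hfixB b hb]
      have hδα : δ ≠ α := by
        intro h
        have := hsemiB b⁻¹ (B.inv_mem hb) α hβα.symm h
        exact hb1 (inv_eq_one.mp this)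
      obtain ⟨a, ⟨ha, hae⟩, -⟩ := hreg δ β hδα hβα
      refine ⟨a, ha, ?_, ?_⟩
      · rintro rfl
        rw [one_smul] at hae
        exact hδβ hae
      · rw [hB, conjBy_conjBy]
        apply K
        rw [mul_smul, ← hβ, ← hδ, ← hae]; simp
  refine ⟨hpair, ?_⟩
  apply le_antisymm
  · have htrans : ∀ δ : Ω, ∃ x ∈ A ⊔ B, x • α = δ := by
      intro δ
      by_cases hδα : δ = α
      · exact ⟨1, one_mem _, by rw [one_smul, hδα]⟩
      · by_cases hδβ : δ = β
        · obtain ⟨b, hb, hbe⟩ := htransB α γ₀ hβα.symm hγ₀β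
          obtain ⟨a, ⟨ha, hae⟩, -⟩ := hreg γ₀ β hγ₀α hβα
          refine ⟨a * b, Subgroup.mul_mem _ (Subgroup.mem_sup_left ha) (Subgroup.mem_sup_right hb), ?_⟩
          rw [mul_smul, hbe, hae, hδβ]
        · obtain ⟨b, hb, hbe⟩ := htransB α δ hβα.symm hδβ
          exact ⟨b, Subgroup.mem_sup_right hb, hbe⟩
    rw [Subgroup.normalClosure, Subgroup.closure_le]
    intro x hx
    rw [Group.mem_conjugatesOfSet_iff] at hx
    obtain ⟨a, ha, hconj⟩ := hx
    rw [isConj_iff] at hconj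
    obtain ⟨g, rfl⟩ := hconj
    obtain ⟨x, hx, hxe⟩ := htrans (g • α)
    have h1 : g * a * g⁻¹ ∈ conjBy A g := conj_mem_conjBy ha
    rw [K g x hxe.symm] at h1
    have h2 : conjBy A x ≤ conjBy (A ⊔ B) x := conjBy_le_conjBy x le_sup_left
    rw [conjBy_of_mem hx] at h2
    exact h2 h1
  · rw [sup_le_iff]
    refine ⟨Subgroup.le_normalClosure, ?_⟩
    intro x hx
    rw [hB, mem_conjBy] at hx
    have h1 : y⁻¹ * x * y ∈ Subgroup.normalClosure (A : Set Y) := Subgroup.le_normalClosure hx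
    have h2 := (Subgroup.normalClosure_normal (s := (A : Set Y))).conj_mem _ h1 y
    simpa [mul_assoc] using h2

end Cfsg.Agent.S5015
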