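import Cfsg.Statements.S5016
import Cfsg.Agent.Lib.Helper25.RankOne

set_option autoImplicit false
open Cfsg

namespace Cfsg.Agent.S5016

open Cfsg.Agent.Lib.Helper25.RankOne Matrix

variable (k : Type*) [Field k]

def loSub : Subgroup (Matrix.SpecialLinearGroup (Fin 2) k) where
  carrier := {g | (g : Matrix (Fin 2) (Fin 2) k) 0 1 = 0 ∧ (g : Matrix (Fin 2) (Fin 2) k) 0 0 = 1 ∧
    (g : Matrix (Fin 2) (Fin 2) k) 1 1 = 1}
  mul_mem' := by
    rintro g h ⟨g1, g2, g3⟩ ⟨h1, h2, h3⟩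
    simp only [Set.mem_ofPred_eq, Matrix.SpecialLinearGroup.coe_mul, Matrix.mul_apply,
      Fin.sum_univ_two]
    rw [g1, g2, g3, h1, h2, h3]
    simp
  one_mem' := by
    simp
  inv_mem' := by
    rintro g ⟨g1, g2, g3⟩
    simp only [Set.mem_ofPred_eq, Matrix.SpecialLinearGroup.coe_inv, Matrix.adjugate_fin_two,
      Matrix.of_apply, Matrix.cons_val', Matrix.cons_val_zero, Matrix.cons_val_one]
    simp [g1, g2, g3]

def upSub : Subgroup (Matrix.SpecialLinearGroup (Fin 2) k) where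
  carrier := {g | (g : Matrix (Fin 2) (Fin 2) k) 1 0 = 0 ∧ (g : Matrix (Fin 2) (Fin 2) k) 0 0 = 1 ∧
    (g : Matrix (Fin 2) (Fin 2) k) 1 1 = 1}
  mul_mem' := by
    rintro g h ⟨g1, g2, g3⟩ ⟨h1, h2, h3⟩
    simp only [Set.mem_ofPred_eq, Matrix.SpecialLinearGroup.coe_mul, Matrix.mul_apply,
      Fin.sum_univ_two]
    rw [g1, g2, g3, h1, h2, h3]
    simp
  one_mem' := by
    simp
  inv_mem' := by
    rintro g ⟨g1, g2, g3⟩
    simp only [Set.mem_ofPred_eq, Matrix.SpecialLinearGroup.coe_inv, Matrix.adjugate_fin_two,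
      Matrix.of_apply, Matrix.cons_val', Matrix.cons_val_zero, Matrix.cons_val_one]
    simp [g1, g2, g3]

theorem lower_eq : lowerUnipotentSL2 k = loSub k := Subgroup.closure_eq (loSub k)

theorem upper_eq : upperUnipotentSL2 k = upSub k := Subgroup.closure_eq (upSub k)

variable {k}

theorem mem_lower {g : Matrix.SpecialLinearGroup (Fin 2) k} :
    g ∈ lowerUnipotentSL2 k ↔ (g : Matrix (Fin 2) (Fin 2) k) 0 1 = 0 ∧
      (g : Matrix (Fin 2) (Fin 2) k) 0 0 = 1 ∧ (g : Matrix (Fin 2) (Fin 2) k) 1 1 = 1 := by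
  rw [lower_eq]; rfl

theorem mem_upper {g : Matrix.SpecialLinearGroup (Fin 2) k} :
    g ∈ upperUnipotentSL2 k ↔ (g : Matrix (Fin 2) (Fin 2) k) 1 0 = 0 ∧
      (g : Matrix (Fin 2) (Fin 2) k) 0 0 = 1 ∧ (g : Matrix (Fin 2) (Fin 2) k) 1 1 = 1 := by
  rw [upper_eq]; rfl

def lo (s : k) : Matrix.SpecialLinearGroup (Fin 2) k :=
  ⟨!![1, 0; s, 1], by simp [Matrix.det_fin_two]⟩

def up (t : k) : Matrix.SpecialLinearGroup (Fin 2) k :=
  ⟨!![1, t; 0, 1], by simp [Matrix.det_fin_two]⟩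

theorem lo_mem (s : k) : lo s ∈ lowerUnipotentSL2 k := by
  rw [mem_lower]; simp [lo]

theorem up_mem (t : k) : up t ∈ upperUnipotentSL2 k := by
  rw [mem_upper]; simp [up]

theorem eq_lo_of_mem {g : Matrix.SpecialLinearGroup (Fin 2) k} (h : g ∈ lowerUnipotentSL2 k) :
    g = lo ((g : Matrix (Fin 2) (Fin 2) k) 1 0) := by
  rw [mem_lower] at h
  obtain ⟨h1, h2, h3⟩ := h
  ext i j
  fin_cases i <;> fin_cases j <;> simp [lo, h1, h2, h3]

theorem eq_up_of_mem {g : Matrix.SpecialLinearGroup (Fin 2) k} (h : g ∈ upperUnipotentSL2 k) :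
    g = up ((g : Matrix (Fin 2) (Fin 2) k) 0 1) := by
  rw [mem_upper] at h
  obtain ⟨h1, h2, h3⟩ := h
  ext i j
  fin_cases i <;> fin_cases j <;> simp [up, h1, h2, h3]

theorem up_00 (t : k) : (up t : Matrix (Fin 2) (Fin 2) k) 0 0 = 1 := rfl
theorem up_01 (t : k) : (up t : Matrix (Fin 2) (Fin 2) k) 0 1 = t := rfl
theorem up_10 (t : k) : (up t : Matrix (Fin 2) (Fin 2) k) 1 0 = 0 := rfl
theorem up_11 (t : k) : (up t : Matrix (Fin 2) (Fin 2) k) 1 1 = 1 := rfl
theorem lo_00 (t : k) : (lo t : Matrix (Fin 2) (Fin 2) k) 0 0 = 1 := rfl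
theorem lo_01 (t : k) : (lo t : Matrix (Fin 2) (Fin 2) k) 0 1 = 0 := rfl
theorem lo_10 (t : k) : (lo t : Matrix (Fin 2) (Fin 2) k) 1 0 = t := rfl
theorem lo_11 (t : k) : (lo t : Matrix (Fin 2) (Fin 2) k) 1 1 = 1 := rfl

theorem sl_ext {g h : Matrix.SpecialLinearGroup (Fin 2) k}
    (h00 : (g : Matrix (Fin 2) (Fin 2) k) 0 0 = (h : Matrix (Fin 2) (Fin 2) k) 0 0)
    (h01 : (g : Matrix (Fin 2) (Fin 2) k) 0 1 = (h : Matrix (Fin 2) (Fin 2) k) 0 1)
    (h10 : (g : Matrix (Fin 2) (Fin 2) k) 1 0 = (h : Matrix (Fin 2) (Fin 2) k) 1 0)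
    (h11 : (g : Matrix (Fin 2) (Fin 2) k) 1 1 = (h : Matrix (Fin 2) (Fin 2) k) 1 1) : g = h := by
  ext i j
  fin_cases i <;> fin_cases j
  · exact h00
  · exact h01
  · exact h10
  · exact h11

theorem up_inv (t : k) : (up t)⁻¹ = up (-t) := by
  apply inv_eq_of_mul_eq_one_right
  apply sl_ext <;>
  simp [Matrix.SpecialLinearGroup.coe_mul, Matrix.mul_apply, Fin.sum_univ_two, up_00, up_01,
    up_10, up_11]

theorem lo_inv (s : k) : (lo s)⁻¹ = lo (-s) := by
  apply inv_eq_of_mul_eq_one_right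
  apply sl_ext <;>
  simp [Matrix.SpecialLinearGroup.coe_mul, Matrix.mul_apply, Fin.sum_univ_two, lo_00, lo_01,
    lo_10, lo_11]

theorem key {s : k} (hs : s ≠ 0) :
    conjBy (lowerUnipotentSL2 k) (up s⁻¹)⁻¹ = conjBy (upperUnipotentSL2 k) (lo s)⁻¹ := by
  ext g
  rw [mem_conjBy, mem_conjBy, inv_inv, inv_inv, mem_lower, mem_upper, up_inv, lo_inv]
  simp only [Matrix.SpecialLinearGroup.coe_mul, Matrix.mul_apply, Fin.sum_univ_two, lo_00, lo_01,
    lo_10, lo_11, up_00, up_01, up_10, up_11]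
  generalize (g : Matrix (Fin 2) (Fin 2) k) 0 0 = p
  generalize (g : Matrix (Fin 2) (Fin 2) k) 0 1 = q
  generalize (g : Matrix (Fin 2) (Fin 2) k) 1 0 = r
  generalize (g : Matrix (Fin 2) (Fin 2) k) 1 1 = w
  constructor
  · rintro ⟨h1, h2, h3⟩
    have hp : p = 1 - s⁻¹ * r := by linear_combination h2
    have hw : w = 1 + s⁻¹ * r := by linear_combination h3
    have hq : q = - s⁻¹ * s⁻¹ * r := by
      rw [hp, hw] at h1; linear_combination h1
    subst hp hw hq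
    refine ⟨?_, ?_, ?_⟩ <;> field_simp <;> ring
  · rintro ⟨h1, h2, h3⟩
    have hp : p = 1 + s * q := by linear_combination h2
    have hw : w = 1 - s * q := by linear_combination h3
    have hr : r = - s * s * q := by
      rw [hp, hw] at h1; linear_combination h1
    subst hp hw hr
    refine ⟨?_, ?_, ?_⟩ <;> field_simp <;> ring

theorem lo_ne_one {s : k} (hs : s ≠ 0) : lo s ≠ 1 := by
  intro h
  apply hs
  have := congrArg (fun g : Matrix.SpecialLinearGroup (Fin 2) k => (g : Matrix (Fin 2) (Fin 2) k) 1 0) h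
  simpa [lo_10] using this

theorem up_ne_one {s : k} (hs : s ≠ 0) : up s ≠ 1 := by
  intro h
  apply hs
  have := congrArg (fun g : Matrix.SpecialLinearGroup (Fin 2) k => (g : Matrix (Fin 2) (Fin 2) k) 0 1) h
  simpa [up_01] using this

theorem lo_zero : lo (0 : k) = 1 := by
  apply sl_ext <;> simp [lo_00, lo_01, lo_10, lo_11]

theorem up_zero : up (0 : k) = 1 := by
  apply sl_ext <;> simp [up_00, up_01, up_10, up_11]

theorem exists_lo {a : Matrix.SpecialLinearGroup (Fin 2) k} (ha : a ∈ lowerUnipotentSL2 k)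
    (ha1 : a ≠ 1) : ∃ s : k, s ≠ 0 ∧ a = lo s := by
  refine ⟨_, ?_, eq_lo_of_mem ha⟩
  intro h0
  apply ha1
  rw [eq_lo_of_mem ha, h0, lo_zero]

theorem exists_up {b : Matrix.SpecialLinearGroup (Fin 2) k} (hb : b ∈ upperUnipotentSL2 k)
    (hb1 : b ≠ 1) : ∃ t : k, t ≠ 0 ∧ b = up t := by
  refine ⟨_, ?_, eq_up_of_mem hb⟩
  intro h0
  apply hb1
  rw [eq_up_of_mem hb, h0, up_zero]

theorem comm_lower : IsMulCommutative (lowerUnipotentSL2 k) := by
  constructor
  constructor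
  rintro ⟨x, hx⟩ ⟨y, hy⟩
  apply Subtype.ext
  show x * y = y * x
  rw [eq_lo_of_mem hx, eq_lo_of_mem hy]
  apply sl_ext <;>
  simp [Matrix.SpecialLinearGroup.coe_mul, Matrix.mul_apply, Fin.sum_univ_two, lo_00, lo_01,
    lo_10, lo_11, add_comm]

theorem comm_upper : IsMulCommutative (upperUnipotentSL2 k) := by
  constructor
  constructor
  rintro ⟨x, hx⟩ ⟨y, hy⟩
  apply Subtype.ext
  show x * y = y * x
  rw [eq_up_of_mem hx, eq_up_of_mem hy]
  apply sl_ext <;>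
  simp [Matrix.SpecialLinearGroup.coe_mul, Matrix.mul_apply, Fin.sum_univ_two, up_00, up_01,
    up_10, up_11, add_comm]

theorem pair : IsRankOnePair (lowerUnipotentSL2 k) (upperUnipotentSL2 k) where
  ne := by
    intro h
    have h1 : lo (1 : k) ∈ upperUnipotentSL2 k := by rw [← h]; exact lo_mem 1
    rw [mem_upper, lo_10] at h1
    exact one_ne_zero h1.1
  nilpotent_left := ⟨1, Subgroup.upperCentralSeries_one_eq_top_iff.mpr comm_lower⟩
  nilpotent_right := ⟨1, Subgroup.upperCentralSeries_one_eq_top_iff.mpr comm_upper⟩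
  cond_left := by
    intro a ha ha1
    obtain ⟨s, hs, rfl⟩ := exists_lo ha ha1
    exact ⟨up s⁻¹, up_mem _, up_ne_one (inv_ne_zero hs), key hs⟩
  cond_right := by
    intro b hb hb1
    obtain ⟨t, ht, rfl⟩ := exists_up hb hb1
    refine ⟨lo t⁻¹, lo_mem _, lo_ne_one (inv_ne_zero ht), ?_⟩
    have := key (inv_ne_zero ht)
    rw [inv_inv] at this
    exact this.symm

theorem mem_sup_of_ne {g : Matrix.SpecialLinearGroup (Fin 2) k}
    (hq : (g : Matrix (Fin 2) (Fin 2) k) 0 1 ≠ 0) :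
    g ∈ lowerUnipotentSL2 k ⊔ upperUnipotentSL2 k := by
  have hdet : (g : Matrix (Fin 2) (Fin 2) k) 0 0 * (g : Matrix (Fin 2) (Fin 2) k) 1 1 -
      (g : Matrix (Fin 2) (Fin 2) k) 0 1 * (g : Matrix (Fin 2) (Fin 2) k) 1 0 = 1 := by
    rw [← Matrix.det_fin_two]; exact g.det_coe
  have hg : g = lo (((g : Matrix (Fin 2) (Fin 2) k) 1 1 - 1) / (g : Matrix (Fin 2) (Fin 2) k) 0 1) *
      up ((g : Matrix (Fin 2) (Fin 2) k) 0 1) *
      lo (((g : Matrix (Fin 2) (Fin 2) k) 0 0 - 1) / (g : Matrix (Fin 2) (Fin 2) k) 0 1) := by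
    apply sl_ext
    · simp only [Matrix.SpecialLinearGroup.coe_mul, Matrix.mul_apply, Fin.sum_univ_two, lo_00,
        lo_01, lo_10, lo_11, up_00, up_01, up_10, up_11]
      field_simp
      ring
    · simp only [Matrix.SpecialLinearGroup.coe_mul, Matrix.mul_apply, Fin.sum_univ_two, lo_00,
        lo_01, lo_10, lo_11, up_00, up_01, up_10, up_11]
      ring
    · simp only [Matrix.SpecialLinearGroup.coe_mul, Matrix.mul_apply, Fin.sum_univ_two, lo_00,
        lo_01, lo_10, lo_11, up_00, up_01, up_10, up_11]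
      field_simp
      linear_combination (-1 : k) * hdet
    · simp only [Matrix.SpecialLinearGroup.coe_mul, Matrix.mul_apply, Fin.sum_univ_two, lo_00,
        lo_01, lo_10, lo_11, up_00, up_01, up_10, up_11]
      field_simp
      ring
  rw [hg]
  exact Subgroup.mul_mem _ (Subgroup.mul_mem _ (Subgroup.mem_sup_left (lo_mem _))
    (Subgroup.mem_sup_right (up_mem _))) (Subgroup.mem_sup_left (lo_mem _))

theorem sup_eq_top : lowerUnipotentSL2 k ⊔ upperUnipotentSL2 k = ⊤ := by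
  rw [eq_top_iff]
  intro g _
  by_cases hq : (g : Matrix (Fin 2) (Fin 2) k) 0 1 = 0
  · have hdet : (g : Matrix (Fin 2) (Fin 2) k) 0 0 * (g : Matrix (Fin 2) (Fin 2) k) 1 1 -
        (g : Matrix (Fin 2) (Fin 2) k) 0 1 * (g : Matrix (Fin 2) (Fin 2) k) 1 0 = 1 := by
      rw [← Matrix.det_fin_two]; exact g.det_coe
    have hp : (g : Matrix (Fin 2) (Fin 2) k) 0 0 ≠ 0 := by
      intro h0
      rw [h0, hq] at hdet
      simp at hdet
    have h1 : g * up 1 ∈ lowerUnipotentSL2 k ⊔ upperUnipotentSL2 k := by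
      apply mem_sup_of_ne
      simp only [Matrix.SpecialLinearGroup.coe_mul, Matrix.mul_apply, Fin.sum_univ_two, up_01,
        up_11, hq]
      simpa using hp
    have h2 : g = g * up 1 * (up 1)⁻¹ := by group
    rw [h2]
    exact Subgroup.mul_mem _ h1 (Subgroup.inv_mem _ (Subgroup.mem_sup_right (up_mem _)))
  · exact mem_sup_of_ne hq

theorem special {s : k} (hs : s ≠ 0) :
    (up s⁻¹)⁻¹ * lo s * up s⁻¹ = (lo s)⁻¹ * (up s⁻¹)⁻¹ * lo s := by
  rw [up_inv, lo_inv]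
  apply sl_ext <;>
  simp only [Matrix.SpecialLinearGroup.coe_mul, Matrix.mul_apply, Fin.sum_univ_two, lo_00, lo_01,
    lo_10, lo_11, up_00, up_01, up_10, up_11] <;> field_simp <;> ring

theorem result (k : Type*) [Field k] :
    Cfsg.IsRankOneGroup (Matrix.SpecialLinearGroup (Fin 2) k) (Cfsg.lowerUnipotentSL2 k) (Cfsg.upperUnipotentSL2 k) ∧
    Cfsg.IsSpecialRankOnePair (Cfsg.lowerUnipotentSL2 k) (Cfsg.upperUnipotentSL2 k) ∧
    Cfsg.HasAbelianUnipotents (Cfsg.lowerUnipotentSL2 k) (Cfsg.upperUnipotentSL2 k) := by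
  refine ⟨⟨sup_eq_top, pair⟩, ⟨pair, ?_⟩, comm_lower, comm_upper⟩
  intro a ha ha1 b hb hb1 hab
  obtain ⟨s, hs, rfl⟩ := exists_lo ha ha1
  have huniq := existsUnique_left pair ha ha1
  have hb' : b = up s⁻¹ :=
    huniq.unique ⟨hb, hb1, hab⟩ ⟨up_mem _, up_ne_one (inv_ne_zero hs), key hs⟩
  rw [hb']
  exact special hs

end Cfsg.Agent.S5016
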