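import Cfsg.Statements.S5017
import Cfsg.Agent.Lib.Helper25.RankOne

set_option autoImplicit false
open Cfsg

namespace Cfsg.Agent.S5017

open Cfsg.Agent.Lib.Helper25.RankOne

theorem result {X : Type*} [Group X] {A B : Subgroup X} (h : Cfsg.IsRankOneGroup X A B) :
    (∀ N : Subgroup X, N.Normal → N ⊔ A = ⊤ ∨ N ≤ Subgroup.center X) ∧
    (Group.IsPerfect X → Cfsg.IsQuasisimple X) := by
  refine ⟨fun N hN => normal_dichotomy h hN, fun hperf => ⟨hperf, ?_⟩⟩
  have hnt : Nontrivial (X ⧸ Subgroup.center X) := by
    by_contra hcon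
    rw [not_nontrivial_iff_subsingleton] at hcon
    exact center_ne_top h (QuotientGroup.subgroup_eq_top_of_subsingleton _ hcon)
  refine { exists_pair_ne := hnt.exists_pair_ne, eq_bot_or_eq_top_of_normal := ?_ }
  intro H hH
  set N := H.comap (QuotientGroup.mk' (Subgroup.center X)) with hN
  have hNn : N.Normal := hH.comap _
  have hHN : H = N.map (QuotientGroup.mk' (Subgroup.center X)) := by
    rw [hN, Subgroup.map_comap_eq_self_of_surjective (QuotientGroup.mk'_surjective _)]
  rcases normal_dichotomy h hNn with hsup | hle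
  · right
    have hNtop : N = ⊤ := by
      apply QuotientGroup.subgroup_eq_top_of_subsingleton
      by_contra hns
      rw [not_subsingleton_iff_nontrivial] at hns
      have hnilA : Group.IsNilpotent A := h.2.nilpotent_left
      have hsurj : Function.Surjective ((QuotientGroup.mk' N).comp A.subtype) := by
        intro q
        obtain ⟨x, rfl⟩ := QuotientGroup.mk'_surjective N q
        have hx : x ∈ N ⊔ A := by rw [hsup]; trivial
        obtain ⟨n, hn, a, ha, rfl⟩ := (Subgroup.mem_sup_of_normal_left (hs := hNn)).mp hx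
        refine ⟨⟨a, ha⟩, ?_⟩
        show (QuotientGroup.mk' N) a = (QuotientGroup.mk' N) (n * a)
        rw [map_mul]
        have : (QuotientGroup.mk' N) n = 1 := by
          rw [QuotientGroup.mk'_apply, QuotientGroup.eq_one_iff]; exact hn
        rw [this, one_mul]
      have hnilQ : Group.IsNilpotent (X ⧸ N) := Group.nilpotent_of_surjective _ hsurj
      exact Group.IsPerfect.not_isNilpotent (X ⧸ N) hnilQ
    rw [hHN, hNtop, Subgroup.map_top_of_surjective _ (QuotientGroup.mk'_surjective _)]
  · left
    rw [hHN, eq_bot_iff]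
    rintro _ ⟨n, hn, rfl⟩
    rw [Subgroup.mem_bot, QuotientGroup.mk'_apply, QuotientGroup.eq_one_iff]
    exact hle hn

end Cfsg.Agent.S5017
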