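import Cfsg.Statements.S5019
import Cfsg.Agent.Lib.Helper25.Quad

set_option autoImplicit false
open Cfsg

namespace Cfsg.Agent.S5019

open Cfsg.Agent.Lib.Helper25.RankOne Cfsg.Agent.Lib.Helper25.Quad

section

variable {X : Type*} [Group X] {N : Type*} [AddCommGroup N] [DistribMulAction X N]

/-- the commutator module `[N, D]` -/
def commMod (N : Type*) [AddCommGroup N] [DistribMulAction X N] (D : Subgroup X) : AddSubgroup N :=
  AddSubgroup.closure {m | ∃ d ∈ D, ∃ n : N, m = d • n - n}

theorem gen_mem {D : Subgroup X} {d : X} (hd : d ∈ D) (n : N) : d • n - n ∈ commMod N D :=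
  AddSubgroup.subset_closure ⟨d, hd, n, rfl⟩

theorem smul_mem_of_mem_conj {D : Subgroup X} {x : X} {m : N} (hm : m ∈ commMod N (conjBy D x)) :
    x⁻¹ • m ∈ commMod N D := by
  unfold commMod at hm
  induction hm using AddSubgroup.closure_induction with
  | mem m hm =>
    obtain ⟨d, hd, n, rfl⟩ := hm
    rw [mem_conjBy] at hd
    rw [d_conj']
    exact gen_mem hd _
  | zero => rw [smul_zero]; exact AddSubgroup.zero_mem _
  | add m m' _ _ ih ih' => rw [smul_add]; exact AddSubgroup.add_mem _ ih ih'
  | neg m _ ih => rw [smul_neg]; exact AddSubgroup.neg_mem _ ih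

theorem mem_conj_iff {D : Subgroup X} {x : X} {m : N} :
    m ∈ commMod N (conjBy D x) ↔ x⁻¹ • m ∈ commMod N D := by
  constructor
  · exact smul_mem_of_mem_conj
  · intro hm
    have h1 : x⁻¹ • m ∈ commMod N (conjBy (conjBy D x) x⁻¹) := by
      rw [conjBy_inv_cancel]; exact hm
    have h2 := smul_mem_of_mem_conj h1
    rwa [inv_inv, smul_inv_smul] at h2

theorem fixed_of_quad {D : Subgroup X}
    (hq : ∀ a ∈ D, ∀ a' ∈ D, ∀ n : N, a' • (a • n - n) = a • n - n) {d : X} (hd : d ∈ D) {m : N}
    (hm : m ∈ commMod N D) : d • m = m := by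
  unfold commMod at hm
  induction hm using AddSubgroup.closure_induction with
  | mem m hm =>
    obtain ⟨d', hd', n, rfl⟩ := hm
    exact hq d' hd' d hd n
  | zero => rw [smul_zero]
  | add m m' _ _ ih ih' => rw [smul_add, ih, ih']
  | neg m _ ih => rw [smul_neg, ih]

/-- half of the symmetric step -/
theorem half {A B : Subgroup X}
    (hA : ∀ a ∈ A, ∀ m ∈ commMod N A, a • m = m) (hB : ∀ b ∈ B, ∀ m ∈ commMod N B, b • m = m)
    {a b : X} (ha : a ∈ A) (hb : b ∈ B)
    (hstar : ∀ m : N, b • m ∈ commMod N A → a • m ∈ commMod N B)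
    {u : N} (hu : u ∈ commMod N A) : a⁻¹ • b • u ∈ commMod N B := by
  obtain ⟨t, ht⟩ : ∃ t, t = b⁻¹ • u := ⟨_, rfl⟩
  have hbt : b • t = u := by rw [ht, smul_inv_smul]
  have hu' : a • t ∈ commMod N B := hstar t (by rw [hbt]; exact hu)
  have hβ : t - u ∈ commMod N B := by rw [ht]; exact gen_mem (B.inv_mem hb) u
  have hα : t - a • t ∈ commMod N A := by
    have := gen_mem (N := N) (A.inv_mem ha) (a • t)
    rwa [inv_smul_smul] at this
  have F1 : a • u = u := hA a ha u hu
  have F2 : a • (t - a • t) = t - a • t := hA a ha _ hα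
  have F3 : b • (t - u) = t - u := hB b hb _ hβ
  have hbu : b • u = u - (t - u) := by
    rw [smul_sub, hbt] at F3
    have e : b • u = u - (u - b • u) := by abel
    rw [e, F3]
  have hkey : a • (a • t - (t - u) - (t - u)) = b • u := by
    rw [smul_sub] at F2
    have hat : a • (a • t) = a • t - (t - a • t) := by
      have e : a • (a • t) = a • t - (a • t - a • (a • t)) := by abel
      rw [e, F2]
    rw [smul_sub, smul_sub, smul_sub, F1, hat, hbu]
    abel
  have hmem : a • t - (t - u) - (t - u) ∈ commMod N B :=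
    AddSubgroup.sub_mem _ (AddSubgroup.sub_mem _ hu' hβ) hβ
  rw [← hkey, inv_smul_smul]
  exact hmem

end

theorem result {X : Type*} [Group X] {A B : Subgroup X} (h : Cfsg.IsRankOneGroup X A B)
    (hab : Cfsg.HasAbelianUnipotents A B) {N : Type*} [AddCommGroup N] [DistribMulAction X N]
    (hq : ∀ a ∈ A, ∀ a' ∈ A, ∀ n : N, a' • (a • n - n) = a • n - n)
    (hX : ∃ x y : X, ∃ n : N, y • (x • n - n) ≠ x • n - n) : Cfsg.IsSpecialRankOnePair A B := by
  obtain ⟨hX', hp⟩ := h
  have hquad : ∀ D ∈ unipotentSubgroups A B, ∀ d ∈ D, ∀ m ∈ commMod N D, d • m = m := by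
    rintro D ⟨x, -, rfl⟩ d hd m hm
    exact fixed_of_quad (quad_conjBy hq x) hd hm
  have hinj : ∀ D ∈ unipotentSubgroups A B, ∀ D' ∈ unipotentSubgroups A B,
      commMod N D = commMod N D' → D = D' := by
    intro D hD D' hD' hUU
    by_contra hne
    have hsup := sup_eq_of_mem_of_mem hp hD hD' hne
    rw [hX'] at hsup
    have hfix : ∀ (x : X), ∀ m ∈ commMod N D, x • m = m := by
      intro x m hm
      let F : Subgroup X :=
        { carrier := {x | x • m = m}
          mul_mem' := by
            intro x x' hx hx'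
            show (x * x') • m = m
            rw [mul_smul, hx', hx]
          one_mem' := one_smul _ _
          inv_mem' := by
            intro x hx
            show x⁻¹ • m = m
            conv_lhs => rw [← hx]
            rw [inv_smul_smul] }
      have hF : F = ⊤ := by
        rw [eq_top_iff, ← hsup]
        apply sup_le
        · intro d hd
          exact hquad D hD d hd m hm
        · intro d hd
          exact hquad D' hD' d hd m (hUU ▸ hm)
      have : x ∈ F := by rw [hF]; trivial
      exact this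
    have hconj : ∀ x : X, commMod N (conjBy D x) = commMod N D := by
      intro x
      ext m
      rw [mem_conj_iff]
      constructor
      · intro hm
        have := hfix x _ hm
        rw [smul_inv_smul] at this
        rw [this]; exact hm
      · intro hm
        rw [hfix x⁻¹ m hm]; exact hm
    have hUA : commMod N A = commMod N D := by
      obtain ⟨x, -, hx⟩ := hD
      have := hconj x⁻¹
      rw [hx, conjBy_inv_cancel] at this
      rw [hx]; exact this
    have hUB : commMod N B = commMod N D := by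
      obtain ⟨x, -, hx⟩ := right_mem_unipotentSubgroups hp
      obtain ⟨x', -, hx'⟩ := hD
      have h1 := hconj (x * x'⁻¹)
      rw [hx', ← conjBy_conjBy, conjBy_inv_cancel] at h1
      rw [hx, h1, hx']
    let K : Subgroup X :=
      { carrier := {x | ∀ n : N, x • n - n ∈ commMod N D}
        mul_mem' := by
          intro x y hx hy n
          show (x * y) • n - n ∈ commMod N D
          rw [d_mul, hfix x _ (hy n)]
          exact AddSubgroup.add_mem _ (hy n) (hx n)
        one_mem' := by
          intro n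
          show (1 : X) • n - n ∈ commMod N D
          rw [one_smul, sub_self]; exact AddSubgroup.zero_mem _
        inv_mem' := by
          intro x hx n
          show x⁻¹ • n - n ∈ commMod N D
          rw [d_inv]
          exact AddSubgroup.neg_mem _ (hx _) }
    have hK : K = ⊤ := by
      rw [eq_top_iff, ← hX']
      apply sup_le
      · intro a ha n
        show a • n - n ∈ commMod N D
        rw [← hUA]; exact gen_mem ha n
      · intro b hb n
        show b • n - n ∈ commMod N D
        rw [← hUB]; exact gen_mem hb n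
    obtain ⟨x, y, n, hxy⟩ := hX
    apply hxy
    have : x ∈ K := by rw [hK]; trivial
    exact hfix y _ (this n)
  refine ⟨hp, ?_⟩
  intro a ha ha1 b hb hb1 hab'
  have hUA := hquad A (left_mem_unipotentSubgroups A B)
  have hUB := hquad B (right_mem_unipotentSubgroups hp)
  have hstar : ∀ m : N, b • m ∈ commMod N A ↔ a • m ∈ commMod N B := by
    intro m
    have h1 : m ∈ commMod N (conjBy A b⁻¹) ↔ b • m ∈ commMod N A := by rw [mem_conj_iff, inv_inv]
    have h2 : m ∈ commMod N (conjBy B a⁻¹) ↔ a • m ∈ commMod N B := by rw [mem_conj_iff, inv_inv]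
    rw [← h1, ← h2, hab']
  have h2 : conjBy A b = conjBy B a := by
    apply hinj _ (conjBy_mem_unipotentSubgroups (left_mem_unipotentSubgroups A B)
      (Subgroup.mem_sup_right hb)) _ (conjBy_mem_unipotentSubgroups
      (right_mem_unipotentSubgroups hp) (Subgroup.mem_sup_left ha))
    ext m
    rw [mem_conj_iff, mem_conj_iff]
    constructor
    · intro hm
      have := half hUA hUB ha hb (fun m => (hstar m).mp) hm
      rwa [smul_inv_smul] at this
    · intro hm
      have := half hUB hUA hb ha (fun m => (hstar m).mpr) hm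
      rwa [smul_inv_smul] at this
  have hD : conjBy A b⁻¹ ∈ unipotentSubgroups A B :=
    conjBy_mem_unipotentSubgroups (left_mem_unipotentSubgroups A B)
      (Subgroup.mem_sup_right (B.inv_mem hb))
  have hDA : conjBy A b⁻¹ ≠ A := by
    intro he
    exact hb1 (inv_eq_one.mp (eq_one_of_mem_of_conjBy_eq' hp (B.inv_mem hb) he))
  have hDB : conjBy A b⁻¹ ≠ B := by
    rw [hab']
    intro he
    exact ha1 (inv_eq_one.mp (eq_one_of_mem_of_conjBy_eq hp (A.inv_mem ha) he))
  have hpD : IsRankOnePair (conjBy A b⁻¹) A :=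
    isRankOnePair_of_mem_of_mem hp hD (left_mem_unipotentSubgroups A B) hDA
  have hU := unipotentSubgroups_eq_of_mem_of_mem hp hD (left_mem_unipotentSubgroups A B) hDA
  have hAU : A ∈ unipotentSubgroups (conjBy A b⁻¹) A := by
    rw [hU]; exact left_mem_unipotentSubgroups A B
  have hBU : B ∈ unipotentSubgroups (conjBy A b⁻¹) A := by
    rw [hU]; exact right_mem_unipotentSubgroups hp
  have huniq := existsUnique_conjBy hpD hAU hBU (Ne.symm hDA) (Ne.symm hDB)
  have hg : (b⁻¹ * a * b)⁻¹ ∈ conjBy A b⁻¹ ∧ conjBy A (b⁻¹ * a * b)⁻¹ = B := by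
    constructor
    · rw [mem_conjBy]
      have e : b⁻¹⁻¹ * (b⁻¹ * a * b)⁻¹ * b⁻¹ = a⁻¹ := by group
      rw [e]; exact A.inv_mem ha
    · have e : (b⁻¹ * a * b)⁻¹ = b⁻¹ * (a⁻¹ * b) := by group
      rw [e, ← conjBy_conjBy, ← conjBy_conjBy, h2, conjBy_inv_cancel,
        conjBy_of_mem (B.inv_mem hb)]
  have hh : (a⁻¹ * b⁻¹ * a)⁻¹ ∈ conjBy A b⁻¹ ∧ conjBy A (a⁻¹ * b⁻¹ * a)⁻¹ = B := by
    constructor
    · rw [hab', mem_conjBy]
      have e : a⁻¹⁻¹ * (a⁻¹ * b⁻¹ * a)⁻¹ * a⁻¹ = b := by group
      rw [e]; exact hb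
    · have e : (a⁻¹ * b⁻¹ * a)⁻¹ = a⁻¹ * (b * a) := by group
      rw [e, ← conjBy_conjBy, ← conjBy_conjBy, conjBy_of_mem ha, h2, conjBy_inv_cancel]
  have := huniq.unique hg hh
  exact inv_injective this

end Cfsg.Agent.S5019
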