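import Cfsg.Statements.S5021
import Cfsg.Agent.Lib.Helper25.Special

set_option autoImplicit false
open Cfsg

namespace Cfsg.Agent.S5021

open Cfsg.Agent.Lib.Helper25.RankOne Cfsg.Agent.Lib.Helper25.Special

theorem result {X : Type*} [Group X] {A B : Subgroup X} (h : Cfsg.IsRankOneGroup X A B)
    (hs : Cfsg.IsSpecialRankOnePair A B) (hab : Cfsg.HasAbelianUnipotents A B) :
    (∃ p : ℕ, p.Prime ∧ Cfsg.IsElementaryAbelian p A) ∨
    ((∀ a ∈ A, a ≠ 1 → ¬ IsOfFinOrder a) ∧ ∀ a ∈ A, ∀ n : ℕ, 0 < n → ∃ c ∈ A, c ^ n = a) := by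
  have hp := hs.1
  by_cases htf : ∀ a ∈ A, a ≠ 1 → ¬ IsOfFinOrder a
  · right
    refine ⟨htf, ?_⟩
    intro a ha n hn
    by_cases ha1 : a = 1
    · exact ⟨1, A.one_mem, by rw [ha1, one_pow]⟩
    · obtain ⟨k, rfl⟩ : ∃ k, n = k + 1 := ⟨n - 1, by omega⟩
      obtain ⟨b, hm⟩ := exists_matched_left hp ha ha1
      have hak : a ^ (k + 1) ≠ 1 := by
        intro h1
        exact htf a ha ha1 (isOfFinOrder_iff_pow_eq_one.mpr ⟨k + 1, hn, h1⟩)
      obtain ⟨e, he⟩ := exists_matched_left hp (A.pow_mem ha (k + 1)) hak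
      have hpow := pow_matched k hs hm he
      have hmem : (a * b⁻¹ * a)⁻¹ * e⁻¹ * (a * b⁻¹ * a) ∈ A := by
        have h1 : (a * b⁻¹ * a)⁻¹ * e⁻¹ * (a * b⁻¹ * a) ∈ conjBy B (a * b⁻¹ * a)⁻¹ := by
          have h2 := conj_mem_conjBy (g := (a * b⁻¹ * a)⁻¹) (B.inv_mem he.2.2.1)
          rwa [inv_inv] at h2
        have h3 : conjBy B (a * b⁻¹ * a)⁻¹ = A := by
          rw [conjBy_eq_iff, inv_inv]
          exact (conjBy_n_left hs hm).symm
        rwa [h3] at h1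
      refine ⟨_, hmem, ?_⟩
      have hconj : ((a * b⁻¹ * a)⁻¹ * e⁻¹ * (a * b⁻¹ * a)) ^ (k + 1) =
          (a * b⁻¹ * a)⁻¹ * (e⁻¹) ^ (k + 1) * (a * b⁻¹ * a) := by
        have h4 := conj_pow (a := (a * b⁻¹ * a)⁻¹) (b := e⁻¹) (i := k + 1)
        rw [inv_inv] at h4
        exact h4
      rw [hconj, inv_pow, hpow]
      have h5 := conj_b hs hm
      have e6 : (a * b⁻¹ * a)⁻¹ * b⁻¹ * (a * b⁻¹ * a) = ((a * b⁻¹ * a)⁻¹ * (b * (a * b⁻¹ * a)))⁻¹ := by
        group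
      rw [e6, h5]; group
  · left
    push Not at htf
    obtain ⟨a₀, ha₀, ha₀1, hfin⟩ := htf
    have hn0 : orderOf a₀ ≠ 0 := (orderOf_pos_iff.mpr hfin).ne'
    have hn1 : orderOf a₀ ≠ 1 := fun h1 => ha₀1 (orderOf_eq_one_iff.mp h1)
    obtain ⟨p, hp', a, ha, hap⟩ : ∃ p, p.Prime ∧ ∃ a ∈ A, orderOf a = p :=
      ⟨(orderOf a₀).minFac, Nat.minFac_prime hn1, a₀ ^ (orderOf a₀ / (orderOf a₀).minFac),
        A.pow_mem ha₀ _, orderOf_pow_orderOf_div hn0 (Nat.minFac_dvd _)⟩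
    refine ⟨p, hp', hab.1, ?_⟩
    have ha1 : a ≠ 1 := by
      rintro rfl
      rw [orderOf_one] at hap
      exact hp'.one_lt.ne hap
    have hapow : a ^ p = 1 := by rw [← hap]; exact pow_orderOf_eq_one a
    obtain ⟨k, rfl⟩ : ∃ k, p = k + 1 := ⟨p - 1, by have := hp'.pos; omega⟩
    intro c hc
    by_contra hcp
    have hc1 : c ≠ 1 := by
      rintro rfl
      exact hcp (one_pow _)
    have hcomm : a * c = c * a := comm_of_isMulCommutative hab.1 ha hc
    have hacp : (a * c) ^ (k + 1) = c ^ (k + 1) := by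
      rw [(show Commute a c from hcomm).mul_pow, hapow, one_mul]
    have hac1 : a * c ≠ 1 := by
      intro h1
      rw [h1, one_pow] at hacp
      exact hcp hacp.symm
    obtain ⟨bc, hbc⟩ := exists_matched_left hp hc hc1
    obtain ⟨bac, hbac⟩ := exists_matched_left hp (A.mul_mem ha hc) hac1
    obtain ⟨e, he⟩ := exists_matched_left hp (A.pow_mem hc (k + 1)) hcp
    have h1 := pow_matched k hs hbc he
    have he' : Matched A B ((a * c) ^ (k + 1)) e := by rw [hacp]; exact he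
    have h2 := pow_matched k hs hbac he'
    rw [h1] at h2
    rw [← h2] at hbac
    have h3 := matched_unique_left hp hbac hbc
    apply ha1
    have h4 : a * c = 1 * c := by rw [one_mul]; exact h3
    exact mul_right_cancel h4

end Cfsg.Agent.S5021
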