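import Cfsg.Statements.S5023
import Cfsg.Agent.Lib.Helper25.Quad

set_option autoImplicit false
open Cfsg

namespace Cfsg.Agent.S5023

open Cfsg.Agent.Lib.Helper25.RankOne Cfsg.Agent.Lib.Helper25.Quad

/-- `p • w` is fixed by `X` whenever `w` is fixed by `A`, if `A` has an element of order `p` -/
theorem nsmul_fixed {X : Type*} [Group X] {A B : Subgroup X} (hX : A ⊔ B = ⊤)
    (hp : IsRankOnePair A B)
    {V : Type*} [AddCommGroup V] [DistribMulAction X V]
    (hq : ∀ a ∈ A, ∀ a' ∈ A, ∀ v : V, a' • (a • v - v) = a • v - v)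
    {p : ℕ} {a : X} (ha : a ∈ A) (ha1 : a ≠ 1) (hapow : a ^ p = 1)
    (w : V) (hw : ∀ a' ∈ A, a' • w = w) : ∀ x : X, x • (p • w) = p • w := by
  obtain ⟨b, hb, hb1, hab⟩ := hp.cond_left a ha ha1
  have hqB : ∀ b ∈ B, ∀ b' ∈ B, ∀ v : V, b' • (b • v - v) = b • v - v := by
    obtain ⟨x, -, hx⟩ := right_mem_unipotentSubgroups hp
    rw [hx]; exact quad_conjBy hq x
  obtain ⟨y, hy⟩ : ∃ y, y = b⁻¹ • w - w := ⟨_, rfl⟩
  have hyB : ∀ b' ∈ B, b' • y = y := fun b' hb' => by
    rw [hy]; exact hqB b⁻¹ (B.inv_mem hb) b' hb' w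
  have h1 : b⁻¹ • w = w + y := by rw [hy]; abel
  have h2 : b • w = w - y := by
    have h := smul_inv_smul b w
    rw [h1, smul_add, hyB b hb] at h
    exact eq_sub_of_add_eq h
  have h3 : ∀ b' ∈ B, b' • (a • (b⁻¹ • w)) = a • (b⁻¹ • w) := by
    intro b' hb'
    have hmem : a⁻¹ * b' * a ∈ conjBy A b⁻¹ := by
      rw [hab, mem_conjBy]
      have e : a⁻¹⁻¹ * (a⁻¹ * b' * a) * a⁻¹ = b' := by group
      rw [e]; exact hb'
    rw [mem_conjBy, inv_inv] at hmem
    have h4 := hw _ hmem
    have h5 : b' • (a • (b⁻¹ • w)) = a • (b⁻¹ • ((b * (a⁻¹ * b' * a) * b⁻¹) • w)) := by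
      simp only [← mul_smul]
      congr 1
      group
    rw [h5, h4]
  have h6 : b • (w + a • y) = w + a • y := by
    have h := h3 b hb
    rw [h1, smul_add, hw a ha] at h
    exact h
  have h7 : b • (a • y) - a • y = y := by
    rw [smul_add, h2] at h6
    have h : b • (a • y) = a • y + y := by
      have h' : w - y + b • (a • y) - (w - y) = w + a • y - (w - y) := by rw [h6]
      have e1 : w - y + b • (a • y) - (w - y) = b • (a • y) := by abel
      have e2 : w + a • y - (w - y) = a • y + y := by abel
      rw [e1, e2] at h'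
      exact h'
    rw [h]; abel
  have h8 : y = b • (a • y - y) - (a • y - y) := by
    rw [smul_sub, hyB b hb]
    conv_lhs => rw [← h7]
    abel
  have h9 : p • y = 0 := by
    have hz : p • (a • y - y) = 0 := by
      rw [← quad_pow hq ha, hapow, one_smul, sub_self]
    rw [h8, ← d_nsmul, hz, smul_zero, sub_zero]
  have h10 : b⁻¹ • (p • w) = p • w := by
    have h := d_nsmul b⁻¹ p w
    rw [← hy, h9] at h
    exact sub_eq_zero.mp h
  have hD : conjBy A b⁻¹ ∈ unipotentSubgroups A B :=
    conjBy_mem_unipotentSubgroups (left_mem_unipotentSubgroups A B)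
      (Subgroup.mem_sup_right (B.inv_mem hb))
  have hne : A ≠ conjBy A b⁻¹ := by
    intro he
    have := eq_one_of_mem_of_conjBy_eq' hp (B.inv_mem hb) he.symm
    exact hb1 (inv_eq_one.mp this)
  have hsup := sup_eq_of_mem_of_mem hp (left_mem_unipotentSubgroups A B) hD hne
  rw [hX] at hsup
  let F : Subgroup X :=
    { carrier := {x | x • (p • w) = p • w}
      mul_mem' := by
        intro x x' hx hx'
        show (x * x') • (p • w) = p • w
        rw [mul_smul, hx', hx]
      one_mem' := one_smul _ _
      inv_mem' := by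
        intro x hx
        show x⁻¹ • (p • w) = p • w
        conv_lhs => rw [← hx]
        rw [inv_smul_smul] }
  have hAF : A ≤ F := by
    intro a' ha'
    show a' • (p • w) = p • w
    rw [smul_comm, hw a' ha']
  have hDF : conjBy A b⁻¹ ≤ F := by
    intro d hd
    rw [mem_conjBy, inv_inv] at hd
    show d • (p • w) = p • w
    have e : d = b⁻¹ * (b * d * b⁻¹) * b := by group
    rw [e, mul_smul, mul_smul]
    have hb' : b • (p • w) = p • w := by
      conv_lhs => rw [← h10]
      rw [smul_inv_smul]
    rw [hb', hAF hd, h10]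
  have hF : F = ⊤ := by
    rw [eq_top_iff, ← hsup]
    exact sup_le hAF hDF
  intro x
  have : x ∈ F := by rw [hF]; trivial
  exact this

theorem result {X : Type*} [Group X] {A B : Subgroup X} (h : Cfsg.IsRankOneGroup X A B)
    {V : Type*} [AddCommGroup V] [DistribMulAction X V] (hf : ∀ x : X, (∀ v : V, x • v = v) → x = 1)
    (hq : ∀ a ∈ A, ∀ a' ∈ A, ∀ v : V, a' • (a • v - v) = a • v - v) :
    (∀ a ∈ A, a ≠ 1 → ¬ IsOfFinOrder a) ∨ ∃ p : ℕ, p.Prime ∧ Cfsg.IsElementaryAbelian p A := by
  obtain ⟨hX, hp⟩ := h
  by_cases htf : ∀ a ∈ A, a ≠ 1 → ¬ IsOfFinOrder a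
  · exact Or.inl htf
  · right
    push Not at htf
    obtain ⟨a₀, ha₀, ha₀1, hfin⟩ := htf
    have hn0 : orderOf a₀ ≠ 0 := (orderOf_pos_iff.mpr hfin).ne'
    have hn1 : orderOf a₀ ≠ 1 := fun h1 => ha₀1 (orderOf_eq_one_iff.mp h1)
    obtain ⟨p, hp', a, ha, hap⟩ : ∃ p, p.Prime ∧ ∃ a ∈ A, orderOf a = p :=
      ⟨(orderOf a₀).minFac, Nat.minFac_prime hn1, a₀ ^ (orderOf a₀ / (orderOf a₀).minFac),
        A.pow_mem ha₀ _, orderOf_pow_orderOf_div hn0 (Nat.minFac_dvd _)⟩
    refine ⟨p, hp', quad_isMulCommutative hq hf, ?_⟩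
    have ha1 : a ≠ 1 := by
      rintro rfl
      rw [orderOf_one] at hap
      exact hp'.one_lt.ne hap
    have hapow : a ^ p = 1 := by rw [← hap]; exact pow_orderOf_eq_one a
    have hpw := nsmul_fixed hX hp hq ha ha1 hapow
    let M : Subgroup X :=
      { carrier := {n | ∀ v : V, ∀ x : X, x • (n • v - v) = n • v - v}
        mul_mem' := by
          intro n m hn hm v x
          show x • ((n * m) • v - v) = (n * m) • v - v
          rw [d_mul, hm v n, smul_add, hm v x, hn v x]
        one_mem' := by
          intro v x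
          show x • ((1 : X) • v - v) = (1 : X) • v - v
          rw [one_smul, sub_self, smul_zero]
        inv_mem' := by
          intro n hn v x
          show x • (n⁻¹ • v - v) = n⁻¹ • v - v
          rw [d_inv, smul_neg, hn (n⁻¹ • v) x] }
    have hMn : M.Normal := by
      constructor
      intro n hn g v x
      show x • ((g * n * g⁻¹) • v - v) = (g * n * g⁻¹) • v - v
      rw [d_conj, hn (g⁻¹ • v) g, hn (g⁻¹ • v) x]
    intro a₁ ha₁
    have hg : a₁ ^ p ∈ M := by
      intro v x
      rw [quad_pow hq ha₁]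
      exact hpw (a₁ • v - v) (fun a' ha' => hq a₁ ha₁ a' ha' v) x
    rcases normal_dichotomy ⟨hX, hp⟩ hMn with h1 | h1
    · exfalso
      let K : Subgroup X :=
        { carrier := {x | ∀ v : V, ∀ a ∈ A, a • (x • v - v) = x • v - v}
          mul_mem' := by
            intro x y hx hy v a ha
            show a • ((x * y) • v - v) = (x * y) • v - v
            have e : (x * y) • v - v = (x • (y • v - v) - (y • v - v)) + (y • v - v) + (x • v - v) := by
              rw [d_mul]; abel
            rw [e, smul_add, smul_add, hx _ a ha, hy _ a ha, hx _ a ha]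
          one_mem' := by
            intro v a ha
            show a • ((1 : X) • v - v) = (1 : X) • v - v
            rw [one_smul, sub_self, smul_zero]
          inv_mem' := by
            intro x hx v a ha
            show a • (x⁻¹ • v - v) = x⁻¹ • v - v
            rw [d_inv, smul_neg, hx (x⁻¹ • v) a ha] }
      have hK : K = ⊤ := by
        rw [eq_top_iff, ← h1]
        apply sup_le
        · intro n hn v a ha
          exact hn v a
        · intro a' ha' v a ha
          exact hq a' ha' a ha v
      have hKall : ∀ (x : X) (v : V), ∀ a ∈ A, a • (x • v - v) = x • v - v := by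
        intro x v a ha
        have : x ∈ K := by rw [hK]; trivial
        exact this v a ha
      let F : Subgroup X :=
        { carrier := {x | ∀ (y : X) (v : V), x • (y • v - v) = y • v - v}
          mul_mem' := by
            intro x x' hx hx' y v
            show (x * x') • (y • v - v) = y • v - v
            rw [mul_smul, hx', hx]
          one_mem' := fun y v => one_smul _ _
          inv_mem' := by
            intro x hx y v
            show x⁻¹ • (y • v - v) = y • v - v
            conv_lhs => rw [← hx y v]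
            rw [inv_smul_smul] }
      have hAF : A ≤ F := fun a ha y v => hKall y v a ha
      have hBF : B ≤ F := by
        obtain ⟨x₀, -, hx₀⟩ := right_mem_unipotentSubgroups hp
        intro b' hb' y v
        rw [hx₀, mem_conjBy] at hb'
        have e : b' = x₀ * (x₀⁻¹ * b' * x₀) * x₀⁻¹ := by group
        rw [e, mul_smul, mul_smul, d_conj', hKall _ _ _ hb', ← d_conj', smul_inv_smul]
      have hF : F = ⊤ := by
        rw [eq_top_iff, ← hX]
        exact sup_le hAF hBF
      have hFall : ∀ (x y : X) (v : V), x • (y • v - v) = y • v - v := by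
        intro x y v
        have : x ∈ F := by rw [hF]; trivial
        exact this y v
      apply center_ne_top ⟨hX, hp⟩
      rw [eq_top_iff]
      intro x _
      rw [Subgroup.mem_center_iff]
      intro g
      apply eq_of_smul_eq hf
      intro v
      have h3 : (g * x) • v - v = (x * g) • v - v := by
        rw [d_mul, d_mul, hFall, hFall, add_comm]
      exact sub_left_injective h3
    · exact eq_one_of_mem_of_conjBy_eq hp (A.pow_mem ha₁ p) (conjBy_central (h1 hg))

end Cfsg.Agent.S5023
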