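import Cfsg.Statements.S5024
import Cfsg.Agent.Lib.Helper25.RootSet

set_option autoImplicit false
open Cfsg

namespace Cfsg.Agent.S5024

open Cfsg.Agent.Lib.Helper25.RankOne Cfsg.Agent.Lib.Helper25.RootSet

theorem result {G : Type*} [Group G] {S : Set (Subgroup G)} (hS : Cfsg.IsRootSubgroupSet S)
    {A B C D : Subgroup G} (hA : A ∈ S) (hC : C ∈ S) (hB : B ∈ Cfsg.rankOnePartners S A) (hD : D ∈ Cfsg.rankOnePartners S C)
    (hle : A ⊔ B ≤ C ⊔ D) : A ⊔ B = C ⊔ D ∧ C ∈ Cfsg.unipotentSubgroups A B ∧ D ∈ Cfsg.unipotentSubgroups A B := by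
  obtain ⟨hBS, hpAB⟩ := hB
  obtain ⟨hDS, hpCD⟩ := hD
  have hAmem : A ∈ unipotentSubgroups C D := by
    rcases mem_unipotent_or_central hS hC hDS hpCD hA (le_sup_left.trans hle) with h | h
    · exact h
    · exfalso
      obtain ⟨a, ha, ha1⟩ := exists_ne_one_left hpAB
      apply ha1
      apply eq_one_of_mem_of_conjBy_eq hpAB ha
      exact conjBy_eq_of_commute (fun b hb => h a ha b (hle (Subgroup.mem_sup_right hb)))
  have hBmem : B ∈ unipotentSubgroups C D := by
    rcases mem_unipotent_or_central hS hC hDS hpCD hBS (le_sup_right.trans hle) with h | h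
    · exact h
    · exfalso
      obtain ⟨b, hb, hb1⟩ := exists_ne_one_right hpAB
      apply hb1
      apply eq_one_of_mem_of_conjBy_eq' hpAB hb
      exact conjBy_eq_of_commute (fun a ha => h b hb a (hle (Subgroup.mem_sup_left ha)))
  have hsup := sup_eq_of_mem_of_mem hpCD hAmem hBmem hpAB.ne
  have huni := unipotentSubgroups_eq_of_mem_of_mem hpCD hAmem hBmem hpAB.ne
  refine ⟨hsup, ?_, ?_⟩
  · rw [huni]; exact left_mem_unipotentSubgroups C D
  · rw [huni]; exact right_mem_unipotentSubgroups hpCD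

end Cfsg.Agent.S5024
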