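import Cfsg.Statements.S5025
import Cfsg.Agent.Lib.Helper25.RootSet

set_option autoImplicit false
open Cfsg

namespace Cfsg.Agent.S5025

open Cfsg.Agent.Lib.Helper25.RankOne Cfsg.Agent.Lib.Helper25.RootSet

theorem result {G : Type*} [Group G] {S : Set (Subgroup G)} (hS : Cfsg.IsRootSubgroupSet S)
    {A B : Subgroup G} (hA : A ∈ S) (hB : B ∈ Cfsg.rankOnePartners S A) {z : G}
    (hz : z ∈ Subgroup.centralizer ((A ⊔ B : Subgroup G) : Set G)) (hz1 : z ≠ 1) :
    ∀ a ∈ A, a ≠ 1 → z * a ∉ Cfsg.rootElements S := by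
  intro a ha ha1
  have hz' : ∀ x ∈ A ⊔ B, z * x = x * z := by
    intro x hx
    rw [Subgroup.mem_centralizer_iff] at hz
    exact (hz x hx).symm
  exact central_mul_not_root hS hA hB.1 hB.2 hz' hz1 ha ha1

end Cfsg.Agent.S5025
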