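import Cfsg.Statements.S5026
import Cfsg.Agent.Lib.Helper25.RootSet

set_option autoImplicit false
open Cfsg

namespace Cfsg.Agent.S5026

open Cfsg.Agent.Lib.Helper25.RankOne Cfsg.Agent.Lib.Helper25.RootSet

theorem le_centralizer_zpowers_iff {G : Type*} [Group G] {E : Subgroup G} {g : G} :
    E ≤ Subgroup.centralizer ((Subgroup.zpowers g : Subgroup G) : Set G) ↔ ∀ e ∈ E, g * e = e * g := by
  constructor
  · intro h e he
    have h1 := h he
    rw [Subgroup.mem_centralizer_iff] at h1
    exact h1 g (Subgroup.mem_zpowers g)
  · intro h e he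
    rw [Subgroup.mem_centralizer_iff]
    rintro _ ⟨n, rfl⟩
    have hc : Commute g e := h e he
    exact (hc.zpow_left n).eq

theorem result {G : Type*} [Group G] {S : Set (Subgroup G)} (hS : Cfsg.IsRootSubgroupSet S) (hdeg : Cfsg.IsDegenerateRootSet S)
    {a b : G} (ha : a ∈ Cfsg.rootElements S) (hb : b ∈ Cfsg.rootElements S) (hab : a * b = b * a) (hab1 : a * b ≠ 1) :
    Cfsg.centralizingMembers S (Subgroup.zpowers (a * b)) =
      Cfsg.centralizingMembers S (Subgroup.zpowers a) ∩ Cfsg.centralizingMembers S (Subgroup.zpowers b) := by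
  ext E
  simp only [centralizingMembers, Set.mem_inter_iff, Set.mem_ofPred_eq, le_centralizer_zpowers_iff]
  constructor
  · rintro ⟨hES, hE⟩
    suffices h : ∀ e ∈ E, a * e = e * a by
      refine ⟨⟨hES, h⟩, hES, ?_⟩
      intro e he
      have h1 := hE e he
      have h2 := h e he
      have h3 : a * (b * e) = a * (e * b) := by
        calc a * (b * e) = a * b * e := (mul_assoc _ _ _).symm
          _ = e * (a * b) := h1
          _ = e * a * b := (mul_assoc _ _ _).symm
          _ = a * e * b := by rw [h2]
          _ = a * (e * b) := mul_assoc _ _ _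
      exact mul_left_cancel h3
    obtain ⟨ha1, A, hAS, haA⟩ := ha
    obtain ⟨hb1, B, hBS, hbB⟩ := hb
    rcases hS.pair E hES A hAS with hc | hr | hcc
    · intro e he; exact (comm_of_commutator_eq_bot hc he haA).symm
    · rcases hS.pair E hES B hBS with hc' | hr' | hcc'
      · intro e he
        have h1 := hE e he
        have h2 : b * e = e * b := (comm_of_commutator_eq_bot hc' he hbB).symm
        have h3 : a * e * b = e * a * b := by
          calc a * e * b = a * (e * b) := mul_assoc _ _ _
            _ = a * (b * e) := by rw [h2]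
            _ = a * b * e := (mul_assoc _ _ _).symm
            _ = e * (a * b) := h1
            _ = e * a * b := (mul_assoc _ _ _).symm
        exact mul_right_cancel h3
      · exfalso
        obtain ⟨e, he, -, hae⟩ := hr.cond_right a haA ha1
        have hbinv1 : b⁻¹ ≠ 1 := by simpa using hb1
        obtain ⟨e'', he'', -, hbe⟩ := hr'.cond_right b⁻¹ (B.inv_mem hbB) hbinv1
        rw [inv_inv] at hbe
        have hEab : conjBy E (a * b) = E := conjBy_eq_of_commute (fun e he => hE e he)
        have h1 : conjBy E a⁻¹ = conjBy E b := by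
          have h0 : conjBy (conjBy E (a * b)) a⁻¹ = conjBy E b := by
            rw [conjBy_conjBy]; simp
          rwa [hEab] at h0
        have h2 : A = conjBy B (e * e''⁻¹) := by
          rw [← conjBy_conjBy, hbe, ← h1, ← hae, conjBy_cancel_inv]
        by_cases ht : e * e''⁻¹ = 1
        · rw [ht, conjBy_one] at h2
          have habA : a * b ∈ A := A.mul_mem haA (by rw [h2]; exact hbB)
          exact hab1 (eq_one_of_mem_of_conjBy_eq' hr habA hEab)
        · have hAmem : A ∈ unipotentSubgroups B E := by
            rw [h2]
            exact conjBy_mem_unipotentSubgroups (left_mem_unipotentSubgroups B E)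
              (Subgroup.mem_sup_right (E.mul_mem he (E.inv_mem he'')))
          have hne : A ≠ B := by
            intro hAB
            apply ht
            apply eq_one_of_mem_of_conjBy_eq' (RankOnePair_symm hr') (E.mul_mem he (E.inv_mem he''))
            rw [← h2, hAB]
          have hpAB := isRankOnePair_of_mem_of_mem (RankOnePair_symm hr') hAmem
            (left_mem_unipotentSubgroups B E) hne
          exact hb1 (not_commute_of_pair hpAB haA ha1 hbB hab)
      · exact absurd hcc' (hdeg E hES B hBS)
    · exact absurd hcc (hdeg E hES A hAS)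
  · rintro ⟨⟨hES, h1⟩, -, h2⟩
    refine ⟨hES, ?_⟩
    intro e he
    calc a * b * e = a * (b * e) := mul_assoc _ _ _
      _ = a * (e * b) := by rw [h2 e he]
      _ = a * e * b := (mul_assoc _ _ _).symm
      _ = e * a * b := by rw [h1 e he]
      _ = e * (a * b) := mul_assoc _ _ _

end Cfsg.Agent.S5026
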