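import Cfsg.Statements.S5027
import Cfsg.Agent.Lib.Helper25.RootSet

set_option autoImplicit false
open Cfsg

namespace Cfsg.Agent.S5027

open Cfsg.Agent.Lib.Helper25.RankOne Cfsg.Agent.Lib.Helper25.RootSet

theorem result {G : Type*} [Group G] {S : Set (Subgroup G)} (hS : Cfsg.IsRootSubgroupSet S)
    (hF : ∀ A ∈ S, ¬ Cfsg.IsIsolatedIn (Cfsg.FAdj S) S A) : Subgroup.upperCentralSeries G 2 = Subgroup.center G := by
  apply le_antisymm
  · intro z hz
    have hzc : ∀ x : G, z * x * z⁻¹ * x⁻¹ ∈ Subgroup.center G := by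
      intro x
      have h1 : z * x * z⁻¹ * x⁻¹ ∈ Subgroup.upperCentralSeries G 1 :=
        (Subgroup.mem_upperCentralSeries_succ_iff).mp hz x
      rwa [Subgroup.upperCentralSeries_one] at h1
    have key : ∀ A ∈ S, ∀ a ∈ A, z * a = a * z := by
      intro A hA a ha
      by_cases ha1 : a = 1
      · rw [ha1]; simp
      obtain ⟨B, hB, hp⟩ := exists_partner hA (hF A hA)
      obtain ⟨c, hc⟩ : ∃ c : G, c = z * a * z⁻¹ * a⁻¹ := ⟨_, rfl⟩
      by_contra hne
      have hc1 : c ≠ 1 := by
        intro h1
        apply hne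
        have h2 : c * a * z = a * z := by rw [h1, one_mul]
        rw [← h2, hc]; group
      have hcc : c ∈ Subgroup.center G := by rw [hc]; exact hzc a
      have hcz : ∀ x ∈ A ⊔ B, c * x = x * c :=
        fun x _ => ((Subgroup.mem_center_iff.mp hcc) x).symm
      have hnr := central_mul_not_root hS hA hB hp hcz hc1 ha ha1
      apply hnr
      have e : c * a = z * a * z⁻¹ := by rw [hc]; group
      refine ⟨?_, conjBy A z, hS.conj_mem A hA z, ?_⟩
      · rw [e]
        intro h1
        apply ha1
        have h3 : a = z⁻¹ * (z * a * z⁻¹) * z := by group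
        rw [h3, h1]; simp
      · rw [e]; exact conj_mem_conjBy ha
    have hle : (⨆ A ∈ S, A) ≤ Subgroup.centralizer ({z} : Set G) := by
      apply iSup₂_le
      intro A hA a ha
      rw [Subgroup.mem_centralizer_iff]
      intro w hw
      rw [Set.mem_singleton_iff.mp hw]
      exact key A hA a ha
    rw [hS.generates] at hle
    rw [Subgroup.mem_center_iff]
    intro g
    have h4 := hle (Subgroup.mem_top g)
    rw [Subgroup.mem_centralizer_iff] at h4
    exact (h4 z rfl).symm
  · rw [← Subgroup.upperCentralSeries_one]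
    exact Subgroup.upperCentralSeries_mono G (by norm_num)

end Cfsg.Agent.S5027
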