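import Cfsg.Statements.S5028
import Cfsg.Agent.Lib.Helper25.RootSet

set_option autoImplicit false
open Cfsg

namespace Cfsg.Agent.S5028

open Cfsg.Agent.Lib.Helper25.RankOne Cfsg.Agent.Lib.Helper25.RootSet

theorem result {G : Type*} [Group G] {S : Set (Subgroup G)} (hS : Cfsg.IsRootSubgroupSet S)
    {A : Subgroup G} (hA : ¬ Cfsg.IsIsolatedIn (Cfsg.FAdj S) S A) (hAS : A ∈ S) : ∀ B ∈ S, A ⊓ B = ⊥ ∨ A = B := by
  obtain ⟨A', hA', hp⟩ := exists_partner hAS hA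
  intro B hB
  exact inf_eq_bot_or_eq hS hAS hA' hp hB

end Cfsg.Agent.S5028
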