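import Cfsg.Statements.S5029
import Cfsg.Agent.Lib.Helper25.Line

set_option autoImplicit false
open Cfsg

namespace Cfsg.Agent.S5029

theorem result {G : Type*} [Group G] {S : Set (Subgroup G)} (hS : Cfsg.IsRootSubgroupSet S)
    {A B : Subgroup G} (hA : ¬ Cfsg.IsIsolatedIn (Cfsg.FAdj S) S A) (hAS : A ∈ S) (hB : B ∈ S) (hC : ⁅A, B⁆ ∈ S) :
    Cfsg.membersIn S (A ⊔ ⁅A, B⁆) = (fun b : G => Cfsg.conjBy A b) '' (B : Set G) ∪ {⁅A, B⁆} ∧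
    Cfsg.IsSubgroupPartition (A ⊔ ⁅A, B⁆) (Cfsg.membersIn S (A ⊔ ⁅A, B⁆)) ∧
    A ∈ Cfsg.linePartners S ⁅A, B⁆ ∧
    ∀ a ∈ A, a ≠ 1 → ∃ φ : ↥B ≃* ↥⁅A, B⁆, ∀ b : ↥B, (φ b : G) = a⁻¹ * (b : G)⁻¹ * a * b := by
  obtain ⟨A', hA', hp⟩ := Cfsg.Agent.Lib.Helper25.RootSet.exists_partner hAS hA
  have h := Cfsg.Agent.Lib.Helper25.CommCase.commCase_of_mem hS hAS hB hC
  exact ⟨Cfsg.Agent.Lib.Helper25.Line.membersIn_eq hS hAS hA' hp h,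
    Cfsg.Agent.Lib.Helper25.Line.isSubgroupPartition_sup hS hAS hA' hp h,
    Cfsg.Agent.Lib.Helper25.Line.left_mem_linePartners hS hAS hA' hp h,
    fun a ha ha1 => Cfsg.Agent.Lib.Helper25.Line.exists_mulEquiv hS hAS hA' hp h ha ha1⟩

end Cfsg.Agent.S5029
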