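import Cfsg.Statements.S5030
import Cfsg.Agent.Lib.Helper25.Chain

set_option autoImplicit false
open Cfsg

namespace Cfsg.Agent.S5030

open Cfsg.Agent.Lib.Helper25.RankOne Cfsg.Agent.Lib.Helper25.RootSet
  Cfsg.Agent.Lib.Helper25.CommCase Cfsg.Agent.Lib.Helper25.ChainBasic
  Cfsg.Agent.Lib.Helper25.Chain

theorem result {G : Type*} [Group G] {S : Set (Subgroup G)} (hS : Cfsg.IsRootSubgroupSet S)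
    {A B C : Subgroup G} (hA : A ∈ S) (hB : B ∈ S) (hC : C ∈ S) (hAB : ⁅A, B⁆ ∈ S) (hBC : ⁅B, C⁆ ∈ S)
    (hAC : C ∈ Cfsg.commutingPartners S A)
    {b : G} (hb : b ∈ B) (hb1 : b ≠ 1) :
    ((IsMulCommutative ↥(A ⊔ Cfsg.conjBy C b⁻¹) ∧ IsMulCommutative ↥(Cfsg.conjBy A b⁻¹ ⊔ C)) ∨
      ((¬ IsMulCommutative ↥(A ⊔ Cfsg.conjBy C b⁻¹) ∧
          ⁅⁅A ⊔ Cfsg.conjBy C b⁻¹, A ⊔ Cfsg.conjBy C b⁻¹⁆, A ⊔ Cfsg.conjBy C b⁻¹⁆ = ⊥) ∧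
        (¬ IsMulCommutative ↥(Cfsg.conjBy A b⁻¹ ⊔ C) ∧
          ⁅⁅Cfsg.conjBy A b⁻¹ ⊔ C, Cfsg.conjBy A b⁻¹ ⊔ C⁆, Cfsg.conjBy A b⁻¹ ⊔ C⁆ = ⊥))) ∧
    ⁅A ⊔ Cfsg.conjBy C b⁻¹, Cfsg.conjBy A b⁻¹ ⊔ C⁆ = ⊥ ∧
    (∀ r ∈ A ⊔ B ⊔ C, Cfsg.conjBy ((A ⊔ Cfsg.conjBy C b⁻¹) ⊔ (Cfsg.conjBy A b⁻¹ ⊔ C)) r =
      (A ⊔ Cfsg.conjBy C b⁻¹) ⊔ (Cfsg.conjBy A b⁻¹ ⊔ C)) ∧
    ((A ⊔ Cfsg.conjBy C b⁻¹) ⊔ (Cfsg.conjBy A b⁻¹ ⊔ C)) ⊔ B = A ⊔ B ⊔ C ∧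
    Group.IsNilpotent ↥(A ⊔ B ⊔ C) := by
  have hAB' := commCase_of_mem hS hA hB hAB
  have hCB' : RootCommutatorCase S C B :=
    commCase_of_mem hS hC hB (by rw [Subgroup.commutator_comm]; exact hBC)
  have hAC' : ∀ a ∈ A, ∀ c ∈ C, a * c = c * a :=
    fun a ha c hc => comm_of_commutator_eq_bot hAC.2.2 ha hc
  have hb' : b⁻¹ ∈ B := B.inv_mem hb
  have hb'1 : b⁻¹ ≠ 1 := fun h => hb1 (inv_eq_one.mp h)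
  refine ⟨claim1 hS hA hC hAB' hCB' hAC' hb' hb'1,
    commutator_eq_bot_of_comm (comm_XY hS hA hC hAB' hCB' hAC' hb'), ?_, sup_B_eq hb',
    nilpotent_R hS hA hB hC hAB' hCB' hAC' hb' hb'1⟩
  intro r hr
  rw [sup_XY_eq hAB' hCB' hb' hb'1]
  exact mem_normalizer_iff_conjBy.mp (le_normalizer_P hAC' hr)

end Cfsg.Agent.S5030
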