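import Cfsg.Statements.S5031
import Cfsg.Agent.Lib.Helper25.Graph

set_option autoImplicit false
open Cfsg

namespace Cfsg.Agent.S5031

open Cfsg.Agent.Lib.Helper25.RankOne Cfsg.Agent.Lib.Helper25.RootSet
  Cfsg.Agent.Lib.Helper25.CommCase Cfsg.Agent.Lib.Helper25.Line Cfsg.Agent.Lib.Helper25.Graph in
theorem result {G : Type*} [Group G] {S : Set (Subgroup G)} (hS : Cfsg.IsRootSubgroupSet S)
    {A B : Subgroup G} (hA : A ∈ S) (hB : B ∈ S)
    (hne : Cfsg.componentOf (Cfsg.FAdj S) S A ≠ Cfsg.componentOf (Cfsg.FAdj S) S B)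
    (hA2 : ∃ A' ∈ Cfsg.componentOf (Cfsg.FAdj S) S A, A' ≠ A) (hB2 : ∃ B' ∈ Cfsg.componentOf (Cfsg.FAdj S) S B, B' ≠ B) :
    B ∉ Cfsg.linePartners S A := by
  intro hBL
  obtain ⟨⟨-, hBA, hcomm⟩, hpart⟩ := hBL
  obtain ⟨A', hAA'⟩ := exists_fadj_of_component hA2
  obtain ⟨B', hBB'⟩ := exists_fadj_of_component hB2
  have hA'S := hAA'.2.1
  have hB'S := hBB'.2.1
  have hpA := hAA'.2.2
  have hpB := hBB'.2.2
  have hnBA' : ¬ IsRankOnePair B A' := by
    intro hr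
    apply hne
    apply componentOf_eq_of_reach
    exact Relation.ReflTransGen.tail (Relation.ReflTransGen.single hAA')
      ⟨hA'S, hB, RankOnePair_symm hr⟩
  have hnAB' : ¬ IsRankOnePair A B' := by
    intro hr
    apply hne
    apply componentOf_eq_of_reach
    exact Relation.ReflTransGen.tail (Relation.ReflTransGen.single ⟨hA, hB'S, hr⟩)
      (fadj_symm hBB')
  obtain ⟨a, ha, ha1⟩ := exists_ne_one_left hpA
  obtain ⟨b, hb, hb1⟩ := exists_ne_one_left hpB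
  have hab : a * b = b * a := comm_of_commutator_eq_bot hcomm ha hb
  have hinf : A ⊓ B = ⊥ := (inf_eq_bot_or_eq hS hA hA'S hpA hB).resolve_right (Ne.symm hBA)
  have hab1 : a * b ≠ 1 := by
    intro h1
    have h2 : a = b⁻¹ := eq_inv_of_mul_eq_one_left h1
    have h3 : a ∈ A ⊓ B := ⟨ha, by rw [h2]; exact B.inv_mem hb⟩
    rw [hinf, Subgroup.mem_bot] at h3
    exact ha1 h3
  obtain ⟨E, ⟨hES, -⟩, habE⟩ := hpart.2.1 (a * b)
    (Subgroup.mul_mem _ (Subgroup.mem_sup_left ha) (Subgroup.mem_sup_right hb)) hab1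
  have hEA' : IsRankOnePair E A' :=
    rankOne_of_mul_mem hS hA hA'S hpA hB hcomm hnBA' hES ha ha1 hb hb1 habE hab1
  have hcomm' : ⁅B, A⁆ = ⊥ := by rw [Subgroup.commutator_comm]; exact hcomm
  have hEB' : IsRankOnePair E B' :=
    rankOne_of_mul_mem hS hB hB'S hpB hA hcomm' hnAB' hES hb hb1 ha ha1 (hab ▸ habE)
      (hab ▸ hab1)
  apply hne
  apply componentOf_eq_of_reach
  exact Relation.ReflTransGen.tail (Relation.ReflTransGen.tail (Relation.ReflTransGen.tail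
    (Relation.ReflTransGen.single hAA') ⟨hA'S, hES, RankOnePair_symm hEA'⟩) ⟨hES, hB'S, hEB'⟩)
    (fadj_symm hBB')

end Cfsg.Agent.S5031
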