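import Cfsg.Statements.S5032
import Cfsg.Agent.Lib.Helper25.Graph
import Cfsg.Agent.S5031

set_option autoImplicit false
open Cfsg

namespace Cfsg.Agent.S5032

open Cfsg.Agent.Lib.Helper25.RankOne Cfsg.Agent.Lib.Helper25.RootSet
  Cfsg.Agent.Lib.Helper25.CommCase Cfsg.Agent.Lib.Helper25.Line Cfsg.Agent.Lib.Helper25.Graph

theorem reach_conjBy_of_mem {G : Type*} [Group G] {S : Set (Subgroup G)}
    (hS : Cfsg.IsRootSubgroupSet S)
    (hpart : ∀ D ∈ S, ∃ D' ∈ S, IsRankOnePair D D')
    {D E : Subgroup G} (hD : D ∈ S) (hE : E ∈ S) {e : G} (he : e ∈ E) :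
    Relation.ReflTransGen (FAdj S) D (conjBy D e) := by
  rcases hS.pair D hD E hE with hc | hr | hcc
  · have h1 : conjBy D e = D :=
      conjBy_eq_of_commute (fun c hc' => (comm_of_commutator_eq_bot hc hc' he).symm)
    rw [h1]
  · by_cases h1 : conjBy D e = D
    · rw [h1]
    · apply Relation.ReflTransGen.single
      refine ⟨hD, hS.conj_mem D hD e, ?_⟩
      exact isRankOnePair_of_mem_of_mem hr (left_mem_unipotentSubgroups D E)
        (conjBy_mem_unipotentSubgroups (left_mem_unipotentSubgroups D E)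
          (Subgroup.mem_sup_right he)) (Ne.symm h1)
  · by_cases he1 : e = 1
    · rw [he1, conjBy_one]
    · obtain ⟨D', hD', hp⟩ := hpart D hD
      have hline : conjBy D e ∈ linePartners S D :=
        conjBy_mem_linePartners hS hD hD' hp hcc he he1
      by_contra hcon
      have hne : componentOf (FAdj S) S D ≠ componentOf (FAdj S) S (conjBy D e) := by
        intro h
        exact hcon (reach_of_componentOf_eq (hS.conj_mem D hD e) h)
      exact Cfsg.Agent.S5031.result hS hD (hS.conj_mem D hD e) hne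
        (component_nontrivial_of_pair hD hD' hp)
        (component_nontrivial_of_pair (hS.conj_mem D hD e) (hS.conj_mem D' hD' e)
          (isRankOnePair_conjBy e hp)) hline

theorem reach_conjBy {G : Type*} [Group G] {S : Set (Subgroup G)}
    (hS : Cfsg.IsRootSubgroupSet S)
    (hpart : ∀ D ∈ S, ∃ D' ∈ S, IsRankOnePair D D') (g : G) :
    ∀ D ∈ S, Relation.ReflTransGen (FAdj S) D (conjBy D g) := by
  let H : Subgroup G :=
    { carrier := {g | ∀ D ∈ S, Relation.ReflTransGen (FAdj S) D (conjBy D g)}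
      mul_mem' := by
        intro x y hx hy D hD
        have h1 := hy D hD
        have h2 := hx (conjBy D y) (hS.conj_mem D hD y)
        rw [conjBy_conjBy] at h2
        exact h1.trans h2
      one_mem' := by
        intro D hD
        rw [conjBy_one]
      inv_mem' := by
        intro x hx D hD
        have h1 := hx (conjBy D x⁻¹) (hS.conj_mem D hD x⁻¹)
        rw [conjBy_cancel_inv] at h1
        exact reach_symm h1 }
  have hle : (⨆ A ∈ S, A) ≤ H := by
    apply iSup₂_le
    intro E hE e he D hD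
    exact reach_conjBy_of_mem hS hpart hD hE he
  rw [hS.generates] at hle
  exact hle (Subgroup.mem_top g)

theorem result {G : Type*} [Group G] {S : Set (Subgroup G)} (hS : Cfsg.IsRootSubgroupSet S) (h2 : ∃ A ∈ S, ∃ B ∈ S, A ≠ B) :
    Cfsg.IsConnectedFamily (Cfsg.FAdj S) S ↔
      (Cfsg.IsConjClassOfSubgroups S ∧ ∃ A ∈ S, ¬ Cfsg.IsIsolatedIn (Cfsg.FAdj S) S A) := by
  constructor
  · intro hconn
    obtain ⟨A₀, hA₀, B₀, hB₀, hne⟩ := h2
    refine ⟨⟨⟨A₀, hA₀⟩, ?_⟩, ?_⟩
    · intro A hA B hB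
      have hr := hconn A hA B hB
      clear hB
      induction hr with
      | refl => exact ⟨1, (conjBy_one A).symm⟩
      | tail _ hbc ih =>
        obtain ⟨g, hg⟩ := ih
        obtain ⟨x, -, hx⟩ := right_mem_unipotentSubgroups hbc.2.2
        refine ⟨x * g, ?_⟩
        rw [hx, hg, conjBy_conjBy]
    · refine ⟨A₀, hA₀, ?_⟩
      have hr := hconn A₀ hA₀ B₀ hB₀
      rcases Relation.ReflTransGen.cases_head hr with h1 | ⟨A₁, h1, -⟩
      · exact absurd h1 hne
      · exact not_isolated_of_partner hA₀ h1.2.1 h1.2.2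
  · rintro ⟨⟨-, hconj⟩, A₀, hA₀, hiso⟩
    obtain ⟨A₀', hA₀', hp₀⟩ := exists_partner hA₀ hiso
    have hpart : ∀ D ∈ S, ∃ D' ∈ S, IsRankOnePair D D' := by
      intro D hD
      obtain ⟨g, rfl⟩ := hconj A₀ hA₀ D hD
      exact ⟨conjBy A₀' g, hS.conj_mem A₀' hA₀' g, isRankOnePair_conjBy g hp₀⟩
    intro A hA B hB
    obtain ⟨g, rfl⟩ := hconj A hA B hB
    exact reach_conjBy hS hpart g A hA

end Cfsg.Agent.S5032
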