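import Cfsg.Statements.S5035
import Mathlib

set_option autoImplicit false
open Cfsg

namespace Cfsg.Agent.S5035

universe uG uH

variable {G : Type uG} {H : Type uH} [Group G] [Group H]

theorem conjBy_map (f : G →* H) (A : Subgroup G) (g : G) :
    (Cfsg.conjBy A g).map f = Cfsg.conjBy (A.map f) (f g) := by
  ext y
  simp only [Cfsg.conjBy, Subgroup.mem_map, MulEquiv.coe_toMonoidHom, MulAut.conj_apply]
  constructor
  · rintro ⟨_, ⟨a, ha, rfl⟩, rfl⟩
    exact ⟨f a, ⟨a, ha, rfl⟩, by simp⟩
  · rintro ⟨_, ⟨a, ha, rfl⟩, rfl⟩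
    exact ⟨g * a * g⁻¹, ⟨a, ha, rfl⟩, by simp⟩

theorem conjBy_bot (g : G) : Cfsg.conjBy (⊥ : Subgroup G) g = ⊥ := by
  simp [Cfsg.conjBy]

theorem conjBy_eq_bot {A : Subgroup G} {g : G} (h : Cfsg.conjBy A g = ⊥) : A = ⊥ := by
  rw [Cfsg.conjBy] at h
  exact (Subgroup.map_eq_bot_iff_of_injective A (MulAut.conj g).injective).mp h

theorem conjBy_self {A : Subgroup G} {g : G} (hg : g ∈ A) : Cfsg.conjBy A g = A := by
  ext y
  simp only [Cfsg.conjBy, Subgroup.mem_map, MulEquiv.coe_toMonoidHom, MulAut.conj_apply]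
  constructor
  · rintro ⟨a, ha, rfl⟩
    exact A.mul_mem (A.mul_mem hg ha) (A.inv_mem hg)
  · intro hy
    exact ⟨g⁻¹ * y * g, A.mul_mem (A.mul_mem (A.inv_mem hg) hy) hg, by group⟩

theorem map_comm (f : G →* H) {A : Subgroup G} (hA : IsMulCommutative A) : IsMulCommutative (A.map f) := by
  rw [isMulCommutative_iff]
  rintro ⟨_, a, ha, rfl⟩ ⟨_, b, hb, rfl⟩
  apply Subtype.ext
  have h := (isMulCommutative_iff.mp hA) ⟨a, ha⟩ ⟨b, hb⟩
  have h' : a * b = b * a := congrArg Subtype.val h
  show f a * f b = f b * f a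
  rw [← map_mul, ← map_mul, h']

theorem map_nilpotent (f : G →* H) {A : Subgroup G} (hA : Group.IsNilpotent A) : Group.IsNilpotent (A.map f) :=
  Group.nilpotent_of_surjective (f.subgroupMap A) (f.subgroupMap_surjective A)

theorem rankOne_map (f : G →* H) {A B : Subgroup G} (h : Cfsg.IsRankOnePair A B) (hne : A.map f ≠ B.map f) :
    Cfsg.IsRankOnePair (A.map f) (B.map f) := by
  have key : ∀ {A B : Subgroup G}, Cfsg.RankOneCondition A B → A.map f ≠ B.map f →
      Cfsg.RankOneCondition (A.map f) (B.map f) := by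
    intro A B hc hne
    rintro _ ⟨a, ha, rfl⟩ ha1
    have ha1' : a ≠ 1 := by
      rintro rfl
      exact ha1 (map_one f)
    obtain ⟨b, hb, hb1, hconj⟩ := hc a ha ha1'
    refine ⟨f b, ⟨b, hb, rfl⟩, ?_, ?_⟩
    · intro hfb
      apply hne
      have h2 := congrArg (Subgroup.map f) hconj
      rw [conjBy_map, conjBy_map, map_inv, map_inv, hfb] at h2
      have h3 : Cfsg.conjBy (A.map f) (1 : H)⁻¹ = A.map f := conjBy_self (by simp)
      rw [h3] at h2
      have h4 : Cfsg.conjBy (A.map f) (f a) = Cfsg.conjBy (Cfsg.conjBy (B.map f) (f a)⁻¹) (f a) := by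
        rw [← h2]
      have h5 : Cfsg.conjBy (A.map f) (f a) = A.map f := conjBy_self ⟨a, ha, rfl⟩
      rw [h5] at h4
      rw [h4]
      ext y
      simp only [Cfsg.conjBy, Subgroup.mem_map, MulEquiv.coe_toMonoidHom, MulAut.conj_apply]
      constructor
      · rintro ⟨_, ⟨_, ⟨b', hb', rfl⟩, rfl⟩, rfl⟩
        exact ⟨b', hb', by group⟩
      · rintro ⟨b', hb', rfl⟩
        exact ⟨(f a)⁻¹ * f b' * (f a)⁻¹⁻¹, ⟨f b', ⟨b', hb', rfl⟩, rfl⟩, by group⟩
    · have h2 := congrArg (Subgroup.map f) hconj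
      rw [conjBy_map, conjBy_map, map_inv, map_inv] at h2
      exact h2
  exact ⟨hne, map_nilpotent f h.nilpotent_left, map_nilpotent f h.nilpotent_right,
    key h.cond_left hne, key h.cond_right (Ne.symm hne)⟩

theorem closure_comm_map (f : G →* H) (a : G) (B : Subgroup G) :
    (Subgroup.closure ((fun b : G => a * b * a⁻¹ * b⁻¹) '' (B : Set G))).map f =
      Subgroup.closure ((fun b : H => f a * b * (f a)⁻¹ * b⁻¹) '' ((B.map f : Subgroup H) : Set H)) := by
  rw [MonoidHom.map_closure, Subgroup.coe_map, Set.image_image, Set.image_image]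
  congr 1
  apply Set.image_congr
  intro b _
  simp

theorem closure_comm_map' (f : G →* H) (b : G) (A : Subgroup G) :
    (Subgroup.closure ((fun a : G => a * b * a⁻¹ * b⁻¹) '' (A : Set G))).map f =
      Subgroup.closure ((fun a : H => a * f b * a⁻¹ * (f b)⁻¹) '' ((A.map f : Subgroup H) : Set H)) := by
  rw [MonoidHom.map_closure, Subgroup.coe_map, Set.image_image, Set.image_image]
  congr 1
  apply Set.image_congr
  intro b _
  simp

theorem result {G H : Type*} [Group G] [Group H] {S : Set (Subgroup G)} (hS : Cfsg.IsRootSubgroupSet S)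
    (hc : Cfsg.IsConnectedFamily (Cfsg.FAdj S) S) (f : G →* H) (hf : Function.Surjective f) :
    (Cfsg.IsRootSubgroupSet ((fun A : Subgroup G => A.map f) '' S) ∧
      Cfsg.IsConnectedFamily (Cfsg.FAdj ((fun A : Subgroup G => A.map f) '' S)) ((fun A : Subgroup G => A.map f) '' S)) ∨
    ∃ A ∈ S, A.map f = ⊤ := by
  by_cases hbot : ∃ A ∈ S, A.map f = ⊥
  · right
    obtain ⟨A, hA, hAbot⟩ := hbot
    have hall : ∀ B ∈ S, B.map f = ⊥ := by
      intro B hB
      have hpath := hc A hA B hB
      induction hpath with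
      | refl => exact hAbot
      | @tail X Y _ hXY ih =>
        obtain ⟨hXS, hYS, hr⟩ := hXY
        have hX := ih hXS
        by_contra hY
        have hYne : Y ≠ ⊥ := hS.ne_bot Y hYS
        obtain ⟨y, hy1⟩ := (Subgroup.ne_bot_iff_exists_ne_one.mp hYne)
        have hy1' : (y : G) ≠ 1 := fun h => hy1 (Subtype.ext h)
        obtain ⟨x, hx, hx1, hconj⟩ := hr.cond_right y y.2 hy1'
        have h2 := congrArg (Subgroup.map f) hconj
        rw [conjBy_map, conjBy_map, hX, conjBy_bot] at h2
        exact hY (conjBy_eq_bot h2)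
    have htop : (⊤ : Subgroup H) = ⊥ := by
      have h1 : ((⨆ A ∈ S, A : Subgroup G)).map f = ⊤ := by
        rw [hS.generates]
        rw [← MonoidHom.range_eq_map]
        exact MonoidHom.range_eq_top.mpr hf
      rw [← h1, Subgroup.map_iSup]
      simp only [Subgroup.map_iSup]
      apply le_antisymm
      · exact iSup₂_le fun B hB => (hall B hB).le
      · exact bot_le
    exact ⟨A, hA, by rw [hAbot, htop]⟩
  · left
    push Not at hbot
    have hpair : ∀ A ∈ S, ∀ B ∈ S, Cfsg.IsRankOnePair A B →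
        A.map f = B.map f ∨ Cfsg.IsRankOnePair (A.map f) (B.map f) := by
      intro A _ B _ h
      by_cases hne : A.map f = B.map f
      · exact Or.inl hne
      · exact Or.inr (rankOne_map f h hne)
    refine ⟨⟨?_, ?_, ?_, ?_, ?_⟩, ?_⟩
    · rintro _ ⟨A, hA, rfl⟩
      exact map_comm f (hS.commutative A hA)
    · rintro _ ⟨A, hA, rfl⟩
      exact hbot A hA
    · rw [iSup_image]
      have h1 : ((⨆ A ∈ S, A : Subgroup G)).map f = ⊤ := by
        rw [hS.generates]
        rw [← MonoidHom.range_eq_map]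
        exact MonoidHom.range_eq_top.mpr hf
      rw [← h1, Subgroup.map_iSup]
      simp only [Subgroup.map_iSup]
    · rintro _ ⟨A, hA, rfl⟩ g'
      obtain ⟨g, rfl⟩ := hf g'
      exact ⟨Cfsg.conjBy A g, hS.conj_mem A hA g, conjBy_map f A g⟩
    · rintro _ ⟨A, hA, rfl⟩ _ ⟨B, hB, rfl⟩
      dsimp only
      rcases hS.pair A hA B hB with h | h | h
      · left
        rw [← Subgroup.map_commutator, h, Subgroup.map_bot]
      · rcases hpair A hA B hB h with h' | h'
        · left
          rw [← h']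
          rw [Subgroup.commutator_eq_bot_iff_le_centralizer]
          intro x hx y hy
          have hcomm := map_comm f (hS.commutative A hA)
          have := (isMulCommutative_iff.mp hcomm) ⟨y, hy⟩ ⟨x, hx⟩
          exact congrArg Subtype.val this
        · right; left
          exact h'
      · right; right
        obtain ⟨h1, h2, h3, h4⟩ := h
        refine ⟨?_, ?_, ?_, ?_⟩
        · exact ⟨⁅A, B⁆, h1, Subgroup.map_commutator A B f⟩
        · intro c hc x hx
          rw [← Subgroup.map_commutator] at hc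
          rw [← Subgroup.map_sup] at hx
          obtain ⟨c₀, hc₀, rfl⟩ := hc
          obtain ⟨x₀, hx₀, rfl⟩ := hx
          rw [← map_mul, ← map_mul, h2 c₀ hc₀ x₀ hx₀]
        · rintro _ ⟨a, ha, rfl⟩ ha1
          have ha1' : a ≠ 1 := by
            rintro rfl
            exact ha1 (map_one f)
          rw [← closure_comm_map, h3 a ha ha1', Subgroup.map_commutator]
        · rintro _ ⟨b, hb, rfl⟩ hb1
          have hb1' : b ≠ 1 := by
            rintro rfl
            exact hb1 (map_one f)
          rw [← closure_comm_map', h4 b hb hb1', Subgroup.map_commutator]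
    · rintro _ ⟨A, hA, rfl⟩ _ ⟨B, hB, rfl⟩
      have hpath := hc A hA B hB
      refine Relation.ReflTransGen.lift' (fun X : Subgroup G => X.map f) ?_ A B hpath
      rintro X Y ⟨hX, hY, hr⟩
      rcases hpair X hX Y hY hr with h' | h'
      · show Relation.ReflTransGen _ (X.map f) (Y.map f)
        rw [h']
      · exact Relation.ReflTransGen.single ⟨⟨X, hX, rfl⟩, ⟨Y, hY, rfl⟩, h'⟩

end Cfsg.Agent.S5035
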