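import Cfsg.Statements.S5036
import Mathlib
import Cfsg.Agent.Lib.Helper8.RootPairA
import Cfsg.Agent.Lib.Helper8.RootPairB
import Cfsg.Agent.Lib.Helper8.RootPairC

set_option autoImplicit false
open Cfsg

namespace Cfsg.Agent.S5036

/-- Let S be a set of abstract root subgroups of G, A, B ∈ S with C = ⁅A, B⁆ ∈ S, and D ∈ S with ⁅D, C⁆ = A. Put X = ⟨B, D⟩ and N = AC. Then B, D form a rank one pair; the conjugates of A under X are the conjugates of C under X, namely the conjugates of A by elements of B together with C, equally the conjugates of C by elements of D together with A, and they partition N; and the centralizer of N in X is central in X. -/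
theorem result {G : Type*} [Group G] {S : Set (Subgroup G)} (hS : Cfsg.IsRootSubgroupSet S)
    {A B D : Subgroup G} (hA : A ∈ S) (hB : B ∈ S) (hC : ⁅A, B⁆ ∈ S) (hD : D ∈ S) (hDC : ⁅D, ⁅A, B⁆⁆ = A) :
    Cfsg.IsRankOnePair B D ∧
    {E | ∃ x ∈ B ⊔ D, E = Cfsg.conjBy A x} = {E | ∃ x ∈ B ⊔ D, E = Cfsg.conjBy ⁅A, B⁆ x} ∧
    {E | ∃ x ∈ B ⊔ D, E = Cfsg.conjBy A x} = (fun b : G => Cfsg.conjBy A b) '' (B : Set G) ∪ {⁅A, B⁆} ∧
    {E | ∃ x ∈ B ⊔ D, E = Cfsg.conjBy A x} = (fun d : G => Cfsg.conjBy ⁅A, B⁆ d) '' (D : Set G) ∪ {A} ∧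
    Cfsg.IsSubgroupPartition (A ⊔ ⁅A, B⁆) {E | ∃ x ∈ B ⊔ D, E = Cfsg.conjBy A x} ∧
    ∀ x ∈ (B ⊔ D) ⊓ Subgroup.centralizer ((A ⊔ ⁅A, B⁆ : Subgroup G) : Set G), ∀ y ∈ B ⊔ D, x * y = y * x := by
  have hcAB := Cfsg.Agent.Lib.Helper8.RootPair.comm_case_of_mem hS hA hB hC
  have hA' : ⁅D, ⁅A, B⁆⁆ ∈ S := by rw [hDC]; exact hA
  have hcDC := Cfsg.Agent.Lib.Helper8.RootPair.comm_case_of_mem hS hD hC hA'
  obtain ⟨-, hcen1, hgB, hgA⟩ := hcAB
  obtain ⟨-, hcen2, hgC, -⟩ := hcDC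
  rw [hDC] at hcen2 hgC
  have cfg : Cfsg.Agent.Lib.Helper8.RootPair.Cfg A B ⁅A, B⁆ D :=
    { Aab := Cfsg.Agent.Lib.Helper8.RootPair.comm_of (hS.commutative A hA)
      AC := fun a ha c hc => (hcen1 c hc a (Subgroup.mem_sup_left ha)).symm
      BC := fun b hb c hc => (hcen1 c hc b (Subgroup.mem_sup_right hb)).symm
      DA := fun d hd a ha => (hcen2 a ha d (Subgroup.mem_sup_left hd)).symm
      comAB := fun a ha b hb => by
        have h1 := Subgroup.commutator_mem_commutator ha hb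
        rw [commutatorElement_def] at h1
        exact h1
      comDC := fun d hd c hc => by
        have h1 := Subgroup.commutator_mem_commutator hd hc
        rw [commutatorElement_def, hDC] at h1
        exact h1
      genB := hgB
      genA := hgA
      genC := hgC
      neA := hS.ne_bot A hA
      neB := hS.ne_bot B hB
      neC := hS.ne_bot _ hC
      neD := hS.ne_bot D hD }
  have hr : Cfsg.IsRankOnePair B D := by
    rcases hS.pair B hB D hD with h | h | h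
    · exact (Cfsg.Agent.Lib.Helper8.RootPair.no_bot_case cfg
        (Cfsg.Agent.Lib.Helper8.RootPair.comm_of_bot h)).elim
    · exact h
    · exfalso
      obtain ⟨-, hcenE, -, -⟩ := h
      apply Cfsg.Agent.Lib.Helper8.RootPair.no_comm_case cfg
      intro b hb d hd x hx
      have h1 := Subgroup.commutator_mem_commutator hb hd
      rw [commutatorElement_def] at h1
      exact hcenE _ h1 x hx
  refine ⟨hr, ?_, ?_, ?_, Cfsg.Agent.Lib.Helper8.RootPair.partition cfg hr,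
    Cfsg.Agent.Lib.Helper8.RootPair.cent_central cfg hr⟩
  · ext E
    show (∃ x ∈ B ⊔ D, E = Cfsg.conjBy A x) ↔ (∃ x ∈ B ⊔ D, E = Cfsg.conjBy ⁅A, B⁆ x)
    rw [Cfsg.Agent.Lib.Helper8.RootPair.orbit_iff cfg hr,
      Cfsg.Agent.Lib.Helper8.RootPair.orbit_iff' cfg hr,
      Cfsg.Agent.Lib.Helper8.RootPair.pm_iff cfg hr]
  · ext E
    constructor
    · intro hE
      rcases (Cfsg.Agent.Lib.Helper8.RootPair.orbit_iff cfg hr E).1 hE with ⟨b, hb, rfl⟩ | rfl
      · exact Or.inl ⟨b, hb, rfl⟩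
      · exact Or.inr rfl
    · rintro (⟨b, hb, rfl⟩ | hE)
      · exact (Cfsg.Agent.Lib.Helper8.RootPair.orbit_iff cfg hr _).2 (Or.inl ⟨b, hb, rfl⟩)
      · exact (Cfsg.Agent.Lib.Helper8.RootPair.orbit_iff cfg hr _).2 (Or.inr hE)
  · ext E
    constructor
    · intro hE
      rcases (Cfsg.Agent.Lib.Helper8.RootPair.pm_iff cfg hr E).1
        ((Cfsg.Agent.Lib.Helper8.RootPair.orbit_iff cfg hr E).1 hE) with ⟨d, hd, rfl⟩ | rfl
      · exact Or.inl ⟨d, hd, rfl⟩
      · exact Or.inr rfl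
    · rintro (⟨d, hd, rfl⟩ | hE)
      · exact (Cfsg.Agent.Lib.Helper8.RootPair.orbit_iff cfg hr _).2
          ((Cfsg.Agent.Lib.Helper8.RootPair.pm_iff cfg hr _).2 (Or.inl ⟨d, hd, rfl⟩))
      · exact (Cfsg.Agent.Lib.Helper8.RootPair.orbit_iff cfg hr _).2
          ((Cfsg.Agent.Lib.Helper8.RootPair.pm_iff cfg hr _).2 (Or.inr hE))


end Cfsg.Agent.S5036
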