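import Cfsg.Statements.S5058
import Cfsg.Agent.S2579
import Cfsg.Agent.Lib.Helper2.SLGen

set_option autoImplicit false
open Matrix
open Cfsg

namespace Cfsg.Agent.S5058

open Matrix

/-- Transvection data: `t = 1 + u φᵀ` with `φ u = 0`. -/
def TV {N : ℕ} {F : Type*} [Field F] (t : Matrix.SpecialLinearGroup (Fin N) F) : Prop :=
  ∃ u φ : Fin N → F, u ≠ 0 ∧ φ ≠ 0 ∧ φ ⬝ᵥ u = 0 ∧
    (t : Matrix (Fin N) (Fin N) F) = 1 + vecMulVec u φ

theorem vmv {N : ℕ} {F : Type*} [Field F] (u φ z : Fin N → F) :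
    vecMulVec u φ *ᵥ z = (φ ⬝ᵥ z) • u := by
  rw [vecMulVec_mulVec, op_smul_eq_smul]

theorem conj_of_data {N : ℕ} {F : Type*} [Field F] (hn : 3 ≤ N)
    (s t : Matrix.SpecialLinearGroup (Fin N) F) (hs : TV s) (ht : TV t) :
    ∃ g : Matrix.SpecialLinearGroup (Fin N) F, g * s * g⁻¹ = t := by
  obtain ⟨u, φ, hu, hφ, hφu, hSeq⟩ := hs
  obtain ⟨u', φ', hu', hφ', hφu', hTeq⟩ := ht
  obtain ⟨G, hdG, hG⟩ := Cfsg.Agent.S2579.exists_conj u φ u' φ' hu hφ hu' hφ' hφu hφu'
  obtain ⟨a, γ, ha1, ha2, ha3⟩ := Cfsg.Agent.S2579.exists_comm hn u φ hu hφ hφu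
  have hdC : (1 + vecMulVec ((G.det⁻¹ - 1) • a) γ).det = G.det⁻¹ := by
    rw [Cfsg.Agent.S2579.det_tv, dotProduct_smul, ha3]
    simp
  have hcomm : (1 + vecMulVec ((G.det⁻¹ - 1) • a) γ) * (1 + vecMulVec u φ)
      = (1 + vecMulVec u φ) * (1 + vecMulVec ((G.det⁻¹ - 1) • a) γ) := by
    simp only [mul_add, add_mul, mul_one, one_mul]
    rw [vecMulVec_mul_vecMulVec, vecMulVec_mul_vecMulVec, ha2, dotProduct_smul, ha1]
    simp
    abel
  have hdet : (G * (1 + vecMulVec ((G.det⁻¹ - 1) • a) γ)).det = 1 := by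
    rw [det_mul, hdC, mul_inv_cancel₀ hdG]
  have hconj : (G * (1 + vecMulVec ((G.det⁻¹ - 1) • a) γ)) * (s : Matrix (Fin N) (Fin N) F)
      = (t : Matrix (Fin N) (Fin N) F) * (G * (1 + vecMulVec ((G.det⁻¹ - 1) • a) γ)) := by
    rw [hSeq, hTeq, mul_assoc, hcomm, ← mul_assoc, hG, mul_assoc]
  obtain ⟨g, hg⟩ : ∃ g : Matrix.SpecialLinearGroup (Fin N) F,
      (g : Matrix (Fin N) (Fin N) F) = G * (1 + vecMulVec ((G.det⁻¹ - 1) • a) γ) :=
    ⟨⟨_, hdet⟩, rfl⟩
  rw [← hg] at hconj
  refine ⟨g, ?_⟩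
  rw [mul_inv_eq_iff_eq_mul]
  apply Subtype.ext
  exact hconj

theorem tv_std {N : ℕ} {F : Type*} [Field F] {i j : Fin N} (hij : i ≠ j) (c : F) (hc : c ≠ 0) :
    TV (Matrix.SpecialLinearGroup.transvection hij c) := by
  refine ⟨Pi.single i c, Pi.single j 1, ?_, ?_, ?_, ?_⟩
  · intro h
    have h1 := congrFun h i
    rw [Pi.single_eq_same] at h1
    exact hc h1
  · intro h
    have h1 := congrFun h j
    rw [Pi.single_eq_same] at h1
    exact one_ne_zero h1
  · rw [single_dotProduct, one_mul, Pi.single_apply, if_neg hij.symm]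
  · rw [Matrix.SpecialLinearGroup.transvection_coe]
    congr 1
    ext a b
    rw [vecMulVec_apply, Matrix.single_apply, Pi.single_apply, Pi.single_apply]
    by_cases h1 : i = a
    · by_cases h2 : j = b
      · simp [h1, h2]
      · simp [h1, h2, Ne.symm h2]
    · simp [h1, Ne.symm h1]

theorem tv_conj {N : ℕ} {F : Type*} [Field F] (d : Matrix.SpecialLinearGroup (Fin N) F)
    (hd : TV d) (g : Matrix.SpecialLinearGroup (Fin N) F) : TV (g * d * g⁻¹) := by
  obtain ⟨u, φ, hu, hφ, hφu, hd⟩ := hd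
  have hgi : (g : Matrix (Fin N) (Fin N) F) * ((g⁻¹ : Matrix.SpecialLinearGroup (Fin N) F) :
      Matrix (Fin N) (Fin N) F) = 1 := by
    rw [← Matrix.SpecialLinearGroup.coe_mul, mul_inv_cancel, Matrix.SpecialLinearGroup.coe_one]
  have hig : ((g⁻¹ : Matrix.SpecialLinearGroup (Fin N) F) : Matrix (Fin N) (Fin N) F) *
      (g : Matrix (Fin N) (Fin N) F) = 1 := by
    rw [← Matrix.SpecialLinearGroup.coe_mul, inv_mul_cancel, Matrix.SpecialLinearGroup.coe_one]
  refine ⟨(g : Matrix (Fin N) (Fin N) F) *ᵥ u,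
    φ ᵥ* ((g⁻¹ : Matrix.SpecialLinearGroup (Fin N) F) : Matrix (Fin N) (Fin N) F), ?_, ?_, ?_, ?_⟩
  · intro h
    apply hu
    have h1 := congrArg (fun x => ((g⁻¹ : Matrix.SpecialLinearGroup (Fin N) F) :
      Matrix (Fin N) (Fin N) F) *ᵥ x) h
    simp only [mulVec_mulVec, hig, one_mulVec, mulVec_zero] at h1
    exact h1
  · intro h
    apply hφ
    have h1 := congrArg (fun x => x ᵥ* (g : Matrix (Fin N) (Fin N) F)) h
    simp only [vecMul_vecMul, hig, vecMul_one, zero_vecMul] at h1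
    exact h1
  · rw [← dotProduct_mulVec, mulVec_mulVec, hig, one_mulVec, hφu]
  · rw [Matrix.SpecialLinearGroup.coe_mul, Matrix.SpecialLinearGroup.coe_mul, hd, mul_add,
      add_mul, mul_one, hgi, mul_vecMulVec, vecMulVec_mul]

theorem add_self' {N : ℕ} {F : Type*} [Field F] [CharP F 2] (M : Matrix (Fin N) (Fin N) F) :
    M + M = 0 := by
  ext i j
  exact CharTwo.add_self_eq_zero _

theorem sq_one_add {N : ℕ} {F : Type*} [Field F] [CharP F 2] (X : Matrix (Fin N) (Fin N) F) :
    (1 + X) * (1 + X) = 1 + X * X := by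
  have h : (1 + X) * (1 + X) = 1 + (X + X) + X * X := by
    simp only [add_mul, mul_add, one_mul, mul_one]
    abel
  rw [h, add_self', add_zero]

theorem tv_sq {N : ℕ} {F : Type*} [Field F] [CharP F 2]
    (d : Matrix.SpecialLinearGroup (Fin N) F) (hd : TV d) : d * d = 1 := by
  obtain ⟨u, φ, hu, hφ, hφu, hd⟩ := hd
  apply Subtype.ext
  rw [Matrix.SpecialLinearGroup.coe_mul, hd, Matrix.SpecialLinearGroup.coe_one, sq_one_add,
    vecMulVec_mul_vecMulVec, hφu, zero_smul, vecMulVec_zero, add_zero]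

theorem tv_ne_one {N : ℕ} {F : Type*} [Field F]
    (d : Matrix.SpecialLinearGroup (Fin N) F) (hd : TV d) : d ≠ 1 := by
  obtain ⟨u, φ, hu, hφ, hφu, hd⟩ := hd
  intro h
  rw [h, Matrix.SpecialLinearGroup.coe_one] at hd
  have h0 : vecMulVec u φ = 0 := by
    have h1 : (1 : Matrix (Fin N) (Fin N) F) + vecMulVec u φ = 1 + 0 := by rw [← hd, add_zero]
    exact add_left_cancel h1
  rcases vecMulVec_eq_zero.1 h0 with h1 | h1
  · exact hu h1
  · exact hφ h1

theorem caseL {R : Type*} [Ring R] (h2 : ∀ x : R, x + x = 0) (A B : R) (hAA : A * A = 0)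
    (hBB : B * B = 0) (hAB : A * B = 0) :
    ((1 + A) * (1 + B)) * ((1 + A) * (1 + B)) = 1 + B * A := by
  have h1 : (1 + A) * (1 + B) = 1 + (A + B) := by
    simp only [add_mul, mul_add, one_mul, mul_one, hAB]
    abel
  have h3 : (1 + (A + B)) * (1 + (A + B)) = 1 + ((A + B) + (A + B)) + (A + B) * (A + B) := by
    simp only [add_mul, mul_add, one_mul, mul_one]
    abel
  rw [h1, h3, h2, add_zero]
  simp only [add_mul, mul_add, hAA, hBB, hAB]
  abel

theorem caseR {R : Type*} [Ring R] (h2 : ∀ x : R, x + x = 0) (A B : R) (hAA : A * A = 0)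
    (hBB : B * B = 0) (hBA : B * A = 0) :
    ((1 + A) * (1 + B)) * ((1 + A) * (1 + B)) = 1 + A * B := by
  have h1 : (1 + A) * (1 + B) = 1 + (A + B + A * B) := by
    simp only [add_mul, mul_add, one_mul, mul_one]
    abel
  have h3 : ∀ X : R, (1 + X) * (1 + X) = 1 + (X + X) + X * X := by
    intro X
    simp only [add_mul, mul_add, one_mul, mul_one]
    abel
  have f1 : A * (A * B) = 0 := by rw [← mul_assoc, hAA, zero_mul]
  have f2 : B * (A * B) = 0 := by rw [← mul_assoc, hBA, zero_mul]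
  rw [h1, h3, h2, add_zero]
  simp only [add_mul, mul_add, mul_assoc, hAA, hBB, hBA, f1, f2, mul_zero]
  abel

theorem core {N : ℕ} {F : Type*} [Field F] [CharP F 2] (u v φ ψ : Fin N → F) (α β : F)
    (hα : α ≠ 0) (hβ : β ≠ 0) (hφu : φ ⬝ᵥ u = 0) (hψv : ψ ⬝ᵥ v = 0) (hφv : φ ⬝ᵥ v = α)
    (hψu : ψ ⬝ᵥ u = β) (M : Matrix (Fin N) (Fin N) F)
    (hM : M = vecMulVec u φ + vecMulVec v ψ + vecMulVec u φ * vecMulVec v ψ) :
    (∀ k : ℕ, (1 + M) ^ (2 * k) = 1 → (1 + M) ^ k = 1) ∧ (α * β = 1 → (1 + M) ^ 3 = 1) := by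
  have hMz : ∀ z : Fin N → F, M *ᵥ z = (φ ⬝ᵥ z + α * (ψ ⬝ᵥ z)) • u + (ψ ⬝ᵥ z) • v := by
    intro z
    rw [hM, add_mulVec, add_mulVec, ← mulVec_mulVec, vmv, vmv, mulVec_smul, vmv, hφv]
    module
  have hMu : M *ᵥ u = (α * β) • u + β • v := by
    rw [hMz, hφu, hψu]
    module
  have hMv : M *ᵥ v = α • u := by
    rw [hMz, hφv, hψv]
    module
  have hM3 : M * M * M = (α * β) • (M * M) + (α * β) • M := by
    rw [Matrix.ext_iff_mulVec]
    intro z
    rw [← mulVec_mulVec, ← mulVec_mulVec, add_mulVec, smul_mulVec, smul_mulVec, ← mulVec_mulVec]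
    simp only [hMz z, mulVec_add, mulVec_smul, hMu, hMv]
    module
  have hpow : ∀ k : ℕ, ∃ x y : F, (1 + M) ^ k = 1 + x • M + y • (M * M) := by
    intro k
    induction k with
    | zero => exact ⟨0, 0, by simp⟩
    | succ k ih =>
      obtain ⟨x, y, h⟩ := ih
      refine ⟨1 + x + y * (α * β), x + y + y * (α * β), ?_⟩
      rw [pow_succ, h]
      simp only [add_mul, mul_add, one_mul, mul_one, smul_mul_assoc]
      rw [hM3]
      module
  refine ⟨fun k hk => ?_, fun hτ => ?_⟩
  · obtain ⟨x, y, h⟩ := hpow k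
    have hsq : (1 + M) ^ k * (1 + M) ^ k = 1 := by
      rw [← pow_add, ← two_mul]
      exact hk
    obtain ⟨C, hC⟩ : ∃ C : Matrix (Fin N) (Fin N) F, C = x • M + y • (M * M) := ⟨_, rfl⟩
    have h' : (1 + M) ^ k = 1 + C := by rw [h, hC, add_assoc]
    rw [h', sq_one_add] at hsq
    have hCC : C * C = 0 := by
      have h1 : 1 + C * C = 1 + 0 := by rw [hsq, add_zero]
      exact add_left_cancel h1
    have hCu : C *ᵥ u = (α * β * (x + y * (α * β)) + y * (α * β)) • u
        + (β * (x + y * (α * β))) • v := by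
      rw [hC, add_mulVec, smul_mulVec, smul_mulVec, ← mulVec_mulVec, hMu, mulVec_add,
        mulVec_smul, mulVec_smul, hMu, hMv]
      module
    have hCv : C *ᵥ v = (α * (x + y * (α * β))) • u + (y * (α * β)) • v := by
      rw [hC, add_mulVec, smul_mulVec, smul_mulVec, ← mulVec_mulVec, hMv, mulVec_smul, hMu]
      module
    have h0 : (C * C) *ᵥ u = 0 := by rw [hCC, zero_mulVec]
    rw [← mulVec_mulVec, hCu, mulVec_add, mulVec_smul, mulVec_smul, hCu, hCv] at h0
    have e1 := congrArg (fun w => φ ⬝ᵥ w) h0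
    have e2 := congrArg (fun w => ψ ⬝ᵥ w) h0
    simp only [dotProduct_add, dotProduct_smul, hφu, hφv, hψu, hψv, dotProduct_zero,
      smul_eq_mul, mul_zero, zero_add, add_zero] at e1 e2
    have h2 : y * (α * β) + y * (α * β) = 0 := CharTwo.add_self_eq_zero _
    have hτ : α * β ≠ 0 := mul_ne_zero hα hβ
    have hR2 : α * β * (α * β) * ((x + y * (α * β)) * (x + y * (α * β))) = 0 := by
      linear_combination e1 - (α * β * (x + y * (α * β))) * h2
    have hR : x + y * (α * β) = 0 := by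
      rcases mul_eq_zero.1 hR2 with h5 | h5
      · exact absurd h5 (mul_ne_zero hτ hτ)
      · exact mul_self_eq_zero.1 h5
    have hy : y = 0 := by
      have e3 : y * y * (α * β * (α * β) * β) = 0 := by
        rw [hR] at e2
        linear_combination e2
      rcases mul_eq_zero.1 e3 with h5 | h5
      · exact mul_self_eq_zero.1 h5
      · exact absurd h5 (mul_ne_zero (mul_ne_zero hτ hτ) hβ)
    have hx : x = 0 := by
      rw [hy, zero_mul, add_zero] at hR
      exact hR
    rw [h, hx, hy, zero_smul, zero_smul, add_zero, add_zero]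
  · have h3 : (1 + M) ^ 3 = (1 + M) * (1 + M) * (1 + M) := by rw [pow_succ, pow_two]
    rw [h3, sq_one_add]
    simp only [add_mul, mul_add, one_mul, mul_one]
    rw [hM3, hτ, one_smul, one_smul]
    have h4 : 1 + M * M + (M + (M * M + M)) = 1 + ((M + M) + (M * M + M * M)) := by abel
    rw [h4, add_self', add_self', add_zero, add_zero]

theorem order_four {N : ℕ} {F : Type*} [Field F] [CharP F 2]
    (x : Matrix.SpecialLinearGroup (Fin N) F) (hT : TV (x * x)) : orderOf x = 4 := by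
  have hp2 : Fact (Nat.Prime 2) := ⟨Nat.prime_two⟩
  have h4 : orderOf x = 2 ^ (1 + 1) := by
    apply orderOf_eq_prime_pow
    · rw [pow_one, pow_two]
      exact tv_ne_one _ hT
    · have h1 := tv_sq _ hT
      have h2 : x ^ 2 ^ (1 + 1) = x * x * (x * x) := by
        have h3 : (2 : ℕ) ^ (1 + 1) = 2 + 2 := by norm_num
        rw [h3, pow_add, pow_two]
      rw [h2]
      exact h1
  rw [h4]
  norm_num

theorem pair_cases {N : ℕ} {F : Type*} [Field F] [CharP F 2]
    (a b : Matrix.SpecialLinearGroup (Fin N) F) (ha : TV a) (hb : TV b) :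
    a * b = b * a ∨ TV ((a * b) * (a * b)) ∨
      ((∀ k : ℕ, (a * b) ^ (2 * k) = 1 → (a * b) ^ k = 1) ∧
        ((∀ x : F, x ≠ 0 → x = 1) → (a * b) ^ 3 = 1)) := by
  obtain ⟨u, φ, hu, hφ, hφu, hA⟩ := ha
  obtain ⟨v, ψ, hv, hψ, hψv, hB⟩ := hb
  have hAA : vecMulVec u φ * vecMulVec u φ = 0 := by
    rw [vecMulVec_mul_vecMulVec, hφu, zero_smul, vecMulVec_zero]
  have hBB : vecMulVec v ψ * vecMulVec v ψ = 0 := by
    rw [vecMulVec_mul_vecMulVec, hψv, zero_smul, vecMulVec_zero]
  by_cases hα : φ ⬝ᵥ v = 0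
  · have hAB : vecMulVec u φ * vecMulVec v ψ = 0 := by
      rw [vecMulVec_mul_vecMulVec, hα, zero_smul, vecMulVec_zero]
    by_cases hβ : ψ ⬝ᵥ u = 0
    · left
      have hBA : vecMulVec v ψ * vecMulVec u φ = 0 := by
        rw [vecMulVec_mul_vecMulVec, hβ, zero_smul, vecMulVec_zero]
      apply Subtype.ext
      rw [Matrix.SpecialLinearGroup.coe_mul, Matrix.SpecialLinearGroup.coe_mul, hA, hB]
      simp only [add_mul, mul_add, one_mul, mul_one, hAB, hBA]
      abel
    · right
      left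
      refine ⟨v, (ψ ⬝ᵥ u) • φ, hv, smul_ne_zero hβ hφ, ?_, ?_⟩
      · rw [smul_dotProduct, hα, smul_zero]
      · rw [Matrix.SpecialLinearGroup.coe_mul, Matrix.SpecialLinearGroup.coe_mul, hA, hB,
          caseL add_self' _ _ hAA hBB hAB, vecMulVec_mul_vecMulVec]
  · by_cases hβ : ψ ⬝ᵥ u = 0
    · right
      left
      have hBA : vecMulVec v ψ * vecMulVec u φ = 0 := by
        rw [vecMulVec_mul_vecMulVec, hβ, zero_smul, vecMulVec_zero]
      refine ⟨u, (φ ⬝ᵥ v) • ψ, hu, smul_ne_zero hα hψ, ?_, ?_⟩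
      · rw [smul_dotProduct, hβ, smul_zero]
      · rw [Matrix.SpecialLinearGroup.coe_mul, Matrix.SpecialLinearGroup.coe_mul, hA, hB,
          caseR add_self' _ _ hAA hBB hBA, vecMulVec_mul_vecMulVec]
    · right
      right
      have hc := core u v φ ψ (φ ⬝ᵥ v) (ψ ⬝ᵥ u) hα hβ hφu hψv rfl rfl
        (vecMulVec u φ + vecMulVec v ψ + vecMulVec u φ * vecMulVec v ψ) rfl
      have hab : ((a * b : Matrix.SpecialLinearGroup (Fin N) F) : Matrix (Fin N) (Fin N) F)
          = 1 + (vecMulVec u φ + vecMulVec v ψ + vecMulVec u φ * vecMulVec v ψ) := by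
        rw [Matrix.SpecialLinearGroup.coe_mul, hA, hB]
        simp only [add_mul, mul_add, one_mul, mul_one]
        abel
      refine ⟨fun k hk => ?_, fun h1 => ?_⟩
      · apply Subtype.ext
        rw [Matrix.SpecialLinearGroup.coe_pow, hab, Matrix.SpecialLinearGroup.coe_one]
        apply hc.1 k
        rw [← hab, ← Matrix.SpecialLinearGroup.coe_pow, hk, Matrix.SpecialLinearGroup.coe_one]
      · apply Subtype.ext
        rw [Matrix.SpecialLinearGroup.coe_pow, hab, Matrix.SpecialLinearGroup.coe_one]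
        apply hc.2
        rw [h1 _ hα, h1 _ hβ, one_mul]

theorem mem_iff {F : Type*} [Field F] (n : ℕ) (t : Matrix.SpecialLinearGroup (Fin (n + 3)) F) :
    (∃ c : F, c ≠ 0 ∧ ∃ g : Matrix.SpecialLinearGroup (Fin (n + 3)) F,
      ((g⁻¹ * t * g : Matrix.SpecialLinearGroup (Fin (n + 3)) F) :
          Matrix (Fin (n + 3)) (Fin (n + 3)) F) = Matrix.transvection 0 1 c) ↔ TV t := by
  have h01 : (0 : Fin (n + 3)) ≠ 1 := Fin.zero_ne_one
  constructor
  · rintro ⟨c, hc, g, hg⟩
    have h1 : g⁻¹ * t * g = Matrix.SpecialLinearGroup.transvection h01 c := Subtype.ext hg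
    have h2 : t = g * Matrix.SpecialLinearGroup.transvection h01 c * g⁻¹ := by
      rw [← h1]
      group
    rw [h2]
    exact tv_conj _ (tv_std h01 c hc) g
  · intro ht
    obtain ⟨g, hg⟩ := conj_of_data (by omega) t (Matrix.SpecialLinearGroup.transvection h01 1) ht
      (tv_std h01 1 one_ne_zero)
    refine ⟨1, one_ne_zero, g⁻¹, ?_⟩
    rw [inv_inv, hg]
    rfl

/-- Let F be a finite field of characteristic 2 and n a natural number. Then the transvections of SL_{n+3}(F) (so in every dimension at least 3) (the conjugates of the elementary matrices 1 + c E₁₂, c ≠ 0) form a class of root involutions of SL_{n+3}(F); when F has two elements they form a class of {3,4}⁺-transpositions (every product of odd order has order 1 or 3). -/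
theorem result (F : Type*) [Field F] [Fintype F] [CharP F 2] (n : ℕ) :
    Cfsg.IsRootInvolutionClass {t : Matrix.SpecialLinearGroup (Fin (n + 3)) F | ∃ c : F, c ≠ 0 ∧
        ∃ g : Matrix.SpecialLinearGroup (Fin (n + 3)) F, ((g⁻¹ * t * g : Matrix.SpecialLinearGroup (Fin (n + 3)) F) :
          Matrix (Fin (n + 3)) (Fin (n + 3)) F) = Matrix.transvection 0 1 c} ∧
    (Fintype.card F = 2 → Cfsg.IsThreeFourPlusTranspositionSet {t : Matrix.SpecialLinearGroup (Fin (n + 3)) F | ∃ c : F, c ≠ 0 ∧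
        ∃ g : Matrix.SpecialLinearGroup (Fin (n + 3)) F, ((g⁻¹ * t * g : Matrix.SpecialLinearGroup (Fin (n + 3)) F) :
          Matrix (Fin (n + 3)) (Fin (n + 3)) F) = Matrix.transvection 0 1 c}) := by

  have h01 : (0 : Fin (n + 3)) ≠ 1 := Fin.zero_ne_one
  obtain ⟨D, hD⟩ : ∃ D : Set (Matrix.SpecialLinearGroup (Fin (n + 3)) F),
      D = {t : Matrix.SpecialLinearGroup (Fin (n + 3)) F | ∃ c : F, c ≠ 0 ∧
        ∃ g : Matrix.SpecialLinearGroup (Fin (n + 3)) F, ((g⁻¹ * t * g : Matrix.SpecialLinearGroup (Fin (n + 3)) F) :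
          Matrix (Fin (n + 3)) (Fin (n + 3)) F) = Matrix.transvection 0 1 c} := ⟨_, rfl⟩
  rw [← hD]
  have hmem : ∀ t : Matrix.SpecialLinearGroup (Fin (n + 3)) F, t ∈ D ↔ TV t := by
    intro t
    rw [hD]
    exact mem_iff n t
  have hfin : Finite (Matrix.SpecialLinearGroup (Fin (n + 3)) F) :=
    Finite.of_injective (fun g : Matrix.SpecialLinearGroup (Fin (n + 3)) F =>
      (g : Matrix (Fin (n + 3)) (Fin (n + 3)) F)) Subtype.val_injective
  have hset : Cfsg.IsRootInvolutionSet D := by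
    refine ⟨?_, ?_, ?_, ?_⟩
    · intro d hd
      have hT := (hmem d).1 hd
      have hp2 : Fact (Nat.Prime 2) := ⟨Nat.prime_two⟩
      exact orderOf_eq_prime (by rw [pow_two]; exact tv_sq d hT) (tv_ne_one d hT)
    · refine le_antisymm le_top (fun A _ => ?_)
      refine Cfsg.Agent.Lib.Helper2.SLGen.transvection_induction (fun A => A ∈ Subgroup.closure D)
        (fun i j hij c => ?_) (fun _ _ hA hB => mul_mem hA hB) A
      by_cases hc : c = 0
      · rw [hc, Matrix.SpecialLinearGroup.transvection_coeff_zero]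
        exact one_mem _
      · exact Subgroup.subset_closure ((hmem _).2 (tv_std hij c hc))
    · intro d hd g
      exact (hmem _).2 (tv_conj d ((hmem d).1 hd) g)
    · intro a ha b hb
      rcases pair_cases a b ((hmem a).1 ha) ((hmem b).1 hb) with h | h | h
      · left
        exact h
      · right
        right
        refine ⟨order_four _ h, ?_⟩
        rw [pow_two]
        exact (hmem _).2 h
      · right
        left
        by_contra hodd
        rw [Nat.not_odd_iff_even] at hodd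
        obtain ⟨k, hk⟩ := hodd
        have hpos : 0 < orderOf (a * b) := orderOf_pos _
        have h1 : (a * b) ^ (2 * k) = 1 := by
          rw [two_mul, ← hk]
          exact pow_orderOf_eq_one _
        have h2 := h.1 k h1
        have h3 := orderOf_dvd_of_pow_eq_one h2
        have h4 := Nat.le_of_dvd (by omega) h3
        omega
  refine ⟨⟨hset, ?_, ?_⟩, fun hcard => ⟨hset, ?_⟩⟩
  · exact ⟨_, (hmem _).2 (tv_std h01 1 one_ne_zero)⟩
  · intro a ha b hb
    obtain ⟨g, hg⟩ := conj_of_data (by omega) a b ((hmem a).1 ha) ((hmem b).1 hb)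
    exact ⟨g, hg.symm⟩
  · intro a ha b hb hodd
    have hx : ∀ x : F, x ≠ 0 → x = 1 := by
      intro x hx
      have h1 := FiniteField.pow_card_sub_one_eq_one x hx
      rw [hcard] at h1
      simpa using h1
    rcases pair_cases a b ((hmem a).1 ha) ((hmem b).1 hb) with h | h | h
    · left
      have h2 : (a * b) ^ 2 = 1 := by
        have e1 : (a * b) * (a * b) = a * (b * b) * a := by
          have e2 : (a * b) * (a * b) = (a * b) * (b * a) := by rw [← h]
          rw [e2]
          simp only [mul_assoc]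
        rw [pow_two, e1, tv_sq b ((hmem b).1 hb), mul_one, tv_sq a ((hmem a).1 ha)]
      have h3 := orderOf_dvd_of_pow_eq_one h2
      rcases (Nat.dvd_prime Nat.prime_two).1 h3 with h4 | h4
      · exact h4
      · rw [h4] at hodd
        exact absurd hodd (by decide)
    · exfalso
      rw [order_four _ h] at hodd
      exact absurd hodd (by decide)
    · have h3 := orderOf_dvd_of_pow_eq_one (h.2 hx)
      rcases (Nat.dvd_prime Nat.prime_three).1 h3 with h4 | h4
      · left
        exact h4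
      · right
        exact h4

end Cfsg.Agent.S5058
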