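import Cfsg.Statements.S5043
import Mathlib
import Cfsg.Agent.S5058
import Cfsg.Agent.S5016
import Cfsg.Agent.Lib.Helper25.CommCase

set_option autoImplicit false
open Matrix
open Cfsg

namespace Cfsg.Agent.S5043

section helpers

variable {k : Type*} [Field k] {N : ℕ}

theorem mat_ext {A B : Matrix (Fin N) (Fin N) k} (h : ∀ v, A *ᵥ v = B *ᵥ v) : A = B := by
  ext i j
  have h1 := congrFun (h (Pi.single j 1)) i
  rw [Matrix.mulVec_single_one, Matrix.mulVec_single_one] at h1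
  exact h1

theorem sl_ext {g h : Matrix.SpecialLinearGroup (Fin N) k} (H : ∀ z, g.1 *ᵥ z = h.1 *ᵥ z) :
    g = h :=
  Subtype.ext (mat_ext H)

theorem sl_mul_mulVec (g h : Matrix.SpecialLinearGroup (Fin N) k) (z : Fin N → k) :
    (g * h).1 *ᵥ z = g.1 *ᵥ (h.1 *ᵥ z) := by
  rw [Matrix.mulVec_mulVec]
  rfl

theorem sl_one_mulVec (z : Fin N → k) :
    (1 : Matrix.SpecialLinearGroup (Fin N) k).1 *ᵥ z = z := by
  show (1 : Matrix (Fin N) (Fin N) k) *ᵥ z = z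
  exact Matrix.one_mulVec z

theorem sl_gi (g : Matrix.SpecialLinearGroup (Fin N) k) : g.1 * (g⁻¹).1 = 1 := by
  rw [← Matrix.SpecialLinearGroup.coe_mul, mul_inv_cancel, Matrix.SpecialLinearGroup.coe_one]

theorem sl_ig (g : Matrix.SpecialLinearGroup (Fin N) k) : (g⁻¹).1 * g.1 = 1 := by
  rw [← Matrix.SpecialLinearGroup.coe_mul, inv_mul_cancel, Matrix.SpecialLinearGroup.coe_one]

def el (u φ : Fin N → k) (h : φ ⬝ᵥ u = 0) (c : k) : Matrix.SpecialLinearGroup (Fin N) k :=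
  ⟨1 + c • vecMulVec u φ, by
    rw [← Matrix.smul_vecMulVec, Cfsg.Agent.S2579.det_tv, dotProduct_smul, h, smul_zero,
      add_zero]⟩

theorem el_val (u φ : Fin N → k) (h : φ ⬝ᵥ u = 0) (c : k) :
    (el u φ h c).1 = 1 + c • vecMulVec u φ := rfl

theorem el_mulVec (u φ : Fin N → k) (h : φ ⬝ᵥ u = 0) (c : k) (z : Fin N → k) :
    (el u φ h c).1 *ᵥ z = z + (c * (φ ⬝ᵥ z)) • u := by
  rw [el_val, Matrix.add_mulVec, Matrix.one_mulVec, Matrix.smul_mulVec,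
    Cfsg.Agent.S5058.vmv, smul_smul]

theorem el_add (u φ : Fin N → k) (h : φ ⬝ᵥ u = 0) (c d : k) :
    el u φ h c * el u φ h d = el u φ h (c + d) := by
  apply sl_ext
  intro z
  simp only [sl_mul_mulVec, el_mulVec, dotProduct_add, dotProduct_smul, smul_eq_mul, h, mul_zero,
    add_zero]
  module

theorem el_zero (u φ : Fin N → k) (h : φ ⬝ᵥ u = 0) : el u φ h 0 = 1 := by
  apply sl_ext
  intro z
  rw [el_mulVec, zero_mul, zero_smul, add_zero, sl_one_mulVec]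

theorem el_inv (u φ : Fin N → k) (h : φ ⬝ᵥ u = 0) (c : k) : (el u φ h c)⁻¹ = el u φ h (-c) :=
  inv_eq_of_mul_eq_one_left (by rw [el_add, neg_add_cancel, el_zero])

theorem exists_dot_ne {φ : Fin N → k} (hφ : φ ≠ 0) : ∃ z : Fin N → k, φ ⬝ᵥ z ≠ 0 := by
  obtain ⟨j, hj⟩ := Cfsg.Agent.S2579.exists_ne φ hφ
  refine ⟨Pi.single j 1, ?_⟩
  rw [dotProduct_single, mul_one]
  exact hj

theorem exists_dot_ne' {u : Fin N → k} (hu : u ≠ 0) : ∃ μ : Fin N → k, μ ⬝ᵥ u ≠ 0 := by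
  obtain ⟨j, hj⟩ := Cfsg.Agent.S2579.exists_ne u hu
  refine ⟨Pi.single j 1, ?_⟩
  rw [single_dotProduct, one_mul]
  exact hj

theorem el_eq_one {u φ : Fin N → k} (h : φ ⬝ᵥ u = 0) (hu : u ≠ 0) (hφ : φ ≠ 0) {c : k}
    (he : el u φ h c = 1) : c = 0 := by
  obtain ⟨z, hz⟩ := exists_dot_ne hφ
  have h1 : (el u φ h c).1 *ᵥ z = (1 : Matrix.SpecialLinearGroup (Fin N) k).1 *ᵥ z := by
    rw [he]
  rw [el_mulVec, sl_one_mulVec] at h1
  have h2 : (c * (φ ⬝ᵥ z)) • u = 0 := by simpa using h1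
  rcases smul_eq_zero.1 h2 with h3 | h3
  · rcases mul_eq_zero.1 h3 with h4 | h4
    · exact h4
    · exact absurd h4 hz
  · exact absurd h3 hu

def XX (M : Matrix (Fin N) (Fin N) k) : Subgroup (Matrix.SpecialLinearGroup (Fin N) k) :=
  Subgroup.closure {t | ∃ c : k, t.1 = 1 + c • M}

def XS (u φ : Fin N → k) (h : φ ⬝ᵥ u = 0) : Subgroup (Matrix.SpecialLinearGroup (Fin N) k) where
  carrier := {t | ∃ c : k, t = el u φ h c}
  mul_mem' := by
    rintro _ _ ⟨c, rfl⟩ ⟨d, rfl⟩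
    exact ⟨c + d, el_add u φ h c d⟩
  one_mem' := ⟨0, (el_zero u φ h).symm⟩
  inv_mem' := by
    rintro _ ⟨c, rfl⟩
    exact ⟨-c, el_inv u φ h c⟩

theorem XX_eq (u φ : Fin N → k) (h : φ ⬝ᵥ u = 0) : XX (vecMulVec u φ) = XS u φ h := by
  apply le_antisymm
  · rw [XX, Subgroup.closure_le]
    rintro t ⟨c, hc⟩
    exact ⟨c, Subtype.ext hc⟩
  · rintro _ ⟨c, rfl⟩
    exact Subgroup.subset_closure ⟨c, rfl⟩

theorem mem_XX (u φ : Fin N → k) (h : φ ⬝ᵥ u = 0) {t : Matrix.SpecialLinearGroup (Fin N) k} :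
    t ∈ XX (vecMulVec u φ) ↔ ∃ c : k, t = el u φ h c := by
  rw [XX_eq u φ h]
  rfl

theorem XX_smul {l : k} (hl : l ≠ 0) (M : Matrix (Fin N) (Fin N) k) : XX (l • M) = XX M := by
  unfold XX
  congr 1
  ext t
  constructor
  · rintro ⟨c, hc⟩
    exact ⟨c * l, by rw [hc, smul_smul]⟩
  · rintro ⟨c, hc⟩
    exact ⟨c / l, by rw [hc, smul_smul, div_mul_cancel₀ c hl]⟩

theorem XX_conj (g : Matrix.SpecialLinearGroup (Fin N) k) (M : Matrix (Fin N) (Fin N) k) :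
    conjBy (XX M) g = XX (g.1 * M * (g⁻¹).1) := by
  have hgi := sl_gi g
  have hig := sl_ig g
  show (XX M).map (MulAut.conj g).toMonoidHom = _
  unfold XX
  rw [MonoidHom.map_closure]
  congr 1
  ext t
  constructor
  · rintro ⟨s, ⟨c, hs⟩, rfl⟩
    refine ⟨c, ?_⟩
    show g.1 * s.1 * (g⁻¹).1 = _
    rw [hs, mul_add, add_mul, mul_one, hgi, Matrix.mul_smul, Matrix.smul_mul]
  · rintro ⟨c, ht⟩
    refine ⟨g⁻¹ * t * g, ⟨c, ?_⟩, ?_⟩
    · show (g⁻¹).1 * t.1 * g.1 = _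
      rw [ht]
      calc (g⁻¹).1 * (1 + c • (g.1 * M * (g⁻¹).1)) * g.1
          = (g⁻¹).1 * g.1 + c • (((g⁻¹).1 * g.1) * M * ((g⁻¹).1 * g.1)) := by
            simp only [mul_add, add_mul, mul_one, Matrix.mul_smul, Matrix.smul_mul,
              Matrix.mul_assoc]
        _ = 1 + c • M := by rw [hig, one_mul, mul_one]
    · show g * (g⁻¹ * t * g) * g⁻¹ = t
      group

theorem XX_commutative (u φ : Fin N → k) (h : φ ⬝ᵥ u = 0) :
    IsMulCommutative ↥(XX (vecMulVec u φ)) := by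
  constructor
  constructor
  rintro ⟨x, hx⟩ ⟨y, hy⟩
  obtain ⟨c, rfl⟩ := (mem_XX u φ h).1 hx
  obtain ⟨d, rfl⟩ := (mem_XX u φ h).1 hy
  apply Subtype.ext
  show el u φ h c * el u φ h d = el u φ h d * el u φ h c
  rw [el_add, el_add, add_comm]

theorem XX_ne_bot {u φ : Fin N → k} (h : φ ⬝ᵥ u = 0) (hu : u ≠ 0) (hφ : φ ≠ 0) :
    XX (vecMulVec u φ) ≠ ⊥ := by
  intro hb
  have h1 : el u φ h 1 ∈ XX (vecMulVec u φ) := (mem_XX u φ h).2 ⟨1, rfl⟩
  rw [hb, Subgroup.mem_bot] at h1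
  exact one_ne_zero (el_eq_one h hu hφ h1)

theorem el_comm_of_orth {u φ w ψ : Fin N → k} (hu : φ ⬝ᵥ u = 0) (hw : ψ ⬝ᵥ w = 0)
    (hα : φ ⬝ᵥ w = 0) (hβ : ψ ⬝ᵥ u = 0) (c d : k) :
    el u φ hu c * el w ψ hw d = el w ψ hw d * el u φ hu c := by
  apply sl_ext
  intro z
  simp only [sl_mul_mulVec, el_mulVec, dotProduct_add, dotProduct_smul, smul_eq_mul, hα, hβ,
    mul_zero, add_zero]
  module

theorem XX_comm_bot {u φ w ψ : Fin N → k} (hu : φ ⬝ᵥ u = 0) (hw : ψ ⬝ᵥ w = 0)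
    (hα : φ ⬝ᵥ w = 0) (hβ : ψ ⬝ᵥ u = 0) :
    ⁅XX (vecMulVec u φ), XX (vecMulVec w ψ)⁆ = ⊥ := by
  rw [Subgroup.commutator_eq_bot_iff_le_centralizer]
  intro a ha
  obtain ⟨c, rfl⟩ := (mem_XX u φ hu).1 ha
  rw [Subgroup.mem_centralizer_iff]
  intro b hb
  obtain ⟨d, rfl⟩ := (mem_XX w ψ hw).1 hb
  exact (el_comm_of_orth hu hw hα hβ c d).symm

theorem conj_formula (u φ w ψ : Fin N → k) (hu : φ ⬝ᵥ u = 0) (hw : ψ ⬝ᵥ w = 0) {α β : k}
    (hα : φ ⬝ᵥ w = α) (hβ : ψ ⬝ᵥ u = β) (x : k) :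
    (1 + (-x) • vecMulVec w ψ) * vecMulVec u φ * (1 + x • vecMulVec w ψ) =
      vecMulVec u φ + (x * α) • vecMulVec u ψ + (-(x * β)) • vecMulVec w φ +
        (-(x * x * α * β)) • vecMulVec w ψ := by
  simp only [mul_add, add_mul, mul_one, one_mul, Matrix.mul_smul, Matrix.smul_mul,
    vecMulVec_mul_vecMulVec, vecMulVec_smul, hα, hβ, hu, hw, smul_smul]
  module

theorem XX_cond {u φ w ψ : Fin N → k} (hu : φ ⬝ᵥ u = 0) (hw : ψ ⬝ᵥ w = 0) (hw0 : w ≠ 0)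
    (hψ0 : ψ ≠ 0) {α β : k} (hα : φ ⬝ᵥ w = α) (hβ : ψ ⬝ᵥ u = β) (hα0 : α ≠ 0) (hβ0 : β ≠ 0) :
    RankOneCondition (XX (vecMulVec u φ)) (XX (vecMulVec w ψ)) := by
  intro a ha ha1
  obtain ⟨c, rfl⟩ := (mem_XX u φ hu).1 ha
  have hc : c ≠ 0 := by
    rintro rfl
    exact ha1 (el_zero u φ hu)
  have hd0 : (c * α * β)⁻¹ ≠ 0 := inv_ne_zero (mul_ne_zero (mul_ne_zero hc hα0) hβ0)
  refine ⟨el w ψ hw (c * α * β)⁻¹, (mem_XX w ψ hw).2 ⟨_, rfl⟩, ?_, ?_⟩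
  · intro h1
    exact hd0 (el_eq_one hw hw0 hψ0 h1)
  · rw [XX_conj, XX_conj, inv_inv, inv_inv, el_inv, el_inv, el_val, el_val, el_val, el_val,
      conj_formula u φ w ψ hu hw hα hβ, conj_formula w ψ u φ hw hu hβ hα]
    have hcd : c * (c * α * β)⁻¹ * α * β = 1 := by
      field_simp
    generalize (c * α * β)⁻¹ = d at hcd ⊢
    have e : vecMulVec w ψ + (c * β) • vecMulVec w φ + (-(c * α)) • vecMulVec u ψ +
          (-(c * c * β * α)) • vecMulVec u φ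
        = (-(c * c * α * β)) • (vecMulVec u φ + (d * α) • vecMulVec u ψ +
          (-(d * β)) • vecMulVec w φ + (-(d * d * α * β)) • vecMulVec w ψ) := by
      have e1 : c * c * α * β * (d * α) = c * α := by linear_combination (c * α) * hcd
      have e2 : c * c * α * β * (d * β) = c * β := by linear_combination (c * β) * hcd
      have e3 : c * c * α * β * (d * d * α * β) = 1 := by
        linear_combination (c * d * α * β + 1) * hcd
      simp only [smul_add, smul_smul, neg_mul, mul_neg, neg_neg, e1, e2, e3, one_smul]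
      module
    rw [e, XX_smul (neg_ne_zero.2 (mul_ne_zero (mul_ne_zero (mul_ne_zero hc hc) hα0) hβ0))]

theorem XX_pair {u φ w ψ : Fin N → k} (hu : φ ⬝ᵥ u = 0) (hw : ψ ⬝ᵥ w = 0) (hu0 : u ≠ 0)
    (hφ0 : φ ≠ 0) (hw0 : w ≠ 0) (hψ0 : ψ ≠ 0) (hα0 : φ ⬝ᵥ w ≠ 0) (hβ0 : ψ ⬝ᵥ u ≠ 0) :
    IsRankOnePair (XX (vecMulVec u φ)) (XX (vecMulVec w ψ)) where
  ne := by
    intro he
    have h1 : el w ψ hw 1 ∈ XX (vecMulVec u φ) := by
      rw [he]
      exact (mem_XX w ψ hw).2 ⟨1, rfl⟩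
    obtain ⟨c, hc⟩ := (mem_XX u φ hu).1 h1
    have h2 : (el w ψ hw 1).1 *ᵥ u = (el u φ hu c).1 *ᵥ u := by rw [hc]
    rw [el_mulVec, el_mulVec, hu, mul_zero, zero_smul, add_zero, one_mul] at h2
    have h3 : (ψ ⬝ᵥ u) • w = 0 := by simpa using h2
    rcases smul_eq_zero.1 h3 with h4 | h4
    · exact hβ0 h4
    · exact hw0 h4
  nilpotent_left := ⟨1, Subgroup.upperCentralSeries_one_eq_top_iff.mpr (XX_commutative u φ hu)⟩
  nilpotent_right := ⟨1, Subgroup.upperCentralSeries_one_eq_top_iff.mpr (XX_commutative w ψ hw)⟩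
  cond_left := XX_cond hu hw hw0 hψ0 rfl rfl hα0 hβ0
  cond_right := XX_cond hw hu hu0 hφ0 rfl rfl hβ0 hα0

theorem el_commutator {u φ w ψ : Fin N → k} (hu : φ ⬝ᵥ u = 0) (hw : ψ ⬝ᵥ w = 0) {α : k}
    (hα : φ ⬝ᵥ w = α) (hβ : ψ ⬝ᵥ u = 0) (c d : k) :
    el u φ hu c * el w ψ hw d * (el u φ hu c)⁻¹ * (el w ψ hw d)⁻¹ = el u ψ hβ (c * d * α) := by
  apply sl_ext
  intro z
  simp only [el_inv, sl_mul_mulVec, el_mulVec, dotProduct_add, dotProduct_smul, smul_eq_mul, hu,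
    hw, hα, hβ, mul_zero, add_zero, zero_add]
  module

theorem XX_commutator {u φ w ψ : Fin N → k} (hu : φ ⬝ᵥ u = 0) (hw : ψ ⬝ᵥ w = 0) {α : k}
    (hα : φ ⬝ᵥ w = α) (hα0 : α ≠ 0) (hβ : ψ ⬝ᵥ u = 0) :
    ⁅XX (vecMulVec u φ), XX (vecMulVec w ψ)⁆ = XX (vecMulVec u ψ) := by
  apply le_antisymm
  · rw [Subgroup.commutator_le]
    intro a ha b hb
    obtain ⟨c, rfl⟩ := (mem_XX u φ hu).1 ha
    obtain ⟨d, rfl⟩ := (mem_XX w ψ hw).1 hb
    rw [commutatorElement_def, el_commutator hu hw hα hβ]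
    exact (mem_XX u ψ hβ).2 ⟨_, rfl⟩
  · intro t ht
    obtain ⟨e, rfl⟩ := (mem_XX u ψ hβ).1 ht
    have h1 := Subgroup.commutator_mem_commutator ((mem_XX u φ hu).2 ⟨1, rfl⟩)
      ((mem_XX w ψ hw).2 ⟨e / α, rfl⟩)
    rw [commutatorElement_def, el_commutator hu hw hα hβ] at h1
    have h2 : (1 : k) * (e / α) * α = e := by field_simp
    rw [h2] at h1
    exact h1

theorem XX_commCase {S : Set (Subgroup (Matrix.SpecialLinearGroup (Fin N) k))}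
    {u φ w ψ : Fin N → k} (hu : φ ⬝ᵥ u = 0) (hw : ψ ⬝ᵥ w = 0) {α : k}
    (hα : φ ⬝ᵥ w = α) (hα0 : α ≠ 0) (hβ : ψ ⬝ᵥ u = 0)
    (hS : XX (vecMulVec u ψ) ∈ S) :
    RootCommutatorCase S (XX (vecMulVec u φ)) (XX (vecMulVec w ψ)) := by
  have hcomm := XX_commutator hu hw hα hα0 hβ
  refine ⟨by rw [hcomm]; exact hS, ?_, ?_, ?_⟩
  · intro c hc x hx
    rw [hcomm] at hc
    obtain ⟨e, rfl⟩ := (mem_XX u ψ hβ).1 hc
    have hle : XX (vecMulVec u φ) ⊔ XX (vecMulVec w ψ) ≤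
        Subgroup.centralizer {el u ψ hβ e} := by
      apply sup_le
      · intro a ha
        obtain ⟨c', rfl⟩ := (mem_XX u φ hu).1 ha
        rw [Subgroup.mem_centralizer_iff]
        rintro _ rfl
        exact el_comm_of_orth hβ hu hβ hu e c'
      · intro b hb
        obtain ⟨d, rfl⟩ := (mem_XX w ψ hw).1 hb
        rw [Subgroup.mem_centralizer_iff]
        rintro _ rfl
        exact el_comm_of_orth hβ hw hw hβ e d
    have h1 := hle hx
    rw [Subgroup.mem_centralizer_iff] at h1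
    exact h1 _ rfl
  · intro a ha ha1
    obtain ⟨c, rfl⟩ := (mem_XX u φ hu).1 ha
    have hc : c ≠ 0 := by
      rintro rfl
      exact ha1 (el_zero u φ hu)
    rw [hcomm]
    apply le_antisymm
    · rw [Subgroup.closure_le]
      rintro _ ⟨b, hb, rfl⟩
      obtain ⟨d, rfl⟩ := (mem_XX w ψ hw).1 hb
      show el u φ hu c * el w ψ hw d * (el u φ hu c)⁻¹ * (el w ψ hw d)⁻¹ ∈
        XX (vecMulVec u ψ)
      rw [el_commutator hu hw hα hβ]
      exact (mem_XX u ψ hβ).2 ⟨_, rfl⟩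
    · intro t ht
      obtain ⟨e, rfl⟩ := (mem_XX u ψ hβ).1 ht
      apply Subgroup.subset_closure
      refine ⟨el w ψ hw (e / (c * α)), (mem_XX w ψ hw).2 ⟨_, rfl⟩, ?_⟩
      show el u φ hu c * el w ψ hw (e / (c * α)) * (el u φ hu c)⁻¹ *
        (el w ψ hw (e / (c * α)))⁻¹ = _
      rw [el_commutator hu hw hα hβ]
      congr 1
      field_simp
  · intro b hb hb1
    obtain ⟨d, rfl⟩ := (mem_XX w ψ hw).1 hb
    have hd : d ≠ 0 := by
      rintro rfl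
      exact hb1 (el_zero w ψ hw)
    rw [hcomm]
    apply le_antisymm
    · rw [Subgroup.closure_le]
      rintro _ ⟨a, ha, rfl⟩
      obtain ⟨c, rfl⟩ := (mem_XX u φ hu).1 ha
      show el u φ hu c * el w ψ hw d * (el u φ hu c)⁻¹ * (el w ψ hw d)⁻¹ ∈
        XX (vecMulVec u ψ)
      rw [el_commutator hu hw hα hβ]
      exact (mem_XX u ψ hβ).2 ⟨_, rfl⟩
    · intro t ht
      obtain ⟨e, rfl⟩ := (mem_XX u ψ hβ).1 ht
      apply Subgroup.subset_closure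
      refine ⟨el u φ hu (e / (d * α)), (mem_XX u φ hu).2 ⟨_, rfl⟩, ?_⟩
      show el u φ hu (e / (d * α)) * el w ψ hw d * (el u φ hu (e / (d * α)))⁻¹ *
        (el w ψ hw d)⁻¹ = _
      rw [el_commutator hu hw hα hβ]
      congr 1
      field_simp

theorem not_pair_of_comm {u φ w ψ : Fin N → k} (hu : φ ⬝ᵥ u = 0) (hw : ψ ⬝ᵥ w = 0)
    (hu0 : u ≠ 0) (hφ0 : φ ≠ 0) (hα : φ ⬝ᵥ w = 0) (hβ : ψ ⬝ᵥ u = 0) :
    ¬ IsRankOnePair (XX (vecMulVec u φ)) (XX (vecMulVec w ψ)) := by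
  intro hp
  obtain ⟨b, hb, hb1, hconj⟩ := hp.cond_left (el u φ hu 1) ((mem_XX u φ hu).2 ⟨1, rfl⟩)
    (fun h1 => one_ne_zero (el_eq_one hu hu0 hφ0 h1))
  obtain ⟨d, rfl⟩ := (mem_XX w ψ hw).1 hb
  rw [XX_conj, XX_conj, inv_inv, inv_inv, el_inv, el_inv, el_val, el_val, el_val, el_val,
    conj_formula u φ w ψ hu hw hα hβ, conj_formula w ψ u φ hw hu hβ hα] at hconj
  simp only [mul_zero, zero_smul, neg_zero, add_zero] at hconj
  exact hp.ne hconj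

theorem not_pair_of_commCase {u φ w ψ : Fin N → k} (hu : φ ⬝ᵥ u = 0) (hw : ψ ⬝ᵥ w = 0)
    (hu0 : u ≠ 0) (hφ0 : φ ≠ 0) {α : k} (hα : φ ⬝ᵥ w = α) (hα0 : α ≠ 0)
    (hβ : ψ ⬝ᵥ u = 0) :
    ¬ IsRankOnePair (XX (vecMulVec u φ)) (XX (vecMulVec w ψ)) := by
  intro hp
  obtain ⟨b, hb, hb1, hconj⟩ := hp.cond_left (el u φ hu 1) ((mem_XX u φ hu).2 ⟨1, rfl⟩)
    (fun h1 => one_ne_zero (el_eq_one hu hu0 hφ0 h1))
  obtain ⟨d, rfl⟩ := (mem_XX w ψ hw).1 hb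
  have h1 : (el w ψ hw d)⁻¹ * el u φ hu 1 * ((el w ψ hw d)⁻¹)⁻¹ ∈
      conjBy (XX (vecMulVec u φ)) (el w ψ hw d)⁻¹ :=
    Cfsg.Agent.Lib.Helper25.RankOne.conj_mem_conjBy ((mem_XX u φ hu).2 ⟨1, rfl⟩)
  rw [hconj, Cfsg.Agent.Lib.Helper25.RankOne.mem_conjBy] at h1
  obtain ⟨e, he⟩ := (mem_XX w ψ hw).1 h1
  rw [inv_inv, inv_inv, el_inv, el_inv] at he
  have L : (el u φ hu 1 * (el w ψ hw (-d) * el u φ hu 1 * el w ψ hw d) * el u φ hu (-1)).1 *ᵥ w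
      = w + α • u := by
    simp only [sl_mul_mulVec, el_mulVec, dotProduct_add, dotProduct_smul, smul_eq_mul, hu, hw,
      hα, hβ, mul_zero, add_zero, zero_smul, one_mul, mul_one]
    module
  have h2 : (el u φ hu 1 * (el w ψ hw (-d) * el u φ hu 1 * el w ψ hw d) * el u φ hu (-1)).1 *ᵥ w
      = (el w ψ hw e).1 *ᵥ w := by rw [he]
  rw [L, el_mulVec, hw, mul_zero, zero_smul, add_zero] at h2
  have h3 : α • u = 0 := by simpa using h2
  rcases smul_eq_zero.1 h3 with h4 | h4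
  · exact hα0 h4
  · exact hu0 h4

def SP (N : ℕ) (k : Type*) [Field k] : Set (Subgroup (Matrix.SpecialLinearGroup (Fin N) k)) :=
  {A | ∃ u φ : Fin N → k, u ≠ 0 ∧ φ ≠ 0 ∧ φ ⬝ᵥ u = 0 ∧ A = XX (vecMulVec u φ)}

theorem SP_conj_mem {A : Subgroup (Matrix.SpecialLinearGroup (Fin N) k)} (hA : A ∈ SP N k)
    (g : Matrix.SpecialLinearGroup (Fin N) k) : conjBy A g ∈ SP N k := by
  obtain ⟨u, φ, hu0, hφ0, hu, rfl⟩ := hA
  have hgi := sl_gi g
  have hig := sl_ig g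
  rw [XX_conj, Matrix.mul_vecMulVec, Matrix.vecMulVec_mul]
  refine ⟨g.1 *ᵥ u, φ ᵥ* (g⁻¹).1, ?_, ?_, ?_, rfl⟩
  · intro h
    apply hu0
    have h1 := congrArg (fun x => (g⁻¹).1 *ᵥ x) h
    simp only [mulVec_mulVec, hig, one_mulVec, mulVec_zero] at h1
    exact h1
  · intro h
    apply hφ0
    have h1 := congrArg (fun x => x ᵥ* g.1) h
    simp only [vecMul_vecMul, hig, vecMul_one, zero_vecMul] at h1
    exact h1
  · rw [← dotProduct_mulVec, mulVec_mulVec, hig, one_mulVec, hu]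

theorem single_ne (a : Fin N) : (Pi.single a (1 : k) : Fin N → k) ≠ 0 := by
  intro h
  have h1 := congrFun h a
  rw [Pi.single_eq_same] at h1
  exact one_ne_zero h1

theorem single_dot_ne {a b : Fin N} (hab : a ≠ b) :
    (Pi.single b (1 : k) : Fin N → k) ⬝ᵥ Pi.single a 1 = 0 := by
  rw [single_dotProduct, one_mul, Pi.single_apply, if_neg hab.symm]

theorem single_dot_self (a : Fin N) :
    (Pi.single a (1 : k) : Fin N → k) ⬝ᵥ Pi.single a 1 = 1 := by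
  rw [single_dotProduct, one_mul, Pi.single_eq_same]

theorem single_mem {a b : Fin N} (hab : a ≠ b) :
    XX (vecMulVec (Pi.single a (1 : k)) (Pi.single b 1)) ∈ SP N k :=
  ⟨_, _, single_ne a, single_ne b, single_dot_ne hab, rfl⟩

theorem tv_eq (i j : Fin N) (c : k) :
    Matrix.transvection i j c = 1 + c • vecMulVec (Pi.single i 1) (Pi.single j 1) := by
  show 1 + Matrix.single i j c = _
  congr 1
  ext a b
  rw [Matrix.smul_apply, vecMulVec_apply, Matrix.single_apply, Pi.single_apply, Pi.single_apply,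
    smul_eq_mul]
  by_cases h1 : a = i
  · by_cases h2 : b = j
    · subst h1
      subst h2
      simp
    · have h2' : ¬ j = b := fun e => h2 e.symm
      simp [h2, h2']
  · have h1' : ¬ i = a := fun e => h1 e.symm
    simp [h1, h1']

theorem U0_eq (i j : Fin N) :
    Subgroup.closure {t : Matrix.SpecialLinearGroup (Fin N) k |
      ∃ c : k, (t : Matrix (Fin N) (Fin N) k) = Matrix.transvection i j c} =
      XX (vecMulVec (Pi.single i 1) (Pi.single j 1)) := by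
  unfold XX
  congr 1
  ext t
  constructor
  · rintro ⟨c, hc⟩
    exact ⟨c, by rw [hc, tv_eq]⟩
  · rintro ⟨c, hc⟩
    exact ⟨c, by rw [hc, tv_eq]⟩

theorem set_eq (hN : 3 ≤ N) {i j : Fin N} (hij : i ≠ j) :
    {A : Subgroup (Matrix.SpecialLinearGroup (Fin N) k) |
        ∃ g : Matrix.SpecialLinearGroup (Fin N) k,
          A = Cfsg.conjBy (Subgroup.closure {t : Matrix.SpecialLinearGroup (Fin N) k |
            ∃ c : k, (t : Matrix (Fin N) (Fin N) k) = Matrix.transvection i j c}) g} = SP N k := by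
  ext A
  rw [U0_eq]
  constructor
  · rintro ⟨g, rfl⟩
    exact SP_conj_mem (single_mem hij) g
  · rintro ⟨u, φ, hu0, hφ0, hu, rfl⟩
    have hs : Cfsg.Agent.S5058.TV (el (Pi.single i (1 : k)) (Pi.single j 1) (single_dot_ne hij) 1) :=
      ⟨Pi.single i 1, Pi.single j 1, single_ne i, single_ne j, single_dot_ne hij, by
        rw [el_val, one_smul]⟩
    have ht : Cfsg.Agent.S5058.TV (el u φ hu 1) :=
      ⟨u, φ, hu0, hφ0, hu, by rw [el_val, one_smul]⟩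
    obtain ⟨g, hg⟩ := Cfsg.Agent.S5058.conj_of_data hN _ _ hs ht
    refine ⟨g, ?_⟩
    rw [XX_conj]
    congr 1
    have h1 : g.1 * (1 + (1 : k) • vecMulVec (Pi.single i 1) (Pi.single j 1)) * (g⁻¹).1 =
        1 + (1 : k) • vecMulVec u φ := congrArg Subtype.val hg
    rw [mul_add, add_mul, mul_one, sl_gi, one_smul, one_smul] at h1
    exact (add_left_cancel h1).symm

theorem SO_conj (U : Subgroup (Matrix.SpecialLinearGroup (Fin N) k)) :
    IsConjClassOfSubgroups {A : Subgroup (Matrix.SpecialLinearGroup (Fin N) k) |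
      ∃ g : Matrix.SpecialLinearGroup (Fin N) k, A = Cfsg.conjBy U g} := by
  refine ⟨⟨conjBy U 1, 1, rfl⟩, ?_⟩
  rintro _ ⟨g₁, rfl⟩ _ ⟨g₂, rfl⟩
  refine ⟨g₂ * g₁⁻¹, ?_⟩
  rw [Cfsg.Agent.Lib.Helper25.RankOne.conjBy_conjBy, inv_mul_cancel_right]

theorem SP_gen (hN : 3 ≤ N) : (⨆ A ∈ SP N k, A) = ⊤ := by
  haveI : Nontrivial (Fin N) := Fin.nontrivial_iff_two_le.2 (by omega)
  rw [eq_top_iff]
  intro A _
  refine Cfsg.Agent.Lib.Helper2.SLGen.transvection_induction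
    (P := fun A => A ∈ ⨆ B ∈ SP N k, B) ?_ ?_ A
  · intro i j hij c
    have h1 : XX (vecMulVec (Pi.single i (1 : k)) (Pi.single j 1)) ≤ ⨆ B ∈ SP N k, B :=
      le_iSup₂ (f := fun (B : Subgroup (Matrix.SpecialLinearGroup (Fin N) k))
        (_ : B ∈ SP N k) => B) _ (single_mem hij)
    apply h1
    apply Subgroup.subset_closure
    refine ⟨c, ?_⟩
    rw [Matrix.SpecialLinearGroup.transvection_coe]
    exact tv_eq i j c
  · intro A B hA hB
    exact Subgroup.mul_mem _ hA hB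

theorem SP_root (hN : 3 ≤ N) : IsRootSubgroupSet (SP N k) where
  commutative := by
    rintro _ ⟨u, φ, -, -, hu, rfl⟩
    exact XX_commutative u φ hu
  ne_bot := by
    rintro _ ⟨u, φ, hu0, hφ0, hu, rfl⟩
    exact XX_ne_bot hu hu0 hφ0
  generates := SP_gen hN
  conj_mem := fun A hA g => SP_conj_mem hA g
  pair := by
    rintro _ ⟨u, φ, hu0, hφ0, hu, rfl⟩ _ ⟨w, ψ, hw0, hψ0, hw, rfl⟩
    by_cases hα : φ ⬝ᵥ w = 0
    · by_cases hβ : ψ ⬝ᵥ u = 0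
      · exact Or.inl (XX_comm_bot hu hw hα hβ)
      · right
        right
        exact Cfsg.Agent.Lib.Helper25.CommCase.commCase_symm
          (XX_commCase hw hu rfl hβ hα ⟨w, φ, hw0, hφ0, hα, rfl⟩)
    · by_cases hβ : ψ ⬝ᵥ u = 0
      · right
        right
        exact XX_commCase hu hw rfl hα hβ ⟨u, ψ, hu0, hψ0, hβ, rfl⟩
      · exact Or.inr (Or.inl (XX_pair hu hw hu0 hφ0 hw0 hψ0 hα hβ))

theorem SP_nondeg {i0 i1 i2 : Fin N} (h01 : i0 ≠ i1) (h02 : i0 ≠ i2) (h12 : i1 ≠ i2) :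
    IsNondegenerateRootSet (SP N k) := by
  refine ⟨⟨_, single_mem h01, _, single_mem h02, ?_, ?_⟩,
    ⟨_, single_mem h01, _, single_mem h01.symm, ?_⟩,
    ⟨_, single_mem h01, _, single_mem h12, ?_⟩⟩
  · intro he
    have h1 : el (Pi.single i0 (1 : k)) (Pi.single i2 1) (single_dot_ne h02) 1 ∈
        XX (vecMulVec (Pi.single i0 (1 : k)) (Pi.single i1 1)) := by
      rw [he]
      exact (mem_XX _ _ _).2 ⟨1, rfl⟩
    obtain ⟨c, hc⟩ := (mem_XX _ _ (single_dot_ne h01)).1 h1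
    have h2 : (el (Pi.single i0 (1 : k)) (Pi.single i2 1) (single_dot_ne h02) 1).1 *ᵥ
        (Pi.single i2 (1 : k) : Fin N → k) =
        (el (Pi.single i0 (1 : k)) (Pi.single i1 1) (single_dot_ne h01) c).1 *ᵥ
        (Pi.single i2 (1 : k) : Fin N → k) := by rw [hc]
    rw [el_mulVec, el_mulVec, single_dot_self, single_dot_ne h12.symm, mul_zero, zero_smul,
      add_zero, mul_one, one_smul] at h2
    have h3 : (Pi.single i0 (1 : k) : Fin N → k) = 0 := by simpa using h2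
    exact single_ne i0 h3
  · exact XX_comm_bot (single_dot_ne h01) (single_dot_ne h02) (single_dot_ne h01)
      (single_dot_ne h02)
  · exact XX_pair (single_dot_ne h01) (single_dot_ne h01.symm) (single_ne i0) (single_ne i1)
      (single_ne i1) (single_ne i0) (by rw [single_dot_self]; exact one_ne_zero)
      (by rw [single_dot_self]; exact one_ne_zero)
  · exact XX_commCase (single_dot_ne h01) (single_dot_ne h12) (single_dot_self i1) one_ne_zero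
      (single_dot_ne h02) (single_mem h02)

def Lam (u φ w ψ : Fin N → k) (M : Matrix.SpecialLinearGroup (Fin 2) k) :
    Matrix (Fin N) (Fin N) k :=
  1 + (M.1 0 0 - 1) • vecMulVec u ψ + M.1 0 1 • vecMulVec u φ + M.1 1 0 • vecMulVec w ψ +
    (M.1 1 1 - 1) • vecMulVec w φ

theorem Lam_mulVec (u φ w ψ : Fin N → k) (M : Matrix.SpecialLinearGroup (Fin 2) k)
    (z : Fin N → k) :
    Lam u φ w ψ M *ᵥ z = z + ((M.1 0 0 - 1) * (ψ ⬝ᵥ z) + M.1 0 1 * (φ ⬝ᵥ z)) • u +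
      (M.1 1 0 * (ψ ⬝ᵥ z) + (M.1 1 1 - 1) * (φ ⬝ᵥ z)) • w := by
  unfold Lam
  simp only [Matrix.add_mulVec, Matrix.one_mulVec, Matrix.smul_mulVec, Cfsg.Agent.S5058.vmv,
    smul_smul]
  module

theorem Lam_mul {u φ w ψ : Fin N → k} (hu : φ ⬝ᵥ u = 0) (hw : ψ ⬝ᵥ w = 0)
    (hα : φ ⬝ᵥ w = 1) (hβ : ψ ⬝ᵥ u = 1) (M M₂ : Matrix.SpecialLinearGroup (Fin 2) k) :
    Lam u φ w ψ (M * M₂) = Lam u φ w ψ M * Lam u φ w ψ M₂ := by
  apply mat_ext
  intro z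
  rw [← Matrix.mulVec_mulVec, Lam_mulVec, Lam_mulVec u φ w ψ M₂ z, Lam_mulVec]
  simp only [dotProduct_add, dotProduct_smul, smul_eq_mul, hu, hw, hα, hβ,
    Matrix.SpecialLinearGroup.coe_mul, Matrix.mul_apply, Fin.sum_univ_two]
  module

theorem Lam_one (u φ w ψ : Fin N → k) : Lam u φ w ψ 1 = 1 := by
  unfold Lam
  simp

theorem Lam_up (u φ w ψ : Fin N → k) (t : k) :
    Lam u φ w ψ (S5016.up t) = 1 + t • vecMulVec u φ := by
  unfold Lam
  rw [S5016.up_00, S5016.up_01, S5016.up_10, S5016.up_11]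
  simp

theorem Lam_lo (u φ w ψ : Fin N → k) (s : k) :
    Lam u φ w ψ (S5016.lo s) = 1 + s • vecMulVec w ψ := by
  unfold Lam
  rw [S5016.lo_00, S5016.lo_01, S5016.lo_10, S5016.lo_11]
  simp

theorem Lam_det {u φ w ψ : Fin N → k} (hu : φ ⬝ᵥ u = 0) (hw : ψ ⬝ᵥ w = 0)
    (hα : φ ⬝ᵥ w = 1) (hβ : ψ ⬝ᵥ u = 1) (M : Matrix.SpecialLinearGroup (Fin 2) k) :
    (Lam u φ w ψ M).det = 1 := by
  let H : Subgroup (Matrix.SpecialLinearGroup (Fin 2) k) :=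
    { carrier := {M | (Lam u φ w ψ M).det = 1}
      mul_mem' := by
        intro a b ha hb
        have ha' : (Lam u φ w ψ a).det = 1 := ha
        have hb' : (Lam u φ w ψ b).det = 1 := hb
        show (Lam u φ w ψ (a * b)).det = 1
        rw [Lam_mul hu hw hα hβ, Matrix.det_mul, ha', hb', mul_one]
      one_mem' := by
        show (Lam u φ w ψ 1).det = 1
        rw [Lam_one, Matrix.det_one]
      inv_mem' := by
        intro a ha
        have ha' : (Lam u φ w ψ a).det = 1 := ha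
        show (Lam u φ w ψ a⁻¹).det = 1
        have h1 : (Lam u φ w ψ a⁻¹).det * (Lam u φ w ψ a).det = 1 := by
          rw [← Matrix.det_mul, ← Lam_mul hu hw hα hβ, inv_mul_cancel, Lam_one, Matrix.det_one]
        rw [ha', mul_one] at h1
        exact h1 }
  have hlo : lowerUnipotentSL2 k ≤ H := by
    intro M hM
    rw [S5016.eq_lo_of_mem hM]
    show (Lam u φ w ψ (S5016.lo _)).det = 1
    rw [Lam_lo, ← Matrix.smul_vecMulVec, Cfsg.Agent.S2579.det_tv, dotProduct_smul, hw, smul_zero,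
      add_zero]
  have hup : upperUnipotentSL2 k ≤ H := by
    intro M hM
    rw [S5016.eq_up_of_mem hM]
    show (Lam u φ w ψ (S5016.up _)).det = 1
    rw [Lam_up, ← Matrix.smul_vecMulVec, Cfsg.Agent.S2579.det_tv, dotProduct_smul, hu, smul_zero,
      add_zero]
  have htop : H = ⊤ := by
    rw [eq_top_iff, ← S5016.sup_eq_top]
    exact sup_le hlo hup
  have hM : M ∈ H := by
    rw [htop]
    exact Subgroup.mem_top M
  exact hM

noncomputable def phi {u φ w ψ : Fin N → k} (hu : φ ⬝ᵥ u = 0) (hw : ψ ⬝ᵥ w = 0)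
    (hα : φ ⬝ᵥ w = 1) (hβ : ψ ⬝ᵥ u = 1) :
    Matrix.SpecialLinearGroup (Fin 2) k →* Matrix.SpecialLinearGroup (Fin N) k :=
  MonoidHom.mk' (fun M => ⟨Lam u φ w ψ M, Lam_det hu hw hα hβ M⟩)
    (fun M M₂ => Subtype.ext (Lam_mul hu hw hα hβ M M₂))

theorem phi_up {u φ w ψ : Fin N → k} (hu : φ ⬝ᵥ u = 0) (hw : ψ ⬝ᵥ w = 0)
    (hα : φ ⬝ᵥ w = 1) (hβ : ψ ⬝ᵥ u = 1) (t : k) :
    phi hu hw hα hβ (S5016.up t) = el u φ hu t :=
  Subtype.ext (Lam_up u φ w ψ t)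

theorem phi_lo {u φ w ψ : Fin N → k} (hu : φ ⬝ᵥ u = 0) (hw : ψ ⬝ᵥ w = 0)
    (hα : φ ⬝ᵥ w = 1) (hβ : ψ ⬝ᵥ u = 1) (s : k) :
    phi hu hw hα hβ (S5016.lo s) = el w ψ hw s :=
  Subtype.ext (Lam_lo u φ w ψ s)

theorem coeff_zero {u φ w ψ : Fin N → k} (hu : φ ⬝ᵥ u = 0) (hw : ψ ⬝ᵥ w = 0)
    (hα : φ ⬝ᵥ w = 1) (hβ : ψ ⬝ᵥ u = 1) {z : Fin N → k} {A B : k}
    (H : z + A • u + B • w = z) : A = 0 ∧ B = 0 := by
  have H' : A • u + B • w = 0 := by
    rw [add_assoc] at H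
    simpa using H
  have h1 := congrArg (fun x => ψ ⬝ᵥ x) H'
  have h2 := congrArg (fun x => φ ⬝ᵥ x) H'
  simp only [dotProduct_add, dotProduct_smul, smul_eq_mul, hu, hw, hα, hβ, dotProduct_zero,
    mul_zero, mul_one, add_zero, zero_add] at h1 h2
  exact ⟨h1, h2⟩

theorem psl2 {u φ w ψ : Fin N → k} (hu : φ ⬝ᵥ u = 0) (hw : ψ ⬝ᵥ w = 0)
    (hα : φ ⬝ᵥ w = 1) (hβ : ψ ⬝ᵥ u = 1) :
    IsPSL2PairOver k (XX (vecMulVec u φ)) (XX (vecMulVec w ψ)) := by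
  have hup : (upperUnipotentSL2 k).map (phi hu hw hα hβ) = XX (vecMulVec u φ) := by
    ext x
    constructor
    · rintro ⟨M, hM, rfl⟩
      rw [S5016.eq_up_of_mem hM, phi_up]
      exact (mem_XX u φ hu).2 ⟨_, rfl⟩
    · intro hx
      obtain ⟨c, rfl⟩ := (mem_XX u φ hu).1 hx
      exact ⟨S5016.up c, S5016.up_mem _, phi_up hu hw hα hβ c⟩
  have hlo : (lowerUnipotentSL2 k).map (phi hu hw hα hβ) = XX (vecMulVec w ψ) := by
    ext x
    constructor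
    · rintro ⟨M, hM, rfl⟩
      rw [S5016.eq_lo_of_mem hM, phi_lo]
      exact (mem_XX w ψ hw).2 ⟨_, rfl⟩
    · intro hx
      obtain ⟨c, rfl⟩ := (mem_XX w ψ hw).1 hx
      exact ⟨S5016.lo c, S5016.lo_mem _, phi_lo hu hw hα hβ c⟩
  refine ⟨phi hu hw hα hβ, ?_, ?_, hup, hlo⟩
  · rw [MonoidHom.range_eq_map, ← S5016.sup_eq_top, Subgroup.map_sup, hup, hlo, sup_comm]
  · intro M hM
    rw [MonoidHom.mem_ker] at hM
    have h1 : M = 1 := by
      have e1 : (phi hu hw hα hβ M).1 *ᵥ u =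
          (1 : Matrix.SpecialLinearGroup (Fin N) k).1 *ᵥ u := by rw [hM]
      have e2 : (phi hu hw hα hβ M).1 *ᵥ w =
          (1 : Matrix.SpecialLinearGroup (Fin N) k).1 *ᵥ w := by rw [hM]
      rw [sl_one_mulVec] at e1 e2
      change Lam u φ w ψ M *ᵥ u = u at e1
      change Lam u φ w ψ M *ᵥ w = w at e2
      rw [Lam_mulVec] at e1 e2
      obtain ⟨a1, a2⟩ := coeff_zero hu hw hα hβ e1
      obtain ⟨a3, a4⟩ := coeff_zero hu hw hα hβ e2
      rw [hβ, hu] at a1 a2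
      rw [hw, hα] at a3 a4
      apply S5016.sl_ext
      · simp only [Matrix.SpecialLinearGroup.coe_one, Matrix.one_apply_eq]
        linear_combination a1
      · simp only [Matrix.SpecialLinearGroup.coe_one]
        rw [Matrix.one_apply_ne (by decide)]
        linear_combination a3
      · simp only [Matrix.SpecialLinearGroup.coe_one]
        rw [Matrix.one_apply_ne (by decide)]
        linear_combination a2
      · simp only [Matrix.SpecialLinearGroup.coe_one, Matrix.one_apply_eq]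
        linear_combination a4
    rw [h1]
    exact Subgroup.one_mem _

theorem SP_kroot (hN : 3 ≤ N) : IsKRootSubgroupSet k (SP N k) := by
  refine ⟨SP_root hN, ?_⟩
  rintro _ ⟨u, φ, hu0, hφ0, hu, rfl⟩ _ ⟨w, ψ, hw0, hψ0, hw, rfl⟩ hp
  by_cases hα : φ ⬝ᵥ w = 0
  · by_cases hβ : ψ ⬝ᵥ u = 0
    · exact absurd hp (not_pair_of_comm hu hw hu0 hφ0 hα hβ)
    · exact absurd (RankOnePair_symm hp) (not_pair_of_commCase hw hu hw0 hψ0 rfl hβ hα)
  · by_cases hβ : ψ ⬝ᵥ u = 0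
    · exact absurd hp (not_pair_of_commCase hu hw hu0 hφ0 rfl hα hβ)
    · have h := psl2 (u := u) (φ := (φ ⬝ᵥ w)⁻¹ • φ) (w := w) (ψ := (ψ ⬝ᵥ u)⁻¹ • ψ)
        (by rw [smul_dotProduct, hu, smul_zero]) (by rw [smul_dotProduct, hw, smul_zero])
        (by rw [smul_dotProduct, smul_eq_mul, inv_mul_cancel₀ hα])
        (by rw [smul_dotProduct, smul_eq_mul, inv_mul_cancel₀ hβ])
      rw [Matrix.vecMulVec_smul, Matrix.vecMulVec_smul, XX_smul (inv_ne_zero hα),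
        XX_smul (inv_ne_zero hβ)] at h
      exact h

theorem exists_both {φ ψ : Fin N → k} (hφ : φ ≠ 0) (hψ : ψ ≠ 0) :
    ∃ x : Fin N → k, φ ⬝ᵥ x ≠ 0 ∧ ψ ⬝ᵥ x ≠ 0 := by
  obtain ⟨x₁, h1⟩ := exists_dot_ne hφ
  obtain ⟨x₂, h2⟩ := exists_dot_ne hψ
  by_cases h3 : ψ ⬝ᵥ x₁ = 0
  · by_cases h4 : φ ⬝ᵥ x₂ = 0
    · refine ⟨x₁ + x₂, ?_, ?_⟩
      · rw [dotProduct_add, h4, add_zero]
        exact h1
      · rw [dotProduct_add, h3, zero_add]
        exact h2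
    · exact ⟨x₂, h4, h2⟩
  · exact ⟨x₁, h1, h3⟩

theorem exists_chi {u w x φ ψ : Fin N → k} (hu0 : u ≠ 0) (hw0 : w ≠ 0) (hu : φ ⬝ᵥ u = 0)
    (hw : ψ ⬝ᵥ w = 0) (hφx : φ ⬝ᵥ x ≠ 0) (hψx : ψ ⬝ᵥ x ≠ 0) :
    ∃ χ : Fin N → k, χ ⬝ᵥ x = 0 ∧ χ ⬝ᵥ u ≠ 0 ∧ χ ⬝ᵥ w ≠ 0 := by
  obtain ⟨μ₁, h1⟩ := exists_dot_ne' hu0
  obtain ⟨μ₂, h2⟩ := exists_dot_ne' hw0
  have c1x : (μ₁ - ((μ₁ ⬝ᵥ x) / (φ ⬝ᵥ x)) • φ) ⬝ᵥ x = 0 := by
    rw [sub_dotProduct, smul_dotProduct, smul_eq_mul, div_mul_cancel₀ _ hφx, sub_self]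
  have c1u : (μ₁ - ((μ₁ ⬝ᵥ x) / (φ ⬝ᵥ x)) • φ) ⬝ᵥ u ≠ 0 := by
    rw [sub_dotProduct, smul_dotProduct, hu, smul_zero, sub_zero]
    exact h1
  have c2x : (μ₂ - ((μ₂ ⬝ᵥ x) / (ψ ⬝ᵥ x)) • ψ) ⬝ᵥ x = 0 := by
    rw [sub_dotProduct, smul_dotProduct, smul_eq_mul, div_mul_cancel₀ _ hψx, sub_self]
  have c2w : (μ₂ - ((μ₂ ⬝ᵥ x) / (ψ ⬝ᵥ x)) • ψ) ⬝ᵥ w ≠ 0 := by
    rw [sub_dotProduct, smul_dotProduct, hw, smul_zero, sub_zero]
    exact h2
  generalize (μ₁ - ((μ₁ ⬝ᵥ x) / (φ ⬝ᵥ x)) • φ) = χ₁ at c1x c1u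
  generalize (μ₂ - ((μ₂ ⬝ᵥ x) / (ψ ⬝ᵥ x)) • ψ) = χ₂ at c2x c2w
  by_cases h3 : χ₁ ⬝ᵥ w = 0
  · by_cases h4 : χ₂ ⬝ᵥ u = 0
    · refine ⟨χ₁ + χ₂, ?_, ?_, ?_⟩
      · rw [add_dotProduct, c1x, c2x, add_zero]
      · rw [add_dotProduct, h4, add_zero]
        exact c1u
      · rw [add_dotProduct, h3, zero_add]
        exact c2w
    · exact ⟨χ₂, c2x, h4, c2w⟩
  · exact ⟨χ₁, c1x, c1u, h3⟩

theorem SP_conn : IsConnectedFamily (FAdj (SP N k)) (SP N k) := by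
  rintro _ ⟨u, φ, hu0, hφ0, hu, rfl⟩ _ ⟨w, ψ, hw0, hψ0, hw, rfl⟩
  obtain ⟨x, hφx, hψx⟩ := exists_both hφ0 hψ0
  obtain ⟨χ, hχx, hχu, hχw⟩ := exists_chi hu0 hw0 hu hw hφx hψx
  have hx0 : x ≠ 0 := by
    rintro rfl
    exact hφx (dotProduct_zero φ)
  have hχ0 : χ ≠ 0 := by
    rintro rfl
    exact hχu (zero_dotProduct u)
  have s1 : FAdj (SP N k) (XX (vecMulVec u φ)) (XX (vecMulVec x χ)) :=
    ⟨⟨u, φ, hu0, hφ0, hu, rfl⟩, ⟨x, χ, hx0, hχ0, hχx, rfl⟩,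
      XX_pair hu hχx hu0 hφ0 hx0 hχ0 hφx hχu⟩
  have s2 : FAdj (SP N k) (XX (vecMulVec x χ)) (XX (vecMulVec w ψ)) :=
    ⟨⟨x, χ, hx0, hχ0, hχx, rfl⟩, ⟨w, ψ, hw0, hψ0, hw, rfl⟩,
      XX_pair hχx hw hx0 hχ0 hw0 hψ0 hχw hψx⟩
  exact Relation.ReflTransGen.trans (Relation.ReflTransGen.single s1)
    (Relation.ReflTransGen.single s2)

end helpers


/-- Let k be a field and n a natural number. In SL_{n+3}(k) (so in every dimension at least 3) the conjugates of the root subgroup of elementary transvections 1 + c E₁₂ (c ∈ k) — that is, the groups of transvections attached to an incident point–hyperplane pair — form a non-degenerate class of abstract k-root subgroups of SL_{n+3}(k) whose graph of rank one pairs is connected. -/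
theorem result (k : Type*) [Field k] (n : ℕ) :
    Cfsg.IsRootSubgroupClass {A : Subgroup (Matrix.SpecialLinearGroup (Fin (n + 3)) k) |
        ∃ g : Matrix.SpecialLinearGroup (Fin (n + 3)) k,
          A = Cfsg.conjBy (Subgroup.closure {t : Matrix.SpecialLinearGroup (Fin (n + 3)) k |
            ∃ c : k, (t : Matrix (Fin (n + 3)) (Fin (n + 3)) k) = Matrix.transvection 0 1 c}) g} ∧
    Cfsg.IsNondegenerateRootSet {A : Subgroup (Matrix.SpecialLinearGroup (Fin (n + 3)) k) |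
        ∃ g : Matrix.SpecialLinearGroup (Fin (n + 3)) k,
          A = Cfsg.conjBy (Subgroup.closure {t : Matrix.SpecialLinearGroup (Fin (n + 3)) k |
            ∃ c : k, (t : Matrix (Fin (n + 3)) (Fin (n + 3)) k) = Matrix.transvection 0 1 c}) g} ∧
    Cfsg.IsKRootSubgroupSet k {A : Subgroup (Matrix.SpecialLinearGroup (Fin (n + 3)) k) |
        ∃ g : Matrix.SpecialLinearGroup (Fin (n + 3)) k,
          A = Cfsg.conjBy (Subgroup.closure {t : Matrix.SpecialLinearGroup (Fin (n + 3)) k |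
            ∃ c : k, (t : Matrix (Fin (n + 3)) (Fin (n + 3)) k) = Matrix.transvection 0 1 c}) g} ∧
    Cfsg.IsConnectedFamily (Cfsg.FAdj {A : Subgroup (Matrix.SpecialLinearGroup (Fin (n + 3)) k) |
        ∃ g : Matrix.SpecialLinearGroup (Fin (n + 3)) k,
          A = Cfsg.conjBy (Subgroup.closure {t : Matrix.SpecialLinearGroup (Fin (n + 3)) k |
            ∃ c : k, (t : Matrix (Fin (n + 3)) (Fin (n + 3)) k) = Matrix.transvection 0 1 c}) g})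
      {A : Subgroup (Matrix.SpecialLinearGroup (Fin (n + 3)) k) |
        ∃ g : Matrix.SpecialLinearGroup (Fin (n + 3)) k,
          A = Cfsg.conjBy (Subgroup.closure {t : Matrix.SpecialLinearGroup (Fin (n + 3)) k |
            ∃ c : k, (t : Matrix (Fin (n + 3)) (Fin (n + 3)) k) = Matrix.transvection 0 1 c}) g} := by
  have h01 : (0 : Fin (n + 3)) ≠ 1 := Fin.zero_ne_one
  have h02 : (0 : Fin (n + 3)) ≠ 2 := by
    intro h
    have h' := congrArg Fin.val h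
    rw [Fin.val_zero, Fin.val_two] at h'
    omega
  have h12 : (1 : Fin (n + 3)) ≠ 2 := by
    intro h
    have h' := congrArg Fin.val h
    rw [Fin.val_one, Fin.val_two] at h'
    omega
  have hN : 3 ≤ n + 3 := by omega
  have hconj := SO_conj (Subgroup.closure {t : Matrix.SpecialLinearGroup (Fin (n + 3)) k |
            ∃ c : k, (t : Matrix (Fin (n + 3)) (Fin (n + 3)) k) = Matrix.transvection 0 1 c})
  rw [set_eq hN h01] at hconj ⊢
  exact ⟨⟨SP_root hN, hconj⟩, SP_nondeg h01 h02 h12, SP_kroot hN, SP_conn⟩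

end Cfsg.Agent.S5043
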