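import Cfsg.Statements.S5045
import Mathlib
import Cfsg.Agent.S0199
import Cfsg.Agent.Lib.Helper9.Cores

set_option autoImplicit false
open Cfsg

namespace Cfsg.Agent.S5045

variable {G : Type*} [Group G]

theorem orderOf_conj' (g x : G) : orderOf (g * x * g⁻¹) = orderOf x :=
  orderOf_injective (MulAut.conj g).toMonoidHom (MulAut.conj g).injective x

theorem orderOf_mul_comm' (x y : G) : orderOf (x * y) = orderOf (y * x) := by
  have : x * y = x * (y * x) * x⁻¹ := by group
  rw [this, orderOf_conj']

theorem sq_one {D : Set G} (hD : IsRootInvolutionSet D) {d : G} (hd : d ∈ D) : d * d = 1 := by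
  have := pow_orderOf_eq_one d
  rw [hD.orderOf_eq d hd, pow_two] at this
  exact this

theorem ne_one {D : Set G} (hD : IsRootInvolutionSet D) {d : G} (hd : d ∈ D) : d ≠ 1 := by
  intro h
  have := hD.orderOf_eq d hd
  rw [h, orderOf_one] at this
  omega

theorem inv_eq {D : Set G} (hD : IsRootInvolutionSet D) {d : G} (hd : d ∈ D) : d⁻¹ = d :=
  inv_eq_of_mul_eq_one_right (sq_one hD hd)

theorem conj_mem' {D : Set G} (hD : IsRootInvolutionSet D) {d : G} (hd : d ∈ D) {g : G}
    (hg : g ∈ D) : g * d * g ∈ D := by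
  have := hD.conj_mem d hd g
  rwa [inv_eq hD hg] at this

/-- Two involutions whose product squares to one commute. -/
theorem comm_of_sq {p q : G} (hp : p * p = 1) (hq : q * q = 1) (h : (p * q) * (p * q) = 1) :
    p * q = q * p := by
  calc p * q = p * q * ((p * q) * (p * q))⁻¹ := by rw [h]; simp
    _ = (q * q)⁻¹ * (q * p) * (p * p)⁻¹ := by group
    _ = q * p := by rw [hp, hq]; simp

theorem odd_order_eq_one {x : G} (hodd : Odd (orderOf x)) {k : ℕ} (hx : x ^ 2 ^ k = 1) : x = 1 := by
  rw [← orderOf_eq_one_iff]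
  have hdvd := orderOf_dvd_of_pow_eq_one hx
  have hco : Nat.Coprime (orderOf x) (2 ^ k) := Nat.Coprime.pow_right k hodd.coprime_two_right
  exact Nat.Coprime.eq_one_of_dvd hco hdvd

/-- A product of two root involutions cannot have order `2 n` with `n > 1` odd. -/
theorem no_twice_odd {D : Set G} (hD : IsRootInvolutionSet D) {p q : G} (hp : p ∈ D) (hq : q ∈ D)
    {n : ℕ} (hn : Odd n) (hn1 : n ≠ 1) (hord : orderOf (p * q) = 2 * n) : False := by
  rcases hD.pair p hp q hq with h | h | ⟨h, _⟩
  · have h2 : (p * q) ^ 2 = 1 := by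
      rw [pow_two]
      calc p * q * (p * q) = p * (q * p) * q := by group
        _ = p * (p * q) * q := by rw [h]
        _ = (p * p) * (q * q) := by group
        _ = 1 := by rw [sq_one hD hp, sq_one hD hq]; simp
    have := orderOf_dvd_of_pow_eq_one h2
    rw [hord] at this
    have h3 : 2 * n ∣ 2 * 1 := by simpa using this
    have : n ∣ 1 := Nat.dvd_of_mul_dvd_mul_left (by norm_num) h3
    exact hn1 (Nat.dvd_one.mp this)
  · rw [hord] at h
    obtain ⟨k, hk⟩ := h
    omega
  · rw [hord] at h
    obtain ⟨k, hk⟩ := hn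
    omega

theorem order_two_mul_odd {t y : G} (ht : orderOf t = 2) (hy : Odd (orderOf y)) (hc : Commute t y) :
    orderOf (t * y) = 2 * orderOf y := by
  rw [hc.orderOf_mul_eq_mul_orderOf_of_coprime (by rw [ht]; exact hy.coprime_two_left), ht]

/-- First pattern lemma: `c` cannot be odd-adjacent to `e` and commute with `a'`. -/
theorem pat0 {D : Set G} (hD : IsRootInvolutionSet D) {c e a' : G} (hc : c ∈ D) (he : e ∈ D)
    (ha' : orderOf a' = 2) (hea : e * a' = a' * e) (hca : c * a' = a' * c) (hf : e * a' ∈ D)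
    (hodd : Odd (orderOf (c * e))) (hne : c ≠ e) : False := by
  have hcomm : Commute a' (c * e) := by
    show a' * (c * e) = c * e * a'
    calc a' * (c * e) = (a' * c) * e := by group
      _ = (c * a') * e := by rw [hca]
      _ = c * (a' * e) := by group
      _ = c * (e * a') := by rw [hea]
      _ = c * e * a' := by group
    
  have hord : orderOf (c * (e * a')) = 2 * orderOf (c * e) := by
    have : c * (e * a') = a' * (c * e) := by
      rw [← mul_assoc]; exact hcomm.eq.symm
    rw [this]
    exact order_two_mul_odd ha' hodd hcomm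
  refine no_twice_odd hD hc hf hodd ?_ hord
  intro h1
  rw [orderOf_eq_one_iff] at h1
  apply hne
  calc c = c * e * e⁻¹ := by group
    _ = e⁻¹ := by rw [h1]; simp
    _ = e := inv_eq hD he

/-- The pattern lemma: if `{1, a, e, e a}` is a four-group of root involutions and `c` is odd-adjacent
to `e`, then `c` is odd-adjacent to `a` or to `e a`. -/
theorem pat {D : Set G} (hD : IsRootInvolutionSet D) {c e a : G} (hc : c ∈ D) (he : e ∈ D)
    (ha : a ∈ D) (hea : e * a = a * e) (hf : e * a ∈ D)
    (hodd : Odd (orderOf (c * e))) (hne : c ≠ e) :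
    Odd (orderOf (c * a)) ∨ Odd (orderOf (c * (e * a))) := by
  by_contra hcon
  push Not at hcon
  obtain ⟨h1, h2⟩ := hcon
  have hcc := sq_one hD hc
  have hee := sq_one hD he
  have haa := sq_one hD ha
  have hff := sq_one hD hf
  rcases hD.pair c hc a ha with hca | hca | ⟨hca4, hu⟩
  · exact pat0 hD hc he (hD.orderOf_eq a ha) hea hca hf hodd hne
  · exact h1 hca
  rcases hD.pair c hc (e * a) hf with hcf | hcf | ⟨hcf4, hv⟩
  · refine pat0 hD hc he (hD.orderOf_eq _ hf) ?_ hcf ?_ hodd hne
    · calc e * (e * a) = e * (a * e) := by rw [hea]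
        _ = e * a * e := by group
    · have : e * (e * a) = a := by
        calc e * (e * a) = (e * e) * a := by group
          _ = a := by rw [hee]; simp
      rw [this]; exact ha
  · exact h2 hcf
  -- both products have order four
  have hca4' : (c * a) ^ 4 = 1 := by rw [← hca4]; exact pow_orderOf_eq_one _
  have hcf4' : (c * (e * a)) ^ 4 = 1 := by rw [← hcf4]; exact pow_orderOf_eq_one _
  have hc2 : a * c * a ∈ D := conj_mem' hD hc ha
  have hc3 : e * c * e ∈ D := conj_mem' hD hc he
  have hc2sq := sq_one hD hc2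
  have hc3sq := sq_one hD hc3
  have hu_eq : (c * a) ^ 2 = c * (a * c * a) := by
    simp only [pow_succ, pow_zero, one_mul, mul_assoc]
  -- c and a c a commute
  have hB : c * (a * c * a) = (a * c * a) * c := by
    apply comm_of_sq hcc hc2sq
    calc c * (a * c * a) * (c * (a * c * a)) = (c * a) ^ 4 := by
          simp only [pow_succ, pow_zero, one_mul, mul_assoc]
      _ = 1 := hca4'
  -- a c a and e c e commute
  have hC : (a * c * a) * (e * c * e) = (e * c * e) * (a * c * a) := by
    apply comm_of_sq hc2sq hc3sq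
    have key : (a * c * a) * (e * c * e) = a * (c * (e * a)) ^ 2 * a := by
      calc (a * c * a) * (e * c * e) = a * c * (a * e) * c * e := by group
        _ = a * c * (e * a) * c * e := by rw [hea]
        _ = a * c * (e * a) * c * e * (a * a) := by rw [haa]; simp
        _ = a * (c * (e * a)) ^ 2 * a := by
          simp only [pow_succ, pow_zero, one_mul, mul_assoc]
    rw [key]
    obtain ⟨X, hX⟩ : ∃ X, X = c * (e * a) := ⟨_, rfl⟩
    rw [← hX] at hcf4' ⊢
    calc a * X ^ 2 * a * (a * X ^ 2 * a)
        = a * X ^ 2 * (a * a) * X ^ 2 * a := by group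
      _ = a * X ^ 4 * a := by rw [haa]; group
      _ = 1 := by rw [hcf4']; simp [haa]
  -- y = c * (e c e) = (c e)^2 has odd order
  have hy : c * (e * c * e) = (c * e) ^ 2 := by
    simp only [pow_succ, pow_zero, one_mul, mul_assoc]
  have hyodd : Odd (orderOf (c * (e * c * e))) := by
    rw [hy, Nat.Coprime.orderOf_pow hodd.coprime_two_right]; exact hodd
  have hycomm : Commute (a * c * a) (c * (e * c * e)) := by
    show a * c * a * (c * (e * c * e)) = c * (e * c * e) * (a * c * a)
    calc a * c * a * (c * (e * c * e)) = (a * c * a * c) * (e * c * e) := by group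
      _ = (c * (a * c * a)) * (e * c * e) := by rw [hB]
      _ = c * ((a * c * a) * (e * c * e)) := by group
      _ = c * ((e * c * e) * (a * c * a)) := by rw [hC]
      _ = c * (e * c * e) * (a * c * a) := by group
  have hord : orderOf ((c * a) ^ 2 * (e * c * e)) = 2 * orderOf (c * (e * c * e)) := by
    have : (c * a) ^ 2 * (e * c * e) = (a * c * a) * (c * (e * c * e)) := by
      rw [hu_eq, hB]; group
    rw [this]
    exact order_two_mul_odd (hD.orderOf_eq _ hc2) hyodd hycomm
  refine no_twice_odd hD hu hc3 hyodd ?_ hord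
  intro h1
  rw [orderOf_eq_one_iff, hy] at h1
  have : c * e = 1 := by
    have h3 : (c * e) ^ 2 ^ 1 = 1 := by simpa using h1
    exact odd_order_eq_one hodd h3
  apply hne
  calc c = c * e * e⁻¹ := by group
    _ = e⁻¹ := by rw [this]; simp
    _ = e := inv_eq hD he

theorem adj_symm {D : Set G} {x y : G} (h : OddAdj D x y) : OddAdj D y x :=
  ⟨h.2.1, h.1, h.2.2.1.symm, by rw [orderOf_mul_comm']; exact h.2.2.2⟩

theorem rtg_symm {D : Set G} {x y : G} (h : Relation.ReflTransGen (OddAdj D) x y) :
    Relation.ReflTransGen (OddAdj D) y x := by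
  induction h with
  | refl => exact Relation.ReflTransGen.refl
  | tail _ hbc ih => exact (Relation.ReflTransGen.single (adj_symm hbc)).trans ih

theorem comp_eq {D : Set G} {x y : G} (h : Relation.ReflTransGen (OddAdj D) x y) :
    elemComponentOf (OddAdj D) D x = elemComponentOf (OddAdj D) D y := by
  ext b
  constructor
  · rintro ⟨hb, hxb⟩
    exact ⟨hb, (rtg_symm h).trans hxb⟩
  · rintro ⟨hb, hyb⟩
    exact ⟨hb, h.trans hyb⟩

theorem exists_adj_of_comp {D : Set G} {a : G}
    (h : ∃ a' ∈ elemComponentOf (OddAdj D) D a, a' ≠ a) : ∃ c, OddAdj D a c := by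
  obtain ⟨a', ⟨_, hrt⟩, hne⟩ := h
  rcases hrt.cases_head with h | ⟨c, hc, _⟩
  · exact absurd h.symm hne
  · exact ⟨c, hc⟩

theorem not_isolated_of_adj {D : Set G} {a c : G} (h : OddAdj D a c) :
    ¬ IsIsolatedElem (OddAdj D) D a := fun hiso => (hiso.2 c).1 h

theorem exists_adj_of_not_isolated {D : Set G} {e : G} (he : e ∈ D)
    (h : ¬ IsIsolatedElem (OddAdj D) D e) : ∃ c, OddAdj D c e := by
  by_contra hcon
  push Not at hcon
  exact h ⟨he, fun b => ⟨fun hb => hcon b (adj_symm hb), hcon b⟩⟩

/-- Part (6): product partners lie in the component or are isolated. -/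
theorem partners {D : Set G} (hD : IsRootInvolutionSet D) {a : G} (ha : a ∈ D)
    (hcomp : ∃ a' ∈ elemComponentOf (OddAdj D) D a, a' ≠ a) :
    productPartners D a ⊆ elemComponentOf (OddAdj D) D a ∪
      {w | IsIsolatedElem (OddAdj D) D w} := by
  rintro e ⟨⟨he, hea, hne⟩, hf⟩
  by_cases hiso : IsIsolatedElem (OddAdj D) D e
  · exact Or.inr hiso
  left
  refine ⟨he, ?_⟩
  have haa := sq_one hD ha
  have hee := sq_one hD he
  obtain ⟨c₁, hc₁⟩ := exists_adj_of_comp hcomp
  have hc₁D : c₁ ∈ D := hc₁.2.1
  have hc₁odd : Odd (orderOf (c₁ * a)) := by rw [orderOf_mul_comm']; exact hc₁.2.2.2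
  have hfa : a * e ∈ D := by rw [← hea]; exact hf
  have hnot2 : ¬ Odd 2 := by decide
  rcases pat hD hc₁D ha he hea.symm hfa hc₁odd (Ne.symm hc₁.2.2.1) with h | h
  · -- c₁ adjacent to e
    have hc₁e : c₁ ≠ e := by
      intro h'
      rw [h', hD.orderOf_eq _ hf] at hc₁odd
      exact hnot2 hc₁odd
    exact (Relation.ReflTransGen.single hc₁).trans
      (Relation.ReflTransGen.single ⟨hc₁D, he, hc₁e, h⟩)
  · -- c₁ adjacent to f = a * e
    have hc₁f : c₁ ≠ a * e := by
      intro h'
      have : a * e * a = e := by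
        calc a * e * a = e * a * a := by rw [hea]
          _ = e * (a * a) := by group
          _ = e := by rw [haa]; simp
      rw [h', this, hD.orderOf_eq _ he] at hc₁odd
      exact hnot2 hc₁odd
    have hadj1 : OddAdj D c₁ (a * e) := ⟨hc₁D, hfa, hc₁f, h⟩
    obtain ⟨c, hc⟩ := exists_adj_of_not_isolated he hiso
    have hcD : c ∈ D := hc.1
    rcases pat hD hcD he ha hea hf hc.2.2.2 hc.2.2.1 with h' | h'
    · have hca : c ≠ a := by
        intro h''
        have h3 := hc.2.2.2
        rw [h'', ← hea, hD.orderOf_eq _ hf] at h3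
        exact hnot2 h3
      exact (Relation.ReflTransGen.single (adj_symm ⟨hcD, ha, hca, h'⟩)).trans
        (Relation.ReflTransGen.single hc)
    · have hcf : c ≠ e * a := by
        intro h''
        have h3 := hc.2.2.2
        have : e * a * e = a := by
          calc e * a * e = a * e * e := by rw [hea]
            _ = a * (e * e) := by group
            _ = a := by rw [hee]; simp
        rw [h'', this, hD.orderOf_eq _ ha] at h3
        exact hnot2 h3
      have hadj2 : OddAdj D (a * e) c := by
        rw [← hea]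
        exact adj_symm ⟨hcD, hf, hcf, h'⟩
      exact (Relation.ReflTransGen.single hc₁).trans
        ((Relation.ReflTransGen.single hadj1).trans
          ((Relation.ReflTransGen.single hadj2).trans (Relation.ReflTransGen.single hc)))

theorem isolated_conj {D : Set G} (hD : IsRootInvolutionSet D) {w : G}
    (hw : IsIsolatedElem (OddAdj D) D w) (g : G) :
    IsIsolatedElem (OddAdj D) D (g * w * g⁻¹) := by
  have key : ∀ b, ¬ OddAdj D (g * w * g⁻¹) b := by
    intro b hb
    apply (hw.2 (g⁻¹ * b * g)).1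
    refine ⟨hw.1, by simpa using hD.conj_mem b hb.2.1 g⁻¹, ?_, ?_⟩
    · intro h
      apply hb.2.2.1
      rw [h]; group
    · have : w * (g⁻¹ * b * g) = g⁻¹ * (g * w * g⁻¹ * b) * g⁻¹⁻¹ := by group
      rw [this, orderOf_conj']
      exact hb.2.2.2
  exact ⟨hD.conj_mem w hw.1 g, fun b => ⟨key b, fun hb => key b (adj_symm hb)⟩⟩

/-- Every element of the group generated by two involutions with `(w w')^4 = 1` has exponent 4. -/
theorem dih_exp {w w' : G} (hw : w * w = 1) (hw' : w' * w' = 1) (h4 : (w * w') ^ 4 = 1) :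
    ∀ x ∈ Subgroup.closure ({w, w'} : Set G), x ^ 4 = 1 := by
  obtain ⟨r, hr⟩ : ∃ r, r = w * w' := ⟨_, rfl⟩
  rw [← hr] at h4
  have hwr : w * r * w = r⁻¹ := by
    rw [hr]
    have h1 : (w * w')⁻¹ = w' * w := by
      rw [mul_inv_rev, inv_eq_of_mul_eq_one_right hw, inv_eq_of_mul_eq_one_right hw']
    rw [h1]
    calc w * (w * w') * w = (w * w) * w' * w := by group
      _ = w' * w := by rw [hw]; simp
  have hr3 : r⁻¹ = r ^ 3 := by
    calc r⁻¹ = r ^ 4 * r⁻¹ := by rw [h4]; simp
      _ = r ^ 3 := by group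
  have hw'r : w' = r ^ 3 * w := by
    rw [← hr3, hr, mul_inv_rev, inv_mul_cancel_right, inv_eq_of_mul_eq_one_right hw']
  have hcomm : ∀ j : ℕ, w * r ^ j = r ^ (3 * j) * w := by
    intro j
    induction j with
    | zero => simp
    | succ j ih =>
      calc w * r ^ (j + 1) = (w * r ^ j) * r := by rw [pow_succ, mul_assoc]
        _ = r ^ (3 * j) * w * r := by rw [ih]
        _ = r ^ (3 * j) * (w * r * w) * (w * w)⁻¹ * w := by group
        _ = r ^ (3 * j) * r ^ 3 * w := by rw [hwr, hw, hr3]; simp
        _ = r ^ (3 * (j + 1)) * w := by rw [← pow_add]; ring_nf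
  have hsq : ∀ i : ℕ, r ^ i * w * (r ^ i * w) = 1 := by
    intro i
    calc r ^ i * w * (r ^ i * w) = r ^ i * (w * r ^ i) * w := by group
      _ = r ^ i * (r ^ (3 * i) * w) * w := by rw [hcomm]
      _ = r ^ (i + 3 * i) * (w * w) := by rw [pow_add]; group
      _ = 1 := by
        rw [hw, show i + 3 * i = 4 * i by ring, pow_mul, h4, one_pow]; simp
  have hform : ∀ x ∈ Subgroup.closure ({w, w'} : Set G),
      ∃ i : ℕ, x = r ^ i ∨ x = r ^ i * w := by
    intro x hx
    induction hx using Subgroup.closure_induction with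
    | mem y hy =>
      rcases hy with rfl | hy
      · exact ⟨0, Or.inr (by simp)⟩
      · rw [Set.mem_singleton_iff] at hy
        exact ⟨3, Or.inr (by rw [hy]; exact hw'r)⟩
    | one => exact ⟨0, Or.inl (by simp)⟩
    | mul y z _ _ ihy ihz =>
      obtain ⟨i, hi⟩ := ihy
      obtain ⟨j, hj⟩ := ihz
      rcases hi with rfl | rfl <;> rcases hj with rfl | rfl
      · exact ⟨i + j, Or.inl (by rw [pow_add])⟩
      · exact ⟨i + j, Or.inr (by rw [pow_add]; group)⟩
      · refine ⟨i + 3 * j, Or.inr ?_⟩
        calc r ^ i * w * r ^ j = r ^ i * (w * r ^ j) := by group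
          _ = r ^ i * (r ^ (3 * j) * w) := by rw [hcomm]
          _ = r ^ (i + 3 * j) * w := by rw [pow_add]; group
      · refine ⟨i + 3 * j, Or.inl ?_⟩
        calc r ^ i * w * (r ^ j * w)
            = r ^ i * (w * r ^ j) * w := by group
          _ = r ^ i * (r ^ (3 * j) * w) * w := by rw [hcomm]
          _ = r ^ (i + 3 * j) * (w * w) := by rw [pow_add]; group
          _ = r ^ (i + 3 * j) := by rw [hw]; simp
    | inv y _ ihy =>
      obtain ⟨i, hi⟩ := ihy
      rcases hi with rfl | rfl
      · refine ⟨3 * i, Or.inl ?_⟩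
        have : r ^ i * r ^ (3 * i) = 1 := by
          rw [← pow_add, show i + 3 * i = 4 * i by ring, pow_mul, h4, one_pow]
        exact inv_eq_of_mul_eq_one_right this
      · exact ⟨i, Or.inr (inv_eq_of_mul_eq_one_right (hsq i))⟩
  intro x hx
  obtain ⟨i, hi⟩ := hform x hx
  rcases hi with rfl | rfl
  · rw [← pow_mul, mul_comm, pow_mul, h4, one_pow]
  · have h2 : (r ^ i * w) ^ 2 = 1 := by rw [pow_two]; exact hsq i
    calc (r ^ i * w) ^ 4 = ((r ^ i * w) ^ 2) ^ 2 := by rw [← pow_mul]
      _ = 1 := by rw [h2, one_pow]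

theorem isolated_le_core [Finite G] {D : Set G} (hD : IsRootInvolutionSet D) {w : G}
    (hw : IsIsolatedElem (OddAdj D) D w) : w ∈ Cfsg.pCore 2 G := by
  have hww := sq_one hD hw.1
  have h4 : ∀ g : G, (w * (g * w * g⁻¹)) ^ 4 = 1 := by
    intro g
    have hw' := isolated_conj hD hw g
    rcases hD.pair w hw.1 _ hw'.1 with h | h | ⟨h, _⟩
    · have : (w * (g * w * g⁻¹)) ^ 2 = 1 := by
        rw [pow_two]
        calc w * (g * w * g⁻¹) * (w * (g * w * g⁻¹))
            = w * ((g * w * g⁻¹) * w) * (g * w * g⁻¹) := by group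
          _ = w * (w * (g * w * g⁻¹)) * (g * w * g⁻¹) := by rw [h]
          _ = (w * w) * ((g * w * g⁻¹) * (g * w * g⁻¹)) := by group
          _ = 1 := by rw [hww, sq_one hD hw'.1]; simp
      rw [show 4 = 2 * 2 from rfl, pow_mul, this, one_pow]
    · by_cases hne : w = g * w * g⁻¹
      · rw [← hne, hww, one_pow]
      · exact absurd ⟨hw.1, hw'.1, hne, h⟩ (hw.2 _).1
    · rw [← h]; exact pow_orderOf_eq_one _
  have hX : IsPGroup 2 (Subgroup.zpowers w) := by
    intro x
    refine ⟨1, ?_⟩
    obtain ⟨x, hx⟩ := x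
    obtain ⟨k, rfl⟩ := Subgroup.mem_zpowers_iff.mp hx
    apply Subtype.ext
    show (w ^ k) ^ 2 ^ 1 = 1
    rw [pow_one, ← zpow_natCast, ← zpow_mul, mul_comm, zpow_mul, zpow_natCast, pow_two, hww,
      one_zpow]
  have hpair : ∀ g : G, IsPGroup 2
      ↥(Subgroup.zpowers w ⊔ (Subgroup.zpowers w).map (MulAut.conj g).toMonoidHom) := by
    intro g
    have hle : Subgroup.zpowers w ⊔ (Subgroup.zpowers w).map (MulAut.conj g).toMonoidHom ≤
        Subgroup.closure ({w, g * w * g⁻¹} : Set G) := by
      apply sup_le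
      · rw [Subgroup.zpowers_le]
        exact Subgroup.subset_closure (by simp)
      · rw [MonoidHom.map_zpowers, Subgroup.zpowers_le]
        exact Subgroup.subset_closure (by simp)
    have hK : IsPGroup 2 (Subgroup.closure ({w, g * w * g⁻¹} : Set G)) := by
      intro x
      refine ⟨2, ?_⟩
      apply Subtype.ext
      have := dih_exp hww (sq_one hD (isolated_conj hD hw g).1) (h4 g) x.1 x.2
      simpa using this
    exact hK.to_le hle
  obtain ⟨N, hN, hNp, hXN⟩ := Cfsg.Agent.S0199.result (Subgroup.zpowers w) hX hpair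
  exact Cfsg.Agent.Lib.Helper9.le_pCore hN hNp (hXN (Subgroup.mem_zpowers w))

/-- Let G be a finite group generated by a set D of root involutions, and W the set of members of D whose product with every other member of D has even order or is trivial (the isolated vertices of the odd-order-product graph on D). Then W is conjugation-invariant and generates a normal 2-subgroup of G meeting D in exactly W; the commutator of two members of D lying in different connected components of that graph, each with more than one member, lies in the subgroup generated by W; and for a in such a component, every member of D commuting with a, different from a and with product with a in D, lies in that component or in W. -/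
theorem result {G : Type*} [Group G] [Finite G] {D : Set G} (hD : Cfsg.IsRootInvolutionSet D) :
    (∀ w ∈ {w | Cfsg.IsIsolatedElem (Cfsg.OddAdj D) D w}, ∀ g : G, g * w * g⁻¹ ∈ {w | Cfsg.IsIsolatedElem (Cfsg.OddAdj D) D w}) ∧
    (Subgroup.closure {w | Cfsg.IsIsolatedElem (Cfsg.OddAdj D) D w}).Normal ∧
    IsPGroup 2 ↥(Subgroup.closure {w | Cfsg.IsIsolatedElem (Cfsg.OddAdj D) D w}) ∧
    (Subgroup.closure {w | Cfsg.IsIsolatedElem (Cfsg.OddAdj D) D w} : Set G) ∩ D = {w | Cfsg.IsIsolatedElem (Cfsg.OddAdj D) D w} ∧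
    (∀ a ∈ D, ∀ b ∈ D, (∃ a' ∈ Cfsg.elemComponentOf (Cfsg.OddAdj D) D a, a' ≠ a) →
      (∃ b' ∈ Cfsg.elemComponentOf (Cfsg.OddAdj D) D b, b' ≠ b) →
      Cfsg.elemComponentOf (Cfsg.OddAdj D) D a ≠ Cfsg.elemComponentOf (Cfsg.OddAdj D) D b →
        a * b * a⁻¹ * b⁻¹ ∈ Subgroup.closure {w | Cfsg.IsIsolatedElem (Cfsg.OddAdj D) D w}) ∧
    (∀ a ∈ D, (∃ a' ∈ Cfsg.elemComponentOf (Cfsg.OddAdj D) D a, a' ≠ a) →
      Cfsg.productPartners D a ⊆ Cfsg.elemComponentOf (Cfsg.OddAdj D) D a ∪ {w | Cfsg.IsIsolatedElem (Cfsg.OddAdj D) D w}) := by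
  have hWle : Subgroup.closure {w | Cfsg.IsIsolatedElem (Cfsg.OddAdj D) D w} ≤ Cfsg.pCore 2 G := by
    rw [Subgroup.closure_le]
    intro w hw
    exact isolated_le_core hD hw
  have hP : IsPGroup 2 ↥(Subgroup.closure {w | Cfsg.IsIsolatedElem (Cfsg.OddAdj D) D w}) :=
    (Cfsg.Agent.Lib.Helper9.pCore_isPGroup 2 G).to_le hWle
  have hnormal : ∀ x ∈ Subgroup.closure {w | Cfsg.IsIsolatedElem (Cfsg.OddAdj D) D w}, ∀ g : G,
      g * x * g⁻¹ ∈ Subgroup.closure {w | Cfsg.IsIsolatedElem (Cfsg.OddAdj D) D w} := by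
    intro x hx g
    induction hx using Subgroup.closure_induction with
    | mem y hy => exact Subgroup.subset_closure (isolated_conj hD hy g)
    | one => simp
    | mul y z _ _ ihy ihz =>
      have : g * (y * z) * g⁻¹ = (g * y * g⁻¹) * (g * z * g⁻¹) := by group
      rw [this]
      exact Subgroup.mul_mem _ ihy ihz
    | inv y _ ihy =>
      have : g * y⁻¹ * g⁻¹ = (g * y * g⁻¹)⁻¹ := by group
      rw [this]
      exact Subgroup.inv_mem _ ihy
  have hmemW : ∀ d ∈ D, d ∈ Subgroup.closure {w | Cfsg.IsIsolatedElem (Cfsg.OddAdj D) D w} →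
      Cfsg.IsIsolatedElem (Cfsg.OddAdj D) D d := by
    intro d hd hdQ
    have key : ∀ b, ¬ Cfsg.OddAdj D d b := by
      intro b hb
      have hbb := sq_one hD hb.2.1
      have hmem : (d * b) ^ 2 ∈ Subgroup.closure {w | Cfsg.IsIsolatedElem (Cfsg.OddAdj D) D w} := by
        have : (d * b) ^ 2 = d * (b * d * b⁻¹) := by
          rw [inv_eq hD hb.2.1]
          simp only [pow_succ, pow_zero, one_mul, mul_assoc]
        rw [this]
        exact Subgroup.mul_mem _ hdQ (hnormal d hdQ b)
      obtain ⟨k, hk⟩ := hP ⟨(d * b) ^ 2, hmem⟩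
      have hk' : ((d * b) ^ 2) ^ 2 ^ k = 1 := by
        have := congrArg Subtype.val hk
        simpa using this
      have hk'' : (d * b) ^ 2 ^ (k + 1) = 1 := by
        rw [pow_succ, mul_comm, pow_mul]; exact hk'
      have h1 := odd_order_eq_one hb.2.2.2 hk''
      apply hb.2.2.1
      calc d = d * b * b⁻¹ := by group
        _ = b⁻¹ := by rw [h1]; simp
        _ = b := inv_eq hD hb.2.1
    exact ⟨hd, fun b => ⟨key b, fun hb => key b (adj_symm hb)⟩⟩
  refine ⟨fun w hw g => isolated_conj hD hw g, ⟨fun x hx g => hnormal x hx g⟩, hP, ?_, ?_, ?_⟩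
  · ext d
    constructor
    · rintro ⟨hdQ, hdD⟩
      exact hmemW d hdD hdQ
    · intro hd
      exact ⟨Subgroup.subset_closure hd, hd.1⟩
  · intro a ha b hb hca hcb hne
    have haa := sq_one hD ha
    have hbb := sq_one hD hb
    rcases hD.pair a ha b hb with h | h | ⟨h4, hz⟩
    · have : a * b * a⁻¹ * b⁻¹ = 1 := by
        rw [h]; group
      rw [this]; exact Subgroup.one_mem _
    · by_cases hab : a = b
      · subst hab
        have : a * a * a⁻¹ * a⁻¹ = 1 := by group
        rw [this]; exact Subgroup.one_mem _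
      · exact absurd (comp_eq (Relation.ReflTransGen.single ⟨ha, hb, hab, h⟩)) hne
    · have hz2 : (a * b) ^ 2 = a * b * a * b := by
        simp only [pow_succ, pow_zero, one_mul, mul_assoc]
      have hcomm : a * b * a⁻¹ * b⁻¹ = (a * b) ^ 2 := by
        rw [inv_eq hD ha, inv_eq hD hb, hz2]
      rw [hcomm]
      apply Subgroup.subset_closure
      by_contra hiso
      have h4' : (a * b) ^ 4 = 1 := by rw [← h4]; exact pow_orderOf_eq_one _
      have h5 : a * b * a * b * (a * b * a * b) = 1 := by
        rw [← h4']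
        simp only [pow_succ, pow_zero, one_mul, mul_assoc]
      have hz' : a * b * a * b = b * a * b * a := by
        calc a * b * a * b = (a * b * a * b)⁻¹ := eq_inv_of_mul_eq_one_left h5
          _ = b⁻¹ * a⁻¹ * b⁻¹ * a⁻¹ := by group
          _ = b * a * b * a := by rw [inv_eq hD ha, inv_eq hD hb]
      obtain ⟨c, hc⟩ := exists_adj_of_not_isolated hz hiso
      have hcompz : ∃ z' ∈ Cfsg.elemComponentOf (Cfsg.OddAdj D) D ((a * b) ^ 2), z' ≠ (a * b) ^ 2 :=
        ⟨c, ⟨hc.1, Relation.ReflTransGen.single (adj_symm hc)⟩, hc.2.2.1⟩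
      have hsub := partners hD hz hcompz
      -- a is a product partner of z
      have haz : a * (a * b) ^ 2 = b * a * b⁻¹ := by
        rw [inv_eq hD hb, hz2]
        calc a * (a * b * a * b) = (a * a) * b * a * b := by group
          _ = b * a * b := by rw [haa]; simp
      have hza : (a * b) ^ 2 * a = a * (a * b) ^ 2 := by
        rw [haz, inv_eq hD hb, hz2, hz']
        calc b * a * b * a * a = b * a * b * (a * a) := by group
          _ = b * a * b := by rw [haa]; simp
      have hbz : b * (a * b) ^ 2 = a * b * a⁻¹ := by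
        rw [inv_eq hD ha, hz2, hz']
        calc b * (b * a * b * a) = (b * b) * a * b * a := by group
          _ = a * b * a := by rw [hbb]; simp
      have hzb : (a * b) ^ 2 * b = b * (a * b) ^ 2 := by
        rw [hbz, inv_eq hD ha, hz2]
        calc a * b * a * b * b = a * b * a * (b * b) := by group
          _ = a * b * a := by rw [hbb]; simp
      have haX : a ∈ Cfsg.productPartners D ((a * b) ^ 2) := by
        refine ⟨⟨ha, hza.symm, ?_⟩, ?_⟩
        · intro h'
          have h1 : a * (a * b) ^ 2 = 1 := by rw [← h', haa]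
          have h2 : a * (a * b) ^ 2 ∈ D := by rw [haz]; exact hD.conj_mem a ha b
          exact ne_one hD h2 h1
        · rw [haz]; exact hD.conj_mem a ha b
      have hbX : b ∈ Cfsg.productPartners D ((a * b) ^ 2) := by
        refine ⟨⟨hb, hzb.symm, ?_⟩, ?_⟩
        · intro h'
          have h1 : b * (a * b) ^ 2 = 1 := by rw [← h', hbb]
          have h2 : b * (a * b) ^ 2 ∈ D := by rw [hbz]; exact hD.conj_mem b hb a
          exact ne_one hD h2 h1
        · rw [hbz]; exact hD.conj_mem b hb a
      obtain ⟨ca, hca'⟩ := exists_adj_of_comp hca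
      obtain ⟨cb, hcb'⟩ := exists_adj_of_comp hcb
      have h1 : Relation.ReflTransGen (Cfsg.OddAdj D) ((a * b) ^ 2) a := by
        rcases hsub haX with h | h
        · exact h.2
        · exact absurd h (not_isolated_of_adj hca')
      have h2 : Relation.ReflTransGen (Cfsg.OddAdj D) ((a * b) ^ 2) b := by
        rcases hsub hbX with h | h
        · exact h.2
        · exact absurd h (not_isolated_of_adj hcb')
      exact hne (comp_eq ((rtg_symm h1).trans h2))
  · intro a ha hcomp
    exact partners hD ha hcomp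

end Cfsg.Agent.S5045
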