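import Cfsg.Statements.S5049
import Mathlib

set_option autoImplicit false
open Cfsg

namespace Cfsg.Agent.S5049

open scoped commutatorElement

/-- Let G be a finite group generated by a set D of odd transpositions (root involutions with no product of order 4), Q = O₂(G), and for a ∈ D let Q_a be the commutator subgroup of Q with a. Then every member of D commuting with a centralizes Q_a; and for b ∈ D with ab of odd order greater than 1, the centralizer of ab in Q is the intersection of the centralizers of a and b in Q. -/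
theorem result {G : Type*} [Group G] [Finite G] {D : Set G} (hD : Cfsg.IsOddTranspositionSet D) {a : G} (ha : a ∈ D) :
    (∀ e ∈ Cfsg.commutingMembers D a, ∀ q ∈ ⁅Cfsg.pCore 2 G, Subgroup.zpowers a⁆, e * q = q * e) ∧
    (∀ b ∈ Cfsg.oddPartners D a,
      Cfsg.pCore 2 G ⊓ Subgroup.centralizer {a * b} = Cfsg.pCore 2 G ⊓ Subgroup.centralizer {a} ⊓ Subgroup.centralizer {b}) := by
  classical
  set Q := Cfsg.pCore 2 G with hQdef
  haveI hQn : Q.Normal := Subgroup.sSup_normal _ (fun _ hH => hH.1)
  haveI : Fact (Nat.Prime 2) := ⟨Nat.prime_two⟩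
  have hQ2 : IsPGroup 2 Q := Sylow.sSup_of_normal _ (fun _ hH => hH.2) (fun _ hH => hH.1)
  have hpow : ∀ q ∈ Q, ∃ k : ℕ, q ^ (2 ^ k) = 1 := by
    intro q hq
    obtain ⟨k, hk⟩ := hQ2 ⟨q, hq⟩
    exact ⟨k, by simpa using congrArg Subtype.val hk⟩
  have invol : ∀ d ∈ D, d * d = 1 := by
    intro d hd
    have := pow_orderOf_eq_one d
    rw [hD.1.orderOf_eq d hd, sq] at this
    exact this
  have inv_eq : ∀ d ∈ D, d⁻¹ = d := fun d hd => inv_eq_of_mul_eq_one_left (invol d hd)
  have key1 : ∀ d ∈ D, ∀ d' ∈ D, (∃ k : ℕ, (d * d') ^ (2 ^ k) = 1) → d * d' = d' * d := by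
    intro d hd d' hd' ⟨k, hk⟩
    rcases hD.1.pair d hd d' hd' with h | h | h
    · exact h
    · have h1 : orderOf (d * d') ∣ 2 ^ k := orderOf_dvd_of_pow_eq_one hk
      have h2 : orderOf (d * d') = 1 := by
        have hc : Nat.Coprime (orderOf (d * d')) (2 ^ k) :=
          Nat.Coprime.pow_right k (Nat.coprime_two_right.mpr h)
        exact Nat.Coprime.eq_one_of_dvd hc h1
      have h3 : d * d' = 1 := orderOf_eq_one_iff.mp h2
      have h4 : d' * d = 1 := by
        have : d' = d⁻¹ := eq_inv_of_mul_eq_one_right h3
        rw [this, inv_mul_cancel]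
      rw [h3, h4]
    · exact absurd h.1 (hD.2 d hd d' hd')
  have sq_mem : ∀ z : G, z ^ 2 ∈ Q → ∃ k : ℕ, z ^ (2 ^ k) = 1 := by
    intro z hz
    obtain ⟨k, hk⟩ := hpow _ hz
    exact ⟨k + 1, by rw [pow_succ', pow_mul]; exact hk⟩
  refine ⟨?_, ?_⟩
  · rintro e ⟨heD, hea⟩ q hq
    have hle : ⁅Q, Subgroup.zpowers a⁆ ≤ Subgroup.centralizer {e} := by
      rw [Subgroup.commutator_le]
      intro x hx y hy
      have hy' : y = 1 ∨ y = a := by
        obtain ⟨n, rfl⟩ := Subgroup.mem_zpowers_iff.mp hy
        have h2 := zpow_mod_orderOf a n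
        rw [hD.1.orderOf_eq a ha] at h2
        rcases Int.emod_two_eq_zero_or_one n with h | h
        · left; rw [← h2]; norm_num [h]
        · right; rw [← h2]; norm_num [h]
      rw [Subgroup.mem_centralizer_iff]
      intro h hh
      rw [Set.mem_singleton_iff] at hh
      subst hh
      rcases hy' with rfl | rfl
      · simp
      · have hconj : x * y * x⁻¹ ∈ D := hD.1.conj_mem y ha x
        have hz : (h * (x * y * x⁻¹)) ^ 2 ∈ Q := by
          have e1 : (h * (x * y * x⁻¹)) ^ 2 = (h * y) * ((y⁻¹ * x * y⁻¹⁻¹) * x⁻¹) * (h * y)⁻¹ *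
              ((h * y) * (h * y)) * ((y⁻¹ * x * y⁻¹⁻¹) * x⁻¹) := by rw [sq]; group
          have e2 : (h * y) * (h * y) = 1 := by
            calc (h * y) * (h * y) = h * (y * h) * y := by group
              _ = h * (h * y) * y := by rw [hea]
              _ = (h * h) * (y * y) := by group
              _ = 1 := by rw [invol h heD, invol y ha, one_mul]
          rw [e1, e2, mul_one]
          have hq' : (y⁻¹ * x * y⁻¹⁻¹) * x⁻¹ ∈ Q :=
            Q.mul_mem (hQn.conj_mem x hx y⁻¹) (Q.inv_mem hx)
          exact Q.mul_mem (hQn.conj_mem _ hq' (h * y)) hq'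
        have hc := key1 h heD _ hconj (sq_mem _ hz)
        rw [commutatorElement_def, inv_eq y ha]
        calc h * (x * y * x⁻¹ * y) = (h * (x * y * x⁻¹)) * y := by group
          _ = (x * y * x⁻¹) * h * y := by rw [hc]
          _ = (x * y * x⁻¹) * (h * y) := by group
          _ = (x * y * x⁻¹) * (y * h) := by rw [hea]
          _ = x * y * x⁻¹ * y * h := by group
    exact (Subgroup.mem_centralizer_iff.mp (hle hq) e rfl)
  · rintro b ⟨hbD, hba, hodd⟩
    ext x
    simp only [Subgroup.mem_inf, Subgroup.mem_centralizer_iff, Set.mem_singleton_iff, forall_eq]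
    constructor
    · rintro ⟨hxQ, hxr⟩
      have ha'D : x * a * x⁻¹ ∈ D := hD.1.conj_mem a ha x
      obtain ⟨a', ha'⟩ : ∃ a' : G, a' = x * a * x⁻¹ := ⟨_, rfl⟩
      obtain ⟨r, hr⟩ : ∃ r : G, r = a * b := ⟨_, rfl⟩
      obtain ⟨t, ht⟩ : ∃ t : G, t = a' * a := ⟨_, rfl⟩
      rw [← ha'] at ha'D
      rw [← hr] at hxr hodd
      have htQ : t ∈ Q := by
        have : t = x * (a * x⁻¹ * a⁻¹) := by rw [ht, ha', inv_eq a ha]; group
        rw [this]; exact Q.mul_mem hxQ (hQn.conj_mem _ (Q.inv_mem hxQ) a)
      have hcomm : a' * a = a * a' := key1 a' ha'D a ha (by rw [← ht]; exact hpow t htQ)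
      have htt : t * t = 1 := by
        calc t * t = a' * (a * a') * a := by rw [ht]; group
          _ = a' * (a' * a) * a := by rw [hcomm]
          _ = (a' * a') * (a * a) := by group
          _ = 1 := by rw [invol a' ha'D, invol a ha, one_mul]
      have hara : a * r * a = r⁻¹ := by
        rw [hr, mul_inv_rev, inv_eq a ha, inv_eq b hbD]
        calc a * (a * b) * a = (a * a) * b * a := by group
          _ = b * a := by rw [invol a ha, one_mul]
      have h1 : a * r = r⁻¹ * a := by
        have : a * r = r⁻¹ * a⁻¹ := by rw [← hara]; group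
        rw [this, inv_eq a ha]
      have h3 : a * r⁻¹ = r * a := by
        have : a * r⁻¹ = r * (r⁻¹ * a) * r⁻¹ := by group
        rw [this, ← h1]; group
      have h2 : a' * r⁻¹ = r * a' := by
        calc a' * r⁻¹ = x * a * (r * x)⁻¹ := by rw [ha']; group
          _ = x * a * (x * r)⁻¹ := by rw [hxr]
          _ = x * (a * r⁻¹) * x⁻¹ := by group
          _ = x * (r * a) * x⁻¹ := by rw [h3]
          _ = (x * r) * a * x⁻¹ := by group
          _ = (r * x) * a * x⁻¹ := by rw [hxr]
          _ = r * a' := by rw [ha']; group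
      have htr : t * r = r * t := by
        calc t * r = a' * (a * r) := by rw [ht]; group
          _ = a' * (r⁻¹ * a) := by rw [h1]
          _ = (a' * r⁻¹) * a := by group
          _ = (r * a') * a := by rw [h2]
          _ = r * t := by rw [ht]; group
      have hab1 : a' * b = t * r := by
        calc a' * b = a' * ((a * a) * b) := by rw [invol a ha, one_mul]
          _ = t * r := by rw [ht, hr]; group
      have ht1 : t = 1 := by
        rcases hD.1.pair a' ha'D b hbD with h | h | h
        · exfalso
          have h5 : (t * r) * (t * r) = 1 := by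
            rw [← hab1]
            calc a' * b * (a' * b) = a' * (b * a') * b := by group
              _ = a' * (a' * b) * b := by rw [h]
              _ = (a' * a') * (b * b) := by group
              _ = 1 := by rw [invol a' ha'D, invol b hbD, one_mul]
          have h6 : r * r = 1 := by
            calc r * r = (t * t) * (r * r) := by rw [htt, one_mul]
              _ = t * (t * r) * r := by group
              _ = t * (r * t) * r := by rw [htr]
              _ = (t * r) * (t * r) := by group
              _ = 1 := h5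
          have h7 : orderOf r ∣ 2 := orderOf_dvd_of_pow_eq_one (by rw [sq]; exact h6)
          have h8 : orderOf r = 1 := by
            have hc : Nat.Coprime (orderOf r) 2 := Nat.coprime_two_right.mpr hodd
            exact Nat.Coprime.eq_one_of_dvd hc h7
          have h9 : r = 1 := orderOf_eq_one_iff.mp h8
          apply hba
          rw [hr] at h9
          have : b = a⁻¹ := eq_inv_of_mul_eq_one_right h9
          rw [this, inv_eq a ha]
        · have h5 : (t * r) ^ (orderOf (a' * b)) = 1 := by rw [← hab1]; exact pow_orderOf_eq_one _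
          have hcm : Commute t r := htr
          rw [hcm.mul_pow] at h5
          have hodd_pow : ∀ m : ℕ, Odd m → t ^ m = t := by
            rintro m ⟨j, hj⟩
            rw [hj, pow_succ, pow_mul, sq, htt, one_pow, one_mul]
          rw [hodd_pow _ h] at h5
          have h6 : t = (r ^ (orderOf (a' * b)))⁻¹ := eq_inv_of_mul_eq_one_left h5
          have h7 : t ^ (orderOf r) = 1 := by
            rw [h6, inv_pow, ← pow_mul, Nat.mul_comm, pow_mul, pow_orderOf_eq_one, one_pow, inv_one]
          rw [hodd_pow _ hodd] at h7; exact h7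
        · exact absurd h.1 (hD.2 a' ha'D b hbD)
      have hxa : a * x = x * a := by
        have h1 : a' = a := by
          have : a' = a⁻¹ := eq_inv_of_mul_eq_one_left (by rw [← ht]; exact ht1)
          rw [this, inv_eq a ha]
        have : x * a = a * x := by
          calc x * a = (x * a * x⁻¹) * x := by group
            _ = a * x := by rw [← ha', h1]
        exact this.symm
      refine ⟨⟨hxQ, hxa⟩, ?_⟩
      have hb : b = a⁻¹ * r := by rw [hr]; group
      rw [hb]
      calc a⁻¹ * r * x = a⁻¹ * (r * x) := by group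
        _ = a⁻¹ * (x * r) := by rw [hxr]
        _ = a⁻¹ * (x * a) * a⁻¹ * r := by group
        _ = a⁻¹ * (a * x) * a⁻¹ * r := by rw [hxa]
        _ = x * (a⁻¹ * r) := by group
    · rintro ⟨⟨hxQ, hxa⟩, hxb⟩
      refine ⟨hxQ, ?_⟩
      calc a * b * x = a * (b * x) := by group
        _ = a * (x * b) := by rw [hxb]
        _ = (a * x) * b := by group
        _ = (x * a) * b := by rw [hxa]
        _ = x * (a * b) := by group

end Cfsg.Agent.S5049
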