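import Cfsg.Statements.S5057
import Mathlib


set_option autoImplicit false
open Cfsg

namespace Cfsg.Agent.S5057

/-- The reference involution `(0 1)(2 3)`. -/
def a0 : Equiv.Perm (Fin 6) := Equiv.swap 0 1 * Equiv.swap 2 3

set_option maxRecDepth 100000 in
theorem key : ∀ b : Equiv.Perm (Fin 6), b * b = 1 → Equiv.Perm.sign b = 1 →
    (a0 * b = b * a0 ∨ (a0 * b) ^ 3 = 1 ∨ (a0 * b) ^ 5 = 1 ∨
      ((a0 * b) ^ 4 = 1 ∧ (a0 * b) ^ 2 ≠ 1)) := by
  decide

theorem a0_order : orderOf a0 = 2 :=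
  orderOf_eq_prime (by decide : a0 ^ 2 = 1) (by decide : a0 ≠ 1)

theorem a0_sign : Equiv.Perm.sign a0 = 1 := by decide

theorem cyc (σ : Equiv.Perm (Fin 6)) (h2 : orderOf σ = 2) (hs : Equiv.Perm.sign σ = 1) :
    σ.cycleType = Multiset.replicate 2 2 := by
  obtain ⟨m, hm⟩ := Equiv.Perm.cycleType_prime_order (σ := σ) (by rw [h2]; exact Nat.prime_two)
  rw [h2] at hm
  have hsum := Equiv.Perm.sum_cycleType_le σ
  rw [hm] at hsum
  simp at hsum
  have hsign := Equiv.Perm.sign_of_cycleType σ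
  rw [hm, hs] at hsign
  simp at hsign
  have hm1 : m = 1 := by
    have hm3 : m < 3 := by omega
    interval_cases m
    · exact absurd hsign (by decide)
    · rfl
    · exact absurd hsign (by decide)
  subst hm1
  exact hm

theorem conj_a0 (σ : Equiv.Perm (Fin 6)) (h2 : orderOf σ = 2) (hs : Equiv.Perm.sign σ = 1) :
    ∃ g : Equiv.Perm (Fin 6), Equiv.Perm.sign g = 1 ∧ g * a0 * g⁻¹ = σ := by
  have hc : IsConj a0 σ := by
    rw [Equiv.Perm.isConj_iff_cycleType_eq, cyc σ h2 hs, cyc a0 a0_order a0_sign]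
  obtain ⟨g, hg⟩ := isConj_iff.mp hc
  rcases Int.units_eq_one_or (Equiv.Perm.sign g) with h | h
  · exact ⟨g, h, hg⟩
  · refine ⟨g * Equiv.swap 4 5, ?_, ?_⟩
    · rw [map_mul, h, Equiv.Perm.sign_swap (by decide)]; rfl
    · have hcomm : Equiv.swap (4 : Fin 6) 5 * a0 * (Equiv.swap (4 : Fin 6) 5)⁻¹ = a0 := by decide
      calc g * Equiv.swap 4 5 * a0 * (g * Equiv.swap 4 5)⁻¹
          = g * (Equiv.swap 4 5 * a0 * (Equiv.swap 4 5)⁻¹) * g⁻¹ := by group
        _ = σ := by rw [hcomm, hg]

theorem pair_perm (d e : Equiv.Perm (Fin 6)) (hd : orderOf d = 2) (hds : Equiv.Perm.sign d = 1)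
    (he : orderOf e = 2) (hes : Equiv.Perm.sign e = 1) :
    d * e = e * d ∨ (d * e) ^ 3 = 1 ∨ (d * e) ^ 5 = 1 ∨ ((d * e) ^ 4 = 1 ∧ (d * e) ^ 2 ≠ 1) := by
  obtain ⟨g, hg, rfl⟩ := conj_a0 d hd hds
  have hee : e * e = 1 := by rw [← pow_two, ← he]; exact pow_orderOf_eq_one e
  have hb : (g⁻¹ * e * g) * (g⁻¹ * e * g) = 1 := by
    calc (g⁻¹ * e * g) * (g⁻¹ * e * g) = g⁻¹ * (e * e) * g := by group
      _ = 1 := by rw [hee]; group
  have hbs : Equiv.Perm.sign (g⁻¹ * e * g) = 1 := by
    rw [map_mul, map_mul, map_inv, hg, hes]; rfl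
  have hk := key (g⁻¹ * e * g) hb hbs
  have e1 : g * a0 * g⁻¹ * e = g * (a0 * (g⁻¹ * e * g)) * g⁻¹ := by group
  have e2 : e * (g * a0 * g⁻¹) = g * ((g⁻¹ * e * g) * a0) * g⁻¹ := by group
  rw [e1, e2]
  rcases hk with h | h | h | ⟨h, h'⟩
  · left; rw [h]
  · right; left; rw [conj_pow, h]; group
  · right; right; left; rw [conj_pow, h]; group
  · right; right; right
    refine ⟨by rw [conj_pow, h]; group, ?_⟩
    rw [conj_pow]
    intro hh
    apply h'
    have e3 : (a0 * (g⁻¹ * e * g)) ^ 2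
        = g⁻¹ * (g * (a0 * (g⁻¹ * e * g)) ^ 2 * g⁻¹) * g := by group
    rw [e3, hh]; group

theorem coe_order (x : alternatingGroup (Fin 6)) :
    orderOf (x : Equiv.Perm (Fin 6)) = orderOf x := Subgroup.orderOf_coe x

theorem pair_alt (d e : alternatingGroup (Fin 6)) (hd : orderOf d = 2) (he : orderOf e = 2) :
    (d * e = e * d ∧ orderOf (d * e) ≤ 2) ∨ (Odd (orderOf (d * e)) ∧ orderOf (d * e) ≤ 5) ∨
      (orderOf (d * e) = 4 ∧ orderOf ((d * e) ^ 2) = 2) := by
  have h := pair_perm (d : Equiv.Perm (Fin 6)) (e : Equiv.Perm (Fin 6))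
    (by rw [coe_order]; exact hd) (Equiv.Perm.mem_alternatingGroup.mp d.2)
    (by rw [coe_order]; exact he) (Equiv.Perm.mem_alternatingGroup.mp e.2)
  have hdd : d * d = 1 := by rw [← pow_two, ← hd]; exact pow_orderOf_eq_one d
  have hee : e * e = 1 := by rw [← pow_two, ← he]; exact pow_orderOf_eq_one e
  rcases h with h | h | h | ⟨h, h'⟩
  · left
    have hc : d * e = e * d := Subtype.ext h
    refine ⟨hc, ?_⟩
    have h2 : (d * e) ^ 2 = 1 := by
      rw [pow_two]
      calc d * e * (d * e) = d * (e * d) * e := by group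
        _ = d * (d * e) * e := by rw [hc]
        _ = (d * d) * (e * e) := by group
        _ = 1 := by rw [hdd, hee, mul_one]
    exact Nat.le_of_dvd (by norm_num) (orderOf_dvd_of_pow_eq_one h2)
  · right; left
    have h3 : (d * e) ^ 3 = 1 := Subtype.ext (by simpa using h)
    have hdvd := orderOf_dvd_of_pow_eq_one h3
    rcases (Nat.dvd_prime Nat.prime_three).mp hdvd with h1 | h1
    · rw [h1]; exact ⟨by decide, by norm_num⟩
    · rw [h1]; exact ⟨by decide, by norm_num⟩
  · right; left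
    have h5 : (d * e) ^ 5 = 1 := Subtype.ext (by simpa using h)
    have hdvd := orderOf_dvd_of_pow_eq_one h5
    rcases (Nat.dvd_prime Nat.prime_five).mp hdvd with h1 | h1
    · rw [h1]; exact ⟨by decide, by norm_num⟩
    · rw [h1]; exact ⟨by decide, by norm_num⟩
  · right; right
    have h4 : (d * e) ^ 4 = 1 := Subtype.ext (by simpa using h)
    have h2 : (d * e) ^ 2 ≠ 1 := by
      intro hh
      apply h'
      have := congrArg Subtype.val hh
      simpa using this
    refine ⟨?_, ?_⟩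
    · have := orderOf_eq_prime_pow (p := 2) (n := 1) (x := d * e) (by simpa using h2)
        (by simpa using h4)
      simpa using this
    · apply orderOf_eq_prime
      · rw [← pow_mul]; exact h4
      · exact h2

/-- The involutions of the alternating group of degree 6 form a class of root involutions (a single conjugacy class of involutions generating the group, any two of which commute, have product of odd order, or have product of order 4 whose square is again an involution of the class), and the product of any two of them has order at most 5. -/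
theorem result :
    Cfsg.IsRootInvolutionClass {g : ↥(alternatingGroup (Fin 6)) | orderOf g = 2} ∧
    ∀ d ∈ {g : ↥(alternatingGroup (Fin 6)) | orderOf g = 2}, ∀ e ∈ {g : ↥(alternatingGroup (Fin 6)) | orderOf g = 2},
      orderOf (d * e) ≤ 5 := by
  classical
  have hconjmem : ∀ d ∈ {g : ↥(alternatingGroup (Fin 6)) | orderOf g = 2},
      ∀ g : ↥(alternatingGroup (Fin 6)),
      g * d * g⁻¹ ∈ {g : ↥(alternatingGroup (Fin 6)) | orderOf g = 2} := by
    intro d hd g
    show orderOf (g * d * g⁻¹) = 2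
    rw [← MulAut.conj_apply, MulEquiv.orderOf_eq]
    exact hd
  have ha0 : (⟨a0, Equiv.Perm.mem_alternatingGroup.mpr a0_sign⟩ : ↥(alternatingGroup (Fin 6)))
      ∈ {g : ↥(alternatingGroup (Fin 6)) | orderOf g = 2} := by
    show orderOf (⟨a0, Equiv.Perm.mem_alternatingGroup.mpr a0_sign⟩ : ↥(alternatingGroup (Fin 6))) = 2
    rw [← coe_order]
    exact a0_order
  have hconj : ∀ d ∈ {g : ↥(alternatingGroup (Fin 6)) | orderOf g = 2},
      ∃ g : ↥(alternatingGroup (Fin 6)),
        d = g * (⟨a0, Equiv.Perm.mem_alternatingGroup.mpr a0_sign⟩ : ↥(alternatingGroup (Fin 6))) * g⁻¹ := by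
    intro d hd
    obtain ⟨g, hg, hgd⟩ := conj_a0 (d : Equiv.Perm (Fin 6)) (by rw [coe_order]; exact hd)
      (Equiv.Perm.mem_alternatingGroup.mp d.2)
    refine ⟨⟨g, Equiv.Perm.mem_alternatingGroup.mpr hg⟩, ?_⟩
    apply Subtype.ext
    simpa using hgd.symm
  refine ⟨⟨⟨fun d hd => hd, ?_, hconjmem, ?_⟩, ⟨_, ha0⟩, ?_⟩, ?_⟩
  · -- generation
    have hsimple : IsSimpleGroup (alternatingGroup (Fin 6)) :=
      alternatingGroup.isSimpleGroup (by simp)
    have hcs : Group.conjugatesOfSet {g : ↥(alternatingGroup (Fin 6)) | orderOf g = 2}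
        = {g : ↥(alternatingGroup (Fin 6)) | orderOf g = 2} := by
      apply Set.Subset.antisymm
      · intro x hx
        rw [Group.mem_conjugatesOfSet_iff] at hx
        obtain ⟨a, ha, hax⟩ := hx
        obtain ⟨c, rfl⟩ := isConj_iff.mp hax
        exact hconjmem a ha c
      · exact Group.subset_conjugatesOfSet
    have hcl : Subgroup.closure {g : ↥(alternatingGroup (Fin 6)) | orderOf g = 2}
        = Subgroup.normalClosure {g : ↥(alternatingGroup (Fin 6)) | orderOf g = 2} := by
      rw [Subgroup.normalClosure, hcs]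
    rw [hcl]
    refine (Subgroup.normalClosure_normal.eq_bot_or_eq_top).resolve_left ?_
    intro hbot
    have hmem : (⟨a0, Equiv.Perm.mem_alternatingGroup.mpr a0_sign⟩ : ↥(alternatingGroup (Fin 6)))
        ∈ Subgroup.normalClosure {g : ↥(alternatingGroup (Fin 6)) | orderOf g = 2} :=
      Subgroup.subset_normalClosure ha0
    rw [hbot, Subgroup.mem_bot] at hmem
    have h1 : orderOf (⟨a0, Equiv.Perm.mem_alternatingGroup.mpr a0_sign⟩ : ↥(alternatingGroup (Fin 6))) = 2 := ha0
    rw [hmem, orderOf_one] at h1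
    omega
  · -- pair condition
    intro a ha b hb
    rcases pair_alt a b ha hb with ⟨h, -⟩ | ⟨h, -⟩ | ⟨h, h'⟩
    · exact Or.inl h
    · exact Or.inr (Or.inl h)
    · exact Or.inr (Or.inr ⟨h, h'⟩)
  · -- single class
    intro a ha b hb
    obtain ⟨g, hg⟩ := hconj a ha
    obtain ⟨k, hk⟩ := hconj b hb
    refine ⟨k * g⁻¹, ?_⟩
    rw [hk, hg]; group
  · intro d hd e he
    rcases pair_alt d e hd he with ⟨-, h⟩ | ⟨-, h⟩ | ⟨h, -⟩
    · omega
    · exact h
    · omega


end Cfsg.Agent.S5057
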