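import Cfsg.Statements.S5059
import Mathlib

set_option autoImplicit false
universe u
open Cfsg

namespace Cfsg.Agent.S5059



section aux

variable {k : Type*} [Field k] {M : Type*} [AddCommGroup M] [Module k M]

/-- carrier predicate of the auxiliary subgroup -/
def Good (G : Subgroup (LinearMap.GeneralLinearGroup k M)) (K I : Submodule k M)
    (x : LinearMap.GeneralLinearGroup k M) : Prop :=
  x ∈ G ∧ Cfsg.scalarFamily x ⊆ (G : Set (LinearMap.GeneralLinearGroup k M)) ∧
    K ≤ LinearMap.ker ((x : M →ₗ[k] M) - 1) ∧ LinearMap.range ((x : M →ₗ[k] M) - 1) ≤ I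

theorem nil_mul {K I : Submodule k M} (hIK : I ≤ K) {A B : M →ₗ[k] M}
    (hA : K ≤ LinearMap.ker A) (hB : LinearMap.range B ≤ I) : A * B = 0 := by
  ext v
  have : B v ∈ LinearMap.ker A := hA (hIK (hB ⟨v, rfl⟩))
  rw [LinearMap.mem_ker] at this
  simpa using this

theorem unit_of_nil (c : k) {A : M →ₗ[k] M} (hA : A * A = 0) :
    ∃ u : LinearMap.GeneralLinearGroup k M, (u : M →ₗ[k] M) = 1 + c • A := by
  have hB : (c • A) * (c • A) = 0 := by
    rw [smul_mul_assoc, mul_smul_comm, hA, smul_zero, smul_zero]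
  refine ⟨⟨1 + c • A, 1 - c • A, ?_, ?_⟩, rfl⟩
  · generalize c • A = B at hB ⊢
    have : (1 + B) * (1 - B) = 1 - B * B := by noncomm_ring
    rw [this, hB, sub_zero]
  · generalize c • A = B at hB ⊢
    have : (1 - B) * (1 + B) = 1 - B * B := by noncomm_ring
    rw [this, hB, sub_zero]

theorem good_one (G : Subgroup (LinearMap.GeneralLinearGroup k M)) (K I : Submodule k M) :
    Good G K I 1 := by
  refine ⟨G.one_mem, ?_, ?_, ?_⟩
  · rintro τ ⟨c, hc⟩
    have : τ = 1 := by
      apply Units.ext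
      rw [hc]; simp
    rw [this]; exact G.one_mem
  · simp
  · simp

theorem good_mul {G : Subgroup (LinearMap.GeneralLinearGroup k M)} {K I : Submodule k M}
    (hIK : I ≤ K) {x y : LinearMap.GeneralLinearGroup k M} (hx : Good G K I x)
    (hy : Good G K I y) :
    Good G K I (x * y) ∧ ((x * y : LinearMap.GeneralLinearGroup k M) : M →ₗ[k] M) - 1 =
      ((x : M →ₗ[k] M) - 1) + ((y : M →ₗ[k] M) - 1) := by
  obtain ⟨hxG, hxs, hxk, hxr⟩ := hx
  obtain ⟨hyG, hys, hyk, hyr⟩ := hy
  have hxy : ((x : M →ₗ[k] M) - 1) * ((y : M →ₗ[k] M) - 1) = 0 := nil_mul hIK hxk hyr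
  have hxx : ((x : M →ₗ[k] M) - 1) * ((x : M →ₗ[k] M) - 1) = 0 := nil_mul hIK hxk hxr
  have hyy : ((y : M →ₗ[k] M) - 1) * ((y : M →ₗ[k] M) - 1) = 0 := nil_mul hIK hyk hyr
  have hsum : ((x * y : LinearMap.GeneralLinearGroup k M) : M →ₗ[k] M) - 1 =
      ((x : M →ₗ[k] M) - 1) + ((y : M →ₗ[k] M) - 1) := by
    rw [Units.val_mul]
    have : (x : M →ₗ[k] M) * (y : M →ₗ[k] M) - 1 = ((x : M →ₗ[k] M) - 1) + ((y : M →ₗ[k] M) - 1) +
        ((x : M →ₗ[k] M) - 1) * ((y : M →ₗ[k] M) - 1) := by noncomm_ring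
    rw [this, hxy, add_zero]
  refine ⟨⟨G.mul_mem hxG hyG, ?_, ?_, ?_⟩, hsum⟩
  · rintro τ ⟨c, hc⟩
    rw [hsum] at hc
    obtain ⟨ux, hux⟩ := unit_of_nil c hxx
    obtain ⟨uy, huy⟩ := unit_of_nil c hyy
    have h1 : ux ∈ G := hxs ⟨c, hux⟩
    have h2 : uy ∈ G := hys ⟨c, huy⟩
    have : τ = ux * uy := by
      apply Units.ext
      rw [Units.val_mul, hc, hux, huy]
      have : (1 + c • ((x : M →ₗ[k] M) - 1)) * (1 + c • ((y : M →ₗ[k] M) - 1)) =
          1 + c • (((x : M →ₗ[k] M) - 1) + ((y : M →ₗ[k] M) - 1)) +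
            (c * c) • (((x : M →ₗ[k] M) - 1) * ((y : M →ₗ[k] M) - 1)) := by
        simp only [mul_add, add_mul, one_mul, mul_one, smul_add, smul_mul_assoc, mul_smul_comm,
          smul_smul]
        abel
      rw [this, hxy, smul_zero, add_zero]
    rw [this]; exact G.mul_mem h1 h2
  · intro v hv
    rw [hsum, LinearMap.mem_ker, LinearMap.add_apply]
    have h1 := hxk hv
    have h2 := hyk hv
    rw [LinearMap.mem_ker] at h1 h2
    rw [h1, h2, add_zero]
  · rintro _ ⟨v, rfl⟩
    rw [hsum, LinearMap.add_apply]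
    exact I.add_mem (hxr ⟨v, rfl⟩) (hyr ⟨v, rfl⟩)

theorem good_inv {G : Subgroup (LinearMap.GeneralLinearGroup k M)} {K I : Submodule k M}
    (hIK : I ≤ K) {x : LinearMap.GeneralLinearGroup k M} (hx : Good G K I x) :
    Good G K I x⁻¹ := by
  obtain ⟨hxG, hxs, hxk, hxr⟩ := hx
  have hxx : ((x : M →ₗ[k] M) - 1) * ((x : M →ₗ[k] M) - 1) = 0 := nil_mul hIK hxk hxr
  have hinv : ((x⁻¹ : LinearMap.GeneralLinearGroup k M) : M →ₗ[k] M) =
      1 - ((x : M →ₗ[k] M) - 1) := by
    apply Units.inv_eq_of_mul_eq_one_right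
    have : (x : M →ₗ[k] M) * (1 - ((x : M →ₗ[k] M) - 1)) =
        1 - ((x : M →ₗ[k] M) - 1) * ((x : M →ₗ[k] M) - 1) := by noncomm_ring
    rw [this, hxx, sub_zero]
  have hN : ((x⁻¹ : LinearMap.GeneralLinearGroup k M) : M →ₗ[k] M) - 1 =
      -((x : M →ₗ[k] M) - 1) := by
    rw [hinv]; abel
  refine ⟨G.inv_mem hxG, ?_, ?_, ?_⟩
  · rintro τ ⟨c, hc⟩
    apply hxs
    refine ⟨-c, ?_⟩
    rw [hc, hN, smul_neg, neg_smul]
  · rw [hN]; intro v hv
    have h1 := hxk hv
    rw [LinearMap.mem_ker] at h1 ⊢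
    rw [LinearMap.neg_apply, h1, neg_zero]
  · rw [hN]; rintro _ ⟨v, rfl⟩
    rw [LinearMap.neg_apply]
    exact I.neg_mem (hxr ⟨v, rfl⟩)

end aux

/-- Let k be a field of characteristic not 2 with k not of order 3, M a finite-dimensional k-vector space and G ≤ GL(M) such that (G, M) is a quadratic pair (M irreducible for G, and G generated by its quadratically acting elements σ whose scalar family 1 + c(σ − 1), c ∈ k, lies in G). Write 𝒬_d for the quadratic elements of G of minimal commutator rank, E(σ) for the subgroup generated by the members of 𝒬_d with the same fixed space and commutator space as σ, and Σ for the set of these subgroups. Then for σ ∈ 𝒬_d the subgroup E(σ) consists exactly of those members together with the identity, it is abelian, and if k has prime characteristic p every element of E(σ) has order dividing p. -/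
theorem result {k : Type u} [Field k] (hk2 : ringChar k ≠ 2) (hk3 : Nat.card k ≠ 3)
    {M : Type u} [AddCommGroup M] [Module k M] [FiniteDimensional k M]
    {G : Subgroup (LinearMap.GeneralLinearGroup k M)} (hG : Cfsg.IsQuadraticPair G)
    {σ : LinearMap.GeneralLinearGroup k M} (hσ : σ ∈ Cfsg.minimalQuadraticElements G) :
    (Cfsg.sameActionSubgroup G σ : Set (LinearMap.GeneralLinearGroup k M)) = Cfsg.sameActionClass G σ ∪ {1} ∧
    IsMulCommutative ↥(Cfsg.sameActionSubgroup G σ) ∧
    (∀ p : ℕ, p.Prime → ringChar k = p → ∀ x ∈ Cfsg.sameActionSubgroup G σ, x ^ p = 1) := by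
  obtain ⟨hσq, hσmin⟩ := hσ
  obtain ⟨K, hK⟩ : ∃ K : Submodule k M, K = LinearMap.ker ((σ : M →ₗ[k] M) - 1) := ⟨_, rfl⟩
  obtain ⟨I, hI⟩ : ∃ I : Submodule k M, I = LinearMap.range ((σ : M →ₗ[k] M) - 1) := ⟨_, rfl⟩
  have hIK : I ≤ K := by
    rw [hI, hK]
    rintro _ ⟨w, rfl⟩
    rw [LinearMap.mem_ker]
    have := congrArg (fun f : M →ₗ[k] M => f w) hσq.2.1.1
    simpa using this
  have hgen : ∀ τ ∈ Cfsg.sameActionClass G σ, Good G K I τ := by
    rintro τ ⟨⟨hτq, _⟩, hker, hrange⟩
    exact ⟨hτq.1, hτq.2.2, by rw [hK, hker], by rw [hI, hrange]⟩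
  have hcl : ∀ x ∈ Cfsg.sameActionSubgroup G σ, Good G K I x := by
    intro x hx
    induction hx using Subgroup.closure_induction with
    | mem x hx => exact hgen x hx
    | one => exact good_one G K I
    | mul x y _ _ hx hy => exact (good_mul hIK hx hy).1
    | inv x _ hx => exact good_inv hIK hx
  refine ⟨?_, ?_, ?_⟩
  · ext x
    constructor
    · intro hx
      by_cases hx1 : x = 1
      · right; exact hx1
      · left
        obtain ⟨hxG, hxs, hxk, hxr⟩ := hcl x hx
        have hNN : ((x : M →ₗ[k] M) - 1) * ((x : M →ₗ[k] M) - 1) = 0 := nil_mul hIK hxk hxr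
        have hN0 : (x : M →ₗ[k] M) - 1 ≠ 0 := by
          intro h0
          apply hx1
          apply Units.ext
          rw [Units.val_one]; exact sub_eq_zero.mp h0
        have hxq : x ∈ Cfsg.quadraticElements G := ⟨hxG, ⟨hNN, hN0⟩, hxs⟩
        have hrk1 : Cfsg.commutatorRank x ≤ Cfsg.commutatorRank σ := by
          show Module.finrank k _ ≤ Module.finrank k _
          rw [← hI]
          exact Submodule.finrank_mono hxr
        have hrk2 : Cfsg.commutatorRank σ ≤ Cfsg.commutatorRank x := hσmin x hxq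
        have hrk2' : Module.finrank k I ≤ Module.finrank k (LinearMap.range ((x : M →ₗ[k] M) - 1)) := by
          rw [hI]; exact hrk2
        have hrange : LinearMap.range ((x : M →ₗ[k] M) - 1) = I :=
          Submodule.eq_of_le_of_finrank_le hxr hrk2'
        have hker : LinearMap.ker ((x : M →ₗ[k] M) - 1) = K := by
          symm
          apply Submodule.eq_of_le_of_finrank_le hxk
          have e1 := LinearMap.finrank_range_add_finrank_ker ((x : M →ₗ[k] M) - 1)
          have e2 := LinearMap.finrank_range_add_finrank_ker ((σ : M →ₗ[k] M) - 1)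
          rw [hrange] at e1
          rw [← hI, ← hK] at e2
          omega
        exact ⟨⟨hxq, fun τ hτ => le_trans hrk1 (hσmin τ hτ)⟩, by rw [hker, hK], by rw [hrange, hI]⟩
    · rintro (hx | hx)
      · exact Subgroup.subset_closure hx
      · rw [Set.mem_singleton_iff] at hx; rw [hx]; exact Subgroup.one_mem _
  · refine ⟨⟨fun a b => ?_⟩⟩
    apply Subtype.ext
    apply Units.ext
    have ha := hcl a.1 a.2
    have hb := hcl b.1 b.2
    have h1 := (good_mul hIK ha hb).2
    have h2 := (good_mul hIK hb ha).2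
    have : ((a.1 * b.1 : LinearMap.GeneralLinearGroup k M) : M →ₗ[k] M) - 1 =
        ((b.1 * a.1 : LinearMap.GeneralLinearGroup k M) : M →ₗ[k] M) - 1 := by
      rw [h1, h2, add_comm]
    exact sub_left_inj.mp this
  · intro p hp hchar x hx
    have hx' := hcl x hx
    have hpow : ∀ n : ℕ, Good G K I (x ^ n) ∧
        ((x ^ n : LinearMap.GeneralLinearGroup k M) : M →ₗ[k] M) - 1 = n • ((x : M →ₗ[k] M) - 1) := by
      intro n
      induction n with
      | zero => exact ⟨by rw [pow_zero]; exact good_one G K I, by simp⟩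
      | succ n ih =>
        rw [pow_succ]
        refine ⟨(good_mul hIK ih.1 hx').1, ?_⟩
        rw [(good_mul hIK ih.1 hx').2, ih.2, succ_nsmul]
    apply Units.ext
    have h := (hpow p).2
    rw [Units.val_one]
    have hp0 : (p : k) = 0 := by rw [← hchar]; exact ringChar.Nat.cast_ringChar
    have h0 : p • ((x : M →ₗ[k] M) - 1) = 0 := by
      rw [← Nat.cast_smul_eq_nsmul k, hp0, zero_smul]
    rw [h0] at h
    exact sub_eq_zero.mp h

end Cfsg.Agent.S5059
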