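import Cfsg.Statements.S5061
import Mathlib

set_option autoImplicit false
open Cfsg

namespace Cfsg.Agent.S5061

variable {k : Type*} [Field k] {M : Type*} [AddCommGroup M] [Module k M]

/-- The endomorphism `g - 1`. -/
def dd (g : LinearMap.GeneralLinearGroup k M) : M →ₗ[k] M := (g : M →ₗ[k] M) - 1

theorem dd_apply (g : LinearMap.GeneralLinearGroup k M) (v : M) : dd g v = g • v - v := rfl

theorem smul_eq_add_dd (g : LinearMap.GeneralLinearGroup k M) (v : M) : g • v = v + dd g v := by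
  rw [dd_apply]; abel

theorem dd_mul (x y : LinearMap.GeneralLinearGroup k M) (v : M) :
    dd (x * y) v = x • dd y v + dd x v := by
  simp only [dd_apply, mul_smul, smul_sub]; abel

theorem dd_inv (x : LinearMap.GeneralLinearGroup k M) (v : M) :
    dd x⁻¹ v = -(x⁻¹ • dd x v) := by
  simp only [dd_apply, smul_sub, inv_smul_smul]; abel

theorem dd_one (v : M) : dd (1 : LinearMap.GeneralLinearGroup k M) v = 0 := by
  simp [dd_apply]

theorem dd_conj (a b : LinearMap.GeneralLinearGroup k M) (v : M) :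
    dd (a * b * a⁻¹) v = a • dd b (a⁻¹ • v) := by
  simp only [dd_apply, mul_smul, smul_sub, smul_inv_smul]

theorem dd_smul (a b : LinearMap.GeneralLinearGroup k M) (e : M) :
    dd b (a • e) = a • dd (a⁻¹ * b * a) e := by
  simp only [dd_apply, mul_smul, smul_sub, smul_inv_smul]

/-- The list product of the `g - 1`. -/
def pr (l : List (LinearMap.GeneralLinearGroup k M)) : M →ₗ[k] M := (l.map dd).prod

theorem pr_nil (v : M) : pr ([] : List (LinearMap.GeneralLinearGroup k M)) v = v := rfl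

theorem pr_cons (g : LinearMap.GeneralLinearGroup k M) (l : List (LinearMap.GeneralLinearGroup k M))
    (v : M) : pr (g :: l) v = dd g (pr l v) := by
  simp [pr, List.map_cons, List.prod_cons]

theorem pr_append (l₁ l₂ : List (LinearMap.GeneralLinearGroup k M)) (v : M) :
    pr (l₁ ++ l₂) v = pr l₁ (pr l₂ v) := by
  simp [pr, List.map_append, List.prod_append]

theorem coe_list (l : List (LinearMap.GeneralLinearGroup k M)) :
    (l.map fun g => (g : M →ₗ[k] M) - 1).prod = pr l := by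
  have h : ∀ t : List (LinearMap.GeneralLinearGroup k M),
      (List.flatMap (fun a => [(Units.val a : M →ₗ[k] M)]) t) =
        t.map (fun a => (Units.val a : M →ₗ[k] M)) := by
    intro t
    induction t with
    | nil => rfl
    | cons g t ih => simp [List.flatMap_cons, ih]
  have h2 : (l.map fun g => (g : M →ₗ[k] M) - 1) = l.map dd := by
    show List.map (fun g => g - 1) (List.flatMap (fun a => [(Units.val a : M →ₗ[k] M)]) l) = _
    rw [h, List.map_map]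
    rfl
  rw [h2]
  rfl

/-- All products of `n` endomorphisms `g - 1`, `g ∈ S`, map `N₂` into `N₁`. -/
def Sec (S : Set (LinearMap.GeneralLinearGroup k M)) (N₁ N₂ : Submodule k M) (n : ℕ) : Prop :=
  ∀ l : List (LinearMap.GeneralLinearGroup k M), (∀ g ∈ l, g ∈ S) → l.length = n →
    ∀ v ∈ N₂, pr l v ∈ N₁

theorem Sec.mono {S S' : Set (LinearMap.GeneralLinearGroup k M)} {N₁ N₂ N₁' N₂' : Submodule k M}
    {n : ℕ} (h : Sec S' N₁ N₂ n) (hS : S ⊆ S') (h1 : N₁ ≤ N₁') (h2 : N₂' ≤ N₂) :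
    Sec S N₁' N₂' n :=
  fun l hl hn v hv => h1 (h l (fun g hg => hS (hl g hg)) hn v (h2 hv))

theorem Sec.comp {S : Set (LinearMap.GeneralLinearGroup k M)} {N₁ E N₂ : Submodule k M}
    {n₁ n₂ : ℕ} (h1 : Sec S N₁ E n₁) (h2 : Sec S E N₂ n₂) : Sec S N₁ N₂ (n₁ + n₂) := by
  intro l hl hn v hv
  have hsplit : l = l.take n₁ ++ l.drop n₁ := (List.take_append_drop n₁ l).symm
  rw [hsplit, pr_append]
  refine h1 _ (fun g hg => hl g (List.mem_of_mem_take hg)) ?_ _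
    (h2 _ (fun g hg => hl g (List.mem_of_mem_drop hg)) ?_ v hv)
  · rw [List.length_take]; omega
  · rw [List.length_drop]; omega

/-- A fixed vector modulo `N₁` for a family acting nilpotently on the section. -/
theorem exists_fixed (S : Set (LinearMap.GeneralLinearGroup k M)) (N₁ N₂ : Submodule k M)
    (hstab : ∀ g ∈ S, ∀ v ∈ N₂, dd g v ∈ N₂) (hne : ¬ N₂ ≤ N₁) (n : ℕ) (h : Sec S N₁ N₂ n) :
    ∃ w ∈ N₂, w ∉ N₁ ∧ ∀ s ∈ S, dd s w ∈ N₁ := by
  have key : ∀ n : ℕ, ∀ w ∈ N₂, w ∉ N₁ →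
      (∀ l : List (LinearMap.GeneralLinearGroup k M), (∀ g ∈ l, g ∈ S) → l.length = n →
        pr l w ∈ N₁) → ∃ w' ∈ N₂, w' ∉ N₁ ∧ ∀ s ∈ S, dd s w' ∈ N₁ := by
    intro n
    induction n with
    | zero =>
      intro w _ hw1 hl
      exact absurd (hl [] (by simp) rfl) hw1
    | succ n ih =>
      intro w hw2 hw1 hl
      by_cases hall : ∀ s ∈ S, dd s w ∈ N₁
      · exact ⟨w, hw2, hw1, hall⟩
      · push Not at hall
        obtain ⟨s, hs, hsw⟩ := hall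
        refine ih (dd s w) (hstab s hs w hw2) hsw ?_
        intro l hl' hn
        have := hl (l ++ [s]) (by
          intro g hg
          rcases List.mem_append.mp hg with hg | hg
          · exact hl' g hg
          · rw [List.mem_singleton] at hg; rw [hg]; exact hs) (by simp [hn])
        rw [pr_append] at this
        simpa [pr_cons, pr_nil] using this
  obtain ⟨w, hw2, hw1⟩ := Set.not_subset.mp hne
  exact key n w hw2 hw1 (fun l hl hn => h l hl hn w hw2)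

/-- The subgroup generated by a family of subgroups. -/
def UU (Δ : Set (Subgroup (LinearMap.GeneralLinearGroup k M))) :
    Subgroup (LinearMap.GeneralLinearGroup k M) :=
  Subgroup.closure {g | ∃ A ∈ Δ, g ∈ A}

theorem iSup_eq_UU (Δ : Set (Subgroup (LinearMap.GeneralLinearGroup k M))) :
    (⨆ A ∈ Δ, A) = UU Δ := by
  apply le_antisymm
  · exact iSup₂_le fun A hA g hg => Subgroup.subset_closure ⟨A, hA, hg⟩
  · rw [UU, Subgroup.closure_le]
    rintro g ⟨A, hA, hg⟩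
    exact (le_iSup₂ (f := fun (A : Subgroup (LinearMap.GeneralLinearGroup k M)) (_ : A ∈ Δ) => A)
      A hA) hg

theorem mem_UU {Δ : Set (Subgroup (LinearMap.GeneralLinearGroup k M))}
    {A : Subgroup (LinearMap.GeneralLinearGroup k M)} (hA : A ∈ Δ)
    {a : LinearMap.GeneralLinearGroup k M} (ha : a ∈ A) : a ∈ UU Δ :=
  Subgroup.subset_closure ⟨A, hA, ha⟩

theorem UU_mono {Δ Δ' : Set (Subgroup (LinearMap.GeneralLinearGroup k M))} (h : Δ ⊆ Δ') :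
    UU Δ ≤ UU Δ' :=
  Subgroup.closure_mono fun _ ⟨A, hA, hg⟩ => ⟨A, h hA, hg⟩

/-- Every member of the family maps `N` into itself. -/
def StabF (Δ : Set (Subgroup (LinearMap.GeneralLinearGroup k M))) (N : Submodule k M) : Prop :=
  ∀ A ∈ Δ, ∀ a ∈ A, ∀ v ∈ N, a • v ∈ N

theorem UU_stab {Δ : Set (Subgroup (LinearMap.GeneralLinearGroup k M))} {N : Submodule k M}
    (h : StabF Δ N) : ∀ u ∈ UU Δ, ∀ v ∈ N, u • v ∈ N := by
  have key : ∀ u ∈ UU Δ, (∀ v ∈ N, u • v ∈ N) ∧ (∀ v ∈ N, u⁻¹ • v ∈ N) := by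
    intro u hu
    induction hu using Subgroup.closure_induction with
    | mem x hx =>
      obtain ⟨A, hA, hxA⟩ := hx
      exact ⟨h A hA x hxA, h A hA x⁻¹ (A.inv_mem hxA)⟩
    | one => exact ⟨fun v hv => by simpa using hv, fun v hv => by simpa using hv⟩
    | mul x y _ _ ihx ihy =>
      refine ⟨fun v hv => ?_, fun v hv => ?_⟩
      · rw [mul_smul]; exact ihx.1 _ (ihy.1 v hv)
      · rw [mul_inv_rev, mul_smul]; exact ihy.2 _ (ihx.2 v hv)
    | inv x _ ihx => exact ⟨ihx.2, by simpa using ihx.1⟩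
  exact fun u hu => (key u hu).1

theorem UU_dd_stab {Δ : Set (Subgroup (LinearMap.GeneralLinearGroup k M))} {N : Submodule k M}
    (h : StabF Δ N) : ∀ u ∈ UU Δ, ∀ v ∈ N, dd u v ∈ N := by
  intro u hu v hv
  rw [dd_apply]
  exact N.sub_mem (UU_stab h u hu v hv) hv

/-- If the members of `Δ` centralize `F` modulo `N₁`, so does the subgroup they generate. -/
theorem UU_cent {Δ : Set (Subgroup (LinearMap.GeneralLinearGroup k M))} {N₁ : Submodule k M}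
    (h1 : StabF Δ N₁) (F : Set M) (hF : ∀ A ∈ Δ, ∀ a ∈ A, ∀ v ∈ F, dd a v ∈ N₁) :
    ∀ u ∈ UU Δ, ∀ v ∈ F, dd u v ∈ N₁ := by
  intro u hu
  have hu' := hu
  induction hu using Subgroup.closure_induction with
  | mem x hx =>
    obtain ⟨A, hA, hxA⟩ := hx
    exact hF A hA x hxA
  | one => intro v _; rw [dd_one]; exact N₁.zero_mem
  | mul x y hx hy ihx ihy =>
    intro v hv
    rw [dd_mul]
    exact N₁.add_mem (UU_stab h1 x hx _ (ihy hy v hv)) (ihx hx v hv)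
  | inv x hx ihx =>
    intro v hv
    rw [dd_inv]
    exact N₁.neg_mem (UU_stab h1 x⁻¹ ((UU Δ).inv_mem hx) _ (ihx hx v hv))


theorem mem_conjBy {B : Subgroup (LinearMap.GeneralLinearGroup k M)} {a x : LinearMap.GeneralLinearGroup k M} :
    x ∈ conjBy B a ↔ ∃ b ∈ B, a * b * a⁻¹ = x := by
  simp [conjBy, Subgroup.mem_map, MulAut.conj_apply]

/-- Vectors of `N₂` centralized modulo `N₁` by every member of `Δ`. -/
def Cfix (N₁ N₂ : Submodule k M) (Δ : Set (Subgroup (LinearMap.GeneralLinearGroup k M))) : Submodule k M where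
  carrier := {v | v ∈ N₂ ∧ ∀ A ∈ Δ, ∀ a ∈ A, dd a v ∈ N₁}
  add_mem' := by
    rintro v w ⟨hv, hv'⟩ ⟨hw, hw'⟩
    exact ⟨N₂.add_mem hv hw, fun A hA a ha => by
      rw [map_add]; exact N₁.add_mem (hv' A hA a ha) (hw' A hA a ha)⟩
  zero_mem' := ⟨N₂.zero_mem, fun A hA a ha => by rw [map_zero]; exact N₁.zero_mem⟩
  smul_mem' := by
    rintro c v ⟨hv, hv'⟩
    exact ⟨N₂.smul_mem c hv, fun A hA a ha => by
      rw [map_smul]; exact N₁.smul_mem c (hv' A hA a ha)⟩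

theorem mem_Cfix {N₁ N₂ : Submodule k M} {Δ : Set (Subgroup (LinearMap.GeneralLinearGroup k M))} {v : M} :
    v ∈ Cfix N₁ N₂ Δ ↔ v ∈ N₂ ∧ ∀ A ∈ Δ, ∀ a ∈ A, dd a v ∈ N₁ := Iff.rfl

theorem Cfix_le (N₁ N₂ : Submodule k M) (Δ : Set (Subgroup (LinearMap.GeneralLinearGroup k M))) : Cfix N₁ N₂ Δ ≤ N₂ :=
  fun _ hv => (mem_Cfix.mp hv).1

theorem Cfix_anti {N₁ N₂ : Submodule k M} {Δ Δ' : Set (Subgroup (LinearMap.GeneralLinearGroup k M))} (h : Δ ⊆ Δ') :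
    Cfix N₁ N₂ Δ' ≤ Cfix N₁ N₂ Δ :=
  fun _ hv => mem_Cfix.mpr ⟨(mem_Cfix.mp hv).1, fun A hA => (mem_Cfix.mp hv).2 A (h hA)⟩

/-- Members of `W` centralizing `F` modulo `N₁`. -/
def Dstar (N₁ : Submodule k M) (W : Set (Subgroup (LinearMap.GeneralLinearGroup k M))) (F : Submodule k M) :
    Set (Subgroup (LinearMap.GeneralLinearGroup k M)) :=
  {B | B ∈ W ∧ ∀ b ∈ B, ∀ v ∈ F, dd b v ∈ N₁}

/-- Members of `W` stabilizing `E`. -/
def WE (W : Set (Subgroup (LinearMap.GeneralLinearGroup k M))) (E : Submodule k M) : Set (Subgroup (LinearMap.GeneralLinearGroup k M)) :=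
  {B | B ∈ W ∧ ∀ b ∈ B, ∀ v ∈ E, b • v ∈ E}

/-- A special subspace: a relative fixed space not inside `N₁`. -/
def Special (N₁ N₂ : Submodule k M) (W : Set (Subgroup (LinearMap.GeneralLinearGroup k M))) (F : Submodule k M) : Prop :=
  ∃ Δ : Set (Subgroup (LinearMap.GeneralLinearGroup k M)), Δ ⊆ W ∧ F = Cfix N₁ N₂ Δ ∧ ¬ F ≤ N₁

/-- A minimal special subspace. -/
def MinSpecial (N₁ N₂ : Submodule k M) (W : Set (Subgroup (LinearMap.GeneralLinearGroup k M))) (F : Submodule k M) : Prop :=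
  Special N₁ N₂ W F ∧ ∀ S : Submodule k M, Special N₁ N₂ W S → S ≤ F → S = F

theorem Special.le {N₁ N₂ : Submodule k M} {W : Set (Subgroup (LinearMap.GeneralLinearGroup k M))} {F : Submodule k M}
    (h : Special N₁ N₂ W F) : F ≤ N₂ := by
  obtain ⟨Δ, _, rfl, _⟩ := h
  exact Cfix_le _ _ _

theorem Cfix_Dstar {N₁ N₂ : Submodule k M} {W : Set (Subgroup (LinearMap.GeneralLinearGroup k M))} {F : Submodule k M}
    (h : Special N₁ N₂ W F) : Cfix N₁ N₂ (Dstar N₁ W F) = F := by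
  have hle := h.le
  obtain ⟨Δ, hΔ, hF, _⟩ := h
  apply le_antisymm
  · intro v hv
    rw [hF]
    refine mem_Cfix.mpr ⟨(mem_Cfix.mp hv).1, fun A hA a ha =>
      (mem_Cfix.mp hv).2 A ⟨hΔ hA, fun b hb w hw => ?_⟩ a ha⟩
    rw [hF] at hw
    exact (mem_Cfix.mp hw).2 A hA b hb
  · intro v hv
    exact mem_Cfix.mpr ⟨hle hv, fun B hB b hb => hB.2 b hb v hv⟩

theorem exists_min [FiniteDimensional k M] {N₁ N₂ : Submodule k M} {W : Set (Subgroup (LinearMap.GeneralLinearGroup k M))} :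
    ∀ (m : ℕ) (S : Submodule k M), Module.finrank k S ≤ m → Special N₁ N₂ W S →
      ∃ F, MinSpecial N₁ N₂ W F ∧ F ≤ S := by
  intro m
  induction m with
  | zero =>
    intro S hS hsp
    have : S = ⊥ := Submodule.finrank_eq_zero.mp (Nat.le_zero.mp hS)
    obtain ⟨Δ, _, _, hne⟩ := hsp
    exact absurd (this ▸ bot_le) hne
  | succ m ih =>
    intro S hS hsp
    by_cases hmin : ∀ S' : Submodule k M, Special N₁ N₂ W S' → S' ≤ S → S' = S
    · exact ⟨S, ⟨hsp, hmin⟩, le_rfl⟩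
    · push Not at hmin
      obtain ⟨S', hS', hle, hne⟩ := hmin
      have hlt : S' < S := lt_of_le_of_ne hle hne
      have := Submodule.finrank_lt_finrank_of_lt hlt
      obtain ⟨F, hF, hFS⟩ := ih S' (by omega) hS'
      exact ⟨F, hF, hFS.trans hle⟩

/-- The standing hypotheses on a section `N₁ ≤ N₂` and a family `W`. -/
structure Sys (N₁ N₂ : Submodule k M) (W : Set (Subgroup (LinearMap.GeneralLinearGroup k M))) : Prop where
  le : N₁ ≤ N₂
  stab₁ : StabF W N₁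
  stab₂ : StabF W N₂
  conj : ∀ A ∈ W, ∀ B ∈ W, ∀ a ∈ A, conjBy B a ∈ W
  pair : ∀ A ∈ W, ∀ B ∈ W, ∃ n, Sec ((A ⊔ B : Subgroup (LinearMap.GeneralLinearGroup k M)) : Set (LinearMap.GeneralLinearGroup k M)) N₁ N₂ n

/-- The flag of iterated fixed points. -/
def InV (U : Subgroup (LinearMap.GeneralLinearGroup k M)) (N₁ N₂ : Submodule k M) (i : ℕ) (v : M) : Prop :=
  v ∈ N₂ ∧ ∀ l : List (LinearMap.GeneralLinearGroup k M), (∀ g ∈ l, g ∈ U) → l.length = i → pr l v ∈ N₁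

theorem pr_mem {U : Subgroup (LinearMap.GeneralLinearGroup k M)} {N : Submodule k M}
    (hU : ∀ u ∈ U, ∀ v ∈ N, dd u v ∈ N) (l : List (LinearMap.GeneralLinearGroup k M)) (hl : ∀ g ∈ l, g ∈ U) (v : M) (hv : v ∈ N) :
    pr l v ∈ N := by
  induction l with
  | nil => rw [pr_nil]; exact hv
  | cons g t ih =>
    rw [pr_cons]
    exact hU g (hl g (by simp)) _ (ih (fun x hx => hl x (by simp [hx])))

theorem InV_of_mem {U : Subgroup (LinearMap.GeneralLinearGroup k M)} {N₁ N₂ : Submodule k M} (hle : N₁ ≤ N₂)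
    (hU1 : ∀ u ∈ U, ∀ v ∈ N₁, dd u v ∈ N₁) (i : ℕ) {v : M} (hv : v ∈ N₁) : InV U N₁ N₂ i v :=
  ⟨hle hv, fun l hl _ => pr_mem hU1 l hl v hv⟩

theorem InV_zero {U : Subgroup (LinearMap.GeneralLinearGroup k M)} {N₁ N₂ : Submodule k M} {v : M} (h : InV U N₁ N₂ 0 v) :
    v ∈ N₁ := by
  have := h.2 [] (by simp) rfl
  rwa [pr_nil] at this

theorem InV_succ {U : Subgroup (LinearMap.GeneralLinearGroup k M)} {N₁ N₂ : Submodule k M}
    (hU1 : ∀ u ∈ U, ∀ v ∈ N₁, dd u v ∈ N₁) {i : ℕ} {v : M} (h : InV U N₁ N₂ i v) :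
    InV U N₁ N₂ (i + 1) v := by
  refine ⟨h.1, fun l hl hlen => ?_⟩
  cases l with
  | nil => simp at hlen
  | cons g t =>
    rw [pr_cons]
    exact hU1 g (hl g (by simp)) _ (h.2 t (fun x hx => hl x (by simp [hx])) (by simpa using hlen))

theorem InV_dd {U : Subgroup (LinearMap.GeneralLinearGroup k M)} {N₁ N₂ : Submodule k M}
    (hU2 : ∀ u ∈ U, ∀ v ∈ N₂, dd u v ∈ N₂) {i : ℕ} {u : LinearMap.GeneralLinearGroup k M} (hu : u ∈ U) {v : M}
    (h : InV U N₁ N₂ (i + 1) v) : InV U N₁ N₂ i (dd u v) := by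
  refine ⟨hU2 u hu v h.1, fun l hl hlen => ?_⟩
  have := h.2 (l ++ [u]) (by
    intro g hg
    rcases List.mem_append.mp hg with hg | hg
    · exact hl g hg
    · rw [List.mem_singleton] at hg; rw [hg]; exact hu) (by simp [hlen])
  rw [pr_append] at this
  simpa [pr_cons, pr_nil] using this

theorem InV_add {U : Subgroup (LinearMap.GeneralLinearGroup k M)} {N₁ N₂ : Submodule k M} {i : ℕ} {v w : M}
    (hv : InV U N₁ N₂ i v) (hw : InV U N₁ N₂ i w) : InV U N₁ N₂ i (v + w) :=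
  ⟨N₂.add_mem hv.1 hw.1, fun l hl hlen => by
    rw [map_add]; exact N₁.add_mem (hv.2 l hl hlen) (hw.2 l hl hlen)⟩

theorem InV_smul {U : Subgroup (LinearMap.GeneralLinearGroup k M)} {N₁ N₂ : Submodule k M}
    (hU1 : ∀ u ∈ U, ∀ v ∈ N₁, dd u v ∈ N₁) (hU2 : ∀ u ∈ U, ∀ v ∈ N₂, dd u v ∈ N₂)
    {i : ℕ} {u : LinearMap.GeneralLinearGroup k M} (hu : u ∈ U) {v : M} (h : InV U N₁ N₂ i v) : InV U N₁ N₂ i (u • v) := by
  rw [smul_eq_add_dd]
  exact InV_add h (InV_dd hU2 hu (InV_succ hU1 h))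

theorem norm_step {N₁ N₂ : Submodule k M} {W : Set (Subgroup (LinearMap.GeneralLinearGroup k M))} (hS : Sys N₁ N₂ W)
    {F₁ F₂ : Submodule k M} (h1 : MinSpecial N₁ N₂ W F₁) (h2 : MinSpecial N₁ N₂ W F₂)
    (hne : F₁ ≠ F₂) (hN1F1 : N₁ ≤ F₁)
    (hU : ∃ n, Sec (UU (Dstar N₁ W F₁) : Set (LinearMap.GeneralLinearGroup k M)) N₁ N₂ n) :
    ∃ A ∈ Dstar N₁ W F₁, A ∉ Dstar N₁ W F₂ ∧
      ∀ a ∈ A, ∀ e ∈ Cfix N₁ N₂ (Dstar N₁ W F₁ ∩ Dstar N₁ W F₂),
        a • e ∈ Cfix N₁ N₂ (Dstar N₁ W F₁ ∩ Dstar N₁ W F₂) := by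
  classical
  obtain ⟨n, hn⟩ := hU
  have hΔ₁W : Dstar N₁ W F₁ ⊆ W := fun B hB => hB.1
  have hst1 : StabF (Dstar N₁ W F₁) N₁ := fun A hA => hS.stab₁ A (hΔ₁W hA)
  have hst2 : StabF (Dstar N₁ W F₁) N₂ := fun A hA => hS.stab₂ A (hΔ₁W hA)
  have hU1 := UU_dd_stab hst1
  have hU2 := UU_dd_stab hst2
  have hF2E : F₂ ≤ Cfix N₁ N₂ (Dstar N₁ W F₁ ∩ Dstar N₁ W F₂) := by
    conv_lhs => rw [← Cfix_Dstar h2.1]
    exact Cfix_anti Set.inter_subset_right
  have hex0 : ∃ A ∈ Dstar N₁ W F₁, A ∉ Dstar N₁ W F₂ := by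
    by_contra hcon
    push Not at hcon
    have : F₂ ≤ F₁ := by
      conv_lhs => rw [← Cfix_Dstar h2.1]
      conv_rhs => rw [← Cfix_Dstar h1.1]
      exact Cfix_anti hcon
    exact hne (h1.2 F₂ h2.1 this).symm
  have hexP : ∃ i, ∃ A ∈ Dstar N₁ W F₁, A ∉ Dstar N₁ W F₂ ∧
      ∀ a ∈ A, ∀ e ∈ Cfix N₁ N₂ (Dstar N₁ W F₁ ∩ Dstar N₁ W F₂),
        InV (UU (Dstar N₁ W F₁)) N₁ N₂ i (dd a e) := by
    obtain ⟨A, hA, hA2⟩ := hex0
    refine ⟨n, A, hA, hA2, fun a ha e he => ?_⟩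
    have hde : dd a e ∈ N₂ := hU2 a (mem_UU hA ha) e (mem_Cfix.mp he).1
    exact ⟨hde, fun l hl hlen => hn l hl hlen _ hde⟩
  obtain ⟨A, hA, hA2, hP⟩ := Nat.find_spec hexP
  have hmin := fun (j : ℕ) (hj : j < Nat.find hexP) => Nat.find_min hexP hj
  refine ⟨A, hA, hA2, ?_⟩
  have hi0 : Nat.find hexP ≠ 0 := by
    intro h0
    rw [h0] at hP
    apply hA2
    exact ⟨hΔ₁W hA, fun a ha v hv => InV_zero (hP a ha v (hF2E hv))⟩
  obtain ⟨j, hj⟩ := Nat.exists_eq_succ_of_ne_zero hi0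
  rw [hj] at hP
  have hconjΘ : ∀ a ∈ A, ∀ B ∈ Dstar N₁ W F₁ ∩ Dstar N₁ W F₂,
      conjBy B a ∈ Dstar N₁ W F₁ ∩ Dstar N₁ W F₂ := by
    intro a ha B hB
    have hBW : B ∈ W := hB.1.1
    have hB'W : conjBy B a ∈ W := hS.conj A (hΔ₁W hA) B hBW a ha
    have hB'1 : conjBy B a ∈ Dstar N₁ W F₁ := by
      refine ⟨hB'W, ?_⟩
      intro x hx v hv
      obtain ⟨b, hb, rfl⟩ := mem_conjBy.mp hx
      rw [dd_conj]
      have hav : a⁻¹ • v ∈ F₁ := by
        rw [smul_eq_add_dd]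
        exact F₁.add_mem hv (hN1F1 (hA.2 a⁻¹ (A.inv_mem ha) v hv))
      exact hS.stab₁ A (hΔ₁W hA) a ha _ (hB.1.2 b hb _ hav)
    by_contra hcon
    have hB'2 : conjBy B a ∉ Dstar N₁ W F₂ := fun h => hcon ⟨hB'1, h⟩
    apply hmin j (by omega)
    refine ⟨conjBy B a, hB'1, hB'2, ?_⟩
    intro x hx e he
    obtain ⟨b, hb, rfl⟩ := mem_conjBy.mp hx
    rw [dd_conj]
    have haU : a ∈ UU (Dstar N₁ W F₁) := mem_UU hA ha
    have hbU : b ∈ UU (Dstar N₁ W F₁) := mem_UU hB.1 hb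
    apply InV_smul hU1 hU2 haU
    rw [smul_eq_add_dd, map_add]
    apply InV_add
    · exact InV_of_mem hS.le hU1 j ((mem_Cfix.mp he).2 B hB b hb)
    · exact InV_dd hU2 hbU (hP a⁻¹ (A.inv_mem ha) e he)
  intro a ha e he
  refine mem_Cfix.mpr ⟨hS.stab₂ A (hΔ₁W hA) a ha e (mem_Cfix.mp he).1, ?_⟩
  intro B hB b hb
  rw [dd_smul]
  have hmem : a⁻¹ * b * a ∈ conjBy B a⁻¹ := mem_conjBy.mpr ⟨b, hb, by simp⟩
  exact hS.stab₁ A (hΔ₁W hA) a ha _
    ((mem_Cfix.mp he).2 _ (hconjΘ a⁻¹ (A.inv_mem ha) B hB) _ hmem)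

theorem exists_fix [FiniteDimensional k M] {N₁ N₂ : Submodule k M} {W : Set (Subgroup (LinearMap.GeneralLinearGroup k M))}
    (hS : Sys N₁ N₂ W) (hne : ¬ N₂ ≤ N₁)
    (hloc : ∀ E : Submodule k M, N₁ < E → E < N₂ →
      ∃ n, Sec (UU (WE W E) : Set (LinearMap.GeneralLinearGroup k M)) N₁ N₂ n) :
    ∃ w ∈ N₂, w ∉ N₁ ∧ ∀ A ∈ W, ∀ a ∈ A, dd a w ∈ N₁ := by
  classical
  have hN1le : ∀ Δ : Set (Subgroup (LinearMap.GeneralLinearGroup k M)), Δ ⊆ W → N₁ ≤ Cfix N₁ N₂ Δ := by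
    intro Δ hΔ v hv
    refine mem_Cfix.mpr ⟨hS.le hv, fun A hA a ha => ?_⟩
    rw [dd_apply]
    exact N₁.sub_mem (hS.stab₁ A (hΔ hA) a ha v hv) hv
  have hspN2 : Special N₁ N₂ W N₂ := by
    refine ⟨∅, Set.empty_subset _, ?_, hne⟩
    apply le_antisymm
    · intro v hv
      exact mem_Cfix.mpr ⟨hv, fun A hA => absurd hA (Set.notMem_empty A)⟩
    · exact Cfix_le _ _ _
  have hR : ∀ Δ : Set (Subgroup (LinearMap.GeneralLinearGroup k M)), Δ ⊆ W → (∃ n, Sec (UU Δ : Set (LinearMap.GeneralLinearGroup k M)) N₁ N₂ n) →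
      ∃ F, MinSpecial N₁ N₂ W F ∧ Δ ⊆ Dstar N₁ W F := by
    intro Δ hΔ ⟨n, hn⟩
    have hst2 : StabF Δ N₂ := fun A hA => hS.stab₂ A (hΔ hA)
    obtain ⟨w, hw2, hw1, hw⟩ := exists_fixed (UU Δ : Set (LinearMap.GeneralLinearGroup k M)) N₁ N₂ (UU_dd_stab hst2) hne n hn
    have hwC : w ∈ Cfix N₁ N₂ Δ := mem_Cfix.mpr ⟨hw2, fun A hA a ha => hw a (mem_UU hA ha)⟩
    have hsp : Special N₁ N₂ W (Cfix N₁ N₂ Δ) := ⟨Δ, hΔ, rfl, fun h => hw1 (h hwC)⟩
    obtain ⟨F, hF, hFle⟩ := exists_min _ _ le_rfl hsp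
    exact ⟨F, hF, fun A hA => ⟨hΔ hA, fun a ha v hv => (mem_Cfix.mp (hFle hv)).2 A hA a ha⟩⟩
  have hsing : ∀ A ∈ W, ∃ F, MinSpecial N₁ N₂ W F ∧ A ∈ Dstar N₁ W F := by
    intro A hA
    obtain ⟨n, hn⟩ := hS.pair A hA A hA
    have hle : UU ({A} : Set (Subgroup (LinearMap.GeneralLinearGroup k M))) ≤ A ⊔ A := by
      rw [UU, Subgroup.closure_le]
      rintro g ⟨A', hA', hg⟩
      rw [Set.mem_singleton_iff] at hA'
      subst hA'
      exact (le_sup_left : A' ≤ A' ⊔ A') hg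
    obtain ⟨F, hF, hsub⟩ := hR {A} (by simpa using hA) ⟨n, hn.mono hle le_rfl le_rfl⟩
    exact ⟨F, hF, hsub rfl⟩
  obtain ⟨w₀, hw₀2, hw₀1⟩ := Set.not_subset.mp hne
  by_cases hA : MinSpecial N₁ N₂ W N₂
  · refine ⟨w₀, hw₀2, hw₀1, fun A hAW a ha => ?_⟩
    obtain ⟨F, hF, hAF⟩ := hsing A hAW
    have hFN : F = N₂ := hA.2 F hF.1 hF.1.le
    exact hAF.2 a ha w₀ (hFN ▸ hw₀2)
  · have hlt : ∀ F, MinSpecial N₁ N₂ W F → N₁ < F ∧ F < N₂ := by
      intro F hF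
      obtain ⟨Δ, hΔ, hFeq, hFne⟩ := hF.1
      refine ⟨lt_of_le_not_ge (hFeq ▸ hN1le Δ hΔ) hFne, lt_of_le_of_ne hF.1.le ?_⟩
      intro h
      exact hA (h ▸ hF)
    have hDW : ∀ F, MinSpecial N₁ N₂ W F → Dstar N₁ W F ⊆ WE W F := by
      intro F hF B hB
      refine ⟨hB.1, fun b hb v hv => ?_⟩
      rw [smul_eq_add_dd]
      exact F.add_mem hv ((hlt F hF).1.le (hB.2 b hb v hv))
    have h2c : ∀ F, MinSpecial N₁ N₂ W F → ∃ n, Sec (UU (Dstar N₁ W F) : Set (LinearMap.GeneralLinearGroup k M)) N₁ N₂ n := by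
      intro F hF
      obtain ⟨n, hn⟩ := hloc F (hlt F hF).1 (hlt F hF).2
      exact ⟨n, hn.mono (UU_mono (hDW F hF)) le_rfl le_rfl⟩
    by_cases huniq : ∀ F₁ F₂, MinSpecial N₁ N₂ W F₁ → MinSpecial N₁ N₂ W F₂ → F₁ = F₂
    · obtain ⟨F, hF, _⟩ := exists_min _ _ le_rfl hspN2
      obtain ⟨w, hwF, hw1⟩ := Set.not_subset.mp (hlt F hF).1.not_ge
      refine ⟨w, hF.1.le hwF, hw1, fun A hAW a ha => ?_⟩
      obtain ⟨F', hF', hAF⟩ := hsing A hAW
      have : F' = F := huniq F' F hF' hF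
      exact hAF.2 a ha w (this ▸ hwF)
    · exfalso
      push Not at huniq
      have hexm : ∃ m, ∃ F₁ F₂, MinSpecial N₁ N₂ W F₁ ∧ MinSpecial N₁ N₂ W F₂ ∧ F₁ ≠ F₂ ∧
          Module.finrank k (Cfix N₁ N₂ (Dstar N₁ W F₁ ∩ Dstar N₁ W F₂)) = m := by
        obtain ⟨F₁, F₂, h1, h2, hne12⟩ := huniq
        exact ⟨_, F₁, F₂, h1, h2, hne12, rfl⟩
      obtain ⟨F₁, F₂, h1, h2, hne12, hm⟩ := Nat.find_spec hexm
      have hmin := fun (m : ℕ) (hm : m < Nat.find hexm) => Nat.find_min hexm hm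
      obtain ⟨A₁, hA₁, hA₁2, hA₁E⟩ := norm_step hS h1 h2 hne12 (hlt F₁ h1).1.le (h2c F₁ h1)
      obtain ⟨A₂, hA₂, hA₂1, hA₂E⟩ :=
        norm_step hS h2 h1 (Ne.symm hne12) (hlt F₂ h2).1.le (h2c F₂ h2)
      rw [Set.inter_comm] at hA₂E
      have hF1E : F₁ ≤ Cfix N₁ N₂ (Dstar N₁ W F₁ ∩ Dstar N₁ W F₂) := by
        conv_lhs => rw [← Cfix_Dstar h1.1]
        exact Cfix_anti Set.inter_subset_left
      have hF2E : F₂ ≤ Cfix N₁ N₂ (Dstar N₁ W F₁ ∩ Dstar N₁ W F₂) := by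
        conv_lhs => rw [← Cfix_Dstar h2.1]
        exact Cfix_anti Set.inter_subset_right
      have hN1E : N₁ < Cfix N₁ N₂ (Dstar N₁ W F₁ ∩ Dstar N₁ W F₂) :=
        lt_of_lt_of_le (hlt F₁ h1).1 hF1E
      have hEN2 : Cfix N₁ N₂ (Dstar N₁ W F₁ ∩ Dstar N₁ W F₂) ≤ N₂ := Cfix_le _ _ _
      obtain ⟨F₃, h3, hΘ3, hA₁3, hA₂3⟩ : ∃ F₃, MinSpecial N₁ N₂ W F₃ ∧
          Dstar N₁ W F₁ ∩ Dstar N₁ W F₂ ⊆ Dstar N₁ W F₃ ∧ A₁ ∈ Dstar N₁ W F₃ ∧
          A₂ ∈ Dstar N₁ W F₃ := by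
        by_cases hE : Cfix N₁ N₂ (Dstar N₁ W F₁ ∩ Dstar N₁ W F₂) = N₂
        · obtain ⟨n, hn⟩ := hS.pair A₁ hA₁.1 A₂ hA₂.1
          have hle : UU ({A₁, A₂} : Set (Subgroup (LinearMap.GeneralLinearGroup k M))) ≤ A₁ ⊔ A₂ := by
            rw [UU, Subgroup.closure_le]
            rintro g ⟨A', hA', hg⟩
            rcases hA' with rfl | hA'
            · exact (le_sup_left : A' ≤ A' ⊔ A₂) hg
            · rw [Set.mem_singleton_iff] at hA'
              subst hA'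
              exact (le_sup_right : A' ≤ A₁ ⊔ A') hg
          obtain ⟨F₃, h3, hsub⟩ := hR {A₁, A₂} (by
            rintro B (rfl | hB)
            · exact hA₁.1
            · rw [Set.mem_singleton_iff] at hB; rw [hB]; exact hA₂.1)
            ⟨n, hn.mono hle le_rfl le_rfl⟩
          refine ⟨F₃, h3, ?_, hsub (by simp), hsub (by simp)⟩
          intro B hB
          refine ⟨hB.1.1, fun b hb v hv => ?_⟩
          have hvE : v ∈ Cfix N₁ N₂ (Dstar N₁ W F₁ ∩ Dstar N₁ W F₂) := by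
            rw [hE]; exact h3.1.le hv
          exact (mem_Cfix.mp hvE).2 B hB b hb
        · have hEN2' : Cfix N₁ N₂ (Dstar N₁ W F₁ ∩ Dstar N₁ W F₂) < N₂ := lt_of_le_of_ne hEN2 hE
          obtain ⟨n, hn⟩ := hloc _ hN1E hEN2'
          obtain ⟨F₃, h3, hsub⟩ :=
            hR (WE W (Cfix N₁ N₂ (Dstar N₁ W F₁ ∩ Dstar N₁ W F₂))) (fun B hB => hB.1) ⟨n, hn⟩
          refine ⟨F₃, h3, ?_, hsub ⟨hA₁.1, hA₁E⟩, hsub ⟨hA₂.1, hA₂E⟩⟩
          intro B hB
          apply hsub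
          refine ⟨hB.1.1, fun b hb v hv => ?_⟩
          rw [smul_eq_add_dd]
          exact Submodule.add_mem _ hv (hN1E.le ((mem_Cfix.mp hv).2 B hB b hb))
      have hne13 : F₁ ≠ F₃ := by
        intro h
        rw [← h] at hA₂3
        exact hA₂1 hA₂3
      have hE'le : Cfix N₁ N₂ (Dstar N₁ W F₁ ∩ Dstar N₁ W F₃) ≤
          Cfix N₁ N₂ (Dstar N₁ W F₁ ∩ Dstar N₁ W F₂) :=
        Cfix_anti (fun B hB => ⟨hB.1, hΘ3 hB⟩)
      have hE'ne : Cfix N₁ N₂ (Dstar N₁ W F₁ ∩ Dstar N₁ W F₃) ≠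
          Cfix N₁ N₂ (Dstar N₁ W F₁ ∩ Dstar N₁ W F₂) := by
        intro h
        apply hA₁2
        refine ⟨hA₁.1, fun a ha v hv => ?_⟩
        have hvE : v ∈ Cfix N₁ N₂ (Dstar N₁ W F₁ ∩ Dstar N₁ W F₃) := by
          rw [h]; exact hF2E hv
        exact (mem_Cfix.mp hvE).2 A₁ ⟨hA₁, hA₁3⟩ a ha
      have hlt' := Submodule.finrank_lt_finrank_of_lt (lt_of_le_of_ne hE'le hE'ne)
      exact hmin _ (by rw [← hm]; exact hlt') ⟨F₁, F₃, h1, h3, hne13, rfl⟩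

theorem local_unip [FiniteDimensional k M] {d : ℕ} {N₁ N₂ : Submodule k M}
    {W : Set (Subgroup (LinearMap.GeneralLinearGroup k M))} (hS : Sys N₁ N₂ W)
    (ih : ∀ (N₁ N₂ : Submodule k M) (W : Set (Subgroup (LinearMap.GeneralLinearGroup k M))), Sys N₁ N₂ W →
      Module.finrank k N₂ ≤ Module.finrank k N₁ + d → ∃ n, Sec (UU W : Set (LinearMap.GeneralLinearGroup k M)) N₁ N₂ n)
    (hd : Module.finrank k N₂ ≤ Module.finrank k N₁ + (d + 1)) :
    ∀ E : Submodule k M, N₁ < E → E < N₂ → ∃ n, Sec (UU (WE W E) : Set (LinearMap.GeneralLinearGroup k M)) N₁ N₂ n := by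
  intro E h1 h2
  have hf1 := Submodule.finrank_lt_finrank_of_lt h1
  have hf2 := Submodule.finrank_lt_finrank_of_lt h2
  have hconj : ∀ A ∈ WE W E, ∀ B ∈ WE W E, ∀ a ∈ A, conjBy B a ∈ WE W E := by
    intro A hA B hB a ha
    refine ⟨hS.conj A hA.1 B hB.1 a ha, ?_⟩
    intro x hx v hv
    obtain ⟨b, hb, rfl⟩ := mem_conjBy.mp hx
    rw [mul_smul, mul_smul]
    exact hA.2 a ha _ (hB.2 b hb _ (hA.2 a⁻¹ (A.inv_mem ha) v hv))
  have hS1 : Sys N₁ E (WE W E) :=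
    ⟨h1.le, fun A hA => hS.stab₁ A hA.1, fun A hA => hA.2, hconj, fun A hA B hB => by
      obtain ⟨n, hn⟩ := hS.pair A hA.1 B hB.1
      exact ⟨n, hn.mono subset_rfl le_rfl h2.le⟩⟩
  have hS2 : Sys E N₂ (WE W E) :=
    ⟨h2.le, fun A hA => hA.2, fun A hA => hS.stab₂ A hA.1, hconj, fun A hA B hB => by
      obtain ⟨n, hn⟩ := hS.pair A hA.1 B hB.1
      exact ⟨n, hn.mono subset_rfl h1.le le_rfl⟩⟩
  obtain ⟨n₁, hn₁⟩ := ih _ _ _ hS1 (by omega)
  obtain ⟨n₂, hn₂⟩ := ih _ _ _ hS2 (by omega)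
  exact ⟨n₁ + n₂, hn₁.comp hn₂⟩

theorem fix_reduce [FiniteDimensional k M] {d : ℕ} {N₁ N₂ : Submodule k M}
    {W : Set (Subgroup (LinearMap.GeneralLinearGroup k M))} (hS : Sys N₁ N₂ W)
    (ih : ∀ (N₁ N₂ : Submodule k M) (W : Set (Subgroup (LinearMap.GeneralLinearGroup k M))), Sys N₁ N₂ W →
      Module.finrank k N₂ ≤ Module.finrank k N₁ + d → ∃ n, Sec (UU W : Set (LinearMap.GeneralLinearGroup k M)) N₁ N₂ n)
    (hd : Module.finrank k N₂ ≤ Module.finrank k N₁ + (d + 1))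
    (hfix : ∃ w ∈ N₂, w ∉ N₁ ∧ ∀ A ∈ W, ∀ a ∈ A, dd a w ∈ N₁) :
    ∃ n, Sec (UU W : Set (LinearMap.GeneralLinearGroup k M)) N₁ N₂ n := by
  obtain ⟨w, hw2, hw1, hw⟩ := hfix
  have hN1F : N₁ ≤ Cfix N₁ N₂ W := fun v hv => mem_Cfix.mpr ⟨hS.le hv, fun A hA a ha => by
    rw [dd_apply]; exact N₁.sub_mem (hS.stab₁ A hA a ha v hv) hv⟩
  have hwF : w ∈ Cfix N₁ N₂ W := mem_Cfix.mpr ⟨hw2, hw⟩
  have hlt : N₁ < Cfix N₁ N₂ W := lt_of_le_of_ne hN1F (fun h => hw1 (h ▸ hwF))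
  have hf := Submodule.finrank_lt_finrank_of_lt hlt
  have hstabF : StabF W (Cfix N₁ N₂ W) := by
    intro B hB b hb v hv
    refine mem_Cfix.mpr ⟨hS.stab₂ B hB b hb v (mem_Cfix.mp hv).1, fun A hA a ha => ?_⟩
    rw [dd_smul]
    have hmem : b⁻¹ * a * b ∈ conjBy A b⁻¹ := mem_conjBy.mpr ⟨a, ha, by simp⟩
    exact hS.stab₁ B hB b hb _
      ((mem_Cfix.mp hv).2 _ (hS.conj B hB A hA b⁻¹ (B.inv_mem hb)) _ hmem)
  have hS' : Sys (Cfix N₁ N₂ W) N₂ W :=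
    ⟨Cfix_le _ _ _, hstabF, hS.stab₂, hS.conj, fun A hA B hB => by
      obtain ⟨n, hn⟩ := hS.pair A hA B hB
      exact ⟨n, hn.mono subset_rfl hN1F le_rfl⟩⟩
  obtain ⟨n, hn⟩ := ih _ _ _ hS' (by omega)
  have h1 : Sec (UU W : Set (LinearMap.GeneralLinearGroup k M)) N₁ (Cfix N₁ N₂ W) 1 := by
    intro l hl hlen v hv
    obtain ⟨u, rfl⟩ := List.length_eq_one_iff.mp hlen
    rw [pr_cons, pr_nil]
    exact UU_cent hS.stab₁ (Cfix N₁ N₂ W : Set M)
      (fun A hA a ha v hv => (mem_Cfix.mp hv).2 A hA a ha) u (hl u (by simp)) v hv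
  exact ⟨1 + n, h1.comp hn⟩

theorem main [FiniteDimensional k M] : ∀ (d : ℕ) (N₁ N₂ : Submodule k M)
    (W : Set (Subgroup (LinearMap.GeneralLinearGroup k M))), Sys N₁ N₂ W →
    Module.finrank k N₂ ≤ Module.finrank k N₁ + d → ∃ n, Sec (UU W : Set (LinearMap.GeneralLinearGroup k M)) N₁ N₂ n := by
  intro d
  induction d with
  | zero =>
    intro N₁ N₂ W hS hd
    have : N₁ = N₂ := Submodule.eq_of_le_of_finrank_le hS.le (by omega)
    refine ⟨0, fun l _ hl v hv => ?_⟩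
    rw [List.length_eq_zero_iff] at hl
    subst hl
    rw [pr_nil, this]
    exact hv
  | succ d ih =>
    intro N₁ N₂ W hS hd
    by_cases hne : N₂ ≤ N₁
    · refine ⟨0, fun l _ hl v hv => ?_⟩
      rw [List.length_eq_zero_iff] at hl
      subst hl
      rw [pr_nil]
      exact hne hv
    · have hloc := local_unip hS ih hd
      exact fix_reduce hS ih hd (exists_fix hS hne hloc)

/-- Let M be a finite-dimensional vector space over a field k, G ≤ GL(M), and 𝒲 a set of subgroups of G, invariant under conjugation by G, such that any two members of 𝒲 generate a subgroup acting unipotently on M (for some n all products of n endomorphisms g − 1 from it vanish). Then the subgroup generated by all members of 𝒲 acts unipotently on M and is normal in G. -/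
theorem result {k : Type*} [Field k] {M : Type*} [AddCommGroup M] [Module k M] [FiniteDimensional k M]
    {G : Subgroup (LinearMap.GeneralLinearGroup k M)} {W : Set (Subgroup (LinearMap.GeneralLinearGroup k M))} (hWG : ∀ A ∈ W, A ≤ G)
    (hWW : ∀ A ∈ W, ∀ B ∈ W, Cfsg.IsUnipotentOn (A ⊔ B)) (hWconj : ∀ A ∈ W, ∀ g ∈ G, Cfsg.conjBy A g ∈ W) :
    Cfsg.IsUnipotentOn (⨆ A ∈ W, A) ∧ ∀ g ∈ G, Cfsg.conjBy (⨆ A ∈ W, A) g = ⨆ A ∈ W, A := by
  have hconj' : ∀ A ∈ W, ∀ B ∈ W, ∀ a ∈ A, conjBy B a ∈ W :=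
    fun A hA B hB a ha => hWconj B hB a (hWG A hA ha)
  have hS : Sys (⊥ : Submodule k M) ⊤ W := by
    refine ⟨bot_le, ?_, fun _ _ _ _ _ _ => Submodule.mem_top, hconj', ?_⟩
    · intro A hA a ha v hv
      rw [Submodule.mem_bot] at hv ⊢
      rw [hv, smul_zero]
    · intro A hA B hB
      obtain ⟨n, hn⟩ := hWW A hA B hB
      refine ⟨n, fun l hl hlen v _ => ?_⟩
      have h2 : pr l = 0 := by rw [← coe_list]; exact hn l hl hlen
      rw [Submodule.mem_bot, h2]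
      rfl
  obtain ⟨n, hn⟩ := main (Module.finrank k M) ⊥ ⊤ W hS (by rw [finrank_top]; omega)
  refine ⟨?_, ?_⟩
  · rw [iSup_eq_UU]
    refine ⟨n, fun l hl hlen => ?_⟩
    rw [coe_list]
    apply LinearMap.ext
    intro v
    have := hn l hl hlen v Submodule.mem_top
    rw [Submodule.mem_bot] at this
    exact this
  · intro g hg
    rw [iSup_eq_UU]
    apply le_antisymm
    · intro x hx
      obtain ⟨u, hu, rfl⟩ := mem_conjBy.mp hx
      induction hu using Subgroup.closure_induction with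
      | mem y hy =>
        obtain ⟨A, hA, hyA⟩ := hy
        exact mem_UU (hWconj A hA g hg) (mem_conjBy.mpr ⟨y, hyA, rfl⟩)
      | one => simp
      | mul y z _ _ ihy ihz =>
        have : g * (y * z) * g⁻¹ = (g * y * g⁻¹) * (g * z * g⁻¹) := by group
        rw [this]
        exact (UU W).mul_mem (ihy (mem_conjBy.mpr ⟨y, by assumption, rfl⟩))
          (ihz (mem_conjBy.mpr ⟨z, by assumption, rfl⟩))
      | inv y _ ihy =>
        have : g * y⁻¹ * g⁻¹ = (g * y * g⁻¹)⁻¹ := by group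
        rw [this]
        exact (UU W).inv_mem (ihy (mem_conjBy.mpr ⟨y, by assumption, rfl⟩))
    · rw [UU, Subgroup.closure_le]
      rintro x ⟨A, hA, hxA⟩
      refine mem_conjBy.mpr ⟨g⁻¹ * x * g, ?_, by group⟩
      exact mem_UU (hWconj A hA g⁻¹ (G.inv_mem hg)) (mem_conjBy.mpr ⟨x, hxA, by simp⟩)

end Cfsg.Agent.S5061
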