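import Cfsg.Statements.S5067
import Mathlib

set_option autoImplicit false
open Cfsg

namespace Cfsg.Agent.S5067



open scoped commutatorElement in
theorem aux {P : Type*} [Group P] [Group.IsNilpotent P] (hna : ¬ IsMulCommutative P)
    {E : Subgroup P} (hE : IsMulCommutative ↥E) :
    Group.nilpotencyClass ↥(Subgroup.normalClosure (E : Set P)) < Group.nilpotencyClass P := by
  set N := Subgroup.normalClosure (E : Set P) with hN
  set c := Group.nilpotencyClass P with hc
  have hc2 : 2 ≤ c := by
    by_contra h
    have h1 : (⊤ : Subgroup P).lowerCentralSeries 1 = ⊥ :=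
      Subgroup.lowerCentralSeries_eq_bot_iff_nilpotencyClass_le.mpr (by omega)
    apply hna
    refine ⟨⟨fun a b => ?_⟩⟩
    have hab : ⁅a, b⁆ ∈ (⊤ : Subgroup P).lowerCentralSeries 1 := by
      rw [Subgroup.top_lowerCentralSeries_one]
      exact Subgroup.commutator_mem_commutator (Subgroup.mem_top a) (Subgroup.mem_top b)
    rw [h1, Subgroup.mem_bot] at hab
    exact commutatorElement_eq_one_iff_mul_comm.mp hab
  set K := (⊤ : Subgroup P).lowerCentralSeries 2 with hK
  haveI : K.Normal := by rw [hK]; infer_instance
  set π := QuotientGroup.mk' K with hπ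
  have hcomm : ∀ x y : P, ⁅x, y⁆ ∈ K ↔ π x * π y = π y * π x := by
    intro x y
    rw [← commutatorElement_eq_one_iff_mul_comm, ← map_commutatorElement, hπ,
      QuotientGroup.mk'_apply, QuotientGroup.eq_one_iff]
  set H := E ⊔ commutator P with hH
  have hHcl : H = Subgroup.closure ((E : Set P) ∪ (commutator P : Set P)) := by
    rw [Subgroup.closure_union, Subgroup.closure_eq, Subgroup.closure_eq]
  have hcen : ∀ x ∈ commutator P, ∀ y : P, π x * π y = π y * π x := by
    intro x hx y
    rw [← hcomm]
    have : ⁅x, y⁆ ∈ ⁅(⊤ : Subgroup P).lowerCentralSeries 1, (⊤ : Subgroup P)⁆ := by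
      rw [Subgroup.top_lowerCentralSeries_one]
      exact Subgroup.commutator_mem_commutator hx (Subgroup.mem_top y)
    exact this
  have hHH : ∀ x ∈ H, ∀ y ∈ H, π x * π y = π y * π x := by
    intro x hx y hy
    rw [hHcl] at hx hy
    induction hx, hy using Subgroup.closure_induction₂ with
    | mem x y hx hy =>
      rcases hx with hx | hx
      · rcases hy with hy | hy
        · have := hE.is_comm.comm ⟨x, hx⟩ ⟨y, hy⟩
          have h2 : x * y = y * x := congrArg Subtype.val this
          rw [← map_mul, ← map_mul, h2]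
        · exact (hcen y hy x).symm
      · exact hcen x hx y
    | one_left x hx => simp
    | one_right x hx => simp
    | mul_left x y z hx hy hz h1 h2 =>
      rw [map_mul, mul_assoc, h2, ← mul_assoc, h1, mul_assoc]
    | mul_right y z x hy hz hx h1 h2 =>
      rw [map_mul, ← mul_assoc, h1, mul_assoc, h2, mul_assoc]
    | inv_left x y hx hy h =>
      rw [map_inv, inv_mul_eq_iff_eq_mul, ← mul_assoc, h, mul_assoc, mul_inv_cancel, mul_one]
    | inv_right x y hx hy h =>
      rw [map_inv, mul_inv_eq_iff_eq_mul, mul_assoc, h, ← mul_assoc, inv_mul_cancel, one_mul]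
  have hNH : N ≤ H := by
    haveI : H.Normal := by
      refine ⟨fun n hn g => ?_⟩
      have h1 : g * n * g⁻¹ = ⁅g, n⁆ * n := by
        rw [commutatorElement_def]; group
      rw [h1]
      exact H.mul_mem (le_sup_right (a := E)
        (Subgroup.commutator_mem_commutator (Subgroup.mem_top g) (Subgroup.mem_top n))) hn
    exact Subgroup.normalClosure_le_normal (fun x hx => (le_sup_left : E ≤ H) hx)
  have hNN : ⁅N, N⁆ ≤ K := by
    rw [Subgroup.commutator_le]
    intro g₁ h₁ g₂ h₂
    rw [hcomm]
    exact hHH g₁ (hNH h₁) g₂ (hNH h₂)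
  have key : ∀ k, N.lowerCentralSeries (k+1) ≤ (⊤ : Subgroup P).lowerCentralSeries (k+2) := by
    intro k
    induction k with
    | zero =>
      show ⁅N, N⁆ ≤ K
      exact hNN
    | succ k ih =>
      show ⁅N.lowerCentralSeries (k+1), N⁆ ≤
        ⁅(⊤ : Subgroup P).lowerCentralSeries (k+2), (⊤ : Subgroup P)⁆
      exact Subgroup.commutator_mono ih le_top
  have hbot : (⊤ : Subgroup ↥N).lowerCentralSeries (c - 1) = ⊥ := by
    have h := key (c - 2)
    rw [show c - 2 + 1 = c - 1 by omega, show c - 2 + 2 = c by omega, hc,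
      Subgroup.lowerCentralSeries_nilpotencyClass, ← Subgroup.top_subtype_lowerCentralSeries] at h
    exact (Subgroup.map_eq_bot_iff_of_injective _ N.subtype_injective).mp (le_bot_iff.mp h)
  have := Subgroup.lowerCentralSeries_eq_bot_iff_nilpotencyClass_le.mp hbot
  omega

/-- Let P be a non-abelian nilpotent p-group (every element of p-power order; P possibly infinite) generated by two abelian subgroups E and F. Then the normal closure of E in P, and likewise that of F, has nilpotency class strictly smaller than that of P. -/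
theorem result {P : Type*} [Group P] {p : ℕ} [Fact p.Prime] (hP : IsPGroup p P) [Group.IsNilpotent P]
    (hna : ¬ IsMulCommutative P) {E F : Subgroup P} (hE : IsMulCommutative ↥E) (hF : IsMulCommutative ↥F) (hgen : E ⊔ F = ⊤) :
    Group.nilpotencyClass ↥(Subgroup.normalClosure (E : Set P)) < Group.nilpotencyClass P ∧
    Group.nilpotencyClass ↥(Subgroup.normalClosure (F : Set P)) < Group.nilpotencyClass P := by
  exact ⟨aux hna hE, aux hna hF⟩

end Cfsg.Agent.S5067
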