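import Cfsg.Statements.S5070
import Mathlib
import Cfsg.Agent.S5016
import Cfsg.Agent.S0765
import Cfsg.Agent.S0766

set_option autoImplicit false
open Matrix
open Cfsg

namespace Cfsg.Agent.S5070

section helpers

open scoped Matrix
open Cfsg.Agent.Lib.Helper5.Symp

variable {F : Type*} [Field F] {n : ℕ}

theorem mat_ext {A B : Matrix (Fin n ⊕ Fin n) (Fin n ⊕ Fin n) F} (h : ∀ v, A *ᵥ v = B *ᵥ v) :
    A = B := by
  ext i j
  have h1 := congrFun (h (Pi.single j 1)) i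
  rw [Matrix.mulVec_single_one, Matrix.mulVec_single_one] at h1
  exact h1

def tau (p : Fin n ⊕ Fin n → F) (c : F) : Matrix.symplecticGroup (Fin n) F :=
  ⟨Cfsg.sympTransvection n p c, sympTransvection_mem n p c⟩

theorem tau_mulVec (p : Fin n ⊕ Fin n → F) (c : F) (v : Fin n ⊕ Fin n → F) :
    (tau p c).1 *ᵥ v = v + (c * Cfsg.sympForm n F v p) • p :=
  sympTransvection_mulVec n p c v

theorem sp_ext {g h : Matrix.symplecticGroup (Fin n) F} (H : ∀ v, g.1 *ᵥ v = h.1 *ᵥ v) : g = h :=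
  Subtype.ext (mat_ext H)

theorem sp_mul_mulVec (g h : Matrix.symplecticGroup (Fin n) F) (v : Fin n ⊕ Fin n → F) :
    (g * h).1 *ᵥ v = g.1 *ᵥ (h.1 *ᵥ v) := by
  show (g.1 * h.1) *ᵥ v = _
  rw [Matrix.mulVec_mulVec]

theorem sp_one_mulVec (v : Fin n ⊕ Fin n → F) :
    (1 : Matrix.symplecticGroup (Fin n) F).1 *ᵥ v = v :=
  Matrix.one_mulVec v

theorem form_inv (g : Matrix.symplecticGroup (Fin n) F) (u v : Fin n ⊕ Fin n → F) :
    Cfsg.sympForm n F (g.1 *ᵥ u) (g.1 *ᵥ v) = Cfsg.sympForm n F u v :=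
  sympForm_mulVec_of_mem n g.2 u v

theorem tau_add (p : Fin n ⊕ Fin n → F) (c d : F) : tau p c * tau p d = tau p (c + d) := by
  apply sp_ext
  intro v
  simp only [sp_mul_mulVec, tau_mulVec, sympForm_add_left, sympForm_smul_left, sympForm_self]
  module

theorem tau_zero (p : Fin n ⊕ Fin n → F) : tau p 0 = 1 := by
  apply sp_ext
  intro v
  rw [tau_mulVec, zero_mul, zero_smul, add_zero, sp_one_mulVec]

theorem tau_inv (p : Fin n ⊕ Fin n → F) (c : F) : (tau p c)⁻¹ = tau p (-c) :=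
  inv_eq_of_mul_eq_one_left (by rw [tau_add, neg_add_cancel, tau_zero])

theorem tau_conj (g : Matrix.symplecticGroup (Fin n) F) (p : Fin n ⊕ Fin n → F) (c : F) :
    g * tau p c * g⁻¹ = tau (g.1 *ᵥ p) c := by
  rw [mul_inv_eq_iff_eq_mul]
  apply sp_ext
  intro v
  rw [sp_mul_mulVec, sp_mul_mulVec, tau_mulVec, tau_mulVec, form_inv, Matrix.mulVec_add,
    Matrix.mulVec_smul]

theorem tau_smul (l : F) (u : Fin n ⊕ Fin n → F) (c : F) : tau (l • u) c = tau u (l * l * c) := by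
  apply sp_ext
  intro v
  rw [tau_mulVec, tau_mulVec, sympForm_smul_right, smul_smul]
  congr 2
  ring

theorem tau_eq_one {p : Fin n ⊕ Fin n → F} (hp : p ≠ 0) {c : F} (h : tau p c = 1) : c = 0 := by
  by_contra hc
  apply hp
  apply eq_zero_of_sympForm_eq_zero n
  intro b
  have h1 := congrArg (fun g : Matrix.symplecticGroup (Fin n) F => g.1 *ᵥ b) h
  simp only [tau_mulVec, sp_one_mulVec] at h1
  have h2 : (c * Cfsg.sympForm n F b p) • p = 0 := by simpa using h1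
  rcases smul_eq_zero.1 h2 with h3 | h3
  · rcases mul_eq_zero.1 h3 with h4 | h4
    · exact absurd h4 hc
    · rw [sympForm_swap, h4, neg_zero]
  · rw [h3, sympForm_zero_left]

def TT (p : Fin n ⊕ Fin n → F) : Subgroup (Matrix.symplecticGroup (Fin n) F) where
  carrier := {g | ∃ c : F, g = tau p c}
  mul_mem' := by
    rintro _ _ ⟨c, rfl⟩ ⟨d, rfl⟩
    exact ⟨c + d, tau_add p c d⟩
  one_mem' := ⟨0, (tau_zero p).symm⟩
  inv_mem' := by
    rintro _ ⟨c, rfl⟩
    exact ⟨-c, tau_inv p c⟩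

theorem TT_eq (p : Fin n ⊕ Fin n → F) :
    Subgroup.closure {g : ↥(Matrix.symplecticGroup (Fin n) F) | ∃ c : F, ∀ v : Fin n ⊕ Fin n → F,
      (g : Matrix (Fin n ⊕ Fin n) (Fin n ⊕ Fin n) F) *ᵥ v =
        v + (c * (v ⬝ᵥ (Matrix.J (Fin n) F *ᵥ p))) • p} = TT p := by
  apply le_antisymm
  · rw [Subgroup.closure_le]
    rintro g ⟨c, hc⟩
    refine ⟨c, sp_ext fun v => ?_⟩
    rw [hc v, tau_mulVec]
    rfl
  · rintro _ ⟨c, rfl⟩
    apply Subgroup.subset_closure
    exact ⟨c, fun v => tau_mulVec p c v⟩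

theorem TT_comm (p : Fin n ⊕ Fin n → F) : IsMulCommutative ↥(TT p) := by
  constructor
  constructor
  rintro ⟨x, c, rfl⟩ ⟨y, d, rfl⟩
  apply Subtype.ext
  show tau p c * tau p d = tau p d * tau p c
  rw [tau_add, tau_add, add_comm]

theorem TT_ne_bot {p : Fin n ⊕ Fin n → F} (hp : p ≠ 0) : TT p ≠ ⊥ := by
  intro h
  have h1 : tau p 1 ∈ TT p := ⟨1, rfl⟩
  rw [h, Subgroup.mem_bot] at h1
  exact one_ne_zero (tau_eq_one hp h1)

theorem TT_conj (g : Matrix.symplecticGroup (Fin n) F) (p : Fin n ⊕ Fin n → F) :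
    conjBy (TT p) g = TT (g.1 *ᵥ p) := by
  ext x
  rw [Cfsg.Agent.Lib.Helper25.RankOne.mem_conjBy]
  constructor
  · rintro ⟨c, hc⟩
    refine ⟨c, ?_⟩
    rw [← tau_conj, ← hc]
    group
  · rintro ⟨c, rfl⟩
    refine ⟨c, ?_⟩
    rw [← tau_conj]
    group

theorem sp_mulVec_ne_zero (g : Matrix.symplecticGroup (Fin n) F) {p : Fin n ⊕ Fin n → F}
    (hp : p ≠ 0) : g.1 *ᵥ p ≠ 0 := by
  intro h
  apply hp
  have h1 : (g⁻¹ * g).1 *ᵥ p = (g⁻¹).1 *ᵥ (g.1 *ᵥ p) := sp_mul_mulVec _ _ _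
  rw [inv_mul_cancel, sp_one_mulVec, h, Matrix.mulVec_zero] at h1
  exact h1

theorem tau_comm_of_orth {p r : Fin n ⊕ Fin n → F} (h : Cfsg.sympForm n F p r = 0) (c d : F) :
    tau p c * tau r d = tau r d * tau p c := by
  have h' : Cfsg.sympForm n F r p = 0 := by rw [sympForm_swap, h, neg_zero]
  apply sp_ext
  intro v
  simp only [sp_mul_mulVec, tau_mulVec, sympForm_add_left, sympForm_smul_left, h, h', mul_zero,
    add_zero]
  module

theorem TT_comm_bot {p r : Fin n ⊕ Fin n → F} (h : Cfsg.sympForm n F p r = 0) :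
    ⁅TT p, TT r⁆ = ⊥ := by
  rw [Subgroup.commutator_eq_bot_iff_le_centralizer]
  rintro _ ⟨c, rfl⟩
  rw [Subgroup.mem_centralizer_iff]
  rintro _ ⟨d, rfl⟩
  exact (tau_comm_of_orth h c d).symm

theorem TT_smul {l : F} (hl : l ≠ 0) (u : Fin n ⊕ Fin n → F) : TT (l • u) = TT u := by
  ext x
  constructor
  · rintro ⟨c, rfl⟩
    exact ⟨l * l * c, tau_smul l u c⟩
  · rintro ⟨c, rfl⟩
    refine ⟨c / (l * l), ?_⟩
    rw [tau_smul]
    congr 1
    field_simp

theorem TT_cond {p r : Fin n ⊕ Fin n → F} (h : Cfsg.sympForm n F p r ≠ 0) :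
    RankOneCondition (TT p) (TT r) := by
  have hr : r ≠ 0 := by
    rintro rfl
    exact h (sympForm_zero_right n p)
  rintro _ ⟨c, rfl⟩ hc1
  have hc : c ≠ 0 := by
    rintro rfl
    exact hc1 (tau_zero p)
  have hswap : Cfsg.sympForm n F r p = - Cfsg.sympForm n F p r := sympForm_swap n r p
  refine ⟨tau r (-(c * Cfsg.sympForm n F p r * Cfsg.sympForm n F p r)⁻¹), ⟨_, rfl⟩, ?_, ?_⟩
  · intro h1
    have h2 := tau_eq_one hr h1
    rw [neg_eq_zero] at h2
    exact (inv_ne_zero (mul_ne_zero (mul_ne_zero hc h) h)) h2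
  · rw [TT_conj, TT_conj, tau_inv, tau_inv, tau_mulVec, tau_mulVec, hswap]
    generalize Cfsg.sympForm n F p r = φ at h ⊢
    have e : c * φ * (-(-(c * φ * φ)⁻¹) * φ) = 1 := by field_simp
    have e2 : r + (-c * -φ) • p = (c * φ) • (p + (-(-(c * φ * φ)⁻¹) * φ) • r) := by
      rw [smul_add, smul_smul, e, one_smul]
      module
    rw [e2, TT_smul (mul_ne_zero hc h)]

theorem TT_pair {p r : Fin n ⊕ Fin n → F} (h : Cfsg.sympForm n F p r ≠ 0) :
    IsRankOnePair (TT p) (TT r) where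
  ne := by
    intro he
    have hr : r ≠ 0 := by
      rintro rfl
      exact h (sympForm_zero_right n p)
    have h1 : tau r 1 ∈ TT p := by
      rw [he]
      exact ⟨1, rfl⟩
    obtain ⟨c, hc⟩ := h1
    have h2 := congrArg (fun g : Matrix.symplecticGroup (Fin n) F => g.1 *ᵥ p) hc
    simp only [tau_mulVec, sympForm_self, mul_zero, zero_smul, add_zero, one_mul] at h2
    have h3 : (Cfsg.sympForm n F p r) • r = 0 := by simpa using h2
    rcases smul_eq_zero.1 h3 with h4 | h4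
    · exact h h4
    · exact hr h4
  nilpotent_left := ⟨1, Subgroup.upperCentralSeries_one_eq_top_iff.mpr (TT_comm p)⟩
  nilpotent_right := ⟨1, Subgroup.upperCentralSeries_one_eq_top_iff.mpr (TT_comm r)⟩
  cond_left := TT_cond h
  cond_right := TT_cond (by rw [sympForm_swap]; exact neg_ne_zero.2 h)

theorem exists_form_ne {p : Fin n ⊕ Fin n → F} (hp : p ≠ 0) : ∃ w, Cfsg.sympForm n F p w ≠ 0 := by
  by_contra hcon
  apply hp
  apply eq_zero_of_sympForm_eq_zero n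
  intro b
  by_contra hb
  exact hcon ⟨b, hb⟩

theorem exists_map {p r : Fin n ⊕ Fin n → F} (hp : p ≠ 0) (hr : r ≠ 0) :
    ∃ g : Matrix.symplecticGroup (Fin n) F, g.1 *ᵥ p = r := by
  obtain ⟨w, hw⟩ := exists_form_ne hp
  obtain ⟨w', hw'⟩ := exists_form_ne hr
  have h1 : Cfsg.sympForm n F p ((Cfsg.sympForm n F p w)⁻¹ • w) = 1 := by
    rw [sympForm_smul_right, inv_mul_cancel₀ hw]
  have h2 : Cfsg.sympForm n F r ((Cfsg.sympForm n F r w')⁻¹ • w') = 1 := by
    rw [sympForm_smul_right, inv_mul_cancel₀ hw']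
  obtain ⟨A, -, hA, -⟩ := Cfsg.Agent.S0766.result n p _ r _ h1 h2
  exact ⟨A, hA⟩

def SS (n : ℕ) (F : Type*) [Field F] : Set (Subgroup (Matrix.symplecticGroup (Fin n) F)) :=
  {A | ∃ p : Fin n ⊕ Fin n → F, p ≠ 0 ∧ A = TT p}

theorem gen_top : (⨆ A ∈ SS n F, A) = ⊤ := by
  rw [eq_top_iff, ← Cfsg.Agent.S0765.result n]
  rw [Subgroup.closure_le]
  rintro g ⟨w, c, hg⟩
  have hg' : g = tau w c := Subtype.ext hg
  by_cases hw : w = 0
  · have h1 : g = 1 := by
      rw [hg', hw]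
      apply sp_ext
      intro v
      rw [tau_mulVec, smul_zero, add_zero, sp_one_mulVec]
    rw [h1]
    exact Subgroup.one_mem _
  · have h1 : TT w ≤ ⨆ A ∈ SS n F, A :=
      le_iSup₂ (f := fun (A : Subgroup (Matrix.symplecticGroup (Fin n) F)) (_ : A ∈ SS n F) => A)
        (TT w) ⟨w, hw, rfl⟩
    exact h1 ⟨c, hg'⟩

theorem SS_root : IsRootSubgroupSet (SS n F) where
  commutative := by
    rintro _ ⟨p, -, rfl⟩
    exact TT_comm p
  ne_bot := by
    rintro _ ⟨p, hp, rfl⟩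
    exact TT_ne_bot hp
  generates := gen_top
  conj_mem := by
    rintro _ ⟨p, hp, rfl⟩ g
    exact ⟨g.1 *ᵥ p, sp_mulVec_ne_zero g hp, TT_conj g p⟩
  pair := by
    rintro _ ⟨p, hp, rfl⟩ _ ⟨r, hr, rfl⟩
    by_cases h : Cfsg.sympForm n F p r = 0
    · exact Or.inl (TT_comm_bot h)
    · exact Or.inr (Or.inl (TT_pair h))

theorem SS_conj (hn : 0 < n) : IsConjClassOfSubgroups (SS n F) := by
  refine ⟨⟨TT (Pi.single (Sum.inl ⟨0, hn⟩) 1), _, ?_, rfl⟩, ?_⟩
  · intro h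
    have h1 := congrFun h (Sum.inl ⟨0, hn⟩)
    simp at h1
  · rintro _ ⟨p, hp, rfl⟩ _ ⟨r, hr, rfl⟩
    obtain ⟨g, hg⟩ := exists_map hp hr
    exact ⟨g, by rw [TT_conj, hg]⟩

theorem tau_not_comm {u w : Fin n ⊕ Fin n → F} (h : Cfsg.sympForm n F u w ≠ 0) {a b : F}
    (ha : a ≠ 0) (hb : b ≠ 0) : tau u a * tau w b ≠ tau w b * tau u a := by
  intro he
  have hu : u ≠ 0 := by
    rintro rfl
    exact h (sympForm_zero_left n w)
  have h1 := congrArg (fun g : Matrix.symplecticGroup (Fin n) F => g.1 *ᵥ u) he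
  simp only [sp_mul_mulVec, tau_mulVec, sympForm_add_left, sympForm_smul_left, sympForm_self,
    mul_zero, zero_smul, add_zero, zero_add] at h1
  have h2 : (a * (b * Cfsg.sympForm n F u w * Cfsg.sympForm n F w u)) • u = 0 := by
    simpa using h1
  rcases smul_eq_zero.1 h2 with h3 | h3
  · have h4 : Cfsg.sympForm n F w u = - Cfsg.sympForm n F u w := sympForm_swap n w u
    rw [h4] at h3
    exact (mul_ne_zero ha (mul_ne_zero (mul_ne_zero hb h) (neg_ne_zero.2 h))) h3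
  · exact hu h3

theorem SS_degenerate : IsDegenerateRootSet (SS n F) := by
  rintro _ ⟨p, hp, rfl⟩ _ ⟨r, hr, rfl⟩ ⟨h1, h2, -, -⟩
  by_cases h : Cfsg.sympForm n F p r = 0
  · rw [TT_comm_bot h] at h1
    obtain ⟨u, hu, hbot⟩ := h1
    exact TT_ne_bot hu hbot.symm
  · have ha : tau p 1 ∈ TT p := ⟨1, rfl⟩
    have hb : tau r 1 ∈ TT r := ⟨1, rfl⟩
    have hc := Subgroup.commutator_mem_commutator ha hb
    have h3 := h2 _ hc (tau p 1) (Subgroup.mem_sup_left ha)
    rw [commutatorElement_def] at h3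
    have h4 : (tau r 1 * (tau p 1)⁻¹ * (tau r 1)⁻¹) * tau p 1 =
        tau p 1 * (tau r 1 * (tau p 1)⁻¹ * (tau r 1)⁻¹) := by
      have h5 := congrArg (fun t => (tau p 1)⁻¹ * t) h3
      simp only [mul_assoc, inv_mul_cancel_left] at h5 ⊢
      exact h5
    rw [tau_inv p 1, tau_conj] at h4
    refine tau_not_comm (u := p) (w := (tau r 1).1 *ᵥ p) ?_ one_ne_zero
      (neg_ne_zero.2 one_ne_zero) h4.symm
    rw [tau_mulVec, sympForm_add_right, sympForm_smul_right, sympForm_self, zero_add, one_mul]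
    exact mul_ne_zero h h

def Lam (p h : Fin n ⊕ Fin n → F) (M : Matrix.SpecialLinearGroup (Fin 2) F) :
    Matrix (Fin n ⊕ Fin n) (Fin n ⊕ Fin n) F :=
  1 + Matrix.vecMulVec p ((M.1 0 0 - 1) • (Matrix.J (Fin n) F *ᵥ h) -
        M.1 0 1 • (Matrix.J (Fin n) F *ᵥ p))
    + Matrix.vecMulVec h (M.1 1 0 • (Matrix.J (Fin n) F *ᵥ h) -
        (M.1 1 1 - 1) • (Matrix.J (Fin n) F *ᵥ p))

theorem Lam_mulVec (p h : Fin n ⊕ Fin n → F) (M : Matrix.SpecialLinearGroup (Fin 2) F)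
    (v : Fin n ⊕ Fin n → F) :
    Lam p h M *ᵥ v = v + ((M.1 0 0 - 1) * Cfsg.sympForm n F v h -
        M.1 0 1 * Cfsg.sympForm n F v p) • p
      + (M.1 1 0 * Cfsg.sympForm n F v h - (M.1 1 1 - 1) * Cfsg.sympForm n F v p) • h := by
  unfold Lam
  rw [Matrix.add_mulVec, Matrix.add_mulVec, Matrix.one_mulVec, Matrix.vecMulVec_mulVec,
    Matrix.vecMulVec_mulVec]
  simp only [op_smul_eq_smul, sub_dotProduct, smul_dotProduct, smul_eq_mul]
  rw [dotProduct_comm (Matrix.J (Fin n) F *ᵥ h) v, dotProduct_comm (Matrix.J (Fin n) F *ᵥ p) v]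
  rfl

theorem Lam_mem {p h : Fin n ⊕ Fin n → F} (hph : Cfsg.sympForm n F p h = 1)
    (M : Matrix.SpecialLinearGroup (Fin 2) F) :
    Lam p h M ∈ Matrix.symplecticGroup (Fin n) F := by
  apply mem_of_sympForm_mulVec n
  intro u v
  have hhp : Cfsg.sympForm n F h p = -1 := by rw [sympForm_swap, hph]
  have hdet : M.1 0 0 * M.1 1 1 - M.1 0 1 * M.1 1 0 = 1 := by
    have h1 := M.2
    rw [Matrix.det_fin_two] at h1
    exact h1
  rw [Lam_mulVec, Lam_mulVec]
  simp only [sympForm_add_left, sympForm_add_right, sympForm_smul_left, sympForm_smul_right,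
    sympForm_self, hph, hhp]
  rw [sympForm_swap n p v, sympForm_swap n h v]
  linear_combination (Cfsg.sympForm n F u p * Cfsg.sympForm n F v h -
    Cfsg.sympForm n F u h * Cfsg.sympForm n F v p) * hdet

theorem Lam_mul {p h : Fin n ⊕ Fin n → F} (hph : Cfsg.sympForm n F p h = 1)
    (M N : Matrix.SpecialLinearGroup (Fin 2) F) :
    Lam p h (M * N) = Lam p h M * Lam p h N := by
  apply mat_ext
  intro v
  have hhp : Cfsg.sympForm n F h p = -1 := by rw [sympForm_swap, hph]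
  rw [← Matrix.mulVec_mulVec, Lam_mulVec, Lam_mulVec p h N v, Lam_mulVec]
  simp only [sympForm_add_left, sympForm_smul_left, sympForm_self, hph, hhp,
    Matrix.SpecialLinearGroup.coe_mul, Matrix.mul_apply, Fin.sum_univ_two]
  module

noncomputable def phi {p h : Fin n ⊕ Fin n → F} (hph : Cfsg.sympForm n F p h = 1) :
    Matrix.SpecialLinearGroup (Fin 2) F →* Matrix.symplecticGroup (Fin n) F :=
  MonoidHom.mk' (fun M => ⟨Lam p h M, Lam_mem hph M⟩)
    (fun M N => Subtype.ext (Lam_mul hph M N))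

theorem phi_up {p h : Fin n ⊕ Fin n → F} (hph : Cfsg.sympForm n F p h = 1) (t : F) :
    phi hph (S5016.up t) = tau p (-t) := by
  apply sp_ext
  intro v
  show Lam p h (S5016.up t) *ᵥ v = _
  rw [Lam_mulVec, tau_mulVec]
  simp only [S5016.up_00, S5016.up_01, S5016.up_10, S5016.up_11]
  module

theorem phi_lo {p h : Fin n ⊕ Fin n → F} (hph : Cfsg.sympForm n F p h = 1) (s : F) :
    phi hph (S5016.lo s) = tau h s := by
  apply sp_ext
  intro v
  show Lam p h (S5016.lo s) *ᵥ v = _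
  rw [Lam_mulVec, tau_mulVec]
  simp only [S5016.lo_00, S5016.lo_01, S5016.lo_10, S5016.lo_11]
  module

theorem coeff_zero {p h : Fin n ⊕ Fin n → F} (hph : Cfsg.sympForm n F p h = 1)
    {w : Fin n ⊕ Fin n → F} {a b : F} (H : w + a • p + b • h = w) : a = 0 ∧ b = 0 := by
  have hhp : Cfsg.sympForm n F h p = -1 := by rw [sympForm_swap, hph]
  have H' : a • p + b • h = 0 := by
    rw [add_assoc] at H
    simpa using H
  have h1 := congrArg (fun w => Cfsg.sympForm n F w h) H'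
  have h2 := congrArg (fun w => Cfsg.sympForm n F w p) H'
  simp only [sympForm_add_left, sympForm_smul_left, sympForm_self, hph, hhp, sympForm_zero_left,
    mul_zero, add_zero, zero_add, mul_one, mul_neg, neg_eq_zero] at h1 h2
  exact ⟨h1, h2⟩

theorem psl2 {p h : Fin n ⊕ Fin n → F} (hph : Cfsg.sympForm n F p h = 1) :
    IsPSL2PairOver F (TT p) (TT h) := by
  have hhp : Cfsg.sympForm n F h p = -1 := by rw [sympForm_swap, hph]
  have hup : (upperUnipotentSL2 F).map (phi hph) = TT p := by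
    ext x
    constructor
    · rintro ⟨M, hM, rfl⟩
      rw [S5016.eq_up_of_mem hM, phi_up]
      exact ⟨_, rfl⟩
    · rintro ⟨c, rfl⟩
      exact ⟨S5016.up (-c), S5016.up_mem _, by rw [phi_up, neg_neg]⟩
  have hlo : (lowerUnipotentSL2 F).map (phi hph) = TT h := by
    ext x
    constructor
    · rintro ⟨M, hM, rfl⟩
      rw [S5016.eq_lo_of_mem hM, phi_lo]
      exact ⟨_, rfl⟩
    · rintro ⟨c, rfl⟩
      exact ⟨S5016.lo c, S5016.lo_mem _, phi_lo hph c⟩
  refine ⟨phi hph, ?_, ?_, hup, hlo⟩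
  · rw [MonoidHom.range_eq_map, ← S5016.sup_eq_top, Subgroup.map_sup, hup, hlo, sup_comm]
  · intro M hM
    rw [MonoidHom.mem_ker] at hM
    have h1 : M = 1 := by
      have e1 := congrArg (fun g : Matrix.symplecticGroup (Fin n) F => g.1 *ᵥ p) hM
      have e2 := congrArg (fun g : Matrix.symplecticGroup (Fin n) F => g.1 *ᵥ h) hM
      simp only [sp_one_mulVec] at e1 e2
      change Lam p h M *ᵥ p = p at e1
      change Lam p h M *ᵥ h = h at e2
      rw [Lam_mulVec] at e1 e2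
      obtain ⟨a1, a2⟩ := coeff_zero hph e1
      obtain ⟨a3, a4⟩ := coeff_zero hph e2
      rw [sympForm_self, hph] at a1 a2
      rw [sympForm_self, hhp] at a3 a4
      apply S5016.sl_ext
      · simp only [Matrix.SpecialLinearGroup.coe_one, Matrix.one_apply_eq]
        linear_combination a1
      · simp only [Matrix.SpecialLinearGroup.coe_one]
        rw [Matrix.one_apply_ne (by decide)]
        linear_combination a3
      · simp only [Matrix.SpecialLinearGroup.coe_one]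
        rw [Matrix.one_apply_ne (by decide)]
        linear_combination a2
      · simp only [Matrix.SpecialLinearGroup.coe_one, Matrix.one_apply_eq]
        linear_combination a4
    rw [h1]
    exact Subgroup.one_mem _

theorem SS_kroot : IsKRootSubgroupSet F (SS n F) := by
  refine ⟨SS_root, ?_⟩
  rintro _ ⟨p, hp, rfl⟩ _ ⟨r, hr, rfl⟩ hpair
  have h : Cfsg.sympForm n F p r ≠ 0 := by
    intro h0
    obtain ⟨b, hb, hb1, hconj⟩ := hpair.cond_left (tau p 1) ⟨1, rfl⟩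
      (fun h1 => one_ne_zero (tau_eq_one hp h1))
    obtain ⟨e, rfl⟩ := hb
    have h0' : Cfsg.sympForm n F r p = 0 := by rw [sympForm_swap, h0, neg_zero]
    rw [TT_conj, TT_conj, tau_inv, tau_inv, tau_mulVec, tau_mulVec, h0, h0', mul_zero, mul_zero,
      zero_smul, zero_smul, add_zero, add_zero] at hconj
    exact hpair.ne hconj
  have h1 : Cfsg.sympForm n F p ((Cfsg.sympForm n F p r)⁻¹ • r) = 1 := by
    rw [sympForm_smul_right, inv_mul_cancel₀ h]
  have h2 := psl2 h1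
  rw [TT_smul (inv_ne_zero h)] at h2
  exact h2

theorem SS_conn : IsConnectedFamily (FAdj (SS n F)) (SS n F) := by
  rintro _ ⟨p, hp, rfl⟩ _ ⟨r, hr, rfl⟩
  have step : ∀ {u w : Fin n ⊕ Fin n → F}, u ≠ 0 → w ≠ 0 → Cfsg.sympForm n F u w ≠ 0 →
      FAdj (SS n F) (TT u) (TT w) :=
    fun hu hw h => ⟨⟨_, hu, rfl⟩, ⟨_, hw, rfl⟩, TT_pair h⟩
  by_cases h : Cfsg.sympForm n F p r = 0
  · obtain ⟨s₁, hs₁⟩ := exists_form_ne hp
    obtain ⟨s₂, hs₂⟩ := exists_form_ne hr
    have hs₂' : Cfsg.sympForm n F s₂ r ≠ 0 := by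
      rw [sympForm_swap]
      exact neg_ne_zero.2 hs₂
    obtain ⟨s, hps, hsr⟩ : ∃ s, Cfsg.sympForm n F p s ≠ 0 ∧ Cfsg.sympForm n F s r ≠ 0 := by
      by_cases h1 : Cfsg.sympForm n F s₁ r = 0
      · by_cases h2 : Cfsg.sympForm n F p s₂ = 0
        · refine ⟨s₁ + s₂, ?_, ?_⟩
          · rw [sympForm_add_right, h2, add_zero]
            exact hs₁
          · rw [sympForm_add_left, h1, zero_add]
            exact hs₂'
        · exact ⟨s₂, h2, hs₂'⟩
      · exact ⟨s₁, hs₁, h1⟩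
    have hs : s ≠ 0 := by
      rintro rfl
      exact hps (sympForm_zero_right n p)
    exact Relation.ReflTransGen.trans (Relation.ReflTransGen.single (step hp hs hps))
      (Relation.ReflTransGen.single (step hs hr hsr))
  · exact Relation.ReflTransGen.single (step hp hr h)

theorem set_eq : {A : Subgroup ↥(Matrix.symplecticGroup (Fin n) F) |
      ∃ p : Fin n ⊕ Fin n → F, p ≠ 0 ∧
        A = Subgroup.closure {g : ↥(Matrix.symplecticGroup (Fin n) F) | ∃ c : F,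
          ∀ v : Fin n ⊕ Fin n → F,
          (g : Matrix (Fin n ⊕ Fin n) (Fin n ⊕ Fin n) F) *ᵥ v =
            v + (c * (v ⬝ᵥ (Matrix.J (Fin n) F *ᵥ p))) • p}} = SS n F := by
  ext A
  constructor
  · rintro ⟨p, hp, rfl⟩
    exact ⟨p, hp, TT_eq p⟩
  · rintro ⟨p, hp, rfl⟩
    exact ⟨p, hp, (TT_eq p).symm⟩

end helpers


/-- Let F be a field, m a natural number and V = F^{2(m+1)} with the standard non-degenerate alternating form f(u, v) = uᵀ J v. For a non-zero vector p let T(p) be the group of symplectic transvections v ↦ v + c f(v, p) p, c ∈ F. Then the subgroups T(p), p ≠ 0, generate the symplectic group Sp_{2(m+1)}(F) and form a degenerate class of abstract F-root subgroups of it (any two of them either commute elementwise or are the unipotent subgroups of a rank one group that is an image of SL₂(F) with central kernel, never the commutator case), and their graph of rank one pairs is connected. -/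
theorem result (F : Type*) [Field F] (m : ℕ) :
    Cfsg.IsRootSubgroupClass {A : Subgroup ↥(Matrix.symplecticGroup (Fin (m + 1)) F) | ∃ p : Fin (m + 1) ⊕ Fin (m + 1) → F, p ≠ 0 ∧
        A = Subgroup.closure {g : ↥(Matrix.symplecticGroup (Fin (m + 1)) F) | ∃ c : F, ∀ v : Fin (m + 1) ⊕ Fin (m + 1) → F,
          (g : Matrix (Fin (m + 1) ⊕ Fin (m + 1)) (Fin (m + 1) ⊕ Fin (m + 1)) F) *ᵥ v =
            v + (c * (v ⬝ᵥ (Matrix.J (Fin (m + 1)) F *ᵥ p))) • p}} ∧
    Cfsg.IsDegenerateRootSet {A : Subgroup ↥(Matrix.symplecticGroup (Fin (m + 1)) F) | ∃ p : Fin (m + 1) ⊕ Fin (m + 1) → F, p ≠ 0 ∧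
        A = Subgroup.closure {g : ↥(Matrix.symplecticGroup (Fin (m + 1)) F) | ∃ c : F, ∀ v : Fin (m + 1) ⊕ Fin (m + 1) → F,
          (g : Matrix (Fin (m + 1) ⊕ Fin (m + 1)) (Fin (m + 1) ⊕ Fin (m + 1)) F) *ᵥ v =
            v + (c * (v ⬝ᵥ (Matrix.J (Fin (m + 1)) F *ᵥ p))) • p}} ∧
    Cfsg.IsKRootSubgroupSet F {A : Subgroup ↥(Matrix.symplecticGroup (Fin (m + 1)) F) | ∃ p : Fin (m + 1) ⊕ Fin (m + 1) → F, p ≠ 0 ∧
        A = Subgroup.closure {g : ↥(Matrix.symplecticGroup (Fin (m + 1)) F) | ∃ c : F, ∀ v : Fin (m + 1) ⊕ Fin (m + 1) → F,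
          (g : Matrix (Fin (m + 1) ⊕ Fin (m + 1)) (Fin (m + 1) ⊕ Fin (m + 1)) F) *ᵥ v =
            v + (c * (v ⬝ᵥ (Matrix.J (Fin (m + 1)) F *ᵥ p))) • p}} ∧
    Cfsg.IsConnectedFamily (Cfsg.FAdj {A : Subgroup ↥(Matrix.symplecticGroup (Fin (m + 1)) F) | ∃ p : Fin (m + 1) ⊕ Fin (m + 1) → F, p ≠ 0 ∧
        A = Subgroup.closure {g : ↥(Matrix.symplecticGroup (Fin (m + 1)) F) | ∃ c : F, ∀ v : Fin (m + 1) ⊕ Fin (m + 1) → F,
          (g : Matrix (Fin (m + 1) ⊕ Fin (m + 1)) (Fin (m + 1) ⊕ Fin (m + 1)) F) *ᵥ v =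
            v + (c * (v ⬝ᵥ (Matrix.J (Fin (m + 1)) F *ᵥ p))) • p}})
      {A : Subgroup ↥(Matrix.symplecticGroup (Fin (m + 1)) F) | ∃ p : Fin (m + 1) ⊕ Fin (m + 1) → F, p ≠ 0 ∧
        A = Subgroup.closure {g : ↥(Matrix.symplecticGroup (Fin (m + 1)) F) | ∃ c : F, ∀ v : Fin (m + 1) ⊕ Fin (m + 1) → F,
          (g : Matrix (Fin (m + 1) ⊕ Fin (m + 1)) (Fin (m + 1) ⊕ Fin (m + 1)) F) *ᵥ v =
            v + (c * (v ⬝ᵥ (Matrix.J (Fin (m + 1)) F *ᵥ p))) • p}} := by
  rw [set_eq]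
  exact ⟨⟨SS_root, SS_conj (Nat.succ_pos m)⟩, SS_degenerate, SS_kroot, SS_conn⟩

end Cfsg.Agent.S5070
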