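import Cfsg.Statements.S5071
import Mathlib
import Cfsg.Agent.S5043
import Cfsg.Agent.S5016
import Cfsg.Agent.Lib.Helper28.Herm
import Cfsg.Agent.Lib.Helper15.HermLines
import Cfsg.Agent.Lib.Helper25.RankOne

set_option autoImplicit false
open Matrix
open Cfsg

namespace Cfsg.Agent.S5071

section helpers

open Cfsg.Agent.Lib.Helper25.RankOne (mem_conjBy conj_mem_conjBy conjBy_conjBy exists_ne_one_left
  eq_one_of_mem_of_conjBy_eq right_mem_unipotentSubgroups comm_of_isMulCommutative)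
open Cfsg.Agent.Lib.Helper28.Herm (IsHerm sigq sigq_apply two_le_q hermForm_isHerm)

section transfer

variable {G : Type*} [Group G]

theorem not_pair_of_bot {A B : Subgroup G} (hbot : ⁅A, B⁆ = ⊥) (h : IsRankOnePair A B) :
    False := by
  obtain ⟨a, ha, ha1⟩ := exists_ne_one_left h
  rw [Subgroup.commutator_eq_bot_iff_le_centralizer] at hbot
  have hcomm : ∀ y ∈ B, y * a = a * y := fun y hy =>
    (Subgroup.mem_centralizer_iff.1 (hbot ha)) y hy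
  apply ha1
  apply eq_one_of_mem_of_conjBy_eq h ha
  ext x
  rw [mem_conjBy]
  constructor
  · intro hx
    have h1 := hcomm _ hx
    have h3 : a * (a⁻¹ * x * a) = x * a := by group
    rw [h3] at h1
    have h2 : a⁻¹ * x * a = x := mul_right_cancel h1
    rw [← h2]
    exact hx
  · intro hx
    have h1 := hcomm x hx
    have h2 : a⁻¹ * x * a = x := by rw [mul_assoc, h1, inv_mul_cancel_left]
    rw [h2]
    exact hx

theorem comm_of_central {A B : Subgroup G} (hB : IsMulCommutative ↥B)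
    (hcent : ∀ c ∈ ⁅A, B⁆, ∀ x ∈ A ⊔ B, c * x = x * c) (hcond : RankOneCondition A B)
    {a : G} (ha : a ∈ A) (ha1 : a ≠ 1) : ⁅A, B⁆ = ⊥ := by
  obtain ⟨b, hb, -, hconj⟩ := hcond a ha ha1
  rw [Subgroup.commutator_eq_bot_iff_le_centralizer]
  intro x hx
  rw [Subgroup.mem_centralizer_iff]
  intro y hy
  have h1 : b⁻¹ * x * (b⁻¹)⁻¹ ∈ conjBy A b⁻¹ := conj_mem_conjBy hx
  rw [hconj, mem_conjBy] at h1
  obtain ⟨y', hy'B, hy'⟩ : ∃ y' ∈ B, y' = (a⁻¹)⁻¹ * (b⁻¹ * x * (b⁻¹)⁻¹) * a⁻¹ := ⟨_, h1, rfl⟩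
  have hz : y'⁻¹ * a⁻¹ * y' * a ∈ ⁅A, B⁆ := by
    rw [Subgroup.commutator_comm]
    have h2 := Subgroup.commutator_mem_commutator (B.inv_mem hy'B) (A.inv_mem ha)
    rw [commutatorElement_def, inv_inv, inv_inv] at h2
    exact h2
  obtain ⟨z, hzc, hz'⟩ : ∃ z ∈ ⁅A, B⁆, z = y'⁻¹ * a⁻¹ * y' * a := ⟨_, hz, rfl⟩
  have hzb : z * b = b * z := hcent z hzc b (Subgroup.mem_sup_right hb)
  have hzy : z * y = y * z := hcent z hzc y (Subgroup.mem_sup_right hy)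
  have hby' : b * y' = y' * b := comm_of_isMulCommutative hB hb hy'B
  have hyy' : y * y' = y' * y := comm_of_isMulCommutative hB hy hy'B
  have hx1 : x = b * (y' * z) * b⁻¹ := by
    rw [hz', hy']
    group
  have hx2 : x = y' * z := by
    calc x = b * (y' * z) * b⁻¹ := hx1
      _ = (b * y') * z * b⁻¹ := by rw [mul_assoc b y' z]
      _ = (y' * b) * z * b⁻¹ := by rw [hby']
      _ = y' * (b * z) * b⁻¹ := by rw [mul_assoc y' b z]
      _ = y' * (z * b) * b⁻¹ := by rw [hzb]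
      _ = y' * z := by rw [← mul_assoc y' z b, mul_inv_cancel_right]
  rw [hx2]
  calc y * (y' * z) = (y * y') * z := (mul_assoc y y' z).symm
    _ = (y' * y) * z := by rw [hyy']
    _ = y' * (y * z) := mul_assoc y' y z
    _ = y' * (z * y) := by rw [hzy]
    _ = y' * z * y := (mul_assoc y' z y).symm

theorem degenerate_of_pair' {S : Set (Subgroup G)} (hroot : IsRootSubgroupSet S)
    (hpair : ∀ A ∈ S, ∀ B ∈ S, ⁅A, B⁆ = ⊥ ∨ IsRankOnePair A B) : IsDegenerateRootSet S := by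
  rintro A hA B hB ⟨h1, h2, -, -⟩
  have hne := hroot.ne_bot _ h1
  rcases hpair A hA B hB with h | h
  · exact hne h
  · obtain ⟨a, ha, ha1⟩ := exists_ne_one_left h
    exact hne (comm_of_central (hroot.commutative B hB) h2 h.cond_left ha ha1)

variable (K : Subgroup G)

theorem conjBy_subgroupOf (A : Subgroup G) (k : ↥K) :
    conjBy (A.subgroupOf K) k = (conjBy A (k : G)).subgroupOf K := by
  ext x
  rw [mem_conjBy, Subgroup.mem_subgroupOf, Subgroup.mem_subgroupOf, mem_conjBy]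
  rfl

theorem sub_inj {A B : Subgroup G} (hA : A ≤ K) (hB : B ≤ K)
    (h : A.subgroupOf K = B.subgroupOf K) : A = B := by
  ext x
  constructor
  · intro hx
    have h1 : (⟨x, hA hx⟩ : ↥K) ∈ A.subgroupOf K := Subgroup.mem_subgroupOf.2 hx
    rw [h] at h1
    exact Subgroup.mem_subgroupOf.1 h1
  · intro hx
    have h1 : (⟨x, hB hx⟩ : ↥K) ∈ B.subgroupOf K := Subgroup.mem_subgroupOf.2 hx
    rw [← h] at h1
    exact Subgroup.mem_subgroupOf.1 h1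

theorem cond_transfer {A B : Subgroup G} (hB : B ≤ K) (h : RankOneCondition A B) :
    RankOneCondition (A.subgroupOf K) (B.subgroupOf K) := by
  intro a ha ha1
  obtain ⟨b, hb, hb1, hconj⟩ := h (a : G) (Subgroup.mem_subgroupOf.1 ha)
    (fun e => ha1 (Subtype.ext e))
  refine ⟨⟨b, hB hb⟩, Subgroup.mem_subgroupOf.2 hb, fun e => hb1 (congrArg Subtype.val e), ?_⟩
  rw [conjBy_subgroupOf, conjBy_subgroupOf]
  exact congrArg (fun X : Subgroup G => X.subgroupOf K) hconj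

theorem comm_transfer {A : Subgroup G} (h : IsMulCommutative ↥A) :
    IsMulCommutative ↥(A.subgroupOf K) := by
  constructor
  constructor
  rintro ⟨x, hx⟩ ⟨y, hy⟩
  apply Subtype.ext
  apply Subtype.ext
  exact comm_of_isMulCommutative h (Subgroup.mem_subgroupOf.1 hx) (Subgroup.mem_subgroupOf.1 hy)

theorem pair_transfer {A B : Subgroup G} (hA : A ≤ K) (hB : B ≤ K)
    (hcA : IsMulCommutative ↥A) (hcB : IsMulCommutative ↥B) (h : IsRankOnePair A B) :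
    IsRankOnePair (A.subgroupOf K) (B.subgroupOf K) where
  ne := fun e => h.ne (sub_inj K hA hB e)
  nilpotent_left := ⟨1, Subgroup.upperCentralSeries_one_eq_top_iff.mpr (comm_transfer K hcA)⟩
  nilpotent_right := ⟨1, Subgroup.upperCentralSeries_one_eq_top_iff.mpr (comm_transfer K hcB)⟩
  cond_left := cond_transfer K hB h.cond_left
  cond_right := cond_transfer K hA h.cond_right

theorem comm_bot_transfer {A B : Subgroup G} (h : ⁅A, B⁆ = ⊥) :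
    ⁅A.subgroupOf K, B.subgroupOf K⁆ = ⊥ := by
  rw [Subgroup.commutator_eq_bot_iff_le_centralizer] at h ⊢
  intro x hx
  rw [Subgroup.mem_centralizer_iff]
  intro y hy
  apply Subtype.ext
  exact (Subgroup.mem_centralizer_iff.1 (h (Subgroup.mem_subgroupOf.1 hx))) (y : G)
    (Subgroup.mem_subgroupOf.1 hy)

theorem ne_bot_transfer {A : Subgroup G} (hA : A ≤ K) (h : A ≠ ⊥) : A.subgroupOf K ≠ ⊥ := by
  intro e
  apply h
  rw [eq_bot_iff]
  intro x hx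
  have h1 : (⟨x, hA hx⟩ : ↥K) ∈ A.subgroupOf K := Subgroup.mem_subgroupOf.2 hx
  rw [e, Subgroup.mem_bot] at h1
  rw [Subgroup.mem_bot]
  exact congrArg Subtype.val h1

theorem gen_transfer (S : Set (Subgroup G)) :
    (⨆ A' ∈ (fun A : Subgroup G => A.subgroupOf (⨆ B ∈ S, B)) '' S, A') = ⊤ := by
  rw [eq_top_iff]
  intro y _
  have h1 : (⨆ B ∈ S, B) ≤
      (⨆ A' ∈ (fun A : Subgroup G => A.subgroupOf (⨆ B ∈ S, B)) '' S, A').map
        (⨆ B ∈ S, B).subtype := by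
    apply iSup₂_le
    intro A hA x hx
    have hAK : A ≤ ⨆ B ∈ S, B := le_iSup₂ (f := fun (B : Subgroup G) (_ : B ∈ S) => B) A hA
    refine ⟨⟨x, hAK hx⟩, ?_, rfl⟩
    have h2 : A.subgroupOf (⨆ B ∈ S, B) ≤
        ⨆ A' ∈ (fun A : Subgroup G => A.subgroupOf (⨆ B ∈ S, B)) '' S, A' :=
      le_iSup₂ (f := fun (A' : Subgroup ↥(⨆ B ∈ S, B))
        (_ : A' ∈ (fun A : Subgroup G => A.subgroupOf (⨆ B ∈ S, B)) '' S) => A') _ ⟨A, hA, rfl⟩
    exact h2 (Subgroup.mem_subgroupOf.2 hx)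
  obtain ⟨t, ht, hty⟩ := h1 y.2
  have e : t = y := Subtype.ext hty
  rw [← e]
  exact ht

theorem psl2_transfer {k : Type*} [Field k] {A B : Subgroup G} (hA : A ≤ K) (hB : B ≤ K)
    (h : IsPSL2PairOver k A B) : IsPSL2PairOver k (A.subgroupOf K) (B.subgroupOf K) := by
  obtain ⟨φ, hrange, hker, hup, hlo⟩ := h
  have hmem : ∀ M, φ M ∈ K := by
    intro M
    have h1 : φ M ∈ φ.range := ⟨M, rfl⟩
    rw [hrange] at h1
    exact (sup_le hA hB) h1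
  have hup' : (upperUnipotentSL2 k).map (φ.codRestrict K hmem) = A.subgroupOf K := by
    ext x
    constructor
    · rintro ⟨M, hM, rfl⟩
      rw [Subgroup.mem_subgroupOf, ← hup]
      exact ⟨M, hM, rfl⟩
    · intro hx
      rw [Subgroup.mem_subgroupOf, ← hup] at hx
      obtain ⟨M, hM, hMx⟩ := hx
      exact ⟨M, hM, Subtype.ext hMx⟩
  have hlo' : (lowerUnipotentSL2 k).map (φ.codRestrict K hmem) = B.subgroupOf K := by
    ext x
    constructor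
    · rintro ⟨M, hM, rfl⟩
      rw [Subgroup.mem_subgroupOf, ← hlo]
      exact ⟨M, hM, rfl⟩
    · intro hx
      rw [Subgroup.mem_subgroupOf, ← hlo] at hx
      obtain ⟨M, hM, hMx⟩ := hx
      exact ⟨M, hM, Subtype.ext hMx⟩
  refine ⟨φ.codRestrict K hmem, ?_, ?_, hup', hlo'⟩
  · rw [MonoidHom.range_eq_map, ← S5016.sup_eq_top, Subgroup.map_sup, hup', hlo', sup_comm]
  · intro M hM
    apply hker
    rw [MonoidHom.mem_ker] at hM ⊢
    exact congrArg Subtype.val hM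

end transfer

section fieldpart

variable {F : Type*} [Field F] {L : Type*} [Field L]

def jj (ι : L →+* F) {ζ : F} (hζ : ζ ≠ 0) (M : Matrix.SpecialLinearGroup (Fin 2) L) :
    Matrix.SpecialLinearGroup (Fin 2) F :=
  ⟨!![ι (M.1 0 0), ζ * ι (M.1 0 1); ζ⁻¹ * ι (M.1 1 0), ι (M.1 1 1)], by
    rw [Matrix.det_fin_two_of]
    have h := M.2
    rw [Matrix.det_fin_two] at h
    have h2 := congrArg ι h
    rw [map_sub, map_mul, map_mul, map_one] at h2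
    have h3 : ζ * ζ⁻¹ = 1 := mul_inv_cancel₀ hζ
    linear_combination h2 - (ι (M.1 0 1) * ι (M.1 1 0)) * h3⟩

theorem jj_00 (ι : L →+* F) {ζ : F} (hζ : ζ ≠ 0) (M : Matrix.SpecialLinearGroup (Fin 2) L) :
    (jj ι hζ M).1 0 0 = ι (M.1 0 0) := rfl

theorem jj_01 (ι : L →+* F) {ζ : F} (hζ : ζ ≠ 0) (M : Matrix.SpecialLinearGroup (Fin 2) L) :
    (jj ι hζ M).1 0 1 = ζ * ι (M.1 0 1) := rfl

theorem jj_10 (ι : L →+* F) {ζ : F} (hζ : ζ ≠ 0) (M : Matrix.SpecialLinearGroup (Fin 2) L) :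
    (jj ι hζ M).1 1 0 = ζ⁻¹ * ι (M.1 1 0) := rfl

theorem jj_11 (ι : L →+* F) {ζ : F} (hζ : ζ ≠ 0) (M : Matrix.SpecialLinearGroup (Fin 2) L) :
    (jj ι hζ M).1 1 1 = ι (M.1 1 1) := rfl

theorem jj_mul (ι : L →+* F) {ζ : F} (hζ : ζ ≠ 0) (M M' : Matrix.SpecialLinearGroup (Fin 2) L) :
    jj ι hζ (M * M') = jj ι hζ M * jj ι hζ M' := by
  have h3 : ζ * ζ⁻¹ = 1 := mul_inv_cancel₀ hζ
  apply S5016.sl_ext
  · simp only [jj_00, jj_01, jj_10, jj_11, Matrix.SpecialLinearGroup.coe_mul, Matrix.mul_apply,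
      Fin.sum_univ_two, map_add, map_mul]
    linear_combination (-(ι (M.1 0 1) * ι (M'.1 1 0))) * h3
  · simp only [jj_00, jj_01, jj_10, jj_11, Matrix.SpecialLinearGroup.coe_mul, Matrix.mul_apply,
      Fin.sum_univ_two, map_add, map_mul]
    ring
  · simp only [jj_00, jj_01, jj_10, jj_11, Matrix.SpecialLinearGroup.coe_mul, Matrix.mul_apply,
      Fin.sum_univ_two, map_add, map_mul]
    ring
  · simp only [jj_00, jj_01, jj_10, jj_11, Matrix.SpecialLinearGroup.coe_mul, Matrix.mul_apply,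
      Fin.sum_univ_two, map_add, map_mul]
    linear_combination (-(ι (M.1 1 0) * ι (M'.1 0 1))) * h3

def jjHom (ι : L →+* F) {ζ : F} (hζ : ζ ≠ 0) :
    Matrix.SpecialLinearGroup (Fin 2) L →* Matrix.SpecialLinearGroup (Fin 2) F :=
  MonoidHom.mk' (jj ι hζ) (jj_mul ι hζ)

end fieldpart

variable {F : Type*} [Field F] [Fintype F] {N : ℕ} {q : ℕ}

theorem su_ext {g h : ↥(Cfsg.SU N F q)} (e : ∀ v, g.1.1 *ᵥ v = h.1.1 *ᵥ v) : g = h :=
  Subtype.ext (S5043.sl_ext e)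

theorem su_mul_mulVec (g h : ↥(Cfsg.SU N F q)) (v : Fin N → F) :
    (g * h).1.1 *ᵥ v = g.1.1 *ᵥ (h.1.1 *ᵥ v) :=
  S5043.sl_mul_mulVec g.1 h.1 v

theorem su_one_mulVec (v : Fin N → F) : (1 : ↥(Cfsg.SU N F q)).1.1 *ᵥ v = v :=
  Matrix.one_mulVec v

theorem su_form (g : ↥(Cfsg.SU N F q)) (u v : Fin N → F) :
    Cfsg.hermForm N F q (g.1.1 *ᵥ u) (g.1.1 *ᵥ v) = Cfsg.hermForm N F q u v := by
  have h : ∀ u v : Fin N → F,
      Cfsg.hermForm N F q (g.1.1 *ᵥ u) (g.1.1 *ᵥ v) = Cfsg.hermForm N F q u v := g.2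
  exact h u v

theorem su_inv_mulVec (g : ↥(Cfsg.SU N F q)) (v : Fin N → F) :
    (g⁻¹).1.1 *ᵥ (g.1.1 *ᵥ v) = v := by
  rw [← su_mul_mulVec, inv_mul_cancel, su_one_mulVec]

theorem su_mulVec_inv (g : ↥(Cfsg.SU N F q)) (v : Fin N → F) :
    g.1.1 *ᵥ ((g⁻¹).1.1 *ᵥ v) = v := by
  rw [← su_mul_mulVec, mul_inv_cancel, su_one_mulVec]

theorem su_mulVec_ne_zero (g : ↥(Cfsg.SU N F q)) {p : Fin N → F} (hp0 : p ≠ 0) :
    g.1.1 *ᵥ p ≠ 0 := by
  intro h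
  apply hp0
  have h1 := su_inv_mulVec g p
  rw [h, Matrix.mulVec_zero] at h1
  exact h1.symm

def pq (q : ℕ) (p : Fin N → F) : Fin N → F := fun i => p i ^ q

theorem pq_dot (p v : Fin N → F) : pq q p ⬝ᵥ v = Cfsg.hermForm N F q v p := by
  show ∑ i, p i ^ q * v i = ∑ i, v i * p i ^ q
  exact Finset.sum_congr rfl fun i _ => mul_comm _ _

variable (hF : Fintype.card F = q ^ 2)
include hF

local notation "𝔥" => Cfsg.hermForm N F q
local notation "𝔰" => sigq hF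

theorem exists_one {p : Fin N → F} (hp0 : p ≠ 0) : ∃ w : Fin N → F, 𝔥 w p = 1 := by
  have hf := hermForm_isHerm hF N
  have h1 : ∃ x, 𝔥 x p ≠ 0 := by
    by_contra hcon
    exact hp0 (hf.nondeg p fun x => by
      by_contra hx
      exact hcon ⟨x, hx⟩)
  obtain ⟨x, hx⟩ := h1
  exact ⟨(𝔥 x p)⁻¹ • x, by rw [hf.smul_left, inv_mul_cancel₀ hx]⟩

theorem inv_formula {p : Fin N → F} (hp : 𝔥 p p = 0) {g : ↥(Cfsg.SU N F q)} {c : F}
    (hcv : ∀ v : Fin N → F, g.1.1 *ᵥ v = v + (c * 𝔥 v p) • p) (v : Fin N → F) :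
    (g⁻¹).1.1 *ᵥ v = v + (-c * 𝔥 v p) • p := by
  have hf := hermForm_isHerm hF N
  have h1 : g.1.1 *ᵥ (v + (-c * 𝔥 v p) • p) = v := by
    rw [hcv, hf.add_left, hf.smul_left, hp]
    module
  have h2 := su_inv_mulVec g (v + (-c * 𝔥 v p) • p)
  rw [h1] at h2
  exact h2

def IsT (p : Fin N → F) (g : ↥(Cfsg.SU N F q)) : Prop :=
  ∃ c : F, c + 𝔰 c = 0 ∧ ∀ v : Fin N → F, g.1.1 *ᵥ v = v + (c * 𝔥 v p) • p

def TT (p : Fin N → F) : Subgroup ↥(Cfsg.SU N F q) where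
  carrier := {g | 𝔥 p p = 0 → IsT hF p g}
  mul_mem' := by
    intro a b ha hb hp
    have hf := hermForm_isHerm hF N
    obtain ⟨c, hc, hcv⟩ := (show 𝔥 p p = 0 → IsT hF p a from ha) hp
    obtain ⟨d, hd, hdv⟩ := (show 𝔥 p p = 0 → IsT hF p b from hb) hp
    refine ⟨c + d, ?_, fun v => ?_⟩
    · rw [map_add]
      linear_combination hc + hd
    · rw [su_mul_mulVec, hdv, hcv, hf.add_left, hf.smul_left, hp]
      module
  one_mem' := fun _ => ⟨0, by rw [map_zero, add_zero], fun v => by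
    rw [su_one_mulVec, zero_mul, zero_smul, add_zero]⟩
  inv_mem' := by
    intro a ha hp
    obtain ⟨c, hc, hcv⟩ := (show 𝔥 p p = 0 → IsT hF p a from ha) hp
    refine ⟨-c, ?_, inv_formula hF hp hcv⟩
    rw [map_neg]
    linear_combination -hc

theorem mem_TT {p : Fin N → F} (hp : 𝔥 p p = 0) {g : ↥(Cfsg.SU N F q)} :
    g ∈ TT hF p ↔ IsT hF p g :=
  ⟨fun h => (show 𝔥 p p = 0 → IsT hF p g from h) hp,
    fun h => (show 𝔥 p p = 0 → IsT hF p g from fun _ => h)⟩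

theorem mem_TT_of_not {p : Fin N → F} (hp : ¬ 𝔥 p p = 0) (g : ↥(Cfsg.SU N F q)) :
    g ∈ TT hF p :=
  show 𝔥 p p = 0 → IsT hF p g from fun h => absurd h hp

def tauE (p : Fin N → F) (hp : 𝔥 p p = 0) (c : F) (hc : c + 𝔰 c = 0) : ↥(Cfsg.SU N F q) :=
  ⟨S5043.el p (pq q p) (by rw [pq_dot]; exact hp) c, by
    have hf := hermForm_isHerm hF N
    have key : ∀ u v : Fin N → F,
        𝔥 ((S5043.el p (pq q p) (by rw [pq_dot]; exact hp) c).1 *ᵥ u)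
          ((S5043.el p (pq q p) (by rw [pq_dot]; exact hp) c).1 *ᵥ v) = 𝔥 u v := by
      intro u v
      rw [S5043.el_mulVec, S5043.el_mulVec, pq_dot, pq_dot]
      simp only [hf.add_left, hf.add_right, hf.smul_left, hf.smul_right, hp, map_mul]
      rw [← hf.herm p v]
      linear_combination (𝔥 u p * 𝔥 p v) * hc
    exact key⟩

theorem tauE_mulVec (p : Fin N → F) (hp : 𝔥 p p = 0) (c : F) (hc : c + 𝔰 c = 0)
    (v : Fin N → F) : (tauE hF p hp c hc).1.1 *ᵥ v = v + (c * 𝔥 v p) • p := by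
  show (S5043.el p (pq q p) (by rw [pq_dot]; exact hp) c).1 *ᵥ v = _
  rw [S5043.el_mulVec, pq_dot]

theorem tauE_mem (p : Fin N → F) (hp : 𝔥 p p = 0) (c : F) (hc : c + 𝔰 c = 0) :
    tauE hF p hp c hc ∈ TT hF p :=
  (mem_TT hF hp).2 ⟨c, hc, tauE_mulVec hF p hp c hc⟩

theorem TT_eq {p : Fin N → F} (hp0 : p ≠ 0) (hp : 𝔥 p p = 0) :
    Subgroup.closure {g : ↥(Cfsg.SU N F q) |
      (∀ v : Fin N → F, ∃ c : F, ((g : Matrix.SpecialLinearGroup (Fin N) F) : Matrix (Fin N) (Fin N) F) *ᵥ v = v + c • p) ∧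
      ∀ v : Fin N → F, Cfsg.hermForm N F q v p = 0 →
        ((g : Matrix.SpecialLinearGroup (Fin N) F) : Matrix (Fin N) (Fin N) F) *ᵥ v = v} = TT hF p := by
  have hf := hermForm_isHerm hF N
  apply le_antisymm
  · rw [Subgroup.closure_le]
    rintro g ⟨h1, h2⟩
    rw [SetLike.mem_coe, mem_TT hF hp]
    obtain ⟨w, hw⟩ := exists_one hF hp0
    obtain ⟨c, hc⟩ := h1 w
    have key : ∀ v : Fin N → F, g.1.1 *ᵥ v = v + (c * 𝔥 v p) • p := by
      intro v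
      have h3 : 𝔥 (v - 𝔥 v p • w) p = 0 := by
        rw [hf.sub_left, hf.smul_left, hw, mul_one, sub_self]
      have h4 := h2 _ h3
      calc g.1.1 *ᵥ v = g.1.1 *ᵥ ((v - 𝔥 v p • w) + 𝔥 v p • w) := by rw [sub_add_cancel]
        _ = (v - 𝔥 v p • w) + 𝔥 v p • (w + c • p) := by
          rw [Matrix.mulVec_add, Matrix.mulVec_smul, h4, hc]
        _ = v + (c * 𝔥 v p) • p := by module
    refine ⟨c, ?_, key⟩
    have h6 := su_form g w w
    rw [key w, hw, mul_one] at h6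
    have hpw : 𝔥 p w = 1 := by rw [hf.herm p w, hw, map_one]
    simp only [hf.add_left, hf.add_right, hf.smul_left, hf.smul_right, hp, hw, hpw] at h6
    linear_combination h6
  · intro g hg
    obtain ⟨c, hc, hcv⟩ := (mem_TT hF hp).1 hg
    apply Subgroup.subset_closure
    exact ⟨fun v => ⟨c * 𝔥 v p, hcv v⟩, fun v hv => by
      rw [hcv, hv, mul_zero, zero_smul, add_zero]⟩

theorem TT_comm {p : Fin N → F} (hp : 𝔥 p p = 0) : IsMulCommutative ↥(TT hF p) := by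
  have hf := hermForm_isHerm hF N
  constructor
  constructor
  rintro ⟨x, hx⟩ ⟨y, hy⟩
  obtain ⟨c, hc, hcv⟩ := (mem_TT hF hp).1 hx
  obtain ⟨d, hd, hdv⟩ := (mem_TT hF hp).1 hy
  apply Subtype.ext
  apply su_ext
  intro v
  show (x * y).1.1 *ᵥ v = (y * x).1.1 *ᵥ v
  simp only [su_mul_mulVec, hcv, hdv, hf.add_left, hf.smul_left, hp, mul_zero, add_zero]
  module

theorem coef_zero_of_fix {p : Fin N → F} (hp0 : p ≠ 0) {c : F}
    (h : ∀ v : Fin N → F, v = v + (c * 𝔥 v p) • p) : c = 0 := by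
  obtain ⟨w, hw⟩ := exists_one hF hp0
  have h2 := h w
  rw [hw, mul_one] at h2
  have h3 : c • p = 0 := by simpa using h2
  rcases smul_eq_zero.1 h3 with h4 | h4
  · exact h4
  · exact absurd h4 hp0

theorem TT_ne_bot {p : Fin N → F} (hp0 : p ≠ 0) (hp : 𝔥 p p = 0) : TT hF p ≠ ⊥ := by
  have hf := hermForm_isHerm hF N
  obtain ⟨ζ, hζ0, hζ⟩ := hf.exists_zeta
  intro h
  have h1 : tauE hF p hp ζ hζ ∈ TT hF p := tauE_mem hF p hp ζ hζ
  rw [h, Subgroup.mem_bot] at h1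
  apply hζ0
  apply coef_zero_of_fix hF hp0
  intro v
  rw [← tauE_mulVec hF p hp ζ hζ v, h1, su_one_mulVec]

theorem TT_conj (g : ↥(Cfsg.SU N F q)) (p : Fin N → F) :
    conjBy (TT hF p) g = TT hF (g.1.1 *ᵥ p) := by
  have hiso : 𝔥 (g.1.1 *ᵥ p) (g.1.1 *ᵥ p) = 𝔥 p p := su_form g p p
  ext x
  rw [mem_conjBy]
  by_cases hp : 𝔥 p p = 0
  · have hgp : 𝔥 (g.1.1 *ᵥ p) (g.1.1 *ᵥ p) = 0 := by rw [hiso]; exact hp
    rw [mem_TT hF hp, mem_TT hF hgp]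
    constructor
    · rintro ⟨c, hc, hcv⟩
      refine ⟨c, hc, fun v => ?_⟩
      have h1 := hcv ((g⁻¹).1.1 *ᵥ v)
      rw [su_mul_mulVec, su_mul_mulVec, su_mulVec_inv] at h1
      have h2 := congrArg (fun z => g.1.1 *ᵥ z) h1
      simp only [su_mulVec_inv, Matrix.mulVec_add, Matrix.mulVec_smul] at h2
      rw [h2, ← su_form g ((g⁻¹).1.1 *ᵥ v) p, su_mulVec_inv]
    · rintro ⟨c, hc, hcv⟩
      refine ⟨c, hc, fun v => ?_⟩
      rw [su_mul_mulVec, su_mul_mulVec, hcv, Matrix.mulVec_add, Matrix.mulVec_smul,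
        su_inv_mulVec, su_inv_mulVec, su_form]
  · have hgp : ¬ 𝔥 (g.1.1 *ᵥ p) (g.1.1 *ᵥ p) = 0 := by rw [hiso]; exact hp
    exact ⟨fun _ => mem_TT_of_not hF hgp x, fun _ => mem_TT_of_not hF hp _⟩

theorem TT_smul {l : F} (hl : l ≠ 0) (p : Fin N → F) : TT hF (l • p) = TT hF p := by
  have hf := hermForm_isHerm hF N
  have hσl : 𝔰 l ≠ 0 := by
    intro h
    apply hl
    have h1 := hf.invol l
    rw [h, map_zero] at h1
    exact h1.symm
  have hiso : 𝔥 (l • p) (l • p) = l * (𝔰 l * 𝔥 p p) := by rw [hf.smul_left, hf.smul_right]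
  have hfix : 𝔰 (l * 𝔰 l) = l * 𝔰 l := by rw [map_mul, hf.invol, mul_comm]
  ext x
  by_cases hp : 𝔥 p p = 0
  · have hlp : 𝔥 (l • p) (l • p) = 0 := by rw [hiso, hp, mul_zero, mul_zero]
    rw [mem_TT hF hp, mem_TT hF hlp]
    constructor
    · rintro ⟨c, hc, hcv⟩
      refine ⟨c * (l * 𝔰 l), ?_, fun v => ?_⟩
      · rw [map_mul, hfix]
        linear_combination (l * 𝔰 l) * hc
      · rw [hcv, hf.smul_right, smul_smul]
        congr 2
        ring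
    · rintro ⟨c, hc, hcv⟩
      refine ⟨c / (l * 𝔰 l), ?_, fun v => ?_⟩
      · rw [map_div₀, hfix, ← add_div, hc, zero_div]
      · rw [hcv, hf.smul_right, smul_smul]
        congr 2
        field_simp
  · have hlp : ¬ 𝔥 (l • p) (l • p) = 0 := by
      rw [hiso]
      exact mul_ne_zero hl (mul_ne_zero hσl hp)
    exact ⟨fun _ => mem_TT_of_not hF hp x, fun _ => mem_TT_of_not hF hlp x⟩

theorem TT_comm_bot {p r : Fin N → F} (hp : 𝔥 p p = 0) (hr : 𝔥 r r = 0) (h : 𝔥 p r = 0) :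
    ⁅TT hF p, TT hF r⁆ = ⊥ := by
  have hf := hermForm_isHerm hF N
  have h' : 𝔥 r p = 0 := hf.eq_zero_symm h
  rw [Subgroup.commutator_eq_bot_iff_le_centralizer]
  intro x hx
  rw [Subgroup.mem_centralizer_iff]
  intro y hy
  obtain ⟨c, hc, hcv⟩ := (mem_TT hF hp).1 hx
  obtain ⟨d, hd, hdv⟩ := (mem_TT hF hr).1 hy
  apply su_ext
  intro v
  simp only [su_mul_mulVec, hcv, hdv, hf.add_left, hf.smul_left, h, h', mul_zero, add_zero]
  module

theorem field_aux1 {c α β : F} (hc : c ≠ 0) (hα : α ≠ 0) (hβ : β ≠ 0) :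
    -(c * α * β)⁻¹ * α = -(c * β)⁻¹ := by
  field_simp

theorem field_aux2 {c β : F} (hc : c ≠ 0) (hβ : β ≠ 0) : -(c * β)⁻¹ * (-c * β) = 1 := by
  field_simp

theorem TT_cond {p r : Fin N → F} (hp : 𝔥 p p = 0) (hr : 𝔥 r r = 0) (h : 𝔥 p r ≠ 0) :
    RankOneCondition (TT hF p) (TT hF r) := by
  have hf := hermForm_isHerm hF N
  have hr0 : r ≠ 0 := by
    rintro rfl
    exact h (hf.zero_right p)
  have hrp0 : 𝔥 r p ≠ 0 := hf.ne_zero_symm h
  intro a ha ha1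
  obtain ⟨c, hc, hcv⟩ := (mem_TT hF hp).1 ha
  have hc0 : c ≠ 0 := by
    rintro rfl
    apply ha1
    apply su_ext
    intro v
    rw [hcv, zero_mul, zero_smul, add_zero, su_one_mulVec]
  have hσc : 𝔰 c = -c := by linear_combination hc
  have hd : (c * 𝔥 p r * 𝔥 r p)⁻¹ + 𝔰 ((c * 𝔥 p r * 𝔥 r p)⁻¹) = 0 := by
    rw [map_inv₀, map_mul, map_mul, hσc, ← hf.herm r p, ← hf.herm p r]
    have e : -c * 𝔥 r p * 𝔥 p r = -(c * 𝔥 p r * 𝔥 r p) := by ring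
    rw [e, inv_neg, add_neg_cancel]
  refine ⟨tauE hF r hr _ hd, tauE_mem hF r hr _ hd, ?_, ?_⟩
  · intro h1
    have h2 : (c * 𝔥 p r * 𝔥 r p)⁻¹ = 0 := by
      apply coef_zero_of_fix hF hr0
      intro v
      rw [← tauE_mulVec hF r hr _ hd v, h1, su_one_mulVec]
    exact (inv_ne_zero (mul_ne_zero (mul_ne_zero hc0 h) hrp0)) h2
  · rw [TT_conj, TT_conj, inv_formula hF hr (tauE_mulVec hF r hr _ hd),
      inv_formula hF hp hcv]
    have e2 : p + (-(c * 𝔥 p r * 𝔥 r p)⁻¹ * 𝔥 p r) • r =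
        (-(c * 𝔥 r p)⁻¹) • (r + (-c * 𝔥 r p) • p) := by
      rw [field_aux1 hF hc0 h hrp0, smul_add, smul_smul, field_aux2 hF hc0 hrp0, one_smul,
        add_comm]
    rw [e2, TT_smul hF (neg_ne_zero.2 (inv_ne_zero (mul_ne_zero hc0 hrp0)))]

theorem TT_pair {p r : Fin N → F} (hp : 𝔥 p p = 0) (hr : 𝔥 r r = 0) (h : 𝔥 p r ≠ 0) :
    IsRankOnePair (TT hF p) (TT hF r) where
  ne := by
    intro he
    have hf := hermForm_isHerm hF N
    have hr0 : r ≠ 0 := by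
      rintro rfl
      exact h (hf.zero_right p)
    obtain ⟨ζ, hζ0, hζ⟩ := hf.exists_zeta
    have h1 : tauE hF r hr ζ hζ ∈ TT hF p := by
      rw [he]
      exact tauE_mem hF r hr ζ hζ
    obtain ⟨c, hc, hcv⟩ := (mem_TT hF hp).1 h1
    have h2 := hcv p
    rw [tauE_mulVec, hp, mul_zero, zero_smul, add_zero] at h2
    have h3 : (ζ * 𝔥 p r) • r = 0 := by simpa using h2
    rcases smul_eq_zero.1 h3 with h4 | h4
    · exact (mul_ne_zero hζ0 h) h4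
    · exact hr0 h4
  nilpotent_left := ⟨1, Subgroup.upperCentralSeries_one_eq_top_iff.mpr (TT_comm hF hp)⟩
  nilpotent_right := ⟨1, Subgroup.upperCentralSeries_one_eq_top_iff.mpr (TT_comm hF hr)⟩
  cond_left := TT_cond hF hp hr h
  cond_right := TT_cond hF hr hp ((hermForm_isHerm hF N).ne_zero_symm h)

theorem exists_mid {p r : Fin N → F} (hp0 : p ≠ 0) (hr0 : r ≠ 0) (hp : 𝔥 p p = 0)
    (h : 𝔥 p r = 0) :
    ∃ s : Fin N → F, s ≠ 0 ∧ 𝔥 s s = 0 ∧ 𝔥 p s ≠ 0 ∧ 𝔥 s r ≠ 0 := by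
  have hf := hermForm_isHerm hF N
  have e1 : ∃ x, 𝔥 p x ≠ 0 := by
    by_contra hcon
    exact hp0 (hf.nondeg' p fun y => by
      by_contra hy
      exact hcon ⟨y, hy⟩)
  have e2 : ∃ x, 𝔥 r x ≠ 0 := by
    by_contra hcon
    exact hr0 (hf.nondeg' r fun y => by
      by_contra hy
      exact hcon ⟨y, hy⟩)
  obtain ⟨x₁, h1⟩ := e1
  obtain ⟨x₂, h2⟩ := e2
  obtain ⟨x, hpx, hrx⟩ : ∃ x, 𝔥 p x ≠ 0 ∧ 𝔥 r x ≠ 0 := by
    by_cases h3 : 𝔥 r x₁ = 0
    · by_cases h4 : 𝔥 p x₂ = 0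
      · refine ⟨x₁ + x₂, ?_, ?_⟩
        · rw [hf.add_right, h4, add_zero]
          exact h1
        · rw [hf.add_right, h3, zero_add]
          exact h2
      · exact ⟨x₂, h4, h2⟩
    · exact ⟨x₁, h1, h3⟩
  obtain ⟨μ, hμ⟩ := hf.iso_fix p x hp hpx
  have hps : 𝔥 p (x + μ • p) ≠ 0 := by
    rw [hf.add_right, hf.smul_right, hp, mul_zero, add_zero]
    exact hpx
  refine ⟨x + μ • p, ?_, hμ, hps, ?_⟩
  · intro e
    rw [e] at hps
    exact hps (hf.zero_right p)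
  · rw [hf.add_left, hf.smul_left, h, mul_zero, add_zero]
    exact hf.ne_zero_symm hrx

theorem lam_unitary {p r : Fin N → F} (hp : 𝔥 p p = 0) (hr : 𝔥 r r = 0) (hrp : 𝔥 r p = 1)
    {a b c d : F} (ha : 𝔰 a = a) (hb : 𝔰 b = -b) (hc : 𝔰 c = -c) (hd : 𝔰 d = d)
    (hdet : a * d - b * c = 1) (u v : Fin N → F) :
    𝔥 (u + ((a - 1) * 𝔥 u r + b * 𝔥 u p) • p + (c * 𝔥 u r + (d - 1) * 𝔥 u p) • r)
      (v + ((a - 1) * 𝔥 v r + b * 𝔥 v p) • p + (c * 𝔥 v r + (d - 1) * 𝔥 v p) • r) = 𝔥 u v := by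
  have hf := hermForm_isHerm hF N
  have hpr : 𝔥 p r = 1 := by rw [hf.herm p r, hrp, map_one]
  simp only [hf.add_left, hf.add_right, hf.smul_left, hf.smul_right, hp, hr, hrp, hpr, map_add,
    map_mul, map_sub, map_one, ha, hb, hc, hd]
  rw [hf.herm p v, hf.herm r v]
  linear_combination (𝔥 u r * 𝔰 (𝔥 v p) + 𝔥 u p * 𝔰 (𝔥 v r)) * hdet

theorem coef_zero2 {p r : Fin N → F} (hp : 𝔥 p p = 0) (hr : 𝔥 r r = 0) (hrp : 𝔥 r p = 1)
    {z : Fin N → F} {A B : F} (h : z + A • p + B • r = z) : A = 0 ∧ B = 0 := by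
  have hf := hermForm_isHerm hF N
  have hpr : 𝔥 p r = 1 := by rw [hf.herm p r, hrp, map_one]
  have h' : A • p + B • r = 0 := by
    rw [add_assoc] at h
    simpa using h
  have h1 := congrArg (fun x => 𝔥 x r) h'
  have h2 := congrArg (fun x => 𝔥 x p) h'
  simp only [hf.add_left, hf.smul_left, hp, hr, hrp, hpr, hf.zero_left, mul_zero, mul_one,
    add_zero, zero_add] at h1 h2
  exact ⟨h1, h2⟩

theorem psl2_aux {L : Type*} [Field L] (ι : L →+* F) (hι1 : ∀ t, 𝔰 (ι t) = ι t)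
    (hι2 : ∀ x : F, 𝔰 x = x → ∃ t, ι t = x) {p r : Fin N → F} (hp : 𝔥 p p = 0)
    (hr : 𝔥 r r = 0) (hrp : 𝔥 r p = 1) : IsPSL2PairOver L (TT hF p) (TT hF r) := by
  have hf := hermForm_isHerm hF N
  have hpr : 𝔥 p r = 1 := by rw [hf.herm p r, hrp, map_one]
  obtain ⟨ζ, hζ0, hζ⟩ := hf.exists_zeta
  have hσζ : 𝔰 ζ = -ζ := by linear_combination hζ
  have hσζi : 𝔰 ζ⁻¹ = -ζ⁻¹ := by rw [map_inv₀, hσζ, inv_neg]
  have hu : pq q p ⬝ᵥ p = 0 := by rw [pq_dot]; exact hp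
  have hw : pq q r ⬝ᵥ r = 0 := by rw [pq_dot]; exact hr
  have hα : pq q p ⬝ᵥ r = 1 := by rw [pq_dot]; exact hrp
  have hβ : pq q r ⬝ᵥ p = 1 := by rw [pq_dot]; exact hpr
  have hSU : ∀ M : Matrix.SpecialLinearGroup (Fin 2) L,
      ((S5043.phi hu hw hα hβ).comp (jjHom ι hζ0)) M ∈ Cfsg.SU N F q := by
    intro M
    have key : ∀ u v : Fin N → F,
        𝔥 ((S5043.Lam p (pq q p) r (pq q r) (jj ι hζ0 M)) *ᵥ u)
          ((S5043.Lam p (pq q p) r (pq q r) (jj ι hζ0 M)) *ᵥ v) = 𝔥 u v := by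
      intro u v
      simp only [S5043.Lam_mulVec, pq_dot]
      have hdet := (jj ι hζ0 M).2
      rw [Matrix.det_fin_two] at hdet
      exact lam_unitary hF hp hr hrp (a := (jj ι hζ0 M).1 0 0) (b := (jj ι hζ0 M).1 0 1)
        (c := (jj ι hζ0 M).1 1 0) (d := (jj ι hζ0 M).1 1 1)
        (by show 𝔰 (ι (M.1 0 0)) = ι (M.1 0 0); exact hι1 _)
        (by show 𝔰 (ζ * ι (M.1 0 1)) = -(ζ * ι (M.1 0 1)); rw [map_mul, hσζ, hι1, neg_mul])
        (by show 𝔰 (ζ⁻¹ * ι (M.1 1 0)) = -(ζ⁻¹ * ι (M.1 1 0)); rw [map_mul, hσζi, hι1, neg_mul])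
        (by show 𝔰 (ι (M.1 1 1)) = ι (M.1 1 1); exact hι1 _) hdet u v
    exact key
  obtain ⟨Φ, hΦ⟩ : ∃ Φ : Matrix.SpecialLinearGroup (Fin 2) L →* ↥(Cfsg.SU N F q),
      ∀ (M : Matrix.SpecialLinearGroup (Fin 2) L) (z : Fin N → F),
        (Φ M).1.1 *ᵥ z = z + ((ι (M.1 0 0) - 1) * 𝔥 z r + ζ * ι (M.1 0 1) * 𝔥 z p) • p +
          (ζ⁻¹ * ι (M.1 1 0) * 𝔥 z r + (ι (M.1 1 1) - 1) * 𝔥 z p) • r := by
    refine ⟨((S5043.phi hu hw hα hβ).comp (jjHom ι hζ0)).codRestrict (Cfsg.SU N F q) hSU,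
      fun M z => ?_⟩
    show S5043.Lam p (pq q p) r (pq q r) (jj ι hζ0 M) *ᵥ z = _
    simp only [S5043.Lam_mulVec, pq_dot, jj_00, jj_01, jj_10, jj_11]
  have hup : (upperUnipotentSL2 L).map Φ = TT hF p := by
    ext x
    constructor
    · rintro ⟨M, hM, rfl⟩
      obtain ⟨h10, h00, h11⟩ := S5016.mem_upper.1 hM
      refine (mem_TT hF hp).2 ⟨ζ * ι (M.1 0 1), ?_, fun v => ?_⟩
      · rw [map_mul, hσζ, hι1]
        ring
      · rw [hΦ, h10, h00, h11, map_one, map_zero]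
        module
    · intro hx
      obtain ⟨c, hc, hcv⟩ := (mem_TT hF hp).1 hx
      have hσc : 𝔰 c = -c := by linear_combination hc
      obtain ⟨t, ht⟩ := hι2 (ζ⁻¹ * c) (by rw [map_mul, hσζi, hσc]; ring)
      refine ⟨S5016.up t, S5016.up_mem t, su_ext fun v => ?_⟩
      rw [hΦ, hcv, S5016.up_00, S5016.up_01, S5016.up_10, S5016.up_11, map_one, map_zero, ht,
        mul_inv_cancel_left₀ hζ0]
      module
  have hlo : (lowerUnipotentSL2 L).map Φ = TT hF r := by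
    ext x
    constructor
    · rintro ⟨M, hM, rfl⟩
      obtain ⟨h01, h00, h11⟩ := S5016.mem_lower.1 hM
      refine (mem_TT hF hr).2 ⟨ζ⁻¹ * ι (M.1 1 0), ?_, fun v => ?_⟩
      · rw [map_mul, hσζi, hι1]
        ring
      · rw [hΦ, h01, h00, h11, map_one, map_zero]
        module
    · intro hx
      obtain ⟨c, hc, hcv⟩ := (mem_TT hF hr).1 hx
      have hσc : 𝔰 c = -c := by linear_combination hc
      obtain ⟨t, ht⟩ := hι2 (ζ * c) (by rw [map_mul, hσζ, hσc]; ring)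
      refine ⟨S5016.lo t, S5016.lo_mem t, su_ext fun v => ?_⟩
      rw [hΦ, hcv, S5016.lo_00, S5016.lo_01, S5016.lo_10, S5016.lo_11, map_one, map_zero, ht,
        inv_mul_cancel_left₀ hζ0]
      module
  refine ⟨Φ, ?_, ?_, hup, hlo⟩
  · rw [MonoidHom.range_eq_map, ← S5016.sup_eq_top, Subgroup.map_sup, hup, hlo, sup_comm]
  · intro M hM
    rw [MonoidHom.mem_ker] at hM
    have e1 := hΦ M p
    have e2 := hΦ M r
    rw [hM, su_one_mulVec] at e1 e2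
    obtain ⟨a1, a2⟩ := coef_zero2 hF hp hr hrp e1.symm
    obtain ⟨a3, a4⟩ := coef_zero2 hF hp hr hrp e2.symm
    simp only [hp, hr, hrp, hpr, mul_zero, mul_one, add_zero, zero_add] at a1 a2 a3 a4
    have hζi : ζ⁻¹ ≠ 0 := inv_ne_zero hζ0
    have m00 : M.1 0 0 = 1 := ι.injective (by rw [map_one]; exact sub_eq_zero.1 a1)
    have m10 : M.1 1 0 = 0 := by
      rcases mul_eq_zero.1 a2 with h | h
      · exact absurd h hζi
      · exact (map_eq_zero ι).1 h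
    have m01 : M.1 0 1 = 0 := by
      rcases mul_eq_zero.1 a3 with h | h
      · exact absurd h hζ0
      · exact (map_eq_zero ι).1 h
    have m11 : M.1 1 1 = 1 := ι.injective (by rw [map_one]; exact sub_eq_zero.1 a4)
    have h1 : M = 1 := by
      apply S5016.sl_ext
      · simp only [Matrix.SpecialLinearGroup.coe_one, Matrix.one_apply_eq]
        exact m00
      · simp only [Matrix.SpecialLinearGroup.coe_one]
        rw [Matrix.one_apply_ne (by decide)]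
        exact m01
      · simp only [Matrix.SpecialLinearGroup.coe_one]
        rw [Matrix.one_apply_ne (by decide)]
        exact m10
      · simp only [Matrix.SpecialLinearGroup.coe_one, Matrix.one_apply_eq]
        exact m11
    rw [h1]
    exact Subgroup.one_mem _

theorem TT_psl2 {L : Type*} [Field L] (ι : L →+* F) (hι1 : ∀ t, 𝔰 (ι t) = ι t)
    (hι2 : ∀ x : F, 𝔰 x = x → ∃ t, ι t = x) {p r : Fin N → F} (hp : 𝔥 p p = 0)
    (hr : 𝔥 r r = 0) (h : 𝔥 p r ≠ 0) : IsPSL2PairOver L (TT hF p) (TT hF r) := by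
  have hf := hermForm_isHerm hF N
  have hrp : 𝔥 r p ≠ 0 := hf.ne_zero_symm h
  have h1 : 𝔥 ((𝔥 r p)⁻¹ • r) p = 1 := by rw [hf.smul_left, inv_mul_cancel₀ hrp]
  have h2 : 𝔥 ((𝔥 r p)⁻¹ • r) ((𝔥 r p)⁻¹ • r) = 0 := by
    rw [hf.smul_left, hf.smul_right, hr, mul_zero, mul_zero]
  have h3 := psl2_aux hF ι hι1 hι2 hp h2 h1
  rw [TT_smul hF (inv_ne_zero hrp)] at h3
  exact h3

def KK : Subfield F := (sigq hF).eqLocusField (RingHom.id F)

theorem card_KK : Nat.card ↥(KK hF) = q := by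
  have hf := hermForm_isHerm hF 1
  obtain ⟨θ, hθ⟩ := hf.ne_id
  have hθ' : θ - 𝔰 θ ≠ 0 := sub_ne_zero.2 (Ne.symm hθ)
  have hinj : Function.Injective
      (fun ab : ↥(KK hF) × ↥(KK hF) => (ab.1 : F) + (ab.2 : F) * θ) := by
    rintro ⟨⟨a, ha⟩, ⟨b, hb⟩⟩ ⟨⟨a', ha'⟩, ⟨b', hb'⟩⟩ h
    have h1 : a + b * θ = a' + b' * θ := h
    have h2 := congrArg 𝔰 h1
    rw [map_add, map_add, map_mul, map_mul, show 𝔰 a = a from ha, show 𝔰 b = b from hb,
      show 𝔰 a' = a' from ha', show 𝔰 b' = b' from hb'] at h2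
    have h3 : (b - b') * (θ - 𝔰 θ) = 0 := by linear_combination h1 - h2
    have h4 : b = b' := by
      rcases mul_eq_zero.1 h3 with h | h
      · exact sub_eq_zero.1 h
      · exact absurd h hθ'
    have h5 : a = a' := by
      rw [h4] at h1
      exact add_right_cancel h1
    subst h4
    subst h5
    rfl
  have hsurj : Function.Surjective
      (fun ab : ↥(KK hF) × ↥(KK hF) => (ab.1 : F) + (ab.2 : F) * θ) := by
    intro x
    have hb : 𝔰 ((x - 𝔰 x) / (θ - 𝔰 θ)) = (x - 𝔰 x) / (θ - 𝔰 θ) := by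
      rw [map_div₀, map_sub, map_sub, hf.invol, hf.invol, ← neg_sub x (𝔰 x),
        ← neg_sub θ (𝔰 θ), neg_div_neg_eq]
    have hbm : (x - 𝔰 x) / (θ - 𝔰 θ) * (θ - 𝔰 θ) = x - 𝔰 x := div_mul_cancel₀ _ hθ'
    have ha : 𝔰 (x - (x - 𝔰 x) / (θ - 𝔰 θ) * θ) = x - (x - 𝔰 x) / (θ - 𝔰 θ) * θ := by
      rw [map_sub, map_mul, hb]
      linear_combination hbm
    refine ⟨(⟨_, ha⟩, ⟨_, hb⟩), ?_⟩
    show (x - (x - 𝔰 x) / (θ - 𝔰 θ) * θ) + (x - 𝔰 x) / (θ - 𝔰 θ) * θ = x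
    ring
  have hcard := Nat.card_congr (Equiv.ofBijective _ ⟨hinj, hsurj⟩)
  rw [Nat.card_prod, Nat.card_eq_fintype_card (α := F), hF] at hcard
  have h2 : Nat.card ↥(KK hF) ^ 2 = q ^ 2 := by
    rw [sq]
    exact hcard
  exact Nat.pow_left_injective (by norm_num : (2 : ℕ) ≠ 0) h2

theorem exists_L : ∃ (L : Type) (_ : Field L) (_ : Fintype L) (ι : L →+* F),
    Fintype.card L = q ∧ (∀ t, 𝔰 (ι t) = ι t) ∧ (∀ x : F, 𝔰 x = x → ∃ t, ι t = x) := by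
  classical
  letI : Fintype ↥(KK hF) := Fintype.ofFinite _
  refine ⟨Shrink.{0} ↥(KK hF), inferInstance,
    Fintype.ofEquiv ↥(KK hF) (equivShrink.{0} ↥(KK hF)),
    (KK hF).subtype.comp (Shrink.ringEquiv.{0} ↥(KK hF)).toRingHom, ?_, ?_, ?_⟩
  · rw [Fintype.ofEquiv_card, ← Nat.card_eq_fintype_card, card_KK hF]
  · intro t
    exact ((Shrink.ringEquiv.{0} ↥(KK hF)) t).2
  · intro x hx
    refine ⟨(Shrink.ringEquiv.{0} ↥(KK hF)).symm ⟨x, hx⟩, ?_⟩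
    show (((Shrink.ringEquiv.{0} ↥(KK hF))
      ((Shrink.ringEquiv.{0} ↥(KK hF)).symm ⟨x, hx⟩) : ↥(KK hF)) : F) = x
    rw [RingEquiv.apply_symm_apply]

def SS : Set (Subgroup ↥(Cfsg.SU N F q)) :=
  {A | ∃ p : Fin N → F, p ≠ 0 ∧ 𝔥 p p = 0 ∧ A = TT hF p}

abbrev KS : Subgroup ↥(Cfsg.SU N F q) := ⨆ B ∈ SS hF (N := N), B

abbrev SK : Set (Subgroup ↥(KS hF (N := N))) :=
  (fun A : Subgroup ↥(Cfsg.SU N F q) => A.subgroupOf (KS hF)) '' SS hF

theorem le_KS {A : Subgroup ↥(Cfsg.SU N F q)} (hA : A ∈ SS hF) : A ≤ KS hF :=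
  le_iSup₂ (f := fun (B : Subgroup ↥(Cfsg.SU N F q)) (_ : B ∈ SS hF) => B) A hA

theorem SK_pair' : ∀ A ∈ SK hF (N := N), ∀ B ∈ SK hF (N := N),
    ⁅A, B⁆ = ⊥ ∨ IsRankOnePair A B := by
  rintro _ ⟨_, ⟨p, hp0, hp, rfl⟩, rfl⟩ _ ⟨_, ⟨r, hr0, hr, rfl⟩, rfl⟩
  by_cases h : 𝔥 p r = 0
  · exact Or.inl (comm_bot_transfer _ (TT_comm_bot hF hp hr h))
  · exact Or.inr (pair_transfer _ (le_KS hF ⟨p, hp0, hp, rfl⟩) (le_KS hF ⟨r, hr0, hr, rfl⟩)
      (TT_comm hF hp) (TT_comm hF hr) (TT_pair hF hp hr h))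

theorem SK_root : IsRootSubgroupSet (SK hF (N := N)) where
  commutative := by
    rintro _ ⟨_, ⟨p, hp0, hp, rfl⟩, rfl⟩
    exact comm_transfer _ (TT_comm hF hp)
  ne_bot := by
    rintro _ ⟨_, ⟨p, hp0, hp, rfl⟩, rfl⟩
    exact ne_bot_transfer _ (le_KS hF ⟨p, hp0, hp, rfl⟩) (TT_ne_bot hF hp0 hp)
  generates := gen_transfer (SS hF)
  conj_mem := by
    rintro _ ⟨_, ⟨p, hp0, hp, rfl⟩, rfl⟩ g
    rw [conjBy_subgroupOf, TT_conj]
    exact ⟨_, ⟨_, su_mulVec_ne_zero g.1 hp0, (su_form g.1 p p).trans hp, rfl⟩, rfl⟩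
  pair := fun A hA B hB => (SK_pair' hF A hA B hB).imp id Or.inl

theorem TT_conj_exists {p r : Fin N → F} (hp0 : p ≠ 0) (hp : 𝔥 p p = 0) (hr0 : r ≠ 0)
    (hr : 𝔥 r r = 0) : ∃ x ∈ KS hF (N := N), TT hF r = conjBy (TT hF p) x := by
  have step : ∀ {u w : Fin N → F}, u ≠ 0 → 𝔥 u u = 0 → w ≠ 0 → 𝔥 w w = 0 → 𝔥 u w ≠ 0 →
      ∃ x ∈ KS hF (N := N), TT hF w = conjBy (TT hF u) x := by
    intro u w hu0 hu hw0 hw h
    obtain ⟨x, hx, hC⟩ := right_mem_unipotentSubgroups (TT_pair hF hu hw h)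
    exact ⟨x, (sup_le (le_KS hF ⟨u, hu0, hu, rfl⟩) (le_KS hF ⟨w, hw0, hw, rfl⟩)) hx, hC⟩
  by_cases h : 𝔥 p r = 0
  · obtain ⟨s, hs0, hs, hps, hsr⟩ := exists_mid hF hp0 hr0 hp h
    obtain ⟨x₁, hx₁, h1⟩ := step hp0 hp hs0 hs hps
    obtain ⟨x₂, hx₂, h2⟩ := step hs0 hs hr0 hr hsr
    refine ⟨x₂ * x₁, Subgroup.mul_mem _ hx₂ hx₁, ?_⟩
    rw [h2, h1, conjBy_conjBy]
  · exact step hp0 hp hr0 hr h

theorem SK_conj (hex : ∃ p : Fin N → F, p ≠ 0 ∧ 𝔥 p p = 0) :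
    IsConjClassOfSubgroups (SK hF (N := N)) := by
  obtain ⟨p₀, hp₀, hp₀'⟩ := hex
  refine ⟨⟨_, ⟨TT hF p₀, ⟨p₀, hp₀, hp₀', rfl⟩, rfl⟩⟩, ?_⟩
  rintro _ ⟨_, ⟨p, hp0, hp, rfl⟩, rfl⟩ _ ⟨_, ⟨r, hr0, hr, rfl⟩, rfl⟩
  obtain ⟨x, hx, hC⟩ := TT_conj_exists hF hp0 hp hr0 hr
  refine ⟨⟨x, hx⟩, ?_⟩
  rw [conjBy_subgroupOf]
  exact congrArg (fun X : Subgroup ↥(Cfsg.SU N F q) => X.subgroupOf (KS hF)) hC

theorem SK_kroot {L : Type*} [Field L] (ι : L →+* F) (hι1 : ∀ t, 𝔰 (ι t) = ι t)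
    (hι2 : ∀ x : F, 𝔰 x = x → ∃ t, ι t = x) : IsKRootSubgroupSet L (SK hF (N := N)) := by
  refine ⟨SK_root hF, ?_⟩
  rintro _ ⟨_, ⟨p, hp0, hp, rfl⟩, rfl⟩ _ ⟨_, ⟨r, hr0, hr, rfl⟩, rfl⟩ hpair
  have h : 𝔥 p r ≠ 0 := by
    intro h0
    exact not_pair_of_bot (comm_bot_transfer (KS hF) (TT_comm_bot hF hp hr h0)) hpair
  exact psl2_transfer _ (le_KS hF ⟨p, hp0, hp, rfl⟩) (le_KS hF ⟨r, hr0, hr, rfl⟩)
    (TT_psl2 hF ι hι1 hι2 hp hr h)

theorem SK_conn : IsConnectedFamily (FAdj (SK hF (N := N))) (SK hF (N := N)) := by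
  rintro _ ⟨_, ⟨p, hp0, hp, rfl⟩, rfl⟩ _ ⟨_, ⟨r, hr0, hr, rfl⟩, rfl⟩
  have step : ∀ {u w : Fin N → F}, u ≠ 0 → 𝔥 u u = 0 → w ≠ 0 → 𝔥 w w = 0 → 𝔥 u w ≠ 0 →
      FAdj (SK hF (N := N)) ((TT hF u).subgroupOf (KS hF)) ((TT hF w).subgroupOf (KS hF)) :=
    fun hu0 hu hw0 hw h => ⟨⟨_, ⟨_, hu0, hu, rfl⟩, rfl⟩, ⟨_, ⟨_, hw0, hw, rfl⟩, rfl⟩,
      pair_transfer _ (le_KS hF ⟨_, hu0, hu, rfl⟩) (le_KS hF ⟨_, hw0, hw, rfl⟩)
        (TT_comm hF hu) (TT_comm hF hw) (TT_pair hF hu hw h)⟩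
  by_cases h : 𝔥 p r = 0
  · obtain ⟨s, hs0, hs, hps, hsr⟩ := exists_mid hF hp0 hr0 hp h
    exact Relation.ReflTransGen.trans (Relation.ReflTransGen.single (step hp0 hp hs0 hs hps))
      (Relation.ReflTransGen.single (step hs0 hs hr0 hr hsr))
  · exact Relation.ReflTransGen.single (step hp0 hp hr0 hr h)

theorem set_eq : {A : Subgroup ↥(Cfsg.SU N F q) | ∃ p : Fin N → F, p ≠ 0 ∧ Cfsg.hermForm N F q p p = 0 ∧
          A = Subgroup.closure {g : ↥(Cfsg.SU N F q) |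
            (∀ v : Fin N → F, ∃ c : F, ((g : Matrix.SpecialLinearGroup (Fin N) F) : Matrix (Fin N) (Fin N) F) *ᵥ v = v + c • p) ∧
            ∀ v : Fin N → F, Cfsg.hermForm N F q v p = 0 →
              ((g : Matrix.SpecialLinearGroup (Fin N) F) : Matrix (Fin N) (Fin N) F) *ᵥ v = v}} = SS hF := by
  ext A
  constructor
  · rintro ⟨p, hp0, hp, rfl⟩
    exact ⟨p, hp0, hp, TT_eq hF hp0 hp⟩
  · rintro ⟨p, hp0, hp, rfl⟩
    exact ⟨p, hp0, hp, (TT_eq hF hp0 hp).symm⟩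

theorem exists_iso (n : ℕ) :
    ∃ p : Fin (n + 2) → F, p ≠ 0 ∧ Cfsg.hermForm (n + 2) F q p p = 0 := by
  obtain ⟨γ, hγ⟩ := Cfsg.Agent.Lib.Helper15.HermLines.exists_gamma hF
  refine ⟨Cfsg.Agent.Lib.Helper15.HermLines.v0 n q γ,
    Cfsg.Agent.Lib.Helper15.HermLines.v0_ne n q γ, ?_⟩
  rw [Cfsg.Agent.Lib.Helper15.HermLines.v0_form hF]
  have h0 : Cfsg.Agent.Lib.Helper15.HermLines.v0 n q γ 0 = 1 := rfl
  have h1 : Cfsg.Agent.Lib.Helper15.HermLines.v0 n q γ 1 = -γ ^ q := rfl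
  rw [h0, h1]
  have e : (1 : F) - γ * -γ ^ q = 0 := by linear_combination hγ
  rw [e, zero_pow (by have := two_le_q hF; omega)]

end helpers


/-- Let F be a finite field with q² elements, n a natural number, and h the Hermitian form Σ uᵢ vᵢ^q on F^{n+2}. For a non-zero isotropic vector p let T(p) be the group of unitary transvections with centre ⟨p⟩: the elements of SU_{n+2}(q) moving every vector by a multiple of p and fixing every vector perpendicular to p. Let Σ be the set of these T(p) and G₀ the subgroup they generate. Then, viewed inside G₀, the members of Σ form a degenerate class of abstract k-root subgroups of G₀ for some field k with q elements (any two commute or are the unipotent subgroups of a rank one group that is an image of SL₂(k) with central kernel, never the commutator case), and their graph of rank one pairs is connected. -/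
theorem result (F : Type*) [Field F] [Fintype F] (q n : ℕ) (hF : Fintype.card F = q ^ 2) :
    Cfsg.IsRootSubgroupClass ((fun A : Subgroup ↥(Cfsg.SU (n + 2) F q) => A.subgroupOf (⨆ B ∈ {A : Subgroup ↥(Cfsg.SU (n + 2) F q) | ∃ p : Fin (n + 2) → F, p ≠ 0 ∧ Cfsg.hermForm (n + 2) F q p p = 0 ∧
          A = Subgroup.closure {g : ↥(Cfsg.SU (n + 2) F q) |
            (∀ v : Fin (n + 2) → F, ∃ c : F, ((g : Matrix.SpecialLinearGroup (Fin (n + 2)) F) : Matrix (Fin (n + 2)) (Fin (n + 2)) F) *ᵥ v = v + c • p) ∧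
            ∀ v : Fin (n + 2) → F, Cfsg.hermForm (n + 2) F q v p = 0 →
              ((g : Matrix.SpecialLinearGroup (Fin (n + 2)) F) : Matrix (Fin (n + 2)) (Fin (n + 2)) F) *ᵥ v = v}}, B)) ''
      {A : Subgroup ↥(Cfsg.SU (n + 2) F q) | ∃ p : Fin (n + 2) → F, p ≠ 0 ∧ Cfsg.hermForm (n + 2) F q p p = 0 ∧
          A = Subgroup.closure {g : ↥(Cfsg.SU (n + 2) F q) |
            (∀ v : Fin (n + 2) → F, ∃ c : F, ((g : Matrix.SpecialLinearGroup (Fin (n + 2)) F) : Matrix (Fin (n + 2)) (Fin (n + 2)) F) *ᵥ v = v + c • p) ∧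
            ∀ v : Fin (n + 2) → F, Cfsg.hermForm (n + 2) F q v p = 0 →
              ((g : Matrix.SpecialLinearGroup (Fin (n + 2)) F) : Matrix (Fin (n + 2)) (Fin (n + 2)) F) *ᵥ v = v}}) ∧
    Cfsg.IsDegenerateRootSet ((fun A : Subgroup ↥(Cfsg.SU (n + 2) F q) => A.subgroupOf (⨆ B ∈ {A : Subgroup ↥(Cfsg.SU (n + 2) F q) | ∃ p : Fin (n + 2) → F, p ≠ 0 ∧ Cfsg.hermForm (n + 2) F q p p = 0 ∧
          A = Subgroup.closure {g : ↥(Cfsg.SU (n + 2) F q) |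
            (∀ v : Fin (n + 2) → F, ∃ c : F, ((g : Matrix.SpecialLinearGroup (Fin (n + 2)) F) : Matrix (Fin (n + 2)) (Fin (n + 2)) F) *ᵥ v = v + c • p) ∧
            ∀ v : Fin (n + 2) → F, Cfsg.hermForm (n + 2) F q v p = 0 →
              ((g : Matrix.SpecialLinearGroup (Fin (n + 2)) F) : Matrix (Fin (n + 2)) (Fin (n + 2)) F) *ᵥ v = v}}, B)) ''
      {A : Subgroup ↥(Cfsg.SU (n + 2) F q) | ∃ p : Fin (n + 2) → F, p ≠ 0 ∧ Cfsg.hermForm (n + 2) F q p p = 0 ∧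
          A = Subgroup.closure {g : ↥(Cfsg.SU (n + 2) F q) |
            (∀ v : Fin (n + 2) → F, ∃ c : F, ((g : Matrix.SpecialLinearGroup (Fin (n + 2)) F) : Matrix (Fin (n + 2)) (Fin (n + 2)) F) *ᵥ v = v + c • p) ∧
            ∀ v : Fin (n + 2) → F, Cfsg.hermForm (n + 2) F q v p = 0 →
              ((g : Matrix.SpecialLinearGroup (Fin (n + 2)) F) : Matrix (Fin (n + 2)) (Fin (n + 2)) F) *ᵥ v = v}}) ∧
    (∃ (L : Type) (_ : Field L) (_ : Fintype L), Fintype.card L = q ∧ Cfsg.IsKRootSubgroupSet L ((fun A : Subgroup ↥(Cfsg.SU (n + 2) F q) => A.subgroupOf (⨆ B ∈ {A : Subgroup ↥(Cfsg.SU (n + 2) F q) | ∃ p : Fin (n + 2) → F, p ≠ 0 ∧ Cfsg.hermForm (n + 2) F q p p = 0 ∧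
          A = Subgroup.closure {g : ↥(Cfsg.SU (n + 2) F q) |
            (∀ v : Fin (n + 2) → F, ∃ c : F, ((g : Matrix.SpecialLinearGroup (Fin (n + 2)) F) : Matrix (Fin (n + 2)) (Fin (n + 2)) F) *ᵥ v = v + c • p) ∧
            ∀ v : Fin (n + 2) → F, Cfsg.hermForm (n + 2) F q v p = 0 →
              ((g : Matrix.SpecialLinearGroup (Fin (n + 2)) F) : Matrix (Fin (n + 2)) (Fin (n + 2)) F) *ᵥ v = v}}, B)) ''
      {A : Subgroup ↥(Cfsg.SU (n + 2) F q) | ∃ p : Fin (n + 2) → F, p ≠ 0 ∧ Cfsg.hermForm (n + 2) F q p p = 0 ∧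
          A = Subgroup.closure {g : ↥(Cfsg.SU (n + 2) F q) |
            (∀ v : Fin (n + 2) → F, ∃ c : F, ((g : Matrix.SpecialLinearGroup (Fin (n + 2)) F) : Matrix (Fin (n + 2)) (Fin (n + 2)) F) *ᵥ v = v + c • p) ∧
            ∀ v : Fin (n + 2) → F, Cfsg.hermForm (n + 2) F q v p = 0 →
              ((g : Matrix.SpecialLinearGroup (Fin (n + 2)) F) : Matrix (Fin (n + 2)) (Fin (n + 2)) F) *ᵥ v = v}})) ∧
    Cfsg.IsConnectedFamily (Cfsg.FAdj ((fun A : Subgroup ↥(Cfsg.SU (n + 2) F q) => A.subgroupOf (⨆ B ∈ {A : Subgroup ↥(Cfsg.SU (n + 2) F q) | ∃ p : Fin (n + 2) → F, p ≠ 0 ∧ Cfsg.hermForm (n + 2) F q p p = 0 ∧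
          A = Subgroup.closure {g : ↥(Cfsg.SU (n + 2) F q) |
            (∀ v : Fin (n + 2) → F, ∃ c : F, ((g : Matrix.SpecialLinearGroup (Fin (n + 2)) F) : Matrix (Fin (n + 2)) (Fin (n + 2)) F) *ᵥ v = v + c • p) ∧
            ∀ v : Fin (n + 2) → F, Cfsg.hermForm (n + 2) F q v p = 0 →
              ((g : Matrix.SpecialLinearGroup (Fin (n + 2)) F) : Matrix (Fin (n + 2)) (Fin (n + 2)) F) *ᵥ v = v}}, B)) ''
      {A : Subgroup ↥(Cfsg.SU (n + 2) F q) | ∃ p : Fin (n + 2) → F, p ≠ 0 ∧ Cfsg.hermForm (n + 2) F q p p = 0 ∧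
          A = Subgroup.closure {g : ↥(Cfsg.SU (n + 2) F q) |
            (∀ v : Fin (n + 2) → F, ∃ c : F, ((g : Matrix.SpecialLinearGroup (Fin (n + 2)) F) : Matrix (Fin (n + 2)) (Fin (n + 2)) F) *ᵥ v = v + c • p) ∧
            ∀ v : Fin (n + 2) → F, Cfsg.hermForm (n + 2) F q v p = 0 →
              ((g : Matrix.SpecialLinearGroup (Fin (n + 2)) F) : Matrix (Fin (n + 2)) (Fin (n + 2)) F) *ᵥ v = v}})) ((fun A : Subgroup ↥(Cfsg.SU (n + 2) F q) => A.subgroupOf (⨆ B ∈ {A : Subgroup ↥(Cfsg.SU (n + 2) F q) | ∃ p : Fin (n + 2) → F, p ≠ 0 ∧ Cfsg.hermForm (n + 2) F q p p = 0 ∧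
          A = Subgroup.closure {g : ↥(Cfsg.SU (n + 2) F q) |
            (∀ v : Fin (n + 2) → F, ∃ c : F, ((g : Matrix.SpecialLinearGroup (Fin (n + 2)) F) : Matrix (Fin (n + 2)) (Fin (n + 2)) F) *ᵥ v = v + c • p) ∧
            ∀ v : Fin (n + 2) → F, Cfsg.hermForm (n + 2) F q v p = 0 →
              ((g : Matrix.SpecialLinearGroup (Fin (n + 2)) F) : Matrix (Fin (n + 2)) (Fin (n + 2)) F) *ᵥ v = v}}, B)) ''
      {A : Subgroup ↥(Cfsg.SU (n + 2) F q) | ∃ p : Fin (n + 2) → F, p ≠ 0 ∧ Cfsg.hermForm (n + 2) F q p p = 0 ∧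
          A = Subgroup.closure {g : ↥(Cfsg.SU (n + 2) F q) |
            (∀ v : Fin (n + 2) → F, ∃ c : F, ((g : Matrix.SpecialLinearGroup (Fin (n + 2)) F) : Matrix (Fin (n + 2)) (Fin (n + 2)) F) *ᵥ v = v + c • p) ∧
            ∀ v : Fin (n + 2) → F, Cfsg.hermForm (n + 2) F q v p = 0 →
              ((g : Matrix.SpecialLinearGroup (Fin (n + 2)) F) : Matrix (Fin (n + 2)) (Fin (n + 2)) F) *ᵥ v = v}}) := by
  rw [set_eq hF]
  obtain ⟨L, instL, instFin, ι, hcard, hι1, hι2⟩ := exists_L hF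
  exact ⟨⟨SK_root hF, SK_conj hF (exists_iso hF n)⟩,
    degenerate_of_pair' (SK_root hF) (SK_pair' hF),
    ⟨L, instL, instFin, hcard, SK_kroot hF ι hι1 hι2⟩, SK_conn hF⟩

end Cfsg.Agent.S5071
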