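import Cfsg.Statements.S5072
import Mathlib
import Cfsg.Agent.S5071
import Cfsg.Agent.S5016
import Cfsg.Agent.Lib.Helper15.HypPair
import Cfsg.Agent.Lib.Helper15.StdForms
import Cfsg.Agent.Lib.Helper25.RankOne

set_option autoImplicit false
open Matrix
open Cfsg

namespace Cfsg.Agent.S5072

noncomputable section helpers

open Cfsg.Agent.Lib.Helper25.RankOne (mem_conjBy exists_ne_one_left)
open Cfsg.Agent.Lib.Helper15.StdForms (plusQF plus_sep polar_plus)
open Cfsg.Agent.Lib.Helper15.CD2 (act act_apply act_mul act_one act_Q act_polar act_ext)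
open Cfsg.Agent.S5071 (not_pair_of_bot comm_of_central conjBy_subgroupOf cond_transfer
  comm_transfer pair_transfer comm_bot_transfer ne_bot_transfer gen_transfer psl2_transfer)

section transfer2

variable {G : Type*} [Group G] (K : Subgroup G)

theorem comm_le {A B : Subgroup G} (hA : A ≤ K) (hB : B ≤ K) : ⁅A, B⁆ ≤ K := by
  rw [Subgroup.commutator_le]
  intro a ha b hb
  rw [commutatorElement_def]
  exact K.mul_mem (K.mul_mem (K.mul_mem (hA ha) (hB hb)) (K.inv_mem (hA ha))) (K.inv_mem (hB hb))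

theorem comm_subgroupOf {A B : Subgroup G} (hA : A ≤ K) (hB : B ≤ K) :
    ⁅A.subgroupOf K, B.subgroupOf K⁆ = (⁅A, B⁆).subgroupOf K := by
  apply Subgroup.map_injective K.subtype_injective
  rw [Subgroup.map_commutator, Subgroup.map_subgroupOf_eq_of_le hA,
    Subgroup.map_subgroupOf_eq_of_le hB, Subgroup.map_subgroupOf_eq_of_le (comm_le K hA hB)]

theorem rcc_transfer {S : Set (Subgroup G)} {A B : Subgroup G} (hA : A ≤ K) (hB : B ≤ K)
    (h : RootCommutatorCase S A B) :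
    RootCommutatorCase ((fun X : Subgroup G => X.subgroupOf K) '' S) (A.subgroupOf K)
      (B.subgroupOf K) := by
  obtain ⟨h1, h2, h3, h4⟩ := h
  have hAB := comm_le K hA hB
  have e := comm_subgroupOf K hA hB
  refine ⟨?_, ?_, ?_, ?_⟩
  · rw [e]
    exact ⟨_, h1, rfl⟩
  · intro c hc x hx
    rw [e] at hc
    have hx' : (x : G) ∈ A ⊔ B := by
      have h5 := Subgroup.mem_map_of_mem K.subtype hx
      rw [Subgroup.map_sup, Subgroup.map_subgroupOf_eq_of_le hA,
        Subgroup.map_subgroupOf_eq_of_le hB] at h5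
      exact h5
    exact Subtype.ext (h2 (c : G) (Subgroup.mem_subgroupOf.1 hc) (x : G) hx')
  · intro a ha ha1
    rw [e]
    apply Subgroup.map_injective K.subtype_injective
    rw [MonoidHom.map_closure, Subgroup.map_subgroupOf_eq_of_le hAB,
      ← h3 (a : G) (Subgroup.mem_subgroupOf.1 ha) (fun e1 => ha1 (Subtype.ext e1))]
    congr 1
    ext y
    constructor
    · rintro ⟨_, ⟨b, hb, rfl⟩, rfl⟩
      exact ⟨(b : G), Subgroup.mem_subgroupOf.1 hb, rfl⟩
    · rintro ⟨b, hb, rfl⟩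
      exact ⟨_, ⟨⟨b, hB hb⟩, Subgroup.mem_subgroupOf.2 hb, rfl⟩, rfl⟩
  · intro b hb hb1
    rw [e]
    apply Subgroup.map_injective K.subtype_injective
    rw [MonoidHom.map_closure, Subgroup.map_subgroupOf_eq_of_le hAB,
      ← h4 (b : G) (Subgroup.mem_subgroupOf.1 hb) (fun e1 => hb1 (Subtype.ext e1))]
    congr 1
    ext y
    constructor
    · rintro ⟨_, ⟨a, ha, rfl⟩, rfl⟩
      exact ⟨(a : G), Subgroup.mem_subgroupOf.1 ha, rfl⟩
    · rintro ⟨a, ha, rfl⟩
      exact ⟨_, ⟨⟨a, hA ha⟩, Subgroup.mem_subgroupOf.2 ha, rfl⟩, rfl⟩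

end transfer2

def st {n : ℕ} (c : Fin n ⊕ Fin n) : Fin n ⊕ Fin n := Sum.swap c

def und {n : ℕ} (c : Fin n ⊕ Fin n) : Fin n := Sum.elim id id c

def ee (F : Type*) [Field F] {n : ℕ} (c : Fin n ⊕ Fin n) : Fin n ⊕ Fin n → F := Pi.single c 1

theorem st_st {n : ℕ} (c : Fin n ⊕ Fin n) : st (st c) = c := by cases c <;> rfl

theorem und_st {n : ℕ} (c : Fin n ⊕ Fin n) : und (st c) = und c := by cases c <;> rfl

theorem und_eq {n : ℕ} {c d : Fin n ⊕ Fin n} (h : und d = und c) (hd : d ≠ st c) : d = c := by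
  rcases c with i | i <;> rcases d with j | j
  · exact congrArg Sum.inl h
  · exact absurd (congrArg Sum.inr h) hd
  · exact absurd (congrArg Sum.inl h) hd
  · exact congrArg Sum.inr h

theorem exists_third {n : ℕ} (hn : 3 ≤ n) (i j : Fin n) : ∃ k : Fin n, k ≠ i ∧ k ≠ j := by
  have key : ∃ k : ℕ, k < 3 ∧ k ≠ i.val ∧ k ≠ j.val := by
    by_cases h0 : i.val ≠ 0 ∧ j.val ≠ 0
    · exact ⟨0, by omega, by omega, by omega⟩
    · by_cases h1 : i.val ≠ 1 ∧ j.val ≠ 1
      · exact ⟨1, by omega, by omega, by omega⟩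
      · exact ⟨2, by omega, by omega, by omega⟩
  obtain ⟨k, hk, hki, hkj⟩ := key
  exact ⟨⟨k, by omega⟩, fun e => hki (congrArg Fin.val e), fun e => hkj (congrArg Fin.val e)⟩

variable {F : Type*} [Field F] {n : ℕ}

local notation "QQ" => plusQF n F
local notation "𝔹" => QuadraticMap.polar (DFunLike.coe (plusQF n F))
local notation "VV" => (Fin n ⊕ Fin n → F)
local notation "GG" => Subtype (fun x => x ∈ Cfsg.isometryGroup F (DFunLike.coe (plusQF n F)))

theorem ee_self (c : Fin n ⊕ Fin n) : ee F c c = 1 := Pi.single_eq_same c 1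

theorem ee_ne {c d : Fin n ⊕ Fin n} (h : d ≠ c) : ee F c d = 0 := Pi.single_eq_of_ne h 1

theorem ee_und {c d : Fin n ⊕ Fin n} (h : und d ≠ und c) : ee F c d = 0 :=
  ee_ne (fun e => h (by rw [e]))

theorem ee_st {c d : Fin n ⊕ Fin n} (h : und d ≠ und c) : ee F (st c) (st d) = 0 :=
  ee_und (by rw [und_st, und_st]; exact h)

theorem ee_st_self (c : Fin n ⊕ Fin n) : ee F (st c) (st c) = 1 := ee_self _

theorem sep {x : VV} (hx : ∀ y, 𝔹 x y = 0) : x = 0 := plus_sep n x hx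

theorem sep' {x : VV} (hx : ∀ y, 𝔹 y x = 0) : x = 0 :=
  sep fun y => by rw [QuadraticMap.polar_comm]; exact hx y

theorem B_ee (v : VV) (c : Fin n ⊕ Fin n) : 𝔹 v (ee F c) = v (st c) := by
  show QuadraticMap.polar (Cfsg.quadFormPlus n F) v (ee F c) = v (st c)
  rw [polar_plus]
  rcases c with j | j
  · simp [ee, st, Pi.single_apply]
  · simp [ee, st, Pi.single_apply]

theorem ee_B (c : Fin n ⊕ Fin n) (v : VV) : 𝔹 (ee F c) v = v (st c) := by
  rw [QuadraticMap.polar_comm, B_ee]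

theorem Q_ee (c : Fin n ⊕ Fin n) : QQ (ee F c) = 0 := by
  show Cfsg.quadFormPlus n F (ee F c) = 0
  unfold Cfsg.quadFormPlus
  apply Finset.sum_eq_zero
  intro i _
  rcases c with j | j
  · have h0 : ee F (Sum.inl j : Fin n ⊕ Fin n) (Sum.inr i) = 0 := ee_ne (by simp)
    rw [h0, mul_zero]
  · have h0 : ee F (Sum.inr j : Fin n ⊕ Fin n) (Sum.inl i) = 0 := ee_ne (by simp)
    rw [h0, zero_mul]

theorem act_inv_act (g : GG) (v : VV) : act QQ g⁻¹ (act QQ g v) = v := by
  rw [← act_mul, inv_mul_cancel, act_one]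

theorem act_act_inv (g : GG) (v : VV) : act QQ g (act QQ g⁻¹ v) = v := by
  rw [← act_mul, mul_inv_cancel, act_one]

/-- The group of isometries fixing `⟨p, r⟩^⊥` pointwise. -/
def TT (p r : VV) : Subgroup GG where
  carrier := {g | ∀ v : VV, 𝔹 v p = 0 → 𝔹 v r = 0 → act QQ g v = v}
  mul_mem' := by
    intro a b ha hb
    have ha' : ∀ v : VV, 𝔹 v p = 0 → 𝔹 v r = 0 → act QQ a v = v := ha
    have hb' : ∀ v : VV, 𝔹 v p = 0 → 𝔹 v r = 0 → act QQ b v = v := hb
    show ∀ v : VV, 𝔹 v p = 0 → 𝔹 v r = 0 → act QQ (a * b) v = v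
    intro v h1 h2
    rw [act_mul, hb' v h1 h2, ha' v h1 h2]
  one_mem' := by
    show ∀ v : VV, 𝔹 v p = 0 → 𝔹 v r = 0 → act QQ 1 v = v
    intro v _ _
    exact act_one QQ v
  inv_mem' := by
    intro a ha
    have ha' : ∀ v : VV, 𝔹 v p = 0 → 𝔹 v r = 0 → act QQ a v = v := ha
    show ∀ v : VV, 𝔹 v p = 0 → 𝔹 v r = 0 → act QQ a⁻¹ v = v
    intro v h1 h2
    have h := ha' v h1 h2
    calc act QQ a⁻¹ v = act QQ a⁻¹ (act QQ a v) := by rw [h]
      _ = v := act_inv_act a v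

theorem mem_TT_iff {p r : VV} {g : GG} :
    g ∈ TT p r ↔ ∀ v : VV, 𝔹 v p = 0 → 𝔹 v r = 0 → act QQ g v = v := Iff.rfl

/-- `p, r` is a basis of a singular line. -/
structure SLn (p r : VV) : Prop where
  ind : ∀ s t : F, s • p + t • r = 0 → s = 0 ∧ t = 0
  qp : QQ p = 0
  qr : QQ r = 0
  b : 𝔹 p r = 0

theorem SLn.bpp {p r : VV} (h : SLn p r) : 𝔹 p p = 0 := by
  rw [QuadraticMap.polar_self, h.qp, smul_zero]

theorem SLn.brr {p r : VV} (h : SLn p r) : 𝔹 r r = 0 := by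
  rw [QuadraticMap.polar_self, h.qr, smul_zero]

theorem SLn.brp {p r : VV} (h : SLn p r) : 𝔹 r p = 0 := by
  rw [QuadraticMap.polar_comm]; exact h.b

theorem SLn.p_ne {p r : VV} (h : SLn p r) : p ≠ 0 := by
  rintro rfl
  exact one_ne_zero (h.ind 1 0 (by simp)).1

theorem SLn.r_ne {p r : VV} (h : SLn p r) : r ≠ 0 := by
  rintro rfl
  exact one_ne_zero (h.ind 0 1 (by simp)).2

theorem SLn.swap {p r : VV} (h : SLn p r) : SLn r p :=
  ⟨fun s t hst => (h.ind t s (by rw [add_comm]; exact hst)).symm, h.qr, h.qp, h.brp⟩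

theorem SLn.Q_span {p r : VV} (h : SLn p r) (a b : F) : QQ (a • p + b • r) = 0 := by
  rw [QuadraticMap.map_add (⇑QQ), QuadraticMap.map_smul, QuadraticMap.map_smul, h.qp, h.qr,
    QuadraticMap.polar_smul_left, QuadraticMap.polar_smul_right, h.b]
  simp

theorem SLn.B_span {p r : VV} (h : SLn p r) (a b c d : F) :
    𝔹 (a • p + b • r) (c • p + d • r) = 0 := by
  simp only [QuadraticMap.polar_add_left, QuadraticMap.polar_add_right,
    QuadraticMap.polar_smul_left, QuadraticMap.polar_smul_right, h.b, h.bpp, h.brr, h.brp,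
    smul_eq_mul, mul_zero, add_zero]

theorem SLn.comb {p r : VV} (h : SLn p r) {a b c d : F} (hdet : a * d - b * c ≠ 0) :
    SLn (a • p + b • r) (c • p + d • r) := by
  refine ⟨?_, h.Q_span a b, h.Q_span c d, h.B_span a b c d⟩
  intro s t hst
  have h0 : (s * a + t * c) • p + (s * b + t * d) • r = 0 := by
    rw [← hst]; module
  obtain ⟨e1, e2⟩ := h.ind _ _ h0
  constructor
  · have e : s * (a * d - b * c) = 0 := by linear_combination d * e1 - c * e2
    exact (mul_eq_zero.1 e).resolve_right hdet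
  · have e : t * (a * d - b * c) = 0 := by linear_combination a * e2 - b * e1
    exact (mul_eq_zero.1 e).resolve_right hdet

theorem TT_le {p r p' r' : VV}
    (hiff : ∀ v : VV, 𝔹 v p' = 0 → 𝔹 v r' = 0 → 𝔹 v p = 0 ∧ 𝔹 v r = 0) :
    TT p r ≤ TT p' r' := by
  intro g hg
  rw [mem_TT_iff] at hg ⊢
  intro v h1 h2
  exact hg v (hiff v h1 h2).1 (hiff v h1 h2).2

theorem TT_swap (p r : VV) : TT r p = TT p r :=
  le_antisymm (TT_le fun _ h1 h2 => ⟨h2, h1⟩) (TT_le fun _ h1 h2 => ⟨h2, h1⟩)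

theorem TT_comb (p r : VV) {a b c d : F} (hdet : a * d - b * c ≠ 0) :
    TT (a • p + b • r) (c • p + d • r) = TT p r := by
  apply le_antisymm
  · apply TT_le
    intro v h1 h2
    constructor
    · rw [QuadraticMap.polar_add_right, QuadraticMap.polar_smul_right,
        QuadraticMap.polar_smul_right, h1, h2, smul_zero, smul_zero, add_zero]
    · rw [QuadraticMap.polar_add_right, QuadraticMap.polar_smul_right,
        QuadraticMap.polar_smul_right, h1, h2, smul_zero, smul_zero, add_zero]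
  · apply TT_le
    intro v h1 h2
    rw [QuadraticMap.polar_add_right, QuadraticMap.polar_smul_right,
      QuadraticMap.polar_smul_right, smul_eq_mul, smul_eq_mul] at h1 h2
    constructor
    · have e : 𝔹 v p * (a * d - b * c) = 0 := by linear_combination d * h1 - b * h2
      exact (mul_eq_zero.1 e).resolve_right hdet
    · have e : 𝔹 v r * (a * d - b * c) = 0 := by linear_combination a * h2 - c * h1
      exact (mul_eq_zero.1 e).resolve_right hdet

theorem TT_smul (p r : VV) {t : F} (ht : t ≠ 0) : TT (t • p) (t • r) = TT p r := by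
  apply le_antisymm
  · apply TT_le
    intro v h1 h2
    exact ⟨by rw [QuadraticMap.polar_smul_right, h1, smul_zero],
      by rw [QuadraticMap.polar_smul_right, h2, smul_zero]⟩
  · apply TT_le
    intro v h1 h2
    rw [QuadraticMap.polar_smul_right, smul_eq_mul] at h1 h2
    exact ⟨(mul_eq_zero.1 h1).resolve_left ht, (mul_eq_zero.1 h2).resolve_left ht⟩

/-- The Siegel transformation as a function. -/
noncomputable def sgv (p r : VV) (c : F) (v : VV) : VV := v + c • (𝔹 v r • p - 𝔹 v p • r)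

theorem sgv_def (p r : VV) (c : F) (v : VV) :
    sgv p r c v = v + c • (𝔹 v r • p - 𝔹 v p • r) := rfl

theorem B_sgv (p r : VV) (c : F) (v w : VV) :
    𝔹 (sgv p r c v) w = 𝔹 v w + c * (𝔹 v r * 𝔹 p w - 𝔹 v p * 𝔹 r w) := by
  rw [sgv_def]
  simp only [QuadraticMap.polar_add_left, QuadraticMap.polar_smul_left,
    QuadraticMap.polar_sub_left, smul_eq_mul]

theorem sgv_zero (p r : VV) (v : VV) : sgv p r 0 v = v := by
  rw [sgv_def, zero_smul, add_zero]

theorem sgv_sgv {p r : VV} (h : SLn p r) (c d : F) (v : VV) :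
    sgv p r c (sgv p r d v) = sgv p r (c + d) v := by
  have e1 : 𝔹 (sgv p r d v) r = 𝔹 v r := by rw [B_sgv, h.b, h.brr]; ring
  have e2 : 𝔹 (sgv p r d v) p = 𝔹 v p := by rw [B_sgv, h.bpp, h.brp]; ring
  rw [sgv_def p r c (sgv p r d v), e1, e2, sgv_def, sgv_def]
  module

theorem exists_sg {p r : VV} (h : SLn p r) (c : F) :
    ∃ g : GG, ∀ v, act QQ g v = sgv p r c v := by
  obtain ⟨g, hg⟩ := Cfsg.Agent.Lib.Helper15.HypPair.exists_eich QQ p ((-c) • r) h.qp
    (by rw [QuadraticMap.polar_smul_right, h.b, smul_zero])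
  refine ⟨g, fun v => ?_⟩
  rw [hg, Cfsg.Agent.Lib.Helper15.HypPair.eichLin_apply, QuadraticMap.map_smul, h.qr,
    QuadraticMap.polar_smul_left, QuadraticMap.polar_comm (⇑QQ) p v,
    QuadraticMap.polar_comm (⇑QQ) r v, sgv_def]
  simp only [smul_eq_mul, mul_zero, zero_mul, add_zero, smul_zero]
  module

open Classical in
/-- The Siegel transformation as an isometry. -/
noncomputable def sg (p r : VV) (c : F) : GG :=
  if h : SLn p r then Classical.choose (exists_sg h c) else 1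

theorem act_sg {p r : VV} (h : SLn p r) (c : F) (v : VV) :
    act QQ (sg p r c) v = sgv p r c v := by
  unfold sg
  rw [dif_pos h]
  exact Classical.choose_spec (exists_sg h c) v

theorem dual_aux {p r : VV} (hind : ∀ s t : F, s • p + t • r = 0 → s = 0 ∧ t = 0) :
    ∃ u : VV, 𝔹 u p = 1 ∧ 𝔹 u r = 0 := by
  have hr0 : r ≠ 0 := by
    rintro rfl
    exact one_ne_zero (hind 0 1 (by simp)).2
  obtain ⟨w, hw⟩ : ∃ w : VV, 𝔹 w r ≠ 0 := by
    by_contra hcon
    exact hr0 (sep' fun y => by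
      by_contra hy
      exact hcon ⟨y, hy⟩)
  obtain ⟨v₀, hv1, hv2⟩ : ∃ v₀ : VV, 𝔹 v₀ r = 0 ∧ 𝔹 v₀ p ≠ 0 := by
    by_contra hcon
    have hall : ∀ v : VV, 𝔹 v r = 0 → 𝔹 v p = 0 := by
      intro v hv
      by_contra hvp
      exact hcon ⟨v, hv, hvp⟩
    have hz : p - (𝔹 w p * (𝔹 w r)⁻¹) • r = 0 := by
      apply sep'
      intro v
      have h1 := hall (v - (𝔹 v r * (𝔹 w r)⁻¹) • w) (by
        rw [QuadraticMap.polar_sub_left, QuadraticMap.polar_smul_left, smul_eq_mul, mul_assoc,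
          inv_mul_cancel₀ hw, mul_one, sub_self])
      rw [QuadraticMap.polar_sub_left, QuadraticMap.polar_smul_left, smul_eq_mul] at h1
      rw [QuadraticMap.polar_sub_right, QuadraticMap.polar_smul_right, smul_eq_mul]
      linear_combination h1
    have h1 := (hind 1 (-(𝔹 w p * (𝔹 w r)⁻¹))
      (by rw [one_smul, neg_smul, ← sub_eq_add_neg]; exact hz)).1
    exact one_ne_zero h1
  refine ⟨(𝔹 v₀ p)⁻¹ • v₀, ?_, ?_⟩
  · rw [QuadraticMap.polar_smul_left, smul_eq_mul, inv_mul_cancel₀ hv2]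
  · rw [QuadraticMap.polar_smul_left, hv1, smul_zero]

theorem mem_TT {p r : VV} (h : SLn p r) {g : GG} :
    g ∈ TT p r ↔ ∃ c : F, ∀ v, act QQ g v = sgv p r c v := by
  constructor
  · intro hg
    rw [mem_TT_iff] at hg
    obtain ⟨u₁, h11, h12⟩ := dual_aux h.ind
    obtain ⟨u₂, h22, h21⟩ := dual_aux h.swap.ind
    obtain ⟨d₁, hd₁⟩ : ∃ d : VV, d = act QQ g u₁ - u₁ := ⟨_, rfl⟩
    obtain ⟨d₂, hd₂⟩ : ∃ d : VV, d = act QQ g u₂ - u₂ := ⟨_, rfl⟩
    have hW : ∀ v : VV, 𝔹 (v - 𝔹 v p • u₁ - 𝔹 v r • u₂) p = 0 ∧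
        𝔹 (v - 𝔹 v p • u₁ - 𝔹 v r • u₂) r = 0 := by
      intro v
      constructor
      · simp only [QuadraticMap.polar_sub_left, QuadraticMap.polar_smul_left, smul_eq_mul, h11,
          h21]
        ring
      · simp only [QuadraticMap.polar_sub_left, QuadraticMap.polar_smul_left, smul_eq_mul, h12,
          h22]
        ring
    have hdec : ∀ v : VV, act QQ g v = v + 𝔹 v p • d₁ + 𝔹 v r • d₂ := by
      intro v
      have hw := hg _ (hW v).1 (hW v).2
      rw [map_sub, map_sub, map_smul, map_smul] at hw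
      have e : act QQ g v = (act QQ g v - 𝔹 v p • act QQ g u₁ - 𝔹 v r • act QQ g u₂)
          + 𝔹 v p • act QQ g u₁ + 𝔹 v r • act QQ g u₂ := by abel
      rw [e, hw, hd₁, hd₂]
      module
    have hperp : ∀ d : VV, (∀ w : VV, 𝔹 w p = 0 → 𝔹 w r = 0 → 𝔹 d w = 0) →
        d = 𝔹 d u₁ • p + 𝔹 d u₂ • r := by
      intro d hd
      have hz : d - (𝔹 d u₁ • p + 𝔹 d u₂ • r) = 0 := by
        apply sep
        intro y
        have hy := hd _ (hW y).1 (hW y).2
        simp only [QuadraticMap.polar_sub_right, QuadraticMap.polar_smul_right,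
          smul_eq_mul] at hy
        simp only [QuadraticMap.polar_sub_left, QuadraticMap.polar_add_left,
          QuadraticMap.polar_smul_left, smul_eq_mul]
        rw [QuadraticMap.polar_comm (⇑QQ) p y, QuadraticMap.polar_comm (⇑QQ) r y]
        linear_combination hy
      exact sub_eq_zero.1 hz
    have hdw : ∀ u : VV, ∀ w : VV, 𝔹 w p = 0 → 𝔹 w r = 0 → 𝔹 (act QQ g u - u) w = 0 := by
      intro u w hw1 hw2
      have e := act_polar QQ g u w
      rw [hg w hw1 hw2] at e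
      rw [QuadraticMap.polar_sub_left, e, sub_self]
    have e₁ := hperp d₁ (by rw [hd₁]; exact hdw u₁)
    have e₂ := hperp d₂ (by rw [hd₂]; exact hdw u₂)
    have hg₁ : act QQ g u₁ = u₁ + d₁ := by rw [hd₁]; abel
    have hg₂ : act QQ g u₂ = u₂ + d₂ := by rw [hd₂]; abel
    have qd₁ : QQ d₁ = 0 := by rw [e₁]; exact h.Q_span _ _
    have qd₂ : QQ d₂ = 0 := by rw [e₂]; exact h.Q_span _ _
    have a1 : 𝔹 d₁ u₁ = 0 := by
      have q := act_Q QQ g u₁
      rw [hg₁, QuadraticMap.map_add (⇑QQ), qd₁] at q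
      rw [QuadraticMap.polar_comm]
      linear_combination q
    have b2 : 𝔹 d₂ u₂ = 0 := by
      have q := act_Q QQ g u₂
      rw [hg₂, QuadraticMap.map_add (⇑QQ), qd₂] at q
      rw [QuadraticMap.polar_comm]
      linear_combination q
    have d12 : 𝔹 d₁ d₂ = 0 := by rw [e₁, e₂]; exact h.B_span _ _ _ _
    have c12 : 𝔹 d₂ u₁ + 𝔹 d₁ u₂ = 0 := by
      have q := act_polar QQ g u₁ u₂
      rw [hg₁, hg₂] at q
      simp only [QuadraticMap.polar_add_left, QuadraticMap.polar_add_right] at q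
      rw [QuadraticMap.polar_comm (⇑QQ) d₂ u₁]
      linear_combination q - d12
    obtain ⟨c, hc⟩ : ∃ c : F, c = 𝔹 d₂ u₁ := ⟨_, rfl⟩
    have f₁ : d₁ = (-c) • r := by
      have hb1 : 𝔹 d₁ u₂ = -c := by rw [hc]; linear_combination c12
      calc d₁ = 𝔹 d₁ u₁ • p + 𝔹 d₁ u₂ • r := e₁
        _ = (-c) • r := by rw [a1, hb1, zero_smul, zero_add]
    have f₂ : d₂ = c • p := by
      calc d₂ = 𝔹 d₂ u₁ • p + 𝔹 d₂ u₂ • r := e₂
        _ = c • p := by rw [b2, ← hc, zero_smul, add_zero]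
    refine ⟨c, fun v => ?_⟩
    rw [hdec v, f₁, f₂, sgv_def]
    module
  · rintro ⟨c, hc⟩
    rw [mem_TT_iff]
    intro v h1 h2
    rw [hc, sgv_def, h1, h2, zero_smul, zero_smul, sub_zero, smul_zero, add_zero]

theorem sg_mem {p r : VV} (h : SLn p r) (c : F) : sg p r c ∈ TT p r :=
  (mem_TT h).2 ⟨c, act_sg h c⟩

theorem act_inv_of {p r : VV} (h : SLn p r) {g : GG} {c : F}
    (hg : ∀ v, act QQ g v = sgv p r c v) (v : VV) : act QQ g⁻¹ v = sgv p r (-c) v := by
  have e := hg (sgv p r (-c) v)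
  rw [sgv_sgv h, add_neg_cancel, sgv_zero] at e
  calc act QQ g⁻¹ v = act QQ g⁻¹ (act QQ g (sgv p r (-c) v)) := by rw [e]
    _ = sgv p r (-c) v := act_inv_act g _

theorem TT_comm {p r : VV} (h : SLn p r) : IsMulCommutative ↥(TT p r) := by
  constructor
  constructor
  rintro ⟨x, hx⟩ ⟨y, hy⟩
  apply Subtype.ext
  obtain ⟨c, hc⟩ := (mem_TT h).1 hx
  obtain ⟨d, hd⟩ := (mem_TT h).1 hy
  apply act_ext QQ
  intro v
  show act QQ (x * y) v = act QQ (y * x) v
  rw [act_mul, act_mul, hd, hc, hc, hd, sgv_sgv h, sgv_sgv h, add_comm]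

theorem TT_ne_bot {p r : VV} (h : SLn p r) : TT p r ≠ ⊥ := by
  intro hbot
  obtain ⟨u, h11, h12⟩ := dual_aux h.ind
  have hm : sg p r 1 ∈ TT p r := sg_mem h 1
  rw [hbot, Subgroup.mem_bot] at hm
  have e := act_sg h 1 u
  rw [hm, act_one, sgv_def, h11, h12] at e
  have e3 : u + r = u := by
    have e2 : u + r = u + (1 : F) • ((0 : F) • p - (1 : F) • r) + r := by rw [← e]
    rw [e2]
    module
  exact h.r_ne (by simpa using e3)

theorem TT_conj (g : GG) (p r : VV) :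
    conjBy (TT p r) g = TT (act QQ g p) (act QQ g r) := by
  ext x
  rw [mem_conjBy, mem_TT_iff, mem_TT_iff]
  constructor
  · intro hx v h1 h2
    have h1' : 𝔹 (act QQ g⁻¹ v) p = 0 := by
      rw [← act_polar QQ g, act_act_inv]; exact h1
    have h2' : 𝔹 (act QQ g⁻¹ v) r = 0 := by
      rw [← act_polar QQ g, act_act_inv]; exact h2
    have e := hx _ h1' h2'
    rw [act_mul, act_mul, act_act_inv] at e
    have e' := congrArg (fun z => act QQ g z) e
    simp only [act_act_inv] at e'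
    exact e'
  · intro hx v h1 h2
    have h1' : 𝔹 (act QQ g v) (act QQ g p) = 0 := by rw [act_polar]; exact h1
    have h2' : 𝔹 (act QQ g v) (act QQ g r) = 0 := by rw [act_polar]; exact h2
    rw [act_mul, act_mul, hx _ h1' h2', act_inv_act]

theorem SLn.act' {p r : VV} (h : SLn p r) (g : GG) : SLn (act QQ g p) (act QQ g r) := by
  refine ⟨?_, by rw [act_Q]; exact h.qp, by rw [act_Q]; exact h.qr,
    by rw [act_polar]; exact h.b⟩
  intro s t hst
  apply h.ind
  have e : act QQ g (s • p + t • r) = 0 := by rw [map_add, map_smul, map_smul]; exact hst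
  have e' := congrArg (fun z => act QQ g⁻¹ z) e
  simp only [act_inv_act, map_zero] at e'
  exact e'

theorem comm_rank0 {p r p' r' : VV} (h : SLn p r) (h' : SLn p' r') (b11 : 𝔹 p p' = 0)
    (b12 : 𝔹 p r' = 0) (b21 : 𝔹 r p' = 0) (b22 : 𝔹 r r' = 0) :
    ⁅TT p r, TT p' r'⁆ = ⊥ := by
  have c11 : 𝔹 p' p = 0 := by rw [QuadraticMap.polar_comm]; exact b11
  have c12 : 𝔹 r' p = 0 := by rw [QuadraticMap.polar_comm]; exact b12
  have c21 : 𝔹 p' r = 0 := by rw [QuadraticMap.polar_comm]; exact b21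
  have c22 : 𝔹 r' r = 0 := by rw [QuadraticMap.polar_comm]; exact b22
  rw [Subgroup.commutator_eq_bot_iff_le_centralizer]
  intro x hx
  rw [Subgroup.mem_centralizer_iff]
  intro y hy
  obtain ⟨c, hc⟩ := (mem_TT h).1 hx
  obtain ⟨d, hd⟩ := (mem_TT h').1 hy
  apply act_ext QQ
  intro v
  rw [act_mul, act_mul, hd, hc, hc, hd]
  simp only [sgv_def, QuadraticMap.polar_add_left, QuadraticMap.polar_smul_left,
    QuadraticMap.polar_sub_left, smul_eq_mul, b11, b12, b21, b22, c11, c12, c21, c22]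
  module

/-- Normal form of an opposite pair of singular lines. -/
structure NF (p r p' r' : VV) : Prop where
  l : SLn p r
  l' : SLn p' r'
  b11 : 𝔹 p p' = 0
  b12 : 𝔹 p r' = 1
  b21 : 𝔹 r p' = -1
  b22 : 𝔹 r r' = 0

theorem NF.c11 {p r p' r' : VV} (h : NF p r p' r') : 𝔹 p' p = 0 := by
  rw [QuadraticMap.polar_comm]; exact h.b11

theorem NF.c12 {p r p' r' : VV} (h : NF p r p' r') : 𝔹 r' p = 1 := by
  rw [QuadraticMap.polar_comm]; exact h.b12

theorem NF.c21 {p r p' r' : VV} (h : NF p r p' r') : 𝔹 p' r = -1 := by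
  rw [QuadraticMap.polar_comm]; exact h.b21

theorem NF.c22 {p r p' r' : VV} (h : NF p r p' r') : 𝔹 r' r = 0 := by
  rw [QuadraticMap.polar_comm]; exact h.b22

theorem NF.symm {p r p' r' : VV} (h : NF p r p' r') : NF r' p' r p :=
  ⟨h.l'.swap, h.l.swap, h.c22, h.c12, h.c21, h.c11⟩

theorem cond_nf {p r p' r' : VV} (h : NF p r p' r') :
    RankOneCondition (TT p r) (TT p' r') := by
  intro a ha ha1
  obtain ⟨c, hc⟩ := (mem_TT h.l).1 ha
  have hc0 : c ≠ 0 := by
    rintro rfl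
    apply ha1
    apply act_ext QQ
    intro v
    rw [hc, act_one, sgv_zero]
  have hci : c⁻¹ ≠ 0 := inv_ne_zero hc0
  refine ⟨sg p' r' (-c⁻¹), sg_mem h.l' _, ?_, ?_⟩
  · intro e1
    have e := act_sg h.l' (-c⁻¹) p
    rw [e1, act_one, sgv_def, h.b12, h.b11] at e
    have e3 : c⁻¹ • p' = 0 := by
      have e2 : p + c⁻¹ • p' = p + (-c⁻¹) • ((1 : F) • p' - (0 : F) • r') + c⁻¹ • p' := by
        rw [← e]
      have e4 : p + c⁻¹ • p' = p := by
        rw [e2]
        module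
      simpa using e4
    rcases smul_eq_zero.1 e3 with h0 | h0
    · exact hci h0
    · exact h.l'.p_ne h0
  · rw [TT_conj, TT_conj]
    have hb : ∀ v, act QQ (sg p' r' (-c⁻¹))⁻¹ v = sgv p' r' c⁻¹ v := by
      intro v
      have h5 := act_inv_of h.l' (act_sg h.l' (-c⁻¹)) v
      rw [neg_neg] at h5
      exact h5
    have ha' : ∀ v, act QQ a⁻¹ v = sgv p r (-c) v := act_inv_of h.l hc
    have v1 : act QQ (sg p' r' (-c⁻¹))⁻¹ p = c⁻¹ • (p' + c • p) := by
      rw [hb, sgv_def, h.b12, h.b11, smul_add, smul_smul, inv_mul_cancel₀ hc0]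
      module
    have v2 : act QQ (sg p' r' (-c⁻¹))⁻¹ r = c⁻¹ • (r' + c • r) := by
      rw [hb, sgv_def, h.b22, h.b21, smul_add, smul_smul, inv_mul_cancel₀ hc0]
      module
    have v3 : act QQ a⁻¹ p' = p' + c • p := by
      rw [ha', sgv_def, h.c21, h.c11]
      module
    have v4 : act QQ a⁻¹ r' = r' + c • r := by
      rw [ha', sgv_def, h.c22, h.c12]
      module
    rw [v1, v2, v3, v4, TT_smul _ _ hci]

theorem pair_nf {p r p' r' : VV} (h : NF p r p' r') : IsRankOnePair (TT p r) (TT p' r') where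
  ne := by
    intro e
    have hm : sg p r 1 ∈ TT p' r' := by rw [← e]; exact sg_mem h.l 1
    rw [mem_TT_iff] at hm
    have e1 := hm p' h.l'.bpp h.l'.b
    rw [act_sg h.l, sgv_def, h.c21, h.c11] at e1
    have e2 : p = 0 := by
      have e3 : p' + p = p' + (1 : F) • ((-1 : F) • p - (0 : F) • r) + p := by rw [e1]
      have e4 : p' + p = p' := by
        rw [e3]
        module
      simpa using e4
    exact h.l.p_ne e2
  nilpotent_left := ⟨1, Subgroup.upperCentralSeries_one_eq_top_iff.mpr (TT_comm h.l)⟩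
  nilpotent_right := ⟨1, Subgroup.upperCentralSeries_one_eq_top_iff.mpr (TT_comm h.l')⟩
  cond_left := cond_nf h
  cond_right := by
    have h5 := cond_nf h.symm
    rw [TT_swap p' r', TT_swap p r] at h5
    exact h5

/-- The action of `SL₂` attached to a normal form, as a linear map. -/
noncomputable def lamLin (p r p' r' : VV) (a b c d : F) : VV →ₗ[F] VV :=
  LinearMap.id
    + ((a - 1) • (QuadraticMap.polarBilin QQ).flip r'
        + b • (-(QuadraticMap.polarBilin QQ).flip r)).smulRight p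
    + (c • (QuadraticMap.polarBilin QQ).flip r'
        + (d - 1) • (-(QuadraticMap.polarBilin QQ).flip r)).smulRight p'
    + ((a - 1) • (-(QuadraticMap.polarBilin QQ).flip p')
        + b • (QuadraticMap.polarBilin QQ).flip p).smulRight r
    + (c • (-(QuadraticMap.polarBilin QQ).flip p')
        + (d - 1) • (QuadraticMap.polarBilin QQ).flip p).smulRight r'

theorem lamLin_apply (p r p' r' : VV) (a b c d : F) (v : VV) :
    lamLin p r p' r' a b c d v = v + ((a - 1) * 𝔹 v r' + b * (-𝔹 v r)) • p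
      + (c * 𝔹 v r' + (d - 1) * (-𝔹 v r)) • p'
      + ((a - 1) * (-𝔹 v p') + b * 𝔹 v p) • r
      + (c * (-𝔹 v p') + (d - 1) * 𝔹 v p) • r' := rfl

theorem lam_comp {p r p' r' : VV} (h : NF p r p' r') (a b c d a' b' c' d' : F) (v : VV) :
    lamLin p r p' r' a b c d (lamLin p r p' r' a' b' c' d' v)
      = lamLin p r p' r' (a * a' + b * c') (a * b' + b * d') (c * a' + d * c')
          (c * b' + d * d') v := by
  simp only [lamLin_apply, QuadraticMap.polar_add_left, QuadraticMap.polar_smul_left,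
    smul_eq_mul, h.l.bpp, h.l.b, h.l.brp, h.l.brr, h.l'.bpp, h.l'.b, h.l'.brp, h.l'.brr,
    h.b11, h.b12, h.b21, h.b22, h.c11, h.c12, h.c21, h.c22]
  module

theorem lam_one (p r p' r' : VV) (v : VV) : lamLin p r p' r' 1 0 0 1 v = v := by
  rw [lamLin_apply]
  simp

theorem lam_Q {p r p' r' : VV} (h : NF p r p' r') {a b c d : F} (hdet : a * d - b * c = 1)
    (v : VV) : QQ (lamLin p r p' r' a b c d v) = QQ v := by
  rw [lamLin_apply]
  simp only [QuadraticMap.map_add (⇑QQ), QuadraticMap.map_smul, QuadraticMap.polar_add_left,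
    QuadraticMap.polar_add_right, QuadraticMap.polar_smul_left, QuadraticMap.polar_smul_right,
    smul_eq_mul, h.l.qp, h.l.qr, h.l'.qp, h.l'.qr,
    h.l.bpp, h.l.b, h.l.brp, h.l.brr, h.l'.bpp, h.l'.b, h.l'.brp, h.l'.brr,
    h.b11, h.b12, h.b21, h.b22, h.c11, h.c12, h.c21, h.c22]
  linear_combination (𝔹 v r' * 𝔹 v p - 𝔹 v r * 𝔹 v p') * hdet

theorem exists_lam {p r p' r' : VV} (h : NF p r p' r') {a b c d : F}
    (hdet : a * d - b * c = 1) :
    ∃ g : GG, ∀ v, act QQ g v = lamLin p r p' r' a b c d v := by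
  have hc1 : lamLin p r p' r' a b c d ∘ₗ lamLin p r p' r' d (-b) (-c) a = LinearMap.id := by
    apply LinearMap.ext
    intro v
    show lamLin p r p' r' a b c d (lamLin p r p' r' d (-b) (-c) a v) = v
    have e1 : a * d + b * -c = 1 := by linear_combination hdet
    have e2 : a * -b + b * a = 0 := by ring
    have e3 : c * d + d * -c = 0 := by ring
    have e4 : c * -b + d * a = 1 := by linear_combination hdet
    rw [lam_comp h, e1, e2, e3, e4, lam_one]
  have hc2 : lamLin p r p' r' d (-b) (-c) a ∘ₗ lamLin p r p' r' a b c d = LinearMap.id := by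
    apply LinearMap.ext
    intro v
    show lamLin p r p' r' d (-b) (-c) a (lamLin p r p' r' a b c d v) = v
    have e1 : d * a + -b * c = 1 := by linear_combination hdet
    have e2 : d * b + -b * d = 0 := by ring
    have e3 : -c * a + a * c = 0 := by ring
    have e4 : -c * b + a * d = 1 := by linear_combination hdet
    rw [lam_comp h, e1, e2, e3, e4, lam_one]
  obtain ⟨g, hg⟩ := Cfsg.Agent.Lib.Helper15.OrthGen.exists_iso QQ
    (LinearMap.toMatrix' (lamLin p r p' r' a b c d))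
    (LinearMap.toMatrix' (lamLin p r p' r' d (-b) (-c) a))
    (by rw [← LinearMap.toMatrix'_comp, hc1, LinearMap.toMatrix'_id])
    (by rw [← LinearMap.toMatrix'_comp, hc2, LinearMap.toMatrix'_id])
    (fun x => by rw [LinearMap.toMatrix'_mulVec]; exact lam_Q h hdet x)
  exact ⟨g, fun x => by rw [act_apply, hg, LinearMap.toMatrix'_mulVec]⟩

theorem sl_entry (M M' : Matrix.SpecialLinearGroup (Fin 2) F) (i j : Fin 2) :
    (M * M').1 i j = M.1 i 0 * M'.1 0 j + M.1 i 1 * M'.1 1 j := by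
  rw [Matrix.SpecialLinearGroup.coe_mul, Matrix.mul_apply, Fin.sum_univ_two]

theorem psl2_nf {p r p' r' : VV} (h : NF p r p' r') :
    IsPSL2PairOver F (TT p r) (TT p' r') := by
  have hdetM : ∀ M : Matrix.SpecialLinearGroup (Fin 2) F,
      M.1 0 0 * M.1 1 1 - M.1 0 1 * M.1 1 0 = 1 := by
    intro M
    have h5 := M.2
    rw [Matrix.det_fin_two] at h5
    exact h5
  obtain ⟨Φ, hΦ⟩ : ∃ Φ : Matrix.SpecialLinearGroup (Fin 2) F →* GG,
      ∀ (M : Matrix.SpecialLinearGroup (Fin 2) F) (v : VV),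
        act QQ (Φ M) v = lamLin p r p' r' (M.1 0 0) (M.1 0 1) (M.1 1 0) (M.1 1 1) v := by
    choose f hf using fun M : Matrix.SpecialLinearGroup (Fin 2) F => exists_lam h (hdetM M)
    refine ⟨MonoidHom.mk' f (fun M M' => ?_), fun M v => hf M v⟩
    apply act_ext QQ
    intro v
    rw [act_mul, hf, hf, hf, lam_comp h, sl_entry, sl_entry, sl_entry, sl_entry]
  have hup : (upperUnipotentSL2 F).map Φ = TT p r := by
    ext x
    constructor
    · rintro ⟨M, hM, rfl⟩
      obtain ⟨h10, h00, h11⟩ := Cfsg.Agent.S5016.mem_upper.1 hM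
      refine (mem_TT h.l).2 ⟨-(M.1 0 1), fun v => ?_⟩
      rw [hΦ, h10, h00, h11, lamLin_apply, sgv_def]
      module
    · intro hx
      obtain ⟨c, hc⟩ := (mem_TT h.l).1 hx
      refine ⟨Cfsg.Agent.S5016.up (-c), Cfsg.Agent.S5016.up_mem _, act_ext QQ fun v => ?_⟩
      rw [hΦ, hc, Cfsg.Agent.S5016.up_00, Cfsg.Agent.S5016.up_01, Cfsg.Agent.S5016.up_10,
        Cfsg.Agent.S5016.up_11, lamLin_apply, sgv_def]
      module
  have hlo : (lowerUnipotentSL2 F).map Φ = TT p' r' := by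
    ext x
    constructor
    · rintro ⟨M, hM, rfl⟩
      obtain ⟨h01, h00, h11⟩ := Cfsg.Agent.S5016.mem_lower.1 hM
      refine (mem_TT h.l').2 ⟨M.1 1 0, fun v => ?_⟩
      rw [hΦ, h01, h00, h11, lamLin_apply, sgv_def]
      module
    · intro hx
      obtain ⟨c, hc⟩ := (mem_TT h.l').1 hx
      refine ⟨Cfsg.Agent.S5016.lo c, Cfsg.Agent.S5016.lo_mem _, act_ext QQ fun v => ?_⟩
      rw [hΦ, hc, Cfsg.Agent.S5016.lo_00, Cfsg.Agent.S5016.lo_01, Cfsg.Agent.S5016.lo_10,
        Cfsg.Agent.S5016.lo_11, lamLin_apply, sgv_def]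
      module
  refine ⟨Φ, ?_, ?_, hup, hlo⟩
  · rw [MonoidHom.range_eq_map, ← Cfsg.Agent.S5016.sup_eq_top, Subgroup.map_sup, hup, hlo,
      sup_comm]
  · intro M hM
    rw [MonoidHom.mem_ker] at hM
    have e1 := hΦ M p
    have e2 := hΦ M p'
    rw [hM, act_one, lamLin_apply] at e1 e2
    have f1 := congrArg (fun x => 𝔹 x r') e1
    have f2 := congrArg (fun x => 𝔹 x r) e1
    have f3 := congrArg (fun x => 𝔹 x r') e2
    have f4 := congrArg (fun x => 𝔹 x r) e2
    simp only [QuadraticMap.polar_add_left, QuadraticMap.polar_smul_left, smul_eq_mul,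
      h.l.bpp, h.l.b, h.l.brp, h.l.brr, h.l'.bpp, h.l'.b, h.l'.brp, h.l'.brr,
      h.b11, h.b12, h.b21, h.b22, h.c11, h.c12, h.c21, h.c22] at f1 f2 f3 f4
    have m00 : M.1 0 0 = 1 := by linear_combination -f1
    have m10 : M.1 1 0 = 0 := by linear_combination f2
    have m01 : M.1 0 1 = 0 := by linear_combination -f3
    have m11 : M.1 1 1 = 1 := by linear_combination f4
    have h1 : M = 1 := by
      apply Cfsg.Agent.S5016.sl_ext
      · simp only [Matrix.SpecialLinearGroup.coe_one, Matrix.one_apply_eq]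
        exact m00
      · simp only [Matrix.SpecialLinearGroup.coe_one]
        rw [Matrix.one_apply_ne (by decide)]
        exact m01
      · simp only [Matrix.SpecialLinearGroup.coe_one]
        rw [Matrix.one_apply_ne (by decide)]
        exact m10
      · simp only [Matrix.SpecialLinearGroup.coe_one, Matrix.one_apply_eq]
        exact m11
    rw [h1]
    exact Subgroup.one_mem _

theorem nf_of_det {p r p' r' : VV} (h : SLn p r) (h' : SLn p' r')
    (hdet : 𝔹 p p' * 𝔹 r r' - 𝔹 p r' * 𝔹 r p' ≠ 0) :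
    ∃ p'' r'' : VV, NF p r p'' r'' ∧ TT p'' r'' = TT p' r' := by
  obtain ⟨t, ht⟩ : ∃ t : F, t * (𝔹 p p' * 𝔹 r r' - 𝔹 p r' * 𝔹 r p') = 1 :=
    ⟨_, inv_mul_cancel₀ hdet⟩
  have ht0 : t ≠ 0 := by
    rintro rfl
    simp at ht
  have hd : (t * 𝔹 p r') * (-(t * 𝔹 r p')) - (-(t * 𝔹 p p')) * (t * 𝔹 r r') ≠ 0 := by
    have e : (t * 𝔹 p r') * (-(t * 𝔹 r p')) - (-(t * 𝔹 p p')) * (t * 𝔹 r r') = t := by
      linear_combination t * ht
    rw [e]
    exact ht0
  refine ⟨(t * 𝔹 p r') • p' + (-(t * 𝔹 p p')) • r', (t * 𝔹 r r') • p' + (-(t * 𝔹 r p')) • r',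
    ⟨h, h'.comb hd, ?_, ?_, ?_, ?_⟩, TT_comb p' r' hd⟩
  · simp only [QuadraticMap.polar_add_right, QuadraticMap.polar_smul_right, smul_eq_mul]
    ring
  · simp only [QuadraticMap.polar_add_right, QuadraticMap.polar_smul_right, smul_eq_mul]
    linear_combination ht
  · simp only [QuadraticMap.polar_add_right, QuadraticMap.polar_smul_right, smul_eq_mul]
    linear_combination (-1 : F) * ht
  · simp only [QuadraticMap.polar_add_right, QuadraticMap.polar_smul_right, smul_eq_mul]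
    ring

theorem pair_of_det {p r p' r' : VV} (h : SLn p r) (h' : SLn p' r')
    (hdet : 𝔹 p p' * 𝔹 r r' - 𝔹 p r' * 𝔹 r p' ≠ 0) : IsRankOnePair (TT p r) (TT p' r') := by
  obtain ⟨p'', r'', hnf, e⟩ := nf_of_det h h' hdet
  rw [← e]
  exact pair_nf hnf

theorem psl2_of_det {p r p' r' : VV} (h : SLn p r) (h' : SLn p' r')
    (hdet : 𝔹 p p' * 𝔹 r r' - 𝔹 p r' * 𝔹 r p' ≠ 0) :
    IsPSL2PairOver F (TT p r) (TT p' r') := by
  obtain ⟨p'', r'', hnf, e⟩ := nf_of_det h h' hdet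
  rw [← e]
  exact psl2_nf hnf

section defs

variable (n F)

/-- The Siegel transvection groups. -/
def SS : Set (Subgroup GG) := {A | ∃ p r : VV, SLn p r ∧ A = TT p r}

abbrev KS : Subgroup GG := ⨆ B ∈ SS F n, B

abbrev SK : Set (Subgroup ↥(KS F n)) :=
  (fun A : Subgroup GG => A.subgroupOf (KS F n)) '' SS F n

end defs

theorem SS_mem {p r : VV} (h : SLn p r) : TT p r ∈ SS F n := ⟨p, r, h, rfl⟩

theorem le_KS {A : Subgroup GG} (hA : A ∈ SS F n) : A ≤ KS F n :=
  le_iSup₂ (f := fun (B : Subgroup GG) (_ : B ∈ SS F n) => B) A hA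

/-- Normal form of a pair of singular lines with pairing of rank one. -/
structure NF1 (p r p' r' : VV) : Prop where
  l : SLn p r
  l' : SLn p' r'
  b11 : 𝔹 p p' = 0
  b12 : 𝔹 p r' = 0
  b21 : 𝔹 r p' = 0
  b22 : 𝔹 r r' ≠ 0

theorem sgv_comm1 {p r p' r' : VV} (h : NF1 p r p' r') (c d : F) (v : VV) :
    sgv p r c (sgv p' r' d v)
      = sgv p p' (-(c * d * 𝔹 r r')) (sgv p' r' d (sgv p r c v)) := by
  have c11 : 𝔹 p' p = 0 := by rw [QuadraticMap.polar_comm]; exact h.b11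
  have c12 : 𝔹 r' p = 0 := by rw [QuadraticMap.polar_comm]; exact h.b12
  have c21 : 𝔹 p' r = 0 := by rw [QuadraticMap.polar_comm]; exact h.b21
  have c22 : 𝔹 r' r = 𝔹 r r' := QuadraticMap.polar_comm _ _ _
  simp only [sgv_def, QuadraticMap.polar_add_left, QuadraticMap.polar_smul_left,
    QuadraticMap.polar_sub_left, smul_eq_mul, h.l.bpp, h.l.b, h.l.brp, h.l.brr, h.l'.bpp,
    h.l'.b, h.l'.brp, h.l'.brr, h.b11, h.b12, h.b21, c11, c12, c21, c22]
  module

theorem comm_formula {p r p' r' : VV} (h : NF1 p r p' r') {a b : GG} {c d : F}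
    (ha : ∀ v, act QQ a v = sgv p r c v) (hb : ∀ v, act QQ b v = sgv p' r' d v) (v : VV) :
    act QQ (a * b * a⁻¹ * b⁻¹) v = sgv p p' (-(c * d * 𝔹 r r')) v := by
  have e1 : a * b * a⁻¹ * b⁻¹ = (a * b) * (b * a)⁻¹ := by group
  have hw : act QQ b (act QQ a (act QQ (b * a)⁻¹ v)) = v := by
    rw [← act_mul QQ b a, ← act_mul QQ (b * a) (b * a)⁻¹, mul_inv_cancel, act_one]
  calc act QQ (a * b * a⁻¹ * b⁻¹) v = act QQ a (act QQ b (act QQ (b * a)⁻¹ v)) := by
        rw [e1, act_mul, act_mul]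
    _ = sgv p r c (sgv p' r' d (act QQ (b * a)⁻¹ v)) := by rw [ha, hb]
    _ = sgv p p' (-(c * d * 𝔹 r r')) (sgv p' r' d (sgv p r c (act QQ (b * a)⁻¹ v))) :=
        sgv_comm1 h c d _
    _ = sgv p p' (-(c * d * 𝔹 r r')) (act QQ b (act QQ a (act QQ (b * a)⁻¹ v))) := by
        rw [hb, ha]
    _ = sgv p p' (-(c * d * 𝔹 r r')) v := by rw [hw]

theorem nf1_result {p r p' r' : VV} (h : NF1 p r p' r') :
    ⁅TT p r, TT p' r'⁆ = ⊥ ∨ RootCommutatorCase (SS F n) (TT p r) (TT p' r') := by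
  by_cases hdep : ∃ τ : F, p' = τ • p
  · left
    obtain ⟨τ, rfl⟩ := hdep
    rw [Subgroup.commutator_eq_bot_iff_le_centralizer]
    intro x hx
    rw [Subgroup.mem_centralizer_iff]
    intro y hy
    obtain ⟨c, hc⟩ := (mem_TT h.l).1 hx
    obtain ⟨d, hd⟩ := (mem_TT h.l').1 hy
    apply act_ext QQ
    intro v
    rw [act_mul, act_mul, hd, hc, hc, hd, sgv_comm1 h c d v, sgv_def p (τ • p),
      QuadraticMap.polar_smul_right, smul_eq_mul]
    module
  · right
    have c11 : 𝔹 p' p = 0 := by rw [QuadraticMap.polar_comm]; exact h.b11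
    have c12 : 𝔹 r' p = 0 := by rw [QuadraticMap.polar_comm]; exact h.b12
    have hl : SLn p p' := by
      refine ⟨?_, h.l.qp, h.l'.qp, h.b11⟩
      intro s t hst
      have ht : t = 0 := by
        by_contra ht
        apply hdep
        refine ⟨-(t⁻¹ * s), ?_⟩
        have e : t • p' = -(s • p) := by
          rw [eq_neg_iff_add_eq_zero, add_comm]
          exact hst
        calc p' = t⁻¹ • (t • p') := by rw [smul_smul, inv_mul_cancel₀ ht, one_smul]
          _ = -(t⁻¹ * s) • p := by rw [e]; module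
      subst ht
      rw [zero_smul, add_zero] at hst
      rcases smul_eq_zero.1 hst with h0 | h0
      · exact ⟨h0, rfl⟩
      · exact absurd h0 h.l.p_ne
    have hmem : ∀ {a b : GG}, a ∈ TT p r → b ∈ TT p' r' → a * b * a⁻¹ * b⁻¹ ∈ TT p p' := by
      intro a b ha hb
      obtain ⟨c, hc⟩ := (mem_TT h.l).1 ha
      obtain ⟨d, hd⟩ := (mem_TT h.l').1 hb
      exact (mem_TT hl).2 ⟨_, comm_formula h hc hd⟩
    have hcomm : ⁅TT p r, TT p' r'⁆ = TT p p' := by
      apply le_antisymm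
      · rw [Subgroup.commutator_le]
        intro a ha b hb
        rw [commutatorElement_def]
        exact hmem ha hb
      · intro z hz
        obtain ⟨e, he⟩ := (mem_TT hl).1 hz
        have hs : -(1 * -(e * (𝔹 r r')⁻¹) * 𝔹 r r') = e := by
          rw [one_mul, neg_mul, neg_neg, inv_mul_cancel_right₀ h.b22]
        have hz' : z = sg p r 1 * sg p' r' (-(e * (𝔹 r r')⁻¹)) * (sg p r 1)⁻¹
            * (sg p' r' (-(e * (𝔹 r r')⁻¹)))⁻¹ := by
          apply act_ext QQ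
          intro v
          rw [he, comm_formula h (act_sg h.l 1) (act_sg h.l' _), hs]
        rw [hz']
        exact Subgroup.commutator_mem_commutator (sg_mem h.l 1) (sg_mem h.l' _)
    have hcent : ∀ z ∈ ⁅TT p r, TT p' r'⁆, ∀ x ∈ TT p r ⊔ TT p' r', z * x = x * z := by
      intro z hz x hx
      rw [hcomm] at hz
      have hA : TT p r ≤ Subgroup.centralizer (TT p p' : Set GG) :=
        Subgroup.commutator_eq_bot_iff_le_centralizer.1
          (comm_rank0 h.l hl h.l.bpp h.b11 h.l.brp h.b21)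
      have hB : TT p' r' ≤ Subgroup.centralizer (TT p p' : Set GG) :=
        Subgroup.commutator_eq_bot_iff_le_centralizer.1
          (comm_rank0 h.l' hl c11 h.l'.bpp c12 h.l'.brp)
      exact (Subgroup.mem_centralizer_iff.1 ((sup_le hA hB) hx)) z hz
    have hcl1 : ∀ a ∈ TT p r, a ≠ 1 →
        Subgroup.closure ((fun b : GG => a * b * a⁻¹ * b⁻¹) '' (TT p' r' : Set GG))
          = ⁅TT p r, TT p' r'⁆ := by
      intro a ha ha1
      rw [hcomm]
      obtain ⟨c, hc⟩ := (mem_TT h.l).1 ha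
      have hc0 : c ≠ 0 := by
        rintro rfl
        apply ha1
        apply act_ext QQ
        intro v
        rw [hc, act_one, sgv_zero]
      have hcm : c * 𝔹 r r' ≠ 0 := mul_ne_zero hc0 h.b22
      have hset : (fun b : GG => a * b * a⁻¹ * b⁻¹) '' (TT p' r' : Set GG)
          = (TT p p' : Set GG) := by
        ext z
        constructor
        · rintro ⟨b, hb, rfl⟩
          exact hmem ha hb
        · intro hz
          obtain ⟨e, he⟩ := (mem_TT hl).1 hz
          refine ⟨sg p' r' (-(e * (c * 𝔹 r r')⁻¹)), sg_mem h.l' _, ?_⟩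
          show a * sg p' r' (-(e * (c * 𝔹 r r')⁻¹)) * a⁻¹
            * (sg p' r' (-(e * (c * 𝔹 r r')⁻¹)))⁻¹ = z
          apply act_ext QQ
          intro v
          have hs : -(c * -(e * (c * 𝔹 r r')⁻¹) * 𝔹 r r') = e := by
            calc -(c * -(e * (c * 𝔹 r r')⁻¹) * 𝔹 r r')
                = e * ((c * 𝔹 r r')⁻¹ * (c * 𝔹 r r')) := by ring
              _ = e := by rw [inv_mul_cancel₀ hcm, mul_one]
          rw [comm_formula h hc (act_sg h.l' _), hs, he]
      rw [hset, Subgroup.closure_eq]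
    have hcl2 : ∀ b ∈ TT p' r', b ≠ 1 →
        Subgroup.closure ((fun a : GG => a * b * a⁻¹ * b⁻¹) '' (TT p r : Set GG))
          = ⁅TT p r, TT p' r'⁆ := by
      intro b hb hb1
      rw [hcomm]
      obtain ⟨d, hd⟩ := (mem_TT h.l').1 hb
      have hd0 : d ≠ 0 := by
        rintro rfl
        apply hb1
        apply act_ext QQ
        intro v
        rw [hd, act_one, sgv_zero]
      have hdm : d * 𝔹 r r' ≠ 0 := mul_ne_zero hd0 h.b22
      have hset : (fun a : GG => a * b * a⁻¹ * b⁻¹) '' (TT p r : Set GG)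
          = (TT p p' : Set GG) := by
        ext z
        constructor
        · rintro ⟨a, ha, rfl⟩
          exact hmem ha hb
        · intro hz
          obtain ⟨e, he⟩ := (mem_TT hl).1 hz
          refine ⟨sg p r (-(e * (d * 𝔹 r r')⁻¹)), sg_mem h.l _, ?_⟩
          show sg p r (-(e * (d * 𝔹 r r')⁻¹)) * b * (sg p r (-(e * (d * 𝔹 r r')⁻¹)))⁻¹
            * b⁻¹ = z
          apply act_ext QQ
          intro v
          have hs : -(-(e * (d * 𝔹 r r')⁻¹) * d * 𝔹 r r') = e := by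
            calc -(-(e * (d * 𝔹 r r')⁻¹) * d * 𝔹 r r')
                = e * ((d * 𝔹 r r')⁻¹ * (d * 𝔹 r r')) := by ring
              _ = e := by rw [inv_mul_cancel₀ hdm, mul_one]
          rw [comm_formula h (act_sg h.l _) hd, hs, he]
      rw [hset, Subgroup.closure_eq]
    exact ⟨⟨p, p', hl, hcomm⟩, hcent, hcl1, hcl2⟩

theorem nf1_aux {p r p' r' : VV} (h : SLn p r) (h' : SLn p' r')
    (hdet : 𝔹 p p' * 𝔹 r r' - 𝔹 p r' * 𝔹 r p' = 0) (h22 : 𝔹 r r' ≠ 0) :
    ∃ p₁ p₁' : VV, NF1 p₁ r p₁' r' ∧ TT p₁ r = TT p r ∧ TT p₁' r' = TT p' r' := by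
  obtain ⟨t, ht⟩ : ∃ t : F, t * 𝔹 r r' = 1 := ⟨_, inv_mul_cancel₀ h22⟩
  have hd1 : (1 : F) * 1 - (-(t * 𝔹 p r')) * 0 ≠ 0 := by simp
  have hd2 : (1 : F) * 1 - (-(t * 𝔹 r p')) * 0 ≠ 0 := by simp
  have l1 := h.comb hd1
  have l2 := h'.comb hd2
  have t1 := TT_comb p r hd1
  have t2 := TT_comb p' r' hd2
  simp only [one_smul, zero_smul, zero_add] at l1 l2 t1 t2
  refine ⟨p + (-(t * 𝔹 p r')) • r, p' + (-(t * 𝔹 r p')) • r', ⟨l1, l2, ?_, ?_, ?_, h22⟩,
    t1, t2⟩
  · simp only [QuadraticMap.polar_add_left, QuadraticMap.polar_add_right,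
      QuadraticMap.polar_smul_left, QuadraticMap.polar_smul_right, smul_eq_mul]
    linear_combination t * hdet - (𝔹 p p' - t * 𝔹 p r' * 𝔹 r p') * ht
  · simp only [QuadraticMap.polar_add_left, QuadraticMap.polar_smul_left, smul_eq_mul]
    linear_combination (-(𝔹 p r')) * ht
  · simp only [QuadraticMap.polar_add_right, QuadraticMap.polar_smul_right, smul_eq_mul]
    linear_combination (-(𝔹 r p')) * ht

theorem exists_nf1 {p r p' r' : VV} (h : SLn p r) (h' : SLn p' r')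
    (hdet : 𝔹 p p' * 𝔹 r r' - 𝔹 p r' * 𝔹 r p' = 0)
    (hne : ¬(𝔹 p p' = 0 ∧ 𝔹 p r' = 0 ∧ 𝔹 r p' = 0 ∧ 𝔹 r r' = 0)) :
    ∃ p₁ r₁ p₁' r₁' : VV, NF1 p₁ r₁ p₁' r₁' ∧ TT p₁ r₁ = TT p r ∧ TT p₁' r₁' = TT p' r' := by
  by_cases h22 : 𝔹 r r' = 0
  · by_cases h21 : 𝔹 r p' = 0
    · by_cases h12 : 𝔹 p r' = 0
      · have h11 : 𝔹 p p' ≠ 0 := fun h11 => hne ⟨h11, h12, h21, h22⟩
        obtain ⟨p₁, p₁', hnf, e1, e2⟩ :=
          nf1_aux h.swap h'.swap (by linear_combination hdet) h11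
        exact ⟨p₁, p, p₁', p', hnf, e1.trans (TT_swap p r), e2.trans (TT_swap p' r')⟩
      · obtain ⟨p₁, p₁', hnf, e1, e2⟩ :=
          nf1_aux h.swap h' (by linear_combination -hdet) h12
        exact ⟨p₁, p, p₁', r', hnf, e1.trans (TT_swap p r), e2⟩
    · obtain ⟨p₁, p₁', hnf, e1, e2⟩ :=
        nf1_aux h h'.swap (by linear_combination -hdet) h21
      exact ⟨p₁, r, p₁', p', hnf, e1, e2.trans (TT_swap p' r')⟩
  · obtain ⟨p₁, p₁', hnf, e1, e2⟩ := nf1_aux h h' hdet h22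
    exact ⟨p₁, r, p₁', r', hnf, e1, e2⟩

theorem classify {p r p' r' : VV} (h : SLn p r) (h' : SLn p' r') :
    ⁅TT p r, TT p' r'⁆ = ⊥ ∨
      (IsRankOnePair (TT p r) (TT p' r') ∧ IsPSL2PairOver F (TT p r) (TT p' r')) ∨
      RootCommutatorCase (SS F n) (TT p r) (TT p' r') := by
  by_cases hdet : 𝔹 p p' * 𝔹 r r' - 𝔹 p r' * 𝔹 r p' = 0
  · by_cases hz : 𝔹 p p' = 0 ∧ 𝔹 p r' = 0 ∧ 𝔹 r p' = 0 ∧ 𝔹 r r' = 0
    · exact Or.inl (comm_rank0 h h' hz.1 hz.2.1 hz.2.2.1 hz.2.2.2)
    · obtain ⟨p₁, r₁, p₁', r₁', hnf, e1, e2⟩ := exists_nf1 h h' hdet hz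
      rw [← e1, ← e2]
      rcases nf1_result hnf with h0 | h0
      · exact Or.inl h0
      · exact Or.inr (Or.inr h0)
  · exact Or.inr (Or.inl ⟨pair_of_det h h' hdet, psl2_of_det h h' hdet⟩)

theorem SK_root : IsRootSubgroupSet (SK F n) where
  commutative := by
    rintro _ ⟨_, ⟨p, r, h, rfl⟩, rfl⟩
    exact comm_transfer _ (TT_comm h)
  ne_bot := by
    rintro _ ⟨_, ⟨p, r, h, rfl⟩, rfl⟩
    exact ne_bot_transfer _ (le_KS (SS_mem h)) (TT_ne_bot h)
  generates := gen_transfer (SS F n)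
  conj_mem := by
    rintro _ ⟨_, ⟨p, r, h, rfl⟩, rfl⟩ g
    rw [conjBy_subgroupOf, TT_conj]
    exact ⟨_, SS_mem (h.act' g.1), rfl⟩
  pair := by
    rintro _ ⟨_, ⟨p, r, h, rfl⟩, rfl⟩ _ ⟨_, ⟨p', r', h', rfl⟩, rfl⟩
    rcases classify h h' with h0 | h0 | h0
    · exact Or.inl (comm_bot_transfer _ h0)
    · exact Or.inr (Or.inl (pair_transfer _ (le_KS (SS_mem h)) (le_KS (SS_mem h'))
        (TT_comm h) (TT_comm h') h0.1))
    · exact Or.inr (Or.inr (rcc_transfer _ (le_KS (SS_mem h)) (le_KS (SS_mem h')) h0))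

theorem SK_kroot : IsKRootSubgroupSet F (SK F n) := by
  refine ⟨SK_root, ?_⟩
  rintro _ ⟨_, ⟨p, r, h, rfl⟩, rfl⟩ _ ⟨_, ⟨p', r', h', rfl⟩, rfl⟩ hpair
  rcases classify h h' with h0 | h0 | h0
  · exact (not_pair_of_bot (comm_bot_transfer (KS F n) h0) hpair).elim
  · exact psl2_transfer _ (le_KS (SS_mem h)) (le_KS (SS_mem h')) h0.2
  · exfalso
    have hr := rcc_transfer (KS F n) (le_KS (SS_mem h)) (le_KS (SS_mem h')) h0
    obtain ⟨a, ha, ha1⟩ := exists_ne_one_left hpair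
    exact not_pair_of_bot (comm_of_central (comm_transfer (KS F n) (TT_comm h')) hr.2.1
      hpair.cond_left ha ha1) hpair

theorem adj_of_det {p r p' r' : VV} (h : SLn p r) (h' : SLn p' r')
    (hdet : 𝔹 p p' * 𝔹 r r' - 𝔹 p r' * 𝔹 r p' ≠ 0) :
    FAdj (SS F n) (TT p r) (TT p' r') :=
  ⟨SS_mem h, SS_mem h', pair_of_det h h' hdet⟩

theorem SL_ee {a b : Fin n ⊕ Fin n} (hab : und a ≠ und b) : SLn (ee F a) (ee F b) := by
  refine ⟨?_, Q_ee a, Q_ee b, ?_⟩
  · intro s t hst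
    have ha := congrFun hst a
    have hb := congrFun hst b
    simp only [Pi.add_apply, Pi.smul_apply, smul_eq_mul, Pi.zero_apply] at ha hb
    rw [ee_self, ee_und hab] at ha
    rw [ee_self, ee_und (Ne.symm hab)] at hb
    constructor
    · simpa using ha
    · simpa using hb
  · rw [ee_B, ee_und (by rw [und_st]; exact hab)]

theorem SL_mid {a b d : Fin n ⊕ Fin n} (hab : und a ≠ und b) (had : und a ≠ und d)
    (hbd : und b ≠ und d) : SLn (ee F (st a)) (ee F (st b) + ee F (st d)) := by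
  have h1 : SLn (ee F (st a)) (ee F (st b)) := SL_ee (by rw [und_st, und_st]; exact hab)
  have h2 : SLn (ee F (st a)) (ee F (st d)) := SL_ee (by rw [und_st, und_st]; exact had)
  have h3 : SLn (ee F (st b)) (ee F (st d)) := SL_ee (by rw [und_st, und_st]; exact hbd)
  refine ⟨?_, h1.qp, ?_, ?_⟩
  · intro s t hst
    have ha := congrFun hst (st a)
    have hb := congrFun hst (st b)
    simp only [Pi.add_apply, Pi.smul_apply, smul_eq_mul, Pi.zero_apply, ee_st_self,
      ee_st hab, ee_st had, ee_st hab.symm, ee_st hbd] at ha hb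
    constructor
    · simpa using ha
    · simpa using hb
  · rw [QuadraticMap.map_add (⇑QQ), h3.qp, h3.qr, h3.b]
    simp
  · rw [QuadraticMap.polar_add_right, h1.b, h2.b, add_zero]

theorem adj1 {a b d : Fin n ⊕ Fin n} (hab : und a ≠ und b) (had : und a ≠ und d)
    (hbd : und b ≠ und d) :
    FAdj (SS F n) (TT (ee F a) (ee F b)) (TT (ee F (st a)) (ee F (st b) + ee F (st d))) := by
  apply adj_of_det (SL_ee hab) (SL_mid hab had hbd)
  simp only [ee_B, Pi.add_apply, ee_st_self, ee_st hbd, ee_st hab, ee_st had, ee_st hab.symm]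
  simp

theorem adj2 {a b d : Fin n ⊕ Fin n} (hab : und a ≠ und b) (had : und a ≠ und d)
    (hbd : und b ≠ und d) :
    FAdj (SS F n) (TT (ee F (st a)) (ee F (st b) + ee F (st d))) (TT (ee F a) (ee F d)) := by
  apply adj_of_det (SL_mid hab had hbd) (SL_ee had)
  simp only [B_ee, Pi.add_apply, ee_st_self, ee_st hab, ee_st had, ee_st had.symm,
    ee_st hbd.symm]
  simp

theorem chain2 {a b d : Fin n ⊕ Fin n} (hab : und a ≠ und b) (had : und a ≠ und d)
    (hbd : und b ≠ und d) :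
    Relation.ReflTransGen (FAdj (SS F n)) (TT (ee F a) (ee F b)) (TT (ee F a) (ee F d)) :=
  Relation.ReflTransGen.trans (Relation.ReflTransGen.single (adj1 hab had hbd))
    (Relation.ReflTransGen.single (adj2 hab had hbd))

theorem chain3 (hn : 3 ≤ n) {a b d : Fin n ⊕ Fin n} (hab : und a ≠ und b)
    (had : und a ≠ und d) :
    Relation.ReflTransGen (FAdj (SS F n)) (TT (ee F a) (ee F b)) (TT (ee F a) (ee F d)) := by
  by_cases hbd : und b = und d
  · obtain ⟨k, hk1, hk2⟩ := exists_third hn (und a) (und b)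
    have hx1 : und a ≠ und (Sum.inl k : Fin n ⊕ Fin n) := fun e => hk1 e.symm
    have hx2 : und b ≠ und (Sum.inl k : Fin n ⊕ Fin n) := fun e => hk2 e.symm
    have hx3 : und (Sum.inl k : Fin n ⊕ Fin n) ≠ und d := fun e => hk2 (by rw [hbd]; exact e)
    exact Relation.ReflTransGen.trans (chain2 hab hx1 hx2) (chain2 hx1 had hx3)
  · exact chain2 hab had hbd

theorem chain_all (hn : 3 ≤ n) {a b a' b' : Fin n ⊕ Fin n} (hab : und a ≠ und b)
    (hab' : und a' ≠ und b') :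
    Relation.ReflTransGen (FAdj (SS F n)) (TT (ee F a) (ee F b)) (TT (ee F a') (ee F b')) := by
  obtain ⟨k, hk1, hk2⟩ := exists_third hn (und a) (und a')
  have hx1 : und a ≠ und (Sum.inl k : Fin n ⊕ Fin n) := fun e => hk1 e.symm
  have hx2 : und a' ≠ und (Sum.inl k : Fin n ⊕ Fin n) := fun e => hk2 e.symm
  have s1 := chain3 (F := F) hn hab hx1
  have s2 := chain3 (F := F) hn hx1.symm hx2.symm
  have s3 := chain3 (F := F) hn hx2 hab'
  rw [TT_swap (ee F a) (ee F (Sum.inl k)), TT_swap (ee F a') (ee F (Sum.inl k))] at s2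
  exact s1.trans (s2.trans s3)

theorem exists_minor {p r : VV} (h : SLn p r) :
    ∃ c d : Fin n ⊕ Fin n, und c ≠ und d ∧ p c * r d - p d * r c ≠ 0 := by
  by_contra hcon
  have hall : ∀ c d : Fin n ⊕ Fin n, und c ≠ und d → p c * r d = p d * r c := by
    intro c d hcd
    by_contra hne
    exact hcon ⟨c, d, hcd, fun e => hne (sub_eq_zero.1 e)⟩
  obtain ⟨c₀, hc₀⟩ : ∃ c₀, p c₀ ≠ 0 := by
    by_contra hcon2
    apply h.p_ne
    funext c
    by_contra hc
    exact hcon2 ⟨c, hc⟩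
  obtain ⟨t, ht⟩ : ∃ t : F, t * p c₀ = r c₀ :=
    ⟨r c₀ * (p c₀)⁻¹, by rw [mul_assoc, inv_mul_cancel₀ hc₀, mul_one]⟩
  have hzero : ∀ d, d ≠ st c₀ → (r - t • p) d = 0 := by
    intro d hd
    rw [Pi.sub_apply, Pi.smul_apply, smul_eq_mul]
    by_cases hdc : und c₀ = und d
    · have hd' : d = c₀ := und_eq hdc.symm hd
      rw [hd']
      linear_combination -ht
    · have e := hall c₀ d hdc
      have e2 : p c₀ * (r d - t * p d) = 0 := by linear_combination e - p d * ht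
      exact (mul_eq_zero.1 e2).resolve_left hc₀
  have hw : r - t • p = (r - t • p) (st c₀) • ee F (st c₀) := by
    funext d
    by_cases hd : d = st c₀
    · rw [hd, Pi.smul_apply, ee_self, smul_eq_mul, mul_one]
    · rw [Pi.smul_apply, ee_ne hd, smul_zero]
      exact hzero d hd
  have hB : 𝔹 p (r - t • p) = 0 := by
    rw [QuadraticMap.polar_sub_right, QuadraticMap.polar_smul_right, h.b, h.bpp, smul_zero,
      sub_zero]
  rw [hw, QuadraticMap.polar_smul_right, B_ee, st_st, smul_eq_mul] at hB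
  rcases mul_eq_zero.1 hB with h0 | h0
  · have hr : r - t • p = 0 := by rw [hw, h0, zero_smul]
    have h1 := (h.ind (-t) 1 (by rw [neg_smul, one_smul, neg_add_eq_sub]; exact hr)).2
    exact one_ne_zero h1
  · exact hc₀ h0

theorem adj_coord {p r : VV} (h : SLn p r) :
    ∃ a b : Fin n ⊕ Fin n, und a ≠ und b ∧ FAdj (SS F n) (TT p r) (TT (ee F a) (ee F b)) := by
  obtain ⟨c, d, hcd, hm⟩ := exists_minor h
  refine ⟨st c, st d, by rw [und_st, und_st]; exact hcd, ?_⟩
  apply adj_of_det h (SL_ee (by rw [und_st, und_st]; exact hcd))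
  simp only [B_ee, st_st]
  exact hm

theorem SS_conn (hn : 3 ≤ n) : IsConnectedFamily (FAdj (SS F n)) (SS F n) := by
  rintro _ ⟨p, r, h, rfl⟩ _ ⟨p', r', h', rfl⟩
  obtain ⟨a, b, hab, h1⟩ := adj_coord h
  obtain ⟨a', b', hab', h2⟩ := adj_coord h'
  have h2' : FAdj (SS F n) (TT (ee F a') (ee F b')) (TT p' r') :=
    ⟨h2.2.1, h2.1, RankOnePair_symm h2.2.2⟩
  exact (Relation.ReflTransGen.single h1).trans
    ((chain_all hn hab hab').trans (Relation.ReflTransGen.single h2'))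

theorem set_eq (m : ℕ) :
    ({A : Subgroup ↥(Cfsg.isometryGroup F (Cfsg.quadFormPlus (m + 3) F)) | ∃ p r : Fin (m + 3) ⊕ Fin (m + 3) → F, LinearIndependent F ![p, r] ∧
          Cfsg.quadFormPlus (m + 3) F p = 0 ∧ Cfsg.quadFormPlus (m + 3) F r = 0 ∧
          Cfsg.quadFormPlus (m + 3) F (p + r) = 0 ∧
          A = Subgroup.closure {σ : ↥(Cfsg.isometryGroup F (Cfsg.quadFormPlus (m + 3) F)) | ∀ v : Fin (m + 3) ⊕ Fin (m + 3) → F,
            Cfsg.quadFormPlus (m + 3) F (v + p) - Cfsg.quadFormPlus (m + 3) F v - Cfsg.quadFormPlus (m + 3) F p = 0 →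
            Cfsg.quadFormPlus (m + 3) F (v + r) - Cfsg.quadFormPlus (m + 3) F v - Cfsg.quadFormPlus (m + 3) F r = 0 →
              ((σ : Matrix.GeneralLinearGroup (Fin (m + 3) ⊕ Fin (m + 3)) F) : Matrix (Fin (m + 3) ⊕ Fin (m + 3)) (Fin (m + 3) ⊕ Fin (m + 3)) F) *ᵥ v = v}} :
      Set (Subgroup ↥(Cfsg.isometryGroup F (Cfsg.quadFormPlus (m + 3) F)))) = SS F (m + 3) := by
  ext A
  constructor
  · rintro ⟨p, r, hlin, hp, hr, hpr, rfl⟩
    refine ⟨p, r, ⟨LinearIndependent.pair_iff.1 hlin, hp, hr, ?_⟩, ?_⟩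
    · show Cfsg.quadFormPlus (m + 3) F (p + r) - Cfsg.quadFormPlus (m + 3) F p
        - Cfsg.quadFormPlus (m + 3) F r = 0
      rw [hpr, hp, hr]
      simp
    · exact Subgroup.closure_eq (TT p r)
  · rintro ⟨p, r, h, rfl⟩
    refine ⟨p, r, LinearIndependent.pair_iff.2 h.ind, h.qp, h.qr, ?_,
      (Subgroup.closure_eq (TT p r)).symm⟩
    have e : Cfsg.quadFormPlus (m + 3) F (p + r) - Cfsg.quadFormPlus (m + 3) F p
        - Cfsg.quadFormPlus (m + 3) F r = 0 := h.b
    have e1 : Cfsg.quadFormPlus (m + 3) F p = 0 := h.qp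
    have e2 : Cfsg.quadFormPlus (m + 3) F r = 0 := h.qr
    rw [e1, e2, sub_zero, sub_zero] at e
    exact e

theorem main (m : ℕ) : IsKRootSubgroupSet F (SK F (m + 3)) ∧
    IsConnectedFamily (FAdj (SS F (m + 3))) (SS F (m + 3)) :=
  ⟨SK_kroot, SS_conn (by omega)⟩

end helpers


/-- Let F be a field, m a natural number and V = F^{2(m+3)} with the hyperbolic quadratic form q(x, y) = Σ xᵢ yᵢ (non-degenerate, Witt index m + 3 ≥ 3). For a singular line ℓ (a 2-dimensional subspace on which q vanishes) let T(ℓ) be the group of isometries of q fixing every vector of ℓ^⊥ (the Siegel transvection group of ℓ), let Σ be the set of these groups and G₀ the subgroup they generate. Then, viewed inside G₀, the members of Σ form a set of abstract F-root subgroups of G₀ (any two commute, or are the unipotent subgroups of a rank one group that is an image of SL₂(F) with central kernel, or satisfy the commutator case), and their graph of rank one pairs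 is connected. -/
theorem result (F : Type*) [Field F] (m : ℕ) :
    Cfsg.IsKRootSubgroupSet F ((fun A : Subgroup ↥(Cfsg.isometryGroup F (Cfsg.quadFormPlus (m + 3) F)) => A.subgroupOf (⨆ B ∈ {A : Subgroup ↥(Cfsg.isometryGroup F (Cfsg.quadFormPlus (m + 3) F)) | ∃ p r : Fin (m + 3) ⊕ Fin (m + 3) → F, LinearIndependent F ![p, r] ∧
          Cfsg.quadFormPlus (m + 3) F p = 0 ∧ Cfsg.quadFormPlus (m + 3) F r = 0 ∧
          Cfsg.quadFormPlus (m + 3) F (p + r) = 0 ∧
          A = Subgroup.closure {σ : ↥(Cfsg.isometryGroup F (Cfsg.quadFormPlus (m + 3) F)) | ∀ v : Fin (m + 3) ⊕ Fin (m + 3) → F,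
            Cfsg.quadFormPlus (m + 3) F (v + p) - Cfsg.quadFormPlus (m + 3) F v - Cfsg.quadFormPlus (m + 3) F p = 0 →
            Cfsg.quadFormPlus (m + 3) F (v + r) - Cfsg.quadFormPlus (m + 3) F v - Cfsg.quadFormPlus (m + 3) F r = 0 →
              ((σ : Matrix.GeneralLinearGroup (Fin (m + 3) ⊕ Fin (m + 3)) F) : Matrix (Fin (m + 3) ⊕ Fin (m + 3)) (Fin (m + 3) ⊕ Fin (m + 3)) F) *ᵥ v = v}}, B)) ''
      {A : Subgroup ↥(Cfsg.isometryGroup F (Cfsg.quadFormPlus (m + 3) F)) | ∃ p r : Fin (m + 3) ⊕ Fin (m + 3) → F, LinearIndependent F ![p, r] ∧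
          Cfsg.quadFormPlus (m + 3) F p = 0 ∧ Cfsg.quadFormPlus (m + 3) F r = 0 ∧
          Cfsg.quadFormPlus (m + 3) F (p + r) = 0 ∧
          A = Subgroup.closure {σ : ↥(Cfsg.isometryGroup F (Cfsg.quadFormPlus (m + 3) F)) | ∀ v : Fin (m + 3) ⊕ Fin (m + 3) → F,
            Cfsg.quadFormPlus (m + 3) F (v + p) - Cfsg.quadFormPlus (m + 3) F v - Cfsg.quadFormPlus (m + 3) F p = 0 →
            Cfsg.quadFormPlus (m + 3) F (v + r) - Cfsg.quadFormPlus (m + 3) F v - Cfsg.quadFormPlus (m + 3) F r = 0 →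
              ((σ : Matrix.GeneralLinearGroup (Fin (m + 3) ⊕ Fin (m + 3)) F) : Matrix (Fin (m + 3) ⊕ Fin (m + 3)) (Fin (m + 3) ⊕ Fin (m + 3)) F) *ᵥ v = v}}) ∧
    Cfsg.IsConnectedFamily (Cfsg.FAdj {A : Subgroup ↥(Cfsg.isometryGroup F (Cfsg.quadFormPlus (m + 3) F)) | ∃ p r : Fin (m + 3) ⊕ Fin (m + 3) → F, LinearIndependent F ![p, r] ∧
          Cfsg.quadFormPlus (m + 3) F p = 0 ∧ Cfsg.quadFormPlus (m + 3) F r = 0 ∧
          Cfsg.quadFormPlus (m + 3) F (p + r) = 0 ∧
          A = Subgroup.closure {σ : ↥(Cfsg.isometryGroup F (Cfsg.quadFormPlus (m + 3) F)) | ∀ v : Fin (m + 3) ⊕ Fin (m + 3) → F,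
            Cfsg.quadFormPlus (m + 3) F (v + p) - Cfsg.quadFormPlus (m + 3) F v - Cfsg.quadFormPlus (m + 3) F p = 0 →
            Cfsg.quadFormPlus (m + 3) F (v + r) - Cfsg.quadFormPlus (m + 3) F v - Cfsg.quadFormPlus (m + 3) F r = 0 →
              ((σ : Matrix.GeneralLinearGroup (Fin (m + 3) ⊕ Fin (m + 3)) F) : Matrix (Fin (m + 3) ⊕ Fin (m + 3)) (Fin (m + 3) ⊕ Fin (m + 3)) F) *ᵥ v = v}})
      {A : Subgroup ↥(Cfsg.isometryGroup F (Cfsg.quadFormPlus (m + 3) F)) | ∃ p r : Fin (m + 3) ⊕ Fin (m + 3) → F, LinearIndependent F ![p, r] ∧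
          Cfsg.quadFormPlus (m + 3) F p = 0 ∧ Cfsg.quadFormPlus (m + 3) F r = 0 ∧
          Cfsg.quadFormPlus (m + 3) F (p + r) = 0 ∧
          A = Subgroup.closure {σ : ↥(Cfsg.isometryGroup F (Cfsg.quadFormPlus (m + 3) F)) | ∀ v : Fin (m + 3) ⊕ Fin (m + 3) → F,
            Cfsg.quadFormPlus (m + 3) F (v + p) - Cfsg.quadFormPlus (m + 3) F v - Cfsg.quadFormPlus (m + 3) F p = 0 →
            Cfsg.quadFormPlus (m + 3) F (v + r) - Cfsg.quadFormPlus (m + 3) F v - Cfsg.quadFormPlus (m + 3) F r = 0 →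
              ((σ : Matrix.GeneralLinearGroup (Fin (m + 3) ⊕ Fin (m + 3)) F) : Matrix (Fin (m + 3) ⊕ Fin (m + 3)) (Fin (m + 3) ⊕ Fin (m + 3)) F) *ᵥ v = v}} := by
  rw [set_eq m]
  exact main m

end Cfsg.Agent.S5072
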