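import Cfsg.Statements.S5089
import Cfsg.Agent.Lib.Helper26.FusStab
import Cfsg.Agent.S5088

set_option autoImplicit false
open Cfsg

namespace Cfsg.Agent.S5089

open Cfsg.Agent.Lib.Helper26 Cfsg.FusionSystem

/-- A saturated fusion system over a finite p-group has a nontrivial subgroup that is normal in the system (O_p(F) ≠ 1) if and only if some nontrivial abelian subgroup is strongly closed in the system. -/
theorem result {Ω : Type*} [Group Ω] {S : Subgroup Ω} [Finite S] (p : ℕ) [Fact p.Prime] (hS : IsPGroup p S) (F : Cfsg.FusionSystem S) (hF : F.IsSaturated p) : F.core ≠ ⊥ ↔ ∃ Q : Subgroup Ω, Q ≠ ⊥ ∧ IsMulCommutative Q ∧ F.StronglyClosed Q := by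
  constructor
  · intro hne
    have hcore := isNormal_core F
    have hfin : Finite F.core := finite_of_le hcore.1
    have hnt : Nontrivial F.core := (Subgroup.nontrivial_iff_ne_bot _).mpr hne
    have hcnt : Nontrivial (Subgroup.center F.core) := (hS.to_le hcore.1).center_nontrivial
    refine ⟨(Subgroup.center F.core).map F.core.subtype, ?_, ?_, ?_⟩
    · rw [Ne, Subgroup.map_eq_bot_iff_of_injective _ (Subgroup.subtype_injective _)]
      exact (Subgroup.nontrivial_iff_ne_bot _).mp hcnt
    · rw [isMulCommutative_iff]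
      rintro ⟨_, a, ha, rfl⟩ ⟨_, b, hb, rfl⟩
      apply Subtype.ext
      show (a : Ω) * (b : Ω) = (b : Ω) * (a : Ω)
      have h1 := Subgroup.mem_center_iff.mp ha b
      exact (congrArg (fun z : ↥F.core => (z : Ω)) h1).symm
    · apply stronglyClosed_of_isNormal
      apply Cfsg.Agent.S5085.result F F.core _ hcore (Subgroup.map_subtype_le _)
      have h1 : ((Subgroup.center ↥F.core).map F.core.subtype).subgroupOf F.core =
          Subgroup.center ↥F.core :=
        Subgroup.comap_map_eq_self_of_injective (Subgroup.subtype_injective _) _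
      rw [h1]
      infer_instance
  · rintro ⟨Q, hne, hab, hsc⟩
    have hQ : F.IsNormal Q := by
      apply (Cfsg.Agent.S5088.result p hS F hF Q).mpr
      refine ⟨1, ![⊥, Q], rfl, rfl, ?_, ?_⟩
      · intro i j hij
        fin_cases i <;> fin_cases j <;> simp at hij ⊢
      · intro i
        fin_cases i
        refine ⟨hsc, ?_⟩
        show ⁅Q, Q⁆ ≤ ⊥
        rw [Subgroup.commutator_le]
        intro g₁ hg₁ g₂ hg₂
        rw [Subgroup.mem_bot]
        have h1 := mul_comm' (⟨g₁, hg₁⟩ : Q) ⟨g₂, hg₂⟩
        have h2 : g₁ * g₂ = g₂ * g₁ := congrArg (fun z : ↥Q => (z : Ω)) h1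
        show g₁ * g₂ * g₁⁻¹ * g₂⁻¹ = 1
        rw [h2]
        group
    intro hbot
    apply hne
    have h1 : Q ≤ F.core := le_sSup hQ
    rw [hbot] at h1
    exact le_bot_iff.mp h1

end Cfsg.Agent.S5089
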