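import Cfsg.Statements.S5093
import Cfsg.Agent.Lib.Helper26.FusGrpHyp

set_option autoImplicit false
open Cfsg

namespace Cfsg.Agent.S5093

open Cfsg.Agent.Lib.Helper26 Cfsg.FusionSystem

/-- Hyperfocal subgroup Theorem: for a finite group G with Sylow p-subgroup S, the hyperfocal subgroup of the fusion system of G on S equals S ∩ O^p(G), where O^p(G) is the subgroup generated by the elements of order prime to p. -/
theorem result {G : Type*} [Group G] [Finite G] (p : ℕ) [Fact p.Prime] (S : Sylow p G) : (Cfsg.groupFusionSystem (S : Subgroup G)).hyperfocalSubgroup p = (S : Subgroup G) ⊓ Cfsg.pResidual p G := by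
  have hnorm := pResidual_normal' G p
  have hfinTop : Finite ↥(⊤ : Subgroup G) := inferInstance
  apply le_antisymm
  · exact le_inf (hyperfocal_le _ p) (hyperfocal_le_pResidual p (S : Subgroup G))
  · have hsyl₀ : IsSylowIn p (pResidual p G) ((S : Subgroup G) ⊓ pResidual p G) :=
      (isSylowIn_of_sylow S le_top).inf_of_normal le_top le_top
        (fun n _ k hk => hnorm.conj_mem k hk n)
    have hsat := subgroupFusion_saturated (pResidual p G) ((S : Subgroup G) ⊓ pResidual p G)
      inf_le_right hsyl₀
    have hS₀p : IsPGroup p ↥((S : Subgroup G) ⊓ pResidual p G) := S.isPGroup'.to_le inf_le_left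
    have h1 := Cfsg.Agent.S5092.result p hS₀p
      (fusionSystemOfSubgroup (pResidual p G) ((S : Subgroup G) ⊓ pResidual p G) inf_le_right) hsat
    have h2 := le_focal_of_sylowIn_pResidual ((S : Subgroup G) ⊓ pResidual p G) inf_le_right hsyl₀
    rw [h1] at h2
    have h3 := le_of_le_sup_commutator hS₀p (hyperfocal_le
      (fusionSystemOfSubgroup (pResidual p G) ((S : Subgroup G) ⊓ pResidual p G) inf_le_right) p)
      (fun g hg h hh => hyperfocal_conj_mem _ p hg hh) h2
    refine h3.trans (hyperfocal_mono _ _ ?_ inf_le_left p)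
    rintro P φ ⟨hP, hφT, g, hgK, hg⟩
    exact ⟨hP.trans inf_le_left, fun x => (hφT x).1, g, hg⟩

end Cfsg.Agent.S5093
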