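import Cfsg.Statements.S5102
import Cfsg.Agent.Lib.Helper26.FusGrp

set_option autoImplicit false
open Cfsg

namespace Cfsg.Agent.S5102

open Cfsg.Agent.Lib.Helper26 Cfsg.FusionSystem

/-- A normal p-subgroup of a finite group G is normal in the fusion system of G on a Sylow p-subgroup. -/
theorem result {G : Type*} [Group G] [Finite G] (p : ℕ) [Fact p.Prime] (S : Sylow p G) (R : Subgroup G) [R.Normal] (hR : IsPGroup p R) : (Cfsg.groupFusionSystem (S : Subgroup G)).IsNormal R := by
  exact groupFusion_isNormal S R hR

end Cfsg.Agent.S5102
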