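import Cfsg.Statements.S5105
import Cfsg.Agent.Lib.Helper26.FusNK2
import Cfsg.Agent.Lib.Helper26.Rigid
import Cfsg.Agent.Lib.Lead.Cores

set_option autoImplicit false
open Cfsg

namespace Cfsg.Agent.S5105

open Cfsg.Agent.Lib.Helper26 Cfsg.FusionSystem

/-- Model Theorem, rigidity: if G is a model of a constrained fusion system over a finite p-group S (through ι : S → G), then every automorphism of G fixing ι(S) elementwise is conjugation by ι(z) for some z in the centre of S. -/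
theorem result {Ω : Type*} [Group Ω] {S : Subgroup Ω} [Finite S] (p : ℕ) [Fact p.Prime] (hS : IsPGroup p S) (F : Cfsg.FusionSystem S) (hF : F.IsConstrained p) {G : Type*} [Group G] (ι : S →* G) (hG : F.IsModel p G ι) (ψ : G ≃* G) (hψ : ∀ x : S, ψ (ι x) = ι x) : ∃ z : S, z ∈ Subgroup.center S ∧ ∀ g : G, ψ g = ι z * g * (ι z)⁻¹ := by
  obtain ⟨hfin, ⟨hinj, _⟩, ⟨T, hT⟩, hcent⟩ := hG
  haveI : Finite G := hfin
  haveI hOn : (Cfsg.pCore p G).Normal := Cfsg.Agent.Lib.Lead.Cores.pCore_normal p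
  have hOp : IsPGroup p (Cfsg.pCore p G) := Cfsg.Agent.Lib.Lead.Cores.pCore_isPGroup p
  have hOT : Cfsg.pCore p G ≤ (T : Subgroup G) := normal_pGroup_le_sylow _ hOp T
  have hfixT : ∀ t ∈ (T : Subgroup G), ψ t = t := by
    intro t ht
    rw [hT] at ht
    obtain ⟨s, rfl⟩ := ht
    exact hψ s
  set A : Subgroup G := Subgroup.centralizer ((Cfsg.pCore p G : Subgroup G) : Set G) with hA
  haveI hAn : A.Normal := Subgroup.normal_centralizer
  have hAp : IsPGroup p A := hOp.to_le hcent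
  have hcop : (Nat.card A).Coprime (T : Subgroup G).index := by
    obtain ⟨n, hn⟩ := IsPGroup.exists_card_eq hAp
    rw [hn]
    exact Nat.Coprime.pow_left n ((Nat.Prime.coprime_iff_not_dvd Fact.out).2 T.not_dvd_index)
  have hAc : ∀ a ∈ A, ∀ b ∈ A, a * b = b * a := by
    intro a ha b hb
    exact ((Subgroup.mem_centralizer_iff.mp ha) b (hcent hb)).symm
  have hd : ∀ g, ψ g * g⁻¹ ∈ A := by
    intro g
    rw [hA, Subgroup.mem_centralizer_iff]
    intro x hx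
    have hx' : x ∈ Cfsg.pCore p G := hx
    have h1 : g⁻¹ * x * g⁻¹⁻¹ ∈ Cfsg.pCore p G := hOn.conj_mem x hx' g⁻¹
    have h2 : ψ (g⁻¹ * x * g⁻¹⁻¹) = g⁻¹ * x * g⁻¹⁻¹ := hfixT _ (hOT h1)
    have h3 : ψ x = x := hfixT _ (hOT hx')
    simp only [map_mul, map_inv, h3, inv_inv] at h2
    calc x * (ψ g * g⁻¹) = ψ g * ((ψ g)⁻¹ * x * ψ g) * g⁻¹ := by group
      _ = ψ g * (g⁻¹ * x * g) * g⁻¹ := by rw [h2]
      _ = ψ g * g⁻¹ * x := by group
  have hmul : ∀ g h, ψ (g * h) * (g * h)⁻¹ = ψ g * g⁻¹ * (g * (ψ h * h⁻¹) * g⁻¹) := by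
    intro g h
    rw [map_mul]
    group
  have hTd : ∀ t ∈ (T : Subgroup G), ψ t * t⁻¹ = 1 := by
    intro t ht
    rw [hfixT t ht, mul_inv_cancel]
  obtain ⟨z, hzA, hz⟩ := cocycle_coboundary (T : Subgroup G) A hAc hcop
    (fun g => ψ g * g⁻¹) hd hmul hTd
  have hzT : z ∈ (T : Subgroup G) := hOT (hcent hzA)
  rw [hT] at hzT
  obtain ⟨z₀, rfl⟩ := hzT
  have hconj : ∀ g : G, ψ g = ι z₀ * g * (ι z₀)⁻¹ := by
    intro g
    have h1 : ψ g * g⁻¹ = ι z₀ * g * (ι z₀)⁻¹ * g⁻¹ := hz g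
    exact mul_right_cancel h1
  refine ⟨z₀, ?_, hconj⟩
  rw [Subgroup.mem_center_iff]
  intro s
  apply hinj
  have h1 := hconj (ι s)
  rw [hψ s] at h1
  rw [map_mul, map_mul]
  calc ι s * ι z₀ = ι z₀ * ι s * (ι z₀)⁻¹ * ι z₀ := by rw [← h1]
    _ = ι z₀ * ι s := by group

end Cfsg.Agent.S5105
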