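import Cfsg.Statements.S5107
import Cfsg.Agent.Lib.Helper26.FusStab
import Cfsg.Agent.Lib.Helper26.FusGrp
import Cfsg.Agent.S5080
import Cfsg.Agent.S5082
import Cfsg.Agent.S5087

set_option autoImplicit false
open Cfsg

namespace Cfsg.Agent.S5107

open Cfsg.Agent.Lib.Helper26 Cfsg.FusionSystem

/-- If a Sylow p-subgroup S of a finite group G has nilpotency class at most two and its centre is strongly closed in S with respect to G, then every map of the fusion system of G on S is conjugation by an element of N_G(S), and S is the largest subgroup normal in that fusion system. -/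
theorem result {G : Type*} [Group G] [Finite G] (p : ℕ) [Fact p.Prime] (S : Sylow p G) (hcl : ⁅(S : Subgroup G), (S : Subgroup G)⁆ ≤ (S : Subgroup G) ⊓ Subgroup.centralizer ((S : Subgroup G) : Set G)) (hZ : Cfsg.IsStronglyClosed ((S : Subgroup G) ⊓ Subgroup.centralizer ((S : Subgroup G) : Set G)) (S : Subgroup G)) : (∀ (P : Subgroup G) (φ : P →* G), φ ∈ (Cfsg.groupFusionSystem (S : Subgroup G)).Hom P → ∃ g ∈ Subgroup.normalizer ((S : Subgroup G) : Set G), ∀ x : P, φ x = g * (x : G) * g⁻¹) ∧ (Cfsg.groupFusionSystem (S : Subgroup G)).core = S := by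
  have hS : IsPGroup p (S : Subgroup G) := S.isPGroup'
  have hF : (Cfsg.groupFusionSystem (S : Subgroup G)).IsSaturated p := groupFusion_saturated S
  generalize hFdef : Cfsg.groupFusionSystem (S : Subgroup G) = F at hF ⊢
  have hFhom : ∀ (P : Subgroup G) (φ : P →* G), φ ∈ F.Hom P →
      P ≤ S ∧ (∀ x : P, φ x ∈ (S : Subgroup G)) ∧ ∃ g : G, ∀ x : P, φ x = g * (x : G) * g⁻¹ := by
    intro P φ hφ
    rw [← hFdef] at hφ
    exact hφ
  -- essential subgroups equal S
  have hess : ∀ P : Subgroup G, F.IsEssential p P → P = S := by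
    intro P hP
    have hc : F.IsCentric P := hP.1
    have hr : F.IsRadical p P := Cfsg.Agent.S5080.result p hS F hF P hP
    have hPS : P ≤ S := hc.1
    have hSc : F.StronglyClosed (S : Subgroup G) :=
      ⟨le_rfl, fun R _ φ hφ x => (F.le_of_mem hφ).2 x⟩
    refine le_antisymm hPS (le_of_chain hS F hc hr hSc (F.autGroup P) le_rfl
      (fun α hα β hβ => mul_mem (mul_mem hα hβ) (inv_mem hα))
      (fun i => match i with
        | 0 => (S : Subgroup G)
        | 1 => (S : Subgroup G) ⊓ Subgroup.centralizer ((S : Subgroup G) : Set G)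
        | _ => ⊥) 2 rfl ?_ ?_ ?_ ?_)
    · intro i hi α hα x hx
      obtain ⟨_, hαS, g, hg⟩ := hFhom P _ (autGroup_hom_mem F hPS hα)
      have h1 : ((α x : P) : G) = g * x * g⁻¹ := hg x
      have h2 : ((α x : P) : G) ∈ (S : Subgroup G) := hαS x
      interval_cases i
      · exact h2
      · show ((α x : P) : G) ∈ (S : Subgroup G) ⊓ Subgroup.centralizer ((S : Subgroup G) : Set G)
        rw [h1] at h2 ⊢
        exact hZ.2 x hx g h2
      · have h3 : (x : G) = 1 := Subgroup.mem_bot.mp hx
        have h4 : x = 1 := Subtype.ext h3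
        rw [h4, map_one]
        exact Subgroup.one_mem _
    · intro i hi g hg x hx
      interval_cases i
      · show x⁻¹ * (g * x * g⁻¹) ∈ (S : Subgroup G) ⊓ Subgroup.centralizer ((S : Subgroup G) : Set G)
        apply hcl
        have h3 : x⁻¹ * (g * x * g⁻¹) = x⁻¹ * g * x⁻¹⁻¹ * g⁻¹ := by group
        rw [h3]
        exact Subgroup.commutator_mem_commutator (inv_mem hx) hg
      · show x⁻¹ * (g * x * g⁻¹) ∈ (⊥ : Subgroup G)
        have hx' : x ∈ (S : Subgroup G) ⊓ Subgroup.centralizer ((S : Subgroup G) : Set G) := hx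
        have h1 : g * x = x * g := Subgroup.mem_centralizer_iff.mp hx'.2 g hg
        rw [Subgroup.mem_bot, h1]
        group
    · intro β _
      refine ⟨0, fun x hx => ?_⟩
      have h3 : (x : G) = 1 := Subgroup.mem_bot.mp hx
      have h4 : x = 1 := Subtype.ext h3
      rw [h4, map_one]
    · intro g hg hgS
      exact autInducedBy_le_autGroup F hPS (conj_mem_autInducedBy hgS hg)
  have hfinS : Finite (S : Subgroup G) := inferInstance
  constructor
  · -- Alperin
    have hle : F ≤ Cfsg.fusionSystemOfSubgroup (Subgroup.normalizer ((S : Subgroup G) : Set G))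
        (S : Subgroup G) Subgroup.le_normalizer := by
      apply Cfsg.Agent.S5082.result p hS F hF
      intro P hP
      have hPS : P = S := by
        rcases hP with h | h
        · exact h
        · exact hess P h
      subst hPS
      intro α hα
      apply Subgroup.subset_closure
      obtain ⟨_, hαS, g, hg⟩ := hFhom _ _ (autGroup_hom_mem F le_rfl hα)
      refine ⟨le_rfl, hαS, g, ?_, hg⟩
      apply mem_normalizer_of_forall_conj_mem
      intro x hx
      have h1 := hαS ⟨x, hx⟩
      rwa [hg] at h1
    intro P φ hφ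
    obtain ⟨_, _, g, hgN, hg⟩ := hle P hφ
    exact ⟨g, hgN, hg⟩
  · -- core
    have hn : F.IsNormal (S : Subgroup G) := by
      apply (Cfsg.Agent.S5087.result p hS F hF (S : Subgroup G)).mpr
      intro P hP
      have hPS : P = S := by
        rcases hP with h | h
        · exact h
        · exact hess P h
      subst hPS
      refine ⟨le_rfl, fun α _ => ?_⟩
      rw [Subgroup.subgroupOf_self]
      rw [← MonoidHom.range_eq_map]
      exact MonoidHom.range_eq_top.mpr α.surjective
    apply le_antisymm
    · apply sSup_le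
      intro Q hQ
      exact hQ.1
    · exact le_sSup hn

end Cfsg.Agent.S5107
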