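import Cfsg.Statements.S5112
import Cfsg.Agent.Lib.Helper26.FusNK2
import Cfsg.Agent.Lib.Helper26.FusStab
import Cfsg.Agent.Lib.Helper26.FusExt
import Cfsg.Agent.Lib.Helper26.FusEmb

set_option autoImplicit false
open Cfsg

namespace Cfsg.Agent.S5112

open Cfsg.Agent.Lib.Helper26 Cfsg.FusionSystem

theorem aut_pow_of_cyclic_index_two {G : Type*} [Group G] [Finite G] {t : ℕ} (ht : 3 ≤ t)
    (hcard : Nat.card G = 2 ^ (t + 1)) (ρ : G) (hρ : orderOf ρ = 2 ^ t)
    (hout : ∀ x : G, x ∉ Subgroup.zpowers ρ → orderOf x ≤ 4) (β : MulAut G) :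
    ∃ k : ℕ, β ^ (2 ^ k) = 1 := by
  haveI : Fact (Nat.Prime 2) := ⟨Nat.prime_two⟩
  have hP : IsPGroup 2 G := IsPGroup.of_card hcard
  have hK : ∀ γ : MulAut G, γ ρ ∈ Subgroup.zpowers ρ := by
    intro γ
    by_contra h
    have h1 := hout _ h
    have h2 : orderOf (γ ρ) = 2 ^ t := by rw [MulEquiv.orderOf_eq, hρ]
    have h3 : 2 ^ 3 ≤ 2 ^ t := Nat.pow_le_pow_right (by norm_num) ht
    omega
  obtain ⟨k, hk⟩ := Subgroup.mem_zpowers_iff.mp (hK β)
  have hkodd : ∃ l : ℤ, k = 2 * l + 1 := by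
    rcases Int.even_or_odd' k with ⟨l, hl | hl⟩
    · exfalso
      have h2 : orderOf (β ρ) = 2 ^ t := by rw [MulEquiv.orderOf_eq, hρ]
      have h3 : (β ρ) ^ (2 ^ (t - 1)) = 1 := by
        rw [← hk, hl, ← zpow_natCast, ← zpow_mul]
        have e1 : (2 * l) * ((2 ^ (t - 1) : ℕ) : ℤ) = ((2 ^ t : ℕ) : ℤ) * l := by
          have e2 : (2 : ℤ) ^ t = 2 * 2 ^ (t - 1) := by
            rw [← pow_succ']
            congr 1
            omega
          push_cast
          rw [e2]
          ring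
        rw [e1, zpow_mul, zpow_natCast, ← hρ, pow_orderOf_eq_one, one_zpow]
      have h4 := orderOf_dvd_of_pow_eq_one h3
      rw [h2] at h4
      have h5 : 2 ^ t ≤ 2 ^ (t - 1) := Nat.le_of_dvd (by positivity) h4
      have h6 : 2 ^ (t - 1) < 2 ^ t := Nat.pow_lt_pow_right (by norm_num) (by omega)
      omega
    · exact ⟨l, hl⟩
  obtain ⟨l, hl⟩ := hkodd
  let N : ℕ → Subgroup G := fun i => match i with
    | 0 => ⊤
    | (j + 1) => Subgroup.zpowers (ρ ^ (2 ^ j))
  have hmapH : ∀ γ : MulAut G, ∀ x ∈ Subgroup.zpowers ρ, γ x ∈ Subgroup.zpowers ρ := by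
    intro γ x hx
    obtain ⟨j, rfl⟩ := Subgroup.mem_zpowers_iff.mp hx
    rw [map_zpow]
    exact Subgroup.zpow_mem _ (hK γ) j
  have hidx : (Subgroup.zpowers ρ).index = 2 := by
    have h1 := Subgroup.index_mul_card (Subgroup.zpowers ρ)
    rw [Nat.card_zpowers, hρ, hcard, pow_succ'] at h1
    exact Nat.eq_of_mul_eq_mul_right (by positivity) h1
  refine exists_pow_eq_one_of_chain hP β N (t + 1) rfl ?_ ?_
  · refine ⟨0, fun x hx => ?_⟩
    have hx' : x ∈ Subgroup.zpowers (ρ ^ (2 ^ t)) := hx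
    rw [← hρ, pow_orderOf_eq_one, Subgroup.zpowers_one_eq_bot, Subgroup.mem_bot] at hx'
    rw [hx']
    simp
  · intro i hi
    match i, hi with
    | 0, _ =>
      refine ⟨fun x _ => Subgroup.mem_top _, fun x _ => ?_⟩
      show x⁻¹ * β x ∈ Subgroup.zpowers (ρ ^ (2 ^ 0))
      rw [pow_zero, pow_one, Subgroup.mul_mem_iff_of_index_two hidx, inv_mem_iff]
      constructor
      · exact hmapH β x
      · intro h
        have := hmapH β⁻¹ _ h
        rwa [MulAut.inv_apply_self] at this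
    | (j + 1), _ =>
      show (∀ x ∈ Subgroup.zpowers (ρ ^ (2 ^ j)), β x ∈ Subgroup.zpowers (ρ ^ (2 ^ j))) ∧
        (∀ x ∈ Subgroup.zpowers (ρ ^ (2 ^ j)), x⁻¹ * β x ∈ Subgroup.zpowers (ρ ^ (2 ^ (j + 1))))
      have hσ : β (ρ ^ (2 ^ j)) = (ρ ^ (2 ^ j)) ^ k := by
        rw [map_pow, ← hk, ← zpow_natCast, ← zpow_mul, mul_comm, zpow_mul, zpow_natCast]
      constructor
      · intro x hx
        obtain ⟨e, rfl⟩ := Subgroup.mem_zpowers_iff.mp hx
        rw [map_zpow, hσ]
        exact Subgroup.zpow_mem _ (Subgroup.zpow_mem _ (Subgroup.mem_zpowers _) k) e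
      · intro x hx
        obtain ⟨e, rfl⟩ := Subgroup.mem_zpowers_iff.mp hx
        rw [map_zpow, hσ, ← zpow_mul, ← zpow_neg, ← zpow_add, hl]
        have e3 : -e + (2 * l + 1) * e = 2 * (l * e) := by ring
        rw [e3, zpow_mul]
        have h2 : (ρ ^ (2 ^ j)) ^ (2 : ℤ) = ρ ^ (2 ^ (j + 1)) := by
          rw [zpow_two, pow_succ, pow_mul, pow_two]
        rw [h2]
        exact Subgroup.zpow_mem _ (Subgroup.mem_zpowers _) _

/-- If S is a dihedral or generalized quaternion 2-group of order at least 16, then in every saturated fusion system over S (at the prime 2) the automorphism group Aut_F(S) consists of the inner automorphisms of S. -/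
theorem result {Ω : Type*} [Group Ω] {S : Subgroup Ω} [Finite S] (n : ℕ) (hn : 4 ≤ n) (hshape : Nonempty (S ≃* DihedralGroup (2 ^ (n - 1))) ∨ Nonempty (S ≃* QuaternionGroup (2 ^ (n - 2)))) (F : Cfsg.FusionSystem S) (hF : F.IsSaturated 2) : F.autGroup S = Cfsg.Inn S := by
  haveI : Fact (Nat.Prime 2) := ⟨Nat.prime_two⟩
  have hn3 : 3 ≤ n - 1 := by omega
  have key : (∀ α : MulAut S, ∃ k : ℕ, α ^ (2 ^ k) = 1) ∧ IsPGroup 2 S := by
    rcases hshape with he | he
    · obtain ⟨e⟩ := he
      haveI : NeZero (2 ^ (n - 1)) := ⟨by positivity⟩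
      have hc : Nat.card (DihedralGroup (2 ^ (n - 1))) = 2 ^ (n - 1 + 1) := by
        rw [DihedralGroup.nat_card, pow_succ']
      refine ⟨fun α => ?_, IsPGroup.of_card ((Nat.card_congr e.toEquiv).trans hc)⟩
      obtain ⟨k, hk⟩ := aut_pow_of_cyclic_index_two (G := DihedralGroup (2 ^ (n - 1))) hn3 hc
        (DihedralGroup.r 1) DihedralGroup.orderOf_r_one (by
          intro x hx
          cases x with
          | r i =>
            exfalso
            apply hx
            rw [← ZMod.natCast_zmod_val i, ← DihedralGroup.r_one_pow]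
            exact Subgroup.pow_mem _ (Subgroup.mem_zpowers _) _
          | sr i =>
            rw [DihedralGroup.orderOf_sr]
            norm_num) (MulAut.congr e α)
      refine ⟨k, ?_⟩
      rw [← map_pow] at hk
      exact (MulEquiv.map_eq_one_iff (MulAut.congr e)).mp hk
    · obtain ⟨e⟩ := he
      haveI : NeZero (2 ^ (n - 2)) := ⟨by positivity⟩
      have hc : Nat.card (QuaternionGroup (2 ^ (n - 2))) = 2 ^ (n - 1 + 1) := by
        rw [Nat.card_eq_fintype_card, QuaternionGroup.card]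
        have : n - 1 + 1 = (n - 2) + 2 := by omega
        rw [this, pow_add]
        ring
      have ho : orderOf (QuaternionGroup.a 1 : QuaternionGroup (2 ^ (n - 2))) = 2 ^ (n - 1) := by
        rw [QuaternionGroup.orderOf_a_one, ← pow_succ']
        congr 1
        omega
      refine ⟨fun α => ?_, IsPGroup.of_card ((Nat.card_congr e.toEquiv).trans hc)⟩
      obtain ⟨k, hk⟩ := aut_pow_of_cyclic_index_two (G := QuaternionGroup (2 ^ (n - 2))) hn3 hc
        (QuaternionGroup.a 1) ho (by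
          intro x hx
          cases x with
          | a i =>
            exfalso
            apply hx
            rw [← ZMod.natCast_zmod_val i, ← QuaternionGroup.a_one_pow]
            exact Subgroup.pow_mem _ (Subgroup.mem_zpowers _) _
          | xa i =>
            rw [QuaternionGroup.orderOf_xa]) (MulAut.congr e α)
      refine ⟨k, ?_⟩
      rw [← map_pow] at hk
      exact (MulEquiv.map_eq_one_iff (MulAut.congr e)).mp hk
  obtain ⟨key, hS⟩ := key
  apply le_antisymm
  · intro α hα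
    obtain ⟨R, hR⟩ := (isFullyAutomized_self hS F hF).2
    have hAp : IsPGroup 2 (F.autGroup S) := by
      rintro ⟨β, hβ⟩
      obtain ⟨k, hk⟩ := key β
      exact ⟨k, Subtype.ext hk⟩
    have hRtop : (⊤ : Subgroup (F.autGroup S)) = ↑R := R.is_maximal' (hAp.to_subgroup ⊤) le_top
    have h1 : (⟨α, hα⟩ : F.autGroup S) ∈ (R : Subgroup (F.autGroup S)) := by
      rw [← hRtop]
      exact Subgroup.mem_top _
    rw [hR, Subgroup.mem_subgroupOf] at h1
    obtain ⟨g, hg, hgα⟩ := mem_autInducedBy_iff.mp h1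
    exact ⟨⟨g, hg⟩, MulEquiv.ext (fun x => Subtype.ext (hgα x).symm)⟩
  · exact inn_le_autGroup F le_rfl

end Cfsg.Agent.S5112
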