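import Cfsg.Statements.S5118
import Cfsg.Agent.Lib.Helper26.FusSub
import Cfsg.Agent.Lib.Helper26.FusFactor
import Cfsg.Agent.Lib.Helper26.FusGrp2

set_option autoImplicit false
open Cfsg

namespace Cfsg.Agent.S5118

open Cfsg.Agent.Lib.Helper26 Cfsg.FusionSystem

open scoped Pointwise in
theorem ext_cond {G : Type*} [Group G] [Finite G] {p : ℕ} [Fact p.Prime] (S : Sylow p G) (H : Subgroup G) [H.Normal]
    (T : Subgroup G) (hT : T = (S : Subgroup G) ⊓ H) (h : G) (hhH : h ∈ H)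
    (hhN : h ∈ Subgroup.normalizer (T : Set G)) :
    ∃ h' ∈ H, h' ∈ Subgroup.normalizer ((T ⊔ centralizerIn (S : Subgroup G) T : Subgroup G) : Set G) ∧
      (∀ t ∈ T, h' * t * h'⁻¹ = h * t * h⁻¹) ∧
      ∀ c ∈ centralizerIn (S : Subgroup G) T, h' * c * h'⁻¹ ∈ centralizerIn (S : Subgroup G) T := by
  have hHn : ∀ (g x : G), x ∈ H → g * x * g⁻¹ ∈ H := fun g x hx => ‹H.Normal›.conj_mem x hx g
  have hfinTop : Finite ↥(⊤ : Subgroup G) := inferInstance
  have hsylS : IsSylowIn p (⊤ : Subgroup G) (S : Subgroup G) := isSylowIn_of_sylow S le_top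
  have hTS : T ≤ S := hT.le.trans inf_le_left
  have hTH : T ≤ H := hT.le.trans inf_le_right
  have hSN : (S : Subgroup G) ≤ Subgroup.normalizer (T : Set G) := by
    intro s hs
    refine mem_normalizer_of_forall_conj_mem (fun y hy => hT.ge ⟨?_, hHn s y (hTH hy)⟩)
    exact (S : Subgroup G).mul_mem ((S : Subgroup G).mul_mem hs (hTS hy)) ((S : Subgroup G).inv_mem hs)
  have hsylN : IsSylowIn p (Subgroup.normalizer (T : Set G)) (normalizerIn (S : Subgroup G) T) := by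
    have h1 : normalizerIn (S : Subgroup G) T = (S : Subgroup G) := inf_eq_left.mpr hSN
    rw [h1]
    exact hsylS.of_le_subgroup hSN le_top
  have hsylC := isSylowIn_centralizerIn (S : Subgroup G) T hsylN
  have hCZ : centralizerIn (S : Subgroup G) T ≤ Subgroup.centralizer (T : Set G) := inf_le_right
  have hCS : centralizerIn (S : Subgroup G) T ≤ (S : Subgroup G) := inf_le_left
  have hZconj : ∀ n ∈ Subgroup.normalizer (T : Set G), ∀ z ∈ Subgroup.centralizer (T : Set G),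
      n * z * n⁻¹ ∈ Subgroup.centralizer (T : Set G) := by
    intro n hn z hz
    rw [Subgroup.mem_centralizer_iff] at hz ⊢
    intro t ht
    have h1 : n⁻¹ * t * n ∈ T := by
      have := (Subgroup.mem_normalizer_iff.mp (Subgroup.inv_mem _ hn) t).mp ht
      rwa [inv_inv] at this
    have h2 := hz _ h1
    calc t * (n * z * n⁻¹) = n * (n⁻¹ * t * n * z) * n⁻¹ := by group
      _ = n * (z * (n⁻¹ * t * n)) * n⁻¹ := by rw [h2]
      _ = n * z * n⁻¹ * t := by group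
  have hCnorm : centralizerIn (S : Subgroup G) T ≤
      Subgroup.normalizer ((H ⊓ Subgroup.centralizer (T : Set G) : Subgroup G) : Set G) := by
    intro c hc
    haveI : Finite ↥(H ⊓ Subgroup.centralizer (T : Set G)) := inferInstance
    exact mem_normalizer_of_forall_conj_mem
      (fun y hy => ⟨hHn c y hy.1, hZconj c (hSN (hCS hc)) y hy.2⟩)
  have hsylC' : IsSylowIn p (centralizerIn (S : Subgroup G) T ⊔ (H ⊓ Subgroup.centralizer (T : Set G)))
      (centralizerIn (S : Subgroup G) T) :=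
    hsylC.of_le_subgroup le_sup_left (sup_le hCZ inf_le_right)
  have hXle : (centralizerIn (S : Subgroup G) T).map (MulAut.conj h).toMonoidHom ≤
      centralizerIn (S : Subgroup G) T ⊔ (H ⊓ Subgroup.centralizer (T : Set G)) := by
    rintro _ ⟨c, hc, rfl⟩
    show h * c * h⁻¹ ∈ _
    have h1 : h * c * h⁻¹ = c * (c⁻¹ * h * c⁻¹⁻¹ * h⁻¹) := by group
    rw [h1]
    refine Subgroup.mul_mem_sup hc ⟨H.mul_mem (hHn _ _ hhH) (H.inv_mem hhH), ?_⟩
    have h2 : c⁻¹ * h * c⁻¹⁻¹ * h⁻¹ = c⁻¹ * (h * c * h⁻¹) := by group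
    rw [h2]
    exact Subgroup.mul_mem _ (Subgroup.inv_mem _ (hCZ hc)) (hZconj h hhN c (hCZ hc))
  have hXp : IsPGroup p ((centralizerIn (S : Subgroup G) T).map (MulAut.conj h).toMonoidHom) :=
    (S.isPGroup'.to_le hCS).map _
  obtain ⟨y, hy, hyX⟩ := hsylC'.conj_le hXle hXp
  have hy' : y ∈ ((centralizerIn (S : Subgroup G) T : Subgroup G) : Set G) *
      ((H ⊓ Subgroup.centralizer (T : Set G) : Subgroup G) : Set G) := by
    rw [← Subgroup.coe_mul_of_left_le_normalizer_right _ _ hCnorm]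
    exact hy
  obtain ⟨c₁, hc₁, y₁, hy₁, rfl⟩ := Set.mem_mul.mp hy'
  have hconjT : ∀ t ∈ T, y₁ * h * t * (y₁ * h)⁻¹ = h * t * h⁻¹ := by
    intro t ht
    have h1 : h * t * h⁻¹ ∈ T := (Subgroup.mem_normalizer_iff.mp hhN t).mp ht
    have h2 := (Subgroup.mem_centralizer_iff.mp hy₁.2) _ h1
    calc y₁ * h * t * (y₁ * h)⁻¹ = y₁ * (h * t * h⁻¹) * y₁⁻¹ := by group
      _ = h * t * h⁻¹ * y₁ * y₁⁻¹ := by rw [h2]
      _ = h * t * h⁻¹ := by group
  have hconjC : ∀ c ∈ centralizerIn (S : Subgroup G) T,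
      y₁ * h * c * (y₁ * h)⁻¹ ∈ centralizerIn (S : Subgroup G) T := by
    intro c hc
    have h1 := hyX (h * c * h⁻¹) ⟨c, hc, rfl⟩
    have h2 : y₁ * h * c * (y₁ * h)⁻¹ = c₁⁻¹ * (c₁ * y₁ * (h * c * h⁻¹) * (c₁ * y₁)⁻¹) * c₁ := by group
    rw [h2]
    exact Subgroup.mul_mem _ (Subgroup.mul_mem _ (Subgroup.inv_mem _ hc₁) h1) hc₁
  refine ⟨y₁ * h, H.mul_mem hy₁.1 hhH, ?_, hconjT, hconjC⟩
  have hle : (T ⊔ centralizerIn (S : Subgroup G) T).map (MulAut.conj (y₁ * h)).toMonoidHom ≤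
      T ⊔ centralizerIn (S : Subgroup G) T := by
    rw [Subgroup.map_sup]
    refine sup_le_sup ?_ ?_
    · rintro _ ⟨t, ht, rfl⟩
      show y₁ * h * t * (y₁ * h)⁻¹ ∈ T
      rw [hconjT t ht]
      exact (Subgroup.mem_normalizer_iff.mp hhN t).mp ht
    · rintro _ ⟨c, hc, rfl⟩
      exact hconjC c hc
  haveI : Finite ↥(T ⊔ centralizerIn (S : Subgroup G) T) := inferInstance
  exact mem_normalizer_of_forall_conj_mem (fun z hz => hle ⟨z, hz, rfl⟩)

/-- For a finite group G with Sylow p-subgroup S and a normal subgroup H, the fusion system of H on S ∩ H is a normal subsystem of the fusion system of G on S. -/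
theorem result {G : Type*} [Group G] [Finite G] (p : ℕ) [Fact p.Prime] (S : Sylow p G) (H : Subgroup G) [H.Normal] : (Cfsg.fusionSystemOfSubgroup H ((S : Subgroup G) ⊓ H) inf_le_right).IsNormalIn (Cfsg.groupFusionSystem (S : Subgroup G)) p := by
  have hHn : ∀ (g x : G), x ∈ H → g * x * g⁻¹ ∈ H := fun g x hx => ‹H.Normal›.conj_mem x hx g
  have hfinTop : Finite ↥(⊤ : Subgroup G) := inferInstance
  have hsylS : IsSylowIn p (⊤ : Subgroup G) (S : Subgroup G) := isSylowIn_of_sylow S le_top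
  have hsylT : IsSylowIn p H ((S : Subgroup G) ⊓ H) :=
    hsylS.inf_of_normal le_top le_top (fun n _ k hk => hHn n k hk)
  have hEsat := subgroupFusion_saturated H ((S : Subgroup G) ⊓ H) inf_le_right hsylT
  have hFsat := groupFusion_saturated S
  have hTS : (S : Subgroup G) ⊓ H ≤ S := inf_le_left
  have hfinT : Finite ↥((S : Subgroup G) ⊓ H) := inferInstance
  refine ⟨⟨hEsat, hFsat, ?_, ?_, ?_, ?_⟩, ?_⟩
  · rintro P φ ⟨hP, hφT, g, hgH, hg⟩
    exact ⟨hP.trans hTS, fun x => hTS (hφT x), g, hg⟩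
  · refine ⟨hTS, ?_⟩
    rintro R hR φ ⟨hRS, hφS, g, hg⟩ x
    refine ⟨hφS x, ?_⟩
    rw [hg]
    exact hHn g _ (hR x.2).2
  · rintro P hPT φ ⟨-, hφT, h, hhH, hh⟩ α hα
    obtain ⟨-, -, n, hn⟩ := autGroup_hom_mem (groupFusionSystem (S : Subgroup G)) hTS hα
    have hn' : ∀ t : ↥((S : Subgroup G) ⊓ H),
        ((α t : ↥((S : Subgroup G) ⊓ H)) : G) = n * (t : G) * n⁻¹ := hn
    have himg : (P.subgroupOf ((S : Subgroup G) ⊓ H)).map
        (((S : Subgroup G) ⊓ H).subtype.comp α.toMonoidHom) ≤ (S : Subgroup G) ⊓ H := by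
      rintro _ ⟨t, -, rfl⟩
      exact (α t).2
    refine ⟨conjHom _ (n * h * n⁻¹), ⟨himg, ?_, n * h * n⁻¹, hHn n h hhH, fun y => rfl⟩, ?_⟩
    · rintro ⟨_, t, ht, rfl⟩
      show (n * h * n⁻¹) * ((α t : ↥((S : Subgroup G) ⊓ H)) : G) * (n * h * n⁻¹)⁻¹ ∈ (S : Subgroup G) ⊓ H
      have h1 : (n * h * n⁻¹) * ((α t : ↥((S : Subgroup G) ⊓ H)) : G) * (n * h * n⁻¹)⁻¹ =
          ((α ⟨φ ⟨t, ht⟩, hφT ⟨t, ht⟩⟩ : ↥((S : Subgroup G) ⊓ H)) : G) := by
        rw [hn', hn']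
        show _ = n * φ ⟨t, ht⟩ * n⁻¹
        rw [hh]
        show _ = n * (h * (t : G) * h⁻¹) * n⁻¹
        group
      rw [h1]
      exact (α _).2
    · intro x hφx hαx
      show (n * h * n⁻¹) * ((α ⟨x, hPT x.2⟩ : ↥((S : Subgroup G) ⊓ H)) : G) * (n * h * n⁻¹)⁻¹ = _
      rw [hn', hn']
      show _ = n * φ x * n⁻¹
      rw [hh]
      show n * h * n⁻¹ * (n * (x : G) * n⁻¹) * (n * h * n⁻¹)⁻¹ = n * (h * (x : G) * h⁻¹) * n⁻¹
      group
  · rintro P hPT φ ⟨hPS, hφS, g, hg⟩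
    obtain ⟨k, hkH, n, -, hgkn, hnT⟩ := frattini_sylowIn (A := (⊤ : Subgroup G)) (K := H) le_top
      (fun a _ k hk => hHn a k hk) hsylT inf_le_right g (Subgroup.mem_top g)
    have hnN : n ∈ Subgroup.normalizer (((S : Subgroup G) ⊓ H : Subgroup G) : Set G) :=
      mem_normalizer_of_forall_conj_mem hnT
    have hα : ((S : Subgroup G) ⊓ H).normalizerMonoidHom ⟨n, hnN⟩ ∈
        (groupFusionSystem (S : Subgroup G)).autGroup ((S : Subgroup G) ⊓ H) := by
      rw [groupFusion_autGroup _ hTS]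
      exact conj_mem_autInducedBy (Subgroup.mem_top n) hnN
    have hhH : n⁻¹ * k * n ∈ H := by
      have := hHn n⁻¹ k hkH
      rwa [inv_inv] at this
    have hval : ∀ x : P, n⁻¹ * k * n * (x : G) * (n⁻¹ * k * n)⁻¹ ∈ (S : Subgroup G) ⊓ H := by
      intro x
      have h1 : φ x ∈ (S : Subgroup G) ⊓ H := ⟨hφS x, by rw [hg]; exact hHn g _ (hPT x.2).2⟩
      have h2 : n⁻¹ * φ x * n⁻¹⁻¹ ∈ (S : Subgroup G) ⊓ H :=
        ((Subgroup.mem_normalizer_iff.mp (Subgroup.inv_mem _ hnN)) (φ x)).mp h1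
      have h3 : n⁻¹ * k * n * (x : G) * (n⁻¹ * k * n)⁻¹ = n⁻¹ * φ x * n⁻¹⁻¹ := by
        rw [hg, hgkn]; group
      rw [h3]; exact h2
    refine ⟨_, hα, conjHom P (n⁻¹ * k * n), ⟨hPT, hval, n⁻¹ * k * n, hhH, fun x => rfl⟩, ?_⟩
    intro x hx
    rw [normalizerMonoidHom_coe]
    show φ x = n * (n⁻¹ * k * n * (x : G) * (n⁻¹ * k * n)⁻¹) * n⁻¹
    rw [hg, hgkn]; group
  · intro α hα
    obtain ⟨-, -, h, hhH, hh⟩ := autGroup_hom_mem
      (fusionSystemOfSubgroup H ((S : Subgroup G) ⊓ H) inf_le_right) le_rfl hα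
    have hh' : ∀ t : ↥((S : Subgroup G) ⊓ H),
        ((α t : ↥((S : Subgroup G) ⊓ H)) : G) = h * (t : G) * h⁻¹ := hh
    have hhN : h ∈ Subgroup.normalizer (((S : Subgroup G) ⊓ H : Subgroup G) : Set G) :=
      mem_normalizer_of_forall_conj_mem (fun y hy => by rw [← hh' ⟨y, hy⟩]; exact (α _).2)
    obtain ⟨h', hh'H, hh'N, hh'T, hh'C⟩ := ext_cond S H _ rfl h hhH hhN
    have hle : (S : Subgroup G) ⊓ H ⊔ centralizerIn (S : Subgroup G) ((S : Subgroup G) ⊓ H) ≤ S :=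
      sup_le hTS inf_le_left
    refine ⟨(_ : Subgroup G).normalizerMonoidHom ⟨h', hh'N⟩, ?_, ?_, ?_⟩
    · rw [groupFusion_autGroup _ hle]
      exact conj_mem_autInducedBy (Subgroup.mem_top h') hh'N
    · intro x
      rw [normalizerMonoidHom_coe, hh' x]
      exact hh'T x x.2
    · intro c hc
      rw [normalizerMonoidHom_coe]
      have h1 := hh'C c hc
      refine ⟨⟨?_, ?_⟩, ?_⟩
      · exact Subgroup.mul_mem _ (Subgroup.inv_mem _ hc.1) h1.1
      · have h2 : (c : G)⁻¹ * (h' * (c : G) * h'⁻¹) = ((c : G)⁻¹ * h' * (c : G)⁻¹⁻¹) * h'⁻¹ := by group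
        rw [h2]
        exact H.mul_mem (hHn _ _ hh'H) (H.inv_mem hh'H)
      · exact Subgroup.mul_mem _ (Subgroup.inv_mem _ hc.2) h1.2

end Cfsg.Agent.S5118
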