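import Cfsg.Statements.S5120
import Cfsg.Agent.Lib.Helper26.FusPPow

set_option autoImplicit false
open Cfsg

namespace Cfsg.Agent.S5120

open Cfsg.Agent.Lib.Helper26 Cfsg.FusionSystem

/-- Let F be a saturated fusion system over a finite p-group S and T a subgroup of S containing the hyperfocal subgroup of F and normal in S. Then every saturated subsystem of F over T of p-power index is a normal subsystem of F. -/
theorem result {Ω : Type*} [Group Ω] {S : Subgroup Ω} [Finite S] (p : ℕ) [Fact p.Prime] (hS : IsPGroup p S) (F : Cfsg.FusionSystem S) (hF : F.IsSaturated p) (T : Subgroup Ω) (hTS : T ≤ S) (hTn : (T.subgroupOf S).Normal) (hT : F.hyperfocalSubgroup p ≤ T) (E : Cfsg.FusionSystem T) (hEs : E.IsSaturated p) (hEi : E.HasPPowerIndexIn F p) : E.IsNormalIn F p := by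
  have hsc := stronglyClosed_of_hyperfocal_le hS F hF hTS hTn hT
  refine ⟨⟨hEs, hF, hEi.1, hsc, invariance_of_pPowerIndex hS F hF hTS hTn hsc E hEs hEi, ?_⟩, ?_⟩
  · intro P hPT φ hφ
    obtain ⟨s, hs, φ₀, hφ₀, e⟩ := frattini_of_pPowerIndex hS F hF hTS hTn hsc E hEs hEi P φ hφ
    have hsN : s ∈ Subgroup.normalizer (T : Set Ω) := stronglyClosed_le_normalizer F hsc hs
    refine ⟨T.normalizerMonoidHom ⟨s, hsN⟩,
      autInducedBy_le_autGroup F hTS (conj_mem_autInducedBy hs hsN),
      φ₀.comp (Subgroup.inclusion (le_inf le_rfl hPT)), restrict_mem E hφ₀ _, fun x hx => ?_⟩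
    exact e ⟨x, ⟨x.2, hPT x.2⟩⟩
  · exact extension_of_pPowerIndex hS F hF hsc hT E hEs hEi.1

end Cfsg.Agent.S5120
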