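import Cfsg.Statements.S5128
import Cfsg.Agent.Lib.Helper26.FusFactor

set_option autoImplicit false
open Cfsg

namespace Cfsg.Agent.S5128

open Cfsg.Agent.Lib.Helper26 Cfsg.FusionSystem

open scoped Pointwise

/-- In a saturated fusion system over a finite p-group S, the product of two strongly closed subgroups is strongly closed. -/
theorem result {Ω : Type*} [Group Ω] {S : Subgroup Ω} [Finite S] (p : ℕ) [Fact p.Prime] (hS : IsPGroup p S) (F : Cfsg.FusionSystem S) (hF : F.IsSaturated p) (T₁ T₂ : Subgroup Ω) (h₁ : F.StronglyClosed T₁) (h₂ : F.StronglyClosed T₂) : F.StronglyClosed (T₁ ⊔ T₂) := by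
  refine ⟨sup_le h₁.1 h₂.1, fun R hR φ hφ x => ?_⟩
  obtain ⟨φ', hφ', hφ'T⟩ := tExt_all hS F hF h₁ R φ hφ
  have hTn := stronglyClosed_le_normalizer F h₂
  have hmul : ((T₁ ⊔ T₂ : Subgroup Ω) : Set Ω) = (T₁ : Set Ω) * (T₂ : Set Ω) :=
    Subgroup.coe_mul_of_left_le_normalizer_right T₁ T₂ (le_trans h₁.1 hTn)
  have hx : (x : Ω) ∈ (T₁ : Set Ω) * (T₂ : Set Ω) := hmul ▸ hR x.2
  obtain ⟨a, ha, b, hb, hab⟩ := Set.mem_mul.mp hx
  have haR : a ∈ R ⊔ T₁ := Subgroup.mem_sup_right ha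
  have hbR : b ∈ R ⊔ T₁ := by
    have h1 : b = a⁻¹ * (x : Ω) := by
      rw [← hab]
      group
    rw [h1]
    exact Subgroup.mul_mem _ (Subgroup.inv_mem _ haR) (Subgroup.mem_sup_left x.2)
  have e1 : Subgroup.inclusion le_sup_left x = (⟨a, haR⟩ : ↥(R ⊔ T₁)) * ⟨b, hbR⟩ :=
    Subtype.ext hab.symm
  have h3 : φ' (Subgroup.inclusion le_sup_left x) ∈ T₁ ⊔ T₂ := by
    rw [e1, map_mul]
    exact Subgroup.mul_mem _
      (Subgroup.mem_sup_left (stronglyClosed_map_mem F h₁ hφ' ⟨a, haR⟩ ha))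
      (Subgroup.mem_sup_right (stronglyClosed_map_mem F h₂ hφ' ⟨b, hbR⟩ hb))
  have e2 : φ x = φ' (Subgroup.inclusion le_sup_left x) *
      ((φ x)⁻¹ * φ' (Subgroup.inclusion le_sup_left x))⁻¹ := by group
  rw [e2]
  exact Subgroup.mul_mem _ h3 (Subgroup.inv_mem _ (Subgroup.mem_sup_left (hφ'T x)))

end Cfsg.Agent.S5128
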