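import Cfsg.Statements.S5139
import Cfsg.Agent.Lib.Helper26.FusIdx
import Cfsg.Agent.S5093

set_option autoImplicit false
open Cfsg

namespace Cfsg.Agent.S5139

open Cfsg.Agent.Lib.Helper26 Cfsg.FusionSystem

/-- Let G be a finite group with Sylow p-subgroup S and O^p(G) the subgroup generated by the elements of order prime to p. Then the p-residual subsystem of the fusion system of G on S — the saturated subsystem of p-power index over the hyperfocal subgroup — is the fusion system of O^p(G) on S ∩ O^p(G): its maps are exactly the conjugation maps by elements of O^p(G) between subgroups of S ∩ O^p(G). -/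
theorem result {G : Type*} [Group G] [Finite G] (p : ℕ) [Fact p.Prime] (S : Sylow p G) (E : Cfsg.FusionSystem ((Cfsg.groupFusionSystem (S : Subgroup G)).hyperfocalSubgroup p)) (hE : (Cfsg.groupFusionSystem (S : Subgroup G)).IsPResidual p E) : ∃ h : (S : Subgroup G) ⊓ Cfsg.pResidual p G ≤ Cfsg.pResidual p G, ∀ P : Subgroup G, E.Hom P = (Cfsg.fusionSystemOfSubgroup (Cfsg.pResidual p G) ((S : Subgroup G) ⊓ Cfsg.pResidual p G) h).Hom P := by
  refine ⟨inf_le_right, fun P => ?_⟩
  obtain ⟨hEsat, hEF, hhyp, hidx⟩ := hE
  have hH : (groupFusionSystem (S : Subgroup G)).hyperfocalSubgroup p =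
      (S : Subgroup G) ⊓ pResidual p G := Cfsg.Agent.S5093.result p S
  have hnorm := pResidual_normal' G p
  have hfinTop : Finite ↥(⊤ : Subgroup G) := inferInstance
  have hsyl₀ : IsSylowIn p (pResidual p G) ((S : Subgroup G) ⊓ pResidual p G) :=
    (isSylowIn_of_sylow S le_top).inf_of_normal le_top le_top
      (fun n _ k hk => hnorm.conj_mem k hk n)
  have hsat := subgroupFusion_saturated (pResidual p G) ((S : Subgroup G) ⊓ pResidual p G)
    inf_le_right hsyl₀
  have hS₀p : IsPGroup p ↥((S : Subgroup G) ⊓ pResidual p G) := S.isPGroup'.to_le inf_le_left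
  have hHS : (groupFusionSystem (S : Subgroup G)).hyperfocalSubgroup p ≤ S := hyperfocal_le _ p
  have hHp : IsPGroup p ↥((groupFusionSystem (S : Subgroup G)).hyperfocalSubgroup p) :=
    S.isPGroup'.to_le hHS
  have hfinH : Finite ↥((groupFusionSystem (S : Subgroup G)).hyperfocalSubgroup p) := inferInstance
  have hF₀F : (fusionSystemOfSubgroup (pResidual p G) ((S : Subgroup G) ⊓ pResidual p G)
      inf_le_right).IsSubsystemOf (groupFusionSystem (S : Subgroup G)) := by
    rintro P φ ⟨hP, hφT, g, hgK, hg⟩
    exact ⟨hP.trans inf_le_left, fun x => (hφT x).1, g, hg⟩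
  apply Set.Subset.antisymm
  · refine subsystem_of_alperin hHp E hEsat _ hH.le ?_ P
    intro R hR β hβ
    have hRS₀ : R ≤ (S : Subgroup G) ⊓ pResidual p G := hR.trans hH.le
    have hRS : R ≤ (S : Subgroup G) := hRS₀.trans inf_le_left
    have hfinR : Finite ↥R := inferInstance
    refine Subgroup.closure_induction (p := fun (β : ↥(E.autGroup R)) _ => (β : MulAut R) ∈
      (fusionSystemOfSubgroup (pResidual p G) ((S : Subgroup G) ⊓ pResidual p G)
        inf_le_right).autGroup R) ?_ ?_ ?_ ?_ hβ
    · intro β hcop
      have hle : E.autGroup R ≤ (groupFusionSystem (S : Subgroup G)).autGroup R :=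
        Subgroup.closure_mono (fun γ hγ => hEF R hγ)
      have hβ' : (β : MulAut R) ∈ autInducedBy ⊤ R := by
        rw [← groupFusion_autGroup (S : Subgroup G) hRS]
        exact hle β.2
      obtain ⟨g, -, hg⟩ := mem_autInducedBy_iff.mp hβ'
      have hcop' : Nat.Coprime (orderOf (β : MulAut R)) p := by
        rw [Subgroup.orderOf_coe]
        exact hcop
      obtain ⟨g', hg', hg'x⟩ := exists_conj_pResidual_of_coprime (β : MulAut R) hcop' g hg
      apply Subgroup.subset_closure
      exact ⟨hRS₀, fun x => hRS₀ (Subtype.property _), g', hg', fun x => hg'x x⟩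
    · exact one_mem _
    · intro a b _ _ ha hb
      exact mul_mem ha hb
    · intro a _ ha
      exact inv_mem ha
  · refine subsystem_of_alperin hS₀p _ hsat E hH.ge ?_ P
    intro R hR β hβ
    have hRH : R ≤ (groupFusionSystem (S : Subgroup G)).hyperfocalSubgroup p := hR.trans hH.ge
    have hle : (fusionSystemOfSubgroup (pResidual p G) ((S : Subgroup G) ⊓ pResidual p G)
        inf_le_right).autGroup R ≤ (groupFusionSystem (S : Subgroup G)).autGroup R :=
      Subgroup.closure_mono (fun γ hγ => hF₀F R hγ)
    have h1 := pResidual_transport (p := p) (MonoidHom.id (MulAut R)) (fun _ _ h => h)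
      _ _ (fun a ha => hle ha) β hβ
    exact hidx R hRH ⟨_, h1, rfl⟩

end Cfsg.Agent.S5139
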