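import Mathlib
import Cfsg.Statements.S5164

set_option autoImplicit false
open Cfsg

namespace Cfsg.Agent.S5164

theorem not_sq_dvd_fact {p : ℕ} (hp : p.Prime) : ¬ p ^ 2 ∣ p.factorial := by
  intro h
  have h1 : p.factorial = p * (p - 1).factorial := by
    have : p = (p - 1) + 1 := by have := hp.pos; omega
    conv_lhs => rw [this, Nat.factorial_succ]
    rw [← this]
  rw [h1, pow_two] at h
  have h2 : p ∣ (p - 1).factorial := (Nat.mul_dvd_mul_iff_left hp.pos).mp h
  have h3 := (hp.dvd_factorial).mp h2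
  have := hp.pos
  omega

theorem ab {p : ℕ} [Fact p.Prime] {α : Type*} [Fintype α] [DecidableEq α]
    (R : Subgroup (Equiv.Perm α)) (hR : IsPGroup p R) (hα : Fintype.card α < p ^ 2) :
    ∀ x ∈ R, ∀ y ∈ R, x * y = y * x := by
  have hp : p.Prime := Fact.out
  intro x hx y hy
  ext a
  set O := MulAction.orbit ↥R a with hO
  set φ := MulAction.toPermHom ↥R ↥O with hφ
  have hcO : ∃ i, Nat.card ↥O = p ^ i := hR.card_orbit a
  obtain ⟨i, hi⟩ := hcO
  have hle : Nat.card ↥O ≤ p := by
    have h1 : Nat.card ↥O ≤ Nat.card α := Nat.card_le_card_of_injective Subtype.val Subtype.val_injective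
    rw [Nat.card_eq_fintype_card (α := α)] at h1
    have h2 : p ^ i < p ^ 2 := by rw [← hi]; omega
    have h3 : i < 2 := (Nat.pow_lt_pow_iff_right hp.one_lt).mp h2
    rw [hi]
    calc p ^ i ≤ p ^ 1 := Nat.pow_le_pow_right hp.pos (by omega)
      _ = p := pow_one p
  have hRp : IsPGroup p φ.range := hR.of_surjective φ.rangeRestrict φ.rangeRestrict_surjective
  obtain ⟨j, hj⟩ := IsPGroup.iff_card.mp hRp
  have hdvd : Nat.card ↥φ.range ∣ p.factorial := by
    have h1 := Subgroup.card_subgroup_dvd_card φ.range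
    rw [Nat.card_perm] at h1
    exact h1.trans (Nat.factorial_dvd_factorial hle)
  have hj2 : j < 2 := by
    by_contra hj2
    push Not at hj2
    rw [hj] at hdvd
    exact not_sq_dvd_fact hp ((pow_dvd_pow p hj2).trans hdvd)
  have hcomm : φ ⟨x, hx⟩ * φ ⟨y, hy⟩ = φ ⟨y, hy⟩ * φ ⟨x, hx⟩ := by
    have hj' : j = 0 ∨ j = 1 := by omega
    rcases hj' with rfl | rfl
    · rw [pow_zero] at hj
      have hb := Subgroup.card_eq_one.mp hj
      have h1 : φ ⟨x, hx⟩ ∈ φ.range := ⟨_, rfl⟩
      have h2 : φ ⟨y, hy⟩ ∈ φ.range := ⟨_, rfl⟩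
      rw [hb, Subgroup.mem_bot] at h1 h2
      rw [h1, h2]
    · rw [pow_one] at hj
      have hcyc : IsCyclic ↥φ.range := isCyclic_of_prime_card hj
      have := (IsCyclic.isMulCommutative (α := ↥φ.range)).is_comm.comm
        ⟨φ ⟨x, hx⟩, ⟨_, rfl⟩⟩ ⟨φ ⟨y, hy⟩, ⟨_, rfl⟩⟩
      exact congrArg Subtype.val this
  rw [← map_mul, ← map_mul] at hcomm
  have h3 := congrArg (fun f => ((f ⟨a, MulAction.mem_orbit_self a⟩ : ↥O) : α)) hcomm
  exact h3

theorem mem_smul_sylow {G : Type*} [Group G] {p : ℕ} (g x : G) (P : Sylow p G) :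
    x ∈ ((g • P : Sylow p G) : Subgroup G) ↔ g⁻¹ * x * g ∈ (P : Subgroup G) := by
  rw [Sylow.coe_subgroup_smul, Subgroup.mem_pointwise_smul_iff_inv_smul_mem]
  simp [MulAut.smul_def]

theorem stepA (p : ℕ) [Fact p.Prime] : ∃ T : Sylow p (Equiv.Perm (Fin (p ^ 2))),
    ¬ (∀ x ∈ (T : Subgroup (Equiv.Perm (Fin (p ^ 2)))),
      ∀ y ∈ (T : Subgroup (Equiv.Perm (Fin (p ^ 2)))), x * y = y * x) := by
  have hp : p.Prime := Fact.out
  have hpp : p ≤ p ^ 2 := by nlinarith [hp.two_le]
  obtain ⟨c, hc⟩ := (Equiv.Perm.exists_with_cycleType_iff (α := Fin (p ^ 2)) (m := {p})).mpr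
    ⟨by simpa using hpp, by simpa using hp.two_le⟩
  have horder : orderOf c = p := by
    rw [← Equiv.Perm.lcm_cycleType, hc]
    simp
  have hz : IsPGroup p (Subgroup.zpowers c) :=
    IsPGroup.of_card (n := 1) (by rw [Nat.card_zpowers, horder, pow_one])
  obtain ⟨T, hT⟩ := hz.exists_le_sylow
  refine ⟨T, fun hcomm => ?_⟩
  have hcT : c ∈ (T : Subgroup (Equiv.Perm (Fin (p ^ 2)))) := hT (Subgroup.mem_zpowers c)
  have hle : (T : Subgroup (Equiv.Perm (Fin (p ^ 2)))) ≤ Subgroup.centralizer {c} := by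
    intro x hx
    rw [Subgroup.mem_centralizer_iff]
    intro y hy
    rw [Set.mem_singleton_iff] at hy
    subst hy
    exact hcomm _ hcT _ hx
  have hcard : Nat.card (Subgroup.centralizer {c}) = (p ^ 2 - p).factorial * p := by
    rw [Equiv.Perm.nat_card_centralizer, hc]
    simp
  set V := padicValNat p (p ^ 2 - p).factorial with hV
  have h1 : p ^ (V + 2) ∣ (p ^ 2).factorial := by
    have h2 : p ^ V ∣ (p ^ 2 - p).factorial := pow_padicValNat_dvd
    have h3 : (p ^ 2 - p).factorial ∣ (p ^ 2 - 1).factorial :=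
      Nat.factorial_dvd_factorial (by have := hp.pos; omega)
    have h4 : (p ^ 2).factorial = p ^ 2 * (p ^ 2 - 1).factorial := by
      have : p ^ 2 = (p ^ 2 - 1) + 1 := by have := hp.pos; omega
      conv_lhs => rw [this, Nat.factorial_succ]
      rw [← this]
    rw [h4, pow_add, mul_comm]
    exact Nat.mul_dvd_mul dvd_rfl (h2.trans h3)
  have h5 : p ^ (V + 2) ∣ Nat.card (T : Subgroup (Equiv.Perm (Fin (p ^ 2)))) := by
    apply T.pow_dvd_card_of_pow_dvd_card
    rw [Nat.card_perm, Nat.card_fin]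
    exact h1
  have h6 : Nat.card (T : Subgroup (Equiv.Perm (Fin (p ^ 2)))) ∣
      Nat.card (Subgroup.centralizer {c}) := Subgroup.card_dvd_of_le hle
  rw [hcard] at h6
  have h7 : p ^ (V + 2) ∣ (p ^ 2 - p).factorial * p := h5.trans h6
  have h8 : p ^ (V + 1) ∣ (p ^ 2 - p).factorial := by
    have e : p ^ (V + 2) = p ^ (V + 1) * p := by ring
    rw [e] at h7
    exact Nat.dvd_of_mul_dvd_mul_right hp.pos h7
  exact pow_succ_padicValNat_not_dvd (Nat.factorial_ne_zero _) h8

theorem lemF {p n : ℕ} [Fact p.Prime] {H : Type*} [Group H] [Finite H] (hH : IsPGroup p H)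
    {α : Type*} [Fintype α] [DecidableEq α] (j : H →* Equiv.Perm α) (hj : Function.Injective j)
    (hsign : ∀ h, Equiv.Perm.sign (j h) = 1) (hcard : Fintype.card α ≤ n)
    (S : Sylow p (alternatingGroup (Fin n)))
    (hS : ∀ x ∈ (S : Subgroup (alternatingGroup (Fin n))),
      ∀ y ∈ (S : Subgroup (alternatingGroup (Fin n))), x * y = y * x) :
    ∀ a b : H, a * b = b * a := by
  classical
  obtain ⟨g⟩ := Function.Embedding.nonempty_of_card_le (α := α) (β := Fin n) (by simpa using hcard)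
  let f : α ≃ Set.range g := Equiv.ofInjective g g.injective
  let ι : Equiv.Perm α →* Equiv.Perm (Fin n) := Equiv.Perm.extendDomainHom f
  have hι : Function.Injective ι := Equiv.Perm.extendDomainHom_injective f
  have hsgn : ∀ σ, Equiv.Perm.sign (ι σ) = Equiv.Perm.sign σ := fun σ =>
    Equiv.Perm.sign_extendDomain σ f
  let ψ : H →* alternatingGroup (Fin n) := (ι.comp j).codRestrict _ (fun h => by
    rw [Equiv.Perm.mem_alternatingGroup]
    simp [hsgn, hsign])
  have hψ : Function.Injective ψ := by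
    intro a b hab
    have := congrArg Subtype.val hab
    exact hj (hι this)
  have hRp : IsPGroup p ψ.range := hH.of_surjective ψ.rangeRestrict ψ.rangeRestrict_surjective
  obtain ⟨S', hS'⟩ := hRp.exists_le_sylow
  obtain ⟨g', hg'⟩ := MulAction.exists_smul_eq (alternatingGroup (Fin n)) S S'
  intro a b
  apply hψ
  have ha : ψ a ∈ (S' : Subgroup (alternatingGroup (Fin n))) := hS' ⟨a, rfl⟩
  have hb : ψ b ∈ (S' : Subgroup (alternatingGroup (Fin n))) := hS' ⟨b, rfl⟩
  rw [← hg', mem_smul_sylow] at ha hb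
  have := hS _ ha _ hb
  rw [map_mul, map_mul]
  have e1 : ψ a * ψ b = g' * ((g'⁻¹ * ψ a * g') * (g'⁻¹ * ψ b * g')) * g'⁻¹ := by group
  have e2 : ψ b * ψ a = g' * ((g'⁻¹ * ψ b * g') * (g'⁻¹ * ψ a * g')) * g'⁻¹ := by group
  rw [e1, e2, this]

theorem sign_tau (u : ℤˣ) : Equiv.Perm.sign (MulAction.toPermHom ℤˣ ℤˣ u) = u := by
  rcases Int.units_eq_one_or u with rfl | rfl
  · rw [map_one, map_one]
  · have : MulAction.toPermHom ℤˣ ℤˣ (-1) = Equiv.swap (1 : ℤˣ) (-1) := by
      ext v
      rcases Int.units_eq_one_or v with rfl | rfl <;> simp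
    rw [this, Equiv.Perm.sign_swap]
    decide

theorem result (n p : ℕ) (hn : 6 ≤ n) [Fact p.Prime] (S : Sylow p (alternatingGroup (Fin n))) (hS : (S : Subgroup (alternatingGroup (Fin n))) ≠ ⊥) : IsMulCommutative S ↔ n < p ^ 2 := by
  have hp : p.Prime := Fact.out
  constructor
  · intro hc
    by_contra hge
    push Not at hge
    have hS' : ∀ x ∈ (S : Subgroup (alternatingGroup (Fin n))),
        ∀ y ∈ (S : Subgroup (alternatingGroup (Fin n))), x * y = y * x := by
      intro x hx y hy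
      have := hc.is_comm.comm (⟨x, hx⟩ : ↥S) ⟨y, hy⟩
      exact congrArg Subtype.val this
    obtain ⟨T, hT⟩ := stepA p
    apply hT
    intro x hx y hy
    by_cases hp2 : p = 2
    · subst hp2
      let j : ↥(T : Subgroup (Equiv.Perm (Fin (2 ^ 2)))) →* Equiv.Perm (Fin (2 ^ 2) ⊕ ℤˣ) :=
        (Equiv.Perm.sumCongrHom _ _).comp
          (MonoidHom.prod (Subgroup.subtype _)
            ((MulAction.toPermHom ℤˣ ℤˣ).comp (Equiv.Perm.sign.comp (Subgroup.subtype _))))
      have hj : Function.Injective j := by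
        intro a b hab
        have h1 := Equiv.Perm.sumCongrHom_injective hab
        have h2 := congrArg Prod.fst h1
        exact Subtype.ext h2
      have hsign : ∀ h, Equiv.Perm.sign (j h) = 1 := by
        intro h
        have : j h = Equiv.sumCongr (h : Equiv.Perm (Fin (2 ^ 2)))
            (MulAction.toPermHom ℤˣ ℤˣ (Equiv.Perm.sign (h : Equiv.Perm (Fin (2 ^ 2))))) := rfl
        rw [this, Equiv.Perm.sign_sumCongr, sign_tau]
        exact Int.units_mul_self _
      have hcard : Fintype.card (Fin (2 ^ 2) ⊕ ℤˣ) ≤ n := by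
        rw [Fintype.card_sum, Fintype.card_fin, Fintype.card_units_int]
        omega
      have := lemF T.2 j hj hsign hcard S hS' ⟨x, hx⟩ ⟨y, hy⟩
      exact congrArg Subtype.val this
    · have hodd : Odd p := hp.odd_of_ne_two hp2
      have hsign : ∀ h : ↥(T : Subgroup (Equiv.Perm (Fin (p ^ 2)))),
          Equiv.Perm.sign ((Subgroup.subtype _) h) = 1 := by
        intro h
        obtain ⟨k, hk⟩ := T.2 h
        have h1 : (Equiv.Perm.sign (h : Equiv.Perm (Fin (p ^ 2)))) ^ (p ^ k) = 1 := by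
          rw [← map_pow]
          have : (h : Equiv.Perm (Fin (p ^ 2))) ^ (p ^ k) = 1 := by
            have := congrArg Subtype.val hk
            simpa using this
          rw [this, map_one]
        rcases Int.units_eq_one_or (Equiv.Perm.sign (h : Equiv.Perm (Fin (p ^ 2)))) with h2 | h2
        · exact h2
        · rw [h2, Odd.neg_one_pow (hodd.pow)] at h1
          exact absurd h1 (by decide)
      have hcard : Fintype.card (Fin (p ^ 2)) ≤ n := by
        rw [Fintype.card_fin]
        exact hge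
      have := lemF T.2 (Subgroup.subtype _) (Subgroup.subtype_injective _) hsign hcard S hS'
        ⟨x, hx⟩ ⟨y, hy⟩
      exact congrArg Subtype.val this
  · intro hlt
    refine ⟨⟨fun x y => ?_⟩⟩
    apply Subtype.ext
    apply Subtype.ext
    have hR : IsPGroup p ((S : Subgroup (alternatingGroup (Fin n))).map
        (alternatingGroup (Fin n)).subtype) := S.2.map _
    exact ab _ hR (by simpa using hlt) _ ⟨x.1, x.2, rfl⟩ _ ⟨y.1, y.2, rfl⟩

end Cfsg.Agent.S5164
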