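import Cfsg.Statements.S5344
import Mathlib

set_option autoImplicit false
open Cfsg

namespace Cfsg.Agent.S5344

def sgen : Fin 3 → Equiv.Perm (Fin 4)
  | 0 => Equiv.swap 0 1
  | 1 => Equiv.swap 1 2
  | 2 => Equiv.swap 2 3

def pprod (w : List (Fin 3)) : Equiv.Perm (Fin 4) := (w.map sgen).prod

def nfs : List (List (Fin 3)) :=
  [[],
   [0],
   [1],
   [2],
   [0, 1],
   [0, 2],
   [1, 0],
   [1, 2],
   [2, 1],
   [0, 1, 0],
   [0, 1, 2],
   [0, 2, 1],
   [1, 0, 2],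
   [1, 2, 1],
   [2, 1, 0],
   [0, 1, 0, 2],
   [0, 1, 2, 1],
   [0, 2, 1, 0],
   [1, 0, 2, 1],
   [1, 2, 1, 0],
   [0, 1, 0, 2, 1],
   [0, 1, 2, 1, 0],
   [1, 0, 2, 1, 0],
   [0, 1, 0, 2, 1, 0]]

def word (σ : Equiv.Perm (Fin 4)) : List (Fin 3) :=
  (nfs.find? (fun w => decide (pprod w = σ))).getD []

def table : List (List (Fin 3) × Fin 3 × List (Fin 3)) :=
  [([], 0, [0]),
   ([], 1, [1]),
   ([], 2, [2]),
   ([0], 0, []),
   ([0], 1, [0, 1]),
   ([0], 2, [0, 2]),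
   ([1], 0, [1, 0]),
   ([1], 1, []),
   ([1], 2, [1, 2]),
   ([2], 0, [0, 2]),
   ([2], 1, [2, 1]),
   ([2], 2, []),
   ([0, 1], 0, [0, 1, 0]),
   ([0, 1], 1, [0]),
   ([0, 1], 2, [0, 1, 2]),
   ([0, 2], 0, [2]),
   ([0, 2], 1, [0, 2, 1]),
   ([0, 2], 2, [0]),
   ([1, 0], 0, [1]),
   ([1, 0], 1, [0, 1, 0]),
   ([1, 0], 2, [1, 0, 2]),
   ([1, 2], 0, [1, 0, 2]),
   ([1, 2], 1, [1, 2, 1]),
   ([1, 2], 2, [1]),
   ([2, 1], 0, [2, 1, 0]),
   ([2, 1], 1, [2]),
   ([2, 1], 2, [1, 2, 1]),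
   ([0, 1, 0], 0, [0, 1]),
   ([0, 1, 0], 1, [1, 0]),
   ([0, 1, 0], 2, [0, 1, 0, 2]),
   ([0, 1, 2], 0, [0, 1, 0, 2]),
   ([0, 1, 2], 1, [0, 1, 2, 1]),
   ([0, 1, 2], 2, [0, 1]),
   ([0, 2, 1], 0, [0, 2, 1, 0]),
   ([0, 2, 1], 1, [0, 2]),
   ([0, 2, 1], 2, [0, 1, 2, 1]),
   ([1, 0, 2], 0, [1, 2]),
   ([1, 0, 2], 1, [1, 0, 2, 1]),
   ([1, 0, 2], 2, [1, 0]),
   ([1, 2, 1], 0, [1, 2, 1, 0]),
   ([1, 2, 1], 1, [1, 2]),
   ([1, 2, 1], 2, [2, 1]),
   ([2, 1, 0], 0, [2, 1]),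
   ([2, 1, 0], 1, [0, 2, 1, 0]),
   ([2, 1, 0], 2, [1, 2, 1, 0]),
   ([0, 1, 0, 2], 0, [0, 1, 2]),
   ([0, 1, 0, 2], 1, [0, 1, 0, 2, 1]),
   ([0, 1, 0, 2], 2, [0, 1, 0]),
   ([0, 1, 2, 1], 0, [0, 1, 2, 1, 0]),
   ([0, 1, 2, 1], 1, [0, 1, 2]),
   ([0, 1, 2, 1], 2, [0, 2, 1]),
   ([0, 2, 1, 0], 0, [0, 2, 1]),
   ([0, 2, 1, 0], 1, [2, 1, 0]),
   ([0, 2, 1, 0], 2, [0, 1, 2, 1, 0]),
   ([1, 0, 2, 1], 0, [1, 0, 2, 1, 0]),
   ([1, 0, 2, 1], 1, [1, 0, 2]),
   ([1, 0, 2, 1], 2, [0, 1, 0, 2, 1]),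
   ([1, 2, 1, 0], 0, [1, 2, 1]),
   ([1, 2, 1, 0], 1, [1, 0, 2, 1, 0]),
   ([1, 2, 1, 0], 2, [2, 1, 0]),
   ([0, 1, 0, 2, 1], 0, [0, 1, 0, 2, 1, 0]),
   ([0, 1, 0, 2, 1], 1, [0, 1, 0, 2]),
   ([0, 1, 0, 2, 1], 2, [1, 0, 2, 1]),
   ([0, 1, 2, 1, 0], 0, [0, 1, 2, 1]),
   ([0, 1, 2, 1, 0], 1, [0, 1, 0, 2, 1, 0]),
   ([0, 1, 2, 1, 0], 2, [0, 2, 1, 0]),
   ([1, 0, 2, 1, 0], 0, [1, 0, 2, 1]),
   ([1, 0, 2, 1, 0], 1, [1, 2, 1, 0]),
   ([1, 0, 2, 1, 0], 2, [0, 1, 0, 2, 1, 0]),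
   ([0, 1, 0, 2, 1, 0], 0, [0, 1, 0, 2, 1]),
   ([0, 1, 0, 2, 1, 0], 1, [0, 1, 2, 1, 0]),
   ([0, 1, 0, 2, 1, 0], 2, [1, 0, 2, 1, 0])]

set_option maxRecDepth 100000 in
theorem pprod_word : ∀ σ : Equiv.Perm (Fin 4), pprod (word σ) = σ := by decide +kernel

set_option maxRecDepth 100000 in
theorem word_mem : ∀ σ : Equiv.Perm (Fin 4), word σ ∈ nfs := by decide +kernel

set_option maxRecDepth 100000 in
theorem table_mem : ∀ w ∈ nfs, ∀ i : Fin 3, (w, i, word (pprod w * sgen i)) ∈ table := by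
  decide +kernel

set_option maxRecDepth 100000 in
theorem word_one : word 1 = [] := by decide +kernel

set_option maxRecDepth 100000 in
theorem word_s0 : word (Equiv.swap 0 1) = [0] := by decide +kernel

set_option maxRecDepth 100000 in
theorem word_s1 : word (Equiv.swap 1 2) = [1] := by decide +kernel

set_option maxRecDepth 100000 in
theorem word_s2 : word (Equiv.swap 2 3) = [2] := by decide +kernel

set_option maxRecDepth 100000 in
theorem normal_closure : ∀ σ : Equiv.Perm (Fin 4), σ ≠ 1 →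
    ∃ g h : Equiv.Perm (Fin 4), g * σ * g⁻¹ * (h * σ * h⁻¹) = Equiv.swap 0 1 * Equiv.swap 2 3 ∨
      g * σ * g⁻¹ = Equiv.swap 0 1 * Equiv.swap 2 3 := by
  decide +kernel

theorem pprod_append (u v : List (Fin 3)) : pprod (u ++ v) = pprod u * pprod v := by
  simp [pprod]

section

variable {G : Type*} [Group G]

def ggen (a b c : G) : Fin 3 → G
  | 0 => a
  | 1 => b
  | 2 => c

def gprod (a b c : G) (w : List (Fin 3)) : G := (w.map (ggen a b c)).prod

theorem gprod_append (a b c : G) (u v : List (Fin 3)) :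
    gprod a b c (u ++ v) = gprod a b c u * gprod a b c v := by
  simp [gprod]

def Rel (a b c : G) : Prop :=
  a * a = 1 ∧ b * b = 1 ∧ c * c = 1 ∧ c * a = a * c ∧ b * (a * b) = a * (b * a) ∧
    c * (b * c) = b * (c * b)

set_option maxHeartbeats 4000000 in
theorem table_ok (a b c : G) (h : Rel a b c) :
    ∀ e ∈ table, gprod a b c e.2.2 = gprod a b c e.1 * ggen a b c e.2.1 := by
  obtain ⟨h1, h2, h3, h4, h5, h6⟩ := h
  have h1' : ∀ x, a * (a * x) = x := fun x => by rw [← mul_assoc, h1, one_mul]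
  have h2' : ∀ x, b * (b * x) = x := fun x => by rw [← mul_assoc, h2, one_mul]
  have h3' : ∀ x, c * (c * x) = x := fun x => by rw [← mul_assoc, h3, one_mul]
  have h4' : ∀ x, c * (a * x) = a * (c * x) := fun x => by rw [← mul_assoc, h4, mul_assoc]
  have h5' : ∀ x, b * (a * (b * x)) = a * (b * (a * x)) := fun x => by
    rw [← mul_assoc, ← mul_assoc, mul_assoc b a b, h5]; simp only [mul_assoc]
  have h6' : ∀ x, c * (b * (c * x)) = b * (c * (b * x)) := fun x => by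
    rw [← mul_assoc, ← mul_assoc, mul_assoc c b c, h6]; simp only [mul_assoc]
  have h7 : c * (b * (a * c)) = b * (c * (b * a)) := by
    rw [← h4, h6']
  have h7' : ∀ x, c * (b * (a * (c * x))) = b * (c * (b * (a * x))) := fun x => by
    rw [← h4', h6']
  intro e he
  simp only [table, List.mem_cons, List.not_mem_nil, or_false] at he
  rcases he with rfl | rfl | rfl | rfl | rfl | rfl | rfl | rfl | rfl | rfl | rfl | rfl | rfl | rfl | rfl | rfl | rfl | rfl | rfl | rfl | rfl | rfl | rfl | rfl | rfl | rfl | rfl | rfl | rfl | rfl | rfl | rfl | rfl | rfl | rfl | rfl | rfl | rfl | rfl | rfl | rfl | rfl | rfl | rfl | rfl | rfl | rfl | rfl | rfl | rfl | rfl | rfl | rfl | rfl | rfl | rfl | rfl | rfl | rfl | rfl | rfl | rfl | rfl | rfl | rfl | rfl | rfl | rfl | rfl | rfl | rfl | rfl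
  all_goals simp only [gprod, ggen, List.map_cons, List.map_nil, List.prod_cons, List.prod_nil,
    mul_one, one_mul, mul_assoc, h1, h2, h3, h4, h5, h6, h7, h1', h2', h4', h5']

theorem step (a b c : G) (h : Rel a b c) (σ : Equiv.Perm (Fin 4)) (i : Fin 3) :
    gprod a b c (word (σ * sgen i)) = gprod a b c (word σ) * ggen a b c i := by
  have h' := table_ok a b c h (word σ, i, word (pprod (word σ) * sgen i))
    (table_mem (word σ) (word_mem σ) i)
  rw [pprod_word] at h'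
  exact h'

theorem phi_pprod (a b c : G) (h : Rel a b c) (w : List (Fin 3)) :
    gprod a b c (word (pprod w)) = gprod a b c w := by
  induction w using List.reverseRecOn with
  | nil =>
    have e : pprod [] = 1 := rfl
    rw [e, word_one]
  | append_singleton w i ih =>
    have e : pprod (w ++ [i]) = pprod w * sgen i := by simp [pprod]
    rw [e, step a b c h, ih, gprod_append]
    simp [gprod]

def phi (a b c : G) (h : Rel a b c) : Equiv.Perm (Fin 4) →* G where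
  toFun σ := gprod a b c (word σ)
  map_one' := by rw [word_one]; rfl
  map_mul' σ τ := by
    have e : σ * τ = pprod (word σ ++ word τ) := by rw [pprod_append, pprod_word, pprod_word]
    rw [e, phi_pprod a b c h, gprod_append]

end

theorem result {G : Type*} [Group G] {D : Set G} (hD : Cfsg.IsThreeTranspositionSet D) {a b c : G} (ha : a ∈ D) (hb : b ∈ D) (hc : c ∈ D) (hac : a ≠ c) (hac' : Commute a c) (hab : ¬ Commute a b) (hbc : ¬ Commute b c) : ∃ φ : Equiv.Perm (Fin 4) →* G, Function.Injective φ ∧ φ (Equiv.swap 0 1) = a ∧ φ (Equiv.swap 1 2) = b ∧ φ (Equiv.swap 2 3) = c := by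
  obtain ⟨hord, h23⟩ := hD
  have sq : ∀ d ∈ D, d * d = 1 := fun d hd => by
    have := pow_orderOf_eq_one d
    rw [hord d hd, pow_two] at this
    exact this
  have h1 := sq a ha
  have h2 := sq b hb
  have h3 := sq c hc
  have inv : ∀ d ∈ D, d⁻¹ = d := fun d hd => inv_eq_of_mul_eq_one_left (sq d hd)
  have braid : ∀ x ∈ D, ∀ y ∈ D, ¬ Commute x y → y * (x * y) = x * (y * x) := by
    intro x hx y hy hxy
    rcases h23 x hx y hy with h | h
    · exfalso
      apply hxy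
      have e : x * y = (x * y)⁻¹ := by
        rw [pow_two] at h
        exact (inv_eq_of_mul_eq_one_left h).symm
      rw [mul_inv_rev, inv x hx, inv y hy] at e
      exact e
    · have e : x * y * (x * y * (x * y)) = 1 := by
        rw [← h, pow_succ, pow_two]
        simp only [mul_assoc]
      calc y * (x * y) = x⁻¹ * (x * y * (x * y * (x * y))) * (y⁻¹ * x⁻¹) := by group
        _ = x⁻¹ * (y⁻¹ * x⁻¹) := by rw [e, mul_one]
        _ = x * (y * x) := by rw [inv x hx, inv y hy]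
  have hrel : Rel a b c := ⟨h1, h2, h3, hac'.eq.symm, braid a ha b hb hab, braid b hb c hc hbc⟩
  refine ⟨phi a b c hrel, ?_, ?_, ?_, ?_⟩
  · rw [injective_iff_map_eq_one]
    intro σ hσ
    by_contra hne
    obtain ⟨g, h, hgh⟩ := normal_closure σ hne
    have hac1 : (phi a b c hrel) (Equiv.swap 0 1 * Equiv.swap 2 3) = a * c := by
      rw [map_mul]
      show gprod a b c (word (Equiv.swap 0 1)) * gprod a b c (word (Equiv.swap 2 3)) = a * c
      rw [word_s0, word_s2]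
      simp [gprod, ggen]
    have h1' : (phi a b c hrel) (Equiv.swap 0 1 * Equiv.swap 2 3) = 1 := by
      rcases hgh with e | e
      · rw [← e]
        simp [map_mul, map_inv, hσ]
      · rw [← e]
        simp [map_mul, map_inv, hσ]
    rw [hac1] at h1'
    exact hac ((eq_inv_of_mul_eq_one_left h1').trans (inv c hc))
  · show gprod a b c (word (Equiv.swap 0 1)) = a
    rw [word_s0]
    simp [gprod, ggen]
  · show gprod a b c (word (Equiv.swap 1 2)) = b
    rw [word_s1]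
    simp [gprod, ggen]
  · show gprod a b c (word (Equiv.swap 2 3)) = c
    rw [word_s2]
    simp [gprod, ggen]

end Cfsg.Agent.S5344
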