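import Cfsg.Statements.S5345
import Mathlib

set_option autoImplicit false
open Cfsg

namespace Cfsg.Agent.S5345

theorem invol_sq {G : Type*} [Group G] {x : G} (h : orderOf x = 2) : x * x = 1 := by
  rw [← pow_two, ← h, pow_orderOf_eq_one]

theorem result {G : Type*} [Group G] [Finite G] {D : Set G} (hD : Cfsg.IsThreeTranspositionGroup D) (T : Sylow 2 G) : IsMulCommutative (Subgroup.closure {d : G | d ∈ D ∧ d ∈ T}) ∧ {d : G | d ∈ D ∧ d ∈ T}.ncard = Cfsg.commutingWidth D := by
  obtain ⟨⟨hord, hprod⟩, hconj, -⟩ := hD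
  have : Fact (Nat.Prime 2) := ⟨Nat.prime_two⟩
  have hsq : ∀ x ∈ D, x * x = 1 := fun x hx => invol_sq (hord x hx)
  have hinv : ∀ x ∈ D, x⁻¹ = x := fun x hx => inv_eq_of_mul_eq_one_right (hsq x hx)
  -- members of D in T commute
  have hcomm : ∀ a ∈ {d : G | d ∈ D ∧ d ∈ T}, ∀ b ∈ {d : G | d ∈ D ∧ d ∈ T}, a * b = b * a := by
    rintro a ⟨haD, haT⟩ b ⟨hbD, hbT⟩
    have habT : a * b ∈ (T : Subgroup G) := (T : Subgroup G).mul_mem haT hbT
    obtain ⟨k, hk⟩ := T.2 ⟨a * b, habT⟩
    have hk' : (a * b) ^ 2 ^ k = 1 := by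
      have := congrArg Subtype.val hk
      simpa using this
    rcases hprod a haD b hbD with h | h
    · have h1 : a * b * (a * b) = 1 := by rw [← pow_two]; exact h
      have h2 : a * b = (a * b)⁻¹ := eq_inv_of_mul_eq_one_left h1
      rw [h2, mul_inv_rev, hinv a haD, hinv b hbD]
    · have h1 : orderOf (a * b) ∣ 3 := orderOf_dvd_of_pow_eq_one h
      have h2 : orderOf (a * b) ∣ 2 ^ k := orderOf_dvd_of_pow_eq_one hk'
      have hcop : Nat.Coprime 3 (2 ^ k) := Nat.Coprime.pow_right _ (by norm_num)
      have h3 : a * b = 1 := orderOf_eq_one_iff.mp (Nat.eq_one_of_dvd_coprimes hcop h1 h2)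
      have h4 : a = b⁻¹ := eq_inv_of_mul_eq_one_left h3
      rw [h4, hinv b hbD]
  refine ⟨?_, ?_⟩
  · exact Subgroup.isMulCommutative_closure hcomm
  · symm
    apply IsGreatest.csSup_eq
    refine ⟨?_, ?_⟩
    · refine ⟨{d : G | d ∈ D ∧ d ∈ T}, fun x hx => hx.1, Set.toFinite _, ?_, rfl⟩
      intro a ha b hb
      exact hcomm a ha b hb
    · rintro n ⟨E, hED, hEfin, hEcomm, rfl⟩
      -- closure E is a 2-group
      have hE2 : IsPGroup 2 (Subgroup.closure E) := by
        have hxx : ∀ x ∈ Subgroup.closure E, x * x = 1 := by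
          intro x hx
          induction hx using Subgroup.closure_induction with
          | mem x hx => exact hsq x (hED hx)
          | one => simp
          | mul x y hx hy ihx ihy =>
            have hc : x * y = y * x :=
              congrArg Subtype.val ((isMulCommutative_iff.mp (Subgroup.isMulCommutative_closure (fun a ha b hb => hEcomm a ha b hb))) ⟨x, hx⟩ ⟨y, hy⟩)
            calc x * y * (x * y) = x * y * (y * x) := by rw [hc]
              _ = x * (y * y) * x := by group
              _ = 1 := by rw [ihy, mul_one, ihx]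
          | inv x hx ih =>
            have : x⁻¹ = x := inv_eq_of_mul_eq_one_right ih
            rw [this, ih]
        intro x
        refine ⟨1, ?_⟩
        apply Subtype.ext
        simp only [pow_one, Subgroup.coe_pow, Subgroup.coe_one]
        rw [pow_two]
        exact hxx x.1 x.2
      obtain ⟨P, hP⟩ := hE2.exists_le_sylow
      obtain ⟨g, hg⟩ := MulAction.exists_smul_eq G T P
      have hmem : ∀ e ∈ E, g⁻¹ * e * g ∈ (T : Subgroup G) := by
        intro e he
        have h1 : e ∈ (P : Subgroup G) := hP (Subgroup.subset_closure he)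
        rw [← hg, Sylow.coe_subgroup_smul, Subgroup.mem_pointwise_smul_iff_inv_smul_mem] at h1
        simpa [MulAut.smul_def, MulAut.conj_apply] using h1
      apply Set.ncard_le_ncard_of_injOn (fun e => g⁻¹ * e * g)
      · intro e he
        refine ⟨?_, hmem e he⟩
        have := hconj g⁻¹ e (hED he)
        simpa using this
      · intro a _ b _ hab
        simpa using hab

end Cfsg.Agent.S5345
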