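import Cfsg.Statements.S5347

set_option autoImplicit false
open Cfsg

namespace Cfsg.Agent.S5347

theorem result {G : Type*} [Group G] [Finite G] {D : Set G} (hD : Cfsg.IsThreeTranspositionGroup D) {p : ℕ} (hp : p.Prime) (hp3 : 3 < p) (P : Subgroup G) (hP : IsPGroup p P) {d : G} (hd : d ∈ D) (hnorm : d ∈ Subgroup.normalizer (P : Set G)) : ∀ x ∈ P, Commute d x := by
  intro x hx
  obtain ⟨⟨hord, hprod⟩, hconj, -⟩ := hD
  have hd2 : d * d = 1 := by
    have := hord d hd
    rw [← pow_two, ← this, pow_orderOf_eq_one]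
  have hdinv : d⁻¹ = d := inv_eq_of_mul_eq_one_right hd2
  have he : x * d * x⁻¹ ∈ D := hconj x d hd
  have hmem : d * (x * d * x⁻¹) ∈ P := by
    have h1 : d * x * d⁻¹ ∈ P := (Subgroup.mem_normalizer_iff.mp hnorm x).mp hx
    have h2 : d * (x * d * x⁻¹) = (d * x * d⁻¹) * x⁻¹ := by
      rw [hdinv]; group
    rw [h2]
    exact P.mul_mem h1 (P.inv_mem hx)
  obtain ⟨k, hk⟩ := hP ⟨d * (x * d * x⁻¹), hmem⟩
  have hk' : (d * (x * d * x⁻¹)) ^ p ^ k = 1 := by
    have := congrArg Subtype.val hk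
    simpa using this
  have hdvd : orderOf (d * (x * d * x⁻¹)) ∣ p ^ k := orderOf_dvd_of_pow_eq_one hk'
  have hone : d * (x * d * x⁻¹) = 1 := by
    have hcop2 : Nat.Coprime (p ^ k) 2 := by
      apply Nat.Coprime.pow_left
      rw [Nat.coprime_primes hp Nat.prime_two]; omega
    have hcop3 : Nat.Coprime (p ^ k) 3 := by
      apply Nat.Coprime.pow_left
      rw [Nat.coprime_primes hp Nat.prime_three]; omega
    rw [← orderOf_eq_one_iff]
    rcases hprod d hd _ he with h | h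
    · exact Nat.eq_one_of_dvd_coprimes hcop2 hdvd (orderOf_dvd_of_pow_eq_one h)
    · exact Nat.eq_one_of_dvd_coprimes hcop3 hdvd (orderOf_dvd_of_pow_eq_one h)
  show d * x = x * d
  have h3 : x * d * x⁻¹ = d := by
    have : x * d * x⁻¹ = d⁻¹ := eq_inv_of_mul_eq_one_right hone
    rw [this, hdinv]
  calc d * x = (x * d * x⁻¹) * x := by rw [h3]
    _ = x * d := by group

end Cfsg.Agent.S5347
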