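import Cfsg.Statements.S5348

set_option autoImplicit false
open Cfsg

namespace Cfsg.Agent.S5348

theorem result {G : Type*} [Group G] [Finite G] {D : Set G} (hD : Cfsg.IsThreeTranspositionGroup D) {d : G} (hd : d ∈ D) : {v : G | v ∈ D ∧ ∀ e ∈ D, Commute v e ↔ Commute d e} = {d} ∨ {w : G | w ∈ D ∧ {y : G | y ∈ D ∧ y ≠ d ∧ Commute d y} = {y : G | y ∈ D ∧ y ≠ w ∧ Commute w y}} = {d} := by
  by_contra hcon
  rw [not_or] at hcon
  obtain ⟨hV, hW⟩ := hcon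
  have hdV : d ∈ {v : G | v ∈ D ∧ ∀ e ∈ D, Commute v e ↔ Commute d e} := ⟨hd, fun e _ => Iff.rfl⟩
  have hdW : d ∈ {w : G | w ∈ D ∧ {y : G | y ∈ D ∧ y ≠ d ∧ Commute d y} = {y : G | y ∈ D ∧ y ≠ w ∧ Commute w y}} := ⟨hd, rfl⟩
  have exV : ∃ v, v ∈ {v : G | v ∈ D ∧ ∀ e ∈ D, Commute v e ↔ Commute d e} ∧ v ≠ d := by
    by_contra h
    push Not at h
    apply hV
    ext v
    constructor
    · intro hv; exact h v hv
    · intro hv; rw [Set.mem_singleton_iff.mp hv]; exact hdV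
  have exW : ∃ w, w ∈ {w : G | w ∈ D ∧ {y : G | y ∈ D ∧ y ≠ d ∧ Commute d y} = {y : G | y ∈ D ∧ y ≠ w ∧ Commute w y}} ∧ w ≠ d := by
    by_contra h
    push Not at h
    apply hW
    ext w
    constructor
    · intro hw; exact h w hw
    · intro hw; rw [Set.mem_singleton_iff.mp hw]; exact hdW
  obtain ⟨v, ⟨hvD, hv⟩, hvd⟩ := exV
  obtain ⟨w, ⟨hwD, hw⟩, hwd⟩ := exW
  have hvd_comm : Commute v d := (hv d hd).mpr (Commute.refl d)
  have hw_not : ¬ Commute d w := by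
    intro hc
    have : w ∈ {y : G | y ∈ D ∧ y ≠ d ∧ Commute d y} := ⟨hwD, hwd, hc⟩
    rw [hw] at this
    exact this.2.1 rfl
  have hv_mem : v ∈ {y : G | y ∈ D ∧ y ≠ d ∧ Commute d y} := ⟨hvD, hvd, hvd_comm.symm⟩
  rw [hw] at hv_mem
  have hwv : Commute v w := hv_mem.2.2.symm
  exact hw_not ((hv w hwD).mp hwv)

end Cfsg.Agent.S5348
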