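import Cfsg.Statements.S5349
import Mathlib
import Cfsg.Agent.Lib.Lead.Cores

set_option autoImplicit false
open Cfsg

namespace Cfsg.Agent.S5349

open Cfsg.Agent.Lib.Lead.Cores

variable {G : Type*} [Group G]

/-- the relation "commute with the same members of `D`" -/
def Rel (D : Set G) (a b : G) : Prop := ∀ e ∈ D, Commute a e ↔ Commute b e

theorem rel_refl (D : Set G) (a : G) : Rel D a a := fun _ _ => Iff.rfl

theorem rel_symm {D : Set G} {a b : G} (h : Rel D a b) : Rel D b a :=
  fun e he => (h e he).symm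

theorem rel_trans {D : Set G} {a b c : G} (h : Rel D a b) (h' : Rel D b c) : Rel D a c :=
  fun e he => (h e he).trans (h' e he)

theorem rel_conj {D : Set G} (hc : ∀ g : G, ∀ x ∈ D, g * x * g⁻¹ ∈ D) {a b : G}
    (h : Rel D a b) (g : G) : Rel D (g * a * g⁻¹) (g * b * g⁻¹) := by
  intro e he
  have he' : g⁻¹ * e * g⁻¹⁻¹ ∈ D := hc g⁻¹ e he
  have key : ∀ x : G, Commute (g * x * g⁻¹) e ↔ Commute x (g⁻¹ * e * g⁻¹⁻¹) := by
    intro x
    constructor
    · intro hx
      have : (g * x * g⁻¹) * e = e * (g * x * g⁻¹) := hx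
      show x * (g⁻¹ * e * g⁻¹⁻¹) = (g⁻¹ * e * g⁻¹⁻¹) * x
      calc x * (g⁻¹ * e * g⁻¹⁻¹) = g⁻¹ * ((g * x * g⁻¹) * e) * g := by group
        _ = g⁻¹ * (e * (g * x * g⁻¹)) * g := by rw [this]
        _ = (g⁻¹ * e * g⁻¹⁻¹) * x := by group
    · intro hx
      have : x * (g⁻¹ * e * g⁻¹⁻¹) = (g⁻¹ * e * g⁻¹⁻¹) * x := hx
      show (g * x * g⁻¹) * e = e * (g * x * g⁻¹)
      calc (g * x * g⁻¹) * e = g * (x * (g⁻¹ * e * g⁻¹⁻¹)) * g⁻¹ := by group
        _ = g * ((g⁻¹ * e * g⁻¹⁻¹) * x) * g⁻¹ := by rw [this]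
        _ = e * (g * x * g⁻¹) := by group
  rw [key a, key b]
  exact h _ he'

theorem braid {a b : G} (ha : a * a = 1) (hb : b * b = 1) (h : (a * b) ^ 3 = 1) :
    a * b * a = b * a * b := by
  have h1 : a * b * a * (b * a * b) = 1 := by
    have : (a * b) ^ 3 = a * b * a * (b * a * b) := by
      simp only [pow_succ, pow_zero, one_mul, mul_assoc]
    rw [← this, h]
  have h2 : (b * a * b) * (b * a * b) = 1 := by
    calc (b * a * b) * (b * a * b) = b * a * (b * b) * a * b := by simp only [mul_assoc]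
      _ = b * (a * a) * b := by rw [hb]; simp only [mul_one, mul_assoc]
      _ = 1 := by rw [ha, mul_one, hb]
  calc a * b * a = a * b * a * ((b * a * b) * (b * a * b)) := by rw [h2, mul_one]
    _ = (a * b * a * (b * a * b)) * (b * a * b) := by simp only [mul_assoc]
    _ = b * a * b := by rw [h1, one_mul]

theorem stab_gen {D : Set G} (hinv : ∀ a ∈ D, a * a = 1)
    (h3 : ∀ a ∈ D, ∀ b ∈ D, Commute a b ∨ (a * b) ^ 3 = 1)
    (hc : ∀ g : G, ∀ x ∈ D, g * x * g⁻¹ ∈ D) {a b : G} (ha : a ∈ D) (hb : b ∈ D)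
    (hab : Rel D a b) {x : G} (hx : x ∈ D) :
    Rel D ((a⁻¹ * b) * x * (a⁻¹ * b)⁻¹) x := by
  have ha2 := hinv a ha
  have hb2 := hinv b hb
  have hx2 := hinv x hx
  have hai : a⁻¹ = a := inv_eq_of_mul_eq_one_right ha2
  have hbi : b⁻¹ = b := inv_eq_of_mul_eq_one_right hb2
  have hxi : x⁻¹ = x := inv_eq_of_mul_eq_one_right hx2
  by_cases hax : Commute a x
  · have hbx : Commute b x := (hab x hx).1 hax
    have : (a⁻¹ * b) * x * (a⁻¹ * b)⁻¹ = x := by
      have h1 : a * x = x * a := hax
      have h2 : b * x = x * b := hbx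
      rw [mul_inv_rev, inv_inv, hai, hbi]
      calc a * b * x * (b * a) = a * (b * x) * b * a := by simp only [mul_assoc]
        _ = a * (x * b) * b * a := by rw [h2]
        _ = (a * x) * (b * b) * a := by simp only [mul_assoc]
        _ = x * a * a := by rw [hb2, mul_one, h1]
        _ = x := by rw [mul_assoc, ha2, mul_one]
    rw [this]
    exact rel_refl D x
  · have hbx : ¬ Commute b x := fun h => hax ((hab x hx).2 h)
    have hax3 : (a * x) ^ 3 = 1 := (h3 a ha x hx).resolve_left hax
    have hbx3 : (b * x) ^ 3 = 1 := (h3 b hb x hx).resolve_left hbx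
    have e1 : a * x * a = x * a * x := braid ha2 hx2 hax3
    have e2 : b * x * b = x * b * x := braid hb2 hx2 hbx3
    have r1 : Rel D (x * a * x⁻¹) (x * b * x⁻¹) := rel_conj hc hab x
    rw [hxi, ← e1, ← e2] at r1
    have r2 := rel_conj hc r1 a
    have e3 : a * (a * x * a) * a⁻¹ = x := by
      rw [hai]
      calc a * (a * x * a) * a = (a * a) * x * (a * a) := by simp only [mul_assoc]
        _ = x := by rw [ha2, one_mul, mul_one]
    have e4 : a * (b * x * b) * a⁻¹ = (a⁻¹ * b) * x * (a⁻¹ * b)⁻¹ := by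
      rw [mul_inv_rev, inv_inv, hai, hbi]
      simp only [mul_assoc]
    rw [e3, e4] at r2
    exact rel_symm r2

/-- the subgroup of elements preserving every class -/
def stab (D : Set G) (hc : ∀ g : G, ∀ x ∈ D, g * x * g⁻¹ ∈ D) : Subgroup G where
  carrier := {g | ∀ x ∈ D, Rel D (g * x * g⁻¹) x}
  one_mem' := by
    intro x hx
    have : (1 : G) * x * 1⁻¹ = x := by group
    rw [this]
    exact rel_refl D x
  mul_mem' := by
    intro g h hg hh x hx
    have : g * h * x * (g * h)⁻¹ = g * (h * x * h⁻¹) * g⁻¹ := by group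
    rw [this]
    exact rel_trans (hg _ (hc h x hx)) (hh x hx)
  inv_mem' := by
    intro g hg x hx
    have h1 := hg _ (hc g⁻¹ x hx)
    have : g * (g⁻¹ * x * g⁻¹⁻¹) * g⁻¹ = x := by group
    rw [this] at h1
    exact rel_symm h1

theorem conj_closure {X : Set G} {g : G} (h : ∀ s ∈ X, g * s * g⁻¹ ∈ Subgroup.closure X) :
    ∀ y ∈ Subgroup.closure X, g * y * g⁻¹ ∈ Subgroup.closure X := by
  intro y hy
  induction hy using Subgroup.closure_induction with
  | mem x hx => exact h x hx
  | one => simp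
  | mul x y _ _ hx hy =>
    have : g * (x * y) * g⁻¹ = (g * x * g⁻¹) * (g * y * g⁻¹) := by group
    rw [this]
    exact mul_mem hx hy
  | inv x _ hx =>
    have : g * x⁻¹ * g⁻¹ = (g * x * g⁻¹)⁻¹ := by group
    rw [this]
    exact inv_mem hx

theorem sq_one_of_gens {X : Set G} (h1 : ∀ x ∈ X, x * x = 1)
    (h2 : ∀ x ∈ X, ∀ y ∈ X, x * y = y * x) : ∀ g ∈ Subgroup.closure X, g * g = 1 := by
  have hXc : X ⊆ Subgroup.centralizer X := by
    intro x hx
    rw [SetLike.mem_coe, Subgroup.mem_centralizer_iff]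
    intro y hy
    exact h2 y hy x hx
  have hle : Subgroup.closure X ≤ Subgroup.centralizer X := (Subgroup.closure_le _).2 hXc
  have hle2 : Subgroup.closure X ≤ Subgroup.centralizer (Subgroup.closure X : Set G) := by
    refine (Subgroup.closure_le _).2 ?_
    intro x hx
    rw [SetLike.mem_coe, Subgroup.mem_centralizer_iff]
    intro y hy
    have := hle hy
    rw [Subgroup.mem_centralizer_iff] at this
    exact (this x hx).symm
  intro g hg
  induction hg using Subgroup.closure_induction with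
  | mem x hx => exact h1 x hx
  | one => simp
  | mul x y hx hy hx1 hy1 =>
    have hxy : y * x = x * y := by
      have := hle2 hx
      rw [Subgroup.mem_centralizer_iff] at this
      exact this y hy
    calc x * y * (x * y) = x * (y * x) * y := by simp only [mul_assoc]
      _ = (x * x) * (y * y) := by rw [hxy]; simp only [mul_assoc]
      _ = 1 := by rw [hx1, hy1, one_mul]
  | inv x _ hx1 =>
    have : x⁻¹ = x := inv_eq_of_mul_eq_one_right hx1
    rw [this, hx1]

/-- the even part of a class -/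
def evenPart (D : Set G) (c : G) : Subgroup G :=
  Subgroup.closure {t | ∃ a ∈ D, ∃ b ∈ D, Rel D a c ∧ Rel D b c ∧ t = a⁻¹ * b}

theorem evenPart_isPGroup {D : Set G} (hinv : ∀ a ∈ D, a * a = 1) (c : G) :
    IsPGroup 2 (evenPart D c) := by
  have hK : ∀ g ∈ Subgroup.closure {a | a ∈ D ∧ Rel D a c}, g * g = 1 := by
    apply sq_one_of_gens
    · rintro x ⟨hx, -⟩
      exact hinv x hx
    · rintro x ⟨hx, hxc⟩ y ⟨hy, hyc⟩
      have : Rel D x y := rel_trans hxc (rel_symm hyc)
      exact (this y hy).2 (Commute.refl y)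
  have hle : evenPart D c ≤ Subgroup.closure {a | a ∈ D ∧ Rel D a c} := by
    refine (Subgroup.closure_le _).2 ?_
    rintro t ⟨a, ha, b, hb, hac, hbc, rfl⟩
    exact mul_mem (inv_mem (Subgroup.subset_closure ⟨ha, hac⟩)) (Subgroup.subset_closure ⟨hb, hbc⟩)
  intro g
  refine ⟨1, ?_⟩
  apply Subtype.ext
  have := hK g.1 (hle g.2)
  simp only [pow_one, Subgroup.coe_pow, Subgroup.coe_one]
  rw [pow_two]
  exact this

theorem evenPart_le_stab {D : Set G} (hinv : ∀ a ∈ D, a * a = 1)
    (h3 : ∀ a ∈ D, ∀ b ∈ D, Commute a b ∨ (a * b) ^ 3 = 1)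
    (hc : ∀ g : G, ∀ x ∈ D, g * x * g⁻¹ ∈ D) (c : G) : evenPart D c ≤ stab D hc := by
  refine (Subgroup.closure_le _).2 ?_
  rintro t ⟨a, ha, b, hb, hac, hbc, rfl⟩
  intro x hx
  exact stab_gen hinv h3 hc ha hb (rel_trans hac (rel_symm hbc)) hx

theorem stab_conj_evenPart {D : Set G} (hc : ∀ g : G, ∀ x ∈ D, g * x * g⁻¹ ∈ D) (c : G)
    {g : G} (hg : g ∈ stab D hc) : ∀ y ∈ evenPart D c, g * y * g⁻¹ ∈ evenPart D c := by
  apply conj_closure
  rintro t ⟨a, ha, b, hb, hac, hbc, rfl⟩
  apply Subgroup.subset_closure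
  refine ⟨g * a * g⁻¹, hc g a ha, g * b * g⁻¹, hc g b hb, rel_trans (hg a ha) hac,
    rel_trans (hg b hb) hbc, ?_⟩
  group

/-- products of related pairs lie in the 2-core -/
theorem core_of_rel [Finite G] {D : Set G} (hinv : ∀ a ∈ D, a * a = 1)
    (h3 : ∀ a ∈ D, ∀ b ∈ D, Commute a b ∨ (a * b) ^ 3 = 1)
    (hc : ∀ g : G, ∀ x ∈ D, g * x * g⁻¹ ∈ D) {a b : G} (ha : a ∈ D) (hb : b ∈ D)
    (hab : Rel D a b) : a⁻¹ * b ∈ Cfsg.pCore 2 G := by
  classical
  set St := stab D hc with hSt
  -- each even part lies in the image of the 2-core of the stabiliser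
  have hQ : ∀ c : G, evenPart D c ≤ (Cfsg.pCore 2 ↥St).map St.subtype := by
    intro c
    have hle : evenPart D c ≤ St := evenPart_le_stab hinv h3 hc c
    have hn : ((evenPart D c).subgroupOf St).Normal := by
      rw [Subgroup.normal_subgroupOf_iff hle]
      intro h k hh hk
      exact stab_conj_evenPart hc c hk h hh
    have hp : IsPGroup 2 ((evenPart D c).subgroupOf St) :=
      (evenPart_isPGroup hinv c).comap_subtype
    have h1 : (evenPart D c).subgroupOf St ≤ Cfsg.pCore 2 ↥St := le_pCore hn hp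
    intro y hy
    exact ⟨⟨y, hle hy⟩, h1 (by rw [Subgroup.mem_subgroupOf]; exact hy), rfl⟩
  have hQp : IsPGroup 2 ((Cfsg.pCore 2 ↥St).map St.subtype) :=
    (pCore_isPGroup 2).map _
  -- the normal subgroup generated by all such products
  set T : Set G := {t | ∃ a ∈ D, ∃ b ∈ D, Rel D a b ∧ t = a⁻¹ * b} with hT
  have hNle : Subgroup.closure T ≤ (Cfsg.pCore 2 ↥St).map St.subtype := by
    refine (Subgroup.closure_le _).2 ?_
    rintro t ⟨a, ha, b, hb, hab, rfl⟩
    exact hQ a (Subgroup.subset_closure ⟨a, ha, b, hb, rel_refl D a, rel_symm hab, rfl⟩)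
  have hNp : IsPGroup 2 (Subgroup.closure T) := hQp.to_le hNle
  have hNn : (Subgroup.closure T).Normal := by
    constructor
    intro n hn g
    refine conj_closure ?_ n hn
    rintro t ⟨a, ha, b, hb, hab, rfl⟩
    apply Subgroup.subset_closure
    refine ⟨g * a * g⁻¹, hc g a ha, g * b * g⁻¹, hc g b hb, rel_conj hc hab g, ?_⟩
    group
  exact le_pCore hNn hNp (Subgroup.subset_closure ⟨a, ha, b, hb, hab, rfl⟩)

theorem comm_of_core {D : Set G} (hinv : ∀ a ∈ D, a * a = 1)
    (h3 : ∀ a ∈ D, ∀ b ∈ D, Commute a b ∨ (a * b) ^ 3 = 1)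
    {O : Subgroup G} [O.Normal] (hO : IsPGroup 2 O) {a b e : G} (ha : a ∈ D) (hb : b ∈ D)
    (he : e ∈ D) (hab : a⁻¹ * b ∈ O) (hae : Commute a e) : Commute b e := by
  rcases h3 b hb e he with h | h
  · exact h
  · have ha2 := hinv a ha
    have he2 := hinv e he
    have hπ : ((b : G) : G ⧸ O) = ((a : G) : G ⧸ O) := by
      rw [QuotientGroup.eq]
      have := O.inv_mem hab
      rwa [mul_inv_rev, inv_inv] at this
    have hq : (b * e) * (b * e) ∈ O := by
      rw [← QuotientGroup.eq_one_iff]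
      have h1 : (a * e) * (a * e) = 1 := by
        have h0 : a * e = e * a := hae
        calc (a * e) * (a * e) = (a * e) * (e * a) := by rw [← h0]
          _ = a * (e * e) * a := by simp only [mul_assoc]
          _ = 1 := by rw [he2, mul_one, ha2]
      have h2 : (((b * e) * (b * e) : G) : G ⧸ O) = (((a * e) * (a * e) : G) : G ⧸ O) := by
        simp only [QuotientGroup.mk_mul, hπ]
      rw [h2, h1]
      rfl
    have hbe : b * e ∈ O := by
      have h4 : b * e = ((b * e) * (b * e))⁻¹ := by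
        rw [eq_inv_iff_mul_eq_one]
        have : (b * e) ^ 3 = (b * e) * ((b * e) * (b * e)) := by
          simp only [pow_succ, pow_zero, one_mul, mul_assoc]
        rw [← this, h]
      rw [h4]
      exact O.inv_mem hq
    obtain ⟨k, hk⟩ := hO ⟨b * e, hbe⟩
    have hk' : (b * e) ^ 2 ^ k = 1 := by
      have := congrArg Subtype.val hk
      simpa using this
    have h5 : orderOf (b * e) ∣ Nat.gcd (2 ^ k) 3 :=
      Nat.dvd_gcd (orderOf_dvd_of_pow_eq_one hk') (orderOf_dvd_of_pow_eq_one h)
    have h6 : Nat.gcd (2 ^ k) 3 = 1 := by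
      have : Nat.Coprime (2 ^ k) 3 := Nat.Coprime.pow_left k (by norm_num)
      exact this
    rw [h6, Nat.dvd_one, orderOf_eq_one_iff] at h5
    have h7 : e = b⁻¹ := by
      rw [eq_comm, inv_eq_iff_mul_eq_one]
      exact h5
    rw [h7]
    exact (Commute.refl b).inv_right

/-- Let D be a conjugacy class of 3-transpositions generating the finite group G, with at least two members, and d a member of D. Then the set of members of D commuting with exactly the same members of D as d coincides with the set of members of D lying in the coset of d modulo the largest normal 2-subgroup of G, and also with the orbit of d under conjugation by that normal 2-subgroup. -/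
theorem result {G : Type*} [Group G] [Finite G] {D : Set G} (hD : Cfsg.IsThreeTranspositionClass D) (hD2 : ∃ a ∈ D, ∃ b ∈ D, a ≠ b) {d : G} (hd : d ∈ D) : {v : G | v ∈ D ∧ ∀ e ∈ D, Commute v e ↔ Commute d e} = {v : G | v ∈ D ∧ d⁻¹ * v ∈ Cfsg.pCore 2 G} ∧ {v : G | v ∈ D ∧ ∀ e ∈ D, Commute v e ↔ Commute d e} = {v : G | ∃ g ∈ Cfsg.pCore 2 G, v = g * d * g⁻¹} := by
  obtain ⟨hset, ⟨d0, hd0, hcls⟩, hgen⟩ := hD
  have hinv : ∀ a ∈ D, a * a = 1 := by
    intro a ha
    have := pow_orderOf_eq_one a
    rw [hset.1 a ha, pow_two] at this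
    exact this
  have h3 : ∀ a ∈ D, ∀ b ∈ D, Commute a b ∨ (a * b) ^ 3 = 1 := by
    intro a ha b hb
    rcases hset.2 a ha b hb with h | h
    · left
      have hai : a⁻¹ = a := inv_eq_of_mul_eq_one_right (hinv a ha)
      have hbi : b⁻¹ = b := inv_eq_of_mul_eq_one_right (hinv b hb)
      rw [pow_two] at h
      have : a * b = (a * b)⁻¹ := by
        rw [eq_inv_iff_mul_eq_one]
        exact h
      rw [mul_inv_rev, hai, hbi] at this
      exact this
    · right
      exact h
  have hc : ∀ g : G, ∀ x ∈ D, g * x * g⁻¹ ∈ D := by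
    intro g x hx
    rw [hcls] at hx ⊢
    have hx' : IsConj d0 x := hx
    obtain ⟨c, hcx⟩ := isConj_iff.1 hx'
    show IsConj d0 (g * x * g⁻¹)
    rw [isConj_iff]
    refine ⟨g * c, ?_⟩
    rw [← hcx]
    group
  have hOn : (Cfsg.pCore 2 G).Normal := pCore_normal 2
  have hOp : IsPGroup 2 (Cfsg.pCore 2 G) := pCore_isPGroup 2
  have hA : {v : G | v ∈ D ∧ ∀ e ∈ D, Commute v e ↔ Commute d e} =
      {v : G | v ∈ D ∧ d⁻¹ * v ∈ Cfsg.pCore 2 G} := by
    ext v
    constructor
    · rintro ⟨hv, hR⟩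
      exact ⟨hv, core_of_rel hinv h3 hc hd hv (rel_symm hR)⟩
    · rintro ⟨hv, ht⟩
      have ht' : v⁻¹ * d ∈ Cfsg.pCore 2 G := by
        have := (Cfsg.pCore 2 G).inv_mem ht
        rwa [mul_inv_rev, inv_inv] at this
      exact ⟨hv, fun e he => ⟨fun h => comm_of_core hinv h3 hOp hv hd he ht' h,
        fun h => comm_of_core hinv h3 hOp hd hv he ht h⟩⟩
  refine ⟨hA, ?_⟩
  ext v
  constructor
  · rintro ⟨hv, hR⟩
    by_cases hvd : v = d
    · exact ⟨1, one_mem _, by simp [hvd]⟩
    · -- some member of D does not commute with d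
      have hex : ∃ e ∈ D, ¬ Commute d e := by
        by_contra hne
        push Not at hne
        have hcen : d ∈ Subgroup.center G := by
          have : (⊤ : Subgroup G) ≤ Subgroup.centralizer {d} := by
            rw [← hgen, Subgroup.closure_le]
            intro x hx
            rw [SetLike.mem_coe, Subgroup.mem_centralizer_iff]
            intro y hy
            rw [Set.mem_singleton_iff] at hy
            rw [hy]
            exact hne x hx
          rw [Subgroup.mem_center_iff]
          intro g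
          have hg := this (Subgroup.mem_top g)
          rw [Subgroup.mem_centralizer_iff] at hg
          exact (hg d rfl).symm
        have hall : ∀ x ∈ D, x = d := by
          intro x hx
          have h1 : IsConj d0 x := by rw [hcls] at hx; exact hx
          have h2 : IsConj d0 d := by
            have := hd
            rw [hcls] at this
            exact this
          obtain ⟨c, hcx⟩ := isConj_iff.1 (h2.symm.trans h1)
          rw [← hcx]
          rw [Subgroup.mem_center_iff] at hcen
          rw [hcen c, mul_assoc, mul_inv_cancel, mul_one]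
        obtain ⟨a, ha, b, hb, hab⟩ := hD2
        exact hab ((hall a ha).trans (hall b hb).symm)
      obtain ⟨e, he, hde⟩ := hex
      have hve : ¬ Commute v e := fun h => hde ((hR e he).1 h)
      have hd2 := hinv d hd
      have hv2 := hinv v hv
      have he2 := hinv e he
      have hdi : d⁻¹ = d := inv_eq_of_mul_eq_one_right hd2
      have hvi : v⁻¹ = v := inv_eq_of_mul_eq_one_right hv2
      have hei : e⁻¹ = e := inv_eq_of_mul_eq_one_right he2
      have hdv : v * d = d * v := (hR d hd).2 (Commute.refl d)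
      have b1 : e * d * e = d * e * d :=
        braid he2 hd2 ((h3 e he d hd).resolve_left (fun h => hde h.symm))
      have b2 : v * e * v = e * v * e :=
        braid hv2 he2 ((h3 v hv e he).resolve_left hve)
      have hcore : d⁻¹ * v ∈ Cfsg.pCore 2 G := core_of_rel hinv h3 hc hd hv (rel_symm hR)
      refine ⟨e * (d⁻¹ * v) * e⁻¹, hOn.conj_mem _ hcore e, ?_⟩
      rw [hdi, hei]
      have hinv' : (e * (d * v) * e)⁻¹ = e * (v * d) * e := by
        rw [mul_inv_rev, mul_inv_rev, mul_inv_rev, hei, hdi, hvi]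
        simp only [mul_assoc]
      rw [hinv']
      symm
      calc e * (d * v) * e * d * (e * (v * d) * e)
          = e * d * v * (e * d * e) * v * d * e := by simp only [mul_assoc]
        _ = e * d * v * (d * e * d) * v * d * e := by rw [b1]
        _ = e * (d * v) * d * e * (d * v) * d * e := by simp only [mul_assoc]
        _ = e * (v * d) * d * e * (v * d) * d * e := by rw [hdv]
        _ = e * v * (d * d) * e * v * (d * d) * e := by simp only [mul_assoc]
        _ = e * (v * e * v) * e := by rw [hd2]; simp only [mul_one, mul_assoc]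
        _ = e * (e * v * e) * e := by rw [b2]
        _ = (e * e) * v * (e * e) := by simp only [mul_assoc]
        _ = v := by rw [he2, one_mul, mul_one]
  · rintro ⟨g, hg, rfl⟩
    have : g * d * g⁻¹ ∈ {v : G | v ∈ D ∧ d⁻¹ * v ∈ Cfsg.pCore 2 G} := by
      refine ⟨hc g d hd, ?_⟩
      have h1 : d⁻¹ * g * d⁻¹⁻¹ ∈ Cfsg.pCore 2 G := hOn.conj_mem g hg d⁻¹
      have h2 : d⁻¹ * (g * d * g⁻¹) = (d⁻¹ * g * d⁻¹⁻¹) * g⁻¹ := by group
      rw [h2]
      exact mul_mem h1 (inv_mem hg)
    rw [← hA] at this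
    exact this

end Cfsg.Agent.S5349
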