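import Cfsg.Statements.S5358
import Mathlib

set_option autoImplicit false
open scoped MatrixGroups
open Cfsg

namespace Cfsg.Agent.S5358

theorem polarVec_dot {n : ℕ} (Q : QuadraticForm (ZMod 3) (Fin n → ZMod 3)) (u x : Fin n → ZMod 3) :
    Cfsg.polarVec (⇑Q) u ⬝ᵥ x = QuadraticMap.polar (⇑Q) u x := by
  have h := LinearMap.pi_apply_eq_sum_univ (QuadraticMap.polarBilin Q u) x
  simp only [QuadraticMap.polarBilin_apply_apply] at h
  rw [h]
  unfold Cfsg.polarVec dotProduct
  apply Finset.sum_congr rfl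
  intro j _
  rw [smul_eq_mul, mul_comm]
  have h3 : (Pi.single j 1 : Fin n → ZMod 3) = fun j_1 => if j = j_1 then 1 else 0 := by
    funext i
    simp [Pi.single_apply, eq_comm]
  show x j * QuadraticMap.polar (⇑Q) u (Pi.single j 1) = _
  rw [h3]

/-- Let Q be a non-degenerate quadratic form on the n-dimensional coordinate space over the field with three elements and u, v vectors of the same non-zero norm Q(u) = Q(v) spanning different lines (v ≠ u and v ≠ −u). Then the reflection matrices of u and v commute if and only if u and v are orthogonal for the polar form of Q. -/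
theorem result (n : ℕ) (Q : QuadraticForm (ZMod 3) (Fin n → ZMod 3)) (hQ : (QuadraticMap.polarBilin Q).Nondegenerate) (u v : Fin n → ZMod 3) (hu : Q u ≠ 0) (huv : Q u = Q v) (h1 : v ≠ u) (h2 : v ≠ -u) : Commute (Cfsg.reflectionMatrix (⇑Q) u) (Cfsg.reflectionMatrix (⇑Q) v) ↔ QuadraticMap.polar (⇑Q) u v = 0 := by
  have hc : (Q u)⁻¹ ≠ 0 := inv_ne_zero hu
  have hRu : Cfsg.reflectionMatrix (⇑Q) u
      = 1 - (Q u)⁻¹ • Matrix.vecMulVec u (Cfsg.polarVec (⇑Q) u) := rfl
  have hRv : Cfsg.reflectionMatrix (⇑Q) v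
      = 1 - (Q u)⁻¹ • Matrix.vecMulVec v (Cfsg.polarVec (⇑Q) v) := by
    rw [huv]; rfl
  have hAB : Matrix.vecMulVec u (Cfsg.polarVec (⇑Q) u) * Matrix.vecMulVec v (Cfsg.polarVec (⇑Q) v)
      = Matrix.vecMulVec u (QuadraticMap.polar (⇑Q) u v • Cfsg.polarVec (⇑Q) v) := by
    rw [Matrix.vecMulVec_mul_vecMulVec, polarVec_dot]
  have hBA : Matrix.vecMulVec v (Cfsg.polarVec (⇑Q) v) * Matrix.vecMulVec u (Cfsg.polarVec (⇑Q) u)
      = Matrix.vecMulVec v (QuadraticMap.polar (⇑Q) u v • Cfsg.polarVec (⇑Q) u) := by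
    rw [Matrix.vecMulVec_mul_vecMulVec, polarVec_dot, QuadraticMap.polar_comm]
  constructor
  · intro hcomm
    by_contra hβ
    have hA : Matrix.vecMulVec u (Cfsg.polarVec (⇑Q) u)
        = (Q u) • (1 - Cfsg.reflectionMatrix (⇑Q) u) := by
      rw [hRu, sub_sub_cancel, smul_smul, mul_inv_cancel₀ hu, one_smul]
    have hB : Matrix.vecMulVec v (Cfsg.polarVec (⇑Q) v)
        = (Q u) • (1 - Cfsg.reflectionMatrix (⇑Q) v) := by
      rw [hRv, sub_sub_cancel, smul_smul, mul_inv_cancel₀ hu, one_smul]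
    have hcomm' : Commute (Matrix.vecMulVec u (Cfsg.polarVec (⇑Q) u))
        (Matrix.vecMulVec v (Cfsg.polarVec (⇑Q) v)) := by
      rw [hA, hB]
      apply Commute.smul_left
      apply Commute.smul_right
      apply Commute.sub_left (Commute.one_left _)
      apply Commute.sub_right (Commute.one_right _)
      exact hcomm
    have heq := hcomm'.eq
    rw [hAB, hBA] at heq
    have heq2 := congrArg (fun M => Matrix.mulVec M v) heq
    simp only [Matrix.vecMulVec_mulVec, smul_dotProduct, polarVec_dot, QuadraticMap.polar_self] at heq2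
    rw [op_smul_eq_smul, op_smul_eq_smul] at heq2
    obtain ⟨c, d, hc0, hcd⟩ : ∃ c d : ZMod 3, c ≠ 0 ∧ c • u = d • v := by
      refine ⟨_, _, ?_, heq2⟩
      rw [smul_eq_mul, ← huv, nsmul_eq_mul]
      exact mul_ne_zero hβ (mul_ne_zero (by decide) hu)
    have key : u = (c⁻¹ * d) • v := by
      rw [mul_smul, ← hcd, smul_smul, inv_mul_cancel₀ hc0, one_smul]
    generalize c⁻¹ * d = l at key
    have hl : ∀ l : ZMod 3, l = 0 ∨ l = 1 ∨ l = -1 := by decide
    rcases hl l with rfl | rfl | rfl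
    · rw [zero_smul] at key
      rw [key, map_zero] at hu
      exact hu rfl
    · rw [one_smul] at key
      exact h1 key.symm
    · rw [neg_smul, one_smul] at key
      apply h2
      rw [key, neg_neg]
  · intro hβ
    rw [hRu, hRv]
    have hcomm' : Commute (Matrix.vecMulVec u (Cfsg.polarVec (⇑Q) u))
        (Matrix.vecMulVec v (Cfsg.polarVec (⇑Q) v)) := by
      show _ = _
      rw [hAB, hBA, hβ]
      simp
    apply Commute.sub_left (Commute.one_left _)
    apply Commute.sub_right (Commute.one_right _)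
    exact (hcomm'.smul_left _).smul_right _

end Cfsg.Agent.S5358
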