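import Cfsg.Statements.S5363
import Mathlib

set_option autoImplicit false
open Cfsg

namespace Cfsg.Agent.S5363

theorem sq_one_of_order_two {G : Type*} [Group G] {d : G} (h : orderOf d = 2) : d * d = 1 := by
  have := pow_orderOf_eq_one d
  rw [h, pow_two] at this
  exact this

theorem inv_of_order_two {G : Type*} [Group G] {d : G} (h : orderOf d = 2) : d⁻¹ = d :=
  inv_eq_of_mul_eq_one_left (sq_one_of_order_two h)

theorem conj_pow_inv {G : Type*} [Group G] {a s : G} (h : a * s * a⁻¹ = s⁻¹) (m : ℕ) :
    a * (s ^ m)⁻¹ * a⁻¹ = s ^ m := by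
  rw [← inv_pow, ← conj_pow]
  congr 1
  rw [← inv_inj, mul_inv_rev, mul_inv_rev, inv_inv, inv_inv, ← mul_assoc, h]

/-- Let D be a conjugation-invariant set of involutions of a finite group G. Then every product of two members of D has odd order or order 2 if and only if, for every a in D and every b in D different from a and commuting with a, the members of D commuting with a b are exactly those commuting with both a and b. -/
theorem result {G : Type*} [Group G] [Finite G] {D : Set G} (hinv : ∀ d ∈ D, orderOf d = 2) (hconj : ∀ g : G, ∀ d ∈ D, g * d * g⁻¹ ∈ D) : (∀ a ∈ D, ∀ b ∈ D, Odd (orderOf (a * b)) ∨ orderOf (a * b) = 2) ↔ ∀ a ∈ D, ∀ b ∈ D, b ≠ a → Commute a b → {y : G | y ∈ D ∧ Commute (a * b) y} = {y : G | y ∈ D ∧ Commute a y} ∩ {y : G | y ∈ D ∧ Commute b y} := by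
  constructor
  · intro h a ha b hb hne hab
    have haa := sq_one_of_order_two (hinv a ha)
    have hbb := sq_one_of_order_two (hinv b hb)
    have hainv := inv_of_order_two (hinv a ha)
    have hbinv := inv_of_order_two (hinv b hb)
    have hb' : b = a * (a * b) := by rw [← mul_assoc, haa, one_mul]
    ext y
    constructor
    · rintro ⟨hy, hty⟩
      have hyy := sq_one_of_order_two (hinv y hy)
      have hyinv := inv_of_order_two (hinv y hy)
      have key : Commute a y := by
        rcases h a ha y hy with hodd | h2
        · obtain ⟨m, hm⟩ := hodd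
          have hsinv : (a * y)⁻¹ = y * a := by rw [mul_inv_rev, hainv, hyinv]
          have hconjs : a * (a * y) * a⁻¹ = (a * y)⁻¹ := by
            rw [hsinv, hainv]
            calc a * (a * y) * a = (a * a) * y * a := by group
              _ = y * a := by rw [haa, one_mul]
          have hpow : (a * y) ^ (2 * m) = y * a := by
            rw [← hsinv]
            apply eq_inv_of_mul_eq_one_left
            rw [← pow_succ, ← hm]
            exact pow_orderOf_eq_one (a * y)
          have h1 := conj_pow_inv hconjs m
          have hh : (a * y) ^ m * a * ((a * y) ^ m)⁻¹ = y := by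
            calc (a * y) ^ m * a * ((a * y) ^ m)⁻¹
                = (a * y) ^ m * (a * ((a * y) ^ m)⁻¹ * a⁻¹) * a := by group
              _ = (a * y) ^ m * (a * y) ^ m * a := by rw [h1]
              _ = (a * y) ^ (2 * m) * a := by rw [← pow_add, two_mul]
              _ = y := by rw [hpow, mul_assoc, haa, mul_one]
          have hta : Commute (a * b) a := (Commute.refl a).mul_left hab.symm
          have hts : Commute (a * b) (a * y) := hta.mul_right hty
          have hcomm : Commute ((a * y) ^ m) (a * b) := hts.symm.pow_left m
          have hconjb : (a * y) ^ m * b * ((a * y) ^ m)⁻¹ = y * (a * b) := by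
            calc (a * y) ^ m * b * ((a * y) ^ m)⁻¹
                = (a * y) ^ m * (a * (a * b)) * ((a * y) ^ m)⁻¹ := by rw [← hb']
              _ = (a * y) ^ m * a * ((a * b) * ((a * y) ^ m)⁻¹) := by group
              _ = (a * y) ^ m * a * (((a * y) ^ m)⁻¹ * (a * b)) := by rw [hcomm.inv_left.eq]
              _ = ((a * y) ^ m * a * ((a * y) ^ m)⁻¹) * (a * b) := by group
              _ = y * (a * b) := by rw [hh]
          have hD : y * (a * b) ∈ D := by
            rw [← hconjb]
            exact hconj _ b hb
          have ht2 : orderOf (a * b) = 2 := by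
            apply orderOf_eq_prime
            · rw [hab.mul_pow, pow_two, pow_two, haa, hbb, one_mul]
            · intro h1
              exact hne ((eq_inv_of_mul_eq_one_right h1).trans hainv)
          have hord : orderOf (a * (y * (a * b))) = (2 * m + 1) * 2 := by
            rw [← mul_assoc, hts.symm.orderOf_mul_eq_mul_orderOf_of_coprime, hm, ht2]
            rw [hm, ht2]
            exact Nat.Coprime.symm (Nat.coprime_two_left.mpr ⟨m, rfl⟩)
          have hm0 : m = 0 := by
            rcases h a ha _ hD with hodd | h2
            · rw [hord] at hodd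
              obtain ⟨k, hk⟩ := hodd
              omega
            · rw [hord] at h2
              omega
          have hs1 : a * y = 1 := by
            rw [← orderOf_eq_one_iff, hm]
            omega
          have hya : y = a := (eq_inv_of_mul_eq_one_right hs1).trans hainv
          rw [hya]
        · have : (a * y) * (a * y) = 1 := sq_one_of_order_two h2
          have h3 : a * y = (a * y)⁻¹ := (inv_eq_of_mul_eq_one_left this).symm
          rw [mul_inv_rev, hainv, hyinv] at h3
          exact h3
      refine ⟨⟨hy, key⟩, ⟨hy, ?_⟩⟩
      rw [hb']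
      exact key.mul_left hty
    · rintro ⟨⟨hy, h1⟩, ⟨-, h2⟩⟩
      exact ⟨hy, h1.mul_left h2⟩
  · intro h a ha b hb
    have haa := sq_one_of_order_two (hinv a ha)
    have hbb := sq_one_of_order_two (hinv b hb)
    have hainv := inv_of_order_two (hinv a ha)
    have hbinv := inv_of_order_two (hinv b hb)
    by_cases hodd : Odd (orderOf (a * b))
    · exact Or.inl hodd
    · obtain ⟨k, hk⟩ := Nat.not_odd_iff_even.mp hodd
      have hpos : 0 < orderOf (a * b) := orderOf_pos (a * b)
      have hk0 : k ≠ 0 := by omega
      have hzz : (a * b) ^ k * (a * b) ^ k = 1 := by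
        rw [← pow_add, ← hk]
        exact pow_orderOf_eq_one (a * b)
      have hz1 : (a * b) ^ k ≠ 1 := pow_ne_one_of_lt_orderOf hk0 (by omega)
      have hzinv : ((a * b) ^ k)⁻¹ = (a * b) ^ k := inv_eq_of_mul_eq_one_left hzz
      have hconjr : a * (a * b) * a⁻¹ = (a * b)⁻¹ := by
        rw [mul_inv_rev, hainv, hbinv, ← mul_assoc, haa, one_mul]
      have hkey : ∀ m : ℕ, a * (a * b) ^ m = ((a * b) ^ m)⁻¹ * a := by
        intro m
        have h1 := conj_pow_inv hconjr m
        calc a * (a * b) ^ m = (a * ((a * b) ^ m)⁻¹ * a⁻¹)⁻¹ * a := by group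
          _ = ((a * b) ^ m)⁻¹ * a := by rw [h1]
      have haz : Commute a ((a * b) ^ k) := by
        have := hkey k
        rw [hzinv] at this
        exact this
      have hc : a * (a * b) ^ k ∈ D := by
        rcases Nat.even_or_odd' k with ⟨m, rfl | rfl⟩
        · have : a * (a * b) ^ (2 * m) = ((a * b) ^ m)⁻¹ * a * (((a * b) ^ m)⁻¹)⁻¹ := by
            rw [two_mul, pow_add, ← mul_assoc, hkey m, inv_inv]
          rw [this]
          exact hconj _ a ha
        · have : a * (a * b) ^ (2 * m + 1) = ((a * b) ^ m)⁻¹ * b * (((a * b) ^ m)⁻¹)⁻¹ := by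
            have hab1 : a * (a * b) = b := by rw [← mul_assoc, haa, one_mul]
            rw [inv_inv]
            calc a * (a * b) ^ (2 * m + 1) = a * (a * b) ^ m * (a * b) * (a * b) ^ m := by
                  rw [show 2 * m + 1 = m + 1 + m by ring, pow_add, pow_succ]; group
              _ = ((a * b) ^ m)⁻¹ * (a * (a * b)) * (a * b) ^ m := by rw [hkey m]; group
              _ = ((a * b) ^ m)⁻¹ * b * (a * b) ^ m := by rw [hab1]
          rw [this]
          exact hconj _ b hb
      have hne : a * (a * b) ^ k ≠ a := by
        intro h1
        exact hz1 (mul_left_cancel (h1.trans (mul_one a).symm))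
      have hcomm : Commute a (a * (a * b) ^ k) := (Commute.refl a).mul_right haz
      have hset := h a ha _ hc hne hcomm
      have hacz : a * (a * (a * b) ^ k) = (a * b) ^ k := by rw [← mul_assoc, haa, one_mul]
      rw [hacz] at hset
      have hzb : Commute ((a * b) ^ k) b := by
        have hb' : a * (a * b) = b := by rw [← mul_assoc, haa, one_mul]
        have h3 : Commute ((a * b) ^ k) (a * (a * b)) :=
          haz.symm.mul_right ((Commute.refl (a * b)).pow_left k)
        rw [hb'] at h3
        exact h3
      have hbmem : b ∈ {y : G | y ∈ D ∧ Commute ((a * b) ^ k) y} := ⟨hb, hzb⟩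
      rw [hset] at hbmem
      have hab : Commute a b := hbmem.1.2
      have hsq : (a * b) ^ 2 = 1 := by
        rw [hab.mul_pow, pow_two, pow_two, haa, hbb, one_mul]
      have hdvd : orderOf (a * b) ∣ 2 := orderOf_dvd_of_pow_eq_one hsq
      rcases (Nat.dvd_prime Nat.prime_two).mp hdvd with h1 | h2
      · exact Or.inl (by rw [h1]; exact odd_one)
      · exact Or.inr h2

end Cfsg.Agent.S5363
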