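import Cfsg.Statements.S5364

set_option autoImplicit false
open Cfsg

namespace Cfsg.Agent.S5364

theorem result {G : Type*} [Group G] [Finite G] {D : Set G} (hinv : ∀ d ∈ D, orderOf d = 2) (hconj : ∀ g : G, ∀ d ∈ D, g * d * g⁻¹ ∈ D) (t : G) (ht : orderOf t = 2) (htZ : t ∈ Subgroup.center G) (hDt : ∀ d ∈ D, d * t ∉ D) [(Subgroup.zpowers t).Normal] (himg : Cfsg.IsThreeTranspositionSet ((QuotientGroup.mk : G → G ⧸ Subgroup.zpowers t) '' D)) : Cfsg.IsThreeTranspositionSet D := by
  refine ⟨hinv, ?_⟩
  intro d hd e he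
  have hsq : ∀ x ∈ D, x * x = 1 := by
    intro x hx
    have := hinv x hx
    rw [← pow_two, ← this, pow_orderOf_eq_one]
  have hxinv : ∀ x ∈ D, x⁻¹ = x := fun x hx => inv_eq_of_mul_eq_one_right (hsq x hx)
  have ht2 : t * t = 1 := by
    rw [← pow_two, ← ht, pow_orderOf_eq_one]
  have hzp : ∀ y : G, y ∈ Subgroup.zpowers t → y = 1 ∨ y = t := by
    intro y hy
    rw [Subgroup.mem_zpowers_iff] at hy
    obtain ⟨k, rfl⟩ := hy
    rcases Int.even_or_odd k with ⟨m, hm⟩ | ⟨m, hm⟩
    · left
      rw [hm, ← two_mul, zpow_mul, zpow_two, ht2, one_zpow]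
    · right
      rw [hm, zpow_add, zpow_mul, zpow_two, ht2, one_zpow, one_mul, zpow_one]
  have hmk : ∀ y : G, (QuotientGroup.mk y : G ⧸ Subgroup.zpowers t) = 1 → y = 1 ∨ y = t := by
    intro y hy
    exact hzp y ((QuotientGroup.eq_one_iff y).mp hy)
  have hq := himg.2 _ ⟨d, hd, rfl⟩ _ ⟨e, he, rfl⟩
  have htc : ∀ g : G, g * t = t * g := fun g => Subgroup.mem_center_iff.mp htZ g
  rcases hq with h | h
  · left
    have h' : ((QuotientGroup.mk ((d * e) ^ 2) : G ⧸ Subgroup.zpowers t)) = 1 := by
      simpa using h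
    rcases hmk _ h' with h1 | h1
    · exact h1
    · exfalso
      have h2 : e * d * e⁻¹ = d * t := by
        rw [hxinv e he]
        have h3 : d * e * (d * e) = t := by rw [← pow_two]; exact h1
        have h4 : e * d * e = d * (d * e * (d * e)) := by
          have := hsq d hd
          calc e * d * e = (d * d) * (e * d * e) := by rw [this, one_mul]
            _ = d * (d * e * (d * e)) := by group
        rw [h4, h3]
      exact hDt d hd (h2 ▸ hconj e d hd)
  · right
    have h' : ((QuotientGroup.mk ((d * e) ^ 3) : G ⧸ Subgroup.zpowers t)) = 1 := by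
      simpa using h
    rcases hmk _ h' with h1 | h1
    · exact h1
    · exfalso
      have h3 : d * e * (d * e) * (d * e) = t := by rw [← pow_two, ← pow_succ]; exact h1
      have h2 : d * e * d⁻¹ = (e * d * e⁻¹) * t := by
        rw [hxinv e he, hxinv d hd]
        have hdd := hsq d hd
        have hee := hsq e he
        have h5 : d * e * d = t * (e * d * e) := by
          calc d * e * d = (d * e * (d * e) * (d * e)) * (e * d * e) := by
                have : (d * e * (d * e) * (d * e)) * (e * d * e) = d * e * d * (e * (d * (e * e) * d) * e) := by group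
                rw [this, hee, mul_one, hdd, mul_one, hee, mul_one]
            _ = t * (e * d * e) := by rw [h3]
        rw [h5, htc]
      exact hDt _ (hconj e d hd) (h2 ▸ hconj d e he)

end Cfsg.Agent.S5364
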