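import Cfsg.Statements.S5366
import Mathlib

set_option autoImplicit false
open Cfsg

namespace Cfsg.Agent.S5366

section
variable {X : Type*}

/-- third point relation -/
def Third (L : Set (Set X)) (x y z : X) : Prop :=
  z ≠ x ∧ z ≠ y ∧ x ≠ y ∧ ({x, y, z} : Set X) ∈ L

theorem third_uniq {L : Set (Set X)} (hPL : LineSystem.IsPartialLinear L) {x y z z' : X}
    (h : Third L x y z) (h' : Third L x y z') : z = z' := by
  have := hPL _ h.2.2.2 _ h'.2.2.2 x y h.2.2.1 (by simp) (by simp) (by simp) (by simp)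
  have hz : z' ∈ ({x, y, z} : Set X) := by rw [this]; simp
  rcases hz with hz | hz | hz
  · exact absurd hz h'.1
  · exact absurd hz h'.2.1
  · exact hz.symm

theorem lm_third {L : Set (Set X)} (hPL : LineSystem.IsPartialLinear L) {x y z : X}
    (h : Third L x y z) : LineSystem.lineMap L x y = z := by
  have hex : ∃ z : X, z ≠ x ∧ z ≠ y ∧ x ≠ y ∧ ({x, y, z} : Set X) ∈ L := ⟨z, h⟩
  have e : LineSystem.lineMap L x y = hex.choose := by
    unfold LineSystem.lineMap
    exact dif_pos hex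
  rw [e]
  exact third_uniq hPL hex.choose_spec h

theorem lm_not {L : Set (Set X)} {x y : X} (h : ¬ ∃ z, Third L x y z) :
    LineSystem.lineMap L x y = y := by
  have h' : ¬ ∃ z : X, z ≠ x ∧ z ≠ y ∧ x ≠ y ∧ ({x, y, z} : Set X) ∈ L := h
  unfold LineSystem.lineMap
  exact dif_neg h'

theorem third_swap23 {L : Set (Set X)} {x y z : X} (h : Third L x y z) : Third L x z y :=
  ⟨h.2.2.1.symm, h.2.1.symm, h.1.symm, by rw [Set.pair_comm z y]; exact h.2.2.2⟩

theorem third_swap12 {L : Set (Set X)} {x y z : X} (h : Third L x y z) : Third L y x z :=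
  ⟨h.2.1, h.1, h.2.2.1.symm, by rw [Set.insert_comm]; exact h.2.2.2⟩

theorem lm_invol {L : Set (Set X)} (hPL : LineSystem.IsPartialLinear L) (x y : X) :
    LineSystem.lineMap L x (LineSystem.lineMap L x y) = y := by
  by_cases h : ∃ z, Third L x y z
  · obtain ⟨z, hz⟩ := h
    rw [lm_third hPL hz, lm_third hPL (third_swap23 hz)]
  · rw [lm_not h, lm_not h]

/-- the permutation t(x) -/
noncomputable def sig (L : Set (Set X)) (hPL : LineSystem.IsPartialLinear L) (x : X) :
    Equiv.Perm X :=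
  ⟨LineSystem.lineMap L x, LineSystem.lineMap L x, lm_invol hPL x, lm_invol hPL x⟩

theorem line_with {L : Set (Set X)} (h3 : ∀ l ∈ L, l.ncard = 3) {l : Set X} (hl : l ∈ L) {x : X}
    (hx : x ∈ l) : ∃ y z, y ≠ x ∧ z ≠ x ∧ y ≠ z ∧ l = {x, y, z} := by
  obtain ⟨a, b, c, hab, hac, hbc, rfl⟩ := Set.ncard_eq_three.mp (h3 l hl)
  rcases hx with rfl | rfl | rfl
  · exact ⟨b, c, hab.symm, hac.symm, hbc, rfl⟩
  · exact ⟨a, c, hab, hbc.symm, hac, Set.insert_comm _ _ _⟩
  · refine ⟨a, b, hac, hbc, hab, ?_⟩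
    ext p; simp only [Set.mem_insert_iff, Set.mem_singleton_iff]; tauto

theorem span_sub {L : Set (Set X)} (S : Set X) :
    LineSystem.IsSubspace L (LineSystem.span L S) := by
  intro l hl x hx y hy hxy hxl hyl z hz T' hT'
  exact hT'.2 l hl x (hx T' hT') y (hy T' hT') hxy hxl hyl hz

theorem sub_span {L : Set (Set X)} (S : Set X) : S ⊆ LineSystem.span L S :=
  Set.subset_sInter fun _ h => h.1

theorem image_line_of_model {L : Set (Set X)} (hPL : LineSystem.IsPartialLinear L)
    (h3 : ∀ l ∈ L, l.ncard = 3) {Y : Type*} (M : Set (Set Y)) (P : Set X)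
    (hP : LineSystem.IsSubspace L P) (e : ↥P ≃ Y)
    (he : LineSystem.IsIso (LineSystem.restrict L P) M e)
    (hMP : ∀ x' : Y, ∀ l' ∈ M, ∃ l'' ∈ M, ∀ y' ∈ l',
      (∃ z', Third M x' y' z' ∧ z' ∈ l'') ∨ ((¬ ∃ z', Third M x' y' z') ∧ y' ∈ l''))
    {x : X} (hx : x ∈ P) {l : Set X} (hl : l ∈ L) (hlP : l ⊆ P) :
    LineSystem.lineMap L x '' l ∈ L := by
  have ta : ∀ p q r : ↥P, Third L (p : X) q r → Third M (e p) (e q) (e r) := by
    intro p q r h
    refine ⟨fun h' => h.1 (congrArg Subtype.val (e.injective h')),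
      fun h' => h.2.1 (congrArg Subtype.val (e.injective h')),
      fun h' => h.2.2.1 (congrArg Subtype.val (e.injective h')), ?_⟩
    have hsub : ({(p : X), (q : X), (r : X)} : Set X) ⊆ P := by
      rintro _ (rfl | rfl | rfl)
      · exact p.2
      · exact q.2
      · exact r.2
    have hmem : {s : ↥P | (s : X) ∈ ({(p : X), (q : X), (r : X)} : Set X)} ∈
        LineSystem.restrict L P := ⟨_, h.2.2.2, hsub, rfl⟩
    have himg := (he _).mp hmem
    have : e '' {s : ↥P | (s : X) ∈ ({(p : X), (q : X), (r : X)} : Set X)} = {e p, e q, e r} := by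
      ext y
      constructor
      · rintro ⟨s, hs, rfl⟩
        rcases hs with hs | hs | hs
        · left; rw [Subtype.ext hs]
        · right; left; rw [Subtype.ext hs]
        · right; right; show e s = e r; rw [Subtype.ext hs]
      · rintro (rfl | rfl | rfl)
        · exact ⟨p, Or.inl rfl, rfl⟩
        · exact ⟨q, Or.inr (Or.inl rfl), rfl⟩
        · exact ⟨r, Or.inr (Or.inr rfl), rfl⟩
    rw [this] at himg; exact himg
  have tb : ∀ p q r : ↥P, Third M (e p) (e q) (e r) → Third L (p : X) q r := by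
    intro p q r h
    have hne1 : (r : X) ≠ p := fun h' => h.1 (by rw [Subtype.ext h'])
    have hne2 : (r : X) ≠ q := fun h' => h.2.1 (by rw [Subtype.ext h'])
    have hne3 : (p : X) ≠ q := fun h' => h.2.2.1 (by rw [Subtype.ext h'])
    refine ⟨hne1, hne2, hne3, ?_⟩
    have himg : e '' ({p, q, r} : Set ↥P) ∈ M := by
      rw [Set.image_insert_eq, Set.image_pair]; exact h.2.2.2
    obtain ⟨l₀, hl₀, hl₀P, heq⟩ := (he _).mpr himg
    have : ({(p : X), (q : X), (r : X)} : Set X) = l₀ := by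
      ext x
      constructor
      · rintro (rfl | rfl | rfl)
        · have : p ∈ ({p, q, r} : Set ↥P) := Or.inl rfl
          rw [heq] at this; exact this
        · have : q ∈ ({p, q, r} : Set ↥P) := Or.inr (Or.inl rfl)
          rw [heq] at this; exact this
        · have : r ∈ ({p, q, r} : Set ↥P) := Or.inr (Or.inr rfl)
          rw [heq] at this; exact this
      · intro hx
        have : (⟨x, hl₀P hx⟩ : ↥P) ∈ ({p, q, r} : Set ↥P) := by rw [heq]; exact hx
        rcases this with h' | h' | h'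
        · left; exact congrArg Subtype.val h'
        · right; left; exact congrArg Subtype.val h'
        · right; right; exact congrArg Subtype.val h'
    rw [this]; exact hl₀
  have hl' : e '' {s : ↥P | (s : X) ∈ l} ∈ M := (he _).mp ⟨l, hl, hlP, rfl⟩
  obtain ⟨l'', hl'', hall⟩ := hMP (e ⟨x, hx⟩) _ hl'
  have hpre : e.symm '' l'' ∈ LineSystem.restrict L P := by
    apply (he _).mpr
    have : e '' (e.symm '' l'') = l'' := by
      rw [Set.image_image]; simp
    rw [this]; exact hl''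
  obtain ⟨l₂, hl₂, hl₂P, heq⟩ := hpre
  have hsub : LineSystem.lineMap L x '' l ⊆ l₂ := by
    rintro _ ⟨y, hy, rfl⟩
    have hyP := hlP hy
    have hy' : e ⟨y, hyP⟩ ∈ e '' {s : ↥P | (s : X) ∈ l} := ⟨⟨y, hyP⟩, hy, rfl⟩
    rcases hall _ hy' with ⟨z', hz', hz'l⟩ | ⟨hno, hyl⟩
    · obtain ⟨z, rfl⟩ := e.surjective z'
      have hT := tb ⟨x, hx⟩ ⟨y, hyP⟩ z hz'
      rw [lm_third hPL hT]
      have : z ∈ e.symm '' l'' := ⟨e z, hz'l, e.symm_apply_apply z⟩
      rw [heq] at this; exact this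
    · have hno' : ¬ ∃ z, Third L x y z := by
        rintro ⟨z, hz⟩
        have hzP : z ∈ P := hP _ hz.2.2.2 x hx y hyP hz.2.2.1 (by simp) (by simp) (by simp)
        exact hno ⟨e ⟨z, hzP⟩, ta ⟨x, hx⟩ ⟨y, hyP⟩ ⟨z, hzP⟩ hz⟩
      rw [lm_not hno']
      have : (⟨y, hyP⟩ : ↥P) ∈ e.symm '' l'' := ⟨e ⟨y, hyP⟩, hyl, e.symm_apply_apply _⟩
      rw [heq] at this; exact this
  have hinj : Function.Injective (LineSystem.lineMap L x) := fun a b hab => by
    have := congrArg (LineSystem.lineMap L x) hab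
    rwa [lm_invol hPL, lm_invol hPL] at this
  have hcard : (LineSystem.lineMap L x '' l).ncard = 3 := by
    rw [Set.ncard_image_of_injective _ hinj]; exact h3 l hl
  have hfin : l₂.Finite := Set.finite_of_ncard_ne_zero (by rw [h3 l₂ hl₂]; norm_num)
  have := Set.eq_of_subset_of_ncard_le hsub (by rw [hcard, h3 l₂ hl₂]) hfin
  rw [this]; exact hl₂

end

theorem zm1 : ∀ p q : ZMod 3, p + q = -(p + q) - p + -q := by decide
theorem zm2 : ∀ p q : ZMod 3, -p - q = p → p = q := by decide
theorem zm3 : ∀ p q : ZMod 3, -p - q = q → p = q := by decide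
theorem zm4 : ∀ p q : ZMod 3, p + 2 * (q - p) = -p - q := by decide
theorem zm_cases : ∀ c : ZMod 3, c = 0 ∨ c = 1 ∨ c = 2 := by decide

theorem aff_third (x y : Fin 2 → ZMod 3) (hxy : x ≠ y) :
    Third affinePlaneThree x y (-x - y) := by
  refine ⟨?_, ?_, hxy, ?_⟩
  · intro h; apply hxy; funext i; exact zm2 _ _ (congrFun h i)
  · intro h; apply hxy; funext i; exact zm3 _ _ (congrFun h i)
  · refine ⟨x, y - x, sub_ne_zero.mpr hxy.symm, ?_⟩
    ext p
    simp only [Set.mem_insert_iff, Set.mem_singleton_iff, Set.mem_ofPred_eq]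
    constructor
    · rintro (rfl | rfl | rfl)
      · exact ⟨0, by simp⟩
      · exact ⟨1, by simp⟩
      · refine ⟨2, ?_⟩
        funext i
        simp only [Pi.sub_apply, Pi.neg_apply, Pi.add_apply, Pi.smul_apply, smul_eq_mul]
        exact (zm4 _ _).symm
    · rintro ⟨c, rfl⟩
      rcases zm_cases c with rfl | rfl | rfl
      · left; simp
      · right; left; simp
      · right; right
        funext i
        simp only [Pi.sub_apply, Pi.neg_apply, Pi.add_apply, Pi.smul_apply, smul_eq_mul]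
        exact zm4 _ _

theorem hMP_affine : ∀ x' : Fin 2 → ZMod 3, ∀ l' ∈ affinePlaneThree, ∃ l'' ∈ affinePlaneThree,
    ∀ y' ∈ l', (∃ z', Third affinePlaneThree x' y' z' ∧ z' ∈ l'') ∨
      ((¬ ∃ z', Third affinePlaneThree x' y' z') ∧ y' ∈ l'') := by
  rintro x' l' ⟨v, w, hw, rfl⟩
  refine ⟨{x | ∃ c : ZMod 3, x = (-x' - v) + c • (-w)},
    ⟨-x' - v, -w, neg_ne_zero.mpr hw, rfl⟩, ?_⟩
  rintro y' ⟨c, rfl⟩
  by_cases hxy : x' = v + c • w
  · right
    refine ⟨fun ⟨z', hz⟩ => hz.2.2.1 hxy, ⟨c, ?_⟩⟩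
    subst hxy
    funext i
    simp only [Pi.sub_apply, Pi.neg_apply, Pi.add_apply, Pi.smul_apply, smul_eq_mul, mul_neg]
    exact zm1 _ _
  · left
    refine ⟨-x' - (v + c • w), aff_third _ _ hxy, ⟨c, ?_⟩⟩
    rw [smul_neg]; abel

set_option synthInstance.maxHeartbeats 400000 in
set_option synthInstance.maxSize 4096 in
theorem MPD : ∀ x' : DualAffinePoint, ∀ i : Fin 4, ∃ j : Fin 4, ∀ y' : DualAffinePoint,
    i ∉ y'.1 →
    (∃ z' : DualAffinePoint, (z' ≠ x' ∧ z' ≠ y' ∧ x' ≠ y' ∧ ∃ k : Fin 4,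
      ∀ s : DualAffinePoint, (s = x' ∨ s = y' ∨ s = z') ↔ k ∉ s.1) ∧ j ∉ z'.1) ∨
    ((¬ ∃ z' : DualAffinePoint, (z' ≠ x' ∧ z' ≠ y' ∧ x' ≠ y' ∧ ∃ k : Fin 4,
      ∀ s : DualAffinePoint, (s = x' ∨ s = y' ∨ s = z') ↔ k ∉ s.1)) ∧ j ∉ y'.1) := by
  decide

theorem third_dual_iff (x' y' z' : DualAffinePoint) : Third dualAffinePlaneTwo x' y' z' ↔
    (z' ≠ x' ∧ z' ≠ y' ∧ x' ≠ y' ∧ ∃ k : Fin 4,
      ∀ s : DualAffinePoint, (s = x' ∨ s = y' ∨ s = z') ↔ k ∉ s.1) := by
  have : (({x', y', z'} : Set DualAffinePoint) ∈ dualAffinePlaneTwo) ↔ ∃ k : Fin 4,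
      ∀ s : DualAffinePoint, (s = x' ∨ s = y' ∨ s = z') ↔ k ∉ s.1 := by
    constructor
    · rintro ⟨k, hk⟩
      exact ⟨k, fun s => Set.ext_iff.mp hk s⟩
    · rintro ⟨k, hk⟩
      exact ⟨k, Set.ext fun s => hk s⟩
  constructor
  · rintro ⟨h1, h2, h3, h4⟩; exact ⟨h1, h2, h3, this.mp h4⟩
  · rintro ⟨h1, h2, h3, h4⟩; exact ⟨h1, h2, h3, this.mpr h4⟩

theorem hMP_dual : ∀ x' : DualAffinePoint, ∀ l' ∈ dualAffinePlaneTwo, ∃ l'' ∈ dualAffinePlaneTwo,
    ∀ y' ∈ l', (∃ z', Third dualAffinePlaneTwo x' y' z' ∧ z' ∈ l'') ∨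
      ((¬ ∃ z', Third dualAffinePlaneTwo x' y' z') ∧ y' ∈ l'') := by
  rintro x' l' ⟨i, rfl⟩
  obtain ⟨j, hj⟩ := MPD x' i
  refine ⟨{s | j ∉ s.1}, ⟨j, rfl⟩, ?_⟩
  intro y' hy'
  rcases hj y' hy' with ⟨z', hz', hjz⟩ | ⟨hno, hjy⟩
  · exact Or.inl ⟨z', (third_dual_iff _ _ _).mpr hz', hjz⟩
  · exact Or.inr ⟨fun ⟨z', hz'⟩ => hno ⟨z', (third_dual_iff _ _ _).mp hz'⟩, hjy⟩

theorem lm_iso_fwd {X : Type*} {L : Set (Set X)} (hL : IsFischerSpace L) (x : X) {l : Set X}
    (hl : l ∈ L) : LineSystem.lineMap L x '' l ∈ L := by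
  obtain ⟨hPL, h3, hpl⟩ := hL
  by_cases hx : x ∈ l
  · obtain ⟨y, z, hyx, hzx, hyz, rfl⟩ := line_with h3 hl hx
    have hT : Third L x y z := ⟨hzx, hyz.symm, hyx.symm, hl⟩
    have e1 : LineSystem.lineMap L x x = x := lm_not (fun ⟨w, hw⟩ => hw.2.2.1 rfl)
    have e2 := lm_third hPL hT
    have e3 := lm_third hPL (third_swap23 hT)
    rw [Set.image_insert_eq, Set.image_pair, e1, e2, e3, Set.pair_comm z y]
    exact hl
  · by_cases hc : ∃ y ∈ l, ∃ z, Third L x y z
    · obtain ⟨y, hy, z, hT⟩ := hc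
      have hm : ({x, y, z} : Set X) ∈ L := hT.2.2.2
      have hlm : l ≠ {x, y, z} := fun h => hx (by rw [h]; simp)
      have hne : (l ∩ {x, y, z}).Nonempty := ⟨y, hy, by simp⟩
      have hxP : x ∈ LineSystem.span L (l ∪ {x, y, z}) := sub_span _ (Or.inr (by simp))
      have hlP : l ⊆ LineSystem.span L (l ∪ {x, y, z}) := fun p hp => sub_span _ (Or.inl hp)
      rcases hpl l hl _ hm hlm hne with ⟨e, he⟩ | ⟨e, he⟩
      · exact image_line_of_model hPL h3 _ _ (span_sub _) e he hMP_dual hxP hl hlP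
      · exact image_line_of_model hPL h3 _ _ (span_sub _) e he hMP_affine hxP hl hlP
    · have : LineSystem.lineMap L x '' l = l := by
        ext p
        constructor
        · rintro ⟨y, hy, rfl⟩
          rw [lm_not (fun ⟨z, hz⟩ => hc ⟨y, hy, z, hz⟩)]; exact hy
        · intro hp
          exact ⟨p, hp, lm_not (fun ⟨z, hz⟩ => hc ⟨p, hp, z, hz⟩)⟩
      rw [this]; exact hl

/-- Let L be a nondegenerate Fischer space on the point type X (every point on a line). Then for every point x the map t(x) — sending a point collinear with x to the third point of their common line and fixing every other point — is a permutation of X of order 2 and an automorphism of the line system; and the set of all t(x) satisfies the 3-transposition order conditions in the permutation group of X (any two have product of order at most 3). -/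
theorem result {X : Type*} (L : Set (Set X)) (hL : Cfsg.IsFischerSpace L) (hnd : Cfsg.LineSystem.IsNondegenerate L) : (∀ x : X, ∃ σ : Equiv.Perm X, ⇑σ = Cfsg.LineSystem.lineMap L x ∧ orderOf σ = 2 ∧ Cfsg.LineSystem.IsIso L L σ) ∧ Cfsg.IsThreeTranspositionSet {σ : Equiv.Perm X | ∃ x : X, ⇑σ = Cfsg.LineSystem.lineMap L x} := by
  have hPL := hL.1
  have h3 := hL.2.1
  have hsq : ∀ x, sig L hPL x * sig L hPL x = 1 := fun x => Equiv.ext fun y => lm_invol hPL x y
  have hord : ∀ x, orderOf (sig L hPL x) = 2 := by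
    intro x
    obtain ⟨l, hl, hxl⟩ := hnd x
    obtain ⟨y, z, hyx, hzx, hyz, rfl⟩ := line_with h3 hl hxl
    have hT : Third L x y z := ⟨hzx, hyz.symm, hyx.symm, hl⟩
    have hne : sig L hPL x ≠ 1 := by
      intro h
      have h1 : sig L hPL x y = y := by rw [h]; rfl
      have h2 : sig L hPL x y = z := lm_third hPL hT
      rw [h2] at h1
      exact hyz h1.symm
    have : Fact (Nat.Prime 2) := ⟨Nat.prime_two⟩
    exact orderOf_eq_prime (by rw [pow_two]; exact hsq x) hne
  have hiso : ∀ x, LineSystem.IsIso L L (sig L hPL x) := by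
    intro x l
    constructor
    · intro hl; exact lm_iso_fwd hL x hl
    · intro hl
      have h1 := lm_iso_fwd hL x hl
      rw [Set.image_image] at h1
      have e : (fun p => LineSystem.lineMap L x (sig L hPL x p)) '' l = l := by
        have : (fun p => LineSystem.lineMap L x (sig L hPL x p)) = id :=
          funext fun p => lm_invol hPL x p
        rw [this, Set.image_id]
      rwa [e] at h1
  have hconj : ∀ (α : Equiv.Perm X), LineSystem.IsIso L L α → ∀ y p,
      α (LineSystem.lineMap L y p) = LineSystem.lineMap L (α y) (α p) := by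
    intro α hα y p
    have himg : ∀ a b c : X, α '' ({a, b, c} : Set X) = {α a, α b, α c} := fun a b c => by
      rw [Set.image_insert_eq, Set.image_pair]
    by_cases h : ∃ z, Third L y p z
    · obtain ⟨z, hz⟩ := h
      have hz' : Third L (α y) (α p) (α z) :=
        ⟨fun h' => hz.1 (α.injective h'), fun h' => hz.2.1 (α.injective h'),
          fun h' => hz.2.2.1 (α.injective h'), by rw [← himg]; exact (hα _).mp hz.2.2.2⟩
      rw [lm_third hPL hz, lm_third hPL hz']
    · have h' : ¬ ∃ w, Third L (α y) (α p) w := by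
        rintro ⟨w, hw⟩
        apply h
        refine ⟨α.symm w, fun h' => hw.1 (by rw [← h', Equiv.apply_symm_apply]),
          fun h' => hw.2.1 (by rw [← h', Equiv.apply_symm_apply]),
          fun h' => hw.2.2.1 (by rw [h']), ?_⟩
        apply (hα _).mpr
        rw [himg, Equiv.apply_symm_apply]; exact hw.2.2.2
      rw [lm_not h, lm_not h']
  have hprod : ∀ x y, sig L hPL x * sig L hPL y * sig L hPL x =
      sig L hPL (LineSystem.lineMap L x y) := by
    intro x y
    ext p
    show LineSystem.lineMap L x (LineSystem.lineMap L y (LineSystem.lineMap L x p)) =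
      LineSystem.lineMap L (LineSystem.lineMap L x y) p
    have h1 := hconj (sig L hPL x) (hiso x) y (LineSystem.lineMap L x p)
    have e : sig L hPL x (LineSystem.lineMap L x p) = p := lm_invol hPL x p
    rw [e] at h1
    exact h1
  refine ⟨fun x => ⟨sig L hPL x, rfl, hord x, hiso x⟩, ?_, ?_⟩
  · rintro d ⟨x, hx⟩
    have : d = sig L hPL x := Equiv.ext fun p => congrFun hx p
    rw [this]; exact hord x
  · rintro d ⟨x, hx⟩ e ⟨y, hy⟩
    have hd : d = sig L hPL x := Equiv.ext fun p => congrFun hx p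
    have he : e = sig L hPL y := Equiv.ext fun p => congrFun hy p
    rw [hd, he]
    by_cases hxy : ∃ z, Third L x y z
    · right
      obtain ⟨z, hz⟩ := hxy
      have h1 : sig L hPL x * sig L hPL y * sig L hPL x = sig L hPL z := by
        rw [hprod, lm_third hPL hz]
      have h2 : sig L hPL y * sig L hPL x * sig L hPL y = sig L hPL z := by
        rw [hprod, lm_third hPL (third_swap12 hz)]
      calc (sig L hPL x * sig L hPL y) ^ 3
          = (sig L hPL x * sig L hPL y * sig L hPL x) *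
            (sig L hPL y * sig L hPL x * sig L hPL y) := by
            simp only [pow_succ, pow_zero, one_mul, mul_assoc]
        _ = 1 := by rw [h1, h2, hsq]
    · left
      have h1 : sig L hPL x * sig L hPL y * sig L hPL x = sig L hPL y := by
        rw [hprod, lm_not hxy]
      calc (sig L hPL x * sig L hPL y) ^ 2
          = (sig L hPL x * sig L hPL y * sig L hPL x) * sig L hPL y := by
            simp only [pow_succ, pow_zero, one_mul, mul_assoc]
        _ = 1 := by rw [h1, hsq]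

end Cfsg.Agent.S5366
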