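import Cfsg.Statements.S5367
import Mathlib

set_option autoImplicit false
open Cfsg

namespace Cfsg.Agent.S5367

/-- abstract model lemma -/
theorem iso_of_model {X Y : Type*} (L : Set (Set X)) (M : Set (Set Y))
    (hPL : LineSystem.IsPartialLinear L) (h2 : ∀ l ∈ L, ∃ x ∈ l, ∃ y ∈ l, x ≠ y)
    (φ : Y → X) (hinj : Function.Injective φ) (S₀ : Set X)
    (hS₀ : S₀ ⊆ Set.range φ) (hgen : Set.range φ ⊆ LineSystem.span L S₀)
    (hlines : ∀ m ∈ M, φ '' m ∈ L)
    (hcov : ∀ y₁ y₂ : Y, y₁ ≠ y₂ → (∃ l ∈ L, φ y₁ ∈ l ∧ φ y₂ ∈ l) → ∃ m ∈ M, y₁ ∈ m ∧ y₂ ∈ m) :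
    LineSystem.Isomorphic (LineSystem.restrict L (LineSystem.span L S₀)) M := by
  have hline_eq : ∀ l ∈ L, l ⊆ Set.range φ → ∃ m ∈ M, l = φ '' m := by
    intro l hl hsub
    obtain ⟨x, hx, y, hy, hxy⟩ := h2 l hl
    obtain ⟨y₁, rfl⟩ := hsub hx
    obtain ⟨y₂, rfl⟩ := hsub hy
    have hne : y₁ ≠ y₂ := fun h => hxy (by rw [h])
    obtain ⟨m, hm, h1, h2'⟩ := hcov y₁ y₂ hne ⟨l, hl, hx, hy⟩
    exact ⟨m, hm, hPL l hl _ (hlines m hm) _ _ hxy hx hy ⟨y₁, h1, rfl⟩ ⟨y₂, h2', rfl⟩⟩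
  have hsub : LineSystem.IsSubspace L (Set.range φ) := by
    intro l hl x hx y hy hxy hxl hyl
    obtain ⟨y₁, rfl⟩ := hx
    obtain ⟨y₂, rfl⟩ := hy
    have hne : y₁ ≠ y₂ := fun h => hxy (by rw [h])
    obtain ⟨m, hm, h1, h2'⟩ := hcov y₁ y₂ hne ⟨l, hl, hxl, hyl⟩
    have : l = φ '' m := hPL l hl _ (hlines m hm) _ _ hxy hxl hyl ⟨y₁, h1, rfl⟩ ⟨y₂, h2', rfl⟩
    rw [this]; exact Set.image_subset_range φ m
  have hspan : LineSystem.span L S₀ = Set.range φ :=
    Set.Subset.antisymm (Set.sInter_subset_of_mem ⟨hS₀, hsub⟩) hgen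
  let e₀ : Y ≃ ↥(LineSystem.span L S₀) := Equiv.ofBijective (fun y => ⟨φ y, hgen ⟨y, rfl⟩⟩)
    ⟨fun y₁ y₂ h => hinj (congrArg Subtype.val h), fun x => by
      have hx : (x : X) ∈ Set.range φ := by rw [← hspan]; exact x.2
      obtain ⟨y, hy⟩ := hx
      exact ⟨y, Subtype.ext hy⟩⟩
  have he₀ : ∀ y, ((e₀ y : ↥(LineSystem.span L S₀)) : X) = φ y := fun y => rfl
  refine ⟨e₀.symm, ?_⟩
  intro l'
  constructor
  · rintro ⟨l, hl, hls, rfl⟩
    obtain ⟨m, hm, rfl⟩ := hline_eq l hl (by rw [← hspan]; exact hls)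
    have : e₀.symm '' {x : ↥(LineSystem.span L S₀) | (x : X) ∈ φ '' m} = m := by
      ext y
      constructor
      · rintro ⟨x, hx, rfl⟩
        obtain ⟨y', hy', hxy'⟩ := hx
        have : e₀ y' = x := Subtype.ext hxy'
        rw [← this, Equiv.symm_apply_apply]; exact hy'
      · intro hy
        exact ⟨e₀ y, ⟨y, hy, rfl⟩, Equiv.symm_apply_apply _ _⟩
    rw [this]; exact hm
  · intro hm
    refine ⟨φ '' (e₀.symm '' l'), hlines _ hm, ?_, ?_⟩
    · exact (Set.image_subset_range _ _).trans hgen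
    · ext x
      constructor
      · intro hx
        exact ⟨e₀.symm x, ⟨x, hx, rfl⟩, by rw [← he₀, Equiv.apply_symm_apply]⟩
      · rintro ⟨y, ⟨x', hx', rfl⟩, hy⟩
        have : x' = x := by
          apply Subtype.ext
          rw [← hy, ← he₀, Equiv.apply_symm_apply]
        rw [← this]; exact hx'

section grp
variable {G : Type*} [Group G]

/-- the triple relation -/
def T (D : Set G) (p q r : G) : Prop := p ∈ D ∧ q ∈ D ∧ ¬ Commute p q ∧ r = q * p * q⁻¹

/-- the triple of points -/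
def tri (D : Set G) (p q r : G) : Set ↥D := {z | (z : G) = p ∨ (z : G) = q ∨ (z : G) = r}

theorem comm_conj (g p q : G) : Commute (g * p * g⁻¹) (g * q * g⁻¹) ↔ Commute p q := by
  have e1 : g * p * g⁻¹ * (g * q * g⁻¹) = g * (p * q) * g⁻¹ := by group
  have e2 : g * q * g⁻¹ * (g * p * g⁻¹) = g * (q * p) * g⁻¹ := by group
  constructor
  · intro h
    have h' := h.eq
    rw [e1, e2] at h'
    exact mul_left_cancel (mul_right_cancel h')
  · intro h
    show g * p * g⁻¹ * (g * q * g⁻¹) = g * q * g⁻¹ * (g * p * g⁻¹)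
    rw [e1, e2, h.eq]

variable {D : Set G}

theorem sq1 (hD : IsThreeTranspositionGroup D) {d : G} (hd : d ∈ D) : d * d = 1 := by
  have h := hD.1.1 d hd
  have h2 : d ^ 2 = 1 := by rw [← h]; exact pow_orderOf_eq_one d
  rwa [pow_two] at h2

theorem inv1 (hD : IsThreeTranspositionGroup D) {d : G} (hd : d ∈ D) : d⁻¹ = d :=
  inv_eq_of_mul_eq_one_left (sq1 hD hd)

theorem braid (hD : IsThreeTranspositionGroup D) {p q : G} (hp : p ∈ D) (hq : q ∈ D)
    (hpq : ¬ Commute p q) : q * p * q = p * q * p := by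
  rcases hD.1.2 p hp q hq with h | h
  · exfalso; apply hpq
    have h1 : p * q * (p * q) = 1 := by rwa [pow_two] at h
    have h2 : (p * q)⁻¹ = p * q := inv_eq_of_mul_eq_one_left h1
    rw [mul_inv_rev, inv1 hD hp, inv1 hD hq] at h2
    exact h2.symm
  · have h1 : p * q * (p * q) * (p * q) = 1 := by
      rw [← h]; simp [pow_succ]
    have h2 : (p * q * p) * (q * p * q) = 1 := by rw [← h1]; group
    have h3 : (p * q * p)⁻¹ = q * p * q := inv_eq_of_mul_eq_one_right h2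
    rw [mul_inv_rev, mul_inv_rev, inv1 hD hp, inv1 hD hq, ← mul_assoc] at h3
    exact h3.symm

theorem Tswap (hD : IsThreeTranspositionGroup D) {p q r : G} (h : T D p q r) : T D q p r := by
  obtain ⟨hp, hq, hpq, hr⟩ := h
  refine ⟨hq, hp, fun hc => hpq hc.symm, ?_⟩
  rw [hr, inv1 hD hq, inv1 hD hp]; exact braid hD hp hq hpq

theorem Tcyc (hD : IsThreeTranspositionGroup D) {p q r : G} (h : T D p q r) : T D q r p := by
  obtain ⟨hp, hq, hpq, hr⟩ := h
  have hrD : r ∈ D := by rw [hr]; exact hD.2.1 q p hp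
  have hr' : r = q * p * q := by rw [hr, inv1 hD hq]
  have hpp := sq1 hD hp
  have hqq := sq1 hD hq
  have hb := braid hD hp hq hpq
  refine ⟨hq, hrD, ?_, ?_⟩
  · intro hc
    apply hpq
    have h1 : q * r = r * q := hc.eq
    rw [hr'] at h1
    have h2 : q * (q * p * q) = p * q := by rw [mul_assoc q p q, ← mul_assoc q q, hqq, one_mul]
    have h3 : q * p * q * q = q * p := by rw [mul_assoc (q * p) q q, hqq, mul_one]
    rw [h2, h3] at h1
    exact h1
  · rw [inv1 hD hrD, hr']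
    calc p = p * q * p * (p * q) := by
            rw [mul_assoc (p * q) p (p * q), ← mul_assoc p p q, hpp, one_mul, mul_assoc p q q, hqq,
              mul_one]
      _ = q * p * q * (p * q) := by rw [hb]
      _ = q * p * q * q * (q * p * q) := by
            rw [mul_assoc (q * p * q) q (q * p * q), ← mul_assoc q (q * p) q, ← mul_assoc q q p, hqq,
              one_mul]

theorem Tperm (hD : IsThreeTranspositionGroup D) {p q r : G} (h : T D p q r) :
    T D q p r ∧ T D q r p ∧ T D r p q ∧ T D p r q ∧ T D r q p :=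
  ⟨Tswap hD h, Tcyc hD h, Tcyc hD (Tcyc hD h), Tswap hD (Tcyc hD (Tcyc hD h)),
    Tswap hD (Tcyc hD h)⟩

theorem Tconj (hD : IsThreeTranspositionGroup D) {p q r : G} (h : T D p q r) (g : G) :
    T D (g * p * g⁻¹) (g * q * g⁻¹) (g * r * g⁻¹) := by
  obtain ⟨hp, hq, hpq, hr⟩ := h
  refine ⟨hD.2.1 g p hp, hD.2.1 g q hq, fun hc => hpq ((comm_conj g p q).mp hc), ?_⟩
  rw [hr]; group

theorem Tuniq {p q r r' : G} (h : T D p q r) (h' : T D p q r') : r = r' :=
  h.2.2.2.trans h'.2.2.2.symm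

theorem Tne {p q r : G} (h : T D p q r) : p ≠ q := fun h' => h.2.2.1 (h' ▸ Commute.refl p)

theorem Tmem3 (hD : IsThreeTranspositionGroup D) {p q r : G} (h : T D p q r) : r ∈ D := by
  rw [h.2.2.2]; exact hD.2.1 q p h.1

theorem tri_swap (p q r : G) : tri D p q r = tri D q p r := by
  ext z; simp only [tri, Set.mem_ofPred_eq]; tauto

theorem tri_cyc (p q r : G) : tri D p q r = tri D q r p := by
  ext z; simp only [tri, Set.mem_ofPred_eq]; tauto

theorem tri_23 (p q r : G) : tri D p q r = tri D p r q := by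
  ext z; simp only [tri, Set.mem_ofPred_eq]; tauto

theorem mem_lines {l : Set ↥D} :
    l ∈ threeTranspositionLines D ↔ ∃ p q r : G, T D p q r ∧ l = tri D p q r := by
  constructor
  · rintro ⟨x, y, hxy, rfl⟩
    exact ⟨x, y, y * x * (y : G)⁻¹, ⟨x.2, y.2, hxy, rfl⟩, rfl⟩
  · rintro ⟨p, q, r, ⟨hp, hq, hpq, rfl⟩, rfl⟩
    exact ⟨⟨p, hp⟩, ⟨q, hq⟩, hpq, rfl⟩

theorem two_points (hD : IsThreeTranspositionGroup D) {p q r : G} (h : T D p q r) {x y : G}
    (hx : x = p ∨ x = q ∨ x = r) (hy : y = p ∨ y = q ∨ y = r) (hxy : x ≠ y) :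
    ∃ c, T D x y c ∧ tri D p q r = tri D x y c := by
  obtain ⟨h1, h2, h3, h4, h5⟩ := Tperm hD h
  rcases hx with rfl | rfl | rfl <;> rcases hy with rfl | rfl | rfl
  · exact absurd rfl hxy
  · exact ⟨_, h, rfl⟩
  · exact ⟨_, h4, tri_23 _ _ _⟩
  · exact ⟨_, h1, tri_swap _ _ _⟩
  · exact absurd rfl hxy
  · exact ⟨_, h2, tri_cyc _ _ _⟩
  · exact ⟨_, h3, (tri_cyc _ _ _).trans (tri_cyc _ _ _)⟩
  · exact ⟨_, h5, (tri_23 _ _ _).trans (tri_cyc _ _ _)⟩
  · exact absurd rfl hxy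

theorem line_through (hD : IsThreeTranspositionGroup D) {p q r : G} (h : T D p q r) {z : G}
    (hz : z = p ∨ z = q ∨ z = r) : ∃ b c, T D z b c ∧ tri D p q r = tri D z b c := by
  obtain ⟨h1, h2, h3, h4, h5⟩ := Tperm hD h
  rcases hz with rfl | rfl | rfl
  · exact ⟨_, _, h, rfl⟩
  · exact ⟨_, _, h1, tri_swap _ _ _⟩
  · exact ⟨_, _, h3, (tri_cyc _ _ _).trans (tri_cyc _ _ _)⟩

theorem partial_linear (hD : IsThreeTranspositionGroup D) :
    LineSystem.IsPartialLinear (threeTranspositionLines D) := by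
  intro l hl m hm x y hxy hxl hyl hxm hym
  obtain ⟨p, q, r, hT, rfl⟩ := mem_lines.mp hl
  obtain ⟨p', q', r', hT', rfl⟩ := mem_lines.mp hm
  have hne : (x : G) ≠ y := fun h => hxy (Subtype.ext h)
  obtain ⟨c, hc, e1⟩ := two_points hD hT hxl hyl hne
  obtain ⟨c', hc', e2⟩ := two_points hD hT' hxm hym hne
  rw [e1, e2, Tuniq hc hc']

theorem tri_eq (hD : IsThreeTranspositionGroup D) {p q r : G} (h : T D p q r) :
    tri D p q r = {⟨p, h.1⟩, ⟨q, h.2.1⟩, ⟨r, Tmem3 hD h⟩} := by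
  ext z
  simp only [tri, Set.mem_ofPred_eq, Set.mem_insert_iff, Set.mem_singleton_iff, Subtype.ext_iff]

theorem ncard3 (hD : IsThreeTranspositionGroup D) :
    ∀ l ∈ threeTranspositionLines D, l.ncard = 3 := by
  intro l hl
  obtain ⟨p, q, r, hT, rfl⟩ := mem_lines.mp hl
  obtain ⟨h1, h2, h3, h4, h5⟩ := Tperm hD hT
  rw [tri_eq hD hT]
  refine Set.ncard_eq_three.mpr ⟨_, _, _, ?_, ?_, ?_, rfl⟩
  · exact fun h => Tne hT (congrArg Subtype.val h)
  · exact fun h => Tne h4 (congrArg Subtype.val h)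
  · exact fun h => Tne h2 (congrArg Subtype.val h)

theorem two_on_line (hD : IsThreeTranspositionGroup D) :
    ∀ l ∈ threeTranspositionLines D, ∃ x ∈ l, ∃ y ∈ l, x ≠ y := by
  intro l hl
  obtain ⟨p, q, r, hT, rfl⟩ := mem_lines.mp hl
  exact ⟨⟨p, hT.1⟩, Or.inl rfl, ⟨q, hT.2.1⟩, Or.inr (Or.inl rfl),
    fun h => Tne hT (congrArg Subtype.val h)⟩

theorem subset_span (S₀ : Set ↥D) :
    S₀ ⊆ LineSystem.span (threeTranspositionLines D) S₀ :=
  Set.subset_sInter fun _ hT' => hT'.1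

theorem span_closed (hD : IsThreeTranspositionGroup D) {S₀ : Set ↥D} {p q r : G} (h : T D p q r)
    (hp : (⟨p, h.1⟩ : ↥D) ∈ LineSystem.span (threeTranspositionLines D) S₀)
    (hq : (⟨q, h.2.1⟩ : ↥D) ∈ LineSystem.span (threeTranspositionLines D) S₀) :
    (⟨r, Tmem3 hD h⟩ : ↥D) ∈ LineSystem.span (threeTranspositionLines D) S₀ := by
  intro T' hT'
  have hl : tri D p q r ∈ threeTranspositionLines D := mem_lines.mpr ⟨p, q, r, h, rfl⟩
  have := hT'.2 _ hl ⟨p, h.1⟩ (hp T' hT') ⟨q, h.2.1⟩ (hq T' hT')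
    (fun h' => Tne h (congrArg Subtype.val h')) (Or.inl rfl) (Or.inr (Or.inl rfl))
  exact this (Or.inr (Or.inr rfl))

theorem model_iso (hD : IsThreeTranspositionGroup D) {Y : Type*} (M : Set (Set Y)) (φ : Y → ↥D)
    (h1 : ∀ m ∈ M, ∃ y₁ y₂ y₃ : Y, m = {y₁, y₂, y₃} ∧ T D (φ y₁ : G) (φ y₂) (φ y₃))
    (h2 : ∀ y₁ y₂ : Y, y₁ ≠ y₂ → (∃ m ∈ M, y₁ ∈ m ∧ y₂ ∈ m) ∨
        ((φ y₁ : G) ≠ φ y₂ ∧ Commute (φ y₁ : G) (φ y₂)))
    (S₀ : Set ↥D) (h3 : S₀ ⊆ Set.range φ)
    (h4 : Set.range φ ⊆ LineSystem.span (threeTranspositionLines D) S₀) :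
    LineSystem.Isomorphic (LineSystem.restrict (threeTranspositionLines D)
      (LineSystem.span (threeTranspositionLines D) S₀)) M := by
  have hA : ∀ m ∈ M, ∀ y₁ ∈ m, ∀ y₂ ∈ m, y₁ ≠ y₂ → ¬ Commute (φ y₁ : G) (φ y₂) := by
    intro m hm y₁ hy₁ y₂ hy₂ hne
    obtain ⟨z₁, z₂, z₃, rfl, hT⟩ := h1 m hm
    have hx : (φ y₁ : G) = φ z₁ ∨ (φ y₁ : G) = φ z₂ ∨ (φ y₁ : G) = φ z₃ := by
      rcases hy₁ with rfl | rfl | rfl
      · exact Or.inl rfl
      · exact Or.inr (Or.inl rfl)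
      · exact Or.inr (Or.inr rfl)
    have hy : (φ y₂ : G) = φ z₁ ∨ (φ y₂ : G) = φ z₂ ∨ (φ y₂ : G) = φ z₃ := by
      rcases hy₂ with rfl | rfl | rfl
      · exact Or.inl rfl
      · exact Or.inr (Or.inl rfl)
      · exact Or.inr (Or.inr rfl)
    obtain ⟨h1', h2', h3', h4', h5'⟩ := Tperm hD hT
    rcases hy₁ with rfl | rfl | rfl <;> rcases hy₂ with rfl | rfl | rfl
    · exact absurd rfl hne
    · exact hT.2.2.1
    · exact h4'.2.2.1
    · exact h1'.2.2.1
    · exact absurd rfl hne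
    · exact h2'.2.2.1
    · exact h3'.2.2.1
    · exact h5'.2.2.1
    · exact absurd rfl hne
  have hinj : Function.Injective φ := by
    intro y₁ y₂ h
    by_contra hne
    rcases h2 y₁ y₂ hne with ⟨m, hm, h1', h2'⟩ | ⟨h', _⟩
    · exact hA m hm y₁ h1' y₂ h2' hne (by rw [h])
    · exact h' (by rw [h])
  refine iso_of_model _ M (partial_linear hD) (two_on_line hD) φ hinj S₀ h3 h4 ?_ ?_
  · intro m hm
    obtain ⟨z₁, z₂, z₃, rfl, hT⟩ := h1 m hm
    refine mem_lines.mpr ⟨_, _, _, hT, ?_⟩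
    ext z
    simp only [tri, Set.mem_ofPred_eq, Set.mem_image, Set.mem_insert_iff, Set.mem_singleton_iff]
    constructor
    · rintro ⟨y, hy | hy | hy, rfl⟩
      · rw [hy]; exact Or.inl rfl
      · rw [hy]; exact Or.inr (Or.inl rfl)
      · rw [hy]; exact Or.inr (Or.inr rfl)
    · rintro (h | h | h)
      · exact ⟨z₁, Or.inl rfl, Subtype.ext h.symm⟩
      · exact ⟨z₂, Or.inr (Or.inl rfl), Subtype.ext h.symm⟩
      · exact ⟨z₃, Or.inr (Or.inr rfl), Subtype.ext h.symm⟩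
  · intro y₁ y₂ hne ⟨l, hl, hl1, hl2⟩
    rcases h2 y₁ y₂ hne with h | ⟨h', hc⟩
    · exact h
    · exfalso
      obtain ⟨p, q, r, hT, rfl⟩ := mem_lines.mp hl
      obtain ⟨c, hc', _⟩ := two_points hD hT hl1 hl2 h'
      exact hc'.2.2.1 hc


/-- coding of the points of the dual affine plane -/
def encD (s : Finset (Fin 4)) : ℕ :=
  if s = {0, 1} then 0 else if s = {1, 2} then 1 else if s = {2, 3} then 2
  else if s = {0, 2} then 3 else if s = {1, 3} then 4 else 5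

/-- six points -/
def pt6 (b a d c e f : G) (n : ℕ) : G :=
  if n = 0 then b else if n = 1 then a else if n = 2 then d else if n = 3 then c
  else if n = 4 then e else if n = 5 then f else a

theorem combD1 : ∀ s : DualAffinePoint,
    ((0 : Fin 4) ∉ s.1 ↔ (s.1 = {1, 2} ∨ s.1 = {2, 3} ∨ s.1 = {1, 3})) ∧
    ((1 : Fin 4) ∉ s.1 ↔ (s.1 = {0, 2} ∨ s.1 = {2, 3} ∨ s.1 = {0, 3})) ∧
    ((2 : Fin 4) ∉ s.1 ↔ (s.1 = {0, 1} ∨ s.1 = {1, 3} ∨ s.1 = {0, 3})) ∧
    ((3 : Fin 4) ∉ s.1 ↔ (s.1 = {0, 1} ∨ s.1 = {1, 2} ∨ s.1 = {0, 2})) := by decide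

theorem combD2 : ∀ s t : DualAffinePoint, s ≠ t →
    (∃ i : Fin 4, i ∉ s.1 ∧ i ∉ t.1) ∨ (encD s.1 = 0 ∧ encD t.1 = 2) ∨
    (encD s.1 = 2 ∧ encD t.1 = 0) ∨ (encD s.1 = 1 ∧ encD t.1 = 5) ∨
    (encD s.1 = 5 ∧ encD t.1 = 1) ∨ (encD s.1 = 3 ∧ encD t.1 = 4) ∨
    (encD s.1 = 4 ∧ encD t.1 = 3) := by decide

theorem encD_vals : encD {0, 1} = 0 ∧ encD {1, 2} = 1 ∧ encD {2, 3} = 2 ∧ encD {0, 2} = 3 ∧
    encD {1, 3} = 4 ∧ encD {0, 3} = 5 := by decide

theorem dual_case (hD : IsThreeTranspositionGroup D) {a b c d e : G} (h1 : T D a b c)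
    (h2 : T D a d e) (hbd : Commute b d) (hne : b ≠ d) :
    LineSystem.Isomorphic (LineSystem.restrict (threeTranspositionLines D)
      (LineSystem.span (threeTranspositionLines D) (tri D a b c ∪ tri D a d e)))
      dualAffinePlaneTwo := by
  obtain ⟨p1, p2, p3, p4, p5⟩ := Tperm hD h1
  obtain ⟨q1, q2, q3, q4, q5⟩ := Tperm hD h2
  have ha := h1.1
  have hb := h1.2.1
  have hd := h2.2.1
  have hc := Tmem3 hD h1
  have he := Tmem3 hD h2
  have hbdb : b * d * b⁻¹ = d := mul_inv_eq_iff_eq_mul.mpr hbd.eq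
  have hdbd : d * b * d⁻¹ = b := mul_inv_eq_iff_eq_mul.mpr hbd.symm.eq
  -- c and d do not commute
  have hcd : ¬ Commute c d := by
    intro hcom
    rw [h1.2.2.2, ← hbdb] at hcom
    exact h2.2.2.1 ((comm_conj b a d).mp hcom)
  obtain ⟨f, hf⟩ : ∃ f, f = d * c * d⁻¹ := ⟨_, rfl⟩
  have Tcdf : T D c d f := ⟨hc, hd, hcd, hf⟩
  have hfD := Tmem3 hD Tcdf
  have hbe : ¬ Commute e b := by
    intro hcom
    rw [h2.2.2.2, ← hdbd] at hcom
    exact h1.2.2.1 ((comm_conj d a b).mp hcom)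
  have hf2 : f = b * e * b⁻¹ := by
    rw [hf, h1.2.2.2, h2.2.2.2]
    calc d * (b * a * b⁻¹) * d⁻¹ = (d * b) * a * (d * b)⁻¹ := by group
      _ = (b * d) * a * (b * d)⁻¹ := by rw [hbd.eq]
      _ = b * (d * a * d⁻¹) * b⁻¹ := by group
  have Tebf : T D e b f := ⟨he, hb, hbe, hf2⟩
  have Tbef : T D b e f := Tswap hD Tebf
  -- a commutes with f
  have haf : Commute a f := by
    have h3 : a * f * a⁻¹ = f := by
      have e1 : a * d * a⁻¹ = e := q1.2.2.2.symm
      have e2 : a * c * a⁻¹ = b := p3.2.2.2.symm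
      calc a * f * a⁻¹ = (a * d * a⁻¹) * (a * c * a⁻¹) * (a * d * a⁻¹)⁻¹ := by rw [hf]; group
        _ = e * b * e⁻¹ := by rw [e1, e2]
        _ = f := Tbef.2.2.2.symm
    exact mul_inv_eq_iff_eq_mul.mp h3
  have hce : Commute c e := by
    rw [p1.2.2.2, q1.2.2.2]
    exact (comm_conj a b d).mpr hbd
  have haf' : a ≠ f := by
    intro h
    rw [← h] at Tcdf
    have := Tuniq (Tperm hD Tcdf).2.2.1 p4
    exact hne this.symm
  have hce' : c ≠ e := by
    intro h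
    rw [← h] at h2
    have := Tuniq (Tperm hD h2).2.2.2.1 p4
    exact hne this.symm
  -- the model
  have hmem : ∀ n, pt6 b a d c e f n ∈ D := by
    intro n; unfold pt6; split_ifs <;> assumption
  have hv0 : pt6 b a d c e f 0 = b := rfl
  have hv1 : pt6 b a d c e f 1 = a := rfl
  have hv2 : pt6 b a d c e f 2 = d := rfl
  have hv3 : pt6 b a d c e f 3 = c := rfl
  have hv4 : pt6 b a d c e f 4 = e := rfl
  have hv5 : pt6 b a d c e f 5 = f := rfl
  obtain ⟨ev0, ev1, ev2, ev3, ev4, ev5⟩ := encD_vals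
  let φ : DualAffinePoint → ↥D := fun s => ⟨pt6 b a d c e f (encD s.1), hmem _⟩
  have hφ : ∀ s : DualAffinePoint, (φ s : G) = pt6 b a d c e f (encD s.1) := fun _ => rfl
  refine model_iso hD dualAffinePlaneTwo φ ?_ ?_ _ ?_ ?_
  · rintro m ⟨i, rfl⟩
    have hi : i = 0 ∨ i = 1 ∨ i = 2 ∨ i = 3 := by
      revert i; decide
    rcases hi with rfl | rfl | rfl | rfl
    · refine ⟨⟨{1, 2}, rfl⟩, ⟨{2, 3}, rfl⟩, ⟨{1, 3}, rfl⟩, ?_, ?_⟩
      · ext s
        simp only [Set.mem_ofPred_eq, Set.mem_insert_iff, Set.mem_singleton_iff, Subtype.ext_iff]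
        exact (combD1 s).1
      · rw [hφ, hφ, hφ, ev1, ev2, ev4, hv1, hv2, hv4]; exact h2
    · refine ⟨⟨{0, 2}, rfl⟩, ⟨{2, 3}, rfl⟩, ⟨{0, 3}, rfl⟩, ?_, ?_⟩
      · ext s
        simp only [Set.mem_ofPred_eq, Set.mem_insert_iff, Set.mem_singleton_iff, Subtype.ext_iff]
        exact (combD1 s).2.1
      · rw [hφ, hφ, hφ, ev3, ev2, ev5, hv3, hv2, hv5]; exact Tcdf
    · refine ⟨⟨{0, 1}, rfl⟩, ⟨{1, 3}, rfl⟩, ⟨{0, 3}, rfl⟩, ?_, ?_⟩
      · ext s
        simp only [Set.mem_ofPred_eq, Set.mem_insert_iff, Set.mem_singleton_iff, Subtype.ext_iff]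
        exact (combD1 s).2.2.1
      · rw [hφ, hφ, hφ, ev0, ev4, ev5, hv0, hv4, hv5]; exact Tbef
    · refine ⟨⟨{0, 1}, rfl⟩, ⟨{1, 2}, rfl⟩, ⟨{0, 2}, rfl⟩, ?_, ?_⟩
      · ext s
        simp only [Set.mem_ofPred_eq, Set.mem_insert_iff, Set.mem_singleton_iff, Subtype.ext_iff]
        exact (combD1 s).2.2.2
      · rw [hφ, hφ, hφ, ev0, ev1, ev3, hv0, hv1, hv3]; exact p1
  · intro s t hst
    rcases combD2 s t hst with ⟨i, hi1, hi2⟩ | ⟨e1, e2⟩ | ⟨e1, e2⟩ | ⟨e1, e2⟩ | ⟨e1, e2⟩ |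
      ⟨e1, e2⟩ | ⟨e1, e2⟩
    · exact Or.inl ⟨{s | i ∉ s.1}, ⟨i, rfl⟩, hi1, hi2⟩
    · right; rw [hφ, hφ, e1, e2, hv0, hv2]; exact ⟨hne, hbd⟩
    · right; rw [hφ, hφ, e1, e2, hv0, hv2]; exact ⟨hne.symm, hbd.symm⟩
    · right; rw [hφ, hφ, e1, e2, hv1, hv5]; exact ⟨haf', haf⟩
    · right; rw [hφ, hφ, e1, e2, hv1, hv5]; exact ⟨haf'.symm, haf.symm⟩
    · right; rw [hφ, hφ, e1, e2, hv3, hv4]; exact ⟨hce', hce⟩
    · right; rw [hφ, hφ, e1, e2, hv3, hv4]; exact ⟨hce'.symm, hce.symm⟩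
  · rintro z (hz | hz)
    · rcases hz with h | h | h
      · exact ⟨⟨{1, 2}, rfl⟩, Subtype.ext (by rw [hφ, ev1, hv1, h])⟩
      · exact ⟨⟨{0, 1}, rfl⟩, Subtype.ext (by rw [hφ, ev0, hv0, h])⟩
      · exact ⟨⟨{0, 2}, rfl⟩, Subtype.ext (by rw [hφ, ev3, hv3, h])⟩
    · rcases hz with h | h | h
      · exact ⟨⟨{1, 2}, rfl⟩, Subtype.ext (by rw [hφ, ev1, hv1, h])⟩
      · exact ⟨⟨{2, 3}, rfl⟩, Subtype.ext (by rw [hφ, ev2, hv2, h])⟩
      · exact ⟨⟨{1, 3}, rfl⟩, Subtype.ext (by rw [hφ, ev4, hv4, h])⟩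
  · have hS := subset_span (tri D a b c ∪ tri D a d e)
    have sa : (⟨a, ha⟩ : ↥D) ∈ LineSystem.span (threeTranspositionLines D)
        (tri D a b c ∪ tri D a d e) := hS (Or.inl (Or.inl rfl))
    have sb : (⟨b, hb⟩ : ↥D) ∈ LineSystem.span (threeTranspositionLines D)
        (tri D a b c ∪ tri D a d e) := hS (Or.inl (Or.inr (Or.inl rfl)))
    have sc : (⟨c, hc⟩ : ↥D) ∈ LineSystem.span (threeTranspositionLines D)
        (tri D a b c ∪ tri D a d e) := hS (Or.inl (Or.inr (Or.inr rfl)))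
    have sd : (⟨d, hd⟩ : ↥D) ∈ LineSystem.span (threeTranspositionLines D)
        (tri D a b c ∪ tri D a d e) := hS (Or.inr (Or.inr (Or.inl rfl)))
    have se : (⟨e, he⟩ : ↥D) ∈ LineSystem.span (threeTranspositionLines D)
        (tri D a b c ∪ tri D a d e) := hS (Or.inr (Or.inr (Or.inr rfl)))
    have sf : (⟨f, hfD⟩ : ↥D) ∈ LineSystem.span (threeTranspositionLines D)
        (tri D a b c ∪ tri D a d e) := span_closed hD Tcdf sc sd
    have hall : ∀ n (h : pt6 b a d c e f n ∈ D), (⟨pt6 b a d c e f n, h⟩ : ↥D) ∈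
        LineSystem.span (threeTranspositionLines D) (tri D a b c ∪ tri D a d e) := by
      intro n h
      by_cases h0 : n = 0
      · subst h0; exact sb
      by_cases h1 : n = 1
      · subst h1; exact sa
      by_cases h2 : n = 2
      · subst h2; exact sd
      by_cases h3 : n = 3
      · subst h3; exact sc
      by_cases h4 : n = 4
      · subst h4; exact se
      by_cases h5 : n = 5
      · subst h5; exact sf
      · have : pt6 b a d c e f n = a := by
          unfold pt6; rw [if_neg h0, if_neg h1, if_neg h2, if_neg h3, if_neg h4, if_neg h5]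
        have h' : (⟨pt6 b a d c e f n, h⟩ : ↥D) = ⟨a, ha⟩ := Subtype.ext this
        rw [h']; exact sa
    rintro _ ⟨s, rfl⟩
    exact hall _ _


/-- coding of the points of the affine plane -/
def encA (x y : ZMod 3) : ℕ := 3 * x.val + y.val

/-- nine points -/
def pt9 (a d e b k h c g f : G) (n : ℕ) : G :=
  if n = 0 then a else if n = 1 then d else if n = 2 then e else if n = 3 then b
  else if n = 4 then k else if n = 5 then h else if n = 6 then c else if n = 7 then g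
  else if n = 8 then f else a

/-- the twelve lines -/
def baseA : List (ℕ × ℕ × ℕ) :=
  [(0, 3, 6), (1, 4, 7), (2, 5, 8), (0, 1, 2), (3, 4, 5), (6, 7, 8), (0, 4, 8), (3, 7, 2),
    (6, 1, 5), (0, 5, 7), (3, 8, 1), (6, 2, 4)]

/-- the six orderings -/
def perms (t : ℕ × ℕ × ℕ) : List (ℕ × ℕ × ℕ) :=
  [(t.1, t.2.1, t.2.2), (t.2.1, t.1, t.2.2), (t.2.1, t.2.2, t.1), (t.2.2, t.1, t.2.1),
    (t.1, t.2.2, t.2.1), (t.2.2, t.2.1, t.1)]

theorem combA : ∀ x y x' y' : ZMod 3, (x ≠ x' ∨ y ≠ y') →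
    ∃ t ∈ baseA, (encA x y, encA x' y', encA (-x - x') (-y - y')) ∈ perms t := by decide

theorem zmod3_cases : ∀ c : ZMod 3, c = 0 ∨ c = 1 ∨ c = 2 := by decide

theorem zmod3_third : ∀ x y : ZMod 3, -x - (x + y) = x + 2 * y := by decide

theorem encA_vals : encA 0 0 = 0 ∧ encA 1 0 = 3 ∧ encA 2 0 = 6 ∧ encA 0 1 = 1 ∧ encA 0 2 = 2 := by
  decide

theorem affine_case (hD : IsThreeTranspositionGroup D) {a b c d e : G} (h1 : T D a b c)
    (h2 : T D a d e) (hbd : ¬ Commute b d) (hbe : ¬ Commute b e) (hcd : ¬ Commute c d)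
    (hce : ¬ Commute c e) :
    LineSystem.Isomorphic (LineSystem.restrict (threeTranspositionLines D)
      (LineSystem.span (threeTranspositionLines D) (tri D a b c ∪ tri D a d e)))
      affinePlaneThree := by
  obtain ⟨p1, p2, p3, p4, p5⟩ := Tperm hD h1
  obtain ⟨q1, q2, q3, q4, q5⟩ := Tperm hD h2
  have ha := h1.1
  have hb := h1.2.1
  have hd := h2.2.1
  have hc := Tmem3 hD h1
  have he := Tmem3 hD h2
  obtain ⟨f, hf⟩ : ∃ f, f = d * b * d⁻¹ := ⟨_, rfl⟩
  obtain ⟨g, hg⟩ : ∃ g, g = e * b * e⁻¹ := ⟨_, rfl⟩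
  obtain ⟨h, hh⟩ : ∃ h, h = d * c * d⁻¹ := ⟨_, rfl⟩
  obtain ⟨k, hk⟩ : ∃ k, k = e * c * e⁻¹ := ⟨_, rfl⟩
  have Tbdf : T D b d f := ⟨hb, hd, hbd, hf⟩
  have Tbeg : T D b e g := ⟨hb, he, hbe, hg⟩
  have Tcdh : T D c d h := ⟨hc, hd, hcd, hh⟩
  have Tcek : T D c e k := ⟨hc, he, hce, hk⟩
  have hfD := Tmem3 hD Tbdf
  have hgD := Tmem3 hD Tbeg
  have hhD := Tmem3 hD Tcdh
  have hkD := Tmem3 hD Tcek
  have Tbge : T D b g e := (Tperm hD Tbeg).2.2.2.1
  have Tbfd : T D b f d := (Tperm hD Tbdf).2.2.2.1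
  have Tehf : T D e h f := by
    have := Tconj hD h1 d
    rw [← h2.2.2.2, ← hf, ← hh] at this
    exact (Tperm hD this).2.2.2.1
  have Tdkg : T D d k g := by
    have := Tconj hD h1 e
    rw [← q4.2.2.2, ← hg, ← hk] at this
    exact (Tperm hD this).2.2.2.1
  have Tcgf : T D c g f := by
    have := Tconj hD h2 b
    rw [← h1.2.2.2, ← (Tswap hD Tbdf).2.2.2, ← (Tswap hD Tbeg).2.2.2] at this
    exact (Tperm hD this).2.2.2.1
  have Tbkh : T D b k h := by
    have := Tconj hD h2 c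
    rw [← p4.2.2.2, ← (Tswap hD Tcdh).2.2.2, ← (Tswap hD Tcek).2.2.2] at this
    exact (Tperm hD this).2.2.2.1
  have Takf : T D a k f := by
    have := Tconj hD Tcek a
    rw [← p3.2.2.2, ← q3.2.2.2] at this
    have hfk : f = a * k * a⁻¹ := Tuniq Tbdf this
    have hka : ¬ Commute k a := by
      intro hcom
      have := (comm_conj e k a).mpr hcom
      rw [← (Tperm hD Tcek).2.2.2.2.2.2.2, ← q4.2.2.2] at this
      exact hcd this
    exact Tswap hD ⟨hkD, ha, hka, hfk⟩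
  have Tahg : T D a h g := by
    have := Tconj hD Tcdh a
    rw [← p3.2.2.2, ← q1.2.2.2] at this
    have hgh : g = a * h * a⁻¹ := Tuniq Tbeg this
    have hha : ¬ Commute h a := by
      intro hcom
      have := (comm_conj d h a).mpr hcom
      rw [← (Tperm hD Tcdh).2.2.2.2.2.2.2, ← h2.2.2.2] at this
      exact hce this
    exact Tswap hD ⟨hhD, ha, hha, hgh⟩
  have hmem : ∀ n, pt9 a d e b k h c g f n ∈ D := by
    intro n; unfold pt9; split_ifs <;> assumption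
  have hbase : ∀ t ∈ baseA, T D (pt9 a d e b k h c g f t.1) (pt9 a d e b k h c g f t.2.1)
      (pt9 a d e b k h c g f t.2.2) := by
    intro t ht
    simp only [baseA, List.mem_cons, List.not_mem_nil, or_false] at ht
    rcases ht with rfl | rfl | rfl | rfl | rfl | rfl | rfl | rfl | rfl | rfl | rfl | rfl
    · exact h1
    · exact Tdkg
    · exact Tehf
    · exact h2
    · exact Tbkh
    · exact Tcgf
    · exact Takf
    · exact Tbge
    · exact Tcdh
    · exact Tahg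
    · exact Tbfd
    · exact Tcek
  let φ : (Fin 2 → ZMod 3) → ↥D := fun u => ⟨pt9 a d e b k h c g f (encA (u 0) (u 1)), hmem _⟩
  have hφ : ∀ u : Fin 2 → ZMod 3, (φ u : G) = pt9 a d e b k h c g f (encA (u 0) (u 1)) :=
    fun _ => rfl
  have Key : ∀ u v : Fin 2 → ZMod 3, u ≠ v → T D (φ u : G) (φ v) (φ (-u - v)) := by
    intro u v huv
    have hne : u 0 ≠ v 0 ∨ u 1 ≠ v 1 := by
      by_contra hcon
      rw [not_or, not_not, not_not] at hcon
      apply huv
      funext i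
      fin_cases i
      · exact hcon.1
      · exact hcon.2
    obtain ⟨t, ht, hmem'⟩ := combA (u 0) (u 1) (v 0) (v 1) hne
    have hT := hbase t ht
    obtain ⟨r1, r2, r3, r4, r5⟩ := Tperm hD hT
    have e3 : (φ (-u - v) : G) = pt9 a d e b k h c g f (encA (-u 0 - v 0) (-u 1 - v 1)) := rfl
    rw [hφ, hφ, e3]
    simp only [perms, List.mem_cons, List.not_mem_nil, or_false, Prod.mk.injEq] at hmem'
    rcases hmem' with ⟨a1, a2, a3⟩ | ⟨a1, a2, a3⟩ | ⟨a1, a2, a3⟩ | ⟨a1, a2, a3⟩ | ⟨a1, a2, a3⟩ |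
      ⟨a1, a2, a3⟩
    · rw [a1, a2, a3]; exact hT
    · rw [a1, a2, a3]; exact r1
    · rw [a1, a2, a3]; exact r2
    · rw [a1, a2, a3]; exact r3
    · rw [a1, a2, a3]; exact r4
    · rw [a1, a2, a3]; exact r5
  obtain ⟨ev0, ev3, ev6, ev1, ev2⟩ := encA_vals
  refine model_iso hD affinePlaneThree φ ?_ ?_ _ ?_ ?_
  · rintro m ⟨v, w, hw, rfl⟩
    refine ⟨v, v + w, v + (2 : ZMod 3) • w, ?_, ?_⟩
    · ext x
      simp only [Set.mem_ofPred_eq, Set.mem_insert_iff, Set.mem_singleton_iff]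
      constructor
      · rintro ⟨c', rfl⟩
        rcases zmod3_cases c' with rfl | rfl | rfl
        · left; simp
        · right; left; simp
        · right; right; rfl
      · rintro (rfl | rfl | rfl)
        · exact ⟨0, by simp⟩
        · exact ⟨1, by simp⟩
        · exact ⟨2, rfl⟩
    · have hne : v ≠ v + w := fun h' => hw (by simpa using h')
      have hK := Key v (v + w) hne
      have e : -v - (v + w) = v + (2 : ZMod 3) • w := by
        funext i
        simp only [Pi.sub_apply, Pi.neg_apply, Pi.add_apply, Pi.smul_apply, smul_eq_mul]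
        exact zmod3_third _ _
      rw [e] at hK
      exact hK
  · intro y₁ y₂ hne
    left
    exact ⟨{x | ∃ c' : ZMod 3, x = y₁ + c' • (y₂ - y₁)},
      ⟨y₁, y₂ - y₁, sub_ne_zero.mpr hne.symm, rfl⟩, ⟨0, by simp⟩, ⟨1, by simp⟩⟩
  · have hφ2 : ∀ x y : ZMod 3, (φ ![x, y] : G) = pt9 a d e b k h c g f (encA x y) :=
      fun _ _ => rfl
    rintro z (hz | hz)
    · rcases hz with h' | h' | h'
      · exact ⟨![0, 0], Subtype.ext (by rw [hφ2, ev0, h']; rfl)⟩
      · exact ⟨![1, 0], Subtype.ext (by rw [hφ2, ev3, h']; rfl)⟩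
      · exact ⟨![2, 0], Subtype.ext (by rw [hφ2, ev6, h']; rfl)⟩
    · rcases hz with h' | h' | h'
      · exact ⟨![0, 0], Subtype.ext (by rw [hφ2, ev0, h']; rfl)⟩
      · exact ⟨![0, 1], Subtype.ext (by rw [hφ2, ev1, h']; rfl)⟩
      · exact ⟨![0, 2], Subtype.ext (by rw [hφ2, ev2, h']; rfl)⟩
  · have hS := subset_span (tri D a b c ∪ tri D a d e)
    have sa : (⟨a, ha⟩ : ↥D) ∈ LineSystem.span (threeTranspositionLines D)
        (tri D a b c ∪ tri D a d e) := hS (Or.inl (Or.inl rfl))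
    have sb : (⟨b, hb⟩ : ↥D) ∈ LineSystem.span (threeTranspositionLines D)
        (tri D a b c ∪ tri D a d e) := hS (Or.inl (Or.inr (Or.inl rfl)))
    have sc : (⟨c, hc⟩ : ↥D) ∈ LineSystem.span (threeTranspositionLines D)
        (tri D a b c ∪ tri D a d e) := hS (Or.inl (Or.inr (Or.inr rfl)))
    have sd : (⟨d, hd⟩ : ↥D) ∈ LineSystem.span (threeTranspositionLines D)
        (tri D a b c ∪ tri D a d e) := hS (Or.inr (Or.inr (Or.inl rfl)))
    have se : (⟨e, he⟩ : ↥D) ∈ LineSystem.span (threeTranspositionLines D)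
        (tri D a b c ∪ tri D a d e) := hS (Or.inr (Or.inr (Or.inr rfl)))
    have sf : (⟨f, hfD⟩ : ↥D) ∈ LineSystem.span (threeTranspositionLines D)
        (tri D a b c ∪ tri D a d e) := span_closed hD Tbdf sb sd
    have sg : (⟨g, hgD⟩ : ↥D) ∈ LineSystem.span (threeTranspositionLines D)
        (tri D a b c ∪ tri D a d e) := span_closed hD Tbeg sb se
    have sh : (⟨h, hhD⟩ : ↥D) ∈ LineSystem.span (threeTranspositionLines D)
        (tri D a b c ∪ tri D a d e) := span_closed hD Tcdh sc sd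
    have sk : (⟨k, hkD⟩ : ↥D) ∈ LineSystem.span (threeTranspositionLines D)
        (tri D a b c ∪ tri D a d e) := span_closed hD Tcek sc se
    have hall : ∀ n (h' : pt9 a d e b k h c g f n ∈ D), (⟨pt9 a d e b k h c g f n, h'⟩ : ↥D) ∈
        LineSystem.span (threeTranspositionLines D) (tri D a b c ∪ tri D a d e) := by
      intro n h'
      by_cases h0 : n = 0
      · subst h0; exact sa
      by_cases h1 : n = 1
      · subst h1; exact sd
      by_cases h2 : n = 2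
      · subst h2; exact se
      by_cases h3 : n = 3
      · subst h3; exact sb
      by_cases h4 : n = 4
      · subst h4; exact sk
      by_cases h5 : n = 5
      · subst h5; exact sh
      by_cases h6 : n = 6
      · subst h6; exact sc
      by_cases h7 : n = 7
      · subst h7; exact sg
      by_cases h8 : n = 8
      · subst h8; exact sf
      · have : pt9 a d e b k h c g f n = a := by
          unfold pt9
          rw [if_neg h0, if_neg h1, if_neg h2, if_neg h3, if_neg h4, if_neg h5, if_neg h6,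
            if_neg h7, if_neg h8]
        have h'' : (⟨pt9 a d e b k h c g f n, h'⟩ : ↥D) = ⟨a, ha⟩ := Subtype.ext this
        rw [h'']; exact sa
    rintro _ ⟨s, rfl⟩
    exact hall _ _

theorem tri_ne {a b c b' c' : G} (h1 : T D a b c) (h2 : T D a b' c')
    (hne : tri D a b c ≠ tri D a b' c') : b ≠ b' := by
  intro h
  subst h
  exact hne (by rw [Tuniq h1 h2])

end grp

/-- Let D be a conjugation-invariant generating set of 3-transpositions of a finite group G. Then the line system on D whose lines are the triples {x, y, y x y⁻¹} for non-commuting members x, y of D is a Fischer space: two points lie on at most one line, lines have three points, and two different meeting lines generate a subspace isomorphic to the dual affine plane of order two or to the affine plane of order three. -/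
theorem result {G : Type*} [Group G] [Finite G] {D : Set G} (hD : Cfsg.IsThreeTranspositionGroup D) : Cfsg.IsFischerSpace (Cfsg.threeTranspositionLines D) := by
  refine ⟨partial_linear hD, ncard3 hD, ?_⟩
  intro l hl m hm hlm hne
  obtain ⟨z, hzl, hzm⟩ := hne
  obtain ⟨p, q, r, hT, rfl⟩ := mem_lines.mp hl
  obtain ⟨p', q', r', hT', rfl⟩ := mem_lines.mp hm
  obtain ⟨b, c, h1, e1⟩ := line_through hD hT hzl
  obtain ⟨d, e, h2, e2⟩ := line_through hD hT' hzm
  rw [e1, e2] at hlm ⊢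
  have p4 : T D (z : G) c b := (Tperm hD h1).2.2.2.1
  have q4 : T D (z : G) e d := (Tperm hD h2).2.2.2.1
  by_cases hbd : Commute b d
  · left; exact dual_case hD h1 h2 hbd (tri_ne h1 h2 hlm)
  by_cases hbe : Commute b e
  · left
    rw [tri_23 (z : G) d e]
    exact dual_case hD h1 q4 hbe (tri_ne h1 q4 (by rw [← tri_23 (z : G) d e]; exact hlm))
  by_cases hcd : Commute c d
  · left
    rw [tri_23 (z : G) b c]
    exact dual_case hD p4 h2 hcd (tri_ne p4 h2 (by rw [← tri_23 (z : G) b c]; exact hlm))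
  by_cases hce : Commute c e
  · left
    rw [tri_23 (z : G) b c, tri_23 (z : G) d e]
    exact dual_case hD p4 q4 hce
      (tri_ne p4 q4 (by rw [← tri_23 (z : G) b c, ← tri_23 (z : G) d e]; exact hlm))
  · right; exact affine_case hD h1 h2 hbd hbe hcd hce

end Cfsg.Agent.S5367
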