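import Cfsg.Statements.S5394
import Cfsg.Agent.Lib.Helper28.M24Class

set_option autoImplicit false
open Cfsg

namespace Cfsg.Agent.S5394

open Cfsg.Agent.Lib.Helper3.Golay Cfsg.Agent.Lib.Helper3.Golay2
  Cfsg.Agent.Lib.Helper3.GolayM24 Cfsg.Agent.Lib.Helper28.M24Trans
  Cfsg.Agent.Lib.Helper28.M24Six Cfsg.Agent.Lib.Helper28.M24Enum
  Cfsg.Agent.Lib.Helper28.M24Class

theorem ord2_iff {g : Equiv.Perm GolayPt} : orderOf g = 2 ↔ g * g = 1 ∧ g ≠ 1 := by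
  constructor
  · intro h
    refine ⟨?_, ?_⟩
    · rw [← pow_two, ← h]
      exact pow_orderOf_eq_one g
    · intro e
      rw [e, orderOf_one] at h
      exact absurd h (by decide)
  · rintro ⟨h2, h1⟩
    exact orderOf_eq_prime (by rw [pow_two]; exact h2) h1

theorem T2A_sq : P T2A * P T2A = 1 :=
  isIdx_eq (isIdx_mul (isIdx_P T2A_vld) (isIdx_P T2A_vld)) isIdx_one (by decide +kernel)

theorem T2B_sq : P T2B * P T2B = 1 :=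
  isIdx_eq (isIdx_mul (isIdx_P T2B_vld) (isIdx_P T2B_vld)) isIdx_one (by decide +kernel)

theorem T2B_fpf : ∀ p, P T2B p ≠ p := by
  intro p h
  rw [isIdx_fix (isIdx_P T2B_vld)] at h
  have key : ∀ i < 24, dig T2B i ≠ i := by decide +kernel
  exact key _ (idx_lt p) h

theorem T2A_fix : ∃ i < 24, dig T2A i = i ∧ ∃ j < 24, dig T2A j ≠ j := by decide +kernel

theorem T2A_ne : P T2A ≠ 1 := by
  obtain ⟨i, hi, -, j, hj, hne⟩ := T2A_fix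
  intro e
  exact hne (isIdx_congr (isIdx_P T2A_vld) isIdx_one e j hj)

theorem T2B_ne : P T2B ≠ 1 := by
  intro e
  have := T2B_fpf (pt 0)
  rw [e] at this
  exact this rfl

theorem T2A_fixpt : ∃ a, P T2A a = a := by
  obtain ⟨i, hi, h, -⟩ := T2A_fix
  refine ⟨pt i, ?_⟩
  rw [isIdx_fix (isIdx_P T2A_vld), idx_pt i hi]
  exact h

theorem conj_two {g h c1 c2 T : Equiv.Perm GolayPt} (e1 : c1 * g * c1⁻¹ = T)
    (e2 : c2 * h * c2⁻¹ = T) : (c2⁻¹ * c1) * g * (c2⁻¹ * c1)⁻¹ = h := by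
  have : h = c2⁻¹ * T * c2 := by rw [← e2]; group
  rw [this, ← e1]
  group

theorem result : (∀ g ∈ Cfsg.M24, orderOf g = 2 → (Finset.univ.filter fun p => g p = p) ∈ Cfsg.octads ∨ ∀ p, g p ≠ p) ∧ (∃ g ∈ Cfsg.M24, orderOf g = 2 ∧ (Finset.univ.filter fun p => g p = p) ∈ Cfsg.octads) ∧ (∃ g ∈ Cfsg.M24, orderOf g = 2 ∧ ∀ p, g p ≠ p) ∧ ∀ g ∈ Cfsg.M24, ∀ h ∈ Cfsg.M24, orderOf g = 2 → orderOf h = 2 → ((∀ p, g p ≠ p) ↔ (∀ p, h p ≠ p)) → ∃ k ∈ Cfsg.M24, k * g * k⁻¹ = h := by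
  refine ⟨?_, ?_, ?_, ?_⟩
  · intro g hg ho
    obtain ⟨h2, h1⟩ := ord2_iff.mp ho
    by_cases hf : ∀ p, g p ≠ p
    · exact Or.inr hf
    · left
      push_neg at hf
      obtain ⟨a, ha⟩ := hf
      exact (inv_fix hg h2 h1 ha).1
  · obtain ⟨a, ha⟩ := T2A_fixpt
    exact ⟨P T2A, T2A_mem, ord2_iff.mpr ⟨T2A_sq, T2A_ne⟩, (inv_fix T2A_mem T2A_sq T2A_ne ha).1⟩
  · exact ⟨P T2B, T2B_mem, ord2_iff.mpr ⟨T2B_sq, T2B_ne⟩, T2B_fpf⟩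
  · intro g hg h hh og oh hiff
    obtain ⟨g2, g1⟩ := ord2_iff.mp og
    obtain ⟨h2, h1⟩ := ord2_iff.mp oh
    by_cases hf : ∀ p, g p ≠ p
    · obtain ⟨c1, hc1, e1⟩ := inv_conj_2B hg g2 hf
      obtain ⟨c2, hc2, e2⟩ := inv_conj_2B hh h2 (hiff.mp hf)
      exact ⟨c2⁻¹ * c1, M24.mul_mem (M24.inv_mem hc2) hc1, conj_two e1 e2⟩
    · have hf' : ¬ ∀ p, h p ≠ p := fun x => hf (hiff.mpr x)
      push_neg at hf hf'
      obtain ⟨a, ha⟩ := hf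
      obtain ⟨b, hb⟩ := hf'
      obtain ⟨-, c1, hc1, e1⟩ := inv_fix hg g2 g1 ha
      obtain ⟨-, c2, hc2, e2⟩ := inv_fix hh h2 h1 hb
      exact ⟨c2⁻¹ * c1, M24.mul_mem (M24.inv_mem hc2) hc1, conj_two e1 e2⟩

end Cfsg.Agent.S5394
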