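import Cfsg.Statements.S5395
import Mathlib

set_option autoImplicit false
open Cfsg
open scoped IsMulCommutative

namespace Cfsg.Agent.S5395

theorem result {E : Type*} [Group E] [Finite E] (hE : Cfsg.IsExtraspecial 2 E) (φ : E ≃* E) (hφ : ∀ x : E, φ x * x⁻¹ ∈ Subgroup.center E) : ∃ g : E, ∀ x : E, φ x = g * x * g⁻¹ := by
  obtain ⟨⟨-, -, hcomm⟩, hcard⟩ := hE
  have hcz : ∀ g x : E, g * x * g⁻¹ * x⁻¹ ∈ Subgroup.center E := by
    intro g x
    rw [← hcomm]
    exact Subgroup.commutator_mem_commutator (Subgroup.mem_top g) (Subgroup.mem_top x)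
  let lam : E →* Subgroup.center E :=
    { toFun := fun x => ⟨φ x * x⁻¹, hφ x⟩
      map_one' := by
        apply Subtype.ext
        simp
      map_mul' := by
        intro x y
        apply Subtype.ext
        show φ (x * y) * (x * y)⁻¹ = (φ x * x⁻¹) * (φ y * y⁻¹)
        have hc := Subgroup.mem_center_iff.mp (hφ y)
        rw [map_mul, mul_inv_rev]
        calc φ x * φ y * (y⁻¹ * x⁻¹) = φ x * ((φ y * y⁻¹) * x⁻¹) := by group
          _ = φ x * (x⁻¹ * (φ y * y⁻¹)) := by rw [← hc x⁻¹]
          _ = _ := by group }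
  let chi : E →* (E →* Subgroup.center E) :=
    { toFun := fun g =>
        { toFun := fun x => ⟨g * x * g⁻¹ * x⁻¹, hcz g x⟩
          map_one' := by
            apply Subtype.ext
            simp
          map_mul' := by
            intro x y
            apply Subtype.ext
            show g * (x * y) * g⁻¹ * (x * y)⁻¹ = (g * x * g⁻¹ * x⁻¹) * (g * y * g⁻¹ * y⁻¹)
            have hc := Subgroup.mem_center_iff.mp (hcz g y)
            calc g * (x * y) * g⁻¹ * (x * y)⁻¹ = g * x * g⁻¹ * ((g * y * g⁻¹ * y⁻¹) * x⁻¹) := by group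
              _ = g * x * g⁻¹ * (x⁻¹ * (g * y * g⁻¹ * y⁻¹)) := by rw [← hc x⁻¹]
              _ = _ := by group }
      map_one' := by
        ext x
        simp
      map_mul' := by
        intro g h
        ext x
        show (g * h) * x * (g * h)⁻¹ * x⁻¹ = (g * x * g⁻¹ * x⁻¹) * (h * x * h⁻¹ * x⁻¹)
        have hc := Subgroup.mem_center_iff.mp (hcz h x)
        calc (g * h) * x * (g * h)⁻¹ * x⁻¹ = g * ((h * x * h⁻¹ * x⁻¹) * (x * g⁻¹ * x⁻¹)) := by group
          _ = g * ((x * g⁻¹ * x⁻¹) * (h * x * h⁻¹ * x⁻¹)) := by rw [← hc (x * g⁻¹ * x⁻¹)]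
          _ = _ := by group }
  have hker : chi.ker = Subgroup.center E := by
    ext g
    rw [MonoidHom.mem_ker, Subgroup.mem_center_iff]
    constructor
    · intro h x
      have h2 : g * x * g⁻¹ * x⁻¹ = 1 := congrArg (fun f : E →* Subgroup.center E => (f x : E)) h
      calc x * g = (g * x * g⁻¹ * x⁻¹)⁻¹ * (g * x) := by group
        _ = g * x := by rw [h2]; group
    · intro h
      ext x
      show g * x * g⁻¹ * x⁻¹ = 1
      rw [← h x]
      group
  have hbound : Nat.card (E →* Subgroup.center E) ≤ (Subgroup.center E).index := by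
    obtain ⟨a, ha, hauniq⟩ := (Nat.card_eq_two_iff' (1 : Subgroup.center E)).mp hcard
    have hne : NeZero ((Monoid.exponent (Subgroup.center E) : ℕ) : ℂ) :=
      ⟨by exact_mod_cast Monoid.exponent_ne_zero_of_finite⟩
    obtain ⟨ψ, hψ⟩ := CommGroup.exists_apply_ne_one_of_hasEnoughRootsOfUnity (Subgroup.center E) ℂ ha
    have hψinj : Function.Injective ψ := by
      rw [injective_iff_map_eq_one]
      intro b hb
      by_contra hb1
      have := hauniq b hb1
      rw [this] at hb
      exact hψ hb
    have hne2 : NeZero ((Monoid.exponent (Abelianization E) : ℕ) : ℂ) :=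
      ⟨by exact_mod_cast Monoid.exponent_ne_zero_of_finite⟩
    have h1 : Nat.card (Abelianization E →* ℂˣ) = Nat.card (Abelianization E) :=
      CommGroup.card_monoidHom_of_hasEnoughRootsOfUnity _ ℂ
    have h2 : Nat.card (Abelianization E) = (Subgroup.center E).index := by
      rw [← hcomm]
      rfl
    rw [← h2, ← h1]
    apply Nat.card_le_card_of_injective (fun f : E →* Subgroup.center E => Abelianization.lift (ψ.comp f))
    intro f₁ f₂ h
    have h3 := Abelianization.lift.injective h
    ext x
    exact congrArg Subtype.val (hψinj (DFunLike.congr_fun h3 x))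
  have hfin : Finite (E →* Subgroup.center E) :=
    Finite.of_injective (fun f : E →* Subgroup.center E => (f : E → Subgroup.center E)) DFunLike.coe_injective
  have hrange : chi.range = ⊤ := by
    apply Subgroup.eq_top_of_le_card
    rw [← Subgroup.index_ker, hker]
    exact hbound
  have hmem : lam ∈ chi.range := by
    rw [hrange]
    trivial
  obtain ⟨g, hg⟩ := hmem
  refine ⟨g, fun x => ?_⟩
  have h3 : g * x * g⁻¹ * x⁻¹ = φ x * x⁻¹ := congrArg (fun f : E →* Subgroup.center E => (f x : E)) hg
  exact (mul_right_cancel h3).symm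

end Cfsg.Agent.S5395
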