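import Mathlib
import Cfsg.Statements.S5396
import Cfsg.Agent.S3772
import Cfsg.Agent.Lib.Helper16.Basic

set_option autoImplicit false
open Cfsg

namespace Cfsg.Agent.S5396

open Cfsg.Agent.Lib.Helper16.Basic
open scoped commutatorElement

/-- A 2-group with a central involution `z` such that the centre is `{1, z}`, all commutators and
squares lie in `{1, z}`, and which is not abelian, is extraspecial. -/
theorem extraspecial_of {E : Type*} [Group E] [Finite E] (z : E) (hz : z ≠ 1)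
    (h2 : IsPGroup 2 E) (hcen : ∀ x : E, (∀ y : E, x * y = y * x) ↔ (x = 1 ∨ x = z))
    (hcomm : ∀ x y : E, x * y * x⁻¹ * y⁻¹ = 1 ∨ x * y * x⁻¹ * y⁻¹ = z)
    (hsq : ∀ x : E, x * x = 1 ∨ x * x = z) (hna : ∃ x y : E, x * y ≠ y * x) :
    Cfsg.IsExtraspecial 2 E := by
  obtain ⟨x, y, hxy⟩ := hna
  have hz_eq : x * y * x⁻¹ * y⁻¹ = z := by
    rcases hcomm x y with h | h
    · exfalso
      apply hxy
      calc x * y = (x * y * x⁻¹ * y⁻¹) * y * x := by group
        _ = y * x := by rw [h, one_mul]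
    · exact h
  have hcenter : ∀ h : E, h ∈ Subgroup.center E ↔ (h = 1 ∨ h = z) := by
    intro h
    rw [Subgroup.mem_center_iff, ← hcen]
    constructor
    · intro hh g
      exact (hh g).symm
    · intro hh g
      exact (hh g).symm
  have hcardc : Nat.card (Subgroup.center E) = 2 := by
    rw [Nat.card_eq_two_iff' (1 : Subgroup.center E)]
    refine ⟨⟨z, (hcenter _).mpr (Or.inr rfl)⟩, ?_, ?_⟩
    · intro h1
      apply hz
      exact congrArg Subtype.val h1
    · intro w hw
      rcases (hcenter (w : E)).mp w.2 with h1 | h1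
      · exfalso
        apply hw
        apply Subtype.ext
        exact h1
      · apply Subtype.ext
        exact h1
  have hcommE : commutator E = Subgroup.center E := by
    apply le_antisymm
    · rw [commutator_def, Subgroup.commutator_le]
      intro a _ b _
      rw [hcenter, commutatorElement_def]
      exact hcomm a b
    · intro h hh
      rcases (hcenter h).mp hh with h1 | h1
      · rw [h1]
        exact Subgroup.one_mem _
      · have : h = ⁅x, y⁆ := by rw [h1, commutatorElement_def, hz_eq]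
        rw [this, commutator_def]
        exact Subgroup.commutator_mem_commutator (Subgroup.mem_top _) (Subgroup.mem_top _)
  have hfratE : frattini E = Subgroup.center E := by
    apply le_antisymm
    · have h1 := frattini_le_ker_of_elementary (p := 2) (QuotientGroup.mk' (Subgroup.center E))
        (by
          intro a b
          rw [← map_mul, ← map_mul]
          apply (QuotientGroup.eq).mpr
          rw [hcenter]
          have h3 := hcomm b⁻¹ a⁻¹
          have e : (a * b)⁻¹ * (b * a) = b⁻¹ * a⁻¹ * (b⁻¹)⁻¹ * (a⁻¹)⁻¹ := by group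
          rw [e]
          exact h3)
        (by
          intro a
          rw [← map_pow]
          apply (QuotientGroup.eq_one_iff _).mpr
          rw [hcenter, pow_two]
          exact hsq a)
      rwa [QuotientGroup.ker_mk'] at h1
    · intro h hh
      apply Cfsg.Agent.S3772.mem_frattini_of_forall
      intro K hK
      rcases (hcenter h).mp hh with h1 | h1
      · rw [h1]
        exact K.one_mem
      · rw [h1, ← hz_eq]
        exact (Cfsg.Agent.S3772.pgroup_coatom h2 K hK).2 _ _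
  exact ⟨⟨h2, hfratE, hcommE⟩, hcardc⟩

/-- A biadditive form with values in `ZMod 2` on an additive group of exponent two. -/
structure Cocycle (V : Type) [AddCommGroup V] where
  β : V → V → ZMod 2
  add_left : ∀ u v w, β (u + v) w = β u w + β v w
  add_right : ∀ u v w, β u (v + w) = β u v + β u w
  two : ∀ v : V, v + v = 0

/-- The extension of `V` by `ZMod 2` defined by a biadditive form. -/
@[ext]
structure Ext {V : Type} [AddCommGroup V] (c : Cocycle V) where
  a : ZMod 2
  v : V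

section ext

variable {V : Type} [AddCommGroup V] (c : Cocycle V)

theorem Cocycle.zero_left (w : V) : c.β 0 w = 0 := by
  have h := c.add_left 0 0 w
  rw [add_zero] at h
  exact left_eq_add.mp h

theorem Cocycle.zero_right (w : V) : c.β w 0 = 0 := by
  have h := c.add_right w 0 0
  rw [add_zero] at h
  exact left_eq_add.mp h

theorem z2_add_self (a : ZMod 2) : a + a = 0 := CharTwo.add_self_eq_zero a

instance : Mul (Ext c) := ⟨fun x y => ⟨x.a + y.a + c.β x.v y.v, x.v + y.v⟩⟩
instance : One (Ext c) := ⟨⟨0, 0⟩⟩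
instance : Inv (Ext c) := ⟨fun x => ⟨x.a + c.β x.v x.v, x.v⟩⟩

theorem mul_a (x y : Ext c) : (x * y).a = x.a + y.a + c.β x.v y.v := rfl
theorem mul_v (x y : Ext c) : (x * y).v = x.v + y.v := rfl
theorem one_a : (1 : Ext c).a = 0 := rfl
theorem one_v : (1 : Ext c).v = 0 := rfl
theorem inv_a (x : Ext c) : (x⁻¹).a = x.a + c.β x.v x.v := rfl
theorem inv_v (x : Ext c) : (x⁻¹).v = x.v := rfl

instance : Group (Ext c) where
  mul_assoc x y w := by
    apply Ext.ext
    · simp only [mul_a, mul_v, c.add_left, c.add_right]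
      abel
    · simp only [mul_v]
      abel
  one_mul x := by
    apply Ext.ext
    · simp only [mul_a, one_a, one_v, c.zero_left]
      abel
    · simp only [mul_v, one_v, zero_add]
  mul_one x := by
    apply Ext.ext
    · simp only [mul_a, one_a, one_v, c.zero_right]
      abel
    · simp only [mul_v, one_v, add_zero]
  inv_mul_cancel x := by
    apply Ext.ext
    · simp only [mul_a, inv_a, inv_v, one_a]
      have h1 := z2_add_self x.a
      have h2 := z2_add_self (c.β x.v x.v)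
      calc x.a + c.β x.v x.v + x.a + c.β x.v x.v = (x.a + x.a) + (c.β x.v x.v + c.β x.v x.v) := by
            abel
        _ = 0 := by rw [h1, h2, add_zero]
    · simp only [mul_v, inv_v, one_v]
      exact c.two x.v

/-- The underlying set bijection. -/
def Ext.equiv : Ext c ≃ ZMod 2 × V where
  toFun x := (x.a, x.v)
  invFun p := ⟨p.1, p.2⟩
  left_inv _ := rfl
  right_inv _ := rfl

instance [Finite V] : Finite (Ext c) := Finite.of_equiv _ (Ext.equiv c).symm

theorem card_ext [Finite V] : Nat.card (Ext c) = 2 * Nat.card V := by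
  rw [Nat.card_congr (Ext.equiv c), Nat.card_prod, Nat.card_zmod]

theorem eq_one_or_z (x : Ext c) (hx : x.v = 0) : x = 1 ∨ x = ⟨1, 0⟩ := by
  have h : x.a = 0 ∨ x.a = 1 := by
    have : ∀ a : ZMod 2, a = 0 ∨ a = 1 := by decide
    exact this x.a
  rcases h with h | h
  · left
    exact Ext.ext h hx
  · right
    exact Ext.ext h hx

theorem extraspecial [Finite V] (k : ℕ) (hcard : Nat.card V = 2 ^ k)
    (hnd : ∀ v : V, v ≠ 0 → ∃ w, c.β v w + c.β w v ≠ 0) (hV : ∃ v : V, v ≠ 0) :
    Cfsg.IsExtraspecial 2 (Ext c) := by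
  have hcomm_iff : ∀ x y : Ext c, x * y = y * x ↔ c.β x.v y.v + c.β y.v x.v = 0 := by
    intro x y
    constructor
    · intro h
      have h1 := congrArg Ext.a h
      rw [mul_a, mul_a] at h1
      have h2 : c.β x.v y.v = c.β y.v x.v := by
        have h3 : x.a + y.a + c.β x.v y.v = x.a + y.a + c.β y.v x.v := by
          rw [h1]; abel
        exact add_left_cancel h3
      rw [h2]
      exact z2_add_self _
    · intro h
      have h2 : c.β x.v y.v = c.β y.v x.v := by
        have h3 := z2_add_self (c.β y.v x.v)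
        rw [← h] at h3
        exact (add_right_cancel h3).symm
      apply Ext.ext
      · rw [mul_a, mul_a, h2]
        abel
      · rw [mul_v, mul_v, add_comm]
  apply extraspecial_of (⟨1, 0⟩ : Ext c)
  · intro h
    have h1 := congrArg Ext.a h
    rw [one_a] at h1
    exact one_ne_zero h1
  · apply IsPGroup.of_card (n := k + 1)
    rw [card_ext, hcard, pow_succ, mul_comm]
  · intro x
    constructor
    · intro h
      apply eq_one_or_z
      by_contra hx
      obtain ⟨w, hw⟩ := hnd x.v hx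
      apply hw
      have := (hcomm_iff x ⟨0, w⟩).mp (h ⟨0, w⟩)
      exact this
    · rintro (h | h) y
      · rw [h, one_mul, mul_one]
      · rw [hcomm_iff, h]
        show c.β 0 y.v + c.β y.v 0 = 0
        rw [c.zero_left, c.zero_right, add_zero]
  · intro x y
    apply eq_one_or_z
    simp only [mul_v, inv_v]
    calc x.v + y.v + x.v + y.v = (x.v + x.v) + (y.v + y.v) := by abel
      _ = 0 := by rw [c.two, c.two, add_zero]
  · intro x
    apply eq_one_or_z
    rw [mul_v]
    exact c.two x.v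
  · obtain ⟨v, hv⟩ := hV
    obtain ⟨w, hw⟩ := hnd v hv
    refine ⟨⟨0, v⟩, ⟨0, w⟩, fun h => hw ?_⟩
    exact (hcomm_iff _ _).mp h

end ext

section rank

variable {V : Type} [AddCommGroup V] (c : Cocycle V)

theorem card_le_of_elemAb [Finite V] (M : ℕ)
    (hM : ∀ W : AddSubgroup V, (∀ w ∈ W, c.β w w = 0) → Nat.card W ≤ M)
    (A : Subgroup (Ext c)) (hA : Cfsg.IsElementaryAbelian 2 A) : Nat.card A ≤ 2 * M := by
  obtain ⟨W, hW⟩ : ∃ W : AddSubgroup V, ∀ v, v ∈ W ↔ ∃ a, (⟨a, v⟩ : Ext c) ∈ A := by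
    refine ⟨{ carrier := {v | ∃ a, (⟨a, v⟩ : Ext c) ∈ A}
              zero_mem' := ⟨0, A.one_mem⟩
              add_mem' := ?_
              neg_mem' := ?_ }, fun v => Iff.rfl⟩
    · rintro v w ⟨a, ha⟩ ⟨b, hb⟩
      exact ⟨a + b + c.β v w, A.mul_mem ha hb⟩
    · rintro v ⟨a, ha⟩
      have h : -v = v := neg_eq_of_add_eq_zero_left (c.two v)
      rw [h]
      exact ⟨a, ha⟩
  have hq : ∀ w ∈ W, c.β w w = 0 := by
    intro w hw
    obtain ⟨a, ha⟩ := (hW w).mp hw
    have h1 := hA.2 _ ha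
    rw [pow_two] at h1
    have h2 := congrArg Ext.a h1
    rw [mul_a, one_a] at h2
    have h3 : a + a + c.β w w = c.β w w := by rw [z2_add_self, zero_add]
    rw [← h3]
    exact h2
  have h1 := hM W hq
  have hinj : Function.Injective (fun x : A => ((x : Ext c).a,
      (⟨(x : Ext c).v, (hW _).mpr ⟨(x : Ext c).a, x.2⟩⟩ : W))) := by
    intro x y hxy
    have h2 := congrArg Prod.fst hxy
    have h3 := congrArg (fun p : ZMod 2 × W => (p.2 : V)) hxy
    exact Subtype.ext (Ext.ext h2 h3)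
  have h2 := Nat.card_le_card_of_injective _ hinj
  rw [Nat.card_prod, Nat.card_zmod] at h2
  exact h2.trans (Nat.mul_le_mul_left 2 h1)

theorem exists_elemAb [Finite V] (W₀ : AddSubgroup V)
    (hW₀ : ∀ v ∈ W₀, ∀ w ∈ W₀, c.β v w = 0) :
    ∃ A : Subgroup (Ext c), Cfsg.IsElementaryAbelian 2 A ∧ Nat.card A = 2 * Nat.card W₀ := by
  obtain ⟨A, hA⟩ : ∃ A : Subgroup (Ext c), ∀ x, x ∈ A ↔ x.v ∈ W₀ := by
    refine ⟨{ carrier := {x | x.v ∈ W₀}
              mul_mem' := fun hx hy => W₀.add_mem hx hy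
              one_mem' := W₀.zero_mem
              inv_mem' := fun hx => hx }, fun x => Iff.rfl⟩
  refine ⟨A, ⟨⟨⟨fun x y => ?_⟩⟩, ?_⟩, ?_⟩
  · apply Subtype.ext
    apply Ext.ext
    · show ((x : Ext c) * (y : Ext c)).a = ((y : Ext c) * (x : Ext c)).a
      rw [mul_a, mul_a, hW₀ _ ((hA _).mp x.2) _ ((hA _).mp y.2),
        hW₀ _ ((hA _).mp y.2) _ ((hA _).mp x.2)]
      abel
    · show ((x : Ext c) * (y : Ext c)).v = ((y : Ext c) * (x : Ext c)).v
      rw [mul_v, mul_v, add_comm]
  · intro x hx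
    rw [pow_two]
    apply Ext.ext
    · rw [mul_a, one_a, hW₀ _ ((hA _).mp hx) _ ((hA _).mp hx), z2_add_self, add_zero]
    · rw [mul_v, one_v]
      exact c.two x.v
  · have e : A ≃ ZMod 2 × W₀ :=
      { toFun := fun x => ((x : Ext c).a, ⟨(x : Ext c).v, (hA _).mp x.2⟩)
        invFun := fun p => ⟨⟨p.1, p.2⟩, (hA _).mpr p.2.2⟩
        left_inv := fun x => rfl
        right_inv := fun p => rfl }
    rw [Nat.card_congr e, Nat.card_prod, Nat.card_zmod]

end rank

/-- The quadratic form: a given form on `V₀` plus a sum of hyperbolic planes. -/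
def qm {V₀ : Type} (q₀ : V₀ → ZMod 2) (m : ℕ) (x : V₀ × (Fin m → ZMod 2 × ZMod 2)) : ZMod 2 :=
  q₀ x.1 + ∑ i, (x.2 i).1 * (x.2 i).2

theorem zmod2_eq_one {a : ZMod 2} (h : a ≠ 0) : a = 1 := by
  have : ∀ a : ZMod 2, a ≠ 0 → a = 1 := by decide
  exact this a h

theorem singular_bound {V₀ : Type} [AddCommGroup V₀] [Finite V₀] (q₀ : V₀ → ZMod 2) (M₀ : ℕ)
    (hM₀ : ∀ W : AddSubgroup V₀, (∀ w ∈ W, q₀ w = 0) → Nat.card W ≤ M₀) :
    ∀ (m : ℕ) (W : AddSubgroup (V₀ × (Fin m → ZMod 2 × ZMod 2))),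
      (∀ w ∈ W, qm q₀ m w = 0) → Nat.card W ≤ M₀ * 2 ^ m := by
  intro m
  induction m with
  | zero =>
    intro W hW
    have h1 := hM₀ (W.map (AddMonoidHom.fst V₀ (Fin 0 → ZMod 2 × ZMod 2))) (by
      rintro _ ⟨w, hw, rfl⟩
      have h2 := hW w hw
      unfold qm at h2
      rw [Finset.univ_eq_empty, Finset.sum_empty, add_zero] at h2
      exact h2)
    have hinj : Function.Injective (fun w : W =>
        (⟨(w : V₀ × (Fin 0 → ZMod 2 × ZMod 2)).1, ⟨w, w.2, rfl⟩⟩ :
          W.map (AddMonoidHom.fst V₀ (Fin 0 → ZMod 2 × ZMod 2)))) := by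
      intro x y hxy
      have h2 : (x : V₀ × (Fin 0 → ZMod 2 × ZMod 2)).1 = (y : V₀ × (Fin 0 → ZMod 2 × ZMod 2)).1 :=
        congrArg Subtype.val hxy
      exact Subtype.ext (Prod.ext h2 (Subsingleton.elim _ _))
    have h3 := Nat.card_le_card_of_injective _ hinj
    rw [pow_zero, mul_one]
    exact h3.trans h1
  | succ m ih =>
    intro W hW
    obtain ⟨ρ, hρ⟩ : ∃ ρ : (V₀ × (Fin (m + 1) → ZMod 2 × ZMod 2)) →+ (V₀ × (Fin m → ZMod 2 × ZMod 2)),
        ∀ x, ρ x = (x.1, fun i => x.2 i.castSucc) :=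
      ⟨{ toFun := fun x => (x.1, fun i => x.2 i.castSucc)
         map_zero' := rfl
         map_add' := fun _ _ => rfl }, fun _ => rfl⟩
    have key : ∀ x : V₀ × (Fin (m + 1) → ZMod 2 × ZMod 2), qm q₀ (m + 1) x =
        qm q₀ m (ρ x) + (x.2 (Fin.last m)).1 * (x.2 (Fin.last m)).2 := by
      intro x
      unfold qm
      rw [Fin.sum_univ_castSucc, hρ, add_assoc]
    obtain ⟨W₀, hW₀⟩ : ∃ W₀ : AddSubgroup (V₀ × (Fin (m + 1) → ZMod 2 × ZMod 2)),
        ∀ x, x ∈ W₀ ↔ x ∈ W ∧ (x.2 (Fin.last m)).2 = 0 := by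
      refine ⟨{ carrier := {x | x ∈ W ∧ (x.2 (Fin.last m)).2 = 0}
                zero_mem' := ⟨W.zero_mem, rfl⟩
                add_mem' := ?_
                neg_mem' := ?_ }, fun x => Iff.rfl⟩
      · rintro x y ⟨hx, hx'⟩ ⟨hy, hy'⟩
        refine ⟨W.add_mem hx hy, ?_⟩
        show (x.2 (Fin.last m)).2 + (y.2 (Fin.last m)).2 = 0
        rw [hx', hy', add_zero]
      · rintro x ⟨hx, hx'⟩
        refine ⟨W.neg_mem hx, ?_⟩
        show -(x.2 (Fin.last m)).2 = 0
        rw [hx', neg_zero]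
    have hU : ∀ u ∈ W₀.map ρ, qm q₀ m u = 0 := by
      rintro _ ⟨x, hx, rfl⟩
      have hx' := (hW₀ x).mp hx
      have h1 := hW x hx'.1
      rw [key, hx'.2, mul_zero, add_zero] at h1
      exact h1
    have h1 := ih (W₀.map ρ) hU
    -- coordinates determine elements
    have hext : ∀ x y : V₀ × (Fin (m + 1) → ZMod 2 × ZMod 2), ρ x = ρ y →
        x.2 (Fin.last m) = y.2 (Fin.last m) → x = y := by
      intro x y h2 h3
      rw [hρ, hρ] at h2
      refine Prod.ext (Prod.mk.inj h2).1 (funext fun i => ?_)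
      induction i using Fin.lastCases with
      | last => exact h3
      | cast j => exact congrFun (Prod.mk.inj h2).2 j
    suffices hsuff : Nat.card W ≤ 2 * Nat.card (W₀.map ρ) by
      calc Nat.card W ≤ 2 * Nat.card (W₀.map ρ) := hsuff
        _ ≤ 2 * (M₀ * 2 ^ m) := Nat.mul_le_mul_left 2 h1
        _ = M₀ * 2 ^ (m + 1) := by rw [pow_succ]; ring
    obtain ⟨e, he⟩ : ∃ e : V₀ × (Fin (m + 1) → ZMod 2 × ZMod 2),
        e = (0, Pi.single (Fin.last m) (1, 0)) := ⟨_, rfl⟩
    have heρ : ρ e = 0 := by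
      rw [hρ, he]
      refine Prod.ext rfl (funext fun i => ?_)
      show (Pi.single (Fin.last m) ((1 : ZMod 2), (0 : ZMod 2)) : Fin (m + 1) → ZMod 2 × ZMod 2)
        i.castSucc = 0
      rw [Pi.single_eq_of_ne (Fin.castSucc_lt_last i).ne]
    have helast : e.2 (Fin.last m) = (1, 0) := by
      rw [he]
      show (Pi.single (Fin.last m) ((1 : ZMod 2), (0 : ZMod 2)) : Fin (m + 1) → ZMod 2 × ZMod 2)
        (Fin.last m) = (1, 0)
      rw [Pi.single_eq_same]
    by_cases heW : e ∈ W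
    · have hb : ∀ w ∈ W, (w.2 (Fin.last m)).2 = 0 := by
        intro w hw
        have h2 := hW (w + e) (W.add_mem hw heW)
        have h3 := hW w hw
        rw [key] at h2 h3
        rw [map_add, heρ, add_zero] at h2
        have h4 : (w + e).2 (Fin.last m) = ((w.2 (Fin.last m)).1 + 1, (w.2 (Fin.last m)).2) := by
          show w.2 (Fin.last m) + e.2 (Fin.last m) = _
          rw [helast]
          exact Prod.ext rfl (add_zero _)
        rw [h4] at h2
        have h5 : qm q₀ m (ρ w) + ((w.2 (Fin.last m)).1 + 1) * (w.2 (Fin.last m)).2 =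
            (qm q₀ m (ρ w) + (w.2 (Fin.last m)).1 * (w.2 (Fin.last m)).2) +
              (w.2 (Fin.last m)).2 := by ring
        rw [h5, h3, zero_add] at h2
        exact h2
      have hinj : Function.Injective (fun w : W =>
          (((w : V₀ × (Fin (m + 1) → ZMod 2 × ZMod 2)).2 (Fin.last m)).1,
            (⟨ρ w, ⟨w, (hW₀ _).mpr ⟨w.2, hb _ w.2⟩, rfl⟩⟩ : W₀.map ρ))) := by
        intro x y hxy
        have h2 := congrArg Prod.fst hxy
        have h3 : ρ x = ρ y := congrArg (fun p : ZMod 2 × (W₀.map ρ) =>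
            ((p.2 : W₀.map ρ) : V₀ × (Fin m → ZMod 2 × ZMod 2))) hxy
        apply Subtype.ext
        apply hext _ _ h3
        exact Prod.ext h2 ((hb _ x.2).trans (hb _ y.2).symm)
      have h2 := Nat.card_le_card_of_injective _ hinj
      rw [Nat.card_prod, Nat.card_zmod] at h2
      exact h2
    · have hρinj : ∀ x ∈ W₀, ∀ y ∈ W₀, ρ x = ρ y → x = y := by
        intro x hx y hy h2
        have hx' := (hW₀ x).mp hx
        have hy' := (hW₀ y).mp hy
        apply hext _ _ h2
        refine Prod.ext ?_ (hx'.2.trans hy'.2.symm)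
        by_contra hne
        apply heW
        have hd : x - y = e := by
          apply hext
          · rw [map_sub, h2, sub_self, heρ]
          · rw [helast]
            show x.2 (Fin.last m) - y.2 (Fin.last m) = (1, 0)
            refine Prod.ext ?_ ?_
            · show (x.2 (Fin.last m)).1 - (y.2 (Fin.last m)).1 = 1
              exact zmod2_eq_one (sub_ne_zero.mpr hne)
            · show (x.2 (Fin.last m)).2 - (y.2 (Fin.last m)).2 = 0
              rw [hx'.2, hy'.2, sub_zero]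
        rw [← hd]
        exact W.sub_mem hx'.1 hy'.1
      -- a shift into `W₀`
      obtain ⟨t, htW, ht⟩ : ∃ t ∈ W, ∀ w ∈ W, (w.2 (Fin.last m)).2 ≠ 0 →
          (t.2 (Fin.last m)).2 = 1 := by
        by_cases hex : ∃ t ∈ W, (t.2 (Fin.last m)).2 ≠ 0
        · obtain ⟨t, htW, htb⟩ := hex
          exact ⟨t, htW, fun _ _ _ => zmod2_eq_one htb⟩
        · push Not at hex
          exact ⟨0, W.zero_mem, fun w hw hne => absurd (hex w hw) hne⟩
      have hg : ∀ w ∈ W, (if (w.2 (Fin.last m)).2 = 0 then w else w + t) ∈ W₀ := by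
        intro w hw
        by_cases hb : (w.2 (Fin.last m)).2 = 0
        · rw [if_pos hb]
          exact (hW₀ _).mpr ⟨hw, hb⟩
        · rw [if_neg hb]
          refine (hW₀ _).mpr ⟨W.add_mem hw htW, ?_⟩
          show (w.2 (Fin.last m)).2 + (t.2 (Fin.last m)).2 = 0
          rw [ht w hw hb, zmod2_eq_one hb]
          exact z2_add_self 1
      have hinj : Function.Injective (fun w : W =>
          (((w : V₀ × (Fin (m + 1) → ZMod 2 × ZMod 2)).2 (Fin.last m)).2,
            (⟨ρ (if ((w : V₀ × (Fin (m + 1) → ZMod 2 × ZMod 2)).2 (Fin.last m)).2 = 0 then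
                (w : V₀ × (Fin (m + 1) → ZMod 2 × ZMod 2)) else w + t),
              ⟨_, hg _ w.2, rfl⟩⟩ : W₀.map ρ))) := by
        intro x y hxy
        have h2 : ((x : V₀ × (Fin (m + 1) → ZMod 2 × ZMod 2)).2 (Fin.last m)).2 =
            ((y : V₀ × (Fin (m + 1) → ZMod 2 × ZMod 2)).2 (Fin.last m)).2 := congrArg Prod.fst hxy
        have h3 : ρ (if ((x : V₀ × (Fin (m + 1) → ZMod 2 × ZMod 2)).2 (Fin.last m)).2 = 0 then
                (x : V₀ × (Fin (m + 1) → ZMod 2 × ZMod 2)) else x + t) =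
            ρ (if ((y : V₀ × (Fin (m + 1) → ZMod 2 × ZMod 2)).2 (Fin.last m)).2 = 0 then
                (y : V₀ × (Fin (m + 1) → ZMod 2 × ZMod 2)) else y + t) :=
          congrArg (fun p : ZMod 2 × (W₀.map ρ) =>
            ((p.2 : W₀.map ρ) : V₀ × (Fin m → ZMod 2 × ZMod 2))) hxy
        have h4 := hρinj _ (hg _ x.2) _ (hg _ y.2) h3
        apply Subtype.ext
        by_cases hb : ((x : V₀ × (Fin (m + 1) → ZMod 2 × ZMod 2)).2 (Fin.last m)).2 = 0
        · rw [if_pos hb, if_pos (h2 ▸ hb)] at h4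
          exact h4
        · rw [if_neg hb, if_neg (h2 ▸ hb)] at h4
          exact add_right_cancel h4
      have h2 := Nat.card_le_card_of_injective _ hinj
      rw [Nat.card_prod, Nat.card_zmod] at h2
      exact h2

theorem sum_single_snd {m : ℕ} (i : Fin m) (p : ZMod 2 × ZMod 2) (f : Fin m → ZMod 2) :
    ∑ j, f j * ((Pi.single i p : Fin m → ZMod 2 × ZMod 2) j).2 = f i * p.2 := by
  rw [Finset.sum_eq_single i]
  · rw [Pi.single_eq_same]
  · intro j _ hj
    rw [Pi.single_eq_of_ne hj]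
    exact mul_zero _
  · intro h
    exact absurd (Finset.mem_univ i) h

theorem sum_single_fst {m : ℕ} (i : Fin m) (p : ZMod 2 × ZMod 2) (f : Fin m → ZMod 2) :
    ∑ j, ((Pi.single i p : Fin m → ZMod 2 × ZMod 2) j).1 * f j = p.1 * f i := by
  rw [Finset.sum_eq_single i]
  · rw [Pi.single_eq_same]
  · intro j _ hj
    rw [Pi.single_eq_of_ne hj]
    exact zero_mul _
  · intro h
    exact absurd (Finset.mem_univ i) h

/-- Extend a cocycle by `m` hyperbolic planes. -/
def extc {V₀ : Type} [AddCommGroup V₀] (c₀ : Cocycle V₀) (m : ℕ) :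
    Cocycle (V₀ × (Fin m → ZMod 2 × ZMod 2)) where
  β x y := c₀.β x.1 y.1 + ∑ i, (x.2 i).1 * (y.2 i).2
  add_left u v w := by
    show c₀.β (u.1 + v.1) w.1 + ∑ i, ((u.2 i).1 + (v.2 i).1) * (w.2 i).2 = _
    rw [c₀.add_left]
    simp only [add_mul, Finset.sum_add_distrib]
    abel
  add_right u v w := by
    show c₀.β u.1 (v.1 + w.1) + ∑ i, (u.2 i).1 * ((v.2 i).2 + (w.2 i).2) = _
    rw [c₀.add_right]
    simp only [mul_add, Finset.sum_add_distrib]
    abel
  two v := Prod.ext (c₀.two v.1) (funext fun i => Prod.ext (z2_add_self _) (z2_add_self _))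

theorem extc_β {V₀ : Type} [AddCommGroup V₀] (c₀ : Cocycle V₀) (m : ℕ)
    (x y : V₀ × (Fin m → ZMod 2 × ZMod 2)) :
    (extc c₀ m).β x y = c₀.β x.1 y.1 + ∑ i, (x.2 i).1 * (y.2 i).2 := rfl

theorem nondeg_extc {V₀ : Type} [AddCommGroup V₀] (c₀ : Cocycle V₀) (m : ℕ)
    (hnd₀ : ∀ v : V₀, v ≠ 0 → ∃ w, c₀.β v w + c₀.β w v ≠ 0) :
    ∀ x : V₀ × (Fin m → ZMod 2 × ZMod 2), x ≠ 0 →
      ∃ y, (extc c₀ m).β x y + (extc c₀ m).β y x ≠ 0 := by
  intro x hx
  by_cases h1 : x.1 = 0
  · have h2 : x.2 ≠ 0 := fun h => hx (Prod.ext h1 h)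
    obtain ⟨i, hi⟩ := Function.ne_iff.mp h2
    by_cases ha : (x.2 i).1 = 0
    · have hb : (x.2 i).2 = 1 := by
        apply zmod2_eq_one
        intro hb
        exact hi (Prod.ext ha hb)
      refine ⟨(0, Pi.single i (1, 0)), ?_⟩
      rw [extc_β, extc_β, sum_single_snd, sum_single_fst, c₀.zero_left, c₀.zero_right, hb]
      simp
    · have ha' : (x.2 i).1 = 1 := zmod2_eq_one ha
      refine ⟨(0, Pi.single i (0, 1)), ?_⟩
      rw [extc_β, extc_β, sum_single_snd, sum_single_fst, c₀.zero_left, c₀.zero_right, ha']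
      simp
  · obtain ⟨w, hw⟩ := hnd₀ x.1 h1
    refine ⟨(w, 0), ?_⟩
    rw [extc_β, extc_β]
    simp only [Pi.zero_apply, Prod.fst_zero, Prod.snd_zero, mul_zero, zero_mul,
      Finset.sum_const_zero, add_zero]
    exact hw

theorem card_V {V₀ : Type} [Finite V₀] (m : ℕ) :
    Nat.card (V₀ × (Fin m → ZMod 2 × ZMod 2)) = Nat.card V₀ * 4 ^ m := by
  rw [Nat.card_prod, Nat.card_fun, Nat.card_prod, Nat.card_zmod, Nat.card_fin]

theorem rank_extc {V₀ : Type} [AddCommGroup V₀] [Finite V₀] (c₀ : Cocycle V₀)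
    (hM₀ : ∀ W : AddSubgroup V₀, (∀ w ∈ W, c₀.β w w = 0) → Nat.card W ≤ 1) (m : ℕ) :
    sSup {k : ℕ | ∃ A : Subgroup (Ext (extc c₀ m)), Cfsg.IsElementaryAbelian 2 A ∧
      Nat.card A = 2 ^ k} = m + 1 := by
  apply IsGreatest.csSup_eq
  constructor
  · obtain ⟨W₀, hW₀⟩ : ∃ W₀ : AddSubgroup (V₀ × (Fin m → ZMod 2 × ZMod 2)),
        ∀ x, x ∈ W₀ ↔ x.1 = 0 ∧ ∀ i, (x.2 i).2 = 0 := by
      refine ⟨{ carrier := {x | x.1 = 0 ∧ ∀ i, (x.2 i).2 = 0}
                zero_mem' := ⟨rfl, fun _ => rfl⟩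
                add_mem' := ?_
                neg_mem' := ?_ }, fun x => Iff.rfl⟩
      · rintro x y ⟨hx, hx'⟩ ⟨hy, hy'⟩
        refine ⟨?_, fun i => ?_⟩
        · show x.1 + y.1 = 0
          rw [hx, hy, add_zero]
        · show (x.2 i).2 + (y.2 i).2 = 0
          rw [hx' i, hy' i, add_zero]
      · rintro x ⟨hx, hx'⟩
        refine ⟨?_, fun i => ?_⟩
        · show -x.1 = 0
          rw [hx, neg_zero]
        · show -(x.2 i).2 = 0
          rw [hx' i, neg_zero]
    obtain ⟨A, hA, hcard⟩ := exists_elemAb (extc c₀ m) W₀ (by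
      intro v hv w hw
      have hv' := (hW₀ v).mp hv
      have hw' := (hW₀ w).mp hw
      rw [extc_β, hv'.1, c₀.zero_left, zero_add]
      apply Finset.sum_eq_zero
      intro i _
      rw [hw'.2 i, mul_zero])
    refine ⟨A, hA, ?_⟩
    have e : W₀ ≃ (Fin m → ZMod 2) :=
      { toFun := fun x i => ((x : V₀ × (Fin m → ZMod 2 × ZMod 2)).2 i).1
        invFun := fun f => ⟨(0, fun i => (f i, 0)), (hW₀ _).mpr ⟨rfl, fun _ => rfl⟩⟩
        left_inv := fun x => by
          have hx := (hW₀ _).mp x.2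
          exact Subtype.ext (Prod.ext hx.1.symm (funext fun i => Prod.ext rfl (hx.2 i).symm))
        right_inv := fun f => rfl }
    rw [hcard, Nat.card_congr e, Nat.card_fun, Nat.card_zmod, Nat.card_fin, pow_succ, mul_comm]
  · rintro k ⟨A, hA, hcard⟩
    have h1 := card_le_of_elemAb (extc c₀ m) (1 * 2 ^ m)
      (singular_bound (fun v => c₀.β v v) 1 hM₀ m) A hA
    rw [hcard, one_mul, ← pow_succ'] at h1
    exact (Nat.pow_le_pow_iff_right (by norm_num)).mp h1

/-- The trivial cocycle on the one-element group. -/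
def cUnit : Cocycle Unit where
  β _ _ := 0
  add_left _ _ _ := (add_zero _).symm
  add_right _ _ _ := (add_zero _).symm
  two _ := rfl

/-- The cocycle of the anisotropic plane. -/
def cEll : Cocycle (ZMod 2 × ZMod 2) where
  β x y := x.1 * y.1 + x.1 * y.2 + x.2 * y.2
  add_left u v w := by
    show (u.1 + v.1) * w.1 + (u.1 + v.1) * w.2 + (u.2 + v.2) * w.2 = _
    ring
  add_right u v w := by
    show u.1 * (v.1 + w.1) + u.1 * (v.2 + w.2) + u.2 * (v.2 + w.2) = _
    ring
  two v := Prod.ext (z2_add_self _) (z2_add_self _)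

theorem result (n : ℕ) (hn : 1 ≤ n) : ∀ r ∈ ({n, n + 1} : Set ℕ), ∃ (E : Type) (_ : Group E) (_ : Finite E), Cfsg.IsExtraspecial 2 E ∧ Nat.card E = 2 ^ (2 * n + 1) ∧ sSup {k : ℕ | ∃ A : Subgroup E, Cfsg.IsElementaryAbelian 2 A ∧ Nat.card A = 2 ^ k} = r := by
  intro r hr
  rcases hr with hr | hr
  · -- rank n
    obtain ⟨m, hm⟩ : ∃ m, n = m + 1 := ⟨n - 1, by omega⟩
    have hcardV : Nat.card ((ZMod 2 × ZMod 2) × (Fin m → ZMod 2 × ZMod 2)) = 2 ^ (2 * n) := by
      rw [card_V, Nat.card_prod, Nat.card_zmod, hm]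
      have : (4 : ℕ) = 2 ^ 2 := by norm_num
      rw [this, ← pow_mul]
      have e : 2 * (m + 1) = 2 * m + 1 + 1 := by ring
      rw [e, pow_succ, pow_succ]
      ring
    have hnd₀ : ∀ v : ZMod 2 × ZMod 2, v ≠ 0 → ∃ w, cEll.β v w + cEll.β w v ≠ 0 := by
      show ∀ v : ZMod 2 × ZMod 2, v ≠ 0 → ∃ w : ZMod 2 × ZMod 2,
        (v.1 * w.1 + v.1 * w.2 + v.2 * w.2) + (w.1 * v.1 + w.1 * v.2 + w.2 * v.2) ≠ 0
      decide
    have hM₀ : ∀ W : AddSubgroup (ZMod 2 × ZMod 2), (∀ w ∈ W, cEll.β w w = 0) →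
        Nat.card W ≤ 1 := by
      intro W hW
      have h0 : ∀ w : ZMod 2 × ZMod 2, w.1 * w.1 + w.1 * w.2 + w.2 * w.2 = 0 → w = 0 := by decide
      have : Subsingleton W := ⟨fun a b => Subtype.ext
        ((h0 _ (hW _ a.2)).trans (h0 _ (hW _ b.2)).symm)⟩
      exact Finite.card_le_one_iff_subsingleton.mpr this
    refine ⟨Ext (extc cEll m), inferInstance, inferInstance, ?_, ?_, ?_⟩
    · apply extraspecial (extc cEll m) (2 * n) hcardV (nondeg_extc cEll m hnd₀)
      exact ⟨((1, 0), 0), by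
        intro h
        have h1 := congrArg (fun x : (ZMod 2 × ZMod 2) × (Fin m → ZMod 2 × ZMod 2) => x.1.1) h
        exact one_ne_zero h1⟩
    · rw [card_ext, hcardV, pow_succ, mul_comm]
    · rw [rank_extc cEll hM₀ m, hr, hm]
  · -- rank n + 1
    have hr' : r = n + 1 := hr
    have hcardV : Nat.card (Unit × (Fin n → ZMod 2 × ZMod 2)) = 2 ^ (2 * n) := by
      rw [card_V, Nat.card_unique, one_mul]
      have : (4 : ℕ) = 2 ^ 2 := by norm_num
      rw [this, ← pow_mul]
    have hM₀ : ∀ W : AddSubgroup Unit, (∀ w ∈ W, cUnit.β w w = 0) → Nat.card W ≤ 1 := by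
      intro W _
      have : Subsingleton W := ⟨fun a b => Subtype.ext rfl⟩
      exact Finite.card_le_one_iff_subsingleton.mpr this
    refine ⟨Ext (extc cUnit n), inferInstance, inferInstance, ?_, ?_, ?_⟩
    · apply extraspecial (extc cUnit n) (2 * n) hcardV
        (nondeg_extc cUnit n (fun v hv => absurd rfl hv))
      have hlt : 1 < Nat.card (Unit × (Fin n → ZMod 2 × ZMod 2)) := by
        rw [hcardV]
        exact Nat.one_lt_two_pow (by omega)
      have hnt : Nontrivial (Unit × (Fin n → ZMod 2 × ZMod 2)) :=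
        Finite.one_lt_card_iff_nontrivial.mp hlt
      exact exists_ne 0
    · rw [card_ext, hcardV, pow_succ, mul_comm]
    · rw [rank_extc cUnit hM₀ n, hr']

end Cfsg.Agent.S5396
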