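import Cfsg.Statements.S5420
import Mathlib

set_option autoImplicit false
open Cfsg

namespace Cfsg.Agent.S5420

theorem odd_two_pow_eq_one {G : Type*} [Group G] {K : Subgroup G} [Finite K] (hK : Odd (Nat.card K))
    {c : G} (hcK : c ∈ K) {n : ℕ} (hc : c ^ 2 ^ n = 1) : c = 1 := by
  have h1 : orderOf c ∣ 2 ^ n := orderOf_dvd_of_pow_eq_one hc
  have h2 : orderOf c ∣ Nat.card K := by
    have : orderOf (⟨c, hcK⟩ : K) ∣ Nat.card K := orderOf_dvd_natCard _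
    rwa [Subgroup.orderOf_mk] at this
  have hcop : Nat.Coprime (2 ^ n) (Nat.card K) := by
    apply Nat.Coprime.pow_left
    rcases hK with ⟨m, hm⟩
    rw [hm]
    simp
  rw [← orderOf_eq_one_iff]
  exact Nat.eq_one_of_dvd_coprimes hcop h1 h2

theorem result {G : Type*} [Group G] [Finite G] (Q : Subgroup G) (hL1 : Cfsg.IsExtraspecial 2 ↥Q) (hL2 : Subgroup.centralizer (Q : Set G) = ((Subgroup.center ↥Q).map Q.subtype)) (hL3 : Subgroup.centralizer (((Subgroup.center ↥Q).map Q.subtype) : Set G) ≤ Subgroup.normalizer (Q : Set G)) (hZ : ((Subgroup.center ↥Q).map Q.subtype) ≤ Cfsg.pCore 2 G) : Cfsg.IsLargeExtraspecial Q := by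
  refine ⟨hL1, hL2, hL3, ?_⟩
  intro K hKodd hQK
  haveI : Fact (Nat.Prime 2) := ⟨Nat.prime_two⟩
  have hO : IsPGroup 2 (Cfsg.pCore 2 G) := Sylow.sSup_of_normal _ (fun _ hH => hH.2) (fun _ hH => hH.1)
  have hOn : (Cfsg.pCore 2 G).Normal := Subgroup.sSup_normal _ (fun _ hH => hH.1)
  have hQ2 : IsPGroup 2 Q := hL1.1.1
  -- K centralizes Z
  have hKZ : K ≤ Subgroup.centralizer (((Subgroup.center ↥Q).map Q.subtype) : Set G) := by
    intro k hk
    rw [Subgroup.mem_centralizer_iff]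
    intro z hz
    have hzO : z ∈ Cfsg.pCore 2 G := hZ hz
    have hzQ : z ∈ Q := by
      obtain ⟨y, -, rfl⟩ := hz
      exact y.2
    have hzK : z * k * z⁻¹ ∈ K := (Subgroup.mem_normalizer_iff.mp (hQK hzQ) k).mp hk
    -- c = z k z⁻¹ k⁻¹
    have hcK : z * k * z⁻¹ * k⁻¹ ∈ K := K.mul_mem hzK (K.inv_mem hk)
    have hcO : z * k * z⁻¹ * k⁻¹ ∈ Cfsg.pCore 2 G := by
      have h1 : k * z⁻¹ * k⁻¹ ∈ Cfsg.pCore 2 G := hOn.conj_mem _ ((Cfsg.pCore 2 G).inv_mem hzO) k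
      have h2 : z * k * z⁻¹ * k⁻¹ = z * (k * z⁻¹ * k⁻¹) := by group
      rw [h2]
      exact (Cfsg.pCore 2 G).mul_mem hzO h1
    obtain ⟨n, hn⟩ := hO ⟨_, hcO⟩
    have hn' : (z * k * z⁻¹ * k⁻¹) ^ 2 ^ n = 1 := by
      have := congrArg Subtype.val hn
      simpa using this
    have hc1 : z * k * z⁻¹ * k⁻¹ = 1 := odd_two_pow_eq_one hKodd hcK hn'
    calc z * k = (z * k * z⁻¹ * k⁻¹) * (k * z) := by group
      _ = k * z := by rw [hc1, one_mul]
  have hKN : K ≤ Subgroup.normalizer (Q : Set G) := hKZ.trans hL3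
  -- K centralizes Q
  have hKQ : K ≤ Subgroup.centralizer (Q : Set G) := by
    intro k hk
    rw [Subgroup.mem_centralizer_iff]
    intro q hq
    have hqK : q * k * q⁻¹ ∈ K := (Subgroup.mem_normalizer_iff.mp (hQK hq) k).mp hk
    have hcK : q * k * q⁻¹ * k⁻¹ ∈ K := K.mul_mem hqK (K.inv_mem hk)
    have hcQ : q * k * q⁻¹ * k⁻¹ ∈ Q := by
      have h1 : k * q⁻¹ * k⁻¹ ∈ Q := (Subgroup.mem_normalizer_iff.mp (hKN hk) q⁻¹).mp (Q.inv_mem hq)
      have h2 : q * k * q⁻¹ * k⁻¹ = q * (k * q⁻¹ * k⁻¹) := by group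
      rw [h2]
      exact Q.mul_mem hq h1
    obtain ⟨n, hn⟩ := hQ2 ⟨_, hcQ⟩
    have hn' : (q * k * q⁻¹ * k⁻¹) ^ 2 ^ n = 1 := by
      have := congrArg Subtype.val hn
      simpa using this
    have hc1 : q * k * q⁻¹ * k⁻¹ = 1 := odd_two_pow_eq_one hKodd hcK hn'
    calc q * k = (q * k * q⁻¹ * k⁻¹) * (k * q) := by group
      _ = k * q := by rw [hc1, one_mul]
  rw [hL2] at hKQ
  rw [eq_bot_iff]
  intro k hk
  have hkQ : k ∈ Q := by
    obtain ⟨y, -, rfl⟩ := hKQ hk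
    exact y.2
  obtain ⟨n, hn⟩ := hQ2 ⟨k, hkQ⟩
  have hn' : k ^ 2 ^ n = 1 := by
    have := congrArg Subtype.val hn
    simpa using this
  rw [Subgroup.mem_bot]
  exact odd_two_pow_eq_one hKodd hk hn'

end Cfsg.Agent.S5420
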