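import Cfsg.Statements.S5421
import Mathlib
import Cfsg.Agent.Lib.Lead.Cores

set_option autoImplicit false
open Cfsg

namespace Cfsg.Agent.S5421

/-- An element of a subgroup of odd order whose order is a power of two is trivial. -/
theorem odd_elim {G : Type*} [Group G] {K : Subgroup G} (hK : Odd (Nat.card K)) {k : G}
    (hk : k ∈ K) {n : ℕ} (h2 : k ^ (2 ^ n) = 1) : k = 1 := by
  have h1 : orderOf k ∣ 2 ^ n := orderOf_dvd_of_pow_eq_one h2
  have h3 : orderOf k ∣ Nat.card K := Subgroup.orderOf_dvd_natCard K hk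
  have h4 : Nat.Coprime (2 ^ n) (Nat.card K) :=
    Nat.Coprime.pow_left n (Nat.coprime_two_left.2 hK)
  have h5 : orderOf k = 1 := Nat.eq_one_of_dvd_coprimes h4 h1 h3
  exact orderOf_eq_one_iff.1 h5

/-- A fixed-point-free involutory action on a finite subgroup inverts every element. -/
theorem inv_of_fpf {G : Type*} [Group G] (K : Subgroup G) [Finite K] (t : G) (ht2 : t * t = 1)
    (htK : ∀ k ∈ K, t * k * t⁻¹ ∈ K) (hfix : ∀ k ∈ K, t * k * t⁻¹ = k → k = 1) :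
    ∀ k ∈ K, t * k * t⁻¹ = k⁻¹ := by
  have htinv : t⁻¹ = t := inv_eq_of_mul_eq_one_left ht2
  have ht2' : ∀ X : G, t * (t * X) = X := fun X => by rw [← mul_assoc, ht2, one_mul]
  let f : K → K := fun l => ⟨(l : G)⁻¹ * (t * l * t⁻¹), K.mul_mem (K.inv_mem l.2) (htK l l.2)⟩
  have hinj : Function.Injective f := by
    intro l l' h
    have h1 : (l : G)⁻¹ * (t * l * t⁻¹) = (l' : G)⁻¹ * (t * l' * t⁻¹) :=
      congrArg (fun w : K => (w : G)) h
    have e1 : t * (l' : G) * t⁻¹ = l' * (l : G)⁻¹ * (t * l * t⁻¹) := by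
      rw [mul_assoc (l' : G), h1]
      group
    have h2 : t * ((l' : G) * (l : G)⁻¹) * t⁻¹ = (l' : G) * (l : G)⁻¹ := by
      calc t * ((l' : G) * (l : G)⁻¹) * t⁻¹ = (t * l' * t⁻¹) * (t * l * t⁻¹)⁻¹ := by group
        _ = (l' : G) * (l : G)⁻¹ := by rw [e1]; group
    have h3 := hfix _ (K.mul_mem l'.2 (K.inv_mem l.2)) h2
    have h4 : (l' : G) = l := mul_inv_eq_one.1 h3
    exact Subtype.ext h4.symm
  have hsurj := Finite.surjective_of_injective hinj
  intro k hk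
  obtain ⟨l, hl⟩ := hsurj ⟨k, hk⟩
  have h1 : k = (l : G)⁻¹ * (t * l * t⁻¹) := (congrArg (fun w : K => (w : G)) hl).symm
  rw [h1, htinv]
  apply eq_inv_of_mul_eq_one_left
  simp only [mul_assoc, ht2', mul_inv_cancel_left, inv_mul_cancel_left, ht2, one_mul]

/-- Let Q be an extraspecial 2-subgroup of the finite group G whose centralizer in G is its centre Z and which is normal in the centralizer of Z. If some involution b of Q outside Z has Z inside the largest normal 2-subgroup of the centralizer of b, then Q is a large extraspecial 2-subgroup of G. -/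
theorem result {G : Type*} [Group G] [Finite G] (Q : Subgroup G) (hL1 : Cfsg.IsExtraspecial 2 ↥Q) (hL2 : Subgroup.centralizer (Q : Set G) = ((Subgroup.center ↥Q).map Q.subtype)) (hL3 : Subgroup.centralizer (((Subgroup.center ↥Q).map Q.subtype) : Set G) ≤ Subgroup.normalizer (Q : Set G)) (b : G) (hbQ : b ∈ Q) (hbZ : b ∉ ((Subgroup.center ↥Q).map Q.subtype)) (hb : orderOf b = 2) (hZ : ((Subgroup.center ↥Q).map Q.subtype) ≤ (Cfsg.pCore 2 ↥(Subgroup.centralizer ({b} : Set G))).map (Subgroup.centralizer ({b} : Set G)).subtype) : Cfsg.IsLargeExtraspecial Q := by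
  classical
  obtain ⟨⟨hQ2, hfrat, hcomm⟩, hcard⟩ := hL1
  refine ⟨⟨⟨hQ2, hfrat, hcomm⟩, hcard⟩, hL2, hL3, ?_⟩
  intro K hKodd hQK
  obtain ⟨z₀, hz₀, hz₀u⟩ := (Nat.card_eq_two_iff' (1 : Subgroup.center ↥Q)).1 hcard
  obtain ⟨z, hzdef⟩ : ∃ z : G, z = ((z₀ : Q) : G) := ⟨_, rfl⟩
  have hzQ : z ∈ Q := hzdef ▸ (z₀ : Q).2
  have hzZ : z ∈ (Subgroup.center ↥Q).map Q.subtype := ⟨(z₀ : Q), z₀.2, hzdef.symm⟩
  have hzz : z * z = 1 := by
    have h1 : z₀ * z₀ = 1 := by
      by_contra h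
      have h2 := hz₀u (z₀ * z₀) h
      have h3 : z₀ * z₀ = z₀ * 1 := by rw [mul_one]; exact h2
      exact hz₀ (mul_left_cancel h3)
    have h2 := congrArg (fun w : Subgroup.center ↥Q => ((w : Q) : G)) h1
    rw [hzdef]
    exact h2
  have hZmem : ∀ c ∈ (Subgroup.center ↥Q).map Q.subtype, c = 1 ∨ c = z := by
    rintro _ ⟨c, hc, rfl⟩
    by_cases h : (⟨c, hc⟩ : Subgroup.center ↥Q) = 1
    · left
      exact congrArg (fun w : Subgroup.center ↥Q => ((w : Q) : G)) h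
    · right
      have h2 := hz₀u _ h
      rw [hzdef]
      exact congrArg (fun w : Subgroup.center ↥Q => ((w : Q) : G)) h2
  have hzc : ∀ q ∈ Q, q * z = z * q := by
    intro q hq
    have h1 := Subgroup.mem_center_iff.1 z₀.2 ⟨q, hq⟩
    rw [hzdef]
    exact congrArg (fun w : Q => (w : G)) h1
  have hZQ : (Subgroup.center ↥Q).map Q.subtype ≤ Q := by
    rintro _ ⟨c, -, rfl⟩
    exact c.2
  have hN : ∀ q ∈ Q, ∀ k, k ∈ K ↔ q * k * q⁻¹ ∈ K := fun q hq =>
    Subgroup.mem_normalizer_iff.1 (hQK hq)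
  -- the centre acts without fixed points
  have hCz : ∀ k ∈ K, z * k * z⁻¹ = k → k = 1 := by
    intro k hk hzk
    have hkz : z * k = k * z := mul_inv_eq_iff_eq_mul.1 hzk
    have hkC : k ∈ Subgroup.centralizer
        (((Subgroup.center ↥Q).map Q.subtype : Subgroup G) : Set G) := by
      rw [Subgroup.mem_centralizer_iff]
      intro c hc
      rcases hZmem c hc with rfl | rfl
      · rw [one_mul, mul_one]
      · exact hkz
    have hkN := hL3 hkC
    have hkQ : ∀ q, q ∈ Q ↔ k * q * k⁻¹ ∈ Q := Subgroup.mem_normalizer_iff.1 hkN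
    have hcomm1 : ∀ q ∈ Q, k * q * k⁻¹ * q⁻¹ = 1 := by
      intro q hq
      have h1 : k * q * k⁻¹ * q⁻¹ ∈ Q := Q.mul_mem ((hkQ q).1 hq) (Q.inv_mem hq)
      have h2 : k * q * k⁻¹ * q⁻¹ ∈ K := by
        have e : k * q * k⁻¹ * q⁻¹ = k * (q * k⁻¹ * q⁻¹) := by group
        rw [e]
        exact K.mul_mem hk ((hN q hq k⁻¹).1 (K.inv_mem hk))
      obtain ⟨n, hn⟩ := hQ2 ⟨_, h1⟩
      exact odd_elim hKodd h2 (congrArg (fun w : Q => (w : G)) hn)
    have hkZ : k ∈ Subgroup.centralizer (Q : Set G) := by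
      rw [Subgroup.mem_centralizer_iff]
      intro q hq
      exact (mul_inv_eq_iff_eq_mul.1 (mul_inv_eq_one.1 (hcomm1 q hq))).symm
    rw [hL2] at hkZ
    obtain ⟨n, hn⟩ := hQ2 ⟨k, hZQ hkZ⟩
    exact odd_elim hKodd hk (congrArg (fun w : Q => (w : G)) hn)
  have hzinv := inv_of_fpf K z hzz (fun k hk => (hN z hzQ k).1 hk) hCz
  -- the involution `b` acts without fixed points
  have hCb : ∀ k ∈ K, b * k * b⁻¹ = k → k = 1 := by
    intro k hk hbk
    have hkb : b * k = k * b := mul_inv_eq_iff_eq_mul.1 hbk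
    have hkC : k ∈ Subgroup.centralizer ({b} : Set G) := by
      rw [Subgroup.mem_centralizer_iff]
      rintro _ rfl
      exact hkb
    obtain ⟨r, hr, hrz⟩ := hZ hzZ
    have hnorm := Cfsg.Agent.Lib.Lead.Cores.pCore_normal
      (G := ↥(Subgroup.centralizer ({b} : Set G))) 2
    have h1 : (⟨k, hkC⟩ : Subgroup.centralizer ({b} : Set G)) * r *
        (⟨k, hkC⟩ : Subgroup.centralizer ({b} : Set G))⁻¹ * r⁻¹ ∈
        Cfsg.pCore 2 ↥(Subgroup.centralizer ({b} : Set G)) :=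
      Subgroup.mul_mem _ (hnorm.conj_mem r hr _) (Subgroup.inv_mem _ hr)
    have : Fact (Nat.Prime 2) := ⟨Nat.prime_two⟩
    obtain ⟨n, hn⟩ := (Cfsg.Agent.Lib.Lead.Cores.pCore_isPGroup
      (G := ↥(Subgroup.centralizer ({b} : Set G))) 2) ⟨_, h1⟩
    have h3 : (k * z * k⁻¹ * z⁻¹) ^ (2 ^ n) = 1 := by
      have h2 := congrArg (fun w : Cfsg.pCore 2 ↥(Subgroup.centralizer ({b} : Set G)) =>
        ((w : ↥(Subgroup.centralizer ({b} : Set G))) : G)) hn
      rw [← hrz]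
      exact h2
    have h4 : k * z * k⁻¹ * z⁻¹ = k * k := by
      have h5 := hzinv k⁻¹ (K.inv_mem hk)
      rw [inv_inv] at h5
      calc k * z * k⁻¹ * z⁻¹ = k * (z * k⁻¹ * z⁻¹) := by group
        _ = k * k := by rw [h5]
    rw [h4] at h3
    have h5 : k * k = 1 := odd_elim hKodd (K.mul_mem hk hk) h3
    exact odd_elim hKodd hk (n := 1) (by rw [pow_one, pow_two]; exact h5)
  have hbinv := inv_of_fpf K b (by rw [← pow_two, ← hb]; exact pow_orderOf_eq_one b)
    (fun k hk => (hN b hbQ k).1 hk) hCb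
  -- `b` is conjugate in `Q` to `z * b`
  have hbnc : ∃ q ∈ Q, q * b * q⁻¹ = z * b := by
    by_contra hcon
    push Not at hcon
    apply hbZ
    refine ⟨⟨b, hbQ⟩, ?_, rfl⟩
    show (⟨b, hbQ⟩ : Q) ∈ Subgroup.center ↥Q
    rw [Subgroup.mem_center_iff]
    intro q
    have hc : q * ⟨b, hbQ⟩ * q⁻¹ * (⟨b, hbQ⟩ : Q)⁻¹ ∈ Subgroup.center ↥Q := by
      rw [← hcomm]
      exact Subgroup.commutator_mem_commutator (Subgroup.mem_top q) (Subgroup.mem_top _)
    by_cases h1 : (⟨_, hc⟩ : Subgroup.center ↥Q) = 1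
    · have h2 : q * ⟨b, hbQ⟩ * q⁻¹ * (⟨b, hbQ⟩ : Q)⁻¹ = 1 :=
        congrArg (fun w : Subgroup.center ↥Q => (w : Q)) h1
      exact mul_inv_eq_iff_eq_mul.1 (mul_inv_eq_one.1 h2)
    · have h2 := hz₀u _ h1
      have h3 : (q : G) * b * (q : G)⁻¹ * b⁻¹ = z := by
        rw [hzdef]
        exact congrArg (fun w : Subgroup.center ↥Q => ((w : Q) : G)) h2
      exact absurd (mul_inv_eq_iff_eq_mul.1 h3) (hcon q q.2)
  obtain ⟨q, hq, hqb⟩ := hbnc
  have hCbz : ∀ k ∈ K, (z * b) * k * (z * b)⁻¹ = k → k = 1 := by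
    intro k hk hk2
    have hk1 : q⁻¹ * k * q ∈ K := by
      have h1 := (hN q⁻¹ (Q.inv_mem hq) k).1 hk
      rwa [inv_inv] at h1
    rw [← hqb] at hk2
    have h1 : b * (q⁻¹ * k * q) * b⁻¹ = q⁻¹ * k * q := by
      calc b * (q⁻¹ * k * q) * b⁻¹ = q⁻¹ * (q * b * q⁻¹ * k * (q * b * q⁻¹)⁻¹) * q := by group
        _ = q⁻¹ * k * q := by rw [hk2]
    have h2 := hCb _ hk1 h1
    have e : k = q * (q⁻¹ * k * q) * q⁻¹ := by group
    rw [e, h2]
    group
  have hzb : z * b = b * z := (hzc b hbQ).symm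
  have hbb : b * b = 1 := by rw [← pow_two, ← hb]; exact pow_orderOf_eq_one b
  have hzbzb : (z * b) * (z * b) = 1 := by
    calc (z * b) * (z * b) = z * (b * z) * b := by group
      _ = z * (z * b) * b := by rw [hzb]
      _ = (z * z) * (b * b) := by group
      _ = 1 := by rw [hzz, hbb, one_mul]
  have hbzinv := inv_of_fpf K (z * b) hzbzb
    (fun k hk => (hN _ (Q.mul_mem hzQ hbQ) k).1 hk) hCbz
  rw [Subgroup.eq_bot_iff_forall]
  intro k hk
  have h1 := hbzinv k hk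
  have h2 : (z * b) * k * (z * b)⁻¹ = z * (b * k * b⁻¹) * z⁻¹ := by group
  rw [h2, hbinv k hk, hzinv k⁻¹ (K.inv_mem hk), inv_inv] at h1
  have h3 : k * k = 1 := by
    nth_rewrite 2 [h1]
    exact mul_inv_cancel k
  exact odd_elim hKodd hk (n := 1) (by rw [pow_one, pow_two]; exact h3)

end Cfsg.Agent.S5421
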