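import Cfsg.Statements.S5433
import Mathlib

set_option autoImplicit false
open Cfsg

namespace Cfsg.Agent.S5433

theorem card_two_eq {H : Type*} [Group H] (h : Nat.card H = 2) {x y : H} (hx : x ≠ 1) (hy : y ≠ 1) :
    x = y := by
  rw [Nat.card_eq_two_iff] at h
  obtain ⟨a, b, hab, huniv⟩ := h
  have mem : ∀ w : H, w = a ∨ w = b := by
    intro w
    have : w ∈ ({a, b} : Set H) := by rw [huniv]; exact Set.mem_univ w
    simpa using this
  rcases mem 1 with h1 | h1 <;> rcases mem x with h2 | h2 <;> rcases mem y with h3 | h3 <;>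
    simp_all

theorem result {G : Type*} [Group G] [Finite G] (Q : Subgroup G) (hQ : Cfsg.IsLargeExtraspecial Q) (L : Subgroup G) [L.Normal] (hQL : Q ≤ L) : L ⊔ Subgroup.normalizer (Q : Set G) = ⊤ := by
  obtain ⟨hE, hC, hN, -⟩ := hQ
  haveI : Fact (Nat.Prime 2) := ⟨Nat.prime_two⟩
  have hQ2 : IsPGroup 2 Q := hE.1.1
  have hcard : Nat.card (Subgroup.center Q) = 2 := hE.2
  -- Sylow 2-subgroup of L containing Q
  have hQL2 : IsPGroup 2 (Q.subgroupOf L) := by
    have : IsPGroup 2 ((Q.subgroupOf L).map L.subtype) := by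
      apply hQ2.to_le
      rw [Subgroup.subgroupOf_map_subtype]
      exact inf_le_left
    exact IsPGroup.of_injective this ((Q.subgroupOf L).subtype.comp (MonoidHom.id _) |>.comp (MonoidHom.id _) |> fun _ => (Subgroup.equivMapOfInjective (Q.subgroupOf L) L.subtype L.subtype_injective).toMonoidHom) (Subgroup.equivMapOfInjective (Q.subgroupOf L) L.subtype L.subtype_injective).injective
  obtain ⟨T, hT⟩ := hQL2.exists_le_sylow
  have hfr := Sylow.normalizer_sup_eq_top T
  set T' : Subgroup G := (T : Subgroup L).map L.subtype with hT'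
  have hQT' : Q ≤ T' := by
    intro q hq
    exact ⟨⟨q, hQL hq⟩, hT (Subgroup.mem_subgroupOf.mpr hq), rfl⟩
  have hT'2 : IsPGroup 2 T' := T.2.map L.subtype
  -- nontrivial central element of T'
  obtain ⟨x, y, hxy⟩ : ∃ x y : Subgroup.center Q, x ≠ y := by
    rw [Nat.card_eq_two_iff] at hcard
    obtain ⟨a, b, hab, -⟩ := hcard
    exact ⟨a, b, hab⟩
  haveI : Nontrivial T' := by
    have : ∃ q : Q, q ≠ 1 := by
      by_contra hcon
      push Not at hcon
      apply hxy
      apply Subtype.ext
      rw [hcon x.1, hcon y.1]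
    obtain ⟨q, hq⟩ := this
    refine ⟨⟨⟨q.1, hQT' q.2⟩, 1, ?_⟩⟩
    intro h
    apply hq
    apply Subtype.ext
    have := congrArg Subtype.val h
    simpa using this
  haveI := hT'2.center_nontrivial
  obtain ⟨c, hc⟩ := exists_ne (1 : Subgroup.center T')
  have hcT : ∀ t ∈ T', t * (c : T').1 = (c : T').1 * t := by
    intro t ht
    have := Subgroup.mem_center_iff.mp c.2 ⟨t, ht⟩
    exact congrArg Subtype.val this
  have hc1 : ((c : T') : G) ≠ 1 := by
    intro h
    apply hc
    apply Subtype.ext
    apply Subtype.ext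
    simpa using h
  -- elements of C_G(T') \ {1} inside T' equal c
  have key : ∀ w : G, w ≠ 1 → (∀ q ∈ Q, q * w = w * q) → w ∈ (Subgroup.center Q).map Q.subtype := by
    intro w _ hw
    rw [← hC]
    rw [Subgroup.mem_centralizer_iff]
    intro q hq
    exact hw q hq
  have hcZ : ((c : T') : G) ∈ (Subgroup.center Q).map Q.subtype :=
    key _ hc1 (fun q hq => hcT q (hQT' hq))
  have huniq : ∀ w ∈ (Subgroup.center Q).map Q.subtype, w ≠ 1 → w = ((c : T') : G) := by
    intro w hw hw1
    obtain ⟨w', hw', rfl⟩ := hw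
    obtain ⟨c', hc', hcc⟩ := hcZ
    rw [← hcc]
    have : (⟨w', hw'⟩ : Subgroup.center Q) = ⟨c', hc'⟩ := by
      apply card_two_eq hcard
      · intro h
        apply hw1
        have := congrArg (fun z : Subgroup.center Q => ((z : Q) : G)) h
        simpa using this
      · intro h
        apply hc1
        rw [← hcc]
        have := congrArg (fun z : Subgroup.center Q => ((z : Q) : G)) h
        simpa using this
    have := congrArg (fun z : Subgroup.center Q => ((z : Q) : G)) this
    simpa using this
  have hle : Subgroup.normalizer (T' : Set G) ≤ Subgroup.normalizer (Q : Set G) := by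
    intro g hg
    apply hN
    rw [Subgroup.mem_centralizer_iff]
    intro z hz
    -- g c g⁻¹ = c
    have hgc : g * ((c : T') : G) * g⁻¹ = ((c : T') : G) := by
      apply huniq
      · apply key
        · intro h
          apply hc1
          have : ((c : T') : G) = g⁻¹ * (g * ((c : T') : G) * g⁻¹) * g := by group
          rw [this, h]; group
        · intro q hq
          -- q ∈ T', g⁻¹ q g ∈ T'
          have h1 : g⁻¹ * q * g ∈ T' := by
            have := (Subgroup.mem_normalizer_iff.mp (Subgroup.inv_mem _ hg) q).mp (hQT' hq)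
            simpa using this
          have h2 := hcT _ h1
          calc q * (g * ((c : T') : G) * g⁻¹) = g * ((g⁻¹ * q * g) * ((c : T') : G)) * g⁻¹ := by group
            _ = g * (((c : T') : G) * (g⁻¹ * q * g)) * g⁻¹ := by rw [h2]
            _ = g * ((c : T') : G) * g⁻¹ * q := by group
      · intro h
        apply hc1
        have : ((c : T') : G) = g⁻¹ * (g * ((c : T') : G) * g⁻¹) * g := by group
        rw [this, h]; group
    by_cases hz1 : z = 1
    · rw [hz1]; simp
    · rw [huniq z hz hz1]
      calc ((c : T') : G) * g = (g * ((c : T') : G) * g⁻¹) * g := by rw [hgc]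
        _ = g * ((c : T') : G) := by group
  rw [eq_top_iff]
  calc (⊤ : Subgroup G) = Subgroup.normalizer (T' : Set G) ⊔ L := hfr.symm
    _ ≤ Subgroup.normalizer (Q : Set G) ⊔ L := sup_le_sup_right hle L
    _ = L ⊔ Subgroup.normalizer (Q : Set G) := sup_comm _ _

end Cfsg.Agent.S5433
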