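import Mathlib
import Cfsg.Statements.S5434
import Cfsg.Agent.S3772
import Cfsg.Agent.Lib.Helper16.Basic

set_option autoImplicit false
open Cfsg

namespace Cfsg.Agent.S5434

open Cfsg.Agent.Lib.Helper16.Basic
open scoped commutatorElement

variable {G : Type*} [Group G]

/-- Elementwise description of an extraspecial 2-subgroup with central involution `z`. -/
structure ESData (Q : Subgroup G) (z : G) : Prop where
  zQ : z ∈ Q
  z1 : z ≠ 1
  zsq : z * z = 1
  cen : ∀ x ∈ Q, (∀ y ∈ Q, x * y = y * x) ↔ (x = 1 ∨ x = z)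
  comm : ∀ x ∈ Q, ∀ y ∈ Q, x * y * x⁻¹ * y⁻¹ = 1 ∨ x * y * x⁻¹ * y⁻¹ = z
  sq : ∀ x ∈ Q, x * x = 1 ∨ x * x = z
  ccen : ∀ x : Q, x ∈ commutator ↥Q ↔ ((x : G) = 1 ∨ (x : G) = z)

theorem exData [Finite G] {Q : Subgroup G} (h : Cfsg.IsExtraspecial 2 ↥Q) : ∃ z, ESData Q z := by
  obtain ⟨⟨hQ2, hfrat, hcomm⟩, hcard⟩ := h
  obtain ⟨z₀, hz₀, huniq⟩ := (Nat.card_eq_two_iff' (1 : Subgroup.center ↥Q)).mp hcard
  have hcases : ∀ x : Q, x ∈ Subgroup.center ↥Q ↔ ((x : G) = 1 ∨ (x : G) = ((z₀ : Q) : G)) := by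
    intro x
    constructor
    · intro hx
      by_cases h1 : (⟨x, hx⟩ : Subgroup.center ↥Q) = 1
      · left
        exact congrArg (fun w : Subgroup.center ↥Q => ((w : Q) : G)) h1
      · right
        exact congrArg (fun w : Subgroup.center ↥Q => ((w : Q) : G)) (huniq _ h1)
    · rintro (h1 | h1)
      · have : x = 1 := Subtype.ext h1
        rw [this]
        exact Subgroup.one_mem _
      · have : x = (z₀ : Q) := Subtype.ext h1
        rw [this]
        exact z₀.2
  refine ⟨((z₀ : Q) : G), (z₀ : Q).2, ?_, ?_, ?_, ?_, ?_, ?_⟩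
  · intro h1
    apply hz₀
    apply Subtype.ext
    apply Subtype.ext
    exact h1
  · by_contra hne
    have h1 : z₀ * z₀ ≠ 1 := by
      intro h2
      apply hne
      exact congrArg (fun w : Subgroup.center ↥Q => ((w : Q) : G)) h2
    have h2 := huniq _ h1
    apply hz₀
    calc z₀ = z₀⁻¹ * (z₀ * z₀) := by group
      _ = z₀⁻¹ * z₀ := by rw [h2]
      _ = 1 := by group
  · intro x hx
    rw [← hcases ⟨x, hx⟩, Subgroup.mem_center_iff]
    constructor
    · intro h1 g
      exact Subtype.ext (h1 g g.2).symm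
    · intro h1 y hy
      exact (congrArg Subtype.val (h1 ⟨y, hy⟩)).symm
  · intro x hx y hy
    have h1 : ⁅(⟨x, hx⟩ : Q), ⟨y, hy⟩⁆ ∈ commutator ↥Q := by
      rw [commutator_def]
      exact Subgroup.commutator_mem_commutator (Subgroup.mem_top _) (Subgroup.mem_top _)
    rw [hcomm] at h1
    exact (hcases _).mp h1
  · intro x hx
    have h1 : (⟨x, hx⟩ : Q) ^ 2 ∈ frattini ↥Q :=
      Cfsg.Agent.S3772.mem_frattini_of_forall _
        (fun M hM => (Cfsg.Agent.S3772.pgroup_coatom hQ2 M hM).1 _)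
    rw [hfrat, pow_two] at h1
    exact (hcases _).mp h1
  · intro x
    rw [hcomm]
    exact hcases x

theorem es_sub [Finite G] {Q : Subgroup G} {z : G} (hd : ESData Q z) (hQ2 : IsPGroup 2 Q)
    {H : Subgroup G} (hHQ : H ≤ Q) (hna : ∃ x ∈ H, ∃ y ∈ H, x * y ≠ y * x)
    (hcen : ∀ h ∈ H, (∀ h' ∈ H, h * h' = h' * h) → h = 1 ∨ h = z) :
    Cfsg.IsExtraspecial 2 ↥H := by
  obtain ⟨x, hx, y, hy, hxy⟩ := hna
  have hz_eq : x * y * x⁻¹ * y⁻¹ = z := by
    rcases hd.comm x (hHQ hx) y (hHQ hy) with h | h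
    · exfalso
      apply hxy
      calc x * y = (x * y * x⁻¹ * y⁻¹) * y * x := by group
        _ = y * x := by rw [h, one_mul]
    · exact h
  have hzH : z ∈ H := hz_eq ▸ (H.mul_mem (H.mul_mem (H.mul_mem hx hy) (H.inv_mem hx)) (H.inv_mem hy))
  have hzcen : ∀ q ∈ Q, z * q = q * z := (hd.cen z hd.zQ).mpr (Or.inr rfl)
  have hcenter : ∀ h : H, h ∈ Subgroup.center ↥H ↔ ((h : G) = 1 ∨ (h : G) = z) := by
    intro h
    rw [Subgroup.mem_center_iff]
    constructor
    · intro hh
      exact hcen h h.2 (fun h' hh' => (congrArg Subtype.val (hh ⟨h', hh'⟩)).symm)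
    · rintro (h1 | h1) g
      · have : h = 1 := Subtype.ext h1
        rw [this, mul_one, one_mul]
      · apply Subtype.ext
        show (g : G) * (h : G) = (h : G) * (g : G)
        rw [h1]
        exact (hzcen g (hHQ g.2)).symm
  have hH2 : IsPGroup 2 H := hQ2.to_le hHQ
  have hcardc : Nat.card (Subgroup.center ↥H) = 2 := by
    rw [Nat.card_eq_two_iff' (1 : Subgroup.center ↥H)]
    refine ⟨⟨⟨z, hzH⟩, (hcenter _).mpr (Or.inr rfl)⟩, ?_, ?_⟩
    · intro h1
      apply hd.z1
      exact congrArg (fun w : Subgroup.center ↥H => ((w : H) : G)) h1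
    · intro w hw
      rcases (hcenter (w : H)).mp w.2 with h1 | h1
      · exfalso
        apply hw
        apply Subtype.ext
        apply Subtype.ext
        exact h1
      · apply Subtype.ext
        apply Subtype.ext
        exact h1
  have hcommH : commutator ↥H = Subgroup.center ↥H := by
    apply le_antisymm
    · rw [commutator_def, Subgroup.commutator_le]
      intro a _ b _
      rw [hcenter]
      exact hd.comm a (hHQ a.2) b (hHQ b.2)
    · intro h hh
      rcases (hcenter h).mp hh with h1 | h1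
      · have : h = 1 := Subtype.ext h1
        rw [this]
        exact Subgroup.one_mem _
      · have : h = ⁅(⟨x, hx⟩ : H), ⟨y, hy⟩⁆ := Subtype.ext (h1.trans hz_eq.symm)
        rw [this, commutator_def]
        exact Subgroup.commutator_mem_commutator (Subgroup.mem_top _) (Subgroup.mem_top _)
  have hfratH : frattini ↥H = Subgroup.center ↥H := by
    apply le_antisymm
    · have h1 := frattini_le_ker_of_elementary (p := 2) (QuotientGroup.mk' (Subgroup.center ↥H))
        (by
          intro a b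
          rw [← map_mul, ← map_mul]
          apply (QuotientGroup.eq).mpr
          rw [hcenter]
          have h2 := hd.comm (b : G)⁻¹ (Q.inv_mem (hHQ b.2)) (a : G)⁻¹ (Q.inv_mem (hHQ a.2))
          have e : (((a * b)⁻¹ * (b * a) : H) : G) =
              (b : G)⁻¹ * (a : G)⁻¹ * ((b : G)⁻¹)⁻¹ * ((a : G)⁻¹)⁻¹ := by
            show ((a : G) * (b : G))⁻¹ * ((b : G) * (a : G)) = _
            group
          rw [e]
          exact h2)
        (by
          intro a
          rw [← map_pow]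
          apply (QuotientGroup.eq_one_iff _).mpr
          rw [hcenter, pow_two]
          exact hd.sq a (hHQ a.2))
      rwa [QuotientGroup.ker_mk'] at h1
    · intro h hh
      apply Cfsg.Agent.S3772.mem_frattini_of_forall
      intro K hK
      rcases (hcenter h).mp hh with h1 | h1
      · have : h = 1 := Subtype.ext h1
        rw [this]
        exact K.one_mem
      · have : h = (⟨x, hx⟩ : H) * ⟨y, hy⟩ * (⟨x, hx⟩ : H)⁻¹ * (⟨y, hy⟩ : H)⁻¹ :=
          Subtype.ext (h1.trans hz_eq.symm)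
        rw [this]
        exact (Cfsg.Agent.S3772.pgroup_coatom hH2 K hK).2 _ _
  exact ⟨⟨hH2, hfratH, hcommH⟩, hcardc⟩


/-- Coprime action on an extraspecial 2-group: `Q = C_Q(A) [Q, A]`. -/
theorem coprime_gen [Finite G] {Q A : Subgroup G} {z : G} (hd : ESData Q z)
    (hN : A ≤ Subgroup.normalizer (Q : Set G)) (hza : ∀ a ∈ A, a * z = z * a)
    (hAodd : Odd (Nat.card ↥A)) (q : G) (hq : q ∈ Q) :
    ∃ c ∈ Q, (∀ a ∈ A, a * c = c * a) ∧ ∃ m ∈ ⁅Q, A⁆, q = c * m := by
  classical
  have : Fintype A := Fintype.ofFinite A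
  obtain ⟨act, hact⟩ : ∃ act : ↥A →* MulAut ↥Q, ∀ (a : A) (x : Q),
      ((act a x : Q) : G) = (a : G) * (x : G) * (a : G)⁻¹ :=
    ⟨Q.normalizerMonoidHom.comp (Subgroup.inclusion hN), fun _ _ => rfl⟩
  obtain ⟨π, hπdef⟩ : ∃ π : ↥Q →* Abelianization ↥Q, π = Abelianization.of := ⟨_, rfl⟩
  have hker : ∀ x : Q, π x = 1 ↔ ((x : G) = 1 ∨ (x : G) = z) := by
    intro x
    rw [← hd.ccen x, ← Abelianization.ker_of, MonoidHom.mem_ker, hπdef]
  have hsurj : Function.Surjective π := by
    rw [hπdef]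
    intro y
    induction y using QuotientGroup.induction_on with
    | H x => exact ⟨x, rfl⟩
  have hzcen : ∀ y ∈ Q, z * y = y * z := (hd.cen z hd.zQ).mpr (Or.inr rfl)
  obtain ⟨q', hq'⟩ : ∃ q' : Q, (q' : G) = q := ⟨⟨q, hq⟩, rfl⟩
  have hsq : π q' * π q' = 1 := by
    rw [← map_mul, hker]
    exact hd.sq q' q'.2
  have hn : π q' ^ Fintype.card A = π q' := by
    rw [Nat.card_eq_fintype_card] at hAodd
    obtain ⟨k, hk⟩ := hAodd
    rw [hk, pow_succ, pow_mul, pow_two, hsq, one_pow, one_mul]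
  have h1 : (∏ a : A, π (act a q')) * (∏ a : A, π ((act a q')⁻¹ * q')) = π q' := by
    rw [← Finset.prod_mul_distrib]
    have h2 : ∀ a : A, π (act a q') * π ((act a q')⁻¹ * q') = π q' := by
      intro a
      rw [← map_mul]
      congr 1
      group
    simp only [h2, Finset.prod_const, Finset.card_univ]
    exact hn
  obtain ⟨c₀, hc₀⟩ := hsurj (∏ a : A, π (act a q'))
  -- the second factor comes from the commutator subgroup
  have hmem : (∏ a : A, π ((act a q')⁻¹ * q')) ∈ ((⁅Q, A⁆).subgroupOf Q).map π := by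
    apply Subgroup.prod_mem
    intro a _
    refine ⟨(act a q')⁻¹ * q', ?_, rfl⟩
    show _ ∈ (⁅Q, A⁆).subgroupOf Q
    rw [Subgroup.mem_subgroupOf]
    have h3 : ⁅(q' : G)⁻¹, (a : G)⁆ ∈ ⁅Q, A⁆ :=
      Subgroup.commutator_mem_commutator (Q.inv_mem q'.2) a.2
    have e : (((act a q')⁻¹ * q' : Q) : G) = (⁅(q' : G)⁻¹, (a : G)⁆)⁻¹ := by
      show ((act a q' : Q) : G)⁻¹ * (q' : G) = _
      rw [hact, commutatorElement_def]
      group
    rw [e]
    exact Subgroup.inv_mem _ h3
  obtain ⟨m, hmM, hm⟩ := hmem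
  have hmM : (m : G) ∈ ⁅Q, A⁆ := Subgroup.mem_subgroupOf.mp hmM
  -- the induced action on the abelianization
  have hb : ∀ (b : A) (x : Q), Abelianization.lift (π.comp (act b).toMonoidHom) (π x) = π (act b x) := by
    intro b x
    rw [hπdef]
    exact Abelianization.lift_apply_of _ x
  have hfix : ∀ b : A, π (act b c₀) = π c₀ := by
    intro b
    rw [← hb, hc₀, map_prod]
    simp only [hb]
    have h4 : ∀ a : A, act b (act a q') = act (b * a) q' := fun a => by
      rw [map_mul]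
      rfl
    simp only [h4]
    exact Fintype.prod_equiv (Equiv.mulLeft b) _ _ (fun a => rfl)
  have hc₀fix : ∀ b : A, act b c₀ = c₀ := by
    intro b
    have hw : π (c₀⁻¹ * act b c₀) = 1 := by
      rw [map_mul, map_inv, hfix b, inv_mul_cancel]
    rcases (hker _).mp hw with h | h
    · have h5 : c₀⁻¹ * act b c₀ = 1 := Subtype.ext h
      exact (inv_mul_eq_one.mp h5).symm
    · exfalso
      have hbz : act b ⟨z, hd.zQ⟩ = ⟨z, hd.zQ⟩ := by
        apply Subtype.ext
        rw [hact]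
        show (b : G) * z * (b : G)⁻¹ = z
        rw [hza b b.2]
        group
      have hstep : act b c₀ = c₀ * ⟨z, hd.zQ⟩ := by
        have h5 : c₀⁻¹ * act b c₀ = ⟨z, hd.zQ⟩ := Subtype.ext h
        rw [← h5]
        group
      have hpow : ∀ k : ℕ, act (b ^ k) c₀ = c₀ * (⟨z, hd.zQ⟩ : Q) ^ k := by
        intro k
        induction k with
        | zero => simp
        | succ k ih =>
          rw [pow_succ', map_mul, MulAut.mul_apply, ih, map_mul, map_pow, hstep, hbz, pow_succ',
            mul_assoc]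
      have h6 := hpow (orderOf b)
      rw [pow_orderOf_eq_one, map_one, MulAut.one_apply] at h6
      have h7 : (⟨z, hd.zQ⟩ : Q) ^ orderOf b = 1 := by
        have h8 : c₀ * 1 = c₀ * (⟨z, hd.zQ⟩ : Q) ^ orderOf b := by rw [mul_one]; exact h6
        exact (mul_left_cancel h8).symm
      have hodd : Odd (orderOf b) := Odd.of_dvd_nat hAodd (orderOf_dvd_natCard b)
      obtain ⟨k, hk⟩ := hodd
      have hz2 : (⟨z, hd.zQ⟩ : Q) ^ 2 = 1 := by
        apply Subtype.ext
        show z ^ 2 = 1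
        rw [pow_two]
        exact hd.zsq
      rw [hk, pow_succ, pow_mul, hz2, one_pow, one_mul] at h7
      exact hd.z1 (congrArg Subtype.val h7)
  -- conclusion
  have hw : π ((c₀ * m)⁻¹ * q') = 1 := by
    rw [map_mul, map_inv, map_mul, hc₀, hm, h1, inv_mul_cancel]
  obtain ⟨w, hwdef⟩ : ∃ w : Q, w = (c₀ * m)⁻¹ * q' := ⟨_, rfl⟩
  rw [← hwdef] at hw
  have hwz : (w : G) = 1 ∨ (w : G) = z := (hker w).mp hw
  have hwQ : ∀ y ∈ Q, (w : G) * y = y * (w : G) := by
    intro y hy
    rcases hwz with h | h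
    · rw [h, one_mul, mul_one]
    · rw [h]
      exact hzcen y hy
  have hwA : ∀ a ∈ A, a * (w : G) = (w : G) * a := by
    intro a ha
    rcases hwz with h | h
    · rw [h, one_mul, mul_one]
    · rw [h]
      exact hza a ha
  refine ⟨(c₀ : G) * (w : G), Q.mul_mem c₀.2 w.2, ?_, (m : G), hmM, ?_⟩
  · intro a ha
    have h9 : (a : G) * (c₀ : G) * (a : G)⁻¹ = (c₀ : G) := by
      have := congrArg Subtype.val (hc₀fix ⟨a, ha⟩)
      rw [hact] at this
      exact this
    calc a * ((c₀ : G) * (w : G)) = (a * (c₀ : G) * a⁻¹) * (a * (w : G)) := by group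
      _ = (c₀ : G) * ((w : G) * a) := by rw [h9, hwA a ha]
      _ = (c₀ : G) * (w : G) * a := by group
  · have h10 : (q' : G) = (c₀ : G) * (m : G) * (w : G) := by
      have : q' = c₀ * m * w := by rw [hwdef]; group
      exact congrArg Subtype.val this
    rw [← hq', h10, mul_assoc, mul_assoc, hwQ (m : G) m.2]

theorem comm_aux {x q a w : G} (hxa : x * a = a * x) (hw : x * q * x⁻¹ * q⁻¹ = w)
    (hwq : w * q = q * w) (hwa : w * a = a * w) : x * ⁅q, a⁆ = ⁅q, a⁆ * x := by
  have e1 : x * q * x⁻¹ = w * q := by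
    rw [← hw]
    group
  have e2 : x * a * x⁻¹ = a := by
    rw [hxa]
    group
  have hc : Commute w (q * a * q⁻¹) :=
    ((show Commute w q from hwq).mul_right (show Commute w a from hwa)).mul_right
      (show Commute w q from hwq).inv_right
  have e3 : x * ⁅q, a⁆ * x⁻¹ = ⁅q, a⁆ := by
    calc x * ⁅q, a⁆ * x⁻¹ = (x * q * x⁻¹) * (x * a * x⁻¹) * (x * q * x⁻¹)⁻¹ * (x * a * x⁻¹)⁻¹ := by
          rw [commutatorElement_def]
          group
      _ = w * (q * a * q⁻¹) * w⁻¹ * a⁻¹ := by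
          rw [e1, e2]
          group
      _ = (q * a * q⁻¹) * w * w⁻¹ * a⁻¹ := by rw [hc.eq]
      _ = ⁅q, a⁆ := by
          rw [commutatorElement_def]
          group
  calc x * ⁅q, a⁆ = (x * ⁅q, a⁆ * x⁻¹) * x := by group
    _ = ⁅q, a⁆ * x := by rw [e3]

theorem result {G : Type*} [Group G] [Finite G] (Q : Subgroup G) (hQ : Cfsg.IsLargeExtraspecial Q) (A : Subgroup G) (hA : A ≤ Subgroup.normalizer (Q : Set G)) (hAodd : Odd (Nat.card ↥A)) (hA1 : A ≠ ⊥) : (Q ⊓ Subgroup.centralizer (A : Set G)) ⊔ ⁅Q, A⁆ = Q ∧ (∀ x ∈ Q ⊓ Subgroup.centralizer (A : Set G), ∀ y ∈ ⁅Q, A⁆, x * y = y * x) ∧ Cfsg.IsExtraspecial 2 ↥⁅Q, A⁆ ∧ (Q ⊓ Subgroup.centralizer (A : Set G) = ((Subgroup.center ↥Q).map Q.subtype) ∨ Cfsg.IsExtraspecial 2 ↥(Q ⊓ Subgroup.centralizer (A : Set G))) := by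
  obtain ⟨hES, hCQ, hnormQ, hoddQ⟩ := hQ
  obtain ⟨z, hd⟩ := exData hES
  have hQ2 : IsPGroup 2 Q := hES.1.1
  have hzcen : ∀ y ∈ Q, z * y = y * z := (hd.cen z hd.zQ).mpr (Or.inr rfl)
  have hZmem : ∀ g : G, g ∈ (Subgroup.center ↥Q).map Q.subtype ↔ (g = 1 ∨ g = z) := by
    intro g
    constructor
    · rintro ⟨x, hx, rfl⟩
      exact (hd.cen (x : G) x.2).mp (fun y hy =>
        (congrArg Subtype.val (Subgroup.mem_center_iff.mp hx ⟨y, hy⟩)).symm)
    · intro h
      have hgQ : g ∈ Q := by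
        rcases h with h | h
        · rw [h]; exact Q.one_mem
        · rw [h]; exact hd.zQ
      refine ⟨⟨g, hgQ⟩, ?_, rfl⟩
      show _ ∈ Subgroup.center ↥Q
      rw [Subgroup.mem_center_iff]
      intro y
      apply Subtype.ext
      exact ((hd.cen g hgQ).mpr h y y.2).symm
  -- A centralizes z
  have hza : ∀ a ∈ A, a * z = z * a := by
    intro a ha
    have haN := hA ha
    have h1 : a * z * a⁻¹ ∈ Q := (Subgroup.mem_normalizer_iff.mp haN z).mp hd.zQ
    have h2 : ∀ y ∈ Q, (a * z * a⁻¹) * y = y * (a * z * a⁻¹) := by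
      intro y hy
      have hy' : a⁻¹ * y * a ∈ Q := by
        have := (Subgroup.mem_normalizer_iff.mp (Subgroup.inv_mem _ haN) y).mp hy
        rwa [inv_inv] at this
      have h3 := hzcen _ hy'
      calc (a * z * a⁻¹) * y = a * (z * (a⁻¹ * y * a)) * a⁻¹ := by group
        _ = a * ((a⁻¹ * y * a) * z) * a⁻¹ := by rw [h3]
        _ = y * (a * z * a⁻¹) := by group
    rcases (hd.cen _ h1).mp h2 with h | h
    · exfalso
      apply hd.z1
      calc z = a⁻¹ * (a * z * a⁻¹) * a := by group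
        _ = 1 := by rw [h]; group
    · calc a * z = (a * z * a⁻¹) * a := by group
        _ = z * a := by rw [h]
  obtain ⟨C, hCdef⟩ : ∃ C : Subgroup G, C = Q ⊓ Subgroup.centralizer (A : Set G) := ⟨_, rfl⟩
  obtain ⟨M, hMdef⟩ : ∃ M : Subgroup G, M = ⁅Q, A⁆ := ⟨_, rfl⟩
  rw [← hCdef, ← hMdef]
  have hCQ' : C ≤ Q := hCdef ▸ inf_le_left
  have hCA : ∀ x ∈ C, ∀ a ∈ A, x * a = a * x := by
    intro x hx a ha
    rw [hCdef] at hx
    exact (Subgroup.mem_centralizer_iff.mp hx.2 a ha).symm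
  have hMQ : M ≤ Q := by
    rw [hMdef, Subgroup.commutator_le]
    intro q hq a ha
    rw [commutatorElement_def]
    have h1 : a * q⁻¹ * a⁻¹ ∈ Q := (Subgroup.mem_normalizer_iff.mp (hA ha) _).mp (Q.inv_mem hq)
    have e : q * a * q⁻¹ * a⁻¹ = q * (a * q⁻¹ * a⁻¹) := by group
    rw [e]
    exact Q.mul_mem hq h1
  -- (2) C and M commute
  have hCM : ∀ x ∈ C, ∀ y ∈ M, x * y = y * x := by
    intro x hx
    have hle : M ≤ Subgroup.centralizer ({x} : Set G) := by
      rw [hMdef, Subgroup.commutator_le]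
      intro q hq a ha
      rw [Subgroup.mem_centralizer_iff]
      intro y hy
      rw [Set.mem_singleton_iff] at hy
      subst hy
      have hxQ : y ∈ Q := hCQ' hx
      have hwz := hd.comm y hxQ q hq
      have hwq : (y * q * y⁻¹ * q⁻¹) * q = q * (y * q * y⁻¹ * q⁻¹) := by
        rcases hwz with h | h
        · rw [h, one_mul, mul_one]
        · rw [h]; exact hzcen q hq
      have hwa : (y * q * y⁻¹ * q⁻¹) * a = a * (y * q * y⁻¹ * q⁻¹) := by
        rcases hwz with h | h
        · rw [h, one_mul, mul_one]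
        · rw [h]; exact (hza a ha).symm
      exact comm_aux (hCA y hx a ha) rfl hwq hwa
    intro y hy
    exact Subgroup.mem_centralizer_iff.mp (hle hy) x rfl
  -- (1) generation
  have hgen : ∀ q ∈ Q, ∃ c ∈ C, ∃ m ∈ M, q = c * m := by
    intro q hq
    obtain ⟨c, hc, hca, m, hm, hqm⟩ := coprime_gen hd hA hza hAodd q hq
    refine ⟨c, ?_, m, hMdef ▸ hm, hqm⟩
    rw [hCdef]
    refine ⟨hc, ?_⟩
    show _ ∈ Subgroup.centralizer (A : Set G)
    rw [Subgroup.mem_centralizer_iff]
    intro a ha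
    exact hca a ha
  have hsup : C ⊔ M = Q := by
    apply le_antisymm (sup_le hCQ' hMQ)
    intro q hq
    obtain ⟨c, hc, m, hm, rfl⟩ := hgen q hq
    exact Subgroup.mul_mem_sup hc hm
  -- commuting with C and M implies central in Q
  have hcenQ : ∀ h ∈ Q, (∀ c ∈ C, h * c = c * h) → (∀ m ∈ M, h * m = m * h) → h = 1 ∨ h = z := by
    intro h hh h1 h2
    apply (hd.cen h hh).mp
    intro q hq
    obtain ⟨c, hc, m, hm, rfl⟩ := hgen q hq
    calc h * (c * m) = (h * c) * m := by group
      _ = c * (h * m) := by rw [h1 c hc]; group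
      _ = c * m * h := by rw [h2 m hm]; group
  -- M is nonabelian
  have hMna : ∃ x ∈ M, ∃ y ∈ M, x * y ≠ y * x := by
    by_contra hab
    push Not at hab
    apply hA1
    rw [eq_bot_iff]
    intro a ha
    rw [Subgroup.mem_bot]
    have hMz : ∀ m ∈ M, m = 1 ∨ m = z := by
      intro m hm
      exact hcenQ m (hMQ hm) (fun c hc => (hCM c hc m hm).symm) (fun m' hm' => hab m hm m' hm')
    have hconj : ∀ q ∈ Q, a * q * a⁻¹ = q ∨ a * q * a⁻¹ = q * z := by
      intro q hq
      have h1 : ⁅q⁻¹, a⁆ ∈ M := by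
        rw [hMdef]
        exact Subgroup.commutator_mem_commutator (Q.inv_mem hq) ha
      have e : a * q * a⁻¹ = q * ⁅q⁻¹, a⁆ := by
        rw [commutatorElement_def]
        group
      rcases hMz _ h1 with h | h
      · left
        rw [e, h, mul_one]
      · right
        rw [e, h]
    have hsq : ∀ q ∈ Q, (a * a) * q = q * (a * a) := by
      intro q hq
      have h2 : a * (a * q * a⁻¹) * a⁻¹ = q := by
        rcases hconj q hq with h | h
        · rw [h, h]
        · rw [h]
          have e : a * (q * z) * a⁻¹ = (a * q * a⁻¹) * (a * z) * a⁻¹ := by group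
          rw [e, h, hza a ha]
          calc q * z * (z * a) * a⁻¹ = q * (z * z) := by group
            _ = q := by rw [hd.zsq, mul_one]
      calc (a * a) * q = (a * (a * q * a⁻¹) * a⁻¹) * (a * a) := by group
        _ = q * (a * a) := by rw [h2]
    have haa : a * a ∈ (Subgroup.center ↥Q).map Q.subtype := by
      rw [← hCQ, Subgroup.mem_centralizer_iff]
      intro q hq
      exact (hsq q hq).symm
    have h4 : a ^ 4 = 1 := by
      have e : a ^ 4 = (a * a) * (a * a) := by
        rw [show (4 : ℕ) = 2 + 2 from rfl, pow_add, pow_two]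
      rw [e]
      rcases (hZmem _).mp haa with h | h
      · rw [h, one_mul]
      · rw [h, hd.zsq]
    have hodd : Odd (orderOf a) := by
      have := orderOf_dvd_natCard (⟨a, ha⟩ : A)
      rw [← Subgroup.orderOf_coe] at this
      exact Odd.of_dvd_nat hAodd this
    have hdvd : orderOf a ∣ 4 := orderOf_dvd_of_pow_eq_one h4
    have hcop : Nat.Coprime (orderOf a) 4 := by
      have : Nat.Coprime (orderOf a) 2 := Nat.coprime_two_right.mpr hodd
      exact Nat.Coprime.pow_right 2 this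
    have h1 : orderOf a = 1 := Nat.Coprime.eq_one_of_dvd hcop hdvd
    exact orderOf_eq_one_iff.mp h1
  refine ⟨hsup, hCM, ?_, ?_⟩
  · exact es_sub hd hQ2 hMQ hMna (fun h hh hcomm =>
      hcenQ h (hMQ hh) (fun c hc => (hCM c hc h hh).symm) hcomm)
  · by_cases hCab : ∀ x ∈ C, ∀ y ∈ C, x * y = y * x
    · left
      apply le_antisymm
      · intro x hx
        rw [hZmem]
        exact hcenQ x (hCQ' hx) (fun c hc => hCab x hx c hc) (fun m hm => hCM x hx m hm)
      · intro g hg
        rw [hCdef]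
        rcases (hZmem g).mp hg with h | h
        · rw [h]; exact Subgroup.one_mem _
        · rw [h]
          refine ⟨hd.zQ, ?_⟩
          show _ ∈ Subgroup.centralizer (A : Set G)
          rw [Subgroup.mem_centralizer_iff]
          intro a ha
          exact hza a ha
    · right
      push Not at hCab
      exact es_sub hd hQ2 hCQ' hCab (fun h hh hcomm =>
        hcenQ h (hCQ' hh) hcomm (fun m hm => hCM h hh m hm))

end Cfsg.Agent.S5434
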