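import Cfsg.Statements.S5437
import Mathlib

set_option autoImplicit false
open Cfsg

namespace Cfsg.Agent.S5437

theorem fix_iff {G : Type*} [Group G] (H : Subgroup G) (x g : G) :
    x • (g : G ⧸ H) = (g : G ⧸ H) ↔ g⁻¹ * x * g ∈ H := by
  show ((x * g : G) : G ⧸ H) = g ↔ _
  rw [QuotientGroup.eq, ← H.inv_mem_iff]
  have : ((x * g)⁻¹ * g)⁻¹ = g⁻¹ * x * g := by group
  rw [this]

theorem mem_conj_iff {G : Type*} [Group G] (H : Subgroup G) (x g : G) :
    x ∈ H.map (MulAut.conj g).toMonoidHom ↔ g⁻¹ * x * g ∈ H := by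
  constructor
  · rintro ⟨h, hh, rfl⟩
    have : g⁻¹ * (MulAut.conj g).toMonoidHom h * g = h := by
      show g⁻¹ * (g * h * g⁻¹) * g = h
      group
    rw [this]
    exact hh
  · intro h
    refine ⟨g⁻¹ * x * g, h, ?_⟩
    show g * (g⁻¹ * x * g) * g⁻¹ = x
    group

theorem result {G : Type*} [Group G] [Finite G] (I : Set G) (hI : ∀ x ∈ I, orderOf x = 2) (hIc : ∀ g : G, ∀ x ∈ I, g * x * g⁻¹ ∈ I) (H : Subgroup G) : ((∀ x ∈ I, x ∈ H → (∀ g : G, g * x * g⁻¹ ∈ H → ∃ h ∈ H, h * x * h⁻¹ = g * x * g⁻¹) ∧ Subgroup.centralizer ({x} : Set G) ≤ H) ↔ (∀ g : G, g ∉ H → ∀ x ∈ I, ¬ (x ∈ H ∧ x ∈ (H : Subgroup G).map (MulAut.conj g).toMonoidHom))) ∧ ((∀ g : G, g ∉ H → ∀ x ∈ I, ¬ (x ∈ H ∧ x ∈ (H : Subgroup G).map (MulAut.conj g).toMonoidHom)) ↔ ∀ x ∈ I, x ∈ H → ∃! c : G ⧸ H, x • c = c) := by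
  refine ⟨⟨?_, ?_⟩, ⟨?_, ?_⟩⟩
  · intro h1 g hg x hxI ⟨hxH, hxg⟩
    rw [mem_conj_iff] at hxg
    obtain ⟨hfus, hcent⟩ := h1 x hxI hxH
    have hxg' : g⁻¹ * x * g⁻¹⁻¹ ∈ H := by rw [inv_inv]; exact hxg
    obtain ⟨h, hh, heq⟩ := hfus g⁻¹ hxg'
    have hgh : g * h ∈ Subgroup.centralizer ({x} : Set G) := by
      rw [Subgroup.mem_centralizer_iff]
      intro y hy
      rw [Set.mem_singleton_iff] at hy
      rw [hy]
      have e : x = g * (h * x * h⁻¹) * g⁻¹ := by rw [heq]; group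
      calc x * (g * h) = g * (h * x * h⁻¹) * g⁻¹ * (g * h) := by rw [← e]
        _ = g * h * x := by group
    have := hcent hgh
    apply hg
    have e : g = g * h * h⁻¹ := by group
    rw [e]
    exact H.mul_mem this (H.inv_mem hh)
  · intro h2 x hxI hxH
    have key : ∀ g : G, g * x * g⁻¹ ∈ H → g ∈ H := by
      intro g hg
      by_contra hgH
      have hgH' : g⁻¹ ∉ H := fun h => hgH (by simpa using H.inv_mem h)
      apply h2 g⁻¹ hgH' x hxI
      refine ⟨hxH, ?_⟩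
      rw [mem_conj_iff, inv_inv]
      exact hg
    constructor
    · intro g hg
      exact ⟨g, key g hg, rfl⟩
    · intro c hc
      apply key
      have := Subgroup.mem_centralizer_iff.mp hc x rfl
      rw [← this, mul_assoc, mul_inv_cancel, mul_one]
      exact hxH
  · intro h2 x hxI hxH
    refine ⟨((1 : G) : G ⧸ H), ?_, ?_⟩
    · show x • ((1 : G) : G ⧸ H) = ((1 : G) : G ⧸ H)
      rw [fix_iff, inv_one, one_mul, mul_one]
      exact hxH
    · intro c hc
      induction c using QuotientGroup.induction_on with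
      | H g =>
        rw [fix_iff] at hc
        by_contra hne
        have hgH : g ∉ H := by
          intro hg
          apply hne
          rw [QuotientGroup.eq, mul_one]
          exact H.inv_mem hg
        apply h2 g hgH x hxI
        refine ⟨hxH, ?_⟩
        rw [mem_conj_iff]
        exact hc
  · intro h3 g hg x hxI ⟨hxH, hxg⟩
    rw [mem_conj_iff] at hxg
    obtain ⟨c, -, huniq⟩ := h3 x hxI hxH
    have e1 : ((1 : G) : G ⧸ H) = c := by
      apply huniq
      show x • ((1 : G) : G ⧸ H) = ((1 : G) : G ⧸ H)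
      rw [fix_iff, inv_one, one_mul, mul_one]
      exact hxH
    have e2 : ((g : G) : G ⧸ H) = c := by
      apply huniq
      show x • ((g : G) : G ⧸ H) = ((g : G) : G ⧸ H)
      rw [fix_iff]
      exact hxg
    have e3 := e1.trans e2.symm
    rw [QuotientGroup.eq, inv_one, one_mul] at e3
    exact hg e3

end Cfsg.Agent.S5437
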