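import Cfsg.Statements.S5438
import Mathlib

set_option autoImplicit false
open Cfsg

namespace Cfsg.Agent.S5438

theorem isPGroup_zpowers {K : Type*} [Group K] (y : K) (k : ℕ) (hy : y ^ (2 ^ k) = 1) :
    IsPGroup 2 (Subgroup.zpowers y) := by
  rintro ⟨g, hg⟩
  refine ⟨k, ?_⟩
  obtain ⟨i, rfl⟩ := Subgroup.mem_zpowers_iff.mp hg
  apply Subtype.ext
  show (y ^ i) ^ (2 ^ k) = 1
  rw [← zpow_natCast, ← zpow_mul, mul_comm, zpow_mul, zpow_natCast, hy, one_zpow]

theorem trans_of_unique_fix {C Ω : Type*} [Group C] [MulAction C Ω] [Finite Ω] (Φ : Set Ω)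
    (hinv : ∀ c : C, ∀ ω ∈ Φ, c • ω ∈ Φ)
    (h : ∀ ω ∈ Φ, ∃ t : C, t * t = 1 ∧ t • ω = ω ∧ ∀ ω' ∈ Φ, t • ω' = ω' → ω' = ω)
    (ω₁ ω₂ : Ω) (h₁ : ω₁ ∈ Φ) (h₂ : ω₂ ∈ Φ) : ∃ c : C, c • ω₂ = ω₁ := by
  by_contra hcon
  have hO : ∀ ω ∈ MulAction.orbit C ω₂, ω ∈ Φ := by
    rintro _ ⟨c, rfl⟩
    exact hinv c _ h₂
  have h1notin : ω₁ ∉ MulAction.orbit C ω₂ := fun ⟨c, hc⟩ => hcon ⟨c, hc⟩
  obtain ⟨t₁, ht₁, hfix₁, huniq₁⟩ := h ω₁ h₁
  obtain ⟨t₂, ht₂, hfix₂, huniq₂⟩ := h ω₂ h₂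
  have key : ∀ t : C, t * t = 1 → Nat.card (MulAction.orbit C ω₂) ≡
      Nat.card (MulAction.fixedPoints (Subgroup.zpowers t) (MulAction.orbit C ω₂)) [MOD 2] := by
    intro t ht
    have hp : IsPGroup 2 (Subgroup.zpowers t) := isPGroup_zpowers t 1 (by rw [pow_one, pow_two, ht])
    exact hp.card_modEq_card_fixedPoints _
  have e1 : Nat.card (MulAction.fixedPoints (Subgroup.zpowers t₁) (MulAction.orbit C ω₂)) = 0 := by
    rw [Nat.card_eq_zero]
    left
    constructor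
    rintro ⟨⟨ω, hω⟩, hfix⟩
    have h3 : t₁ • ω = ω := congrArg Subtype.val (hfix ⟨t₁, Subgroup.mem_zpowers t₁⟩)
    have h4 := huniq₁ ω (hO ω hω) h3
    exact h1notin (h4 ▸ hω)
  have e2 : Nat.card (MulAction.fixedPoints (Subgroup.zpowers t₂) (MulAction.orbit C ω₂)) = 1 := by
    rw [Nat.card_eq_one_iff_unique]
    constructor
    · constructor
      rintro ⟨⟨a, ha⟩, hfa⟩ ⟨⟨b, hb⟩, hfb⟩
      have ha' : t₂ • a = a := congrArg Subtype.val (hfa ⟨t₂, Subgroup.mem_zpowers t₂⟩)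
      have hb' : t₂ • b = b := congrArg Subtype.val (hfb ⟨t₂, Subgroup.mem_zpowers t₂⟩)
      have e3 := huniq₂ a (hO a ha) ha'
      have e4 := huniq₂ b (hO b hb) hb'
      apply Subtype.ext
      apply Subtype.ext
      show a = b
      rw [e3, e4]
    · refine ⟨⟨⟨ω₂, MulAction.mem_orbit_self ω₂⟩, fun g => ?_⟩⟩
      apply Subtype.ext
      show (g : C) • ω₂ = ω₂
      have hle : Subgroup.zpowers t₂ ≤ MulAction.stabilizer C ω₂ := by
        rw [Subgroup.zpowers_le]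
        exact hfix₂
      exact hle g.2
  have h5 := (key t₁ ht₁).symm.trans (key t₂ ht₂)
  rw [e1, e2] at h5
  exact absurd h5 (by decide)

theorem fix_iff {G : Type*} [Group G] (H : Subgroup G) (x g : G) :
    x • (g : G ⧸ H) = (g : G ⧸ H) ↔ g⁻¹ * x * g ∈ H := by
  show ((x * g : G) : G ⧸ H) = g ↔ _
  rw [QuotientGroup.eq, ← H.inv_mem_iff]
  have : ((x * g)⁻¹ * g)⁻¹ = g⁻¹ * x * g := by group
  rw [this]

theorem result {G : Type*} [Group G] [Finite G] (z : G) (hz : Cfsg.IsTwoCentralInvolution z) (H : Subgroup G) (hzH : z ∈ H) (hfix : ∀ g : G, g⁻¹ * z * g ∈ H → g ∈ H) : Odd H.index ∧ ∀ x ∈ H, (∃ k : ℕ, orderOf x = 2 ^ k) → ∀ g : G, g * x * g⁻¹ ∈ H → ∃ h ∈ H, h * x * h⁻¹ = g * x * g⁻¹ := by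
  obtain ⟨hz2, P, hzP, hzc⟩ := hz
  have hzz : z * z = 1 := by
    have := pow_orderOf_eq_one z
    rw [hz2, pow_two] at this
    exact this
  have hPH : (P : Subgroup G) ≤ H := by
    intro g hg
    apply hfix
    have := hzc g hg
    rw [mul_assoc, ← this, ← mul_assoc, inv_mul_cancel, one_mul]
    exact hzH
  constructor
  · have h1 : H.index ∣ (P : Subgroup G).index := Subgroup.index_dvd_of_le hPH
    have h2 : ¬ 2 ∣ (P : Subgroup G).index := P.not_dvd_index
    rw [← Nat.not_even_iff_odd, even_iff_two_dvd]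
    exact fun h3 => h2 (h3.trans h1)
  · rintro x hx ⟨k, hk⟩ g hg
    have hxk : x ^ (2 ^ k) = 1 := by rw [← hk]; exact pow_orderOf_eq_one x
    have hinv : ∀ c : Subgroup.centralizer ({x} : Set G), ∀ ω ∈ {ω : G ⧸ H | x • ω = ω},
        c • ω ∈ {ω : G ⧸ H | x • ω = ω} := by
      intro c ω hω
      have hc : x * (c : G) = (c : G) * x := Subgroup.mem_centralizer_iff.mp c.2 x rfl
      show x • ((c : G) • ω) = (c : G) • ω
      rw [← mul_smul, hc, mul_smul]
      exact congrArg _ hω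
    have hh : ∀ ω ∈ {ω : G ⧸ H | x • ω = ω}, ∃ t : Subgroup.centralizer ({x} : Set G),
        t * t = 1 ∧ t • ω = ω ∧ ∀ ω' ∈ {ω : G ⧸ H | x • ω = ω}, t • ω' = ω' → ω' = ω := by
      intro ω hω
      induction ω using QuotientGroup.induction_on with
      | H a =>
        have hx' : a⁻¹ * x * a ∈ H := (fix_iff H x a).mp hω
        have hx'k : (a⁻¹ * x * a) ^ (2 ^ k) = 1 := by
          have e : a⁻¹ * x * a = a⁻¹ * x * a⁻¹⁻¹ := by rw [inv_inv]
          rw [e, conj_pow, hxk, mul_one, inv_inv, inv_mul_cancel]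
        have hp : IsPGroup 2 (Subgroup.zpowers (⟨a⁻¹ * x * a, hx'⟩ : H)) :=
          isPGroup_zpowers _ k (Subtype.ext hx'k)
        obtain ⟨R, hR⟩ := hp.exists_le_sylow
        obtain ⟨k', hk'⟩ := MulAction.exists_smul_eq H (P.subtype hPH) R
        have hmem : (⟨a⁻¹ * x * a, hx'⟩ : H) ∈ (R : Subgroup H) := hR (Subgroup.mem_zpowers _)
        rw [← hk', Sylow.coe_subgroup_smul, Subgroup.mem_pointwise_smul_iff_inv_smul_mem] at hmem
        have hu : (k' : G)⁻¹ * (a⁻¹ * x * a) * (k' : G) ∈ (P : Subgroup G) := by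
          have h6 : k'⁻¹ * (⟨a⁻¹ * x * a, hx'⟩ : H) * k' ∈ ((P.subtype hPH : Sylow 2 H) : Subgroup H) := by
            simpa [MulAut.smul_def, MulAut.conj_apply] using hmem
          rw [Sylow.coe_subtype, Subgroup.mem_subgroupOf] at h6
          exact h6
        have hcomm := hzc _ hu
        have hcomm' : (a * (k' : G))⁻¹ * x * (a * (k' : G)) * z = z * ((a * (k' : G))⁻¹ * x * (a * (k' : G))) := by
          have e : (a * (k' : G))⁻¹ * x * (a * (k' : G)) = (k' : G)⁻¹ * (a⁻¹ * x * a) * (k' : G) := by group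
          rw [e]
          exact hcomm
        have htmem : (a * (k' : G)) * z * (a * (k' : G))⁻¹ ∈ Subgroup.centralizer ({x} : Set G) := by
          rw [Subgroup.mem_centralizer_iff]
          intro y hy
          rw [Set.mem_singleton_iff] at hy
          rw [hy]
          calc x * ((a * (k' : G)) * z * (a * (k' : G))⁻¹)
              = (a * (k' : G)) * ((a * (k' : G))⁻¹ * x * (a * (k' : G)) * z) * (a * (k' : G))⁻¹ := by group
            _ = (a * (k' : G)) * (z * ((a * (k' : G))⁻¹ * x * (a * (k' : G)))) * (a * (k' : G))⁻¹ := by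
                rw [hcomm']
            _ = (a * (k' : G)) * z * (a * (k' : G))⁻¹ * x := by group
        refine ⟨⟨_, htmem⟩, ?_, ?_, ?_⟩
        · apply Subtype.ext
          show (a * (k' : G)) * z * (a * (k' : G))⁻¹ * ((a * (k' : G)) * z * (a * (k' : G))⁻¹) = 1
          calc (a * (k' : G)) * z * (a * (k' : G))⁻¹ * ((a * (k' : G)) * z * (a * (k' : G))⁻¹)
              = (a * (k' : G)) * (z * z) * (a * (k' : G))⁻¹ := by group
            _ = 1 := by rw [hzz]; group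
        · show ((a * (k' : G)) * z * (a * (k' : G))⁻¹) • (a : G ⧸ H) = a
          rw [fix_iff]
          have e : a⁻¹ * ((a * (k' : G)) * z * (a * (k' : G))⁻¹) * a = (k' : G) * z * (k' : G)⁻¹ := by group
          rw [e]
          exact H.mul_mem (H.mul_mem k'.2 hzH) (H.inv_mem k'.2)
        · intro ω' _ hω'
          induction ω' using QuotientGroup.induction_on with
          | H b =>
            have h7 : b⁻¹ * ((a * (k' : G)) * z * (a * (k' : G))⁻¹) * b ∈ H := (fix_iff H _ b).mp hω'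
            have h8 : (a * (k' : G))⁻¹ * b ∈ H := by
              apply hfix
              have e : ((a * (k' : G))⁻¹ * b)⁻¹ * z * ((a * (k' : G))⁻¹ * b)
                  = b⁻¹ * ((a * (k' : G)) * z * (a * (k' : G))⁻¹) * b := by group
              rw [e]
              exact h7
            have h9 : a⁻¹ * b ∈ H := by
              have e : a⁻¹ * b = (k' : G) * ((a * (k' : G))⁻¹ * b) := by group
              rw [e]
              exact H.mul_mem k'.2 h8
            exact (QuotientGroup.eq.mpr h9).symm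
    have hω₁ : ((g⁻¹ : G) : G ⧸ H) ∈ {ω : G ⧸ H | x • ω = ω} := by
      rw [Set.mem_ofPred_eq, fix_iff, inv_inv]
      exact hg
    have hω₂ : ((1 : G) : G ⧸ H) ∈ {ω : G ⧸ H | x • ω = ω} := by
      rw [Set.mem_ofPred_eq, fix_iff, inv_one, one_mul, mul_one]
      exact hx
    obtain ⟨c, hc⟩ := trans_of_unique_fix _ hinv hh _ _ hω₁ hω₂
    have hc' : (((c : G) * 1 : G) : G ⧸ H) = ((g⁻¹ : G) : G ⧸ H) := hc
    rw [QuotientGroup.eq, mul_one] at hc'
    have hcx : x * (c : G) = (c : G) * x := Subgroup.mem_centralizer_iff.mp c.2 x rfl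
    refine ⟨((c : G)⁻¹ * g⁻¹)⁻¹, H.inv_mem hc', ?_⟩
    calc ((c : G)⁻¹ * g⁻¹)⁻¹ * x * (((c : G)⁻¹ * g⁻¹)⁻¹)⁻¹ = g * ((c : G) * x) * (c : G)⁻¹ * g⁻¹ := by group
      _ = g * (x * (c : G)) * (c : G)⁻¹ * g⁻¹ := by rw [hcx]
      _ = g * x * g⁻¹ := by group

end Cfsg.Agent.S5438
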