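import Cfsg.Statements.S5439
import Mathlib

set_option autoImplicit false
open Cfsg

namespace Cfsg.Agent.S5439

theorem fix_iff {G : Type*} [Group G] (H : Subgroup G) (x g : G) :
    x • (g : G ⧸ H) = (g : G ⧸ H) ↔ g⁻¹ * x * g ∈ H := by
  show ((x * g : G) : G ⧸ H) = g ↔ _
  rw [QuotientGroup.eq, ← H.inv_mem_iff]
  have : ((x * g)⁻¹ * g)⁻¹ = g⁻¹ * x * g := by group
  rw [this]

theorem conj_pow_inv {G : Type*} [Group G] {a s : G} (h : a * s * a⁻¹ = s⁻¹) (m : ℕ) :
    a * (s ^ m)⁻¹ * a⁻¹ = s ^ m := by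
  rw [← inv_pow, ← conj_pow]
  congr 1
  rw [← inv_inj, mul_inv_rev, mul_inv_rev, inv_inv, inv_inv, ← mul_assoc, h]

theorem conj_of_odd {G : Type*} [Group G] {a y : G} (haa : a * a = 1) (hyy : y * y = 1) (m : ℕ)
    (hm : orderOf (a * y) = 2 * m + 1) : (a * y) ^ m * a * ((a * y) ^ m)⁻¹ = y := by
  have hainv : a⁻¹ = a := inv_eq_of_mul_eq_one_left haa
  have hyinv : y⁻¹ = y := inv_eq_of_mul_eq_one_left hyy
  have hsinv : (a * y)⁻¹ = y * a := by rw [mul_inv_rev, hainv, hyinv]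
  have hconjs : a * (a * y) * a⁻¹ = (a * y)⁻¹ := by
    rw [hsinv, hainv]
    calc a * (a * y) * a = (a * a) * y * a := by group
      _ = y * a := by rw [haa, one_mul]
  have hpow : (a * y) ^ (2 * m) = y * a := by
    rw [← hsinv]
    apply eq_inv_of_mul_eq_one_left
    rw [← pow_succ, ← hm]
    exact pow_orderOf_eq_one (a * y)
  have h1 := conj_pow_inv hconjs m
  calc (a * y) ^ m * a * ((a * y) ^ m)⁻¹
      = (a * y) ^ m * (a * ((a * y) ^ m)⁻¹ * a⁻¹) * a := by group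
    _ = (a * y) ^ m * (a * y) ^ m * a := by rw [h1]
    _ = (a * y) ^ (2 * m) * a := by rw [← pow_add, two_mul]
    _ = y := by rw [hpow, mul_assoc, haa, mul_one]

theorem result {G : Type*} [Group G] [Finite G] (I J : Set G) (a₀ b₀ : G) (ha₀ : orderOf a₀ = 2) (hb₀ : orderOf b₀ = 2) (hI : I = {x | IsConj a₀ x}) (hJ : J = {x | IsConj b₀ x}) (hIJ : I ≠ J) (H : Subgroup G) (hfix : ∀ x ∈ I ∪ J, ∃! c : G ⧸ H, x • c = c) (hcent : ∀ a ∈ I, a ∈ H → ∀ b ∈ I ∪ J, b ∈ H → a ≠ b → a * b = b * a → Subgroup.centralizer ({a * b} : Set G) ≤ H) : H = ⊤ := by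
  have ha₀2 : a₀ * a₀ = 1 := by
    have := pow_orderOf_eq_one a₀
    rw [ha₀, pow_two] at this
    exact this
  have hb₀2 : b₀ * b₀ = 1 := by
    have := pow_orderOf_eq_one b₀
    rw [hb₀, pow_two] at this
    exact this
  have hIsq : ∀ x ∈ I, x * x = 1 := by
    intro x hx
    rw [hI] at hx
    obtain ⟨c, rfl⟩ := isConj_iff.mp hx
    calc c * a₀ * c⁻¹ * (c * a₀ * c⁻¹) = c * (a₀ * a₀) * c⁻¹ := by group
      _ = 1 := by rw [ha₀2]; group
  have hJsq : ∀ x ∈ J, x * x = 1 := by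
    intro x hx
    rw [hJ] at hx
    obtain ⟨c, rfl⟩ := isConj_iff.mp hx
    calc c * b₀ * c⁻¹ * (c * b₀ * c⁻¹) = c * (b₀ * b₀) * c⁻¹ := by group
      _ = 1 := by rw [hb₀2]; group
  have hIconj : ∀ g : G, ∀ x ∈ I, g * x * g⁻¹ ∈ I := by
    intro g x hx
    rw [hI] at hx ⊢
    exact IsConj.trans hx (isConj_iff.mpr ⟨g, rfl⟩)
  have hJconj : ∀ g : G, ∀ x ∈ J, g * x * g⁻¹ ∈ J := by
    intro g x hx
    rw [hJ] at hx ⊢
    exact IsConj.trans hx (isConj_iff.mpr ⟨g, rfl⟩)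
  have ha₀I : a₀ ∈ I := by rw [hI]; exact IsConj.refl a₀
  have hb₀J : b₀ ∈ J := by rw [hJ]; exact IsConj.refl b₀
  have hnc : ∀ a ∈ I, ∀ b ∈ J, ∀ h : G, h * a * h⁻¹ ≠ b := by
    intro a ha b hb h heq
    apply hIJ
    rw [hI] at ha
    rw [hJ] at hb
    have hab : IsConj a b := isConj_iff.mpr ⟨h, heq⟩
    have h00 : IsConj a₀ b₀ := (ha.trans hab).trans hb.symm
    rw [hI, hJ]
    ext x
    exact ⟨fun hx => h00.symm.trans hx, fun hx => h00.trans hx⟩
  -- a member of I in H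
  obtain ⟨c₀, hc₀, -⟩ := hfix a₀ (Or.inl ha₀I)
  induction c₀ using QuotientGroup.induction_on with
  | H g₀ =>
  rw [fix_iff] at hc₀
  have haI : g₀⁻¹ * a₀ * g₀ ∈ I := by
    have := hIconj g₀⁻¹ a₀ ha₀I
    rw [inv_inv] at this
    exact this
  generalize g₀⁻¹ * a₀ * g₀ = a at hc₀ haI
  have haa := hIsq a haI
  have hainv : a⁻¹ = a := inv_eq_of_mul_eq_one_left haa
  -- the fixed coset of a is H
  have hfixa : ∀ c : G ⧸ H, a • c = c → c = ((1 : G) : G ⧸ H) := by
    intro c hc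
    obtain ⟨c', -, huniq⟩ := hfix a (Or.inl haI)
    have e1 : ((1 : G) : G ⧸ H) = c' := by
      apply huniq
      show a • ((1 : G) : G ⧸ H) = ((1 : G) : G ⧸ H)
      rw [fix_iff, inv_one, one_mul, mul_one]
      exact hc₀
    rw [e1]
    exact huniq c hc
  have hcommH : ∀ y : G, a * y = y * a → y ∈ H := by
    intro y hy
    have h1 : a • ((y : G) : G ⧸ H) = ((y : G) : G ⧸ H) := by
      show (((a * y : G)) : G ⧸ H) = ((y : G) : G ⧸ H)
      rw [hy, QuotientGroup.eq]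
      have : (y * a)⁻¹ * y = a⁻¹ := by group
      rw [this]
      exact H.inv_mem hc₀
    have h2 := hfixa _ h1
    rw [QuotientGroup.eq, mul_one] at h2
    have := H.inv_mem h2
    rw [inv_inv] at this
    exact this
  have hJH : ∀ b ∈ J, b ∈ H := by
    intro b hb
    have hbb := hJsq b hb
    have hbinv : b⁻¹ = b := inv_eq_of_mul_eq_one_left hbb
    have heven : ¬ Odd (orderOf (a * b)) := by
      rintro ⟨m, hm⟩
      exact hnc a haI b hb _ (conj_of_odd haa hbb m hm)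
    obtain ⟨k, hk⟩ := Nat.not_odd_iff_even.mp heven
    have hpos : 0 < orderOf (a * b) := orderOf_pos (a * b)
    have hk0 : k ≠ 0 := by omega
    have hzz : (a * b) ^ k * (a * b) ^ k = 1 := by
      rw [← pow_add, ← hk]
      exact pow_orderOf_eq_one (a * b)
    have hz1 : (a * b) ^ k ≠ 1 := pow_ne_one_of_lt_orderOf hk0 (by omega)
    have hzinv : ((a * b) ^ k)⁻¹ = (a * b) ^ k := inv_eq_of_mul_eq_one_left hzz
    have hconjr : a * (a * b) * a⁻¹ = (a * b)⁻¹ := by
      rw [mul_inv_rev, hainv, hbinv, ← mul_assoc, haa, one_mul]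
    have hkey : ∀ m : ℕ, a * (a * b) ^ m = ((a * b) ^ m)⁻¹ * a := by
      intro m
      have h1 := conj_pow_inv hconjr m
      calc a * (a * b) ^ m = (a * ((a * b) ^ m)⁻¹ * a⁻¹)⁻¹ * a := by group
        _ = ((a * b) ^ m)⁻¹ * a := by rw [h1]
    have haz : a * (a * b) ^ k = (a * b) ^ k * a := by
      have := hkey k
      rw [hzinv] at this
      exact this
    have hc : a * (a * b) ^ k ∈ I ∪ J := by
      rcases Nat.even_or_odd' k with ⟨m, rfl | rfl⟩
      · have : a * (a * b) ^ (2 * m) = ((a * b) ^ m)⁻¹ * a * (((a * b) ^ m)⁻¹)⁻¹ := by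
          rw [two_mul, pow_add, ← mul_assoc, hkey m, inv_inv]
        rw [this]
        exact Or.inl (hIconj _ a haI)
      · have : a * (a * b) ^ (2 * m + 1) = ((a * b) ^ m)⁻¹ * b * (((a * b) ^ m)⁻¹)⁻¹ := by
          have hab1 : a * (a * b) = b := by rw [← mul_assoc, haa, one_mul]
          rw [inv_inv]
          calc a * (a * b) ^ (2 * m + 1) = a * (a * b) ^ m * (a * b) * (a * b) ^ m := by
                rw [show 2 * m + 1 = m + 1 + m by ring, pow_add, pow_succ]; group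
            _ = ((a * b) ^ m)⁻¹ * (a * (a * b)) * (a * b) ^ m := by rw [hkey m]; group
            _ = ((a * b) ^ m)⁻¹ * b * (a * b) ^ m := by rw [hab1]
        rw [this]
        exact Or.inr (hJconj _ b hb)
    have hne : a ≠ a * (a * b) ^ k := by
      intro h1
      exact hz1 (mul_left_cancel (h1.symm.trans (mul_one a).symm))
    have hcomm : a * (a * (a * b) ^ k) = a * (a * b) ^ k * a := by
      rw [mul_assoc, ← haz]
    have hcH : a * (a * b) ^ k ∈ H := hcommH _ hcomm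
    have hle := hcent a haI hc₀ _ hc hcH hne hcomm
    have hacz : a * (a * (a * b) ^ k) = (a * b) ^ k := by rw [← mul_assoc, haa, one_mul]
    rw [hacz] at hle
    apply hle
    rw [Subgroup.mem_centralizer_iff]
    intro y hy
    rw [Set.mem_singleton_iff] at hy
    rw [hy]
    have hb' : a * (a * b) = b := by rw [← mul_assoc, haa, one_mul]
    have h3 : Commute ((a * b) ^ k) (a * (a * b)) :=
      (show Commute ((a * b) ^ k) a from haz.symm).mul_right ((Commute.refl (a * b)).pow_left k)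
    rw [hb'] at h3
    exact h3.eq
  -- conclude
  rw [eq_top_iff]
  intro g _
  obtain ⟨c', -, huniq⟩ := hfix b₀ (Or.inr hb₀J)
  have e1 : ((1 : G) : G ⧸ H) = c' := by
    apply huniq
    show b₀ • ((1 : G) : G ⧸ H) = ((1 : G) : G ⧸ H)
    rw [fix_iff, inv_one, one_mul, mul_one]
    exact hJH b₀ hb₀J
  have e2 : ((g : G) : G ⧸ H) = c' := by
    apply huniq
    show b₀ • ((g : G) : G ⧸ H) = ((g : G) : G ⧸ H)
    rw [fix_iff]
    have := hJconj g⁻¹ b₀ hb₀J
    rw [inv_inv] at this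
    exact hJH _ this
  have e3 := e1.trans e2.symm
  rw [QuotientGroup.eq, inv_one, one_mul] at e3
  exact e3

end Cfsg.Agent.S5439
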