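import Mathlib
import Cfsg.Statements.S5459

set_option autoImplicit false
open Cfsg

namespace Cfsg.Agent.S5459

open scoped commutatorElement

theorem mem_conj_iff {G : Type*} [Group G] {d x : G} : x ∈ conjugatesOf d ↔ IsConj d x := Iff.rfl

/-- Lifting a commuting pair through a subgroup `Z` inverted by both elements, with fourth roots. -/
theorem lift_commute {G : Type*} [Group G] (Z : Subgroup G) (a b : G)
    (ha : ∀ c ∈ Z, a * c * a⁻¹ = c⁻¹) (hb : ∀ c ∈ Z, b * c * b⁻¹ = c⁻¹)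
    (w : G) (hw : w ∈ Z) (hz : w * w * w * w = a * b * a⁻¹ * b⁻¹) :
    Commute a (w * b * w⁻¹) := by
  have h1 : a * w = w⁻¹ * a := by
    have := ha w hw
    calc a * w = (a * w * a⁻¹) * a := by group
      _ = w⁻¹ * a := by rw [this]
  have h2 : a * w⁻¹ = w * a := by
    have := ha w⁻¹ (Z.inv_mem hw)
    calc a * w⁻¹ = (a * w⁻¹ * a⁻¹) * a := by group
      _ = w * a := by rw [this, inv_inv]
  have h3 : b * w = w⁻¹ * b := by
    have := hb w hw
    calc b * w = (b * w * b⁻¹) * b := by group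
      _ = w⁻¹ * b := by rw [this]
  have h4 : b * w⁻¹ = w * b := by
    have := hb w⁻¹ (Z.inv_mem hw)
    calc b * w⁻¹ = (b * w⁻¹ * b⁻¹) * b := by group
      _ = w * b := by rw [this, inv_inv]
  have h5 : a * b = (w * w * w * w) * b * a := by
    rw [hz]
    group
  show a * (w * b * w⁻¹) = (w * b * w⁻¹) * a
  calc a * (w * b * w⁻¹) = (a * w) * b * w⁻¹ := by group
    _ = w⁻¹ * (a * b) * w⁻¹ := by rw [h1]; group
    _ = w⁻¹ * (w * w * w * w) * b * (a * w⁻¹) := by rw [h5]; group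
    _ = w⁻¹ * (w * w * w * w) * (b * w) * a := by rw [h2]; group
    _ = w * (w * b) * a := by rw [h3]; group
    _ = w * (b * w⁻¹) * a := by rw [h4]
    _ = (w * b * w⁻¹) * a := by group

theorem lift_conj {G : Type*} [Group G] (Z : Subgroup G) (x e : G)
    (he : ∀ c ∈ Z, e * c * e⁻¹ = c⁻¹) (w : G) (hw : w ∈ Z) (hz : w * w = x * e⁻¹) :
    x = w * e * w⁻¹ := by
  have h4 : e * w⁻¹ = w * e := by
    have := he w⁻¹ (Z.inv_mem hw)
    calc e * w⁻¹ = (e * w⁻¹ * e⁻¹) * e := by group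
      _ = w * e := by rw [this, inv_inv]
  calc x = (x * e⁻¹) * e := by group
    _ = w * (w * e) := by rw [← hz]; group
    _ = w * (e * w⁻¹) := by rw [h4]
    _ = w * e * w⁻¹ := by group

theorem exists_sqrt {G : Type*} [Group G] (Z : Subgroup G) [Finite Z] (hodd : Odd (Nat.card Z))
    (z : G) (hz : z ∈ Z) : ∃ w ∈ Z, w * w = z := by
  obtain ⟨k, hk⟩ := hodd
  have h1 : (⟨z, hz⟩ : Z) ^ Nat.card Z = 1 := pow_card_eq_one'
  have h2 : z ^ Nat.card Z = 1 := by
    have := congrArg Subtype.val h1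
    simpa only [Subgroup.coe_pow, Subgroup.coe_one] using this
  refine ⟨z ^ (k + 1), Z.pow_mem hz _, ?_⟩
  rw [← pow_add]
  have e : k + 1 + (k + 1) = Nat.card Z + 1 := by omega
  rw [e, pow_succ, h2, one_mul]

/-- conjugation action on a conjugacy class -/
def cj {G : Type*} [Group G] (d : G) (g : G) (x : conjugatesOf d) : conjugatesOf d :=
  ⟨g * x * g⁻¹, by
    have hx := x.2
    rw [mem_conj_iff] at hx ⊢
    exact hx.trans (isConj_iff.mpr ⟨g, rfl⟩)⟩

theorem cj_reach {G : Type*} [Group G] (d : G) (g : G) (x y : conjugatesOf d)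
    (h : (Cfsg.commutingGraph (conjugatesOf d)).Reachable x y) :
    (Cfsg.commutingGraph (conjugatesOf d)).Reachable (cj d g x) (cj d g y) := by
  rw [SimpleGraph.reachable_iff_reflTransGen] at h ⊢
  induction h with
  | refl => exact Relation.ReflTransGen.refl
  | tail hab hbc ih =>
    rename_i b c
    refine Relation.ReflTransGen.tail ih ?_
    unfold Cfsg.commutingGraph at hbc ⊢
    rw [SimpleGraph.fromRel_adj] at hbc ⊢
    obtain ⟨hne, hcomm⟩ := hbc
    refine ⟨?_, ?_⟩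
    · intro heq
      apply hne
      have h1 := congrArg Subtype.val heq
      simp only [cj] at h1
      exact Subtype.ext (mul_left_cancel (mul_right_cancel h1))
    · have key : ∀ u v : G, Commute u v → Commute (g * u * g⁻¹) (g * v * g⁻¹) := by
        intro u v huv
        show g * u * g⁻¹ * (g * v * g⁻¹) = g * v * g⁻¹ * (g * u * g⁻¹)
        have : u * v = v * u := huv
        calc g * u * g⁻¹ * (g * v * g⁻¹) = g * (u * v) * g⁻¹ := by group
          _ = g * (v * u) * g⁻¹ := by rw [this]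
          _ = g * v * g⁻¹ * (g * u * g⁻¹) := by group
      rcases hcomm with h | h
      · exact Or.inl (key _ _ h)
      · exact Or.inr (key _ _ h)

theorem result {G : Type*} [Group G] [Finite G] (L : Subgroup G) [L.Normal] (hL : Cfsg.IsQuasisimple ↥L) (d : G) (hd : orderOf d = 2) (hgen : L ⊔ Subgroup.zpowers d = ⊤) (hodd : Odd (Nat.card ↥(Subgroup.center ↥L))) (hinv : ∀ c ∈ (Subgroup.center ↥L).map L.subtype, d * c * d⁻¹ = c⁻¹) [hn : ((Subgroup.center ↥L).map L.subtype).Normal] (hconn : (Cfsg.commutingGraph (conjugatesOf (QuotientGroup.mk d : G ⧸ (Subgroup.center ↥L).map L.subtype))).Connected) : (Cfsg.commutingGraph (conjugatesOf d)).Connected := by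
  obtain ⟨Z, hZ⟩ : ∃ Z : Subgroup G, Z = (Subgroup.center ↥L).map L.subtype := ⟨_, rfl⟩
  have hZn : Z.Normal := hZ ▸ hn
  have hZL : Z ≤ L := by
    rw [hZ]
    rintro _ ⟨l, -, rfl⟩
    exact l.2
  have hZc : ∀ z ∈ Z, ∀ l ∈ L, z * l = l * z := by
    intro z hz l hl
    rw [hZ] at hz
    obtain ⟨z', hz', rfl⟩ := hz
    have := Subgroup.mem_center_iff.mp hz' ⟨l, hl⟩
    have h2 := congrArg Subtype.val this
    simpa using h2.symm
  have hZodd : Odd (Nat.card Z) := by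
    have e : Nat.card Z = Nat.card (Subgroup.center ↥L) := by
      rw [hZ]
      exact Nat.card_congr
        ((Subgroup.center ↥L).equivMapOfInjective _ (Subgroup.subtype_injective _)).symm.toEquiv
    rw [e]
    exact hodd
  have hDinv : ∀ a ∈ conjugatesOf d, ∀ c ∈ Z, a * c * a⁻¹ = c⁻¹ := by
    intro a ha c hc
    rw [mem_conj_iff, isConj_iff] at ha
    obtain ⟨g, rfl⟩ := ha
    have hc' : g⁻¹ * c * g ∈ Z := by
      have := hZn.conj_mem c hc g⁻¹
      rwa [inv_inv] at this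
    have h1 := hinv (g⁻¹ * c * g) (hZ ▸ hc')
    calc g * d * g⁻¹ * c * (g * d * g⁻¹)⁻¹ = g * (d * (g⁻¹ * c * g) * d⁻¹) * g⁻¹ := by group
      _ = g * (g⁻¹ * c * g)⁻¹ * g⁻¹ := by rw [h1]
      _ = c⁻¹ := by group
  have hsqrt := exists_sqrt Z hZodd
  -- the base vertex
  obtain ⟨d', hd'⟩ : ∃ d' : conjugatesOf d, (d' : G) = d := ⟨⟨d, mem_conjugatesOf_self⟩, rfl⟩
  -- the subgroup of elements moving d' within its component
  obtain ⟨H, hH⟩ : ∃ H : Subgroup G, ∀ g, g ∈ H ↔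
      (Cfsg.commutingGraph (conjugatesOf d)).Reachable d' (cj d g d') := by
    refine ⟨{ carrier := {g | (Cfsg.commutingGraph (conjugatesOf d)).Reachable d' (cj d g d')}
              mul_mem' := ?_
              one_mem' := ?_
              inv_mem' := ?_ }, fun g => Iff.rfl⟩
    · intro g h hg hh
      have h1 := cj_reach d g _ _ hh
      have e : cj d g (cj d h d') = cj d (g * h) d' := by
        apply Subtype.ext
        simp only [cj]
        group
      rw [e] at h1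
      exact hg.trans h1
    · have e : cj d 1 d' = d' := by
        apply Subtype.ext
        simp only [cj]
        group
      show (Cfsg.commutingGraph (conjugatesOf d)).Reachable d' (cj d 1 d')
      rw [e]
    · intro g hg
      have h1 := cj_reach d g⁻¹ _ _ hg
      have e : cj d g⁻¹ (cj d g d') = d' := by
        apply Subtype.ext
        simp only [cj]
        group
      rw [e] at h1
      exact h1.symm
  -- lifting lemma
  have hlift : ∀ (u v : conjugatesOf (QuotientGroup.mk d : G ⧸ Z)),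
      (Cfsg.commutingGraph (conjugatesOf (QuotientGroup.mk d : G ⧸ Z))).Reachable u v →
      ∀ u₀ : conjugatesOf d, (QuotientGroup.mk (u₀ : G) : G ⧸ Z) = u →
      ∃ v₀ : conjugatesOf d, (QuotientGroup.mk (v₀ : G) : G ⧸ Z) = v ∧
        (Cfsg.commutingGraph (conjugatesOf d)).Reachable u₀ v₀ := by
    intro u v huv u₀ hu₀
    rw [SimpleGraph.reachable_iff_reflTransGen] at huv
    induction huv with
    | refl => exact ⟨u₀, hu₀, SimpleGraph.Reachable.refl _⟩
    | tail hab hbc ih =>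
      rename_i b c
      obtain ⟨v₀, hv₀, hreach⟩ := ih
      unfold Cfsg.commutingGraph at hbc
      rw [SimpleGraph.fromRel_adj] at hbc
      obtain ⟨hne, hcomm⟩ := hbc
      have hcomm' : Commute (b : G ⧸ Z) (c : G ⧸ Z) := by
        rcases hcomm with h | h
        · exact h
        · exact h.symm
      have hc := c.2
      rw [mem_conj_iff, isConj_iff] at hc
      obtain ⟨gbar, hgbar⟩ := hc
      obtain ⟨g, rfl⟩ := QuotientGroup.mk_surjective gbar
      have hc₀ : g * d * g⁻¹ ∈ conjugatesOf d := by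
        rw [mem_conj_iff, isConj_iff]
        exact ⟨g, rfl⟩
      have hmkc : (QuotientGroup.mk (g * d * g⁻¹) : G ⧸ Z) = c := by
        rw [← hgbar]
        rfl
      have hzmem : (v₀ : G) * (g * d * g⁻¹) * (v₀ : G)⁻¹ * (g * d * g⁻¹)⁻¹ ∈ Z := by
        rw [← QuotientGroup.eq_one_iff]
        have h1 : (QuotientGroup.mk ((v₀ : G) * (g * d * g⁻¹) * (v₀ : G)⁻¹ * (g * d * g⁻¹)⁻¹) : G ⧸ Z)
            = (b : G ⧸ Z) * (c : G ⧸ Z) * (b : G ⧸ Z)⁻¹ * (c : G ⧸ Z)⁻¹ := by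
          rw [← hv₀, ← hmkc]
          rfl
        rw [h1, hcomm'.eq]
        group
      obtain ⟨w₁, hw₁, hw₁z⟩ := hsqrt _ hzmem
      obtain ⟨w, hw, hww⟩ := hsqrt _ hw₁
      have hw4 : w * w * w * w = (v₀ : G) * (g * d * g⁻¹) * (v₀ : G)⁻¹ * (g * d * g⁻¹)⁻¹ := by
        rw [← hw₁z, ← hww]
        group
      have hcm := lift_commute Z (v₀ : G) (g * d * g⁻¹) (hDinv _ v₀.2) (hDinv _ hc₀) w hw hw4
      have hcD : w * (g * d * g⁻¹) * w⁻¹ ∈ conjugatesOf d := by
        rw [mem_conj_iff, isConj_iff]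
        exact ⟨w * g, by group⟩
      have hmk : (QuotientGroup.mk (w * (g * d * g⁻¹) * w⁻¹) : G ⧸ Z) = c := by
        rw [← hmkc]
        have hw1 : (QuotientGroup.mk w : G ⧸ Z) = 1 := (QuotientGroup.eq_one_iff w).mpr hw
        rw [QuotientGroup.mk_mul, QuotientGroup.mk_mul, QuotientGroup.mk_inv, hw1]
        group
      refine ⟨⟨_, hcD⟩, hmk, hreach.trans (SimpleGraph.Adj.reachable ?_)⟩
      unfold Cfsg.commutingGraph
      rw [SimpleGraph.fromRel_adj]
      refine ⟨?_, Or.inl hcm⟩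
      intro heq
      apply hne
      apply Subtype.ext
      rw [← hv₀, ← hmk, heq]
  -- every element is in Z * H
  have hZH : ∀ g : G, ∃ w ∈ Z, w * g ∈ H := by
    intro g
    have hmem : (QuotientGroup.mk (g * d * g⁻¹) : G ⧸ Z) ∈
        conjugatesOf (QuotientGroup.mk d : G ⧸ Z) := by
      rw [mem_conj_iff, isConj_iff]
      exact ⟨QuotientGroup.mk g, rfl⟩
    have hmem0 : (QuotientGroup.mk d : G ⧸ Z) ∈ conjugatesOf (QuotientGroup.mk d : G ⧸ Z) :=
      mem_conjugatesOf_self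
    have hconn' : (Cfsg.commutingGraph (conjugatesOf (QuotientGroup.mk d : G ⧸ Z))).Connected := by
      subst hZ
      exact hconn
    obtain ⟨v₀, hv₀, hreach⟩ := hlift ⟨_, hmem0⟩ ⟨_, hmem⟩ (hconn'.preconnected _ _) d'
      (by rw [hd'])
    have hv₀' : (QuotientGroup.mk (v₀ : G) : G ⧸ Z) = QuotientGroup.mk (g * d * g⁻¹) := hv₀
    have hzmem : (v₀ : G) * (g * d * g⁻¹)⁻¹ ∈ Z := by
      rw [← QuotientGroup.eq_one_iff, QuotientGroup.mk_mul, hv₀', ← QuotientGroup.mk_mul,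
        mul_inv_cancel]
      rfl
    have hc₀ : g * d * g⁻¹ ∈ conjugatesOf d := by
      rw [mem_conj_iff, isConj_iff]
      exact ⟨g, rfl⟩
    obtain ⟨w, hw, hww⟩ := hsqrt _ hzmem
    have hx := lift_conj Z (v₀ : G) (g * d * g⁻¹) (hDinv _ hc₀) w hw hww
    refine ⟨w, hw, ?_⟩
    rw [hH]
    have e : cj d (w * g) d' = v₀ := by
      apply Subtype.ext
      simp only [cj]
      rw [hd', hx]
      group
    rw [e]
    exact hreach
  -- L ≤ H
  have hLH : L ≤ H := by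
    have hperf : ⁅L, L⁆ = L := (Subgroup.isPerfect_iff).mp hL.1
    rw [← hperf, Subgroup.commutator_le]
    intro l₁ hl₁ l₂ hl₂
    obtain ⟨w₁, hw₁, h1⟩ := hZH l₁
    obtain ⟨w₂, hw₂, h2⟩ := hZH l₂
    have h3 : ⁅w₁ * l₁, w₂ * l₂⁆ ∈ H := by
      rw [commutatorElement_def]
      exact H.mul_mem (H.mul_mem (H.mul_mem h1 h2) (H.inv_mem h1)) (H.inv_mem h2)
    have e : ⁅w₁ * l₁, w₂ * l₂⁆ = ⁅l₁, l₂⁆ := by
      rw [commutatorElement_def, commutatorElement_def]
      have c1 := hZc w₁ hw₁ l₁ hl₁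
      have c2 := hZc w₂ hw₂ l₂ hl₂
      have c3 := hZc w₁ hw₁ l₂ hl₂
      have c4 := hZc w₂ hw₂ l₁ hl₁
      have c5 := hZc w₁ hw₁ w₂ (hZL hw₂)
      have c6 := hZc w₂ hw₂ (l₁ * l₂) (L.mul_mem hl₁ hl₂)
      have c7 := hZc w₁ hw₁ (l₁ * w₂ * l₂) (L.mul_mem (L.mul_mem hl₁ (hZL hw₂)) hl₂)
      calc w₁ * l₁ * (w₂ * l₂) * (w₁ * l₁)⁻¹ * (w₂ * l₂)⁻¹
          = w₁ * (l₁ * w₂ * l₂) * l₁⁻¹ * w₁⁻¹ * l₂⁻¹ * w₂⁻¹ := by group
        _ = (l₁ * w₂ * l₂) * w₁ * l₁⁻¹ * w₁⁻¹ * l₂⁻¹ * w₂⁻¹ := by rw [c7]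
        _ = l₁ * (w₂ * l₂) * (w₁ * l₁⁻¹) * w₁⁻¹ * l₂⁻¹ * w₂⁻¹ := by group
        _ = l₁ * (l₂ * w₂) * (l₁⁻¹ * w₁) * w₁⁻¹ * l₂⁻¹ * w₂⁻¹ := by
            rw [c2, hZc w₁ hw₁ l₁⁻¹ (L.inv_mem hl₁)]
        _ = l₁ * l₂ * (w₂ * l₁⁻¹) * l₂⁻¹ * w₂⁻¹ := by group
        _ = l₁ * l₂ * (l₁⁻¹ * w₂) * l₂⁻¹ * w₂⁻¹ := by rw [hZc w₂ hw₂ l₁⁻¹ (L.inv_mem hl₁)]
        _ = l₁ * l₂ * l₁⁻¹ * (w₂ * l₂⁻¹) * w₂⁻¹ := by group
        _ = l₁ * l₂ * l₁⁻¹ * (l₂⁻¹ * w₂) * w₂⁻¹ := by rw [hZc w₂ hw₂ l₂⁻¹ (L.inv_mem hl₂)]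
        _ = l₁ * l₂ * l₁⁻¹ * l₂⁻¹ := by group
    rw [← e]
    exact h3
  have hdH : d ∈ H := by
    rw [hH]
    have e : cj d d d' = d' := by
      apply Subtype.ext
      simp only [cj]
      rw [hd']
      group
    rw [e]
  have hHtop : H = ⊤ := by
    rw [eq_top_iff, ← hgen]
    exact sup_le hLH ((Subgroup.zpowers_le).mpr hdH)
  have hall : ∀ v : conjugatesOf d, (Cfsg.commutingGraph (conjugatesOf d)).Reachable d' v := by
    intro v
    have hv := v.2
    rw [mem_conj_iff, isConj_iff] at hv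
    obtain ⟨g, hg⟩ := hv
    have hgH : g ∈ H := by rw [hHtop]; exact Subgroup.mem_top g
    rw [hH] at hgH
    have e : cj d g d' = v := by
      apply Subtype.ext
      simp only [cj]
      rw [hd', hg]
    rw [e] at hgH
    exact hgH
  rw [SimpleGraph.connected_iff_exists_forall_reachable]
  exact ⟨d', hall⟩

end Cfsg.Agent.S5459
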