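import Cfsg.Statements.S5541
import Mathlib

set_option autoImplicit false
open Cfsg

namespace Cfsg.Agent.S5541

section
variable {H : Type*} [Group H] {U : Type*} [AddCommGroup U] [Module ℝ U]

theorem rho_cancel (ρ : Representation ℝ H U) (g : H) (w : U) : ρ g (ρ g⁻¹ w) = w := by
  rw [← Module.End.mul_apply, ← map_mul, mul_inv_cancel, map_one, Module.End.one_apply]

theorem equivariant_iff (ρ : Representation ℝ H U) (B : LinearMap.BilinForm ℝ U)
    (hinj : Function.Injective B) (hBi : ∀ (g : H) (u v : U), B (ρ g u) (ρ g v) = B u v)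
    (m : U →ₗ[ℝ] U →ₗ[ℝ] U) :
    (∀ (g : H) (u v : U), m (ρ g u) (ρ g v) = ρ g (m u v)) ↔
    (∀ (g : H) (u v w : U), B (m (ρ g u) (ρ g v)) (ρ g w) = B (m u v) w) := by
  constructor
  · intro h g u v w
    rw [h, hBi]
  · intro h g u v
    apply hinj
    ext w
    have h1 := h g u v (ρ g⁻¹ w)
    rw [rho_cancel] at h1
    rw [h1, ← hBi g (m u v) (ρ g⁻¹ w), rho_cancel]

theorem exists_ne_zero (t : U →ₗ[ℝ] U →ₗ[ℝ] U →ₗ[ℝ] ℝ) (ht0 : t ≠ 0) : ∃ u v w, t u v w ≠ 0 := by
  by_contra hcon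
  push Not at hcon
  apply ht0
  ext u v w
  simpa using hcon u v w

end

/-- Let ρ be a representation of a group H on a finite-dimensional real vector space U whose only ρ-invariant subspaces are the zero subspace and U, and suppose U carries a non-zero ρ-invariant symmetric bilinear form. Then the following are equivalent: (1) there is a non-zero ρ-equivariant commutative bilinear product on U of which every ρ-equivariant bilinear product is a scalar multiple; (2) there is a non-zero ρ-invariant trilinear form on U that is symmetric under all permutations of its arguments and of which every ρ-invariant trilinear form is a scalar multiple. -/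
theorem result {H : Type*} [Group H] {U : Type*} [AddCommGroup U] [Module ℝ U] [FiniteDimensional ℝ U] (ρ : Representation ℝ H U) (hirr : ∀ W : Submodule ℝ U, (∀ g : H, W.map (ρ g) ≤ W) → W = ⊥ ∨ W = ⊤) (B : LinearMap.BilinForm ℝ U) (hB0 : B ≠ 0) (hBs : ∀ u v, B u v = B v u) (hBi : ∀ (g : H) (u v : U), B (ρ g u) (ρ g v) = B u v) : (∃ m : U →ₗ[ℝ] U →ₗ[ℝ] U, m ≠ 0 ∧ (∀ u v, m u v = m v u) ∧ (∀ (g : H) (u v : U), m (ρ g u) (ρ g v) = ρ g (m u v)) ∧ ∀ m' : U →ₗ[ℝ] U →ₗ[ℝ] U, (∀ (g : H) (u v : U), m' (ρ g u) (ρ g v) = ρ g (m' u v)) → ∃ c : ℝ, m' = c • m) ↔ (∃ t : U →ₗ[ℝ] U →ₗ[ℝ] U →ₗ[ℝ] ℝ, t ≠ 0 ∧ (∀ u v w, t u v w = t v u w ∧ t u v w = t u w v) ∧ (∀ (g : H) (u v w : U), t (ρ g u) (ρ g v) (ρ g w) = t u v w) ∧ ∀ t' : U →ₗ[ℝ] U →ₗ[ℝ] U →ₗ[ℝ] ℝ, (∀ (g : H) (u v w : U), t' (ρ g u) (ρ g v) (ρ g w) = t' u v w) → ∃ c : ℝ, t' = c • t) := by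
  have hker : LinearMap.ker B = ⊥ := by
    have hinv : ∀ g : H, (LinearMap.ker B).map (ρ g) ≤ LinearMap.ker B := by
      intro g
      rintro _ ⟨u, hu, rfl⟩
      have hu' : B u = 0 := LinearMap.mem_ker.mp hu
      apply LinearMap.mem_ker.mpr
      ext v
      have h1 := hBi g u (ρ g⁻¹ v)
      rw [rho_cancel] at h1
      rw [h1, hu']
      rfl
    rcases hirr _ hinv with h | h
    · exact h
    · exfalso
      apply hB0
      ext u v
      have h2 : u ∈ LinearMap.ker B := h ▸ Submodule.mem_top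
      rw [LinearMap.mem_ker.mp h2]
      rfl
  have hinj : Function.Injective B := LinearMap.ker_eq_bot.mp hker
  have hsurj : Function.Surjective B :=
    (LinearMap.injective_iff_surjective_of_finrank_eq_finrank
      (Subspace.dual_finrank_eq (K := ℝ) (V := U)).symm).mp hinj
  let e : U ≃ₗ[ℝ] Module.Dual ℝ U := LinearEquiv.ofBijective B ⟨hinj, hsurj⟩
  have he : ∀ φ : Module.Dual ℝ U, B (e.symm φ) = φ := fun φ => e.apply_symm_apply φ
  constructor
  · rintro ⟨m, hm0, hmc, hme, hmu⟩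
    let t : U →ₗ[ℝ] U →ₗ[ℝ] U →ₗ[ℝ] ℝ := m.compr₂ B
    have ht : ∀ u v w, t u v w = B (m u v) w := fun u v w => rfl
    have ht0 : t ≠ 0 := by
      intro h0
      apply hm0
      ext u v
      apply hinj
      ext w
      rw [← ht, h0]
      simp
    have hti : ∀ (g : H) (u v w : U), t (ρ g u) (ρ g v) (ρ g w) = t u v w := by
      intro g u v w
      rw [ht, ht]
      exact (equivariant_iff ρ B hinj hBi m).mp hme g u v w
    have htu : ∀ t' : U →ₗ[ℝ] U →ₗ[ℝ] U →ₗ[ℝ] ℝ,
        (∀ (g : H) (u v w : U), t' (ρ g u) (ρ g v) (ρ g w) = t' u v w) → ∃ c : ℝ, t' = c • t := by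
      intro t' ht'
      let m' : U →ₗ[ℝ] U →ₗ[ℝ] U := t'.compr₂ (e.symm : Module.Dual ℝ U →ₗ[ℝ] U)
      have hm' : ∀ u v, B (m' u v) = t' u v := fun u v => he (t' u v)
      have hm'e : ∀ (g : H) (u v : U), m' (ρ g u) (ρ g v) = ρ g (m' u v) := by
        rw [equivariant_iff ρ B hinj hBi m']
        intro g u v w
        rw [hm', hm']
        exact ht' g u v w
      obtain ⟨c, hc⟩ := hmu m' hm'e
      refine ⟨c, ?_⟩
      ext u v w
      rw [← hm', hc]
      simp [ht]
    have hs1 : ∀ u v w, t u v w = t v u w := by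
      intro u v w
      rw [ht, ht, hmc]
    refine ⟨t, ht0, ?_, hti, htu⟩
    let t'' : U →ₗ[ℝ] U →ₗ[ℝ] U →ₗ[ℝ] ℝ := LinearMap.lflip.comp t
    have ht'' : ∀ u v w, t'' u v w = t u w v := fun u v w => rfl
    obtain ⟨c, hc⟩ := htu t'' (by
      intro g u v w
      rw [ht'', ht'']
      exact hti g u w v)
    have hc' : ∀ u v w, t u w v = c * t u v w := by
      intro u v w
      rw [← ht'', hc]
      simp
    obtain ⟨u₀, v₀, w₀, h0⟩ := exists_ne_zero t ht0
    have hcc : c * c = 1 := by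
      have h1 := hc' u₀ v₀ w₀
      have h2 := hc' u₀ w₀ v₀
      rw [h1] at h2
      have h3 : (c * c - 1) * t u₀ v₀ w₀ = 0 := by linarith
      rcases mul_eq_zero.mp h3 with h | h
      · linarith
      · exact absurd h h0
    have hc1 : c = 1 := by
      rcases mul_self_eq_one_iff.mp hcc with h | h
      · exact h
      · exfalso
        apply h0
        have a1 := hc' u₀ v₀ w₀
        have a2 := hs1 u₀ w₀ v₀
        have a3 := hc' w₀ u₀ v₀
        have a4 := hs1 w₀ v₀ u₀
        have a5 := hc' v₀ w₀ u₀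
        have a6 := hs1 v₀ u₀ w₀
        rw [h] at a1 a3 a5
        linarith
    intro u v w
    refine ⟨hs1 u v w, ?_⟩
    have := hc' u w v
    rw [hc1, one_mul] at this
    exact this
  · rintro ⟨t, ht0, hts, hti, htu⟩
    let m : U →ₗ[ℝ] U →ₗ[ℝ] U := t.compr₂ (e.symm : Module.Dual ℝ U →ₗ[ℝ] U)
    have hm : ∀ u v, B (m u v) = t u v := fun u v => he (t u v)
    have hm0 : m ≠ 0 := by
      intro h0
      apply ht0
      ext u v w
      rw [← hm, h0]
      simp
    have hmc : ∀ u v, m u v = m v u := by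
      intro u v
      apply hinj
      rw [hm, hm]
      ext w
      exact (hts u v w).1
    have hme : ∀ (g : H) (u v : U), m (ρ g u) (ρ g v) = ρ g (m u v) := by
      rw [equivariant_iff ρ B hinj hBi m]
      intro g u v w
      rw [hm, hm]
      exact hti g u v w
    refine ⟨m, hm0, hmc, hme, ?_⟩
    intro m' hm'
    let t' : U →ₗ[ℝ] U →ₗ[ℝ] U →ₗ[ℝ] ℝ := m'.compr₂ B
    have ht' : ∀ u v w, t' u v w = B (m' u v) w := fun u v w => rfl
    obtain ⟨c, hc⟩ := htu t' (by
      intro g u v w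
      rw [ht', ht']
      exact (equivariant_iff ρ B hinj hBi m').mp hm' g u v w)
    refine ⟨c, ?_⟩
    ext u v
    apply hinj
    ext w
    rw [← ht', hc]
    simp [hm]


end Cfsg.Agent.S5541
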