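import Cfsg.Statements.S5543
import Mathlib

set_option autoImplicit false
open Cfsg

namespace Cfsg.Agent.S5543

open Cfsg.Axial

theorem exists_notMem {G : Type*} [Group G] (X : Subgroup G) (s : Finset G) (h : s.card < Nat.card X) :
    ∃ z ∈ X, z ∉ s := by
  by_contra hcon
  push Not at hcon
  have h1 : (X : Set G) ⊆ (s : Set G) := fun z hz => hcon z hz
  have h2 : (X : Set G).ncard ≤ (s : Set G).ncard := Set.ncard_le_ncard h1 s.finite_toSet
  rw [Set.ncard_coe_finset, ← Nat.card_coe_set_eq] at h2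
  exact absurd h (not_lt.mpr h2)

theorem quarter_of_pair {V : Type*} [AddCommGroup V] [Module ℝ V] (mul : V →ₗ[ℝ] V →ₗ[ℝ] V)
    (a b c : V) (h1 : mul a b = (1/8 : ℝ) • (a + b - c)) (h2 : mul a c = (1/8 : ℝ) • (a + c - b)) :
    mul a (b - c) = (1/4 : ℝ) • (b - c) := by
  rw [map_sub, h1, h2]
  module

theorem eig_indep {V : Type*} [AddCommGroup V] [Module ℝ V] (mul : V →ₗ[ℝ] V →ₗ[ℝ] V)
    (a w : V) (hw : mul a w = (1/4 : ℝ) • w) (h : (1/4 : ℝ) • w ∈ eigenSum mul a {1, 0}) : w = 0 := by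
  rw [eigenSum, iSup_insert, iSup_singleton] at h
  obtain ⟨p, hp, q, hq, hpq⟩ := Submodule.mem_sup.mp h
  have hp' : mul a p = p := by
    have := Module.End.mem_eigenspace_iff.mp hp
    simpa using this
  have hq' : mul a q = 0 := by
    have := Module.End.mem_eigenspace_iff.mp hq
    simpa using this
  have e1 : mul a ((1/4 : ℝ) • w) = p := by
    rw [← hpq, map_add, hp', hq', add_zero]
  rw [map_smul, hw] at e1
  have e2 : mul a p = p := hp'
  rw [← e1, map_smul, map_smul, hw] at e2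
  have e3 : ((3:ℝ)/64) • w = 0 := by
    have : ((3:ℝ)/64) • w = (1/4 : ℝ) • (1/4 : ℝ) • w - (1/4 : ℝ) • (1/4 : ℝ) • (1/4 : ℝ) • w := by module
    rw [this, e2, sub_self]
  rcases smul_eq_zero.mp e3 with h | h
  · norm_num at h
  · exact h

theorem law_quarter : monsterLaw (1/4 : ℝ) (1/32) (1/4) (1/4) = {1, 0} := by
  unfold monsterLaw
  norm_num

/-- Let V be a finite-dimensional real vector space with a commutative bilinear product and a positive-definite symmetric bilinear form that associates with the product and satisfies the Norton inequality (the Majorana setting of the definitions). Let X be a group of linear automorphisms of V in which every element squares to the identity, and suppose every non-identity element x of X is a Majorana involution with an axial vector a(x) of squared length 1, such that for any two distinct non-identity x, y the product a(x) ∘ a(y) equals (1/8)(a(x) + a(y) − a(xy)) (the dihedral subalgebra of type 2A whose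 third axis belongs to the involution xy). Then X has order at most 4. -/
theorem result {V : Type*} [AddCommGroup V] [Module ℝ V] [FiniteDimensional ℝ V] (mul : V →ₗ[ℝ] V →ₗ[ℝ] V) (B : LinearMap.BilinForm ℝ V) (hV : Cfsg.Axial.IsMajoranaAmbient mul B) (X : Subgroup (V ≃ₗ[ℝ] V)) (hX : ∀ x ∈ X, x * x = 1) (ax : (V ≃ₗ[ℝ] V) → V) (hax : ∀ x ∈ X, x ≠ 1 → Cfsg.Axial.IsMajoranaPair mul B x (ax x)) (h1 : ∀ x ∈ X, x ≠ 1 → B (ax x) (ax x) = 1) (h2A : ∀ x ∈ X, ∀ y ∈ X, x ≠ 1 → y ≠ 1 → x ≠ y → mul (ax x) (ax y) = (1 / 8 : ℝ) • (ax x + ax y - ax (x * y))) : Nat.card ↥X ≤ 4 := by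
  classical
  by_contra hcon
  push Not at hcon
  have hinv : ∀ g ∈ X, g⁻¹ = g := fun g hg => inv_eq_of_mul_eq_one_left (hX g hg)
  have hcm : ∀ g ∈ X, ∀ h ∈ X, g * h = h * g := by
    intro g hg h hh
    have h2 : g * h = (g * h)⁻¹ := (hinv _ (X.mul_mem hg hh)).symm
    rw [h2, mul_inv_rev, hinv g hg, hinv h hh]
  have hcancel : ∀ p ∈ X, ∀ q : V ≃ₗ[ℝ] V, p * (p * q) = q := by
    intro p hp q
    rw [← mul_assoc, hX p hp, one_mul]
  have hne : ∀ p ∈ X, ∀ q ∈ X, p ≠ q → p * q ≠ 1 := by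
    intro p hp q hq hpq h
    exact hpq (by rw [eq_inv_of_mul_eq_one_left h, hinv q hq])
  have hne2 : ∀ p q : V ≃ₗ[ℝ] V, q ≠ 1 → p ≠ p * q := by
    intro p q hq h
    exact hq (by simpa using h)
  obtain ⟨x, hx, hx1⟩ := exists_notMem X {1} (lt_of_le_of_lt (by simp) hcon)
  have hx1 : x ≠ 1 := by simpa using hx1
  obtain ⟨y, hy, hy1⟩ := exists_notMem X {1, x}
    (lt_of_le_of_lt (Finset.card_le_two.trans (by norm_num)) hcon)
  obtain ⟨hy1, hyx⟩ : y ≠ 1 ∧ y ≠ x := by simpa using hy1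
  obtain ⟨z, hz, hz1⟩ := exists_notMem X {1, x, y, x * y} (lt_of_le_of_lt Finset.card_le_four hcon)
  obtain ⟨hz1, hzx, hzy, hzxy⟩ : z ≠ 1 ∧ z ≠ x ∧ z ≠ y ∧ z ≠ x * y := by simpa using hz1
  have hxy : x * y ∈ X := X.mul_mem hx hy
  have hxz : x * z ∈ X := X.mul_mem hx hz
  have hyz : y * z ∈ X := X.mul_mem hy hz
  have hxyz : x * (y * z) ∈ X := X.mul_mem hx hyz
  have hxy1 : x * y ≠ 1 := hne x hx y hy (Ne.symm hyx)
  have hxz1 : x * z ≠ 1 := hne x hx z hz (Ne.symm hzx)
  have hyz1 : y * z ≠ 1 := hne y hy z hz (Ne.symm hzy)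
  have hx_yz : x ≠ y * z := by
    intro h
    apply hzxy
    have : z = y * (y * z) := (hcancel y hy z).symm
    rw [this, ← h, hcm y hy x hx]
  have hxyz1 : x * (y * z) ≠ 1 := hne x hx (y * z) hyz hx_yz
  have hy_xz : y ≠ x * z := by
    intro h
    apply hzxy
    have : z = x * (x * z) := (hcancel x hx z).symm
    rw [this, ← h]
  have R1 := h2A x hx y hy hx1 hy1 (Ne.symm hyx)
  have R2 := h2A x hx (x * y) hxy hx1 hxy1 (hne2 x y hy1)
  rw [hcancel x hx y] at R2
  have R3 := h2A x hx z hz hx1 hz1 (Ne.symm hzx)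
  have R4 := h2A x hx (x * z) hxz hx1 hxz1 (hne2 x z hz1)
  rw [hcancel x hx z] at R4
  have R5 := h2A x hx (y * z) hyz hx1 hyz1 hx_yz
  have R6 := h2A x hx (x * (y * z)) hxyz hx1 hxyz1 (hne2 x (y * z) hyz1)
  rw [hcancel x hx (y * z)] at R6
  have R7 := h2A y hy z hz hy1 hz1 (Ne.symm hzy)
  have R8 := h2A y hy (x * z) hxz hy1 hxz1 hy_xz
  have e8 : y * (x * z) = x * (y * z) := by rw [← mul_assoc, hcm y hy x hx, mul_assoc]
  rw [e8] at R8
  have R9 := h2A (x * y) hxy z hz hxy1 hz1 (Ne.symm hzxy)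
  rw [mul_assoc] at R9
  have R10 := h2A (x * y) hxy (x * z) hxz hxy1 hxz1 (fun h => hzy (mul_left_cancel h).symm)
  have e10 : x * y * (x * z) = y * z := by
    rw [hcm x hx y hy, mul_assoc, hcancel x hx z]
  rw [e10] at R10
  have R11 := h2A (y * z) hyz (x * (y * z)) hxyz hyz1 hxyz1 (fun h => hx1 (by simpa using h))
  have e11 : y * z * (x * (y * z)) = x := by
    rw [hcm (y * z) hyz (x * (y * z)) hxyz, mul_assoc, hX (y * z) hyz, mul_one]
  rw [e11] at R11
  have hu := quarter_of_pair mul _ _ _ R1 R2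
  have hv := quarter_of_pair mul _ _ _ R3 R4
  have hw := quarter_of_pair mul _ _ _ R6 R5
  have huv : mul (ax y - ax (x * y)) (ax z - ax (x * z)) =
      (1/4 : ℝ) • (ax (x * (y * z)) - ax (y * z)) := by
    simp only [map_sub, LinearMap.sub_apply]
    rw [R7, R8, R9, R10]
    module
  obtain ⟨-, -, ⟨⟨-, hidx, -, hfus⟩, -⟩, -⟩ := hax x hx hx1
  have hq : (1/4 : ℝ) ∈ majoranaSpectrum := by
    unfold majoranaSpectrum
    simp
  have hmem := hfus (1/4) hq (1/4) hq _ (Module.End.mem_eigenspace_iff.mpr hu) _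
    (Module.End.mem_eigenspace_iff.mpr hv)
  rw [law_quarter, huv] at hmem
  have hw0 := eig_indep mul _ _ hw hmem
  have hst : ax (x * (y * z)) = ax (y * z) := sub_eq_zero.mp hw0
  obtain ⟨-, -, ⟨⟨hc0, hidc, -, -⟩, -⟩, -⟩ := hax (y * z) hyz hyz1
  rw [hst, hidc] at R11
  have hA : ax x = (-6 : ℝ) • ax (y * z) := by
    have : ax x = (ax (y * z) + ax (y * z)) -
        (8 : ℝ) • ((1/8 : ℝ) • (ax (y * z) + ax (y * z) - ax x)) := by module
    rw [← R11] at this
    rw [this]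
    module
  rw [hA] at hidx
  simp only [map_smul, LinearMap.smul_apply, hidc] at hidx
  have h42 : (42 : ℝ) • ax (y * z) = 0 := by
    have : (42 : ℝ) • ax (y * z) = (-6 : ℝ) • (-6 : ℝ) • ax (y * z) - (-6 : ℝ) • ax (y * z) := by
      module
    rw [this, hidx, sub_self]
  rcases smul_eq_zero.mp h42 with h | h
  · norm_num at h
  · exact hc0 h


end Cfsg.Agent.S5543
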