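import Cfsg.Statements.S5545
import Mathlib

set_option autoImplicit false
open Cfsg

namespace Cfsg.Agent.S5545

open Cfsg.Axial

section
variable {V : Type*} [AddCommGroup V] [Module ℝ V]

theorem indep3 (mul : V →ₗ[ℝ] V →ₗ[ℝ] V) (a x₁ x₀ xq : V) (h1 : mul a x₁ = x₁) (h0 : mul a x₀ = 0)
    (hq : mul a xq = (1/4 : ℝ) • xq) (h : x₁ + x₀ + xq = 0) : x₁ = 0 ∧ x₀ = 0 ∧ xq = 0 := by
  have e1 : mul a (x₁ + x₀ + xq) = 0 := by rw [h, map_zero]
  rw [map_add, map_add, h1, h0, hq] at e1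
  have e2 : mul a (x₁ + 0 + (1/4:ℝ) • xq) = 0 := by rw [e1, map_zero]
  rw [map_add, map_add, h1, map_zero, map_smul, hq] at e2
  have e3 : xq = 0 := by
    linear_combination (norm := module) (16/3 : ℝ) • e1 - (16/3 : ℝ) • e2
  have e4 : x₁ = 0 := by
    rw [e3] at e1
    simpa using e1
  refine ⟨e4, ?_, e3⟩
  rw [e4, e3] at h
  simpa using h

theorem eigen_map (mul : V →ₗ[ℝ] V →ₗ[ℝ] V) (μ : V ≃ₗ[ℝ] V)
    (hμ : ∀ u v, μ (mul u v) = mul (μ u) (μ v)) (a : V) (c : ℝ) :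
    eigen mul (μ a) c = (eigen mul a c).map (μ : V →ₗ[ℝ] V) := by
  ext v
  simp only [eigen, Module.End.mem_eigenspace_iff, Submodule.mem_map, LinearEquiv.coe_coe]
  constructor
  · intro h
    refine ⟨μ.symm v, ?_, by simp⟩
    apply μ.injective
    rw [hμ, map_smul, LinearEquiv.apply_symm_apply, h]
  · rintro ⟨v', h, rfl⟩
    rw [← hμ, h, map_smul]

theorem eigenSum_map (mul : V →ₗ[ℝ] V →ₗ[ℝ] V) (μ : V ≃ₗ[ℝ] V)
    (hμ : ∀ u v, μ (mul u v) = mul (μ u) (μ v)) (a : V) (S : Set ℝ) :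
    eigenSum mul (μ a) S = (eigenSum mul a S).map (μ : V →ₗ[ℝ] V) := by
  simp only [eigenSum, Submodule.map_iSup, eigen_map mul μ hμ]

theorem pair_transport (mul : V →ₗ[ℝ] V →ₗ[ℝ] V) (B : LinearMap.BilinForm ℝ V)
    (μ₀ μ₁ : V ≃ₗ[ℝ] V) (a₀ : V) (h₀ : IsMajoranaPair mul B μ₀ a₀)
    (hμ₁ : ∀ u v, μ₁ (mul u v) = mul (μ₁ u) (μ₁ v)) (hc : μ₀ * μ₁ = μ₁ * μ₀) :
    IsMajoranaPair mul B μ₀ (μ₁ a₀) := by
  obtain ⟨hm, hB, ⟨⟨hne, hid, htop, hfus⟩, hprim⟩, hmiy1, hmiy2⟩ := h₀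
  have hcomm : ∀ v, μ₀ (μ₁ v) = μ₁ (μ₀ v) := fun v => by
    have := congrArg (fun f : V ≃ₗ[ℝ] V => f v) hc
    simpa using this
  refine ⟨hm, hB, ⟨⟨?_, ?_, ?_, ?_⟩, ?_⟩, ?_, ?_⟩
  · simpa using hne
  · rw [← hμ₁, hid]
  · rw [eigenSum_map mul μ₁ hμ₁, htop, Submodule.map_top, LinearMap.range_eq_top]
    exact μ₁.surjective
  · intro c hcS d hdS u hu v hv
    rw [eigen_map mul μ₁ hμ₁] at hu hv
    obtain ⟨u', hu', rfl⟩ := hu
    obtain ⟨v', hv', rfl⟩ := hv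
    rw [eigenSum_map mul μ₁ hμ₁]
    refine ⟨mul u' v', hfus c hcS d hdS u' hu' v' hv', ?_⟩
    simp [hμ₁]
  · rw [eigen_map mul μ₁ hμ₁, hprim, Submodule.map_span, Set.image_singleton]
    rfl
  · intro v hv
    rw [eigenSum_map mul μ₁ hμ₁] at hv
    obtain ⟨v', hv', rfl⟩ := hv
    have := hmiy1 v' hv'
    simp only [LinearEquiv.coe_coe] at this ⊢
    rw [hcomm, this]
  · intro v hv
    rw [eigen_map mul μ₁ hμ₁] at hv
    obtain ⟨v', hv', rfl⟩ := hv
    have := hmiy2 v' hv'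
    simp only [LinearEquiv.coe_coe] at this ⊢
    rw [hcomm, this, map_neg]

theorem decomp (mul : V →ₗ[ℝ] V →ₗ[ℝ] V) (B : LinearMap.BilinForm ℝ V) (μ : V ≃ₗ[ℝ] V) (a b : V)
    (h : IsMajoranaPair mul B μ a) (hb : μ b = b) :
    ∃ (l : ℝ) (u w : V), b = l • a + u + w ∧ mul a u = 0 ∧ mul a w = (1/4 : ℝ) • w := by
  obtain ⟨-, -, ⟨⟨-, -, htop, -⟩, hprim⟩, hmiy1, hmiy2⟩ := h
  have hb' : b ∈ eigenSum mul a majoranaSpectrum := by
    rw [htop]
    trivial
  rw [eigenSum, majoranaSpectrum, iSup_insert, iSup_insert, iSup_insert, iSup_singleton] at hb'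
  obtain ⟨x1, hx1, r1, hr1, e1⟩ := Submodule.mem_sup.mp hb'
  obtain ⟨x0, hx0, r2, hr2, e2⟩ := Submodule.mem_sup.mp hr1
  obtain ⟨xq, hxq, xt, hxt, e3⟩ := Submodule.mem_sup.mp hr2
  have f1 : μ x1 = x1 := hmiy1 x1
    (Submodule.mem_iSup_of_mem (1:ℝ) (Submodule.mem_iSup_of_mem (by simp) hx1))
  have f0 : μ x0 = x0 := hmiy1 x0
    (Submodule.mem_iSup_of_mem (0:ℝ) (Submodule.mem_iSup_of_mem (by simp) hx0))
  have fq : μ xq = xq := hmiy1 xq
    (Submodule.mem_iSup_of_mem (1/4:ℝ) (Submodule.mem_iSup_of_mem (by simp) hxq))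
  have ft : μ xt = -xt := hmiy2 xt hxt
  have hxt0 : xt = 0 := by
    have h2 : μ b = x1 + (x0 + (xq + -xt)) := by
      rw [← e1, ← e2, ← e3, map_add, map_add, map_add, f1, f0, fq, ft]
    rw [hb, ← e1, ← e2, ← e3] at h2
    linear_combination (norm := module) (1/2 : ℝ) • h2
  rw [hprim] at hx1
  obtain ⟨l, rfl⟩ := Submodule.mem_span_singleton.mp hx1
  refine ⟨l, x0, xq, ?_, ?_, ?_⟩
  · rw [← e1, ← e2, ← e3, hxt0]
    module
  · have := Module.End.mem_eigenspace_iff.mp hx0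
    simpa using this
  · exact Module.End.mem_eigenspace_iff.mp hxq

theorem law00 : monsterLaw (1/4 : ℝ) (1/32) 0 0 = {0} := by
  unfold monsterLaw
  norm_num

theorem law0q : monsterLaw (1/4 : ℝ) (1/32) 0 (1/4) = {1/4} := by
  unfold monsterLaw
  norm_num

theorem lawqq : monsterLaw (1/4 : ℝ) (1/32) (1/4) (1/4) = {1, 0} := by
  unfold monsterLaw
  norm_num

end

/-- Let V be a finite-dimensional real vector space with a commutative bilinear product and a positive-definite symmetric bilinear form that associates with the product and satisfies the Norton inequality (the Majorana setting of the definitions). Let μ₀, μ₁ be commuting Majorana involutions with distinct axial vectors a₀ ≠ a₁ of squared length 1, each involution having no other axial vector. Then either a₀ and a₁ are orthogonal with a₀ ∘ a₁ = 0 (type 2B), or their inner product is 1/8 and, with a₂ = a₀ + a₁ − 8 a₀ ∘ a₁, the vector a₂ is an idempotent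 and a₀ ∘ a₂ = (1/8)(a₀ + a₂ − a₁), a₁ ∘ a₂ = (1/8)(a₁ + a₂ − a₀) (type 2A: the three idempotents span a subalgebra with aᵢ ∘ aⱼ = (1/8)(aᵢ + aⱼ − aₖ)). -/
theorem result {V : Type*} [AddCommGroup V] [Module ℝ V] [FiniteDimensional ℝ V] (mul : V →ₗ[ℝ] V →ₗ[ℝ] V) (B : LinearMap.BilinForm ℝ V) (hV : Cfsg.Axial.IsMajoranaAmbient mul B) (μ₀ μ₁ : V ≃ₗ[ℝ] V) (a₀ a₁ : V) (h₀ : Cfsg.Axial.IsMajoranaPair mul B μ₀ a₀) (h₁ : Cfsg.Axial.IsMajoranaPair mul B μ₁ a₁) (hu₀ : ∀ a : V, Cfsg.Axial.IsMajoranaPair mul B μ₀ a → a = a₀) (hu₁ : ∀ a : V, Cfsg.Axial.IsMajoranaPair mul B μ₁ a → a = a₁) (hn₀ : B a₀ a₀ = 1) (hn₁ : B a₁ a₁ = 1) (hc : μ₀ * μ₁ = μ₁ * μ₀) (hne : a₀ ≠ a₁) : (B a₀ a₁ = 0 ∧ mul a₀ a₁ = 0) ∨ (B a₀ a₁ = 1 / 8 ∧ mul (a₀ + a₁ - (8 : ℝ) • mul a₀ a₁) (a₀ + a₁ - (8 : ℝ) • mul a₀ a₁) = a₀ + a₁ - (8 : ℝ) • mul a₀ a₁ ∧ mul a₀ (a₀ + a₁ - (8 : ℝ) • mul a₀ a₁) = (1 / 8 : ℝ) • (a₀ + (a₀ + a₁ - (8 : ℝ) • mul a₀ a₁) - a₁) ∧ mul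 a₁ (a₀ + a₁ - (8 : ℝ) • mul a₀ a₁) = (1 / 8 : ℝ) • (a₁ + (a₀ + a₁ - (8 : ℝ) • mul a₀ a₁) - a₀)) := by
  obtain ⟨hcomm, hsymm, hpos, hassoc, -⟩ := hV
  have hμ₁a : μ₁ a₀ = a₀ := hu₀ _ (pair_transport mul B μ₀ μ₁ a₀ h₀ h₁.1 hc)
  have hμ₀b : μ₀ a₁ = a₁ := hu₁ _ (pair_transport mul B μ₁ μ₀ a₁ h₁ h₀.1 hc.symm)
  obtain ⟨l, u, w, hb, hau, haw⟩ := decomp mul B μ₀ a₀ a₁ h₀ hμ₀b
  obtain ⟨l', u', w', ha, hbu', hbw'⟩ := decomp mul B μ₁ a₁ a₀ h₁ hμ₁a
  obtain ⟨-, -, ⟨⟨ha0, haa, -, hfus⟩, hprim⟩, -, -⟩ := h₀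
  obtain ⟨-, -, ⟨⟨hb0, hbb, -, -⟩, -⟩, -, -⟩ := h₁
  have hBau : B a₀ u = 0 := by
    have := hassoc a₀ a₀ u
    rw [hau, haa, map_zero] at this
    exact this.symm
  have hBaw : B a₀ w = 0 := by
    have := hassoc a₀ a₀ w
    rw [haw, haa, map_smul, smul_eq_mul] at this
    linarith
  have hl : B a₀ a₁ = l := by
    rw [hb, map_add, map_add, map_smul, hn₀, hBau, hBaw]
    simp
  have hBbu : B a₁ u' = 0 := by
    have := hassoc a₁ a₁ u'
    rw [hbu', hbb, map_zero] at this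
    exact this.symm
  have hBbw : B a₁ w' = 0 := by
    have := hassoc a₁ a₁ w'
    rw [hbw', hbb, map_smul, smul_eq_mul] at this
    linarith
  have hl' : l' = l := by
    have : B a₁ a₀ = l' := by
      rw [ha, map_add, map_add, map_smul, hn₁, hBbu, hBbw]
      simp
    rw [← this, hsymm, hl]
  rw [hl'] at ha
  have hS0 : (0 : ℝ) ∈ majoranaSpectrum := by
    unfold majoranaSpectrum
    simp
  have hSq : (1/4 : ℝ) ∈ majoranaSpectrum := by
    unfold majoranaSpectrum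
    simp
  have hu_mem : u ∈ eigen mul a₀ 0 := Module.End.mem_eigenspace_iff.mpr (by rw [hau, zero_smul])
  have hw_mem : w ∈ eigen mul a₀ (1/4) := Module.End.mem_eigenspace_iff.mpr haw
  have huu : mul a₀ (mul u u) = 0 := by
    have := hfus 0 hS0 0 hS0 u hu_mem u hu_mem
    rw [law00, eigenSum, iSup_singleton] at this
    have := Module.End.mem_eigenspace_iff.mp this
    simpa using this
  have huw : mul a₀ (mul u w) = (1/4 : ℝ) • mul u w := by
    have := hfus 0 hS0 (1/4) hSq u hu_mem w hw_mem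
    rw [law0q, eigenSum, iSup_singleton] at this
    exact Module.End.mem_eigenspace_iff.mp this
  obtain ⟨ρ, z, haz, hww⟩ : ∃ (ρ : ℝ) (z : V), mul a₀ z = 0 ∧ mul w w = ρ • a₀ + z := by
    have := hfus (1/4) hSq (1/4) hSq w hw_mem w hw_mem
    rw [lawqq, eigenSum, iSup_insert, iSup_singleton] at this
    obtain ⟨p, hp, z, hz, hpz⟩ := Submodule.mem_sup.mp this
    rw [hprim] at hp
    obtain ⟨ρ, rfl⟩ := Submodule.mem_span_singleton.mp hp
    refine ⟨ρ, z, ?_, hpz.symm⟩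
    have := Module.End.mem_eigenspace_iff.mp hz
    simpa using this
  have hua : mul u a₀ = 0 := by rw [hcomm, hau]
  have hwa : mul w a₀ = (1/4 : ℝ) • w := by rw [hcomm, haw]
  have hwu : mul w u = mul u w := hcomm w u
  have hab : mul a₀ a₁ = l • a₀ + (1/4 : ℝ) • w := by
    rw [hb, map_add, map_add, map_smul, haa, hau, haw]
    module
  have hba : mul a₁ a₀ = l • a₁ + (1/4 : ℝ) • w' := by
    rw [ha, map_add, map_add, map_smul, hbb, hbu', hbw']
    module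
  have hbab : mul a₁ (mul a₀ a₁) = (1/4 : ℝ) • (mul a₀ a₁ + (3 * l) • a₁) := by
    rw [hcomm a₀ a₁, hba, map_add, map_smul, map_smul, hbb, hbw']
    module
  have hbb' := hbb
  rw [hb] at hbb'
  simp only [map_add, map_smul, LinearMap.add_apply, LinearMap.smul_apply, haa, hau, haw, hua, hwa,
    hwu, hww, smul_zero, add_zero, zero_add] at hbb'
  have key1 : (l * l + ρ - l) • a₀ + (mul u u + z - u) +
      ((l / 2 - 1) • w + (2 : ℝ) • mul u w) = 0 := by
    linear_combination (norm := module) hbb'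
  obtain ⟨R1, R2, R3⟩ := indep3 mul a₀ _ _ _ (by rw [map_smul, haa])
    (by rw [map_sub, map_add, huu, haz, hau]; simp)
    (by rw [map_add, map_smul, map_smul, haw, huw]; module) key1
  have hρ : l * l + ρ - l = 0 := by
    rcases smul_eq_zero.mp R1 with h | h
    · exact h
    · exact absurd h ha0
  have hbw1 : mul a₁ w = (1 - 4 * l) • mul a₀ a₁ + (3 * l) • a₁ := by
    have hw4 : w = (4 : ℝ) • (mul a₀ a₁ - l • a₀) := by
      rw [hab]
      module
    have : mul a₁ w = (4 : ℝ) • (mul a₁ (mul a₀ a₁) - l • mul a₁ a₀) := by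
      conv_lhs => rw [hw4]
      rw [map_smul, map_sub, map_smul]
    rw [this, hbab, hcomm a₁ a₀]
    module
  have hbw2 : mul a₁ w = (l / 4) • w + mul u w + (ρ • a₀ + z) := by
    conv_lhs => rw [hb]
    simp only [map_add, map_smul, LinearMap.add_apply, LinearMap.smul_apply, haw, hww]
    module
  have key2 : (ρ - l + l * l) • a₀ + (z - (3 * l) • u) + ((1 / 4 - 2 * l) • w) = 0 := by
    have e := hbw1.symm.trans hbw2
    rw [hab] at e
    conv at e => lhs; rw [hb]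
    linear_combination (norm := module) (-1 : ℝ) • e - (1 / 2 : ℝ) • R3
  obtain ⟨-, R4, R5⟩ := indep3 mul a₀ _ _ _ (by rw [map_smul, haa])
    (by rw [map_sub, map_smul, haz, hau]; simp)
    (by rw [map_smul, haw]; module) key2
  rcases smul_eq_zero.mp R5 with h8 | hw0
  · right
    have hl8 : l = 1 / 8 := by linarith
    have hρ8 : ρ = 7 / 64 := by
      rw [hl8] at hρ
      linarith
    have hz8 : z = (3 / 8 : ℝ) • u := by
      rw [hl8] at R4
      linear_combination (norm := module) R4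
    have huu8 : mul u u = (5 / 8 : ℝ) • u := by
      rw [hz8] at R2
      linear_combination (norm := module) R2
    have huw8 : mul u w = (15 / 32 : ℝ) • w := by
      rw [hl8] at R3
      linear_combination (norm := module) (1 / 2 : ℝ) • R3
    have hceq : a₀ + a₁ - (8 : ℝ) • mul a₀ a₁ = (1 / 8 : ℝ) • a₀ + u - w := by
      rw [hab, hb, hl8]
      module
    refine ⟨by rw [hl, hl8], ?_, ?_, ?_⟩
    · rw [hceq]
      simp only [map_add, map_sub, map_smul, LinearMap.add_apply, LinearMap.sub_apply,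
        LinearMap.smul_apply, haa, hau, haw, hua, hwa, hwu, hww, huu8, huw8, hρ8, hz8]
      module
    · rw [hceq, hb, hl8]
      simp only [map_add, map_sub, map_smul, haa, hau, haw]
      module
    · simp only [map_add, map_sub, map_smul, hbb, hbab, hcomm a₁ a₀, hl8]
      module
  · left
    have hww0 : ρ • a₀ + z = 0 := by
      rw [← hww, hw0]
      simp
    have hρ0 : ρ = 0 := by
      have h3 := indep3 mul a₀ (ρ • a₀) z 0 (by rw [map_smul, haa]) haz (by simp)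
        (by rw [add_zero]; exact hww0)
      rcases smul_eq_zero.mp h3.1 with h | h
      · exact h
      · exact absurd h ha0
    rw [hρ0] at hρ
    have hl01 : l = 0 ∨ l = 1 := by
      have : l * (l - 1) = 0 := by linarith
      rcases mul_eq_zero.mp this with h | h
      · exact Or.inl h
      · exact Or.inr (by linarith)
    rcases hl01 with h | h
    · refine ⟨by rw [hl, h], ?_⟩
      rw [hab, h, hw0]
      simp
    · exfalso
      apply hne
      by_contra hab'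
      have hd : a₀ - a₁ ≠ 0 := sub_ne_zero.mpr hab'
      have := hpos _ hd
      rw [map_sub, map_sub, LinearMap.sub_apply, LinearMap.sub_apply, hn₀, hn₁, hsymm a₁ a₀, hl,
        h] at this
      linarith


end Cfsg.Agent.S5545
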