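import Cfsg.Statements.S5546
import Mathlib
import Cfsg.Agent.S1567

set_option autoImplicit false
open Cfsg

namespace Cfsg.Agent.S5546

open Cfsg.Spor

/-- reduction modulo 13 -/
def red (x : GolayPt → ℤ) : GolayPt → ZMod 13 := fun i => ((x i : ℤ) : ZMod 13)

theorem red_add (x y : GolayPt → ℤ) : red (x + y) = red x + red y := by
  funext i
  simp [red]

theorem red_sub (x y : GolayPt → ℤ) : red (x - y) = red x - red y := by
  funext i
  simp [red]

theorem red_thirteen (x : GolayPt → ℤ) : red (fun i => 13 * x i) = 0 := by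
  funext i
  simp only [red, Int.cast_mul, Pi.zero_apply]
  have : ((13 : ℤ) : ZMod 13) = 0 := by decide
  rw [this, zero_mul]

theorem eight_mem (y : GolayPt → ℤ) : (fun i => 8 * y i) ∈ leechLattice := by
  apply AddSubgroup.subset_closure
  refine mem_leechSet_of_const_mod_four _ 0 0 (Int.ModEq.refl _) (fun i => ?_) ?_
  · exact (Int.modEq_zero_iff_dvd).mpr ⟨2 * y i, by ring⟩
  · rw [← Finset.mul_sum]
    exact (Int.modEq_zero_iff_dvd).mpr ⟨∑ i, y i, by ring⟩

/-- a section of the reduction -/
def sec (u : GolayPt → ZMod 13) : leechLattice :=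
  ⟨fun i => 8 * (5 * ((u i).val : ℤ)), eight_mem _⟩

theorem red_sec (u : GolayPt → ZMod 13) : red (sec u : GolayPt → ℤ) = u := by
  funext i
  have h1 : (((u i).val : ℤ) : ZMod 13) = u i := by
    rw [Int.cast_natCast, ZMod.natCast_zmod_val]
  show ((8 * (5 * ((u i).val : ℤ)) : ℤ) : ZMod 13) = u i
  rw [Int.cast_mul, Int.cast_mul, h1, ← mul_assoc]
  have h : ((8 : ℤ) : ZMod 13) * ((5 : ℤ) : ZMod 13) = 1 := by decide
  rw [h, one_mul]

theorem div_thirteen {x : GolayPt → ℤ} (hx : x ∈ leechLattice) (h : red x = 0) :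
    ∃ w ∈ leechLattice, x = fun i => 13 * w i := by
  have hd : ∀ i, (13 : ℤ) ∣ x i := fun i => by
    have := congrFun h i
    simp only [red, Pi.zero_apply] at this
    exact (ZMod.intCast_zmod_eq_zero_iff_dvd (x i) 13).mp this
  choose y hy using hd
  refine ⟨y, ?_, funext hy⟩
  have e : y = (fun i => 8 * (5 * y i)) - (3 : ℤ) • x := by
    funext i
    simp only [Pi.sub_apply, Pi.smul_apply, smul_eq_mul, hy i]
    ring
  rw [e]
  exact leechLattice.sub_mem (eight_mem _) (leechLattice.zsmul_mem hx 3)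


/-- elements of `Co0` as additive maps -/
def gHom (g : Equiv.Perm leechLattice) (hg : g ∈ Co0) : leechLattice →+ leechLattice :=
  AddMonoidHom.mk' g hg.1

theorem gHom_apply (g : Equiv.Perm leechLattice) (hg : g ∈ Co0) (x : leechLattice) :
    gHom g hg x = g x := rfl

/-- the action modulo 13 -/
def T (g : Equiv.Perm leechLattice) (u : GolayPt → ZMod 13) : GolayPt → ZMod 13 :=
  red ((g (sec u) : leechLattice) : GolayPt → ℤ)

theorem T_red {g : Equiv.Perm leechLattice} (hg : g ∈ Co0) (x : leechLattice) :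
    T g (red (x : GolayPt → ℤ)) = red ((g x : leechLattice) : GolayPt → ℤ) := by
  have hd : red ((sec (red (x : GolayPt → ℤ)) - x : leechLattice) : GolayPt → ℤ) = 0 := by
    rw [AddSubgroup.coe_sub, red_sub, red_sec, sub_self]
  obtain ⟨w, hw, e⟩ := div_thirteen (sec (red (x : GolayPt → ℤ)) - x).2 hd
  have e' : sec (red (x : GolayPt → ℤ)) = x + (13 : ℤ) • (⟨w, hw⟩ : leechLattice) := by
    apply Subtype.ext
    rw [AddSubgroup.coe_sub] at e
    funext i
    have hi := congrFun e i
    simp only [Pi.sub_apply] at hi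
    simp only [AddSubgroup.coe_add, Pi.add_apply, AddSubgroup.coe_zsmul, Pi.smul_apply,
      smul_eq_mul]
    linarith
  unfold T
  rw [e', hg.1, ← gHom_apply g hg ((13 : ℤ) • (⟨w, hw⟩ : leechLattice)), map_zsmul,
    AddSubgroup.coe_add, red_add]
  have h0 : red (((13 : ℤ) • gHom g hg ⟨w, hw⟩ : leechLattice) : GolayPt → ℤ) = 0 := by
    have := red_thirteen ((gHom g hg ⟨w, hw⟩ : leechLattice) : GolayPt → ℤ)
    rw [← this]
    congr 1
  rw [h0, add_zero]

theorem T_add {g : Equiv.Perm leechLattice} (hg : g ∈ Co0) (u u' : GolayPt → ZMod 13) :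
    T g (u + u') = T g u + T g u' := by
  have h1 : red ((sec u + sec u' : leechLattice) : GolayPt → ℤ) = u + u' := by
    rw [AddSubgroup.coe_add, red_add, red_sec, red_sec]
  calc T g (u + u') = T g (red ((sec u + sec u' : leechLattice) : GolayPt → ℤ)) := by rw [h1]
    _ = red ((g (sec u + sec u') : leechLattice) : GolayPt → ℤ) := T_red hg _
    _ = T g u + T g u' := by
      rw [hg.1, AddSubgroup.coe_add, red_add]
      rfl

theorem T_mul {g h : Equiv.Perm leechLattice} (hg : g ∈ Co0) (u : GolayPt → ZMod 13) :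
    T (g * h) u = T g (T h u) := by
  have : T g (T h u) = red ((g (h (sec u)) : leechLattice) : GolayPt → ℤ) := T_red hg _
  rw [this]
  rfl

theorem T_one (u : GolayPt → ZMod 13) : T 1 u = u := red_sec u

/-- the dot product modulo 13 -/
def dotF (u u' : GolayPt → ZMod 13) : ZMod 13 := ∑ i, u i * u' i

theorem dot_red (x y : GolayPt → ℤ) : dotF (red x) (red y) = ((dotInt x y : ℤ) : ZMod 13) := by
  simp [dotF, red, dotInt]

theorem dotInt_g {g : Equiv.Perm leechLattice} (hg : g ∈ Co0) (x y : leechLattice) :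
    dotInt ((g x : leechLattice) : GolayPt → ℤ) ((g y : leechLattice) : GolayPt → ℤ) =
      dotInt (x : GolayPt → ℤ) (y : GolayPt → ℤ) := by
  have key : ∀ a b : GolayPt → ℤ, sqNorm (a + b) = sqNorm a + 2 * dotInt a b + sqNorm b := by
    intro a b
    simp only [sqNorm, dotInt, Pi.add_apply]
    rw [Finset.mul_sum, ← Finset.sum_add_distrib, ← Finset.sum_add_distrib]
    apply Finset.sum_congr rfl
    intro i _
    ring
  have h1 := key ((g x : leechLattice) : GolayPt → ℤ) ((g y : leechLattice) : GolayPt → ℤ)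
  have h2 := key (x : GolayPt → ℤ) (y : GolayPt → ℤ)
  have h3 : sqNorm (((g x : leechLattice) : GolayPt → ℤ) + ((g y : leechLattice) : GolayPt → ℤ)) =
      sqNorm ((x : GolayPt → ℤ) + (y : GolayPt → ℤ)) := by
    rw [← AddSubgroup.coe_add, ← hg.1, hg.2, AddSubgroup.coe_add]
  rw [hg.2 x, hg.2 y] at h1
  linarith

theorem T_dot {g : Equiv.Perm leechLattice} (hg : g ∈ Co0) (u u' : GolayPt → ZMod 13) :
    dotF (T g u) (T g u') = dotF u u' := by
  unfold T
  rw [dot_red, dotInt_g hg, ← dot_red, red_sec, red_sec]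


/-- `T g` as a linear map -/
def TL (g : Equiv.Perm leechLattice) (hg : g ∈ Co0) :
    (GolayPt → ZMod 13) →ₗ[ZMod 13] (GolayPt → ZMod 13) :=
  (AddMonoidHom.mk' (T g) (T_add hg)).toZModLinearMap 13

theorem TL_apply (g : Equiv.Perm leechLattice) (hg : g ∈ Co0) (u : GolayPt → ZMod 13) :
    TL g hg u = T g u := rfl

/-- the fixed vector modulo 13 -/
def ubar : GolayPt → ZMod 13 := red vecU

def dotL : (GolayPt → ZMod 13) →ₗ[ZMod 13] ZMod 13 where
  toFun u := dotF u ubar
  map_add' u u' := by simp [dotF, add_mul, Finset.sum_add_distrib]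
  map_smul' c u := by
    simp only [dotF, Pi.smul_apply, smul_eq_mul, RingHom.id_apply]
    rw [Finset.mul_sum]
    apply Finset.sum_congr rfl
    intro i _
    ring

theorem dotL_apply (u : GolayPt → ZMod 13) : dotL u = dotF u ubar := rfl

theorem dot_ubar : dotF ubar ubar = 6 := by
  unfold ubar
  rw [dot_red]
  have h : dotInt vecU vecU = 32 := by decide +kernel
  rw [h]
  decide

theorem mem_Co2 {g : Equiv.Perm leechLattice} (hg : g ∈ Co2) : g ∈ Co0 ∧ g leechU = leechU := by
  rw [Co2, Subgroup.mem_inf, MulAction.mem_stabilizer_iff] at hg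
  exact hg

theorem T_ubar {g : Equiv.Perm leechLattice} (hg : g ∈ Co2) : T g ubar = ubar := by
  have h := mem_Co2 hg
  have e : ubar = red ((leechU : leechLattice) : GolayPt → ℤ) := rfl
  rw [e, T_red h.1, h.2]

theorem TL_mem_ker {g : Equiv.Perm leechLattice} (hg : g ∈ Co2) (u : GolayPt → ZMod 13)
    (hu : u ∈ LinearMap.ker dotL) : TL g (mem_Co2 hg).1 u ∈ LinearMap.ker dotL := by
  rw [LinearMap.mem_ker, dotL_apply] at hu ⊢
  rw [TL_apply]
  have h := T_dot (mem_Co2 hg).1 u ubar
  rw [T_ubar hg] at h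
  rw [h]
  exact hu

/-- the representation on the hyperplane orthogonal to the fixed vector -/
def phi : ↥Co2 →* Module.End (ZMod 13) ↥(LinearMap.ker dotL) where
  toFun g := (TL g.1 (mem_Co2 g.2).1).restrict (fun u hu => TL_mem_ker g.2 u hu)
  map_one' := by
    apply LinearMap.ext
    intro x
    apply Subtype.ext
    show T 1 x.1 = x.1
    exact T_one _
  map_mul' g h := by
    apply LinearMap.ext
    intro x
    apply Subtype.ext
    show T (g.1 * h.1) x.1 = T g.1 (T h.1 x.1)
    exact T_mul (mem_Co2 g.2).1 _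

theorem phi_apply (g : ↥Co2) (x : ↥(LinearMap.ker dotL)) : ((phi g x : ↥(LinearMap.ker dotL)) : GolayPt → ZMod 13) = T g.1 x.1 := rfl

theorem prime13 : Nat.Prime 13 := by norm_num

theorem six_ne : (6 : ZMod 13) ≠ 0 := by decide

theorem six_inv : ((6 : ZMod 13))⁻¹ * 6 = 1 := by
  have : Fact (Nat.Prime 13) := ⟨prime13⟩
  exact inv_mul_cancel₀ six_ne

theorem finrank_ker : Module.finrank (ZMod 13) ↥(LinearMap.ker dotL) = 23 := by
  have : Fact (Nat.Prime 13) := ⟨prime13⟩
  have h1 := LinearMap.finrank_range_add_finrank_ker dotL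
  have h2 : Module.finrank (ZMod 13) (GolayPt → ZMod 13) = 24 := by
    rw [Module.finrank_pi]
    decide
  have h3 : LinearMap.range dotL = ⊤ := by
    rw [LinearMap.range_eq_top]
    intro c
    refine ⟨(c * 6⁻¹) • ubar, ?_⟩
    rw [map_smul, dotL_apply, dot_ubar, smul_eq_mul, mul_assoc,
      six_inv, mul_one]
  rw [h3, finrank_top, Module.finrank_self, h2] at h1
  omega

theorem coord_bound (y : GolayPt → ℤ) (hy : sqNorm y = 32) (i : GolayPt) :
    -5 ≤ y i ∧ y i ≤ 5 := by
  have h1 : y i ^ 2 ≤ sqNorm y :=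
    Finset.single_le_sum (f := fun j => y j ^ 2) (fun j _ => sq_nonneg (y j)) (Finset.mem_univ i)
  rw [hy] at h1
  constructor
  · by_contra hc
    nlinarith
  · by_contra hc
    nlinarith

theorem phi_injective : Function.Injective phi := by
  have : Fact (Nat.Prime 13) := ⟨prime13⟩
  have key : ∀ k : ↥Co2, phi k = 1 → k = 1 := by
    intro k hk
    have hk0 := (mem_Co2 k.2).1
    have h1 : ∀ u, dotF u ubar = 0 → T k.1 u = u := by
      intro u hu
      have hmem : u ∈ LinearMap.ker dotL := LinearMap.mem_ker.mpr hu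
      have h := congrArg (fun f : Module.End (ZMod 13) ↥(LinearMap.ker dotL) =>
        ((f ⟨u, hmem⟩ : ↥(LinearMap.ker dotL)) : GolayPt → ZMod 13)) hk
      exact h
    have h2 : ∀ u, T k.1 u = u := by
      intro u
      have hu : dotF (u - (dotF u ubar * 6⁻¹) • ubar) ubar = 0 := by
        have h := map_sub dotL u ((dotF u ubar * 6⁻¹) • ubar)
        rw [map_smul, dotL_apply, dotL_apply, dotL_apply, dot_ubar, smul_eq_mul] at h
        rw [h, mul_assoc, six_inv, mul_one, sub_self]
      have h3 := h1 _ hu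
      have h4 : T k.1 (u - (dotF u ubar * 6⁻¹) • ubar) =
          T k.1 u - (dotF u ubar * 6⁻¹) • T k.1 ubar := by
        have h := map_sub (TL k.1 hk0) u ((dotF u ubar * 6⁻¹) • ubar)
        rw [map_smul] at h
        exact h
      rw [h4, T_ubar k.2] at h3
      exact sub_left_injective h3
    have h5 : ∀ x : leechLattice, sqNorm (x : GolayPt → ℤ) = 32 → k.1 x = x := by
      intro x hx
      have hr : red ((k.1 x : leechLattice) : GolayPt → ℤ) = red (x : GolayPt → ℤ) := by
        rw [← T_red hk0, h2]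
      apply Subtype.ext
      funext i
      have hi := congrFun hr i
      simp only [red] at hi
      have hdvd : (13 : ℤ) ∣ (x : GolayPt → ℤ) i - ((k.1 x : leechLattice) : GolayPt → ℤ) i :=
        (ZMod.intCast_eq_intCast_iff_dvd_sub _ _ 13).mp hi
      have b1 := coord_bound (x : GolayPt → ℤ) hx i
      have b2 := coord_bound _ ((hk0.2 x).trans hx) i
      obtain ⟨m, hm⟩ := hdvd
      omega
    apply Subtype.ext
    apply Equiv.ext
    intro x
    show k.1 x = x
    have hcl : (x : GolayPt → ℤ) ∈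
        AddSubgroup.closure {y : GolayPt → ℤ | y ∈ leechLattice ∧ sqNorm y = 32} := by
      rw [Cfsg.Agent.S1567.result]
      exact x.2
    have hle : AddSubgroup.closure {y : GolayPt → ℤ | y ∈ leechLattice ∧ sqNorm y = 32} ≤
        (AddMonoidHom.eqLocus (gHom k.1 hk0) (AddMonoidHom.id _)).map leechLattice.subtype := by
      rw [AddSubgroup.closure_le]
      intro y hy
      exact ⟨⟨y, hy.1⟩, h5 ⟨y, hy.1⟩ hy.2, rfl⟩
    obtain ⟨y, hy, e⟩ := hle hcl
    have hyx : y = x := Subtype.ext e
    rw [hyx] at hy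
    exact hy
  intro g h hgh
  have h1 : g * h⁻¹ = 1 := key _ (by rw [map_mul, hgh, ← map_mul, mul_inv_cancel, map_one])
  exact mul_inv_eq_one.mp h1

/-- The second Conway group (the stabilizer in the Leech lattice automorphism group of the short vector fixed in the definitions) is isomorphic to a subgroup of the general linear group of degree 23 over the field with 13 elements: there is an injective homomorphism into it. -/
theorem result : ∃ f : ↥Cfsg.Spor.Co2 →* GL (Fin 23) (ZMod 13), Function.Injective f := by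
  have : Fact (Nat.Prime 13) := ⟨prime13⟩
  let b : Module.Basis (Fin 23) (ZMod 13) ↥(LinearMap.ker dotL) :=
    Module.finBasisOfFinrankEq (ZMod 13) _ finrank_ker
  let e : Module.End (ZMod 13) ↥(LinearMap.ker dotL) ≃ₐ[ZMod 13]
      Matrix (Fin 23) (Fin 23) (ZMod 13) := LinearMap.toMatrixAlgEquiv b
  refine ⟨(Units.map (e : Module.End (ZMod 13) ↥(LinearMap.ker dotL) →*
      Matrix (Fin 23) (Fin 23) (ZMod 13))).comp phi.toHomUnits, ?_⟩
  intro g h hgh
  have h1 : e (phi g) = e (phi h) := by
    have h2 := congrArg (fun x : GL (Fin 23) (ZMod 13) =>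
      (x : Matrix (Fin 23) (Fin 23) (ZMod 13))) hgh
    exact h2
  exact phi_injective (e.injective h1)


end Cfsg.Agent.S5546
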