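import Cfsg.Statements.S5548
import Cfsg.Agent.S5393
import Cfsg.Agent.Lib.Helper3.M24Oct

set_option autoImplicit false
open Cfsg

namespace Cfsg.Agent.S5548

open Cfsg.Agent.Lib.Helper3.Golay Cfsg.Agent.Lib.Helper3.Golay2
open Cfsg.Agent.Lib.Helper3.GolayM24 Cfsg.Agent.Lib.Helper3.M24Perm
open Cfsg.Agent.Lib.Helper3.M24Cert Cfsg.Agent.Lib.Helper3.M24Order
open Cfsg.Agent.Lib.Helper3.M24Trans Cfsg.Agent.Lib.Helper3.M24Oct
open Cfsg.Agent.Lib.Helper3.M24Dod
open scoped Pointwise

/-- invariance of a subspace under the coordinate permutations of the group of the code -/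
def MInv (W : Submodule (ZMod 2) (GolayPt → ZMod 2)) : Prop :=
  ∀ σ ∈ M24, ∀ w ∈ W, (fun p => w (σ.symm p)) ∈ W

theorem one_of_oct {W : Submodule (ZMod 2) (GolayPt → ZMod 2)} (hW : MInv W)
    {w : GolayPt → ZMod 2} (hw : w ∈ W) (ho : support₂ w ∈ octads) :
    (1 : GolayPt → ZMod 2) ∈ W := by
  obtain ⟨g1, hg1, e1⟩ := octad_trans ho (Cfsg.Agent.S5393.oct_mem 345 (by decide +kernel))
  obtain ⟨g2, hg2, e2⟩ := octad_trans ho (Cfsg.Agent.S5393.oct_mem 101 (by decide +kernel))
  obtain ⟨g3, hg3, e3⟩ := octad_trans ho (Cfsg.Agent.S5393.oct_mem 2364 (by decide +kernel))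
  have m1 := Cfsg.Agent.S5393.transport hW hw hg1 e1
  have m2 := Cfsg.Agent.S5393.transport hW hw hg2 e2
  have m3 := Cfsg.Agent.S5393.transport hW hw hg3 e3
  have e : (1 : GolayPt → ZMod 2) = dec (cw 345) + dec (cw 101) + dec (cw 2364) := by
    rw [← dec_xor, ← dec_xor, ← dec_ones]
    congr 1
  rw [e]
  exact W.add_mem (W.add_mem m1 m2) m3

theorem oct_of_dod {W : Submodule (ZMod 2) (GolayPt → ZMod 2)} (hW : MInv W)
    {w : GolayPt → ZMod 2} (hw : w ∈ W) (hd : support₂ w ∈ dodecads) :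
    ∃ u ∈ W, support₂ u ∈ octads := by
  obtain ⟨g1, hg1, e1⟩ := dodecad_trans hd (Cfsg.Agent.S5393.dod_mem 1 (by decide +kernel))
  obtain ⟨g2, hg2, e2⟩ := dodecad_trans hd (Cfsg.Agent.S5393.dod_mem 14 (by decide +kernel))
  have m1 := Cfsg.Agent.S5393.transport hW hw hg1 e1
  have m2 := Cfsg.Agent.S5393.transport hW hw hg2 e2
  refine ⟨dec (cw (1 ^^^ 14)), ?_, Cfsg.Agent.S5393.oct_mem _ (by decide +kernel)⟩
  rw [cw_xor, dec_xor]
  exact W.add_mem m1 m2

theorem supp_add_one (v : GolayPt → ZMod 2) : support₂ (v + 1) = (support₂ v)ᶜ := by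
  rw [support_add, support_one]
  ext p
  simp [Finset.mem_symmDiff]

theorem smul_compl (g : Equiv.Perm GolayPt) (s : Finset GolayPt) : g • sᶜ = (g • s)ᶜ := by
  ext p
  rw [← Finset.inv_smul_mem_iff, Finset.mem_compl, Finset.mem_compl, Finset.inv_smul_mem_iff]

theorem oct_of_sixteen {W : Submodule (ZMod 2) (GolayPt → ZMod 2)} (hW : MInv W)
    {u : GolayPt → ZMod 2} (hw : u + 1 ∈ W) (ho : support₂ u ∈ octads) :
    ∃ x ∈ W, support₂ x ∈ octads := by
  obtain ⟨g1, hg1, e1⟩ := octad_trans ho (Cfsg.Agent.S5393.oct_mem 345 (by decide +kernel))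
  obtain ⟨g2, hg2, e2⟩ := octad_trans ho (Cfsg.Agent.S5393.oct_mem 30 (by decide +kernel))
  have m1 : dec (cw 345) + 1 ∈ W := Cfsg.Agent.S5393.transport hW hw hg1
    (by rw [supp_add_one, supp_add_one, smul_compl, e1])
  have m2 : dec (cw 30) + 1 ∈ W := Cfsg.Agent.S5393.transport hW hw hg2
    (by rw [supp_add_one, supp_add_one, smul_compl, e2])
  refine ⟨dec (cw (345 ^^^ 30)), ?_, Cfsg.Agent.S5393.oct_mem _ (by decide +kernel)⟩
  have e : dec (cw (345 ^^^ 30)) = (dec (cw 345) + 1) + (dec (cw 30) + 1) := by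
    rw [cw_xor, dec_xor]
    funext p
    simp only [Pi.add_apply, Pi.one_apply]
    generalize dec (cw 345) p = a
    generalize dec (cw 30) p = b
    revert a b
    decide
  rw [e]
  exact W.add_mem m1 m2

theorem one_add_one : (1 : GolayPt → ZMod 2) + 1 = 0 := by
  funext p
  show (1 : ZMod 2) + 1 = 0
  decide

theorem key_nontriv {W : Submodule (ZMod 2) (GolayPt → ZMod 2)} (hW : MInv W)
    (hle : W ≤ golayCode) {w : GolayPt → ZMod 2} (hw : w ∈ W) (h0 : w ≠ 0) (h1 : w ≠ 1) :
    W = golayCode := by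
  have hoct : ∃ u ∈ W, support₂ u ∈ octads := by
    obtain ⟨k, hk, rfl⟩ := (mem_golayCode_iff w).mp (hle hw)
    rcases Cfsg.Agent.S5393.chk k hk with rfl | rfl | h | h | h
    · exact absurd (by rw [cw_zero, dec_zero]) h0
    · exact absurd (by rw [ones_eq, dec_ones]) h1
    · exact ⟨_, hw, Cfsg.Agent.S5393.oct_mem k h⟩
    · exact oct_of_dod hW hw (Cfsg.Agent.S5393.dod_mem k h)
    · refine oct_of_sixteen hW (u := dec (cw (k ^^^ 2048))) ?_ (Cfsg.Agent.S5393.oct_mem _ h)
      have e : dec (cw (k ^^^ 2048)) + 1 = dec (cw k) := by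
        rw [cw_xor, dec_xor, ones_eq, dec_ones, add_assoc, one_add_one, add_zero]
      rw [e]
      exact hw
  obtain ⟨u, hu, huo⟩ := hoct
  have h1W := one_of_oct hW hu huo
  rcases Cfsg.Agent.S5393.result.2 W h1W hle hW with h | h
  · exfalso
    rw [h] at hw
    obtain ⟨a, rfl⟩ := Submodule.mem_span_singleton.mp hw
    have ha : ∀ a : ZMod 2, a = 0 ∨ a = 1 := by decide
    rcases ha a with rfl | rfl
    · exact h0 (zero_smul _ _)
    · exact h1 (one_smul _ _)
  · exact h

theorem caseA {W : Submodule (ZMod 2) (GolayPt → ZMod 2)} (hW : MInv W)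
    (hle : W ≤ golayCode) :
    W = ⊥ ∨ W = Submodule.span (ZMod 2) {fun _ => (1 : ZMod 2)} ∨ W = golayCode := by
  by_cases h : ∃ w ∈ W, w ≠ 0 ∧ w ≠ 1
  · obtain ⟨w, hw, h0, h1⟩ := h
    exact Or.inr (Or.inr (key_nontriv hW hle hw h0 h1))
  · push Not at h
    by_cases h1 : (1 : GolayPt → ZMod 2) ∈ W
    · right
      left
      apply le_antisymm
      · intro w hw
        by_cases h0 : w = 0
        · rw [h0]
          exact Submodule.zero_mem _
        · rw [h w hw h0]
          exact Submodule.subset_span rfl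
      · rw [Submodule.span_le]
        intro x hx
        rw [Set.mem_singleton_iff] at hx
        rw [hx]
        exact h1
    · left
      rw [Submodule.eq_bot_iff]
      intro w hw
      by_contra h0
      exact h1 (h w hw h0 ▸ hw)

/-- the standard dot product as a bilinear form -/
noncomputable def B : LinearMap.BilinForm (ZMod 2) (GolayPt → ZMod 2) :=
  dotProductBilin (ZMod 2) (ZMod 2)

theorem B_apply (x y : GolayPt → ZMod 2) : B x y = ∑ p, x p * y p := rfl

theorem B_comm (x y : GolayPt → ZMod 2) : B x y = B y x := by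
  rw [B_apply, B_apply]
  exact Finset.sum_congr rfl (fun p _ => mul_comm _ _)

theorem B_nondeg : B.Nondegenerate :=
  ⟨fun x h => dotProduct_eq_zero x h, fun y h => dotProduct_eq_zero y (fun w => by
    have h1 := h w
    rwa [B_comm] at h1)⟩

theorem B_refl : B.IsRefl := fun x y h => by
  rw [B_comm]
  exact h

theorem B_act (σ : Equiv.Perm GolayPt) (x y : GolayPt → ZMod 2) :
    B x (fun p => y (σ.symm p)) = B (fun p => x (σ p)) y := by
  rw [B_apply, B_apply]
  refine (Equiv.sum_comp σ (fun p => x p * y (σ.symm p))).symm.trans ?_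
  simp

theorem perp_inv {W : Submodule (ZMod 2) (GolayPt → ZMod 2)} (hW : MInv W) :
    MInv (B.orthogonal W) := by
  intro σ hσ v hv
  rw [LinearMap.BilinForm.mem_orthogonal_iff] at hv ⊢
  intro n hn
  rw [B_act]
  exact hv _ (hW σ⁻¹ (M24.inv_mem hσ) n hn)

theorem perp_code : B.orthogonal golayCode = golayCode := by
  symm
  apply Submodule.eq_of_le_of_finrank_eq
  · intro c hc
    rw [LinearMap.BilinForm.mem_orthogonal_iff]
    intro n hn
    exact dot_eq_zero hn hc
  · rw [LinearMap.BilinForm.finrank_orthogonal B_nondeg, finrank_golayCode,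
      Module.finrank_fintype_fun_eq_card, card_golayPt]

def maskC : ℕ := 16771936

def Cl : List ℕ := [5, 6, 8, 9, 11, 13, 14, 15, 16, 17, 18, 19, 20, 21, 22, 23]

/-- the indicator of the complement of the standard octad -/
def chi : GolayPt → ZMod 2 := dec maskC

theorem chi_code : chi ∈ golayCode := by
  have e : maskC = cw 2393 := by decide +kernel
  unfold chi
  rw [e]
  exact dec_cw_mem 2393

theorem dec_pt (n : ℕ) {i : ℕ} (hi : i < 24) :
    dec n (pt i) = if n.testBit i then 1 else 0 := by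
  unfold dec
  rw [idx_pt i hi]

theorem chi_ne_zero : chi ≠ 0 := by
  intro h
  have h1 := congrFun h (pt 5)
  rw [chi, dec_pt maskC (by norm_num)] at h1
  revert h1
  decide +kernel

theorem chi_ne_one : chi ≠ 1 := by
  intro h
  have h1 := congrFun h (pt 0)
  rw [chi, dec_pt maskC (by norm_num)] at h1
  revert h1
  decide +kernel

theorem sum_pt (f : GolayPt → ZMod 2) : ∑ p, f p = ∑ i ∈ Finset.range 24, f (pt i) := by
  rw [← image_idx, Finset.sum_image (fun x _ y _ h => idx_injective h)]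
  exact Finset.sum_congr rfl (fun p _ => by rw [pt_idx])

theorem chi_dot (x : GolayPt → ZMod 2) : B chi x = (Cl.map (fun j => x (pt j))).sum := by
  rw [B_apply, sum_pt]
  have h1 : ∀ i ∈ Finset.range 24,
      chi (pt i) * x (pt i) = if maskC.testBit i = true then x (pt i) else 0 := by
    intro i hi
    rw [chi, dec_pt maskC (Finset.mem_range.mp hi)]
    split_ifs <;> simp
  rw [Finset.sum_congr rfl h1, ← Finset.sum_filter]
  have h2 : (Finset.range 24).filter (fun i => maskC.testBit i = true) = Cl.toFinset := by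
    decide +kernel
  rw [h2, List.sum_toFinset _ (by decide : Cl.Nodup)]

theorem orb_chk : (List.range 24).all (fun i =>
    if (cw 345).testBit i then
      (ts7.map (fun T => ent T i) == List.replicate 16 i) && !(maskC.testBit i)
    else (ts7.map (fun T => ent T i)).isPerm Cl && maskC.testBit i) = true := by
  decide +kernel

theorem ts7_in : ts7.all (fun T => inFix [cw 345] [] T) = true := by decide +kernel

theorem ts7_spec {T : ℕ} (hT : T ∈ ts7) :
    tp T ∈ M24 ∧ ∀ i < 24, (tp T).symm (pt i) = pt (ent T i) := by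
  have h1 := List.all_eq_true.mp ts7_in T hT
  have hg := inFix_good h1
  refine ⟨(tp_mem_fixG h1).1, ?_⟩
  intro i hi
  rw [Equiv.symm_apply_eq, tp_pt hg (good_lt hg i hi)]
  have h2 := List.all_eq_true.mp (List.all_eq_true.mp ts7_inv T hT) i (List.mem_range.mpr hi)
  rw [Nat.eq_of_beq_eq_true h2]

theorem sixteen_nsmul (a : ZMod 2) : 16 • a = 0 := by
  revert a
  decide

theorem orbit_sum (x : GolayPt → ZMod 2) :
    (ts7.map (fun T => (fun p => x ((tp T).symm p)))).sum = B chi x • chi := by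
  funext p
  obtain ⟨i, hi, rfl⟩ : ∃ i < 24, p = pt i := ⟨idx p, idx_lt p, (pt_idx p).symm⟩
  rw [Pi.list_sum_apply, List.map_map]
  have h1 : ts7.map ((fun f : GolayPt → ZMod 2 => f (pt i)) ∘
      fun T => fun p => x ((tp T).symm p)) =
      (ts7.map (fun T => ent T i)).map (fun j => x (pt j)) := by
    rw [List.map_map]
    apply List.map_congr_left
    intro T hT
    simp only [Function.comp_apply]
    rw [(ts7_spec hT).2 i hi]
  rw [h1]
  have hc := List.all_eq_true.mp orb_chk i (List.mem_range.mpr hi)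
  have hchi : chi (pt i) = if maskC.testBit i then 1 else 0 := dec_pt maskC hi
  rw [Pi.smul_apply, smul_eq_mul, hchi]
  split_ifs at hc with hb
  · simp only [Bool.and_eq_true, beq_iff_eq, Bool.not_eq_true'] at hc
    rw [hc.1, hc.2, List.map_replicate, List.sum_replicate, sixteen_nsmul]
    simp
  · simp only [Bool.and_eq_true, List.isPerm_iff] at hc
    rw [hc.2, (hc.1.map _).sum_eq, chi_dot]
    simp

theorem chi_mem {W : Submodule (ZMod 2) (GolayPt → ZMod 2)} (hW : MInv W)
    {x : GolayPt → ZMod 2} (hx : x ∈ W) (h : B chi x = 1) : chi ∈ W := by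
  have hv : (ts7.map (fun T => (fun p => x ((tp T).symm p)))).sum ∈ W := by
    apply list_sum_mem
    intro y hy
    obtain ⟨T, hT, rfl⟩ := List.mem_map.mp hy
    exact hW _ (ts7_spec hT).1 x hx
  rw [orbit_sum, h, one_smul] at hv
  exact hv

/-- the code words orthogonal to all images of `w` -/
def UU (w : GolayPt → ZMod 2) : Submodule (ZMod 2) (GolayPt → ZMod 2) where
  carrier := {c | c ∈ golayCode ∧ ∀ g ∈ M24, B c (fun p => w (g.symm p)) = 0}
  add_mem' := by
    rintro a b ⟨ha, ha'⟩ ⟨hb, hb'⟩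
    exact ⟨golayCode.add_mem ha hb, fun g hg => by
      rw [map_add, LinearMap.add_apply, ha' g hg, hb' g hg, add_zero]⟩
  zero_mem' := ⟨golayCode.zero_mem, fun g hg => by rw [map_zero, LinearMap.zero_apply]⟩
  smul_mem' := by
    rintro r a ⟨ha, ha'⟩
    exact ⟨golayCode.smul_mem r ha, fun g hg => by
      rw [map_smul, LinearMap.smul_apply, ha' g hg, smul_zero]⟩

theorem UU_inv (w : GolayPt → ZMod 2) : MInv (UU w) := by
  intro σ hσ c hc
  refine ⟨comp_mem_of_mem_M24 hσ c hc.1, fun g hg => ?_⟩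
  have h1 := hc.2 (σ⁻¹ * g) (M24.mul_mem (M24.inv_mem hσ) hg)
  have e : B (fun p => c (σ.symm p)) (fun p => w (g.symm p)) =
      B c (fun p => w ((σ⁻¹ * g).symm p)) := by
    rw [B_comm, B_act, B_comm]
    rfl
  rw [e]
  exact h1

theorem exists_odd {w : GolayPt → ZMod 2} (hw : w ∉ golayCode) :
    ∃ g ∈ M24, B chi (fun p => w (g.symm p)) = 1 := by
  by_contra hcon
  push Not at hcon
  have h01 : ∀ a : ZMod 2, a ≠ 1 → a = 0 := by decide
  have hχU : chi ∈ UU w := ⟨chi_code, fun g hg => h01 _ (hcon g hg)⟩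
  have hU : UU w = golayCode :=
    key_nontriv (UU_inv w) (fun c hc => hc.1) hχU chi_ne_zero chi_ne_one
  apply hw
  rw [← perp_code, LinearMap.BilinForm.mem_orthogonal_iff]
  intro c hc
  have hcU : c ∈ UU w := by
    rw [hU]
    exact hc
  exact hcU.2 1 M24.one_mem

theorem claimD {W : Submodule (ZMod 2) (GolayPt → ZMod 2)} (hW : MInv W)
    (hle : ¬ W ≤ golayCode) : golayCode ≤ W := by
  obtain ⟨w, hwW, hwC⟩ := SetLike.not_le_iff_exists.mp hle
  obtain ⟨g, hg, hS⟩ := exists_odd hwC
  have hχ : chi ∈ W := chi_mem hW (hW g hg w hwW) hS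
  have hinv : MInv (W ⊓ golayCode) := fun σ hσ x hx =>
    ⟨hW σ hσ x hx.1, comp_mem_of_mem_M24 hσ x hx.2⟩
  have h := key_nontriv hinv inf_le_right (⟨hχ, chi_code⟩ : chi ∈ W ⊓ golayCode)
    chi_ne_zero chi_ne_one
  exact inf_eq_right.mp h

theorem result (W : Submodule (ZMod 2) (Cfsg.GolayPt → ZMod 2)) (hW : ∀ σ ∈ Cfsg.M24, ∀ w ∈ W, (fun p => w (σ.symm p)) ∈ W) : W = ⊥ ∨ W = Submodule.span (ZMod 2) {fun _ => (1 : ZMod 2)} ∨ W = Cfsg.golayCode ∨ (W : Set (Cfsg.GolayPt → ZMod 2)) = {w | ∑ p, w p = 0} ∨ W = ⊤ := by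
  by_cases hle : W ≤ golayCode
  · rcases caseA hW hle with h | h | h
    · exact Or.inl h
    · exact Or.inr (Or.inl h)
    · exact Or.inr (Or.inr (Or.inl h))
  · have hC : golayCode ≤ W := claimD hW hle
    have hperp_le : B.orthogonal W ≤ golayCode := by
      have h1 := LinearMap.BilinForm.orthogonal_le (B := B) hC
      rwa [perp_code] at h1
    have hWW : B.orthogonal (B.orthogonal W) = W :=
      LinearMap.BilinForm.orthogonal_orthogonal B_nondeg B_refl W
    rcases caseA (perp_inv hW) hperp_le with h | h | h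
    · right
      right
      right
      right
      rw [← hWW, h, LinearMap.BilinForm.orthogonal_bot]
    · right
      right
      right
      left
      rw [← hWW, h]
      ext w
      rw [SetLike.mem_coe, LinearMap.BilinForm.mem_orthogonal_iff, Set.mem_ofPred_eq]
      constructor
      · intro hw
        have h1 := hw (fun _ => 1) (Submodule.subset_span rfl)
        rw [B_apply] at h1
        simpa using h1
      · intro hs n hn
        obtain ⟨a, rfl⟩ := Submodule.mem_span_singleton.mp hn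
        rw [map_smul, LinearMap.smul_apply, B_apply]
        simp [hs]
    · exfalso
      apply hle
      rw [← hWW, h, perp_code]

end Cfsg.Agent.S5548
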