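import Cfsg.Statements.S5550
import Cfsg.Agent.S5548
import Cfsg.Agent.Lib.Helper3.M24Orb

set_option autoImplicit false
open Cfsg

namespace Cfsg.Agent.S5550

open Cfsg.Agent.Lib.Helper3.Golay Cfsg.Agent.Lib.Helper3.Golay2
open Cfsg.Agent.Lib.Helper3.GolayM24 Cfsg.Agent.Lib.Helper3.M24Perm
open Cfsg.Agent.Lib.Helper3.M24Cert Cfsg.Agent.Lib.Helper3.M24Trans
open Cfsg.Agent.Lib.Helper3.M24Oct Cfsg.Agent.Lib.Helper3.M24Orb
open Cfsg.Agent.Lib.Helper3.M24Dod
open Cfsg.Agent.S5548 (B B_apply B_comm B_act perp_code)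
open scoped Pointwise

def pairsO : List (ℕ × ℕ) := [(264342569875746857876472607337982087, 1), (264342569875746857876472607337982087, 2), (264342569875746857876472607337982087, 4), (264342569875746857876472607337982087, 8), (264342569875746857876472607337982087, 16), (264342569875746857876472607337982087, 32), (264342569875746857876472607337982087, 64), (264342569875746857876472607337982087, 128), (264342569875746857876472607337982087, 512), (264342569875746857876472607337982087, 1024), (475891506178391108651828474542172387, 1), (475891506178391108651828474542172387, 2)]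

def DO : List ℕ := [13460675, 4969349, 12196181, 10226166, 9555959, 16419395, 15048437, 8316934, 1737489, 63108, 4629987, 13525353]

def mO : List ℕ := [3109, 2692, 3080, 3321, 1467, 1821, 2011, 341, 3043, 291, 2152, 2591]

def pairsD : List (ℕ × ℕ) := [(485904699787286648172770604622025288, 2), (485904699787286648172770604622025288, 4), (485904699787286648172770604622025288, 8), (485904699787286648172770604622025288, 16), (485904699787286648172770604622025288, 32), (485904699787286648172770604622025288, 64), (485904699787286648172770604622025288, 128), (485904699787286648172770604622025288, 256), (485904699787286648172770604622025288, 512), (485904699787286648172770604622025288, 1024), (984157855618772892610421779220404809, 2), (596113626541302994557883822578935208, 2)]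

def DD : List ℕ := [12011021, 4132673, 9096755, 11175864, 9718991, 8426796, 9657367, 3000681, 4053570, 2575820, 4060028, 15520991]

def mD : List ℕ := [1782, 1912, 620, 205, 3111, 2018, 2696, 1816, 712, 3749, 3275, 3480]

theorem pairsO_in : pairsO.all (fun x => inFix [cw 345] [] x.1) = true := by decide +kernel

theorem DO_eq : pairsO.map (fun x => apm x.1 (cw x.2) ^^^ cw x.2) = DO := by decide +kernel

theorem mO_ok : mO.map (fun m => comb DO m) = basis := by decide +kernel

theorem pairsD_in : pairsD.all (fun x => inFix [cw 1] [] x.1) = true := by decide +kernel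

theorem DD_eq : pairsD.map (fun x => apm x.1 (cw x.2) ^^^ cw x.2) = DD := by decide +kernel

theorem mD_ok : mD.map (fun m => comb DD m) = basis := by decide +kernel

theorem add_self_zmod2 (a : ZMod 2) : a + a = 0 := by
  revert a
  decide

theorem inv_symm_apply (σ : Equiv.Perm GolayPt) (p : GolayPt) : (σ⁻¹).symm p = σ p := rfl

theorem core (Ds : List ℕ) (pairs : List (ℕ × ℕ)) (D ms : List ℕ)
    (h1 : pairs.all (fun x => inFix Ds [] x.1) = true)
    (h2 : pairs.map (fun x => apm x.1 (cw x.2) ^^^ cw x.2) = D)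
    (h3 : ms.map (fun m => comb D m) = basis)
    {w : GolayPt → ZMod 2} (hw : w ∉ golayCode) :
    ∃ σ ∈ fixG Ds [], (fun p => w (σ.symm p)) - w ∉ golayCode := by
  by_contra hcon
  push Not at hcon
  apply hw
  rw [← perp_code, LinearMap.BilinForm.mem_orthogonal_iff]
  have s1 : ∀ g ∈ D, B w (dec g) = 0 := by
    intro g hg
    rw [← h2] at hg
    obtain ⟨x, hx, rfl⟩ := List.mem_map.mp hg
    have hin := List.all_eq_true.mp h1 x hx
    have hgood := inFix_good hin
    have hσ' := (fixG Ds []).inv_mem (tp_mem_fixG hin)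
    have hc0 := hcon _ hσ'
    have hc : (fun p => w (tp x.1 p)) - w ∈ golayCode := by
      simpa only [inv_symm_apply] using hc0
    have h0 : B ((fun p => w (tp x.1 p)) - w) (dec (cw x.2)) = 0 :=
      dot_eq_zero hc (dec_cw_mem x.2)
    have e1 : B (fun p => w (tp x.1 p)) (dec (cw x.2)) = B w (dec (apm x.1 (cw x.2))) := by
      rw [← B_act, ← dec_comp_tp hgood]
      rfl
    rw [map_sub, LinearMap.sub_apply, e1, sub_eq_zero] at h0
    rw [dec_xor, map_add, h0]
    exact add_self_zmod2 _
  have s2 : ∀ g ∈ basis, B w (dec g) = 0 := by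
    intro g hg
    rw [← h3] at hg
    obtain ⟨m, -, rfl⟩ := List.mem_map.mp hg
    exact comb_induction (fun x => B w x = 0) (map_zero _)
      (fun x y hx hy => by rw [map_add, hx, hy, add_zero]) D s1 m
  intro c hc
  obtain ⟨k, -, rfl⟩ := (mem_golayCode_iff c).mp hc
  rw [B_comm, cw_eq_comb]
  exact comb_induction (fun x => B w x = 0) (map_zero _)
    (fun x y hx hy => by rw [map_add, hx, hy, add_zero]) basis s2 k

theorem coreO {w : GolayPt → ZMod 2} (hw : w ∉ golayCode) :
    ∃ σ ∈ fixG [cw 345] [], (fun p => w (σ.symm p)) - w ∉ golayCode :=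
  core [cw 345] pairsO DO mO pairsO_in DO_eq mO_ok hw

theorem coreD {w : GolayPt → ZMod 2} (hw : w ∉ golayCode) :
    ∃ σ ∈ fixG [cw 1] [], (fun p => w (σ.symm p)) - w ∉ golayCode :=
  core [cw 1] pairsD DD mD pairsD_in DD_eq mD_ok hw

theorem transportT {h : Equiv.Perm GolayPt} (hh : h ∈ M24) {u0 w : GolayPt → ZMod 2}
    (H : ∃ σ ∈ M24, (fun p => u0 (σ.symm p)) = u0 ∧
      (fun p => w (h (σ.symm p))) - (fun p => w (h p)) ∉ golayCode) :
    ∃ σ ∈ M24, (fun p => u0 (h.symm (σ.symm p))) = (fun p => u0 (h.symm p)) ∧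
      (fun p => w (σ.symm p)) - w ∉ golayCode := by
  obtain ⟨σ0, hσ0, e1, e2⟩ := H
  refine ⟨h * σ0 * h⁻¹, M24.mul_mem (M24.mul_mem hh hσ0) (M24.inv_mem hh), ?_, ?_⟩
  · funext p
    have h1 := congrFun e1 (h.symm p)
    have h2 : h.symm ((h * σ0 * h⁻¹).symm p) = σ0.symm (h.symm p) := by
      show h.symm (h (σ0.symm (h.symm p))) = σ0.symm (h.symm p)
      rw [Equiv.symm_apply_apply]
    rw [h2]
    exact h1
  · intro hx
    apply e2
    have h1 := comp_mem_of_mem_M24 (M24.inv_mem hh) _ hx
    have h2 : ((fun p => w ((h * σ0 * h⁻¹).symm p)) - w) ∘ (h⁻¹).symm =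
        (fun p => w (h (σ0.symm p))) - (fun p => w (h p)) := by
      funext p
      show w (h (σ0.symm (h.symm (h p)))) - w (h p) = w (h (σ0.symm p)) - w (h p)
      rw [Equiv.symm_apply_apply]
    rw [h2] at h1
    exact h1

theorem gen_case (Ds : List ℕ)
    (hcore : ∀ {w : GolayPt → ZMod 2}, w ∉ golayCode →
      ∃ σ ∈ fixG Ds [], (fun p => w (σ.symm p)) - w ∉ golayCode)
    {u0 : GolayPt → ZMod 2} (hfix : ∀ σ ∈ fixG Ds [], (fun p => u0 (σ.symm p)) = u0)
    {g : Equiv.Perm GolayPt} (hg : g ∈ M24) {w : GolayPt → ZMod 2} (hw : w ∉ golayCode) :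
    ∃ σ ∈ M24, (fun p => u0 (g.symm (σ.symm p))) = (fun p => u0 (g.symm p)) ∧
      (fun p => w (σ.symm p)) - w ∉ golayCode := by
  apply transportT hg
  have hw0 : (fun p => w (g p)) ∉ golayCode := by
    intro hx
    apply hw
    have h1 := comp_mem_of_mem_M24 hg _ hx
    have h2 : (fun p => w (g p)) ∘ g.symm = w := by
      funext p
      show w (g (g.symm p)) = w p
      rw [Equiv.apply_symm_apply]
    rw [h2] at h1
    exact h1
  obtain ⟨σ, hσ, hx⟩ := hcore hw0
  exact ⟨σ, hσ.1, hfix σ hσ, hx⟩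

theorem fix_of_smul {σ : Equiv.Perm GolayPt} {n : ℕ} (h : σ • ms n = ms n) :
    (fun p => dec n (σ.symm p)) = dec n := by
  apply support_injective
  have h1 := smul_support σ (dec n)
  rw [← ms_eq_support, h, ms_eq_support] at h1
  exact h1.symm

theorem eq_act {g : Equiv.Perm GolayPt} {n : ℕ} {v : GolayPt → ZMod 2}
    (h : g • ms n = support₂ v) : v = fun p => dec n (g.symm p) := by
  apply support_injective
  have h1 := smul_support g (dec n)
  rw [← ms_eq_support, h] at h1
  exact h1

theorem result (u : (Cfsg.GolayPt → ZMod 2)) (hu : u ∈ Cfsg.golayCode) (w : (Cfsg.GolayPt → ZMod 2)) (hw : w ∉ Cfsg.golayCode) : ∃ σ ∈ Cfsg.M24, (fun p => u (σ.symm p)) = u ∧ (fun p => w (σ.symm p)) - w ∉ Cfsg.golayCode := by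
  obtain ⟨k, hk, rfl⟩ := (mem_golayCode_iff u).mp hu
  rcases Cfsg.Agent.S5393.chk k hk with rfl | rfl | h | h | h
  · have hfix : ∀ σ ∈ fixG [cw 345] [], (fun p => (0 : GolayPt → ZMod 2) (σ.symm p)) = 0 :=
      fun σ _ => rfl
    have h1 := gen_case [cw 345] coreO hfix M24.one_mem hw
    rw [cw_zero, dec_zero]
    exact h1
  · have hfix : ∀ σ ∈ fixG [cw 345] [], (fun p => (1 : GolayPt → ZMod 2) (σ.symm p)) = 1 :=
      fun σ _ => rfl
    have h1 := gen_case [cw 345] coreO hfix M24.one_mem hw
    rw [ones_eq, dec_ones]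
    exact h1
  · obtain ⟨g, hg, e⟩ := octad_trans o0_mem_octads (Cfsg.Agent.S5393.oct_mem k h)
    have hfix : ∀ σ ∈ fixG [cw 345] [], (fun p => dec (cw 345) (σ.symm p)) = dec (cw 345) :=
      fun σ hσ => fix_of_smul (hσ.2.1 _ (by simp))
    rw [eq_act e]
    exact gen_case [cw 345] coreO hfix hg hw
  · obtain ⟨g, hg, e⟩ := dodecad_trans d0_mem (Cfsg.Agent.S5393.dod_mem k h)
    have hfix : ∀ σ ∈ fixG [cw 1] [], (fun p => dec (cw 1) (σ.symm p)) = dec (cw 1) :=
      fun σ hσ => fix_of_smul (hσ.2.1 _ (by simp))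
    rw [eq_act e]
    exact gen_case [cw 1] coreD hfix hg hw
  · obtain ⟨g, hg, e⟩ := octad_trans o0_mem_octads (Cfsg.Agent.S5393.oct_mem _ h)
    have hfix : ∀ σ ∈ fixG [cw 345] [],
        (fun p => (dec (cw 345) + 1) (σ.symm p)) = dec (cw 345) + 1 := by
      intro σ hσ
      show (fun p => dec (cw 345) (σ.symm p)) + 1 = dec (cw 345) + 1
      rw [fix_of_smul (hσ.2.1 _ (by simp))]
    have e1 : dec (cw k) = dec (cw (k ^^^ 2048)) + 1 := by
      rw [cw_xor, dec_xor, ones_eq, dec_ones, add_assoc, Cfsg.Agent.S5548.one_add_one, add_zero]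
    have e2 : dec (cw k) = fun p => (dec (cw 345) + 1) (g.symm p) := by
      rw [e1, eq_act e]
      rfl
    rw [e2]
    exact gen_case [cw 345] coreO hfix hg hw

end Cfsg.Agent.S5550
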