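import Cfsg.Statements.S5553
import Mathlib
import Cfsg.Prelude.Def_Spor_Conway
import Cfsg.Agent.Lib.Helper3.Leech2

set_option autoImplicit false
open Cfsg

namespace Cfsg.Agent.S5553

open Cfsg.Agent.Lib.Helper3.Golay Cfsg.Agent.Lib.Helper3.Golay2
open Cfsg.Agent.Lib.Helper3.Leech Cfsg.Agent.Lib.Helper3.Leech2

abbrev H := (GolayPt → ZMod 4) × ZMod 2

def phiFun (x : GolayPt → ℤ) : H :=
  (fun p => ((x p - x none : ℤ) : ZMod 4), ((x none : ℤ) : ZMod 2))

theorem phiFun_add (x y : GolayPt → ℤ) : phiFun (x + y) = phiFun x + phiFun y := by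
  refine Prod.ext ?_ ?_
  · funext p
    simp only [phiFun, Pi.add_apply, Prod.fst_add]
    push_cast
    ring
  · simp only [phiFun, Pi.add_apply, Prod.snd_add]
    push_cast
    ring

def phi : leechLattice →+ H where
  toFun v := phiFun v
  map_zero' := by
    refine Prod.ext ?_ ?_
    · funext p
      simp [phiFun]
    · simp [phiFun]
  map_add' v w := by
    show phiFun ((v + w : leechLattice) : GolayPt → ℤ) = _
    rw [AddSubgroup.coe_add]
    exact phiFun_add _ _

def dbl (a : ZMod 2) : ZMod 4 := if a = 0 then 0 else 2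

def iota (q : (GolayPt → ZMod 2) × ZMod 2) : H := (fun p => dbl (q.1 p), q.2)

theorem dbl_inj : ∀ a b : ZMod 2, dbl a = dbl b → a = b := by
  decide

theorem iota_injective : Function.Injective iota := by
  rintro ⟨c, e⟩ ⟨c', e'⟩ h
  simp only [iota, Prod.mk.injEq] at h
  obtain ⟨h1, h2⟩ := h
  refine Prod.ext ?_ h2
  funext p
  exact dbl_inj _ _ (congrFun h1 p)

def C0 : Set (GolayPt → ZMod 2) := {c | c ∈ golayCode ∧ c none = 0}

def K0 : Finset ℕ := (Finset.range 4096).filter (fun k => Nat.mod (Nat.div (cw k) 8388608) 2 = 0)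

theorem K0_card : K0.card = 2048 := by
  decide +kernel

theorem dec_none (n : ℕ) : dec n none = 0 ↔ Nat.mod (Nat.div n 8388608) 2 = 0 := by
  have h1 : idx none = 23 := rfl
  simp only [dec, h1]
  rw [Nat.testBit_eq_decide_div_mod_eq]
  have h2 : (2 : ℕ) ^ 23 = 8388608 := by norm_num
  rw [h2]
  show (if decide (n / 8388608 % 2 = 1) = true then (1 : ZMod 2) else 0) = 0 ↔ n / 8388608 % 2 = 0
  have h3 := Nat.mod_two_eq_zero_or_one (n / 8388608)
  rcases h3 with h | h <;> simp [h]

theorem C0_eq : C0 = (fun k => dec (cw k)) '' (K0 : Set ℕ) := by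
  ext c
  simp only [C0, Set.mem_ofPred_eq, Set.mem_image, Finset.mem_coe, K0, Finset.mem_filter,
    Finset.mem_range]
  constructor
  · rintro ⟨hc, h0⟩
    obtain ⟨k, hk, rfl⟩ := (mem_golayCode_iff c).mp hc
    exact ⟨k, ⟨hk, (dec_none _).mp h0⟩, rfl⟩
  · rintro ⟨k, ⟨hk, h0⟩, rfl⟩
    exact ⟨dec_cw_mem k, (dec_none _).mpr h0⟩

theorem C0_ncard : C0.ncard = 2048 := by
  have hinj : Set.InjOn (fun k => dec (cw k)) (K0 : Set ℕ) := by
    intro k hk k' hk' h
    simp only [Finset.mem_coe, K0, Finset.mem_filter, Finset.mem_range] at hk hk'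
    exact cw_injOn k hk.1 k' hk'.1 (dec_inj (cw_lt k) (cw_lt k') h)
  rw [C0_eq, hinj.ncard_image, Set.ncard_coe_finset, K0_card]
theorem range_subset (v : leechLattice) : phi v ∈ iota '' (C0 ×ˢ (Set.univ : Set (ZMod 2))) := by
  have hv := (mem_leechLattice_iff _).mp v.2
  rw [mem_leechSet_iff] at hv
  obtain ⟨m, h1, h2, h3⟩ := hv
  set x : GolayPt → ℤ := v.1 with hx
  classical
  let c : GolayPt → ZMod 2 := fun p => if x p ≡ x none [ZMOD 4] then 0 else 1
  have hsupp : support₂ c = (lev x (x none))ᶜ := by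
    ext p
    simp only [support₂, Finset.mem_filter, Finset.mem_univ, true_and, Finset.mem_compl, mem_lev, c]
    split_ifs with h <;> simp [h]
  have hc : c ∈ golayCode := by
    have h4 : (lev x (x none))ᶜ ∈ Cset := compl_mem_supports (h3 (x none))
    obtain ⟨w, hw, hws⟩ := h4
    rw [← hsupp] at hws
    rw [← support_injective hws]
    exact hw
  have hc0 : c none = 0 := by
    simp [c]
  refine ⟨(c, ((x none : ℤ) : ZMod 2)), ⟨⟨hc, hc0⟩, Set.mem_univ _⟩, ?_⟩
  show iota (c, ((x none : ℤ) : ZMod 2)) = phiFun x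
  refine Prod.ext ?_ rfl
  funext p
  simp only [iota, phiFun, c]
  split_ifs with h
  · have : ((x p - x none : ℤ) : ZMod 4) = 0 := by
      rw [ZMod.intCast_zmod_eq_zero_iff_dvd]
      exact (Int.modEq_iff_dvd.mp h.symm)
    rw [this]
    rfl
  · have hp2 : x p ≡ x none [ZMOD 2] := (h1 p).trans (h1 none).symm
    have h5 : (x p - x none) % 4 = 2 := by
      have h6 : (x p - x none) % 2 = 0 := by
        have := Int.emod_emod_of_dvd (x p - x none) (by norm_num : (2 : ℤ) ∣ 2)
        have h7 := Int.ModEq.sub hp2 (Int.ModEq.refl (x none))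
        rw [sub_self] at h7
        exact h7
      have h8 : (x p - x none) % 4 ≠ 0 := by
        intro h9
        apply h
        have : (4 : ℤ) ∣ x p - x none := Int.dvd_of_emod_eq_zero h9
        exact (Int.modEq_iff_dvd.mpr this).symm
      omega
    have : ((x p - x none : ℤ) : ZMod 4) = 2 := by
      have h10 : ((x p - x none : ℤ) : ZMod 4) = (((x p - x none) % 4 : ℤ) : ZMod 4) :=
        (ZMod.intCast_mod (x p - x none) 4).symm
      rw [h10, h5]
      rfl
    rw [this]
    rfl

theorem two_ind_mem (c : GolayPt → ZMod 2) (hc : c ∈ golayCode) :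
    (fun p => if c p = 0 then (0 : ℤ) else 2) ∈ leechSet := by
  classical
  rw [mem_leechSet_iff]
  have hS : support₂ c ∈ Cset := ⟨c, hc, rfl⟩
  refine ⟨0, fun i => ?_, ?_, fun k => ?_⟩
  · show (if c i = 0 then (0 : ℤ) else 2) ≡ 0 [ZMOD 2]
    split_ifs
    · rfl
    · decide
  · have h4 := four_dvd_card hS
    have hsum : ∑ i, (if c i = 0 then (0 : ℤ) else 2) = 2 * ((support₂ c).card : ℤ) := by
      have : ∀ i : GolayPt, (if c i = 0 then (0 : ℤ) else 2) = 2 * (if c i ≠ 0 then 1 else 0) := by
        intro i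
        split_ifs <;> simp_all
      rw [Finset.sum_congr rfl (fun i _ => this i), ← Finset.mul_sum, Finset.sum_boole]
      rfl
    rw [hsum]
    obtain ⟨t, ht⟩ := h4
    rw [ht]
    push_cast
    rw [Int.modEq_iff_dvd]
    exact ⟨-t, by ring⟩
  · have hk : k % 4 = 0 ∨ k % 4 = 1 ∨ k % 4 = 2 ∨ k % 4 = 3 := by omega
    have hlev : lev (fun p => if c p = 0 then (0 : ℤ) else 2) k =
        if k % 4 = 0 then (support₂ c)ᶜ else if k % 4 = 2 then support₂ c else ∅ := by
      ext p
      simp only [mem_lev, Int.ModEq]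
      by_cases hcp : c p = 0
      · rcases hk with h | h | h | h <;>
          simp [hcp, h, support₂]
      · rcases hk with h | h | h | h <;>
          simp [hcp, h, support₂]
    rw [hlev]
    split_ifs
    · exact compl_mem_supports hS
    · exact hS
    · exact empty_mem_supports

theorem range_supset (c : GolayPt → ZMod 2) (hc : c ∈ C0) (e : ZMod 2) :
    ∃ v : leechLattice, phi v = iota (c, e) := by
  classical
  obtain ⟨hcC, hc0⟩ := hc
  set x₀ : GolayPt → ℤ := fun p => if c p = 0 then (0 : ℤ) else 2 with hx₀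
  have hx₀mem : x₀ ∈ leechLattice := (mem_leechLattice_iff _).mpr (two_ind_mem c hcC)
  have hphi0 : phiFun x₀ = iota (c, 0) := by
    refine Prod.ext ?_ ?_
    · funext p
      simp only [phiFun, iota, hx₀, hc0, dbl]
      split_ifs <;> simp
    · simp [phiFun, iota, hx₀, hc0]
  have hV : phiFun Spor.vecV = ((fun _ => 0), 1) := by
    refine Prod.ext ?_ ?_
    · funext p
      simp only [phiFun, Spor.vecV]
      split_ifs <;> decide
    · simp only [phiFun, Spor.vecV]
      decide
  have hcases : e = 0 ∨ e = 1 := by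
    revert e
    decide
  rcases hcases with rfl | rfl
  · exact ⟨⟨x₀, hx₀mem⟩, hphi0⟩
  · refine ⟨⟨x₀ + Spor.vecV, leechLattice.add_mem hx₀mem
      (AddSubgroup.subset_closure Spor.vecV_mem_leechSet)⟩, ?_⟩
    show phiFun (x₀ + Spor.vecV) = _
    rw [phiFun_add, hphi0, hV]
    refine Prod.ext ?_ ?_
    · funext p
      simp [iota]
    · simp [iota]

theorem card_range : Nat.card phi.range = 4096 := by
  have hset : (phi.range : Set H) = iota '' (C0 ×ˢ (Set.univ : Set (ZMod 2))) := by
    ext y
    constructor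
    · rintro ⟨v, rfl⟩
      exact range_subset v
    · rintro ⟨⟨c, e⟩, ⟨hc, -⟩, rfl⟩
      obtain ⟨v, hv⟩ := range_supset c hc e
      exact ⟨v, hv⟩
  have h1 : Nat.card phi.range = (phi.range : Set H).ncard := (Nat.card_coe_set_eq _)
  rw [h1, hset, Set.ncard_image_of_injective _ iota_injective, Set.ncard_prod, C0_ncard,
    Set.ncard_univ]
  simp

theorem sq_sub_self_even (b : ℤ) : (2 : ℤ) ∣ b ^ 2 - b := by
  have h : b ^ 2 - b = b * (b - 1) := by ring
  rw [h]
  exact (Int.even_mul_pred_self b).two_dvd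

/-- The Leech lattice of the definitions has an additive subgroup A containing twice the lattice, of index 2^12 in the lattice, all of whose vectors have squared length divisible by 32: the invariant quadratic form 'squared length over 16 modulo 2' on the lattice modulo twice the lattice (a 24-dimensional space over the field with two elements) vanishes on a 12-dimensional subspace, so it is of plus type. -/
theorem result : ∃ A : AddSubgroup (Cfsg.GolayPt → ℤ), A ≤ Cfsg.leechLattice ∧ (∀ v ∈ Cfsg.leechLattice, (2 : ℤ) • v ∈ A) ∧ (A.addSubgroupOf Cfsg.leechLattice).index = 2 ^ 12 ∧ ∀ v ∈ A, (32 : ℤ) ∣ Cfsg.sqNorm v := by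
  refine ⟨phi.ker.map leechLattice.subtype, AddSubgroup.map_subtype_le _, ?_, ?_, ?_⟩
  · intro v hv
    refine ⟨⟨(2 : ℤ) • v, leechLattice.zsmul_mem hv 2⟩, ?_, rfl⟩
    rw [SetLike.mem_coe, AddMonoidHom.mem_ker]
    show phiFun ((2 : ℤ) • v) = 0
    have hv' := (mem_leechLattice_iff _).mp hv
    rw [mem_leechSet_iff] at hv'
    obtain ⟨m, h1, -, -⟩ := hv'
    refine Prod.ext ?_ ?_
    · funext p
      simp only [phiFun, Pi.smul_apply, smul_eq_mul, Prod.fst_zero, Pi.zero_apply]
      rw [ZMod.intCast_zmod_eq_zero_iff_dvd]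
      have hp2 : v p ≡ v none [ZMOD 2] := (h1 p).trans (h1 none).symm
      obtain ⟨t, ht⟩ := Int.modEq_iff_dvd.mp hp2.symm
      exact ⟨t, by push_cast; linarith⟩
    · simp only [phiFun, Pi.smul_apply, smul_eq_mul, Prod.snd_zero]
      rw [ZMod.intCast_zmod_eq_zero_iff_dvd]
      exact ⟨v none, by push_cast; ring⟩
  · have h1 : (phi.ker.map leechLattice.subtype).addSubgroupOf leechLattice = phi.ker :=
      AddSubgroup.comap_map_eq_self_of_injective leechLattice.subtype_injective _
    rw [h1, AddSubgroup.index_ker, card_range]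
    norm_num
  · rintro _ ⟨v, hvker, rfl⟩
    rw [SetLike.mem_coe, AddMonoidHom.mem_ker] at hvker
    have hv' := (mem_leechLattice_iff _).mp v.2
    rw [mem_leechSet_iff] at hv'
    obtain ⟨m, h1, h2, -⟩ := hv'
    set x : GolayPt → ℤ := v.1 with hx
    have hk : phiFun x = 0 := hvker
    have hk1 : ∀ p, (4 : ℤ) ∣ x p - x none := by
      intro p
      have := congrFun (congrArg Prod.fst hk) p
      simp only [phiFun, Prod.fst_zero, Pi.zero_apply] at this
      exact (ZMod.intCast_zmod_eq_zero_iff_dvd _ 4).mp this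
    have hk2 : (2 : ℤ) ∣ x none := by
      have := congrArg Prod.snd hk
      simp only [phiFun, Prod.snd_zero] at this
      exact (ZMod.intCast_zmod_eq_zero_iff_dvd _ 2).mp this
    obtain ⟨e, he⟩ := hk2
    choose b hb using hk1
    have hxp : ∀ p, x p = 2 * e + 4 * b p := by
      intro p
      have := hb p
      linarith
    have hm : (2 : ℤ) ∣ m := by
      have := h1 none
      rw [he] at this
      have h3 : (2 * e) % 2 = m % 2 := this
      omega
    have hsum : ∑ p, x p = 48 * e + 4 * ∑ p, b p := by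
      rw [Finset.sum_congr rfl (fun p _ => hxp p), Finset.sum_add_distrib, Finset.sum_const,
        ← Finset.mul_sum, Finset.card_univ]
      have : Fintype.card GolayPt = 24 := by decide
      rw [this]
      simp
      ring
    have hbeven : (2 : ℤ) ∣ ∑ p, b p := by
      obtain ⟨m', hm'⟩ := hm
      rw [hsum, hm'] at h2
      have h4 := Int.modEq_iff_dvd.mp h2
      obtain ⟨t, ht⟩ := h4
      exact ⟨m' - 6 * e - t, by linarith⟩
    have hb2 : (2 : ℤ) ∣ ∑ p, (b p ^ 2 - b p) :=
      Finset.dvd_sum (fun p _ => sq_sub_self_even (b p))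
    have hnorm : sqNorm x = 96 * e ^ 2 + 16 * e * ∑ p, b p + 16 * ∑ p, b p ^ 2 := by
      unfold sqNorm
      have : ∀ p, x p ^ 2 = 4 * e ^ 2 + 16 * e * b p + 16 * b p ^ 2 := by
        intro p
        rw [hxp p]
        ring
      rw [Finset.sum_congr rfl (fun p _ => this p), Finset.sum_add_distrib, Finset.sum_add_distrib,
        Finset.sum_const, ← Finset.mul_sum, ← Finset.mul_sum, Finset.card_univ]
      have : Fintype.card GolayPt = 24 := by decide
      rw [this]
      simp
      ring
    show (32 : ℤ) ∣ sqNorm x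
    rw [hnorm]
    obtain ⟨s, hs⟩ := hbeven
    obtain ⟨t, ht⟩ := hb2
    rw [Finset.sum_sub_distrib] at ht
    have h5 : ∑ p, b p ^ 2 = 2 * t + 2 * s := by linarith
    rw [h5, hs]
    exact ⟨3 * e ^ 2 + e * s + t + s, by ring⟩


end Cfsg.Agent.S5553
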