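import Cfsg.Statements.S5593
import Cfsg.Agent.Lib.Helper11.LeechCo0

set_option autoImplicit false
open Cfsg

namespace Cfsg.Agent.S5593

theorem result (v w : ↥Cfsg.leechLattice) (hv : Cfsg.sqNorm (v : Cfsg.GolayPt → ℤ) = 64) (hw : Cfsg.sqNorm (w : Cfsg.GolayPt → ℤ) = 64) :
    ∃ g : ↥Cfsg.Co0, ∃ z ∈ Cfsg.leechLattice, ((g • v : ↥Cfsg.leechLattice) : Cfsg.GolayPt → ℤ) - (w : Cfsg.GolayPt → ℤ) = 2 • z := by
  obtain ⟨g, hg, e⟩ := Cfsg.Agent.Lib.Helper11.LeechSt.t8_trans v w hv hw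
  refine ⟨⟨g, hg⟩, 0, zero_mem _, ?_⟩
  have e' : ((⟨g, hg⟩ : ↥Cfsg.Co0) • v : ↥Cfsg.leechLattice) = w := e
  rw [e']
  simp

end Cfsg.Agent.S5593
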