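import Cfsg.Statements.S5594
import Mathlib
import Cfsg.Prelude.Def_Spor_Conway
import Cfsg.Agent.Lib.Helper3.Leech2
import Cfsg.Agent.Lib.Helper3.GolayM24

set_option autoImplicit false
open Cfsg

namespace Cfsg.Agent.S5594

open Cfsg.Agent.Lib.Helper3.Leech Cfsg.Agent.Lib.Helper3.Leech2 Cfsg.Agent.Lib.Helper3.GolayM24
open Cfsg.Agent.Lib.Helper3.Golay

def cQ : Finset GolayPt := support₂ (qrWord 0)

theorem cQ_mem : cQ ∈ Cset := ⟨qrWord 0, qrWord_mem 0, rfl⟩

theorem flip : ∀ i : GolayPt, i ∈ cQ ↔ projInv i ∉ cQ := by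
  decide +kernel

theorem projInv_invol : ∀ i : GolayPt, projInv (projInv i) = i := by
  decide +kernel

def Gfun (x : GolayPt → ℤ) : GolayPt → ℤ :=
  fun i => if i ∈ cQ then -(x (projInv i)) else x (projInv i)

theorem Gfun_mem {x : GolayPt → ℤ} (hx : x ∈ leechLattice) : Gfun x ∈ leechLattice := by
  rw [mem_leechLattice_iff] at hx ⊢
  exact sign_mem_leechSet cQ_mem (perm_mem_leechSet projInv_mem hx)

theorem Gfun_Gfun (x : GolayPt → ℤ) : Gfun (Gfun x) = -x := by
  funext i
  simp only [Gfun, Pi.neg_apply, projInv_invol]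
  by_cases hi : i ∈ cQ
  · have := (flip i).mp hi
    simp [hi, this]
  · have : projInv i ∈ cQ := by
      by_contra h
      exact hi ((flip i).mpr h)
    simp [hi, this]

theorem Gfun_add (x y : GolayPt → ℤ) : Gfun (x + y) = Gfun x + Gfun y := by
  funext i
  simp only [Gfun, Pi.add_apply]
  split_ifs <;> ring

theorem Gfun_neg (x : GolayPt → ℤ) : Gfun (-x) = -Gfun x := by
  funext i
  simp only [Gfun, Pi.neg_apply]
  split_ifs <;> ring

theorem sqNorm_Gfun (x : GolayPt → ℤ) : sqNorm (Gfun x) = sqNorm x := by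
  unfold sqNorm
  rw [← Equiv.sum_comp projInv (fun i => x i ^ 2)]
  apply Finset.sum_congr rfl
  intro i _
  simp only [Gfun]
  split_ifs <;> ring

def gPerm : Equiv.Perm leechLattice where
  toFun v := ⟨Gfun v, Gfun_mem v.2⟩
  invFun v := ⟨Gfun (-(v : GolayPt → ℤ)), Gfun_mem (leechLattice.neg_mem v.2)⟩
  left_inv v := by
    apply Subtype.ext
    show Gfun (-(Gfun v)) = v
    rw [Gfun_neg, Gfun_Gfun, neg_neg]
  right_inv v := by
    apply Subtype.ext
    show Gfun (Gfun (-(v : GolayPt → ℤ))) = v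
    rw [Gfun_Gfun, neg_neg]

theorem gPerm_mem : gPerm ∈ Co0 := by
  show (∀ v w : leechLattice, gPerm (v + w) = gPerm v + gPerm w) ∧
    ∀ v : leechLattice, sqNorm ((gPerm v : leechLattice) : GolayPt → ℤ) = sqNorm (v : GolayPt → ℤ)
  refine ⟨fun v w => ?_, fun v => ?_⟩
  · apply Subtype.ext
    show Gfun ((v + w : leechLattice) : GolayPt → ℤ) = Gfun v + Gfun w
    rw [AddSubgroup.coe_add, Gfun_add]
  · exact sqNorm_Gfun v

def negPerm : Equiv.Perm leechLattice := Equiv.neg leechLattice

theorem negPerm_mem : negPerm ∈ Co0 := by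
  show (∀ v w : leechLattice, negPerm (v + w) = negPerm v + negPerm w) ∧
    ∀ v : leechLattice, sqNorm ((negPerm v : leechLattice) : GolayPt → ℤ) = sqNorm (v : GolayPt → ℤ)
  refine ⟨fun v w => ?_, fun v => ?_⟩
  · show -(v + w) = -v + -w
    exact neg_add v w
  · show sqNorm (-(v : GolayPt → ℤ)) = sqNorm (v : GolayPt → ℤ)
    simp [sqNorm]

/-- The automorphism group of the Leech lattice contains the negation map, and the subgroup of order 2 it generates has no complement: the automorphism group is a non-split extension of its quotient by that subgroup (it is not the direct product of a group of order 2 with the first Conway group). -/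
theorem result :
    ∃ n : ↥Cfsg.Co0, (∀ v : ↥Cfsg.leechLattice, ((n • v : ↥Cfsg.leechLattice) : Cfsg.GolayPt → ℤ) = -(v : Cfsg.GolayPt → ℤ)) ∧
    ∀ K : Subgroup ↥Cfsg.Co0, ¬ (Subgroup.zpowers n).IsComplement' K := by
  refine ⟨⟨negPerm, negPerm_mem⟩, fun v => rfl, ?_⟩
  intro K hK
  set n : Co0 := ⟨negPerm, negPerm_mem⟩ with hn
  set g : Co0 := ⟨gPerm, gPerm_mem⟩ with hg
  have hgg : g * g = n := by
    apply Subtype.ext
    apply Equiv.ext
    intro v
    apply Subtype.ext
    show Gfun (Gfun v) = -(v : GolayPt → ℤ)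
    exact Gfun_Gfun v
  have hnn : n * n = 1 := by
    apply Subtype.ext
    apply Equiv.ext
    intro v
    show - -v = v
    exact neg_neg v
  have hcentral : ∀ f : Co0, n * f = f * n := by
    intro f
    apply Subtype.ext
    apply Equiv.ext
    intro v
    show -(f.1 v) = f.1 (-v)
    have hadd := f.2.1
    have h0 : f.1 0 = 0 := by
      have := hadd 0 0
      rw [add_zero] at this
      exact left_eq_add.mp this
    have h1 := hadd v (-v)
    rw [add_neg_cancel, h0] at h1
    exact neg_eq_of_add_eq_zero_right h1.symm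
  obtain ⟨⟨⟨h, hh⟩, ⟨k, hk⟩⟩, hprod⟩ := hK.2 g
  simp only at hprod
  have hh' : h ∈ Subgroup.zpowers n := hh
  have hk' : k ∈ K := hk
  obtain ⟨j, rfl⟩ := Subgroup.mem_zpowers_iff.mp hh'
  have hcomm : n ^ j * k = k * n ^ j := ((show Commute n k from hcentral k).zpow_left j)
  have hh2 : n ^ j * n ^ j = 1 := by
    rw [← zpow_add, ← two_mul, zpow_mul, zpow_two, hnn, one_zpow]
  have hnk : n = k * k := by
    rw [← hgg, ← hprod]
    calc n ^ j * k * (n ^ j * k) = n ^ j * (k * n ^ j) * k := by group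
      _ = n ^ j * (n ^ j * k) * k := by rw [hcomm]
      _ = (n ^ j * n ^ j) * (k * k) := by group
      _ = k * k := by rw [hh2, one_mul]
  have hnK : n ∈ K := by
    rw [hnk]
    exact K.mul_mem hk' hk'
  have hn1 : n = 1 :=
    Subgroup.disjoint_def.mp hK.disjoint (Subgroup.mem_zpowers n) hnK
  have h2 := congrArg (fun f : Co0 => ((f.1 Spor.leechU : leechLattice) : GolayPt → ℤ) none) hn1
  revert h2
  show ¬ (-(Spor.vecU none) = Spor.vecU none)
  decide


end Cfsg.Agent.S5594
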