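import Cfsg.Statements.S5599
import Mathlib
import Cfsg.Agent.Lib.Helper28.M24Trans

set_option autoImplicit false
open scoped Pointwise
open Cfsg

namespace Cfsg.Agent.S5599

open Cfsg.Agent.Lib.Helper3.Golay Cfsg.Agent.Lib.Helper28.M24Trans
open scoped Pointwise

theorem mem_M22 {x : Equiv.Perm GolayPt} :
    x ∈ Spor.M22 ↔ x ∈ M24 ∧ x none = none ∧ x (some 0) = some 0 := by
  constructor
  · rintro ⟨⟨h1, h2⟩, h3⟩
    exact ⟨h1, h2, h3⟩
  · rintro ⟨h1, h2, h3⟩
    exact ⟨⟨h1, h2⟩, h3⟩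

theorem exists_other : ∀ p q : GolayPt, ∃ r : GolayPt, r ≠ none ∧ r ≠ some 0 ∧ r ≠ p ∧ r ≠ q := by
  decide +kernel

theorem exists_move (p q : GolayPt) (hp1 : p ≠ none) (hp2 : p ≠ some 0) (hq1 : q ≠ none)
    (hq2 : q ≠ some 0) (hpq : p ≠ q) : ∃ x ∈ Spor.M22, x p = p ∧ x q ≠ q := by
  obtain ⟨r, hr1, hr2, hr3, hr4⟩ := exists_other p q
  obtain ⟨a, ha, a1, a2, a3, a4, a5⟩ := trans5 none (some 0) p q r (by
    simp only [List.nodup_cons, List.mem_cons, List.not_mem_nil, or_false, not_or,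
      List.nodup_nil, and_true, not_false_eq_true]
    refine ⟨⟨by decide, hp1.symm, hq1.symm, hr1.symm⟩, ⟨hp2.symm, hq2.symm, hr2.symm⟩,
      ⟨hpq, hr3.symm⟩, hr4.symm⟩)
  obtain ⟨b, hb, b1, b2, b3, b4, b5⟩ := trans5 none (some 0) p r q (by
    simp only [List.nodup_cons, List.mem_cons, List.not_mem_nil, or_false, not_or,
      List.nodup_nil, and_true, not_false_eq_true]
    refine ⟨⟨by decide, hp1.symm, hr1.symm, hq1.symm⟩, ⟨hp2.symm, hr2.symm, hq2.symm⟩,
      ⟨hr3.symm, hpq⟩, hr4⟩)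
  refine ⟨b⁻¹ * a, mem_M22.mpr ⟨M24.mul_mem (M24.inv_mem hb) ha, ?_, ?_⟩, ?_, ?_⟩
  · rw [Equiv.Perm.mul_apply, Equiv.Perm.inv_eq_iff_eq, a1, b1]
  · rw [Equiv.Perm.mul_apply, Equiv.Perm.inv_eq_iff_eq, a2, b2]
  · rw [Equiv.Perm.mul_apply, Equiv.Perm.inv_eq_iff_eq, a3, b3]
  · rw [Equiv.Perm.mul_apply, Ne, Equiv.Perm.inv_eq_iff_eq, a4, ← b4]
    exact fun e => hr4 (b.injective e)

theorem no_transp (c : Equiv.Perm GolayPt) (hc : c ∈ M24) (h1 : c none = some 0)
    (h : ∀ p : GolayPt, p ≠ none → p ≠ some 0 → c p = p) : False := by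
  have hF : fixesM c 8388606 := by
    intro p hp
    apply h p
    · rintro rfl
      revert hp
      decide
    · rintro rfl
      revert hp
      decide
  have e := inv_of_five hc (k := 2073) (by decide +kernel) hF (by decide +kernel)
  have m : (none : GolayPt) ∈ supp 2073 := by
    rw [mem_supp]
    decide +kernel
  have m2 := apply_mem_supp e m
  rw [h1, mem_supp] at m2
  revert m2
  decide +kernel

/-- In the automorphism group of the length-24 code, the two-point Mathieu group (permutations of the code's group fixing the extra point and the residue 0) has index 2 in the setwise stabiliser of that pair of points, and an element of the code's group interchanging the two points normalises the two-point group and induces on it, by conjugation, an automorphism that is not inner. -/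
theorem result (g : Equiv.Perm Cfsg.GolayPt) (hg : g ∈ Cfsg.M24) (h₁ : g none = some 0) (h₂ : g (some 0) = none) : Cfsg.Spor.M22.relIndex (Cfsg.M24 ⊓ MulAction.stabilizer (Equiv.Perm Cfsg.GolayPt) ({none, some 0} : Finset Cfsg.GolayPt)) = 2 ∧ (∀ x ∈ Cfsg.Spor.M22, g * x * g⁻¹ ∈ Cfsg.Spor.M22) ∧ ¬ ∃ h ∈ Cfsg.Spor.M22, ∀ x ∈ Cfsg.Spor.M22, g * x * g⁻¹ = h * x * h⁻¹ := by
  have gi1 : g⁻¹ none = some 0 := by rw [Equiv.Perm.inv_eq_iff_eq, h₂]
  have gi2 : g⁻¹ (some 0) = none := by rw [Equiv.Perm.inv_eq_iff_eq, h₁]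
  refine ⟨?_, ?_, ?_⟩
  · rw [Subgroup.relIndex_eq_two_iff_exists_notMem_and]
    refine ⟨g, ?_, ?_, ?_⟩
    · rw [Subgroup.mem_inf]
      refine ⟨hg, ?_⟩
      rw [MulAction.mem_stabilizer_iff, Finset.smul_finset_insert, Finset.smul_finset_singleton, Equiv.Perm.smul_def,
        Equiv.Perm.smul_def, h₁, h₂, Finset.pair_comm]
    · intro hm
      have := (mem_M22.mp hm).2.1
      rw [h₁] at this
      exact absurd this (by decide)
    · intro b hb
      rw [Subgroup.mem_inf] at hb
      obtain ⟨hb1, hb2⟩ := hb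
      rw [MulAction.mem_stabilizer_iff] at hb2
      have m1 : b none ∈ ({none, some 0} : Finset GolayPt) := by
        have : b • (none : GolayPt) ∈ b • ({none, some 0} : Finset GolayPt) :=
          Finset.smul_mem_smul_finset (by simp)
        rw [hb2] at this
        exact this
      have m2 : b (some 0) ∈ ({none, some 0} : Finset GolayPt) := by
        have : b • (some 0 : GolayPt) ∈ b • ({none, some 0} : Finset GolayPt) :=
          Finset.smul_mem_smul_finset (by simp)
        rw [hb2] at this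
        exact this
      rw [Finset.mem_insert, Finset.mem_singleton] at m1 m2
      have hne : b none ≠ b (some 0) := fun e => absurd (b.injective e) (by decide)
      rcases m1 with m1 | m1
      · rcases m2 with m2 | m2
        · exact absurd (m1.trans m2.symm) hne
        · right
          exact mem_M22.mpr ⟨hb1, m1, m2⟩
      · rcases m2 with m2 | m2
        · left
          refine mem_M22.mpr ⟨M24.mul_mem hb1 hg, ?_, ?_⟩
          · rw [Equiv.Perm.mul_apply, h₁, m2]
          · rw [Equiv.Perm.mul_apply, h₂, m1]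
        · exact absurd (m1.trans m2.symm) hne
  · intro x hx
    obtain ⟨hx1, hx2, hx3⟩ := mem_M22.mp hx
    refine mem_M22.mpr ⟨M24.mul_mem (M24.mul_mem hg hx1) (M24.inv_mem hg), ?_, ?_⟩
    · rw [Equiv.Perm.mul_apply, Equiv.Perm.mul_apply, gi1, hx3, h₂]
    · rw [Equiv.Perm.mul_apply, Equiv.Perm.mul_apply, gi2, hx2, h₁]
  · rintro ⟨h, hh, hcomm⟩
    obtain ⟨hh1, hh2, hh3⟩ := mem_M22.mp hh
    have hi2 : h⁻¹ none = none := by rw [Equiv.Perm.inv_eq_iff_eq, hh2]
    have hi3 : h⁻¹ (some 0) = some 0 := by rw [Equiv.Perm.inv_eq_iff_eq, hh3]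
    have c1 : (h⁻¹ * g) none = some 0 := by rw [Equiv.Perm.mul_apply, h₁, hi3]
    have c2 : (h⁻¹ * g) (some 0) = none := by rw [Equiv.Perm.mul_apply, h₂, hi2]
    have hc : h⁻¹ * g ∈ M24 := M24.mul_mem (M24.inv_mem hh1) hg
    have hcm : ∀ x ∈ Spor.M22, (h⁻¹ * g) * x = x * (h⁻¹ * g) := by
      intro x hx
      have e := hcomm x hx
      have e2 : g * x = h * x * h⁻¹ * g := by
        rw [← e]
        group
      calc (h⁻¹ * g) * x = h⁻¹ * (g * x) := by group
        _ = h⁻¹ * (h * x * h⁻¹ * g) := by rw [e2]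
        _ = x * (h⁻¹ * g) := by group
    generalize h⁻¹ * g = c at c1 c2 hc hcm
    apply no_transp c hc c1
    intro p hp1 hp2
    by_contra hne
    have hq1 : c p ≠ none := by
      rw [← c2]
      exact fun e => hp2 (c.injective e)
    have hq2 : c p ≠ some 0 := by
      rw [← c1]
      exact fun e => hp1 (c.injective e)
    obtain ⟨x, hx, x1, x2⟩ := exists_move p (c p) hp1 hp2 hq1 hq2 (Ne.symm hne)
    apply x2
    have e := congrArg (fun f : Equiv.Perm GolayPt => f p) (hcm x hx)
    simp only [Equiv.Perm.mul_apply] at e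
    rw [x1] at e
    exact e.symm


end Cfsg.Agent.S5599
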