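import Cfsg.Statements.S5600
import Mathlib
import Cfsg.Agent.Lib.Helper28.M24Trans
import Cfsg.Agent.Lib.Helper28.M24Six

set_option autoImplicit false
open scoped Pointwise
open Cfsg

namespace Cfsg.Agent.S5600

open Cfsg.Agent.Lib.Helper3.Golay Cfsg.Agent.Lib.Helper28.M24Trans Cfsg.Agent.Lib.Helper28.M24Six
open scoped Pointwise

theorem stab_mem (E : Finset GolayPt) (s : MulAction.stabilizer M24 E) (x : GolayPt) :
    (s.1.1 x ∈ E) ↔ x ∈ E := by
  have h : s.1 • E = E := s.2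
  have h2 : s.1 • x ∈ s.1 • E ↔ x ∈ E := Finset.smul_mem_smul_finset_iff _
  rw [h] at h2
  exact h2

def restr (E : Finset GolayPt) : MulAction.stabilizer M24 E →* Equiv.Perm {x // x ∈ E} where
  toFun s := Equiv.Perm.subtypePerm s.1.1 (stab_mem E s)
  map_one' := rfl
  map_mul' _ _ := rfl

theorem card_stab (E : Finset GolayPt) (hE : E.card = 6)
    (hA : ∀ σ : Equiv.Perm ↥E, ∃ g ∈ Cfsg.M24, ∀ p : ↥E, g p = σ p)
    (h3 : Nat.card {g : Equiv.Perm Cfsg.GolayPt // g ∈ Cfsg.M24 ∧ ∀ p ∈ E, g p = p} = 3) :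
    Nat.card ↥(MulAction.stabilizer Cfsg.M24 E) = 2160 := by
  have hsurj : Function.Surjective (restr E) := by
    intro σ
    obtain ⟨g, hg, hgσ⟩ := hA σ
    have hst : (⟨g, hg⟩ : M24) • E = E := by
      apply Finset.eq_of_subset_of_card_le
      · intro x hx
        obtain ⟨y, hy, rfl⟩ := Finset.mem_smul_finset.mp hx
        have := hgσ ⟨y, hy⟩
        change g y ∈ E
        rw [this]
        exact (σ ⟨y, hy⟩).2
      · rw [Finset.card_smul_finset]
    refine ⟨⟨⟨g, hg⟩, hst⟩, ?_⟩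
    apply Equiv.ext
    intro p
    apply Subtype.ext
    exact hgσ p
  have e1 := Subgroup.card_mul_index (restr E).ker
  have hc : Nat.card ↥E = 6 := by rw [Nat.card_eq_fintype_card, Fintype.card_coe, hE]
  rw [Subgroup.index_ker, MonoidHom.range_eq_top.mpr hsurj, Subgroup.card_top, Nat.card_perm,
    hc] at e1
  have e2 : Nat.card (restr E).ker =
      Nat.card {g : Equiv.Perm Cfsg.GolayPt // g ∈ Cfsg.M24 ∧ ∀ p ∈ E, g p = p} := by
    apply Nat.card_congr
    exact
      { toFun := fun k => ⟨k.1.1.1, k.1.1.2, fun p hp => by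
          have h1 : restr E k.1 = 1 := k.2
          have h2 := congrArg (fun f : Equiv.Perm {x // x ∈ E} => (f ⟨p, hp⟩ : GolayPt)) h1
          exact h2⟩
        invFun := fun g => ⟨⟨⟨g.1, g.2.1⟩, by
            rw [MulAction.mem_stabilizer_iff]
            apply Finset.eq_of_subset_of_card_le
            · intro x hx
              obtain ⟨y, hy, rfl⟩ := Finset.mem_smul_finset.mp hx
              change g.1 y ∈ E
              rw [g.2.2 y hy]
              exact hy
            · rw [Finset.card_smul_finset]⟩, by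
            rw [MonoidHom.mem_ker]
            apply Equiv.ext
            intro p
            apply Subtype.ext
            exact g.2.2 p.1 p.2⟩
        left_inv := fun k => rfl
        right_inv := fun g => rfl }
  rw [e2, h3] at e1
  rw [← e1]
  decide

/-- Although the group of the length-24 code is only 5-transitive on the 24 points, it induces the full symmetric group on every 6-element subset: every permutation of a 6-set E is the restriction of an element of the group mapping E to itself. The pointwise stabiliser of E has order 16 when E lies in an octad and order 3 otherwise; in the latter case the setwise stabiliser of E has order 2160. -/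
theorem result (E : Finset Cfsg.GolayPt) (hE : E.card = 6) : (∀ σ : Equiv.Perm ↥E, ∃ g ∈ Cfsg.M24, ∀ p : ↥E, g p = σ p) ∧ ((∃ o ∈ Cfsg.octads, E ⊆ o) → Nat.card {g : Equiv.Perm Cfsg.GolayPt // g ∈ Cfsg.M24 ∧ ∀ p ∈ E, g p = p} = 16) ∧ ((¬ ∃ o ∈ Cfsg.octads, E ⊆ o) → Nat.card {g : Equiv.Perm Cfsg.GolayPt // g ∈ Cfsg.M24 ∧ ∀ p ∈ E, g p = p} = 3 ∧ Nat.card ↥(MulAction.stabilizer Cfsg.M24 E) = 2160) := by
  obtain ⟨x₁, x₂, x₃, x₄, x₅, x₆, hl⟩ := list6 E.toList (by rw [Finset.length_toList, hE])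
  have hnd : [x₁, x₂, x₃, x₄, x₅, x₆].Nodup := hl ▸ E.nodup_toList
  have hmem : ∀ b, b ∈ E ↔ b ∈ [x₁, x₂, x₃, x₄, x₅, x₆] := by
    intro b
    rw [← hl, Finset.mem_toList]
  have hoct : (∃ o ∈ octads, E ⊆ o) ↔ ∃ o ∈ octads, ∀ x ∈ [x₁, x₂, x₃, x₄, x₅, x₆], x ∈ o := by
    constructor
    · rintro ⟨o, ho, h⟩
      exact ⟨o, ho, fun x hx => h ((hmem x).mpr hx)⟩
    · rintro ⟨o, ho, h⟩
      exact ⟨o, ho, fun x hx => h x ((hmem x).mp hx)⟩
  obtain ⟨h, hh, e1, e2, e3, e4, e5, e6⟩ := norm6 x₁ x₂ x₃ x₄ x₅ x₆ hnd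
  have hA : ∀ σ : Equiv.Perm ↥E, ∃ g ∈ Cfsg.M24, ∀ p : ↥E, g p = σ p := by
    intro σ
    let f : GolayPt → GolayPt := fun p => if hp : p ∈ E then (σ ⟨p, hp⟩ : GolayPt) else p
    have hf : ∀ p (hp : p ∈ E), f p = σ ⟨p, hp⟩ := fun p hp => dif_pos hp
    have hfE : ∀ p ∈ E, f p ∈ E := fun p hp => by
      rw [hf p hp]
      exact (σ ⟨p, hp⟩).2
    have hfinj : ∀ p ∈ E, ∀ q ∈ E, f p = f q → p = q := by
      intro p hp q hq e
      rw [hf p hp, hf q hq] at e
      have := σ.injective (Subtype.ext e)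
      exact congrArg Subtype.val this
    have hfsurj : ∀ q ∈ E, ∃ p ∈ E, f p = q := by
      intro q hq
      refine ⟨(σ.symm ⟨q, hq⟩ : GolayPt), (σ.symm ⟨q, hq⟩).2, ?_⟩
      rw [hf _ (σ.symm ⟨q, hq⟩).2]
      simp
    have hnd' : [f x₁, f x₂, f x₃, f x₄, f x₅, f x₆].Nodup :=
      List.Nodup.map_on (f := f)
        (fun x hx y hy e => hfinj x ((hmem x).mpr hx) y ((hmem y).mpr hy) e) hnd
    have hoct' : (∃ o ∈ octads, ∀ x ∈ [x₁, x₂, x₃, x₄, x₅, x₆], x ∈ o) ↔
        ∃ o ∈ octads, ∀ y ∈ [f x₁, f x₂, f x₃, f x₄, f x₅, f x₆], y ∈ o := by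
      constructor
      · rintro ⟨o, ho, h⟩
        refine ⟨o, ho, ?_⟩
        intro y hy
        have hy' : y ∈ [x₁, x₂, x₃, x₄, x₅, x₆].map f := hy
        obtain ⟨x, hx, rfl⟩ := List.mem_map.mp hy'
        exact h _ ((hmem _).mp (hfE x ((hmem x).mpr hx)))
      · rintro ⟨o, ho, h⟩
        refine ⟨o, ho, ?_⟩
        intro x hx
        obtain ⟨p, hp, rfl⟩ := hfsurj x ((hmem x).mpr hx)
        have hm : f p ∈ [x₁, x₂, x₃, x₄, x₅, x₆].map f :=
          List.mem_map.mpr ⟨p, (hmem p).mp hp, rfl⟩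
        exact h _ hm
    obtain ⟨h', hh', e1', e2', e3', e4', e5', e6'⟩ :=
      norm6 (f x₁) (f x₂) (f x₃) (f x₄) (f x₅) (f x₆) hnd'
    have e66 : h x₆ = h' (f x₆) := by
      rcases e6 with ⟨a, b⟩ | ⟨a, b⟩
      · rcases e6' with ⟨a', b'⟩ | ⟨a', b'⟩
        · rw [a, a']
        · exact absurd (hoct'.mp b) b'
      · rcases e6' with ⟨a', b'⟩ | ⟨a', b'⟩
        · exact absurd (hoct'.mpr b') b
        · rw [a, a']
    refine ⟨h'⁻¹ * h, M24.mul_mem (M24.inv_mem hh') hh, ?_⟩
    intro p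
    have hp := (hmem p.1).mp p.2
    have key : (h'⁻¹ * h) p.1 = f p.1 := by
      rw [Equiv.Perm.mul_apply, Equiv.Perm.inv_eq_iff_eq]
      simp only [List.mem_cons, List.not_mem_nil, or_false] at hp
      rcases hp with hp | hp | hp | hp | hp | hp <;> rw [hp]
      · rw [e1, e1']
      · rw [e2, e2']
      · rw [e3, e3']
      · rw [e4, e4']
      · rw [e5, e5']
      · exact e66
    rw [key, hf p.1 p.2]
  have hEl : ∀ (i : ℕ), h x₆ = pt i → ∀ p, p ∈ E ↔ ∃ f ∈ [i, 3, 2, 1, 0, 23], h p = pt f := by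
    intro i hi p
    rw [hmem]
    simp only [List.mem_cons, List.not_mem_nil, or_false]
    constructor
    · rintro (rfl | rfl | rfl | rfl | rfl | rfl)
      · exact ⟨23, by simp, e1⟩
      · exact ⟨0, by simp, e2⟩
      · exact ⟨1, by simp, e3⟩
      · exact ⟨2, by simp, e4⟩
      · exact ⟨3, by simp, e5⟩
      · exact ⟨i, by simp, hi⟩
    · rintro ⟨f, hf, e⟩
      rcases hf with rfl | rfl | rfl | rfl | rfl | rfl
      · right; right; right; right; right
        exact h.injective (e.trans hi.symm)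
      · right; right; right; right; left
        exact h.injective (e.trans e5.symm)
      · right; right; right; left
        exact h.injective (e.trans e4.symm)
      · right; right; left
        exact h.injective (e.trans e3.symm)
      · right; left
        exact h.injective (e.trans e2.symm)
      · left
        exact h.injective (e.trans e1.symm)
  refine ⟨hA, ?_, ?_⟩
  · intro ho
    rcases e6 with ⟨a, b⟩ | ⟨a, b⟩
    · rw [conj_card hh E [5, 3, 2, 1, 0, 23] (hEl 5 a), card_fix6]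
    · exact absurd (hoct.mp ho) b
  · intro hno
    rcases e6 with ⟨a, b⟩ | ⟨a, b⟩
    · exact absurd (hoct.mpr b) hno
    · have c3 : Nat.card {g : Equiv.Perm Cfsg.GolayPt // g ∈ Cfsg.M24 ∧ ∀ p ∈ E, g p = p} = 3 := by
        rw [conj_card hh E [4, 3, 2, 1, 0, 23] (hEl 4 a), card_fix4]
      exact ⟨c3, card_stab E hE hA c3⟩


end Cfsg.Agent.S5600
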