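import Cfsg.Statements.S5601
import Mathlib
import Cfsg.Agent.Lib.Helper28.M24Class

set_option autoImplicit false
open scoped Pointwise
open Cfsg

namespace Cfsg.Agent.S5601

open Cfsg.Agent.Lib.Helper3.Golay Cfsg.Agent.Lib.Helper3.Golay2
  Cfsg.Agent.Lib.Helper28.M24Trans Cfsg.Agent.Lib.Helper28.M24Six
  Cfsg.Agent.Lib.Helper28.M24Enum Cfsg.Agent.Lib.Helper28.M24Class
open scoped Pointwise

theorem gen3 (X : Subgroup ↥M24) (h : Nat.card X = 3) :
    ∃ x : ↥M24, X = Subgroup.zpowers x ∧ x ≠ 1 ∧ x * x * x = 1 := by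
  have hfin : Finite X := Nat.finite_of_card_ne_zero (by omega)
  have hne : X ≠ ⊥ := by
    rintro rfl
    rw [Subgroup.card_bot] at h
    omega
  obtain ⟨x, hx1⟩ := (Subgroup.ne_bot_iff_exists_ne_one.mp hne)
  have hd : orderOf (x : ↥M24) ∣ 3 := by
    rw [← h]
    exact Subgroup.orderOf_dvd_natCard X x.2
  have ho : orderOf (x : ↥M24) = 3 := by
    rcases (Nat.dvd_prime (by norm_num : Nat.Prime 3)).mp hd with h1 | h3
    · exfalso
      apply hx1
      have := orderOf_eq_one_iff.mp h1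
      exact Subtype.ext this
    · exact h3
  refine ⟨x, ?_, ?_, ?_⟩
  · symm
    apply Subgroup.eq_of_le_of_card_ge
    · rw [Subgroup.zpowers_le]
      exact x.2
    · rw [Nat.card_zpowers, ho, h]
  · intro e
    apply hx1
    exact Subtype.ext e
  · rw [← pow_three', ← ho, pow_orderOf_eq_one]

theorem fixset (x : ↥M24) :
    {p : GolayPt | ∀ y ∈ Subgroup.zpowers x, ((y : ↥M24) : Equiv.Perm GolayPt) p = p} =
      ↑(fixF (x : Equiv.Perm GolayPt)) := by
  ext p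
  simp only [Set.mem_ofPred_eq, Finset.mem_coe, mem_fixF]
  constructor
  · intro h
    exact h x (Subgroup.mem_zpowers x)
  · intro h y hy
    obtain ⟨k, rfl⟩ := Subgroup.mem_zpowers_iff.mp hy
    rw [Subgroup.coe_zpow]
    exact Equiv.Perm.zpow_apply_eq_self_of_apply_eq_self h k

theorem conj_zpowers (k x : ↥M24) :
    MulAut.conj k • Subgroup.zpowers x = Subgroup.zpowers (k * x * k⁻¹) := by
  show Subgroup.map (MulAut.conj k).toMonoidHom (Subgroup.zpowers x) = _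
  rw [MonoidHom.map_zpowers]
  rfl

theorem coe3 (x : ↥M24) (h : x * x * x = 1) :
    (x : Equiv.Perm GolayPt) * (x : Equiv.Perm GolayPt) * (x : Equiv.Perm GolayPt) = 1 := by
  have := congrArg (Subtype.val) h
  exact this

theorem coe_ne (x : ↥M24) (h : x ≠ 1) : (x : Equiv.Perm GolayPt) ≠ 1 := by
  intro e
  exact h (Subtype.ext e)

theorem X3A_cube : P X3A * P X3A * P X3A = 1 :=
  isIdx_eq (isIdx_mul (isIdx_mul (isIdx_P X3A_vld) (isIdx_P X3A_vld)) (isIdx_P X3A_vld)) isIdx_one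
    (by decide +kernel)

theorem X3B_cube : P X3B * P X3B * P X3B = 1 :=
  isIdx_eq (isIdx_mul (isIdx_mul (isIdx_P X3B_vld) (isIdx_P X3B_vld)) (isIdx_P X3B_vld)) isIdx_one
    (by decide +kernel)

theorem X3A_fix : (fixF (P X3A)).card = 6 := by
  rw [card_fixF (isIdx_P X3A_vld)]
  decide +kernel

theorem X3B_fix : (fixF (P X3B)).card = 0 := by
  rw [card_fixF (isIdx_P X3B_vld)]
  decide +kernel

theorem card_zp (x : ↥M24) (h1 : x ≠ 1) (h3 : x * x * x = 1) :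
    Nat.card (Subgroup.zpowers x) = 3 := by
  rw [Nat.card_zpowers]
  have hd : orderOf x ∣ 3 := orderOf_dvd_of_pow_eq_one (by rw [pow_three', h3])
  rcases (Nat.dvd_prime (by norm_num : Nat.Prime 3)).mp hd with h | h
  · exact absurd (orderOf_eq_one_iff.mp h) h1
  · exact h

theorem to_rep (x : ↥M24) (h1 : x ≠ 1) (h3 : x * x * x = 1) :
    (∃ a, (x : Equiv.Perm GolayPt) a = a) →
      ∃ c : ↥M24, MulAut.conj c • Subgroup.zpowers x = Subgroup.zpowers ⟨P X3A, X3A_mem⟩ := by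
  rintro ⟨a, ha⟩
  obtain ⟨c, hc, e⟩ := ord3_conj_3A x.2 (coe3 x h3) (coe_ne x h1) ha
  refine ⟨⟨c, hc⟩, ?_⟩
  rw [conj_zpowers]
  rcases e with e | e
  · congr 1
    exact Subtype.ext e
  · rw [← Subgroup.zpowers_inv]
    congr 1
    apply Subtype.ext
    simp only [InvMemClass.coe_inv, Subgroup.coe_mul]
    rw [e, inv_inv]

theorem to_repB (x : ↥M24) (h3 : x * x * x = 1) (hf : ∀ a, (x : Equiv.Perm GolayPt) a ≠ a) :
    ∃ c : ↥M24, MulAut.conj c • Subgroup.zpowers x = Subgroup.zpowers ⟨P X3B, X3B_mem⟩ := by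
  obtain ⟨c, hc, e⟩ := ord3_conj_3B x.2 (coe3 x h3) hf
  refine ⟨⟨c, hc⟩, ?_⟩
  rw [conj_zpowers]
  congr 1
  exact Subtype.ext e

theorem conj_of_reps {X Y R : Subgroup ↥M24} (c d : ↥M24) (hc : MulAut.conj c • X = R)
    (hd : MulAut.conj d • Y = R) : ∃ k : ↥M24, MulAut.conj k • X = Y := by
  refine ⟨d⁻¹ * c, ?_⟩
  rw [map_mul, mul_smul, hc, ← hd, map_inv, inv_smul_smul]

/-- The group of the length-24 code has exactly two conjugacy classes of subgroups of order 3: a subgroup of order 3 fixes either exactly 6 of the 24 points or none of them, both cases occur, and two subgroups of order 3 with the same number of fixed points are conjugate. -/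
theorem result : (∀ X : Subgroup ↥Cfsg.M24, Nat.card X = 3 → {p : Cfsg.GolayPt | ∀ x ∈ X, ((x : ↥Cfsg.M24) : Equiv.Perm Cfsg.GolayPt) p = p}.ncard = 6 ∨ {p : Cfsg.GolayPt | ∀ x ∈ X, ((x : ↥Cfsg.M24) : Equiv.Perm Cfsg.GolayPt) p = p}.ncard = 0) ∧ (∃ X : Subgroup ↥Cfsg.M24, Nat.card X = 3 ∧ {p : Cfsg.GolayPt | ∀ x ∈ X, ((x : ↥Cfsg.M24) : Equiv.Perm Cfsg.GolayPt) p = p}.ncard = 6) ∧ (∃ X : Subgroup ↥Cfsg.M24, Nat.card X = 3 ∧ {p : Cfsg.GolayPt | ∀ x ∈ X, ((x : ↥Cfsg.M24) : Equiv.Perm Cfsg.GolayPt) p = p}.ncard = 0) ∧ ∀ X Y : Subgroup ↥Cfsg.M24, Nat.card X = 3 → Nat.card Y = 3 → {p : Cfsg.GolayPt | ∀ x ∈ X, ((x : ↥Cfsg.M24) : Equiv.Perm Cfsg.GolayPt) p = p}.ncard = {p : Cfsg.GolayPt | ∀ x ∈ Y, ((x : ↥Cfsg.M24) : Equiv.Perm Cfsg.GolayPt) p = p}.ncard → ∃ k : ↥Cfsg.M24, MulAut.conj k • X = Y := by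
  have hA1 : (⟨P X3A, X3A_mem⟩ : ↥M24) ≠ 1 := by
    intro e
    have e' : P X3A = 1 := congrArg Subtype.val e
    have := X3A_fix
    rw [e'] at this
    have h24 : (fixF (1 : Equiv.Perm GolayPt)).card = 24 := by
      unfold fixF
      simp [card_golayPt]
    omega
  have hA3 : (⟨P X3A, X3A_mem⟩ : ↥M24) * ⟨P X3A, X3A_mem⟩ * ⟨P X3A, X3A_mem⟩ = 1 :=
    Subtype.ext X3A_cube
  have hB1 : (⟨P X3B, X3B_mem⟩ : ↥M24) ≠ 1 := by
    intro e
    have e' : P X3B = 1 := congrArg Subtype.val e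
    have := X3B_fix
    rw [e'] at this
    have h24 : (fixF (1 : Equiv.Perm GolayPt)).card = 24 := by
      unfold fixF
      simp [card_golayPt]
    omega
  have hB3 : (⟨P X3B, X3B_mem⟩ : ↥M24) * ⟨P X3B, X3B_mem⟩ * ⟨P X3B, X3B_mem⟩ = 1 :=
    Subtype.ext X3B_cube
  refine ⟨?_, ?_, ?_, ?_⟩
  · intro X hX
    obtain ⟨x, rfl, h1, h3⟩ := gen3 X hX
    rw [fixset, Set.ncard_coe_finset]
    by_cases hfix : ∃ a, (x : Equiv.Perm GolayPt) a = a
    · obtain ⟨a, ha⟩ := hfix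
      left
      exact (ord3_fix x.2 (coe3 x h3) (coe_ne x h1) ha).1
    · right
      rw [Finset.card_eq_zero, Finset.eq_empty_iff_forall_notMem]
      intro p hp
      exact hfix ⟨p, mem_fixF.mp hp⟩
  · refine ⟨Subgroup.zpowers ⟨P X3A, X3A_mem⟩, card_zp _ hA1 hA3, ?_⟩
    rw [fixset, Set.ncard_coe_finset]
    exact X3A_fix
  · refine ⟨Subgroup.zpowers ⟨P X3B, X3B_mem⟩, card_zp _ hB1 hB3, ?_⟩
    rw [fixset, Set.ncard_coe_finset]
    exact X3B_fix
  · intro X Y hX hY hXY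
    obtain ⟨x, rfl, hx1, hx3⟩ := gen3 X hX
    obtain ⟨y, rfl, hy1, hy3⟩ := gen3 Y hY
    rw [fixset, fixset, Set.ncard_coe_finset, Set.ncard_coe_finset] at hXY
    by_cases hfix : ∃ a, (x : Equiv.Perm GolayPt) a = a
    · have h6 : (fixF (x : Equiv.Perm GolayPt)).card = 6 := by
        obtain ⟨a, ha⟩ := hfix
        exact (ord3_fix x.2 (coe3 x hx3) (coe_ne x hx1) ha).1
      have hfy : ∃ a, (y : Equiv.Perm GolayPt) a = a := by
        have : 0 < (fixF (y : Equiv.Perm GolayPt)).card := by omega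
        obtain ⟨a, ha⟩ := Finset.card_pos.mp this
        exact ⟨a, mem_fixF.mp ha⟩
      obtain ⟨c, hc⟩ := to_rep x hx1 hx3 hfix
      obtain ⟨d, hd⟩ := to_rep y hy1 hy3 hfy
      exact conj_of_reps c d hc hd
    · have h0 : (fixF (x : Equiv.Perm GolayPt)).card = 0 := by
        rw [Finset.card_eq_zero, Finset.eq_empty_iff_forall_notMem]
        intro p hp
        exact hfix ⟨p, mem_fixF.mp hp⟩
      have hfx : ∀ a, (x : Equiv.Perm GolayPt) a ≠ a := fun a ha => hfix ⟨a, ha⟩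
      have hfy : ∀ a, (y : Equiv.Perm GolayPt) a ≠ a := by
        intro a ha
        have : a ∈ fixF (y : Equiv.Perm GolayPt) := mem_fixF.mpr ha
        have := Finset.card_pos.mpr ⟨a, this⟩
        omega
      obtain ⟨c, hc⟩ := to_repB x hx3 hfx
      obtain ⟨d, hd⟩ := to_repB y hy3 hfy
      exact conj_of_reps c d hc hd


end Cfsg.Agent.S5601
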