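import Cfsg.Statements.S5607
import Mathlib
import Cfsg.Agent.Lib.Helper28.M24Count

set_option autoImplicit false
open scoped Pointwise
open Cfsg

namespace Cfsg.Agent.S5607

open Cfsg.Agent.Lib.Helper3.Golay Cfsg.Agent.Lib.Helper3.Golay2
  Cfsg.Agent.Lib.Helper3.GolayM24 Cfsg.Agent.Lib.Helper3.Steiner
  Cfsg.Agent.Lib.Helper28.M24Trans Cfsg.Agent.Lib.Helper28.M24Six
  Cfsg.Agent.Lib.Helper28.M24Enum Cfsg.Agent.Lib.Helper28.M24Class
  Cfsg.Agent.Lib.Helper28.M24Mask Cfsg.Agent.Lib.Helper28.M24Sext
  Cfsg.Agent.Lib.Helper28.M24Fix Cfsg.Agent.Lib.Helper28.Walk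
  Cfsg.Agent.Lib.Helper28.M24Stab Cfsg.Agent.Lib.Helper28.M24Gen
  Cfsg.Agent.Lib.Helper28.M24Count

def T1 : ℕ := 5447382388983081592886053788877911

def KT1 : ℕ := 72652521090419457951821313177174576996946653028918877244698126397029451188541319536

def U24 : List (ℕ × ℕ) := [(27763144400622035866620183739205687, 68699683289141602291480055498585430090500049427011527174045390763208518589199264932), (69556437119390337041346647971453954, 66246124790465372764829225251047695178551371672529962798670194410699722442023192783), (111890735759189500967275039606037505, 84387005194693910939715074565157068317578881595247713828062813392506154427415187221), (153562337115965182971203829553448389, 85381147535812998224260970776380830740296591887906417647160332821432522913601209969), (173023302941686587561975998957240758, 65699647231831810776194012973920271369204261333308369057559789965956918294394122700), (235858336666536712852351445406598595, 70619314688480791554427700014254756346156249166656006414899534962130111701838356848), (278255986732768529997885394682662133, 75412708988535230051416335930219984713642295025956638112501917364401310726898554790),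 (320063249605673511971237756120618195, 92849571522315907102583359211605881871730328018404031882011392500284661728331965411), (339666481976589696682228802292560242, 71591323407640032112646888761058941343146131904043717402171372539975450772368938586), (401678042914851769772061986117401940, 83653072888044670680118034614908973121622675021431424056782945287713377331973951921), (442863306528044583624571469864915247, 76133731667181253138899648796220613085411912934174097846980262610556593502244111594), (463701767846764679567192260802005260, 83660984501987798106068162505929540379991564542226978964791516827205846806815432852), (527726875428065724760389785185437963, 86598810140720673948000615665343880624015303704783062605324030956368528692660785862), (547108676191723784762672897227511952, 81608604735882549342856878969129266716480560262356609981919644588680693095483373253), (610730776072451139176981671794709617, 84365385139216341529344412613265553032489624175757020028788668821078474873195483700), (630061982296819157970483443059937578, 99462811546369242673470932460215219361191830365446314553639224447866628220300014920),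 (688677946739399204315728302909184141, 99463773640447749081381678500233668468810878193255233598604636056663576522310759795), (733584978040664934035653777931900014, 66223933825008200329366764889318599373449515435461023766748964555356933171089436728), (776841862516597429916012701129126248, 63083043432350739090354225877746115197809912869944051182178064299694748184287105293), (795895073177167872717623446954071239, 73012128165948318077836500506932363394610099369866679163052245620810475000505009295), (837712416595321647248543094966074697, 63331771721175380374260637237377086107491132775491505838744139163232666939923498455), (879700615545824072362351768246439142, 97586241807469288061103778491577707630812707886175225021263324399186982706375177232), (937785306879235564493978735403352484, 72784197966313968905412613412570797038164702175106661771526010679262490295549642006), (984818244535754528103549039458486304, 41306811688681972161269064463115038066002852273337534433804094553998213166816829441)]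

def V20 : List (ℕ × ℕ) := [(984818244535754528103549039458486304, 41306811688681972161269064463115038066002852273337534433804094553998213166816829441), (962223308431878189186809386174122016, 44262042583777155465642759362250997018546930531370204171759013821220276548279861906), (984202951082164080105044112956360736, 19959729492874098074629076200989612036902241819889911168726113158672897167591481923), (984158983359129550953007900942075936, 6739180990991008167877332118731132544367946488834665625995183257763627152412247393), (984640207867706564859662542320142368, 13467366759836688298229753622571876222910553477939711105645356505925800184690545732), (962043398450921756232295792743024672, 1258393036536761583392096704851123388435048463396255321450717973566801891435344758), (983191242150915250777973799921158176, 22747111192426770116345073613267946113861197762487331011551418699410305059882631734), (982808773341904765705022018148436000, 46875367133362012282463765121030911206757925937826987170749472276581434202035115748), (962424592608097860303688889177311264, 22738391143522515722580120568139272111227100963795185795840004768624404615432208803),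 (962549533795522802628366667846387744, 53121106386607476929827862585204509626480625133010402888665246076872933610276226459), (962332223866351030363001502796515360, 51438703372540571459680687334470902832813215935459031922250210425206791934426743168), (984724508489452699215480746259449888, 32849690311393298117977279113297306996932824722903622458924565878731299471046578468), (983553010088178266402939871779325984, 24192073175946473153088851320553773623391401678095667858224137605058118123486499532), (962371918955368510574636649896478752, 24435727630283487511882363267273981199663602290298998205460003621017000617142388152), (984235865005994746954145143334668320, 46194250954115004882269520265634920319345888388230491685690812656603648524021765876), (962774945461074800729415166826448928, 30900914585904227377545370970004186166912793469868138387651685944073531276461209225), (984522237791282842243827263779473440, 26682240261510016597120034242557114804728410023851172270409095476825953977436509076), (983298441375648284054396014667892768, 51905187588549552374746093152400636693520024347654809442450318582415725318965135147),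 (984085346507332711729061765015308320, 54645031526140741104638885888113213138976252479488088848278361395446221344283559715), (962622659107106934535045585798105120, 14619014444021769372872289360246047920769256498954872862879435136092586216866056045)]

def W16 : List (ℕ × ℕ) := [(984818244535754528103549039458486304, 41306811688681972161269064463115038066002852273337534433804094553998213166816829441), (979121071158219704299181131031480352, 5139417865016993149305064454698141557250025742835682414449294977444938223668605836), (971592882964418941354553515258775584, 53832178491409325992916894224279454691325089527691129498421796184504303409412113541), (970499966350631336865513127433832480, 54871729393632439272738858592157191068033406619478691810883914939578476598645555201), (976448692869377735270425038196672544, 20990291577405747733007045436591932312270468282856791915374898017941697108352538319), (972512676110088067912772961567868960, 22025272202606743991354479852908774114909368713342104720986501711628930216603935628), (966182099583441531322624363496310816, 9763916614042901275200545481125981615442210233896263550933155431664965598261065423),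 (961365507626256404119956257276790816, 34785638059533531574873775281400724915562737824623751454672000285883373967052002437), (982987475929287027771376387624109120, 55910580800338958547370719832863331498795965486570563385528960984227329685160747595), (980793139315382071665628865090389056, 58846091187771588976559491485041501150322871002173725470828275247228780208304822024), (982003467106548879744833006639088704, 29233415308259017306633858535036985597367201884044036035024023979619008636184511051), (975404793609856905228039464195032128, 24817633326094513215543152213967518960019359280952724884942918464222266027372660488), (969270257273082843792772143420376128, 3441125147780013295103792606604902709414777384374141978733466766221668555906385218), (964943967559750216347408836158653504, 39576789123344985761772355020887536070167873822605110469063758114111813645579429186), (967243404037079336419486754259698752, 8893253565617136809471849481815521801510135160153302139052386717369930923340104134), (963663245548342700391266423615358016, 33645744624327821955631875642740306945906485239240664472026879268217464118528954822)]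

def L20 : List ℕ := [3, 4, 5, 6, 7, 8, 9, 10, 11, 12, 13, 14, 15, 16, 17, 18, 19, 20, 21, 22]

def L16 : List ℕ := W16.map Prod.fst


theorem T1_vld : vldB T1 = true := by decide +kernel

theorem T1_mem : P T1 ∈ M24 := P_mem T1_vld (K := KT1) (by decide +kernel)

theorem T1_fpf : allI (fun i => !(Nat.beq (dig T1 i) i)) = true := by decide +kernel

theorem T1_inv : isInv (dig T1) = true := by decide +kernel

theorem T1_23 : dig T1 23 = 0 := by decide +kernel

theorem T1_1 : dig T1 1 = 2 := by decide +kernel

def chkC (t : ℕ) : Bool := commB (dig t) (dig T1) && fixS (2, 1, 0) (dig t)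

theorem chkU : tblB chkC U24 = true := by decide +kernel

theorem covU : covB U24 23 (List.range 24) = true := by decide +kernel

theorem chkV : tblB (fun t => chkC t && Nat.beq (dig t 23) 23) V20 = true := by decide +kernel

theorem covV : covB V20 3 L20 = true := by decide +kernel

theorem chkW : tblB (fun t => chkC t && Nat.beq (dig t 23) 23 && Nat.beq (dig t 3) 3 && canonB t)
    W16 = true := by decide +kernel

theorem ndL : L16.Nodup := by decide +kernel

theorem chk1 : allI (fun j => [23, 0, 1, 2].all fun k => all48 fun a b =>
    !commB (candG 23 0 j (dig T1 j) k a b) (dig T1)) = true := by decide +kernel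

theorem chk2 : allI (fun j => all48 fun a b =>
    !commB (candG 23 0 j (dig T1 j) 3 a b) (dig T1) ||
      matchL L16 (candG 23 0 j (dig T1 j) 3 a b)) = true := by decide +kernel

theorem chkC_spec {t : ℕ} (hv : vldB t = true) (hM : P t ∈ M24) (h : chkC t = true) :
    P t ∈ cenP (P T1) ∧ P t • sextetOf (tetF (2, 1, 0)) = sextetOf (tetF (2, 1, 0)) := by
  unfold chkC at h
  rw [Bool.and_eq_true] at h
  exact ⟨mem_cenP.mpr ⟨hM, comm_of_commB hv T1_vld h.1⟩, fixS_sound (2, 1, 0) t hv hM h.2⟩

theorem U_spec {j : ℕ} (hj : j < 24) : ∃ g ∈ cenP (P T1), g (pt 23) = pt j ∧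
    g • sextetOf (tetF (2, 1, 0)) = sextetOf (tetF (2, 1, 0)) := by
  obtain ⟨p, hp, e⟩ := cov_spec covU (List.mem_range.mpr hj)
  obtain ⟨hv, hM, hc⟩ := tbl_spec chkU hp
  obtain ⟨h1, h2⟩ := chkC_spec hv hM hc
  exact ⟨P p.1, h1, by rw [P_pt hv _ (by norm_num), e], h2⟩

theorem V_spec {j : ℕ} (hj : j ∈ L20) : ∃ g ∈ fixP (cenP (P T1)) 23, g (pt 3) = pt j ∧
    g • sextetOf (tetF (2, 1, 0)) = sextetOf (tetF (2, 1, 0)) := by
  obtain ⟨p, hp, e⟩ := cov_spec covV hj
  obtain ⟨hv, hM, hc⟩ := tbl_spec chkV hp
  simp only [Bool.and_eq_true] at hc
  obtain ⟨h1, h2⟩ := chkC_spec hv hM hc.1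
  refine ⟨P p.1, mem_fixP.mpr ⟨h1, ?_⟩, by rw [P_pt hv _ (by norm_num), e], h2⟩
  rw [P_pt hv _ (by norm_num), Nat.eq_of_beq_eq_true hc.2]

theorem W_spec {t : ℕ} (ht : t ∈ L16) : canonB t = true ∧
    P t ∈ fixP (fixP (cenP (P T1)) 23) 3 ∧
    P t • sextetOf (tetF (2, 1, 0)) = sextetOf (tetF (2, 1, 0)) := by
  obtain ⟨p, hp, rfl⟩ := List.mem_map.mp ht
  obtain ⟨hv, hM, hc⟩ := tbl_spec chkW hp
  simp only [Bool.and_eq_true] at hc
  obtain ⟨⟨⟨c1, c2⟩, c3⟩, c4⟩ := hc
  obtain ⟨h1, h2⟩ := chkC_spec hv hM c1
  refine ⟨c4, mem_fixP.mpr ⟨mem_fixP.mpr ⟨h1, ?_⟩, ?_⟩, h2⟩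
  · rw [P_pt hv _ (by norm_num), Nat.eq_of_beq_eq_true c2]
  · rw [P_pt hv _ (by norm_num), Nat.eq_of_beq_eq_true c3]

theorem fix0 {c : Equiv.Perm GolayPt} (hc : c ∈ fixP (cenP (P T1)) 23) : idx (c (pt 0)) = 0 := by
  obtain ⟨h0, h23⟩ := mem_fixP.mp hc
  obtain ⟨hM, e⟩ := mem_cenP.mp h0
  have := comm_idx (isIdx_P T1_vld) e (i := 23) (by norm_num)
  rw [T1_23, h23, idx_pt 23 (by norm_num), T1_23] at this
  exact this

theorem fix2 {c : Equiv.Perm GolayPt} (hc : c ∈ cenP (P T1)) :
    idx (c (pt 2)) = dig T1 (idx (c (pt 1))) := by
  obtain ⟨hM, e⟩ := mem_cenP.mp hc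
  have := comm_idx (isIdx_P T1_vld) e (i := 1) (by norm_num)
  rw [T1_1] at this
  exact this

theorem H1_sub {c : Equiv.Perm GolayPt} (hc : c ∈ fixP (cenP (P T1)) 23) :
    idx (c (pt 3)) ∈ L20 := by
  obtain ⟨h0, h23⟩ := mem_fixP.mp hc
  obtain ⟨hM, e⟩ := mem_cenP.mp h0
  obtain ⟨a, ha, b, hb, hF⟩ := enumG' hM (by rw [h23, idx_pt 23 (by norm_num)]) (fix0 hc) rfl
    (fix2 h0) rfl
  have hcomm := commB_of hF (isIdx_P T1_vld) e
  by_contra hnot
  have hk4 : idx (c (pt 3)) ∈ [23, 0, 1, 2] := by
    have : ∀ k < 24, k ∉ L20 → k ∈ [23, 0, 1, 2] := by decide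
    exact this _ (idx_lt _) hnot
  have c1 := allI_iff.mp chk1 _ (idx_lt (c (pt 1)))
  have c2 := List.all_eq_true.mp c1 _ hk4
  have c3 := all48_spec c2 ha hb
  rw [hcomm] at c3
  exact absurd c3 (by decide)

theorem H2_all {c : Equiv.Perm GolayPt} (hc : c ∈ fixP (fixP (cenP (P T1)) 23) 3) :
    ∃ t ∈ L16, P t = c := by
  obtain ⟨h1, h3⟩ := mem_fixP.mp hc
  obtain ⟨h0, h23⟩ := mem_fixP.mp h1
  obtain ⟨hM, e⟩ := mem_cenP.mp h0
  obtain ⟨a, ha, b, hb, hF⟩ := enumG' hM (by rw [h23, idx_pt 23 (by norm_num)]) (fix0 h1) rfl
    (fix2 h0) (by rw [h3, idx_pt 3 (by norm_num)])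
  have hcomm := commB_of hF (isIdx_P T1_vld) e
  have c1 := allI_iff.mp chk2 _ (idx_lt (c (pt 1)))
  have c3 := all48_spec c1 ha hb
  rw [hcomm] at c3
  simp only [Bool.not_true, Bool.false_or] at c3
  exact matchL_spec hF (fun t ht => canon_vld (W_spec ht).1) c3

theorem card_H2 : Nat.card (fixP (fixP (cenP (P T1)) 23) 3) = 16 :=
  card_of_list _ L16 ndL (fun _ ht => (W_spec ht).1) (fun _ ht => (W_spec ht).2.1)
    (fun _ hg => H2_all hg)

theorem card_H1 : Nat.card (fixP (cenP (P T1)) 23) = 320 := by
  have h := card_step (fixP (cenP (P T1)) 23) 3 L20 (by decide) (by decide)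
    (fun g hg => H1_sub hg)
    (fun j hj => by
      obtain ⟨g, hg, e, -⟩ := V_spec hj
      exact ⟨g, hg, e⟩)
  rw [h, card_H2]
  rfl

theorem card_H0 : Nat.card (cenP (P T1)) = 7680 := by
  have h := card_step (cenP (P T1)) 23 (List.range 24) List.nodup_range
    (fun j hj => List.mem_range.mp hj) (fun g _ => List.mem_range.mpr (idx_lt _))
    (fun j hj => by
      obtain ⟨g, hg, e, -⟩ := U_spec (List.mem_range.mp hj)
      exact ⟨g, hg, e⟩)
  rw [h, card_H1]
  rfl

theorem fix_sext {c : Equiv.Perm GolayPt} (hc : c ∈ cenP (P T1)) :
    c • sextetOf (tetF (2, 1, 0)) = sextetOf (tetF (2, 1, 0)) := by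
  obtain ⟨u, hu, eu, su⟩ := U_spec (idx_lt (c (pt 23)))
  rw [pt_idx] at eu
  have h1 : u⁻¹ * c ∈ fixP (cenP (P T1)) 23 := by
    refine mem_fixP.mpr ⟨(cenP (P T1)).mul_mem ((cenP (P T1)).inv_mem hu) hc, ?_⟩
    rw [Equiv.Perm.mul_apply, ← eu, inv_app]
  obtain ⟨v, hv, ev, sv⟩ := V_spec (H1_sub h1)
  rw [pt_idx] at ev
  have h2 : v⁻¹ * (u⁻¹ * c) ∈ fixP (fixP (cenP (P T1)) 23) 3 := by
    refine mem_fixP.mpr ⟨(fixP (cenP (P T1)) 23).mul_mem ((fixP (cenP (P T1)) 23).inv_mem hv) h1, ?_⟩
    rw [Equiv.Perm.mul_apply, ← ev, inv_app]
  obtain ⟨t, ht, et⟩ := H2_all h2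
  have st := (W_spec ht).2.2
  rw [et] at st
  have e3 : c • sextetOf (tetF (2, 1, 0)) =
      u • v • (v⁻¹ * (u⁻¹ * c)) • sextetOf (tetF (2, 1, 0)) := by
    rw [← mul_smul, ← mul_smul]
    congr 1
    group
  rw [e3, st, sv, su]

theorem trans_std (p q : GolayPt) : ∃ c ∈ cenP (P T1), c p = q := by
  obtain ⟨u, hu, eu, -⟩ := U_spec (idx_lt p)
  obtain ⟨w, hw, ew, -⟩ := U_spec (idx_lt q)
  rw [pt_idx] at eu ew
  refine ⟨w * u⁻¹, (cenP (P T1)).mul_mem hw ((cenP (P T1)).inv_mem hu), ?_⟩
  rw [Equiv.Perm.mul_apply, ← eu, inv_app, ew]

theorem T1_sq : P T1 * P T1 = 1 :=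
  isIdx_eq (isIdx_mul (isIdx_P T1_vld) (isIdx_P T1_vld)) isIdx_one
    (fun i hi => Nat.eq_of_beq_eq_true (allI_iff.mp T1_inv i hi))

theorem T1_fpf' : ∀ p, P T1 p ≠ p := by
  intro p e
  have h1 := (isIdx_fix (isIdx_P T1_vld) p).mp e
  have c := allI_iff.mp T1_fpf (idx p) (idx_lt p)
  rw [h1, Nat.beq_refl] at c
  exact absurd c (by decide)

theorem conj_T1 {t : Equiv.Perm GolayPt} (ht : t ∈ M24) (h₂ : orderOf t = 2)
    (h₀ : ∀ p, t p ≠ p) : ∃ h ∈ M24, t = h * P T1 * h⁻¹ := by
  obtain ⟨c, hc, ec⟩ := inv_conj_2B ht (sq_of_order h₂) h₀
  obtain ⟨d, hd, ed⟩ := inv_conj_2B T1_mem T1_sq T1_fpf'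
  refine ⟨c⁻¹ * d, M24.mul_mem (M24.inv_mem hc) hd, ?_⟩
  have e1 : t = c⁻¹ * (c * t * c⁻¹) * c := by group
  rw [e1, ec, ← ed]
  group

theorem key (h : Equiv.Perm GolayPt) (hh : h ∈ M24) (c : Equiv.Perm GolayPt) :
    (c ∈ M24 ∧ c * (h * P T1 * h⁻¹) = (h * P T1 * h⁻¹) * c) ↔ h⁻¹ * c * h ∈ cenP (P T1) := by
  rw [mem_cenP]
  constructor
  · rintro ⟨hc, e⟩
    refine ⟨M24.mul_mem (M24.mul_mem (M24.inv_mem hh) hc) hh, ?_⟩
    calc h⁻¹ * c * h * P T1 = h⁻¹ * (c * (h * P T1 * h⁻¹)) * h := by group
      _ = h⁻¹ * ((h * P T1 * h⁻¹) * c) * h := by rw [e]
      _ = P T1 * (h⁻¹ * c * h) := by group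
  · rintro ⟨hc, e⟩
    refine ⟨?_, ?_⟩
    · have e1 : c = h * (h⁻¹ * c * h) * h⁻¹ := by group
      rw [e1]
      exact M24.mul_mem (M24.mul_mem hh hc) (M24.inv_mem hh)
    · calc c * (h * P T1 * h⁻¹) = h * (h⁻¹ * c * h * P T1) * h⁻¹ := by group
        _ = h * (P T1 * (h⁻¹ * c * h)) * h⁻¹ := by rw [e]
        _ = h * P T1 * h⁻¹ * c := by group

/-- For a fixed-point-free involution t of the group of the length-24 code: its centraliser in that group has order 7680, is transitive on the 24 points, and is contained, together with t, in the stabiliser of some sextet. -/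
theorem result (t : Equiv.Perm Cfsg.GolayPt) (ht : t ∈ Cfsg.M24) (h₂ : orderOf t = 2) (h₀ : ∀ p, t p ≠ p) : Nat.card {c : Equiv.Perm Cfsg.GolayPt // c ∈ Cfsg.M24 ∧ c * t = t * c} = 7680 ∧ (∀ p q : Cfsg.GolayPt, ∃ c ∈ Cfsg.M24, c * t = t * c ∧ c p = q) ∧ ∃ S ∈ Cfsg.sextets, t • S = S ∧ ∀ c ∈ Cfsg.M24, c * t = t * c → c • S = S := by
  obtain ⟨h, hh, rfl⟩ := conj_T1 ht h₂ h₀
  refine ⟨?_, ?_, ?_⟩
  · rw [← card_H0]
    apply Nat.card_congr
    exact
      { toFun := fun c => ⟨h⁻¹ * c.1 * h, (key h hh c.1).mp c.2⟩
        invFun := fun d => ⟨h * d.1 * h⁻¹, (key h hh _).mpr (by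
          have e1 : h⁻¹ * (h * d.1 * h⁻¹) * h = d.1 := by group
          rw [e1]
          exact d.2)⟩
        left_inv := fun c => Subtype.ext (by
          show h * (h⁻¹ * c.1 * h) * h⁻¹ = c.1
          group)
        right_inv := fun d => Subtype.ext (by
          show h⁻¹ * (h * d.1 * h⁻¹) * h = d.1
          group) }
  · intro p q
    obtain ⟨c, hc, e⟩ := trans_std (h⁻¹ p) (h⁻¹ q)
    have hk := (key h hh (h * c * h⁻¹)).mpr (by
      have e1 : h⁻¹ * (h * c * h⁻¹) * h = c := by group
      rw [e1]
      exact hc)
    refine ⟨h * c * h⁻¹, hk.1, hk.2, ?_⟩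
    rw [Equiv.Perm.mul_apply, Equiv.Perm.mul_apply, e, app_inv]
  · refine ⟨h • sextetOf (tetF (2, 1, 0)), smul_sextet hh S0_mem, ?_, ?_⟩
    · have e1 : (h * P T1 * h⁻¹) • h • sextetOf (tetF (2, 1, 0)) =
          h • P T1 • sextetOf (tetF (2, 1, 0)) := by
        rw [← mul_smul, ← mul_smul]
        congr 1
        group
      rw [e1, fix_sext (mem_cenP.mpr ⟨T1_mem, rfl⟩)]
    · intro c hc e
      have hk := (key h hh c).mp ⟨hc, e⟩
      have e2 := fix_sext hk
      rw [mul_smul, mul_smul, inv_smul_eq_iff] at e2
      exact e2


end Cfsg.Agent.S5607
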