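import Cfsg.Statements.S5608
import Mathlib
import Cfsg.Agent.Lib.Helper28.M24Gen

set_option autoImplicit false
open scoped Pointwise
open Cfsg

namespace Cfsg.Agent.S5608

open Cfsg.Agent.Lib.Helper3.Golay Cfsg.Agent.Lib.Helper3.Golay2
  Cfsg.Agent.Lib.Helper28.M24Trans Cfsg.Agent.Lib.Helper28.M24Six
  Cfsg.Agent.Lib.Helper28.M24Enum Cfsg.Agent.Lib.Helper28.M24Class
  Cfsg.Agent.Lib.Helper28.M24Gen
open scoped Pointwise

def E6 : List ℕ := [23, 0, 1, 2, 3, 4]

def nb (a b : ℕ) : Bool := !(Nat.beq a b)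

theorem nb_of {a b : ℕ} (h : a ≠ b) : nb a b = true := by
  unfold nb
  cases hb : Nat.beq a b
  · rfl
  · exact absurd (Nat.eq_of_beq_eq_true hb) h

def tupB (i₁ i₂ i₃ i₄ i₅ : ℕ) : Bool :=
  nb i₁ 23 && nb i₂ 0 && nb i₃ 1 && nb i₄ 2 && nb i₅ 3 && nb i₁ i₂ && nb i₁ i₃ && nb i₁ i₄ &&
  nb i₁ i₅ && nb i₂ i₃ && nb i₂ i₄ && nb i₂ i₅ && nb i₃ i₄ && nb i₃ i₅ && nb i₄ i₅

theorem chkA : (E6.all fun i₁ => E6.all fun i₂ => E6.all fun i₃ => E6.all fun i₄ =>
    E6.all fun i₅ => !(tupB i₁ i₂ i₃ i₄ i₅) || all48 (fun a b =>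
      !(isInv (candG i₁ i₂ i₃ i₄ i₅ a b)) || hasFix (candG i₁ i₂ i₃ i₄ i₅ a b) ||
      !(commB (candG i₁ i₂ i₃ i₄ i₅ a b) (dig X3A)))) = true := by
  decide +kernel

theorem fixA : ∀ i < 24, dig X3A i = i → i ∈ E6 := by decide +kernel

theorem fixA' : ∀ i ∈ [23, 0, 1, 2, 3], dig X3A i = i := by decide +kernel

theorem img_ne {g : Equiv.Perm GolayPt} {i j : ℕ} (hi : i < 24) (hj : j < 24) (hij : i ≠ j) :
    idx (g (pt i)) ≠ idx (g (pt j)) := by
  intro e
  exact hij (pt_injOn hi hj (g.injective (idx_injective e)))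

theorem img_ne_self {g : Equiv.Perm GolayPt} (hf : ∀ p, g p ≠ p) (i : ℕ) :
    idx (g (pt i)) ≠ i := by
  intro e
  apply hf (pt i)
  have h : g (pt i) = pt (idx (g (pt i))) := (pt_idx _).symm
  rw [e] at h
  exact h

theorem noA {s : Equiv.Perm GolayPt} (hs : s ∈ M24) (h2 : s * s = 1) (hf : ∀ p, s p ≠ p)
    (hc : s * P X3A = P X3A * s) : False := by
  have hE : ∀ f ∈ [23, 0, 1, 2, 3], idx (s (pt f)) ∈ E6 := by
    intro f hf'
    have hf24 : f < 24 := by revert f; decide
    apply fixA _ (idx_lt _)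
    rw [← isIdx_fix (isIdx_P X3A_vld)]
    have e := congrArg (fun k : Equiv.Perm GolayPt => k (pt f)) hc
    simp only [Equiv.Perm.mul_apply] at e
    rw [P_pt X3A_vld f hf24, fixA' f hf'] at e
    exact e.symm
  obtain ⟨a, ha, b, hb, hF⟩ := enumG hs
  have h := chkA
  simp only [List.all_eq_true] at h
  have h1 := h _ (hE 23 (by simp)) _ (hE 0 (by simp)) _ (hE 1 (by simp)) _ (hE 2 (by simp)) _
    (hE 3 (by simp))
  have ht : tupB (idx (s (pt 23))) (idx (s (pt 0))) (idx (s (pt 1))) (idx (s (pt 2)))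
      (idx (s (pt 3))) = true := by
    unfold tupB
    simp only [Bool.and_eq_true]
    refine ⟨⟨⟨⟨⟨⟨⟨⟨⟨⟨⟨⟨⟨⟨?_, ?_⟩, ?_⟩, ?_⟩, ?_⟩, ?_⟩, ?_⟩, ?_⟩, ?_⟩, ?_⟩, ?_⟩, ?_⟩, ?_⟩, ?_⟩, ?_⟩
    · exact nb_of (img_ne_self hf 23)
    · exact nb_of (img_ne_self hf 0)
    · exact nb_of (img_ne_self hf 1)
    · exact nb_of (img_ne_self hf 2)
    · exact nb_of (img_ne_self hf 3)
    · exact nb_of (img_ne (by norm_num) (by norm_num) (by norm_num))
    · exact nb_of (img_ne (by norm_num) (by norm_num) (by norm_num))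
    · exact nb_of (img_ne (by norm_num) (by norm_num) (by norm_num))
    · exact nb_of (img_ne (by norm_num) (by norm_num) (by norm_num))
    · exact nb_of (img_ne (by norm_num) (by norm_num) (by norm_num))
    · exact nb_of (img_ne (by norm_num) (by norm_num) (by norm_num))
    · exact nb_of (img_ne (by norm_num) (by norm_num) (by norm_num))
    · exact nb_of (img_ne (by norm_num) (by norm_num) (by norm_num))
    · exact nb_of (img_ne (by norm_num) (by norm_num) (by norm_num))
    · exact nb_of (img_ne (by norm_num) (by norm_num) (by norm_num))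
  rw [ht] at h1
  simp only [Bool.not_true, Bool.false_or] at h1
  have h3 := all48_spec h1 ha hb
  rw [isInv_of hF h2, commB_of hF (isIdx_P X3A_vld) hc] at h3
  have c2 : hasFix (candG (idx (s (pt 23))) (idx (s (pt 0))) (idx (s (pt 1))) (idx (s (pt 2)))
      (idx (s (pt 3))) a b) = false := by
    by_contra hcon
    rw [Bool.not_eq_false] at hcon
    obtain ⟨p, hp⟩ := hasFix_of hF hcon
    exact hf p hp
  rw [c2] at h3
  exact Bool.noConfusion h3

/-- If an element of order 3 and an involution of the group of the length-24 code commute, then either the element of order 3 has exactly 6 fixed points and the involution exactly 8, or both are fixed-point-free. -/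
theorem result (x s : Equiv.Perm Cfsg.GolayPt) (hx : x ∈ Cfsg.M24) (hs : s ∈ Cfsg.M24) (h₃ : orderOf x = 3) (h₂ : orderOf s = 2) (hc : Commute x s) : ((Finset.univ.filter fun p => x p = p).card = 6 ∧ (Finset.univ.filter fun p => s p = p).card = 8) ∨ ((Finset.univ.filter fun p => x p = p).card = 0 ∧ (Finset.univ.filter fun p => s p = p).card = 0) := by
  show ((fixF x).card = 6 ∧ (fixF s).card = 8) ∨ ((fixF x).card = 0 ∧ (fixF s).card = 0)
  have x3 : x * x * x = 1 := by rw [← pow_three', ← h₃, pow_orderOf_eq_one]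
  have s2 : s * s = 1 := by rw [← sq, ← h₂, pow_orderOf_eq_one]
  have x1 : x ≠ 1 := by
    rintro rfl
    rw [orderOf_one] at h₃
    omega
  have s1 : s ≠ 1 := by
    rintro rfl
    rw [orderOf_one] at h₂
    omega
  have empty_of : ∀ g : Equiv.Perm GolayPt, (¬ ∃ a, g a = a) → (fixF g).card = 0 := by
    intro g hg
    rw [Finset.card_eq_zero, Finset.eq_empty_iff_forall_notMem]
    intro p hp
    exact hg ⟨p, mem_fixF.mp hp⟩
  by_cases hxa : ∃ a, x a = a
  · obtain ⟨a, ha⟩ := hxa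
    by_cases hsb : ∃ b, s b = b
    · obtain ⟨b, hb⟩ := hsb
      left
      exact ⟨(ord3_fix hx x3 x1 ha).1, (inv_fix hs s2 s1 hb).1.2⟩
    · exfalso
      have hsf : ∀ p, s p ≠ p := fun p hp => hsb ⟨p, hp⟩
      obtain ⟨c, hcm, e⟩ := ord3_conj_3A hx x3 x1 ha
      have hcomm : Commute (c * x * c⁻¹) (c * s * c⁻¹) := by
        have h1 : (c * x * c⁻¹) * (c * s * c⁻¹) = c * (x * s) * c⁻¹ := by group
        have h2 : (c * s * c⁻¹) * (c * x * c⁻¹) = c * (s * x) * c⁻¹ := by group
        show (c * x * c⁻¹) * (c * s * c⁻¹) = (c * s * c⁻¹) * (c * x * c⁻¹)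
        rw [h1, h2, hc.eq]
      have hcomm2 : Commute (P X3A) (c * s * c⁻¹) := by
        rcases e with e | e
        · rw [← e]
          exact hcomm
        · rw [e] at hcomm
          exact (Commute.inv_left_iff).mp hcomm
      exact noA (conj_mem hs hcm) (conj_sq s2) (conj_fpf hsf) hcomm2.eq.symm
  · have hxf : ∀ p, x p ≠ p := fun p hp => hxa ⟨p, hp⟩
    by_cases hsb : ∃ b, s b = b
    · exfalso
      obtain ⟨b, hb⟩ := hsb
      have ho := (inv_fix hs s2 s1 hb).1
      have hmem : ∀ p, x p ∈ fixF s ↔ p ∈ fixF s := by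
        intro p
        rw [mem_fixF, mem_fixF]
        have e := congrArg (fun k : Equiv.Perm GolayPt => k p) hc.eq
        simp only [Equiv.Perm.mul_apply] at e
        constructor
        · intro h
          rw [← e] at h
          exact x.injective h
        · intro h
          rw [← e, h]
      have hσ : (x.subtypePerm (p := fun p => p ∈ fixF s) hmem) ^ 3 ^ 1 = 1 := by
        rw [pow_one, Equiv.Perm.subtypePerm_pow]
        apply Equiv.ext
        intro a
        apply Subtype.ext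
        have : x ^ 3 = 1 := by rw [pow_three', x3]
        simp [this]
      have hcard : Fintype.card {p // p ∈ fixF s} = 8 := by
        rw [Fintype.card_coe, ho.2]
      haveI : Fact (Nat.Prime 3) := ⟨by norm_num⟩
      obtain ⟨a, ha⟩ := Equiv.Perm.exists_fixed_point_of_prime (p := 3) (n := 1)
        (by rw [hcard]; norm_num) hσ
      exact hxf a.1 (congrArg Subtype.val ha)
    · right
      exact ⟨empty_of x hxa, empty_of s hsb⟩


end Cfsg.Agent.S5608
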