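import Cfsg.Statements.S5609
import Cfsg.Agent.Lib.Helper3.M24Orb

set_option autoImplicit false
open scoped Pointwise
open Cfsg

namespace Cfsg.Agent.S5609

open Cfsg.Agent.Lib.Helper3.Golay Cfsg.Agent.Lib.Helper3.Golay2
open Cfsg.Agent.Lib.Helper3.GolayM24 Cfsg.Agent.Lib.Helper3.M24Perm
open Cfsg.Agent.Lib.Helper3.M24Trans Cfsg.Agent.Lib.Helper3.M24Oct
open Cfsg.Agent.Lib.Helper3.M24Orb
open scoped Pointwise

theorem oct_k (k : ℕ) (hk : k < 4096) (h : pc (cw k) = 8) : ms (cw k) ∈ octads :=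
  ⟨(mem_supports_iff _).mpr ⟨k, hk, ms_cw k⟩, by rw [ms_cw, card_supp]; exact h⟩

theorem disj_ms {a b : ℕ} (h : pc (a &&& b) = 0) : Disjoint (ms a) (ms b) := by
  rw [Finset.disjoint_iff_inter_eq_empty, ← Finset.card_eq_zero, card_ms_inter]
  exact h

theorem disj_of_smul {g : Equiv.Perm GolayPt} {a b : Finset GolayPt}
    (h : Disjoint (g • a) (g • b)) : Disjoint a b := by
  rw [Finset.disjoint_iff_inter_eq_empty, ← Finset.card_eq_zero] at h ⊢
  rwa [← Finset.smul_finset_inter, Finset.card_smul_finset] at h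

theorem to_std {o o' : Finset GolayPt} (ho : o ∈ octads) (ho' : o' ∈ octads) {k : ℕ}
    (hk : ms (cw k) ∈ octads) (h : (o ∩ o').card = (ms (cw 345) ∩ ms (cw k)).card) :
    ∃ g ∈ M24, g • o = ms (cw 345) ∧ g • o' = ms (cw k) := by
  obtain ⟨t, ht, e⟩ := octad_trans ho o0_mem_octads
  have h1 : (t • o ∩ t • o').card = (o ∩ o').card := by
    rw [← Finset.smul_finset_inter, Finset.card_smul_finset]
  rw [e] at h1
  have h2 : (ms (cw 345) ∩ t • o').card = (ms (cw 345) ∩ ms (cw k)).card := by rw [h1, h]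
  obtain ⟨s, hs, e1, e2⟩ :=
    octad_stab_orbits _ _ _ o0_mem_octads (smul_mem_octads ht ho') hk h2
  exact ⟨s * t, M24.mul_mem hs ht, by rw [mul_smul, e, e1], by rw [mul_smul, e2]⟩

theorem L2 {o o' : Finset GolayPt} (ho : o ∈ octads) (ho' : o' ∈ octads)
    (h : (o ∩ o').card = 4) : ∃ w ∈ octads, Disjoint o w ∧ Disjoint w o' := by
  obtain ⟨g, hg, e1, e2⟩ := to_std ho ho' (oct_k 30 (by norm_num) (by decide +kernel))
    (by rw [h, card_ms_inter]; decide +kernel)
  refine ⟨g⁻¹ • ms (cw 1172), smul_mem_octads (M24.inv_mem hg)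
    (oct_k 1172 (by norm_num) (by decide +kernel)), ?_, ?_⟩
  · apply disj_of_smul (g := g)
    rw [smul_inv_smul, e1]
    exact disj_ms (by decide +kernel)
  · apply disj_of_smul (g := g)
    rw [smul_inv_smul, e2]
    exact disj_ms (by decide +kernel)

theorem L3 {o o' : Finset GolayPt} (ho : o ∈ octads) (ho' : o' ∈ octads)
    (h : (o ∩ o').card = 2) :
    ∃ a ∈ octads, ∃ b ∈ octads, Disjoint o a ∧ Disjoint a b ∧ Disjoint b o' := by
  obtain ⟨g, hg, e1, e2⟩ := to_std ho ho' (oct_k 15 (by norm_num) (by decide +kernel))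
    (by rw [h, card_ms_inter]; decide +kernel)
  refine ⟨g⁻¹ • ms (cw 101), smul_mem_octads (M24.inv_mem hg)
    (oct_k 101 (by norm_num) (by decide +kernel)), g⁻¹ • ms (cw 1779),
    smul_mem_octads (M24.inv_mem hg) (oct_k 1779 (by norm_num) (by decide +kernel)), ?_, ?_, ?_⟩
  · apply disj_of_smul (g := g)
    rw [smul_inv_smul, e1]
    exact disj_ms (by decide +kernel)
  · apply disj_of_smul (g := g)
    rw [smul_inv_smul, smul_inv_smul]
    exact disj_ms (by decide +kernel)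
  · apply disj_of_smul (g := g)
    rw [smul_inv_smul, e2]
    exact disj_ms (by decide +kernel)

theorem L4 {o o' w : Finset GolayPt} (ho : o ∈ octads) (ho' : o' ∈ octads) (hw : w ∈ octads)
    (h : (o ∩ o').card = 2) (h1 : Disjoint o w) (h2 : Disjoint w o') : False := by
  have hs := symmDiff_mem_supports ho.1 ho'.1
  have hc := card_symmDiff_add o o'
  have hs2 := symmDiff_mem_supports hs hw.1
  have hc2 := card_symmDiff_add (symmDiff o o') w
  have hd : (symmDiff o o' ∩ w).card = 0 := by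
    rw [Finset.card_eq_zero, ← Finset.disjoint_iff_inter_eq_empty]
    exact Finset.disjoint_of_subset_left Finset.symmDiff_subset_union
      (Finset.disjoint_union_left.mpr ⟨h1, h2.symm⟩)
  have h5 := card_cases hs2
  rw [ho.2, ho'.2, h] at hc
  rw [hw.2, hd] at hc2
  omega

theorem adj_iff {a b : Finset GolayPt} (ha : a ∈ octads) (hb : b ∈ octads) :
    (blockGraph octads).Adj ⟨a, ha⟩ ⟨b, hb⟩ ↔ Disjoint a b := by
  unfold blockGraph
  rw [SimpleGraph.fromRel_adj]
  constructor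
  · rintro ⟨-, h | h⟩
    · exact h
    · exact h.symm
  · intro h
    refine ⟨?_, Or.inl h⟩
    intro e
    have e' : a = b := congrArg Subtype.val e
    subst e'
    have h0 : a = ∅ := (Finset.disjoint_self_iff_empty a).mp h
    have h8 := ha.2
    rw [h0] at h8
    simp at h8

theorem card0_iff {a b : Finset GolayPt} : (a ∩ b).card = 0 ↔ Disjoint a b := by
  rw [Finset.card_eq_zero, Finset.disjoint_iff_inter_eq_empty]

theorem reach {a b : Finset GolayPt} (ha : a ∈ octads) (hb : b ∈ octads) :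
    (blockGraph octads).Reachable ⟨a, ha⟩ ⟨b, hb⟩ := by
  by_cases e : a = b
  · subst e
    exact SimpleGraph.Reachable.refl _
  · rcases octads_inter_cases ha hb e with h | h | h
    · exact ((adj_iff ha hb).mpr (card0_iff.mp h)).reachable
    · obtain ⟨x, hx, y, hy, d1, d2, d3⟩ := L3 ha hb h
      exact (((adj_iff ha hx).mpr d1).reachable.trans
        ((adj_iff hx hy).mpr d2).reachable).trans ((adj_iff hy hb).mpr d3).reachable
    · obtain ⟨w, hw, d1, d2⟩ := L2 ha hb h
      exact ((adj_iff ha hw).mpr d1).reachable.trans ((adj_iff hw hb).mpr d2).reachable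

theorem walk_two {V : Type*} {G : SimpleGraph V} {u v : V} (p : G.Walk u v)
    (h : p.length = 2) : ∃ w, G.Adj u w ∧ G.Adj w v := by
  cases p with
  | nil => simp at h
  | cons h1 q =>
    cases q with
    | nil => simp at h
    | cons h2 r =>
      cases r with
      | nil => exact ⟨_, h1, h2⟩
      | cons h3 s =>
        simp only [SimpleGraph.Walk.length_cons] at h
        omega

theorem dist_ne_zero {a b : Finset GolayPt} (ha : a ∈ octads) (hb : b ∈ octads) (e : a ≠ b) :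
    (blockGraph octads).dist ⟨a, ha⟩ ⟨b, hb⟩ ≠ 0 := by
  intro h
  exact e (congrArg Subtype.val ((reach ha hb).dist_eq_zero_iff.mp h))

theorem D1 {a b : Finset GolayPt} (ha : a ∈ octads) (hb : b ∈ octads) :
    (blockGraph octads).dist ⟨a, ha⟩ ⟨b, hb⟩ = 1 ↔ (a ∩ b).card = 0 := by
  rw [SimpleGraph.dist_eq_one_iff_adj, adj_iff, card0_iff]

theorem D2 {a b : Finset GolayPt} (ha : a ∈ octads) (hb : b ∈ octads) (h : (a ∩ b).card = 4) :
    (blockGraph octads).dist ⟨a, ha⟩ ⟨b, hb⟩ = 2 := by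
  have e : a ≠ b := by
    intro e
    subst e
    rw [Finset.inter_self, ha.2] at h
    omega
  obtain ⟨w, hw, d1, d2⟩ := L2 ha hb h
  have h2 := SimpleGraph.dist_le (SimpleGraph.Walk.cons ((adj_iff ha hw).mpr d1)
    (SimpleGraph.Walk.cons ((adj_iff hw hb).mpr d2) SimpleGraph.Walk.nil))
  simp only [SimpleGraph.Walk.length_cons, SimpleGraph.Walk.length_nil] at h2
  have h0 := dist_ne_zero ha hb e
  have h1 : (blockGraph octads).dist ⟨a, ha⟩ ⟨b, hb⟩ ≠ 1 := by
    intro h1
    have := (D1 ha hb).mp h1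
    omega
  omega

theorem D3 {a b : Finset GolayPt} (ha : a ∈ octads) (hb : b ∈ octads) (h : (a ∩ b).card = 2) :
    (blockGraph octads).dist ⟨a, ha⟩ ⟨b, hb⟩ = 3 := by
  have e : a ≠ b := by
    intro e
    subst e
    rw [Finset.inter_self, ha.2] at h
    omega
  obtain ⟨x, hx, y, hy, d1, d2, d3⟩ := L3 ha hb h
  have h3 := SimpleGraph.dist_le (SimpleGraph.Walk.cons ((adj_iff ha hx).mpr d1)
    (SimpleGraph.Walk.cons ((adj_iff hx hy).mpr d2)
      (SimpleGraph.Walk.cons ((adj_iff hy hb).mpr d3) SimpleGraph.Walk.nil)))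
  simp only [SimpleGraph.Walk.length_cons, SimpleGraph.Walk.length_nil] at h3
  have h0 := dist_ne_zero ha hb e
  have h1 : (blockGraph octads).dist ⟨a, ha⟩ ⟨b, hb⟩ ≠ 1 := by
    intro h1
    have := (D1 ha hb).mp h1
    omega
  have h2 : (blockGraph octads).dist ⟨a, ha⟩ ⟨b, hb⟩ ≠ 2 := by
    intro h2
    obtain ⟨p, hp⟩ := (reach ha hb).exists_walk_length_eq_dist
    rw [h2] at hp
    obtain ⟨⟨w, hw⟩, a1, a2⟩ := walk_two p hp
    exact L4 ha hb hw h ((adj_iff ha hw).mp a1) ((adj_iff hw hb).mp a2)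
  omega

theorem result (o o' : Finset Cfsg.GolayPt) (ho : o ∈ Cfsg.octads) (ho' : o' ∈ Cfsg.octads) (hne : o ≠ o') : (Cfsg.blockGraph Cfsg.octads).Connected ∧ ((Cfsg.blockGraph Cfsg.octads).dist ⟨o, ho⟩ ⟨o', ho'⟩ = 1 ↔ (o ∩ o').card = 0) ∧ ((Cfsg.blockGraph Cfsg.octads).dist ⟨o, ho⟩ ⟨o', ho'⟩ = 2 ↔ (o ∩ o').card = 4) ∧ ((Cfsg.blockGraph Cfsg.octads).dist ⟨o, ho⟩ ⟨o', ho'⟩ = 3 ↔ (o ∩ o').card = 2) := by
  have hc := octads_inter_cases ho ho' hne
  refine ⟨?_, D1 ho ho', ?_, ?_⟩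
  · rw [SimpleGraph.connected_iff]
    exact ⟨fun x y => reach x.2 y.2, ⟨⟨o, ho⟩⟩⟩
  · constructor
    · intro hd
      rcases hc with h | h | h
      · have := (D1 ho ho').mpr h
        omega
      · have := D3 ho ho' h
        omega
      · exact h
    · exact D2 ho ho'
  · constructor
    · intro hd
      rcases hc with h | h | h
      · have := (D1 ho ho').mpr h
        omega
      · exact h
      · have := D2 ho ho' h
        omega
    · exact D3 ho ho'

end Cfsg.Agent.S5609
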