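import Cfsg.Statements.S5613
import Mathlib
import Cfsg.Agent.Lib.Helper3.M24Meet
import Cfsg.Agent.Lib.Helper3.Coatom

set_option autoImplicit false
open scoped Pointwise
open Cfsg

namespace Cfsg.Agent.S5613

open Cfsg.Agent.Lib.Helper3.Golay Cfsg.Agent.Lib.Helper3.M24Order
  Cfsg.Agent.Lib.Helper3.M24Trans Cfsg.Agent.Lib.Helper3.M24Orb
  Cfsg.Agent.Lib.Helper3.M24Meet Cfsg.Agent.Lib.Helper3.Coatom

theorem card_stab (o : Finset GolayPt) (ho : o ∈ octads) :
    Nat.card ↥(MulAction.stabilizer ↥M24 o) = 322560 := by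
  have h := card_orbit_mul (G := ↥M24) (α := Finset GolayPt) ⊤ (MulAction.stabilizer ↥M24 o) o
    octads (fun g => by simp [MulAction.mem_stabilizer_iff])
    (fun g _ => smul_mem_octads g.2 ho)
    (fun s hs => by
      obtain ⟨g, hg, e⟩ := octad_trans ho hs
      exact ⟨⟨g, hg⟩, Subgroup.mem_top _, e⟩)
  rw [Subgroup.card_top, card_M24, ncard_octads] at h
  omega

theorem card_joint (o o' : Finset GolayPt) (ho : o ∈ octads) (ho' : o' ∈ octads) (i n : ℕ)
    (hi : (o ∩ o').card = i)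
    (hn : {o'' : Finset GolayPt | o'' ∈ octads ∧ (o ∩ o'').card = i}.ncard = n) :
    322560 = n * Nat.card ↥(MulAction.stabilizer ↥M24 o ⊓ MulAction.stabilizer ↥M24 o') := by
  have h := card_orbit_mul (G := ↥M24) (α := Finset GolayPt) (MulAction.stabilizer ↥M24 o)
    (MulAction.stabilizer ↥M24 o ⊓ MulAction.stabilizer ↥M24 o') o'
    {o'' : Finset GolayPt | o'' ∈ octads ∧ (o ∩ o'').card = i}
    (fun g => by simp [Subgroup.mem_inf, MulAction.mem_stabilizer_iff])
    (fun g hg => by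
      refine ⟨smul_mem_octads g.2 ho', ?_⟩
      have e : g • o = o := MulAction.mem_stabilizer_iff.mp hg
      have e2 : o ∩ g • o' = g • (o ∩ o') := by
        rw [Finset.smul_finset_inter, e]
      rw [e2, Finset.card_smul_finset, hi])
    (fun s hs => by
      obtain ⟨g, hg, e1, e2⟩ := octad_stab_orbits o o' s ho ho' hs.1 (by rw [hi, hs.2])
      exact ⟨⟨g, hg⟩, MulAction.mem_stabilizer_iff.mpr e1, e2⟩)
  rw [card_stab o ho, hn] at h
  exact h

/-- In the group of the length-24 code, the joint stabiliser of two octads has order 10752, 1152 or 720 according as the octads meet in 0, 4 or 2 points. -/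
theorem result (o o' : Finset Cfsg.GolayPt) (ho : o ∈ Cfsg.octads) (ho' : o' ∈ Cfsg.octads) : ((o ∩ o').card = 0 → Nat.card ↥(MulAction.stabilizer Cfsg.M24 o ⊓ MulAction.stabilizer Cfsg.M24 o') = 10752) ∧ ((o ∩ o').card = 4 → Nat.card ↥(MulAction.stabilizer Cfsg.M24 o ⊓ MulAction.stabilizer Cfsg.M24 o') = 1152) ∧ ((o ∩ o').card = 2 → Nat.card ↥(MulAction.stabilizer Cfsg.M24 o ⊓ MulAction.stabilizer Cfsg.M24 o') = 720) := by
  obtain ⟨h0, h2, h4, -⟩ := octad_meet_ncard ho
  refine ⟨fun h => ?_, fun h => ?_, fun h => ?_⟩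
  · have := card_joint o o' ho ho' 0 30 h h0
    omega
  · have := card_joint o o' ho ho' 4 280 h h4
    omega
  · have := card_joint o o' ho ho' 2 448 h h2
    omega


end Cfsg.Agent.S5613
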