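import Cfsg.Statements.S5614
import Mathlib
import Cfsg.Agent.Lib.Helper28.M24Class
import Cfsg.Agent.Lib.Helper28.M24Sext
import Cfsg.Agent.S5613

set_option autoImplicit false
open scoped Pointwise
open Cfsg

namespace Cfsg.Agent.S5614

open Cfsg.Agent.Lib.Helper3.Golay Cfsg.Agent.Lib.Helper3.Golay2
  Cfsg.Agent.Lib.Helper3.GolayM24 Cfsg.Agent.Lib.Helper3.Steiner
  Cfsg.Agent.Lib.Helper28.M24Trans Cfsg.Agent.Lib.Helper28.M24Six
  Cfsg.Agent.Lib.Helper28.M24Enum Cfsg.Agent.Lib.Helper28.M24Class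
  Cfsg.Agent.Lib.Helper28.M24Mask Cfsg.Agent.Lib.Helper28.M24Sext

def chk (k a b : ℕ) : Bool :=
  !([23, 0, 1, 2, 3].all (fun f => !(cw k).testBit f))
  || !(Nat.beq (pc (cw 2503 &&& cw k)) 2)
  || !(Nat.beq (imgM (cand ID7 a b) (cw k)) (cw k))
  || !([5, 14, 17].all (fun i => (cw k).testBit i || Nat.beq (cand ID7 a b i) i))
  || isId (cand ID7 a b)

theorem chk_all : octL.all (fun k => all48 (chk k)) = true := by decide +kernel

theorem ker_trivial {g : Equiv.Perm GolayPt} (hg : g ∈ M24) {o o' : Finset GolayPt}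
    (ho : o ∈ octads) (ho' : o' ∈ octads) (h2 : (o ∩ o').card = 2)
    (go' : g • o' = o') (hfix : ∀ p ∈ o \ o', g p = p) : g = 1 := by
  have hc6 : (o \ o').card = 6 := by
    have := Finset.card_sdiff_add_card_inter o o'
    rw [ho.2, h2] at this
    omega
  obtain ⟨x₁, x₂, x₃, x₄, x₅, hnd, m1, m2, m3, m4, m5⟩ := take5 (o \ o') (by omega)
  obtain ⟨h, hh, e1, e2, e3, e4, e5⟩ := trans5 x₁ x₂ x₃ x₄ x₅ hnd
  have hg' : h * g * h⁻¹ ∈ M24 := conj_mem hg hh
  have hfx : ∀ f ∈ [3, 2, 1, 0, 23], (h * g * h⁻¹) (pt f) = pt f := by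
    intro f hf
    simp only [List.mem_cons, List.not_mem_nil, or_false] at hf
    rcases hf with rfl | rfl | rfl | rfl | rfl
    · exact conj_apply e5 e5 (hfix _ m5)
    · exact conj_apply e4 e4 (hfix _ m4)
    · exact conj_apply e3 e3 (hfix _ m3)
    · exact conj_apply e2 e2 (hfix _ m2)
    · exact conj_apply e1 e1 (hfix _ m1)
  obtain ⟨a, ha, b, hb, hF⟩ := enumID hg' hfx
  have hmem : ∀ {x : GolayPt} {s : Finset GolayPt}, h x ∈ h • s ↔ x ∈ s := by
    intro x s
    exact Finset.smul_mem_smul_finset_iff h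
  have hO : h • o = supp 2503 := by
    apply oct_unique (smul_octad hh ho)
    intro f hf
    simp only [List.mem_cons, List.not_mem_nil, or_false] at hf
    rcases hf with rfl | rfl | rfl | rfl | rfl
    · rw [← e1]; exact hmem.mpr (Finset.mem_sdiff.mp m1).1
    · rw [← e2]; exact hmem.mpr (Finset.mem_sdiff.mp m2).1
    · rw [← e3]; exact hmem.mpr (Finset.mem_sdiff.mp m3).1
    · rw [← e4]; exact hmem.mpr (Finset.mem_sdiff.mp m4).1
    · rw [← e5]; exact hmem.mpr (Finset.mem_sdiff.mp m5).1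
  have ho1 : h • o' ∈ octads := smul_octad hh ho'
  obtain ⟨k, hk, ek⟩ := (mem_supports_iff _).mp ho1.1
  have hpc : pc (cw k) = 8 := by
    rw [← msk_supp_k, card_msk, ← ek]
    exact ho1.2
  have hkL : k ∈ octL := mem_octL.mpr ⟨hk, hpc⟩
  have hchk := all48_spec ((List.all_eq_true.mp chk_all) k hkL) ha hb
  unfold chk at hchk
  have c1 : ([23, 0, 1, 2, 3].all (fun f => !(cw k).testBit f)) = true := by
    rw [List.all_eq_true]
    intro f hf
    have hf24 : f < 24 := by revert f; decide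
    have hnot : pt f ∉ h • o' := by
      simp only [List.mem_cons, List.not_mem_nil, or_false] at hf
      rcases hf with rfl | rfl | rfl | rfl | rfl
      · rw [← e1]; exact fun hx => (Finset.mem_sdiff.mp m1).2 (hmem.mp hx)
      · rw [← e2]; exact fun hx => (Finset.mem_sdiff.mp m2).2 (hmem.mp hx)
      · rw [← e3]; exact fun hx => (Finset.mem_sdiff.mp m3).2 (hmem.mp hx)
      · rw [← e4]; exact fun hx => (Finset.mem_sdiff.mp m4).2 (hmem.mp hx)
      · rw [← e5]; exact fun hx => (Finset.mem_sdiff.mp m5).2 (hmem.mp hx)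
    rw [ek, mem_supp, idx_pt f hf24] at hnot
    simpa using hnot
  have c2 : Nat.beq (pc (cw 2503 &&& cw k)) 2 = true := by
    have e : pc (cw 2503 &&& cw k) = 2 := by
      rw [← msk_supp_k 2503, ← msk_supp_k k, ← msk_inter, card_msk, ← hO, ← ek,
        ← Finset.smul_finset_inter, Finset.card_smul_finset, h2]
    rw [e]
    rfl
  have c3 : Nat.beq (imgM (cand ID7 a b) (cw k)) (cw k) = true := by
    have e : (h * g * h⁻¹) • supp k = supp k := by
      rw [← ek, mul_smul, mul_smul, inv_smul_smul, go']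
    rw [smul_eq_iff hF, msk_supp_k] at e
    rw [e]
    exact Nat.beq_refl _
  have c4 : ([5, 14, 17].all (fun i => (cw k).testBit i || Nat.beq (cand ID7 a b i) i)) = true := by
    rw [List.all_eq_true]
    intro i hi
    have hi24 : i < 24 := by revert i; decide
    have hiO : (cw 2503).testBit i = true := O0_mem i (by revert i; decide)
    rcases hb' : (cw k).testBit i with _ | _
    · rw [Bool.false_or]
      have hin : pt i ∈ h • o := by
        rw [hO, mem_supp, idx_pt i hi24]
        exact hiO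
      have hout : pt i ∉ h • o' := by
        rw [ek, mem_supp, idx_pt i hi24, hb']
        simp
      have hq : h (h⁻¹ (pt i)) = pt i := by simp
      rw [← hq] at hin hout
      have hfixq := hfix (h⁻¹ (pt i)) (Finset.mem_sdiff.mpr ⟨hmem.mp hin, fun hx => hout (hmem.mpr hx)⟩)
      have hfp : (h * g * h⁻¹) (pt i) = pt i := by
        rw [Equiv.Perm.mul_apply, Equiv.Perm.mul_apply, hfixq, hq]
      have := (isIdx_fix hF (pt i)).mp hfp
      rw [idx_pt i hi24] at this
      rw [this]
      exact Nat.beq_refl _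
    · rfl
  rw [c1, c2, c3, c4] at hchk
  simp only [Bool.not_true, Bool.false_or] at hchk
  have h1 := isId_of hF hchk
  have : g = h⁻¹ * (h * g * h⁻¹) * h := by group
  rw [this, h1]
  group

theorem mem_iff_of_smul {σ : Equiv.Perm GolayPt} {s : Finset GolayPt} (h : σ • s = s)
    (x : GolayPt) : σ x ∈ s ↔ x ∈ s := by
  conv_lhs => rw [← h]
  exact Finset.smul_mem_smul_finset_iff σ

theorem stab_o {o o' : Finset GolayPt}
    (g : ↥(MulAction.stabilizer ↥M24 o ⊓ MulAction.stabilizer ↥M24 o')) :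
    ((g : ↥M24) : Equiv.Perm GolayPt) • o = o :=
  MulAction.mem_stabilizer_iff.mp (Subgroup.mem_inf.mp g.2).1

theorem stab_o' {o o' : Finset GolayPt}
    (g : ↥(MulAction.stabilizer ↥M24 o ⊓ MulAction.stabilizer ↥M24 o')) :
    ((g : ↥M24) : Equiv.Perm GolayPt) • o' = o' :=
  MulAction.mem_stabilizer_iff.mp (Subgroup.mem_inf.mp g.2).2

theorem stab_iff {o o' : Finset GolayPt}
    (g : ↥(MulAction.stabilizer ↥M24 o ⊓ MulAction.stabilizer ↥M24 o')) (x : GolayPt) :
    ((g : ↥M24) : Equiv.Perm GolayPt) x ∈ o \ o' ↔ x ∈ o \ o' := by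
  rw [Finset.mem_sdiff, Finset.mem_sdiff, mem_iff_of_smul (stab_o g), mem_iff_of_smul (stab_o' g)]

def restr (o o' : Finset GolayPt) :
    ↥(MulAction.stabilizer ↥M24 o ⊓ MulAction.stabilizer ↥M24 o') →* Equiv.Perm ↥(o \ o') where
  toFun g := Equiv.Perm.subtypePerm ((g : ↥M24) : Equiv.Perm GolayPt) (stab_iff g)
  map_one' := by
    ext x
    rfl
  map_mul' a b := by
    ext x
    rfl

theorem restr_inj {o o' : Finset GolayPt} (ho : o ∈ octads) (ho' : o' ∈ octads)
    (h2 : (o ∩ o').card = 2) : Function.Injective (restr o o') := by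
  rw [injective_iff_map_eq_one]
  intro g hg1
  have hfix : ∀ p ∈ o \ o', ((g : ↥M24) : Equiv.Perm GolayPt) p = p := by
    intro p hp
    have := congrArg (fun f : Equiv.Perm ↥(o \ o') => (f ⟨p, hp⟩ : GolayPt)) hg1
    exact this
  have := ker_trivial (g : ↥M24).2 ho ho' h2 (stab_o' g) hfix
  exact Subtype.ext (Subtype.ext this)

/-- In the group of the length-24 code, the joint stabiliser of two octads meeting in exactly two points is isomorphic to the symmetric group of degree 6. -/
theorem result (o o' : Finset Cfsg.GolayPt) (ho : o ∈ Cfsg.octads) (ho' : o' ∈ Cfsg.octads) (h₂ : (o ∩ o').card = 2) : Nonempty (↥(MulAction.stabilizer Cfsg.M24 o ⊓ MulAction.stabilizer Cfsg.M24 o') ≃* Equiv.Perm (Fin 6)) := by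
  have hc6 : (o \ o').card = 6 := by
    have := Finset.card_sdiff_add_card_inter o o'
    rw [ho.2, h₂] at this
    omega
  have hK := (Cfsg.Agent.S5613.result o o' ho ho').2.2 h₂
  have hP : Nat.card (Equiv.Perm ↥(o \ o')) = 720 := by
    rw [Nat.card_perm, Nat.card_eq_fintype_card, Fintype.card_coe, hc6]
    rfl
  have hbij : Function.Bijective (restr o o') :=
    (restr_inj ho ho' h₂).bijective_of_nat_card_le (by rw [hP, hK])
  have e1 := MulEquiv.ofBijective (restr o o') hbij
  have e2 : ↥(o \ o') ≃ Fin 6 := Fintype.equivFinOfCardEq (by rw [Fintype.card_coe, hc6])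
  exact ⟨e1.trans e2.permCongrHom⟩


end Cfsg.Agent.S5614
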