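import Cfsg.Statements.S5615
import Cfsg.Agent.Lib.Helper3.M24Orb
import Cfsg.Agent.Lib.Helper3.M24OctA8
import Cfsg.Agent.Lib.Helper28.M24Stab

set_option autoImplicit false
open scoped Pointwise
open Cfsg

namespace Cfsg.Agent.S5615

open Cfsg.Agent.Lib.Helper3.Golay Cfsg.Agent.Lib.Helper3.Golay2
open Cfsg.Agent.Lib.Helper3.GolayM24 Cfsg.Agent.Lib.Helper3.M24Perm
open Cfsg.Agent.Lib.Helper3.M24Cert Cfsg.Agent.Lib.Helper3.M24Order
open Cfsg.Agent.Lib.Helper3.M24Trans Cfsg.Agent.Lib.Helper3.M24Oct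
open Cfsg.Agent.Lib.Helper3.M24Orb Cfsg.Agent.Lib.Helper3.M24OctA8
open scoped Pointwise

/-- the trio through two disjoint octads -/
def tr (o a : Finset GolayPt) : Finset (Finset GolayPt) := {o, a, (o ∪ a)ᶜ}

theorem smul_compl (g : Equiv.Perm GolayPt) (s : Finset GolayPt) : g • sᶜ = (g • s)ᶜ := by
  ext p
  rw [← Finset.inv_smul_mem_iff, Finset.mem_compl, Finset.mem_compl, Finset.inv_smul_mem_iff]

theorem smul_tr (g : Equiv.Perm GolayPt) (o a : Finset GolayPt) :
    g • tr o a = tr (g • o) (g • a) := by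
  unfold tr
  rw [Finset.smul_finset_insert, Finset.smul_finset_insert, Finset.smul_finset_singleton,
    smul_compl, Finset.smul_finset_union]

theorem oct_k (k : ℕ) (hk : k < 4096) (h : pc (cw k) = 8) : ms (cw k) ∈ octads :=
  ⟨(mem_supports_iff _).mpr ⟨k, hk, ms_cw k⟩, by rw [ms_cw, card_supp]; exact h⟩

theorem card0_iff {a b : Finset GolayPt} : (a ∩ b).card = 0 ↔ Disjoint a b := by
  rw [Finset.card_eq_zero, Finset.disjoint_iff_inter_eq_empty]

theorem disj_smul {g : Equiv.Perm GolayPt} {a b : Finset GolayPt} :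
    Disjoint (g • a) (g • b) ↔ Disjoint a b := by
  rw [← card0_iff, ← card0_iff, ← Finset.smul_finset_inter, Finset.card_smul_finset]

theorem to_std {o o' : Finset GolayPt} (ho : o ∈ octads) (ho' : o' ∈ octads) {k : ℕ}
    (hk : ms (cw k) ∈ octads) (h : (o ∩ o').card = (ms (cw 345) ∩ ms (cw k)).card) :
    ∃ g ∈ M24, g • o = ms (cw 345) ∧ g • o' = ms (cw k) := by
  obtain ⟨t, ht, e⟩ := octad_trans ho o0_mem_octads
  have h1 : (t • o ∩ t • o').card = (o ∩ o').card := by
    rw [← Finset.smul_finset_inter, Finset.card_smul_finset]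
  rw [e] at h1
  have h2 : (ms (cw 345) ∩ t • o').card = (ms (cw 345) ∩ ms (cw k)).card := by rw [h1, h]
  obtain ⟨s, hs, e1, e2⟩ :=
    octad_stab_orbits _ _ _ o0_mem_octads (smul_mem_octads ht ho') hk h2
  exact ⟨s * t, M24.mul_mem hs ht, by rw [mul_smul, e, e1], by rw [mul_smul, e2]⟩

theorem oct_ne_empty {a : Finset GolayPt} (ha : a ∈ octads) : a ≠ ∅ := by
  intro e
  have h := ha.2
  rw [e] at h
  simp at h

theorem ne_of_disj {a b : Finset GolayPt} (ha : a ∈ octads) (h : Disjoint a b) : a ≠ b := by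
  intro e
  subst e
  exact oct_ne_empty ha ((Finset.disjoint_self_iff_empty a).mp h)

theorem compl_oct {o a : Finset GolayPt} (ho : o ∈ octads) (ha : a ∈ octads)
    (h : Disjoint o a) : (o ∪ a)ᶜ ∈ octads := by
  refine ⟨?_, ?_⟩
  · have h1 := compl_mem_supports (symmDiff_mem_supports ho.1 ha.1)
    have e : symmDiff o a = o ∪ a := h.symmDiff_eq_sup
    rwa [e] at h1
  · rw [Finset.card_compl, Finset.card_union_of_disjoint h, ho.2, ha.2, card_golayPt]

theorem disj_compl_left {o a : Finset GolayPt} : Disjoint o (o ∪ a)ᶜ := by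
  rw [Finset.disjoint_left]
  intro p hp hc
  rw [Finset.mem_compl, Finset.mem_union] at hc
  exact hc (Or.inl hp)

theorem disj_compl_right {o a : Finset GolayPt} : Disjoint a (o ∪ a)ᶜ := by
  rw [Finset.disjoint_left]
  intro p hp hc
  rw [Finset.mem_compl, Finset.mem_union] at hc
  exact hc (Or.inr hp)

theorem tr_mem {o a : Finset GolayPt} (ho : o ∈ octads) (ha : a ∈ octads)
    (h : Disjoint o a) : tr o a ∈ trios := by
  have hc := compl_oct ho ha h
  have d1 : Disjoint o (o ∪ a)ᶜ := disj_compl_left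
  have d2 : Disjoint a (o ∪ a)ᶜ := disj_compl_right
  refine ⟨?_, ?_, ?_⟩
  · exact Finset.card_eq_three.mpr
      ⟨o, a, (o ∪ a)ᶜ, ne_of_disj ho h, ne_of_disj ho d1, ne_of_disj ha d2, rfl⟩
  · intro x hx
    simp only [tr, Finset.mem_insert, Finset.mem_singleton] at hx
    rcases hx with hx | hx | hx <;> rw [hx] <;> assumption
  · intro x hx y hy hne
    simp only [tr, Finset.mem_insert, Finset.mem_singleton] at hx hy
    rcases hx with hx | hx | hx <;> rcases hy with hy | hy | hy <;> rw [hx, hy] <;>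
      first
      | exact absurd (hx.trans hy.symm) hne
      | assumption
      | exact Disjoint.symm (by assumption)

theorem mem_tr_left (o a : Finset GolayPt) : o ∈ tr o a := by simp [tr]

theorem mem_tr_right (o a : Finset GolayPt) : a ∈ tr o a := by simp [tr]

theorem tr_of_mem {T : Finset (Finset GolayPt)} {o : Finset GolayPt} (hT : T ∈ trios)
    (ho : o ∈ T) : ∃ a ∈ octads, Disjoint o a ∧ T = tr o a := by
  obtain ⟨a, ha, hne⟩ := Finset.exists_mem_ne (by rw [hT.1]; norm_num : 1 < T.card) o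
  exact ⟨a, hT.2.1 a ha, hT.2.2 o ho a ha (Ne.symm hne),
    Cfsg.Agent.Lib.Helper28.M24Stab.trio_of_two hT ho ha (Ne.symm hne)⟩

theorem compl_compl_eq {o a : Finset GolayPt} (h : Disjoint o a) : (o ∪ (o ∪ a)ᶜ)ᶜ = a := by
  ext p
  simp only [Finset.mem_compl, Finset.mem_union]
  constructor
  · intro h1
    by_contra hpa
    exact h1 (Or.inr (fun h2 => h2.elim (fun hpo => h1 (Or.inl hpo)) hpa))
  · intro hp h1
    rcases h1 with hpo | h2
    · exact Finset.disjoint_left.mp h hpo hp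
    · exact h2 (Or.inr hp)

theorem tr_swap {o a : Finset GolayPt} (h : Disjoint o a) : tr o (o ∪ a)ᶜ = tr o a := by
  unfold tr
  rw [compl_compl_eq h]
  ext x
  simp only [Finset.mem_insert, Finset.mem_singleton]
  tauto

theorem tr_eq {o a b : Finset GolayPt} (hb : b ∈ octads) (hob : Disjoint o b)
    (e : tr o a = tr o b) : b = a ∨ b = (o ∪ a)ᶜ := by
  have h := mem_tr_right o b
  rw [← e] at h
  simp only [tr, Finset.mem_insert, Finset.mem_singleton] at h
  rcases h with h | h | h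
  · exfalso
    rw [h] at hb
    exact ne_of_disj hb hob h.symm
  · exact Or.inl h
  · exact Or.inr h

theorem eq_compl_of_disj {o a b : Finset GolayPt} (ho : o ∈ octads) (ha : a ∈ octads)
    (hb : b ∈ octads) (h : Disjoint o a) (h1 : Disjoint o b) (h2 : Disjoint a b) :
    b = (o ∪ a)ᶜ := by
  apply Finset.eq_of_subset_of_card_le
  · intro p hp
    rw [Finset.mem_compl, Finset.mem_union]
    rintro (hpo | hpa)
    · exact Finset.disjoint_left.mp h1 hpo hp
    · exact Finset.disjoint_left.mp h2 hpa hp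
  · rw [(compl_oct ho ha h).2, hb.2]

theorem meet4 {o a b : Finset GolayPt} (ho : o ∈ octads) (ha : a ∈ octads) (hb : b ∈ octads)
    (hoa : Disjoint o a) (hob : Disjoint o b) (hne : tr o a ≠ tr o b) : (a ∩ b).card = 4 := by
  have hab : a ≠ b := fun e => hne (by rw [e])
  have hc := compl_oct ho hb hob
  have hab' : a ≠ (o ∪ b)ᶜ := fun e => hne (by rw [e, tr_swap hob])
  rcases octads_inter_cases ha hb hab with h | h | h
  · exfalso
    exact hab' (eq_compl_of_disj ho hb ha hob hoa (card0_iff.mp h).symm)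
  · exfalso
    have h6 : (a ∩ (o ∪ b)ᶜ).card = 6 := by
      have hsplit : a ∩ (o ∪ b)ᶜ = a \ b := by
        ext p
        simp only [Finset.mem_inter, Finset.mem_compl, Finset.mem_union, Finset.mem_sdiff,
          not_or]
        constructor
        · rintro ⟨hp, -, hpb⟩
          exact ⟨hp, hpb⟩
        · rintro ⟨hp, hpb⟩
          exact ⟨hp, fun hpo => Finset.disjoint_left.mp hoa hpo hp, hpb⟩
      rw [hsplit]
      have h7 := Finset.card_sdiff_add_card_inter a b
      rw [ha.2, h] at h7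
      omega
    have h8 := octads_inter_le ha hc hab'
    omega
  · exact h

theorem o4_mem : ms (cw 30) ∈ octads := oct_k 30 (by norm_num) (by decide +kernel)

theorem meet_std : (ms (cw 345) ∩ ms (cw 30)).card = 4 := by
  rw [card_ms_inter]
  decide +kernel

theorem to_std4 {a b : Finset GolayPt} (ha : a ∈ octads) (hb : b ∈ octads)
    (h : (a ∩ b).card = 4) : ∃ g ∈ M24, g • a = ms (cw 345) ∧ g • b = ms (cw 30) :=
  to_std ha hb o4_mem (by rw [h, meet_std])

theorem w_cases : (List.range 4096).all (fun k => !(Nat.beq (pc (cw k)) 8) ||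
    !(Nat.beq (pc (cw 345 &&& cw k)) 0) || !(Nat.beq (pc (cw 30 &&& cw k)) 0) ||
    Nat.beq k 1172 || Nat.beq k 2772 || Nat.beq k 3648) = true := by decide +kernel

def t12 : ℕ := 403284467563911913918748480430739564

def t13 : ℕ := 714818689285165176928702861026558050

theorem t12_ok : inFix [cw 345, cw 30] [] t12 = true := by decide +kernel

theorem t13_ok : inFix [cw 345, cw 30] [] t13 = true := by decide +kernel

theorem t12_w : apm t12 (cw 1172) = cw 2772 := by decide +kernel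

theorem t13_w : apm t13 (cw 1172) = cw 3648 := by decide +kernel

theorem Qstd {w : Finset GolayPt} (hw : w ∈ octads) (h1 : Disjoint (ms (cw 345)) w)
    (h2 : Disjoint (ms (cw 30)) w) :
    ∃ s ∈ M24, s • ms (cw 345) = ms (cw 345) ∧ s • ms (cw 30) = ms (cw 30) ∧
      s • ms (cw 1172) = w := by
  obtain ⟨k, hk, rfl⟩ := (mem_supports_iff w).mp hw.1
  have h8 : pc (cw k) = 8 := by
    rw [← card_supp]
    exact hw.2
  rw [← ms_cw] at h1 h2 ⊢
  have e1 : pc (cw 345 &&& cw k) = 0 := by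
    rw [← card_ms_inter]
    exact card0_iff.mpr h1
  have e2 : pc (cw 30 &&& cw k) = 0 := by
    rw [← card_ms_inter]
    exact card0_iff.mpr h2
  have hc := List.all_eq_true.mp w_cases k (List.mem_range.mpr hk)
  simp only [Bool.or_eq_true, Bool.not_eq_true'] at hc
  rcases hc with ((((hc | hc) | hc) | hc) | hc) | hc
  · rw [h8] at hc
    exact absurd hc (by decide)
  · rw [e1] at hc
    exact absurd hc (by decide)
  · rw [e2] at hc
    exact absurd hc (by decide)
  · obtain rfl := Nat.eq_of_beq_eq_true hc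
    exact ⟨1, M24.one_mem, one_smul _ _, one_smul _ _, one_smul _ _⟩
  · obtain rfl := Nat.eq_of_beq_eq_true hc
    have hm := tp_mem_fixG t12_ok
    exact ⟨tp t12, hm.1, hm.2.1 _ (by simp), hm.2.1 _ (by simp),
      by rw [smul_ms (inFix_good t12_ok), t12_w]⟩
  · obtain rfl := Nat.eq_of_beq_eq_true hc
    have hm := tp_mem_fixG t13_ok
    exact ⟨tp t13, hm.1, hm.2.1 _ (by simp), hm.2.1 _ (by simp),
      by rw [smul_ms (inFix_good t13_ok), t13_w]⟩

theorem Q {a b w w' : Finset GolayPt} (ha : a ∈ octads) (hb : b ∈ octads)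
    (h : (a ∩ b).card = 4) (hw : w ∈ octads) (hw' : w' ∈ octads) (d1 : Disjoint a w)
    (d2 : Disjoint b w) (d1' : Disjoint a w') (d2' : Disjoint b w') :
    ∃ s ∈ M24, s • a = a ∧ s • b = b ∧ s • w = w' := by
  obtain ⟨g, hg, e1, e2⟩ := to_std4 ha hb h
  obtain ⟨s, hs, s1, s2, s3⟩ := Qstd (smul_mem_octads hg hw)
    (by rw [← e1]; exact disj_smul.mpr d1) (by rw [← e2]; exact disj_smul.mpr d2)
  obtain ⟨s', hs', s1', s2', s3'⟩ := Qstd (smul_mem_octads hg hw')
    (by rw [← e1]; exact disj_smul.mpr d1') (by rw [← e2]; exact disj_smul.mpr d2')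
  refine ⟨g⁻¹ * (s' * s⁻¹) * g,
    M24.mul_mem (M24.mul_mem (M24.inv_mem hg) (M24.mul_mem hs' (M24.inv_mem hs))) hg, ?_, ?_, ?_⟩
  · rw [mul_smul, mul_smul, e1, mul_smul, inv_smul_eq_iff.mpr s1.symm, s1', ← e1, inv_smul_smul]
  · rw [mul_smul, mul_smul, e2, mul_smul, inv_smul_eq_iff.mpr s2.symm, s2', ← e2, inv_smul_smul]
  · rw [mul_smul, mul_smul, mul_smul, inv_smul_eq_iff.mpr s3.symm, s3', inv_smul_smul]

theorem part2 {o : Finset GolayPt} (ho : o ∈ octads) {T₁ T₂ T₁' T₂' : Finset (Finset GolayPt)}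
    (h1 : T₁ ∈ trios) (h2 : T₂ ∈ trios) (h1' : T₁' ∈ trios) (h2' : T₂' ∈ trios)
    (m1 : o ∈ T₁) (m2 : o ∈ T₂) (m1' : o ∈ T₁') (m2' : o ∈ T₂') (hne : T₁ ≠ T₂)
    (hne' : T₁' ≠ T₂') : ∃ g ∈ M24, g • o = o ∧ g • T₁ = T₁' ∧ g • T₂ = T₂' := by
  obtain ⟨a, ha, da, rfl⟩ := tr_of_mem h1 m1
  obtain ⟨b, hb, db, rfl⟩ := tr_of_mem h2 m2
  obtain ⟨a', ha', da', rfl⟩ := tr_of_mem h1' m1'
  obtain ⟨b', hb', db', rfl⟩ := tr_of_mem h2' m2'
  have e4 := meet4 ho ha hb da db hne
  have e4' := meet4 ho ha' hb' da' db' hne'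
  obtain ⟨g, hg, g1, g2⟩ := to_std4 ha hb e4
  obtain ⟨g', hg', g1', g2'⟩ := to_std4 ha' hb' e4'
  have f1 : (g'⁻¹ * g) • a = a' := by rw [mul_smul, g1, ← g1', inv_smul_smul]
  have f2 : (g'⁻¹ * g) • b = b' := by rw [mul_smul, g2, ← g2', inv_smul_smul]
  have hf : g'⁻¹ * g ∈ M24 := M24.mul_mem (M24.inv_mem hg') hg
  obtain ⟨s, hs, s1, s2, s3⟩ := Q ha' hb' e4' (smul_mem_octads hf ho) ho
    (by rw [← f1]; exact (disj_smul.mpr da).symm) (by rw [← f2]; exact (disj_smul.mpr db).symm)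
    da'.symm db'.symm
  refine ⟨s * (g'⁻¹ * g), M24.mul_mem hs hf, ?_, ?_, ?_⟩
  · rw [mul_smul, s3]
  · rw [smul_tr, mul_smul, s3, mul_smul, f1, s1]
  · rw [smul_tr, mul_smul, s3, mul_smul, f2, s2]

theorem k0_chk : ts7.all (fun T => (List.range 4096).all (fun k => !(Nat.beq (pc (cw k)) 8) ||
    !(Nat.beq (pc (cw 345 &&& cw k)) 0) || Nat.beq (apm T (cw k)) (cw k) ||
    Nat.beq (pc (apm T (cw k) &&& cw k)) 0)) = true := by decide +kernel

theorem fix_std {g : Equiv.Perm GolayPt} (hg : g ∈ M24) (hfix : ∀ p ∈ ms (cw 345), g p = p)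
    {T : Finset (Finset GolayPt)} (hT : T ∈ trios) (hoT : ms (cw 345) ∈ T) : g • T = T := by
  have hgo : g • ms (cw 345) = ms (cw 345) := smul_eq_of_fix hfix
  have hmem : g ∈ fixG [cw 345] [7, 4, 3, 2, 1, 0] := by
    refine ⟨hg, ?_, ?_⟩
    · intro D hD
      rw [List.mem_singleton] at hD
      rw [hD]
      exact hgo
    · intro i hi
      apply hfix
      have hi24 : i < 24 := by
        simp only [List.mem_cons, List.not_mem_nil, or_false] at hi
        omega
      exact (pt_mem_ms hi24).mpr (base_in_o0 i hi)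
  obtain ⟨T0, hT0, hin, rfl⟩ := K0_enum hmem
  have hgood := inFix_good hin
  obtain ⟨a, ha, da, rfl⟩ := tr_of_mem hT hoT
  obtain ⟨k, hk, rfl⟩ := (mem_supports_iff a).mp ha.1
  have h8 : pc (cw k) = 8 := by
    rw [← card_supp]
    exact ha.2
  rw [← ms_cw] at da ha ⊢
  have e1 : pc (cw 345 &&& cw k) = 0 := by
    rw [← card_ms_inter]
    exact card0_iff.mpr da
  have hc := List.all_eq_true.mp (List.all_eq_true.mp k0_chk T0 hT0) k (List.mem_range.mpr hk)
  simp only [Bool.or_eq_true, Bool.not_eq_true'] at hc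
  rw [smul_tr, hgo, smul_ms hgood]
  rcases hc with ((hc | hc) | hc) | hc
  · rw [h8] at hc
    exact absurd hc (by decide)
  · rw [e1] at hc
    exact absurd hc (by decide)
  · rw [Nat.eq_of_beq_eq_true hc]
  · have hb : ms (apm T0 (cw k)) ∈ octads := by
      rw [← smul_ms hgood]
      exact smul_mem_octads hg ha
    have d2 : Disjoint (ms (cw k)) (ms (apm T0 (cw k))) := by
      rw [← card0_iff, card_ms_inter, Nat.land_comm]
      exact Nat.eq_of_beq_eq_true hc
    have d3 : Disjoint (ms (cw 345)) (ms (apm T0 (cw k))) := by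
      have h3 := (disj_smul (g := tp T0)).mpr da
      rwa [hgo, smul_ms hgood] at h3
    rw [eq_compl_of_disj o0_mem_octads ha hb da d3 d2, tr_swap da]

theorem fix_trios {o : Finset GolayPt} (ho : o ∈ octads) {g : Equiv.Perm GolayPt}
    (hg : g ∈ M24) (hfix : ∀ p ∈ o, g p = p) {T : Finset (Finset GolayPt)} (hT : T ∈ trios)
    (hoT : o ∈ T) : g • T = T := by
  obtain ⟨h, hh, rfl⟩ := octad_trans o0_mem_octads ho
  have hg' : h⁻¹ * g * h ∈ M24 := M24.mul_mem (M24.mul_mem (M24.inv_mem hh) hg) hh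
  have hfix' : ∀ p ∈ ms (cw 345), (h⁻¹ * g * h) p = p := by
    intro p hp
    have hm : h p ∈ h • ms (cw 345) := Finset.smul_mem_smul_finset hp
    have e := hfix (h p) hm
    rw [Equiv.Perm.mul_apply, Equiv.Perm.mul_apply, e]
    simp
  have hT' : h⁻¹ • T ∈ trios :=
    Cfsg.Agent.Lib.Helper28.M24Sext.smul_trio (M24.inv_mem hh) hT
  have hoT' : ms (cw 345) ∈ h⁻¹ • T := by
    rw [← Finset.inv_smul_mem_iff, inv_inv]
    exact hoT
  have key := fix_std hg' hfix' hT' hoT'
  rw [mul_smul, smul_inv_smul, mul_smul] at key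
  exact smul_left_cancel _ key

def L15 : List ℕ :=
  [101, 434, 471, 575, 602, 909, 1000, 1172, 1265, 1318, 1347, 1707, 1742, 1817, 1916]

theorem L15_ok : L15.all (fun k => Nat.blt k 4096 && Nat.beq (pc (cw k)) 8 &&
    Nat.beq (pc (cw 345 &&& cw k)) 0) = true := by decide +kernel

theorem L15_nd : L15.all (fun k => L15.all (fun k' =>
    !(Nat.beq (pc (cw k' &&& cw k)) 0))) = true := by decide +kernel

theorem L15_cov : (List.range 4096).all (fun k => !(Nat.beq (pc (cw k)) 8) ||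
    !(Nat.beq (pc (cw 345 &&& cw k)) 0) ||
    L15.any (fun k' => Nat.beq k' k || Nat.beq (pc (cw k' &&& cw k)) 0)) = true := by
  decide +kernel

theorem L15_spec {k : ℕ} (hk : k ∈ L15) :
    k < 4096 ∧ ms (cw k) ∈ octads ∧ Disjoint (ms (cw 345)) (ms (cw k)) := by
  have h := List.all_eq_true.mp L15_ok k hk
  simp only [Bool.and_eq_true, Nat.blt_eq] at h
  obtain ⟨⟨h1, h2⟩, h3⟩ := h
  exact ⟨h1, oct_k k h1 (Nat.eq_of_beq_eq_true h2), by
    rw [← card0_iff, card_ms_inter]
    exact Nat.eq_of_beq_eq_true h3⟩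

theorem std_set : {T : Finset (Finset GolayPt) | T ∈ trios ∧ ms (cw 345) ∈ T} =
    (fun k => tr (ms (cw 345)) (ms (cw k))) '' {k | k ∈ L15} := by
  ext T
  constructor
  · rintro ⟨hT, hoT⟩
    obtain ⟨a, ha, da, rfl⟩ := tr_of_mem hT hoT
    obtain ⟨k, hk, rfl⟩ := (mem_supports_iff a).mp ha.1
    have h8 : pc (cw k) = 8 := by
      rw [← card_supp]
      exact ha.2
    rw [← ms_cw] at da ha ⊢
    have e1 : pc (cw 345 &&& cw k) = 0 := by
      rw [← card_ms_inter]
      exact card0_iff.mpr da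
    have hc := List.all_eq_true.mp L15_cov k (List.mem_range.mpr hk)
    simp only [Bool.or_eq_true, Bool.not_eq_true', List.any_eq_true] at hc
    rcases hc with (hc | hc) | ⟨k', hk', hc⟩
    · rw [h8] at hc
      exact absurd hc (by decide)
    · rw [e1] at hc
      exact absurd hc (by decide)
    · refine ⟨k', hk', ?_⟩
      show tr (ms (cw 345)) (ms (cw k')) = tr (ms (cw 345)) (ms (cw k))
      rcases hc with hc | hc
      · rw [Nat.eq_of_beq_eq_true hc]
      · obtain ⟨-, ha', da'⟩ := L15_spec hk'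
        have d2 : Disjoint (ms (cw k')) (ms (cw k)) := by
          rw [← card0_iff, card_ms_inter]
          exact Nat.eq_of_beq_eq_true hc
        rw [eq_compl_of_disj o0_mem_octads ha' ha da' da d2, tr_swap da']
  · rintro ⟨k, hk, rfl⟩
    obtain ⟨-, ha, da⟩ := L15_spec hk
    exact ⟨tr_mem o0_mem_octads ha da, mem_tr_left _ _⟩

theorem std_inj : Set.InjOn (fun k => tr (ms (cw 345)) (ms (cw k))) {k | k ∈ L15} := by
  intro k hk k' hk' e
  have e' : tr (ms (cw 345)) (ms (cw k)) = tr (ms (cw 345)) (ms (cw k')) := e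
  obtain ⟨h1, ha, da⟩ := L15_spec hk
  obtain ⟨h1', ha', da'⟩ := L15_spec hk'
  rcases tr_eq ha' da' e' with h | h
  · rw [ms_cw, ms_cw] at h
    exact (supp_injOn k' h1' k h1 h).symm
  · exfalso
    have d : Disjoint (ms (cw k)) (ms (cw k')) := by
      rw [h]
      exact disj_compl_right
    have h0 : pc (cw k &&& cw k') = 0 := by
      rw [← card_ms_inter]
      exact card0_iff.mpr d
    have hn := List.all_eq_true.mp (List.all_eq_true.mp L15_nd k' hk') k hk
    rw [h0] at hn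
    exact absurd hn (by decide)

theorem card_std :
    {T : Finset (Finset GolayPt) | T ∈ trios ∧ ms (cw 345) ∈ T}.ncard = 15 := by
  rw [std_set, Set.ncard_image_of_injOn std_inj]
  have e : {k | k ∈ L15} = ((L15.toFinset : Finset ℕ) : Set ℕ) := by
    ext k
    simp
  rw [e, Set.ncard_coe_finset]
  decide

theorem part1 {o : Finset GolayPt} (ho : o ∈ octads) :
    {T : Finset (Finset GolayPt) | T ∈ trios ∧ o ∈ T}.ncard = 15 := by
  obtain ⟨h, hh, rfl⟩ := octad_trans o0_mem_octads ho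
  have e : {T : Finset (Finset GolayPt) | T ∈ trios ∧ h • ms (cw 345) ∈ T} =
      (fun T => h • T) '' {T : Finset (Finset GolayPt) | T ∈ trios ∧ ms (cw 345) ∈ T} := by
    ext T
    constructor
    · rintro ⟨hT, hoT⟩
      refine ⟨h⁻¹ • T,
        ⟨Cfsg.Agent.Lib.Helper28.M24Sext.smul_trio (M24.inv_mem hh) hT, ?_⟩, smul_inv_smul h T⟩
      rw [← Finset.inv_smul_mem_iff, inv_inv]
      exact hoT
    · rintro ⟨T', ⟨hT', hoT'⟩, rfl⟩
      exact ⟨Cfsg.Agent.Lib.Helper28.M24Sext.smul_trio hh hT', Finset.smul_mem_smul_finset hoT'⟩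
  rw [e, Set.ncard_image_of_injective _ (MulAction.injective h), card_std]

/-- the elements of the stabiliser of `o` fixing every trio through `o` -/
def NT (o : Finset GolayPt) : Subgroup ↥(stabO o) where
  carrier := {k | ∀ T ∈ trios, o ∈ T → (k : Equiv.Perm GolayPt) • T = T}
  one_mem' := fun T _ _ => one_smul _ T
  mul_mem' := by
    intro x y hx hy T hT hoT
    show ((x : Equiv.Perm GolayPt) * (y : Equiv.Perm GolayPt)) • T = T
    rw [mul_smul, hy T hT hoT, hx T hT hoT]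
  inv_mem' := by
    intro x hx T hT hoT
    show (x : Equiv.Perm GolayPt)⁻¹ • T = T
    rw [inv_smul_eq_iff, hx T hT hoT]

theorem NT_normal (o : Finset GolayPt) : (NT o).Normal := by
  constructor
  intro n hn k T hT hoT
  show ((k : Equiv.Perm GolayPt) * (n : Equiv.Perm GolayPt) * (k : Equiv.Perm GolayPt)⁻¹) • T = T
  have hk := mem_stabO.mp k.2
  have hT' : (k : Equiv.Perm GolayPt)⁻¹ • T ∈ trios :=
    Cfsg.Agent.Lib.Helper28.M24Sext.smul_trio (M24.inv_mem hk.1) hT
  have hoT' : o ∈ (k : Equiv.Perm GolayPt)⁻¹ • T := by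
    rw [← Finset.inv_smul_mem_iff, inv_inv, hk.2]
    exact hoT
  rw [mul_smul, mul_smul, hn _ hT' hoT', smul_inv_smul]

theorem fix_pts {o : Finset GolayPt} (ho : o ∈ octads) {g : Equiv.Perm GolayPt} (hg : g ∈ M24)
    (hgo : g • o = o) (hT : ∀ T ∈ trios, o ∈ T → g • T = T) : ∀ p ∈ o, g p = p := by
  have hsimple : IsSimpleGroup ↥(resHom o).range := by
    rw [range_resHom ho]
    exact alternatingGroup.isSimpleGroup
      (by rw [Nat.card_eq_fintype_card, Fintype.card_coe, ho.2]; norm_num)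
  have hmap : ((NT o).map (resHom o).rangeRestrict).Normal :=
    (NT_normal o).map _ (resHom o).rangeRestrict_surjective
  have hgK : g ∈ stabO o := mem_stabO.mpr ⟨hg, hgo⟩
  rcases hmap.eq_bot_or_eq_top with h | h
  · have h1 : (resHom o).rangeRestrict ⟨g, hgK⟩ ∈ (NT o).map (resHom o).rangeRestrict :=
      Subgroup.mem_map_of_mem _ (show (⟨g, hgK⟩ : stabO o) ∈ NT o from hT)
    rw [h, Subgroup.mem_bot] at h1
    have h2 : (⟨g, hgK⟩ : stabO o) ∈ (resHom o).ker := by
      rw [MonoidHom.mem_ker]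
      exact congrArg Subtype.val h1
    exact (mem_ker_resHom _).mp h2
  · exfalso
    have hall : ∀ k : stabO o, k ∈ NT o := by
      intro k
      have hk : (resHom o).rangeRestrict k ∈ (NT o).map (resHom o).rangeRestrict := by
        rw [h]
        exact Subgroup.mem_top _
      obtain ⟨n, hn, e⟩ := Subgroup.mem_map.mp hk
      have e' : resHom o n = resHom o k := congrArg Subtype.val e
      have hker : n⁻¹ * k ∈ (resHom o).ker := by
        rw [MonoidHom.mem_ker, map_mul, map_inv, e', inv_mul_cancel]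
      have hk' : n⁻¹ * k ∈ NT o := fun T hT hoT =>
        fix_trios ho (mem_stabO.mp (n⁻¹ * k).2).1 ((mem_ker_resHom _).mp hker) hT hoT
      have h3 := (NT o).mul_mem hn hk'
      rwa [mul_inv_cancel_left] at h3
    have hfin : 1 < {T : Finset (Finset GolayPt) | T ∈ trios ∧ o ∈ T}.ncard := by
      rw [part1 ho]
      norm_num
    obtain ⟨T1, T2, ⟨hT1, ho1⟩, ⟨hT2, ho2⟩, hne⟩ :=
      (Set.one_lt_ncard_iff (Set.toFinite _)).mp hfin
    obtain ⟨a, ha, da, rfl⟩ := tr_of_mem hT1 ho1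
    obtain ⟨b, hb, db, rfl⟩ := tr_of_mem hT2 ho2
    obtain ⟨k, hk, hko, hkab⟩ := octad_stab_orbits o a b ho ha hb
      (by rw [card0_iff.mpr da, card0_iff.mpr db])
    have h4 : k • tr o a = tr o a := hall ⟨k, mem_stabO.mpr ⟨hk, hko⟩⟩ (tr o a) hT1 ho1
    have h5 : k • tr o a = tr o b := by rw [smul_tr, hko, hkab]
    exact hne (h4.symm.trans h5)

theorem result (o : Finset Cfsg.GolayPt) (ho : o ∈ Cfsg.octads) : {T : Finset (Finset Cfsg.GolayPt) | T ∈ Cfsg.trios ∧ o ∈ T}.ncard = 15 ∧ (∀ T₁ T₂ T₁' T₂' : Finset (Finset Cfsg.GolayPt), T₁ ∈ Cfsg.trios → T₂ ∈ Cfsg.trios → T₁' ∈ Cfsg.trios → T₂' ∈ Cfsg.trios → o ∈ T₁ → o ∈ T₂ → o ∈ T₁' → o ∈ T₂' → T₁ ≠ T₂ → T₁' ≠ T₂' → ∃ g ∈ Cfsg.M24, g • o = o ∧ g • T₁ = T₁' ∧ g • T₂ = T₂') ∧ ∀ g ∈ Cfsg.M24, g • o = o → ((∀ T ∈ Cfsg.trios, o ∈ T → g • T = T) ↔ ∀ p ∈ o, g p = p) := by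
  refine ⟨part1 ho, ?_, ?_⟩
  · intro T₁ T₂ T₁' T₂' h1 h2 h1' h2' m1 m2 m1' m2' hne hne'
    exact part2 ho h1 h2 h1' h2' m1 m2 m1' m2' hne hne'
  · intro g hg hgo
    exact ⟨fun hT => fix_pts ho hg hgo hT, fun hfix T hT hoT => fix_trios ho hg hfix hT hoT⟩

end Cfsg.Agent.S5615
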