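import Cfsg.Statements.S5618
import Cfsg.Agent.Lib.Helper3.M24Dod
import Cfsg.Agent.Lib.Helper11.M24Conj
import Cfsg.Agent.Lib.Helper11.Quartet

set_option autoImplicit false
open scoped Pointwise
open Cfsg

namespace Cfsg.Agent.S5618

open Cfsg.Agent.Lib.Helper3.Golay Cfsg.Agent.Lib.Helper3.Golay2
open Cfsg.Agent.Lib.Helper3.M24Perm Cfsg.Agent.Lib.Helper3.M24Cert
open Cfsg.Agent.Lib.Helper3.M24Trans Cfsg.Agent.Lib.Helper3.M24Dod
open Cfsg.Agent.Lib.Helper11.M24Conj Cfsg.Agent.Lib.Helper11.Quartet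

def tsL1 : List ℕ := [944576703234065857180591671912828960, 612110057218862179031494267127279713, 853620037198861918109240081004236834, 892735891774019106164213520671967619, 845845152040342739738744012192985092, 818627810029972980200213358873480204]

def tsL2 : List ℕ := [944576703234065857180591671912828960, 713590533765825213764347000323616832, 962591088188025730940660674436567136, 850471359967477640029715620848316544, 808032988094098899595515867536887168]

def tsL3 : List ℕ := [487607080158395075740321133224921120, 479615814718145721167653181377874976, 944576703234065857180591671912828960, 479623986318016222713448381946146848]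

def tsL4 : List ℕ := [970499966350631336865513127433832480, 487607080158395075740321133224921120, 928718206277989008510816407558424608]

def tsL5 : List ℕ := [984818244535754528103549039458486304, 970499966350631336865513127433832480]

theorem l1 : levelCheck [cw 1, 4127] [] tsL1 0 4127 6 = true := by decide +kernel

theorem l2 : levelCheck [cw 1, 4127] [0] tsL2 1 4126 5 = true := by decide +kernel

theorem l3 : levelCheck [cw 1, 4127] [1, 0] tsL3 2 4124 4 = true := by decide +kernel

theorem l4 : levelCheck [cw 1, 4127] [2, 1, 0] tsL4 3 4120 3 = true := by decide +kernel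

theorem l5 : levelCheck [cw 1, 4127] [3, 2, 1, 0] tsL5 4 4112 2 = true := by decide +kernel

def x5 : Fin 5 ↪ GolayPt := ⟨fun i => pt (![0, 1, 2, 3, 4] i), by decide⟩

theorem x5_mem : ∀ i, x5 i ∈ ms (cw 1) := by decide

theorem x5_in : ∀ i, x5 i ∈ ms 4127 := by decide

theorem bot5 : fixG [cw 1, 4127] [4, 3, 2, 1, 0] = ⊥ := by
  rw [eq_bot_iff]
  intro g hg
  rw [mem_fixG] at hg
  obtain ⟨hM, hD, hF⟩ := hg
  rw [Subgroup.mem_bot]
  refine m12_unique d0_mem x5 x5_mem hM (hD (cw 1) (by simp)) (fun i => ?_)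
  fin_cases i
  · exact hF 0 (by simp)
  · exact hF 1 (by simp)
  · exact hF 2 (by simp)
  · exact hF 3 (by simp)
  · exact hF 4 (by simp)

theorem card_K0 : Nat.card (fixG [cw 1, 4127] []) = 720 := by
  rw [level_card l1 (by decide), level_card l2 (by decide), level_card l3 (by decide),
    level_card l4 (by decide), level_card l5 (by decide), bot5, Subgroup.card_bot]

theorem std_iso : Nonempty (↥(fixG [cw 1, 4127] []) ≃* Equiv.Perm (Fin 6)) := by
  apply perm_iso_of_faithful (fixG [cw 1, 4127] []) (ms 4127) 6 (by rw [card_ms]; decide)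
  · intro g hg x
    rw [mem_fixG] at hg
    have h : g • ms 4127 = ms 4127 := hg.2.1 4127 (by simp)
    constructor
    · intro hx
      rw [← h] at hx
      exact (Finset.smul_mem_smul_finset_iff g).mp hx
    · intro hx
      rw [← h]
      exact Finset.smul_mem_smul_finset hx
  · intro g hg hfix
    rw [mem_fixG] at hg
    exact m12_unique d0_mem x5 x5_mem hg.1 (hg.2.1 _ (by simp)) (fun i => hfix _ (x5_in i))
  · rw [card_K0]
    rfl

theorem exists_emb5 {s : Finset GolayPt} (hs : 5 ≤ s.card) :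
    ∃ x : Fin 5 ↪ GolayPt, ∀ i, x i ∈ s := by
  obtain ⟨t, hts, ht⟩ := Finset.exists_subset_card_eq hs
  refine ⟨(t.equivFinOfCardEq ht).symm.toEmbedding.trans (Function.Embedding.subtype _), ?_⟩
  intro i
  exact hts ((t.equivFinOfCardEq ht).symm i).2

theorem faithful_on {d : Finset GolayPt} (hd : d ∈ dodecads) {s : Finset GolayPt} (hsd : s ⊆ d)
    (hs : 5 ≤ s.card) (g : ↥Cfsg.M24) (hg : g ∈ MulAction.stabilizer Cfsg.M24 d)
    (hfix : ∀ p ∈ s, ((g : ↥Cfsg.M24) : Equiv.Perm Cfsg.GolayPt) p = p) : g = 1 := by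
  obtain ⟨x, hx⟩ := exists_emb5 hs
  apply Subtype.ext
  exact m12_unique hd x (fun i => hsd (hx i)) g.2 hg (fun i => hfix _ (hx i))

theorem result (d : Finset Cfsg.GolayPt) (hd : d ∈ Cfsg.dodecads) (C : Finset Cfsg.GolayPt) (hC : C ∈ Cfsg.hexadsOn d) : Nonempty (↥(MulAction.stabilizer Cfsg.M24 d ⊓ MulAction.stabilizer Cfsg.M24 C) ≃* Equiv.Perm (Fin 6)) ∧ (∀ g ∈ MulAction.stabilizer Cfsg.M24 d ⊓ MulAction.stabilizer Cfsg.M24 C, (∀ p ∈ C, ((g : ↥Cfsg.M24) : Equiv.Perm Cfsg.GolayPt) p = p) → g = 1) ∧ ∀ g ∈ MulAction.stabilizer Cfsg.M24 d ⊓ MulAction.stabilizer Cfsg.M24 C, (∀ p ∈ d \ C, ((g : ↥Cfsg.M24) : Equiv.Perm Cfsg.GolayPt) p = p) → g = 1 := by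
  have hCd : C ⊆ d := Cfsg.Agent.Lib.Helper11.Quartet.hexad_subset hC
  have hC6 : C.card = 6 := hC.1
  refine ⟨?_, ?_, ?_⟩
  · obtain ⟨t, htC, ht3⟩ := Finset.exists_subset_card_eq (s := C) (n := 3) (by omega)
    have hu3 : (C \ t).card = 3 := by
      rw [Finset.card_sdiff_of_subset htC, hC6, ht3]
    have hun : t ∪ C \ t = C := Finset.union_sdiff_of_subset htC
    obtain ⟨u, hu, hud, hut, huu⟩ := Cfsg.Agent.Lib.Helper11.Quartet.exists_std_pair hd ht3 hu3
      Finset.disjoint_sdiff (by rw [hun]; exact hC)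
    have huC : u • Cfsg.Agent.Lib.Helper3.M24Perm.ms 4127 = C := by
      rw [← Cfsg.Agent.Lib.Helper11.Quartet.ms4127, Finset.smul_finset_union, hut, huu, hun]
    obtain ⟨E⟩ := Cfsg.Agent.Lib.Helper11.M24Conj.conj_iso Cfsg.M24 hu
      (Cfsg.Agent.Lib.Helper3.M24Cert.fixG [Cfsg.Agent.Lib.Helper3.Golay.cw 1, 4127] [])
      (fun g hg => (Cfsg.Agent.Lib.Helper3.M24Cert.mem_fixG.mp hg).1)
      (MulAction.stabilizer Cfsg.M24 d ⊓ MulAction.stabilizer Cfsg.M24 C) (by
      intro g
      rw [Subgroup.mem_inf, Cfsg.Agent.Lib.Helper3.M24Cert.mem_fixG]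
      constructor
      · rintro ⟨h1, h2⟩
        refine ⟨mul_mem (mul_mem (inv_mem hu) g.2) hu, ?_, ?_⟩
        · intro D hD
          simp only [List.mem_cons, List.not_mem_nil, or_false] at hD
          rcases hD with rfl | rfl
          · exact (Cfsg.Agent.Lib.Helper11.M24Conj.conj_smul_iff hud).mpr h1
          · exact (Cfsg.Agent.Lib.Helper11.M24Conj.conj_smul_iff huC).mpr h2
        · intro i hi
          simp at hi
      · rintro ⟨_, hD, _⟩
        exact ⟨(Cfsg.Agent.Lib.Helper11.M24Conj.conj_smul_iff hud).mp (hD _ (by simp)),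
          (Cfsg.Agent.Lib.Helper11.M24Conj.conj_smul_iff huC).mp (hD _ (by simp))⟩)
    obtain ⟨E'⟩ := std_iso
    exact ⟨E.trans E'⟩
  · intro g hg hfix
    exact faithful_on hd hCd (by omega) g (Subgroup.mem_inf.mp hg).1 hfix
  · intro g hg hfix
    have hc : (d \ C).card = 6 := by
      rw [Finset.card_sdiff_of_subset hCd, hC6, hd.2]
    exact faithful_on hd Finset.sdiff_subset (by omega) g (Subgroup.mem_inf.mp hg).1 hfix

end Cfsg.Agent.S5618
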