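import Cfsg.Statements.S5620
import Mathlib
import Cfsg.Agent.Lib.Helper3.GolayM24

set_option autoImplicit false
open scoped Pointwise
open Cfsg

namespace Cfsg.Agent.S5620

open Cfsg.Agent.Lib.Helper3.Golay Cfsg.Agent.Lib.Helper3.GolayM24
open scoped Pointwise

def shiftP : Equiv.Perm GolayPt := Equiv.optionCongr (Equiv.addRight (1 : ZMod 23))

def mul2 : Equiv.Perm GolayPt where
  toFun := Option.map (fun x => 2 * x)
  invFun := Option.map (fun x => 12 * x)
  left_inv := by decide
  right_inv := by decide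

def ksMul2 : List ℕ := [1, 4, 16, 64, 256, 1024, 1478, 734, 411, 1644, 1685, 1393, 2, 8, 32, 128, 512, 739, 367, 1468, 822, 1595, 1993]

theorem mul2_check : ∀ t : ZMod 23, ∀ p : GolayPt,
    qrWord t p = dec (cw (ksMul2.getD (ZMod.val t) 0)) (mul2 p) := by
  decide +kernel

theorem mul2_mem : mul2 ∈ M24 := mem_M24_of_check mul2 ksMul2 mul2_check

noncomputable def hP : Equiv.Perm GolayPt :=
  shiftP * cubeTwist * shiftP * mul2 * cubeTwist * shiftP * shiftP * projInv * cubeTwist *
    cubeTwist * cubeTwist * shiftP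

theorem hP_mem : hP ∈ M24 := by
  unfold hP
  have hs : shiftP ∈ M24 := shift_mem
  have hc := cubeTwist_mem
  have hp := projInv_mem
  have hm := mul2_mem
  exact M24.mul_mem (M24.mul_mem (M24.mul_mem (M24.mul_mem (M24.mul_mem (M24.mul_mem (M24.mul_mem
    (M24.mul_mem (M24.mul_mem (M24.mul_mem (M24.mul_mem hs hc) hs) hm) hc) hs) hs) hp) hc) hc) hc) hs

theorem smul_eq_of_forall (g : Equiv.Perm GolayPt) (Q Q' : Finset GolayPt)
    (h : ∀ p : GolayPt, p ∈ Q ↔ g p ∈ Q') : g • Q = Q' := by
  ext x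
  rw [← Finset.inv_smul_mem_iff, h]
  simp

theorem hP_Q : ∀ p : GolayPt, p ∈ Spor.squareDodecad ↔ hP p ∈ Spor.squareDodecad := by
  decide +kernel

theorem hP_zero : hP (some 0) = some 0 := by
  decide +kernel

theorem hP_none : hP none ≠ none := by
  decide +kernel

theorem mul2_Q : ∀ p : GolayPt, p ∈ Spor.squareDodecad ↔ mul2 p ∈ Spor.squareDodecad := by
  decide +kernel

theorem mul2_fix : ∀ p : GolayPt, mul2 p = p → p = none ∨ p = some 0 := by
  decide +kernel

theorem projInv_Q : ∀ p : GolayPt,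
    p ∈ Spor.squareDodecad ↔ projInv p ∈ Finset.univ \ Spor.squareDodecad := by
  decide +kernel

theorem zero_mem_Q : (some 0 : GolayPt) ∈ Spor.squareDodecad := by
  decide +kernel

theorem none_notMem_Q : (none : GolayPt) ∉ Spor.squareDodecad := by
  decide +kernel

theorem mem_M11_iff (y : Equiv.Perm GolayPt) :
    y ∈ Spor.M11 ↔ y ∈ M24 ∧ y • Spor.squareDodecad = Spor.squareDodecad ∧
      y • (some 0 : GolayPt) = some 0 :=
  ⟨fun h => ⟨h.1.1, h.1.2, h.2⟩, fun h => ⟨⟨h.1, h.2.1⟩, h.2.2⟩⟩

theorem mem_M12none_iff (y : Equiv.Perm GolayPt) :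
    y ∈ Spor.M12 ⊓ MulAction.stabilizer (Equiv.Perm GolayPt) (none : GolayPt) ↔
      y ∈ M24 ∧ y • Spor.squareDodecad = Spor.squareDodecad ∧ y • (none : GolayPt) = none :=
  ⟨fun h => ⟨h.1.1, h.1.2, h.2⟩, fun h => ⟨⟨h.1, h.2.1⟩, h.2.2⟩⟩

theorem mem_conj_M11 (k x : Equiv.Perm GolayPt) (hk : k ∈ M24) :
    x ∈ MulAut.conj k • Spor.M11 ↔
      x ∈ M24 ∧ x • (k • Spor.squareDodecad) = k • Spor.squareDodecad ∧
        x • (k • (some 0 : GolayPt)) = k • (some 0 : GolayPt) := by
  rw [Subgroup.mem_pointwise_smul_iff_inv_smul_mem]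
  have h1 : (MulAut.conj k)⁻¹ • x = k⁻¹ * x * k := by
    simp [MulAut.smul_def]
  rw [h1, mem_M11_iff]
  have h2 : k⁻¹ * x * k ∈ M24 ↔ x ∈ M24 := by
    constructor
    · intro h
      have := M24.mul_mem (M24.mul_mem hk h) (M24.inv_mem hk)
      simpa [mul_assoc] using this
    · intro h
      exact M24.mul_mem (M24.mul_mem (M24.inv_mem hk) h) hk
  rw [h2, mul_smul, mul_smul, mul_smul, mul_smul, inv_smul_eq_iff, inv_smul_eq_iff]

/-- Inside the stabiliser of the dodecad of squares (a Mathieu group of degree 12), the stabiliser of the residue 0 (a point of the dodecad) and the stabiliser of the extra point (a point outside the dodecad) are isomorphic but not conjugate; conjugation by a suitable element of the code's group that maps the dodecad of squares onto its complement carries the first onto the second. -/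
theorem result : Nonempty (↥(Cfsg.Spor.M12 ⊓ MulAction.stabilizer (Equiv.Perm Cfsg.GolayPt) (none : Cfsg.GolayPt)) ≃* ↥Cfsg.Spor.M11) ∧ (¬ ∃ k ∈ Cfsg.Spor.M12, MulAut.conj k • Cfsg.Spor.M11 = Cfsg.Spor.M12 ⊓ MulAction.stabilizer (Equiv.Perm Cfsg.GolayPt) (none : Cfsg.GolayPt)) ∧ ∃ g ∈ Cfsg.M24, g • Cfsg.Spor.squareDodecad = Finset.univ \ Cfsg.Spor.squareDodecad ∧ MulAut.conj g • Cfsg.Spor.M11 = Cfsg.Spor.M12 ⊓ MulAction.stabilizer (Equiv.Perm Cfsg.GolayPt) (none : Cfsg.GolayPt) := by
  have hgQ : projInv • Spor.squareDodecad = Finset.univ \ Spor.squareDodecad :=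
    smul_eq_of_forall projInv _ _ projInv_Q
  have hg0 : projInv • (some 0 : GolayPt) = none := rfl
  have hconj : MulAut.conj projInv • Spor.M11 =
      Spor.M12 ⊓ MulAction.stabilizer (Equiv.Perm GolayPt) (none : GolayPt) := by
    ext x
    rw [mem_conj_M11 projInv x projInv_mem, hgQ, hg0, mem_M12none_iff]
    have h3 : x • (Finset.univ \ Spor.squareDodecad) = Finset.univ \ Spor.squareDodecad ↔
        x • Spor.squareDodecad = Spor.squareDodecad := by
      rw [Finset.smul_finset_sdiff, Finset.smul_finset_univ]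
      constructor
      · intro h
        have := congrArg (fun s => Finset.univ \ s) h
        simpa using this
      · intro h
        rw [h]
    rw [h3]
  refine ⟨?_, ?_, projInv, projInv_mem, hgQ, hconj⟩
  · exact ⟨((Subgroup.equivSMul (MulAut.conj projInv) Spor.M11).trans
      (MulEquiv.subgroupCongr hconj)).symm⟩
  · rintro ⟨k, hk, hkc⟩
    have hkM : k ∈ M24 := hk.1
    have hkQ : k • Spor.squareDodecad = Spor.squareDodecad := hk.2
    have hkey : ∀ x : Equiv.Perm GolayPt, x ∈ M24 → x • Spor.squareDodecad = Spor.squareDodecad →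
        (x (k (some 0)) = k (some 0) ↔ x none = none) := by
      intro x hxM hxQ
      have h1 := mem_conj_M11 k x hkM
      rw [hkc, hkQ, mem_M12none_iff] at h1
      constructor
      · intro h
        exact (h1.mpr ⟨hxM, hxQ, h⟩).2.2
      · intro h
        exact (h1.mp ⟨hxM, hxQ, h⟩).2.2
    have hqQ : k (some 0) ∈ Spor.squareDodecad := by
      have : k • (some 0 : GolayPt) ∈ k • Spor.squareDodecad :=
        Finset.smul_mem_smul_finset zero_mem_Q
      rw [hkQ] at this
      exact this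
    by_cases hq : k (some 0) = some 0
    · have h1 := (hkey hP hP_mem (smul_eq_of_forall hP _ _ hP_Q)).mp (by rw [hq]; exact hP_zero)
      exact hP_none h1
    · have h1 := (hkey mul2 mul2_mem (smul_eq_of_forall mul2 _ _ mul2_Q)).mpr rfl
      rcases mul2_fix _ h1 with h | h
      · rw [h] at hqQ
        exact none_notMem_Q hqQ
      · exact hq h


end Cfsg.Agent.S5620
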