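import Cfsg.Statements.S5623
import Mathlib

set_option autoImplicit false
open Cfsg

namespace Cfsg.Agent.S5623

open Finset

abbrev V := Fin 24 → ZMod 2

def supp (u : V) : Finset (Fin 24) := univ.filter (fun i => u i ≠ 0)

theorem hn_eq (u : V) : hammingNorm u = (supp u).card := rfl

theorem supp_sub_subset (u u' : V) : supp (u - u') ⊆ supp u ∪ supp u' := by
  intro i hi
  simp only [supp, mem_filter, mem_univ, true_and, mem_union, Pi.sub_apply] at hi ⊢
  by_contra hcon
  push Not at hcon
  apply hi
  rw [hcon.1, hcon.2, sub_zero]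

theorem pair_lemma (C : Submodule (ZMod 2) V) (hmin : ∀ w ∈ C, w ≠ 0 → 8 ≤ hammingNorm w)
    (w u u' : V) (hu : u - w ∈ C) (hu4 : hammingNorm u ≤ 4) (hu' : u' - w ∈ C)
    (hu'4 : hammingNorm u' ≤ 4) (hne : u ≠ u') :
    hammingNorm u = 4 ∧ hammingNorm u' = 4 ∧ Disjoint (supp u) (supp u') := by
  have hd : u - u' ∈ C := by
    have : u - u' = (u - w) - (u' - w) := by abel
    rw [this]
    exact C.sub_mem hu hu'
  have h8 := hmin _ hd (sub_ne_zero.mpr hne)
  rw [hn_eq] at h8 hu4 hu'4 ⊢
  rw [hn_eq]
  have h1 := card_le_card (supp_sub_subset u u')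
  have h2 := card_union_add_card_inter (supp u) (supp u')
  have h3 : (supp u ∩ supp u').card = 0 := by omega
  refine ⟨by omega, by omega, ?_⟩
  rw [disjoint_iff_inter_eq_empty]
  exact card_eq_zero.mp h3

theorem card_weight (k : ℕ) :
    (univ.filter (fun u : V => hammingNorm u = k)).card = Nat.choose 24 k := by
  have : (powersetCard k (univ : Finset (Fin 24))).card = Nat.choose 24 k := by
    rw [card_powersetCard, card_univ, Fintype.card_fin]
  rw [← this]
  refine card_bij' (fun u _ => supp u) (fun s _ => fun i => if i ∈ s then (1 : ZMod 2) else 0)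
    ?_ ?_ ?_ ?_
  · intro u hu
    simp only [mem_filter, mem_univ, true_and] at hu
    rw [mem_powersetCard]
    exact ⟨subset_univ _, hu⟩
  · intro s hs
    rw [mem_powersetCard] at hs
    simp only [mem_filter, mem_univ, true_and]
    rw [hn_eq, ← hs.2]
    congr 1
    ext i
    simp [supp]
  · intro u hu
    funext i
    simp only [supp, mem_filter, mem_univ, true_and]
    split_ifs with h
    · have : ∀ x : ZMod 2, x ≠ 0 → (1 : ZMod 2) = x := by decide
      exact this _ h
    · exact (not_not.mp h).symm
  · intro s hs
    ext i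
    simp [supp]

theorem double_count (C : Submodule (ZMod 2) V) [DecidablePred (fun c : V => c ∈ C)]
    (hdim : Module.finrank (ZMod 2) C = 12) (U : Finset V) :
    ∑ w : V, (U.filter (fun u => u - w ∈ C)).card = U.card * 4096 := by
  have hdc := Finset.sum_card_bipartiteAbove_eq_sum_card_bipartiteBelow (s := (univ : Finset V))
    (t := U) (r := fun w u => u - w ∈ C)
  have hC : (univ.filter (fun c : V => c ∈ C)).card = 4096 := by
    have h1 : Nat.card C = 2 ^ 12 := by
      rw [Module.natCard_eq_pow_finrank (K := ZMod 2), hdim]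
      simp
    rw [← Set.ncard_coe_finset]
    have : ((univ.filter (fun c : V => c ∈ C) : Finset V) : Set V) = (C : Set V) := by
      ext
      simp
    rw [this, ← Nat.card_coe_set_eq]
    exact h1
  have hR : ∀ u ∈ U, ((univ : Finset V).bipartiteBelow (fun w u => u - w ∈ C) u).card = 4096 := by
    intro u _
    rw [← hC]
    refine card_nbij' (fun w => u - w) (fun c => u - c) ?_ ?_ ?_ ?_
    · intro w hw
      simpa [bipartiteBelow] using hw
    · intro c hc
      simpa [bipartiteBelow] using hc
    · intro w _
      simp
    · intro c _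
      simp
  rw [sum_congr rfl hR, sum_const, smul_eq_mul] at hdc
  exact hdc

/-- Let C be a self-dual binary code of length 24 with minimum weight at least 8 (a 12-dimensional subspace of the 24-dimensional space over the field with two elements, any two of whose words have dot product zero, with no non-zero word of weight below 8 — an abstract extended binary Golay code). Then every coset w + C of C in the ambient space contains either exactly one word of weight at most 4, which then has weight at most 3, or exactly six words of weight at most 4, all of weight exactly 4 and with pairwise disjoint supports (a sextet). -/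
theorem result (C : Submodule (ZMod 2) (Fin 24 → ZMod 2)) (hdim : Module.finrank (ZMod 2) C = 12) (horth : ∀ v ∈ C, ∀ w ∈ C, ∑ i, v i * w i = 0) (hmin : ∀ w ∈ C, w ≠ 0 → 8 ≤ hammingNorm w) (w : Fin 24 → ZMod 2) : (∃ u : Fin 24 → ZMod 2, {u : Fin 24 → ZMod 2 | u - w ∈ C ∧ hammingNorm u ≤ 4} = {u} ∧ hammingNorm u ≤ 3) ∨ ({u : Fin 24 → ZMod 2 | u - w ∈ C ∧ hammingNorm u ≤ 4}.ncard = 6 ∧ ∀ u ∈ {u : Fin 24 → ZMod 2 | u - w ∈ C ∧ hammingNorm u ≤ 4}, hammingNorm u = 4 ∧ ∀ u' ∈ {u : Fin 24 → ZMod 2 | u - w ∈ C ∧ hammingNorm u ≤ 4}, u ≠ u' → Disjoint (Finset.univ.filter fun i => u i ≠ 0) (Finset.univ.filter fun i => u' i ≠ 0)) := by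
  haveI : DecidablePred (fun c : V => c ∈ C) := Classical.decPred _
  let U3 : Finset V := univ.filter (fun u : V => hammingNorm u ≤ 3)
  let U4 : Finset V := univ.filter (fun u : V => hammingNorm u = 4)
  let T : V → Finset V := fun w => U3.filter (fun u => u - w ∈ C)
  let F : V → Finset V := fun w => U4.filter (fun u => u - w ∈ C)
  have memT : ∀ w u, u ∈ T w ↔ u - w ∈ C ∧ hammingNorm u ≤ 3 := by
    intro w u
    simp only [T, U3, mem_filter, mem_univ, true_and]
    tauto
  have memF : ∀ w u, u ∈ F w ↔ u - w ∈ C ∧ hammingNorm u = 4 := by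
    intro w u
    simp only [F, U4, mem_filter, mem_univ, true_and]
    tauto
  have hle : ∀ w ∈ (univ : Finset V), (F w).card + 6 * (T w).card ≤ 6 := by
    intro w _
    by_cases hne : (T w).Nonempty
    · obtain ⟨u₀, hu₀⟩ := hne
      rw [memT] at hu₀
      have hF0 : F w = ∅ := by
        rw [eq_empty_iff_forall_notMem]
        intro u hu
        rw [memF] at hu
        have hne : u ≠ u₀ := by
          rintro rfl
          omega
        have := pair_lemma C hmin w u u₀ hu.1 (by omega) hu₀.1 (by omega) hne
        omega
      have hT1 : (T w).card ≤ 1 := by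
        rw [card_le_one]
        intro a ha b hb
        rw [memT] at ha hb
        by_contra hab
        have := pair_lemma C hmin w a b ha.1 (by omega) hb.1 (by omega) hab
        omega
      rw [hF0, card_empty]
      omega
    · rw [not_nonempty_iff_eq_empty] at hne
      rw [hne, card_empty]
      have hdisj : ∀ x ∈ F w, ∀ y ∈ F w, x ≠ y → Disjoint (supp x) (supp y) := by
        intro x hx y hy hxy
        rw [memF] at hx hy
        exact (pair_lemma C hmin w x y hx.1 (by omega) hy.1 (by omega) hxy).2.2
      have h1 := card_biUnion hdisj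
      have h2 : ∀ u ∈ F w, (supp u).card = 4 := fun u hu => by
        rw [← hn_eq]
        exact ((memF w u).mp hu).2
      rw [sum_congr rfl h2, sum_const, smul_eq_mul] at h1
      have h3 : ((F w).biUnion supp).card ≤ 24 := by
        have := card_le_univ ((F w).biUnion supp)
        simpa using this
      omega
  have h4 : U4.card = 10626 := by
    simp only [U4]
    rw [card_weight]
    norm_num [Nat.choose]
  have h3 : U3.card = 2325 := by
    have hk : ∀ k < 4, (U3.filter (fun u : V => hammingNorm u = k)).card = Nat.choose 24 k := by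
      intro k hk
      have hset : U3.filter (fun u : V => hammingNorm u = k) =
          univ.filter (fun u : V => hammingNorm u = k) := by
        ext u
        simp only [U3, mem_filter, mem_univ, true_and]
        omega
      rw [hset, card_weight k]
    rw [card_eq_sum_card_fiberwise (f := fun u : V => hammingNorm u) (t := range 4)
      (by
        intro u hu
        simp only [U3, coe_filter, mem_univ, true_and, Set.mem_ofPred_eq] at hu
        simp only [coe_range, Set.mem_Iio]
        omega)]
    rw [sum_range_succ, sum_range_succ, sum_range_succ, sum_range_one, hk 0 (by omega),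
      hk 1 (by omega), hk 2 (by omega), hk 3 (by omega)]
    norm_num [Nat.choose]
  have hsum : ∑ w : V, ((F w).card + 6 * (T w).card) = ∑ _w : V, 6 := by
    rw [sum_add_distrib, ← mul_sum]
    have e1 : ∑ w : V, (F w).card = U4.card * 4096 := double_count C hdim U4
    have e2 : ∑ w : V, (T w).card = U3.card * 4096 := double_count C hdim U3
    have hV : Fintype.card V = 2 ^ 24 := by
      simp [V]
    rw [e1, e2, h4, h3, sum_const, card_univ, hV]
    norm_num
  have heq := (sum_eq_sum_iff_of_le hle).mp hsum w (mem_univ w)
  by_cases hne : (T w).Nonempty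
  · left
    obtain ⟨u₀, hu₀⟩ := hne
    rw [memT] at hu₀
    refine ⟨u₀, ?_, hu₀.2⟩
    ext u
    simp only [Set.mem_ofPred_eq, Set.mem_singleton_iff]
    constructor
    · rintro ⟨hu, hu4⟩
      by_contra hne
      have := pair_lemma C hmin w u u₀ hu hu4 hu₀.1 (by omega) hne
      omega
    · rintro rfl
      exact ⟨hu₀.1, by omega⟩
  · right
    rw [not_nonempty_iff_eq_empty] at hne
    rw [hne, card_empty] at heq
    have hall : ∀ u : V, u - w ∈ C ∧ hammingNorm u ≤ 4 → hammingNorm u = 4 := by
      rintro u ⟨hu, hu4⟩
      by_contra h4'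
      have : u ∈ T w := (memT w u).mpr ⟨hu, by omega⟩
      rw [hne] at this
      exact absurd this (notMem_empty u)
    have hset : {u : Fin 24 → ZMod 2 | u - w ∈ C ∧ hammingNorm u ≤ 4} = ((F w : Finset V) : Set V) := by
      ext u
      simp only [Set.mem_ofPred_eq, mem_coe, memF]
      constructor
      · intro h
        exact ⟨h.1, hall u h⟩
      · intro h
        exact ⟨h.1, by omega⟩
    refine ⟨?_, ?_⟩
    · rw [hset, Set.ncard_coe_finset]
      omega
    · intro u hu
      refine ⟨hall u hu, ?_⟩
      intro u' hu' hne'
      exact (pair_lemma C hmin w u u' hu.1 hu.2 hu'.1 hu'.2 hne').2.2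


end Cfsg.Agent.S5623
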