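import Cfsg.Statements.S5622
import Mathlib
import Cfsg.Agent.S5623

set_option autoImplicit false
open Cfsg

namespace Cfsg.Agent.S5622

open Finset Cfsg.Agent.S5623

theorem zmod2_cases (x : ZMod 2) : x = 0 ∨ x = 1 := by
  revert x
  decide

theorem octad_through (C : Submodule (ZMod 2) (Fin 24 → ZMod 2))
    (hdim : Module.finrank (ZMod 2) C = 12) (horth : ∀ v ∈ C, ∀ w ∈ C, ∑ i, v i * w i = 0)
    (hmin : ∀ w ∈ C, w ≠ 0 → 8 ≤ hammingNorm w) (s : Finset (Fin 24)) (hs : s.card = 5) :
    ∃ c ∈ C, hammingNorm c = 8 ∧ s ⊆ supp c := by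
  classical
  obtain ⟨p, hp⟩ : s.Nonempty := card_pos.mp (by omega)
  set T := s.erase p with hT
  have hTc : T.card = 4 := by
    rw [hT, card_erase_of_mem hp, hs]
  let w : V := fun i => if i ∈ T then 1 else 0
  have hsw : supp w = T := by
    ext i
    simp [supp, w]
  have hw4 : hammingNorm w = 4 := by
    rw [hn_eq, hsw, hTc]
  have hwmem : w - w ∈ C ∧ hammingNorm w ≤ 4 := ⟨by rw [sub_self]; exact C.zero_mem, by omega⟩
  rcases S5623.result C hdim horth hmin w with ⟨u, hu, hu3⟩ | ⟨h6, hall⟩
  · exfalso
    have : w ∈ ({u} : Set (Fin 24 → ZMod 2)) := by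
      rw [← hu]
      exact hwmem
    rw [Set.mem_singleton_iff] at this
    rw [← this] at hu3
    omega
  · set Sf : Finset V := univ.filter (fun u : V => u - w ∈ C ∧ hammingNorm u ≤ 4) with hSf
    have hSfset : {u : Fin 24 → ZMod 2 | u - w ∈ C ∧ hammingNorm u ≤ 4} = ((Sf : Finset V) : Set V) := by
      ext u
      simp [hSf]
    have hmemS : ∀ u, u ∈ Sf ↔ u - w ∈ C ∧ hammingNorm u ≤ 4 := by
      intro u
      simp [hSf]
    have hcard : Sf.card = 6 := by
      rw [← Set.ncard_coe_finset, ← hSfset]
      exact h6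
    have hdisj : ∀ x ∈ Sf, ∀ y ∈ Sf, x ≠ y → Disjoint (supp x) (supp y) := by
      intro x hx y hy hxy
      exact (hall x ((hmemS x).mp hx)).2 y ((hmemS y).mp hy) hxy
    have h1 := card_biUnion hdisj
    have h2 : ∀ u ∈ Sf, (supp u).card = 4 := fun u hu => by
      rw [← hn_eq]
      exact (hall u ((hmemS u).mp hu)).1
    rw [sum_congr rfl h2, sum_const, smul_eq_mul, hcard] at h1
    have huniv : Sf.biUnion supp = univ := by
      apply eq_univ_of_card
      rw [h1]
      simp
    have hpU : p ∈ Sf.biUnion supp := by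
      rw [huniv]
      exact mem_univ p
    obtain ⟨u', hu'S, hpu'⟩ := mem_biUnion.mp hpU
    have hpT : p ∉ T := by
      rw [hT]
      exact notMem_erase p s
    have hne : u' ≠ w := by
      rintro rfl
      rw [hsw] at hpu'
      exact hpT hpu'
    have hu'mem := (hmemS u').mp hu'S
    have hwS : w ∈ Sf := (hmemS w).mpr hwmem
    have hdis := hdisj u' hu'S w hwS hne
    refine ⟨u' - w, hu'mem.1, ?_, ?_⟩
    · have h8 := hmin _ hu'mem.1 (sub_ne_zero.mpr hne)
      have hle := card_le_card (supp_sub_subset u' w)
      have hun := card_union_le (supp u') (supp w)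
      rw [hn_eq] at h8 ⊢
      have := h2 u' hu'S
      have := h2 w hwS
      omega
    · intro i hi
      have hi' : i = p ∨ i ∈ T := by
        by_cases hip : i = p
        · exact Or.inl hip
        · exact Or.inr (mem_erase.mpr ⟨hip, hi⟩)
      simp only [supp, mem_filter, mem_univ, true_and, Pi.sub_apply]
      rcases hi' with rfl | hiT
      · have hwi : w i = 0 := by
          simp [w, hpT]
        rw [hwi, sub_zero]
        simpa [supp] using hpu'
      · have hiw : i ∈ supp w := by
          rw [hsw]
          exact hiT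
        have hiu : i ∉ supp u' := fun h => (disjoint_left.mp hdis) h hiw
        have hu0 : u' i = 0 := by
          simpa [supp] using hiu
        have hw1 : w i ≠ 0 := by
          simpa [supp] using hiw
        rw [hu0, zero_sub]
        exact neg_ne_zero.mpr hw1

/-- Let C be a self-dual binary code of length 24 with minimum weight at least 8 (a 12-dimensional subspace of the 24-dimensional space over the field with two elements, any two of whose words have dot product zero, with no non-zero word of weight below 8 — an abstract extended binary Golay code). Then the minimum weight of C is exactly 8, and the supports of the words of weight 8 (the octads) form a Steiner system S(5, 8, 24) on the 24 coordinates: every 5 coordinates lie in the support of exactly one word of weight 8. -/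
theorem result (C : Submodule (ZMod 2) (Fin 24 → ZMod 2)) (hdim : Module.finrank (ZMod 2) C = 12) (horth : ∀ v ∈ C, ∀ w ∈ C, ∑ i, v i * w i = 0) (hmin : ∀ w ∈ C, w ≠ 0 → 8 ≤ hammingNorm w) : (∃ w ∈ C, hammingNorm w = 8) ∧ Cfsg.IsSteinerSystem 5 8 (Cfsg.wordsOfWeight (C : Set (Fin 24 → ZMod 2)) 8) := by
  constructor
  · obtain ⟨s, -, hs⟩ := exists_subset_card_eq (s := (univ : Finset (Fin 24))) (n := 5) (by simp)
    obtain ⟨c, hc, hc8, -⟩ := octad_through C hdim horth hmin s hs
    exact ⟨c, hc, hc8⟩
  · refine ⟨fun b hb => hb.2, ?_⟩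
    intro s hs
    obtain ⟨c, hc, hc8, hsc⟩ := octad_through C hdim horth hmin s hs
    refine ⟨supp c, ⟨⟨⟨c, hc, rfl⟩, by rw [← hn_eq]; exact hc8⟩, hsc⟩, ?_⟩
    rintro b' ⟨⟨⟨c', hc', rfl⟩, hb'8⟩, hsb'⟩
    change supp c' = supp c
    by_contra hne
    have hcc : c' ≠ c := fun h => hne (by rw [h])
    have h8 := hmin _ (C.sub_mem hc' hc) (sub_ne_zero.mpr hcc)
    have hsub : supp (c' - c) ⊆ (supp c' ∪ supp c) \ (supp c' ∩ supp c) := by
      intro i hi
      have hi2 := supp_sub_subset c' c hi
      rw [mem_sdiff]
      refine ⟨hi2, ?_⟩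
      intro hi3
      rw [mem_inter] at hi3
      simp only [supp, mem_filter, mem_univ, true_and, Pi.sub_apply] at hi hi3
      rcases zmod2_cases (c' i) with h0 | h1
      · exact hi3.1 h0
      · rcases zmod2_cases (c i) with h0' | h1'
        · exact hi3.2 h0'
        · apply hi
          rw [h1, h1', sub_self]
    have hle := card_le_card hsub
    have hsd : ((supp c' ∪ supp c) \ (supp c' ∩ supp c)).card =
        (supp c' ∪ supp c).card - (supp c' ∩ supp c).card :=
      card_sdiff_of_subset (inter_subset_union)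
    have hui := card_union_add_card_inter (supp c') (supp c)
    have h5 : 5 ≤ (supp c' ∩ supp c).card := by
      rw [← hs]
      exact card_le_card (subset_inter hsb' hsc)
    have hb8 : (supp c').card = 8 := hb'8
    rw [hn_eq] at h8 hc8
    omega


end Cfsg.Agent.S5622
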