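import Cfsg.Statements.S5624
import Mathlib
import Cfsg.Agent.S5622

set_option autoImplicit false
open Cfsg

namespace Cfsg.Agent.S5624

open Finset Cfsg.Agent.S5623

theorem supp_sub_eq (u v : V) : supp (u - v) = (supp u ∪ supp v) \ (supp u ∩ supp v) := by
  ext i
  simp only [supp, mem_filter, mem_univ, true_and, Pi.sub_apply, mem_sdiff, mem_union, mem_inter]
  rcases S5622.zmod2_cases (u i) with h | h <;> rcases S5622.zmod2_cases (v i) with h' | h' <;>
    simp [h, h']

theorem card_supp_sub (u v : V) :
    (supp (u - v)).card + 2 * (supp u ∩ supp v).card = (supp u).card + (supp v).card := by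
  rw [supp_sub_eq, card_sdiff_of_subset inter_subset_union]
  have h1 := card_union_add_card_inter (supp u) (supp v)
  have h2 : (supp u ∩ supp v).card ≤ (supp u ∪ supp v).card := card_le_card inter_subset_union
  omega

theorem reduce (C : Submodule (ZMod 2) (Fin 24 → ZMod 2))
    (hdim : Module.finrank (ZMod 2) C = 12) (horth : ∀ v ∈ C, ∀ w ∈ C, ∑ i, v i * w i = 0)
    (hmin : ∀ w ∈ C, w ≠ 0 → 8 ≤ hammingNorm w) (w : V) (hw : w ∈ C) (hw0 : w ≠ 0) :
    ∃ c ∈ C, hammingNorm c = 8 ∧ hammingNorm (w - c) < hammingNorm w := by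
  have h8 := hmin w hw hw0
  rw [hn_eq] at h8
  obtain ⟨s, hsw, hs⟩ := exists_subset_card_eq (s := supp w) (n := 5) (by omega)
  obtain ⟨c, hc, hc8, hsc⟩ := S5622.octad_through C hdim horth hmin s hs
  refine ⟨c, hc, hc8, ?_⟩
  have h5 : 5 ≤ (supp w ∩ supp c).card := by
    rw [← hs]
    exact card_le_card (subset_inter hsw hsc)
  have := card_supp_sub w c
  rw [hn_eq] at hc8
  rw [hn_eq, hn_eq]
  omega

/-- Let C be a self-dual binary code of length 24 with minimum weight at least 8 (a 12-dimensional subspace of the 24-dimensional space over the field with two elements, any two of whose words have dot product zero, with no non-zero word of weight below 8 — an abstract extended binary Golay code). Then C is spanned, as a vector space over the field with two elements, by its words of weight 8. -/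
theorem result (C : Submodule (ZMod 2) (Fin 24 → ZMod 2)) (hdim : Module.finrank (ZMod 2) C = 12) (horth : ∀ v ∈ C, ∀ w ∈ C, ∑ i, v i * w i = 0) (hmin : ∀ w ∈ C, w ≠ 0 → 8 ≤ hammingNorm w) : Submodule.span (ZMod 2) {w : Fin 24 → ZMod 2 | w ∈ C ∧ hammingNorm w = 8} = C := by
  apply le_antisymm
  · exact Submodule.span_le.mpr (fun w hw => hw.1)
  · have key : ∀ n : ℕ, ∀ w ∈ C, hammingNorm w = n →
        w ∈ Submodule.span (ZMod 2) {w : Fin 24 → ZMod 2 | w ∈ C ∧ hammingNorm w = 8} := by
      intro n
      induction n using Nat.strong_induction_on with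
      | _ n ih =>
        intro w hw hn
        by_cases hw0 : w = 0
        · rw [hw0]
          exact Submodule.zero_mem _
        · obtain ⟨c, hc, hc8, hlt⟩ := reduce C hdim horth hmin w hw hw0
          have h1 := ih _ (hn ▸ hlt) (w - c) (C.sub_mem hw hc) rfl
          have h2 : c ∈ Submodule.span (ZMod 2) {w : Fin 24 → ZMod 2 | w ∈ C ∧ hammingNorm w = 8} :=
            Submodule.subset_span ⟨hc, hc8⟩
          have h3 := Submodule.add_mem _ h1 h2
          rwa [sub_add_cancel] at h3
    intro w hw
    exact key _ w hw rfl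


end Cfsg.Agent.S5624
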