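import Cfsg.Statements.S5621
import Mathlib
import Cfsg.Agent.S5624

set_option autoImplicit false
open Cfsg

namespace Cfsg.Agent.S5621

open Finset Cfsg.Agent.S5623

theorem dot_eq_card (u v : V) : ∑ i, u i * v i = (((supp u ∩ supp v).card : ℕ) : ZMod 2) := by
  have h : ∀ i : Fin 24, u i * v i = if i ∈ supp u ∩ supp v then (1 : ZMod 2) else 0 := by
    intro i
    simp only [supp, mem_inter, mem_filter, mem_univ, true_and]
    rcases S5622.zmod2_cases (u i) with h | h <;> rcases S5622.zmod2_cases (v i) with h' | h' <;>
      simp [h, h']
  rw [sum_congr rfl (fun i _ => h i), sum_boole]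
  congr 2
  ext i
  simp

/-- Let C be a self-dual binary code of length 24 with minimum weight at least 8 (a 12-dimensional subspace of the 24-dimensional space over the field with two elements, any two of whose words have dot product zero, with no non-zero word of weight below 8 — an abstract extended binary Golay code). Then C is doubly even: every word of C has weight divisible by 4. -/
theorem result (C : Submodule (ZMod 2) (Fin 24 → ZMod 2)) (hdim : Module.finrank (ZMod 2) C = 12) (horth : ∀ v ∈ C, ∀ w ∈ C, ∑ i, v i * w i = 0) (hmin : ∀ w ∈ C, w ≠ 0 → 8 ≤ hammingNorm w) : ∀ w ∈ C, 4 ∣ hammingNorm w := by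
  have key : ∀ n : ℕ, ∀ w ∈ C, hammingNorm w = n → 4 ∣ hammingNorm w := by
    intro n
    induction n using Nat.strong_induction_on with
    | _ n ih =>
      intro w hw hn
      by_cases hw0 : w = 0
      · rw [hw0]
        simp
      · obtain ⟨c, hc, hc8, hlt⟩ := S5624.reduce C hdim horth hmin w hw hw0
        have hwc : w - c ∈ C := C.sub_mem hw hc
        have h1 := ih _ (hn ▸ hlt) (w - c) hwc rfl
        have h2 := horth (w - c) hwc c hc
        rw [dot_eq_card, ZMod.natCast_eq_zero_iff] at h2
        rw [hn_eq] at hc8 h1 ⊢
        obtain ⟨a, ha⟩ := h1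
        obtain ⟨b, hb⟩ := h2
        have h5 : w - c - c = w := by
          funext i
          simp only [Pi.sub_apply]
          rcases S5622.zmod2_cases (c i) with h0 | h1'
          · rw [h0]
            simp
          · rw [h1']
            have : ∀ x : ZMod 2, x - 1 - 1 = x := by decide
            exact this _
        have h6 := S5624.card_supp_sub (w - c) c
        rw [h5] at h6
        omega
  intro w hw
  exact key _ w hw rfl


end Cfsg.Agent.S5621
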