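import Cfsg.Statements.S5625
import Mathlib

set_option autoImplicit false
open Cfsg

namespace Cfsg.Agent.S5625

open Finset

theorem card_between {α : Type*} [DecidableEq α] (S b : Finset α) (hSb : S ⊆ b) (k : ℕ)
    (hk : S.card ≤ k) :
    ((powersetCard k b).filter (fun T => S ⊆ T)).card = (b.card - S.card).choose (k - S.card) := by
  rw [← card_sdiff_of_subset hSb, ← card_powersetCard]
  refine card_nbij' (fun T => T \ S) (fun T' => T' ∪ S) ?_ ?_ ?_ ?_
  · intro T hT
    simp only [coe_filter, mem_powersetCard, Set.mem_ofPred_eq, mem_coe] at hT ⊢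
    obtain ⟨⟨hTb, hTk⟩, hST⟩ := hT
    exact ⟨sdiff_subset_sdiff hTb le_rfl, by rw [card_sdiff_of_subset hST, hTk]⟩
  · intro T' hT'
    simp only [coe_filter, mem_powersetCard, Set.mem_ofPred_eq, mem_coe] at hT' ⊢
    obtain ⟨hT'b, hT'k⟩ := hT'
    have hdisj : Disjoint T' S := disjoint_of_subset_left hT'b sdiff_disjoint
    refine ⟨⟨union_subset (hT'b.trans sdiff_subset) hSb, ?_⟩, subset_union_right⟩
    rw [card_union_of_disjoint hdisj, hT'k]
    omega
  · intro T hT
    simp only [coe_filter, mem_powersetCard, Set.mem_ofPred_eq] at hT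
    exact sdiff_union_of_subset hT.2
  · intro T' hT'
    simp only [mem_coe, mem_powersetCard] at hT'
    have hdisj : Disjoint T' S := disjoint_of_subset_left hT'.1 sdiff_disjoint
    exact union_sdiff_cancel_right hdisj

/-- In any Steiner system S(5, 8, 24) and for any set Y of three points, the blocks meeting Y in exactly 3, 2, 1 and 0 points number 21, 168, 360 and 210 respectively (so there are 759 blocks in all). -/
theorem result (α : Type*) [Fintype α] [DecidableEq α] (hα : Fintype.card α = 24) (B : Set (Finset α)) (hB : Cfsg.IsSteinerSystem 5 8 B) (Y : Finset α) (hY : Y.card = 3) : {b : Finset α | b ∈ B ∧ (b ∩ Y).card = 3}.ncard = 21 ∧ {b : Finset α | b ∈ B ∧ (b ∩ Y).card = 2}.ncard = 168 ∧ {b : Finset α | b ∈ B ∧ (b ∩ Y).card = 1}.ncard = 360 ∧ {b : Finset α | b ∈ B ∧ (b ∩ Y).card = 0}.ncard = 210 := by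
  classical
  set Bf : Finset (Finset α) := Finset.univ.filter (fun b => b ∈ B) with hBf
  have hmem : ∀ b, b ∈ Bf ↔ b ∈ B := by
    intro b
    simp [hBf]
  have hN : ∀ i : ℕ, {b : Finset α | b ∈ B ∧ (b ∩ Y).card = i}.ncard =
      (Bf.filter (fun b => (b ∩ Y).card = i)).card := by
    intro i
    rw [← Set.ncard_coe_finset]
    congr 1
    ext b
    simp [hmem]
  have hlam : ∀ S : Finset α, S.card ≤ 5 →
      (Bf.filter (fun b => S ⊆ b)).card * (8 - S.card).choose (5 - S.card) =
        (24 - S.card).choose (5 - S.card) := by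
    intro S hS
    have hdc := Finset.sum_card_bipartiteAbove_eq_sum_card_bipartiteBelow
      (s := (powersetCard 5 (univ : Finset α)).filter (fun T => S ⊆ T)) (t := Bf)
      (r := fun T b => T ⊆ b)
    have hL : ∀ T ∈ (powersetCard 5 (univ : Finset α)).filter (fun T => S ⊆ T),
        (Bf.bipartiteAbove (fun T b => T ⊆ b) T).card = 1 := by
      intro T hT
      have hT5 : T.card = 5 := (mem_powersetCard.mp (mem_filter.mp hT).1).2
      obtain ⟨b, ⟨hb, hTb⟩, huniq⟩ := hB.2 T hT5
      rw [card_eq_one]
      refine ⟨b, ?_⟩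
      ext c
      simp only [mem_bipartiteAbove, mem_singleton, hmem]
      constructor
      · rintro ⟨hc, hTc⟩
        exact huniq c ⟨hc, hTc⟩
      · rintro rfl
        exact ⟨hb, hTb⟩
    have hR : ∀ b ∈ Bf, (((powersetCard 5 (univ : Finset α)).filter
        (fun T => S ⊆ T)).bipartiteBelow (fun T b => T ⊆ b) b).card =
          if S ⊆ b then (8 - S.card).choose (5 - S.card) else 0 := by
      intro b hb
      have hb8 : b.card = 8 := hB.1 b ((hmem b).mp hb)
      split_ifs with hSb
      · rw [← hb8, ← card_between S b hSb 5 hS]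
        congr 1
        ext T
        simp only [mem_bipartiteBelow, mem_filter, mem_powersetCard, subset_univ, true_and]
        tauto
      · rw [card_eq_zero]
        ext T
        simp only [mem_bipartiteBelow, mem_filter, notMem_empty, iff_false]
        rintro ⟨⟨-, hST⟩, hTb⟩
        exact hSb (hST.trans hTb)
    rw [sum_congr rfl hL, sum_congr rfl hR, sum_const, smul_eq_mul, mul_one,
      card_between S univ (subset_univ S) 5 hS, card_univ, hα, ← sum_filter, sum_const,
      smul_eq_mul] at hdc
    exact hdc.symm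
  have hcount : ∀ j : ℕ, ∑ b ∈ Bf, ((b ∩ Y).card).choose j =
      ∑ Z ∈ powersetCard j Y, (Bf.filter (fun b => Z ⊆ b)).card := by
    intro j
    have hdc := Finset.sum_card_bipartiteAbove_eq_sum_card_bipartiteBelow
      (s := powersetCard j Y) (t := Bf) (r := fun Z b => Z ⊆ b)
    have hR : ∀ b ∈ Bf, ((powersetCard j Y).bipartiteBelow (fun Z b => Z ⊆ b) b).card =
        ((b ∩ Y).card).choose j := by
      intro b _
      rw [← card_powersetCard]
      congr 1
      ext Z
      simp only [mem_bipartiteBelow, mem_powersetCard, subset_inter_iff]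
      tauto
    rw [sum_congr rfl hR] at hdc
    exact hdc.symm
  have hfib : ∀ j : ℕ, ∑ b ∈ Bf, ((b ∩ Y).card).choose j =
      ∑ i ∈ range 4, (Bf.filter (fun b => (b ∩ Y).card = i)).card * i.choose j := by
    intro j
    rw [← sum_fiberwise_of_maps_to (g := fun b => (b ∩ Y).card) (t := range 4)]
    · apply sum_congr rfl
      intro i _
      have : ∀ b ∈ Bf.filter (fun b => (b ∩ Y).card = i),
          ((b ∩ Y).card).choose j = i.choose j := fun b hb => by rw [(mem_filter.mp hb).2]
      rw [sum_congr rfl this, sum_const, smul_eq_mul]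
    · intro b _
      rw [mem_range]
      have := card_le_card (inter_subset_right (s₁ := b) (s₂ := Y))
      omega
  have hl3 : ∀ Z ∈ powersetCard 3 Y, (Bf.filter (fun b => Z ⊆ b)).card = 21 := by
    intro Z hZ
    have hc := (mem_powersetCard.mp hZ).2
    have h := hlam Z (by omega)
    rw [hc] at h
    norm_num [Nat.choose] at h
    omega
  have hl2 : ∀ Z ∈ powersetCard 2 Y, (Bf.filter (fun b => Z ⊆ b)).card = 77 := by
    intro Z hZ
    have hc := (mem_powersetCard.mp hZ).2
    have h := hlam Z (by omega)
    rw [hc] at h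
    norm_num [Nat.choose] at h
    omega
  have hl1 : ∀ Z ∈ powersetCard 1 Y, (Bf.filter (fun b => Z ⊆ b)).card = 253 := by
    intro Z hZ
    have hc := (mem_powersetCard.mp hZ).2
    have h := hlam Z (by omega)
    rw [hc] at h
    norm_num [Nat.choose] at h
    omega
  have hl0 : ∀ Z ∈ powersetCard 0 Y, (Bf.filter (fun b => Z ⊆ b)).card = 759 := by
    intro Z hZ
    have hc := (mem_powersetCard.mp hZ).2
    have h := hlam Z (by omega)
    rw [hc] at h
    norm_num [Nat.choose] at h
    omega
  have e0 := hcount 0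
  have e1 := hcount 1
  have e2 := hcount 2
  have e3 := hcount 3
  rw [hfib, sum_congr rfl hl0, sum_const, card_powersetCard, hY] at e0
  rw [hfib, sum_congr rfl hl1, sum_const, card_powersetCard, hY] at e1
  rw [hfib, sum_congr rfl hl2, sum_const, card_powersetCard, hY] at e2
  rw [hfib, sum_congr rfl hl3, sum_const, card_powersetCard, hY] at e3
  simp [sum_range_succ, Nat.choose, -Finset.card_eq_zero] at e0 e1 e2 e3
  rw [hN, hN, hN, hN]
  omega


end Cfsg.Agent.S5625
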