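import Cfsg.Statements.S5626
import Mathlib
import Cfsg.Agent.Lib.Helper28.Plane4

set_option autoImplicit false
open Cfsg

namespace Cfsg.Agent.S5626

open Cfsg.Agent.Lib.Helper28

/-- Uniqueness of the projective plane of order 4: any two Steiner systems S(2, 5, 21) (21 points, lines of 5 points, two points on exactly one line) are isomorphic. -/
theorem result {α β : Type*} [Fintype α] [DecidableEq α] [Fintype β] [DecidableEq β] (hα : Fintype.card α = 21) (hβ : Fintype.card β = 21) {L : Set (Finset α)} {L' : Set (Finset β)} (hL : Cfsg.IsSteinerSystem 2 5 L) (hL' : Cfsg.IsSteinerSystem 2 5 L') : Cfsg.SetSystemIso L L' := by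
  obtain ⟨e, he⟩ := Plane4.iso_PG hα hL
  obtain ⟨e', he'⟩ := Plane4.iso_PG hβ hL'
  refine ⟨e.trans e'.symm, ?_⟩
  have h1 : (fun b : Finset α => b.image (e.trans e'.symm)) '' L =
      (fun b : Finset Plane4.Pt => b.image e'.symm) '' ((fun b => b.image e) '' L) := by
    rw [Set.image_image]
    apply Set.image_congr
    intro b _
    rw [Finset.image_image]
    rfl
  rw [h1, he, ← he', Set.image_image]
  have h2 : ∀ b : Finset β, (b.image e').image e'.symm = b := by
    intro b
    rw [Finset.image_image]
    have : (⇑e'.symm ∘ ⇑e') = id := by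
      funext x
      exact e'.symm_apply_apply x
    rw [this, Finset.image_id]
  simp only [h2]
  exact Set.image_id' L'


end Cfsg.Agent.S5626
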