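import Cfsg.Statements.S5628
import Mathlib
import Cfsg.Agent.Lib.Helper28.Plane4

set_option autoImplicit false
open Cfsg

namespace Cfsg.Agent.S5628

open Cfsg.Agent.Lib.Helper28 Cfsg.Agent.Lib.Helper28.Plane4 Cfsg.Agent.Lib.Helper3.Steiner
open scoped Pointwise

section aux

variable {α : Type*} [Fintype α] [DecidableEq α] {L : Set (Finset α)}

theorem no_three {H : Finset α} (hind : ∀ l ∈ L, (l ∩ H).card ≤ 2) {l : Finset α} (hl : l ∈ L)
    {x y z : α} (hxy : x ≠ y) (hxz : x ≠ z) (hyz : y ≠ z) (hx : x ∈ l) (hy : y ∈ l) (hz : z ∈ l)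
    (hxH : x ∈ H) (hyH : y ∈ H) (hzH : z ∈ H) : False := by
  have h1 : ({x, y, z} : Finset α) ⊆ l ∩ H := by
    intro w hw
    simp only [Finset.mem_insert, Finset.mem_singleton] at hw
    rcases hw with rfl | rfl | rfl
    · exact Finset.mem_inter.mpr ⟨hx, hxH⟩
    · exact Finset.mem_inter.mpr ⟨hy, hyH⟩
    · exact Finset.mem_inter.mpr ⟨hz, hzH⟩
  have h2 := Finset.card_le_card h1
  have h3 : ({x, y, z} : Finset α).card = 3 :=
    Finset.card_eq_three.mpr ⟨x, y, z, hxy, hxz, hyz, rfl⟩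
  have h4 := hind l hl
  omega

theorem oval_iso (hα : Fintype.card α = 21) (hL : IsSteinerSystem 2 5 L) {H : Finset α}
    (hind : ∀ l ∈ L, (l ∩ H).card ≤ 2) {X Y : α} (q : Fin 4 → α) (hX : X ∈ H) (hY : Y ∈ H)
    (hqH : ∀ i, q i ∈ H) (hXY : X ≠ Y) (hXq : ∀ i, X ≠ q i) (hYq : ∀ i, Y ≠ q i)
    (hqinj : Function.Injective q) :
    ∃ e : α ≃ Pt, (fun b => b.image e) '' L = PG ∧ e X = Sum.inr 0 ∧ e Y = Sum.inr 1 ∧
      ∀ i, e (q i) = Sum.inl (Equiv.swap 0 1 i, i) := by
  have hq : ∀ i j, i ≠ j → ∀ l ∈ L, q i ∈ l → q j ∈ l → X ∉ l ∧ Y ∉ l := by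
    intro i j hij l hl hi hj
    exact ⟨fun hX' => no_three hind hl (hXq i) (hXq j) (fun h => hij (hqinj h)) hX' hi hj hX
      (hqH i) (hqH j), fun hY' => no_three hind hl (hYq i) (hYq j) (fun h => hij (hqinj h))
      hY' hi hj hY (hqH i) (hqH j)⟩
  have hq' : ∀ i, ∀ l ∈ L, X ∈ l → Y ∈ l → q i ∉ l := by
    intro i l hl hX' hY' hqi
    exact no_three hind hl hXY (hXq i) (hYq i) hX' hY' hqi hX hY (hqH i)
  obtain ⟨e, he, eX, eY, h | h⟩ := iso_PG_frame hα hL hXY q hq hq'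
  · exfalso
    obtain ⟨l, hl, hq⟩ := h
    exact no_three hind hl (fun h => absurd (hqinj h) (by decide))
      (fun h => absurd (hqinj h) (by decide)) (fun h => absurd (hqinj h) (by decide))
      (hq 0) (hq 1) (hq 2) (hqH 0) (hqH 1) (hqH 2)
  · exact ⟨e, he, eX, eY, h⟩

theorem aut_of_isos (e₁ e₂ : α ≃ Pt) (h₁ : (fun b => b.image e₁) '' L = PG)
    (h₂ : (fun b => b.image e₂) '' L = PG) :
    (e₁.trans e₂.symm : Equiv.Perm α) ∈ setSystemAut L := by
  rw [MulAction.mem_stabilizer_iff]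
  have h0 : ((e₁.trans e₂.symm : Equiv.Perm α) • L) =
      (fun b : Finset α => b.image (e₁.trans e₂.symm)) '' L := by
    rw [← Set.image_smul]
    apply Set.image_congr
    intro b _
    rw [← Finset.image_smul]
    rfl
  have h1 : (fun b : Finset α => b.image (e₁.trans e₂.symm)) '' L =
      (fun b : Finset Pt => b.image e₂.symm) '' ((fun b => b.image e₁) '' L) := by
    rw [Set.image_image]
    apply Set.image_congr
    intro b _
    rw [Finset.image_image]
    rfl
  rw [h0, h1, h₁, ← h₂, Set.image_image]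
  have h2 : ∀ b : Finset α, (b.image e₂).image e₂.symm = b := by
    intro b
    rw [Finset.image_image]
    have : (⇑e₂.symm ∘ ⇑e₂) = id := by
      funext x
      exact e₂.symm_apply_apply x
    rw [this, Finset.image_id]
  simp only [h2]
  exact Set.image_id' L

theorem fin6_cases : ∀ k : Fin 6, k = 0 ∨ k = 1 ∨ ∃ i : Fin 4, k = ⟨i.val + 2, by omega⟩ := by
  decide

theorem exists_aut (hα : Fintype.card α = 21) (hL : IsSteinerSystem 2 5 L) {H : Finset α}
    (hind : ∀ l ∈ L, (l ∩ H).card ≤ 2) (a a' : Fin 6 → α) (ha : Function.Injective a)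
    (ha' : Function.Injective a') (haH : ∀ k, a k ∈ H) (ha'H : ∀ k, a' k ∈ H) :
    ∃ g : Equiv.Perm α, g ∈ setSystemAut L ∧ ∀ k, g (a k) = a' k := by
  have key : ∀ b : Fin 6 → α, Function.Injective b → (∀ k, b k ∈ H) →
      ∃ e : α ≃ Pt, (fun b => b.image e) '' L = PG ∧ e (b 0) = Sum.inr 0 ∧
        e (b 1) = Sum.inr 1 ∧
        ∀ i : Fin 4, e (b ⟨i.val + 2, by omega⟩) = Sum.inl (Equiv.swap 0 1 i, i) := by
    intro b hb hbH
    refine oval_iso hα hL hind (fun i : Fin 4 => b ⟨i.val + 2, by omega⟩) (hbH 0) (hbH 1)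
      (fun i => hbH _) (fun h => absurd (hb h) (by decide)) (fun i h => ?_) (fun i h => ?_)
      (fun i j h => ?_)
    · have h' := congrArg Fin.val (hb h)
      simp at h'
    · have h' := congrArg Fin.val (hb h)
      simp at h'
    · have h' := congrArg Fin.val (hb h)
      simp only [Nat.add_right_cancel_iff] at h'
      exact Fin.ext h'
  obtain ⟨e₁, h₁, x₁, y₁, q₁⟩ := key a ha haH
  obtain ⟨e₂, h₂, x₂, y₂, q₂⟩ := key a' ha' ha'H
  refine ⟨e₁.trans e₂.symm, aut_of_isos e₁ e₂ h₁ h₂, fun k => ?_⟩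
  have hk : e₁ (a k) = e₂ (a' k) := by
    rcases fin6_cases k with rfl | rfl | ⟨i, rfl⟩
    · rw [x₁, x₂]
    · rw [y₁, y₂]
    · rw [q₁, q₂]
  show e₂.symm (e₁ (a k)) = a' k
  rw [hk, Equiv.symm_apply_apply]

/-- no tangents: every line through a point of a hyperoval meets it again -/
theorem secant (hα : Fintype.card α = 21) (hL : IsSteinerSystem 2 5 L) {H : Finset α}
    (hc : H.card = 6) (hind : ∀ l ∈ L, (l ∩ H).card ≤ 2) {x : α} (hx : x ∈ H) {l : Finset α}
    (hl : l ∈ L) (hxl : x ∈ l) : ∃ y ∈ H, y ≠ x ∧ y ∈ l := by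
  have hex : ∀ y, y ∈ H.erase x → ∃ m, m ∈ L ∧ x ∈ m ∧ y ∈ m := fun y hy =>
    exists_line hL (Finset.ne_of_mem_erase hy).symm
  choose! f hf using hex
  have hinj : Set.InjOn f (H.erase x) := by
    intro y hy y' hy' e
    by_contra hne
    have h1 := hf y hy
    have h2 := hf y' hy'
    exact no_three hind h1.1 (Finset.ne_of_mem_erase hy).symm (Finset.ne_of_mem_erase hy').symm
      hne h1.2.1 h1.2.2 (e ▸ h2.2.2) hx (Finset.mem_of_mem_erase hy) (Finset.mem_of_mem_erase hy')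
  have himg : (H.erase x).image f ⊆ (blocks L).filter (fun m => x ∈ m) := by
    intro m hm
    obtain ⟨y, hy, rfl⟩ := Finset.mem_image.mp hm
    exact Finset.mem_filter.mpr ⟨mem_blocks.mpr (hf y hy).1, (hf y hy).2.1⟩
  have hcard : ((H.erase x).image f).card = 5 := by
    rw [Finset.card_image_of_injOn hinj, Finset.card_erase_of_mem hx, hc]
  have heq : (H.erase x).image f = (blocks L).filter (fun m => x ∈ m) :=
    Finset.eq_of_subset_of_card_le himg (by rw [card_lines_through hL hα x, hcard])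
  have hlm : l ∈ (H.erase x).image f := by
    rw [heq]
    exact Finset.mem_filter.mpr ⟨mem_blocks.mpr hl, hxl⟩
  obtain ⟨y, hy, rfl⟩ := Finset.mem_image.mp hlm
  exact ⟨y, Finset.mem_of_mem_erase hy, Finset.ne_of_mem_erase hy, (hf y hy).2.2⟩

theorem two_secants (hα : Fintype.card α = 21) (hL : IsSteinerSystem 2 5 L) {H : Finset α}
    (hc : H.card = 6) (hind : ∀ l ∈ L, (l ∩ H).card ≤ 2) {p : α} (hp : p ∉ H) :
    ∃ l l' : Finset α, l ∈ L ∧ l' ∈ L ∧ l ≠ l' ∧ p ∈ l ∧ p ∈ l' ∧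
      (∃ x y, x ≠ y ∧ x ∈ l ∧ y ∈ l ∧ x ∈ H ∧ y ∈ H) ∧
      (∃ x y, x ≠ y ∧ x ∈ l' ∧ y ∈ l' ∧ x ∈ H ∧ y ∈ H) := by
  have hne : H.Nonempty := by
    rw [← Finset.card_pos, hc]
    norm_num
  obtain ⟨x, hx⟩ := hne
  obtain ⟨l, hl, hpl, hxl⟩ := exists_line hL (fun h : p = x => hp (h ▸ hx))
  obtain ⟨y, hy, hyx, hyl⟩ := secant hα hL hc hind hx hl hxl
  obtain ⟨x', hx', hx'l⟩ : ∃ x' ∈ H, x' ∉ l := by
    by_contra hcon
    push_neg at hcon
    have h1 : l ∩ H = H := Finset.inter_eq_right.mpr hcon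
    have h2 := hind l hl
    rw [h1, hc] at h2
    omega
  obtain ⟨l', hl', hpl', hx'l'⟩ := exists_line hL (fun h : p = x' => hp (h ▸ hx'))
  obtain ⟨y', hy', hy'x', hy'l'⟩ := secant hα hL hc hind hx' hl' hx'l'
  exact ⟨l, l', hl, hl', fun h => hx'l (h ▸ hx'l'), hpl, hpl', ⟨x, y, hyx.symm, hxl, hyl, hx, hy⟩,
    ⟨x', y', hy'x'.symm, hx'l', hy'l', hx', hy'⟩⟩

theorem image_mem {g : Equiv.Perm α} (hg : g ∈ setSystemAut L) {l : Finset α} (hl : l ∈ L) :
    l.image g ∈ L := by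
  rw [MulAction.mem_stabilizer_iff] at hg
  have h1 : g • l ∈ g • L := Set.smul_mem_smul_set hl
  rw [hg] at h1
  have h2 : g • l = l.image g := by
    rw [← Finset.image_smul]
    rfl
  rw [← h2]
  exact h1

end aux

/-- In a projective plane of order 4 (a Steiner system S(2, 5, 21)), every permutation of the six points of a hyperoval (a 6-set met by no line in more than two points) is the restriction of exactly one automorphism of the plane. In particular the stabiliser of a hyperoval in the automorphism group is isomorphic to the symmetric group of degree 6 acting faithfully on the hyperoval. -/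
theorem result {α : Type*} [Fintype α] [DecidableEq α] (hα : Fintype.card α = 21) (L : Set (Finset α)) (hL : Cfsg.IsSteinerSystem 2 5 L) (H : Finset α) (hH : (H.card = 6 ∧ ∀ l ∈ L, (l ∩ H).card ≤ 2)) (σ : Equiv.Perm ↥H) : ∃! g : Equiv.Perm α, g ∈ Cfsg.setSystemAut L ∧ ∀ p : ↥H, g p = σ p := by
  obtain ⟨hc, hind⟩ := hH
  let eH := H.equivFinOfCardEq hc
  obtain ⟨g, hg, hga⟩ := exists_aut hα hL hind (fun k => (eH.symm k : α))
    (fun k => (σ (eH.symm k) : α))
    (fun i j h => eH.symm.injective (Subtype.ext h))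
    (fun i j h => eH.symm.injective (σ.injective (Subtype.ext h)))
    (fun k => (eH.symm k).2) (fun k => (σ (eH.symm k)).2)
  have hgp : ∀ p : ↥H, g p = σ p := by
    intro p
    have := hga (eH p)
    simp only [Equiv.symm_apply_apply] at this
    exact this
  refine ⟨g, ⟨hg, hgp⟩, ?_⟩
  rintro g' ⟨hg', hg'p⟩
  ext p
  by_cases hp : p ∈ H
  · exact (hg'p ⟨p, hp⟩).trans (hgp ⟨p, hp⟩).symm
  · obtain ⟨l, l', hl, hl', hne, hpl, hpl', ⟨x, y, hxy, hxl, hyl, hxH, hyH⟩,
      ⟨x', y', hxy', hxl', hyl', hxH', hyH'⟩⟩ := two_secants hα hL hc hind hp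
    have e1 : l.image g' = l.image g := by
      refine line_unique hL (image_mem hg' hl) (image_mem hg hl) (p := g' x) (q := g' y)
        (fun h => hxy (g'.injective h)) (Finset.mem_image_of_mem _ hxl)
        (Finset.mem_image_of_mem _ hyl) ?_ ?_
      · rw [hg'p ⟨x, hxH⟩, ← hgp ⟨x, hxH⟩]
        exact Finset.mem_image_of_mem _ hxl
      · rw [hg'p ⟨y, hyH⟩, ← hgp ⟨y, hyH⟩]
        exact Finset.mem_image_of_mem _ hyl
    have e2 : l'.image g' = l'.image g := by
      refine line_unique hL (image_mem hg' hl') (image_mem hg hl') (p := g' x') (q := g' y')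
        (fun h => hxy' (g'.injective h)) (Finset.mem_image_of_mem _ hxl')
        (Finset.mem_image_of_mem _ hyl') ?_ ?_
      · rw [hg'p ⟨x', hxH'⟩, ← hgp ⟨x', hxH'⟩]
        exact Finset.mem_image_of_mem _ hxl'
      · rw [hg'p ⟨y', hyH'⟩, ← hgp ⟨y', hyH'⟩]
        exact Finset.mem_image_of_mem _ hyl'
    by_contra hcon
    have h1 : g' p ∈ l.image g := e1 ▸ Finset.mem_image_of_mem _ hpl
    have h2 : g' p ∈ l'.image g := e2 ▸ Finset.mem_image_of_mem _ hpl'
    have e3 : l.image g = l'.image g :=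
      line_unique hL (image_mem hg hl) (image_mem hg hl') hcon h1 (Finset.mem_image_of_mem _ hpl)
        h2 (Finset.mem_image_of_mem _ hpl')
    exact hne (Finset.image_injective g.injective e3)


end Cfsg.Agent.S5628
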