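import Cfsg.Statements.S5632
import Mathlib

set_option autoImplicit false
open Cfsg

namespace Cfsg.Agent.S5632

open Matrix

noncomputable def tvMat {n : ℕ} {F : Type*} [Field F] (v φ : Fin n → F) : Matrix (Fin n) (Fin n) F :=
  1 + Matrix.vecMulVec v φ

theorem tvMat_det {n : ℕ} {F : Type*} [Field F] (v φ : Fin n → F) (h : φ ⬝ᵥ v = 0) :
    (tvMat v φ).det = 1 := by
  unfold tvMat
  rw [Matrix.vecMulVec_eq Unit, Matrix.det_one_add_replicateCol_mul_replicateRow, h, add_zero]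

theorem tvMat_mulVec {n : ℕ} {F : Type*} [Field F] (v φ x : Fin n → F) :
    tvMat v φ *ᵥ x = x + (φ ⬝ᵥ x) • v := by
  unfold tvMat
  rw [Matrix.add_mulVec, Matrix.one_mulVec, Matrix.vecMulVec_mulVec, op_smul_eq_smul]

noncomputable def tvGL {n : ℕ} {F : Type*} [Field F] (v φ : Fin n → F) (h : φ ⬝ᵥ v = 0) :
    Matrix.GeneralLinearGroup (Fin n) F :=
  Matrix.GeneralLinearGroup.mkOfDetNeZero (tvMat v φ) (by rw [tvMat_det v φ h]; exact one_ne_zero)

theorem tvGL_coe {n : ℕ} {F : Type*} [Field F] (v φ : Fin n → F) (h : φ ⬝ᵥ v = 0) :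
    ((tvGL v φ h : Matrix.GeneralLinearGroup (Fin n) F) : Matrix (Fin n) (Fin n) F) = tvMat v φ := rfl

theorem tvGL_mem_SL {n : ℕ} {F : Type*} [Field F] (v φ : Fin n → F) (h : φ ⬝ᵥ v = 0) :
    tvGL v φ h ∈ Cfsg.Geo.specialLinear (Fin n) F := by
  unfold Cfsg.Geo.specialLinear
  rw [MonoidHom.mem_ker]
  apply Units.ext
  rw [Matrix.GeneralLinearGroup.val_det_apply, tvGL_coe, tvMat_det v φ h]
  rfl

theorem mem_stab_iff {n : ℕ} {F : Type*} [Field F] (W : Submodule F (Fin n → F))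
    (g : Matrix.GeneralLinearGroup (Fin n) F) :
    g ∈ Cfsg.Geo.subspaceStabilizer W ↔ ∀ x, x ∈ W ↔ (g : Matrix (Fin n) (Fin n) F) *ᵥ x ∈ W := by
  rfl

theorem tvGL_mem_stab {n : ℕ} {F : Type*} [Field F] (W : Submodule F (Fin n → F))
    (v φ : Fin n → F) (h : φ ⬝ᵥ v = 0) (hW : ∀ w ∈ W, φ ⬝ᵥ w = 0) :
    tvGL v φ h ∈ Cfsg.Geo.subspaceStabilizer W := by
  rw [mem_stab_iff]
  intro x
  rw [tvGL_coe, tvMat_mulVec]
  constructor
  · intro hx
    rw [hW x hx, zero_smul, add_zero]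
    exact hx
  · intro hx
    have h1 := hW _ hx
    rw [dotProduct_add, dotProduct_smul, h, smul_zero, add_zero] at h1
    rw [h1, zero_smul, add_zero] at hx
    exact hx

theorem tvGL_not_mem_stab {n : ℕ} {F : Type*} [Field F] (U : Submodule F (Fin n → F))
    (v φ : Fin n → F) (h : φ ⬝ᵥ v = 0) (u : Fin n → F) (hu : u ∈ U) (hφu : φ ⬝ᵥ u ≠ 0)
    (hv : v ∉ U) :
    tvGL v φ h ∉ Cfsg.Geo.subspaceStabilizer U := by
  rw [mem_stab_iff]
  intro hcon
  have h1 := (hcon u).mp hu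
  rw [tvGL_coe, tvMat_mulVec] at h1
  have h2 : (φ ⬝ᵥ u) • v ∈ U := by
    have := U.sub_mem h1 hu
    rwa [add_sub_cancel_left] at this
  exact hv ((U.smul_mem_iff hφu).mp h2)

theorem dual_eq_dot {n : ℕ} {F : Type*} [Field F] (f : (Fin n → F) →ₗ[F] F) :
    ∃ φ : Fin n → F, ∀ x, f x = φ ⬝ᵥ x := by
  refine ⟨fun i => f (fun j => if i = j then 1 else 0), fun x => ?_⟩
  rw [LinearMap.pi_apply_eq_sum_univ f x]
  simp [dotProduct, mul_comm]

theorem exists_dot {n : ℕ} {F : Type*} [Field F] (p : Submodule F (Fin n → F)) (u : Fin n → F)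
    (hu : u ∉ p) : ∃ φ : Fin n → F, φ ⬝ᵥ u ≠ 0 ∧ ∀ x ∈ p, φ ⬝ᵥ x = 0 := by
  obtain ⟨f, hfu, hpf⟩ := Submodule.exists_le_ker_of_notMem hu
  obtain ⟨φ, hφ⟩ := dual_eq_dot f
  refine ⟨φ, ?_, ?_⟩
  · rw [← hφ]; exact hfu
  · intro x hx
    rw [← hφ]
    exact LinearMap.mem_ker.mp (hpf hx)

theorem core {n : ℕ} {F : Type*} [Field F] (W U : Submodule F (Fin n → F))
    (u v w v' : Fin n → F) (hu : u ∈ U) (huW : u ∉ W ⊔ Submodule.span F {v}) (hvU : v ∉ U)
    (hw : w ∈ W) (hw0 : w ≠ 0) (hv' : v' ∉ W) :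
    ∃ K : Subgroup (Matrix.GeneralLinearGroup (Fin n) F),
      Cfsg.Geo.subspaceStabilizer W ⊓ Cfsg.Geo.subspaceStabilizer U ⊓ Cfsg.Geo.specialLinear (Fin n) F < K ∧
        K < Cfsg.Geo.specialLinear (Fin n) F := by
  refine ⟨Cfsg.Geo.subspaceStabilizer W ⊓ Cfsg.Geo.specialLinear (Fin n) F, ?_, ?_⟩
  · obtain ⟨φ, hφu, hφp⟩ := exists_dot _ u huW
    have hφv : φ ⬝ᵥ v = 0 :=
      hφp v (Submodule.mem_sup_right (Submodule.mem_span_singleton_self v))
    have hφW : ∀ x ∈ W, φ ⬝ᵥ x = 0 := fun x hx => hφp x (Submodule.mem_sup_left hx)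
    rw [lt_iff_le_and_ne]
    refine ⟨fun g hg => ⟨hg.1.1, hg.2⟩, ?_⟩
    intro heq
    have h1 : tvGL v φ hφv ∈ Cfsg.Geo.subspaceStabilizer W ⊓ Cfsg.Geo.specialLinear (Fin n) F :=
      ⟨tvGL_mem_stab W v φ hφv hφW, tvGL_mem_SL v φ hφv⟩
    rw [← heq] at h1
    exact tvGL_not_mem_stab U v φ hφv u hu hφu hvU h1.1.2
  · have hw' : w ∉ Submodule.span F {v'} := by
      intro hmem
      obtain ⟨c, hc⟩ := Submodule.mem_span_singleton.mp hmem
      have hc0 : c ≠ 0 := by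
        rintro rfl
        rw [zero_smul] at hc
        exact hw0 hc.symm
      apply hv'
      rw [← hc] at hw
      exact (W.smul_mem_iff hc0).mp hw
    obtain ⟨φ, hφw, hφp⟩ := exists_dot _ w hw'
    have hφv : φ ⬝ᵥ v' = 0 := hφp v' (Submodule.mem_span_singleton_self v')
    rw [lt_iff_le_and_ne]
    refine ⟨inf_le_right, ?_⟩
    intro heq
    have h1 : tvGL v' φ hφv ∈ Cfsg.Geo.specialLinear (Fin n) F := tvGL_mem_SL v' φ hφv
    rw [← heq] at h1
    exact tvGL_not_mem_stab W v' φ hφv w hw hφw hv' h1.1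

/-- For a finite field F and subspaces 0 < W < U of F^n with dim W + dim U = n, the elements of SL_n(F) stabilising both W and U form a subgroup that is not maximal in SL_n(F): some subgroup lies strictly between it and SL_n(F). -/
theorem result {F : Type*} [Field F] [Fintype F] (n : ℕ) (W U : Submodule F (Fin n → F)) (hW0 : W ≠ ⊥) (hWU : W < U) (hdim : Module.finrank F W + Module.finrank F U = n) : ∃ K : Subgroup (Matrix.GeneralLinearGroup (Fin n) F), Cfsg.Geo.subspaceStabilizer W ⊓ Cfsg.Geo.subspaceStabilizer U ⊓ Cfsg.Geo.specialLinear (Fin n) F < K ∧ K < Cfsg.Geo.specialLinear (Fin n) F := by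
  obtain ⟨u, huU, huW⟩ := SetLike.exists_of_lt hWU
  obtain ⟨w, hwW, hw0⟩ := (Submodule.ne_bot_iff W).mp hW0
  have hUtop : U ≠ ⊤ := by
    intro h
    have h1 : Module.finrank F U = n := by
      rw [h, finrank_top, Module.finrank_fin_fun]
    have h2 : 0 < Module.finrank F W := by
      rw [Module.finrank_pos_iff]
      exact (Submodule.nontrivial_iff_ne_bot).mpr hW0
    omega
  obtain ⟨v, hv⟩ : ∃ v, v ∉ U := by
    by_contra hcon
    push Not at hcon
    exact hUtop (Submodule.eq_top_iff'.mpr hcon)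
  have hvW : v ∉ W := fun h => hv (hWU.le h)
  refine core W U u v w v huU ?_ hv hwW hw0 hvW
  intro hmem
  obtain ⟨a, ha, b, hb, hab⟩ := Submodule.mem_sup.mp hmem
  obtain ⟨c, rfl⟩ := Submodule.mem_span_singleton.mp hb
  by_cases hc : c = 0
  · subst hc
    rw [zero_smul, add_zero] at hab
    rw [← hab] at huW
    exact huW ha
  · apply hv
    have h1 : c • v ∈ U := by
      have : c • v = u - a := by rw [← hab]; abel
      rw [this]
      exact U.sub_mem huU (hWU.le ha)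
    exact (U.smul_mem_iff hc).mp h1


end Cfsg.Agent.S5632
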