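import Cfsg.Statements.S5635
import Mathlib
import Cfsg.Agent.Lib.Helper13.BlockWeight

set_option autoImplicit false
open Cfsg

namespace Cfsg.Agent.S5635

open Cfsg.Agent.Lib.Helper13.BlockWeight

/-- For a finite field F with q elements and n ≥ 13, let D be a decomposition of F^n into t ≥ 2 independent subspaces of equal dimension m spanning F^n, where m = 1 and q ≤ 4, or m = 2 and q = 2. Then the elements of SL_n(F) permuting the members of D form a subgroup that is not maximal: some subgroup lies strictly between it and SL_n(F). -/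
theorem result {F : Type*} [Field F] [Fintype F] (n : ℕ) (hn : 13 ≤ n) {t : ℕ} (m : ℕ) (D : Fin t → Submodule F (Fin n → F)) (hD : Cfsg.Geo.IsMDecomposition m D) (h : (m = 1 ∧ Fintype.card F ≤ 4) ∨ (m = 2 ∧ Fintype.card F = 2)) : ∃ K : Subgroup (Matrix.GeneralLinearGroup (Fin n) F), Cfsg.Geo.decompositionStabilizer D ⊓ Cfsg.Geo.specialLinear (Fin n) F < K ∧ K < Cfsg.Geo.specialLinear (Fin n) F := by
  obtain ⟨C⟩ := exists_coords D hD.indep hD.iSup_eq_top hD.finrank_eq
  have hcard := card_eq C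
  obtain ⟨g₂, hg₂, x, hx⟩ := exists_moving C hD.pos hD.two_le
  rcases h with ⟨rfl, hq⟩ | ⟨rfl, hq⟩
  · obtain ⟨g₁, hg₁, hN, hS⟩ := exists_fixing_one hq C (by omega)
    exact criterion C _ g₁ g₂ hg₁ hN hS hg₂ x hx
  · obtain ⟨g₁, hg₁, hN, hS⟩ := exists_fixing_two hq C (by omega)
    exact criterion C _ g₁ g₂ hg₁ hN hS hg₂ x hx

end Cfsg.Agent.S5635
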