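import Cfsg.Statements.S5638
import Mathlib

set_option autoImplicit false
open Cfsg

namespace Cfsg.Agent.S5638

open Matrix
open scoped Kronecker

variable {F : Type*} [Field F] [Fintype F] {n₂ : ℕ}

theorem two_eq_zero (hq : Fintype.card F = 2) : (2 : F) = 0 := by
  have hc := Nat.cast_card_eq_zero F
  rw [hq] at hc
  exact_mod_cast hc

theorem zero_or_one (hq : Fintype.card F = 2) (a : F) : a = 0 ∨ a = 1 := by
  have h := FiniteField.pow_card a
  rw [hq] at h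
  have : a * (a - 1) = 0 := by linear_combination h
  rcases mul_eq_zero.mp this with h | h
  · exact Or.inl h
  · exact Or.inr (sub_eq_zero.mp h)

/-- The companion matrix of `x² + x + 1`. -/
def Cm (F : Type*) [Field F] : Matrix (Fin 2) (Fin 2) F := !![0, 1; 1, 1]

theorem Cm_quad (hq : Fintype.card F = 2) : Cm F * Cm F + Cm F + 1 = 0 := by
  have h2 := two_eq_zero hq
  ext i j
  fin_cases i <;> fin_cases j <;> simp [Cm] <;>
    first | linear_combination h2 | linear_combination 2 * h2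

theorem Cm_mul (hq : Fintype.card F = 2) : Cm F * (Cm F + 1) = 1 := by
  have h := Cm_quad hq
  have h2 := two_eq_zero hq
  have e : Cm F * (Cm F + 1) = (Cm F * Cm F + Cm F + 1) - 1 := by
    rw [mul_add, mul_one]; abel
  rw [e, h, zero_sub]
  ext i j
  fin_cases i <;> fin_cases j <;> simp <;> linear_combination (-1 : F) * h2

theorem Cm_mul' (hq : Fintype.card F = 2) : (Cm F + 1) * Cm F = 1 := by
  rw [add_mul, one_mul, ← Cm_mul hq, mul_add, mul_one]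

theorem quad_class (hq : Fintype.card F = 2) (A : Matrix (Fin 2) (Fin 2) F)
    (hA : A * A + A + 1 = 0) : A * Cm F = Cm F * A := by
  have h2 := two_eq_zero hq
  have h00 := congrFun (congrFun hA 0) 0
  have h01 := congrFun (congrFun hA 0) 1
  simp [Matrix.mul_apply, Fin.sum_univ_two] at h00 h01
  have haa : A 0 0 * A 0 0 = A 0 0 := by
    rcases zero_or_one hq (A 0 0) with h | h <;> rw [h] <;> ring
  have hbc : A 0 1 * A 1 0 = 1 := by linear_combination h00 - haa - (A 0 0 + 1) * h2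
  have hb : A 0 1 = 1 := by
    rcases zero_or_one hq (A 0 1) with h | h
    · rw [h, zero_mul] at hbc
      exact absurd hbc zero_ne_one
    · exact h
  have hc : A 1 0 = 1 := by
    rw [hb, one_mul] at hbc
    exact hbc
  have hd : A 1 1 = A 0 0 + 1 := by
    rw [hb] at h01
    linear_combination h01 - (A 0 0 + 1) * h2
  ext i j
  fin_cases i <;> fin_cases j <;> simp [Cm, Matrix.mul_apply, Fin.sum_univ_two, hb, hc, hd]

/-- The set of `A ⊗ 1` with `A² + A + 1 = 0`. -/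
def S (F : Type*) [Field F] (n₂ : ℕ) : Set (GL (Fin 2 × Fin n₂) F) :=
  {x | ∃ A : Matrix (Fin 2) (Fin 2) F, A * A + A + 1 = 0 ∧
    (x : Matrix (Fin 2 × Fin n₂) (Fin 2 × Fin n₂) F) = A ⊗ₖ (1 : Matrix (Fin n₂) (Fin n₂) F)}

/-- The normalizer of `S`. -/
def K' (F : Type*) [Field F] (n₂ : ℕ) : Subgroup (GL (Fin 2 × Fin n₂) F) where
  carrier := {g | ∀ x : GL (Fin 2 × Fin n₂) F, x ∈ S F n₂ ↔ g * x * g⁻¹ ∈ S F n₂}
  mul_mem' := by
    intro a b ha hb x
    rw [hb x, ha (b * x * b⁻¹)]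
    have e : a * (b * x * b⁻¹) * a⁻¹ = a * b * x * (a * b)⁻¹ := by group
    rw [e]
  one_mem' := by
    intro x
    simp
  inv_mem' := by
    intro a ha x
    have := ha (a⁻¹ * x * a⁻¹⁻¹)
    have e : a * (a⁻¹ * x * a⁻¹⁻¹) * a⁻¹ = x := by group
    rw [e] at this
    exact this.symm

/-- Kronecker product of invertible matrices as an invertible matrix. -/
def kron (a : GL (Fin 2) F) (b : GL (Fin n₂) F) : GL (Fin 2 × Fin n₂) F where
  val := (a : Matrix (Fin 2) (Fin 2) F) ⊗ₖ (b : Matrix (Fin n₂) (Fin n₂) F)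
  inv := ((a⁻¹ : GL (Fin 2) F) : Matrix (Fin 2) (Fin 2) F) ⊗ₖ ((b⁻¹ : GL (Fin n₂) F) : Matrix (Fin n₂) (Fin n₂) F)
  val_inv := by
    rw [← Matrix.mul_kronecker_mul, ← Units.val_mul, ← Units.val_mul, mul_inv_cancel, mul_inv_cancel,
      Units.val_one, Units.val_one, Matrix.one_kronecker_one]
  inv_val := by
    rw [← Matrix.mul_kronecker_mul, ← Units.val_mul, ← Units.val_mul, inv_mul_cancel, inv_mul_cancel,
      Units.val_one, Units.val_one, Matrix.one_kronecker_one]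

omit [Fintype F] in
theorem kron_inv (a : GL (Fin 2) F) (b : GL (Fin n₂) F) : (kron a b)⁻¹ = kron a⁻¹ b⁻¹ := by
  apply Units.ext
  rfl

omit [Fintype F] in
theorem conj_mem (a : GL (Fin 2) F) (b : GL (Fin n₂) F) (x : GL (Fin 2 × Fin n₂) F)
    (hx : x ∈ S F n₂) : kron a b * x * (kron a b)⁻¹ ∈ S F n₂ := by
  obtain ⟨A, hA, hxA⟩ := hx
  refine ⟨(a : Matrix (Fin 2) (Fin 2) F) * A * ((a⁻¹ : GL (Fin 2) F) : Matrix (Fin 2) (Fin 2) F), ?_, ?_⟩
  · have h1 : ((a⁻¹ : GL (Fin 2) F) : Matrix (Fin 2) (Fin 2) F) * (a : Matrix (Fin 2) (Fin 2) F) = 1 := by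
      rw [← Units.val_mul, inv_mul_cancel, Units.val_one]
    have h2 : (a : Matrix (Fin 2) (Fin 2) F) * ((a⁻¹ : GL (Fin 2) F) : Matrix (Fin 2) (Fin 2) F) = 1 := by
      rw [← Units.val_mul, mul_inv_cancel, Units.val_one]
    calc (a : Matrix (Fin 2) (Fin 2) F) * A * ((a⁻¹ : GL (Fin 2) F) : Matrix (Fin 2) (Fin 2) F) *
          ((a : Matrix (Fin 2) (Fin 2) F) * A * ((a⁻¹ : GL (Fin 2) F) : Matrix (Fin 2) (Fin 2) F)) +
          (a : Matrix (Fin 2) (Fin 2) F) * A * ((a⁻¹ : GL (Fin 2) F) : Matrix (Fin 2) (Fin 2) F) + 1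
        = (a : Matrix (Fin 2) (Fin 2) F) * (A * A + A + 1) *
            ((a⁻¹ : GL (Fin 2) F) : Matrix (Fin 2) (Fin 2) F) := by
          have e : (a : Matrix (Fin 2) (Fin 2) F) * A * ((a⁻¹ : GL (Fin 2) F) : Matrix (Fin 2) (Fin 2) F) *
              ((a : Matrix (Fin 2) (Fin 2) F) * A * ((a⁻¹ : GL (Fin 2) F) : Matrix (Fin 2) (Fin 2) F))
              = (a : Matrix (Fin 2) (Fin 2) F) * (A * A) *
                ((a⁻¹ : GL (Fin 2) F) : Matrix (Fin 2) (Fin 2) F) := by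
            simp only [Matrix.mul_assoc]
            rw [← Matrix.mul_assoc ((a⁻¹ : GL (Fin 2) F) : Matrix (Fin 2) (Fin 2) F)
              (a : Matrix (Fin 2) (Fin 2) F), h1, Matrix.one_mul]
          rw [e]
          simp only [Matrix.mul_add, Matrix.add_mul, Matrix.mul_one, h2]
      _ = 0 := by rw [hA, Matrix.mul_zero, Matrix.zero_mul]
  · rw [kron_inv]
    show (a : Matrix (Fin 2) (Fin 2) F) ⊗ₖ (b : Matrix (Fin n₂) (Fin n₂) F) *
        (x : Matrix (Fin 2 × Fin n₂) (Fin 2 × Fin n₂) F) *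
        (((a⁻¹ : GL (Fin 2) F) : Matrix (Fin 2) (Fin 2) F) ⊗ₖ
          ((b⁻¹ : GL (Fin n₂) F) : Matrix (Fin n₂) (Fin n₂) F)) = _
    rw [hxA, ← Matrix.mul_kronecker_mul, ← Matrix.mul_kronecker_mul, Matrix.mul_one, ← Units.val_mul,
      mul_inv_cancel, Units.val_one]

omit [Fintype F] in
theorem kron_le : Cfsg.Geo.kroneckerSubgroup 2 n₂ F ≤ K' F n₂ := by
  rintro g ⟨a, b, hg⟩
  have hg' : g = kron a b := Units.ext hg
  subst hg'
  intro x
  constructor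
  · exact conj_mem a b x
  · intro h
    have := conj_mem a⁻¹ b⁻¹ _ h
    rw [← kron_inv] at this
    have e : (kron a b)⁻¹ * (kron a b * x * (kron a b)⁻¹) * (kron a b)⁻¹⁻¹ = x := by group
    rwa [e] at this

/-- `C ⊗ 1` as an invertible matrix. -/
def xC (hq : Fintype.card F = 2) (n₂ : ℕ) : GL (Fin 2 × Fin n₂) F where
  val := Cm F ⊗ₖ (1 : Matrix (Fin n₂) (Fin n₂) F)
  inv := (Cm F + 1) ⊗ₖ (1 : Matrix (Fin n₂) (Fin n₂) F)
  val_inv := by
    rw [← Matrix.mul_kronecker_mul, Cm_mul hq, Matrix.mul_one, Matrix.one_kronecker_one]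
  inv_val := by
    rw [← Matrix.mul_kronecker_mul, Cm_mul' hq, Matrix.mul_one, Matrix.one_kronecker_one]

theorem xC_mem (hq : Fintype.card F = 2) (n₂ : ℕ) : xC hq n₂ ∈ S F n₂ :=
  ⟨Cm F, Cm_quad hq, rfl⟩

/-- An elementary transvection. -/
def tv (F : Type*) [Field F] (n₂ : ℕ) (h : 2 ≤ n₂) : GL (Fin 2 × Fin n₂) F where
  val := 1 + Matrix.single ((0 : Fin 2), (⟨0, by omega⟩ : Fin n₂)) ((0 : Fin 2), (⟨1, by omega⟩ : Fin n₂)) 1
  inv := 1 - Matrix.single ((0 : Fin 2), (⟨0, by omega⟩ : Fin n₂)) ((0 : Fin 2), (⟨1, by omega⟩ : Fin n₂)) 1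
  val_inv := by
    have hne : ((0 : Fin 2), (⟨1, by omega⟩ : Fin n₂)) ≠ ((0 : Fin 2), (⟨0, by omega⟩ : Fin n₂)) := by
      simp [Fin.ext_iff]
    have hNN : Matrix.single ((0 : Fin 2), (⟨0, by omega⟩ : Fin n₂))
        ((0 : Fin 2), (⟨1, by omega⟩ : Fin n₂)) (1 : F) *
        Matrix.single ((0 : Fin 2), (⟨0, by omega⟩ : Fin n₂))
        ((0 : Fin 2), (⟨1, by omega⟩ : Fin n₂)) (1 : F) = 0 :=
      Matrix.single_mul_single_of_ne (c := (1 : F)) _ _ _ hne _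
    generalize Matrix.single ((0 : Fin 2), (⟨0, by omega⟩ : Fin n₂))
      ((0 : Fin 2), (⟨1, by omega⟩ : Fin n₂)) (1 : F) = N at hNN ⊢
    have : (1 + N) * (1 - N) = 1 - N * N := by noncomm_ring
    rw [this, hNN, sub_zero]
  inv_val := by
    have hne : ((0 : Fin 2), (⟨1, by omega⟩ : Fin n₂)) ≠ ((0 : Fin 2), (⟨0, by omega⟩ : Fin n₂)) := by
      simp [Fin.ext_iff]
    have hNN : Matrix.single ((0 : Fin 2), (⟨0, by omega⟩ : Fin n₂))
        ((0 : Fin 2), (⟨1, by omega⟩ : Fin n₂)) (1 : F) *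
        Matrix.single ((0 : Fin 2), (⟨0, by omega⟩ : Fin n₂))
        ((0 : Fin 2), (⟨1, by omega⟩ : Fin n₂)) (1 : F) = 0 :=
      Matrix.single_mul_single_of_ne (c := (1 : F)) _ _ _ hne _
    generalize Matrix.single ((0 : Fin 2), (⟨0, by omega⟩ : Fin n₂))
      ((0 : Fin 2), (⟨1, by omega⟩ : Fin n₂)) (1 : F) = N at hNN ⊢
    have : (1 - N) * (1 + N) = 1 - N * N := by noncomm_ring
    rw [this, hNN, sub_zero]

theorem tv_not_mem (hq : Fintype.card F = 2) (h : 2 ≤ n₂) : tv F n₂ h ∉ K' F n₂ := by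
  intro hmem
  obtain ⟨A, -, hA⟩ := (hmem (xC hq n₂)).mp (xC_mem hq n₂)
  have hA' : (tv F n₂ h : Matrix (Fin 2 × Fin n₂) (Fin 2 × Fin n₂) F) *
      (xC hq n₂ : Matrix (Fin 2 × Fin n₂) (Fin 2 × Fin n₂) F)
      = A ⊗ₖ (1 : Matrix (Fin n₂) (Fin n₂) F) * (tv F n₂ h : Matrix (Fin 2 × Fin n₂) (Fin 2 × Fin n₂) F) := by
    rw [← hA, ← Units.val_mul, ← Units.val_mul]
    congr 1
    group
  have h01 : (⟨0, by omega⟩ : Fin n₂) ≠ ⟨1, by omega⟩ := by simp [Fin.ext_iff]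
  have e1 := congrFun (congrFun hA' ((1 : Fin 2), (⟨1, by omega⟩ : Fin n₂))) ((0 : Fin 2), (⟨1, by omega⟩ : Fin n₂))
  have e2 := congrFun (congrFun hA' ((1 : Fin 2), (⟨0, by omega⟩ : Fin n₂))) ((0 : Fin 2), (⟨1, by omega⟩ : Fin n₂))
  have hv : (tv F n₂ h : Matrix (Fin 2 × Fin n₂) (Fin 2 × Fin n₂) F) = 1 + Matrix.single ((0 : Fin 2), (⟨0, by omega⟩ : Fin n₂)) ((0 : Fin 2), (⟨1, by omega⟩ : Fin n₂)) 1 := rfl
  have hx : (xC hq n₂ : Matrix (Fin 2 × Fin n₂) (Fin 2 × Fin n₂) F) = Cm F ⊗ₖ (1 : Matrix (Fin n₂) (Fin n₂) F) := rfl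
  rw [hv, hx, add_mul, mul_add, one_mul, mul_one, Matrix.add_apply, Matrix.add_apply] at e1 e2
  rw [Matrix.single_mul_apply_of_ne _ _ _ _ _ (by simp), Matrix.mul_single_apply_same] at e1 e2
  simp [Cm, Matrix.one_apply, h01, h01.symm] at e1 e2
  rw [← e2] at e1
  exact one_ne_zero e1

/-- The matrix unit `E₀₀`. -/
def E (F : Type*) [Field F] (n₂ : ℕ) (h : 2 ≤ n₂) : Matrix (Fin n₂) (Fin n₂) F :=
  Matrix.single (⟨0, by omega⟩ : Fin n₂) (⟨0, by omega⟩ : Fin n₂) 1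

omit [Fintype F] in
theorem E_mul_E (h : 2 ≤ n₂) : E F n₂ h * E F n₂ h = E F n₂ h := by
  unfold E
  rw [Matrix.single_mul_single_same, mul_one]

omit [Fintype F] in
theorem E_mul_E' (h : 2 ≤ n₂) : E F n₂ h * (1 - E F n₂ h) = 0 := by
  rw [mul_sub, mul_one, E_mul_E, sub_self]

omit [Fintype F] in
theorem E'_mul_E (h : 2 ≤ n₂) : (1 - E F n₂ h) * E F n₂ h = 0 := by
  rw [sub_mul, one_mul, E_mul_E, sub_self]

omit [Fintype F] in
theorem E'_mul_E' (h : 2 ≤ n₂) : (1 - E F n₂ h) * (1 - E F n₂ h) = 1 - E F n₂ h := by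
  rw [mul_sub, mul_one, E'_mul_E, sub_zero]

/-- The block diagonal element `C ⊕ 1 ⊕ ⋯ ⊕ 1`. -/
def g1 (hq : Fintype.card F = 2) (n₂ : ℕ) (h : 2 ≤ n₂) : GL (Fin 2 × Fin n₂) F where
  val := Cm F ⊗ₖ E F n₂ h + (1 : Matrix (Fin 2) (Fin 2) F) ⊗ₖ (1 - E F n₂ h)
  inv := (Cm F + 1) ⊗ₖ E F n₂ h + (1 : Matrix (Fin 2) (Fin 2) F) ⊗ₖ (1 - E F n₂ h)
  val_inv := by
    rw [add_mul, mul_add, mul_add, ← Matrix.mul_kronecker_mul, ← Matrix.mul_kronecker_mul,
      ← Matrix.mul_kronecker_mul, ← Matrix.mul_kronecker_mul, E_mul_E, E_mul_E', E'_mul_E, E'_mul_E',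
      Cm_mul hq, Matrix.kronecker_zero, Matrix.kronecker_zero, add_zero, zero_add, mul_one,
      ← Matrix.kronecker_add, add_sub_cancel, Matrix.one_kronecker_one]
  inv_val := by
    rw [add_mul, mul_add, mul_add, ← Matrix.mul_kronecker_mul, ← Matrix.mul_kronecker_mul,
      ← Matrix.mul_kronecker_mul, ← Matrix.mul_kronecker_mul, E_mul_E, E_mul_E', E'_mul_E, E'_mul_E',
      Cm_mul' hq, Matrix.kronecker_zero, Matrix.kronecker_zero, add_zero, zero_add, mul_one,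
      ← Matrix.kronecker_add, add_sub_cancel, Matrix.one_kronecker_one]

theorem g1_comm (hq : Fintype.card F = 2) (h : 2 ≤ n₂) (x : GL (Fin 2 × Fin n₂) F)
    (hx : x ∈ S F n₂) : g1 hq n₂ h * x = x * g1 hq n₂ h := by
  obtain ⟨A, hA, hxA⟩ := hx
  apply Units.ext
  rw [Units.val_mul, Units.val_mul, hxA]
  show (Cm F ⊗ₖ E F n₂ h + (1 : Matrix (Fin 2) (Fin 2) F) ⊗ₖ (1 - E F n₂ h)) *
      A ⊗ₖ (1 : Matrix (Fin n₂) (Fin n₂) F)
    = A ⊗ₖ (1 : Matrix (Fin n₂) (Fin n₂) F) *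
      (Cm F ⊗ₖ E F n₂ h + (1 : Matrix (Fin 2) (Fin 2) F) ⊗ₖ (1 - E F n₂ h))
  rw [add_mul, mul_add, ← Matrix.mul_kronecker_mul, ← Matrix.mul_kronecker_mul,
    ← Matrix.mul_kronecker_mul, ← Matrix.mul_kronecker_mul, quad_class hq A hA]
  simp only [mul_one, one_mul]

theorem g1_mem (hq : Fintype.card F = 2) (h : 2 ≤ n₂) : g1 hq n₂ h ∈ K' F n₂ := by
  intro x
  constructor
  · intro hx
    have e : g1 hq n₂ h * x * (g1 hq n₂ h)⁻¹ = x := by
      rw [g1_comm hq h x hx]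
      group
    rw [e]
    exact hx
  · intro hy
    have hc := g1_comm hq h _ hy
    have e1 : (g1 hq n₂ h)⁻¹ * (g1 hq n₂ h * x * (g1 hq n₂ h)⁻¹ * g1 hq n₂ h) = x := by group
    rw [← hc] at e1
    have e2 : (g1 hq n₂ h)⁻¹ * (g1 hq n₂ h * (g1 hq n₂ h * x * (g1 hq n₂ h)⁻¹))
        = g1 hq n₂ h * x * (g1 hq n₂ h)⁻¹ := by group
    rw [e2] at e1
    rw [e1] at hy
    exact hy

theorem g1_not_kron (hq : Fintype.card F = 2) (h : 2 ≤ n₂) :
    g1 hq n₂ h ∉ Cfsg.Geo.kroneckerSubgroup 2 n₂ F := by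
  rintro ⟨a, b, hab⟩
  have hv : (g1 hq n₂ h : Matrix (Fin 2 × Fin n₂) (Fin 2 × Fin n₂) F)
      = Cm F ⊗ₖ E F n₂ h + (1 : Matrix (Fin 2) (Fin 2) F) ⊗ₖ (1 - E F n₂ h) := rfl
  rw [hv] at hab
  have h01 : (⟨0, by omega⟩ : Fin n₂) ≠ ⟨1, by omega⟩ := by simp [Fin.ext_iff]
  have e1 := congrFun (congrFun hab ((0 : Fin 2), (⟨1, by omega⟩ : Fin n₂))) ((0 : Fin 2), (⟨1, by omega⟩ : Fin n₂))
  have e2 := congrFun (congrFun hab ((0 : Fin 2), (⟨1, by omega⟩ : Fin n₂))) ((1 : Fin 2), (⟨1, by omega⟩ : Fin n₂))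
  have e3 := congrFun (congrFun hab ((0 : Fin 2), (⟨0, by omega⟩ : Fin n₂))) ((1 : Fin 2), (⟨0, by omega⟩ : Fin n₂))
  simp [Cm, E, h01] at e1 e2 e3
  rcases e2 with h0 | h0
  · rw [h0, zero_mul] at e3
    exact one_ne_zero e3
  · rw [h0, mul_zero] at e1
    exact one_ne_zero e1

theorem SL_eq_top (hq : Fintype.card F = 2) (n : ℕ) :
    Cfsg.Geo.specialLinear (Fin n) F = ⊤ := by
  classical
  have hsub : Subsingleton Fˣ := by
    rw [← Fintype.card_le_one_iff_subsingleton, Fintype.card_units, hq]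
  rw [eq_top_iff]
  intro g _
  unfold Cfsg.Geo.specialLinear
  rw [MonoidHom.mem_ker]
  exact Subsingleton.elim _ _

/-- Over the field with 2 elements, for n = 2 n₂ ≥ 13, the stabiliser in SL_n of a tensor decomposition with factors of dimensions 2 and n₂ (the conjugate by any P of the Kronecker-product subgroup transported along any bijection Fin n ≃ Fin 2 × Fin n₂, intersected with SL_n) is not a maximal subgroup: some subgroup lies strictly between it and SL_n. -/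
theorem result {F : Type*} [Field F] [Fintype F] (n : ℕ) (hn : 13 ≤ n) (hq : Fintype.card F = 2) (n₂ : ℕ) (e : Fin n ≃ Fin 2 × Fin n₂) (P : Matrix.GeneralLinearGroup (Fin n) F) : ∃ K : Subgroup (Matrix.GeneralLinearGroup (Fin n) F), Cfsg.Geo.tensorProductSubgroup 2 n₂ e P ⊓ Cfsg.Geo.specialLinear (Fin n) F < K ∧ K < Cfsg.Geo.specialLinear (Fin n) F := by
  have hcard := Fintype.card_congr e
  simp only [Fintype.card_fin, Fintype.card_prod] at hcard
  have h2 : 2 ≤ n₂ := by omega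
  have hr : Function.Injective ((Cfsg.Geo.glReindex (F := F) e.symm).toMonoidHom) :=
    (Cfsg.Geo.glReindex (F := F) e.symm).injective
  have hc : Function.Injective ((MulAut.conj P).toMonoidHom) := (MulAut.conj P).injective
  have hrs : Function.Surjective ((Cfsg.Geo.glReindex (F := F) e.symm).toMonoidHom) :=
    (Cfsg.Geo.glReindex (F := F) e.symm).surjective
  have hcs : Function.Surjective ((MulAut.conj P).toMonoidHom) := (MulAut.conj P).surjective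
  have hlt1 : Cfsg.Geo.kroneckerSubgroup 2 n₂ F < K' F n₂ := by
    rw [lt_iff_le_and_ne]
    refine ⟨kron_le, ?_⟩
    intro heq
    have := g1_mem hq h2
    rw [← heq] at this
    exact g1_not_kron hq h2 this
  have hlt2 : K' F n₂ < ⊤ := by
    rw [lt_top_iff_ne_top]
    intro heq
    have : tv F n₂ h2 ∈ K' F n₂ := by rw [heq]; trivial
    exact tv_not_mem hq h2 this
  refine ⟨((K' F n₂).map (Cfsg.Geo.glReindex e.symm).toMonoidHom).map (MulAut.conj P).toMonoidHom,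
    ?_, ?_⟩
  · rw [SL_eq_top hq, inf_top_eq]
    unfold Cfsg.Geo.tensorProductSubgroup
    rw [Subgroup.map_lt_map_iff_of_injective hc, Subgroup.map_lt_map_iff_of_injective hr]
    exact hlt1
  · rw [SL_eq_top hq]
    have htop : (⊤ : Subgroup (GL (Fin n) F))
        = ((⊤ : Subgroup (GL (Fin 2 × Fin n₂) F)).map (Cfsg.Geo.glReindex e.symm).toMonoidHom).map
          (MulAut.conj P).toMonoidHom := by
      rw [Subgroup.map_top_of_surjective _ hrs, Subgroup.map_top_of_surjective _ hcs]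
    rw [htop, Subgroup.map_lt_map_iff_of_injective hc, Subgroup.map_lt_map_iff_of_injective hr]
    exact hlt2

end Cfsg.Agent.S5638
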