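import Cfsg.Statements.S5643
import Mathlib
import Cfsg.Agent.S5631
import Cfsg.Agent.S5645
import Cfsg.Agent.S5642
import Cfsg.Agent.Lib.Helper28.SLGen
import Cfsg.Agent.Lib.Helper28.Herm

set_option autoImplicit false
open Cfsg

namespace Cfsg.Agent.S5643

open Matrix
open Cfsg.Agent.S5631 Cfsg.Agent.S5645 Cfsg.Agent.S5642 Cfsg.Agent.Lib.Helper28.SLGen
open Cfsg.Agent.Lib.Helper28.Herm

variable {ι : Type} [Fintype ι] [DecidableEq ι] {F : Type*} [Field F]
variable {σ : F →+* F} {f : (ι → F) → (ι → F) → F}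

theorem rep_zero (hf : IsHerm σ f) : rep f 0 = 0 := by
  funext i
  exact hf.zero_right _

theorem avoid2H (hf : IsHerm σ f) (u v : ι → F) (hu : u ≠ 0) (hv : v ≠ 0) :
    ∃ y, f u y ≠ 0 ∧ f v y ≠ 0 := by
  obtain ⟨y1, hy1⟩ : ∃ y, f u y ≠ 0 := by
    by_contra hcon
    push Not at hcon
    exact hu (hf.nondeg' u hcon)
  obtain ⟨y2, hy2⟩ : ∃ y, f v y ≠ 0 := by
    by_contra hcon
    push Not at hcon
    exact hv (hf.nondeg' v hcon)
  by_cases h1 : f v y1 = 0
  · by_cases h2 : f u y2 = 0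
    · refine ⟨y1 + y2, ?_, ?_⟩
      · rw [hf.add_right, h2, add_zero]
        exact hy1
      · rw [hf.add_right, h1, zero_add]
        exact hy2
    · exact ⟨y2, h2, hy2⟩
  · exact ⟨y1, hy1, h1⟩

theorem T_centre_sub (K : Subgroup (GL ι F)) {a b l : ι → F} (h1 : T K a l)
    (h2 : T K (a + b) l) : T K b l := by
  obtain ⟨ha, hta⟩ := h1
  obtain ⟨hab, htab⟩ := h2
  have hb : l ⬝ᵥ b = 0 := by
    rw [dotProduct_add, ha, zero_add] at hab
    exact hab
  refine ⟨hb, ?_⟩
  have e : tvG b l hb = tvG (a + b) l hab * (tvG a l ha)⁻¹ := by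
    rw [eq_mul_inv_iff_mul_eq]
    apply gl_ext
    intro x
    rw [Units.val_mul, ← Matrix.mulVec_mulVec, tvG_mulVec, tvG_mulVec, tvG_mulVec,
      dotProduct_add, dotProduct_smul, ha, smul_zero, add_zero, smul_add]
    abel
  rw [e]
  exact K.mul_mem htab (K.inv_mem hta)

section shear

variable (hf : IsHerm σ f) (K : Subgroup (GL ι F))
  (hall : ∀ (a : ι → F) (c : F), f a a = 0 → c + σ c = 0 → T K a (c • rep f a))
include hf hall

theorem T_shearU {a l d : ι → F} (h1 : T K a l) (hdd : f d d = 0) (had : f a d = 0) (e : F)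
    (he : e + σ e = 0) : T K a ((e * (l ⬝ᵥ d)) • rep f d) := by
  obtain ⟨h, hk⟩ := hall d e hdd he
  have h2 := T_conj K _ hk h1 (a := a)
    (by rw [uT_mulVec hf, had, mul_zero, zero_smul, add_zero])
  have h3 : l ᵥ* ((tvG d (e • rep f d) h : GL ι F) : Matrix ι ι F) =
      l + (e * (l ⬝ᵥ d)) • rep f d := by
    apply dot_ext
    intro x
    rw [← Matrix.dotProduct_mulVec, uT_mulVec hf, dotProduct_add, dotProduct_smul,
      add_dotProduct, smul_dotProduct, hf.rep_dot, smul_eq_mul, smul_eq_mul]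
    ring
  rw [h3] at h2
  have h4 := T_add K h2 (T_neg K h1)
  rwa [add_comm l, add_neg_cancel_right] at h4

theorem T_shearC {a l d : ι → F} (h1 : T K a l) (hdd : f d d = 0) (hld : l ⬝ᵥ d = 0) (e : F)
    (he : e + σ e = 0) : T K ((e * f a d) • d) l := by
  obtain ⟨h, hk⟩ := hall d e hdd he
  have h2 := T_conj K (tvG d (e • rep f d) h)⁻¹ (K.inv_mem hk) h1
    (a := ((tvG d (e • rep f d) h : GL ι F) : Matrix ι ι F) *ᵥ a) (gl_inv_mulVec _ a)
  have h3 : l ᵥ* ((tvG d (e • rep f d) h : GL ι F) : Matrix ι ι F) = l := by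
    apply dot_ext
    intro x
    rw [← Matrix.dotProduct_mulVec, uT_mulVec hf, dotProduct_add, dotProduct_smul, hld,
      smul_zero, add_zero]
  have h4 : l ᵥ* (((tvG d (e • rep f d) h)⁻¹ : GL ι F) : Matrix ι ι F) = l := by
    conv_lhs => rw [← h3]
    rw [Matrix.vecMul_vecMul, ← Units.val_mul, mul_inv_cancel, Units.val_one, Matrix.vecMul_one]
  rw [h4, uT_mulVec hf] at h2
  exact T_centre_sub K h1 h2

theorem D_step {a d d' : ι → F} (hd : ∀ c : F, T K a (c • rep f d)) (hd'd' : f d' d' = 0)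
    (had' : f a d' = 0) (hdd' : f d' d ≠ 0) : ∀ c : F, T K a (c • rep f d') := by
  obtain ⟨ζ, hζ0, hζ⟩ := hf.exists_zeta
  intro c
  have h1 := T_shearU hf K hall (hd (c / (ζ * f d' d))) hd'd' had' ζ hζ
  rw [smul_dotProduct, hf.rep_dot, smul_eq_mul] at h1
  have e : ζ * (c / (ζ * f d' d) * f d' d) = c := by
    field_simp
  rwa [e] at h1

/-- triangle argument: the coefficients of `rep d1` form all of `F` -/
theorem D_of_one [Finite F] (hn : 6 < Fintype.card ι) {a d1 : ι → F} (c1 : F) (hc1 : c1 ≠ 0)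
    (hd1 : f d1 d1 = 0) (had1 : f a d1 = 0) (hd1a : d1 ∉ Submodule.span F {a})
    (h : ∀ e : F, e + σ e = 0 → T K a ((e * c1) • rep f d1)) :
    ∀ c : F, T K a (c • rep f d1) := by
  obtain ⟨ζ, hζ0, hζ⟩ := hf.exists_zeta
  have hσζ : σ ζ = -ζ := by linear_combination hζ
  obtain ⟨d', hd'd', had', hd1d'⟩ := hf.iso_avoid hn a d1 hd1a
  obtain ⟨w, hw, hww⟩ := hf.exists_aniso ![a, d1, d'] (by omega)
  have hwa : f w a = 0 := hw 0
  have hwd1 : f w d1 = 0 := hw 1
  have hwd' : f w d' = 0 := hw 2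
  obtain ⟨ν, hν⟩ := hf.exists_tr (-f w w) (by rw [map_neg, hf.self_fix])
  have hd'd1 : f d' d1 ≠ 0 := hf.ne_zero_symm hd1d'
  have e1 : ν / f d1 d' * f d1 d' = ν := div_mul_cancel₀ _ hd1d'
  have e2 : σ (ν / f d1 d') * f d' d1 = σ ν := by
    rw [hf.herm d' d1, ← map_mul, e1]
  obtain ⟨d'', hd''def⟩ : ∃ d'', d'' = (ν / f d1 d') • d1 + d' + w := ⟨_, rfl⟩
  have hd''iso : f d'' d'' = 0 := by
    rw [hd''def]
    simp only [hf.add_left, hf.add_right, hf.smul_left, hf.smul_right, hd1, hd'd', hwd1, hwd',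
      hf.eq_zero_symm hwd1, hf.eq_zero_symm hwd', mul_zero, add_zero, zero_add, e1]
    rw [e2]
    linear_combination hν
  have had'' : f a d'' = 0 := by
    rw [hd''def]
    simp only [hf.add_right, hf.smul_right, had1, had', hf.eq_zero_symm hwa, mul_zero, add_zero]
  have hv1 : f d'' d' = ν := by
    rw [hd''def]
    simp only [hf.add_left, hf.smul_left, hd'd', hwd', add_zero, e1]
  have hv2 : f d1 d'' = f d1 d' := by
    rw [hd''def]
    simp only [hf.add_right, hf.smul_right, hd1, hf.eq_zero_symm hwd1, mul_zero, add_zero,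
      zero_add]
  have chain : ∀ e : F, e + σ e = 0 →
      T K a ((e * (ζ * (ζ * (ζ * c1 * f d' d1) * ν) * f d1 d')) • rep f d1) := by
    intro e he
    have s1 := T_shearU hf K hall (h ζ hζ) hd'd' had' ζ hζ
    rw [smul_dotProduct, hf.rep_dot, smul_eq_mul] at s1
    have s2 := T_shearU hf K hall s1 hd''iso had'' ζ hζ
    rw [smul_dotProduct, hf.rep_dot, smul_eq_mul, hv1] at s2
    have s3 := T_shearU hf K hall s2 hd1 had1 e he
    rw [smul_dotProduct, hf.rep_dot, smul_eq_mul, hv2] at s3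
    exact s3
  obtain ⟨τ, hτdef⟩ : ∃ τ, τ = ζ * (ζ * (ζ * f d' d1) * ν) * f d1 d' := ⟨_, rfl⟩
  have hτ : τ - σ τ ≠ 0 := by
    have hN : σ (f d' d1 * f d1 d') = f d' d1 * f d1 d' := by
      rw [map_mul, ← hf.herm d1 d', ← hf.herm d' d1]
      ring
    have e3 : τ = (ζ * ζ * ζ) * (f d' d1 * f d1 d') * ν := by
      rw [hτdef]
      ring
    have e4 : σ τ = -(ζ * ζ * ζ) * (f d' d1 * f d1 d') * σ ν := by
      rw [e3, map_mul, map_mul, hN, map_mul, map_mul, hσζ]
      ring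
    rw [e4, e3]
    have : ζ * ζ * ζ * (f d' d1 * f d1 d') * ν - -(ζ * ζ * ζ) * (f d' d1 * f d1 d') * σ ν =
        (ζ * ζ * ζ) * (f d' d1 * f d1 d') * (-f w w) := by
      rw [← hν]
      ring
    rw [this]
    exact mul_ne_zero (mul_ne_zero (mul_ne_zero (mul_ne_zero hζ0 hζ0) hζ0)
      (mul_ne_zero hd'd1 hd1d')) (neg_ne_zero.mpr hww)
  intro c
  obtain ⟨s, hsdef⟩ : ∃ s, s = c / c1 + σ (c / c1) := ⟨_, rfl⟩
  have hs : σ s = s := by
    rw [hsdef, map_add, hf.invol]
    ring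
  have hD : σ (τ - σ τ) = -(τ - σ τ) := by
    rw [map_sub, hf.invol]
    ring
  have he' : s / (τ - σ τ) + σ (s / (τ - σ τ)) = 0 := by
    rw [map_div₀, hs, hD, div_neg]
    ring
  have h4 : s / (τ - σ τ) * (τ - σ τ) = s := div_mul_cancel₀ _ hτ
  have he : (c / c1 - s / (τ - σ τ) * τ) + σ (c / c1 - s / (τ - σ τ) * τ) = 0 := by
    have h3 : σ (s / (τ - σ τ)) = -(s / (τ - σ τ)) := by linear_combination he'
    rw [map_sub, map_mul, h3]
    linear_combination -hsdef - h4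
  have t1 := h _ he
  have t2 := chain _ he'
  have t3 := T_add K t1 t2
  rw [← add_smul] at t3
  have e6 : ζ * (ζ * (ζ * c1 * f d' d1) * ν) * f d1 d' = τ * c1 := by
    rw [hτdef]
    ring
  have e5 : (c / c1 - s / (τ - σ τ) * τ) * c1 +
      s / (τ - σ τ) * (ζ * (ζ * (ζ * c1 * f d' d1) * ν) * f d1 d') = c := by
    rw [e6]
    have : c / c1 * c1 = c := div_mul_cancel₀ _ hc1
    linear_combination this
  rwa [e5] at t3

/-- an isotropic centre with a transvection whose functional is not a multiple of `rep a` is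
full -/
theorem full_of_iso [Finite F] (hn : 6 < Fintype.card ι) {a y0 : ι → F} (haa : f a a = 0)
    (hT : T K a (rep f y0)) (hy0 : y0 ∉ Submodule.span F {a}) :
    ∀ l : ι → F, l ⬝ᵥ a = 0 → T K a l := by
  obtain ⟨d1, hd1, had1, hy0d1⟩ := hf.iso_avoid hn a y0 hy0
  have hay0 : f a y0 = 0 := by
    obtain ⟨h, _⟩ := hT
    rwa [hf.rep_dot] at h
  have hd1a : d1 ∉ Submodule.span F {a} := by
    intro h
    obtain ⟨κ, rfl⟩ := Submodule.mem_span_singleton.mp h
    apply hy0d1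
    rw [hf.smul_right, hf.eq_zero_symm hay0, mul_zero]
  have h1 : ∀ e : F, e + σ e = 0 → T K a ((e * f d1 y0) • rep f d1) := fun e he => by
    have := T_shearU hf K hall hT hd1 had1 e he
    rwa [hf.rep_dot] at this
  have hD1 := D_of_one hf K hall hn (f d1 y0) (hf.ne_zero_symm hy0d1) hd1 had1 hd1a h1
  have hD : ∀ d : ι → F, f d d = 0 → f a d = 0 → d ∉ Submodule.span F {a} →
      ∀ c : F, T K a (c • rep f d) := by
    intro d hdd had hda
    by_cases h0 : f d d1 = 0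
    · obtain ⟨y1, hy1, hy1'⟩ := hf.exists_perp _ d1 hd1a
      obtain ⟨y2, hy2, hy2'⟩ := hf.exists_perp _ d hda
      have ha1 : f a y1 = 0 := hy1 a (Submodule.mem_span_singleton_self a)
      have ha2 : f a y2 = 0 := hy2 a (Submodule.mem_span_singleton_self a)
      obtain ⟨y, hay, h1y, h2y⟩ : ∃ y, f a y = 0 ∧ f d1 y ≠ 0 ∧ f d y ≠ 0 := by
        by_cases h1 : f d y1 = 0
        · by_cases h2 : f d1 y2 = 0
          · refine ⟨y1 + y2, ?_, ?_, ?_⟩
            · rw [hf.add_right, ha1, ha2, add_zero]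
            · rw [hf.add_right, hy1', h2, add_zero]
              exact one_ne_zero
            · rw [hf.add_right, h1, hy2', zero_add]
              exact one_ne_zero
          · exact ⟨y2, ha2, h2, by rw [hy2']; exact one_ne_zero⟩
        · exact ⟨y1, ha1, by rw [hy1']; exact one_ne_zero, h1⟩
      obtain ⟨μ, hμ⟩ := hf.iso_fix d1 y hd1 h1y
      have hay' : f a (y + μ • d1) = 0 := by
        rw [hf.add_right, hf.smul_right, hay, had1, mul_zero, add_zero]
      have hd1y : f d1 (y + μ • d1) ≠ 0 := by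
        rw [hf.add_right, hf.smul_right, hd1, mul_zero, add_zero]
        exact h1y
      have hdy : f d (y + μ • d1) ≠ 0 := by
        rw [hf.add_right, hf.smul_right, h0, mul_zero, add_zero]
        exact h2y
      have hDy := D_step hf K hall hD1 hμ hay' (hf.ne_zero_symm hd1y)
      exact D_step hf K hall hDy hdd had hdy
    · exact D_step hf K hall hD1 hdd had h0
  have key : ∀ y : ι → F, f a y = 0 → f d1 y ≠ 0 → T K a (rep f y) := by
    intro y hay hd1y
    obtain ⟨μ, hμ⟩ := hf.iso_fix d1 y hd1 hd1y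
    have hnot : y + μ • d1 ∉ Submodule.span F {a} := by
      intro h
      obtain ⟨κ, hκ⟩ := Submodule.mem_span_singleton.mp h
      have h2 : f d1 (y + μ • d1) = 0 := by
        rw [← hκ, hf.smul_right, hf.eq_zero_symm had1, mul_zero]
      rw [hf.add_right, hf.smul_right, hd1, mul_zero, add_zero] at h2
      exact hd1y h2
    have h1 := hD _ hμ (by rw [hf.add_right, hf.smul_right, hay, had1, mul_zero, add_zero])
      hnot 1
    have h2 := hD1 (-(σ μ))
    have h3 := T_add K h1 h2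
    rw [one_smul, hf.rep_add, hf.rep_smul, neg_smul, add_neg_cancel_right] at h3
    exact h3
  have hrep : ∀ y : ι → F, f a y = 0 → T K a (rep f y) := by
    intro y hay
    by_cases hd1y : f d1 y = 0
    · obtain ⟨y', hy', hy'1⟩ := hf.exists_perp _ d1 hd1a
      have hay' : f a y' = 0 := hy' a (Submodule.mem_span_singleton_self a)
      have h1 := key (y + y') (by rw [hf.add_right, hay, hay', add_zero])
        (by rw [hf.add_right, hd1y, hy'1, zero_add]; exact one_ne_zero)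
      have h2 := key y' hay' (by rw [hy'1]; exact one_ne_zero)
      have h3 := T_add K h1 (T_neg K h2)
      rwa [hf.rep_add, add_neg_cancel_right] at h3
    · exact key y hay hd1y
  intro l hl
  obtain ⟨y, rfl⟩ := hf.exists_rep l
  exact hrep y (by rwa [hf.rep_dot] at hl)

/-- a transvection in `K` with non-isotropic centre gives a full isotropic centre -/
theorem full_of_aniso [Finite F] (hn : 6 < Fintype.card ι) {a1 y1 : ι → F} (ha1 : f a1 a1 ≠ 0)
    (hy1 : y1 ≠ 0) (hT : T K a1 (rep f y1)) :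
    ∃ d : ι → F, d ≠ 0 ∧ f d d = 0 ∧ ∀ l : ι → F, l ⬝ᵥ d = 0 → T K d l := by
  have ha1y1 : f a1 y1 = 0 := by
    obtain ⟨h, _⟩ := hT
    rwa [hf.rep_dot] at h
  have hnot : a1 ∉ Submodule.span F {y1} := by
    intro h
    obtain ⟨κ, rfl⟩ := Submodule.mem_span_singleton.mp h
    apply ha1
    rw [hf.smul_right, ha1y1, mul_zero]
  obtain ⟨d, hdd, hy1d, ha1d⟩ := hf.iso_avoid hn y1 a1 hnot
  obtain ⟨ζ, hζ0, hζ⟩ := hf.exists_zeta
  have h2 := T_shearC hf K hall hT hdd (by rw [hf.rep_dot]; exact hf.eq_zero_symm hy1d) ζ hζ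
  rw [T_smul] at h2
  have e : (ζ * f a1 d) • rep f y1 = rep f (σ (ζ * f a1 d) • y1) := by
    rw [hf.rep_smul, hf.invol]
  rw [e] at h2
  have hd0 : d ≠ 0 := by
    rintro rfl
    exact ha1d (hf.zero_right _)
  refine ⟨d, hd0, hdd, full_of_iso hf K hall hn hdd h2 ?_⟩
  intro h
  obtain ⟨κ, hκ⟩ := Submodule.mem_span_singleton.mp h
  have hc0 : σ (ζ * f a1 d) ≠ 0 := (map_ne_zero σ).mpr (mul_ne_zero hζ0 ha1d)
  have h3 : f a1 (σ (ζ * f a1 d) • y1) = 0 := by
    rw [hf.smul_right, ha1y1, mul_zero]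
  rw [← hκ, hf.smul_right] at h3
  rcases mul_eq_zero.mp h3 with h4 | h4
  · have hκ0 : κ = 0 := by
      have := (map_eq_zero σ).mp h4
      exact this
    rw [hκ0, zero_smul] at hκ
    rcases smul_eq_zero.mp hκ.symm with h5 | h5
    · exact hc0 h5
    · exact hy1 h5
  · exact ha1d h4

theorem bad_scalar {a : ι → F} {ρ : F} (ha0 : a ≠ 0) (haa : f a a = 0)
    (hT : T K a (ρ • rep f a)) (hρ : ρ + σ ρ ≠ 0) :
    ∃ a1 y1 : ι → F, f a1 a1 ≠ 0 ∧ y1 ≠ 0 ∧ T K a1 (rep f y1) := by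
  obtain ⟨y0, hy0⟩ : ∃ y, f a y ≠ 0 := by
    by_contra hcon
    push Not at hcon
    exact ha0 (hf.nondeg' a hcon)
  obtain ⟨μ, hμ⟩ := hf.iso_fix a y0 haa hy0
  have hab : f a (y0 + μ • a) ≠ 0 := by
    rw [hf.add_right, hf.smul_right, haa, mul_zero, add_zero]
    exact hy0
  obtain ⟨b, hbdef⟩ : ∃ b, b = y0 + μ • a := ⟨_, rfl⟩
  rw [← hbdef] at hμ hab
  obtain ⟨ζ, hζ0, hζ⟩ := hf.exists_zeta
  have hTb := hall b ζ hμ hζ
  obtain ⟨h, ht⟩ := hT
  have h2 := T_conj K (tvG a (ρ • rep f a) h)⁻¹ (K.inv_mem ht) hTb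
    (a := ((tvG a (ρ • rep f a) h : GL ι F) : Matrix ι ι F) *ᵥ b) (gl_inv_mulVec _ b)
  obtain ⟨y1, hy1⟩ := hf.exists_rep
    ((ζ • rep f b) ᵥ* (((tvG a (ρ • rep f a) h)⁻¹ : GL ι F) : Matrix ι ι F))
  refine ⟨_, y1, ?_, ?_, by rw [hy1]; exact h2⟩
  · rw [uT_mulVec hf]
    have hba : f b a ≠ 0 := hf.ne_zero_symm hab
    rw [hf.add_left, hf.add_right, hf.add_right, hf.smul_left, hf.smul_left, hf.smul_right,
      hf.smul_right, hμ, haa, mul_zero, mul_zero, add_zero, zero_add, map_mul, ← hf.herm a b]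
    have : σ ρ * f a b * f b a + ρ * f b a * f a b = (ρ + σ ρ) * (f a b * f b a) := by ring
    rw [this]
    exact mul_ne_zero hρ (mul_ne_zero hab hba)
  · rintro rfl
    rw [rep_zero hf] at hy1
    have h3 : ζ • rep f b = 0 := by
      have h4 : (ζ • rep f b) ᵥ* (((tvG a (ρ • rep f a) h)⁻¹ : GL ι F) : Matrix ι ι F) ᵥ*
          ((tvG a (ρ • rep f a) h : GL ι F) : Matrix ι ι F) = ζ • rep f b := by
        rw [Matrix.vecMul_vecMul, ← Units.val_mul, inv_mul_cancel, Units.val_one,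
          Matrix.vecMul_one]
      rw [← h4, ← hy1, Matrix.zero_vecMul]
    have h5 : rep f b = 0 := by
      rcases smul_eq_zero.mp h3 with h6 | h6
      · exact absurd h6 hζ0
      · exact h6
    apply hab
    rw [← hf.rep_dot, h5, zero_dotProduct]

theorem iso_decomp [Finite F] (hn : 6 < Fintype.card ι) (a : ι → F) (haa : f a a ≠ 0) :
    ∃ (d : ι → F) (ρ : F), d ≠ 0 ∧ f d d = 0 ∧ f (a - ρ • d) (a - ρ • d) = 0 ∧
      a - ρ • d ∉ Submodule.span F {d} := by
  have ha : a ≠ 0 := by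
    rintro rfl
    exact haa (hf.zero_left _)
  obtain ⟨d, hdd, -, had⟩ := hf.iso_avoid hn 0 a (by
    rw [Submodule.span_zero_singleton]
    exact ha)
  have hd0 : d ≠ 0 := by
    rintro rfl
    exact had (hf.zero_right _)
  have hda : f d a ≠ 0 := hf.ne_zero_symm had
  obtain ⟨ν, hν⟩ := hf.exists_tr (f a a) (hf.self_fix a)
  have e1 : ν / f d a * f d a = ν := div_mul_cancel₀ _ hda
  have e2 : σ (ν / f d a) * f a d = σ ν := by
    rw [hf.herm a d, ← map_mul, e1]
  refine ⟨d, ν / f d a, hd0, hdd, ?_, ?_⟩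
  · rw [hf.sub_left, hf.sub_right, hf.sub_right, hf.smul_left, hf.smul_left, hf.smul_right,
      hf.smul_right, hdd, mul_zero, mul_zero, sub_zero, e1, e2]
    linear_combination -hν
  · intro h
    obtain ⟨κ, hκ⟩ := Submodule.mem_span_singleton.mp h
    apply haa
    have : a = (κ + ν / f d a) • d := by
      rw [add_smul, hκ]
      abel
    rw [this, hf.smul_left, hf.smul_right, hdd, mul_zero, mul_zero]

/-- one full isotropic centre gives all transvections -/
theorem spread [Finite F] (hn : 6 < Fintype.card ι) {d0 : ι → F} (hd0 : d0 ≠ 0)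
    (hd0d0 : f d0 d0 = 0) (hfull : ∀ l : ι → F, l ⬝ᵥ d0 = 0 → T K d0 l) :
    ∀ (a l : ι → F) (h : l ⬝ᵥ a = 0), tvG a l h ∈ K := by
  have full_smul : ∀ (a : ι → F) (lam : F), (∀ l : ι → F, l ⬝ᵥ a = 0 → T K a l) →
      ∀ l : ι → F, l ⬝ᵥ (lam • a) = 0 → T K (lam • a) l := by
    intro a lam ha l hl
    rw [T_smul]
    apply ha
    rw [smul_dotProduct, ← dotProduct_smul]
    exact hl
  have step : ∀ u v : ι → F, f u u = 0 → f v v = 0 → f u v ≠ 0 →
      (∀ l : ι → F, l ⬝ᵥ u = 0 → T K u l) → ∀ l : ι → F, l ⬝ᵥ v = 0 → T K v l := by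
    intro u v huu hvv huv hu
    obtain ⟨t, htK, lam, hlam, hta, -⟩ := move_iso hf K hall huu hvv huv
    have h1 := full_conj K hu t htK
    rw [hta] at h1
    have h2 := full_smul (lam • v) lam⁻¹ h1
    rwa [smul_smul, inv_mul_cancel₀ hlam, one_smul] at h2
  have hiso : ∀ b : ι → F, b ≠ 0 → f b b = 0 → ∀ l : ι → F, l ⬝ᵥ b = 0 → T K b l := by
    intro b hb0 hbb
    by_cases h0 : f d0 b = 0
    · obtain ⟨y0, hy1, hy2⟩ := avoid2H hf d0 b hd0 hb0
      obtain ⟨μ, hμ⟩ := hf.iso_fix d0 y0 hd0d0 hy1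
      have h1 : f d0 (y0 + μ • d0) ≠ 0 := by
        rw [hf.add_right, hf.smul_right, hd0d0, mul_zero, add_zero]
        exact hy1
      have h2 : f b (y0 + μ • d0) ≠ 0 := by
        rw [hf.add_right, hf.smul_right, hf.eq_zero_symm h0, mul_zero, add_zero]
        exact hy2
      exact step _ _ hμ hbb (hf.ne_zero_symm h2) (step _ _ hd0d0 hμ h1 hfull)
    · exact step _ _ hd0d0 hbb h0 hfull
  intro a l h
  by_cases ha : a = 0
  · subst ha
    have : tvG 0 l h = 1 := by
      apply gl_ext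
      intro x
      rw [tvG_mulVec, smul_zero, add_zero, Units.val_one, Matrix.one_mulVec]
    rw [this]
    exact K.one_mem
  by_cases haa : f a a = 0
  · obtain ⟨_, h2⟩ := hiso a ha haa l h
    exact h2
  · obtain ⟨d, ρ, hd0', hdd, hbb, hbn⟩ := iso_decomp hf K hall hn a haa
    have hb0 : a - ρ • d ≠ 0 := by
      intro h0
      apply hbn
      rw [h0]
      exact Submodule.zero_mem _
    obtain ⟨l0, hl0, hl1⟩ := exists_dual (Submodule.span F {d}) (a - ρ • d) hbn
    have hl0d : (ρ • l0) ⬝ᵥ d = 0 := by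
      rw [smul_dotProduct, hl0 d (Submodule.mem_span_singleton_self d), smul_zero]
    obtain ⟨h', ht⟩ := hiso d hd0' hdd (ρ • l0) hl0d
    have h1 := full_conj K (hiso _ hb0 hbb) _ ht
    have e : ((tvG d (ρ • l0) h' : GL ι F) : Matrix ι ι F) *ᵥ (a - ρ • d) = a := by
      rw [tvG_mulVec, smul_dotProduct, hl1, smul_eq_mul, mul_one]
      abel
    rw [e] at h1
    obtain ⟨_, h2⟩ := h1 l h
    exact h2

/-- if every transvection of `K` is a unitary transvection then `K` consists of similarities -/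
theorem sim_of_good [Finite F] (hn : 6 < Fintype.card ι)
    (hgood : ∀ a l : ι → F, a ≠ 0 → l ≠ 0 → T K a l →
      f a a = 0 ∧ ∃ c : F, c + σ c = 0 ∧ l = c • rep f a)
    (g : GL ι F) (hg : g ∈ K) : g ∈ Cfsg.Geo.similarityGroup f := by
  obtain ⟨ζ, hζ0, hζ⟩ := hf.exists_zeta
  have hσζ : σ ζ = -ζ := by linear_combination hζ
  have hnd : ∀ a : ι → F, a ≠ 0 → ∃ x, f x a ≠ 0 := by
    intro a ha
    by_contra hc
    push Not at hc
    exact ha (hf.nondeg a hc)
  have hginj : ∀ a : ι → F, a ≠ 0 → (g : Matrix ι ι F) *ᵥ a ≠ 0 := by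
    intro a ha h
    apply ha
    have := gl_inv_mulVec g a
    rw [h, Matrix.mulVec_zero] at this
    exact this.symm
  have key : ∀ a : ι → F, a ≠ 0 → f a a = 0 → ∃ μ : F, σ μ = μ ∧ ∀ x,
      f ((g : Matrix ι ι F) *ᵥ x) ((g : Matrix ι ι F) *ᵥ a) = μ * f x a := by
    intro a ha0 haa
    have h1 := hall a ζ haa hζ
    have h2 := T_conj K g⁻¹ (K.inv_mem hg) h1 (a := (g : Matrix ι ι F) *ᵥ a) (gl_inv_mulVec g a)
    have hval : ∀ x, ((ζ • rep f a) ᵥ* ((g⁻¹ : GL ι F) : Matrix ι ι F)) ⬝ᵥ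
        ((g : Matrix ι ι F) *ᵥ x) = ζ * f x a := by
      intro x
      rw [← Matrix.dotProduct_mulVec, gl_inv_mulVec, smul_dotProduct, hf.rep_dot, smul_eq_mul]
    have hl0 : (ζ • rep f a) ᵥ* ((g⁻¹ : GL ι F) : Matrix ι ι F) ≠ 0 := by
      intro h0
      obtain ⟨x, hx⟩ := hnd a ha0
      have := hval x
      rw [h0, zero_dotProduct] at this
      exact mul_ne_zero hζ0 hx this.symm
    obtain ⟨-, c, hc, hl⟩ := hgood _ _ (hginj a ha0) hl0 h2
    have hval2 : ∀ x, ζ * f x a = c * f ((g : Matrix ι ι F) *ᵥ x) ((g : Matrix ι ι F) *ᵥ a) := by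
      intro x
      rw [← hval x, hl, smul_dotProduct, hf.rep_dot, smul_eq_mul]
    have hc0 : c ≠ 0 := by
      rintro rfl
      obtain ⟨x, hx⟩ := hnd a ha0
      have := hval2 x
      rw [zero_mul] at this
      exact mul_ne_zero hζ0 hx this
    have hσc : σ c = -c := by linear_combination hc
    refine ⟨ζ / c, ?_, fun x => ?_⟩
    · rw [map_div₀, hσζ, hσc, neg_div_neg_eq]
    · have := hval2 x
      field_simp
      linear_combination -this
  have eq_of : ∀ (u v : ι → F) (μu μv : F), σ μu = μu →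
      (∀ x, f ((g : Matrix ι ι F) *ᵥ x) ((g : Matrix ι ι F) *ᵥ u) = μu * f x u) →
      (∀ x, f ((g : Matrix ι ι F) *ᵥ x) ((g : Matrix ι ι F) *ᵥ v) = μv * f x v) →
      f u v ≠ 0 → μu = μv := by
    intro u v μu μv hfix hu hv huv
    have h1 := hu v
    have h2 := hv u
    have h3 := hf.herm ((g : Matrix ι ι F) *ᵥ u) ((g : Matrix ι ι F) *ᵥ v)
    rw [h1, h2, map_mul, hfix, ← hf.herm u v] at h3
    exact (mul_right_cancel₀ huv h3).symm
  obtain ⟨v0, hv0⟩ : ∃ v0 : ι → F, v0 ≠ 0 := by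
    have hpos : 0 < Fintype.card ι := by omega
    obtain ⟨i⟩ := Fintype.card_pos_iff.mp hpos
    refine ⟨Pi.single i 1, fun h => ?_⟩
    have := congrFun h i
    simp at this
  obtain ⟨a1, ha1a1, -, hv0a1⟩ := hf.iso_avoid hn 0 v0 (by
    rw [Submodule.span_zero_singleton]
    exact hv0)
  have ha1 : a1 ≠ 0 := by
    rintro rfl
    exact hv0a1 (hf.zero_right _)
  obtain ⟨μ1, hμ1fix, hμ1⟩ := key a1 ha1 ha1a1
  have hall_iso : ∀ a : ι → F, a ≠ 0 → f a a = 0 → ∀ x,
      f ((g : Matrix ι ι F) *ᵥ x) ((g : Matrix ι ι F) *ᵥ a) = μ1 * f x a := by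
    intro a ha0 haa x
    obtain ⟨μ, hμfix, hμ⟩ := key a ha0 haa
    have hμμ : μ = μ1 := by
      by_cases h0 : f a1 a = 0
      · obtain ⟨y0, hy1, hy2⟩ := avoid2H hf a1 a ha1 ha0
        obtain ⟨ν, hν⟩ := hf.iso_fix a1 y0 ha1a1 hy1
        have h1 : f a1 (y0 + ν • a1) ≠ 0 := by
          rw [hf.add_right, hf.smul_right, ha1a1, mul_zero, add_zero]
          exact hy1
        have h2 : f a (y0 + ν • a1) ≠ 0 := by
          rw [hf.add_right, hf.smul_right, hf.eq_zero_symm h0, mul_zero, add_zero]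
          exact hy2
        have hy0' : y0 + ν • a1 ≠ 0 := by
          intro h
          rw [h, hf.zero_right] at h1
          exact h1 rfl
        obtain ⟨μy, hμyfix, hμy⟩ := key _ hy0' hν
        have e1 := eq_of a1 _ μ1 μy hμ1fix hμ1 hμy h1
        have e2 := eq_of a _ μ μy hμfix hμ hμy h2
        rw [e2, e1]
      · exact (eq_of a1 a μ1 μ hμ1fix hμ1 hμ h0).symm
    rw [hμ, hμμ]
  have hallv : ∀ v x : ι → F,
      f ((g : Matrix ι ι F) *ᵥ x) ((g : Matrix ι ι F) *ᵥ v) = μ1 * f x v := by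
    intro v x
    by_cases hv : v = 0
    · rw [hv, Matrix.mulVec_zero, hf.zero_right, hf.zero_right, mul_zero]
    by_cases hvv : f v v = 0
    · exact hall_iso v hv hvv x
    obtain ⟨d, ρ, hd0, hdd, hbb, hbn⟩ := iso_decomp hf K hall hn v hvv
    have hb0 : v - ρ • d ≠ 0 := by
      intro h0
      apply hbn
      rw [h0]
      exact Submodule.zero_mem _
    have e : v = (v - ρ • d) + ρ • d := by abel
    have h1 := hall_iso _ hb0 hbb x
    have h2 := hall_iso d hd0 hdd x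
    calc f ((g : Matrix ι ι F) *ᵥ x) ((g : Matrix ι ι F) *ᵥ v)
        = f ((g : Matrix ι ι F) *ᵥ x) ((g : Matrix ι ι F) *ᵥ (v - ρ • d) +
            ρ • (g : Matrix ι ι F) *ᵥ d) := by
          rw [← Matrix.mulVec_smul, ← Matrix.mulVec_add, ← e]
      _ = μ1 * f x (v - ρ • d) + σ ρ * (μ1 * f x d) := by
          rw [hf.add_right, hf.smul_right, h1, h2]
      _ = μ1 * f x ((v - ρ • d) + ρ • d) := by
          rw [hf.add_right, hf.smul_right]
          ring
      _ = μ1 * f x v := by rw [← e]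
  have hμ10 : μ1 ≠ 0 := by
    rintro rfl
    obtain ⟨z, hz⟩ := hnd _ (hginj a1 ha1)
    have := hμ1 (((g⁻¹ : GL ι F) : Matrix ι ι F) *ᵥ z)
    rw [gl_mulVec_inv, zero_mul] at this
    exact hz this
  exact (mem_sim g).mpr ⟨Units.mk0 μ1 hμ10, fun u v => by
    rw [Units.val_mk0]
    exact hallv v u⟩

end shear

theorem main [Finite F] (hf : IsHerm σ f) (hn : 6 < Fintype.card ι) (K : Subgroup (GL ι F))
    (hHK : Cfsg.Geo.similarityGroup f ⊓ Cfsg.Geo.specialLinear ι F ≤ K)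
    (hK : K ≤ Cfsg.Geo.specialLinear ι F)
    (hne : K ≠ Cfsg.Geo.similarityGroup f ⊓ Cfsg.Geo.specialLinear ι F) :
    K = Cfsg.Geo.specialLinear ι F := by
  have hall : ∀ (a : ι → F) (c : F), f a a = 0 → c + σ c = 0 → T K a (c • rep f a) :=
    fun a c ha hc => ⟨uT_dot hf a c ha, hHK ⟨(mem_sim _).mpr ⟨1, fun u v => by
      rw [Units.val_one, one_mul]
      exact uT_isom hf a c ha hc (uT_dot hf a c ha) u v⟩, tvG_mem_SL _ _ _⟩⟩
  by_cases hbad : ∃ a l : ι → F, a ≠ 0 ∧ l ≠ 0 ∧ T K a l ∧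
      ¬ (f a a = 0 ∧ ∃ c : F, c + σ c = 0 ∧ l = c • rep f a)
  · obtain ⟨a, l, ha0, hl0, hT, hnot⟩ := hbad
    obtain ⟨y0, rfl⟩ := hf.exists_rep l
    have hy00 : y0 ≠ 0 := by
      rintro rfl
      exact hl0 (rep_zero hf)
    obtain ⟨d, hd0, hdd, hfull⟩ : ∃ d : ι → F, d ≠ 0 ∧ f d d = 0 ∧
        ∀ l : ι → F, l ⬝ᵥ d = 0 → T K d l := by
      by_cases haa : f a a = 0
      · by_cases hy0a : y0 ∈ Submodule.span F {a}
        · obtain ⟨κ, rfl⟩ := Submodule.mem_span_singleton.mp hy0a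
          rw [hf.rep_smul] at hT hnot
          have hρ : σ κ + σ (σ κ) ≠ 0 := fun h => hnot ⟨haa, σ κ, h, rfl⟩
          obtain ⟨a1, y1, h1, h2, h3⟩ := bad_scalar hf K hall ha0 haa hT hρ
          exact full_of_aniso hf K hall hn h1 h2 h3
        · exact ⟨a, ha0, haa, full_of_iso hf K hall hn haa hT hy0a⟩
      · exact full_of_aniso hf K hall hn haa hy00 hT
    exact le_antisymm hK (sl_gen K (spread hf K hall hn hd0 hdd hfull))
  · exfalso
    push Not at hbad
    apply hne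
    apply le_antisymm _ hHK
    intro g hg
    exact ⟨sim_of_good hf K hall hn (fun a l ha hl hT => hbad a l ha hl hT) g hg, hK hg⟩

theorem main_ne [Finite F] (hf : IsHerm σ f) (hn : 6 < Fintype.card ι) :
    ∃ t ∈ Cfsg.Geo.specialLinear ι F, t ∉ Cfsg.Geo.similarityGroup f := by
  obtain ⟨v0, hv0⟩ : ∃ v0 : ι → F, v0 ≠ 0 := by
    have hpos : 0 < Fintype.card ι := by omega
    obtain ⟨i⟩ := Fintype.card_pos_iff.mp hpos
    refine ⟨Pi.single i 1, fun h => ?_⟩
    have := congrFun h i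
    simp at this
  obtain ⟨a, haa, -, hv0a⟩ := hf.iso_avoid hn 0 v0 (by
    rw [Submodule.span_zero_singleton]
    exact hv0)
  have ha : a ≠ 0 := by
    rintro rfl
    exact hv0a (hf.zero_right _)
  obtain ⟨b, hb, hbb⟩ := hf.exists_aniso ![a] (by omega)
  have hba : f b a = 0 := hb 0
  have hab : f a b = 0 := hf.eq_zero_symm hba
  have h : rep f b ⬝ᵥ a = 0 := by rw [hf.rep_dot, hab]
  refine ⟨tvG a (rep f b) h, tvG_mem_SL _ _ _, ?_⟩
  rintro ⟨c, hc⟩
  have hc1 : (c : F) = 1 := by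
    obtain ⟨v, hv⟩ : ∃ v, f a v ≠ 0 := by
      by_contra hcon
      push Not at hcon
      exact ha (hf.nondeg' a hcon)
    have h2 := hc a v
    rw [tvG_mulVec, tvG_mulVec, hf.rep_dot, hf.rep_dot, hab, zero_smul, add_zero, hf.add_right,
      hf.smul_right, haa, mul_zero, add_zero] at h2
    have h3 : ((c : F) - 1) * f a v = 0 := by linear_combination -h2
    rcases mul_eq_zero.mp h3 with h4 | h4
    · exact sub_eq_zero.mp h4
    · exact absurd h4 hv
  have hanb : a ∉ Submodule.span F {b} := by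
    intro h0
    obtain ⟨κ, rfl⟩ := Submodule.mem_span_singleton.mp h0
    rw [hf.smul_left] at hab
    rcases mul_eq_zero.mp hab with h4 | h4
    · rw [h4, zero_smul] at ha
      exact ha rfl
    · exact hbb h4
  obtain ⟨y, hy0, hy1⟩ := hf.exists_perp _ a hanb
  have hby : f b y = 0 := hy0 b (Submodule.mem_span_singleton_self b)
  have hyb : f y b = 0 := hf.eq_zero_symm hby
  have hya : f y a = 1 := by rw [hf.herm, hy1, map_one]
  apply hbb
  have h2 := hc y b
  rw [hc1, one_mul, tvG_mulVec, tvG_mulVec, hf.rep_dot, hf.rep_dot, hyb, zero_smul, add_zero,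
    hf.add_right, hf.smul_right, hyb, hya, mul_one, zero_add, hf.self_fix] at h2
  exact h2

/-- For a finite field F and n ≥ 13, let σ be a field automorphism of F of order two and f a non-degenerate unitary form on F^n with respect to σ. Then the elements of SL_n(F) that are similarities of f form a maximal subgroup of SL_n(F). -/
theorem result {F : Type*} [Field F] [Fintype F] (n : ℕ) (hn : 13 ≤ n) (σ : F ≃+* F) (f : (Fin n → F) → (Fin n → F) → F) (hf : Cfsg.Geo.IsUnitaryForm σ f) : Cfsg.Geo.IsMaximalIn (Cfsg.Geo.specialLinear (Fin n) F) (Cfsg.Geo.similarityGroup f ⊓ Cfsg.Geo.specialLinear (Fin n) F) := by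
  have hH : IsHerm (σ : F →+* F) f := by
    refine ⟨hf.involutive, ?_, hf.add_left, hf.smul_left, hf.herm, ?_⟩
    · by_contra hcon
      push Not at hcon
      apply hf.ne_refl
      ext x
      exact hcon x
    · intro y hy
      by_contra h
      obtain ⟨x, hx⟩ := (hf.nondegenerate y h).1
      exact hx (hy x)
  have hcard : 6 < Fintype.card (Fin n) := by
    rw [Fintype.card_fin]
    omega
  refine ⟨lt_of_le_of_ne inf_le_right ?_, fun M hHM hMK => ?_⟩
  · intro heq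
    obtain ⟨t, htS, htn⟩ := main_ne hH hcard
    rw [← heq] at htS
    exact htn htS.1
  · by_cases h : M = Cfsg.Geo.similarityGroup f ⊓ Cfsg.Geo.specialLinear (Fin n) F
    · left
      exact h
    · right
      exact main hH hcard M hHM hMK h


end Cfsg.Agent.S5643
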