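import Cfsg.Statements.S5691
import Mathlib
import Cfsg.Agent.Lib.Helper15.GeoBridge
import Cfsg.Agent.Lib.Helper28.OrthND

set_option autoImplicit false
open Cfsg

namespace Cfsg.Agent.S5691

open Module Cfsg.Agent.Lib.Helper15.Spinor Cfsg.Agent.Lib.Helper15.CD2
  Cfsg.Agent.Lib.Helper15.Parity Cfsg.Agent.Lib.Helper15.Witt
  Cfsg.Agent.Lib.Helper15.Eichler Cfsg.Agent.Lib.Helper15.EichGen
  Cfsg.Agent.Lib.Helper15.GeoBridge Cfsg.Agent.Lib.Helper15.CenterOmega
  Cfsg.Agent.Lib.Helper28.OrthTS Cfsg.Agent.Lib.Helper28.OrthND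

variable {F : Type*} [Field F] [Fintype F] {ι : Type} [Fintype ι] [DecidableEq ι]

/-- a vector outside a subspace is detected by the orthogonal complement -/
theorem exists_perp_ne (Q : QuadraticForm F (ι → F))
    (hQ : (QuadraticMap.polarBilin Q).Nondegenerate) (S : Submodule F (ι → F)) (x : ι → F)
    (hx : x ∉ S) : ∃ y ∈ perp Q S, QuadraticMap.polar ⇑Q x y ≠ 0 := by
  by_contra hcon
  push Not at hcon
  apply hx
  rw [← perp_perp Q hQ S]
  exact hcon

/-- the stabiliser in `Ω` of a non-singular point is maximal -/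
theorem maxV (Q : QuadraticForm F (ι → F)) (hQ : (QuadraticMap.polarBilin Q).Nondegenerate)
    (hn : 7 ≤ Fintype.card ι) (v : ι → F) (hv : Q v ≠ 0) :
    Cfsg.Geo.IsMaximalIn (Cfsg.Geo.omegaGL ⇑Q)
      (Cfsg.Geo.subspaceStabilizer (Submodule.span F {v}) ⊓ Cfsg.Geo.omegaGL ⇑Q) := by
  have hn5 : 5 ≤ Fintype.card ι := by omega
  have hv0 : v ≠ 0 := by
    intro h0
    apply hv
    rw [h0, map_zero]
  have hsing_notin : ∀ e : ι → F, Q e = 0 → e ≠ 0 → e ∉ Submodule.span F {v} := by
    intro e hQe he0 hmem
    obtain ⟨c, rfl⟩ := Submodule.mem_span_singleton.mp hmem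
    rw [QuadraticMap.map_smul, smul_eq_mul] at hQe
    rcases mul_eq_zero.mp hQe with h1 | h1
    · have hc : c = 0 := by
        rcases mul_eq_zero.mp h1 with h2 | h2
        · exact h2
        · exact h2
      apply he0
      rw [hc, zero_smul]
    · exact hv h1
  have hmemH : ∀ s ∈ commutator ↥(Cfsg.isometryGroup F ⇑Q), act Q s v = v →
      (s : Matrix.GeneralLinearGroup ι F) ∈
        Cfsg.Geo.subspaceStabilizer (Submodule.span F {v}) ⊓ Cfsg.Geo.omegaGL ⇑Q := by
    intro s hs hsv
    refine ⟨mem_stab_of_forall Q s _ ?_, mem_omegaGL Q s hs⟩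
    intro x hx
    obtain ⟨c, rfl⟩ := Submodule.mem_span_singleton.mp hx
    rw [map_smul, hsv]
    exact Submodule.smul_mem _ c (Submodule.mem_span_singleton_self v)
  have hfix : ∀ e y : ι → F, Q e = 0 → QuadraticMap.polar ⇑Q e y = 0 →
      QuadraticMap.polar ⇑Q e v = 0 → QuadraticMap.polar ⇑Q y v = 0 →
      (eich Q e y : Matrix.GeneralLinearGroup ι F) ∈
        Cfsg.Geo.subspaceStabilizer (Submodule.span F {v}) ⊓ Cfsg.Geo.omegaGL ⇑Q := by
    intro e y hQe hey hev hyv
    exact hmemH _ (eich_mem_omega Q hQ hn5 e y hQe hey) (eich_fix Q e y v hQe hey hev hyv)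
  refine ⟨lt_of_le_of_ne inf_le_right ?_, fun M hHM hMK => ?_⟩
  · intro heq
    have hfin : 3 ≤ finrank F ↥(perp Q (Submodule.span F {v})) := by
      have h2 := finrank_perp Q hQ (Submodule.span F {v})
      have h3 := finrank_span_one v
      omega
    obtain ⟨e, he, he0, hQe⟩ := exists_sing Q _ hfin
    have hev : QuadraticMap.polar ⇑Q e v = 0 := he v (Submodule.mem_span_singleton_self v)
    have hvS : v ∉ Submodule.span F {e} := by
      intro hmem
      obtain ⟨c, rfl⟩ := Submodule.mem_span_singleton.mp hmem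
      apply hv
      rw [QuadraticMap.map_smul, hQe, smul_zero]
    obtain ⟨y, hy, hvy⟩ := exists_perp_ne Q hQ _ v hvS
    have hey : QuadraticMap.polar ⇑Q e y = 0 := by
      rw [QuadraticMap.polar_comm]
      exact hy e (Submodule.mem_span_singleton_self e)
    have hmem : ((eich Q e y : ↥(Cfsg.isometryGroup F ⇑Q)) : Matrix.GeneralLinearGroup ι F) ∈
        Cfsg.Geo.subspaceStabilizer (Submodule.span F {v}) ⊓ Cfsg.Geo.omegaGL ⇑Q := by
      rw [heq]
      exact mem_omegaGL Q _ (eich_mem_omega Q hQ hn5 e y hQe hey)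
    have h1 := ((mem_stab_iff Q _ _).1 hmem.1 v).1 (Submodule.mem_span_singleton_self v)
    rw [act_eich Q e y hQe hey, hev] at h1
    have h2 : (QuadraticMap.polar ⇑Q y v) • e ∈ Submodule.span F {v} := by
      have h3 := Submodule.sub_mem _ (Submodule.mem_span_singleton_self v) h1
      have e1 : v - (v + (0 : F) • y - (QuadraticMap.polar ⇑Q y v + Q y * 0) • e) =
          (QuadraticMap.polar ⇑Q y v) • e := by
        rw [mul_zero, add_zero, zero_smul, add_zero]
        abel
      rw [e1] at h3
      exact h3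
    have hyv : QuadraticMap.polar ⇑Q y v ≠ 0 := by
      rw [QuadraticMap.polar_comm]
      exact hvy
    have h4 := Submodule.smul_mem _ (QuadraticMap.polar ⇑Q y v)⁻¹ h2
    rw [smul_smul, inv_mul_cancel₀ hyv, one_smul] at h4
    exact hsing_notin e hQe he0 h4
  · by_cases hM : M = Cfsg.Geo.subspaceStabilizer (Submodule.span F {v}) ⊓ Cfsg.Geo.omegaGL ⇑Q
    · exact Or.inl hM
    · right
      apply le_antisymm hMK
      obtain ⟨K, hK_def⟩ : ∃ K : Subgroup ↥(Cfsg.isometryGroup F ⇑Q),
          K = M.comap (Cfsg.isometryGroup F ⇑Q).subtype := ⟨_, rfl⟩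
      have hKmem : ∀ s : ↥(Cfsg.isometryGroup F ⇑Q),
          (s : Matrix.GeneralLinearGroup ι F) ∈ M → s ∈ K := by
        intro s hs
        rw [hK_def]
        exact hs
      have hKmem' : ∀ s : ↥(Cfsg.isometryGroup F ⇑Q),
          s ∈ K → (s : Matrix.GeneralLinearGroup ι F) ∈ M := by
        intro s hs
        rw [hK_def] at hs
        exact hs
      obtain ⟨g, hgM, hgH⟩ := SetLike.exists_of_lt (lt_of_le_of_ne hHM (Ne.symm hM))
      obtain ⟨s, hsΩ, rfl⟩ := exists_of_mem_omegaGL Q g (hMK hgM)
      have hsK : s ∈ K := hKmem s hgM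
      obtain ⟨v', hv'⟩ : ∃ v', v' = act Q s v := ⟨_, rfl⟩
      have hv'S : v' ∉ Submodule.span F {v} := by
        intro hmem
        apply hgH
        refine ⟨mem_stab_of_forall Q s _ ?_, hMK hgM⟩
        intro x hx
        obtain ⟨c, rfl⟩ := Submodule.mem_span_singleton.mp hx
        rw [map_smul, ← hv']
        exact Submodule.smul_mem _ c hmem
      have hvS' : v ∉ Submodule.span F {v'} := by
        intro hmem
        obtain ⟨c, hc⟩ := Submodule.mem_span_singleton.mp hmem
        have hc0 : c ≠ 0 := by
          intro h0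
          rw [h0, zero_smul] at hc
          exact hv0 hc.symm
        apply hv'S
        rw [Submodule.mem_span_singleton]
        refine ⟨c⁻¹, ?_⟩
        rw [← hc, smul_smul, inv_mul_cancel₀ hc0, one_smul]
      have hK1 : ∀ e y : ι → F, Q e = 0 → QuadraticMap.polar ⇑Q e y = 0 →
          QuadraticMap.polar ⇑Q e v = 0 → QuadraticMap.polar ⇑Q y v = 0 → eich Q e y ∈ K :=
        fun e y h1 h2 h3 h4 => hKmem _ (hHM (hfix e y h1 h2 h3 h4))
      have hK2 : ∀ e y : ι → F, Q e = 0 → QuadraticMap.polar ⇑Q e y = 0 →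
          QuadraticMap.polar ⇑Q e v' = 0 → QuadraticMap.polar ⇑Q y v' = 0 → eich Q e y ∈ K := by
        intro e y hQe hey hev hyv
        have h1 : Q (act Q s⁻¹ e) = 0 := by rw [act_Q]; exact hQe
        have h2 : QuadraticMap.polar ⇑Q (act Q s⁻¹ e) (act Q s⁻¹ y) = 0 := by
          rw [act_polar]
          exact hey
        have h3 : QuadraticMap.polar ⇑Q (act Q s⁻¹ e) v = 0 := by
          have h5 := act_polar Q s (act Q s⁻¹ e) v
          rw [act_act_inv, ← hv'] at h5
          rw [← h5]
          exact hev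
        have h4 : QuadraticMap.polar ⇑Q (act Q s⁻¹ y) v = 0 := by
          have h5 := act_polar Q s (act Q s⁻¹ y) v
          rw [act_act_inv, ← hv'] at h5
          rw [← h5]
          exact hyv
        have h6 := eich_conj Q s (act Q s⁻¹ e) (act Q s⁻¹ y) h1 h2
        rw [act_act_inv, act_act_inv] at h6
        rw [← h6]
        exact K.mul_mem (K.mul_mem hsK (hK1 _ _ h1 h2 h3 h4)) (K.inv_mem hsK)
      have hPE : ∀ e : ι → F, Q e = 0 → QuadraticMap.polar ⇑Q e v = 0 →
          QuadraticMap.polar ⇑Q e v' = 0 → e ∉ Submodule.span F {v, v'} → PE Q K e := by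
        intro e hQe hev hev' heP
        refine ⟨hQe, fun y hy => ?_⟩
        have hvS2 : v ∉ Submodule.span F {e, v'} := by
          intro hmem
          obtain ⟨a, b, hab⟩ := Submodule.mem_span_pair.mp hmem
          by_cases ha : a = 0
          · rw [ha, zero_smul, zero_add] at hab
            apply hvS'
            rw [← hab]
            exact Submodule.smul_mem _ b (Submodule.mem_span_singleton_self v')
          · apply heP
            have e2 : e = a⁻¹ • v + (-(a⁻¹ * b)) • v' := by
              rw [← hab, smul_add, smul_smul, smul_smul, inv_mul_cancel₀ ha, one_smul]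
              module
            rw [e2]
            exact Submodule.mem_span_pair.mpr ⟨_, _, rfl⟩
        obtain ⟨w, hw, hvw⟩ := exists_perp_ne Q hQ _ v hvS2
        have hwe : QuadraticMap.polar ⇑Q w e = 0 := hw e (Submodule.subset_span (by simp))
        have hwv' : QuadraticMap.polar ⇑Q w v' = 0 := hw v' (Submodule.subset_span (by simp))
        have hwv : QuadraticMap.polar ⇑Q w v ≠ 0 := by
          rw [QuadraticMap.polar_comm]
          exact hvw
        obtain ⟨y2, hy2⟩ : ∃ y2, y2 = (QuadraticMap.polar ⇑Q y v / QuadraticMap.polar ⇑Q w v) • w :=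
          ⟨_, rfl⟩
        have hey2 : QuadraticMap.polar ⇑Q e y2 = 0 := by
          rw [hy2, QuadraticMap.polar_smul_right, QuadraticMap.polar_comm ⇑Q e w, hwe, smul_zero]
        have hy2v' : QuadraticMap.polar ⇑Q y2 v' = 0 := by
          rw [hy2, QuadraticMap.polar_smul_left, hwv', smul_zero]
        have hey1 : QuadraticMap.polar ⇑Q e (y - y2) = 0 := by
          rw [QuadraticMap.polar_sub_right, hy, hey2, sub_zero]
        have hy1v : QuadraticMap.polar ⇑Q (y - y2) v = 0 := by
          rw [QuadraticMap.polar_sub_left, hy2, QuadraticMap.polar_smul_left, smul_eq_mul,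
            div_mul_cancel₀ _ hwv, sub_self]
        have h1 := hK1 e (y - y2) hQe hey1 hev hy1v
        have h2 := hK2 e y2 hQe hey2 hev' hy2v'
        have h3 := K.mul_mem h1 h2
        rw [eich_mul Q e (y - y2) y2 hQe hey1 hey2, sub_add_cancel] at h3
        exact h3
      obtain ⟨u1, hu1, hvu1⟩ := exists_perp_ne Q hQ _ v hvS'
      obtain ⟨u2, hu2, hv'u2⟩ := exists_perp_ne Q hQ _ v' hv'S
      have hu1v' : QuadraticMap.polar ⇑Q u1 v' = 0 := hu1 v' (Submodule.mem_span_singleton_self v')
      have hu2v : QuadraticMap.polar ⇑Q u2 v = 0 := hu2 v (Submodule.mem_span_singleton_self v)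
      have hfin : 3 ≤ finrank F ↥(perp Q (Submodule.span F {v, v', u1, u2})) := by
        have h2 := finrank_perp Q hQ (Submodule.span F {v, v', u1, u2})
        have h3 : finrank F ↥(Submodule.span F ({v, v', u1, u2} : Set (ι → F))) ≤ 4 := by
          classical
          have h := finrank_span_finset_le_card (R := F) ({v, v', u1, u2} : Finset (ι → F))
          have h' : ({v, v', u1, u2} : Finset (ι → F)).card ≤ 4 := Finset.card_le_four
          rw [Finset.coe_insert, Finset.coe_insert, Finset.coe_insert, Finset.coe_singleton] at h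
          exact le_trans h h'
        omega
      obtain ⟨e, he, he0, hQe⟩ := exists_sing Q _ hfin
      have hev : QuadraticMap.polar ⇑Q e v = 0 := he v (Submodule.subset_span (by simp))
      have hev' : QuadraticMap.polar ⇑Q e v' = 0 := he v' (Submodule.subset_span (by simp))
      have heu1 : QuadraticMap.polar ⇑Q e u1 = 0 := he u1 (Submodule.subset_span (by simp))
      have heu2 : QuadraticMap.polar ⇑Q e u2 = 0 := he u2 (Submodule.subset_span (by simp))
      have heP : e ∉ Submodule.span F {v, v'} := by
        intro hmem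
        obtain ⟨a, b, hab⟩ := Submodule.mem_span_pair.mp hmem
        have h1 := heu1
        rw [← hab, QuadraticMap.polar_add_left, QuadraticMap.polar_smul_left,
          QuadraticMap.polar_smul_left, QuadraticMap.polar_comm ⇑Q v' u1, hu1v', smul_zero,
          add_zero, smul_eq_mul] at h1
        have ha : a = 0 := by
          rcases mul_eq_zero.mp h1 with h2 | h2
          · exact h2
          · exact absurd h2 hvu1
        have h3 := heu2
        rw [← hab, QuadraticMap.polar_add_left, QuadraticMap.polar_smul_left,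
          QuadraticMap.polar_smul_left, QuadraticMap.polar_comm ⇑Q v u2, hu2v, smul_zero,
          zero_add, smul_eq_mul] at h3
        have hb : b = 0 := by
          rcases mul_eq_zero.mp h3 with h2 | h2
          · exact h2
          · exact absurd h2 hv'u2
        apply he0
        rw [← hab, ha, hb, zero_smul, zero_smul, add_zero]
      obtain ⟨z, hz, hez⟩ := exists_perp_ne Q hQ _ e heP
      have hzv : QuadraticMap.polar ⇑Q z v = 0 := hz v (Submodule.subset_span (by simp))
      have hzv' : QuadraticMap.polar ⇑Q z v' = 0 := hz v' (Submodule.subset_span (by simp))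
      obtain ⟨e', he'⟩ : ∃ e', e' = z - (Q z / QuadraticMap.polar ⇑Q e z) • e := ⟨_, rfl⟩
      have hQe' : Q e' = 0 := by
        rw [he', sub_eq_add_neg, QuadraticMap.map_add ⇑Q, QuadraticMap.map_neg,
          QuadraticMap.map_smul, hQe, QuadraticMap.polar_neg_right,
          QuadraticMap.polar_smul_right, QuadraticMap.polar_comm ⇑Q z e]
        simp only [smul_eq_mul]
        rw [div_mul_cancel₀ _ hez]
        ring
      have hee' : QuadraticMap.polar ⇑Q e e' ≠ 0 := by
        rw [he', QuadraticMap.polar_sub_right, QuadraticMap.polar_smul_right,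
          polar_self_of_sing Q e hQe, smul_zero, sub_zero]
        exact hez
      have he'v : QuadraticMap.polar ⇑Q e' v = 0 := by
        rw [he', QuadraticMap.polar_sub_left, QuadraticMap.polar_smul_left, hzv, hev, smul_zero,
          sub_zero]
      have he'v' : QuadraticMap.polar ⇑Q e' v' = 0 := by
        rw [he', QuadraticMap.polar_sub_left, QuadraticMap.polar_smul_left, hzv', hev',
          smul_zero, sub_zero]
      have he'P : e' ∉ Submodule.span F {v, v'} := by
        intro hmem
        obtain ⟨a, b, hab⟩ := Submodule.mem_span_pair.mp hmem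
        apply hee'
        rw [← hab, QuadraticMap.polar_add_right, QuadraticMap.polar_smul_right,
          QuadraticMap.polar_smul_right, hev, hev', smul_zero, smul_zero, add_zero]
      have hall := PE_all Q hQ K (hPE e hQe hev hev' heP) (hPE e' hQe' he'v he'v' he'P) hee'
      have hΩK : commutator ↥(Cfsg.isometryGroup F ⇑Q) ≤ K := by
        refine le_trans (omega_le_eich Q hQ hn5 (hp2_of_dim Q hQ hn)) ?_
        rw [Subgroup.closure_le]
        rintro _ ⟨e, y, he, hey, rfl⟩
        exact (hall e he).2 y hey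
      intro g' hg'
      obtain ⟨s', hs', rfl⟩ := exists_of_mem_omegaGL Q g' hg'
      exact hKmem' s' (hΩK hs')

/-- Let F be a finite field with q elements, n ≥ 13 even, Q a non-degenerate quadratic form on F^n (of either type), and Ω the commutator subgroup of the isometry group of Q, viewed inside GL_n(F). Suppose q is even and v is a vector with Q(v) ≠ 0. Then the elements of Ω stabilising the line spanned by v form a maximal subgroup of Ω. -/
theorem result {F : Type*} [Field F] [Fintype F] {n : ℕ} (hn : 13 ≤ n) (heven : Even n) (Q : (Fin n → F) → F) (hQ : Cfsg.Geo.IsNondegenerateQuadraticForm Q) (hchar : ¬ Odd (Fintype.card F)) (v : (Fin n → F)) (hv : Q v ≠ 0) : Cfsg.Geo.IsMaximalIn (Cfsg.Geo.omegaGL Q) (Cfsg.Geo.subspaceStabilizer (Submodule.span F {v}) ⊓ Cfsg.Geo.omegaGL Q) := by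
  have hc : Fintype.card (Fin n) = n := Fintype.card_fin n
  have hQ' := toQF_nondeg Q hQ
  have key := maxV (toQF Q hQ) hQ' (by rw [hc]; omega) v hv
  exact key


end Cfsg.Agent.S5691
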