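import Cfsg.Statements.S5644
import Mathlib
import Cfsg.Agent.Lib.Helper15.GeoBridge
import Cfsg.Agent.Lib.Helper28.OrthND
import Cfsg.Agent.S5642
import Cfsg.Agent.S5691

set_option autoImplicit false
open Cfsg

namespace Cfsg.Agent.S5644

open Module Matrix Cfsg.Agent.Lib.Helper15.Spinor Cfsg.Agent.Lib.Helper15.CD2
  Cfsg.Agent.Lib.Helper15.Witt Cfsg.Agent.Lib.Helper15.Eichler
  Cfsg.Agent.Lib.Helper15.GeoBridge Cfsg.Agent.Lib.Helper15.CenterOmega
  Cfsg.Agent.Lib.Helper28.OrthND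
  Cfsg.Agent.S5631 Cfsg.Agent.Lib.Helper28.SLGen

section aux

variable {F : Type*} [Field F] [Fintype F] {ι : Type} [Fintype ι] [DecidableEq ι]

/-- the row vector representing `x ↦ polar p x` -/
def rp (Q : QuadraticForm F (ι → F)) (p : ι → F) : ι → F :=
  fun i => QuadraticMap.polar ⇑Q p (fun j => if i = j then 1 else 0)

theorem rp_dot (Q : QuadraticForm F (ι → F)) (p x : ι → F) :
    rp Q p ⬝ᵥ x = QuadraticMap.polar ⇑Q p x := by
  have h := LinearMap.pi_apply_eq_sum_univ (QuadraticMap.polarBilin Q p) x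
  show rp Q p ⬝ᵥ x = QuadraticMap.polarBilin Q p x
  rw [h]
  simp only [dotProduct, rp, smul_eq_mul]
  apply Finset.sum_congr rfl
  intro i _
  exact mul_comm _ _

theorem rp_add (Q : QuadraticForm F (ι → F)) (p p' : ι → F) :
    rp Q (p + p') = rp Q p + rp Q p' := by
  funext i
  exact QuadraticMap.polar_add_left _ _ _ _

theorem rp_neg (Q : QuadraticForm F (ι → F)) (p : ι → F) : rp Q (-p) = - rp Q p := by
  funext i
  exact QuadraticMap.polar_neg_left _ _ _

theorem exists_rp (Q : QuadraticForm F (ι → F)) (hQ : (QuadraticMap.polarBilin Q).Nondegenerate)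
    (l : ι → F) : ∃ p, rp Q p = l := by
  let Φ : (ι → F) →ₗ[F] (ι → F) :=
    { toFun := fun y => rp Q y
      map_add' := fun y y' => rp_add Q y y'
      map_smul' := fun c y => by
        funext i
        exact QuadraticMap.polar_smul_left _ _ _ _ }
  have hinj : Function.Injective Φ := by
    rw [← LinearMap.ker_eq_bot, LinearMap.ker_eq_bot']
    intro y hy
    apply hQ.1
    intro x
    show QuadraticMap.polar ⇑Q y x = 0
    rw [← rp_dot Q y x]
    have h0 : rp Q y = 0 := hy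
    rw [h0, zero_dotProduct]
  obtain ⟨p, hp⟩ := LinearMap.surjective_of_injective hinj l
  exact ⟨p, hp⟩

theorem exists_adj (Q : QuadraticForm F (ι → F)) (hQ : (QuadraticMap.polarBilin Q).Nondegenerate)
    (A : Matrix ι ι F) (x : ι → F) :
    ∃ w, ∀ y, QuadraticMap.polar ⇑Q (A *ᵥ y) x = QuadraticMap.polar ⇑Q y w := by
  obtain ⟨w, hw⟩ := exists_rp Q hQ (rp Q x ᵥ* A)
  refine ⟨w, fun y => ?_⟩
  rw [QuadraticMap.polar_comm ⇑Q y w, ← rp_dot Q w y, hw, ← Matrix.dotProduct_mulVec, rp_dot,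
    QuadraticMap.polar_comm]

/-- the transvection `x ↦ x + polar p x • a` lies in `M` -/
def R (Q : QuadraticForm F (ι → F)) (M : Subgroup (GL ι F)) (a p : ι → F) : Prop :=
  Cfsg.Agent.S5642.T M a (rp Q p)

theorem R_add2 (Q : QuadraticForm F (ι → F)) (M : Subgroup (GL ι F)) {a p p' : ι → F}
    (h1 : R Q M a p) (h2 : R Q M a p') : R Q M a (p + p') := by
  unfold R
  rw [rp_add]
  exact Cfsg.Agent.S5642.T_add M h1 h2

theorem R_neg2 (Q : QuadraticForm F (ι → F)) (M : Subgroup (GL ι F)) {a p : ι → F}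
    (h1 : R Q M a p) : R Q M a (-p) := by
  unfold R
  rw [rp_neg]
  exact Cfsg.Agent.S5642.T_neg M h1

theorem R_add1 (Q : QuadraticForm F (ι → F)) (M : Subgroup (GL ι F)) {a a' p : ι → F}
    (h1 : R Q M a p) (h2 : R Q M a' p) : R Q M (a + a') p := by
  obtain ⟨h, hk⟩ := h1
  obtain ⟨h', hk'⟩ := h2
  have h'' : rp Q p ⬝ᵥ (a + a') = 0 := by rw [dotProduct_add, h, h', add_zero]
  refine ⟨h'', ?_⟩
  have e : tvG (a + a') (rp Q p) h'' = tvG a (rp Q p) h * tvG a' (rp Q p) h' := by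
    apply gl_ext
    intro x
    rw [Units.val_mul, ← Matrix.mulVec_mulVec, tvG_mulVec, tvG_mulVec, tvG_mulVec, dotProduct_add,
      dotProduct_smul, h', smul_zero, add_zero, smul_add]
    abel
  rw [e]
  exact M.mul_mem hk hk'

theorem R_neg1 (Q : QuadraticForm F (ι → F)) (M : Subgroup (GL ι F)) {a p : ι → F}
    (h1 : R Q M a p) : R Q M (-a) p := by
  obtain ⟨h, hk⟩ := h1
  have h' : rp Q p ⬝ᵥ (-a) = 0 := by rw [dotProduct_neg, h, neg_zero]
  refine ⟨h', ?_⟩
  have e : tvG (-a) (rp Q p) h' = (tvG a (rp Q p) h)⁻¹ := by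
    apply eq_inv_of_mul_eq_one_right
    apply gl_ext
    intro x
    rw [Units.val_mul, ← Matrix.mulVec_mulVec, tvG_mulVec, tvG_mulVec, Units.val_one,
      Matrix.one_mulVec, dotProduct_add, dotProduct_smul, h', smul_zero, add_zero, smul_neg]
    abel
  rw [e]
  exact M.inv_mem hk

theorem R_zero_left (Q : QuadraticForm F (ι → F)) (M : Subgroup (GL ι F)) (p : ι → F) :
    R Q M 0 p := by
  have h : rp Q p ⬝ᵥ (0 : ι → F) = 0 := dotProduct_zero _
  refine ⟨h, ?_⟩
  have e : tvG (0 : ι → F) (rp Q p) h = 1 := by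
    apply gl_ext
    intro x
    rw [tvG_mulVec, smul_zero, add_zero, Units.val_one, Matrix.one_mulVec]
  rw [e]
  exact M.one_mem

theorem R_conj (Q : QuadraticForm F (ι → F)) (M : Subgroup (GL ι F))
    (s : ↥(Cfsg.isometryGroup F ⇑Q)) (hs : (s : GL ι F) ∈ M) {a p : ι → F} (h : R Q M a p) :
    R Q M (act Q s a) (act Q s p) := by
  have h1 := Cfsg.Agent.S5642.T_conj M ((s : GL ι F)⁻¹) (M.inv_mem hs) h (a := act Q s a)
    (by rw [act_apply]; exact gl_inv_mulVec _ _)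
  have e : rp Q p ᵥ* (((s : GL ι F)⁻¹ : GL ι F) : Matrix ι ι F) = rp Q (act Q s p) := by
    apply Cfsg.Agent.S5642.dot_ext
    intro x
    rw [← Matrix.dotProduct_mulVec, rp_dot, rp_dot]
    have h3 := act_polar Q s p ((((s : GL ι F)⁻¹ : GL ι F) : Matrix ι ι F) *ᵥ x)
    rw [act_apply Q s (_ *ᵥ x), gl_mulVec_inv] at h3
    exact h3.symm
  unfold R
  rw [← e]
  exact h1

variable {Q : QuadraticForm F (ι → F)}

theorem partner_in (S0 : Submodule F (ι → F)) (u : ι → F) (hu : u ∈ perp Q S0) (hQu : Q u = 0)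
    (v0 : ι → F) (hv0 : v0 ∈ perp Q S0) (huv0 : QuadraticMap.polar ⇑Q u v0 ≠ 0) :
    ∃ v ∈ perp Q S0, Q v = 0 ∧ QuadraticMap.polar ⇑Q u v = 1 := by
  obtain ⟨v1, hv1⟩ : ∃ v1, v1 = (QuadraticMap.polar ⇑Q u v0)⁻¹ • v0 := ⟨_, rfl⟩
  have hv1S : v1 ∈ perp Q S0 := by
    rw [hv1]
    exact (perp Q S0).smul_mem _ hv0
  have huv1 : QuadraticMap.polar ⇑Q u v1 = 1 := by
    rw [hv1, QuadraticMap.polar_smul_right, smul_eq_mul, inv_mul_cancel₀ huv0]
  refine ⟨v1 - Q v1 • u, (perp Q S0).sub_mem hv1S ((perp Q S0).smul_mem _ hu), ?_, ?_⟩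
  · rw [sub_eq_add_neg, QuadraticMap.map_add ⇑Q, QuadraticMap.map_neg, QuadraticMap.map_smul,
      hQu, QuadraticMap.polar_neg_right, QuadraticMap.polar_smul_right,
      QuadraticMap.polar_comm ⇑Q v1 u, huv1]
    simp
  · rw [QuadraticMap.polar_sub_right, QuadraticMap.polar_smul_right,
      polar_self_of_sing Q u hQu, huv1]
    simp

/-- a hyperbolic pair orthogonal to a small subspace -/
theorem hyp_pair (hQ : (QuadraticMap.polarBilin Q).Nondegenerate) (S0 : Submodule F (ι → F))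
    (h : 2 * finrank F S0 + 3 ≤ Fintype.card ι) :
    ∃ u v, u ∈ perp Q S0 ∧ v ∈ perp Q S0 ∧ Q u = 0 ∧ Q v = 0 ∧ QuadraticMap.polar ⇑Q u v = 1 := by
  obtain ⟨C, hC⟩ := Submodule.exists_isCompl S0
  have h1 := Submodule.finrank_sup_add_finrank_inf_eq C (perp Q S0)
  have h2 := finrank_perp Q hQ S0
  have h3 := Submodule.finrank_add_eq_of_isCompl hC
  rw [Module.finrank_fintype_fun_eq_card] at h3
  have h4 := Submodule.finrank_le (C ⊔ perp Q S0)
  rw [Module.finrank_fintype_fun_eq_card] at h4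
  have h5 := Submodule.finrank_le S0
  rw [Module.finrank_fintype_fun_eq_card] at h5
  obtain ⟨u, hu, hu0, hQu⟩ := exists_sing Q (C ⊓ perp Q S0) (by omega)
  have huS : u ∉ S0 := by
    intro hmem
    apply hu0
    have hb : u ∈ S0 ⊓ C := ⟨hmem, hu.1⟩
    rw [hC.inf_eq_bot] at hb
    exact (Submodule.mem_bot F).1 hb
  obtain ⟨v0, hv0, huv0⟩ := Cfsg.Agent.S5691.exists_perp_ne Q hQ S0 u huS
  obtain ⟨v, hv, hQv, huv⟩ := partner_in S0 u hu.2 hQu v0 hv0 huv0
  exact ⟨u, v, hu.2, hv, hQu, hQv, huv⟩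

/-- every vector orthogonal to a small subspace is a sum of two singular vectors orthogonal to
that subspace -/
theorem sum_sing (hQ : (QuadraticMap.polarBilin Q).Nondegenerate) (h2 : (2 : F) ≠ 0)
    (S0 : Submodule F (ι → F)) (h : 2 * finrank F S0 + 5 ≤ Fintype.card ι) (y : ι → F)
    (hy : y ∈ perp Q S0) :
    ∃ e1 e2, e1 ∈ perp Q S0 ∧ e2 ∈ perp Q S0 ∧ Q e1 = 0 ∧ Q e2 = 0 ∧ y = e1 + e2 := by
  have hfr : finrank F ↥(S0 ⊔ Submodule.span F {y}) ≤ finrank F S0 + 1 := by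
    have h1 := Submodule.finrank_add_le_finrank_add_finrank S0 (Submodule.span F {y})
    have h3 := finrank_span_one y
    omega
  obtain ⟨u, v, hu, hv, hQu, hQv, huv⟩ := hyp_pair hQ (S0 ⊔ Submodule.span F {y}) (by omega)
  have huS : u ∈ perp Q S0 := fun s hs => hu s (Submodule.mem_sup_left hs)
  have hvS : v ∈ perp Q S0 := fun s hs => hv s (Submodule.mem_sup_left hs)
  have huy : QuadraticMap.polar ⇑Q u y = 0 :=
    hu y (Submodule.mem_sup_right (Submodule.mem_span_singleton_self y))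
  have hvy : QuadraticMap.polar ⇑Q v y = 0 :=
    hv y (Submodule.mem_sup_right (Submodule.mem_span_singleton_self y))
  obtain ⟨z, hz⟩ : ∃ z, z = u - Q y • v := ⟨_, rfl⟩
  have hzS : z ∈ perp Q S0 := by
    rw [hz]
    exact (perp Q S0).sub_mem huS ((perp Q S0).smul_mem _ hvS)
  have hQz : Q z = - Q y := by
    rw [hz, sub_eq_add_neg, QuadraticMap.map_add ⇑Q, QuadraticMap.map_neg, QuadraticMap.map_smul,
      hQu, hQv, QuadraticMap.polar_neg_right, QuadraticMap.polar_smul_right, huv]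
    simp
  have hzy : QuadraticMap.polar ⇑Q y z = 0 := by
    rw [hz, QuadraticMap.polar_sub_right, QuadraticMap.polar_smul_right,
      QuadraticMap.polar_comm ⇑Q y u, QuadraticMap.polar_comm ⇑Q y v, huy, hvy]
    simp
  refine ⟨(2 : F)⁻¹ • (y + z), (2 : F)⁻¹ • (y - z),
    (perp Q S0).smul_mem _ ((perp Q S0).add_mem hy hzS),
    (perp Q S0).smul_mem _ ((perp Q S0).sub_mem hy hzS), ?_, ?_, ?_⟩
  · rw [QuadraticMap.map_smul, QuadraticMap.map_add ⇑Q, hQz, hzy]
    simp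
  · rw [QuadraticMap.map_smul, sub_eq_add_neg, QuadraticMap.map_add ⇑Q, QuadraticMap.map_neg, hQz,
      QuadraticMap.polar_neg_right, hzy]
    simp
  · rw [← smul_add]
    have e : y + z + (y - z) = (2 : F) • y := by
      rw [two_smul]
      abel
    rw [e, smul_smul, inv_mul_cancel₀ h2, one_smul]

theorem exists_perp_list (hQ : (QuadraticMap.polarBilin Q).Nondegenerate)
    (l : List (ι → F)) : ∃ S : Submodule F (ι → F),
      (∀ y ∈ S, ∀ w ∈ l, QuadraticMap.polar ⇑Q y w = 0) ∧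
      Fintype.card ι ≤ finrank F S + l.length := by
  induction l with
  | nil =>
    refine ⟨⊤, fun y _ w hw => absurd hw List.not_mem_nil, ?_⟩
    rw [finrank_top, Module.finrank_fintype_fun_eq_card]
    simp
  | cons w l ih =>
    obtain ⟨S, hS, hfr⟩ := ih
    refine ⟨S ⊓ perp Q (Submodule.span F {w}), fun y hy w' hw' => ?_, ?_⟩
    · rcases List.mem_cons.mp hw' with rfl | h
      · exact hy.2 w' (Submodule.mem_span_singleton_self w')
      · exact hS y hy.1 w' h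
    · have h1 := finrank_inf_perp_ge hQ S w
      rw [List.length_cons]
      omega

/-- one step of the additive irreducibility argument -/
theorem lemX_step (hQ : (QuadraticMap.polarBilin Q).Nondegenerate) (hn : 13 ≤ Fintype.card ι)
    (P : (ι → F) → Prop) (a : ι → F)
    (hadd : ∀ p p', P p → P p' → P (p + p'))
    (hneg : ∀ p, P p → P (-p))
    (hE : ∀ e y, Q e = 0 → QuadraticMap.polar ⇑Q e y = 0 → QuadraticMap.polar ⇑Q e a = 0 →
      QuadraticMap.polar ⇑Q y a = 0 → ∀ p, P p → P (act Q (eich Q e y) p))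
    (d : ι → F) (hd : P d) (e : ι → F) (hQe : Q e = 0) (hea : QuadraticMap.polar ⇑Q e a = 0)
    (hed : QuadraticMap.polar ⇑Q e d ≠ 0) :
    ∀ y, QuadraticMap.polar ⇑Q y a = 0 → QuadraticMap.polar ⇑Q e y = 0 → P y := by
  have hsub : ∀ p p', P p → P p' → P (p - p') := fun p p' h h' => by
    rw [sub_eq_add_neg]
    exact hadd _ _ h (hneg _ h')
  have hfr := finrank_pair_le (F := F) a e
  obtain ⟨u, v, hu, hv, hQu, hQv, huv⟩ := hyp_pair hQ (Submodule.span F {a, e}) (by omega)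
  have hua : QuadraticMap.polar ⇑Q u a = 0 := hu a (Submodule.subset_span (by simp))
  have hue : QuadraticMap.polar ⇑Q u e = 0 := hu e (Submodule.subset_span (by simp))
  have hva : QuadraticMap.polar ⇑Q v a = 0 := hv a (Submodule.subset_span (by simp))
  have hve : QuadraticMap.polar ⇑Q v e = 0 := hv e (Submodule.subset_span (by simp))
  have heu : QuadraticMap.polar ⇑Q e u = 0 := by rw [QuadraticMap.polar_comm]; exact hue
  have hev : QuadraticMap.polar ⇑Q e v = 0 := by rw [QuadraticMap.polar_comm]; exact hve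
  have hce : ∀ c : F, P (c • e) := by
    intro c
    obtain ⟨t, ht⟩ : ∃ t : F, t = - c / QuadraticMap.polar ⇑Q e d := ⟨_, rfl⟩
    have ht' : t * QuadraticMap.polar ⇑Q e d = - c := by
      rw [ht, div_mul_cancel₀ _ hed]
    have he1 : QuadraticMap.polar ⇑Q e (t • u + v) = 0 := by
      rw [QuadraticMap.polar_add_right, QuadraticMap.polar_smul_right, heu, hev, smul_zero,
        add_zero]
    have he2 : QuadraticMap.polar ⇑Q e (t • u) = 0 := by
      rw [QuadraticMap.polar_smul_right, heu, smul_zero]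
    have ha1 : QuadraticMap.polar ⇑Q (t • u + v) a = 0 := by
      rw [QuadraticMap.polar_add_left, QuadraticMap.polar_smul_left, hua, hva, smul_zero,
        add_zero]
    have ha2 : QuadraticMap.polar ⇑Q (t • u) a = 0 := by
      rw [QuadraticMap.polar_smul_left, hua, smul_zero]
    have h1 := hE e (t • u + v) hQe he1 hea ha1 d hd
    have h2 := hE e (t • u) hQe he2 hea ha2 d hd
    have h3 := hE e v hQe hev hea hva d hd
    have hq1 : Q (t • u + v) = t := by
      rw [QuadraticMap.map_add ⇑Q, QuadraticMap.map_smul, hQu, hQv, QuadraticMap.polar_smul_left,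
        huv]
      simp
    have hq2 : Q (t • u) = 0 := by
      rw [QuadraticMap.map_smul, hQu, smul_zero]
    have hp1 : QuadraticMap.polar ⇑Q (t • u + v) d
        = t * QuadraticMap.polar ⇑Q u d + QuadraticMap.polar ⇑Q v d := by
      rw [QuadraticMap.polar_add_left, QuadraticMap.polar_smul_left, smul_eq_mul]
    have hp2 : QuadraticMap.polar ⇑Q (t • u) d = t * QuadraticMap.polar ⇑Q u d := by
      rw [QuadraticMap.polar_smul_left, smul_eq_mul]
    have key0 : act Q (eich Q e (t • u + v)) d - act Q (eich Q e (t • u)) d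
        - act Q (eich Q e v) d + d = (-(t * QuadraticMap.polar ⇑Q e d)) • e := by
      rw [act_eich Q e _ hQe he1, act_eich Q e _ hQe he2, act_eich Q e _ hQe hev, hq1, hq2, hQv,
        hp1, hp2]
      module
    have key : c • e = act Q (eich Q e (t • u + v)) d - act Q (eich Q e (t • u)) d
        - act Q (eich Q e v) d + d := by
      rw [key0, ht', neg_neg]
    rw [key]
    exact hadd _ _ (hsub _ _ (hsub _ _ h1 h2) h3) hd
  intro y hya hey
  obtain ⟨y', hy'⟩ : ∃ y', y' = (QuadraticMap.polar ⇑Q e d)⁻¹ • y := ⟨_, rfl⟩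
  have hey' : QuadraticMap.polar ⇑Q e y' = 0 := by
    rw [hy', QuadraticMap.polar_smul_right, hey, smul_zero]
  have hy'a : QuadraticMap.polar ⇑Q y' a = 0 := by
    rw [hy', QuadraticMap.polar_smul_left, hya, smul_zero]
  have h1 := hE e y' hQe hey' hea hy'a d hd
  have hyy : QuadraticMap.polar ⇑Q e d • y' = y := by
    rw [hy', smul_smul, mul_inv_cancel₀ hed, one_smul]
  have key : y = act Q (eich Q e y') d - d
      + (QuadraticMap.polar ⇑Q y' d + Q y' * QuadraticMap.polar ⇑Q e d) • e := by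
    rw [act_eich Q e y' hQe hey', hyy]
    abel
  rw [key]
  exact hadd _ _ (hsub _ _ h1 hd) (hce _)

/-- additive irreducibility: the set of second arguments is everything orthogonal to `a` -/
theorem lemX (hQ : (QuadraticMap.polarBilin Q).Nondegenerate) (h2 : (2 : F) ≠ 0)
    (hn : 13 ≤ Fintype.card ι) (P : (ι → F) → Prop) (a : ι → F)
    (hadd : ∀ p p', P p → P p' → P (p + p'))
    (hneg : ∀ p, P p → P (-p))
    (hE : ∀ e y, Q e = 0 → QuadraticMap.polar ⇑Q e y = 0 → QuadraticMap.polar ⇑Q e a = 0 →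
      QuadraticMap.polar ⇑Q y a = 0 → ∀ p, P p → P (act Q (eich Q e y) p))
    (p0 : ι → F) (hp0 : P p0) (hap0 : QuadraticMap.polar ⇑Q a p0 = 0) (y1 : ι → F)
    (hy1 : QuadraticMap.polar ⇑Q a y1 = 0) (hy1p : QuadraticMap.polar ⇑Q y1 p0 ≠ 0) :
    ∀ p, QuadraticMap.polar ⇑Q a p = 0 → P p := by
  intro p hap
  have hy1S : y1 ∈ perp Q (Submodule.span F {a}) := by
    intro s hs
    obtain ⟨c, rfl⟩ := Submodule.mem_span_singleton.mp hs
    rw [QuadraticMap.polar_smul_right, QuadraticMap.polar_comm, hy1, smul_zero]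
  have hfr := finrank_span_one (F := F) a
  obtain ⟨e1, e2, he1, he2, hQe1, hQe2, hsum⟩ :=
    sum_sing hQ h2 (Submodule.span F {a}) (by omega) y1 hy1S
  obtain ⟨e, heS, hQe, hed⟩ : ∃ e, e ∈ perp Q (Submodule.span F {a}) ∧ Q e = 0 ∧
      QuadraticMap.polar ⇑Q e p0 ≠ 0 := by
    by_cases h : QuadraticMap.polar ⇑Q e1 p0 = 0
    · refine ⟨e2, he2, hQe2, ?_⟩
      intro h'
      apply hy1p
      rw [hsum, QuadraticMap.polar_add_left, h, h', add_zero]
    · exact ⟨e1, he1, hQe1, h⟩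
  have hea : QuadraticMap.polar ⇑Q e a = 0 := heS a (Submodule.mem_span_singleton_self a)
  have hstep1 := lemX_step hQ hn P a hadd hneg hE p0 hp0 e hQe hea hed
  have heA : e ∉ Submodule.span F {a} := by
    intro hmem
    obtain ⟨c, rfl⟩ := Submodule.mem_span_singleton.mp hmem
    apply hed
    rw [QuadraticMap.polar_smul_left, hap0, smul_zero]
  obtain ⟨v0, hv0, hev0⟩ := Cfsg.Agent.S5691.exists_perp_ne Q hQ _ e heA
  obtain ⟨e', he'S, hQe', hee'⟩ := partner_in (Submodule.span F {a}) e heS hQe v0 hv0 hev0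
  have he'a : QuadraticMap.polar ⇑Q e' a = 0 := he'S a (Submodule.mem_span_singleton_self a)
  have hPe : P e := hstep1 e hea (polar_self_of_sing Q e hQe)
  have hstep2 := lemX_step hQ hn P a hadd hneg hE e hPe e' hQe' he'a (by
    rw [QuadraticMap.polar_comm, hee']
    exact one_ne_zero)
  have key : p = (p - QuadraticMap.polar ⇑Q e p • e') + QuadraticMap.polar ⇑Q e p • e' := by abel
  rw [key]
  apply hadd
  · apply hstep1
    · rw [QuadraticMap.polar_sub_left, QuadraticMap.polar_smul_left, he'a, QuadraticMap.polar_comm,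
        hap]
      simp
    · rw [QuadraticMap.polar_sub_right, QuadraticMap.polar_smul_right, hee']
      simp
  · apply hstep2
    · rw [QuadraticMap.polar_smul_left, he'a, smul_zero]
    · rw [QuadraticMap.polar_smul_right, polar_self_of_sing Q e' hQe', smul_zero]

theorem Q_three (Q : QuadraticForm F (ι → F)) (z e1 f1 : ι → F) (α γ : F) :
    Q (z + α • e1 + γ • f1) = Q z + α * α * Q e1 + γ * γ * Q f1
      + α * QuadraticMap.polar ⇑Q z e1 + γ * QuadraticMap.polar ⇑Q z f1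
      + α * γ * QuadraticMap.polar ⇑Q e1 f1 := by
  rw [QuadraticMap.map_add ⇑Q, QuadraticMap.map_add ⇑Q, QuadraticMap.polar_add_left,
    QuadraticMap.polar_smul_right, QuadraticMap.polar_smul_right, QuadraticMap.polar_smul_left,
    QuadraticMap.polar_smul_right, QuadraticMap.map_smul, QuadraticMap.map_smul]
  simp only [smul_eq_mul]
  ring

theorem polar_self2 (Q : QuadraticForm F (ι → F)) (w : ι → F) :
    QuadraticMap.polar ⇑Q w w = 2 * Q w := by
  rw [QuadraticMap.polar_self]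
  simp

/-- a quadratic form whose polar form is proportional to that of `Q` at every `Q`-singular
vector is a multiple of `Q` -/
theorem sim_of_sing (hQ : (QuadraticMap.polarBilin Q).Nondegenerate) (h2 : (2 : F) ≠ 0)
    (hn : 3 ≤ Fintype.card ι) (Q' : QuadraticForm F (ι → F))
    (h : ∀ e, Q e = 0 → ∃ d : F, ∀ x,
      QuadraticMap.polar ⇑Q' e x = d * QuadraticMap.polar ⇑Q e x) :
    ∃ c : F, ∀ x, Q' x = c * Q x := by
  have hnd : ∀ x, (∀ y, QuadraticMap.polar ⇑Q x y = 0) → x = 0 := fun x hx => hQ.1 x hx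
  have hsing : ∀ e, Q e = 0 → Q' e = 0 := by
    intro e he
    obtain ⟨d, hd⟩ := h e he
    have h1 := hd e
    rw [polar_self_of_sing Q e he, mul_zero, polar_self2 Q'] at h1
    exact (mul_eq_zero.mp h1).resolve_left h2
  obtain ⟨e1, he10, hQe1⟩ := Cfsg.Agent.Lib.Helper15.QForm.exists_singular Q
    (by rw [Module.finrank_fintype_fun_eq_card]; exact hn)
  obtain ⟨f1, hQf1, hef⟩ := Cfsg.Agent.Lib.Helper15.QForm.exists_partner Q hnd e1 he10 hQe1
  obtain ⟨d1, hd1⟩ := h e1 hQe1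
  obtain ⟨d2, hd2⟩ := h f1 hQf1
  have hfe : QuadraticMap.polar ⇑Q f1 e1 = 1 := by
    rw [QuadraticMap.polar_comm]
    exact hef
  have hd12 : d2 = d1 := by
    have h1 := hd1 f1
    have h3 := hd2 e1
    rw [hef, mul_one] at h1
    rw [hfe, mul_one, QuadraticMap.polar_comm] at h3
    rw [← h1, ← h3]
  rw [hd12] at hd2
  have hef' : QuadraticMap.polar ⇑Q' e1 f1 = d1 := by rw [hd1, hef, mul_one]
  refine ⟨d1, fun x => ?_⟩
  obtain ⟨α, hα⟩ : ∃ α, α = QuadraticMap.polar ⇑Q x f1 := ⟨_, rfl⟩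
  obtain ⟨γ, hγ⟩ : ∃ γ, γ = QuadraticMap.polar ⇑Q x e1 := ⟨_, rfl⟩
  obtain ⟨z, hz⟩ : ∃ z, z = x - α • e1 - γ • f1 := ⟨_, rfl⟩
  have hze : QuadraticMap.polar ⇑Q z e1 = 0 := by
    rw [hz, QuadraticMap.polar_sub_left, QuadraticMap.polar_sub_left,
      QuadraticMap.polar_smul_left, QuadraticMap.polar_smul_left, polar_self_of_sing Q e1 hQe1,
      hfe, ← hγ]
    simp
  have hzf : QuadraticMap.polar ⇑Q z f1 = 0 := by
    rw [hz, QuadraticMap.polar_sub_left, QuadraticMap.polar_sub_left,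
      QuadraticMap.polar_smul_left, QuadraticMap.polar_smul_left, polar_self_of_sing Q f1 hQf1,
      hef, ← hα]
    simp
  have hze' : QuadraticMap.polar ⇑Q' z e1 = 0 := by
    rw [QuadraticMap.polar_comm, hd1, QuadraticMap.polar_comm, hze, mul_zero]
  have hzf' : QuadraticMap.polar ⇑Q' z f1 = 0 := by
    rw [QuadraticMap.polar_comm, hd2, QuadraticMap.polar_comm, hzf, mul_zero]
  have hQz : Q' z = d1 * Q z := by
    have hs : Q (z + (1 : F) • e1 + (- Q z) • f1) = 0 := by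
      rw [Q_three, hQe1, hQf1, hze, hzf, hef]
      ring
    have hs' := hsing _ hs
    rw [Q_three, hsing e1 hQe1, hsing f1 hQf1, hze', hzf', hef'] at hs'
    linear_combination hs'
  have hx : x = z + α • e1 + γ • f1 := by
    rw [hz]
    abel
  have e1' : Q x = Q z + α * γ := by
    rw [hx, Q_three, hQe1, hQf1, hze, hzf, hef]
    ring
  have e2' : Q' x = Q' z + α * γ * d1 := by
    rw [hx, Q_three, hsing e1 hQe1, hsing f1 hQf1, hze', hzf', hef']
    ring
  rw [e2', e1', hQz]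
  ring

/-- an element that is not a similarity moves the polar hyperplane of some singular vector -/
theorem exists_bad (hQ : (QuadraticMap.polarBilin Q).Nondegenerate) (h2 : (2 : F) ≠ 0)
    (hn : 3 ≤ Fintype.card ι) (g : GL ι F) (hg : g ∉ Cfsg.Geo.quadSimilarityGroup ⇑Q) :
    ∃ e, Q e = 0 ∧ ∃ x0,
      QuadraticMap.polar ⇑Q (((g⁻¹ : GL ι F) : Matrix ι ι F) *ᵥ e) x0 = 0 ∧
      QuadraticMap.polar ⇑Q e ((g : Matrix ι ι F) *ᵥ x0) ≠ 0 := by
  by_contra hcon
  push Not at hcon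
  apply hg
  have hnd : ∀ x, (∀ y, QuadraticMap.polar ⇑Q x y = 0) → x = 0 := fun x hx => hQ.1 x hx
  obtain ⟨Q', hQ'⟩ : ∃ Q' : QuadraticForm F (ι → F),
      ∀ x, Q' x = Q (((g⁻¹ : GL ι F) : Matrix ι ι F) *ᵥ x) :=
    ⟨Q.comp (Matrix.mulVecLin ((g⁻¹ : GL ι F) : Matrix ι ι F)), fun x => rfl⟩
  have hpol' : ∀ x y, QuadraticMap.polar ⇑Q' x y =
      QuadraticMap.polar ⇑Q (((g⁻¹ : GL ι F) : Matrix ι ι F) *ᵥ x)
        (((g⁻¹ : GL ι F) : Matrix ι ι F) *ᵥ y) := by
    intro x y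
    unfold QuadraticMap.polar
    rw [hQ', hQ', hQ', Matrix.mulVec_add]
  have hsim : ∃ c : F, ∀ x, Q' x = c * Q x := by
    apply sim_of_sing hQ h2 hn Q'
    intro e he
    by_cases he0 : e = 0
    · refine ⟨0, fun x => ?_⟩
      rw [he0, zero_mul, hpol', Matrix.mulVec_zero]
      simp [QuadraticMap.polar]
    · have hgie : ((g⁻¹ : GL ι F) : Matrix ι ι F) *ᵥ e ≠ 0 := by
        intro h0
        apply he0
        have h1 := gl_mulVec_inv g e
        rw [h0, Matrix.mulVec_zero] at h1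
        exact h1.symm
      obtain ⟨w0, hw0⟩ : ∃ w0,
          QuadraticMap.polar ⇑Q (((g⁻¹ : GL ι F) : Matrix ι ι F) *ᵥ e) w0 ≠ 0 := by
        by_contra hc
        push Not at hc
        exact hgie (hnd _ hc)
      obtain ⟨b, hb⟩ : ∃ b,
          b = QuadraticMap.polar ⇑Q (((g⁻¹ : GL ι F) : Matrix ι ι F) *ᵥ e) w0 := ⟨_, rfl⟩
      have hb0 : b ≠ 0 := by
        rw [hb]
        exact hw0
      have hx : ∀ x, QuadraticMap.polar ⇑Q e x = QuadraticMap.polar ⇑Q' e x / b *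
          QuadraticMap.polar ⇑Q e ((g : Matrix ι ι F) *ᵥ w0) := by
        intro x
        have h1 := hcon e he (((g⁻¹ : GL ι F) : Matrix ι ι F) *ᵥ x -
          (QuadraticMap.polar ⇑Q' e x / b) • w0) (by
            rw [QuadraticMap.polar_sub_right, QuadraticMap.polar_smul_right, ← hb, smul_eq_mul,
              div_mul_cancel₀ _ hb0, hpol', sub_self])
        rw [Matrix.mulVec_sub, Matrix.mulVec_smul, gl_mulVec_inv, QuadraticMap.polar_sub_right,
          QuadraticMap.polar_smul_right, smul_eq_mul] at h1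
        linear_combination h1
      have hk : QuadraticMap.polar ⇑Q e ((g : Matrix ι ι F) *ᵥ w0) ≠ 0 := by
        intro h0
        apply he0
        apply hnd
        intro x
        rw [hx x, h0, mul_zero]
      refine ⟨b / QuadraticMap.polar ⇑Q e ((g : Matrix ι ι F) *ᵥ w0), fun x => ?_⟩
      rw [hx x]
      field_simp
  obtain ⟨c, hc⟩ := hsim
  have hc0 : c ≠ 0 := by
    intro h0
    obtain ⟨e1, he10, hQe1⟩ := Cfsg.Agent.Lib.Helper15.QForm.exists_singular Q
      (by rw [Module.finrank_fintype_fun_eq_card]; exact hn)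
    obtain ⟨f1, hQf1, hef⟩ := Cfsg.Agent.Lib.Helper15.QForm.exists_partner Q hnd e1 he10 hQe1
    have h1 : ∀ x, Q x = 0 := by
      intro x
      have h3 := hc ((g : Matrix ι ι F) *ᵥ x)
      rw [hQ', gl_inv_mulVec, h0, zero_mul] at h3
      exact h3
    have h4 : QuadraticMap.polar ⇑Q e1 f1 = 0 := by
      unfold QuadraticMap.polar
      rw [h1, h1, h1]
      simp
    rw [hef] at h4
    exact one_ne_zero h4
  have hgi : g⁻¹ ∈ Cfsg.Geo.quadSimilarityGroup ⇑Q :=
    ⟨Units.mk0 c hc0, fun v => by rw [← hQ', hc]; rfl⟩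
  have hgg := (Cfsg.Geo.quadSimilarityGroup ⇑Q).inv_mem hgi
  rwa [inv_inv] at hgg

/-- a transvection with singular centre in any subgroup containing the Eichler transformations
and an element that is not a similarity -/
theorem exists_tv (hQ : (QuadraticMap.polarBilin Q).Nondegenerate) (h2 : (2 : F) ≠ 0)
    (hn : 13 ≤ Fintype.card ι) (M : Subgroup (GL ι F))
    (hEM : ∀ e y, Q e = 0 → QuadraticMap.polar ⇑Q e y = 0 →
      ((eich Q e y : ↥(Cfsg.isometryGroup F ⇑Q)) : GL ι F) ∈ M)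
    (g : GL ι F) (hgM : g ∈ M) (hg : g ∉ Cfsg.Geo.quadSimilarityGroup ⇑Q) :
    ∃ a p0 y1, a ≠ 0 ∧ Q a = 0 ∧ R Q M a p0 ∧ QuadraticMap.polar ⇑Q a p0 = 0 ∧
      QuadraticMap.polar ⇑Q a y1 = 0 ∧ QuadraticMap.polar ⇑Q y1 p0 ≠ 0 := by
  have hnd : ∀ x, (∀ y, QuadraticMap.polar ⇑Q x y = 0) → x = 0 := fun x hx => hQ.1 x hx
  obtain ⟨e, hQe, x0, hx0a, hx0b⟩ := exists_bad hQ h2 (by omega) g hg
  have hx0S : x0 ∈ perp Q (Submodule.span F {((g⁻¹ : GL ι F) : Matrix ι ι F) *ᵥ e}) := by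
    intro s hs
    obtain ⟨c, rfl⟩ := Submodule.mem_span_singleton.mp hs
    rw [QuadraticMap.polar_smul_right, QuadraticMap.polar_comm, hx0a, smul_zero]
  have hfr1 := finrank_span_one (F := F) (((g⁻¹ : GL ι F) : Matrix ι ι F) *ᵥ e)
  obtain ⟨s1, s2, hs1, hs2, hQs1, hQs2, hsum⟩ := sum_sing hQ h2 _ (by omega) x0 hx0S
  obtain ⟨e0', he0'S, hQe0', he0'⟩ : ∃ e0',
      e0' ∈ perp Q (Submodule.span F {((g⁻¹ : GL ι F) : Matrix ι ι F) *ᵥ e}) ∧ Q e0' = 0 ∧
      QuadraticMap.polar ⇑Q e ((g : Matrix ι ι F) *ᵥ e0') ≠ 0 := by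
    by_cases h : QuadraticMap.polar ⇑Q e ((g : Matrix ι ι F) *ᵥ s1) = 0
    · refine ⟨s2, hs2, hQs2, fun h' => hx0b ?_⟩
      rw [hsum, Matrix.mulVec_add, QuadraticMap.polar_add_right, h, h', add_zero]
    · exact ⟨s1, hs1, hQs1, h⟩
  obtain ⟨e0, he0def⟩ : ∃ e0,
      e0 = (QuadraticMap.polar ⇑Q e ((g : Matrix ι ι F) *ᵥ e0'))⁻¹ • e0' := ⟨_, rfl⟩
  have hQe0 : Q e0 = 0 := by
    rw [he0def, QuadraticMap.map_smul, hQe0', smul_zero]
  have h_e_ge0 : QuadraticMap.polar ⇑Q e ((g : Matrix ι ι F) *ᵥ e0) = 1 := by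
    rw [he0def, Matrix.mulVec_smul, QuadraticMap.polar_smul_right, smul_eq_mul,
      inv_mul_cancel₀ he0']
  have h_e0_gie : QuadraticMap.polar ⇑Q e0 (((g⁻¹ : GL ι F) : Matrix ι ι F) *ᵥ e) = 0 := by
    rw [he0def, QuadraticMap.polar_smul_left, he0'S _ (Submodule.mem_span_singleton_self _),
      smul_zero]
  obtain ⟨w1, hw1⟩ := exists_adj Q hQ (g : Matrix ι ι F) e
  obtain ⟨S3, hS3, hS3r⟩ := exists_perp_list hQ
    [e0, ((g⁻¹ : GL ι F) : Matrix ι ι F) *ᵥ e, w1]
  obtain ⟨y0, hy0S, hy00, hQy0⟩ := exists_sing Q S3 (by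
    simp only [List.length_cons, List.length_nil] at hS3r
    omega)
  have h_y0_e0 : QuadraticMap.polar ⇑Q y0 e0 = 0 := hS3 y0 hy0S e0 (by simp)
  have h_y0_gie : QuadraticMap.polar ⇑Q y0 (((g⁻¹ : GL ι F) : Matrix ι ι F) *ᵥ e) = 0 :=
    hS3 y0 hy0S _ (by simp)
  have h_e_gy0 : QuadraticMap.polar ⇑Q e ((g : Matrix ι ι F) *ᵥ y0) = 0 := by
    rw [QuadraticMap.polar_comm, hw1]
    exact hS3 y0 hy0S w1 (by simp)
  have h_e0_y0 : QuadraticMap.polar ⇑Q e0 y0 = 0 := by
    rw [QuadraticMap.polar_comm]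
    exact h_y0_e0
  obtain ⟨z, hz⟩ : ∃ z, QuadraticMap.polar ⇑Q y0 z ≠ 0 := by
    by_contra hc
    push Not at hc
    exact hy00 (hnd _ hc)
  obtain ⟨w2, hw2⟩ := exists_adj Q hQ ((g⁻¹ : GL ι F) : Matrix ι ι F) e0
  obtain ⟨w3, hw3⟩ := exists_adj Q hQ ((g⁻¹ : GL ι F) : Matrix ι ι F) y0
  obtain ⟨S6, hS6, hS6r⟩ := exists_perp_list hQ
    [e, w2, w3, (g : Matrix ι ι F) *ᵥ e0, (g : Matrix ι ι F) *ᵥ y0, (g : Matrix ι ι F) *ᵥ z]
  obtain ⟨y, hyS, hy0', hQy⟩ := exists_sing Q S6 (by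
    simp only [List.length_cons, List.length_nil] at hS6r
    omega)
  have h_y_e : QuadraticMap.polar ⇑Q y e = 0 := hS6 y hyS e (by simp)
  have h_e_y : QuadraticMap.polar ⇑Q e y = 0 := by
    rw [QuadraticMap.polar_comm]
    exact h_y_e
  have h_e0_giy : QuadraticMap.polar ⇑Q e0 (((g⁻¹ : GL ι F) : Matrix ι ι F) *ᵥ y) = 0 := by
    rw [QuadraticMap.polar_comm, hw2]
    exact hS6 y hyS w2 (by simp)
  have h_y0_giy : QuadraticMap.polar ⇑Q y0 (((g⁻¹ : GL ι F) : Matrix ι ι F) *ᵥ y) = 0 := by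
    rw [QuadraticMap.polar_comm, hw3]
    exact hS6 y hyS w3 (by simp)
  have h_y_ge0 : QuadraticMap.polar ⇑Q y ((g : Matrix ι ι F) *ᵥ e0) = 0 := hS6 y hyS _ (by simp)
  have h_y_gy0 : QuadraticMap.polar ⇑Q y ((g : Matrix ι ι F) *ᵥ y0) = 0 := hS6 y hyS _ (by simp)
  have h_y_gz : QuadraticMap.polar ⇑Q y ((g : Matrix ι ι F) *ᵥ z) = 0 := hS6 y hyS _ (by simp)
  obtain ⟨E, hEdef⟩ : ∃ E : GL ι F,
      E = ((eich Q e y : ↥(Cfsg.isometryGroup F ⇑Q)) : GL ι F) := ⟨_, rfl⟩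
  obtain ⟨E0, hE0def⟩ : ∃ E0 : GL ι F,
      E0 = ((eich Q e0 y0 : ↥(Cfsg.isometryGroup F ⇑Q)) : GL ι F) := ⟨_, rfl⟩
  have hEM' : E ∈ M := by
    rw [hEdef]
    exact hEM e y hQe h_e_y
  have hE0M : E0 ∈ M := by
    rw [hE0def]
    exact hEM e0 y0 hQe0 h_e0_y0
  have hEx : ∀ x, (E : Matrix ι ι F) *ᵥ x = x + QuadraticMap.polar ⇑Q e x • y
      - QuadraticMap.polar ⇑Q y x • e := by
    intro x
    have h1 := act_eich Q e y hQe h_e_y x
    rw [act_apply] at h1
    rw [hEdef, h1, hQy, zero_mul, add_zero]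
  have hE0x : ∀ x, (E0 : Matrix ι ι F) *ᵥ x = x + QuadraticMap.polar ⇑Q e0 x • y0
      - QuadraticMap.polar ⇑Q y0 x • e0 := by
    intro x
    have h1 := act_eich Q e0 y0 hQe0 h_e0_y0 x
    rw [act_apply] at h1
    rw [hE0def, h1, hQy0, zero_mul, add_zero]
  obtain ⟨p0, hp0⟩ := exists_rp Q hQ (-(rp Q y0 ᵥ* ((g⁻¹ : GL ι F) : Matrix ι ι F)))
  have hp0x : ∀ x, QuadraticMap.polar ⇑Q p0 x
      = - QuadraticMap.polar ⇑Q y0 (((g⁻¹ : GL ι F) : Matrix ι ι F) *ᵥ x) := by
    intro x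
    rw [← rp_dot Q p0 x, hp0, neg_dotProduct, ← Matrix.dotProduct_mulVec, rp_dot]
  have hp0y : rp Q p0 ⬝ᵥ y = 0 := by
    rw [rp_dot, hp0x, h_y0_giy, neg_zero]
  refine ⟨y, p0, (g : Matrix ι ι F) *ᵥ z, hy0', hQy, ⟨hp0y, ?_⟩, ?_, h_y_gz, ?_⟩
  · have hE'x : ∀ v, (g : Matrix ι ι F) *ᵥ ((E0 : Matrix ι ι F) *ᵥ
        (((g⁻¹ : GL ι F) : Matrix ι ι F) *ᵥ v)) = v
          + QuadraticMap.polar ⇑Q e0 (((g⁻¹ : GL ι F) : Matrix ι ι F) *ᵥ v)
            • ((g : Matrix ι ι F) *ᵥ y0)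
          - QuadraticMap.polar ⇑Q y0 (((g⁻¹ : GL ι F) : Matrix ι ι F) *ᵥ v)
            • ((g : Matrix ι ι F) *ᵥ e0) := by
      intro v
      rw [hE0x, Matrix.mulVec_sub, Matrix.mulVec_add, Matrix.mulVec_smul, Matrix.mulVec_smul,
        gl_mulVec_inv]
    have key : tvG y (rp Q p0) hp0y = E * (g * E0 * g⁻¹) * E⁻¹ * (g * E0 * g⁻¹)⁻¹ := by
      rw [eq_mul_inv_iff_mul_eq, eq_mul_inv_iff_mul_eq]
      apply gl_ext
      intro x
      simp only [Units.val_mul, ← Matrix.mulVec_mulVec]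
      obtain ⟨lam, hlam⟩ : ∃ lam : F, lam =
          QuadraticMap.polar ⇑Q e0 (((g⁻¹ : GL ι F) : Matrix ι ι F) *ᵥ x) := ⟨_, rfl⟩
      obtain ⟨mu, hmu⟩ : ∃ mu : F, mu =
          QuadraticMap.polar ⇑Q y0 (((g⁻¹ : GL ι F) : Matrix ι ι F) *ᵥ x) := ⟨_, rfl⟩
      have hX1 : (g : Matrix ι ι F) *ᵥ ((E0 : Matrix ι ι F) *ᵥ
          (((g⁻¹ : GL ι F) : Matrix ι ι F) *ᵥ x)) = x + lam • ((g : Matrix ι ι F) *ᵥ y0)
            - mu • ((g : Matrix ι ι F) *ᵥ e0) := by
        rw [hE'x x, ← hlam, ← hmu]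
      have c1 : QuadraticMap.polar ⇑Q e (x + lam • ((g : Matrix ι ι F) *ᵥ y0)
          - mu • ((g : Matrix ι ι F) *ᵥ e0)) = QuadraticMap.polar ⇑Q e x - mu := by
        rw [QuadraticMap.polar_sub_right, QuadraticMap.polar_add_right,
          QuadraticMap.polar_smul_right, QuadraticMap.polar_smul_right, h_e_gy0, h_e_ge0]
        simp
      have c2 : QuadraticMap.polar ⇑Q y (x + lam • ((g : Matrix ι ι F) *ᵥ y0)
          - mu • ((g : Matrix ι ι F) *ᵥ e0)) = QuadraticMap.polar ⇑Q y x := by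
        rw [QuadraticMap.polar_sub_right, QuadraticMap.polar_add_right,
          QuadraticMap.polar_smul_right, QuadraticMap.polar_smul_right, h_y_gy0, h_y_ge0]
        simp
      have c3 : ((g⁻¹ : GL ι F) : Matrix ι ι F) *ᵥ (x + QuadraticMap.polar ⇑Q e x • y
          - QuadraticMap.polar ⇑Q y x • e) = ((g⁻¹ : GL ι F) : Matrix ι ι F) *ᵥ x
            + QuadraticMap.polar ⇑Q e x • (((g⁻¹ : GL ι F) : Matrix ι ι F) *ᵥ y)
            - QuadraticMap.polar ⇑Q y x • (((g⁻¹ : GL ι F) : Matrix ι ι F) *ᵥ e) := by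
        rw [Matrix.mulVec_sub, Matrix.mulVec_add, Matrix.mulVec_smul, Matrix.mulVec_smul]
      have c4 : QuadraticMap.polar ⇑Q e0 (((g⁻¹ : GL ι F) : Matrix ι ι F) *ᵥ x
            + QuadraticMap.polar ⇑Q e x • (((g⁻¹ : GL ι F) : Matrix ι ι F) *ᵥ y)
            - QuadraticMap.polar ⇑Q y x • (((g⁻¹ : GL ι F) : Matrix ι ι F) *ᵥ e)) = lam := by
        rw [QuadraticMap.polar_sub_right, QuadraticMap.polar_add_right,
          QuadraticMap.polar_smul_right, QuadraticMap.polar_smul_right, h_e0_giy, h_e0_gie,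
          ← hlam]
        simp
      have c5 : QuadraticMap.polar ⇑Q y0 (((g⁻¹ : GL ι F) : Matrix ι ι F) *ᵥ x
            + QuadraticMap.polar ⇑Q e x • (((g⁻¹ : GL ι F) : Matrix ι ι F) *ᵥ y)
            - QuadraticMap.polar ⇑Q y x • (((g⁻¹ : GL ι F) : Matrix ι ι F) *ᵥ e)) = mu := by
        rw [QuadraticMap.polar_sub_right, QuadraticMap.polar_add_right,
          QuadraticMap.polar_smul_right, QuadraticMap.polar_smul_right, h_y0_giy, h_y0_gie,
          ← hmu]
        simp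
      have hL1 : (g : Matrix ι ι F) *ᵥ ((E0 : Matrix ι ι F) *ᵥ
          (((g⁻¹ : GL ι F) : Matrix ι ι F) *ᵥ ((E : Matrix ι ι F) *ᵥ x)))
          = (x + QuadraticMap.polar ⇑Q e x • y - QuadraticMap.polar ⇑Q y x • e)
            + lam • ((g : Matrix ι ι F) *ᵥ y0) - mu • ((g : Matrix ι ι F) *ᵥ e0) := by
        rw [hEx, hE'x, c3, c4, c5]
      have c6a : ((g⁻¹ : GL ι F) : Matrix ι ι F) *ᵥ
          ((x + QuadraticMap.polar ⇑Q e x • y - QuadraticMap.polar ⇑Q y x • e)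
            + lam • ((g : Matrix ι ι F) *ᵥ y0) - mu • ((g : Matrix ι ι F) *ᵥ e0))
          = (((g⁻¹ : GL ι F) : Matrix ι ι F) *ᵥ x
            + QuadraticMap.polar ⇑Q e x • (((g⁻¹ : GL ι F) : Matrix ι ι F) *ᵥ y)
            - QuadraticMap.polar ⇑Q y x • (((g⁻¹ : GL ι F) : Matrix ι ι F) *ᵥ e))
            + lam • y0 - mu • e0 := by
        rw [Matrix.mulVec_sub, Matrix.mulVec_add, Matrix.mulVec_smul, Matrix.mulVec_smul, c3,
          gl_inv_mulVec, gl_inv_mulVec]
      have c6 : QuadraticMap.polar ⇑Q y0 ((((g⁻¹ : GL ι F) : Matrix ι ι F) *ᵥ x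
            + QuadraticMap.polar ⇑Q e x • (((g⁻¹ : GL ι F) : Matrix ι ι F) *ᵥ y)
            - QuadraticMap.polar ⇑Q y x • (((g⁻¹ : GL ι F) : Matrix ι ι F) *ᵥ e))
            + lam • y0 - mu • e0) = mu := by
        rw [QuadraticMap.polar_sub_right, QuadraticMap.polar_add_right,
          QuadraticMap.polar_smul_right, QuadraticMap.polar_smul_right, c5,
          polar_self_of_sing Q y0 hQy0, h_y0_e0]
        simp
      rw [hL1, tvG_mulVec, rp_dot, hp0x, c6a, c6, hX1, hEx, c1, c2]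
      module
    rw [key]
    exact M.mul_mem (M.mul_mem (M.mul_mem hEM' (M.mul_mem (M.mul_mem hgM hE0M) (M.inv_mem hgM)))
      (M.inv_mem hEM')) (M.inv_mem (M.mul_mem (M.mul_mem hgM hE0M) (M.inv_mem hgM)))
  · rw [QuadraticMap.polar_comm, hp0x, h_y0_giy, neg_zero]
  · rw [QuadraticMap.polar_comm, hp0x, gl_inv_mulVec, neg_ne_zero]
    exact hz

theorem eich_mem_H (hQ : (QuadraticMap.polarBilin Q).Nondegenerate) (hn : 5 ≤ Fintype.card ι)
    (e y : ι → F) (he : Q e = 0) (hey : QuadraticMap.polar ⇑Q e y = 0) :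
    ((eich Q e y : ↥(Cfsg.isometryGroup F ⇑Q)) : GL ι F) ∈
      Cfsg.Geo.quadSimilarityGroup ⇑Q ⊓ Cfsg.Geo.specialLinear ι F := by
  refine ⟨⟨1, fun v => ?_⟩, ?_⟩
  · rw [Units.val_one, one_mul]
    exact iso_apply Q _ v
  · have hc := eich_mem_omega Q hQ hn e y he hey
    have hker := Abelianization.commutator_subset_ker
      ((Matrix.GeneralLinearGroup.det : GL ι F →* Fˣ).comp (Cfsg.isometryGroup F ⇑Q).subtype)
    exact hker hc

theorem exists_not_sim (hQ : (QuadraticMap.polarBilin Q).Nondegenerate)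
    (hn : 3 ≤ Fintype.card ι) :
    ∃ t ∈ Cfsg.Geo.specialLinear ι F, t ∉ Cfsg.Geo.quadSimilarityGroup ⇑Q := by
  have hnd : ∀ x, (∀ y, QuadraticMap.polar ⇑Q x y = 0) → x = 0 := fun x hx => hQ.1 x hx
  obtain ⟨e1, he10, hQe1⟩ := Cfsg.Agent.Lib.Helper15.QForm.exists_singular Q
    (by rw [Module.finrank_fintype_fun_eq_card]; exact hn)
  obtain ⟨f1, hQf1, hef⟩ := Cfsg.Agent.Lib.Helper15.QForm.exists_partner Q hnd e1 he10 hQe1
  have h : rp Q e1 ⬝ᵥ e1 = 0 := by rw [rp_dot, polar_self_of_sing Q e1 hQe1]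
  refine ⟨tvG e1 (rp Q e1) h, tvG_mem_SL _ _ _, ?_⟩
  rintro ⟨c, hc⟩
  have h1 := hc f1
  rw [tvG_mulVec, rp_dot, hef, one_smul, QuadraticMap.map_add ⇑Q, hQf1, hQe1,
    QuadraticMap.polar_comm, hef] at h1
  simp at h1

theorem main (hQ : (QuadraticMap.polarBilin Q).Nondegenerate) (h2 : (2 : F) ≠ 0)
    (hn : 13 ≤ Fintype.card ι) (M : Subgroup (GL ι F))
    (hHM : Cfsg.Geo.quadSimilarityGroup ⇑Q ⊓ Cfsg.Geo.specialLinear ι F ≤ M)
    (hMK : M ≤ Cfsg.Geo.specialLinear ι F)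
    (hne : M ≠ Cfsg.Geo.quadSimilarityGroup ⇑Q ⊓ Cfsg.Geo.specialLinear ι F) :
    M = Cfsg.Geo.specialLinear ι F := by
  have hEM : ∀ e y, Q e = 0 → QuadraticMap.polar ⇑Q e y = 0 →
      ((eich Q e y : ↥(Cfsg.isometryGroup F ⇑Q)) : GL ι F) ∈ M :=
    fun e y he hey => hHM (eich_mem_H hQ (by omega) e y he hey)
  obtain ⟨g, hgM, hgH⟩ := SetLike.exists_of_lt (lt_of_le_of_ne hHM (Ne.symm hne))
  have hg : g ∉ Cfsg.Geo.quadSimilarityGroup ⇑Q := fun h => hgH ⟨h, hMK hgM⟩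
  obtain ⟨a, p0, y1, ha0, hQa, hR, hap0, hay1, hy1p0⟩ := exists_tv hQ h2 hn M hEM g hgM hg
  have hXR : ∀ a p0 y1, Q a = 0 → R Q M a p0 → QuadraticMap.polar ⇑Q a p0 = 0 →
      QuadraticMap.polar ⇑Q a y1 = 0 → QuadraticMap.polar ⇑Q y1 p0 ≠ 0 →
      ∀ p, QuadraticMap.polar ⇑Q a p = 0 → R Q M a p := by
    intro a p0 y1 hQa hR hap0 hay1 hy1p0
    exact lemX hQ h2 hn (fun p => R Q M a p) a (fun p p' => R_add2 Q M)
      (fun p => R_neg2 Q M) (fun e y he hey hea hya p hp => by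
        have h3 := R_conj Q M (eich Q e y) (hEM e y he hey) hp
        rw [eich_fix Q e y a he hey hea hya] at h3
        exact h3) p0 hR hap0 y1 hay1 hy1p0
  have hXR' : ∀ p a0 y1, Q p = 0 → R Q M a0 p → QuadraticMap.polar ⇑Q p a0 = 0 →
      QuadraticMap.polar ⇑Q p y1 = 0 → QuadraticMap.polar ⇑Q y1 a0 ≠ 0 →
      ∀ a, QuadraticMap.polar ⇑Q p a = 0 → R Q M a p := by
    intro p a0 y1 hQp hR hpa0 hpy1 hy1a0
    exact lemX hQ h2 hn (fun a => R Q M a p) p (fun a a' => R_add1 Q M)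
      (fun a => R_neg1 Q M) (fun e y he hey hep hyp a ha => by
        have h3 := R_conj Q M (eich Q e y) (hEM e y he hey) ha
        rw [eich_fix Q e y p he hey hep hyp] at h3
        exact h3) a0 hR hpa0 y1 hpy1 hy1a0
  have h1 := hXR a p0 y1 hQa hR hap0 hay1 hy1p0
  have hsing : ∀ e', Q e' = 0 → ∀ p, QuadraticMap.polar ⇑Q e' p = 0 → R Q M e' p := by
    intro e' hQe' p hp
    by_cases he'0 : e' = 0
    · rw [he'0]
      exact R_zero_left Q M p
    · have hfr := finrank_pair_le (F := F) a e'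
      obtain ⟨u, v, hu, hv, hQu, hQv, huv⟩ := hyp_pair hQ (Submodule.span F {a, e'}) (by omega)
      have hua : QuadraticMap.polar ⇑Q u a = 0 := hu a (Submodule.subset_span (by simp))
      have hue' : QuadraticMap.polar ⇑Q u e' = 0 := hu e' (Submodule.subset_span (by simp))
      have hva : QuadraticMap.polar ⇑Q v a = 0 := hv a (Submodule.subset_span (by simp))
      have hve' : QuadraticMap.polar ⇑Q v e' = 0 := hv e' (Submodule.subset_span (by simp))
      have hRau : R Q M a u := h1 u (by rw [QuadraticMap.polar_comm]; exact hua)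
      have haU : a ∉ Submodule.span F {u} := by
        intro hmem
        obtain ⟨c, hc⟩ := Submodule.mem_span_singleton.mp hmem
        have h3 := hva
        rw [← hc, QuadraticMap.polar_smul_right, QuadraticMap.polar_comm, huv, smul_eq_mul,
          mul_one] at h3
        rw [h3, zero_smul] at hc
        exact ha0 hc.symm
      obtain ⟨y1', hy1'S, hay1'⟩ := Cfsg.Agent.S5691.exists_perp_ne Q hQ _ a haU
      have huy1' : QuadraticMap.polar ⇑Q u y1' = 0 := by
        rw [QuadraticMap.polar_comm]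
        exact hy1'S u (Submodule.mem_span_singleton_self u)
      have h2' := hXR' u a y1' hQu hRau hua huy1' (by
        rw [QuadraticMap.polar_comm]
        exact hay1')
      have hRe'u := h2' e' hue'
      exact hXR e' u v hQe' hRe'u (by rw [QuadraticMap.polar_comm]; exact hue')
        (by rw [QuadraticMap.polar_comm]; exact hve')
        (by rw [QuadraticMap.polar_comm, huv]; exact one_ne_zero) p hp
  have hall : ∀ a p, QuadraticMap.polar ⇑Q a p = 0 → R Q M a p := by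
    intro a p hap
    by_cases hQa : Q a = 0
    · exact hsing a hQa p hap
    · have haS : a ∈ perp Q (Submodule.span F {p}) := by
        intro s hs
        obtain ⟨c, rfl⟩ := Submodule.mem_span_singleton.mp hs
        rw [QuadraticMap.polar_smul_right, hap, smul_zero]
      have hfr := finrank_span_one (F := F) p
      obtain ⟨e1, e2, he1, he2, hQe1, hQe2, hsum⟩ := sum_sing hQ h2 _ (by omega) a haS
      rw [hsum]
      exact R_add1 Q M (hsing e1 hQe1 p (he1 p (Submodule.mem_span_singleton_self p)))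
        (hsing e2 hQe2 p (he2 p (Submodule.mem_span_singleton_self p)))
  apply le_antisymm hMK
  apply sl_gen
  intro a l h
  obtain ⟨p, hp⟩ := exists_rp Q hQ l
  subst hp
  obtain ⟨h', hmem⟩ := hall a p (by rw [QuadraticMap.polar_comm, ← rp_dot, h])
  exact hmem

end aux

/-- For a finite field F of odd order and n ≥ 13, let Q be a non-degenerate quadratic form on F^n (its polar form is non-degenerate). Then the elements of SL_n(F) that are similarities of Q (Q(gv) = c Q(v) for a non-zero scalar c depending on g) form a maximal subgroup of SL_n(F). -/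
theorem result {F : Type*} [Field F] [Fintype F] (n : ℕ) (hn : 13 ≤ n) (hodd : Odd (Fintype.card F)) (Q : (Fin n → F) → F) (hQ : Cfsg.Geo.IsNondegenerateQuadraticForm Q) : Cfsg.Geo.IsMaximalIn (Cfsg.Geo.specialLinear (Fin n) F) (Cfsg.Geo.quadSimilarityGroup Q ⊓ Cfsg.Geo.specialLinear (Fin n) F) := by
  have hc : Fintype.card (Fin n) = n := Fintype.card_fin n
  have hQ' := toQF_nondeg Q hQ
  have h2 : (2 : F) ≠ 0 := by
    intro h
    have h1 : ringChar F ∣ 2 := by
      apply ringChar.dvd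
      exact_mod_cast h
    have h3 : ringChar F = 2 := by
      rcases (Nat.dvd_prime Nat.prime_two).mp h1 with h4 | h4
      · exact absurd h4 CharP.ringChar_ne_one
      · exact h4
    have h5 := FiniteField.even_card_iff_char_two.mp h3
    have h6 := Nat.odd_iff.mp hodd
    omega
  refine ⟨lt_of_le_of_ne inf_le_right ?_, fun M hHM hMK => ?_⟩
  · intro heq
    obtain ⟨t, htS, htn⟩ := exists_not_sim (Q := toQF Q hQ) hQ' (by rw [hc]; omega)
    rw [← heq] at htS
    exact htn htS.1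
  · by_cases h : M = Cfsg.Geo.quadSimilarityGroup Q ⊓ Cfsg.Geo.specialLinear (Fin n) F
    · exact Or.inl h
    · exact Or.inr (main (Q := toQF Q hQ) hQ' h2 (by rw [hc]; exact hn) M hHM hMK h)


end Cfsg.Agent.S5644
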