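import Cfsg.Statements.S5648
import Mathlib
import Cfsg.Agent.Lib.Helper13.BlockWeightG
import Cfsg.Agent.Lib.Helper5.Symp

set_option autoImplicit false
open Cfsg

namespace Cfsg.Agent.S5648

open Cfsg.Agent.Lib.Helper13.BlockWeightG Cfsg.Agent.Lib.Helper5.Symp
open Matrix

variable {F : Type*} [Field F] {m t : ℕ}
  {D : Fin t → Submodule F (Fin m ⊕ Fin m → F)}

/-- Basis vectors of the adapted coordinates. -/
noncomputable def bv (C : Coords D 2) (k : Fin t × Fin 2) : Fin m ⊕ Fin m → F :=
  C.E.symm (Pi.single k 1)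

theorem bv_mem (C : Coords D 2) (k : Fin t × Fin 2) : bv C k ∈ D k.1 := by
  classical
  apply C.symm_mem
  intro k' hk'
  rw [Pi.single_apply, if_neg]
  rintro rfl
  exact hk' rfl

theorem E_bv (C : Coords D 2) (k : Fin t × Fin 2) : C.E (bv C k) = Pi.single k 1 :=
  LinearEquiv.apply_symm_apply _ _

theorem bv_ne_zero (C : Coords D 2) (k : Fin t × Fin 2) : bv C k ≠ 0 := by
  intro h
  have := E_bv C k
  rw [h, map_zero] at this
  have h2 := congrFun this k
  simp at h2

theorem expand (C : Coords D 2) (x : Fin m ⊕ Fin m → F) : x = ∑ k, C.E x k • bv C k := by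
  classical
  have h1 : C.E x = ∑ k, C.E x k • (Pi.single k (1 : F) : Fin t × Fin 2 → F) := by
    ext k'
    simp [Finset.sum_apply, Pi.single_apply]
  have h2 := congrArg C.E.symm h1
  rw [LinearEquiv.symm_apply_apply, map_sum] at h2
  simp only [map_smul] at h2
  exact h2

/-- The form as a linear map in the first variable. -/
noncomputable def fL (w : Fin m ⊕ Fin m → F) : (Fin m ⊕ Fin m → F) →ₗ[F] F where
  toFun x := Cfsg.sympForm m F x w
  map_add' x y := sympForm_add_left m x y w
  map_smul' c x := by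
    simp only [RingHom.id_apply, smul_eq_mul]
    exact sympForm_smul_left m c x w

/-- The form as a linear map in the second variable. -/
noncomputable def fR (x : Fin m ⊕ Fin m → F) : (Fin m ⊕ Fin m → F) →ₗ[F] F where
  toFun w := Cfsg.sympForm m F x w
  map_add' w w' := sympForm_add_right m x w w'
  map_smul' c w := by
    simp only [RingHom.id_apply, smul_eq_mul]
    exact sympForm_smul_right m c x w

theorem form_expand (C : Coords D 2) (x w : Fin m ⊕ Fin m → F) :
    Cfsg.sympForm m F x w = ∑ k, C.E x k * Cfsg.sympForm m F (bv C k) w := by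
  have h1 : fL w x = fL w (∑ k, C.E x k • bv C k) := by rw [← expand C x]
  rw [map_sum] at h1
  simp only [map_smul, smul_eq_mul] at h1
  exact h1

theorem gram [Fintype F] (hq : Fintype.card F = 2)
    (hD : Cfsg.Geo.IsNondegenerateMDecomposition (Cfsg.sympForm m F) 2 D) (C : Coords D 2)
    (i : Fin t) (k : Fin t × Fin 2) :
    Cfsg.sympForm m F (bv C k) (bv C (i, 0)) = if k = (i, 1) then 1 else 0 := by
  classical
  by_cases hk1 : k.1 = i
  · obtain ⟨j, a⟩ := k
    simp only at hk1
    subst hk1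
    rcases (show a = 0 ∨ a = 1 by fin_cases a <;> simp) with rfl | rfl
    · rw [if_neg (by simp)]
      exact sympForm_self m _
    · rw [if_pos rfl]
      obtain ⟨⟨x, hx, hxw⟩, -⟩ := hD.nondegenerate j (bv C (j, 0)) (bv_mem C (j, 0)) (bv_ne_zero C _)
      rw [form_expand C x] at hxw
      rw [Finset.sum_eq_single (j, 1)] at hxw
      · have h3 : Cfsg.sympForm m F (bv C (j, 1)) (bv C (j, 0)) ≠ 0 := by
          intro h0
          apply hxw
          rw [h0, mul_zero]
        rcases zero_or_one hq (Cfsg.sympForm m F (bv C (j, 1)) (bv C (j, 0))) with h | h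
        · exact absurd h h3
        · exact h
      · rintro ⟨j', a'⟩ _ hne
        by_cases hj : j' = j
        · subst hj
          have ha' : a' = 0 := by
            fin_cases a'
            · rfl
            · exact absurd rfl hne
          subst ha'
          rw [sympForm_self, mul_zero]
        · rw [C.mem_ne (fun h => hj h.symm) hx a', zero_mul]
      · intro h; exact absurd (Finset.mem_univ _) h
  · rw [if_neg (fun h => hk1 (by rw [h]))]
    exact hD.orthogonal k.1 i hk1 _ (bv_mem C k) _ (bv_mem C (i, 0))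

theorem symm_vI (C : Coords D 2) (I : Finset (Fin t)) :
    C.E.symm (vI I 0) = ∑ i ∈ I, bv C (i, 0) := by
  classical
  have h1 : (vI I (0 : Fin 2) : Fin t × Fin 2 → F) = ∑ i ∈ I, Pi.single (i, (0 : Fin 2)) (1 : F) := by
    ext k
    obtain ⟨j, a⟩ := k
    simp only [vI, Finset.sum_apply, Pi.single_apply, Prod.mk.injEq]
    by_cases hj : j ∈ I
    · by_cases ha : a = 0
      · simp [hj, ha]
      · simp [hj, ha]
    · have : ∀ i ∈ I, ¬ (j = i ∧ a = 0) := fun i hi h => hj (h.1 ▸ hi)
      rw [Finset.sum_congr rfl (fun i hi => if_neg (this i hi))]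
      simp [hj]
  rw [h1, map_sum]
  rfl

theorem form_vI [Fintype F] (hq : Fintype.card F = 2)
    (hD : Cfsg.Geo.IsNondegenerateMDecomposition (Cfsg.sympForm m F) 2 D) (C : Coords D 2)
    (I : Finset (Fin t)) (x : Fin m ⊕ Fin m → F) :
    Cfsg.sympForm m F x (C.E.symm (vI I 0)) = vI I 1 ⬝ᵥ C.E x := by
  classical
  rw [symm_vI, vI_dot]
  have h1 : fR x (∑ i ∈ I, bv C (i, 0)) = ∑ i ∈ I, fR x (bv C (i, 0)) := map_sum _ _ _
  have h2 : Cfsg.sympForm m F x (∑ i ∈ I, bv C (i, 0)) = ∑ i ∈ I, Cfsg.sympForm m F x (bv C (i, 0)) := h1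
  rw [h2]
  apply Finset.sum_congr rfl
  intro i _
  rw [form_expand C x]
  simp only [gram hq hD C i]
  simp

/-- The symplectic transvection as an element of `GL`. -/
noncomputable def tv (v : Fin m ⊕ Fin m → F) : GL (Fin m ⊕ Fin m) F :=
  Matrix.GeneralLinearGroup.mkOfDetNeZero (Cfsg.sympTransvection m v 1)
    (SymplecticGroup.symplectic_det (sympTransvection_mem m v 1)).ne_zero

theorem tv_mem (v : Fin m ⊕ Fin m → F) : tv v ∈ Cfsg.spGL m F := by
  intro u w
  exact sympForm_mulVec_of_mem m (sympTransvection_mem m v 1) u w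

theorem tv_mulVec (v x : Fin m ⊕ Fin m → F) :
    ((tv v : GL (Fin m ⊕ Fin m) F) : Matrix (Fin m ⊕ Fin m) (Fin m ⊕ Fin m) F) *ᵥ x
      = x + Cfsg.sympForm m F x v • v := by
  show Cfsg.sympTransvection m v 1 *ᵥ x = _
  rw [sympTransvection_mulVec, one_mul]

theorem E_tv [Fintype F] (hq : Fintype.card F = 2)
    (hD : Cfsg.Geo.IsNondegenerateMDecomposition (Cfsg.sympForm m F) 2 D) (C : Coords D 2)
    (I : Finset (Fin t)) (x : Fin m ⊕ Fin m → F) :
    C.E (((tv (C.E.symm (vI I 0)) : GL (Fin m ⊕ Fin m) F) :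
        Matrix (Fin m ⊕ Fin m) (Fin m ⊕ Fin m) F) *ᵥ x)
      = ro (vI I 0) (vI I 1) *ᵥ C.E x := by
  rw [tv_mulVec, map_add, map_smul, LinearEquiv.apply_symm_apply, form_vI hq hD C, ro_mulVec]

/-- Over the field with 2 elements and for m ≥ 7, let D be a decomposition of F^(2m) into t pairwise orthogonal non-degenerate 2-dimensional subspaces for the standard alternating form (t = m ≥ 2). Then the elements of Sp_2m(2) permuting the members of D form a subgroup that is not maximal: some subgroup lies strictly between it and Sp_2m(2). -/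
theorem result {F : Type*} [Field F] [Fintype F] (m : ℕ) (hm : 7 ≤ m) (hq : Fintype.card F = 2) {t : ℕ} (D : Fin t → Submodule F (Fin m ⊕ Fin m → F)) (hD : Cfsg.Geo.IsNondegenerateMDecomposition (Cfsg.sympForm m F) 2 D) : ∃ K : Subgroup (Matrix.GeneralLinearGroup (Fin m ⊕ Fin m) F), Cfsg.Geo.decompositionStabilizer D ⊓ Cfsg.spGL m F < K ∧ K < Cfsg.spGL m F := by
  classical
  obtain ⟨C⟩ := exists_coords D hD.decomp.indep hD.decomp.iSup_eq_top hD.decomp.finrank_eq
  have hcard := card_eq C
  simp only [Fintype.card_sum, Fintype.card_fin] at hcard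
  have h2 := two_eq_zero hq
  obtain ⟨I, -, hI⟩ := Finset.exists_subset_card_eq (s := (Finset.univ : Finset (Fin t))) (n := 3)
    (by simp; omega)
  obtain ⟨I', -, hI'⟩ := Finset.exists_subset_card_eq (s := (Finset.univ : Finset (Fin t))) (n := 2)
    (by simp; omega)
  obtain ⟨a, ha, b, hb, c, hc, hab, hac, hbc⟩ :=
    Finset.two_lt_card.mp (by rw [hI]; norm_num : 2 < I.card)
  obtain ⟨a', ha'⟩ : ∃ a', a' ∈ I' := Finset.card_pos.mp (by rw [hI']; norm_num)
  refine criterion C (Cfsg.spGL m F) (tv (C.E.symm (vI I 0))) (tv (C.E.symm (vI I' 0)))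
    (tv_mem _) ?_ ?_ (tv_mem _) (bv C (a', 1)) ?_
  · intro x
    rw [E_tv hq hD C, N_ro_two hq I hI]
  · have hcol : C.E (((tv (C.E.symm (vI I 0)) : GL (Fin m ⊕ Fin m) F) :
        Matrix (Fin m ⊕ Fin m) (Fin m ⊕ Fin m) F) *ᵥ bv C (a, 1))
          = (Pi.single (a, (1 : Fin 2)) (1 : F) + vI I 0 : Fin t × Fin 2 → F) := by
      rw [E_tv hq hD C, E_bv, ro_mulVec]
      have e2 : (vI I (1 : Fin 2) ⬝ᵥ Pi.single (a, (1 : Fin 2)) (1 : F)) = 1 := by
        simp [vI, ha]
      rw [e2, one_smul]
    apply not_stab C _ a (bv C (a, 1)) (bv_mem C (a, 1)) (b, 0) (c, 0) hbc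
    · rw [hcol]
      simp [vI, hb, hab.symm]
    · rw [hcol]
      simp [vI, hc, hac.symm]
  · rw [E_tv hq hD C, E_bv, N_ro_two_gen hq, N_single, hI']
    have e : ∑ j ∈ I', (Pi.single (a', (1 : Fin 2)) (1 : F) : Fin t × Fin 2 → F) (j, 1) = 1 := by
      rw [Finset.sum_eq_single a']
      · simp
      · intro j _ hj
        simp [Pi.single_apply, hj]
      · intro h; exact absurd ha' h
    rw [e]
    intro h
    have h0 : (1 : F) = 0 := by
      push_cast at h
      linear_combination (-1 : F) * h + 2 * h2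
    exact one_ne_zero h0

end Cfsg.Agent.S5648
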