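import Cfsg.Statements.S5649
import Mathlib
import Cfsg.Agent.S5631
import Cfsg.Agent.S5645
import Cfsg.Agent.S5646
import Cfsg.Agent.S5647
import Cfsg.Agent.S5652

set_option autoImplicit false
open Cfsg

namespace Cfsg.Agent.S5649

open Matrix
open Cfsg.Agent.S5631 Cfsg.Agent.S5645 Cfsg.Agent.S5646

variable {ι : Type} [Fintype ι] [DecidableEq ι] {F : Type*} [Field F]
variable {f : (ι → F) → (ι → F) → F}

/-- the isometry `x ↦ x + f(x,u) v + f(x,v) u` (for `f u v = 0`) -/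
def E (hf : IsAlt f) (u v : ι → F) : GL ι F :=
  sT hf (u + v) 1 * sT hf u (-1) * sT hf v (-1)

theorem E_mem (hf : IsAlt f) (u v : ι → F) :
    E hf u v ∈ Cfsg.preserving (Cfsg.glToMat ι F) f :=
  Subgroup.mul_mem _ (Subgroup.mul_mem _ (sT_mem hf _ _) (sT_mem hf _ _)) (sT_mem hf _ _)

theorem E_mulVec (hf : IsAlt f) (u v : ι → F) (huv : f u v = 0) (x : ι → F) :
    ((E hf u v : GL ι F) : Matrix ι ι F) *ᵥ x = x + f x u • v + f x v • u := by
  have hvu : f v u = 0 := by rw [hf.swap, huv, neg_zero]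
  rw [E, Units.val_mul, Units.val_mul, ← Matrix.mulVec_mulVec, ← Matrix.mulVec_mulVec,
    sT_mulVec, sT_mulVec, sT_mulVec]
  simp only [hf.add_left, hf.add_right, hf.smul_left, hf.smul_right, hf.self, huv, hvu]
  module

theorem E_conj (hf : IsAlt f) (k : GL ι F) (hk : k ∈ Cfsg.preserving (Cfsg.glToMat ι F) f)
    (u v : ι → F) :
    E hf ((k : Matrix ι ι F) *ᵥ u) ((k : Matrix ι ι F) *ᵥ v) = k * E hf u v * k⁻¹ := by
  rw [E, ← Matrix.mulVec_add, conj_sT hf k hk, conj_sT hf k hk, conj_sT hf k hk, E]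
  group

/-- Heisenberg commutator -/
theorem E_comm (hf : IsAlt f) (a x y : ι → F) (hx : f a x = 0) (hy : f a y = 0) :
    E hf a x * E hf a y = E hf a y * E hf a x * sT hf a (2 * f y x) := by
  apply gl_ext
  intro z
  have hx' : f x a = 0 := by rw [hf.swap, hx, neg_zero]
  have hy' : f y a = 0 := by rw [hf.swap, hy, neg_zero]
  rw [Units.val_mul, Units.val_mul, Units.val_mul, ← Matrix.mulVec_mulVec,
    ← Matrix.mulVec_mulVec, ← Matrix.mulVec_mulVec, sT_mulVec, E_mulVec hf a x hx,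
    E_mulVec hf a y hy, E_mulVec hf a x hx, E_mulVec hf a y hy]
  simp only [hf.add_left, hf.add_right, hf.smul_left, hf.smul_right, hf.self, hx, hy, hx', hy']
  rw [hf.swap x y]
  module

/-- a pair of complementary totally isotropic subspaces -/
structure Pair (f : (ι → F) → (ι → F) → F) (A B : Submodule F (ι → F)) : Prop where
  tiA : ∀ u ∈ A, ∀ v ∈ A, f u v = 0
  tiB : ∀ u ∈ B, ∀ v ∈ B, f u v = 0
  disj : ∀ x ∈ A, x ∈ B → x = 0
  sum : ∀ x, ∃ a ∈ A, ∃ b ∈ B, x = a + b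
  dimA : 3 < Module.finrank F A
  dimB : 3 < Module.finrank F B

theorem Pair.symm {A B : Submodule F (ι → F)} (h : Pair f A B) : Pair f B A :=
  ⟨h.tiB, h.tiA, fun x hx hx' => h.disj x hx' hx, fun x => by
    obtain ⟨a, ha, b, hb, e⟩ := h.sum x
    exact ⟨b, hb, a, ha, by rw [e, add_comm]⟩, h.dimB, h.dimA⟩

theorem Pair.self_perp (hf : IsAlt f) {A B : Submodule F (ι → F)} (h : Pair f A B) (y : ι → F)
    (hy : ∀ a ∈ A, f a y = 0) : y ∈ A := by
  obtain ⟨a', ha', b', hb', e⟩ := h.sum y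
  have hb0 : b' = 0 := by
    apply hf.nondeg
    intro x
    obtain ⟨xa, hxa, xb, hxb, ex⟩ := h.sum x
    have h1 : f xa b' = 0 := by
      have h2 := hy xa hxa
      rw [e, hf.add_right, h.tiA xa hxa a' ha', zero_add] at h2
      exact h2
    rw [ex, hf.add_right, hf.swap b' xa, h1, h.tiB b' hb' xb hxb, neg_zero, add_zero]
  rw [e, hb0, add_zero]
  exact ha'

theorem Pair.exists_pair (hf : IsAlt f) {A B : Submodule F (ι → F)} (h : Pair f A B) (a : ι → F)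
    (ha : a ∈ A) (ha0 : a ≠ 0) : ∃ b ∈ B, f a b ≠ 0 := by
  obtain ⟨y, hy⟩ : ∃ y, f a y ≠ 0 := by
    by_contra hcon
    push Not at hcon
    exact ha0 (hf.nondeg a hcon)
  obtain ⟨ya, hya, yb, hyb, e⟩ := h.sum y
  refine ⟨yb, hyb, ?_⟩
  rw [e, hf.add_right, h.tiA a ha ya hya, zero_add] at hy
  exact hy

theorem exists_orth3 (hf : IsAlt f) (A : Submodule F (ι → F)) (hA : 3 < Module.finrank F A)
    (x1 x2 x3 : ι → F) : ∃ a ∈ A, a ≠ 0 ∧ f a x1 = 0 ∧ f a x2 = 0 ∧ f a x3 = 0 := by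
  let φ : A →ₗ[F] (Fin 3 → F) :=
    { toFun := fun a => ![f (a : ι → F) x1, f (a : ι → F) x2, f (a : ι → F) x3]
      map_add' := fun a b => by
        ext i
        fin_cases i <;> simp [hf.add_left]
      map_smul' := fun c a => by
        ext i
        fin_cases i <;> simp [hf.smul_left] }
  have hlt : Module.finrank F (Fin 3 → F) < Module.finrank F A := by
    rw [Module.finrank_fin_fun]
    exact hA
  have hker := LinearMap.ker_ne_bot_of_finrank_lt (f := φ) hlt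
  obtain ⟨a, ha, ha0⟩ := (Submodule.ne_bot_iff _).mp hker
  have hφ : φ a = 0 := LinearMap.mem_ker.mp ha
  refine ⟨a, a.2, fun h0 => ha0 (Subtype.ext h0), ?_, ?_, ?_⟩
  · exact congrFun hφ 0
  · exact congrFun hφ 1
  · exact congrFun hφ 2

section Core

variable (hf : IsAlt f) {A B : Submodule F (ι → F)} (K : Subgroup (GL ι F))

theorem E_mem_K (h : Pair f A B)
    (hK : ∀ g ∈ Cfsg.preserving (Cfsg.glToMat ι F) f,
      (∀ x ∈ A, (g : Matrix ι ι F) *ᵥ x ∈ A) → (∀ x ∈ B, (g : Matrix ι ι F) *ᵥ x ∈ B) → g ∈ K)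
    (a b : ι → F) (ha : a ∈ A) (hb : b ∈ B) (hab : f a b = 0) : E hf a b ∈ K := by
  apply hK _ (E_mem hf a b)
  · intro x hx
    rw [E_mulVec hf a b hab, h.tiA x hx a ha, zero_smul, add_zero]
    exact A.add_mem hx (A.smul_mem _ ha)
  · intro x hx
    rw [E_mulVec hf a b hab, h.tiB x hx b hb, zero_smul, add_zero]
    exact B.add_mem hx (B.smul_mem _ hb)

/-- the key extraction of a transvection -/
theorem caseI (h2 : (2 : F) ≠ 0) (h : Pair f A B)
    (hK : ∀ g ∈ Cfsg.preserving (Cfsg.glToMat ι F) f,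
      (∀ x ∈ A, (g : Matrix ι ι F) *ᵥ x ∈ A) → (∀ x ∈ B, (g : Matrix ι ι F) *ᵥ x ∈ B) → g ∈ K)
    (k : GL ι F) (hkK : k ∈ K) (hkG : k ∈ Cfsg.preserving (Cfsg.glToMat ι F) f)
    (a b : ι → F) (ha : a ∈ A) (hb : b ∈ B) (hab : f a b = 0)
    (hu : (k : Matrix ι ι F) *ᵥ a ∉ B) (hv : (k : Matrix ι ι F) *ᵥ b ∉ B) :
    ∃ a0 ∈ A, a0 ≠ 0 ∧ ∃ c0 : F, c0 ≠ 0 ∧ sT hf a0 c0 ∈ K := by
  obtain ⟨u, hu_def⟩ : ∃ u, u = (k : Matrix ι ι F) *ᵥ a := ⟨_, rfl⟩
  obtain ⟨v, hv_def⟩ : ∃ v, v = (k : Matrix ι ι F) *ᵥ b := ⟨_, rfl⟩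
  rw [← hu_def] at hu
  rw [← hv_def] at hv
  have huv : f u v = 0 := by
    rw [hu_def, hv_def, (mem_G k).mp hkG]
    exact hab
  have hT : E hf u v ∈ K := by
    rw [hu_def, hv_def, E_conj hf k hkG]
    exact K.mul_mem (K.mul_mem hkK (E_mem_K hf K h hK a b ha hb hab)) (K.inv_mem hkK)
  obtain ⟨b1, hb1, hb1u⟩ : ∃ b1 ∈ B, f b1 u ≠ 0 := by
    by_contra hcon
    push Not at hcon
    exact hu (h.symm.self_perp hf u hcon)
  obtain ⟨b2, hb2, hb2v⟩ : ∃ b2 ∈ B, f b2 v ≠ 0 := by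
    by_contra hcon
    push Not at hcon
    exact hv (h.symm.self_perp hf v hcon)
  obtain ⟨b0, hb0, hb0u, hb0v⟩ : ∃ b0 ∈ B, f b0 u ≠ 0 ∧ f b0 v ≠ 0 := by
    by_cases h1 : f b1 v = 0
    · by_cases h3 : f b2 u = 0
      · refine ⟨b1 + b2, B.add_mem hb1 hb2, ?_, ?_⟩
        · rw [hf.add_left, h3, add_zero]
          exact hb1u
        · rw [hf.add_left, h1, zero_add]
          exact hb2v
      · exact ⟨b2, hb2, h3, hb2v⟩
    · exact ⟨b1, hb1, hb1u, h1⟩
  obtain ⟨a0, ha0, ha00, hab0, ha0u, ha0v⟩ := exists_orth3 hf A h.dimA b0 u v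
  have hX1 : E hf a0 b0 ∈ K := E_mem_K hf K h hK a0 b0 ha0 hb0 hab0
  have hTa0 : ((E hf u v : GL ι F) : Matrix ι ι F) *ᵥ a0 = a0 := by
    rw [E_mulVec hf u v huv, ha0u, ha0v, zero_smul, zero_smul, add_zero, add_zero]
  obtain ⟨y, hy_def⟩ : ∃ y, y = ((E hf u v : GL ι F) : Matrix ι ι F) *ᵥ b0 := ⟨_, rfl⟩
  have hy_eq : y = b0 + f b0 u • v + f b0 v • u := by rw [hy_def, E_mulVec hf u v huv]
  have hX2 : E hf a0 y ∈ K := by
    have e := E_conj hf (E hf u v) (E_mem hf u v) a0 b0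
    rw [hTa0, ← hy_def] at e
    rw [e]
    exact K.mul_mem (K.mul_mem hT hX1) (K.inv_mem hT)
  have hay : f a0 y = 0 := by
    rw [hy_eq, hf.add_right, hf.add_right, hf.smul_right, hf.smul_right, hab0, ha0u, ha0v]
    ring
  have hyb : f y b0 = -(2 * (f b0 u * f b0 v)) := by
    rw [hy_eq, hf.add_left, hf.add_left, hf.smul_left, hf.smul_left, hf.self, hf.swap v b0,
      hf.swap u b0]
    ring
  have hcomm := E_comm hf a0 b0 y hab0 hay
  refine ⟨a0, ha0, ha00, 2 * f y b0, ?_, ?_⟩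
  · rw [hyb]
    exact mul_ne_zero h2 (neg_ne_zero.mpr (mul_ne_zero h2 (mul_ne_zero hb0u hb0v)))
  · have e : sT hf a0 (2 * f y b0) = (E hf a0 y * E hf a0 b0)⁻¹ * (E hf a0 b0 * E hf a0 y) := by
      rw [hcomm]
      group
    rw [e]
    exact K.mul_mem (K.inv_mem (K.mul_mem hX2 hX1)) (K.mul_mem hX1 hX2)

end Core

section Core2

variable (hf : IsAlt f) {A B : Submodule F (ι → F)} (K : Subgroup (GL ι F))

theorem move (h : Pair f A B)
    (hK : ∀ g ∈ Cfsg.preserving (Cfsg.glToMat ι F) f,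
      (∀ x ∈ A, (g : Matrix ι ι F) *ᵥ x ∈ A) → (∀ x ∈ B, (g : Matrix ι ι F) *ᵥ x ∈ B) → g ∈ K)
    (c0 : F) (a0 a : ι → F) (ha0 : a0 ∈ A) (ha : a ∈ A) (h0 : a0 ≠ 0)
    (hne : ∀ lam : F, a ≠ lam • a0) (hP : sT hf a0 c0 ∈ K) : sT hf a c0 ∈ K := by
  have hnot : a0 ∉ B ⊔ Submodule.span F {a - a0} := by
    intro hmem
    obtain ⟨b', hb', z, hz, e⟩ := Submodule.mem_sup.mp hmem
    obtain ⟨μ, rfl⟩ := Submodule.mem_span_singleton.mp hz
    have hb'A : b' ∈ A := by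
      have e2 : b' = a0 - μ • (a - a0) := by
        rw [eq_sub_iff_add_eq]
        exact e
      rw [e2]
      exact A.sub_mem ha0 (A.smul_mem _ (A.sub_mem ha ha0))
    have hb0 := h.disj b' hb'A hb'
    rw [hb0, zero_add] at e
    by_cases hμ : μ = 0
    · rw [hμ, zero_smul] at e
      exact h0 e.symm
    · apply hne ((1 + μ) / μ)
      have e2 : μ • a = (1 + μ) • a0 := by
        calc μ • a = μ • (a - a0) + μ • a0 := by
              rw [smul_sub]
              abel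
          _ = a0 + μ • a0 := by rw [e]
          _ = (1 + μ) • a0 := by rw [add_smul, one_smul]
      calc a = μ⁻¹ • (μ • a) := by rw [smul_smul, inv_mul_cancel₀ hμ, one_smul]
        _ = ((1 + μ) / μ) • a0 := by
          rw [e2, smul_smul]
          congr 1
          field_simp
  obtain ⟨y, hy0, hy1⟩ := hf.exists_perp _ a0 hnot
  have hyB : y ∈ B := h.symm.self_perp hf y (fun b hb => hy0 b (Submodule.mem_sup_left hb))
  have hd : f (a - a0) y = 0 :=
    hy0 _ (Submodule.mem_sup_right (Submodule.mem_span_singleton_self _))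
  have hE := E_mem_K hf K h hK (a - a0) y (A.sub_mem ha ha0) hyB hd
  have e : ((E hf (a - a0) y : GL ι F) : Matrix ι ι F) *ᵥ a0 = a := by
    rw [E_mulVec hf _ _ hd, h.tiA a0 ha0 _ (A.sub_mem ha ha0), zero_smul, add_zero, hy1, one_smul]
    abel
  rw [← e, conj_sT hf _ (E_mem hf _ _)]
  exact K.mul_mem (K.mul_mem hE hP) (K.inv_mem hE)

theorem allA (h2 : (2 : F) ≠ 0) (h : Pair f A B)
    (hK : ∀ g ∈ Cfsg.preserving (Cfsg.glToMat ι F) f,
      (∀ x ∈ A, (g : Matrix ι ι F) *ᵥ x ∈ A) → (∀ x ∈ B, (g : Matrix ι ι F) *ᵥ x ∈ B) → g ∈ K)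
    (c0 : F) (hc0 : c0 ≠ 0) (a0 : ι → F) (ha0 : a0 ∈ A) (h0 : a0 ≠ 0) (hP : sT hf a0 c0 ∈ K) :
    ∀ a ∈ A, ∀ c, sT hf a c ∈ K := by
  obtain ⟨b1, hb1, hab1⟩ := h.exists_pair hf a0 ha0 h0
  obtain ⟨a2, ha2, ha20, ha2b, -, -⟩ := exists_orth3 hf A h.dimA b1 b1 b1
  have hP2 : sT hf a2 c0 ∈ K := by
    apply move hf K h hK c0 a0 a2 ha0 ha2 h0 _ hP
    intro lam e
    rw [e, hf.smul_left] at ha2b
    rcases mul_eq_zero.mp ha2b with h1 | h1
    · rw [h1, zero_smul] at e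
      exact ha20 e
    · exact hab1 h1
  have hstep : ∀ a ∈ A, sT hf a c0 ∈ K := by
    intro a ha
    by_cases ha00 : a = 0
    · rw [ha00, Cfsg.Agent.S5652.sT_zero_left]
      exact K.one_mem
    by_cases hc : ∀ lam : F, a ≠ lam • a0
    · exact move hf K h hK c0 a0 a ha0 ha h0 hc hP
    · push Not at hc
      obtain ⟨lam, rfl⟩ := hc
      apply move hf K h hK c0 a2 _ ha2 ha ha20 _ hP2
      intro μ e
      have e2 := congrArg (fun z => f z b1) e
      simp only [hf.smul_left, ha2b, mul_zero] at e2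
      rcases mul_eq_zero.mp e2 with h1 | h1
      · apply ha00
        rw [h1, zero_smul]
      · exact hab1 h1
  intro a ha c
  have key : ∀ lam : F, sT hf a (lam * lam * c0) ∈ K := by
    intro lam
    rw [← smul_sT]
    exact hstep _ (A.smul_mem _ ha)
  have hinv : ∀ e : F, sT hf a (-e) = (sT hf a e)⁻¹ := by
    intro e
    apply eq_inv_of_mul_eq_one_left
    rw [← Cfsg.Agent.S5652.sT_add, neg_add_cancel, Cfsg.Agent.S5652.sT_zero]
  have e : c = ((c / c0 + 1) / 2) * ((c / c0 + 1) / 2) * c0 +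
      -(((c / c0 - 1) / 2) * ((c / c0 - 1) / 2) * c0) := by
    field_simp
    ring
  rw [e, Cfsg.Agent.S5652.sT_add, hinv]
  exact K.mul_mem (key _) (K.inv_mem (key _))

theorem all (h : Pair f A B)
    (hsw : ∃ s ∈ K, s ∈ Cfsg.preserving (Cfsg.glToMat ι F) f ∧
      (∀ x ∈ A, (s : Matrix ι ι F) *ᵥ x ∈ B) ∧ (∀ x ∈ B, (s : Matrix ι ι F) *ᵥ x ∈ A))
    (PA : ∀ a ∈ A, ∀ c, sT hf a c ∈ K) : ∀ y c, sT hf y c ∈ K := by
  obtain ⟨s, hsK, hsG, hsA, hsB⟩ := hsw
  have PB : ∀ b ∈ B, ∀ c, sT hf b c ∈ K := by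
    intro b hb c
    have h1 := PA _ (hsB b hb) c
    rw [conj_sT hf s hsG] at h1
    have h3 := K.mul_mem (K.mul_mem (K.inv_mem hsK) h1) hsK
    have e : s⁻¹ * (s * sT hf b c * s⁻¹) * s = sT hf b c := by group
    rw [e] at h3
    exact h3
  have hcl : ∀ a b : ι → F, (∀ c, sT hf a c ∈ K) → (∀ c, sT hf b c ∈ K) → f a b ≠ 0 →
      ∀ c, sT hf (a + b) c ∈ K := by
    intro a b hPa hPb hab c
    have hba : f b a ≠ 0 := by
      rw [hf.swap]
      exact neg_ne_zero.mpr hab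
    have e : ((sT hf a (f b a)⁻¹ : GL ι F) : Matrix ι ι F) *ᵥ b = a + b := by
      rw [sT_mulVec, inv_mul_cancel₀ hba, one_smul, add_comm]
    rw [← e, conj_sT hf _ (sT_mem hf _ _)]
    exact K.mul_mem (K.mul_mem (hPa _) (hPb c)) (K.inv_mem (hPa _))
  intro y
  obtain ⟨a, ha, b, hb, rfl⟩ := h.sum y
  by_cases hab : f a b = 0
  · by_cases ha0 : a = 0
    · rw [ha0, zero_add]
      exact PB b hb
    · obtain ⟨b', hb', hab'⟩ := h.exists_pair hf a ha ha0
      have h1 := hcl a b' (PA a ha) (PB b' hb') hab'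
      have h3 : f (a + b') (b - b') ≠ 0 := by
        rw [hf.add_left, hf.sub_right, hf.sub_right, hab, h.tiB b' hb' b hb, h.tiB b' hb' b' hb',
          zero_sub, sub_zero, add_zero]
        exact neg_ne_zero.mpr hab'
      have h4 := hcl (a + b') (b - b') h1 (PB _ (B.sub_mem hb hb')) h3
      have e : a + b' + (b - b') = a + b := by abel
      rw [e] at h4
      exact h4
  · exact hcl a b (PA a ha) (PB b hb) hab

end Core2

theorem main (hf : IsAlt f) (h2 : (2 : F) ≠ 0) {A B : Submodule F (ι → F)} (h : Pair f A B)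
    (K : Subgroup (GL ι F))
    (hK : ∀ g ∈ Cfsg.preserving (Cfsg.glToMat ι F) f,
      (∀ x ∈ A, (g : Matrix ι ι F) *ᵥ x ∈ A) → (∀ x ∈ B, (g : Matrix ι ι F) *ᵥ x ∈ B) → g ∈ K)
    (hsw : ∃ s ∈ K, s ∈ Cfsg.preserving (Cfsg.glToMat ι F) f ∧
      (∀ x ∈ A, (s : Matrix ι ι F) *ᵥ x ∈ B) ∧ (∀ x ∈ B, (s : Matrix ι ι F) *ᵥ x ∈ A))
    (g : GL ι F) (hgK : g ∈ K) (hgG : g ∈ Cfsg.preserving (Cfsg.glToMat ι F) f)
    (hg1 : ¬ ((∀ x ∈ A, (g : Matrix ι ι F) *ᵥ x ∈ A) ∧ (∀ x ∈ B, (g : Matrix ι ι F) *ᵥ x ∈ B)))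
    (hg2 : ¬ ((∀ x ∈ A, (g : Matrix ι ι F) *ᵥ x ∈ B) ∧ (∀ x ∈ B, (g : Matrix ι ι F) *ᵥ x ∈ A))) :
    ∀ y c, sT hf y c ∈ K := by
  have hK' : ∀ g ∈ Cfsg.preserving (Cfsg.glToMat ι F) f,
      (∀ x ∈ B, (g : Matrix ι ι F) *ᵥ x ∈ B) → (∀ x ∈ A, (g : Matrix ι ι F) *ᵥ x ∈ A) → g ∈ K :=
    fun g hg hB hA => hK g hg hA hB
  have hsw' : ∃ s ∈ K, s ∈ Cfsg.preserving (Cfsg.glToMat ι F) f ∧
      (∀ x ∈ B, (s : Matrix ι ι F) *ᵥ x ∈ A) ∧ (∀ x ∈ A, (s : Matrix ι ι F) *ᵥ x ∈ B) := by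
    obtain ⟨s, hsK, hsG, hsA, hsB⟩ := hsw
    exact ⟨s, hsK, hsG, hsB, hsA⟩
  by_cases hex1 : ∃ a ∈ A, ∃ b ∈ B, f a b = 0 ∧ (g : Matrix ι ι F) *ᵥ a ∉ B ∧
      (g : Matrix ι ι F) *ᵥ b ∉ B
  · obtain ⟨a, ha, b, hb, hab, hu, hv⟩ := hex1
    obtain ⟨a0, ha0, ha00, c0, hc0, hP⟩ := caseI hf K h2 h hK g hgK hgG a b ha hb hab hu hv
    exact all hf K h hsw (allA hf K h2 h hK c0 hc0 a0 ha0 ha00 hP)
  by_cases hex2 : ∃ a ∈ A, ∃ b ∈ B, f a b = 0 ∧ (g : Matrix ι ι F) *ᵥ a ∉ A ∧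
      (g : Matrix ι ι F) *ᵥ b ∉ A
  · obtain ⟨a, ha, b, hb, hab, hu, hv⟩ := hex2
    have hba : f b a = 0 := by rw [hf.swap, hab, neg_zero]
    obtain ⟨b0, hb0, hb00, c0, hc0, hP⟩ :=
      caseI hf K h2 h.symm hK' g hgK hgG b a hb ha hba hv hu
    exact all hf K h.symm hsw' (allA hf K h2 h.symm hK' c0 hc0 b0 hb0 hb00 hP)
  exfalso
  push Not at hex1 hex2
  have hinj : ∀ x, (g : Matrix ι ι F) *ᵥ x = 0 → x = 0 := by
    intro x hx
    have := gl_inv_mulVec g x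
    rw [hx, Matrix.mulVec_zero] at this
    exact this.symm
  have hA' : ∀ a ∈ A, (g : Matrix ι ι F) *ᵥ a ∈ A ∨ (g : Matrix ι ι F) *ᵥ a ∈ B := by
    intro a ha
    obtain ⟨b, hb, hb0, hba, -, -⟩ := exists_orth3 hf B h.dimB a a a
    have hab : f a b = 0 := by rw [hf.swap, hba, neg_zero]
    by_contra hcon
    push Not at hcon
    have h1 := hex1 a ha b hb hab hcon.2
    have h3 := hex2 a ha b hb hab hcon.1
    exact hb0 (hinj b (h.disj _ h3 h1))
  have hB' : ∀ b ∈ B, (g : Matrix ι ι F) *ᵥ b ∈ A ∨ (g : Matrix ι ι F) *ᵥ b ∈ B := by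
    intro b hb
    obtain ⟨a, ha, ha0, hab, -, -⟩ := exists_orth3 hf A h.dimA b b b
    by_contra hcon
    push Not at hcon
    have h1 : (g : Matrix ι ι F) *ᵥ a ∈ B := by
      by_contra h1
      exact hcon.2 (hex1 a ha b hb hab h1)
    have h3 : (g : Matrix ι ι F) *ᵥ a ∈ A := by
      by_contra h3
      exact hcon.1 (hex2 a ha b hb hab h3)
    exact ha0 (hinj a (h.disj _ h3 h1))
  obtain ⟨a, ha, ha0, -, -, -⟩ := exists_orth3 hf A h.dimA 0 0 0
  obtain ⟨b, hb, hb0, hba, -, -⟩ := exists_orth3 hf B h.dimB a a a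
  have hab : f a b = 0 := by rw [hf.swap, hba, neg_zero]
  have hA'' := le_or_le_of_union A (A.comap (Matrix.toLin' (g : Matrix ι ι F)))
    (B.comap (Matrix.toLin' (g : Matrix ι ι F)))
    (fun x hx => by
      rw [Submodule.mem_comap, Submodule.mem_comap, Matrix.toLin'_apply]
      exact hA' x hx)
  have hB'' := le_or_le_of_union B (A.comap (Matrix.toLin' (g : Matrix ι ι F)))
    (B.comap (Matrix.toLin' (g : Matrix ι ι F)))
    (fun x hx => by
      rw [Submodule.mem_comap, Submodule.mem_comap, Matrix.toLin'_apply]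
      exact hB' x hx)
  have cv : ∀ (S T : Submodule F (ι → F)), S ≤ T.comap (Matrix.toLin' (g : Matrix ι ι F)) →
      ∀ x ∈ S, (g : Matrix ι ι F) *ᵥ x ∈ T := by
    intro S T hST x hx
    have := hST hx
    rw [Submodule.mem_comap, Matrix.toLin'_apply] at this
    exact this
  rcases hA'' with hAA | hAB
  · rcases hB'' with hBA | hBB
    · -- g a ∈ A, g b ∈ A
      have h1 : (g : Matrix ι ι F) *ᵥ a ∉ B := fun h1 =>
        ha0 (hinj a (h.disj _ (cv A A hAA a ha) h1))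
      have h3 := hex1 a ha b hb hab h1
      exact hb0 (hinj b (h.disj _ (cv B A hBA b hb) h3))
    · exact hg1 ⟨cv A A hAA, cv B B hBB⟩
  · rcases hB'' with hBA | hBB
    · exact hg2 ⟨cv A B hAB, cv B A hBA⟩
    · have h1 : (g : Matrix ι ι F) *ᵥ a ∉ A := fun h1 =>
        ha0 (hinj a (h.disj _ h1 (cv A B hAB a ha)))
      have h3 := hex2 a ha b hb hab h1
      exact hb0 (hinj b (h.disj _ h3 (cv B B hBB b hb)))

section Swap

/-- the isometry swapping a hyperbolic pair -/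
def nE (hf : IsAlt f) (v w : ι → F) : GL ι F := sT hf v 1 * sT hf w 1 * sT hf v 1

theorem nE_mem (hf : IsAlt f) (v w : ι → F) :
    nE hf v w ∈ Cfsg.preserving (Cfsg.glToMat ι F) f :=
  Subgroup.mul_mem _ (Subgroup.mul_mem _ (sT_mem hf _ _) (sT_mem hf _ _)) (sT_mem hf _ _)

theorem nE_fix (hf : IsAlt f) (v w x : ι → F) (h1 : f x v = 0) (h2 : f x w = 0) :
    ((nE hf v w : GL ι F) : Matrix ι ι F) *ᵥ x = x := by
  have e1 : ((sT hf v 1 : GL ι F) : Matrix ι ι F) *ᵥ x = x := by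
    rw [sT_mulVec, h1, mul_zero, zero_smul, add_zero]
  have e2 : ((sT hf w 1 : GL ι F) : Matrix ι ι F) *ᵥ x = x := by
    rw [sT_mulVec, h2, mul_zero, zero_smul, add_zero]
  rw [nE, Units.val_mul, Units.val_mul, ← Matrix.mulVec_mulVec, ← Matrix.mulVec_mulVec, e1, e2,
    e1]

theorem nE_left (hf : IsAlt f) (v w : ι → F) (hvw : f v w = 1) :
    ((nE hf v w : GL ι F) : Matrix ι ι F) *ᵥ v = w := by
  have hwv : f w v = -1 := by rw [hf.swap, hvw]
  rw [nE, Units.val_mul, Units.val_mul, ← Matrix.mulVec_mulVec, ← Matrix.mulVec_mulVec,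
    sT_mulVec, sT_mulVec, sT_mulVec]
  simp only [hf.add_left, hf.smul_left, hf.self, hvw, hwv]
  module

theorem nE_right (hf : IsAlt f) (v w : ι → F) (hvw : f v w = 1) :
    ((nE hf v w : GL ι F) : Matrix ι ι F) *ᵥ w = -v := by
  have hwv : f w v = -1 := by rw [hf.swap, hvw]
  rw [nE, Units.val_mul, Units.val_mul, ← Matrix.mulVec_mulVec, ← Matrix.mulVec_mulVec,
    sT_mulVec, sT_mulVec, sT_mulVec]
  simp only [hf.add_left, hf.smul_left, hf.self, hvw, hwv]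
  module

theorem swap_exists (hf : IsAlt f) {A B : Submodule F (ι → F)} (h : Pair f A B) (m : ℕ)
    (hmA : Module.finrank F A = m) (hmB : Module.finrank F B = m) :
    ∃ s : GL ι F, s ∈ Cfsg.preserving (Cfsg.glToMat ι F) f ∧
      (∀ x ∈ A, (s : Matrix ι ι F) *ᵥ x ∈ B) ∧ (∀ x ∈ B, (s : Matrix ι ι F) *ᵥ x ∈ A) := by
  classical
  let b : Module.Basis (Fin m) F A := Module.finBasisOfFinrankEq F A hmA
  obtain ⟨v, hv_def⟩ : ∃ v : Fin m → ι → F, v = fun i => ((b i : A) : ι → F) := ⟨_, rfl⟩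
  have hvA : ∀ i, v i ∈ A := fun i => by
    rw [hv_def]
    exact (b i).2
  have hli : LinearIndependent F v := by
    have h1 := b.linearIndependent.map' A.subtype (Submodule.ker_subtype A)
    rw [hv_def]
    exact h1
  have hdual : ∀ j, ∃ w ∈ B, ∀ i, f (v i) w = if i = j then 1 else 0 := by
    intro j
    have hnot : v j ∉ B ⊔ Submodule.span F (v '' {i | i ≠ j}) := by
      intro hmem
      obtain ⟨b', hb', z, hz, e⟩ := Submodule.mem_sup.mp hmem
      have hzA : z ∈ A := by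
        refine (Submodule.span_le.mpr ?_) hz
        rintro _ ⟨i, -, rfl⟩
        exact hvA i
      have hb'A : b' ∈ A := by
        have e2 : b' = v j - z := by
          rw [eq_sub_iff_add_eq]
          exact e
        rw [e2]
        exact A.sub_mem (hvA j) hzA
      have hb0 := h.disj b' hb'A hb'
      rw [hb0, zero_add] at e
      rw [e] at hz
      exact hli.notMem_span_image (s := {i | i ≠ j}) (x := j) (by simp) hz
    obtain ⟨y, hy0, hy1⟩ := hf.exists_perp _ (v j) hnot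
    refine ⟨y, h.symm.self_perp hf y (fun b hb => hy0 b (Submodule.mem_sup_left hb)), fun i => ?_⟩
    by_cases hij : i = j
    · rw [if_pos hij, hij]
      exact hy1
    · rw [if_neg hij]
      exact hy0 _ (Submodule.mem_sup_right (Submodule.subset_span ⟨i, hij, rfl⟩))
  choose w hwB hw using hdual
  have hvw : ∀ i j, i ≠ j → f (v i) (w j) = 0 := fun i j hij => by rw [hw j i, if_neg hij]
  have hwv : ∀ i j, i ≠ j → f (w i) (v j) = 0 := fun i j hij => by
    rw [hf.swap, hvw j i (Ne.symm hij), neg_zero]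
  have hvv : ∀ i, f (v i) (w i) = 1 := fun i => by rw [hw i i, if_pos rfl]
  have hind : ∀ T : Finset (Fin m), ∃ s : GL ι F, s ∈ Cfsg.preserving (Cfsg.glToMat ι F) f ∧
      (∀ i ∈ T, (s : Matrix ι ι F) *ᵥ v i = w i ∧ (s : Matrix ι ι F) *ᵥ w i = - v i) ∧
      (∀ i, i ∉ T → (s : Matrix ι ι F) *ᵥ v i = v i ∧ (s : Matrix ι ι F) *ᵥ w i = w i) := by
    intro T
    induction T using Finset.induction_on with
    | empty =>
      refine ⟨1, Subgroup.one_mem _, fun i hi => absurd hi (Finset.notMem_empty i), fun i _ => ?_⟩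
      rw [Units.val_one, Matrix.one_mulVec, Matrix.one_mulVec]
      exact ⟨rfl, rfl⟩
    | insert j T hj ih =>
      obtain ⟨s, hsG, hs1, hs2⟩ := ih
      refine ⟨nE hf (v j) (w j) * s, Subgroup.mul_mem _ (nE_mem hf _ _) hsG, ?_, ?_⟩
      · intro i hi
        rw [Units.val_mul, ← Matrix.mulVec_mulVec, ← Matrix.mulVec_mulVec]
        rcases Finset.mem_insert.mp hi with hij | hiT
        · rw [hij, (hs2 j hj).1, (hs2 j hj).2]
          exact ⟨nE_left hf _ _ (hvv j), nE_right hf _ _ (hvv j)⟩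
        · have hij : i ≠ j := fun e => hj (e ▸ hiT)
          rw [(hs1 i hiT).1, (hs1 i hiT).2, Matrix.mulVec_neg]
          refine ⟨nE_fix hf _ _ _ (hwv i j hij) (h.tiB _ (hwB i) _ (hwB j)), ?_⟩
          rw [nE_fix hf _ _ _ (h.tiA _ (hvA i) _ (hvA j)) (hvw i j hij)]
      · intro i hi
        have hij : i ≠ j := fun e => hi (e ▸ Finset.mem_insert_self j T)
        have hiT : i ∉ T := fun e => hi (Finset.mem_insert_of_mem e)
        rw [Units.val_mul, ← Matrix.mulVec_mulVec, ← Matrix.mulVec_mulVec, (hs2 i hiT).1,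
          (hs2 i hiT).2]
        exact ⟨nE_fix hf _ _ _ (h.tiA _ (hvA i) _ (hvA j)) (hvw i j hij),
          nE_fix hf _ _ _ (hwv i j hij) (h.tiB _ (hwB i) _ (hwB j))⟩
  obtain ⟨s, hsG, hs1, -⟩ := hind Finset.univ
  have key1 : ∀ x ∈ A, (s : Matrix ι ι F) *ᵥ x ∈ B := by
    intro x hx
    let T : Submodule F A := (B.comap (Matrix.toLin' (s : Matrix ι ι F))).comap A.subtype
    have hT : Submodule.span F (Set.range b) ≤ T := by
      rw [Submodule.span_le]
      rintro _ ⟨i, rfl⟩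
      show Matrix.toLin' (s : Matrix ι ι F) (A.subtype (b i)) ∈ B
      rw [Matrix.toLin'_apply]
      have h1 := (hs1 i (Finset.mem_univ i)).1
      rw [hv_def] at h1
      have h3 : (s : Matrix ι ι F) *ᵥ (A.subtype (b i)) = w i := h1
      rw [h3]
      exact hwB i
    have h4 : (⟨x, hx⟩ : A) ∈ T := hT (b.mem_span _)
    have h5 : Matrix.toLin' (s : Matrix ι ι F) x ∈ B := h4
    rw [Matrix.toLin'_apply] at h5
    exact h5
  have key2 : ∀ x ∈ A, (s : Matrix ι ι F) *ᵥ ((s : Matrix ι ι F) *ᵥ x) ∈ A := by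
    intro x hx
    let T : Submodule F A := (A.comap (Matrix.toLin' ((s * s : GL ι F) : Matrix ι ι F))).comap
      A.subtype
    have hT : Submodule.span F (Set.range b) ≤ T := by
      rw [Submodule.span_le]
      rintro _ ⟨i, rfl⟩
      show Matrix.toLin' ((s * s : GL ι F) : Matrix ι ι F) (A.subtype (b i)) ∈ A
      rw [Matrix.toLin'_apply, Units.val_mul, ← Matrix.mulVec_mulVec]
      have h1 := (hs1 i (Finset.mem_univ i)).1
      have h1' := (hs1 i (Finset.mem_univ i)).2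
      have h3 : (s : Matrix ι ι F) *ᵥ (A.subtype (b i)) = w i := by
        rw [hv_def] at h1
        exact h1
      rw [h3, h1']
      exact A.neg_mem (hvA i)
    have h4 : (⟨x, hx⟩ : A) ∈ T := hT (b.mem_span _)
    have h5 : Matrix.toLin' ((s * s : GL ι F) : Matrix ι ι F) x ∈ A := h4
    rw [Matrix.toLin'_apply, Units.val_mul, ← Matrix.mulVec_mulVec] at h5
    exact h5
  refine ⟨s, hsG, key1, ?_⟩
  have hmap : A.map (glEquiv s : (ι → F) →ₗ[F] (ι → F)) = B := by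
    apply Submodule.eq_of_le_of_finrank_eq
    · rintro _ ⟨x, hx, rfl⟩
      exact key1 x hx
    · rw [LinearEquiv.finrank_map_eq (glEquiv s) A, hmA, hmB]
  intro y hy
  rw [← hmap] at hy
  obtain ⟨x, hx, rfl⟩ := hy
  exact key2 x hx

end Swap

/-- For a finite field F of odd order and m ≥ 7, let D be a decomposition of F^(2m) into two complementary subspaces of dimension m on each of which the standard alternating form vanishes identically. Then the elements of Sp_2m(F) preserving or interchanging the two subspaces form a maximal subgroup of Sp_2m(F). -/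
theorem result {F : Type*} [Field F] [Fintype F] (m : ℕ) (hm : 7 ≤ m) (hodd : Odd (Fintype.card F)) (D : Fin 2 → Submodule F (Fin m ⊕ Fin m → F)) (hD : Cfsg.Geo.IsMDecomposition m D) (hts : ∀ i, Cfsg.Geo.IsTotallySingularFor (Cfsg.sympForm m F) (D i)) : Cfsg.Geo.IsMaximalIn (Cfsg.spGL m F) (Cfsg.Geo.decompositionStabilizer D ⊓ Cfsg.spGL m F) := by
  have hf := symp_isAlt m (F := F)
  have h2 : (2 : F) ≠ 0 := by
    intro h
    have h1 : ringChar F ∣ 2 := by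
      apply ringChar.dvd
      exact_mod_cast h
    have h3 : ringChar F = 2 := by
      rcases (Nat.dvd_prime Nat.prime_two).mp h1 with h4 | h4
      · exact absurd h4 CharP.ringChar_ne_one
      · exact h4
    have h5 := FiniteField.even_card_iff_char_two.mp h3
    have h6 := Nat.odd_iff.mp hodd
    omega
  have hdisj : ∀ x ∈ D 0, x ∈ D 1 → x = 0 := by
    have h1 : Disjoint (D 0) (D 1) := hD.indep.pairwiseDisjoint (by decide)
    exact Submodule.disjoint_def.mp h1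
  have hsum : ∀ x, ∃ a ∈ D 0, ∃ b ∈ D 1, x = a + b := by
    intro x
    have h1 : (⊤ : Submodule F (Fin m ⊕ Fin m → F)) ≤ D 0 ⊔ D 1 := by
      rw [← hD.iSup_eq_top]
      apply iSup_le
      intro i
      fin_cases i
      · exact le_sup_left
      · exact le_sup_right
    obtain ⟨a, ha, b, hb, e⟩ := Submodule.mem_sup.mp (h1 (Submodule.mem_top (x := x)))
    exact ⟨a, ha, b, hb, e.symm⟩
  have hP : Pair (Cfsg.sympForm m F) (D 0) (D 1) :=
    ⟨hts 0, hts 1, hdisj, hsum, by rw [hD.finrank_eq]; omega, by rw [hD.finrank_eq]; omega⟩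
  have hmemH : ∀ g ∈ Cfsg.preserving (Cfsg.glToMat (Fin m ⊕ Fin m) F) (Cfsg.sympForm m F),
      (∀ x ∈ D 0, (g : Matrix (Fin m ⊕ Fin m) (Fin m ⊕ Fin m) F) *ᵥ x ∈ D 0) →
      (∀ x ∈ D 1, (g : Matrix (Fin m ⊕ Fin m) (Fin m ⊕ Fin m) F) *ᵥ x ∈ D 1) →
      g ∈ Cfsg.Geo.decompositionStabilizer D ⊓ Cfsg.spGL m F := by
    intro g hg h0 h1
    refine ⟨?_, hg⟩
    apply Cfsg.Agent.S5647.mem_decomp_of_le D m hD.finrank_eq g 1
    intro l
    fin_cases l
    · exact h0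
    · exact h1
  have hmemH' : ∀ g ∈ Cfsg.preserving (Cfsg.glToMat (Fin m ⊕ Fin m) F) (Cfsg.sympForm m F),
      (∀ x ∈ D 0, (g : Matrix (Fin m ⊕ Fin m) (Fin m ⊕ Fin m) F) *ᵥ x ∈ D 1) →
      (∀ x ∈ D 1, (g : Matrix (Fin m ⊕ Fin m) (Fin m ⊕ Fin m) F) *ᵥ x ∈ D 0) →
      g ∈ Cfsg.Geo.decompositionStabilizer D ⊓ Cfsg.spGL m F := by
    intro g hg h0 h1
    refine ⟨?_, hg⟩
    apply Cfsg.Agent.S5647.mem_decomp_of_le D m hD.finrank_eq g (Equiv.swap 0 1)
    intro l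
    fin_cases l
    · exact h0
    · exact h1
  refine ⟨lt_of_le_of_ne inf_le_right ?_, fun M hHM hMK => ?_⟩
  · intro heq
    obtain ⟨b, hb, hb0, -, -, -⟩ := exists_orth3 hf (D 1) hP.dimB 0 0 0
    obtain ⟨x, hx, hxb⟩ := hP.symm.exists_pair hf b hb hb0
    have hxb' : Cfsg.sympForm m F x b ≠ 0 := by
      rw [hf.swap]
      exact neg_ne_zero.mpr hxb
    have hmem : sT hf b 1 ∈ Cfsg.Geo.decompositionStabilizer D ⊓ Cfsg.spGL m F := by
      rw [heq]
      exact sT_mem hf _ 1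
    obtain ⟨σ, hσ⟩ := hmem.1
    have h1 : ((sT hf b 1 : GL (Fin m ⊕ Fin m) F) :
        Matrix (Fin m ⊕ Fin m) (Fin m ⊕ Fin m) F) *ᵥ x ∈ D (σ 0) := by
      rw [← hσ 0]
      exact ⟨x, hx, by rw [Matrix.toLin'_apply]⟩
    rw [sT_mulVec, one_mul] at h1
    have hcases : σ 0 = 0 ∨ σ 0 = 1 := by
      generalize σ 0 = j
      fin_cases j
      · exact Or.inl rfl
      · exact Or.inr rfl
    rcases hcases with h3 | h3
    · rw [h3] at h1
      have h4 : Cfsg.sympForm m F x b • b ∈ D 0 := ((D 0).add_mem_iff_right hx).mp h1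
      have h5 : b ∈ D 0 := by
        have := (D 0).smul_mem (Cfsg.sympForm m F x b)⁻¹ h4
        rw [smul_smul, inv_mul_cancel₀ hxb', one_smul] at this
        exact this
      exact hb0 (hdisj b h5 hb)
    · rw [h3] at h1
      have h4 : x ∈ D 1 := ((D 1).add_mem_iff_left ((D 1).smul_mem _ hb)).mp h1
      apply hxb'
      rw [hdisj x hx h4, hf.zero_left]
  · by_cases h : M = Cfsg.Geo.decompositionStabilizer D ⊓ Cfsg.spGL m F
    · exact Or.inl h
    · right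
      apply le_antisymm hMK
      apply gen m M
      obtain ⟨g, hgM, hgH⟩ := SetLike.exists_of_lt (lt_of_le_of_ne hHM (Ne.symm h))
      have hgG := hMK hgM
      obtain ⟨s, hsG, hsA, hsB⟩ := swap_exists hf hP m (hD.finrank_eq 0) (hD.finrank_eq 1)
      exact main hf h2 hP M (fun k hk h0 h1 => hHM (hmemH k hk h0 h1))
        ⟨s, hHM (hmemH' s hsG hsA hsB), hsG, hsA, hsB⟩ g hgM hgG
        (fun hc => hgH (hmemH g hgG hc.1 hc.2)) (fun hc => hgH (hmemH' g hgG hc.1 hc.2))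


end Cfsg.Agent.S5649
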