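import Cfsg.Statements.S5653
import Mathlib
import Cfsg.Agent.S5631
import Cfsg.Agent.S5645
import Cfsg.Agent.S5642
import Cfsg.Agent.Lib.Helper28.SLGen
import Cfsg.Agent.Lib.Helper28.Herm

set_option autoImplicit false
open Cfsg

namespace Cfsg.Agent.S5653

open Matrix
open Cfsg.Agent.S5631 Cfsg.Agent.S5645 Cfsg.Agent.S5642 Cfsg.Agent.Lib.Helper28.SLGen
open Cfsg.Agent.Lib.Helper28.Herm

variable {ι : Type} [Fintype ι] [DecidableEq ι] {F : Type*} [Field F]
variable {σ : F →+* F} {f : (ι → F) → (ι → F) → F}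

theorem main [Nonempty ι] [Finite F] (hf : IsHerm σ f) (W : Submodule F (ι → F))
    (hW : ∀ u ∈ W, ∀ v ∈ W, f u v = 0) (K : Subgroup (GL ι F))
    (hHK : Cfsg.Geo.subspaceStabilizer W ⊓
      (Cfsg.preserving (Units.coeHom (Matrix ι ι F)) f ⊓ Cfsg.Geo.specialLinear ι F) ≤ K)
    (hK : K ≤ Cfsg.preserving (Units.coeHom (Matrix ι ι F)) f ⊓ Cfsg.Geo.specialLinear ι F)
    (hne : K ≠ Cfsg.Geo.subspaceStabilizer W ⊓
      (Cfsg.preserving (Units.coeHom (Matrix ι ι F)) f ⊓ Cfsg.Geo.specialLinear ι F)) :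
    K = Cfsg.preserving (Units.coeHom (Matrix ι ι F)) f ⊓ Cfsg.Geo.specialLinear ι F := by
  have hKU : ∀ k ∈ K, Isom f k := fun k hk => (hK hk).1
  have hA : ∀ a : ι → F, (∀ w ∈ W, f w a = 0) → f a a = 0 → P σ f K a := by
    intro a ha haa
    refine ⟨haa, fun c hc => ⟨uT_dot hf a c haa, hHK ⟨?_,
      ⟨uT_isom hf a c haa hc (uT_dot hf a c haa), tvG_mem_SL _ _ _⟩⟩⟩⟩
    apply tvG_mem_stab
    right
    intro w hw
    rw [smul_dotProduct, hf.rep_dot, ha w hw, smul_zero]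
  obtain ⟨a0, hPa0, ha0W⟩ : ∃ a0 : ι → F, P σ f K a0 ∧ ¬ (∀ w ∈ W, f w a0 = 0) := by
    obtain ⟨g, hgK, hgH⟩ : ∃ g ∈ K, g ∉ Cfsg.Geo.subspaceStabilizer W ⊓
        (Cfsg.preserving (Units.coeHom (Matrix ι ι F)) f ⊓ Cfsg.Geo.specialLinear ι F) := by
      by_contra hcon
      push Not at hcon
      exact hne (le_antisymm hcon hHK)
    have hgU : Isom f g := hKU g hgK
    have hgS : g ∉ Cfsg.Geo.subspaceStabilizer W := fun h => hgH ⟨h, hK hgK⟩
    by_contra hcon
    push Not at hcon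
    have h1 : ∀ w ∈ W, ∀ w' ∈ W, f w' ((g : Matrix ι ι F) *ᵥ w) = 0 := fun w hw =>
      hcon _ (P_conj hf K (hA w (fun w' hw' => hW w' hw' w hw) (hW w hw w hw)) g hgK hgU)
    apply hgS
    by_cases hsub : W.map (glEquiv g : (ι → F) →ₗ[F] (ι → F)) ≤ W
    · exact stab_of_map_le W g hsub
    · exfalso
      have hnot : ¬ W ≤ W.map (glEquiv g : (ι → F) →ₗ[F] (ι → F)) := by
        intro hle
        have hfin : Module.finrank F (W.map (glEquiv g : (ι → F) →ₗ[F] (ι → F))) =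
            Module.finrank F W := LinearEquiv.finrank_map_eq (glEquiv g) W
        have := Submodule.eq_of_le_of_finrank_eq hle hfin.symm
        exact hsub (le_of_eq this.symm)
      obtain ⟨w1, hw1, hw1n⟩ := SetLike.not_le_iff_exists.mp hnot
      obtain ⟨y, hy0, hy1⟩ := hf.exists_perp _ w1 hw1n
      have hw1w1 : f w1 w1 = 0 := hW w1 hw1 w1 hw1
      obtain ⟨μ, hμ⟩ := hf.iso_fix w1 y hw1w1 (by rw [hy1]; exact one_ne_zero)
      have hy' : ∀ w ∈ W, f ((g : Matrix ι ι F) *ᵥ w) (y + μ • w1) = 0 := by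
        intro w hw
        have e0 : f ((g : Matrix ι ι F) *ᵥ w) y = 0 := hy0 _ ⟨w, hw, rfl⟩
        rw [hf.add_right, hf.smul_right, e0,
          hf.eq_zero_symm (h1 w hw w1 hw1), mul_zero, add_zero]
      have ha : ∀ w ∈ W, f w (((g⁻¹ : GL ι F) : Matrix ι ι F) *ᵥ (y + μ • w1)) = 0 := by
        intro w hw
        have := hgU w (((g⁻¹ : GL ι F) : Matrix ι ι F) *ᵥ (y + μ • w1))
        rw [gl_mulVec_inv] at this
        rw [← this]
        exact hy' w hw
      have haa : f (((g⁻¹ : GL ι F) : Matrix ι ι F) *ᵥ (y + μ • w1))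
          (((g⁻¹ : GL ι F) : Matrix ι ι F) *ᵥ (y + μ • w1)) = 0 := by
        rw [isom_inv hgU]
        exact hμ
      have hP := P_conj hf K (hA _ ha haa) g hgK hgU
      rw [gl_mulVec_inv] at hP
      have := hcon _ hP w1 hw1
      rw [hf.add_right, hf.smul_right, hy1, hw1w1, mul_zero, add_zero] at this
      exact one_ne_zero this
  have hI : ∀ x : ι → F, P σ f K x → ∀ w' ∈ W, f x w' ≠ 0 → ∀ y : ι → F, f y y = 0 →
      f y w' ≠ 0 → P σ f K y := by
    intro x hx w' hw' hxw y hyy hyw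
    have hx' := P_smul hf K hx (f x w')⁻¹
    have hx'w : f ((f x w')⁻¹ • x) w' = 1 := by
      rw [hf.smul_left, inv_mul_cancel₀ hxw]
    have hy'w : f ((f y w')⁻¹ • y) w' = 1 := by
      rw [hf.smul_left, inv_mul_cancel₀ hyw]
    have hy'y' : f ((f y w')⁻¹ • y) ((f y w')⁻¹ • y) = 0 := by
      rw [hf.smul_left, hf.smul_right, hyy, mul_zero, mul_zero]
    obtain ⟨x', hx'def⟩ : ∃ x', x' = (f x w')⁻¹ • x := ⟨_, rfl⟩
    obtain ⟨y', hy'def⟩ : ∃ y', y' = (f y w')⁻¹ • y := ⟨_, rfl⟩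
    rw [← hx'def] at hx' hx'w
    rw [← hy'def] at hy'w hy'y'
    have huw : f (y' - x') w' = 0 := by
      rw [hf.sub_left, hx'w, hy'w, sub_self]
    have hlam : f x' (y' - x') + σ (f x' (y' - x')) = - f (y' - x') (y' - x') := by
      rw [← hf.herm (y' - x') x']
      simp only [hf.sub_left, hf.sub_right, hx'.1, hy'y']
      ring
    obtain ⟨E, hE, hEi, hES⟩ := eich_exists hf w' (y' - x') (f x' (y' - x'))
      (hW w' hw' w' hw') huw hlam
    have hEK : E ∈ K := by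
      refine hHK ⟨stab_of_map_le W E ?_, ⟨hEi, hES⟩⟩
      rintro _ ⟨v, hv, rfl⟩
      show (E : Matrix ι ι F) *ᵥ v ∈ W
      rw [hE, hW v hv w' hw', zero_smul, add_zero, mul_zero, zero_smul, add_zero]
      exact W.sub_mem hv (W.smul_mem _ hw')
    have h1 := P_conj hf K hx' E hEK hEi
    have e : (E : Matrix ι ι F) *ᵥ x' = y' := by
      rw [hE, hx'w, one_smul, mul_one]
      abel
    rw [e, hy'def] at h1
    have h2 := P_smul hf K h1 (f y w')
    rwa [smul_smul, mul_inv_cancel₀ hyw, one_smul] at h2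
  have hall : ∀ y : ι → F, f y y = 0 → P σ f K y := by
    obtain ⟨w0, hw0, hw0a⟩ : ∃ w0 ∈ W, f w0 a0 ≠ 0 := by
      by_contra hcon
      push Not at hcon
      exact ha0W hcon
    have ha0w0 : f a0 w0 ≠ 0 := hf.ne_zero_symm hw0a
    intro y hyy
    by_cases hyW : ∀ w ∈ W, f w y = 0
    · exact hA y hyW hyy
    push Not at hyW
    obtain ⟨w2, hw2, hw2y⟩ := hyW
    have hyw2 : f y w2 ≠ 0 := hf.ne_zero_symm hw2y
    by_cases hyw0 : f y w0 = 0
    · by_cases ha0w2 : f a0 w2 = 0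
      · obtain ⟨μ, hμ0, hz⟩ : ∃ μ : F, μ ≠ 0 ∧ f (y + μ • a0) (y + μ • a0) = 0 := by
          by_cases h0 : f a0 y = 0
          · refine ⟨1, one_ne_zero, ?_⟩
            rw [hf.add_left, hf.add_right, hf.add_right, hf.smul_left, hf.smul_left,
              hf.smul_right, hf.smul_right, hyy, h0, hf.eq_zero_symm h0, hPa0.1]
            ring
          · obtain ⟨ζ, hζ0, hζ⟩ := hf.exists_zeta
            refine ⟨ζ / f a0 y, div_ne_zero hζ0 h0, ?_⟩
            have e1 : ζ / f a0 y * f a0 y = ζ := div_mul_cancel₀ _ h0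
            have e2 : σ (ζ / f a0 y) * f y a0 = σ ζ := by
              rw [hf.herm y a0, ← map_mul, e1]
            rw [hf.add_left, hf.add_right, hf.add_right, hf.smul_left, hf.smul_left,
              hf.smul_right, hf.smul_right, hyy, hPa0.1, mul_zero, mul_zero, add_zero, e1, e2]
            linear_combination hζ
        have h1 : f (y + μ • a0) w0 ≠ 0 := by
          rw [hf.add_left, hf.smul_left, hyw0, zero_add]
          exact mul_ne_zero hμ0 ha0w0
        have h2 : f (y + μ • a0) w2 ≠ 0 := by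
          rw [hf.add_left, hf.smul_left, ha0w2, mul_zero, add_zero]
          exact hyw2
        exact hI _ (hI a0 hPa0 w0 hw0 ha0w0 _ hz h1) w2 hw2 h2 y hyy hyw2
      · exact hI a0 hPa0 w2 hw2 ha0w2 y hyy hyw2
    · exact hI a0 hPa0 w0 hw0 ha0w0 y hyy hyw0
  apply le_antisymm hK
  intro s hs
  have hsU : Isom f s := hs.1
  have hti2 : ∀ u ∈ W.map (glEquiv s : (ι → F) →ₗ[F] (ι → F)),
      ∀ v ∈ W.map (glEquiv s : (ι → F) →ₗ[F] (ι → F)), f u v = 0 := by
    rintro _ ⟨u, hu, rfl⟩ _ ⟨v, hv, rfl⟩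
    exact (hsU u v).trans (hW u hu v hv)
  obtain ⟨k, hk, hkv⟩ := ts_trans hf K hKU (fun a c ha hc => (hall a ha).2 c hc)
    (Module.finrank F W) W (W.map (glEquiv s : (ι → F) →ₗ[F] (ι → F)))
    hW hti2 (LinearEquiv.finrank_map_eq (glEquiv s) W).symm (Nat.le_add_left _ _)
  have hmem : k⁻¹ * s ∈ Cfsg.Geo.subspaceStabilizer W ⊓
      (Cfsg.preserving (Units.coeHom (Matrix ι ι F)) f ⊓ Cfsg.Geo.specialLinear ι F) := by
    refine ⟨(mem_stab W _).mpr ?_, Subgroup.mul_mem _ (Subgroup.inv_mem _ (hK hk)) hs⟩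
    intro v
    have h1 := hkv (((k⁻¹ : GL ι F) : Matrix ι ι F) *ᵥ ((s : Matrix ι ι F) *ᵥ v))
    rw [gl_mulVec_inv] at h1
    rw [Units.val_mul, ← Matrix.mulVec_mulVec, h1]
    constructor
    · intro hv
      exact ⟨v, hv, rfl⟩
    · rintro ⟨y, hy, e⟩
      have : y = v := (glEquiv s).injective e
      rw [← this]
      exact hy
  have := K.mul_mem hk (hHK hmem)
  rwa [mul_inv_cancel_left] at this

/-- Let F be the field with q² elements and n ≥ 13, and let SU_n(q) be the group of matrices of determinant one preserving the standard unitary form Σ u_i v_i^q on F^n (the intersection of the unitary group GU_n with the kernel of the determinant). The elements of SU_n(q) stabilising a non-zero subspace on which the form vanishes identically form a maximal subgroup of SU_n(q). -/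
theorem result {F : Type*} [Field F] [Fintype F] (n q : ℕ) (hF : Fintype.card F = q ^ 2) (hn : 13 ≤ n) (W : Submodule F (Fin n → F)) (hW0 : W ≠ ⊥) (hW : Cfsg.Geo.IsTotallySingularFor (Cfsg.hermForm n F q) W) : Cfsg.Geo.IsMaximalIn (Cfsg.GU n F q ⊓ Cfsg.Geo.specialLinear (Fin n) F) (Cfsg.Geo.subspaceStabilizer W ⊓ (Cfsg.GU n F q ⊓ Cfsg.Geo.specialLinear (Fin n) F)) := by
  have hf := hermForm_isHerm hF n
  have : Nonempty (Fin n) := ⟨⟨0, by omega⟩⟩
  refine ⟨lt_of_le_of_ne inf_le_right ?_, fun M hHM hMK => ?_⟩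
  · intro heq
    obtain ⟨a, haW, ha0⟩ := (Submodule.ne_bot_iff W).mp hW0
    obtain ⟨y0, hy0⟩ : ∃ y, Cfsg.hermForm n F q a y ≠ 0 := by
      by_contra hcon
      push Not at hcon
      exact ha0 (hf.nondeg' a hcon)
    have haa : Cfsg.hermForm n F q a a = 0 := hW a haW a haW
    obtain ⟨μ, hμ⟩ := hf.iso_fix a y0 haa hy0
    obtain ⟨ζ, hζ0, hζ⟩ := hf.exists_zeta
    have hay : Cfsg.hermForm n F q a (y0 + μ • a) ≠ 0 := by
      rw [hf.add_right, hf.smul_right, haa, mul_zero, add_zero]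
      exact hy0
    have ht : tvG (y0 + μ • a) (ζ • rep (Cfsg.hermForm n F q) (y0 + μ • a))
        (uT_dot hf _ ζ hμ) ∈ Cfsg.Geo.subspaceStabilizer W ⊓
          (Cfsg.GU n F q ⊓ Cfsg.Geo.specialLinear (Fin n) F) := by
      rw [heq]
      exact ⟨uT_isom hf _ ζ hμ hζ (uT_dot hf _ ζ hμ), tvG_mem_SL _ _ _⟩
    have h1 := ((mem_stab W _).mp ht.1 a).mp haW
    rw [uT_mulVec hf] at h1
    have h2 : (ζ * Cfsg.hermForm n F q a (y0 + μ • a)) • (y0 + μ • a) ∈ W := by
      have := W.sub_mem h1 haW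
      rwa [add_sub_cancel_left] at this
    have h3 : y0 + μ • a ∈ W := (W.smul_mem_iff (mul_ne_zero hζ0 hay)).mp h2
    exact hay (hW a haW _ h3)
  · by_cases h : M = Cfsg.Geo.subspaceStabilizer W ⊓
        (Cfsg.GU n F q ⊓ Cfsg.Geo.specialLinear (Fin n) F)
    · exact Or.inl h
    · exact Or.inr (main hf W hW M hHM hMK h)


end Cfsg.Agent.S5653
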