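import Cfsg.Statements.S5654
import Mathlib
import Cfsg.Agent.S5631
import Cfsg.Agent.S5645
import Cfsg.Agent.S5642
import Cfsg.Agent.Lib.Helper28.SLGen
import Cfsg.Agent.Lib.Helper28.Herm
import Cfsg.Agent.Lib.Helper13.HermSub

set_option autoImplicit false
open Cfsg

namespace Cfsg.Agent.S5654

open Matrix
open Cfsg.Agent.S5631 Cfsg.Agent.S5645 Cfsg.Agent.S5642 Cfsg.Agent.Lib.Helper28.SLGen
open Cfsg.Agent.Lib.Helper28.Herm
open Cfsg.Agent.Lib.Helper13

variable {ι : Type} [Fintype ι] [DecidableEq ι] {F : Type*} [Field F]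
variable {σ : F →+* F} {f : (ι → F) → (ι → F) → F}

/-- a vector orthogonal to `U` lies in `W` -/
theorem mem_W_of_perp (hf : IsHerm σ f) (W U : Submodule F (ι → F))
    (hWU : ∀ w ∈ W, ∀ u ∈ U, f w u = 0)
    (hdec : ∀ x : ι → F, ∃ w ∈ W, ∃ u ∈ U, x = w + u) (hU : HermSub.NDeg f U)
    (x : ι → F) (hx : ∀ u ∈ U, f x u = 0) : x ∈ W := by
  obtain ⟨w, hw, u', hu', rfl⟩ := hdec x
  have h0 : u' = 0 := by
    apply hU u' hu'
    intro y hy
    apply hf.eq_zero_symm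
    have := hx y hy
    rwa [hf.add_left, hWU w hw y hy, zero_add] at this
  rw [h0, add_zero]
  exact hw

/-- an isotropic partner inside a nondegenerate subspace -/
theorem iso_in (hf : IsHerm σ f) {M : Submodule F (ι → F)} (hM : HermSub.NDeg f M)
    (u : ι → F) (hu : u ∈ M) (hu0 : u ≠ 0) (huu : f u u = 0) :
    ∃ d ∈ M, f d d = 0 ∧ f u d = 1 := by
  obtain ⟨x, hx, hxu⟩ : ∃ x ∈ M, f x u ≠ 0 := by
    by_contra hcon
    push Not at hcon
    exact hu0 (hM u hu hcon)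
  have hux : f u x ≠ 0 := hf.ne_zero_symm hxu
  obtain ⟨μ, hμ⟩ := hf.iso_fix u x huu hux
  have h1 : f u (x + μ • u) = f u x := by
    rw [hf.add_right, hf.smul_right, huu, mul_zero, add_zero]
  have h2 : f (x + μ • u) u ≠ 0 := hf.ne_zero_symm (by rw [h1]; exact hux)
  refine ⟨(f (x + μ • u) u)⁻¹ • (x + μ • u), M.smul_mem _ (M.add_mem hx (M.smul_mem _ hu)), ?_, ?_⟩
  · rw [hf.smul_left, hf.smul_right, hμ, mul_zero, mul_zero]
  · rw [hf.smul_right, map_inv₀, ← hf.herm u (x + μ • u), inv_mul_cancel₀]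
    rw [h1]
    exact hux


theorem line_iso (hf : IsHerm σ f) (y c : ι → F) (μ : F) (hy : f y y = 0) (hc : f c c = 0)
    (h : μ * f c y + σ μ * f y c = 0) : f (y + μ • c) (y + μ • c) = 0 := by
  rw [hf.add_left, hf.add_right, hf.add_right, hf.smul_left, hf.smul_left, hf.smul_right,
    hf.smul_right, hy, hc]
  linear_combination h

/-- the working context: an orthogonal decomposition `W ⊕ U` and a group `K` of isometries
containing the stabiliser of `W` -/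
structure Ctx (σ : F →+* F) (f : (ι → F) → (ι → F) → F) (W U : Submodule F (ι → F))
    (K : Subgroup (GL ι F)) : Prop where
  hf : IsHerm σ f
  hWU : ∀ w ∈ W, ∀ u ∈ U, f w u = 0
  hUW : ∀ u ∈ U, ∀ w ∈ W, f u w = 0
  hdec : ∀ x : ι → F, ∃ w ∈ W, ∃ u ∈ U, x = w + u
  hW : HermSub.NDeg f W
  hU : HermSub.NDeg f U
  h5 : 4 < Module.finrank F U
  hlt : Module.finrank F W < Module.finrank F U
  hKU : ∀ k ∈ K, Isom f k
  hPU : ∀ a ∈ U, f a a = 0 → P σ f K a
  hPW : ∀ a ∈ W, f a a = 0 → P σ f K a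
  hHmem : ∀ h : GL ι F, Isom f h → h ∈ Cfsg.Geo.specialLinear ι F →
    (∀ w ∈ W, (h : Matrix ι ι F) *ᵥ w ∈ W) → h ∈ K

theorem stepB1 [Finite F] {W U : Submodule F (ι → F)} {K : Subgroup (GL ι F)}
    (C : Ctx σ f W U K) :
    ∀ w ∈ W, ∀ u ∈ U, ∀ u' ∈ U, f u u = f u' u' → f u u ≠ 0 → P σ f K (w + u) →
      P σ f K (w + u') := by
  obtain ⟨hf, hWU, hUW, hdec, hW, hU, h5, hlt, hKU, hPU, hPW, hHmem⟩ := C
  intro w hw u hu u' hu' he hne hP
  have hr := HermSub.sub_reach hf hU h5 u u' hu hu' (f u u) hne rfl he.symm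
  obtain ⟨t, htK, htu, hts⟩ := HermSub.reach_elem hf K U hPU hr
  have := P_conj hf K hP t htK (hKU t htK)
  rwa [Matrix.mulVec_add, hts w (fun d hd => hWU w hw d hd), htu] at this

theorem stepB2a [Finite F] {W U : Submodule F (ι → F)} {K : Subgroup (GL ι F)}
    (C : Ctx σ f W U K) :
    ∀ w₀ ∈ W, ∀ w ∈ W, f w₀ w₀ = f w w → f (w₀ - w) (w₀ - w) ≠ 0 →
      ∀ u₀ ∈ U, P σ f K (w₀ + u₀) → ∃ u ∈ U, P σ f K (w + u) := by
  obtain ⟨hf, hWU, hUW, hdec, hW, hU, h5, hlt, hKU, hPU, hPW, hHmem⟩ := C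
  intro w₀ hw₀ w hw he hd u₀ hu₀ hP
  obtain ⟨p, hp⟩ : ∃ p, p = f w₀ (w₀ - w) := ⟨_, rfl⟩
  have hN : f (w₀ - w) (w₀ - w) = p + σ p := by
    have h1 : σ (f w₀ w) = f w w₀ := (hf.herm w w₀).symm
    have h2 : σ (f w₀ w₀) = f w₀ w₀ := hf.self_fix w₀
    rw [hp]
    simp only [hf.sub_left, hf.sub_right, map_sub, h1, h2]
    rw [← he]
    ring
  have hNne : p + σ p ≠ 0 := by
    rw [← hN]
    exact hd
  have hp0 : p ≠ 0 := by
    intro h
    apply hNne
    rw [h, map_zero, add_zero]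
  have hσp0 : σ p ≠ 0 := by
    intro h
    apply hp0
    have := congrArg σ h
    rwa [hf.invol, map_zero] at this
  obtain ⟨ε, hεdef⟩ : ∃ ε, ε = -σ p / p := ⟨_, rfl⟩
  have hε : ε * σ ε = 1 := by
    rw [hεdef, map_div₀, map_neg, hf.invol]
    field_simp
  have hε0 : ε ≠ 0 := left_ne_zero_of_mul_eq_one hε
  have hε' : ε⁻¹ * σ ε⁻¹ = 1 := by
    rw [map_inv₀, ← mul_inv, hε, inv_one]
  obtain ⟨d', hd'U, -, hd'n⟩ := HermSub.sub_exists_norm hf hU (Fin.elim0 : Fin 0 → ι → F)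
    (fun i => i.elim0) (by omega) 1 (map_one σ)
  have hd'0 : f d' d' ≠ 0 := by
    rw [hd'n]
    exact one_ne_zero
  obtain ⟨r₁, hr₁, hr₁i, hr₁d⟩ := HermSub.qr_exists hf (w₀ - w) hd ε hε
  obtain ⟨r₂, hr₂, hr₂i, hr₂d⟩ := HermSub.qr_exists hf d' hd'0 ε⁻¹ hε'
  have hmem : r₁ * r₂ ∈ K := by
    apply hHmem _ (isom_mul hr₁i hr₂i)
    · apply mem_SL_of_det_eq_one
      rw [Units.val_mul, Matrix.det_mul, hr₁d, hr₂d, mul_inv_cancel₀ hε0]
    · intro x hx
      rw [Units.val_mul, ← Matrix.mulVec_mulVec, hr₂, hWU x hx d' hd'U, mul_zero, zero_smul,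
        add_zero, hr₁]
      exact W.add_mem hx (W.smul_mem _ (W.sub_mem hw₀ hw))
  have h3 := P_conj hf K hP _ hmem (hKU _ hmem)
  have hr₂u : (r₂ : Matrix ι ι F) *ᵥ u₀ ∈ U := by
    rw [hr₂]
    exact U.add_mem hu₀ (U.smul_mem _ hd'U)
  refine ⟨(r₂ : Matrix ι ι F) *ᵥ u₀, hr₂u, ?_⟩
  have e : ((r₁ * r₂ : GL ι F) : Matrix ι ι F) *ᵥ (w₀ + u₀) =
      w + (r₂ : Matrix ι ι F) *ᵥ u₀ := by
    rw [Units.val_mul, ← Matrix.mulVec_mulVec, Matrix.mulVec_add, Matrix.mulVec_add]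
    have e1 : (r₂ : Matrix ι ι F) *ᵥ w₀ = w₀ := by
      rw [hr₂, hWU w₀ hw₀ d' hd'U, mul_zero, zero_smul, add_zero]
    have e2 : (r₁ : Matrix ι ι F) *ᵥ ((r₂ : Matrix ι ι F) *ᵥ u₀) =
        (r₂ : Matrix ι ι F) *ᵥ u₀ := by
      rw [hr₁ ((r₂ : Matrix ι ι F) *ᵥ u₀), hUW _ hr₂u _ (W.sub_mem hw₀ hw), mul_zero, zero_smul,
        add_zero]
    have e3 : (r₁ : Matrix ι ι F) *ᵥ w₀ = w := by
      rw [hr₁, ← hp, hN]
      have : (ε - 1) / (p + σ p) * p = -1 := by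
        rw [hεdef]
        field_simp
        ring
      rw [this, neg_one_smul]
      abel
    rw [e1, e2, e3]
  rwa [e] at h3

theorem stepB2 [Finite F] {W U : Submodule F (ι → F)} {K : Subgroup (GL ι F)}
    (C : Ctx σ f W U K) :
    ∀ w₀ ∈ W, ∀ w ∈ W, f w₀ w₀ = f w w → f w w ≠ 0 →
      ∀ u₀ ∈ U, P σ f K (w₀ + u₀) → ∃ u ∈ U, P σ f K (w + u) := by
  have hB2a := stepB2a C
  obtain ⟨hf, hWU, hUW, hdec, hW, hU, h5, hlt, hKU, hPU, hPW, hHmem⟩ := C
  intro w₀ hw₀ w hw he hβ u₀ hu₀ hP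
  by_cases hd : f (w₀ - w) (w₀ - w) ≠ 0
  · exact hB2a w₀ hw₀ w hw he hd u₀ hu₀ hP
  push Not at hd
  by_cases hp : f w₀ (w₀ - w) = 0
  · obtain ⟨θ, hθ⟩ := hf.ne_id
    have hθ0 : θ ≠ 0 := by
      rintro rfl
      exact hθ (map_zero σ)
    have hσθ0 : σ θ ≠ 0 := by
      intro h
      apply hθ0
      have := congrArg σ h
      rwa [hf.invol, map_zero] at this
    obtain ⟨ε, hεdef⟩ : ∃ ε, ε = σ θ / θ := ⟨_, rfl⟩
    have hε : ε * σ ε = 1 := by
      rw [hεdef, map_div₀, hf.invol]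
      field_simp
    have hε1 : ε ≠ 1 := by
      rw [hεdef]
      intro h
      apply hθ
      field_simp at h
      exact h
    have hP' := P_smul hf K hP ε
    rw [smul_add] at hP'
    have hw₀w : f w₀ w = f w₀ w₀ := by
      rw [hf.sub_right] at hp
      linear_combination -hp
    have hww₀ : f w w₀ = f w₀ w₀ := by
      rw [hf.herm, hw₀w, hf.self_fix]
    refine hB2a (ε • w₀) (W.smul_mem _ hw₀) w hw ?_ ?_ (ε • u₀) (U.smul_mem _ hu₀) hP'
    · rw [hf.smul_left, hf.smul_right, ← he]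
      linear_combination (f w₀ w₀) * hε
    · have e : f (ε • w₀ - w) (ε • w₀ - w) = f w₀ w₀ * ((1 - ε) * (1 - σ ε)) := by
        simp only [hf.sub_left, hf.sub_right, hf.smul_left, hf.smul_right, hw₀w, hww₀, ← he]
        ring
      rw [e]
      refine mul_ne_zero (by rw [he]; exact hβ) (mul_ne_zero (sub_ne_zero.mpr (Ne.symm hε1)) ?_)
      intro h
      apply hε1
      have h1 : σ ε = 1 := by linear_combination -h
      have := congrArg σ h1
      rwa [hf.invol, map_one] at this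
  · have hdW : w₀ - w ∈ W := W.sub_mem hw₀ hw
    have hσp : f w₀ (w₀ - w) + σ (f w₀ (w₀ - w)) = 0 := by
      have h1 : σ (f w₀ w) = f w w₀ := (hf.herm w w₀).symm
      have h2 : σ (f w₀ w₀) = f w₀ w₀ := hf.self_fix w₀
      have := hd
      simp only [hf.sub_left, hf.sub_right] at this
      simp only [hf.sub_right, map_sub, h1, h2]
      rw [← he] at this
      linear_combination this
    have hσ0 : σ (f w₀ (w₀ - w)) ≠ 0 := by
      intro h
      apply hp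
      have := congrArg σ h
      rwa [hf.invol, map_zero] at this
    have hc : -(f w₀ (w₀ - w))⁻¹ + σ (-(f w₀ (w₀ - w))⁻¹) = 0 := by
      rw [map_neg, map_inv₀]
      field_simp
      linear_combination -hσp
    obtain ⟨h0, ht⟩ := (hPW _ hdW hd).2 _ hc
    have h3 := P_conj hf K hP _ ht (hKU _ ht)
    rw [uT_mulVec hf, hf.add_left, hUW u₀ hu₀ _ hdW, add_zero, neg_mul, inv_mul_cancel₀ hp,
      neg_one_smul] at h3
    refine ⟨u₀, hu₀, ?_⟩
    have e : w₀ + u₀ + -(w₀ - w) = w + u₀ := by abel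
    rwa [e] at h3

theorem stepO1 [Finite F] {W U : Submodule F (ι → F)} {K : Subgroup (GL ι F)}
    (C : Ctx σ f W U K) (hA : ∃ w₀ ∈ W, ∃ u₀ ∈ U, f w₀ w₀ ≠ 0 ∧ P σ f K (w₀ + u₀)) :
    ∀ w ∈ W, ∀ u ∈ U, f w w ≠ 0 → f (w + u) (w + u) = 0 → P σ f K (w + u) := by
  have hB1 := stepB1 C
  have hB2 := stepB2 C
  obtain ⟨hf, hWU, hUW, hdec, hW, hU, h5, hlt, hKU, hPU, hPW, hHmem⟩ := C
  obtain ⟨w₀, hw₀, u₀, hu₀, hβ₀, hP⟩ := hA
  intro w hw u hu hβ hiso
  obtain ⟨lam, hlam⟩ := hf.norm_surj (f w w / f w₀ w₀)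
    (by rw [map_div₀, hf.self_fix, hf.self_fix])
  have hP' := P_smul hf K hP lam
  rw [smul_add] at hP'
  have he : f (lam • w₀) (lam • w₀) = f w w := by
    rw [hf.smul_left, hf.smul_right]
    have : lam * (σ lam * f w₀ w₀) = σ lam * lam * f w₀ w₀ := by ring
    rw [this, hlam]
    field_simp
  obtain ⟨u', hu', hP''⟩ := hB2 _ (W.smul_mem _ hw₀) w hw he hβ _ (U.smul_mem _ hu₀) hP'
  have h1 : f u' u' = -f w w := by
    have := hP''.1
    rw [hf.add_left, hf.add_right, hf.add_right, hWU w hw u' hu', hUW u' hu' w hw] at this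
    linear_combination this
  have h2 : f u u = -f w w := by
    have := hiso
    rw [hf.add_left, hf.add_right, hf.add_right, hWU w hw u hu, hUW u hu w hw] at this
    linear_combination this
  exact hB1 w hw u' hu' u hu (by rw [h1, h2]) (by rw [h1]; exact neg_ne_zero.mpr hβ) hP''


theorem stepA1 [Finite F] {W U : Submodule F (ι → F)} {K : Subgroup (GL ι F)}
    (C : Ctx σ f W U K) (g : GL ι F) (hgK : g ∈ K)
    (hgS : g ∉ Cfsg.Geo.subspaceStabilizer W) :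
    ∃ a ∈ W, ∃ u ∈ U, a ≠ 0 ∧ u ≠ 0 ∧ P σ f K (a + u) := by
  obtain ⟨hf, hWU, hUW, hdec, hW, hU, h5, hlt, hKU, hPU, hPW, hHmem⟩ := C
  have hgU : Isom f g := hKU g hgK
  have hnU : ¬ (∀ u ∈ U, (g : Matrix ι ι F) *ᵥ u ∈ U) := by
    intro hall
    apply hgS
    have hst : g ∈ Cfsg.Geo.subspaceStabilizer U := by
      apply stab_of_map_le
      rintro _ ⟨v, hv, rfl⟩
      exact hall v hv
    rw [mem_stab] at hst
    apply stab_of_map_le
    rintro _ ⟨w, hw, rfl⟩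
    show (g : Matrix ι ι F) *ᵥ w ∈ W
    apply mem_W_of_perp hf W U hWU hdec hU
    intro u hu
    have h1 : ((g⁻¹ : GL ι F) : Matrix ι ι F) *ᵥ u ∈ U := by
      rw [hst, gl_mulVec_inv]
      exact hu
    have h2 := hgU w (((g⁻¹ : GL ι F) : Matrix ι ι F) *ᵥ u)
    rw [gl_mulVec_inv] at h2
    rw [h2]
    exact hWU w hw _ h1
  obtain ⟨x₀, hx₀U, hx₀i, hx₀⟩ : ∃ x₀ ∈ U, f x₀ x₀ = 0 ∧ (g : Matrix ι ι F) *ᵥ x₀ ∉ U := by
    by_contra hcon
    push Not at hcon
    apply hnU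
    intro v hv
    obtain ⟨v₁, hv₁, v₂, hv₂, h1, h2, rfl⟩ := HermSub.sub_sum_two_iso hf hU (by omega) v hv
    rw [Matrix.mulVec_add]
    exact U.add_mem (hcon v₁ hv₁ h1) (hcon v₂ hv₂ h2)
  obtain ⟨x₁, hx₁U, hx₁i, hx₁⟩ : ∃ x₁ ∈ U, f x₁ x₁ = 0 ∧ (g : Matrix ι ι F) *ᵥ x₁ ∉ W := by
    by_contra hcon
    push Not at hcon
    have hle : U.map (glEquiv g : (ι → F) →ₗ[F] (ι → F)) ≤ W := by
      rintro _ ⟨v, hv, rfl⟩
      obtain ⟨v₁, hv₁, v₂, hv₂, h1, h2, rfl⟩ := HermSub.sub_sum_two_iso hf hU (by omega) v hv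
      show (g : Matrix ι ι F) *ᵥ (v₁ + v₂) ∈ W
      rw [Matrix.mulVec_add]
      exact W.add_mem (hcon v₁ hv₁ h1) (hcon v₂ hv₂ h2)
    have h1 := Submodule.finrank_mono hle
    rw [LinearEquiv.finrank_map_eq (glEquiv g) U] at h1
    omega
  obtain ⟨a₀, ha₀, b₀, hb₀, e₀⟩ := hdec ((g : Matrix ι ι F) *ᵥ x₀)
  obtain ⟨a₁, ha₁, b₁, hb₁, e₁⟩ := hdec ((g : Matrix ι ι F) *ᵥ x₁)
  have ha₀0 : a₀ ≠ 0 := by
    rintro rfl
    apply hx₀
    rw [e₀, zero_add]
    exact hb₀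
  have hb₁0 : b₁ ≠ 0 := by
    rintro rfl
    apply hx₁
    rw [e₁, add_zero]
    exact ha₁
  have hP₀ := P_conj hf K (hPU x₀ hx₀U hx₀i) g hgK hgU
  have hP₁ := P_conj hf K (hPU x₁ hx₁U hx₁i) g hgK hgU
  by_cases hb₀0 : b₀ = 0
  · by_cases ha₁0 : a₁ = 0
    · obtain ⟨lam, hlam0, hiso⟩ : ∃ lam : F, lam ≠ 0 ∧
          f (x₀ + lam • x₁) (x₀ + lam • x₁) = 0 := by
        by_cases h0 : f x₁ x₀ = 0
        · refine ⟨1, one_ne_zero, ?_⟩
          rw [hf.add_left, hf.add_right, hf.add_right, hf.smul_left, hf.smul_left,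
            hf.smul_right, hf.smul_right, hx₀i, hx₁i, h0, hf.eq_zero_symm h0]
          ring
        · obtain ⟨ζ, hζ0, hζ⟩ := hf.exists_zeta
          refine ⟨ζ / f x₁ x₀, div_ne_zero hζ0 h0, ?_⟩
          have e1 : ζ / f x₁ x₀ * f x₁ x₀ = ζ := div_mul_cancel₀ _ h0
          have e2 : σ (ζ / f x₁ x₀) * f x₀ x₁ = σ ζ := by
            rw [hf.herm x₀ x₁, ← map_mul, e1]
          rw [hf.add_left, hf.add_right, hf.add_right, hf.smul_left, hf.smul_left,
            hf.smul_right, hf.smul_right, hx₀i, hx₁i, mul_zero, mul_zero, add_zero, e1, e2]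
          linear_combination hζ
      have hP₂ := P_conj hf K (hPU _ (U.add_mem hx₀U (U.smul_mem lam hx₁U)) hiso) g hgK hgU
      rw [Matrix.mulVec_add, Matrix.mulVec_smul, e₀, e₁, hb₀0, ha₁0, add_zero, zero_add] at hP₂
      exact ⟨a₀, ha₀, lam • b₁, U.smul_mem _ hb₁, ha₀0, smul_ne_zero hlam0 hb₁0, hP₂⟩
    · rw [e₁] at hP₁
      exact ⟨a₁, ha₁, b₁, hb₁, ha₁0, hb₁0, hP₁⟩
  · rw [e₀] at hP₀
    exact ⟨a₀, ha₀, b₀, hb₀, ha₀0, hb₀0, hP₀⟩

theorem stepA2 [Nonempty ι] [Finite F] {W U : Submodule F (ι → F)} {K : Subgroup (GL ι F)}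
    (C : Ctx σ f W U K) (a : ι → F) (ha : a ∈ W) (u : ι → F) (hu : u ∈ U) (ha0 : a ≠ 0)
    (hu0 : u ≠ 0) (hPy : P σ f K (a + u)) :
    ∃ w₀ ∈ W, ∃ u₀ ∈ U, f w₀ w₀ ≠ 0 ∧ P σ f K (w₀ + u₀) := by
  obtain ⟨hf, hWU, hUW, hdec, hW, hU, h5, hlt, hKU, hPU, hPW, hHmem⟩ := C
  by_cases haa : f a a ≠ 0
  · exact ⟨a, ha, u, hu, haa, hPy⟩
  push Not at haa
  have huu : f u u = 0 := by
    have := hPy.1
    rw [hf.add_left, hf.add_right, hf.add_right, hWU a ha u hu, hUW u hu a ha, haa] at this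
    linear_combination this
  obtain ⟨d, hdU, hdd, hud⟩ := iso_in hf hU u hu hu0 huu
  obtain ⟨d', hd'W, hd'd', had'⟩ := iso_in hf hW a ha ha0 haa
  obtain ⟨e, heU, he0, hee⟩ := HermSub.sub_exists_norm hf hU ![d, u]
    (by intro i; fin_cases i <;> assumption) (by omega) 1 (map_one σ)
  have hed : f e d = 0 := he0 0
  have heu : f e u = 0 := he0 1
  obtain ⟨lam, hlam⟩ := hf.exists_tr (-1) (by rw [map_neg, map_one])
  obtain ⟨ζ, hζ0, hζ⟩ := hf.exists_zeta
  obtain ⟨E, hE, hEi, hES⟩ := eich_exists hf d e lam hdd hed (by rw [hee]; exact hlam)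
  have hEK : E ∈ K := by
    apply hHmem E hEi hES
    intro w hw
    rw [hE, hWU w hw d hdU, hWU w hw e heU, zero_smul, zero_smul, mul_zero, zero_smul,
      add_zero, sub_zero, add_zero]
    exact hw
  obtain ⟨h0, hτ⟩ := (hPW d' hd'W hd'd').2 ζ hζ
  have hPc := P_conj hf K (P_conj hf K hPy E hEK hEi) _ hτ (hKU _ hτ)
  have hEy : (E : Matrix ι ι F) *ᵥ (a + u) = a + u + e + lam • d := by
    rw [hE, hf.add_left, hf.add_left, hWU a ha d hdU, hud, hWU a ha e heU,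
      hf.eq_zero_symm heu, zero_add, one_smul, zero_add, zero_smul, sub_zero, mul_one]
  have hc₁ : ((tvG d' (ζ • rep f d') h0 : GL ι F) : Matrix ι ι F) *ᵥ (a + u + e + lam • d) =
      a + u + e + lam • d + ζ • d' := by
    rw [uT_mulVec hf]
    have : f (a + u + e + lam • d) d' = 1 := by
      rw [hf.add_left, hf.add_left, hf.add_left, hf.smul_left, had', hUW u hu d' hd'W,
        hUW e heU d' hd'W, hUW d hdU d' hd'W]
      ring
    rw [this, mul_one]
  rw [hEy, hc₁] at hPc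
  have hψ : f (a + u) (a + u + e + lam • d + ζ • d') = σ lam + σ ζ := by
    simp only [hf.add_left, hf.add_right, hf.smul_right, haa, huu, hWU a ha u hu, hUW u hu a ha,
      hWU a ha e heU, hf.eq_zero_symm heu, hWU a ha d hdU, hud, had', hUW u hu d' hd'W]
    ring
  have hlz : lam + ζ ≠ 0 := by
    intro h
    have h1 : lam = -ζ := by linear_combination h
    rw [h1, map_neg] at hlam
    have : (1 : F) = 0 := by linear_combination hlam + hζ
    exact one_ne_zero this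
  have hψ0 : σ lam + σ ζ ≠ 0 := by
    intro h
    apply hlz
    have := congrArg σ h
    rwa [map_add, hf.invol, hf.invol, map_zero] at this
  obtain ⟨μ, hμ⟩ : ∃ μ, μ = ζ / (lam + ζ) := ⟨_, rfl⟩
  have hμ1 : μ * (lam + ζ) = ζ := by
    rw [hμ]
    exact div_mul_cancel₀ _ hlz
  have hμ2 : σ μ * (σ lam + σ ζ) = σ ζ := by
    rw [← map_add, ← map_mul, hμ1]
  have hc₁y : f (a + u + e + lam • d + ζ • d') (a + u) = lam + ζ := by
    rw [hf.herm, hψ, map_add, hf.invol, hf.invol]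
  have hiso : f ((a + u) + μ • (a + u + e + lam • d + ζ • d'))
      ((a + u) + μ • (a + u + e + lam • d + ζ • d')) = 0 := by
    apply line_iso hf _ _ μ hPy.1 hPc.1
    rw [hψ, hc₁y]
    linear_combination hμ2 + hμ1 + hζ
  have hPline := P_line hf K hPy hPc (by rw [hψ]; exact hψ0) μ hiso
  have e3 : a + u + μ • (a + u + e + lam • d + ζ • d') =
      ((1 + μ) • a + (μ * ζ) • d') + ((1 + μ) • u + μ • e + (μ * lam) • d) := by
    module
  rw [e3] at hPline
  refine ⟨_, W.add_mem (W.smul_mem _ ha) (W.smul_mem _ hd'W), _,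
    U.add_mem (U.add_mem (U.smul_mem _ hu) (U.smul_mem _ heU)) (U.smul_mem _ hdU), ?_, hPline⟩
  have hd'a : f d' a = 1 := by
    rw [hf.herm, had', map_one]
  simp only [hf.add_left, hf.add_right, hf.smul_left, hf.smul_right, haa, hd'd', had', hd'a,
    map_add, map_one, map_mul]
  intro h
  have hσζ : σ ζ = -ζ := by linear_combination hζ
  have hσlam : σ lam = -1 - lam := by linear_combination hlam
  have h1 : ζ * (μ - σ μ) = 0 := by
    rw [hσζ] at h
    linear_combination h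
  have h2 : μ = σ μ := by
    rcases mul_eq_zero.mp h1 with h | h
    · exact absurd h hζ0
    · exact sub_eq_zero.mp h
  rw [← h2, hσlam, hσζ] at hμ2
  have h3 : μ = 0 := by linear_combination -hμ2 - hμ1
  rw [h3, zero_mul] at hμ1
  exact hζ0 hμ1.symm


theorem stepC [Finite F] {W U : Submodule F (ι → F)} {K : Subgroup (GL ι F)}
    (C : Ctx σ f W U K)
    (hO1 : ∀ w ∈ W, ∀ u ∈ U, f w w ≠ 0 → f (w + u) (w + u) = 0 → P σ f K (w + u)) :
    ∀ y : ι → F, f y y = 0 → P σ f K y := by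
  obtain ⟨hf, hWU, hUW, hdec, hW, hU, h5, hlt, hKU, hPU, hPW, hHmem⟩ := C
  intro y hyy
  obtain ⟨w, hw, u, hu, rfl⟩ := hdec y
  by_cases hu0 : u = 0
  · rw [hu0, add_zero] at hyy ⊢
    exact hPW w hw hyy
  by_cases hw0 : w = 0
  · rw [hw0, zero_add] at hyy ⊢
    exact hPU u hu hyy
  by_cases hww : f w w ≠ 0
  · exact hO1 w hw u hu hww hyy
  push Not at hww
  have huu : f u u = 0 := by
    have := hyy
    rw [hf.add_left, hf.add_right, hf.add_right, hWU w hw u hu, hUW u hu w hw, hww] at this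
    linear_combination this
  obtain ⟨wc, hwc, hwcn, hwcw⟩ : ∃ wc ∈ W, f wc wc = 1 ∧ f wc w ≠ 0 := by
    obtain ⟨x, hx, hxw⟩ : ∃ x ∈ W, f x w ≠ 0 := by
      by_contra hcon
      push Not at hcon
      exact hw0 (hW w hw hcon)
    by_cases hxx : f x x = 0
    · obtain ⟨α, hα⟩ := hf.exists_tr 1 (map_one σ)
      have hwx : f w x ≠ 0 := hf.ne_zero_symm hxw
      refine ⟨x + (α / f w x) • w, W.add_mem hx (W.smul_mem _ hw), ?_, ?_⟩
      · have e1 : α / f w x * f w x = α := div_mul_cancel₀ _ hwx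
        have e2 : σ (α / f w x) * f x w = σ α := by
          rw [hf.herm x w, ← map_mul, e1]
        rw [hf.add_left, hf.add_right, hf.add_right, hf.smul_left, hf.smul_left, hf.smul_right,
          hf.smul_right, hxx, hww, mul_zero, mul_zero, add_zero, e1, e2]
        linear_combination hα
      · rw [hf.add_left, hf.smul_left, hww, mul_zero, add_zero]
        exact hxw
    · obtain ⟨lam, hlam⟩ := hf.norm_surj (1 / f x x)
        (by rw [map_div₀, map_one, hf.self_fix])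
      have hlam0 : lam ≠ 0 := by
        rintro rfl
        rw [mul_zero] at hlam
        exact one_div_ne_zero hxx hlam.symm
      refine ⟨lam • x, W.smul_mem _ hx, ?_, ?_⟩
      · rw [hf.smul_left, hf.smul_right]
        have : lam * (σ lam * f x x) = σ lam * lam * f x x := by ring
        rw [this, hlam]
        field_simp
      · rw [hf.smul_left]
        exact mul_ne_zero hlam0 hxw
  obtain ⟨uc, hucU, huc0, hucn⟩ := HermSub.sub_exists_norm hf hU ![u]
    (by intro i; fin_cases i; exact hu) (by omega) (-1) (by rw [map_neg, map_one])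
  have hucu : f uc u = 0 := huc0 0
  have hciso : f (wc + uc) (wc + uc) = 0 := by
    rw [hf.add_left, hf.add_right, hf.add_right, hWU wc hwc uc hucU, hUW uc hucU wc hwc, hwcn,
      hucn]
    ring
  have hPc := hO1 wc hwc uc hucU (by rw [hwcn]; exact one_ne_zero) hciso
  obtain ⟨ζ, hζ0, hζ⟩ := hf.exists_zeta
  have hφ : f (wc + uc) (w + u) = f wc w := by
    rw [hf.add_left, hf.add_right, hf.add_right, hWU wc hwc u hu, hUW uc hucU w hw, hucu]
    ring
  have hφ' : f (w + u) (wc + uc) = f w wc := by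
    rw [hf.herm, hφ, ← hf.herm]
  have hwwc : f w wc ≠ 0 := hf.ne_zero_symm hwcw
  obtain ⟨μ, hμdef⟩ : ∃ μ, μ = ζ / f wc w := ⟨_, rfl⟩
  have hμ0 : μ ≠ 0 := by
    rw [hμdef]
    exact div_ne_zero hζ0 hwcw
  have hσμ0 : σ μ ≠ 0 := by
    intro h
    apply hμ0
    have := congrArg σ h
    rwa [hf.invol, map_zero] at this
  have e1 : μ * f wc w = ζ := by
    rw [hμdef]
    exact div_mul_cancel₀ _ hwcw
  have e2 : σ μ * f w wc = σ ζ := by
    rw [hf.herm w wc, ← map_mul, e1]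
  have e : (w + μ • wc) + (u + μ • uc) = (w + u) + μ • (wc + uc) := by module
  have ha₁iso : f ((w + μ • wc) + (u + μ • uc)) ((w + μ • wc) + (u + μ • uc)) = 0 := by
    rw [e]
    apply line_iso hf _ _ μ hyy hciso
    rw [hφ, hφ']
    linear_combination e1 + e2 + hζ
  have ha₁n : f (w + μ • wc) (w + μ • wc) ≠ 0 := by
    have : f (w + μ • wc) (w + μ • wc) = μ * σ μ := by
      rw [hf.add_left, hf.add_right, hf.add_right, hf.smul_left, hf.smul_left, hf.smul_right,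
        hf.smul_right, hww, hwcn]
      linear_combination e1 + e2 + hζ
    rw [this]
    exact mul_ne_zero hμ0 hσμ0
  have hPa₁ := hO1 _ (W.add_mem hw (W.smul_mem _ hwc)) _ (U.add_mem hu (U.smul_mem _ hucU))
    ha₁n ha₁iso
  have hline : (w + μ • wc) + (u + μ • uc) + (-μ) • (wc + uc) = w + u := by module
  have hab : f ((w + μ • wc) + (u + μ • uc)) (wc + uc) ≠ 0 := by
    rw [e, hf.add_left, hf.smul_left, hciso, mul_zero, add_zero, hφ']
    exact hwwc
  have := P_line hf K hPa₁ hPc hab (-μ) (by rw [hline]; exact hyy)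
  rwa [hline] at this

theorem main [Nonempty ι] [Finite F] (hf : IsHerm σ f) (W U : Submodule F (ι → F))
    (hWU : ∀ w ∈ W, ∀ u ∈ U, f w u = 0)
    (hdec : ∀ x : ι → F, ∃ w ∈ W, ∃ u ∈ U, x = w + u)
    (hW : HermSub.NDeg f W) (hU : HermSub.NDeg f U) (h5 : 4 < Module.finrank F U)
    (hlt : Module.finrank F W < Module.finrank F U)
    (hcard : Module.finrank F W + 4 ≤ Fintype.card ι)
    (K : Subgroup (GL ι F))
    (hHK : Cfsg.Geo.subspaceStabilizer W ⊓
      (Cfsg.preserving (Units.coeHom (Matrix ι ι F)) f ⊓ Cfsg.Geo.specialLinear ι F) ≤ K)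
    (hK : K ≤ Cfsg.preserving (Units.coeHom (Matrix ι ι F)) f ⊓ Cfsg.Geo.specialLinear ι F)
    (hne : K ≠ Cfsg.Geo.subspaceStabilizer W ⊓
      (Cfsg.preserving (Units.coeHom (Matrix ι ι F)) f ⊓ Cfsg.Geo.specialLinear ι F)) :
    K = Cfsg.preserving (Units.coeHom (Matrix ι ι F)) f ⊓ Cfsg.Geo.specialLinear ι F := by
  have hKU : ∀ k ∈ K, Isom f k := fun k hk => (hK hk).1
  have hUW : ∀ u ∈ U, ∀ w ∈ W, f u w = 0 := fun u hu w hw => hf.eq_zero_symm (hWU w hw u hu)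
  have hPU : ∀ a ∈ U, f a a = 0 → P σ f K a := by
    intro a ha haa
    refine ⟨haa, fun c hc => ⟨uT_dot hf a c haa, hHK ⟨?_,
      ⟨uT_isom hf a c haa hc (uT_dot hf a c haa), tvG_mem_SL _ _ _⟩⟩⟩⟩
    apply tvG_mem_stab
    right
    intro w hw
    rw [smul_dotProduct, hf.rep_dot, hWU w hw a ha, smul_zero]
  have hPW : ∀ a ∈ W, f a a = 0 → P σ f K a := by
    intro a ha haa
    refine ⟨haa, fun c hc => ⟨uT_dot hf a c haa, hHK ⟨?_,
      ⟨uT_isom hf a c haa hc (uT_dot hf a c haa), tvG_mem_SL _ _ _⟩⟩⟩⟩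
    apply tvG_mem_stab
    left
    exact ha
  have hHmem : ∀ h : GL ι F, Isom f h → h ∈ Cfsg.Geo.specialLinear ι F →
      (∀ w ∈ W, (h : Matrix ι ι F) *ᵥ w ∈ W) → h ∈ K := by
    intro h hi hs hw
    refine hHK ⟨stab_of_map_le W h ?_, ⟨hi, hs⟩⟩
    rintro _ ⟨v, hv, rfl⟩
    exact hw v hv
  have C : Ctx σ f W U K := ⟨hf, hWU, hUW, hdec, hW, hU, h5, hlt, hKU, hPU, hPW, hHmem⟩
  obtain ⟨g, hgK, hgH⟩ : ∃ g ∈ K, g ∉ Cfsg.Geo.subspaceStabilizer W ⊓
      (Cfsg.preserving (Units.coeHom (Matrix ι ι F)) f ⊓ Cfsg.Geo.specialLinear ι F) := by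
    by_contra hcon
    push Not at hcon
    exact hne (le_antisymm hcon hHK)
  have hgS : g ∉ Cfsg.Geo.subspaceStabilizer W := fun h => hgH ⟨h, hK hgK⟩
  obtain ⟨a, ha, u, hu, ha0, hu0, hPy⟩ := stepA1 C g hgK hgS
  have hA := stepA2 C a ha u hu ha0 hu0 hPy
  have hall := stepC C (stepO1 C hA)
  apply le_antisymm hK
  intro s hs
  have hsU : Isom f s := hs.1
  obtain ⟨g', hg'K, hg'⟩ := HermSub.witt hf K hKU hall (Module.finrank F W) W hW le_rfl hcard s hsU
  have hmem : g'⁻¹ * s ∈ K := by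
    apply hHmem _ (isom_mul (isom_inv (hKU g' hg'K)) hsU)
      (Subgroup.mul_mem _ (Subgroup.inv_mem _ (hK hg'K).2) hs.2)
    intro w hw
    rw [Units.val_mul, ← Matrix.mulVec_mulVec, ← hg' w hw, gl_inv_mulVec]
    exact hw
  have := K.mul_mem hg'K hmem
  rwa [mul_inv_cancel_left] at this

/-- Let F be the field with q² elements and n ≥ 13. In SU_n(q) (determinant-one isometries of the standard unitary form on F^n) the stabiliser of a non-zero subspace W on which the form is non-degenerate and with 2 dim W < n is a maximal subgroup. -/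
theorem result {F : Type*} [Field F] [Fintype F] (n q : ℕ) (hF : Fintype.card F = q ^ 2) (hn : 13 ≤ n) (W : Submodule F (Fin n → F)) (hW0 : W ≠ ⊥) (hW : Cfsg.Geo.IsNondegenerateOn (Cfsg.hermForm n F q) W) (hdim : 2 * Module.finrank F W < n) : Cfsg.Geo.IsMaximalIn (Cfsg.GU n F q ⊓ Cfsg.Geo.specialLinear (Fin n) F) (Cfsg.Geo.subspaceStabilizer W ⊓ (Cfsg.GU n F q ⊓ Cfsg.Geo.specialLinear (Fin n) F)) := by
  have hf := hermForm_isHerm hF n
  have : Nonempty (Fin n) := ⟨⟨0, by omega⟩⟩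
  have hWnd : HermSub.NDeg (Cfsg.hermForm n F q) W := by
    intro u hu h
    by_contra hu0
    obtain ⟨⟨x, hx, hxu⟩, -⟩ := hW u hu hu0
    exact hxu (h x hx)
  have hUnd := HermSub.perp_ndeg hf hWnd
  have hfr := HermSub.perp_finrank hf hWnd
  rw [Fintype.card_fin] at hfr
  have hdec : ∀ x : Fin n → F, ∃ w ∈ W, ∃ u ∈ HermSub.perp hf W, x = w + u := by
    intro x
    obtain ⟨w, hw, hxw⟩ := HermSub.decomp hf hWnd x
    exact ⟨w, hw, x - w, hxw, by abel⟩
  have hWU : ∀ w ∈ W, ∀ u ∈ HermSub.perp hf W, Cfsg.hermForm n F q w u = 0 :=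
    fun w hw u hu => hu w hw
  refine ⟨lt_of_le_of_ne inf_le_right ?_, fun M hHM hMK => ?_⟩
  · intro heq
    obtain ⟨w, hwW, hww⟩ : ∃ w ∈ W, Cfsg.hermForm n F q w w ≠ 0 := by
      by_contra hcon
      push Not at hcon
      have hti := hf.polar W hcon
      apply hW0
      rw [eq_bot_iff]
      intro u hu
      rw [Submodule.mem_bot]
      exact hWnd u hu (fun x hx => hti x hx u hu)
    obtain ⟨u, huU, -, hun⟩ := HermSub.sub_exists_norm hf hUnd (Fin.elim0 : Fin 0 → Fin n → F)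
      (fun i => i.elim0) (by omega) (-(Cfsg.hermForm n F q w w))
      (by rw [map_neg, hf.self_fix])
    have hiso : Cfsg.hermForm n F q (w + u) (w + u) = 0 := by
      rw [hf.add_left, hf.add_right, hf.add_right, hWU w hwW u huU,
        hf.eq_zero_symm (hWU w hwW u huU), hun]
      ring
    obtain ⟨ζ, hζ0, hζ⟩ := hf.exists_zeta
    have ht : tvG (w + u) (ζ • rep (Cfsg.hermForm n F q) (w + u)) (uT_dot hf _ ζ hiso) ∈
        Cfsg.Geo.subspaceStabilizer W ⊓ (Cfsg.GU n F q ⊓ Cfsg.Geo.specialLinear (Fin n) F) := by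
      rw [heq]
      exact ⟨uT_isom hf _ ζ hiso hζ (uT_dot hf _ ζ hiso), tvG_mem_SL _ _ _⟩
    have h1 := ((mem_stab W _).mp ht.1 w).mp hwW
    rw [uT_mulVec hf] at h1
    have hwy : Cfsg.hermForm n F q w (w + u) = Cfsg.hermForm n F q w w := by
      rw [hf.add_right, hWU w hwW u huU, add_zero]
    have h2 : (ζ * Cfsg.hermForm n F q w (w + u)) • (w + u) ∈ W := by
      have := W.sub_mem h1 hwW
      rwa [add_sub_cancel_left] at this
    have h3 : w + u ∈ W := (W.smul_mem_iff (mul_ne_zero hζ0 (by rw [hwy]; exact hww))).mp h2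
    have h4 : u ∈ W := by
      have := W.sub_mem h3 hwW
      rwa [add_sub_cancel_left] at this
    have h5 : Cfsg.hermForm n F q u u = 0 := hWU u h4 u huU
    rw [hun] at h5
    exact hww (neg_eq_zero.mp h5)
  · by_cases h : M = Cfsg.Geo.subspaceStabilizer W ⊓
        (Cfsg.GU n F q ⊓ Cfsg.Geo.specialLinear (Fin n) F)
    · exact Or.inl h
    · exact Or.inr (main hf W (HermSub.perp hf W) hWU hdec hWnd hUnd (by omega) (by omega)
        (by rw [Fintype.card_fin]; omega) M hHM hMK h)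

end Cfsg.Agent.S5654
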