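import Cfsg.Statements.S5656
import Mathlib
import Cfsg.Agent.Lib.Helper13.BlockWeightG

set_option autoImplicit false
open Cfsg

namespace Cfsg.Agent.S5656

open Matrix
open Cfsg.Agent.Lib.Helper13.BlockWeightG (ro ro_det ro_mulVec exists_coords card_eq)

variable {F : Type*} [Field F] [Fintype F] {n : ℕ}

theorem two_eq_zero (hF : Fintype.card F = 4) : (2 : F) = 0 := by
  have hc := Nat.cast_card_eq_zero F
  rw [hF] at hc
  have h4 : (4 : F) = 0 := by exact_mod_cast hc
  have : (2 : F) * 2 = 0 := by linear_combination h4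
  exact mul_self_eq_zero.mp this

theorem pow_four (hF : Fintype.card F = 4) (x : F) : x ^ 4 = x := by
  have := FiniteField.pow_card x
  rwa [hF] at this

omit [Fintype F] in
theorem zero_or_one_of_sq (x : F) (hx : x ^ 2 = x) : x = 0 ∨ x = 1 := by
  have : x * (x - 1) = 0 := by linear_combination hx
  rcases mul_eq_zero.mp this with h | h
  · exact Or.inl h
  · exact Or.inr (sub_eq_zero.mp h)

omit [Fintype F] in
theorem h_add_left (u u' v : Fin n → F) :
    Cfsg.hermForm n F 2 (u + u') v = Cfsg.hermForm n F 2 u v + Cfsg.hermForm n F 2 u' v := by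
  unfold Cfsg.hermForm
  rw [← Finset.sum_add_distrib]
  apply Finset.sum_congr rfl
  intro i _
  simp only [Pi.add_apply]
  ring

omit [Fintype F] in
theorem h_smul_left (c : F) (u v : Fin n → F) :
    Cfsg.hermForm n F 2 (c • u) v = c * Cfsg.hermForm n F 2 u v := by
  unfold Cfsg.hermForm
  rw [Finset.mul_sum]
  apply Finset.sum_congr rfl
  intro i _
  simp only [Pi.smul_apply, smul_eq_mul]
  ring

theorem h_add_right (hF : Fintype.card F = 4) (u v v' : Fin n → F) :
    Cfsg.hermForm n F 2 u (v + v') = Cfsg.hermForm n F 2 u v + Cfsg.hermForm n F 2 u v' := by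
  have h2 := two_eq_zero hF
  unfold Cfsg.hermForm
  rw [← Finset.sum_add_distrib]
  apply Finset.sum_congr rfl
  intro i _
  simp only [Pi.add_apply]
  linear_combination (u i * v i * v' i) * h2

omit [Fintype F] in
theorem h_smul_right (c : F) (u v : Fin n → F) :
    Cfsg.hermForm n F 2 u (c • v) = c ^ 2 * Cfsg.hermForm n F 2 u v := by
  unfold Cfsg.hermForm
  rw [Finset.mul_sum]
  apply Finset.sum_congr rfl
  intro i _
  simp only [Pi.smul_apply, smul_eq_mul]
  ring

theorem h_swap (hF : Fintype.card F = 4) (u v : Fin n → F) :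
    Cfsg.hermForm n F 2 v u = (Cfsg.hermForm n F 2 u v) ^ 2 := by
  have h2 := two_eq_zero hF
  have : CharP F 2 := CharTwo.of_one_ne_zero_of_two_eq_zero one_ne_zero h2
  unfold Cfsg.hermForm
  rw [sum_pow_char 2]
  apply Finset.sum_congr rfl
  intro i _
  rw [mul_pow, ← pow_mul, show 2 * 2 = 4 from rfl, pow_four hF]
  ring

theorem h_self_01 (hF : Fintype.card F = 4) (u : Fin n → F) :
    Cfsg.hermForm n F 2 u u = 0 ∨ Cfsg.hermForm n F 2 u u = 1 :=
  zero_or_one_of_sq _ (h_swap hF u u).symm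

omit [Fintype F] in
theorem h_zero_left (v : Fin n → F) : Cfsg.hermForm n F 2 0 v = 0 := by
  unfold Cfsg.hermForm
  simp

/-- Coordinatewise square. -/
def sq (v : Fin n → F) : Fin n → F := fun i => v i ^ 2

omit [Fintype F] in
theorem sq_dot (v x : Fin n → F) : sq v ⬝ᵥ x = Cfsg.hermForm n F 2 x v := by
  unfold sq Cfsg.hermForm dotProduct
  apply Finset.sum_congr rfl
  intro i _
  ring

/-- The unitary transvection of an isotropic vector. -/
noncomputable def T (v : Fin n → F) (hv : Cfsg.hermForm n F 2 v v = 0) : GL (Fin n) F :=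
  Matrix.GeneralLinearGroup.mkOfDetNeZero (ro v (sq v))
    (by rw [ro_det, sq_dot, hv, add_zero]; exact one_ne_zero)

omit [Fintype F] in
theorem T_mulVec (v : Fin n → F) (hv : Cfsg.hermForm n F 2 v v = 0) (x : Fin n → F) :
    ((T v hv : GL (Fin n) F) : Matrix (Fin n) (Fin n) F) *ᵥ x = x + Cfsg.hermForm n F 2 x v • v := by
  show ro v (sq v) *ᵥ x = _
  rw [ro_mulVec, sq_dot]

omit [Fintype F] in
theorem T_mem_SL (v : Fin n → F) (hv : Cfsg.hermForm n F 2 v v = 0) :
    T v hv ∈ Cfsg.Geo.specialLinear (Fin n) F := by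
  unfold Cfsg.Geo.specialLinear
  rw [MonoidHom.mem_ker]
  apply Units.ext
  rw [Matrix.GeneralLinearGroup.val_det_apply]
  show (ro v (sq v)).det = 1
  rw [ro_det, sq_dot, hv, add_zero]

theorem T_mem_GU (hF : Fintype.card F = 4) (v : Fin n → F) (hv : Cfsg.hermForm n F 2 v v = 0) :
    T v hv ∈ Cfsg.GU n F 2 := by
  have h2 := two_eq_zero hF
  intro x y
  show Cfsg.hermForm n F 2 (((T v hv : GL (Fin n) F) : Matrix (Fin n) (Fin n) F) *ᵥ x)
    (((T v hv : GL (Fin n) F) : Matrix (Fin n) (Fin n) F) *ᵥ y) = _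
  rw [T_mulVec, T_mulVec, h_add_left, h_smul_left, h_add_right hF, h_add_right hF, h_smul_right,
    h_smul_right, hv, h_swap hF y v]
  linear_combination (Cfsg.hermForm n F 2 x v * Cfsg.hermForm n F 2 y v ^ 2) * h2

theorem T_invol (hF : Fintype.card F = 4) (v : Fin n → F) (hv : Cfsg.hermForm n F 2 v v = 0)
    (x : Fin n → F) :
    ((T v hv : GL (Fin n) F) : Matrix (Fin n) (Fin n) F) *ᵥ
      (((T v hv : GL (Fin n) F) : Matrix (Fin n) (Fin n) F) *ᵥ x) = x := by
  have h2 := two_eq_zero hF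
  rw [T_mulVec, T_mulVec, h_add_left, h_smul_left, hv, mul_zero, add_zero, add_assoc, ← add_smul]
  have : Cfsg.hermForm n F 2 x v + Cfsg.hermForm n F 2 x v = 0 := by
    linear_combination (Cfsg.hermForm n F 2 x v) * h2
  rw [this, zero_smul, add_zero]

variable {t : ℕ} {D : Fin t → Submodule F (Fin n → F)}

omit [Fintype F] in
theorem orth (hD : Cfsg.Geo.IsNondegenerateMDecomposition (Cfsg.hermForm n F 2) 2 D) {a b : Fin t}
    (hab : a ≠ b) {x y : Fin n → F} (hx : x ∈ D a) (hy : y ∈ D b) : Cfsg.hermForm n F 2 x y = 0 :=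
  hD.orthogonal a b hab x hx y hy

omit [Fintype F] in
theorem inter_zero (hD : Cfsg.Geo.IsNondegenerateMDecomposition (Cfsg.hermForm n F 2) 2 D)
    {a b : Fin t} (hab : a ≠ b) {y : Fin n → F} (ha : y ∈ D a) (hb : y ∈ D b) : y = 0 := by
  by_contra hne
  obtain ⟨⟨x, hx, hxy⟩, -⟩ := hD.nondegenerate a y ha hne
  exact hxy (orth hD hab hx hb)

theorem exists_unit (hF : Fintype.card F = 4)
    (hD : Cfsg.Geo.IsNondegenerateMDecomposition (Cfsg.hermForm n F 2) 2 D) (i : Fin t) :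
    ∃ u ∈ D i, Cfsg.hermForm n F 2 u u = 1 := by
  classical
  have h2 := two_eq_zero hF
  by_contra hcon
  push Not at hcon
  have hiso : ∀ x ∈ D i, Cfsg.hermForm n F 2 x x = 0 :=
    fun x hx => (h_self_01 hF x).resolve_right (hcon x hx)
  have hfin := hD.decomp.finrank_eq i
  obtain ⟨w, hw, hw0⟩ : ∃ w ∈ D i, w ≠ 0 := by
    by_contra h
    push Not at h
    have : D i = ⊥ := (Submodule.eq_bot_iff _).mpr h
    rw [this, finrank_bot] at hfin
    omega
  obtain ⟨⟨x, hx, hxw⟩, -⟩ := hD.nondegenerate i w hw hw0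
  have key : ∀ c : F, c ^ 2 * Cfsg.hermForm n F 2 x w + c * Cfsg.hermForm n F 2 x w ^ 2 = 0 := by
    intro c
    have := hiso (x + c • w) ((D i).add_mem hx ((D i).smul_mem c hw))
    rw [h_add_left, h_smul_left, h_add_right hF, h_add_right hF, h_smul_right, h_smul_right,
      hiso x hx, hiso w hw, h_swap hF x w] at this
    linear_combination this
  generalize Cfsg.hermForm n F 2 x w = z at hxw key
  have hz : z = 1 := by
    have h1 := key 1
    have : z * (z + 1) = 0 := by linear_combination h1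
    rcases mul_eq_zero.mp this with h | h
    · exact absurd h hxw
    · linear_combination h - h2
  subst hz
  have hall : ∀ c : F, c = 0 ∨ c = 1 := by
    intro c
    have h1 := key c
    have : c * (c + 1) = 0 := by linear_combination h1
    rcases mul_eq_zero.mp this with h | h
    · exact Or.inl h
    · right; linear_combination h - h2
  have hsub : (Finset.univ : Finset F) ⊆ {0, 1} := by
    intro c _
    rcases hall c with h | h <;> simp [h]
  have hle : Fintype.card F ≤ 2 := by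
    calc Fintype.card F = (Finset.univ : Finset F).card := rfl
      _ ≤ ({0, 1} : Finset F).card := Finset.card_le_card hsub
      _ ≤ 2 := Finset.card_le_two
  omega

theorem dich (hF : Fintype.card F = 4)
    (hD : Cfsg.Geo.IsNondegenerateMDecomposition (Cfsg.hermForm n F 2) 2 D) (a : Fin t)
    (u : Fin n → F) (hu : u ∈ D a) (huu : Cfsg.hermForm n F 2 u u = 1) (x : Fin n → F)
    (hx : x ∈ D a) (hxx : Cfsg.hermForm n F 2 x x ≠ 0) :
    Cfsg.hermForm n F 2 x u = 0 ∨ x = Cfsg.hermForm n F 2 x u • u := by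
  have h2 := two_eq_zero hF
  by_contra hcon
  push Not at hcon
  obtain ⟨hc, hxu⟩ := hcon
  generalize hcdef : Cfsg.hermForm n F 2 x u = c at hc hxu
  -- y = x + c u (characteristic two)
  obtain ⟨y, hydef⟩ : ∃ y, y = x + c • u := ⟨_, rfl⟩
  have hcc : c + c = 0 := by linear_combination c * h2
  have e : x = y + c • u := by
    rw [hydef, add_assoc, ← add_smul, hcc, zero_smul, add_zero]
  have hy : y ∈ D a := by
    rw [hydef]
    exact (D a).add_mem hx ((D a).smul_mem c hu)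
  have hy0 : y ≠ 0 := by
    intro h0
    apply hxu
    rw [e, h0, zero_add]
  have hyu : Cfsg.hermForm n F 2 y u = 0 := by
    rw [hydef, h_add_left, h_smul_left, huu, hcdef]
    linear_combination c * h2
  have huy : Cfsg.hermForm n F 2 u y = 0 := by
    rw [h_swap hF y u, hyu]
    ring
  have hc3 : c ^ 3 = 1 := by
    have := FiniteField.pow_card_sub_one_eq_one c hc
    rwa [hF] at this
  -- norm of x
  have hxx' : Cfsg.hermForm n F 2 x x = Cfsg.hermForm n F 2 y y + 1 := by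
    rw [e, h_add_left, h_smul_left, h_add_right hF, h_add_right hF, h_smul_right, h_smul_right, hyu,
      huy, huu]
    linear_combination hc3
  have hyy : Cfsg.hermForm n F 2 y y = 0 := by
    rcases h_self_01 hF y with h | h
    · exact h
    · exfalso
      apply hxx
      rw [hxx', h]
      linear_combination h2
  -- span {u, y} = D a
  have hli : LinearIndependent F ![u, y] := by
    rw [LinearIndependent.pair_iff]
    intro s r hsr
    have h1 := congrArg (fun v => Cfsg.hermForm n F 2 v u) hsr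
    simp only [h_add_left, h_smul_left, huu, hyu, h_zero_left] at h1
    have hs : s = 0 := by linear_combination h1
    subst hs
    rw [zero_smul, zero_add] at hsr
    refine ⟨rfl, ?_⟩
    rcases smul_eq_zero.mp hsr with h | h
    · exact h
    · exact absurd h hy0
  have hspan : Submodule.span F (Set.range ![u, y]) = D a := by
    apply Submodule.eq_of_le_of_finrank_eq
    · rw [Submodule.span_le]
      rintro _ ⟨j, rfl⟩
      fin_cases j
      · exact hu
      · exact hy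
    · rw [finrank_span_eq_card hli, hD.decomp.finrank_eq a]
      simp
  obtain ⟨⟨x', hx', hx'y⟩, -⟩ := hD.nondegenerate a y hy hy0
  rw [← hspan, Matrix.range_cons_cons_empty, Submodule.mem_span_pair] at hx'
  obtain ⟨α, β, rfl⟩ := hx'
  apply hx'y
  rw [h_add_left, h_smul_left, h_smul_left, huy, hyy]
  ring

/-- The non-isotropic vectors lying in a member of the decomposition. -/
def X (D : Fin t → Submodule F (Fin n → F)) : Set (Fin n → F) :=
  {x | Cfsg.hermForm n F 2 x x ≠ 0 ∧ ∃ i, x ∈ D i}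

/-- The overgroup: elements of `SU` permuting `X`. -/
def KX (D : Fin t → Submodule F (Fin n → F)) : Subgroup (GL (Fin n) F) where
  carrier := {g | g ∈ Cfsg.GU n F 2 ⊓ Cfsg.Geo.specialLinear (Fin n) F ∧
    ∀ x, x ∈ X D ↔ (g : Matrix (Fin n) (Fin n) F) *ᵥ x ∈ X D}
  mul_mem' := by
    rintro a b ⟨ha, ha'⟩ ⟨hb, hb'⟩
    refine ⟨Subgroup.mul_mem _ ha hb, fun x => ?_⟩
    rw [Units.val_mul, ← Matrix.mulVec_mulVec, ← ha', ← hb']
  one_mem' := ⟨Subgroup.one_mem _, fun x => by simp⟩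
  inv_mem' := by
    rintro a ⟨ha, ha'⟩
    refine ⟨Subgroup.inv_mem _ ha, fun x => ?_⟩
    have := ha' (((a⁻¹ : GL (Fin n) F) : Matrix (Fin n) (Fin n) F) *ᵥ x)
    rw [Matrix.mulVec_mulVec, ← Units.val_mul, mul_inv_cancel, Units.val_one, Matrix.one_mulVec] at this
    exact this.symm

omit [Fintype F] in
theorem stab_le : Cfsg.Geo.decompositionStabilizer D ⊓
    (Cfsg.GU n F 2 ⊓ Cfsg.Geo.specialLinear (Fin n) F) ≤ KX D := by
  rintro g ⟨⟨σ, hσ⟩, hg⟩
  refine ⟨hg, fun x => ?_⟩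
  have hU : ∀ u v, Cfsg.hermForm n F 2 ((g : Matrix (Fin n) (Fin n) F) *ᵥ u)
      ((g : Matrix (Fin n) (Fin n) F) *ᵥ v) = Cfsg.hermForm n F 2 u v := hg.1
  constructor
  · rintro ⟨hxx, i, hi⟩
    refine ⟨by rw [hU]; exact hxx, σ i, ?_⟩
    rw [← hσ i, ← Matrix.toLin'_apply]
    exact Submodule.mem_map_of_mem hi
  · rintro ⟨hxx, j, hj⟩
    rw [hU] at hxx
    refine ⟨hxx, σ.symm j, ?_⟩
    have h1 := hσ (σ.symm j)
    rw [Equiv.apply_symm_apply] at h1
    rw [← h1] at hj
    obtain ⟨x', hx', hx'x⟩ := hj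
    rw [Matrix.toLin'_apply] at hx'x
    have h2 := congrArg (fun w => ((g⁻¹ : GL (Fin n) F) : Matrix (Fin n) (Fin n) F) *ᵥ w) hx'x
    simp only [Matrix.mulVec_mulVec] at h2
    rw [← Units.val_mul, inv_mul_cancel, Units.val_one, Matrix.one_mulVec, Matrix.one_mulVec] at h2
    rw [← h2]
    exact hx'

theorem iso_add (hF : Fintype.card F = 4) (p q : Fin n → F) (hp : Cfsg.hermForm n F 2 p p = 0)
    (hq : Cfsg.hermForm n F 2 q q = 0) (hpq : Cfsg.hermForm n F 2 p q = 0) :
    Cfsg.hermForm n F 2 (p + q) (p + q) = 0 := by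
  rw [h_add_left, h_add_right hF, h_add_right hF, hp, hq, hpq, h_swap hF p q, hpq]
  ring

theorem unit_add (hF : Fintype.card F = 4)
    (hD : Cfsg.Geo.IsNondegenerateMDecomposition (Cfsg.hermForm n F 2) 2 D) {a b : Fin t}
    (hab : a ≠ b) {u w : Fin n → F} (hu : u ∈ D a) (hw : w ∈ D b)
    (huu : Cfsg.hermForm n F 2 u u = 1) (hww : Cfsg.hermForm n F 2 w w = 1) :
    Cfsg.hermForm n F 2 (u + w) (u + w) = 0 := by
  have h2 := two_eq_zero hF
  rw [h_add_left, h_add_right hF, h_add_right hF, huu, hww, orth hD hab hu hw,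
    orth hD hab.symm hw hu]
  linear_combination h2

theorem swap_preserve (hF : Fintype.card F = 4)
    (hD : Cfsg.Geo.IsNondegenerateMDecomposition (Cfsg.hermForm n F 2) 2 D) {a b : Fin t}
    (hab : a ≠ b) {u w : Fin n → F} (hu : u ∈ D a) (hw : w ∈ D b)
    (huu : Cfsg.hermForm n F 2 u u = 1) (hww : Cfsg.hermForm n F 2 w w = 1)
    (hv : Cfsg.hermForm n F 2 (u + w) (u + w) = 0) (x : Fin n → F) (hx : x ∈ X D) :
    ((T (u + w) hv : GL (Fin n) F) : Matrix (Fin n) (Fin n) F) *ᵥ x ∈ X D := by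
  have h2 := two_eq_zero hF
  obtain ⟨hxx, i, hi⟩ := hx
  have hGU : ∀ p q, Cfsg.hermForm n F 2 (((T (u + w) hv : GL (Fin n) F) : Matrix (Fin n) (Fin n) F) *ᵥ p)
      (((T (u + w) hv : GL (Fin n) F) : Matrix (Fin n) (Fin n) F) *ᵥ q) = Cfsg.hermForm n F 2 p q :=
    T_mem_GU hF (u + w) hv
  refine ⟨by rw [hGU]; exact hxx, ?_⟩
  rw [T_mulVec, h_add_right hF]
  by_cases hia : i = a
  · subst hia
    rw [orth hD hab hi hw, add_zero]
    rcases dich hF hD i u hu huu x hi hxx with h | h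
    · rw [h, zero_smul, add_zero]
      exact ⟨i, hi⟩
    · refine ⟨b, ?_⟩
      generalize Cfsg.hermForm n F 2 x u = c at h ⊢
      have hcc : c + c = 0 := by linear_combination c * h2
      rw [h, smul_add, ← add_assoc, ← add_smul, hcc, zero_smul, zero_add]
      exact (D b).smul_mem c hw
  · by_cases hib : i = b
    · subst hib
      rw [orth hD hia hi hu, zero_add]
      rcases dich hF hD i w hw hww x hi hxx with h | h
      · rw [h, zero_smul, add_zero]
        exact ⟨i, hi⟩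
      · refine ⟨a, ?_⟩
        generalize Cfsg.hermForm n F 2 x w = c at h ⊢
        have hcc : c + c = 0 := by linear_combination c * h2
        rw [h, smul_add, add_comm (c • u) (c • w), ← add_assoc, ← add_smul, hcc, zero_smul, zero_add]
        exact (D a).smul_mem c hu
    · rw [orth hD hia hi hu, orth hD hib hi hw, add_zero, zero_smul, add_zero]
      exact ⟨i, hi⟩

theorem swap_mem_K (hF : Fintype.card F = 4)
    (hD : Cfsg.Geo.IsNondegenerateMDecomposition (Cfsg.hermForm n F 2) 2 D) {a b : Fin t}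
    (hab : a ≠ b) {u w : Fin n → F} (hu : u ∈ D a) (hw : w ∈ D b)
    (huu : Cfsg.hermForm n F 2 u u = 1) (hww : Cfsg.hermForm n F 2 w w = 1)
    (hv : Cfsg.hermForm n F 2 (u + w) (u + w) = 0) : T (u + w) hv ∈ KX D := by
  refine ⟨⟨T_mem_GU hF _ hv, T_mem_SL _ hv⟩, fun x => ⟨swap_preserve hF hD hab hu hw huu hww hv x, ?_⟩⟩
  intro h
  have := swap_preserve hF hD hab hu hw huu hww hv _ h
  rwa [T_invol hF] at this

theorem swap_not_stab (hF : Fintype.card F = 4)
    (hD : Cfsg.Geo.IsNondegenerateMDecomposition (Cfsg.hermForm n F 2) 2 D) {a b : Fin t}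
    (hab : a ≠ b) {u w : Fin n → F} (hu : u ∈ D a) (hw : w ∈ D b)
    (huu : Cfsg.hermForm n F 2 u u = 1) (hww : Cfsg.hermForm n F 2 w w = 1)
    (hv : Cfsg.hermForm n F 2 (u + w) (u + w) = 0) :
    T (u + w) hv ∉ Cfsg.Geo.decompositionStabilizer D := by
  have h2 := two_eq_zero hF
  rintro ⟨σ, hσ⟩
  have hTu : ((T (u + w) hv : GL (Fin n) F) : Matrix (Fin n) (Fin n) F) *ᵥ u = w := by
    rw [T_mulVec, h_add_right hF, huu, orth hD hab hu hw, add_zero, one_smul, ← add_assoc]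
    have : u + u = 0 := by rw [← two_smul F u, h2, zero_smul]
    rw [this, zero_add]
  have hwσ : w ∈ D (σ a) := by
    have h1 : Matrix.toLin' ((T (u + w) hv : GL (Fin n) F) : Matrix (Fin n) (Fin n) F) u
        ∈ (D a).map (Matrix.toLin' ((T (u + w) hv : GL (Fin n) F) : Matrix (Fin n) (Fin n) F)) :=
      Submodule.mem_map_of_mem hu
    rw [Matrix.toLin'_apply, hTu, hσ a] at h1
    exact h1
  have hσa : σ a = b := by
    by_contra hne
    have := orth hD hne hwσ hw
    rw [hww] at this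
    exact one_ne_zero this
  have hall : ∀ x ∈ D a, x ∈ Submodule.span F {u} := by
    intro x hx
    have hTx : ((T (u + w) hv : GL (Fin n) F) : Matrix (Fin n) (Fin n) F) *ᵥ x ∈ D b := by
      rw [← hσa, ← hσ a, ← Matrix.toLin'_apply]
      exact Submodule.mem_map_of_mem hx
    rw [T_mulVec, h_add_right hF, orth hD hab hx hw, add_zero, smul_add, ← add_assoc] at hTx
    generalize Cfsg.hermForm n F 2 x u = c at hTx
    have h1 : x + c • u ∈ D b := by
      have := (D b).sub_mem hTx ((D b).smul_mem c hw)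
      simpa using this
    have h0 := inter_zero hD hab ((D a).add_mem hx ((D a).smul_mem c hu)) h1
    have : x = (-c) • u := by
      rw [neg_smul]
      exact eq_neg_of_add_eq_zero_left h0
    rw [this]
    exact Submodule.smul_mem _ _ (Submodule.mem_span_singleton_self u)
  have hu0 : u ≠ 0 := by
    rintro rfl
    rw [h_zero_left] at huu
    exact zero_ne_one huu
  have hle : D a ≤ Submodule.span F {u} := hall
  have h1 := Submodule.finrank_mono hle
  rw [hD.decomp.finrank_eq a, finrank_span_singleton hu0] at h1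
  omega

theorem moving (hF : Fintype.card F = 4)
    (hD : Cfsg.Geo.IsNondegenerateMDecomposition (Cfsg.hermForm n F 2) 2 D) {a₁ a₂ a₃ a₄ : Fin t}
    (h12 : a₁ ≠ a₂) (h13 : a₁ ≠ a₃) (h14 : a₁ ≠ a₄) (h23 : a₂ ≠ a₃) (h24 : a₂ ≠ a₄) (h34 : a₃ ≠ a₄)
    {u₁ u₂ u₃ u₄ : Fin n → F} (hu₁ : u₁ ∈ D a₁) (hu₂ : u₂ ∈ D a₂) (hu₃ : u₃ ∈ D a₃) (hu₄ : u₄ ∈ D a₄)
    (e₁ : Cfsg.hermForm n F 2 u₁ u₁ = 1) (e₂ : Cfsg.hermForm n F 2 u₂ u₂ = 1)
    (e₃ : Cfsg.hermForm n F 2 u₃ u₃ = 1) (e₄ : Cfsg.hermForm n F 2 u₄ u₄ = 1) :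
    ∃ g ∈ Cfsg.GU n F 2 ⊓ Cfsg.Geo.specialLinear (Fin n) F,
      ((g : Matrix (Fin n) (Fin n) F) *ᵥ u₁) ∉ X D := by
  have h2 := two_eq_zero hF
  have hv : Cfsg.hermForm n F 2 ((u₁ + u₂) + (u₃ + u₄)) ((u₁ + u₂) + (u₃ + u₄)) = 0 := by
    apply iso_add hF _ _ (unit_add hF hD h12 hu₁ hu₂ e₁ e₂) (unit_add hF hD h34 hu₃ hu₄ e₃ e₄)
    rw [h_add_left, h_add_right hF, h_add_right hF, orth hD h13 hu₁ hu₃, orth hD h14 hu₁ hu₄,
      orth hD h23 hu₂ hu₃, orth hD h24 hu₂ hu₄]
    ring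
  refine ⟨T _ hv, ⟨T_mem_GU hF _ hv, T_mem_SL _ hv⟩, ?_⟩
  rintro ⟨-, i, hi⟩
  rw [T_mulVec] at hi
  have hc : Cfsg.hermForm n F 2 u₁ ((u₁ + u₂) + (u₃ + u₄)) = 1 := by
    rw [h_add_right hF, h_add_right hF, h_add_right hF, e₁, orth hD h12 hu₁ hu₂, orth hD h13 hu₁ hu₃,
      orth hD h14 hu₁ hu₄]
    ring
  rw [hc, one_smul] at hi
  have hr2 : Cfsg.hermForm n F 2 (u₁ + ((u₁ + u₂) + (u₃ + u₄))) u₂ = 1 := by
    rw [h_add_left, h_add_left, h_add_left, h_add_left, e₂, orth hD h12 hu₁ hu₂,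
      orth hD h23.symm hu₃ hu₂, orth hD h24.symm hu₄ hu₂]
    ring
  have hr3 : Cfsg.hermForm n F 2 (u₁ + ((u₁ + u₂) + (u₃ + u₄))) u₃ = 1 := by
    rw [h_add_left, h_add_left, h_add_left, h_add_left, e₃, orth hD h13 hu₁ hu₃,
      orth hD h23 hu₂ hu₃, orth hD h34.symm hu₄ hu₃]
    ring
  have hi2 : i = a₂ := by
    by_contra hne
    rw [orth hD hne hi hu₂] at hr2
    exact zero_ne_one hr2
  have hi3 : i = a₃ := by
    by_contra hne
    rw [orth hD hne hi hu₃] at hr3
    exact zero_ne_one hr3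
  exact h23 (hi2.symm.trans hi3)

/-- Let F be the field with 4 elements (q = 2) and n ≥ 13. Let D be a decomposition of F^n into t pairwise orthogonal 2-dimensional subspaces, each non-degenerate for the standard unitary form Σ u_i v_i². Then the elements of SU_n(2) permuting the members of D form a subgroup that is not maximal: some subgroup lies strictly between it and SU_n(2). -/
theorem result {F : Type*} [Field F] [Fintype F] (n : ℕ) (hF : Fintype.card F = 4) (hn : 13 ≤ n) {t : ℕ} (D : Fin t → Submodule F (Fin n → F)) (hD : Cfsg.Geo.IsNondegenerateMDecomposition (Cfsg.hermForm n F 2) 2 D) : ∃ K : Subgroup (Matrix.GeneralLinearGroup (Fin n) F), Cfsg.Geo.decompositionStabilizer D ⊓ (Cfsg.GU n F 2 ⊓ Cfsg.Geo.specialLinear (Fin n) F) < K ∧ K < (Cfsg.GU n F 2 ⊓ Cfsg.Geo.specialLinear (Fin n) F) := by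
  obtain ⟨C⟩ := exists_coords D hD.decomp.indep hD.decomp.iSup_eq_top hD.decomp.finrank_eq
  have hcard := card_eq C
  rw [Fintype.card_fin] at hcard
  have ht : 4 ≤ t := by omega
  obtain ⟨u₁, hu₁, e₁⟩ := exists_unit hF hD (⟨0, by omega⟩ : Fin t)
  obtain ⟨u₂, hu₂, e₂⟩ := exists_unit hF hD (⟨1, by omega⟩ : Fin t)
  obtain ⟨u₃, hu₃, e₃⟩ := exists_unit hF hD (⟨2, by omega⟩ : Fin t)
  obtain ⟨u₄, hu₄, e₄⟩ := exists_unit hF hD (⟨3, by omega⟩ : Fin t)
  have h12 : (⟨0, by omega⟩ : Fin t) ≠ ⟨1, by omega⟩ := by simp [Fin.ext_iff]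
  have h13 : (⟨0, by omega⟩ : Fin t) ≠ ⟨2, by omega⟩ := by simp [Fin.ext_iff]
  have h14 : (⟨0, by omega⟩ : Fin t) ≠ ⟨3, by omega⟩ := by simp [Fin.ext_iff]
  have h23 : (⟨1, by omega⟩ : Fin t) ≠ ⟨2, by omega⟩ := by simp [Fin.ext_iff]
  have h24 : (⟨1, by omega⟩ : Fin t) ≠ ⟨3, by omega⟩ := by simp [Fin.ext_iff]
  have h34 : (⟨2, by omega⟩ : Fin t) ≠ ⟨3, by omega⟩ := by simp [Fin.ext_iff]
  have hv := unit_add hF hD h12 hu₁ hu₂ e₁ e₂
  refine ⟨KX D, ?_, ?_⟩
  · rw [lt_iff_le_and_ne]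
    refine ⟨stab_le, ?_⟩
    intro heq
    have hmem : T (u₁ + u₂) hv ∈ KX D := swap_mem_K hF hD h12 hu₁ hu₂ e₁ e₂ hv
    rw [← heq] at hmem
    exact swap_not_stab hF hD h12 hu₁ hu₂ e₁ e₂ hv hmem.1
  · rw [lt_iff_le_and_ne]
    refine ⟨fun g hg => hg.1, ?_⟩
    intro heq
    obtain ⟨g, hg, hgX⟩ := moving hF hD h12 h13 h14 h23 h24 h34 hu₁ hu₂ hu₃ hu₄ e₁ e₂ e₃ e₄
    have hmem : g ∈ KX D := by rw [heq]; exact hg
    exact hgX ((hmem.2 u₁).mp ⟨by rw [e₁]; exact one_ne_zero, _, hu₁⟩)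

end Cfsg.Agent.S5656
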