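import Cfsg.Statements.S5657
import Mathlib
import Cfsg.Agent.S5631
import Cfsg.Agent.S5645
import Cfsg.Agent.S5642
import Cfsg.Agent.S5646
import Cfsg.Agent.S5647
import Cfsg.Agent.Lib.Helper28.SLGen
import Cfsg.Agent.Lib.Helper28.Herm

set_option autoImplicit false
open Cfsg

namespace Cfsg.Agent.S5657

open Matrix
open Cfsg.Agent.S5631 Cfsg.Agent.S5645 Cfsg.Agent.S5642 Cfsg.Agent.Lib.Helper28.SLGen
open Cfsg.Agent.Lib.Helper28.Herm

variable {ι : Type} [Fintype ι] [DecidableEq ι] {F : Type*} [Field F]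
variable {σ : F →+* F} {f : (ι → F) → (ι → F) → F}

/-- `g` is the Eichler element `x ↦ x + f(x,w) u − f(x,u) w` -/
def IsE (f : (ι → F) → (ι → F) → F) (g : GL ι F) (w u : ι → F) : Prop :=
  ∀ x, (g : Matrix ι ι F) *ᵥ x = x + f x w • u - f x u • w

theorem exists_E [Nonempty ι] [Finite F] (hf : IsHerm σ f) (w u : ι → F) (hw : f w w = 0)
    (hu : f u u = 0) (huw : f u w = 0) :
    ∃ g : GL ι F, IsE f g w u ∧ Isom f g ∧ g ∈ Cfsg.Geo.specialLinear ι F := by
  obtain ⟨E, hE, hiso, hsl⟩ := eich_exists hf w u 0 hw huw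
    (by rw [hu, map_zero, add_zero, neg_zero])
  refine ⟨E, fun x => ?_, hiso, hsl⟩
  rw [hE, zero_mul, zero_smul, add_zero]

theorem IsE_conj {g : GL ι F} {w u : ι → F} (h : IsE f g w u) (k : GL ι F) (hk : Isom f k) :
    IsE f (k * g * k⁻¹) ((k : Matrix ι ι F) *ᵥ w) ((k : Matrix ι ι F) *ᵥ u) := by
  intro x
  have e : ∀ z, f (((k⁻¹ : GL ι F) : Matrix ι ι F) *ᵥ x) z = f x ((k : Matrix ι ι F) *ᵥ z) := by
    intro z
    have := hk (((k⁻¹ : GL ι F) : Matrix ι ι F) *ᵥ x) z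
    rw [gl_mulVec_inv] at this
    exact this.symm
  rw [Units.val_mul, Units.val_mul, ← Matrix.mulVec_mulVec, ← Matrix.mulVec_mulVec, h,
    Matrix.mulVec_sub, Matrix.mulVec_add, Matrix.mulVec_smul, Matrix.mulVec_smul, gl_mulVec_inv,
    e, e]

/-- Heisenberg commutator of two Eichler elements with the same isotropic vector -/
theorem E_comm (hf : IsHerm σ f) (a x y : ι → F) (haa : f a a = 0) (hxa : f x a = 0)
    (hya : f y a = 0) (g1 g2 : GL ι F) (h1 : IsE f g1 a x) (h2 : IsE f g2 a y)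
    (hd : ((f x y - f y x) • rep f a) ⬝ᵥ a = 0) :
    (g2 * g1)⁻¹ * (g1 * g2) = tvG a ((f x y - f y x) • rep f a) hd := by
  have hax : f a x = 0 := hf.eq_zero_symm hxa
  have hay : f a y = 0 := hf.eq_zero_symm hya
  have key : g1 * g2 = g2 * g1 * tvG a ((f x y - f y x) • rep f a) hd := by
    apply gl_ext
    intro z
    rw [Units.val_mul, Units.val_mul, Units.val_mul, ← Matrix.mulVec_mulVec,
      ← Matrix.mulVec_mulVec, ← Matrix.mulVec_mulVec, uT_mulVec hf, h2, h1, h1, h2]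
    simp only [hf.add_left, hf.sub_left, hf.smul_left, haa, hxa, hya, hax, hay]
    module
  rw [key]
  group

/-- a pair of complementary totally isotropic subspaces -/
structure Pair (f : (ι → F) → (ι → F) → F) (A B : Submodule F (ι → F)) : Prop where
  tiA : ∀ u ∈ A, ∀ v ∈ A, f u v = 0
  tiB : ∀ u ∈ B, ∀ v ∈ B, f u v = 0
  disj : ∀ x ∈ A, x ∈ B → x = 0
  sum : ∀ x, ∃ a ∈ A, ∃ b ∈ B, x = a + b
  dimA : 3 < Module.finrank F A
  dimB : 3 < Module.finrank F B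

theorem Pair.symm {A B : Submodule F (ι → F)} (h : Pair f A B) : Pair f B A :=
  ⟨h.tiB, h.tiA, fun x hx hx' => h.disj x hx' hx, fun x => by
    obtain ⟨a, ha, b, hb, e⟩ := h.sum x
    exact ⟨b, hb, a, ha, by rw [e, add_comm]⟩, h.dimB, h.dimA⟩

theorem Pair.self_perp (hf : IsHerm σ f) {A B : Submodule F (ι → F)} (h : Pair f A B)
    (y : ι → F) (hy : ∀ a ∈ A, f a y = 0) : y ∈ A := by
  obtain ⟨a', ha', b', hb', e⟩ := h.sum y
  have hb0 : b' = 0 := by
    apply hf.nondeg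
    intro x
    obtain ⟨xa, hxa, xb, hxb, ex⟩ := h.sum x
    have h1 : f xa b' = 0 := by
      have h2 := hy xa hxa
      rw [e, hf.add_right, h.tiA xa hxa a' ha', zero_add] at h2
      exact h2
    rw [ex, hf.add_left, h1, h.tiB xb hxb b' hb', add_zero]
  rw [e, hb0, add_zero]
  exact ha'

theorem Pair.exists_pair (hf : IsHerm σ f) {A B : Submodule F (ι → F)} (h : Pair f A B)
    (a : ι → F) (ha : a ∈ A) (ha0 : a ≠ 0) : ∃ b ∈ B, f a b ≠ 0 := by
  obtain ⟨y, hy⟩ : ∃ y, f a y ≠ 0 := by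
    by_contra hcon
    push Not at hcon
    exact ha0 (hf.nondeg' a hcon)
  obtain ⟨ya, hya, yb, hyb, e⟩ := h.sum y
  refine ⟨yb, hyb, ?_⟩
  rw [e, hf.add_right, h.tiA a ha ya hya, zero_add] at hy
  exact hy

theorem exists_orth3 (hf : IsHerm σ f) (A : Submodule F (ι → F)) (hA : 3 < Module.finrank F A)
    (x1 x2 x3 : ι → F) : ∃ a ∈ A, a ≠ 0 ∧ f a x1 = 0 ∧ f a x2 = 0 ∧ f a x3 = 0 := by
  let φ : A →ₗ[F] (Fin 3 → F) :=
    { toFun := fun a => ![f (a : ι → F) x1, f (a : ι → F) x2, f (a : ι → F) x3]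
      map_add' := fun a b => by
        ext i
        fin_cases i <;> simp [hf.add_left]
      map_smul' := fun c a => by
        ext i
        fin_cases i <;> simp [hf.smul_left] }
  have hlt : Module.finrank F (Fin 3 → F) < Module.finrank F A := by
    rw [Module.finrank_fin_fun]
    exact hA
  have hker := LinearMap.ker_ne_bot_of_finrank_lt (f := φ) hlt
  obtain ⟨a, ha, ha0⟩ := (Submodule.ne_bot_iff _).mp hker
  have hφ : φ a = 0 := LinearMap.mem_ker.mp ha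
  refine ⟨a, a.2, fun h0 => ha0 (Subtype.ext h0), ?_, ?_, ?_⟩
  · exact congrFun hφ 0
  · exact congrFun hφ 1
  · exact congrFun hφ 2

section Core

variable [Nonempty ι] [Finite F] (hf : IsHerm σ f) {A B : Submodule F (ι → F)}
  (K : Subgroup (GL ι F))

include hf

theorem E_in_K (h : Pair f A B)
    (hK : ∀ g : GL ι F, Isom f g → g ∈ Cfsg.Geo.specialLinear ι F →
      (∀ x ∈ A, (g : Matrix ι ι F) *ᵥ x ∈ A) → (∀ x ∈ B, (g : Matrix ι ι F) *ᵥ x ∈ B) → g ∈ K)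
    (a b : ι → F) (ha : a ∈ A) (hb : b ∈ B) (hab : f a b = 0) :
    ∃ g ∈ K, IsE f g a b ∧ Isom f g := by
  obtain ⟨g, hg, hiso, hsl⟩ := exists_E hf a b (h.tiA a ha a ha) (h.tiB b hb b hb)
    (hf.eq_zero_symm hab)
  refine ⟨g, hK g hiso hsl ?_ ?_, hg, hiso⟩
  · intro x hx
    rw [hg, h.tiA x hx a ha, zero_smul, add_zero]
    exact A.sub_mem hx (A.smul_mem _ ha)
  · intro x hx
    rw [hg, h.tiB x hx b hb, zero_smul, sub_zero]
    exact B.add_mem hx (B.smul_mem _ hb)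

/-- the key extraction of a unitary transvection -/
theorem caseI (h : Pair f A B) (hKU : ∀ k ∈ K, Isom f k)
    (hK : ∀ g : GL ι F, Isom f g → g ∈ Cfsg.Geo.specialLinear ι F →
      (∀ x ∈ A, (g : Matrix ι ι F) *ᵥ x ∈ A) → (∀ x ∈ B, (g : Matrix ι ι F) *ᵥ x ∈ B) → g ∈ K)
    (k : GL ι F) (hkK : k ∈ K)
    (a b : ι → F) (ha : a ∈ A) (hb : b ∈ B) (hab : f a b = 0)
    (hu : (k : Matrix ι ι F) *ᵥ a ∉ B) (hv : (k : Matrix ι ι F) *ᵥ b ∉ B) :
    ∃ a0 ∈ A, a0 ≠ 0 ∧ ∃ c0 : F, c0 ≠ 0 ∧ c0 + σ c0 = 0 ∧ T K a0 (c0 • rep f a0) := by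
  have hk : Isom f k := hKU k hkK
  obtain ⟨u, hu_def⟩ : ∃ u, u = (k : Matrix ι ι F) *ᵥ a := ⟨_, rfl⟩
  rw [← hu_def] at hu
  obtain ⟨b1, hb1, hb1u⟩ : ∃ b1 ∈ B, f b1 u ≠ 0 := by
    by_contra hcon
    push Not at hcon
    exact hu (h.symm.self_perp hf u hcon)
  obtain ⟨b2, hb2, hb2v⟩ : ∃ b2 ∈ B, f b2 ((k : Matrix ι ι F) *ᵥ b) ≠ 0 := by
    by_contra hcon
    push Not at hcon
    exact hv (h.symm.self_perp hf _ hcon)
  obtain ⟨b0, hb0, hb0u, hb0v⟩ : ∃ b0 ∈ B, f b0 u ≠ 0 ∧ f b0 ((k : Matrix ι ι F) *ᵥ b) ≠ 0 := by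
    by_cases h1 : f b1 ((k : Matrix ι ι F) *ᵥ b) = 0
    · by_cases h3 : f b2 u = 0
      · refine ⟨b1 + b2, B.add_mem hb1 hb2, ?_, ?_⟩
        · rw [hf.add_left, h3, add_zero]
          exact hb1u
        · rw [hf.add_left, h1, zero_add]
          exact hb2v
      · exact ⟨b2, hb2, h3, hb2v⟩
    · exact ⟨b1, hb1, hb1u, h1⟩
  obtain ⟨θ, hθ⟩ := hf.ne_id
  obtain ⟨μ, hμz⟩ : ∃ μ : F, σ (σ (f b0 u) * f b0 ((k : Matrix ι ι F) *ᵥ (μ • b))) ≠
      σ (f b0 u) * f b0 ((k : Matrix ι ι F) *ᵥ (μ • b)) := by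
    by_cases hz : σ (σ (f b0 u) * f b0 ((k : Matrix ι ι F) *ᵥ b)) =
        σ (f b0 u) * f b0 ((k : Matrix ι ι F) *ᵥ b)
    · refine ⟨θ, ?_⟩
      rw [Matrix.mulVec_smul, hf.smul_right]
      have e : σ (f b0 u) * (σ θ * f b0 ((k : Matrix ι ι F) *ᵥ b)) =
          σ θ * (σ (f b0 u) * f b0 ((k : Matrix ι ι F) *ᵥ b)) := by ring
      rw [e, map_mul, hf.invol, hz]
      intro hcon
      have h0 : σ (f b0 u) * f b0 ((k : Matrix ι ι F) *ᵥ b) ≠ 0 :=
        mul_ne_zero ((map_ne_zero σ).mpr hb0u) hb0v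
      exact hθ (mul_right_cancel₀ h0 hcon).symm
    · exact ⟨1, by rw [one_smul]; exact hz⟩
  obtain ⟨b', hb'_def⟩ : ∃ b', b' = μ • b := ⟨_, rfl⟩
  rw [← hb'_def] at hμz
  have hb' : b' ∈ B := by
    rw [hb'_def]
    exact B.smul_mem _ hb
  have hab' : f a b' = 0 := by rw [hb'_def, hf.smul_right, hab, mul_zero]
  obtain ⟨v, hv_def⟩ : ∃ v, v = (k : Matrix ι ι F) *ᵥ b' := ⟨_, rfl⟩
  rw [← hv_def] at hμz
  have huv : f u v = 0 := by
    rw [hu_def, hv_def, hk]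
    exact hab'
  obtain ⟨g0, hg0K, hg0E, -⟩ := E_in_K hf K h hK a b' ha hb' hab'
  have hT := IsE_conj hg0E k hk
  rw [← hu_def, ← hv_def] at hT
  have hTK : k * g0 * k⁻¹ ∈ K := K.mul_mem (K.mul_mem hkK hg0K) (K.inv_mem hkK)
  have hTi : Isom f (k * g0 * k⁻¹) := hKU _ hTK
  obtain ⟨a0, ha0, ha00, hab0, ha0u, ha0v⟩ := exists_orth3 hf A h.dimA b0 u v
  have hTa0 : ((k * g0 * k⁻¹ : GL ι F) : Matrix ι ι F) *ᵥ a0 = a0 := by
    rw [hT, ha0u, ha0v, zero_smul, zero_smul, add_zero, sub_zero]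
  obtain ⟨θ1, hθ1⟩ := hf.exists_tr 1 (map_one σ)
  obtain ⟨X1, hX1K, hX1E, -⟩ := E_in_K hf K h hK a0 b0 ha0 hb0 hab0
  obtain ⟨X2', hX2'K, hX2'E, -⟩ := E_in_K hf K h hK a0 (θ1 • b0) ha0 (B.smul_mem _ hb0)
    (by rw [hf.smul_right, hab0, mul_zero])
  have hX2E := IsE_conj hX2'E (k * g0 * k⁻¹) hTi
  rw [hTa0] at hX2E
  have hX2K : (k * g0 * k⁻¹) * X2' * (k * g0 * k⁻¹)⁻¹ ∈ K :=
    K.mul_mem (K.mul_mem hTK hX2'K) (K.inv_mem hTK)
  obtain ⟨y, hy_def⟩ : ∃ y, y = ((k * g0 * k⁻¹ : GL ι F) : Matrix ι ι F) *ᵥ (θ1 • b0) :=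
    ⟨_, rfl⟩
  rw [← hy_def] at hX2E
  have hy_eq : y = θ1 • b0 + f (θ1 • b0) u • v - f (θ1 • b0) v • u := by rw [hy_def, hT]
  have hb0a0 : f b0 a0 = 0 := hf.eq_zero_symm hab0
  have hua0 : f u a0 = 0 := hf.eq_zero_symm ha0u
  have hva0 : f v a0 = 0 := hf.eq_zero_symm ha0v
  have hya0 : f y a0 = 0 := by
    rw [hy_eq]
    simp only [hf.sub_left, hf.add_left, hf.smul_left, hb0a0, hua0, hva0]
    ring
  have e1 : f b0 y = σ θ1 * (σ (f b0 u) * f b0 v - f b0 u * σ (f b0 v)) := by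
    rw [hy_eq]
    simp only [hf.sub_right, hf.add_right, hf.smul_right, hf.smul_left, h.tiB b0 hb0 b0 hb0,
      map_mul]
    ring
  have e2 : f y b0 = θ1 * (f b0 u * σ (f b0 v) - σ (f b0 u) * f b0 v) := by
    rw [hf.herm y b0, e1]
    simp only [map_mul, map_sub, hf.invol]
  have hc0 : f b0 y - f y b0 = σ (f b0 u) * f b0 v - f b0 u * σ (f b0 v) := by
    rw [e1, e2]
    linear_combination (σ (f b0 u) * f b0 v - f b0 u * σ (f b0 v)) * hθ1
  have hd : ((f b0 y - f y b0) • rep f a0) ⬝ᵥ a0 = 0 := uT_dot hf a0 _ (h.tiA a0 ha0 a0 ha0)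
  have hcomm := E_comm hf a0 b0 y (h.tiA a0 ha0 a0 ha0) hb0a0 hya0 X1 _ hX1E hX2E hd
  refine ⟨a0, ha0, ha00, f b0 y - f y b0, ?_, ?_, hd, ?_⟩
  · rw [hc0]
    intro hcon
    apply hμz
    rw [map_mul, hf.invol]
    linear_combination -hcon
  · rw [map_sub, ← hf.herm y b0, ← hf.herm b0 y]
    ring
  · rw [← hcomm]
    exact K.mul_mem (K.inv_mem (K.mul_mem hX2K hX1K)) (K.mul_mem hX1K hX2K)

end Core

section Core2

variable [Nonempty ι] [Finite F] (hf : IsHerm σ f) {A B : Submodule F (ι → F)}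
  (K : Subgroup (GL ι F))

include hf

theorem move (h : Pair f A B)
    (hK : ∀ g : GL ι F, Isom f g → g ∈ Cfsg.Geo.specialLinear ι F →
      (∀ x ∈ A, (g : Matrix ι ι F) *ᵥ x ∈ A) → (∀ x ∈ B, (g : Matrix ι ι F) *ᵥ x ∈ B) → g ∈ K)
    (c0 : F) (a0 a : ι → F) (ha0 : a0 ∈ A) (ha : a ∈ A) (h0 : a0 ≠ 0)
    (hne : ∀ lam : F, a ≠ lam • a0) (hP : T K a0 (c0 • rep f a0)) : T K a (c0 • rep f a) := by
  have hnot : a0 ∉ B ⊔ Submodule.span F {a0 - a} := by
    intro hmem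
    obtain ⟨b', hb', z, hz, e⟩ := Submodule.mem_sup.mp hmem
    obtain ⟨μ, rfl⟩ := Submodule.mem_span_singleton.mp hz
    have hb'A : b' ∈ A := by
      have e2 : b' = a0 - μ • (a0 - a) := by
        rw [eq_sub_iff_add_eq]
        exact e
      rw [e2]
      exact A.sub_mem ha0 (A.smul_mem _ (A.sub_mem ha0 ha))
    have hb0 := h.disj b' hb'A hb'
    rw [hb0, zero_add] at e
    by_cases hμ : μ = 0
    · rw [hμ, zero_smul] at e
      exact h0 e.symm
    · apply hne ((μ - 1) / μ)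
      have e2 : μ • a = (μ - 1) • a0 := by
        calc μ • a = μ • a0 - μ • (a0 - a) := by
              rw [smul_sub]
              abel
          _ = μ • a0 - a0 := by rw [e]
          _ = (μ - 1) • a0 := by rw [sub_smul, one_smul]
      calc a = μ⁻¹ • (μ • a) := by rw [smul_smul, inv_mul_cancel₀ hμ, one_smul]
        _ = ((μ - 1) / μ) • a0 := by
          rw [e2, smul_smul]
          congr 1
          field_simp
  obtain ⟨y, hy0, hy1⟩ := hf.exists_perp _ a0 hnot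
  have hyB : y ∈ B := h.symm.self_perp hf y (fun b hb => hy0 b (Submodule.mem_sup_left hb))
  have hd : f (a0 - a) y = 0 :=
    hy0 _ (Submodule.mem_sup_right (Submodule.mem_span_singleton_self _))
  obtain ⟨g, hgK, hgE, hgi⟩ := E_in_K hf K h hK (a0 - a) y (A.sub_mem ha0 ha) hyB hd
  have e : (g : Matrix ι ι F) *ᵥ a0 = a := by
    rw [hgE, h.tiA a0 ha0 _ (A.sub_mem ha0 ha), zero_smul, add_zero, hy1, one_smul]
    abel
  have h1 := T_conj_isom hf K g hgK hgi hP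
  rw [e] at h1
  exact h1

theorem allA (h : Pair f A B)
    (hK : ∀ g : GL ι F, Isom f g → g ∈ Cfsg.Geo.specialLinear ι F →
      (∀ x ∈ A, (g : Matrix ι ι F) *ᵥ x ∈ A) → (∀ x ∈ B, (g : Matrix ι ι F) *ᵥ x ∈ B) → g ∈ K)
    (c0 : F) (hc0 : c0 ≠ 0) (hc0' : c0 + σ c0 = 0) (a0 : ι → F) (ha0 : a0 ∈ A) (h0 : a0 ≠ 0)
    (hP : T K a0 (c0 • rep f a0)) : ∀ a ∈ A, P σ f K a := by
  obtain ⟨b1, hb1, hab1⟩ := h.exists_pair hf a0 ha0 h0
  obtain ⟨a2, ha2, ha20, ha2b, -, -⟩ := exists_orth3 hf A h.dimA b1 b1 b1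
  have hP2 : T K a2 (c0 • rep f a2) := by
    apply move hf K h hK c0 a0 a2 ha0 ha2 h0 _ hP
    intro lam e
    rw [e, hf.smul_left] at ha2b
    rcases mul_eq_zero.mp ha2b with h1 | h1
    · rw [h1, zero_smul] at e
      exact ha20 e
    · exact hab1 h1
  have hstep : ∀ a ∈ A, T K a (c0 • rep f a) := by
    intro a ha
    by_cases ha00 : a = 0
    · have hd : (c0 • rep f a) ⬝ᵥ a = 0 := by rw [ha00, dotProduct_zero]
      refine ⟨hd, ?_⟩
      have e : tvG a (c0 • rep f a) hd = 1 := by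
        apply gl_ext
        intro x
        rw [tvG_mulVec, ha00, smul_zero, add_zero, Units.val_one, Matrix.one_mulVec]
      rw [e]
      exact K.one_mem
    by_cases hc : ∀ lam : F, a ≠ lam • a0
    · exact move hf K h hK c0 a0 a ha0 ha h0 hc hP
    · push Not at hc
      obtain ⟨lam, rfl⟩ := hc
      apply move hf K h hK c0 a2 _ ha2 ha ha20 _ hP2
      intro μ e
      have e2 := congrArg (fun z => f z b1) e
      simp only [hf.smul_left, ha2b, mul_zero] at e2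
      rcases mul_eq_zero.mp e2 with h1 | h1
      · apply ha00
        rw [h1, zero_smul]
      · exact hab1 h1
  intro a ha
  refine ⟨h.tiA a ha a ha, fun c hc => ?_⟩
  have hσc : σ c = -c := by linear_combination hc
  have hσc0 : σ c0 = -c0 := by linear_combination hc0'
  have ht : σ (c / c0) = c / c0 := by
    rw [map_div₀, hσc, hσc0, neg_div_neg_eq]
  obtain ⟨lam, hlam⟩ := hf.norm_surj (c / c0) ht
  have h1 := hstep (lam • a) (A.smul_mem _ ha)
  rw [T_smul, hf.rep_smul, smul_smul, smul_smul] at h1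
  have e : lam * c0 * σ lam = c := by
    calc lam * c0 * σ lam = c0 * (σ lam * lam) := by ring
      _ = c := by
        rw [hlam]
        field_simp
  rw [e] at h1
  exact h1

/-- induction over the dimension of `B ∩ gB`: elements of the isometry group stabilising `A`
lie in `K` -/
theorem compl (h : Pair f A B)
    (hK : ∀ g : GL ι F, Isom f g → g ∈ Cfsg.Geo.specialLinear ι F →
      (∀ x ∈ A, (g : Matrix ι ι F) *ᵥ x ∈ A) → (∀ x ∈ B, (g : Matrix ι ι F) *ᵥ x ∈ B) → g ∈ K)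
    (PA : ∀ a ∈ A, P σ f K a) :
    ∀ d : ℕ, ∀ g : GL ι F, Isom f g → g ∈ Cfsg.Geo.specialLinear ι F →
      (∀ x, x ∈ A ↔ (g : Matrix ι ι F) *ᵥ x ∈ A) →
      Module.finrank F B ≤ Module.finrank F
        (B ⊓ B.map (glEquiv g : (ι → F) →ₗ[F] (ι → F)) : Submodule F (ι → F)) + d →
      g ∈ K := by
  intro d
  induction d with
  | zero =>
    intro g hgi hgs hgA hfin
    have hle : B ⊓ B.map (glEquiv g : (ι → F) →ₗ[F] (ι → F)) = B :=
      Submodule.eq_of_le_of_finrank_le inf_le_left (by simpa using hfin)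
    have hBg : B ≤ B.map (glEquiv g : (ι → F) →ₗ[F] (ι → F)) := by
      intro x hx
      have h1 : x ∈ B ⊓ B.map (glEquiv g : (ι → F) →ₗ[F] (ι → F)) := by
        rw [hle]
        exact hx
      exact h1.2
    have heq : B = B.map (glEquiv g : (ι → F) →ₗ[F] (ι → F)) :=
      Submodule.eq_of_le_of_finrank_eq hBg (LinearEquiv.finrank_map_eq (glEquiv g) B).symm
    apply hK g hgi hgs (fun x hx => (hgA x).mp hx)
    intro x hx
    have h1 : (g : Matrix ι ι F) *ᵥ x ∈ B.map (glEquiv g : (ι → F) →ₗ[F] (ι → F)) :=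
      ⟨x, hx, rfl⟩
    rw [← heq] at h1
    exact h1
  | succ d ih =>
    intro g hgi hgs hgA hfin
    by_cases h0 : Module.finrank F B ≤ Module.finrank F
        (B ⊓ B.map (glEquiv g : (ι → F) →ₗ[F] (ι → F)) : Submodule F (ι → F)) + d
    · exact ih g hgi hgs hgA h0
    have hnot : ¬ (B.map (glEquiv g : (ι → F) →ₗ[F] (ι → F)) ≤ B) := by
      intro hle
      have heq : B.map (glEquiv g : (ι → F) →ₗ[F] (ι → F)) = B :=
        Submodule.eq_of_le_of_finrank_eq hle (LinearEquiv.finrank_map_eq (glEquiv g) B)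
      apply h0
      rw [heq, inf_idem]
      omega
    obtain ⟨B', hB'_def⟩ : ∃ B' : Submodule F (ι → F),
        B' = B.map (glEquiv g : (ι → F) →ₗ[F] (ι → F)) := ⟨_, rfl⟩
    rw [← hB'_def] at hnot h0 hfin
    have hmemB' : ∀ x ∈ B, (g : Matrix ι ι F) *ᵥ x ∈ B' := by
      intro x hx
      rw [hB'_def]
      exact ⟨x, hx, rfl⟩
    have hB'ex : ∀ x ∈ B', ∃ x0 ∈ B, (g : Matrix ι ι F) *ᵥ x0 = x := by
      intro x hx
      rw [hB'_def] at hx
      obtain ⟨x0, hx0, e⟩ := hx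
      exact ⟨x0, hx0, e⟩
    have hA'disj : ∀ x ∈ A, x ∈ B' → x = 0 := by
      intro x hxA hxB'
      obtain ⟨x0, hx0, rfl⟩ := hB'ex x hxB'
      have h1 := (hgA x0).mpr hxA
      rw [h.disj x0 h1 hx0, Matrix.mulVec_zero]
    have hB'ti : ∀ u ∈ B', ∀ v ∈ B', f u v = 0 := by
      intro u hu v hv
      obtain ⟨u0, hu0, rfl⟩ := hB'ex u hu
      obtain ⟨v0, hv0, rfl⟩ := hB'ex v hv
      exact (hgi u0 v0).trans (h.tiB u0 hu0 v0 hv0)
    obtain ⟨θ, hθ⟩ := hf.ne_id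
    obtain ⟨b', hb', a1, ha1, b2, hb2, hdec, hβ⟩ : ∃ b' ∈ B', ∃ a1 ∈ A, ∃ b2 ∈ B,
        b' = a1 + b2 ∧ f b' a1 ≠ 0 := by
      by_contra hcon
      push Not at hcon
      obtain ⟨p, hp, hpB⟩ := SetLike.not_le_iff_exists.mp hnot
      obtain ⟨pa, hpa, pb, hpb, ep⟩ := h.sum p
      have hpa0 : pa ≠ 0 := by
        intro h1
        apply hpB
        rw [ep, h1, zero_add]
        exact hpb
      obtain ⟨q, hq, hqpa⟩ : ∃ q ∈ B', f q pa ≠ 0 := by
        obtain ⟨y, hy⟩ : ∃ y, f y pa ≠ 0 := by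
          by_contra hcon2
          push Not at hcon2
          exact hpa0 (hf.nondeg pa hcon2)
        obtain ⟨a'', ha'', b'', hb'', e⟩ := h.sum (((g⁻¹ : GL ι F) : Matrix ι ι F) *ᵥ y)
        have e2 : y = (g : Matrix ι ι F) *ᵥ a'' + (g : Matrix ι ι F) *ᵥ b'' := by
          rw [← Matrix.mulVec_add, ← e, gl_mulVec_inv]
        refine ⟨_, hmemB' b'' hb'', ?_⟩
        rw [e2, hf.add_left, h.tiA _ ((hgA a'').mp ha'') pa hpa, zero_add] at hy
        exact hy
      obtain ⟨qa, hqa, qb, hqb, eq⟩ := h.sum q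
      have h1 := hcon p hp pa hpa pb hpb ep
      have h2 := hcon q hq qa hqa qb hqb eq
      have h3 := hcon (p + q) (B'.add_mem hp hq) (pa + qa) (A.add_mem hpa hqa) (pb + qb)
        (B.add_mem hpb hqb) (by rw [ep, eq]; abel)
      have h4 := hcon (p + θ • q) (B'.add_mem hp (B'.smul_mem _ hq)) (pa + θ • qa)
        (A.add_mem hpa (A.smul_mem _ hqa)) (pb + θ • qb) (B.add_mem hpb (B.smul_mem _ hqb))
        (by rw [ep, eq, smul_add]; abel)
      rw [hf.add_left, hf.add_right, hf.add_right, h1, h2, zero_add, add_zero] at h3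
      rw [hf.add_left, hf.add_right, hf.add_right, hf.smul_left, hf.smul_left, hf.smul_right,
        hf.smul_right, h1, h2, zero_add, mul_zero, mul_zero, add_zero] at h4
      have h5 : (θ - σ θ) * f q pa = 0 := by linear_combination h4 - σ θ * h3
      rcases mul_eq_zero.mp h5 with h6 | h6
      · exact hθ (sub_eq_zero.mp h6).symm
      · exact hqpa h6
    have hb2_eq : b2 = b' - a1 := by
      rw [hdec]
      abel
    have hσβ : σ (f b' a1) = - f b' a1 := by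
      have h1 := h.tiB b2 hb2 b2 hb2
      rw [hb2_eq, hf.sub_left, hf.sub_right, hf.sub_right, hB'ti b' hb' b' hb',
        h.tiA a1 ha1 a1 ha1, hf.herm a1 b'] at h1
      linear_combination -h1
    have hc : -(f b' a1)⁻¹ + σ (-(f b' a1)⁻¹) = 0 := by
      rw [map_neg, map_inv₀, hσβ]
      field_simp
      ring
    obtain ⟨hd, ht⟩ := (PA a1 ha1).2 _ hc
    have hti : Isom f (tvG a1 ((-(f b' a1)⁻¹) • rep f a1) hd) :=
      uT_isom hf a1 _ (h.tiA a1 ha1 a1 ha1) hc hd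
    have hmem : tvG a1 ((-(f b' a1)⁻¹) • rep f a1) hd * g ∈ K := by
      apply ih _ (isom_mul hti hgi) (Subgroup.mul_mem _ (tvG_mem_SL _ _ _) hgs)
      · intro x
        rw [Units.val_mul, ← Matrix.mulVec_mulVec, uT_mulVec hf,
          A.add_mem_iff_left (A.smul_mem _ ha1)]
        exact hgA x
      · have hlt : B ⊓ B' < B ⊓ B.map (glEquiv (tvG a1 ((-(f b' a1)⁻¹) • rep f a1) hd * g) :
            (ι → F) →ₗ[F] (ι → F)) := by
          rw [SetLike.lt_iff_le_and_exists]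
          refine ⟨?_, b2, ⟨hb2, ?_⟩, ?_⟩
          · intro x hx
            refine ⟨hx.1, ?_⟩
            obtain ⟨x0, hx0, e⟩ := hB'ex x hx.2
            refine ⟨x0, hx0, ?_⟩
            show ((tvG a1 ((-(f b' a1)⁻¹) • rep f a1) hd * g : GL ι F) : Matrix ι ι F) *ᵥ x0 = x
            rw [Units.val_mul, ← Matrix.mulVec_mulVec, e, uT_mulVec hf]
            have e3 : f x a1 = 0 := by
              have e4 : a1 = b' - b2 := by
                rw [hdec]
                abel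
              rw [e4, hf.sub_right, hB'ti x hx.2 b' hb', h.tiB x hx.1 b2 hb2, sub_zero]
            rw [e3, mul_zero, zero_smul, add_zero]
          · obtain ⟨x0, hx0, e⟩ := hB'ex b' hb'
            refine ⟨x0, hx0, ?_⟩
            show ((tvG a1 ((-(f b' a1)⁻¹) • rep f a1) hd * g : GL ι F) : Matrix ι ι F) *ᵥ x0 = b2
            rw [Units.val_mul, ← Matrix.mulVec_mulVec, e, uT_mulVec hf, neg_mul,
              inv_mul_cancel₀ hβ, hb2_eq]
            rw [neg_smul, one_smul]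
            abel
          · intro hcon
            have h1 : a1 ∈ B' := by
              have e4 : a1 = b' - b2 := by
                rw [hdec]
                abel
              rw [e4]
              exact B'.sub_mem hb' hcon.2
            apply hβ
            rw [hA'disj a1 ha1 h1, hf.zero_right]
        have h5 := Submodule.finrank_lt_finrank_of_lt hlt
        omega
    have h6 := K.mul_mem (K.inv_mem ht) hmem
    rw [inv_mul_cancel_left] at h6
    exact h6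

end Core2

section Core3

variable [Nonempty ι] [Finite F] (hf : IsHerm σ f) {A B : Submodule F (ι → F)}
  (K : Subgroup (GL ι F))

include hf

theorem fin (h : Pair f A B) (hKU : ∀ k ∈ K, Isom f k)
    (hKS : ∀ k ∈ K, k ∈ Cfsg.Geo.specialLinear ι F)
    (hK : ∀ g : GL ι F, Isom f g → g ∈ Cfsg.Geo.specialLinear ι F →
      (∀ x ∈ A, (g : Matrix ι ι F) *ᵥ x ∈ A) → (∀ x ∈ B, (g : Matrix ι ι F) *ᵥ x ∈ B) → g ∈ K)
    (hsw : ∃ s ∈ K, (∀ x ∈ A, (s : Matrix ι ι F) *ᵥ x ∈ B) ∧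
      (∀ x ∈ B, (s : Matrix ι ι F) *ᵥ x ∈ A))
    (PA : ∀ a ∈ A, P σ f K a) :
    ∀ s : GL ι F, Isom f s → s ∈ Cfsg.Geo.specialLinear ι F → s ∈ K := by
  obtain ⟨w, hwK, hwA, hwB⟩ := hsw
  have hwi := hKU w hwK
  have PB : ∀ b ∈ B, P σ f K b := by
    intro b hb
    have h1 := P_conj hf K (PA _ (hwB b hb)) w⁻¹ (K.inv_mem hwK) (isom_inv hwi)
    rw [gl_inv_mulVec] at h1
    exact h1
  obtain ⟨ζ, hζ0, hζ⟩ := hf.exists_zeta
  have hall : ∀ y, f y y = 0 → P σ f K y := by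
    intro y hy
    obtain ⟨a, ha, b, hb, rfl⟩ := h.sum y
    by_cases hab : f a b = 0
    · by_cases ha0 : a = 0
      · rw [ha0, zero_add]
        exact PB b hb
      · obtain ⟨b1, hb1, hab1⟩ := h.exists_pair hf a ha ha0
        obtain ⟨b', hb'_def⟩ : ∃ b', b' = σ (ζ / f a b1) • b1 := ⟨_, rfl⟩
        have hb' : b' ∈ B := by
          rw [hb'_def]
          exact B.smul_mem _ hb1
        have hab' : f a b' = ζ := by
          rw [hb'_def, hf.smul_right, hf.invol, div_mul_cancel₀ _ hab1]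
        have hb'a : f b' a = σ ζ := by rw [hf.herm b' a, hab']
        have hiso1 : f (a + (1 : F) • b') (a + (1 : F) • b') = 0 := by
          rw [one_smul, hf.add_left, hf.add_right, hf.add_right, h.tiA a ha a ha,
            h.tiB b' hb' b' hb', hab', hb'a]
          linear_combination hζ
        have h1 := P_line hf K (PA a ha) (PB b' hb') (by rw [hab']; exact hζ0) 1 hiso1
        rw [one_smul] at h1
        have h3 : f (a + b') (b - b') ≠ 0 := by
          rw [hf.add_left, hf.sub_right, hf.sub_right, hab, hab', h.tiB b' hb' b hb,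
            h.tiB b' hb' b' hb', zero_sub, sub_zero, add_zero]
          exact neg_ne_zero.mpr hζ0
        have e : a + b' + (1 : F) • (b - b') = a + b := by
          rw [one_smul]
          abel
        have hiso2 : f (a + b' + (1 : F) • (b - b')) (a + b' + (1 : F) • (b - b')) = 0 := by
          rw [e]
          exact hy
        have h4 := P_line hf K h1 (PB _ (B.sub_mem hb hb')) h3 1 hiso2
        rw [e] at h4
        exact h4
    · have h1 := P_line hf K (PA a ha) (PB b hb) hab 1 (by rw [one_smul]; exact hy)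
      rw [one_smul] at h1
      exact h1
  intro s hsi hss
  have hti2 : ∀ u ∈ A.map (glEquiv s : (ι → F) →ₗ[F] (ι → F)),
      ∀ v ∈ A.map (glEquiv s : (ι → F) →ₗ[F] (ι → F)), f u v = 0 := by
    rintro _ ⟨u, hu, rfl⟩ _ ⟨v, hv, rfl⟩
    exact (hsi u v).trans (h.tiA u hu v hv)
  obtain ⟨k, hk, hkv⟩ := ts_trans hf K hKU (fun a c ha hc => (hall a ha).2 c hc)
    (Module.finrank F A) A (A.map (glEquiv s : (ι → F) →ₗ[F] (ι → F)))
    h.tiA hti2 (LinearEquiv.finrank_map_eq (glEquiv s) A).symm (Nat.le_add_left _ _)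
  have hmem : k⁻¹ * s ∈ K := by
    apply compl hf K h hK PA (Module.finrank F B) (k⁻¹ * s)
      (isom_mul (isom_inv (hKU k hk)) hsi)
      (Subgroup.mul_mem _ (Subgroup.inv_mem _ (hKS k hk)) hss) _ (Nat.le_add_left _ _)
    intro v
    have h1 := hkv (((k⁻¹ : GL ι F) : Matrix ι ι F) *ᵥ ((s : Matrix ι ι F) *ᵥ v))
    rw [gl_mulVec_inv] at h1
    rw [Units.val_mul, ← Matrix.mulVec_mulVec, h1]
    constructor
    · intro hv
      exact ⟨v, hv, rfl⟩
    · rintro ⟨y, hy, e⟩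
      have : y = v := (glEquiv s).injective e
      rw [← this]
      exact hy
  have := K.mul_mem hk hmem
  rwa [mul_inv_cancel_left] at this

theorem main (h : Pair f A B) (hKU : ∀ k ∈ K, Isom f k)
    (hKS : ∀ k ∈ K, k ∈ Cfsg.Geo.specialLinear ι F)
    (hK : ∀ g : GL ι F, Isom f g → g ∈ Cfsg.Geo.specialLinear ι F →
      (∀ x ∈ A, (g : Matrix ι ι F) *ᵥ x ∈ A) → (∀ x ∈ B, (g : Matrix ι ι F) *ᵥ x ∈ B) → g ∈ K)
    (hsw : ∃ s ∈ K, (∀ x ∈ A, (s : Matrix ι ι F) *ᵥ x ∈ B) ∧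
      (∀ x ∈ B, (s : Matrix ι ι F) *ᵥ x ∈ A))
    (g : GL ι F) (hgK : g ∈ K)
    (hg1 : ¬ ((∀ x ∈ A, (g : Matrix ι ι F) *ᵥ x ∈ A) ∧ (∀ x ∈ B, (g : Matrix ι ι F) *ᵥ x ∈ B)))
    (hg2 : ¬ ((∀ x ∈ A, (g : Matrix ι ι F) *ᵥ x ∈ B) ∧ (∀ x ∈ B, (g : Matrix ι ι F) *ᵥ x ∈ A))) :
    ∀ s : GL ι F, Isom f s → s ∈ Cfsg.Geo.specialLinear ι F → s ∈ K := by
  have hK' : ∀ g : GL ι F, Isom f g → g ∈ Cfsg.Geo.specialLinear ι F →
      (∀ x ∈ B, (g : Matrix ι ι F) *ᵥ x ∈ B) → (∀ x ∈ A, (g : Matrix ι ι F) *ᵥ x ∈ A) → g ∈ K :=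
    fun g hg hs hB hA => hK g hg hs hA hB
  have hsw' : ∃ s ∈ K, (∀ x ∈ B, (s : Matrix ι ι F) *ᵥ x ∈ A) ∧
      (∀ x ∈ A, (s : Matrix ι ι F) *ᵥ x ∈ B) := by
    obtain ⟨s, hsK, hsA, hsB⟩ := hsw
    exact ⟨s, hsK, hsB, hsA⟩
  by_cases hex1 : ∃ a ∈ A, ∃ b ∈ B, f a b = 0 ∧ (g : Matrix ι ι F) *ᵥ a ∉ B ∧
      (g : Matrix ι ι F) *ᵥ b ∉ B
  · obtain ⟨a, ha, b, hb, hab, hu, hv⟩ := hex1
    obtain ⟨a0, ha0, ha00, c0, hc0, hc0', hP⟩ :=
      caseI hf K h hKU hK g hgK a b ha hb hab hu hv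
    exact fin hf K h hKU hKS hK hsw (allA hf K h hK c0 hc0 hc0' a0 ha0 ha00 hP)
  by_cases hex2 : ∃ a ∈ A, ∃ b ∈ B, f a b = 0 ∧ (g : Matrix ι ι F) *ᵥ a ∉ A ∧
      (g : Matrix ι ι F) *ᵥ b ∉ A
  · obtain ⟨a, ha, b, hb, hab, hu, hv⟩ := hex2
    have hba : f b a = 0 := hf.eq_zero_symm hab
    obtain ⟨b0, hb0, hb00, c0, hc0, hc0', hP⟩ :=
      caseI hf K h.symm hKU hK' g hgK b a hb ha hba hv hu
    exact fin hf K h.symm hKU hKS hK' hsw' (allA hf K h.symm hK' c0 hc0 hc0' b0 hb0 hb00 hP)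
  exfalso
  push Not at hex1 hex2
  have hinj : ∀ x, (g : Matrix ι ι F) *ᵥ x = 0 → x = 0 := by
    intro x hx
    have := gl_inv_mulVec g x
    rw [hx, Matrix.mulVec_zero] at this
    exact this.symm
  have hA' : ∀ a ∈ A, (g : Matrix ι ι F) *ᵥ a ∈ A ∨ (g : Matrix ι ι F) *ᵥ a ∈ B := by
    intro a ha
    obtain ⟨b, hb, hb0, hba, -, -⟩ := exists_orth3 hf B h.dimB a a a
    have hab : f a b = 0 := hf.eq_zero_symm hba
    by_contra hcon
    push Not at hcon
    have h1 := hex1 a ha b hb hab hcon.2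
    have h3 := hex2 a ha b hb hab hcon.1
    exact hb0 (hinj b (h.disj _ h3 h1))
  have hB' : ∀ b ∈ B, (g : Matrix ι ι F) *ᵥ b ∈ A ∨ (g : Matrix ι ι F) *ᵥ b ∈ B := by
    intro b hb
    obtain ⟨a, ha, ha0, hab, -, -⟩ := exists_orth3 hf A h.dimA b b b
    by_contra hcon
    push Not at hcon
    have h1 : (g : Matrix ι ι F) *ᵥ a ∈ B := by
      by_contra h1
      exact hcon.2 (hex1 a ha b hb hab h1)
    have h3 : (g : Matrix ι ι F) *ᵥ a ∈ A := by
      by_contra h3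
      exact hcon.1 (hex2 a ha b hb hab h3)
    exact ha0 (hinj a (h.disj _ h3 h1))
  obtain ⟨a, ha, ha0, -, -, -⟩ := exists_orth3 hf A h.dimA 0 0 0
  obtain ⟨b, hb, hb0, hba, -, -⟩ := exists_orth3 hf B h.dimB a a a
  have hab : f a b = 0 := hf.eq_zero_symm hba
  have hA'' := Cfsg.Agent.S5646.le_or_le_of_union A
    (A.comap (Matrix.toLin' (g : Matrix ι ι F)))
    (B.comap (Matrix.toLin' (g : Matrix ι ι F)))
    (fun x hx => by
      rw [Submodule.mem_comap, Submodule.mem_comap, Matrix.toLin'_apply]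
      exact hA' x hx)
  have hB'' := Cfsg.Agent.S5646.le_or_le_of_union B
    (A.comap (Matrix.toLin' (g : Matrix ι ι F)))
    (B.comap (Matrix.toLin' (g : Matrix ι ι F)))
    (fun x hx => by
      rw [Submodule.mem_comap, Submodule.mem_comap, Matrix.toLin'_apply]
      exact hB' x hx)
  have cv : ∀ (S T : Submodule F (ι → F)), S ≤ T.comap (Matrix.toLin' (g : Matrix ι ι F)) →
      ∀ x ∈ S, (g : Matrix ι ι F) *ᵥ x ∈ T := by
    intro S T hST x hx
    have := hST hx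
    rw [Submodule.mem_comap, Matrix.toLin'_apply] at this
    exact this
  rcases hA'' with hAA | hAB
  · rcases hB'' with hBA | hBB
    · have h1 : (g : Matrix ι ι F) *ᵥ a ∉ B := fun h1 =>
        ha0 (hinj a (h.disj _ (cv A A hAA a ha) h1))
      have h3 := hex1 a ha b hb hab h1
      exact hb0 (hinj b (h.disj _ (cv B A hBA b hb) h3))
    · exact hg1 ⟨cv A A hAA, cv B B hBB⟩
  · rcases hB'' with hBA | hBB
    · exact hg2 ⟨cv A B hAB, cv B A hBA⟩
    · have h1 : (g : Matrix ι ι F) *ᵥ a ∉ A := fun h1 =>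
        ha0 (hinj a (h.disj _ h1 (cv A B hAB a ha)))
      have h3 := hex2 a ha b hb hab h1
      exact hb0 (hinj b (h.disj _ h3 (cv B B hBB b hb)))

end Core3

section Swap

theorem nU_exists (hf : IsHerm σ f) (ζ : F) (hζ0 : ζ ≠ 0) (hζ : ζ + σ ζ = 0) (v w : ι → F)
    (hv : f v v = 0) (hw : f w w = 0) (hvw : f v w = 1) :
    ∃ n : GL ι F, Isom f n ∧ n ∈ Cfsg.Geo.specialLinear ι F ∧
      (n : Matrix ι ι F) *ᵥ v = (-ζ⁻¹) • w ∧ (n : Matrix ι ι F) *ᵥ w = ζ • v ∧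
      ∀ x, f x v = 0 → f x w = 0 → (n : Matrix ι ι F) *ᵥ x = x := by
  have hσζ : σ ζ = -ζ := by linear_combination hζ
  have hc2 : -ζ⁻¹ + σ (-ζ⁻¹) = 0 := by
    rw [map_neg, map_inv₀, hσζ]
    field_simp
    ring
  have hwv : f w v = 1 := by rw [hf.herm w v, hvw, map_one]
  have hd1 := uT_dot hf v ζ hv
  have hd2 := uT_dot hf w (-ζ⁻¹) hw
  have e1 : ((tvG v (ζ • rep f v) hd1 : GL ι F) : Matrix ι ι F) *ᵥ v = v := by
    rw [uT_mulVec hf, hv, mul_zero, zero_smul, add_zero]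
  have e2 : ((tvG w ((-ζ⁻¹) • rep f w) hd2 : GL ι F) : Matrix ι ι F) *ᵥ v = v + (-ζ⁻¹) • w := by
    rw [uT_mulVec hf, hvw, mul_one]
  have e3 : ((tvG v (ζ • rep f v) hd1 : GL ι F) : Matrix ι ι F) *ᵥ w = w + ζ • v := by
    rw [uT_mulVec hf, hwv, mul_one]
  have e4 : ((tvG w ((-ζ⁻¹) • rep f w) hd2 : GL ι F) : Matrix ι ι F) *ᵥ w = w := by
    rw [uT_mulVec hf, hw, mul_zero, zero_smul, add_zero]
  refine ⟨tvG v (ζ • rep f v) hd1 * tvG w ((-ζ⁻¹) • rep f w) hd2 * tvG v (ζ • rep f v) hd1,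
    isom_mul (isom_mul (uT_isom hf v ζ hv hζ hd1) (uT_isom hf w _ hw hc2 hd2))
      (uT_isom hf v ζ hv hζ hd1),
    Subgroup.mul_mem _ (Subgroup.mul_mem _ (tvG_mem_SL _ _ _) (tvG_mem_SL _ _ _))
      (tvG_mem_SL _ _ _), ?_, ?_, ?_⟩
  · rw [Units.val_mul, Units.val_mul, ← Matrix.mulVec_mulVec, ← Matrix.mulVec_mulVec, e1, e2,
      Matrix.mulVec_add, Matrix.mulVec_smul, e1, e3, smul_add, smul_smul, neg_mul,
      inv_mul_cancel₀ hζ0]
    module
  · rw [Units.val_mul, Units.val_mul, ← Matrix.mulVec_mulVec, ← Matrix.mulVec_mulVec, e3,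
      Matrix.mulVec_add, Matrix.mulVec_smul, e4, e2]
    have e5 : w + ζ • (v + (-ζ⁻¹) • w) = ζ • v := by
      rw [smul_add, smul_smul, mul_neg, mul_inv_cancel₀ hζ0]
      module
    rw [e5, Matrix.mulVec_smul, e1]
  · intro x hxv hxw
    have e6 : ((tvG v (ζ • rep f v) hd1 : GL ι F) : Matrix ι ι F) *ᵥ x = x := by
      rw [uT_mulVec hf, hxv, mul_zero, zero_smul, add_zero]
    have e7 : ((tvG w ((-ζ⁻¹) • rep f w) hd2 : GL ι F) : Matrix ι ι F) *ᵥ x = x := by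
      rw [uT_mulVec hf, hxw, mul_zero, zero_smul, add_zero]
    rw [Units.val_mul, Units.val_mul, ← Matrix.mulVec_mulVec, ← Matrix.mulVec_mulVec, e6, e7, e6]

theorem swap_exists (hf : IsHerm σ f) {A B : Submodule F (ι → F)} (h : Pair f A B) (m : ℕ)
    (hmA : Module.finrank F A = m) (hmB : Module.finrank F B = m) :
    ∃ s : GL ι F, Isom f s ∧ s ∈ Cfsg.Geo.specialLinear ι F ∧
      (∀ x ∈ A, (s : Matrix ι ι F) *ᵥ x ∈ B) ∧ (∀ x ∈ B, (s : Matrix ι ι F) *ᵥ x ∈ A) := by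
  classical
  obtain ⟨ζ, hζ0, hζ⟩ := hf.exists_zeta
  let b : Module.Basis (Fin m) F A := Module.finBasisOfFinrankEq F A hmA
  obtain ⟨v, hv_def⟩ : ∃ v : Fin m → ι → F, v = fun i => ((b i : A) : ι → F) := ⟨_, rfl⟩
  have hvA : ∀ i, v i ∈ A := fun i => by
    rw [hv_def]
    exact (b i).2
  have hli : LinearIndependent F v := by
    have h1 := b.linearIndependent.map' A.subtype (Submodule.ker_subtype A)
    rw [hv_def]
    exact h1
  have hdual : ∀ j, ∃ w ∈ B, ∀ i, f (v i) w = if i = j then 1 else 0 := by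
    intro j
    have hnot : v j ∉ B ⊔ Submodule.span F (v '' {i | i ≠ j}) := by
      intro hmem
      obtain ⟨b', hb', z, hz, e⟩ := Submodule.mem_sup.mp hmem
      have hzA : z ∈ A := by
        refine (Submodule.span_le.mpr ?_) hz
        rintro _ ⟨i, -, rfl⟩
        exact hvA i
      have hb'A : b' ∈ A := by
        have e2 : b' = v j - z := by
          rw [eq_sub_iff_add_eq]
          exact e
        rw [e2]
        exact A.sub_mem (hvA j) hzA
      have hb0 := h.disj b' hb'A hb'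
      rw [hb0, zero_add] at e
      rw [e] at hz
      exact hli.notMem_span_image (s := {i | i ≠ j}) (x := j) (by simp) hz
    obtain ⟨y, hy0, hy1⟩ := hf.exists_perp _ (v j) hnot
    refine ⟨y, h.symm.self_perp hf y (fun b hb => hy0 b (Submodule.mem_sup_left hb)), fun i => ?_⟩
    by_cases hij : i = j
    · rw [if_pos hij, hij]
      exact hy1
    · rw [if_neg hij]
      exact hy0 _ (Submodule.mem_sup_right (Submodule.subset_span ⟨i, hij, rfl⟩))
  choose w hwB hw using hdual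
  have hvw : ∀ i j, i ≠ j → f (v i) (w j) = 0 := fun i j hij => by rw [hw j i, if_neg hij]
  have hwv : ∀ i j, i ≠ j → f (w i) (v j) = 0 := fun i j hij =>
    hf.eq_zero_symm (hvw j i (Ne.symm hij))
  have hvv : ∀ i, f (v i) (w i) = 1 := fun i => by rw [hw i i, if_pos rfl]
  have hind : ∀ T : Finset (Fin m), ∃ s : GL ι F, Isom f s ∧ s ∈ Cfsg.Geo.specialLinear ι F ∧
      (∀ i ∈ T, (s : Matrix ι ι F) *ᵥ v i = (-ζ⁻¹) • w i ∧ (s : Matrix ι ι F) *ᵥ w i = ζ • v i) ∧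
      (∀ i, i ∉ T → (s : Matrix ι ι F) *ᵥ v i = v i ∧ (s : Matrix ι ι F) *ᵥ w i = w i) := by
    intro T
    induction T using Finset.induction_on with
    | empty =>
      refine ⟨1, fun u v => by rw [Units.val_one, Matrix.one_mulVec, Matrix.one_mulVec],
        Subgroup.one_mem _, fun i hi => absurd hi (Finset.notMem_empty i), fun i _ => ?_⟩
      rw [Units.val_one, Matrix.one_mulVec, Matrix.one_mulVec]
      exact ⟨rfl, rfl⟩
    | insert j T hj ih =>
      obtain ⟨s, hsi, hss, hs1, hs2⟩ := ih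
      obtain ⟨n, hni, hns, hnv, hnw, hnfix⟩ := nU_exists hf ζ hζ0 hζ (v j) (w j)
        (h.tiA _ (hvA j) _ (hvA j)) (h.tiB _ (hwB j) _ (hwB j)) (hvv j)
      refine ⟨n * s, isom_mul hni hsi, Subgroup.mul_mem _ hns hss, ?_, ?_⟩
      · intro i hi
        rw [Units.val_mul, ← Matrix.mulVec_mulVec, ← Matrix.mulVec_mulVec]
        rcases Finset.mem_insert.mp hi with hij | hiT
        · rw [hij, (hs2 j hj).1, (hs2 j hj).2]
          exact ⟨hnv, hnw⟩
        · have hij : i ≠ j := fun e => hj (e ▸ hiT)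
          rw [(hs1 i hiT).1, (hs1 i hiT).2, Matrix.mulVec_smul, Matrix.mulVec_smul,
            hnfix _ (hwv i j hij) (h.tiB _ (hwB i) _ (hwB j)),
            hnfix _ (h.tiA _ (hvA i) _ (hvA j)) (hvw i j hij)]
          exact ⟨rfl, rfl⟩
      · intro i hi
        have hij : i ≠ j := fun e => hi (e ▸ Finset.mem_insert_self j T)
        have hiT : i ∉ T := fun e => hi (Finset.mem_insert_of_mem e)
        rw [Units.val_mul, ← Matrix.mulVec_mulVec, ← Matrix.mulVec_mulVec, (hs2 i hiT).1,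
          (hs2 i hiT).2]
        exact ⟨hnfix _ (h.tiA _ (hvA i) _ (hvA j)) (hvw i j hij),
          hnfix _ (hwv i j hij) (h.tiB _ (hwB i) _ (hwB j))⟩
  obtain ⟨s, hsi, hss, hs1, -⟩ := hind Finset.univ
  have key1 : ∀ x ∈ A, (s : Matrix ι ι F) *ᵥ x ∈ B := by
    intro x hx
    let T : Submodule F A := (B.comap (Matrix.toLin' (s : Matrix ι ι F))).comap A.subtype
    have hT : Submodule.span F (Set.range b) ≤ T := by
      rw [Submodule.span_le]
      rintro _ ⟨i, rfl⟩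
      show Matrix.toLin' (s : Matrix ι ι F) (A.subtype (b i)) ∈ B
      rw [Matrix.toLin'_apply]
      have h1 := (hs1 i (Finset.mem_univ i)).1
      rw [hv_def] at h1
      have h3 : (s : Matrix ι ι F) *ᵥ (A.subtype (b i)) = (-ζ⁻¹) • w i := h1
      rw [h3]
      exact B.smul_mem _ (hwB i)
    have h4 : (⟨x, hx⟩ : A) ∈ T := hT (b.mem_span _)
    have h5 : Matrix.toLin' (s : Matrix ι ι F) x ∈ B := h4
    rw [Matrix.toLin'_apply] at h5
    exact h5
  have key2 : ∀ x ∈ A, (s : Matrix ι ι F) *ᵥ ((s : Matrix ι ι F) *ᵥ x) ∈ A := by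
    intro x hx
    let T : Submodule F A := (A.comap (Matrix.toLin' ((s * s : GL ι F) : Matrix ι ι F))).comap
      A.subtype
    have hT : Submodule.span F (Set.range b) ≤ T := by
      rw [Submodule.span_le]
      rintro _ ⟨i, rfl⟩
      show Matrix.toLin' ((s * s : GL ι F) : Matrix ι ι F) (A.subtype (b i)) ∈ A
      rw [Matrix.toLin'_apply, Units.val_mul, ← Matrix.mulVec_mulVec]
      have h1 := (hs1 i (Finset.mem_univ i)).1
      have h1' := (hs1 i (Finset.mem_univ i)).2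
      have h3 : (s : Matrix ι ι F) *ᵥ (A.subtype (b i)) = (-ζ⁻¹) • w i := by
        rw [hv_def] at h1
        exact h1
      rw [h3, Matrix.mulVec_smul, h1']
      exact A.smul_mem _ (A.smul_mem _ (hvA i))
    have h4 : (⟨x, hx⟩ : A) ∈ T := hT (b.mem_span _)
    have h5 : Matrix.toLin' ((s * s : GL ι F) : Matrix ι ι F) x ∈ A := h4
    rw [Matrix.toLin'_apply, Units.val_mul, ← Matrix.mulVec_mulVec] at h5
    exact h5
  refine ⟨s, hsi, hss, key1, ?_⟩
  have hmap : A.map (glEquiv s : (ι → F) →ₗ[F] (ι → F)) = B := by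
    apply Submodule.eq_of_le_of_finrank_eq
    · rintro _ ⟨x, hx, rfl⟩
      exact key1 x hx
    · rw [LinearEquiv.finrank_map_eq (glEquiv s) A, hmA, hmB]
  intro y hy
  rw [← hmap] at hy
  obtain ⟨x, hx, rfl⟩ := hy
  exact key2 x hx

end Swap

/-- Let F be the field with q² elements and n = 2k ≥ 13. Let D be a decomposition of F^n into two complementary subspaces of dimension k on each of which the standard unitary form vanishes identically. Then the elements of SU_n(q) preserving or interchanging the two subspaces form a maximal subgroup of SU_n(q). -/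
theorem result {F : Type*} [Field F] [Fintype F] (n q : ℕ) (hF : Fintype.card F = q ^ 2) (hn : 13 ≤ n) (k : ℕ) (hk : 2 * k = n) (D : Fin 2 → Submodule F (Fin n → F)) (hD : Cfsg.Geo.IsMDecomposition k D) (hts : ∀ i, Cfsg.Geo.IsTotallySingularFor (Cfsg.hermForm n F q) (D i)) : Cfsg.Geo.IsMaximalIn (Cfsg.GU n F q ⊓ Cfsg.Geo.specialLinear (Fin n) F) (Cfsg.Geo.decompositionStabilizer D ⊓ (Cfsg.GU n F q ⊓ Cfsg.Geo.specialLinear (Fin n) F)) := by
  have hf := hermForm_isHerm hF n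
  have : Nonempty (Fin n) := ⟨⟨0, by omega⟩⟩
  have hdisj : ∀ x ∈ D 0, x ∈ D 1 → x = 0 := by
    have h1 : Disjoint (D 0) (D 1) := hD.indep.pairwiseDisjoint (by decide)
    exact Submodule.disjoint_def.mp h1
  have hsum : ∀ x, ∃ a ∈ D 0, ∃ b ∈ D 1, x = a + b := by
    intro x
    have h1 : (⊤ : Submodule F (Fin n → F)) ≤ D 0 ⊔ D 1 := by
      rw [← hD.iSup_eq_top]
      apply iSup_le
      intro i
      fin_cases i
      · exact le_sup_left
      · exact le_sup_right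
    obtain ⟨a, ha, b, hb, e⟩ := Submodule.mem_sup.mp (h1 (Submodule.mem_top (x := x)))
    exact ⟨a, ha, b, hb, e.symm⟩
  have hP : Pair (Cfsg.hermForm n F q) (D 0) (D 1) :=
    ⟨hts 0, hts 1, hdisj, hsum, by rw [hD.finrank_eq]; omega, by rw [hD.finrank_eq]; omega⟩
  have hmemH : ∀ g : GL (Fin n) F, Isom (Cfsg.hermForm n F q) g →
      g ∈ Cfsg.Geo.specialLinear (Fin n) F →
      (∀ x ∈ D 0, (g : Matrix (Fin n) (Fin n) F) *ᵥ x ∈ D 0) →
      (∀ x ∈ D 1, (g : Matrix (Fin n) (Fin n) F) *ᵥ x ∈ D 1) →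
      g ∈ Cfsg.Geo.decompositionStabilizer D ⊓
        (Cfsg.GU n F q ⊓ Cfsg.Geo.specialLinear (Fin n) F) := by
    intro g hg hgs h0 h1
    refine ⟨?_, hg, hgs⟩
    apply Cfsg.Agent.S5647.mem_decomp_of_le D k hD.finrank_eq g 1
    intro l
    fin_cases l
    · exact h0
    · exact h1
  have hmemH' : ∀ g : GL (Fin n) F, Isom (Cfsg.hermForm n F q) g →
      g ∈ Cfsg.Geo.specialLinear (Fin n) F →
      (∀ x ∈ D 0, (g : Matrix (Fin n) (Fin n) F) *ᵥ x ∈ D 1) →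
      (∀ x ∈ D 1, (g : Matrix (Fin n) (Fin n) F) *ᵥ x ∈ D 0) →
      g ∈ Cfsg.Geo.decompositionStabilizer D ⊓
        (Cfsg.GU n F q ⊓ Cfsg.Geo.specialLinear (Fin n) F) := by
    intro g hg hgs h0 h1
    refine ⟨?_, hg, hgs⟩
    apply Cfsg.Agent.S5647.mem_decomp_of_le D k hD.finrank_eq g (Equiv.swap 0 1)
    intro l
    fin_cases l
    · exact h0
    · exact h1
  refine ⟨lt_of_le_of_ne inf_le_right ?_, fun M hHM hMK => ?_⟩
  · intro heq
    obtain ⟨b, hb, hb0, -, -, -⟩ := exists_orth3 hf (D 1) hP.dimB 0 0 0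
    obtain ⟨x, hx, hbx⟩ := hP.symm.exists_pair hf b hb hb0
    have hxb : Cfsg.hermForm n F q x b ≠ 0 := hf.ne_zero_symm hbx
    have hbb : Cfsg.hermForm n F q b b = 0 := hts 1 b hb b hb
    obtain ⟨ζ, hζ0, hζ⟩ := hf.exists_zeta
    have hmem : tvG b (ζ • rep (Cfsg.hermForm n F q) b) (uT_dot hf b ζ hbb) ∈
        Cfsg.Geo.decompositionStabilizer D ⊓
          (Cfsg.GU n F q ⊓ Cfsg.Geo.specialLinear (Fin n) F) := by
      rw [heq]
      exact ⟨uT_isom hf b ζ hbb hζ (uT_dot hf b ζ hbb), tvG_mem_SL _ _ _⟩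
    obtain ⟨τ, hτ⟩ := hmem.1
    have h1 : ((tvG b (ζ • rep (Cfsg.hermForm n F q) b) (uT_dot hf b ζ hbb) : GL (Fin n) F) :
        Matrix (Fin n) (Fin n) F) *ᵥ x ∈ D (τ 0) := by
      rw [← hτ 0]
      exact ⟨x, hx, by rw [Matrix.toLin'_apply]⟩
    rw [uT_mulVec hf] at h1
    have hne : ζ * Cfsg.hermForm n F q x b ≠ 0 := mul_ne_zero hζ0 hxb
    have hcases : τ 0 = 0 ∨ τ 0 = 1 := by
      generalize τ 0 = j
      fin_cases j
      · exact Or.inl rfl
      · exact Or.inr rfl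
    rcases hcases with h3 | h3
    · rw [h3] at h1
      have h4 : (ζ * Cfsg.hermForm n F q x b) • b ∈ D 0 := ((D 0).add_mem_iff_right hx).mp h1
      have h5 : b ∈ D 0 := ((D 0).smul_mem_iff hne).mp h4
      exact hb0 (hdisj b h5 hb)
    · rw [h3] at h1
      have h4 : x ∈ D 1 := ((D 1).add_mem_iff_left ((D 1).smul_mem _ hb)).mp h1
      apply hxb
      rw [hdisj x hx h4, hf.zero_left]
  · by_cases h : M = Cfsg.Geo.decompositionStabilizer D ⊓
        (Cfsg.GU n F q ⊓ Cfsg.Geo.specialLinear (Fin n) F)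
    · exact Or.inl h
    · right
      apply le_antisymm hMK
      obtain ⟨g, hgM, hgH⟩ := SetLike.exists_of_lt (lt_of_le_of_ne hHM (Ne.symm h))
      have hgG := hMK hgM
      obtain ⟨s, hsi, hss, hsA, hsB⟩ := swap_exists hf hP k (hD.finrank_eq 0) (hD.finrank_eq 1)
      intro t ht
      exact main hf M hP (fun k hk => (hMK hk).1) (fun k hk => (hMK hk).2)
        (fun k hk hks h0 h1 => hHM (hmemH k hk hks h0 h1))
        ⟨s, hHM (hmemH' s hsi hss hsA hsB), hsA, hsB⟩ g hgM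
        (fun hc => hgH (hmemH g hgG.1 hgG.2 hc.1 hc.2))
        (fun hc => hgH (hmemH' g hgG.1 hgG.2 hc.1 hc.2)) t ht.1 ht.2


end Cfsg.Agent.S5657
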