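import Cfsg.Statements.S5667
import Mathlib
import Cfsg.Agent.Lib.Helper13.TensorF3
import Cfsg.Agent.S5648

set_option autoImplicit false
open Cfsg

namespace Cfsg.Agent.S5667

open Matrix
open scoped Kronecker
open Cfsg.Agent.Lib.Helper13.TensorF3
open Cfsg.Agent.Lib.Helper5.Symp

variable {F : Type*} [Field F] [Fintype F] {m n₁ : ℕ}
  {e : (Fin m ⊕ Fin m) ≃ Fin n₁ × Fin 3} {P : GL (Fin m ⊕ Fin m) F}
  {f₁ : (Fin n₁ → F) → (Fin n₁ → F) → F} {f₂ : (Fin 3 → F) → (Fin 3 → F) → F} {c : F}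

/-- The pure tensors whose second factor is a special vector. -/
def SS (e : (Fin m ⊕ Fin m) ≃ Fin n₁ × Fin 3) (P : GL (Fin m ⊕ Fin m) F)
    (f₂ : (Fin 3 → F) → (Fin 3 → F) → F) : Set (Fin m ⊕ Fin m → F) :=
  {x | ∃ (v : Fin n₁ → F) (w : Fin 3 → F), NN f₂ w ∧ x = emb e P (tv v w)}

omit [Fintype F] in
theorem tensor_maps (hf₁ : Cfsg.Geo.IsSymplecticForm f₁) (hf₂ : Cfsg.Geo.IsSymmetricForm f₂)
    (hc0 : c ≠ 0)
    (hc : ∀ x y : Fin n₁ × Fin 3 → F,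
      Cfsg.sympForm m F ((P : Matrix (Fin m ⊕ Fin m) (Fin m ⊕ Fin m) F) *ᵥ (x ∘ e))
        ((P : Matrix (Fin m ⊕ Fin m) (Fin m ⊕ Fin m) F) *ᵥ (y ∘ e)) =
      c * Cfsg.Geo.formOfGram (id : F → F)
        (Cfsg.Geo.gramMatrix f₁ ⊗ₖ Cfsg.Geo.gramMatrix f₂) x y)
    {v₀ : Fin n₁ → F} (hv₀ : v₀ ≠ 0)
    {g : GL (Fin m ⊕ Fin m) F} (hg : g ∈ Cfsg.Geo.tensorProductSubgroup n₁ 3 e P)
    (hgS : g ∈ Cfsg.spGL m F) (x : Fin m ⊕ Fin m → F) (hx : x ∈ SS e P f₂) :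
    (g : Matrix (Fin m ⊕ Fin m) (Fin m ⊕ Fin m) F) *ᵥ x ∈ SS e P f₂ := by
  obtain ⟨a, b, hab⟩ := tensor_act hg
  obtain ⟨v, w, hw, rfl⟩ := hx
  obtain ⟨⟨v₁, hv₁⟩, -⟩ := hf₁.nondegenerate v₀ hv₀
  have hU : ∀ u v, Cfsg.sympForm m F ((g : Matrix (Fin m ⊕ Fin m) (Fin m ⊕ Fin m) F) *ᵥ u)
      ((g : Matrix (Fin m ⊕ Fin m) (Fin m ⊕ Fin m) F) *ᵥ v) = Cfsg.sympForm m F u v := hgS
  refine ⟨(a : Matrix (Fin n₁) (Fin n₁) F) *ᵥ v, (b : Matrix (Fin 3) (Fin 3) F) *ᵥ w, ?_, ?_⟩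
  · apply hw.similarity b
      (f₁ ((a : Matrix (Fin n₁) (Fin n₁) F) *ᵥ v₁) ((a : Matrix (Fin n₁) (Fin n₁) F) *ᵥ v₀) / f₁ v₁ v₀)
    intro x y
    have h1 := hU (emb e P (tv v₁ x)) (emb e P (tv v₀ y))
    rw [hab, hab, kron_tv, kron_tv, pair_tv hf₁.bilinear hf₂.bilinear hc,
      pair_tv hf₁.bilinear hf₂.bilinear hc] at h1
    have h2 := mul_left_cancel₀ hc0 h1
    field_simp
    linear_combination h2
  · rw [hab, kron_tv]

omit [Fintype F] in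
theorem tensor_le (hf₁ : Cfsg.Geo.IsSymplecticForm f₁) (hf₂ : Cfsg.Geo.IsSymmetricForm f₂)
    (hc0 : c ≠ 0)
    (hc : ∀ x y : Fin n₁ × Fin 3 → F,
      Cfsg.sympForm m F ((P : Matrix (Fin m ⊕ Fin m) (Fin m ⊕ Fin m) F) *ᵥ (x ∘ e))
        ((P : Matrix (Fin m ⊕ Fin m) (Fin m ⊕ Fin m) F) *ᵥ (y ∘ e)) =
      c * Cfsg.Geo.formOfGram (id : F → F)
        (Cfsg.Geo.gramMatrix f₁ ⊗ₖ Cfsg.Geo.gramMatrix f₂) x y)
    {v₀ : Fin n₁ → F} (hv₀ : v₀ ≠ 0) :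
    Cfsg.Geo.tensorProductSubgroup n₁ 3 e P ⊓ Cfsg.spGL m F ≤ KX (SS e P f₂) ⊓ Cfsg.spGL m F := by
  rintro g ⟨hg, hgS⟩
  refine ⟨fun x => ⟨tensor_maps hf₁ hf₂ hc0 hc hv₀ hg hgS x, fun h => ?_⟩, hgS⟩
  have := tensor_maps hf₁ hf₂ hc0 hc hv₀ (Subgroup.inv_mem _ hg) (Subgroup.inv_mem _ hgS) _ h
  rwa [Matrix.mulVec_mulVec, ← Units.val_mul, inv_mul_cancel, Units.val_one, Matrix.one_mulVec] at this


section Wit

variable {ε : F} {d₁ d₂ d₃ : Fin 3 → F}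

theorem w1_maps (hq : Fintype.card F = 3) (hf₁ : Cfsg.Geo.IsSymplecticForm f₁)
    (hf₂ : Cfsg.Geo.IsSymmetricForm f₂)
    (hc : ∀ x y : Fin n₁ × Fin 3 → F,
      Cfsg.sympForm m F ((P : Matrix (Fin m ⊕ Fin m) (Fin m ⊕ Fin m) F) *ᵥ (x ∘ e))
        ((P : Matrix (Fin m ⊕ Fin m) (Fin m ⊕ Fin m) F) *ᵥ (y ∘ e)) =
      c * Cfsg.Geo.formOfGram (id : F → F)
        (Cfsg.Geo.gramMatrix f₁ ⊗ₖ Cfsg.Geo.gramMatrix f₂) x y)
    (hfr : IsFrame f₂ ε d₁ d₂ d₃) (v₀ : Fin n₁ → F)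
    (x : Fin m ⊕ Fin m → F) (hx : x ∈ SS e P f₂) :
    ((Cfsg.Agent.S5648.tv (emb e P (tv v₀ d₁)) : GL (Fin m ⊕ Fin m) F) :
      Matrix (Fin m ⊕ Fin m) (Fin m ⊕ Fin m) F) *ᵥ x ∈ SS e P f₂ := by
  have hb₂ := hf₂.bilinear
  obtain ⟨v, w, hw, rfl⟩ := hx
  rw [Cfsg.Agent.S5648.tv_mulVec, pair_tv hf₁.bilinear hb₂ hc]
  obtain ⟨s, h | h | h⟩ := hfr.of_nn hq hf₂ hw
  · subst h
    refine ⟨s • v + (c * (f₁ v v₀ * f₂ (s • d₁) d₁)) • v₀, d₁, hfr.nn1 hq hf₂, ?_⟩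
    rw [tv_add_left, tv_smul_left, tv_smul_left, tv_smul_right, emb_add, emb_smul, emb_smul]
  · subst h
    rw [hb₂.smul_left, hf₂.symm d₂ d₁, hfr.o12, mul_zero, mul_zero, mul_zero, zero_smul, add_zero]
    exact ⟨v, s • d₂, hw, rfl⟩
  · subst h
    rw [hb₂.smul_left, hf₂.symm d₃ d₁, hfr.o13, mul_zero, mul_zero, mul_zero, zero_smul, add_zero]
    exact ⟨v, s • d₃, hw, rfl⟩

theorem tv_cube (hq : Fintype.card F = 3) (z x : Fin m ⊕ Fin m → F) :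
    ((Cfsg.Agent.S5648.tv z : GL (Fin m ⊕ Fin m) F) : Matrix (Fin m ⊕ Fin m) (Fin m ⊕ Fin m) F) *ᵥ
      (((Cfsg.Agent.S5648.tv z : GL (Fin m ⊕ Fin m) F) :
        Matrix (Fin m ⊕ Fin m) (Fin m ⊕ Fin m) F) *ᵥ
        (((Cfsg.Agent.S5648.tv z : GL (Fin m ⊕ Fin m) F) :
          Matrix (Fin m ⊕ Fin m) (Fin m ⊕ Fin m) F) *ᵥ x)) = x := by
  have h3 := three_eq_zero hq
  rw [Cfsg.Agent.S5648.tv_mulVec, Cfsg.Agent.S5648.tv_mulVec, Cfsg.Agent.S5648.tv_mulVec]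
  simp only [sympForm_add_left, sympForm_smul_left, sympForm_self, mul_zero, add_zero]
  rw [add_assoc, add_assoc, ← add_smul, ← add_smul]
  have : Cfsg.sympForm m F x z + (Cfsg.sympForm m F x z + Cfsg.sympForm m F x z) = 0 := by
    linear_combination (Cfsg.sympForm m F x z) * h3
  rw [this, zero_smul, add_zero]

theorem w1_mem_K (hq : Fintype.card F = 3) (hf₁ : Cfsg.Geo.IsSymplecticForm f₁)
    (hf₂ : Cfsg.Geo.IsSymmetricForm f₂)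
    (hc : ∀ x y : Fin n₁ × Fin 3 → F,
      Cfsg.sympForm m F ((P : Matrix (Fin m ⊕ Fin m) (Fin m ⊕ Fin m) F) *ᵥ (x ∘ e))
        ((P : Matrix (Fin m ⊕ Fin m) (Fin m ⊕ Fin m) F) *ᵥ (y ∘ e)) =
      c * Cfsg.Geo.formOfGram (id : F → F)
        (Cfsg.Geo.gramMatrix f₁ ⊗ₖ Cfsg.Geo.gramMatrix f₂) x y)
    (hfr : IsFrame f₂ ε d₁ d₂ d₃) (v₀ : Fin n₁ → F) :
    Cfsg.Agent.S5648.tv (emb e P (tv v₀ d₁)) ∈ KX (SS e P f₂) ⊓ Cfsg.spGL m F := by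
  refine ⟨fun x => ⟨w1_maps hq hf₁ hf₂ hc hfr v₀ x, fun h => ?_⟩, Cfsg.Agent.S5648.tv_mem _⟩
  have h1 := w1_maps hq hf₁ hf₂ hc hfr v₀ _ h
  have h2 := w1_maps hq hf₁ hf₂ hc hfr v₀ _ h1
  rwa [tv_cube hq] at h2

omit [Fintype F] in
theorem w1_not_tensor (hf₁ : Cfsg.Geo.IsSymplecticForm f₁)
    (hf₂ : Cfsg.Geo.IsSymmetricForm f₂) (hc0 : c ≠ 0)
    (hc : ∀ x y : Fin n₁ × Fin 3 → F,
      Cfsg.sympForm m F ((P : Matrix (Fin m ⊕ Fin m) (Fin m ⊕ Fin m) F) *ᵥ (x ∘ e))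
        ((P : Matrix (Fin m ⊕ Fin m) (Fin m ⊕ Fin m) F) *ᵥ (y ∘ e)) =
      c * Cfsg.Geo.formOfGram (id : F → F)
        (Cfsg.Geo.gramMatrix f₁ ⊗ₖ Cfsg.Geo.gramMatrix f₂) x y)
    (hfr : IsFrame f₂ ε d₁ d₂ d₃) {v₀ : Fin n₁ → F} (hv₀ : v₀ ≠ 0) :
    Cfsg.Agent.S5648.tv (emb e P (tv v₀ d₁)) ∉ Cfsg.Geo.tensorProductSubgroup n₁ 3 e P := by
  intro hmem
  obtain ⟨a, b, hab⟩ := tensor_act hmem
  obtain ⟨⟨v, hv⟩, -⟩ := hf₁.nondegenerate v₀ hv₀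
  have hb₁ := hf₁.bilinear
  have hb₂ := hf₂.bilinear
  have hd₁ : d₁ ≠ 0 := by
    rintro rfl
    have := hfr.n1
    rw [bf_zero_left hb₂] at this
    exact hfr.ne this.symm
  have hd₂ : d₂ ≠ 0 := by
    rintro rfl
    have := hfr.n2
    rw [bf_zero_left hb₂] at this
    exact hfr.ne this.symm
  have o21 : f₂ d₂ d₁ = 0 := by rw [hf₂.symm]; exact hfr.o12
  have e2 := hab (tv v d₂)
  rw [Cfsg.Agent.S5648.tv_mulVec, pair_tv hb₁ hb₂ hc, o21, mul_zero, mul_zero, zero_smul, add_zero,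
    kron_tv] at e2
  have e2' := emb_inj e P e2
  have e1 := hab (tv v d₁)
  rw [Cfsg.Agent.S5648.tv_mulVec, pair_tv hb₁ hb₂ hc, hfr.n1, kron_tv, ← emb_smul, ← emb_add,
    ← tv_smul_left, ← tv_add_left] at e1
  have e1' := emb_inj e P e1
  obtain ⟨l, hl⟩ := tv_eq_left e2'.symm hd₂
  obtain ⟨l', hl'⟩ := tv_eq_left e1'.symm hd₁
  generalize (a : Matrix (Fin n₁) (Fin n₁) F) *ᵥ v = q at hl hl'
  have hγ : c * (f₁ v v₀ * ε) ≠ 0 := mul_ne_zero hc0 (mul_ne_zero hv hfr.ne)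
  generalize c * (f₁ v v₀ * ε) = γ at hl' hγ
  have hl0 : l ≠ 0 := by
    rintro rfl
    rw [zero_smul] at hl
    rw [hl, bf_zero_left hb₁] at hv
    exact hv rfl
  have h3 : l' • v = l • (v + γ • v₀) := by
    calc l' • v = l' • (l • q) := by rw [← hl]
      _ = l • (l' • q) := smul_comm l' l q
      _ = l • (v + γ • v₀) := by rw [← hl']
  have h4 := congrArg (fun t => f₁ t v) h3
  simp only [hb₁.smul_left, hb₁.add_left, hf₁.alternating, mul_zero, zero_add] at h4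
  have h5 : f₁ v₀ v = 0 := by
    rcases mul_eq_zero.mp h4.symm with h | h
    · exact absurd h hl0
    · rcases mul_eq_zero.mp h with h | h
      · exact absurd h hγ
      · exact h
  apply hv
  rw [hf₁.skew, h5, neg_zero]

theorem w2_not_K (hq : Fintype.card F = 3) (hf₁ : Cfsg.Geo.IsSymplecticForm f₁)
    (hf₂ : Cfsg.Geo.IsSymmetricForm f₂) (hc0 : c ≠ 0)
    (hc : ∀ x y : Fin n₁ × Fin 3 → F,
      Cfsg.sympForm m F ((P : Matrix (Fin m ⊕ Fin m) (Fin m ⊕ Fin m) F) *ᵥ (x ∘ e))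
        ((P : Matrix (Fin m ⊕ Fin m) (Fin m ⊕ Fin m) F) *ᵥ (y ∘ e)) =
      c * Cfsg.Geo.formOfGram (id : F → F)
        (Cfsg.Geo.gramMatrix f₁ ⊗ₖ Cfsg.Geo.gramMatrix f₂) x y)
    (hfr : IsFrame f₂ ε d₁ d₂ d₃) {v₀ : Fin n₁ → F} (hv₀ : v₀ ≠ 0) :
    Cfsg.Agent.S5648.tv (emb e P (tv v₀ (d₁ + d₂))) ∉ KX (SS e P f₂) := by
  intro hmem
  have hb₁ := hf₁.bilinear
  have hb₂ := hf₂.bilinear
  obtain ⟨⟨v, hv⟩, -⟩ := hf₁.nondegenerate v₀ hv₀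
  have hx : emb e P (tv v d₁) ∈ SS e P f₂ := ⟨v, d₁, hfr.nn1 hq hf₂, rfl⟩
  obtain ⟨v', w', hw', heq⟩ := (hmem _).mp hx
  rw [Cfsg.Agent.S5648.tv_mulVec, pair_tv hb₁ hb₂ hc, hb₂.add_right, hfr.n1, hfr.o12, add_zero,
    ← emb_smul, ← emb_add] at heq
  have heq' := emb_inj e P heq
  have hγ : c * (f₁ v v₀ * ε) ≠ 0 := mul_ne_zero hc0 (mul_ne_zero hv hfr.ne)
  generalize c * (f₁ v v₀ * ε) = γ at heq' hγ
  have heq2 : tv (v + γ • v₀) d₁ + tv (γ • v₀) d₂ = tv v' w' := by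
    rw [← heq', tv_add_left, tv_add_right, tv_smul_left, tv_smul_left, smul_add, add_assoc]
  have o21 : f₂ d₂ d₁ = 0 := by rw [hf₂.symm]; exact hfr.o12
  have o32 : f₂ d₃ d₂ = 0 := by rw [hf₂.symm]; exact hfr.o23
  have hslice := fun y i => slice_right hb₂.add_left hb₂.smul_left y heq2 i
  have hv₀' : (∀ i, (γ • v₀) i * ε = 0) → False := by
    intro hh
    apply hv₀
    ext i
    have := hh i
    simp only [Pi.smul_apply, smul_eq_mul] at this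
    rcases mul_eq_zero.mp this with h | h
    · rcases mul_eq_zero.mp h with h | h
      · exact absurd h hγ
      · exact h
    · exact absurd h hfr.ne
  obtain ⟨s, h | h | h⟩ := hfr.of_nn hq hf₂ hw'
  · apply hv₀'
    intro i
    have := hslice d₂ i
    rw [hfr.o12, hfr.n2, h, hb₂.smul_left, hfr.o12] at this
    linear_combination this
  · apply hv
    have hzero : v + γ • v₀ = 0 := by
      ext i
      have := hslice d₁ i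
      rw [hfr.n1, o21, h, hb₂.smul_left, o21] at this
      have h' : (v + γ • v₀) i * ε = 0 := by linear_combination this
      rcases mul_eq_zero.mp h' with h'' | h''
      · exact h''
      · exact absurd h'' hfr.ne
    have := congrArg (fun t => f₁ t v₀) hzero
    simp only [hb₁.add_left, hb₁.smul_left, hf₁.alternating, mul_zero, add_zero,
      bf_zero_left hb₁] at this
    exact this
  · apply hv₀'
    intro i
    have := hslice d₂ i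
    rw [hfr.o12, hfr.n2, h, hb₂.smul_left, o32] at this
    linear_combination this

end Wit

/-- Over the field with 3 elements and for m ≥ 7, suppose the standard alternating form on F^(2m) is similar, through P and e, to the tensor product of a non-degenerate symplectic form f₁ on F^(n₁) and a non-degenerate symmetric bilinear form f₂ on F^3. Then the elements of Sp_2m(3) in the stabiliser of this tensor decomposition form a subgroup that is not maximal: some subgroup lies strictly between it and Sp_2m(3). -/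
theorem result {F : Type*} [Field F] [Fintype F] (m : ℕ) (hm : 7 ≤ m) (hq : Fintype.card F = 3) (n₁ : ℕ) (e : (Fin m ⊕ Fin m) ≃ Fin n₁ × Fin 3) (P : Matrix.GeneralLinearGroup (Fin m ⊕ Fin m) F) (f₁ : (Fin n₁ → F) → (Fin n₁ → F) → F) (f₂ : (Fin 3 → F) → (Fin 3 → F) → F) (hf₁ : Cfsg.Geo.IsSymplecticForm f₁) (hf₂ : Cfsg.Geo.IsSymmetricForm f₂) (hT : Cfsg.Geo.IsTensorFormStructure id (Cfsg.sympForm m F) f₁ f₂ e P) : ∃ K : Subgroup (Matrix.GeneralLinearGroup (Fin m ⊕ Fin m) F), Cfsg.Geo.tensorProductSubgroup n₁ 3 e P ⊓ Cfsg.spGL m F < K ∧ K < Cfsg.spGL m F := by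
  obtain ⟨c, hc0, hc⟩ := hT
  have hn₁ : 0 < n₁ := by
    have := Fintype.card_congr e
    simp only [Fintype.card_sum, Fintype.card_fin, Fintype.card_prod] at this
    omega
  obtain ⟨ε, d₁, d₂, d₃, hfr⟩ := exists_frame hq hf₂
  obtain ⟨v₀, hv₀⟩ : ∃ v₀ : Fin n₁ → F, v₀ ≠ 0 := by
    refine ⟨Pi.single ⟨0, hn₁⟩ 1, ?_⟩
    intro h
    have := congrFun h ⟨0, hn₁⟩
    simp at this
  refine ⟨KX (SS e P f₂) ⊓ Cfsg.spGL m F, ?_, ?_⟩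
  · rw [lt_iff_le_and_ne]
    refine ⟨tensor_le hf₁ hf₂ hc0 hc hv₀, ?_⟩
    intro heq
    have hmem := w1_mem_K hq hf₁ hf₂ hc hfr v₀
    rw [← heq] at hmem
    exact w1_not_tensor hf₁ hf₂ hc0 hc hfr hv₀ hmem.1
  · rw [lt_iff_le_and_ne]
    refine ⟨inf_le_right, ?_⟩
    intro heq
    have hmem : Cfsg.Agent.S5648.tv (emb e P (tv v₀ (d₁ + d₂))) ∈
        KX (SS e P f₂) ⊓ Cfsg.spGL m F := by
      rw [heq]
      exact Cfsg.Agent.S5648.tv_mem _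
    exact w2_not_K hq hf₁ hf₂ hc0 hc hfr hv₀ hmem.1

end Cfsg.Agent.S5667
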