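import Cfsg.Statements.S5671
import Mathlib
import Cfsg.Agent.S5656

set_option autoImplicit false
open Cfsg

namespace Cfsg.Agent.S5671

open Matrix
open scoped Kronecker

variable {F : Type*} [Field F] [Fintype F]

theorem two_eq_zero (hF : Fintype.card F = 4) : (2 : F) = 0 := Cfsg.Agent.S5656.two_eq_zero hF

theorem cube_eq_one (hF : Fintype.card F = 4) {x : F} (hx : x ≠ 0) : x ^ 3 = 1 := by
  have h := Cfsg.Agent.S5656.pow_four hF x
  have : x * (x ^ 3 - 1) = 0 := by linear_combination h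
  rcases mul_eq_zero.mp this with h | h
  · exact absurd h hx
  · exact sub_eq_zero.mp h

theorem exists_omega (hF : Fintype.card F = 4) : ∃ ω : F, ω ≠ 0 ∧ ω ≠ 1 := by
  classical
  by_contra hcon
  push Not at hcon
  have hsub : (Finset.univ : Finset F) ⊆ {0, 1} := by
    intro x _
    by_cases hx : x = 0
    · simp [hx]
    · simp [hcon x hx]
  have h1 : Fintype.card F ≤ ({0, 1} : Finset F).card := Finset.card_le_card hsub
  have h2 : ({0, 1} : Finset F).card ≤ 2 := Finset.card_le_two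
  omega

section UForm

variable {ι : Type} [Fintype ι] [DecidableEq ι] {f : (ι → F) → (ι → F) → F}

theorem uf_add_right (hF : Fintype.card F = 4) (hf : Cfsg.Geo.IsUnitaryFormPow 2 f) (v x y : ι → F) :
    f v (x + y) = f v x + f v y := by
  rw [hf.herm v (x + y), hf.add_left, hf.herm v x, hf.herm v y]
  linear_combination (f x v * f y v) * two_eq_zero hF

omit [Fintype F] [Fintype ι] [DecidableEq ι] in
theorem uf_smul_right (hf : Cfsg.Geo.IsUnitaryFormPow 2 f) (c : F) (v x : ι → F) :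
    f v (c • x) = c ^ 2 * f v x := by
  rw [hf.herm v (c • x), hf.smul_left, hf.herm v x]
  ring

omit [Fintype F] [Fintype ι] [DecidableEq ι] in
theorem uf_self_01 (hf : Cfsg.Geo.IsUnitaryFormPow 2 f) (v : ι → F) : f v v = 0 ∨ f v v = 1 :=
  Cfsg.Agent.S5656.zero_or_one_of_sq _ (hf.herm v v).symm

omit [Fintype F] [Fintype ι] [DecidableEq ι] in
theorem uf_zero_left (hf : Cfsg.Geo.IsUnitaryFormPow 2 f) (v : ι → F) : f 0 v = 0 := by
  have := hf.smul_left 0 0 v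
  simpa using this

omit [Fintype F] [Fintype ι] [DecidableEq ι] in
theorem uf_zero_right (hf : Cfsg.Geo.IsUnitaryFormPow 2 f) (v : ι → F) : f v 0 = 0 := by
  rw [hf.herm, uf_zero_left hf]
  ring

theorem uf_exists_unit (hF : Fintype.card F = 4) (hf : Cfsg.Geo.IsUnitaryFormPow 2 f) [Nonempty ι] :
    ∃ v : ι → F, f v v = 1 := by
  by_contra hcon
  push Not at hcon
  have h0 : ∀ v, f v v = 0 := fun v => (uf_self_01 hf v).resolve_right (hcon v)
  have hsymm : ∀ u v, f u v = f v u := by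
    intro u v
    have h := h0 (u + v)
    rw [hf.add_left, uf_add_right hF hf, uf_add_right hF hf, h0 u, h0 v] at h
    linear_combination h - (f v u) * two_eq_zero hF
  have h01 : ∀ u v, f u v = 0 ∨ f u v = 1 := by
    intro u v
    apply Cfsg.Agent.S5656.zero_or_one_of_sq
    rw [← hf.herm, hsymm]
  obtain ⟨ω, hω0, hω1⟩ := exists_omega hF
  have hzero : ∀ u v, f u v = 0 := by
    intro u v
    rcases h01 u v with h | h
    · exact h
    · exfalso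
      rcases h01 (ω • u) v with h' | h'
      · rw [hf.smul_left, h, mul_one] at h'; exact hω0 h'
      · rw [hf.smul_left, h, mul_one] at h'; exact hω1 h'
  obtain ⟨i⟩ := ‹Nonempty ι›
  have hne : (Pi.single i (1 : F) : ι → F) ≠ 0 := by
    intro h
    have := congrFun h i
    simp at this
  obtain ⟨⟨x, hx⟩, -⟩ := hf.nondegenerate _ hne
  exact hx (hzero _ _)

theorem uf_eq_gram (hF : Fintype.card F = 4) (hf : Cfsg.Geo.IsUnitaryFormPow 2 f) (x y : ι → F) :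
    f x y = Cfsg.Geo.formOfGram (fun a : F => a ^ 2) (Cfsg.Geo.gramMatrix f) x y := by
  have hL : ∀ (w : ι → F) (x : ι → F), f x w = ∑ a, x a * f (Pi.single a 1) w := by
    intro w x
    let L : (ι → F) →ₗ[F] F :=
      { toFun := fun x => f x w
        map_add' := fun x y => hf.add_left x y w
        map_smul' := fun c x => by simpa using hf.smul_left c x w }
    have hx : x = ∑ a, x a • (Pi.single a (1 : F) : ι → F) := by
      ext b
      simp [Finset.sum_apply, Pi.single_apply]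
    have h1 : f x w = L x := rfl
    rw [h1]
    conv_lhs => rw [hx]
    rw [map_sum]
    apply Finset.sum_congr rfl
    intro a _
    rw [map_smul]
    rfl
  have : CharP F 2 := CharTwo.of_one_ne_zero_of_two_eq_zero one_ne_zero (two_eq_zero hF)
  unfold Cfsg.Geo.formOfGram Cfsg.Geo.gramMatrix
  rw [hL y x]
  apply Finset.sum_congr rfl
  intro a _
  rw [hf.herm (Pi.single a 1) y, hL (Pi.single a 1) y, sum_pow_char 2, Finset.mul_sum]
  apply Finset.sum_congr rfl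
  intro b _
  rw [mul_pow, ← hf.herm (Pi.single a 1) (Pi.single b 1)]
  ring

end UForm

variable {n n₂ : ℕ}

/-- Pure tensors. -/
def tv (v : Fin 2 → F) (w : Fin n₂ → F) : Fin 2 × Fin n₂ → F := fun p => v p.1 * w p.2

omit [Fintype F] in
theorem tv_add_right (v : Fin 2 → F) (w w' : Fin n₂ → F) : tv v (w + w') = tv v w + tv v w' := by
  ext p; simp only [tv, Pi.add_apply]; ring

omit [Fintype F] in
theorem tv_add_left (v v' : Fin 2 → F) (w : Fin n₂ → F) : tv (v + v') w = tv v w + tv v' w := by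
  ext p; simp only [tv, Pi.add_apply]; ring

omit [Fintype F] in
theorem tv_smul_left (c : F) (v : Fin 2 → F) (w : Fin n₂ → F) : tv (c • v) w = c • tv v w := by
  ext p; simp only [tv, Pi.smul_apply, smul_eq_mul]; ring

omit [Fintype F] in
theorem tv_smul_right (c : F) (v : Fin 2 → F) (w : Fin n₂ → F) : tv v (c • w) = c • tv v w := by
  ext p; simp only [tv, Pi.smul_apply, smul_eq_mul]; ring

omit [Fintype F] in
theorem gram_tv (G₁ : Matrix (Fin 2) (Fin 2) F) (G₂ : Matrix (Fin n₂) (Fin n₂) F)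
    (v v' : Fin 2 → F) (w w' : Fin n₂ → F) :
    Cfsg.Geo.formOfGram (fun a : F => a ^ 2) (G₁ ⊗ₖ G₂) (tv v w) (tv v' w') =
      Cfsg.Geo.formOfGram (fun a : F => a ^ 2) G₁ v v' *
        Cfsg.Geo.formOfGram (fun a : F => a ^ 2) G₂ w w' := by
  unfold Cfsg.Geo.formOfGram
  simp only [Fintype.sum_prod_type, tv, Matrix.kroneckerMap_apply]
  rw [Finset.sum_mul_sum]
  apply Finset.sum_congr rfl
  intro i _
  apply Finset.sum_congr rfl
  intro j _
  rw [Finset.sum_mul_sum]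
  apply Finset.sum_congr rfl
  intro i' _
  apply Finset.sum_congr rfl
  intro j' _
  ring

/-- The coordinate change from the tensor coordinates. -/
def emb (e : Fin n ≃ Fin 2 × Fin n₂) (P : GL (Fin n) F) (x : Fin 2 × Fin n₂ → F) : Fin n → F :=
  (P : Matrix (Fin n) (Fin n) F) *ᵥ (x ∘ e)

omit [Fintype F] in
theorem emb_add (e : Fin n ≃ Fin 2 × Fin n₂) (P : GL (Fin n) F) (x y : Fin 2 × Fin n₂ → F) :
    emb e P (x + y) = emb e P x + emb e P y := by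
  unfold emb
  rw [← Matrix.mulVec_add]
  rfl

omit [Fintype F] in
theorem emb_smul (e : Fin n ≃ Fin 2 × Fin n₂) (P : GL (Fin n) F) (c : F) (x : Fin 2 × Fin n₂ → F) :
    emb e P (c • x) = c • emb e P x := by
  unfold emb
  rw [← Matrix.mulVec_smul]
  rfl

omit [Fintype F] in
theorem emb_inj (e : Fin n ≃ Fin 2 × Fin n₂) (P : GL (Fin n) F) : Function.Injective (emb e P) := by
  intro x y h
  unfold emb at h
  have h2 := congrArg (fun z => ((P⁻¹ : GL (Fin n) F) : Matrix (Fin n) (Fin n) F) *ᵥ z) h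
  simp only [Matrix.mulVec_mulVec, ← Units.val_mul, inv_mul_cancel, Units.val_one,
    Matrix.one_mulVec] at h2
  funext p
  have := congrFun h2 (e.symm p)
  simpa using this

theorem pair_tv (hF : Fintype.card F = 4) {e : Fin n ≃ Fin 2 × Fin n₂} {P : GL (Fin n) F}
    {f₁ : (Fin 2 → F) → (Fin 2 → F) → F} {f₂ : (Fin n₂ → F) → (Fin n₂ → F) → F}
    (hf₁ : Cfsg.Geo.IsUnitaryFormPow 2 f₁) (hf₂ : Cfsg.Geo.IsUnitaryFormPow 2 f₂) {c : F}
    (hc : ∀ x y : Fin 2 × Fin n₂ → F,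
      Cfsg.hermForm n F 2 ((P : Matrix (Fin n) (Fin n) F) *ᵥ (x ∘ e))
        ((P : Matrix (Fin n) (Fin n) F) *ᵥ (y ∘ e)) =
      c * Cfsg.Geo.formOfGram (fun x : F => x ^ 2)
        (Cfsg.Geo.gramMatrix f₁ ⊗ₖ Cfsg.Geo.gramMatrix f₂) x y)
    (v v' : Fin 2 → F) (w w' : Fin n₂ → F) :
    Cfsg.hermForm n F 2 (emb e P (tv v w)) (emb e P (tv v' w')) = c * (f₁ v v' * f₂ w w') := by
  unfold emb
  rw [hc, gram_tv, ← uf_eq_gram hF hf₁, ← uf_eq_gram hF hf₂]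

section Plane

variable {f₁ : (Fin 2 → F) → (Fin 2 → F) → F}

/-- An orthonormal basis of the unitary plane, with expansion of vectors. -/
theorem exists_onb (hF : Fintype.card F = 4) (hf₁ : Cfsg.Geo.IsUnitaryFormPow 2 f₁) :
    ∃ v₁ v₂ : Fin 2 → F, f₁ v₁ v₁ = 1 ∧ f₁ v₂ v₂ = 1 ∧ f₁ v₁ v₂ = 0 ∧ f₁ v₂ v₁ = 0 ∧
      ∀ x : Fin 2 → F, x = f₁ x v₁ • v₁ + f₁ x v₂ • v₂ := by
  have h2 := two_eq_zero hF
  obtain ⟨v₂, h22⟩ := uf_exists_unit hF hf₁
  have hexp : ∀ x : Fin 2 → F, x = x 0 • (Pi.single 0 (1 : F) : Fin 2 → F) + x 1 • Pi.single 1 1 := by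
    intro x
    ext i
    fin_cases i <;> simp
  have hfx : ∀ x : Fin 2 → F, f₁ x v₂ = x 0 * f₁ (Pi.single 0 1) v₂ + x 1 * f₁ (Pi.single 1 1) v₂ := by
    intro x
    conv_lhs => rw [hexp x]
    rw [hf₁.add_left, hf₁.smul_left, hf₁.smul_left]
  have h12 : f₁ ![f₁ (Pi.single 1 1) v₂, f₁ (Pi.single 0 1) v₂] v₂ = 0 := by
    rw [hfx]
    simp only [Matrix.cons_val_zero, Matrix.cons_val_one]
    linear_combination (f₁ (Pi.single 1 1) v₂ * f₁ (Pi.single 0 1) v₂) * h2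
  have hne : ![f₁ (Pi.single 1 1) v₂, f₁ (Pi.single 0 1) v₂] ≠ 0 := by
    intro h
    have e0 := congrFun h 0
    have e1 := congrFun h 1
    simp only [Matrix.cons_val_zero, Matrix.cons_val_one, Pi.zero_apply] at e0 e1
    have := hfx v₂
    rw [e0, e1, h22] at this
    simp at this
  generalize ![f₁ (Pi.single 1 1) v₂, f₁ (Pi.single 0 1) v₂] = v₁ at h12 hne
  have hli : LinearIndependent F ![v₁, v₂] := by
    rw [LinearIndependent.pair_iff]
    intro s t hst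
    have h := congrArg (fun x => f₁ x v₂) hst
    simp only [hf₁.add_left, hf₁.smul_left, h12, h22, uf_zero_left hf₁] at h
    have ht : t = 0 := by linear_combination h
    rw [ht, zero_smul, add_zero] at hst
    rcases smul_eq_zero.mp hst with h | h
    · exact ⟨h, ht⟩
    · exact absurd h hne
  let b : Module.Basis (Fin 2) F (Fin 2 → F) :=
    basisOfLinearIndependentOfCardEqFinrank hli (by simp)
  have hb : ∀ x : Fin 2 → F, x = b.repr x 0 • v₁ + b.repr x 1 • v₂ := by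
    intro x
    have := b.sum_repr x
    rw [Fin.sum_univ_two] at this
    simp only [b, coe_basisOfLinearIndependentOfCardEqFinrank, Matrix.cons_val_zero,
      Matrix.cons_val_one] at this
    exact this.symm
  have h11 : f₁ v₁ v₁ = 1 := by
    rcases uf_self_01 hf₁ v₁ with h | h
    · exfalso
      obtain ⟨-, ⟨x, hx⟩⟩ := hf₁.nondegenerate v₁ hne
      apply hx
      rw [hb x, uf_add_right hF hf₁, uf_smul_right hf₁, uf_smul_right hf₁, h, h12]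
      ring
    · exact h
  have h21 : f₁ v₂ v₁ = 0 := by rw [hf₁.herm, h12]; ring
  refine ⟨v₁, v₂, h11, h22, h12, h21, fun x => ?_⟩
  have e1 : f₁ x v₁ = b.repr x 0 := by
    conv_lhs => rw [hb x]
    rw [hf₁.add_left, hf₁.smul_left, hf₁.smul_left, h11, h21]
    ring
  have e2 : f₁ x v₂ = b.repr x 1 := by
    conv_lhs => rw [hb x]
    rw [hf₁.add_left, hf₁.smul_left, hf₁.smul_left, h12, h22]
    ring
  rw [e1, e2]
  exact hb x

theorem n1_cases (hF : Fintype.card F = 4) (hf₁ : Cfsg.Geo.IsUnitaryFormPow 2 f₁)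
    {v₁ v₂ : Fin 2 → F}
    (hx : ∀ x : Fin 2 → F, x = f₁ x v₁ • v₁ + f₁ x v₂ • v₂) (v : Fin 2 → F) (hv : f₁ v v ≠ 0) :
    (f₁ v v₂ = 0 ∧ v = f₁ v v₁ • v₁) ∨ (f₁ v v₁ = 0 ∧ v = f₁ v v₂ • v₂) := by
  have h2 := two_eq_zero hF
  have hvv : f₁ v v = f₁ v v₁ ^ 3 + f₁ v v₂ ^ 3 := by
    conv_lhs => rw [hx v]
    rw [uf_add_right hF hf₁, uf_smul_right hf₁, uf_smul_right hf₁, ← hx v]
    ring
  by_cases ha : f₁ v v₁ = 0
  · right
    refine ⟨ha, ?_⟩
    conv_lhs => rw [hx v]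
    rw [ha, zero_smul, zero_add]
  · by_cases hb : f₁ v v₂ = 0
    · left
      refine ⟨hb, ?_⟩
      conv_lhs => rw [hx v]
      rw [hb, zero_smul, add_zero]
    · exfalso
      apply hv
      rw [hvv, cube_eq_one hF ha, cube_eq_one hF hb]
      linear_combination h2

end Plane

section Exist

variable {f₂ : (Fin n₂ → F) → (Fin n₂ → F) → F}

omit [Fintype F] in
theorem exists_not_mul (hn₂ : 2 ≤ n₂) (w₁ : Fin n₂ → F) : ∃ y : Fin n₂ → F, ∀ c : F, y ≠ c • w₁ := by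
  by_contra hcon
  push Not at hcon
  obtain ⟨c, hc⟩ := hcon (Pi.single (⟨0, by omega⟩ : Fin n₂) 1)
  obtain ⟨d, hd⟩ := hcon (Pi.single (⟨1, by omega⟩ : Fin n₂) 1)
  have h01 : (⟨0, by omega⟩ : Fin n₂) ≠ ⟨1, by omega⟩ := by simp [Fin.ext_iff]
  have e1 := congrFun hc ⟨0, by omega⟩
  have e2 := congrFun hd ⟨0, by omega⟩
  have e3 := congrFun hd ⟨1, by omega⟩
  simp only [Pi.single_eq_same, Pi.smul_apply, smul_eq_mul] at e1 e3
  rw [Pi.single_eq_of_ne h01, Pi.smul_apply, smul_eq_mul] at e2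
  have hw : w₁ ⟨0, by omega⟩ ≠ 0 := by
    intro h
    rw [h, mul_zero] at e1
    exact one_ne_zero e1
  have hd0 : d = 0 := by
    rcases mul_eq_zero.mp e2.symm with h | h
    · exact h
    · exact absurd h hw
  rw [hd0, zero_mul] at e3
  exact one_ne_zero e3

/-- A unit vector, a vector pairing nontrivially with it and not proportional to it, and a nonzero
isotropic vector. -/
theorem exists_vectors (hF : Fintype.card F = 4) (hf₂ : Cfsg.Geo.IsUnitaryFormPow 2 f₂)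
    (hn₂ : 2 ≤ n₂) :
    ∃ w₁ w' u : Fin n₂ → F, f₂ w₁ w₁ = 1 ∧ f₂ w' w₁ ≠ 0 ∧ (∀ c : F, w' ≠ c • w₁) ∧ u ≠ 0 ∧
      f₂ u u = 0 := by
  have h2 := two_eq_zero hF
  haveI : Nonempty (Fin n₂) := ⟨⟨0, by omega⟩⟩
  obtain ⟨w₁, h11⟩ := uf_exists_unit hF hf₂
  obtain ⟨y, hy⟩ := exists_not_mul hn₂ w₁
  have hw' : ∃ w' : Fin n₂ → F, f₂ w' w₁ ≠ 0 ∧ ∀ c : F, w' ≠ c • w₁ := by
    by_cases h : f₂ y w₁ = 0
    · refine ⟨y + w₁, ?_, ?_⟩
      · rw [hf₂.add_left, h, h11, zero_add]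
        exact one_ne_zero
      · intro c hc
        apply hy (c + 1)
        rw [add_smul, one_smul, ← hc]
        ext j
        simp only [Pi.add_apply]
        linear_combination (-(w₁ j)) * h2
    · exact ⟨y, h, hy⟩
  obtain ⟨w', hw'1, hw'2⟩ := hw'
  have hu : ∃ u : Fin n₂ → F, u ≠ 0 ∧ f₂ u u = 0 := by
    have hy'1 : f₂ (y + f₂ y w₁ • w₁) w₁ = 0 := by
      rw [hf₂.add_left, hf₂.smul_left, h11]
      linear_combination (f₂ y w₁) * h2
    have hy'0 : y + f₂ y w₁ • w₁ ≠ 0 := by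
      intro h
      apply hy (f₂ y w₁)
      ext j
      have := congrFun h j
      simp only [Pi.add_apply, Pi.smul_apply, smul_eq_mul, Pi.zero_apply] at this ⊢
      linear_combination this - (f₂ y w₁ * w₁ j) * h2
    generalize y + f₂ y w₁ • w₁ = y' at hy'1 hy'0
    rcases uf_self_01 hf₂ y' with h | h
    · exact ⟨y', hy'0, h⟩
    · refine ⟨w₁ + y', ?_, ?_⟩
      · intro h0
        have : f₂ (w₁ + y') w₁ = 0 := by rw [h0, uf_zero_left hf₂]
        rw [hf₂.add_left, h11, hy'1, add_zero] at this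
        exact one_ne_zero this
      · rw [hf₂.add_left, uf_add_right hF hf₂, uf_add_right hF hf₂, h11, h, hy'1,
          hf₂.herm w₁ y', hy'1]
        linear_combination h2
  obtain ⟨u, hu0, huu⟩ := hu
  exact ⟨w₁, w', u, h11, hw'1, hw'2, hu0, huu⟩

end Exist


/-- The pure tensors with non-isotropic first factor. -/
def TT (e : Fin n ≃ Fin 2 × Fin n₂) (P : GL (Fin n) F) (f₁ : (Fin 2 → F) → (Fin 2 → F) → F) :
    Set (Fin n → F) :=
  {x | ∃ (v : Fin 2 → F) (w : Fin n₂ → F), f₁ v v ≠ 0 ∧ x = emb e P (tv v w)}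

/-- The elements permuting a set of vectors. -/
def KX (S : Set (Fin n → F)) : Subgroup (GL (Fin n) F) where
  carrier := {g | ∀ x, x ∈ S ↔ (g : Matrix (Fin n) (Fin n) F) *ᵥ x ∈ S}
  mul_mem' := by
    intro a b ha hb x
    rw [Units.val_mul, ← Matrix.mulVec_mulVec, ← ha, ← hb]
  one_mem' := fun x => by simp
  inv_mem' := by
    intro a ha x
    have := ha (((a⁻¹ : GL (Fin n) F) : Matrix (Fin n) (Fin n) F) *ᵥ x)
    rw [Matrix.mulVec_mulVec, ← Units.val_mul, mul_inv_cancel, Units.val_one, Matrix.one_mulVec] at this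
    exact this.symm

omit [Fintype F] in
theorem kron_tv (a : Matrix (Fin 2) (Fin 2) F) (b : Matrix (Fin n₂) (Fin n₂) F) (v : Fin 2 → F)
    (w : Fin n₂ → F) : (a ⊗ₖ b) *ᵥ tv v w = tv (a *ᵥ v) (b *ᵥ w) := by
  ext ⟨i, j⟩
  simp only [Matrix.mulVec, dotProduct, tv, Fintype.sum_prod_type, Matrix.kroneckerMap_apply]
  rw [Finset.sum_mul_sum]
  apply Finset.sum_congr rfl
  intro i' _
  apply Finset.sum_congr rfl
  intro j' _
  ring

omit [Fintype F] in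
theorem tensor_act {e : Fin n ≃ Fin 2 × Fin n₂} {P : GL (Fin n) F} {g : GL (Fin n) F}
    (hg : g ∈ Cfsg.Geo.tensorProductSubgroup 2 n₂ e P) :
    ∃ (a : GL (Fin 2) F) (b : GL (Fin n₂) F), ∀ x : Fin 2 × Fin n₂ → F,
      (g : Matrix (Fin n) (Fin n) F) *ᵥ emb e P x =
        emb e P (((a : Matrix (Fin 2) (Fin 2) F) ⊗ₖ (b : Matrix (Fin n₂) (Fin n₂) F)) *ᵥ x) := by
  unfold Cfsg.Geo.tensorProductSubgroup at hg
  obtain ⟨h, ⟨k, ⟨a, b, hk⟩, rfl⟩, rfl⟩ := hg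
  refine ⟨a, b, fun x => ?_⟩
  unfold emb
  have h1 : (((MulAut.conj P).toMonoidHom ((Cfsg.Geo.glReindex e.symm).toMonoidHom k) : GL (Fin n) F) :
      Matrix (Fin n) (Fin n) F) = (P : Matrix (Fin n) (Fin n) F) *
        (k : Matrix (Fin 2 × Fin n₂) (Fin 2 × Fin n₂) F).submatrix e e *
        ((P⁻¹ : GL (Fin n) F) : Matrix (Fin n) (Fin n) F) := by
    rfl
  rw [h1, Matrix.mulVec_mulVec, mul_assoc, mul_assoc, ← Units.val_mul, inv_mul_cancel, Units.val_one,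
    mul_one, ← Matrix.mulVec_mulVec, Matrix.submatrix_mulVec_equiv, ← hk]
  have hx : (x ∘ ⇑e) ∘ ⇑e.symm = x := by
    funext p
    simp
  rw [hx]

omit [Fintype F] in
theorem tv_eq {p p' : Fin 2 → F} {q q' : Fin n₂ → F} (h : tv p q = tv p' q') (hp' : p' ≠ 0) :
    ∃ l : F, q' = l • q := by
  obtain ⟨i, hi⟩ : ∃ i, p' i ≠ 0 := by
    by_contra hcon
    push Not at hcon
    exact hp' (funext hcon)
  refine ⟨p i / p' i, ?_⟩
  ext j
  have := congrFun h (i, j)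
  simp only [tv] at this
  simp only [Pi.smul_apply, smul_eq_mul]
  field_simp
  linear_combination -this

omit [Fintype F] in
theorem slice_pair {f₁ : (Fin 2 → F) → (Fin 2 → F) → F} (hf₁ : Cfsg.Geo.IsUnitaryFormPow 2 f₁)
    {p p' v : Fin 2 → F} {q q' w : Fin n₂ → F} (y : Fin 2 → F)
    (h : tv p q + tv p' q' = tv v w) (j : Fin n₂) :
    q j * f₁ p y + q' j * f₁ p' y = w j * f₁ v y := by
  have e1 : (q j • p + q' j • p' : Fin 2 → F) = w j • v := by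
    ext i
    have := congrFun h (i, j)
    simp only [tv, Pi.add_apply, Pi.smul_apply, smul_eq_mul] at this ⊢
    linear_combination this
  have := congrArg (fun t => f₁ t y) e1
  simpa only [hf₁.add_left, hf₁.smul_left] using this

section Main

variable {e : Fin n ≃ Fin 2 × Fin n₂} {P : GL (Fin n) F}
  {f₁ : (Fin 2 → F) → (Fin 2 → F) → F} {f₂ : (Fin n₂ → F) → (Fin n₂ → F) → F} {c : F}

/-- Elements of the tensor stabiliser preserving the form map `TT` into itself. -/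
theorem tensor_maps (hF : Fintype.card F = 4)
    (hf₁ : Cfsg.Geo.IsUnitaryFormPow 2 f₁) (hf₂ : Cfsg.Geo.IsUnitaryFormPow 2 f₂) (hc0 : c ≠ 0)
    (hc : ∀ x y : Fin 2 × Fin n₂ → F,
      Cfsg.hermForm n F 2 ((P : Matrix (Fin n) (Fin n) F) *ᵥ (x ∘ e))
        ((P : Matrix (Fin n) (Fin n) F) *ᵥ (y ∘ e)) =
      c * Cfsg.Geo.formOfGram (fun x : F => x ^ 2)
        (Cfsg.Geo.gramMatrix f₁ ⊗ₖ Cfsg.Geo.gramMatrix f₂) x y)
    {w₁ : Fin n₂ → F} (hw₁ : f₂ w₁ w₁ = 1)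
    {g : GL (Fin n) F} (hg : g ∈ Cfsg.Geo.tensorProductSubgroup 2 n₂ e P) (hgU : g ∈ Cfsg.GU n F 2)
    (x : Fin n → F) (hx : x ∈ TT e P f₁) : (g : Matrix (Fin n) (Fin n) F) *ᵥ x ∈ TT e P f₁ := by
  obtain ⟨a, b, hab⟩ := tensor_act hg
  obtain ⟨v, w, hv, rfl⟩ := hx
  refine ⟨(a : Matrix (Fin 2) (Fin 2) F) *ᵥ v, (b : Matrix (Fin n₂) (Fin n₂) F) *ᵥ w, ?_, ?_⟩
  · have hU : ∀ u v, Cfsg.hermForm n F 2 ((g : Matrix (Fin n) (Fin n) F) *ᵥ u)
        ((g : Matrix (Fin n) (Fin n) F) *ᵥ v) = Cfsg.hermForm n F 2 u v := hgU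
    have h1 := hU (emb e P (tv v w₁)) (emb e P (tv v w₁))
    rw [hab, kron_tv, pair_tv hF hf₁ hf₂ hc, pair_tv hF hf₁ hf₂ hc, hw₁, mul_one] at h1
    intro h0
    rw [h0, zero_mul, mul_zero] at h1
    exact mul_ne_zero hc0 hv h1.symm
  · rw [hab, kron_tv]

theorem tensor_le (hF : Fintype.card F = 4)
    (hf₁ : Cfsg.Geo.IsUnitaryFormPow 2 f₁) (hf₂ : Cfsg.Geo.IsUnitaryFormPow 2 f₂) (hc0 : c ≠ 0)
    (hc : ∀ x y : Fin 2 × Fin n₂ → F,
      Cfsg.hermForm n F 2 ((P : Matrix (Fin n) (Fin n) F) *ᵥ (x ∘ e))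
        ((P : Matrix (Fin n) (Fin n) F) *ᵥ (y ∘ e)) =
      c * Cfsg.Geo.formOfGram (fun x : F => x ^ 2)
        (Cfsg.Geo.gramMatrix f₁ ⊗ₖ Cfsg.Geo.gramMatrix f₂) x y)
    {w₁ : Fin n₂ → F} (hw₁ : f₂ w₁ w₁ = 1) :
    Cfsg.Geo.tensorProductSubgroup 2 n₂ e P ⊓ (Cfsg.GU n F 2 ⊓ Cfsg.Geo.specialLinear (Fin n) F) ≤
      KX (TT e P f₁) ⊓ (Cfsg.GU n F 2 ⊓ Cfsg.Geo.specialLinear (Fin n) F) := by
  rintro g ⟨hg, hgUS⟩
  refine ⟨fun x => ⟨tensor_maps hF hf₁ hf₂ hc0 hc hw₁ hg hgUS.1 x, fun h => ?_⟩, hgUS⟩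
  have := tensor_maps hF hf₁ hf₂ hc0 hc hw₁ (Subgroup.inv_mem _ hg) (Subgroup.inv_mem _ hgUS.1) _ h
  rwa [Matrix.mulVec_mulVec, ← Units.val_mul, inv_mul_cancel, Units.val_one, Matrix.one_mulVec] at this


theorem w1_maps (hF : Fintype.card F = 4)
    (hf₁ : Cfsg.Geo.IsUnitaryFormPow 2 f₁) (hf₂ : Cfsg.Geo.IsUnitaryFormPow 2 f₂)
    (hc : ∀ x y : Fin 2 × Fin n₂ → F,
      Cfsg.hermForm n F 2 ((P : Matrix (Fin n) (Fin n) F) *ᵥ (x ∘ e))
        ((P : Matrix (Fin n) (Fin n) F) *ᵥ (y ∘ e)) =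
      c * Cfsg.Geo.formOfGram (fun x : F => x ^ 2)
        (Cfsg.Geo.gramMatrix f₁ ⊗ₖ Cfsg.Geo.gramMatrix f₂) x y)
    {v₁ v₂ : Fin 2 → F} (h22 : f₁ v₂ v₂ = 1)
    (hexp : ∀ x : Fin 2 → F, x = f₁ x v₁ • v₁ + f₁ x v₂ • v₂) {u : Fin n₂ → F}
    (hz : Cfsg.hermForm n F 2 (emb e P (tv v₂ u)) (emb e P (tv v₂ u)) = 0)
    (x : Fin n → F) (hx : x ∈ TT e P f₁) :
    ((Cfsg.Agent.S5656.T _ hz : GL (Fin n) F) : Matrix (Fin n) (Fin n) F) *ᵥ x ∈ TT e P f₁ := by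
  obtain ⟨v, w, hv, rfl⟩ := hx
  rw [Cfsg.Agent.S5656.T_mulVec, pair_tv hF hf₁ hf₂ hc]
  rcases n1_cases hF hf₁ hexp v hv with ⟨h0, -⟩ | ⟨-, hveq⟩
  · rw [h0, zero_mul, mul_zero, zero_smul, add_zero]
    exact ⟨v, w, hv, rfl⟩
  · obtain ⟨β, hβ⟩ : ∃ β : F, v = β • v₂ := ⟨_, hveq⟩
    subst hβ
    refine ⟨v₂, β • w + (c * (f₁ (β • v₂) v₂ * f₂ w u)) • u, by rw [h22]; exact one_ne_zero, ?_⟩
    rw [tv_add_right, tv_smul_right, tv_smul_right, tv_smul_left, emb_add, emb_smul, emb_smul]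

theorem w1_mem_K (hF : Fintype.card F = 4)
    (hf₁ : Cfsg.Geo.IsUnitaryFormPow 2 f₁) (hf₂ : Cfsg.Geo.IsUnitaryFormPow 2 f₂)
    (hc : ∀ x y : Fin 2 × Fin n₂ → F,
      Cfsg.hermForm n F 2 ((P : Matrix (Fin n) (Fin n) F) *ᵥ (x ∘ e))
        ((P : Matrix (Fin n) (Fin n) F) *ᵥ (y ∘ e)) =
      c * Cfsg.Geo.formOfGram (fun x : F => x ^ 2)
        (Cfsg.Geo.gramMatrix f₁ ⊗ₖ Cfsg.Geo.gramMatrix f₂) x y)
    {v₁ v₂ : Fin 2 → F} (h22 : f₁ v₂ v₂ = 1)
    (hexp : ∀ x : Fin 2 → F, x = f₁ x v₁ • v₁ + f₁ x v₂ • v₂) {u : Fin n₂ → F}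
    (hz : Cfsg.hermForm n F 2 (emb e P (tv v₂ u)) (emb e P (tv v₂ u)) = 0) :
    Cfsg.Agent.S5656.T _ hz ∈
      KX (TT e P f₁) ⊓ (Cfsg.GU n F 2 ⊓ Cfsg.Geo.specialLinear (Fin n) F) := by
  refine ⟨fun x => ⟨w1_maps hF hf₁ hf₂ hc h22 hexp hz x, fun h => ?_⟩,
    Cfsg.Agent.S5656.T_mem_GU hF _ hz, Cfsg.Agent.S5656.T_mem_SL _ hz⟩
  have := w1_maps hF hf₁ hf₂ hc h22 hexp hz _ h
  rwa [Cfsg.Agent.S5656.T_invol hF] at this

theorem w1_not_tensor (hF : Fintype.card F = 4)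
    (hf₁ : Cfsg.Geo.IsUnitaryFormPow 2 f₁) (hf₂ : Cfsg.Geo.IsUnitaryFormPow 2 f₂) (hc0 : c ≠ 0)
    (hc : ∀ x y : Fin 2 × Fin n₂ → F,
      Cfsg.hermForm n F 2 ((P : Matrix (Fin n) (Fin n) F) *ᵥ (x ∘ e))
        ((P : Matrix (Fin n) (Fin n) F) *ᵥ (y ∘ e)) =
      c * Cfsg.Geo.formOfGram (fun x : F => x ^ 2)
        (Cfsg.Geo.gramMatrix f₁ ⊗ₖ Cfsg.Geo.gramMatrix f₂) x y)
    {v₁ v₂ : Fin 2 → F} (h11 : f₁ v₁ v₁ = 1) (h22 : f₁ v₂ v₂ = 1) (h12 : f₁ v₁ v₂ = 0)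
    {u : Fin n₂ → F} (hu0 : u ≠ 0) (huu : f₂ u u = 0)
    (hz : Cfsg.hermForm n F 2 (emb e P (tv v₂ u)) (emb e P (tv v₂ u)) = 0) :
    Cfsg.Agent.S5656.T _ hz ∉ Cfsg.Geo.tensorProductSubgroup 2 n₂ e P := by
  intro hmem
  obtain ⟨a, b, hab⟩ := tensor_act hmem
  obtain ⟨⟨w₀, hw₀⟩, -⟩ := hf₂.nondegenerate u hu0
  have hv₁ : v₁ ≠ 0 := by
    rintro rfl
    rw [uf_zero_left hf₁] at h11
    exact zero_ne_one h11
  have hv₂ : v₂ ≠ 0 := by
    rintro rfl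
    rw [uf_zero_left hf₁] at h22
    exact zero_ne_one h22
  have e1 := hab (tv v₁ w₀)
  rw [Cfsg.Agent.S5656.T_mulVec, pair_tv hF hf₁ hf₂ hc, h12, zero_mul, mul_zero, zero_smul, add_zero,
    kron_tv] at e1
  have e1' := emb_inj e P e1
  have e2 := hab (tv v₂ w₀)
  rw [Cfsg.Agent.S5656.T_mulVec, pair_tv hF hf₁ hf₂ hc, h22, one_mul, kron_tv, ← emb_smul, ← emb_add,
    ← tv_smul_right, ← tv_add_right] at e2
  have e2' := emb_inj e P e2
  obtain ⟨l, hl⟩ := tv_eq e1'.symm hv₁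
  obtain ⟨m, hm⟩ := tv_eq e2'.symm hv₂
  generalize (b : Matrix (Fin n₂) (Fin n₂) F) *ᵥ w₀ = q at hl hm
  have hγ : c * f₂ w₀ u ≠ 0 := mul_ne_zero hc0 hw₀
  generalize c * f₂ w₀ u = γ at hm hγ
  have hl0 : l ≠ 0 := by
    rintro rfl
    rw [zero_smul] at hl
    rw [hl, uf_zero_left hf₂] at hw₀
    exact hw₀ rfl
  have h3 : m • w₀ = l • (w₀ + γ • u) := by
    calc m • w₀ = m • (l • q) := by rw [← hl]
      _ = l • (m • q) := smul_comm m l q
      _ = l • (w₀ + γ • u) := by rw [← hm]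
  have h4 := congrArg (fun t => f₂ t u) h3
  simp only [hf₂.smul_left, hf₂.add_left, huu, mul_zero, add_zero] at h4
  have hml : m = l := mul_right_cancel₀ hw₀ h4
  subst hml
  have h5 : w₀ = w₀ + γ • u := smul_right_injective _ hl0 h3
  have h6 : γ • u = 0 := by simpa using h5.symm
  rcases smul_eq_zero.mp h6 with h | h
  · exact hγ h
  · exact hu0 h

theorem w2_not_K (hF : Fintype.card F = 4)
    (hf₁ : Cfsg.Geo.IsUnitaryFormPow 2 f₁) (hf₂ : Cfsg.Geo.IsUnitaryFormPow 2 f₂) (hc0 : c ≠ 0)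
    (hc : ∀ x y : Fin 2 × Fin n₂ → F,
      Cfsg.hermForm n F 2 ((P : Matrix (Fin n) (Fin n) F) *ᵥ (x ∘ e))
        ((P : Matrix (Fin n) (Fin n) F) *ᵥ (y ∘ e)) =
      c * Cfsg.Geo.formOfGram (fun x : F => x ^ 2)
        (Cfsg.Geo.gramMatrix f₁ ⊗ₖ Cfsg.Geo.gramMatrix f₂) x y)
    {v₁ v₂ : Fin 2 → F} (h11 : f₁ v₁ v₁ = 1) (h22 : f₁ v₂ v₂ = 1) (h12 : f₁ v₁ v₂ = 0)
    (h21 : f₁ v₂ v₁ = 0) (hexp : ∀ x : Fin 2 → F, x = f₁ x v₁ • v₁ + f₁ x v₂ • v₂)
    {w₁ w' : Fin n₂ → F} (hw11 : f₂ w₁ w₁ = 1) (hw'1 : f₂ w' w₁ ≠ 0)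
    (hw'2 : ∀ c : F, w' ≠ c • w₁)
    (hz : Cfsg.hermForm n F 2 (emb e P (tv (v₁ + v₂) w₁)) (emb e P (tv (v₁ + v₂) w₁)) = 0) :
    Cfsg.Agent.S5656.T _ hz ∉ KX (TT e P f₁) := by
  intro hmem
  have h2 := two_eq_zero hF
  have hx : emb e P (tv v₁ w') ∈ TT e P f₁ := ⟨v₁, w', by rw [h11]; exact one_ne_zero, rfl⟩
  obtain ⟨v, w, hv, heq⟩ := (hmem _).mp hx
  rw [Cfsg.Agent.S5656.T_mulVec, pair_tv hF hf₁ hf₂ hc, uf_add_right hF hf₁, h11, h12, add_zero,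
    one_mul, ← emb_smul, ← emb_add] at heq
  have heq' := emb_inj e P heq
  have hγ : c * f₂ w' w₁ ≠ 0 := mul_ne_zero hc0 hw'1
  generalize c * f₂ w' w₁ = γ at heq' hγ
  have heq2 : tv v₁ (w' + γ • w₁) + tv v₂ (γ • w₁) = tv v w := by
    rw [← heq', tv_add_right, tv_add_left, tv_smul_right, tv_smul_right, smul_add, add_assoc]
  rcases n1_cases hF hf₁ hexp v hv with ⟨h0, -⟩ | ⟨h0, -⟩
  · have hw₁0 : w₁ = 0 := by
      ext j
      have := slice_pair hf₁ v₂ heq2 j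
      rw [h12, h22, h0] at this
      simp only [Pi.smul_apply, smul_eq_mul, mul_zero, zero_add, mul_one] at this
      rcases mul_eq_zero.mp this with h | h
      · exact absurd h hγ
      · exact h
    rw [hw₁0, uf_zero_left hf₂] at hw11
    exact zero_ne_one hw11
  · apply hw'2 γ
    ext j
    have := slice_pair hf₁ v₁ heq2 j
    rw [h11, h21, h0] at this
    simp only [Pi.smul_apply, smul_eq_mul, mul_zero, add_zero, mul_one, Pi.add_apply] at this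
    simp only [Pi.smul_apply, smul_eq_mul]
    linear_combination this - (γ * w₁ j) * h2

end Main

/-- Let F be the field with 4 elements (q = 2) and n = 2 n₂ ≥ 13. Suppose the standard unitary form Σ u_i v_i² on F^n is similar, through P and e, to the tensor product of non-degenerate unitary forms f₁ on F^2 and f₂ on F^(n₂). Then the elements of SU_n(2) in the stabiliser of this tensor decomposition form a subgroup that is not maximal: some subgroup lies strictly between it and SU_n(2). -/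
theorem result {F : Type*} [Field F] [Fintype F] (n : ℕ) (hF : Fintype.card F = 4) (hn : 13 ≤ n) (n₂ : ℕ) (e : Fin n ≃ Fin 2 × Fin n₂) (P : Matrix.GeneralLinearGroup (Fin n) F) (f₁ : (Fin 2 → F) → (Fin 2 → F) → F) (f₂ : (Fin n₂ → F) → (Fin n₂ → F) → F) (hf₁ : Cfsg.Geo.IsUnitaryFormPow 2 f₁) (hf₂ : Cfsg.Geo.IsUnitaryFormPow 2 f₂) (hT : Cfsg.Geo.IsTensorFormStructure (fun x : F => x ^ 2) (Cfsg.hermForm n F 2) f₁ f₂ e P) : ∃ K : Subgroup (Matrix.GeneralLinearGroup (Fin n) F), Cfsg.Geo.tensorProductSubgroup 2 n₂ e P ⊓ (Cfsg.GU n F 2 ⊓ Cfsg.Geo.specialLinear (Fin n) F) < K ∧ K < (Cfsg.GU n F 2 ⊓ Cfsg.Geo.specialLinear (Fin n) F) := by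
  obtain ⟨c, hc0, hc⟩ := hT
  have h2 := two_eq_zero hF
  have hn₂ : 2 ≤ n₂ := by
    have := Fintype.card_congr e
    simp only [Fintype.card_fin, Fintype.card_prod] at this
    omega
  obtain ⟨v₁, v₂, h11, h22, h12, h21, hexp⟩ := exists_onb hF hf₁
  obtain ⟨w₁, w', u, hw11, hw'1, hw'2, hu0, huu⟩ := exists_vectors hF hf₂ hn₂
  have hz1 : Cfsg.hermForm n F 2 (emb e P (tv v₂ u)) (emb e P (tv v₂ u)) = 0 := by
    rw [pair_tv hF hf₁ hf₂ hc, huu, mul_zero, mul_zero]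
  have hz2 : Cfsg.hermForm n F 2 (emb e P (tv (v₁ + v₂) w₁)) (emb e P (tv (v₁ + v₂) w₁)) = 0 := by
    rw [pair_tv hF hf₁ hf₂ hc, hf₁.add_left, uf_add_right hF hf₁, uf_add_right hF hf₁, h11, h22, h12,
      h21, hw11]
    linear_combination c * h2
  refine ⟨KX (TT e P f₁) ⊓ (Cfsg.GU n F 2 ⊓ Cfsg.Geo.specialLinear (Fin n) F), ?_, ?_⟩
  · rw [lt_iff_le_and_ne]
    refine ⟨tensor_le hF hf₁ hf₂ hc0 hc hw11, ?_⟩
    intro heq
    have hmem := w1_mem_K hF hf₁ hf₂ hc h22 hexp hz1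
    rw [← heq] at hmem
    exact w1_not_tensor hF hf₁ hf₂ hc0 hc h11 h22 h12 hu0 huu hz1 hmem.1
  · rw [lt_iff_le_and_ne]
    refine ⟨inf_le_right, ?_⟩
    intro heq
    have hmem : Cfsg.Agent.S5656.T _ hz2 ∈
        KX (TT e P f₁) ⊓ (Cfsg.GU n F 2 ⊓ Cfsg.Geo.specialLinear (Fin n) F) := by
      rw [heq]
      exact ⟨Cfsg.Agent.S5656.T_mem_GU hF _ hz2, Cfsg.Agent.S5656.T_mem_SL _ hz2⟩
    exact w2_not_K hF hf₁ hf₂ hc0 hc h11 h22 h12 h21 hexp hw11 hw'1 hw'2 hz2 hmem.1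

end Cfsg.Agent.S5671
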