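import Cfsg.Statements.S5674
import Mathlib
import Cfsg.Agent.Lib.Helper15.GeoBridge
import Cfsg.Agent.Lib.Helper15.EichGen
import Cfsg.Agent.Lib.Helper15.OrthOrder
import Cfsg.Agent.Lib.Helper15.Spinor3
import Cfsg.Agent.Lib.Helper15.StdForms
import Cfsg.Agent.Lib.Helper28.OrthTS

set_option autoImplicit false
open Cfsg

namespace Cfsg.Agent.S5674

open Module Cfsg.Agent.Lib.Helper15.Spinor Cfsg.Agent.Lib.Helper15.CD2
  Cfsg.Agent.Lib.Helper15.Witt Cfsg.Agent.Lib.Helper15.Eichler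
  Cfsg.Agent.Lib.Helper15.GeoBridge Cfsg.Agent.Lib.Helper28.OrthTS

/-- Let F be a finite field of odd order, m ≥ 6, Q the standard quadratic form x₀² + Σ x_i y_i on F^(2m+1) and Ω the commutator subgroup of its isometry group inside GL_(2m+1)(F). The elements of Ω stabilising a non-zero subspace on which Q vanishes form a maximal subgroup of Ω. -/
theorem result {F : Type*} [Field F] [Fintype F] (hodd : Odd (Fintype.card F)) (m : ℕ) (hm : 6 ≤ m) (W : Submodule F (Unit ⊕ (Fin m ⊕ Fin m) → F)) (hW0 : W ≠ ⊥) (hW : Cfsg.Geo.IsTotallySingularQuad (Cfsg.quadFormOdd m F) W) : Cfsg.Geo.IsMaximalIn (Cfsg.Geo.omegaGL (Cfsg.quadFormOdd m F)) (Cfsg.Geo.subspaceStabilizer W ⊓ Cfsg.Geo.omegaGL (Cfsg.quadFormOdd m F)) := by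
  have h2 : (2 : F) ≠ 0 := by
    intro h
    have h1 : ringChar F ∣ 2 := by
      apply ringChar.dvd
      exact_mod_cast h
    have h3 : ringChar F = 2 := by
      rcases (Nat.dvd_prime Nat.prime_two).mp h1 with h4 | h4
      · exact absurd h4 CharP.ringChar_ne_one
      · exact h4
    have h5 := FiniteField.even_card_iff_char_two.mp h3
    have h6 := Nat.odd_iff.mp hodd
    omega
  have hQ : (QuadraticMap.polarBilin (Cfsg.Agent.Lib.Helper15.Spinor3.oddQF m F)).Nondegenerate := by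
    apply Cfsg.Agent.Lib.Helper15.StdForms.nondeg_of_sep
    intro x hx
    apply Cfsg.Agent.Lib.Helper15.OrthOrder.odd_sep h2 m x
    rw [← Cfsg.Agent.Lib.Helper15.Spinor3.coe_oddQF]
    exact hx
  have hc : Fintype.card (Unit ⊕ (Fin m ⊕ Fin m)) = 2 * m + 1 := by
    rw [Fintype.card_sum, Fintype.card_sum, Fintype.card_fin, Fintype.card_unit]
    omega
  rw [← Cfsg.Agent.Lib.Helper15.Spinor3.coe_oddQF]
  have hW' : ∀ x ∈ W, Cfsg.Agent.Lib.Helper15.Spinor3.oddQF m F x = 0 := by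
    intro x hx
    have := hW x hx
    rw [← Cfsg.Agent.Lib.Helper15.Spinor3.coe_oddQF] at this
    exact this
  apply maximal (Cfsg.Agent.Lib.Helper15.Spinor3.oddQF m F) hQ (by rw [hc]; omega) W hW0 hW'
  intro y1 _ _ _
  rw [hc]
  omega


end Cfsg.Agent.S5674
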