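import Cfsg.Statements.S5675
import Mathlib
import Cfsg.Agent.Lib.Helper15.GeoBridge
import Cfsg.Agent.Lib.Helper15.OrthOrder
import Cfsg.Agent.Lib.Helper15.Spinor3
import Cfsg.Agent.Lib.Helper15.StdForms
import Cfsg.Agent.Lib.Helper28.OrthND

set_option autoImplicit false
open Cfsg

namespace Cfsg.Agent.S5675

open Module Cfsg.Agent.Lib.Helper15.Spinor Cfsg.Agent.Lib.Helper15.CD2
  Cfsg.Agent.Lib.Helper15.Witt Cfsg.Agent.Lib.Helper15.Eichler
  Cfsg.Agent.Lib.Helper15.GeoBridge Cfsg.Agent.Lib.Helper28.OrthND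

/-- Let F be a finite field of odd order q, m ≥ 6, Q the standard quadratic form on F^(2m+1) and Ω the commutator subgroup of its isometry group. Let W be a non-zero subspace of even dimension on which the polar form of Q is non-degenerate; exclude the case q = 3, dim W = 2 with Q vanishing on some line of W (a plus-type plane). Then the elements of Ω stabilising W (equivalently, stabilising its orthogonal complement, of odd dimension) form a maximal subgroup of Ω. -/
theorem result {F : Type*} [Field F] [Fintype F] (hodd : Odd (Fintype.card F)) (m : ℕ) (hm : 6 ≤ m) (W : Submodule F (Unit ⊕ (Fin m ⊕ Fin m) → F)) (hW0 : W ≠ ⊥) (hev : Even (Module.finrank F W)) (hW : Cfsg.Geo.IsNondegenerateOn (QuadraticMap.polar (Cfsg.quadFormOdd m F)) W) (hex : ¬ (Fintype.card F = 3 ∧ Module.finrank F W = 2 ∧ Cfsg.Geo.IsPlusTypeOn (Cfsg.quadFormOdd m F) W)) : Cfsg.Geo.IsMaximalIn (Cfsg.Geo.omegaGL (Cfsg.quadFormOdd m F)) (Cfsg.Geo.subspaceStabilizer W ⊓ Cfsg.Geo.omegaGL (Cfsg.quadFormOdd m F)) := by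
  have h2 : (2 : F) ≠ 0 := by
    intro h
    have h1 : ringChar F ∣ 2 := by
      apply ringChar.dvd
      exact_mod_cast h
    have h3 : ringChar F = 2 := by
      rcases (Nat.dvd_prime Nat.prime_two).mp h1 with h4 | h4
      · exact absurd h4 CharP.ringChar_ne_one
      · exact h4
    have h5 := FiniteField.even_card_iff_char_two.mp h3
    have h6 := Nat.odd_iff.mp hodd
    omega
  have hQ : (QuadraticMap.polarBilin (Cfsg.Agent.Lib.Helper15.Spinor3.oddQF m F)).Nondegenerate := by
    apply Cfsg.Agent.Lib.Helper15.StdForms.nondeg_of_sep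
    intro x hx
    apply Cfsg.Agent.Lib.Helper15.OrthOrder.odd_sep h2 m x
    rw [← Cfsg.Agent.Lib.Helper15.Spinor3.coe_oddQF]
    exact hx
  have hc : Fintype.card (Unit ⊕ (Fin m ⊕ Fin m)) = 2 * m + 1 := by
    rw [Fintype.card_sum, Fintype.card_sum, Fintype.card_fin, Fintype.card_unit]
    omega
  rw [← Cfsg.Agent.Lib.Helper15.Spinor3.coe_oddQF] at hW hex ⊢
  have hd := dec_of_nondeg hQ W (fun w hw hw0 => (hW w hw hw0).1)
  have hadd := hd.finrank_add hQ
  rw [hc] at hadd
  obtain ⟨r, hr⟩ := hev
  apply max_of_nondeg (Cfsg.Agent.Lib.Helper15.Spinor3.oddQF m F) hQ (by rw [hc]; omega) W hW0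
    ?_ hW (by rw [hc]; omega)
  · intro Y hY2 hY
    rcases hY with rfl | rfl
    · by_cases h4 : 4 ≤ Fintype.card F
      · exact Or.inl h4
      · right
        have h1 : 1 < Fintype.card F := Fintype.one_lt_card
        have h3 : Fintype.card F = 3 := by
          have h6 := Nat.odd_iff.mp hodd
          omega
        intro x hx hQx
        by_contra hx0
        exact hex ⟨h3, hY2, plus_of_sing Y hY2 x hx hx0 hQx⟩
    · exfalso
      omega
  · intro htop
    have h1 : finrank F W = 2 * m + 1 := by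
      rw [htop, finrank_top, Module.finrank_fintype_fun_eq_card, hc]
    omega


end Cfsg.Agent.S5675
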