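import Cfsg.Statements.S5682
import Mathlib
import Cfsg.Agent.Lib.Helper13.OmegaF3

set_option autoImplicit false
open Cfsg

namespace Cfsg.Agent.S5682

open Cfsg.Agent.Lib.Helper13.OmegaF3

theorem polar_qfo {F : Type*} [Field F] (m : ℕ) (x y : Unit ⊕ (Fin m ⊕ Fin m) → F) :
    QuadraticMap.polar (Cfsg.quadFormOdd m F) x y =
      2 * x (.inl ()) * y (.inl ()) +
        ∑ i : Fin m, (x (.inr (.inl i)) * y (.inr (.inr i)) + y (.inr (.inl i)) * x (.inr (.inr i))) := by
  unfold QuadraticMap.polar Cfsg.quadFormOdd
  simp only [Pi.add_apply]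
  have : ∑ i : Fin m, (x (.inr (.inl i)) + y (.inr (.inl i))) * (x (.inr (.inr i)) + y (.inr (.inr i)))
      = ∑ i : Fin m, x (.inr (.inl i)) * x (.inr (.inr i)) + ∑ i : Fin m, y (.inr (.inl i)) * y (.inr (.inr i))
        + ∑ i : Fin m, (x (.inr (.inl i)) * y (.inr (.inr i)) + y (.inr (.inl i)) * x (.inr (.inr i))) := by
    rw [← Finset.sum_add_distrib, ← Finset.sum_add_distrib]
    apply Finset.sum_congr rfl
    intro i _
    ring
  rw [this]
  ring

theorem qfo_isQF {F : Type*} [Field F] (m : ℕ) : IsQF (Cfsg.quadFormOdd m F) where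
  smul := by
    intro c v
    unfold Cfsg.quadFormOdd
    simp only [Pi.smul_apply, smul_eq_mul]
    rw [mul_add, Finset.mul_sum]
    congr 1
    · ring
    · apply Finset.sum_congr rfl
      intro i _
      ring
  bil :=
    { add_left := by
        intro x y v
        simp only [polar_qfo, Pi.add_apply]
        rw [add_add_add_comm, ← Finset.sum_add_distrib]
        congr 1
        · ring
        · apply Finset.sum_congr rfl
          intro i _
          ring
      smul_left := by
        intro c x v
        simp only [polar_qfo, Pi.smul_apply, smul_eq_mul]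
        rw [mul_add, Finset.mul_sum]
        congr 1
        · ring
        · apply Finset.sum_congr rfl
          intro i _
          ring
      add_right := by
        intro v x y
        simp only [polar_qfo, Pi.add_apply]
        rw [add_add_add_comm, ← Finset.sum_add_distrib]
        congr 1
        · ring
        · apply Finset.sum_congr rfl
          intro i _
          ring
      smul_right := by
        intro c v x
        simp only [polar_qfo, Pi.smul_apply, smul_eq_mul]
        rw [mul_add, Finset.mul_sum]
        congr 1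
        · ring
        · apply Finset.sum_congr rfl
          intro i _
          ring }

/-- Let F be the field with 3 elements, m ≥ 6, Q the standard quadratic form on F^(2m+1) and Ω the commutator subgroup of its isometry group. Suppose the polar form of Q is similar, through P and e, to the tensor product of non-degenerate symmetric bilinear forms f₁ on F^3 and f₂ on F^(n₂) with 3 < n₂. Then the elements of Ω in the stabiliser of this tensor decomposition form a subgroup that is not maximal: some subgroup lies strictly between it and Ω. -/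
theorem result {F : Type*} [Field F] [Fintype F] (hq : Fintype.card F = 3) (m : ℕ) (hm : 6 ≤ m) (n₂ : ℕ) (h2 : 3 < n₂) (e : (Unit ⊕ (Fin m ⊕ Fin m)) ≃ Fin 3 × Fin n₂) (P : Matrix.GeneralLinearGroup (Unit ⊕ (Fin m ⊕ Fin m)) F) (f₁ : (Fin 3 → F) → (Fin 3 → F) → F) (f₂ : (Fin n₂ → F) → (Fin n₂ → F) → F) (hf₁ : Cfsg.Geo.IsSymmetricForm f₁) (hf₂ : Cfsg.Geo.IsSymmetricForm f₂) (hT : Cfsg.Geo.IsTensorFormStructure id (QuadraticMap.polar (Cfsg.quadFormOdd m F)) f₁ f₂ e P) : ∃ K : Subgroup (Matrix.GeneralLinearGroup (Unit ⊕ (Fin m ⊕ Fin m)) F), Cfsg.Geo.tensorProductSubgroup 3 n₂ e P ⊓ Cfsg.Geo.omegaGL (Cfsg.quadFormOdd m F) < K ∧ K < Cfsg.Geo.omegaGL (Cfsg.quadFormOdd m F) :=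
  omega_tensor_not_max hq (qfo_isQF m) n₂ (by omega) e P f₁ f₂ hf₁ hf₂ hT

end Cfsg.Agent.S5682
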