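import Cfsg.Statements.S5685
import Mathlib
import Cfsg.Agent.Lib.Helper15.GeoBridge
import Cfsg.Agent.Lib.Helper15.EichGen
import Cfsg.Agent.Lib.Helper28.OrthTS

set_option autoImplicit false
open Cfsg

namespace Cfsg.Agent.S5685

open Module Cfsg.Agent.Lib.Helper15.Spinor Cfsg.Agent.Lib.Helper15.CD2
  Cfsg.Agent.Lib.Helper15.Witt Cfsg.Agent.Lib.Helper15.Eichler
  Cfsg.Agent.Lib.Helper15.GeoBridge Cfsg.Agent.Lib.Helper28.OrthTS

/-- Let F be a finite field with q elements, n ≥ 13 even, Q a non-degenerate quadratic form on F^n of plus type (some subspace of dimension n/2 is totally singular), and Ω the commutator subgroup of the isometry group of Q, viewed inside GL_n(F). The elements of Ω stabilising a non-zero subspace W on which Q vanishes, with dim W ≠ n/2 − 1, form a maximal subgroup of Ω. -/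
theorem result {F : Type*} [Field F] [Fintype F] {n : ℕ} (hn : 13 ≤ n) (heven : Even n) (Q : (Fin n → F) → F) (hQ : Cfsg.Geo.IsNondegenerateQuadraticForm Q) (hplus : Cfsg.Geo.IsPlusTypeOn Q ⊤) (W : Submodule F (Fin n → F)) (hW0 : W ≠ ⊥) (hW : Cfsg.Geo.IsTotallySingularQuad Q W) (hdim : 2 * (Module.finrank F W + 1) ≠ n) : Cfsg.Geo.IsMaximalIn (Cfsg.Geo.omegaGL Q) (Cfsg.Geo.subspaceStabilizer W ⊓ Cfsg.Geo.omegaGL Q) := by
  have hc : Fintype.card (Fin n) = n := Fintype.card_fin n
  have hQ' := toQF_nondeg Q hQ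
  have hW' : ∀ x ∈ W, toQF Q hQ x = 0 := hW
  have key := maximal (toQF Q hQ) hQ' (by rw [hc]; omega) W hW0 hW' (by
    intro y1 _ _ h3
    rw [hc, Submodule.finrank_sup_span_singleton h3]
    exact hdim)
  exact key


end Cfsg.Agent.S5685
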