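import Cfsg.Statements.S5689
import Mathlib
import Cfsg.Agent.Lib.Helper15.GeoBridge
import Cfsg.Agent.Lib.Helper28.OrthND

set_option autoImplicit false
open Cfsg

namespace Cfsg.Agent.S5689

open Module Cfsg.Agent.Lib.Helper15.Spinor Cfsg.Agent.Lib.Helper15.CD2
  Cfsg.Agent.Lib.Helper15.Witt Cfsg.Agent.Lib.Helper15.Eichler
  Cfsg.Agent.Lib.Helper15.GeoBridge Cfsg.Agent.Lib.Helper28.OrthND

section aux

variable {F : Type*} [Field F] [Fintype F] {ι : Type} [Fintype ι] [DecidableEq ι]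
variable {Q : QuadraticForm F (ι → F)}

theorem exists_nonsing (W : Submodule F (ι → F)) (x y : ι → F) (hx : x ∈ W) (hy : y ∈ W)
    (hxy : QuadraticMap.polar ⇑Q x y ≠ 0) : ∃ w ∈ W, Q w ≠ 0 := by
  by_cases h1 : Q x = 0
  · by_cases h2 : Q y = 0
    · refine ⟨x + y, W.add_mem hx hy, ?_⟩
      rw [QuadraticMap.map_add ⇑Q, h1, h2, zero_add, zero_add]
      exact hxy
    · exact ⟨y, hy, h2⟩
  · exact ⟨x, hx, h1⟩

theorem Q_orth3 (u w1 w2 : ι → F) (h1 : QuadraticMap.polar ⇑Q u w1 = 0)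
    (h2 : QuadraticMap.polar ⇑Q u w2 = 0) (h12 : QuadraticMap.polar ⇑Q w1 w2 = 0) (p r : F) :
    Q (u + p • w1 + r • w2) = Q u + p * p * Q w1 + r * r * Q w2 := by
  rw [QuadraticMap.map_add ⇑Q, QuadraticMap.map_add ⇑Q, QuadraticMap.polar_add_left,
    QuadraticMap.polar_smul_right, QuadraticMap.polar_smul_right, QuadraticMap.polar_smul_left,
    QuadraticMap.polar_smul_right, h1, h2, h12, QuadraticMap.map_smul, QuadraticMap.map_smul]
  simp only [smul_eq_mul]
  ring

theorem polar_self' (w : ι → F) : QuadraticMap.polar ⇑Q w w = 2 * Q w := by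
  rw [QuadraticMap.polar_self]
  simp

/-- an anti-isometry of a non-degenerate even-dimensional subspace, odd characteristic -/
theorem anti_odd (hQ : (QuadraticMap.polarBilin Q).Nondegenerate) (h2 : (2 : F) ≠ 0)
    (hodd : Fintype.card F % 2 = 1) :
    ∀ (k : ℕ) (W : Submodule F (ι → F)), finrank F W = 2 * k →
    (∀ w ∈ W, w ≠ 0 → ∃ x ∈ W, QuadraticMap.polar ⇑Q x w ≠ 0) →
    ∃ J : (ι → F) →ₗ[F] (ι → F), (∀ x ∈ W, J x ∈ W) ∧ ∀ x ∈ W, Q (J x) = - Q x := by
  intro k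
  induction k with
  | zero =>
    intro W hW _
    have hbot : W = ⊥ := Submodule.finrank_eq_zero.mp (by omega)
    refine ⟨0, fun x hx => ?_, fun x hx => ?_⟩
    · rw [LinearMap.zero_apply]
      exact W.zero_mem
    · rw [hbot, Submodule.mem_bot] at hx
      rw [hx, LinearMap.zero_apply, QuadraticMap.map_zero, neg_zero]
  | succ k ih =>
    intro W hW hnd
    have hWne : W ≠ ⊥ := by
      intro h0
      rw [h0, finrank_bot] at hW
      omega
    obtain ⟨y0, hy0, hy00⟩ := (Submodule.ne_bot_iff _).mp hWne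
    obtain ⟨x0, hx0, hx0y0⟩ := hnd y0 hy0 hy00
    obtain ⟨w1, hw1, hc1⟩ := exists_nonsing W x0 y0 hx0 hy0 hx0y0
    have hp11 : QuadraticMap.polar ⇑Q w1 w1 = 2 * Q w1 := polar_self' w1
    obtain ⟨W', hW'def⟩ : ∃ W' : Submodule F (ι → F),
        W' = W ⊓ perp Q (Submodule.span F {w1}) := ⟨_, rfl⟩
    have hW'mem : ∀ x, x ∈ W' ↔ x ∈ W ∧ QuadraticMap.polar ⇑Q x w1 = 0 := by
      intro x
      rw [hW'def, Submodule.mem_inf]
      constructor
      · rintro ⟨h1, h2⟩
        exact ⟨h1, h2 w1 (Submodule.subset_span rfl)⟩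
      · rintro ⟨h1, h2⟩
        refine ⟨h1, fun s hs => ?_⟩
        obtain ⟨c, rfl⟩ := Submodule.mem_span_singleton.mp hs
        rw [QuadraticMap.polar_smul_right, h2, smul_zero]
    have hW'rank := finrank_inf_perp_ge hQ W w1
    rw [← hW'def] at hW'rank
    have hW'ne : W' ≠ ⊥ := by
      intro h0
      rw [h0, finrank_bot] at hW'rank
      omega
    obtain ⟨y1, hy1, hy10⟩ := (Submodule.ne_bot_iff _).mp hW'ne
    obtain ⟨x1, hx1, hx1y1⟩ := hnd y1 ((hW'mem y1).1 hy1).1 hy10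
    have h2c1 : 2 * Q w1 ≠ 0 := mul_ne_zero h2 hc1
    obtain ⟨x1', hx1'def⟩ : ∃ x1', x1' = x1 - (QuadraticMap.polar ⇑Q x1 w1 / (2 * Q w1)) • w1 :=
      ⟨_, rfl⟩
    have hx1' : x1' ∈ W' := by
      rw [hW'mem, hx1'def]
      refine ⟨W.sub_mem hx1 (W.smul_mem _ hw1), ?_⟩
      rw [QuadraticMap.polar_sub_left, QuadraticMap.polar_smul_left, hp11, smul_eq_mul,
        div_mul_cancel₀ _ h2c1, sub_self]
    have hx1'y1 : QuadraticMap.polar ⇑Q x1' y1 ≠ 0 := by
      rw [hx1'def, QuadraticMap.polar_sub_left, QuadraticMap.polar_smul_left,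
        QuadraticMap.polar_comm ⇑Q w1 y1, ((hW'mem y1).1 hy1).2, smul_zero, sub_zero]
      exact hx1y1
    obtain ⟨w2, hw2', hc2⟩ := exists_nonsing W' x1' y1 hx1' hy1 hx1'y1
    have hw2 : w2 ∈ W := ((hW'mem w2).1 hw2').1
    have h21 : QuadraticMap.polar ⇑Q w2 w1 = 0 := ((hW'mem w2).1 hw2').2
    have h12 : QuadraticMap.polar ⇑Q w1 w2 = 0 := by
      rw [QuadraticMap.polar_comm]
      exact h21
    have hp22 : QuadraticMap.polar ⇑Q w2 w2 = 2 * Q w2 := polar_self' w2
    have h2c2 : 2 * Q w2 ≠ 0 := mul_ne_zero h2 hc2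
    obtain ⟨W0, hW0def⟩ : ∃ W0 : Submodule F (ι → F),
        W0 = W' ⊓ perp Q (Submodule.span F {w2}) := ⟨_, rfl⟩
    have hW0mem : ∀ x, x ∈ W0 ↔
        x ∈ W ∧ QuadraticMap.polar ⇑Q x w1 = 0 ∧ QuadraticMap.polar ⇑Q x w2 = 0 := by
      intro x
      rw [hW0def, Submodule.mem_inf, hW'mem]
      constructor
      · rintro ⟨⟨h1, h2⟩, h3⟩
        exact ⟨h1, h2, h3 w2 (Submodule.subset_span rfl)⟩
      · rintro ⟨h1, h2, h3⟩
        refine ⟨⟨h1, h2⟩, fun s hs => ?_⟩
        obtain ⟨c, rfl⟩ := Submodule.mem_span_singleton.mp hs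
        rw [QuadraticMap.polar_smul_right, h3, smul_zero]
    have hW0rank := finrank_inf_perp_ge hQ W' w2
    rw [← hW0def] at hW0rank
    have hlt1 : W' < W := by
      refine lt_of_le_of_ne (fun x hx => ((hW'mem x).1 hx).1) ?_
      intro heq
      have h := (hW'mem w1).1 (by rw [heq]; exact hw1)
      rw [hp11] at h
      exact h2c1 h.2
    have hlt0 : W0 < W' := by
      refine lt_of_le_of_ne (fun x hx => ?_) ?_
      · rw [hW0def] at hx
        exact hx.1
      · intro heq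
        have h := (hW0mem w2).1 (by rw [heq]; exact hw2')
        rw [hp22] at h
        exact h2c2 h.2.2
    have hr1 := Submodule.finrank_lt_finrank_of_lt hlt1
    have hr0 := Submodule.finrank_lt_finrank_of_lt hlt0
    have hW0rk : finrank F W0 = 2 * k := by omega
    obtain ⟨A, hA⟩ : ∃ A : (ι → F) →ₗ[F] F,
        ∀ x, A x = QuadraticMap.polar ⇑Q x w1 / (2 * Q w1) := by
      refine ⟨(2 * Q w1)⁻¹ • (QuadraticMap.polarBilin Q w1), fun x => ?_⟩
      rw [LinearMap.smul_apply, QuadraticMap.polarBilin_apply_apply, smul_eq_mul,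
        QuadraticMap.polar_comm, div_eq_inv_mul]
    obtain ⟨B, hB⟩ : ∃ B : (ι → F) →ₗ[F] F,
        ∀ x, B x = QuadraticMap.polar ⇑Q x w2 / (2 * Q w2) := by
      refine ⟨(2 * Q w2)⁻¹ • (QuadraticMap.polarBilin Q w2), fun x => ?_⟩
      rw [LinearMap.smul_apply, QuadraticMap.polarBilin_apply_apply, smul_eq_mul,
        QuadraticMap.polar_comm, div_eq_inv_mul]
    have hπ : ∀ x ∈ W, x - A x • w1 - B x • w2 ∈ W0 := by
      intro x hx
      rw [hW0mem]
      refine ⟨W.sub_mem (W.sub_mem hx (W.smul_mem _ hw1)) (W.smul_mem _ hw2), ?_, ?_⟩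
      · rw [QuadraticMap.polar_sub_left, QuadraticMap.polar_sub_left,
          QuadraticMap.polar_smul_left, QuadraticMap.polar_smul_left, hp11, h21, hA]
        simp only [smul_eq_mul, mul_zero, sub_zero]
        rw [div_mul_cancel₀ _ h2c1, sub_self]
      · rw [QuadraticMap.polar_sub_left, QuadraticMap.polar_sub_left,
          QuadraticMap.polar_smul_left, QuadraticMap.polar_smul_left, hp22, h12, hB]
        simp only [smul_eq_mul, mul_zero, sub_zero]
        rw [div_mul_cancel₀ _ h2c2, sub_self]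
    have hnd0 : ∀ w ∈ W0, w ≠ 0 → ∃ x ∈ W0, QuadraticMap.polar ⇑Q x w ≠ 0 := by
      intro w hw hw0
      obtain ⟨x, hx, hxw⟩ := hnd w ((hW0mem w).1 hw).1 hw0
      refine ⟨_, hπ x hx, ?_⟩
      rw [QuadraticMap.polar_sub_left, QuadraticMap.polar_sub_left,
        QuadraticMap.polar_smul_left, QuadraticMap.polar_smul_left,
        QuadraticMap.polar_comm ⇑Q w1 w, QuadraticMap.polar_comm ⇑Q w2 w,
        ((hW0mem w).1 hw).2.1, ((hW0mem w).1 hw).2.2, smul_zero, smul_zero, sub_zero, sub_zero]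
      exact hxw
    obtain ⟨J0, hJ0a, hJ0b⟩ := ih W0 hW0rk hnd0
    obtain ⟨a, b, hab⟩ : ∃ a b : F, Q w1 * a ^ 2 + Q w1 + Q w2 * b ^ 2 = 0 := by
      have hf : (Polynomial.C (Q w1) * Polynomial.X ^ 2 + Polynomial.C 0 * Polynomial.X
          + Polynomial.C (Q w1) : Polynomial F).degree = 2 := Polynomial.degree_quadratic hc1
      have hg : (Polynomial.C (Q w2) * Polynomial.X ^ 2 + Polynomial.C 0 * Polynomial.X
          + Polynomial.C 0 : Polynomial F).degree = 2 := Polynomial.degree_quadratic hc2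
      obtain ⟨a, b, h⟩ := FiniteField.exists_root_sum_quadratic hf hg hodd
      refine ⟨a, b, ?_⟩
      simpa using h
    obtain ⟨u1, hu1⟩ : ∃ u1 : ι → F, u1 = a • w1 + b • w2 := ⟨_, rfl⟩
    obtain ⟨u2, hu2⟩ : ∃ u2 : ι → F, u2 = (-(Q w2 / Q w1) * b) • w1 + a • w2 := ⟨_, rfl⟩
    obtain ⟨J, hJ⟩ : ∃ J : (ι → F) →ₗ[F] (ι → F), ∀ x, J x =
        J0 (x - A x • w1 - B x • w2) + (A x * a - B x * (Q w2 / Q w1) * b) • w1
          + (A x * b + B x * a) • w2 := by
      refine ⟨J0 ∘ₗ (LinearMap.id - A.smulRight w1 - B.smulRight w2) + A.smulRight u1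
        + B.smulRight u2, fun x => ?_⟩
      simp only [LinearMap.add_apply, LinearMap.comp_apply, LinearMap.sub_apply,
        LinearMap.smulRight_apply, LinearMap.id_apply, hu1, hu2]
      module
    refine ⟨J, fun x hx => ?_, fun x hx => ?_⟩
    · rw [hJ]
      exact W.add_mem (W.add_mem ((hW0mem _).1 (hJ0a _ (hπ x hx))).1 (W.smul_mem _ hw1))
        (W.smul_mem _ hw2)
    · have hu := hπ x hx
      have hJu := (hW0mem _).1 (hJ0a _ hu)
      have hu' := (hW0mem _).1 hu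
      have hQx : Q x = Q (x - A x • w1 - B x • w2) + A x * A x * Q w1 + B x * B x * Q w2 := by
        rw [← Q_orth3 _ w1 w2 hu'.2.1 hu'.2.2 h12]
        congr 1
        abel
      rw [hJ, Q_orth3 _ w1 w2 hJu.2.1 hJu.2.2 h12, hJ0b _ hu, hQx]
      have e : Q w2 / Q w1 * Q w1 = Q w2 := div_mul_cancel₀ _ hc1
      linear_combination (A x ^ 2 + B x ^ 2 * (Q w2 / Q w1)) * hab
        + (-2 * A x * B x * a * b - B x ^ 2 * (a ^ 2 + 1)
          + B x ^ 2 * (Q w2 / Q w1) * b ^ 2) * e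

/-- no isometry maps a non-degenerate subspace of even dimension `n/2` into its orthogonal
complement unless the form is of plus type -/
theorem no_swap (W : Submodule F (ι → F))
    (hnd : ∀ w ∈ W, w ≠ 0 → ∃ x ∈ W, QuadraticMap.polar ⇑Q x w ≠ 0)
    (J : (ι → F) →ₗ[F] (ι → F)) (hJ1 : ∀ x ∈ W, J x ∈ W) (hJ2 : ∀ x ∈ W, Q (J x) = - Q x)
    (s : ↥(Cfsg.isometryGroup F ⇑Q)) (hs : ∀ x ∈ W, act Q s x ∈ perp Q W)
    (hdim : 2 * finrank F W = Fintype.card ι) : Cfsg.Geo.IsPlusTypeOn ⇑Q ⊤ := by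
  obtain ⟨f, hf⟩ : ∃ f : ↥W →ₗ[F] (ι → F), ∀ x : ↥W, f x = (x : ι → F) + act Q s (J x) :=
    ⟨(LinearMap.id + (act Q s) ∘ₗ J) ∘ₗ W.subtype, fun x => rfl⟩
  have hinj : Function.Injective f := by
    rw [injective_iff_map_eq_zero]
    intro x hx
    rw [hf] at hx
    by_contra hx0
    have hx0' : (x : ι → F) ≠ 0 := fun h => hx0 (Subtype.ext h)
    obtain ⟨y, hy, hyx⟩ := hnd x x.2 hx0'
    apply hyx
    have e : (x : ι → F) = - act Q s (J x) := eq_neg_of_add_eq_zero_left hx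
    rw [e, QuadraticMap.polar_neg_right, QuadraticMap.polar_comm, hs _ (hJ1 x x.2) y hy, neg_zero]
  refine ⟨LinearMap.range f, le_top, ?_, ?_⟩
  · rintro _ ⟨x, rfl⟩
    rw [hf, QuadraticMap.map_add ⇑Q, act_Q, hJ2 x x.2, QuadraticMap.polar_comm,
      hs _ (hJ1 x x.2) x x.2]
    ring
  · rw [LinearMap.finrank_range_of_inj hinj, finrank_top, Module.finrank_fintype_fun_eq_card]
    exact hdim

end aux

/-- Let F be a finite field with q elements, n ≥ 13 even, Q a non-degenerate quadratic form on F^n of minus type (no subspace of dimension n/2 is totally singular), and Ω the commutator subgroup of the isometry group of Q, viewed inside GL_n(F). Let W be a non-zero proper subspace on which the polar form of Q is non-degenerate, not of odd dimension n/2. Exclude the case q ≤ 3 in which W, or its orthogonal complement, is a plane containing a line on which Q vanishes. Then the elements of Ω stabilising W form a maximal subgroup of Ω. -/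
theorem result {F : Type*} [Field F] [Fintype F] {n : ℕ} (hn : 13 ≤ n) (heven : Even n) (Q : (Fin n → F) → F) (hQ : Cfsg.Geo.IsNondegenerateQuadraticForm Q) (hminus : ¬ Cfsg.Geo.IsPlusTypeOn Q ⊤) (W : Submodule F (Fin n → F)) (hW0 : W ≠ ⊥) (hW1 : W ≠ ⊤) (hdim : ¬ (2 * Module.finrank F W = n ∧ Odd (Module.finrank F W))) (hW : Cfsg.Geo.IsNondegenerateOn (QuadraticMap.polar Q) W) (hex : ¬ (Fintype.card F ≤ 3 ∧ (∃ U : Submodule F (Fin n → F), Module.finrank F U = 2 ∧ Cfsg.Geo.IsNondegenerateOn (QuadraticMap.polar Q) U ∧ Cfsg.Geo.IsPlusTypeOn Q U ∧ (U = W ∨ (Cfsg.Geo.AreOrthogonalFor (QuadraticMap.polar Q) U W ∧ Module.finrank F U + Module.finrank F W = n))))) : Cfsg.Geo.IsMaximalIn (Cfsg.Geo.omegaGL Q) (Cfsg.Geo.subspaceStabilizer W ⊓ Cfsg.Geo.omegaGL Q) := by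
  have hc : Fintype.card (Fin n) = n := Fintype.card_fin n
  have hQ' := toQF_nondeg Q hQ
  have hW' : Cfsg.Geo.IsNondegenerateOn (QuadraticMap.polar ⇑(toQF Q hQ)) W := hW
  by_cases hd2 : 2 * Module.finrank F W = n
  · have hnd : ∀ w ∈ W, w ≠ 0 → ∃ x ∈ W, QuadraticMap.polar ⇑(toQF Q hQ) x w ≠ 0 :=
      fun w hw hw0 => (hW' w hw hw0).1
    have hd := dec_of_nondeg hQ' W hnd
    have hadd := hd.finrank_add hQ'
    rw [hc] at hadd
    have hev : Even (Module.finrank F W) := by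
      rw [← Nat.not_odd_iff_even]
      exact fun ho => hdim ⟨hd2, ho⟩
    obtain ⟨k, hk⟩ := hev
    have hP0 : perp (toQF Q hQ) W ≠ ⊥ := by
      intro h0
      rw [h0, finrank_bot] at hadd
      omega
    obtain ⟨J, hJ1, hJ2⟩ : ∃ J : (Fin n → F) →ₗ[F] (Fin n → F), (∀ x ∈ W, J x ∈ W) ∧
        ∀ x ∈ W, (toQF Q hQ) (J x) = - (toQF Q hQ) x := by
      by_cases h2 : (2 : F) = 0
      · refine ⟨LinearMap.id, fun x hx => hx, fun x hx => ?_⟩
        rw [LinearMap.id_apply, eq_neg_iff_add_eq_zero, ← two_mul, h2, zero_mul]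
      · have hodd : Fintype.card F % 2 = 1 := by
          apply FiniteField.odd_card_of_char_ne_two
          intro hch
          apply h2
          have : CharP F 2 := by
            rw [← hch]
            exact ringChar.charP F
          exact CharP.cast_eq_zero F 2
        exact anti_odd hQ' h2 hodd k W (by omega) hnd
    have key := maxN (toQF Q hQ) hQ' (by rw [hc]; omega) hd W (Or.inl rfl) hP0 (by omega)
      (Or.inr ⟨by omega, fun s hs => hminus (no_swap W hnd J hJ1 hJ2 s hs (by rw [hc]; exact hd2))⟩)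
    exact key
  · have key := max_of_nondeg (toQF Q hQ) hQ' (by rw [hc]; exact hn) W hW0 hW1 hW'
      (by rw [hc]; exact hd2) (plane_cond hQ' W hW' n hc hex)
    exact key


end Cfsg.Agent.S5689
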