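import Cfsg.Statements.S5695
import Mathlib
import Cfsg.Agent.Lib.Helper13.OmegaDecomp

set_option autoImplicit false
open Cfsg

namespace Cfsg.Agent.S5695

open Cfsg.Agent.Lib.Helper13.TensorF3 Cfsg.Agent.Lib.Helper13.OmegaF3 Cfsg.Agent.Lib.Helper13.OmegaDecomp

/-- Let F be a finite field with q elements, n ≥ 13 even, Q a non-degenerate quadratic form on F^n of minus type (no subspace of dimension n/2 is totally singular), and Ω the commutator subgroup of the isometry group of Q, viewed inside GL_n(F). Suppose q = 3 and let D be a decomposition of F^n into t ≥ 2 pairwise orthogonal, pairwise Q-isometric subspaces of equal dimension k ∈ {2, 3} on which the polar form is non-degenerate (for k = 3 the discriminant of Q is a square; for k = 2, t is odd and no member is of plus type). Then the elements of Ω permuting the members of D form a subgroup that is not maximal: some subgroup lies strictly between it and Ω. -/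
theorem result {F : Type*} [Field F] [Fintype F] {n : ℕ} (hn : 13 ≤ n) (heven : Even n) (Q : (Fin n → F) → F) (hQ : Cfsg.Geo.IsNondegenerateQuadraticForm Q) (hminus : ¬ Cfsg.Geo.IsPlusTypeOn Q ⊤) (hq : Fintype.card F = 3) {t : ℕ} (k : ℕ) (hk : k = 2 ∨ k = 3) (D : Fin t → Submodule F (Fin n → F)) (hD : Cfsg.Geo.IsOrthogonalMDecomposition Q k D) (hko : Odd k → Cfsg.Geo.HasSquareDiscriminant Q) (hke : Even k → (Odd t ∧ ∀ i, ¬ Cfsg.Geo.IsPlusTypeOn Q (D i))) : ∃ K : Subgroup (Matrix.GeneralLinearGroup (Fin n) F), Cfsg.Geo.decompositionStabilizer D ⊓ Cfsg.Geo.omegaGL Q < K ∧ K < Cfsg.Geo.omegaGL Q := by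
  have hQ' : IsQF Q := ⟨hQ.smul, hQ.polar_bilinear⟩
  have ht := hD.decomp.decomp.two_le
  have hi : (⟨0, by omega⟩ : Fin t) ≠ ⟨1, by omega⟩ := by simp [Fin.ext_iff]
  rcases hk with rfl | rfl
  · obtain ⟨-, hanis⟩ := hke (by decide)
    exact decomp_not_max hq hQ' hD.decomp.orthogonal (β := 1) one_ne_zero hi
      (fun i => plane_EU hq hQ' (hD.decomp.decomp.finrank_eq i) (hanis i) one_ne_zero)
  · obtain ⟨β, hβ, hEU⟩ := space3_EU hq hQ' (hD.decomp.decomp.finrank_eq ⟨0, by omega⟩)
      (hD.decomp.nondegenerate ⟨0, by omega⟩)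
    exact decomp_not_max hq hQ' hD.decomp.orthogonal hβ hi
      (fun i => hEU.transport (hD.isometric _ i))

end Cfsg.Agent.S5695
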