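import Cfsg.Statements.S5697
import Mathlib
import Cfsg.Agent.Lib.Helper28.OrthTS
import Cfsg.Agent.S5647

set_option autoImplicit false
open Cfsg

namespace Cfsg.Agent.S5697

open Module Cfsg.Agent.Lib.Helper15.Spinor Cfsg.Agent.Lib.Helper15.CD2
  Cfsg.Agent.Lib.Helper15.Parity Cfsg.Agent.Lib.Helper15.Witt
  Cfsg.Agent.Lib.Helper15.Eichler Cfsg.Agent.Lib.Helper15.EichGen
  Cfsg.Agent.Lib.Helper15.GeoBridge Cfsg.Agent.Lib.Helper15.CenterOmega
  Cfsg.Agent.Lib.Helper28.OrthTS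

variable {F : Type*} [Field F] [Fintype F] {ι : Type} [Fintype ι] [DecidableEq ι]

/-- a pair of complementary totally singular subspaces -/
structure Pair (Q : QuadraticForm F (ι → F)) (A B : Submodule F (ι → F)) : Prop where
  tsA : ∀ x ∈ A, Q x = 0
  tsB : ∀ x ∈ B, Q x = 0
  disj : ∀ x ∈ A, x ∈ B → x = 0
  sum : ∀ x, ∃ a ∈ A, ∃ b ∈ B, x = a + b
  dimA : 4 < finrank F A
  dimB : 4 < finrank F B

variable {Q : QuadraticForm F (ι → F)} {A B : Submodule F (ι → F)}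

theorem Pair.symm (h : Pair Q A B) : Pair Q B A :=
  ⟨h.tsB, h.tsA, fun x hx hx' => h.disj x hx' hx, fun x => by
    obtain ⟨a, ha, b, hb, e⟩ := h.sum x
    exact ⟨b, hb, a, ha, by rw [e, add_comm]⟩, h.dimB, h.dimA⟩

theorem Pair.polA (h : Pair Q A B) {x y : ι → F} (hx : x ∈ A) (hy : y ∈ A) :
    QuadraticMap.polar ⇑Q x y = 0 := polar_of_sing Q A h.tsA x y hx hy

theorem Pair.self_perp (hQ : (QuadraticMap.polarBilin Q).Nondegenerate) (h : Pair Q A B)
    (y : ι → F) (hy : ∀ a ∈ A, QuadraticMap.polar ⇑Q a y = 0) : y ∈ A := by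
  obtain ⟨a', ha', b', hb', e⟩ := h.sum y
  have hb0 : b' = 0 := by
    apply hQ.1
    intro x
    obtain ⟨xa, hxa, xb, hxb, ex⟩ := h.sum x
    have h1 : QuadraticMap.polar ⇑Q xa b' = 0 := by
      have h2 := hy xa hxa
      rw [e, QuadraticMap.polar_add_right, h.polA hxa ha', zero_add] at h2
      exact h2
    show QuadraticMap.polar ⇑Q b' x = 0
    rw [ex, QuadraticMap.polar_add_right, QuadraticMap.polar_comm ⇑Q b' xa, h1,
      h.symm.polA hb' hxb, add_zero]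
  rw [e, hb0, add_zero]
  exact ha'

theorem exists_B (hQ : (QuadraticMap.polarBilin Q).Nondegenerate) (h : Pair Q A B)
    (S : Submodule F (ι → F)) (hS : S ≤ A) (c : ι → F) (hc : c ∈ A) (hcS : c ∉ S) :
    ∃ b ∈ B, (∀ s ∈ S, QuadraticMap.polar ⇑Q s b = 0) ∧ QuadraticMap.polar ⇑Q c b ≠ 0 := by
  have hnot : c ∉ B ⊔ S := by
    intro hmem
    obtain ⟨b', hb', z, hz, e⟩ := Submodule.mem_sup.mp hmem
    have hb'A : b' ∈ A := by
      have e2 : b' = c - z := by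
        rw [eq_sub_iff_add_eq]
        exact e
      rw [e2]
      exact A.sub_mem hc (hS hz)
    have hb0 := h.disj b' hb'A hb'
    rw [hb0, zero_add] at e
    rw [e] at hz
    exact hcS hz
  obtain ⟨y, hy, hcy⟩ : ∃ y ∈ perp Q (B ⊔ S), QuadraticMap.polar ⇑Q c y ≠ 0 := by
    by_contra hcon
    push Not at hcon
    apply hnot
    rw [← perp_perp Q hQ (B ⊔ S)]
    exact hcon
  refine ⟨y, h.symm.self_perp hQ y (fun b hb => ?_), fun s hs => ?_, hcy⟩
  · rw [QuadraticMap.polar_comm]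
    exact hy b (Submodule.mem_sup_left hb)
  · rw [QuadraticMap.polar_comm]
    exact hy s (Submodule.mem_sup_right hs)

theorem exists_orth4 (Q : QuadraticForm F (ι → F)) (A : Submodule F (ι → F))
    (hA : 4 < finrank F A) (x1 x2 x3 x4 : ι → F) :
    ∃ a ∈ A, a ≠ 0 ∧ QuadraticMap.polar ⇑Q a x1 = 0 ∧ QuadraticMap.polar ⇑Q a x2 = 0 ∧
      QuadraticMap.polar ⇑Q a x3 = 0 ∧ QuadraticMap.polar ⇑Q a x4 = 0 := by
  let φ : A →ₗ[F] (Fin 4 → F) :=
    { toFun := fun a => ![QuadraticMap.polar ⇑Q (a : ι → F) x1,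
        QuadraticMap.polar ⇑Q (a : ι → F) x2, QuadraticMap.polar ⇑Q (a : ι → F) x3,
        QuadraticMap.polar ⇑Q (a : ι → F) x4]
      map_add' := fun a b => by
        ext i
        fin_cases i <;> simp [QuadraticMap.polar_add_left]
      map_smul' := fun c a => by
        ext i
        fin_cases i <;> simp [QuadraticMap.polar_smul_left] }
  have hlt : finrank F (Fin 4 → F) < finrank F A := by
    rw [Module.finrank_fin_fun]
    exact hA
  have hker := LinearMap.ker_ne_bot_of_finrank_lt (f := φ) hlt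
  obtain ⟨a, ha, ha0⟩ := (Submodule.ne_bot_iff _).mp hker
  have hφ : φ a = 0 := LinearMap.mem_ker.mp ha
  refine ⟨a, a.2, fun h0 => ha0 (Subtype.ext h0), ?_, ?_, ?_, ?_⟩
  · exact congrFun hφ 0
  · exact congrFun hφ 1
  · exact congrFun hφ 2
  · exact congrFun hφ 3

theorem eich_symm' (Q : QuadraticForm F (ι → F)) (x y : ι → F) (hx : Q x = 0) (hy : Q y = 0)
    (hxy : QuadraticMap.polar ⇑Q x y = 0) : eich Q y x = (eich Q x y)⁻¹ := by
  rw [eich_inv Q x y hx hxy]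
  apply act_ext
  intro z
  rw [act_eich Q y x hy (by rw [QuadraticMap.polar_comm]; exact hxy),
    act_eich Q x (-y) hx (by rw [QuadraticMap.polar_neg_right, hxy, neg_zero])]
  simp only [QuadraticMap.polar_neg_left, QuadraticMap.map_neg, hx, hy, zero_mul, add_zero]
  module

section Core

variable (hQ : (QuadraticMap.polarBilin Q).Nondegenerate) (hn : 5 ≤ Fintype.card ι)
  (K : Subgroup ↥(Cfsg.isometryGroup F ⇑Q))
include hQ hn

theorem H_mem (h : Pair Q A B)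
    (hK : ∀ s ∈ commutator ↥(Cfsg.isometryGroup F ⇑Q),
      (∀ x ∈ A, act Q s x ∈ A) → (∀ x ∈ B, act Q s x ∈ B) → s ∈ K)
    (a b : ι → F) (ha : a ∈ A) (hb : b ∈ B) (hab : QuadraticMap.polar ⇑Q a b = 0) :
    eich Q a b ∈ K := by
  apply hK _ (eich_mem_omega Q hQ hn a b (h.tsA a ha) hab)
  · intro x hx
    rw [act_eich Q a b (h.tsA a ha) hab, h.polA ha hx, zero_smul, add_zero, mul_zero, add_zero]
    exact A.sub_mem hx (A.smul_mem _ ha)
  · intro x hx
    rw [act_eich Q a b (h.tsA a ha) hab, h.symm.polA hb hx, h.tsB b hb, zero_mul, add_zero,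
      zero_smul, sub_zero]
    exact B.add_mem hx (B.smul_mem _ hb)

theorem spread (h : Pair Q A B)
    (hK : ∀ s ∈ commutator ↥(Cfsg.isometryGroup F ⇑Q),
      (∀ x ∈ A, act Q s x ∈ A) → (∀ x ∈ B, act Q s x ∈ B) → s ∈ K)
    (a0 c0 : ι → F) (ha0 : a0 ∈ A) (hc0 : c0 ∈ A) (hind : c0 ∉ Submodule.span F {a0})
    (hR : eich Q a0 c0 ∈ K) : ∀ c ∈ A, eich Q a0 c ∈ K := by
  have hQa0 := h.tsA a0 ha0
  have key : ∀ a ∈ A, a ∉ Submodule.span F {a0, c0} → eich Q a0 a ∈ K := by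
    intro a ha haP
    have hc0S : c0 ∉ Submodule.span F {a0, a} := by
      intro hmem
      obtain ⟨l, m, e⟩ := Submodule.mem_span_pair.mp hmem
      by_cases hm : m = 0
      · rw [hm, zero_smul, add_zero] at e
        apply hind
        rw [← e]
        exact Submodule.smul_mem _ l (Submodule.mem_span_singleton_self a0)
      · apply haP
        have e2 : a = (-(m⁻¹ * l)) • a0 + m⁻¹ • c0 := by
          rw [← e, smul_add, smul_smul, smul_smul, inv_mul_cancel₀ hm, one_smul]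
          module
        rw [e2]
        exact Submodule.mem_span_pair.mpr ⟨_, _, rfl⟩
    obtain ⟨b, hb, hbS, hcb⟩ := exists_B hQ h (Submodule.span F {a0, a}) (by
      rw [Submodule.span_le]
      rintro x (rfl | rfl)
      · exact ha0
      · exact ha) c0 hc0 hc0S
    obtain ⟨b', hb'⟩ : ∃ b', b' = (-(QuadraticMap.polar ⇑Q c0 b)⁻¹) • b := ⟨_, rfl⟩
    have hb'B : b' ∈ B := by
      rw [hb']
      exact B.smul_mem _ hb
    have h1 : QuadraticMap.polar ⇑Q a0 b' = 0 := by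
      rw [hb', QuadraticMap.polar_smul_right, hbS a0 (Submodule.subset_span (by simp)), smul_zero]
    have h2 : QuadraticMap.polar ⇑Q a b' = 0 := by
      rw [hb', QuadraticMap.polar_smul_right, hbS a (Submodule.subset_span (by simp)), smul_zero]
    have h3 : QuadraticMap.polar ⇑Q b' c0 = -1 := by
      rw [hb', QuadraticMap.polar_smul_left, QuadraticMap.polar_comm ⇑Q b c0, smul_eq_mul,
        neg_mul, inv_mul_cancel₀ hcb]
    have hh := H_mem hQ hn K h hK a b' ha hb'B h2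
    have hconj := eich_conj Q (eich Q a b') a0 c0 hQa0 (h.polA ha0 hc0)
    have e1 : act Q (eich Q a b') a0 = a0 := by
      rw [act_eich Q a b' (h.tsA a ha) h2, h.polA ha ha0, QuadraticMap.polar_comm ⇑Q b' a0, h1]
      simp
    have e2 : act Q (eich Q a b') c0 = c0 + a := by
      rw [act_eich Q a b' (h.tsA a ha) h2, h.polA ha hc0, h3]
      simp
    rw [e1, e2] at hconj
    have h4 : eich Q a0 (c0 + a) ∈ K := by
      rw [← hconj]
      exact K.mul_mem (K.mul_mem hh hR) (K.inv_mem hh)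
    rw [← eich_mul Q a0 c0 a hQa0 (h.polA ha0 hc0) (h.polA ha0 ha)] at h4
    exact (Subgroup.mul_mem_cancel_left K hR).mp h4
  obtain ⟨a', ha', ha'P⟩ : ∃ a' ∈ A, a' ∉ Submodule.span F {a0, c0} := by
    by_contra hcon
    push Not at hcon
    have hle : A ≤ Submodule.span F {a0, c0} := hcon
    have h1 := Submodule.finrank_mono hle
    have h2 := finrank_pair_le a0 c0
    have h3 := h.dimA
    omega
  intro c hc
  by_cases hcP : c ∈ Submodule.span F {a0, c0}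
  · have h1 : c - a' ∉ Submodule.span F {a0, c0} := by
      intro hmem
      apply ha'P
      have := Submodule.sub_mem _ hcP hmem
      rwa [sub_sub_cancel] at this
    have h2 := key (c - a') (A.sub_mem hc ha') h1
    have h3 := key a' ha' ha'P
    have h4 := K.mul_mem h2 h3
    rw [eich_mul Q a0 (c - a') a' hQa0 (h.polA ha0 (A.sub_mem hc ha')) (h.polA ha0 ha'),
      sub_add_cancel] at h4
    exact h4
  · exact key c hc hcP

theorem allR (h : Pair Q A B)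
    (hK : ∀ s ∈ commutator ↥(Cfsg.isometryGroup F ⇑Q),
      (∀ x ∈ A, act Q s x ∈ A) → (∀ x ∈ B, act Q s x ∈ B) → s ∈ K)
    (a0 c0 : ι → F) (ha0 : a0 ∈ A) (hc0 : c0 ∈ A) (ha00 : a0 ≠ 0)
    (hind : c0 ∉ Submodule.span F {a0}) (hR : eich Q a0 c0 ∈ K) :
    ∀ a ∈ A, ∀ c ∈ A, eich Q a c ∈ K := by
  have h1 := spread hQ hn K h hK a0 c0 ha0 hc0 hind hR
  intro a ha c hc
  by_cases haS : a ∈ Submodule.span F {a0}
  · obtain ⟨l, rfl⟩ := Submodule.mem_span_singleton.mp haS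
    rw [eich_smul Q l a0 c (h.tsA a0 ha0) (h.polA ha0 hc)]
    exact h1 _ (A.smul_mem _ hc)
  · have h2 : eich Q a a0 ∈ K := by
      rw [eich_symm' Q a0 a (h.tsA a0 ha0) (h.tsA a ha) (h.polA ha0 ha)]
      exact K.inv_mem (h1 a ha)
    have h3 : a0 ∉ Submodule.span F {a} := by
      intro hmem
      obtain ⟨l, e⟩ := Submodule.mem_span_singleton.mp hmem
      have hl : l ≠ 0 := by
        intro hl
        rw [hl, zero_smul] at e
        exact ha00 e.symm
      apply haS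
      rw [Submodule.mem_span_singleton]
      refine ⟨l⁻¹, ?_⟩
      rw [← e, smul_smul, inv_mul_cancel₀ hl, one_smul]
    exact spread hQ hn K h hK a a0 ha ha0 h3 h2 c hc

theorem PE_A (h : Pair Q A B)
    (hK : ∀ s ∈ commutator ↥(Cfsg.isometryGroup F ⇑Q),
      (∀ x ∈ A, act Q s x ∈ A) → (∀ x ∈ B, act Q s x ∈ B) → s ∈ K)
    (hall : ∀ a ∈ A, ∀ c ∈ A, eich Q a c ∈ K) : ∀ a ∈ A, PE Q K a := by
  intro a ha
  refine ⟨h.tsA a ha, fun y hy => ?_⟩
  obtain ⟨ya, hya, yb, hyb, e⟩ := h.sum y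
  have h1 : QuadraticMap.polar ⇑Q a yb = 0 := by
    rw [e, QuadraticMap.polar_add_right, h.polA ha hya, zero_add] at hy
    exact hy
  rw [e, ← eich_mul Q a ya yb (h.tsA a ha) (h.polA ha hya) h1]
  exact K.mul_mem (hall a ha ya hya) (H_mem hQ hn K h hK a yb ha hyb h1)


theorem core (h : Pair Q A B)
    (hK : ∀ s ∈ commutator ↥(Cfsg.isometryGroup F ⇑Q),
      (∀ x ∈ A, act Q s x ∈ A) → (∀ x ∈ B, act Q s x ∈ B) → s ∈ K)
    (g : ↥(Cfsg.isometryGroup F ⇑Q)) (hgK : g ∈ K)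
    (a b : ι → F) (ha : a ∈ A) (hb : b ∈ B) (hab : QuadraticMap.polar ⇑Q a b = 0)
    (hdep : ∀ l m : F, l • act Q g a + m • act Q g b ∈ B → l = 0 ∧ m = 0) :
    ∃ a0 ∈ A, ∃ c0 ∈ A, a0 ≠ 0 ∧ c0 ∉ Submodule.span F {a0} ∧ eich Q a0 c0 ∈ K := by
  obtain ⟨u, hu⟩ : ∃ u, u = act Q g a := ⟨_, rfl⟩
  obtain ⟨v, hv⟩ : ∃ v, v = act Q g b := ⟨_, rfl⟩
  rw [← hu, ← hv] at hdep
  have hQu : Q u = 0 := by
    rw [hu, act_Q]
    exact h.tsA a ha
  have hQv : Q v = 0 := by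
    rw [hv, act_Q]
    exact h.tsB b hb
  have huv : QuadraticMap.polar ⇑Q u v = 0 := by
    rw [hu, hv, act_polar]
    exact hab
  have hT : eich Q u v ∈ K := by
    have h1 := eich_conj Q g a b (h.tsA a ha) hab
    rw [← hu, ← hv] at h1
    rw [← h1]
    exact K.mul_mem (K.mul_mem hgK (H_mem hQ hn K h hK a b ha hb hab)) (K.inv_mem hgK)
  obtain ⟨uA, huA, uB, huB, eu⟩ := h.sum u
  obtain ⟨vA, hvA, vB, hvB, ev⟩ := h.sum v
  have hvAS : vA ∉ Submodule.span F {uA} := by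
    intro hmem
    obtain ⟨l, e⟩ := Submodule.mem_span_singleton.mp hmem
    have h1 : (-l) • u + (1 : F) • v ∈ B := by
      have e2 : (-l) • u + (1 : F) • v = (-l) • uB + vB := by
        rw [eu, ev, ← e]
        module
      rw [e2]
      exact B.add_mem (B.smul_mem _ huB) hvB
    exact one_ne_zero (hdep _ _ h1).2
  have huA0 : uA ≠ 0 := by
    intro h0
    have h1 : (1 : F) • u + (0 : F) • v ∈ B := by
      rw [one_smul, zero_smul, add_zero, eu, h0, zero_add]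
      exact huB
    exact one_ne_zero (hdep _ _ h1).1
  obtain ⟨b0, hb0, hb0S, hvb0⟩ := exists_B hQ h (Submodule.span F {uA})
    (by
      rw [Submodule.span_le]
      rintro x rfl
      exact huA) vA hvA hvAS
  have huAb0 : QuadraticMap.polar ⇑Q uA b0 = 0 := hb0S uA (Submodule.mem_span_singleton_self uA)
  obtain ⟨bs, hbs, -, hubs⟩ := exists_B hQ h ⊥ bot_le uA huA (by
    intro hmem
    exact huA0 ((Submodule.mem_bot F).mp hmem))
  obtain ⟨a0, ha0, ha00, h1, h2, h3, h4⟩ := exists_orth4 Q A h.dimA uB vB b0 bs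
  have hub0 : QuadraticMap.polar ⇑Q u b0 = 0 := by
    rw [eu, QuadraticMap.polar_add_left, huAb0, h.symm.polA huB hb0, add_zero]
  have hvb0' : QuadraticMap.polar ⇑Q v b0 = QuadraticMap.polar ⇑Q vA b0 := by
    rw [ev, QuadraticMap.polar_add_left, h.symm.polA hvB hb0, add_zero]
  have hua0 : QuadraticMap.polar ⇑Q u a0 = 0 := by
    rw [eu, QuadraticMap.polar_add_left, h.polA huA ha0, zero_add, QuadraticMap.polar_comm]
    exact h1
  have hva0 : QuadraticMap.polar ⇑Q v a0 = 0 := by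
    rw [ev, QuadraticMap.polar_add_left, h.polA hvA ha0, zero_add, QuadraticMap.polar_comm]
    exact h2
  obtain ⟨c, hc⟩ : ∃ c, c = QuadraticMap.polar ⇑Q vA b0 := ⟨_, rfl⟩
  have hc0 : c ≠ 0 := by
    rw [hc]
    exact hvb0
  have hh0 := H_mem hQ hn K h hK a0 b0 ha0 hb0 h3
  have hconj := eich_conj Q (eich Q u v) a0 b0 (h.tsA a0 ha0) h3
  have e1 : act Q (eich Q u v) a0 = a0 := eich_fix Q u v a0 hQu huv hua0 hva0
  have e2 : act Q (eich Q u v) b0 = b0 + (-c) • u := by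
    rw [act_eich Q u v hQu huv, hub0, hvb0', ← hc]
    simp only [zero_smul, mul_zero, add_zero]
    module
  rw [e1, e2] at hconj
  have ha0u : QuadraticMap.polar ⇑Q a0 ((-c) • u) = 0 := by
    rw [QuadraticMap.polar_smul_right, QuadraticMap.polar_comm, hua0, smul_zero]
  have h5 : eich Q a0 (b0 + (-c) • u) ∈ K := by
    rw [← hconj]
    exact K.mul_mem (K.mul_mem hT hh0) (K.inv_mem hT)
  rw [← eich_mul Q a0 b0 ((-c) • u) (h.tsA a0 ha0) h3 ha0u] at h5
  have h6 : eich Q a0 ((-c) • u) ∈ K := (Subgroup.mul_mem_cancel_left K hh0).mp h5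
  have ha0uB : QuadraticMap.polar ⇑Q a0 ((-c) • uB) = 0 := by
    rw [QuadraticMap.polar_smul_right, h1, smul_zero]
  have ha0uA : QuadraticMap.polar ⇑Q a0 ((-c) • uA) = 0 := h.polA ha0 (A.smul_mem _ huA)
  have e3 : (-c) • u = (-c) • uA + (-c) • uB := by rw [eu, smul_add]
  rw [e3, ← eich_mul Q a0 _ _ (h.tsA a0 ha0) ha0uA ha0uB] at h6
  have h7 : eich Q a0 ((-c) • uA) ∈ K :=
    (Subgroup.mul_mem_cancel_right K
      (H_mem hQ hn K h hK a0 _ ha0 (B.smul_mem _ huB) ha0uB)).mp h6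
  refine ⟨a0, ha0, (-c) • uA, A.smul_mem _ huA, ha00, ?_, h7⟩
  intro hmem
  obtain ⟨l, e⟩ := Submodule.mem_span_singleton.mp hmem
  have h8 : QuadraticMap.polar ⇑Q ((-c) • uA) bs = 0 := by
    rw [← e, QuadraticMap.polar_smul_left, h4, smul_zero]
  rw [QuadraticMap.polar_smul_left, smul_eq_mul] at h8
  rcases mul_eq_zero.mp h8 with h9 | h9
  · exact hc0 (neg_eq_zero.mp h9)
  · exact hubs h9

end Core

theorem dich_aux {Y B' : Submodule F (ι → F)} (x1 ys : ι → F) (hx1 : x1 ∉ B')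
    (hys : ys ∈ Y) (hxy : QuadraticMap.polar ⇑Q x1 ys ≠ 0)
    (hdep : ∀ y ∈ Y, QuadraticMap.polar ⇑Q x1 y = 0 →
      ∃ l m : F, (l ≠ 0 ∨ m ≠ 0) ∧ l • x1 + m • y ∈ B') :
    Y ≤ B' ⊔ Submodule.span F {x1, ys} := by
  intro y hy
  obtain ⟨t, ht⟩ : ∃ t, t = QuadraticMap.polar ⇑Q x1 y / QuadraticMap.polar ⇑Q x1 ys := ⟨_, rfl⟩
  have h1 : QuadraticMap.polar ⇑Q x1 (y - t • ys) = 0 := by
    rw [QuadraticMap.polar_sub_right, QuadraticMap.polar_smul_right, ht, smul_eq_mul,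
      div_mul_cancel₀ _ hxy, sub_self]
  obtain ⟨l, m, hlm, hmem⟩ := hdep _ (Y.sub_mem hy (Y.smul_mem _ hys)) h1
  have hm : m ≠ 0 := by
    intro hm
    rw [hm, zero_smul, add_zero] at hmem
    rcases hlm with hl | hm'
    · apply hx1
      have := B'.smul_mem l⁻¹ hmem
      rwa [smul_smul, inv_mul_cancel₀ hl, one_smul] at this
    · exact hm' hm
  rw [Submodule.mem_sup]
  refine ⟨m⁻¹ • (l • x1 + m • (y - t • ys)), B'.smul_mem _ hmem,
    (-(m⁻¹ * l)) • x1 + t • ys, Submodule.mem_span_pair.mpr ⟨_, _, rfl⟩, ?_⟩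
  rw [smul_add, smul_smul, smul_smul, inv_mul_cancel₀ hm, one_smul]
  module

theorem act_inj (g : ↥(Cfsg.isometryGroup F ⇑Q)) (x : ι → F) (hx : act Q g x = 0) : x = 0 := by
  have h1 := act_inv_act Q g x
  rw [hx, map_zero] at h1
  exact h1.symm

theorem dich (hQ : (QuadraticMap.polarBilin Q).Nondegenerate) (h : Pair Q A B)
    (hcard : finrank F B + 4 < Fintype.card ι) (g : ↥(Cfsg.isometryGroup F ⇑Q))
    (hdep : ∀ a ∈ A, ∀ b ∈ B, QuadraticMap.polar ⇑Q a b = 0 →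
      ∃ l m : F, (l ≠ 0 ∨ m ≠ 0) ∧ l • act Q g a + m • act Q g b ∈ B) :
    (∀ x ∈ A, act Q g x ∈ B) ∨ (∀ x ∈ B, act Q g x ∈ B) := by
  by_contra hcon
  push Not at hcon
  obtain ⟨⟨a1, ha1, hga1⟩, ⟨b1, hb1, hgb1⟩⟩ := hcon
  obtain ⟨B', hB'⟩ : ∃ B' : Submodule F (ι → F), B' = B.map (act Q g⁻¹) := ⟨_, rfl⟩
  have hmemB' : ∀ x, x ∈ B' ↔ act Q g x ∈ B := by
    intro x
    rw [hB']
    constructor
    · rintro ⟨y, hy, rfl⟩
      rw [act_act_inv]
      exact hy
    · intro hx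
      exact ⟨act Q g x, hx, act_inv_act Q g x⟩
  have hfin : finrank F B' = finrank F B := by
    rw [hB']
    exact finrank_map_act Q g⁻¹ B
  have hdep' : ∀ a ∈ A, ∀ b ∈ B, QuadraticMap.polar ⇑Q a b = 0 →
      ∃ l m : F, (l ≠ 0 ∨ m ≠ 0) ∧ l • a + m • b ∈ B' := by
    intro a ha b hb hab
    obtain ⟨l, m, hlm, hmem⟩ := hdep a ha b hb hab
    refine ⟨l, m, hlm, ?_⟩
    rw [hmemB', map_add, map_smul, map_smul]
    exact hmem
  have ha1B' : a1 ∉ B' := fun hc => hga1 ((hmemB' a1).mp hc)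
  have hb1B' : b1 ∉ B' := fun hc => hgb1 ((hmemB' b1).mp hc)
  have ha10 : a1 ≠ 0 := by
    intro h0
    apply ha1B'
    rw [h0]
    exact B'.zero_mem
  have hb10 : b1 ≠ 0 := by
    intro h0
    apply hb1B'
    rw [h0]
    exact B'.zero_mem
  obtain ⟨bs, hbs, -, ha1bs⟩ := exists_B hQ h ⊥ bot_le a1 ha1 (by
    intro hmem
    exact ha10 ((Submodule.mem_bot F).mp hmem))
  obtain ⟨as, has, -, hb1as⟩ := exists_B hQ h.symm ⊥ bot_le b1 hb1 (by
    intro hmem
    exact hb10 ((Submodule.mem_bot F).mp hmem))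
  have hB1 : B ≤ B' ⊔ Submodule.span F {a1, bs} :=
    dich_aux a1 bs ha1B' hbs ha1bs (fun y hy hay => hdep' a1 ha1 y hy hay)
  have hA1 : A ≤ B' ⊔ Submodule.span F {b1, as} := by
    apply dich_aux b1 as hb1B' has hb1as
    intro y hy hby
    have hyb : QuadraticMap.polar ⇑Q y b1 = 0 := by
      rw [QuadraticMap.polar_comm]
      exact hby
    obtain ⟨l, m, hlm, hmem⟩ := hdep' y hy b1 hb1 hyb
    refine ⟨m, l, hlm.symm, ?_⟩
    rw [add_comm]
    exact hmem
  have htop : (⊤ : Submodule F (ι → F)) ≤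
      (B' ⊔ Submodule.span F {a1, bs}) ⊔ Submodule.span F {b1, as} := by
    intro x _
    obtain ⟨a, ha, b, hb, e⟩ := h.sum x
    rw [e]
    have h1 := hA1 ha
    have h2 := hB1 hb
    obtain ⟨w1, hw1, z1, hz1, e1⟩ := Submodule.mem_sup.mp h1
    rw [← e1]
    have h3 : w1 + z1 + b ∈ (B' ⊔ Submodule.span F {a1, bs}) ⊔ Submodule.span F {b1, as} := by
      have e4 : w1 + z1 + b = (w1 + b) + z1 := by abel
      rw [e4]
      exact Submodule.add_mem _ (Submodule.mem_sup_left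
        (Submodule.add_mem _ (Submodule.mem_sup_left hw1) h2)) (Submodule.mem_sup_right hz1)
    exact h3
  have h1 := Submodule.finrank_mono htop
  have h2 := Submodule.finrank_add_le_finrank_add_finrank
    (B' ⊔ Submodule.span F {a1, bs}) (Submodule.span F {b1, as})
  have h3 := Submodule.finrank_add_le_finrank_add_finrank B' (Submodule.span F {a1, bs})
  have h4 := finrank_pair_le a1 bs
  have h5 := finrank_pair_le b1 as
  rw [finrank_top, Module.finrank_fintype_fun_eq_card] at h1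
  omega

theorem main (hQ : (QuadraticMap.polarBilin Q).Nondegenerate) (hn : 7 ≤ Fintype.card ι)
    (h : Pair Q A B) (hcA : finrank F A + 4 < Fintype.card ι)
    (hcB : finrank F B + 4 < Fintype.card ι) (K : Subgroup ↥(Cfsg.isometryGroup F ⇑Q))
    (hK : ∀ s ∈ commutator ↥(Cfsg.isometryGroup F ⇑Q),
      (∀ x ∈ A, act Q s x ∈ A) → (∀ x ∈ B, act Q s x ∈ B) → s ∈ K)
    (hsw : ∃ s ∈ K, (∀ x ∈ A, act Q s x ∈ B) ∧ (∀ x ∈ B, act Q s x ∈ A))
    (g : ↥(Cfsg.isometryGroup F ⇑Q)) (hgK : g ∈ K)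
    (hg1 : ¬ ((∀ x ∈ A, act Q g x ∈ A) ∧ (∀ x ∈ B, act Q g x ∈ B)))
    (hg2 : ¬ ((∀ x ∈ A, act Q g x ∈ B) ∧ (∀ x ∈ B, act Q g x ∈ A))) :
    commutator ↥(Cfsg.isometryGroup F ⇑Q) ≤ K := by
  have hn5 : 5 ≤ Fintype.card ι := by omega
  have hK' : ∀ s ∈ commutator ↥(Cfsg.isometryGroup F ⇑Q),
      (∀ x ∈ B, act Q s x ∈ B) → (∀ x ∈ A, act Q s x ∈ A) → s ∈ K :=
    fun s hs hB hA => hK s hs hA hB
  have fin : ∀ (X Y : Submodule F (ι → F)), Pair Q X Y → (∃ s ∈ K, ∀ x ∈ X, act Q s x ∈ Y) →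
      (∀ a ∈ X, PE Q K a) → commutator ↥(Cfsg.isometryGroup F ⇑Q) ≤ K := by
    intro X Y hP hs hPE
    obtain ⟨s, hsK, hsX⟩ := hs
    obtain ⟨a1, ha1, ha10, -, -, -, -⟩ := exists_orth4 Q X hP.dimA 0 0 0 0
    have hsa1 : act Q s a1 ≠ 0 := fun h0 => ha10 (act_inj s a1 h0)
    obtain ⟨a2, ha2, -, h12⟩ := exists_B hQ hP.symm ⊥ bot_le (act Q s a1) (hsX a1 ha1) (by
      intro hmem
      exact hsa1 ((Submodule.mem_bot F).mp hmem))
    have hall := PE_all Q hQ K (PE_conj Q K (hPE a1 ha1) s hsK) (hPE a2 ha2) h12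
    refine le_trans (omega_le_eich Q hQ hn5 (hp2_of_dim Q hQ hn)) ?_
    rw [Subgroup.closure_le]
    rintro _ ⟨e, y, he, hey, rfl⟩
    exact (hall e he).2 y hey
  by_cases hex1 : ∃ a ∈ A, ∃ b ∈ B, QuadraticMap.polar ⇑Q a b = 0 ∧
      ∀ l m : F, l • act Q g a + m • act Q g b ∈ B → l = 0 ∧ m = 0
  · obtain ⟨a, ha, b, hb, hab, hdep⟩ := hex1
    obtain ⟨a0, ha0, c0, hc0, ha00, hind, hR⟩ := core hQ hn5 K h hK g hgK a b ha hb hab hdep
    obtain ⟨s, hsK, hsA, -⟩ := hsw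
    exact fin A B h ⟨s, hsK, hsA⟩
      (PE_A hQ hn5 K h hK (allR hQ hn5 K h hK a0 c0 ha0 hc0 ha00 hind hR))
  by_cases hex2 : ∃ a ∈ A, ∃ b ∈ B, QuadraticMap.polar ⇑Q a b = 0 ∧
      ∀ l m : F, l • act Q g a + m • act Q g b ∈ A → l = 0 ∧ m = 0
  · obtain ⟨a, ha, b, hb, hab, hdep⟩ := hex2
    have hba : QuadraticMap.polar ⇑Q b a = 0 := by
      rw [QuadraticMap.polar_comm]
      exact hab
    have hdep' : ∀ l m : F, l • act Q g b + m • act Q g a ∈ A → l = 0 ∧ m = 0 := by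
      intro l m hmem
      rw [add_comm] at hmem
      exact (hdep m l hmem).symm
    obtain ⟨b0, hb0, c0, hc0, hb00, hind, hR⟩ :=
      core hQ hn5 K h.symm hK' g hgK b a hb ha hba hdep'
    obtain ⟨s, hsK, -, hsB⟩ := hsw
    exact fin B A h.symm ⟨s, hsK, hsB⟩
      (PE_A hQ hn5 K h.symm hK' (allR hQ hn5 K h.symm hK' b0 c0 hb0 hc0 hb00 hind hR))
  exfalso
  push Not at hex1 hex2
  have d1 : (∀ x ∈ A, act Q g x ∈ B) ∨ (∀ x ∈ B, act Q g x ∈ B) := by
    apply dich hQ h hcB g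
    intro a ha b hb hab
    obtain ⟨l, m, hmem, hlm⟩ := hex1 a ha b hb hab
    refine ⟨l, m, ?_, hmem⟩
    by_contra hc
    push Not at hc
    exact hlm hc.1 hc.2
  have d2 : (∀ x ∈ B, act Q g x ∈ A) ∨ (∀ x ∈ A, act Q g x ∈ A) := by
    apply dich hQ h.symm hcA g
    intro b hb a ha hba
    have hab : QuadraticMap.polar ⇑Q a b = 0 := by
      rw [QuadraticMap.polar_comm]
      exact hba
    obtain ⟨l, m, hmem, hlm⟩ := hex2 a ha b hb hab
    refine ⟨m, l, ?_, ?_⟩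
    · by_contra hc
      push Not at hc
      exact hlm hc.2 hc.1
    · rw [add_comm]
      exact hmem
  obtain ⟨a1, ha1, ha10, -, -, -, -⟩ := exists_orth4 Q A h.dimA 0 0 0 0
  obtain ⟨b1, hb1, hb10, -, -, -, -⟩ := exists_orth4 Q B h.dimB 0 0 0 0
  rcases d1 with hAB | hBB
  · rcases d2 with hBA | hAA
    · exact hg2 ⟨hAB, hBA⟩
    · exact ha10 (act_inj g a1 (h.disj _ (hAA a1 ha1) (hAB a1 ha1)))
  · rcases d2 with hBA | hAA
    · exact hb10 (act_inj g b1 (h.disj _ (hBA b1 hb1) (hBB b1 hb1)))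
    · exact hg1 ⟨hAA, hBB⟩

section Swap

/-- two hyperbolic pairs `(a1, b1)`, `(a2, b2)`, orthogonal to each other -/
structure Quad (Q : QuadraticForm F (ι → F)) (a1 a2 b1 b2 : ι → F) : Prop where
  qa1 : Q a1 = 0
  qa2 : Q a2 = 0
  qb1 : Q b1 = 0
  qb2 : Q b2 = 0
  a12 : QuadraticMap.polar ⇑Q a1 a2 = 0
  b12 : QuadraticMap.polar ⇑Q b1 b2 = 0
  a1b1 : QuadraticMap.polar ⇑Q a1 b1 = 1
  a2b2 : QuadraticMap.polar ⇑Q a2 b2 = 1
  a1b2 : QuadraticMap.polar ⇑Q a1 b2 = 0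
  a2b1 : QuadraticMap.polar ⇑Q a2 b1 = 0

variable (Q)

/-- the isometry interchanging the two totally singular planes of a `Quad` -/
noncomputable def nO (a1 a2 b1 b2 : ι → F) : ↥(Cfsg.isometryGroup F ⇑Q) :=
  eich Q a1 a2 * eich Q b1 b2 * eich Q a1 a2

variable {Q}

theorem nO_mem (hQ : (QuadraticMap.polarBilin Q).Nondegenerate) (hn : 5 ≤ Fintype.card ι)
    {a1 a2 b1 b2 : ι → F} (hq : Quad Q a1 a2 b1 b2) :
    nO Q a1 a2 b1 b2 ∈ commutator ↥(Cfsg.isometryGroup F ⇑Q) :=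
  Subgroup.mul_mem _ (Subgroup.mul_mem _ (eich_mem_omega Q hQ hn a1 a2 hq.qa1 hq.a12)
    (eich_mem_omega Q hQ hn b1 b2 hq.qb1 hq.b12)) (eich_mem_omega Q hQ hn a1 a2 hq.qa1 hq.a12)

theorem nO_fix {a1 a2 b1 b2 : ι → F} (hq : Quad Q a1 a2 b1 b2) (x : ι → F)
    (h1 : QuadraticMap.polar ⇑Q a1 x = 0) (h2 : QuadraticMap.polar ⇑Q a2 x = 0)
    (h3 : QuadraticMap.polar ⇑Q b1 x = 0) (h4 : QuadraticMap.polar ⇑Q b2 x = 0) :
    act Q (nO Q a1 a2 b1 b2) x = x := by
  rw [nO, act_mul, act_mul, eich_fix Q a1 a2 x hq.qa1 hq.a12 h1 h2,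
    eich_fix Q b1 b2 x hq.qb1 hq.b12 h3 h4, eich_fix Q a1 a2 x hq.qa1 hq.a12 h1 h2]

theorem nO_vals {a1 a2 b1 b2 : ι → F} (hq : Quad Q a1 a2 b1 b2) :
    act Q (nO Q a1 a2 b1 b2) a1 = b2 ∧ act Q (nO Q a1 a2 b1 b2) a2 = -b1 ∧
    act Q (nO Q a1 a2 b1 b2) b1 = a2 ∧ act Q (nO Q a1 a2 b1 b2) b2 = -a1 := by
  have hb1a1 : QuadraticMap.polar ⇑Q b1 a1 = 1 := by
    rw [QuadraticMap.polar_comm]
    exact hq.a1b1
  have hb2a2 : QuadraticMap.polar ⇑Q b2 a2 = 1 := by
    rw [QuadraticMap.polar_comm]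
    exact hq.a2b2
  have hb2a1 : QuadraticMap.polar ⇑Q b2 a1 = 0 := by
    rw [QuadraticMap.polar_comm]
    exact hq.a1b2
  have hb1a2 : QuadraticMap.polar ⇑Q b1 a2 = 0 := by
    rw [QuadraticMap.polar_comm]
    exact hq.a2b1
  have ua1 : act Q (eich Q a1 a2) a1 = a1 := eich_fix_e Q a1 a2 hq.qa1 hq.a12
  have ua2 : act Q (eich Q a1 a2) a2 = a2 :=
    eich_fix Q a1 a2 a2 hq.qa1 hq.a12 hq.a12 (polar_self_of_sing Q a2 hq.qa2)
  have ub1 : act Q (eich Q a1 a2) b1 = b1 + a2 := by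
    rw [act_eich Q a1 a2 hq.qa1 hq.a12, hq.a1b1, hq.a2b1, hq.qa2]
    simp
  have ub2 : act Q (eich Q a1 a2) b2 = b2 - a1 := by
    rw [act_eich Q a1 a2 hq.qa1 hq.a12, hq.a1b2, hq.a2b2, hq.qa2]
    simp
  have wb1 : act Q (eich Q b1 b2) b1 = b1 := eich_fix_e Q b1 b2 hq.qb1 hq.b12
  have wb2 : act Q (eich Q b1 b2) b2 = b2 :=
    eich_fix Q b1 b2 b2 hq.qb1 hq.b12 hq.b12 (polar_self_of_sing Q b2 hq.qb2)
  have wa1 : act Q (eich Q b1 b2) a1 = a1 + b2 := by
    rw [act_eich Q b1 b2 hq.qb1 hq.b12, hb1a1, hb2a1, hq.qb2]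
    simp
  have wa2 : act Q (eich Q b1 b2) a2 = a2 - b1 := by
    rw [act_eich Q b1 b2 hq.qb1 hq.b12, hb1a2, hb2a2, hq.qb2]
    simp
  refine ⟨?_, ?_, ?_, ?_⟩
  · rw [nO, act_mul, act_mul, ua1, wa1, map_add, ua1, ub2]
    abel
  · rw [nO, act_mul, act_mul, ua2, wa2, map_sub, ua2, ub1]
    abel
  · have e : b1 + (a2 - b1) = a2 := by abel
    rw [nO, act_mul, act_mul, ub1, map_add, wb1, wa2, e, ua2]
  · have e : b2 - (a1 + b2) = -a1 := by abel
    rw [nO, act_mul, act_mul, ub2, map_sub, wb2, wa1, e, map_neg, ua1]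

theorem swap_exists (hQ : (QuadraticMap.polarBilin Q).Nondegenerate) (hn : 5 ≤ Fintype.card ι)
    (h : Pair Q A B) (l : ℕ) (hmA : finrank F A = l * 2) (hmB : finrank F B = l * 2) :
    ∃ s ∈ commutator ↥(Cfsg.isometryGroup F ⇑Q),
      (∀ x ∈ A, act Q s x ∈ B) ∧ (∀ x ∈ B, act Q s x ∈ A) := by
  classical
  let b : Module.Basis (Fin l × Fin 2) F A :=
    (Module.finBasisOfFinrankEq F A hmA).reindex finProdFinEquiv.symm
  obtain ⟨v, hv_def⟩ : ∃ v : Fin l × Fin 2 → ι → F, v = fun i => ((b i : A) : ι → F) := ⟨_, rfl⟩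
  have hvA : ∀ i, v i ∈ A := fun i => by
    rw [hv_def]
    exact (b i).2
  have hli : LinearIndependent F v := by
    have h1 := b.linearIndependent.map' A.subtype (Submodule.ker_subtype A)
    rw [hv_def]
    exact h1
  have hdual : ∀ j, ∃ w ∈ B, ∀ i, QuadraticMap.polar ⇑Q (v i) w = if i = j then 1 else 0 := by
    intro j
    have hnot : v j ∉ Submodule.span F (v '' {i | i ≠ j}) :=
      hli.notMem_span_image (s := {i | i ≠ j}) (x := j) (by simp)
    obtain ⟨y, hy, hyS, hvy⟩ := exists_B hQ h (Submodule.span F (v '' {i | i ≠ j})) (by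
      rw [Submodule.span_le]
      rintro _ ⟨i, -, rfl⟩
      exact hvA i) (v j) (hvA j) hnot
    refine ⟨(QuadraticMap.polar ⇑Q (v j) y)⁻¹ • y, B.smul_mem _ hy, fun i => ?_⟩
    by_cases hij : i = j
    · rw [if_pos hij, hij, QuadraticMap.polar_smul_right, smul_eq_mul, inv_mul_cancel₀ hvy]
    · rw [if_neg hij, QuadraticMap.polar_smul_right,
        hyS _ (Submodule.subset_span ⟨i, hij, rfl⟩), smul_zero]
  choose w hwB hw using hdual
  have hvw : ∀ i j, i ≠ j → QuadraticMap.polar ⇑Q (v i) (w j) = 0 := fun i j hij => by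
    rw [hw j i, if_neg hij]
  have hwv : ∀ i j, i ≠ j → QuadraticMap.polar ⇑Q (w i) (v j) = 0 := fun i j hij => by
    rw [QuadraticMap.polar_comm, hvw j i (Ne.symm hij)]
  have hvv : ∀ i, QuadraticMap.polar ⇑Q (v i) (w i) = 1 := fun i => by rw [hw i i, if_pos rfl]
  have hquad : ∀ j : Fin l, Quad Q (v (j, 0)) (v (j, 1)) (w (j, 0)) (w (j, 1)) := fun j =>
    ⟨h.tsA _ (hvA _), h.tsA _ (hvA _), h.tsB _ (hwB _), h.tsB _ (hwB _), h.polA (hvA _) (hvA _),
      h.symm.polA (hwB _) (hwB _), hvv _, hvv _, hvw _ _ (by simp), hvw _ _ (by simp)⟩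
  have hind : ∀ T : Finset (Fin l), ∃ s ∈ commutator ↥(Cfsg.isometryGroup F ⇑Q),
      (∀ j ∈ T, act Q s (v (j, 0)) = w (j, 1) ∧ act Q s (v (j, 1)) = - w (j, 0) ∧
        act Q s (w (j, 0)) = v (j, 1) ∧ act Q s (w (j, 1)) = - v (j, 0)) ∧
      (∀ j, j ∉ T → ∀ c, act Q s (v (j, c)) = v (j, c) ∧ act Q s (w (j, c)) = w (j, c)) := by
    intro T
    induction T using Finset.induction_on with
    | empty =>
      refine ⟨1, Subgroup.one_mem _, fun i hi => absurd hi (Finset.notMem_empty i),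
        fun i _ c => ?_⟩
      rw [act_one, act_one]
      exact ⟨rfl, rfl⟩
    | insert j T hj ih =>
      obtain ⟨s, hsG, hs1, hs2⟩ := ih
      have hfixv : ∀ i, i ≠ j → ∀ c,
          act Q (nO Q (v (j, 0)) (v (j, 1)) (w (j, 0)) (w (j, 1))) (v (i, c)) = v (i, c) := by
        intro i hij c
        have hne : ∀ c', (j, c') ≠ (i, c) := fun c' e => hij (congrArg Prod.fst e).symm
        exact nO_fix (hquad j) _ (h.polA (hvA _) (hvA _)) (h.polA (hvA _) (hvA _))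
          (hwv _ _ (hne 0)) (hwv _ _ (hne 1))
      have hfixw : ∀ i, i ≠ j → ∀ c,
          act Q (nO Q (v (j, 0)) (v (j, 1)) (w (j, 0)) (w (j, 1))) (w (i, c)) = w (i, c) := by
        intro i hij c
        have hne : ∀ c', (j, c') ≠ (i, c) := fun c' e => hij (congrArg Prod.fst e).symm
        exact nO_fix (hquad j) _ (hvw _ _ (hne 0)) (hvw _ _ (hne 1))
          (h.symm.polA (hwB _) (hwB _)) (h.symm.polA (hwB _) (hwB _))
      obtain ⟨n1, n2, n3, n4⟩ := nO_vals (hquad j)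
      refine ⟨nO Q (v (j, 0)) (v (j, 1)) (w (j, 0)) (w (j, 1)) * s,
        Subgroup.mul_mem _ (nO_mem hQ hn (hquad j)) hsG, ?_, ?_⟩
      · intro i hi
        rcases Finset.mem_insert.mp hi with hij | hiT
        · rw [hij]
          have f0 := hs2 j hj 0
          have f1 := hs2 j hj 1
          refine ⟨?_, ?_, ?_, ?_⟩
          · rw [act_mul, f0.1]
            exact n1
          · rw [act_mul, f1.1]
            exact n2
          · rw [act_mul, f0.2]
            exact n3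
          · rw [act_mul, f1.2]
            exact n4
        · have hij : i ≠ j := fun e => hj (e ▸ hiT)
          obtain ⟨g1, g2, g3, g4⟩ := hs1 i hiT
          refine ⟨?_, ?_, ?_, ?_⟩
          · rw [act_mul, g1]
            exact hfixw i hij 1
          · rw [act_mul, g2, map_neg, hfixw i hij 0]
          · rw [act_mul, g3]
            exact hfixv i hij 1
          · rw [act_mul, g4, map_neg, hfixv i hij 0]
      · intro i hi c
        have hij : i ≠ j := fun e => hi (e ▸ Finset.mem_insert_self j T)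
        have hiT : i ∉ T := fun e => hi (Finset.mem_insert_of_mem e)
        rw [act_mul, act_mul, (hs2 i hiT c).1, (hs2 i hiT c).2]
        exact ⟨hfixv i hij c, hfixw i hij c⟩
  obtain ⟨s, hsG, hs1, -⟩ := hind Finset.univ
  have key1 : ∀ x ∈ A, act Q s x ∈ B := by
    intro x hx
    let T : Submodule F A := (B.comap (act Q s)).comap A.subtype
    have hT : Submodule.span F (Set.range b) ≤ T := by
      rw [Submodule.span_le]
      rintro _ ⟨⟨j, c⟩, rfl⟩
      show act Q s (A.subtype (b (j, c))) ∈ B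
      have h3 : A.subtype (b (j, c)) = v (j, c) := by rw [hv_def]; rfl
      rw [h3]
      obtain ⟨g1, g2, g3, g4⟩ := hs1 j (Finset.mem_univ j)
      have hall : ∀ c : Fin 2, act Q s (v (j, c)) ∈ B := by
        rw [Fin.forall_fin_two]
        exact ⟨by rw [g1]; exact hwB _, by rw [g2]; exact B.neg_mem (hwB _)⟩
      exact hall c
    have h4 : (⟨x, hx⟩ : A) ∈ T := hT (b.mem_span _)
    exact h4
  have key2 : ∀ x ∈ A, act Q s (act Q s x) ∈ A := by
    intro x hx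
    let T : Submodule F A := ((A.comap (act Q s)).comap (act Q s)).comap A.subtype
    have hT : Submodule.span F (Set.range b) ≤ T := by
      rw [Submodule.span_le]
      rintro _ ⟨⟨j, c⟩, rfl⟩
      show act Q s (act Q s (A.subtype (b (j, c)))) ∈ A
      have h3 : A.subtype (b (j, c)) = v (j, c) := by rw [hv_def]; rfl
      rw [h3]
      obtain ⟨g1, g2, g3, g4⟩ := hs1 j (Finset.mem_univ j)
      have hall : ∀ c : Fin 2, act Q s (act Q s (v (j, c))) ∈ A := by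
        rw [Fin.forall_fin_two]
        exact ⟨by rw [g1, g4]; exact A.neg_mem (hvA _),
          by rw [g2, map_neg, g3]; exact A.neg_mem (hvA _)⟩
      exact hall c
    have h4 : (⟨x, hx⟩ : A) ∈ T := hT (b.mem_span _)
    exact h4
  refine ⟨s, hsG, key1, ?_⟩
  have hmap : A.map (act Q s) = B := by
    apply Submodule.eq_of_le_of_finrank_eq
    · rintro _ ⟨x, hx, rfl⟩
      exact key1 x hx
    · rw [finrank_map_act Q s A, hmA, hmB]
  intro y hy
  rw [← hmap] at hy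
  obtain ⟨x, hx, rfl⟩ := hy
  exact key2 x hx

end Swap

/-- the stabiliser in `Ω` of a pair of complementary totally singular subspaces of even dimension
is maximal -/
theorem maxPair (Q : QuadraticForm F (ι → F)) (hQ : (QuadraticMap.polarBilin Q).Nondegenerate)
    (hn : 7 ≤ Fintype.card ι) (D : Fin 2 → Submodule F (ι → F)) (k l : ℕ) (hk : k = l * 2)
    (hk4 : 4 < k) (hcard : k + 4 < Fintype.card ι) (hD : Cfsg.Geo.IsMDecomposition k D)
    (hts : ∀ i, ∀ x ∈ D i, Q x = 0) :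
    Cfsg.Geo.IsMaximalIn (Cfsg.Geo.omegaGL ⇑Q)
      (Cfsg.Geo.decompositionStabilizer D ⊓ Cfsg.Geo.omegaGL ⇑Q) := by
  have hdisj : ∀ x ∈ D 0, x ∈ D 1 → x = 0 := by
    have h1 : Disjoint (D 0) (D 1) := hD.indep.pairwiseDisjoint (by decide)
    exact Submodule.disjoint_def.mp h1
  have hsum : ∀ x, ∃ a ∈ D 0, ∃ b ∈ D 1, x = a + b := by
    intro x
    have h1 : (⊤ : Submodule F (ι → F)) ≤ D 0 ⊔ D 1 := by
      rw [← hD.iSup_eq_top]
      apply iSup_le
      intro i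
      fin_cases i
      · exact le_sup_left
      · exact le_sup_right
    obtain ⟨a, ha, b, hb, e⟩ := Submodule.mem_sup.mp (h1 (Submodule.mem_top (x := x)))
    exact ⟨a, ha, b, hb, e.symm⟩
  have hP : Pair Q (D 0) (D 1) :=
    ⟨hts 0, hts 1, hdisj, hsum, by rw [hD.finrank_eq]; exact hk4,
      by rw [hD.finrank_eq]; exact hk4⟩
  have hmemH : ∀ s ∈ commutator ↥(Cfsg.isometryGroup F ⇑Q),
      (∀ x ∈ D 0, act Q s x ∈ D 0) → (∀ x ∈ D 1, act Q s x ∈ D 1) →
      (s : Matrix.GeneralLinearGroup ι F) ∈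
        Cfsg.Geo.decompositionStabilizer D ⊓ Cfsg.Geo.omegaGL ⇑Q := by
    intro s hs h0 h1
    refine ⟨?_, mem_omegaGL Q s hs⟩
    apply Cfsg.Agent.S5647.mem_decomp_of_le D k hD.finrank_eq _ 1
    intro i
    fin_cases i
    · exact h0
    · exact h1
  have hmemH' : ∀ s ∈ commutator ↥(Cfsg.isometryGroup F ⇑Q),
      (∀ x ∈ D 0, act Q s x ∈ D 1) → (∀ x ∈ D 1, act Q s x ∈ D 0) →
      (s : Matrix.GeneralLinearGroup ι F) ∈
        Cfsg.Geo.decompositionStabilizer D ⊓ Cfsg.Geo.omegaGL ⇑Q := by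
    intro s hs h0 h1
    refine ⟨?_, mem_omegaGL Q s hs⟩
    apply Cfsg.Agent.S5647.mem_decomp_of_le D k hD.finrank_eq _ (Equiv.swap 0 1)
    intro i
    fin_cases i
    · exact h0
    · exact h1
  refine ⟨lt_of_le_of_ne inf_le_right ?_, fun M hHM hMK => ?_⟩
  · intro heq
    obtain ⟨a1, ha1, ha10, -, -, -, -⟩ := exists_orth4 Q (D 0) hP.dimA 0 0 0 0
    obtain ⟨b1, hb1, -, ha1b1⟩ := exists_B hQ hP ⊥ bot_le a1 ha1 (by
      intro hmem
      exact ha10 ((Submodule.mem_bot F).mp hmem))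
    obtain ⟨a2, ha2, ha20, ha2b1, -, -, -⟩ := exists_orth4 Q (D 0) hP.dimA b1 0 0 0
    have h12 := hP.polA ha1 ha2
    have hmem : ((eich Q a1 a2 : ↥(Cfsg.isometryGroup F ⇑Q)) : Matrix.GeneralLinearGroup ι F) ∈
        Cfsg.Geo.decompositionStabilizer D ⊓ Cfsg.Geo.omegaGL ⇑Q := by
      rw [heq]
      exact mem_omegaGL Q _ (eich_mem_omega Q hQ (by omega) a1 a2 (hP.tsA a1 ha1) h12)
    obtain ⟨σ, hσ⟩ := hmem.1
    have h1 : act Q (eich Q a1 a2) b1 ∈ D (σ 1) := by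
      rw [← hσ 1]
      exact ⟨b1, hb1, by rw [Matrix.toLin'_apply]; rfl⟩
    rw [act_eich Q a1 a2 (hP.tsA a1 ha1) h12, ha2b1, hP.tsA a2 ha2, zero_mul, add_zero,
      zero_smul, sub_zero] at h1
    have hcases : σ 1 = 0 ∨ σ 1 = 1 := by
      generalize σ 1 = j
      fin_cases j
      · exact Or.inl rfl
      · exact Or.inr rfl
    rcases hcases with h3 | h3
    · rw [h3] at h1
      have h4 : b1 ∈ D 0 := ((D 0).add_mem_iff_left ((D 0).smul_mem _ ha2)).mp h1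
      have h5 := hdisj b1 h4 hb1
      apply ha1b1
      rw [h5]
      simp [QuadraticMap.polar]
    · rw [h3] at h1
      have h4 : QuadraticMap.polar ⇑Q a1 b1 • a2 ∈ D 1 := ((D 1).add_mem_iff_right hb1).mp h1
      have h5 : a2 ∈ D 1 := by
        have := (D 1).smul_mem (QuadraticMap.polar ⇑Q a1 b1)⁻¹ h4
        rw [smul_smul, inv_mul_cancel₀ ha1b1, one_smul] at this
        exact this
      exact ha20 (hdisj a2 ha2 h5)
  · by_cases hM : M = Cfsg.Geo.decompositionStabilizer D ⊓ Cfsg.Geo.omegaGL ⇑Q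
    · exact Or.inl hM
    · right
      apply le_antisymm hMK
      obtain ⟨K, hK_def⟩ : ∃ K : Subgroup ↥(Cfsg.isometryGroup F ⇑Q),
          K = M.comap (Cfsg.isometryGroup F ⇑Q).subtype := ⟨_, rfl⟩
      have hKmem : ∀ s : ↥(Cfsg.isometryGroup F ⇑Q),
          (s : Matrix.GeneralLinearGroup ι F) ∈ M → s ∈ K := by
        intro s hs
        rw [hK_def]
        exact hs
      have hKmem' : ∀ s : ↥(Cfsg.isometryGroup F ⇑Q),
          s ∈ K → (s : Matrix.GeneralLinearGroup ι F) ∈ M := by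
        intro s hs
        rw [hK_def] at hs
        exact hs
      obtain ⟨g, hgM, hgH⟩ := SetLike.exists_of_lt (lt_of_le_of_ne hHM (Ne.symm hM))
      obtain ⟨s, hsΩ, rfl⟩ := exists_of_mem_omegaGL Q g (hMK hgM)
      obtain ⟨s0, hs0Ω, hs0A, hs0B⟩ := swap_exists hQ (by omega) hP l
        (by rw [hD.finrank_eq, hk]) (by rw [hD.finrank_eq, hk])
      have hΩK := main hQ hn hP (by rw [hD.finrank_eq]; exact hcard)
        (by rw [hD.finrank_eq]; exact hcard) K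
        (fun t ht h0 h1 => hKmem t (hHM (hmemH t ht h0 h1)))
        ⟨s0, hKmem s0 (hHM (hmemH' s0 hs0Ω hs0A hs0B)), hs0A, hs0B⟩ s (hKmem s hgM)
        (fun hc => hgH (hmemH s hsΩ hc.1 hc.2)) (fun hc => hgH (hmemH' s hsΩ hc.1 hc.2))
      intro g' hg'
      obtain ⟨s', hs', rfl⟩ := exists_of_mem_omegaGL Q g' hg'
      exact hKmem' s' (hΩK hs')

/-- Let F be a finite field with q elements, n ≥ 13 even, Q a non-degenerate quadratic form on F^n of plus type (some subspace of dimension n/2 is totally singular), and Ω the commutator subgroup of the isometry group of Q, viewed inside GL_n(F). Suppose n/2 is even and let D be a decomposition of F^n into two complementary subspaces of dimension n/2 on each of which Q vanishes. Then the elements of Ω preserving or interchanging the two subspaces form a maximal subgroup of Ω. -/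
theorem result {F : Type*} [Field F] [Fintype F] {n : ℕ} (hn : 13 ≤ n) (heven : Even n) (Q : (Fin n → F) → F) (hQ : Cfsg.Geo.IsNondegenerateQuadraticForm Q) (hplus : Cfsg.Geo.IsPlusTypeOn Q ⊤) (k : ℕ) (hk : 2 * k = n) (hke : Even k) (D : Fin 2 → Submodule F (Fin n → F)) (hD : Cfsg.Geo.IsMDecomposition k D) (hts : ∀ i, Cfsg.Geo.IsTotallySingularQuad Q (D i)) : Cfsg.Geo.IsMaximalIn (Cfsg.Geo.omegaGL Q) (Cfsg.Geo.decompositionStabilizer D ⊓ Cfsg.Geo.omegaGL Q) := by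
  have hc : Fintype.card (Fin n) = n := Fintype.card_fin n
  have hQ' := toQF_nondeg Q hQ
  obtain ⟨l, hl⟩ := hke
  have key := maxPair (toQF Q hQ) hQ' (by rw [hc]; omega) D k l (by omega) (by omega)
    (by rw [hc]; omega) hD hts
  exact key


end Cfsg.Agent.S5697
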