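import Cfsg.Statements.S5699
import Mathlib
import Cfsg.Agent.Lib.Helper15.GeoBridge
import Cfsg.Agent.Lib.Helper28.OrthND
import Cfsg.Agent.S5647

set_option autoImplicit false
open Cfsg

namespace Cfsg.Agent.S5699

open Module Cfsg.Agent.Lib.Helper15.Spinor Cfsg.Agent.Lib.Helper15.CD2
  Cfsg.Agent.Lib.Helper15.Witt Cfsg.Agent.Lib.Helper15.Eichler
  Cfsg.Agent.Lib.Helper15.GeoBridge Cfsg.Agent.Lib.Helper28.OrthND

/-- Let F be a finite field with q elements, n ≥ 13 even, Q a non-degenerate quadratic form on F^n (of either type), and Ω the commutator subgroup of the isometry group of Q, viewed inside GL_n(F). Let D be a decomposition of F^n into two orthogonal subspaces of odd dimension n/2 on which the polar form is non-degenerate and which are not Q-isometric to each other. Then the elements of Ω permuting (necessarily fixing) the two subspaces form a maximal subgroup of Ω. -/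
theorem result {F : Type*} [Field F] [Fintype F] {n : ℕ} (hn : 13 ≤ n) (heven : Even n) (Q : (Fin n → F) → F) (hQ : Cfsg.Geo.IsNondegenerateQuadraticForm Q) (k : ℕ) (hk : 2 * k = n) (hko : Odd k) (D : Fin 2 → Submodule F (Fin n → F)) (hD : Cfsg.Geo.IsNondegenerateMDecomposition (QuadraticMap.polar Q) k D) (hni : ¬ Cfsg.Geo.AreIsometricFor Q (D 0) (D 1)) : Cfsg.Geo.IsMaximalIn (Cfsg.Geo.omegaGL Q) (Cfsg.Geo.decompositionStabilizer D ⊓ Cfsg.Geo.omegaGL Q) := by
  have hc : Fintype.card (Fin n) = n := Fintype.card_fin n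
  have hQ' := toQF_nondeg Q hQ
  obtain ⟨Q', hQ'_def⟩ : ∃ Q' : QuadraticForm F (Fin n → F), Q' = toQF Q hQ := ⟨_, rfl⟩
  have hcoe : ⇑Q' = Q := by rw [hQ'_def]; rfl
  rw [← hQ'_def] at hQ'
  have hd : Dec Q' (D 0) (D 1) := by
    constructor
    · intro x hx y hy
      have h1 := hD.orthogonal 0 1 (by decide) x hx y hy
      rw [hcoe]
      exact h1
    · intro x
      have h1 : (⊤ : Submodule F (Fin n → F)) ≤ D 0 ⊔ D 1 := by
        rw [← hD.decomp.iSup_eq_top]
        apply iSup_le
        intro i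
        fin_cases i
        · exact le_sup_left
        · exact le_sup_right
      obtain ⟨a, ha, b, hb, e⟩ := Submodule.mem_sup.mp (h1 (Submodule.mem_top (x := x)))
      exact ⟨a, ha, b, hb, e.symm⟩
  have hfin := hD.decomp.finrank_eq
  have hno : ∀ s : ↥(Cfsg.isometryGroup F ⇑Q'), ¬ ∀ x ∈ D 0, act Q' s x ∈ D 1 := by
    intro s hs
    apply hni
    let f : ↥(D 0) →ₗ[F] ↥(D 1) :=
      ((act Q' s).comp (D 0).subtype).codRestrict (D 1) (fun x => hs x x.2)
    have hinj : Function.Injective f := by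
      intro x y hxy
      have h1 : act Q' s (x : Fin n → F) = act Q' s (y : Fin n → F) := congrArg Subtype.val hxy
      have h2 := congrArg (act Q' s⁻¹) h1
      rw [act_inv_act, act_inv_act] at h2
      exact Subtype.ext h2
    refine ⟨LinearMap.linearEquivOfInjective f hinj (by rw [hfin, hfin]), fun w => ?_⟩
    rw [LinearMap.linearEquivOfInjective_apply]
    have h3 : ((f w : ↥(D 1)) : Fin n → F) = act Q' s (w : Fin n → F) := rfl
    rw [h3, ← hcoe, act_Q]
  have heq : Cfsg.Geo.decompositionStabilizer D ⊓ Cfsg.Geo.omegaGL Q =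
      Cfsg.Geo.subspaceStabilizer (D 0) ⊓ Cfsg.Geo.omegaGL Q := by
    apply le_antisymm
    · intro g hg
      refine ⟨?_, hg.2⟩
      have hgΩ : g ∈ Cfsg.Geo.omegaGL ⇑Q' := by
        rw [hcoe]
        exact hg.2
      obtain ⟨s, hs, rfl⟩ := exists_of_mem_omegaGL Q' g hgΩ
      obtain ⟨σ, hσ⟩ := hg.1
      have h1 : ∀ x ∈ D 0, act Q' s x ∈ D (σ 0) := by
        intro x hx
        rw [← hσ 0]
        exact ⟨x, hx, by rw [Matrix.toLin'_apply]; rfl⟩
      have hcases : σ 0 = 0 ∨ σ 0 = 1 := by
        generalize σ 0 = j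
        fin_cases j
        · exact Or.inl rfl
        · exact Or.inr rfl
      rcases hcases with h3 | h3
      · rw [h3] at h1
        exact mem_stab_of_forall Q' s (D 0) h1
      · rw [h3] at h1
        exact absurd h1 (hno s)
    · intro g hg
      refine ⟨?_, hg.2⟩
      have hgΩ : g ∈ Cfsg.Geo.omegaGL ⇑Q' := by
        rw [hcoe]
        exact hg.2
      obtain ⟨s, hs, rfl⟩ := exists_of_mem_omegaGL Q' g hgΩ
      have h0 : ∀ x ∈ D 0, act Q' s x ∈ D 0 := fun x hx =>
        ((mem_stab_iff Q' s (D 0)).1 hg.1 x).1 hx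
      have h1 := stab_other hQ' hd s h0
      apply Cfsg.Agent.S5647.mem_decomp_of_le D k hfin _ 1
      intro i
      fin_cases i
      · exact h0
      · exact h1
  rw [heq]
  have key := maxN Q' hQ' (by rw [hc]; omega) hd (D 0) (Or.inl rfl) (by
      intro h0
      have h1 := hfin 1
      rw [h0, finrank_bot] at h1
      omega) (by rw [hfin]; omega) (Or.inr ⟨by rw [hfin]; omega, hno⟩)
  rw [hcoe] at key
  exact key


end Cfsg.Agent.S5699
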