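import Cfsg.Statements.S5705
import Mathlib
import Cfsg.Agent.Lib.Helper13.OmegaF3

set_option autoImplicit false
open Cfsg

namespace Cfsg.Agent.S5705

open Matrix
open scoped Kronecker
open Cfsg.Agent.Lib.Helper13.TensorF3 Cfsg.Agent.Lib.Helper13.OmegaF3

variable {F : Type*} [Field F]

section General

variable {ι : Type} [Fintype ι] [DecidableEq ι]

theorem gl_ext2 {g h : GL ι F} (H : ∀ x, (g : Matrix ι ι F) *ᵥ x = (h : Matrix ι ι F) *ᵥ x) :
    g = h :=
  Units.ext (Matrix.ext_iff_mulVec.mpr H)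

/-- The elements normalising the cyclic group generated by `z` (for `z` of order 3). -/
def NZ (z : GL ι F) : Subgroup (GL ι F) where
  carrier := {g | g * z * g⁻¹ = z ∨ g * z * g⁻¹ = z⁻¹}
  mul_mem' := by
    intro a b ha hb
    have e : a * b * z * (a * b)⁻¹ = a * (b * z * b⁻¹) * a⁻¹ := by group
    have e' : a * z⁻¹ * a⁻¹ = (a * z * a⁻¹)⁻¹ := by group
    show a * b * z * (a * b)⁻¹ = z ∨ a * b * z * (a * b)⁻¹ = z⁻¹
    rw [e]
    rcases hb with hb | hb <;> rcases ha with ha | ha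
    · left; rw [hb, ha]
    · right; rw [hb, ha]
    · right; rw [hb, e', ha]
    · left; rw [hb, e', ha, inv_inv]
  one_mem' := by
    left
    group
  inv_mem' := by
    intro a ha
    show a⁻¹ * z * a⁻¹⁻¹ = z ∨ a⁻¹ * z * a⁻¹⁻¹ = z⁻¹
    rcases ha with ha | ha
    · left
      nth_rewrite 1 [← ha]
      group
    · right
      have hz : z = a * z⁻¹ * a⁻¹ := by
        have e' : a * z⁻¹ * a⁻¹ = (a * z * a⁻¹)⁻¹ := by group
        rw [e', ha, inv_inv]
      nth_rewrite 1 [hz]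
      group

variable {n₁ n₂ : ℕ}

theorem emb_surj (e : ι ≃ Fin n₁ × Fin n₂) (P : GL ι F) (v : ι → F) : ∃ X, emb e P X = v := by
  refine ⟨fun p => (((P⁻¹ : GL ι F) : Matrix ι ι F) *ᵥ v) (e.symm p), ?_⟩
  unfold emb
  have : (fun p => (((P⁻¹ : GL ι F) : Matrix ι ι F) *ᵥ v) (e.symm p)) ∘ e =
      ((P⁻¹ : GL ι F) : Matrix ι ι F) *ᵥ v := by
    funext i
    simp
  rw [this, Matrix.mulVec_mulVec, ← Units.val_mul, mul_inv_cancel, Units.val_one, Matrix.one_mulVec]

/-- Reindexing along `e` followed by conjugation by `P`. -/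
def phi (e : ι ≃ Fin n₁ × Fin n₂) (P : GL ι F) : GL (Fin n₁ × Fin n₂) F →* GL ι F :=
  ((MulAut.conj P).toMonoidHom).comp (Cfsg.Geo.glReindex e.symm).toMonoidHom

/-- The conjugate by `P` of a reindexed matrix acts in tensor coordinates. -/
theorem conj_act (e : ι ≃ Fin n₁ × Fin n₂) (P : GL ι F) (k : GL (Fin n₁ × Fin n₂) F)
    (x : Fin n₁ × Fin n₂ → F) :
    ((phi e P k : GL ι F) : Matrix ι ι F) *ᵥ emb e P x =
      emb e P ((k : Matrix (Fin n₁ × Fin n₂) (Fin n₁ × Fin n₂) F) *ᵥ x) := by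
  unfold emb
  have h1 : ((phi e P k : GL ι F) : Matrix ι ι F) = (P : Matrix ι ι F) *
        (k : Matrix (Fin n₁ × Fin n₂) (Fin n₁ × Fin n₂) F).submatrix e e *
        ((P⁻¹ : GL ι F) : Matrix ι ι F) := by
    rfl
  rw [h1, Matrix.mulVec_mulVec, mul_assoc, mul_assoc, ← Units.val_mul, inv_mul_cancel, Units.val_one,
    mul_one, ← Matrix.mulVec_mulVec, Matrix.submatrix_mulVec_equiv]
  have hx : (x ∘ ⇑e) ∘ ⇑e.symm = x := by
    funext p
    simp
  rw [hx]

theorem mem_tensor (e : ι ≃ Fin n₁ × Fin n₂) (P : GL ι F) {g : GL ι F}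
    (hg : g ∈ Cfsg.Geo.tensorProductSubgroup n₁ n₂ e P) :
    ∃ (k : GL (Fin n₁ × Fin n₂) F) (a : GL (Fin n₁) F) (b : GL (Fin n₂) F),
      (k : Matrix (Fin n₁ × Fin n₂) (Fin n₁ × Fin n₂) F) =
        (a : Matrix (Fin n₁) (Fin n₁) F) ⊗ₖ (b : Matrix (Fin n₂) (Fin n₂) F) ∧ g = phi e P k := by
  unfold Cfsg.Geo.tensorProductSubgroup at hg
  obtain ⟨h, ⟨k, ⟨a, b, hk⟩, rfl⟩, rfl⟩ := hg
  exact ⟨k, a, b, hk, rfl⟩

theorem emb_zero (e : ι ≃ Fin n₁ × Fin n₂) (P : GL ι F) : emb e P 0 = 0 := by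
  have := emb_smul e P (0 : F) 0
  simpa using this

theorem formOfGram_eq {κ : Type} [Fintype κ] (G : Matrix κ κ F) (x y : κ → F) :
    Cfsg.Geo.formOfGram (id : F → F) G x y = x ⬝ᵥ (G *ᵥ y) := by
  unfold Cfsg.Geo.formOfGram
  simp only [dotProduct, Matrix.mulVec, id, Finset.mul_sum, mul_assoc]

theorem formOfGram_act {κ : Type} [Fintype κ] [DecidableEq κ] (G M : Matrix κ κ F)
    (hM : Mᵀ * G * M = G) (x y : κ → F) :
    Cfsg.Geo.formOfGram (id : F → F) G (M *ᵥ x) (M *ᵥ y) =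
      Cfsg.Geo.formOfGram (id : F → F) G x y := by
  rw [formOfGram_eq, formOfGram_eq]
  have : (M *ᵥ x) ⬝ᵥ (G *ᵥ (M *ᵥ y)) = x ⬝ᵥ ((Mᵀ * G * M) *ᵥ y) := by
    rw [dotProduct_comm, Matrix.dotProduct_mulVec, dotProduct_comm, ← Matrix.mulVec_transpose,
      Matrix.mulVec_mulVec, Matrix.mulVec_mulVec, mul_assoc]
  rw [this, hM]

end General

section F2

variable [Fintype F]

theorem two_eq_zero2 (hq : Fintype.card F = 2) : (2 : F) = 0 := by
  have := Nat.cast_card_eq_zero F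
  rw [hq] at this
  exact_mod_cast this

theorem eq_zero_or_one2 (hq : Fintype.card F = 2) (x : F) : x = 0 ∨ x = 1 := by
  classical
  by_contra h
  push Not at h
  have h3 : ({0, 1, x} : Finset F).card = 3 := by
    rw [Finset.card_insert_of_notMem, Finset.card_insert_of_notMem, Finset.card_singleton]
    · simp only [Finset.mem_singleton]
      exact fun h' => h.2 h'.symm
    · simp only [Finset.mem_insert, Finset.mem_singleton, not_or]
      exact ⟨zero_ne_one, fun h' => h.1 h'.symm⟩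
  have := Finset.card_le_univ ({0, 1, x} : Finset F)
  omega

theorem gl2_fact (hq : Fintype.card F = 2) (a : GL (Fin 2) F) :
    (a : Matrix (Fin 2) (Fin 2) F) * !![0, 1; 1, 1] = !![0, 1; 1, 1] * (a : Matrix (Fin 2) (Fin 2) F) ∨
    (a : Matrix (Fin 2) (Fin 2) F) * !![0, 1; 1, 1] = !![1, 1; 1, 0] * (a : Matrix (Fin 2) (Fin 2) F) := by
  have h2 := two_eq_zero2 hq
  have h11 : (1 : F) + 1 = 0 := by rw [← h2]; norm_num
  have hdet : (a : Matrix (Fin 2) (Fin 2) F).det ≠ 0 :=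
    ((Matrix.isUnit_iff_isUnit_det _).mp a.isUnit).ne_zero
  obtain ⟨m, hm⟩ : ∃ m : Matrix (Fin 2) (Fin 2) F, m = (a : Matrix (Fin 2) (Fin 2) F) := ⟨_, rfl⟩
  rw [← hm] at hdet ⊢
  rw [Matrix.det_fin_two] at hdet
  rw [Matrix.eta_fin_two m]
  simp only [Matrix.mul_fin_two]
  rcases eq_zero_or_one2 hq (m 0 0) with h00 | h00 <;>
  rcases eq_zero_or_one2 hq (m 0 1) with h01 | h01 <;>
  rcases eq_zero_or_one2 hq (m 1 0) with h10 | h10 <;>
  rcases eq_zero_or_one2 hq (m 1 1) with h12 | h12 <;>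
  simp only [h00, h01, h10, h12] at hdet ⊢ <;>
  first
    | (exfalso; apply hdet; ring1)
    | (exfalso; apply hdet; linear_combination h2)
    | (left; simp [h11]; done)
    | (right; simp [h11]; done)


variable {ι : Type} [Fintype ι] [DecidableEq ι] {Q : (ι → F) → F}

theorem refl2 (hq : Fintype.card F = 2) (hQ : IsQF Q) (z : ι → F) (hz : Q z ≠ 0) (x : ι → F) :
    ((reflGL hQ z hz : GL ι F) : Matrix ι ι F) *ᵥ x = x + QuadraticMap.polar Q x z • z := by
  have h2 := two_eq_zero2 hq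
  have hz1 : Q z = 1 := (eq_zero_or_one2 hq (Q z)).resolve_left hz
  rw [reflGL_mulVec, hz1, div_one]
  ext i
  simp only [Pi.sub_apply, Pi.add_apply, Pi.smul_apply, smul_eq_mul]
  linear_combination (-(QuadraticMap.polar Q x z * z i)) * h2

theorem cm2 (hq : Fintype.card F = 2) (hQ : IsQF Q) (a b : ι → F) (ha : Q a ≠ 0) (hb : Q b ≠ 0)
    (hab : QuadraticMap.polar Q a b = 1) (v : ι → F) :
    ((cm hQ a b ha hb : GL ι F) : Matrix ι ι F) *ᵥ v =
      v + QuadraticMap.polar Q v a • a +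
        (QuadraticMap.polar Q v a + QuadraticMap.polar Q v b) • b := by
  have h2 := two_eq_zero2 hq
  have hB := hQ.bil
  have haa : QuadraticMap.polar Q a a = 0 := by
    rw [hQ.polar_self]
    linear_combination (Q a) * h2
  have hbb : QuadraticMap.polar Q b b = 0 := by
    rw [hQ.polar_self]
    linear_combination (Q b) * h2
  have hba : QuadraticMap.polar Q b a = 1 := by rw [polar_symm]; exact hab
  rw [cm_mulVec, refl2 hq hQ b hb v, refl2 hq hQ a ha, refl2 hq hQ b hb, refl2 hq hQ a ha]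
  simp only [hB.add_left, hB.smul_left, haa, hbb, hab, hba]
  ext i
  simp only [Pi.add_apply, Pi.smul_apply, smul_eq_mul]
  linear_combination ((QuadraticMap.polar Q v a + 2 * QuadraticMap.polar Q v b) * a i +
    QuadraticMap.polar Q v b * b i) * h2

theorem tv_ne_zero {n₁ n₂ : ℕ} {x : Fin n₁ → F} {y : Fin n₂ → F} (hx : x ≠ 0) (hy : y ≠ 0) :
    tv x y ≠ 0 := by
  intro h
  obtain ⟨i, hi⟩ : ∃ i, x i ≠ 0 := by
    by_contra hcon
    push Not at hcon
    exact hx (funext hcon)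
  obtain ⟨j, hj⟩ : ∃ j, y j ≠ 0 := by
    by_contra hcon
    push Not at hcon
    exact hy (funext hcon)
  have := congrFun h (i, j)
  simp only [tv, Pi.zero_apply] at this
  exact mul_ne_zero hi hj this

theorem main (hq : Fintype.card F = 2) (hQ : IsQF Q) (n₂ : ℕ) (h2 : 2 < n₂)
    (e : ι ≃ Fin 2 × Fin n₂) (P : GL ι F) (f₁ : (Fin 2 → F) → (Fin 2 → F) → F)
    (f₂ : (Fin n₂ → F) → (Fin n₂ → F) → F) (hf₁ : Cfsg.Geo.IsSymplecticForm f₁)
    (hf₂ : Cfsg.Geo.IsSymplecticForm f₂)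
    (hT : Cfsg.Geo.IsTensorFormStructure id (QuadraticMap.polar Q) f₁ f₂ e P)
    (hpure : ∀ (x₁ : Fin 2 → F) (x₂ : Fin n₂ → F), Q (emb e P (tv x₁ x₂)) = 0) :
    ∃ K : Subgroup (GL ι F), Cfsg.Geo.tensorProductSubgroup 2 n₂ e P ⊓ Cfsg.Geo.omegaGL Q < K ∧
      K < Cfsg.Geo.omegaGL Q := by
  have h2F := two_eq_zero2 hq
  have h11 : (1 : F) + 1 = 0 := by rw [← h2F]; norm_num
  have hneg : ∀ x : F, -x = x := fun x => by linear_combination (-x) * h2F
  obtain ⟨c0, hc0, hc⟩ := hT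
  have hc1 : c0 = 1 := (eq_zero_or_one2 hq c0).resolve_left hc0
  have hb₁ := hf₁.bilinear
  have hb₂ := hf₂.bilinear
  have hB := hQ.bil
  have hp : ∀ (x x' : Fin 2 → F) (y y' : Fin n₂ → F),
      QuadraticMap.polar Q (emb e P (tv x y)) (emb e P (tv x' y')) = f₁ x x' * f₂ y y' := by
    intro x x' y y'
    rw [pair_tv hb₁ hb₂ hc, hc1, one_mul]
  -- basis of F^2
  obtain ⟨e1, he1⟩ : ∃ v : Fin 2 → F, v = ![1, 0] := ⟨_, rfl⟩
  obtain ⟨e2, he2⟩ : ∃ v : Fin 2 → F, v = ![0, 1] := ⟨_, rfl⟩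
  have he1_0 : e1 0 = 1 := by rw [he1]; rfl
  have he1_1 : e1 1 = 0 := by rw [he1]; rfl
  have he2_0 : e2 0 = 0 := by rw [he2]; rfl
  have he2_1 : e2 1 = 1 := by rw [he2]; rfl
  have he1n : e1 ≠ 0 := by
    intro h
    have := congrFun h 0
    rw [he1_0] at this
    exact one_ne_zero this
  have he2n : e2 ≠ 0 := by
    intro h
    have := congrFun h 1
    rw [he2_1] at this
    exact one_ne_zero this
  have h11f : f₁ e1 e1 = 0 := hf₁.alternating e1
  have h22f : f₁ e2 e2 = 0 := hf₁.alternating e2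
  have h12f : f₁ e1 e2 = 1 := by
    obtain ⟨x, hx⟩ := (hf₁.nondegenerate e1 he1n).2
    have hxe : x = x 0 • e1 + x 1 • e2 := by
      ext i
      fin_cases i
      · simp [he1_0, he2_0]
      · simp [he1_1, he2_1]
    rw [hxe, hb₁.add_right, hb₁.smul_right, hb₁.smul_right, h11f, mul_zero, zero_add] at hx
    have : f₁ e1 e2 ≠ 0 := fun h => hx (by rw [h, mul_zero])
    exact (eq_zero_or_one2 hq _).resolve_left this
  have h21f : f₁ e2 e1 = 1 := by rw [hf₁.skew, h12f, hneg]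
  -- vectors of F^n₂
  obtain ⟨y1, hy1⟩ : ∃ y1 : Fin n₂ → F, y1 ≠ 0 := by
    refine ⟨Pi.single ⟨0, by omega⟩ 1, ?_⟩
    intro h
    have := congrFun h ⟨0, by omega⟩
    simp at this
  obtain ⟨y2, hy2⟩ := (hf₂.nondegenerate y1 hy1).2
  have g12 : f₂ y1 y2 = 1 := (eq_zero_or_one2 hq _).resolve_left hy2
  have g21 : f₂ y2 y1 = 1 := by rw [hf₂.skew, g12, hneg]
  have g11 : f₂ y1 y1 = 0 := hf₂.alternating y1
  have g22 : f₂ y2 y2 = 0 := hf₂.alternating y2
  obtain ⟨y3, hy3, g31, g32⟩ : ∃ y3 : Fin n₂ → F, y3 ≠ 0 ∧ f₂ y3 y1 = 0 ∧ f₂ y3 y2 = 0 := by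
    let L : (Fin n₂ → F) →ₗ[F] (Fin 2 → F) :=
      { toFun := fun v => ![f₂ v y1, f₂ v y2]
        map_add' := fun u v => by
          ext i
          fin_cases i <;> simp [hb₂.add_left]
        map_smul' := fun c v => by
          ext i
          fin_cases i <;> simp [hb₂.smul_left] }
    have hlt : Module.finrank F (Fin 2 → F) < Module.finrank F (Fin n₂ → F) := by
      rw [Module.finrank_fin_fun, Module.finrank_fin_fun]
      exact h2
    obtain ⟨v, hv, hv0⟩ := Submodule.exists_mem_ne_zero_of_ne_bot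
      (LinearMap.ker_ne_bot_of_finrank_lt (f := L) hlt)
    have hLv : L v = 0 := LinearMap.mem_ker.mp hv
    refine ⟨v, hv0, ?_, ?_⟩
    · have := congrFun hLv 0
      exact this
    · have := congrFun hLv 1
      exact this
  have g13 : f₂ y1 y3 = 0 := by rw [hf₂.skew, g31, neg_zero]
  have g23 : f₂ y2 y3 = 0 := by rw [hf₂.skew, g32, neg_zero]
  have g33 : f₂ y3 y3 = 0 := hf₂.alternating y3
  -- the element z
  have hcc : (!![0, 1; 1, 1] : Matrix (Fin 2) (Fin 2) F) * !![1, 1; 1, 0] = 1 := by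
    ext i j
    fin_cases i <;> fin_cases j <;> simp [Matrix.mul_apply, Fin.sum_univ_two, h11]
  have hcc' : (!![1, 1; 1, 0] : Matrix (Fin 2) (Fin 2) F) * !![0, 1; 1, 1] = 1 := by
    ext i j
    fin_cases i <;> fin_cases j <;> simp [Matrix.mul_apply, Fin.sum_univ_two, h11]
  obtain ⟨kz, hkz⟩ : ∃ kz : GL (Fin 2 × Fin n₂) F,
      (kz : Matrix (Fin 2 × Fin n₂) (Fin 2 × Fin n₂) F) =
        (!![0, 1; 1, 1] : Matrix (Fin 2) (Fin 2) F) ⊗ₖ (1 : Matrix (Fin n₂) (Fin n₂) F) :=
    ⟨⟨(!![0, 1; 1, 1] : Matrix (Fin 2) (Fin 2) F) ⊗ₖ (1 : Matrix (Fin n₂) (Fin n₂) F),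
      (!![1, 1; 1, 0] : Matrix (Fin 2) (Fin 2) F) ⊗ₖ (1 : Matrix (Fin n₂) (Fin n₂) F),
      by rw [← Matrix.mul_kronecker_mul, hcc, mul_one, Matrix.one_kronecker_one],
      by rw [← Matrix.mul_kronecker_mul, hcc', mul_one, Matrix.one_kronecker_one]⟩, rfl⟩
  have hkzi : ((kz⁻¹ : GL (Fin 2 × Fin n₂) F) : Matrix (Fin 2 × Fin n₂) (Fin 2 × Fin n₂) F) =
      (!![1, 1; 1, 0] : Matrix (Fin 2) (Fin 2) F) ⊗ₖ (1 : Matrix (Fin n₂) (Fin n₂) F) := by
    apply Units.inv_eq_of_mul_eq_one_right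
    rw [hkz, ← Matrix.mul_kronecker_mul, hcc, mul_one, Matrix.one_kronecker_one]
  obtain ⟨z, hz⟩ : ∃ z : GL ι F, z = phi e P kz := ⟨_, rfl⟩
  have hz_act : ∀ X : Fin 2 × Fin n₂ → F, (z : Matrix ι ι F) *ᵥ emb e P X =
      emb e P (((!![0, 1; 1, 1] : Matrix (Fin 2) (Fin 2) F) ⊗ₖ
        (1 : Matrix (Fin n₂) (Fin n₂) F)) *ᵥ X) := by
    intro X
    rw [hz, conj_act, hkz]
  have hce1 : (!![0, 1; 1, 1] : Matrix (Fin 2) (Fin 2) F) *ᵥ e1 = e2 := by
    rw [he1, he2]
    ext i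
    fin_cases i <;> simp [Matrix.mulVec, dotProduct, Fin.sum_univ_two]
  have hce2 : (!![0, 1; 1, 1] : Matrix (Fin 2) (Fin 2) F) *ᵥ e2 = e1 + e2 := by
    rw [he1, he2]
    ext i
    fin_cases i <;> simp [Matrix.mulVec, dotProduct, Fin.sum_univ_two]
  have zE1 : ∀ y : Fin n₂ → F, (z : Matrix ι ι F) *ᵥ emb e P (tv e1 y) = emb e P (tv e2 y) := by
    intro y
    rw [hz_act, kron_tv, Matrix.one_mulVec, hce1]
  have zE2 : ∀ y : Fin n₂ → F, (z : Matrix ι ι F) *ᵥ emb e P (tv e2 y) =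
      emb e P (tv e1 y) + emb e P (tv e2 y) := by
    intro y
    rw [hz_act, kron_tv, Matrix.one_mulVec, hce2, tv_add_left, emb_add]
  have hG : (!![0, 1; 1, 1] : Matrix (Fin 2) (Fin 2) F)ᵀ * Cfsg.Geo.gramMatrix f₁ *
      !![0, 1; 1, 1] = Cfsg.Geo.gramMatrix f₁ := by
    have G00 : Cfsg.Geo.gramMatrix f₁ 0 0 = 0 := hf₁.alternating _
    have G11 : Cfsg.Geo.gramMatrix f₁ 1 1 = 0 := hf₁.alternating _
    have G10 : Cfsg.Geo.gramMatrix f₁ 1 0 = Cfsg.Geo.gramMatrix f₁ 0 1 := by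
      unfold Cfsg.Geo.gramMatrix
      rw [hf₁.skew, hneg]
    ext i j
    fin_cases i <;> fin_cases j <;>
      simp [Matrix.mul_apply, Fin.sum_univ_two, G00, G11, G10]
    linear_combination (Cfsg.Geo.gramMatrix f₁ 0 1) * h2F
  have hM : ((!![0, 1; 1, 1] : Matrix (Fin 2) (Fin 2) F) ⊗ₖ
        (1 : Matrix (Fin n₂) (Fin n₂) F))ᵀ *
      (Cfsg.Geo.gramMatrix f₁ ⊗ₖ Cfsg.Geo.gramMatrix f₂) *
      ((!![0, 1; 1, 1] : Matrix (Fin 2) (Fin 2) F) ⊗ₖ (1 : Matrix (Fin n₂) (Fin n₂) F)) =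
      Cfsg.Geo.gramMatrix f₁ ⊗ₖ Cfsg.Geo.gramMatrix f₂ := by
    rw [← Matrix.kroneckerMap_transpose, Matrix.transpose_one, ← Matrix.mul_kronecker_mul,
      ← Matrix.mul_kronecker_mul, one_mul, mul_one, hG]
  have z_polar : ∀ u v : ι → F, QuadraticMap.polar Q ((z : Matrix ι ι F) *ᵥ u)
      ((z : Matrix ι ι F) *ᵥ v) = QuadraticMap.polar Q u v := by
    intro u v
    obtain ⟨X, rfl⟩ := emb_surj e P u
    obtain ⟨Y, rfl⟩ := emb_surj e P v
    rw [hz_act, hz_act]
    unfold emb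
    rw [hc, hc, formOfGram_act _ _ hM]
  -- the vectors
  obtain ⟨a, ha⟩ : ∃ a, a = emb e P (tv e1 y1) + emb e P (tv e2 y2) := ⟨_, rfl⟩
  obtain ⟨b, hb⟩ : ∃ b, b = emb e P (tv e2 y1) + emb e P (tv e1 y2) + emb e P (tv e2 y2) :=
    ⟨_, rfl⟩
  obtain ⟨b', hb'⟩ : ∃ b', b' = b + emb e P (tv e1 y3) := ⟨_, rfl⟩
  have hza : (z : Matrix ι ι F) *ᵥ a = b := by
    rw [ha, hb, Matrix.mulVec_add, zE1, zE2]
    abel
  have hzb : (z : Matrix ι ι F) *ᵥ b = a + b := by
    rw [ha, hb, Matrix.mulVec_add, Matrix.mulVec_add, zE2, zE1, zE2]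
    abel
  have Qa : Q a = 1 := by
    rw [ha, Q_add Q]
    simp only [hpure, hp, h12f, g12]
    norm_num
  have Qb : Q b = 1 := by
    rw [hb, Q_add Q, Q_add Q]
    simp only [hpure, hB.add_left, hp, h21f, h22f, h12f, g12, g22]
    norm_num
  have Bab : QuadraticMap.polar Q a b = 1 := by
    rw [ha, hb]
    simp only [hB.add_left, hB.add_right, hp, h11f, h12f, h21f, h22f, g11, g12, g21, g22]
    norm_num
  have Qb' : Q b' = 1 := by
    rw [hb', Q_add Q, Qb, hb]
    simp only [hpure, hB.add_left, hp, h11f, h21f, g13, g23]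
    norm_num
  have Bab' : QuadraticMap.polar Q a b' = 1 := by
    rw [hb', hB.add_right, Bab, ha]
    simp only [hB.add_left, hp, h11f, h21f, g13, g23]
    norm_num
  have Qa0 : Q a ≠ 0 := by rw [Qa]; exact one_ne_zero
  have Qb0 : Q b ≠ 0 := by rw [Qb]; exact one_ne_zero
  have Qb'0 : Q b' ≠ 0 := by rw [Qb']; exact one_ne_zero
  refine ⟨NZ z ⊓ Cfsg.Geo.omegaGL Q, ?_, ?_⟩
  · rw [lt_iff_le_and_ne]
    refine ⟨inf_le_inf_right _ ?_, ?_⟩
    · intro g hg
      obtain ⟨k, a', b'', hk, rfl⟩ := mem_tensor e P hg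
      have key : k * kz * k⁻¹ = kz ∨ k * kz * k⁻¹ = kz⁻¹ := by
        rcases gl2_fact hq a' with h1 | h1
        · left
          rw [mul_inv_eq_iff_eq_mul]
          apply Units.ext
          rw [Units.val_mul, Units.val_mul, hk, hkz, ← Matrix.mul_kronecker_mul,
            ← Matrix.mul_kronecker_mul, h1, mul_one, one_mul]
        · right
          rw [mul_inv_eq_iff_eq_mul]
          apply Units.ext
          rw [Units.val_mul, Units.val_mul, hk, hkz, hkzi, ← Matrix.mul_kronecker_mul,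
            ← Matrix.mul_kronecker_mul, h1, mul_one, one_mul]
      show phi e P k * z * (phi e P k)⁻¹ = z ∨ phi e P k * z * (phi e P k)⁻¹ = z⁻¹
      rcases key with h1 | h1
      · left
        rw [hz, ← map_inv, ← map_mul, ← map_mul, h1]
      · right
        rw [hz, ← map_inv, ← map_inv, ← map_mul, ← map_mul, h1]
    · intro heq
      have hmem : cm hQ a b Qa0 Qb0 ∈ NZ z ⊓ Cfsg.Geo.omegaGL Q := by
        refine ⟨?_, cm_mem_omega hQ a b Qa0 Qb0⟩
        left
        rw [mul_inv_eq_iff_eq_mul]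
        apply gl_ext2
        intro v
        rw [Units.val_mul, Units.val_mul, ← Matrix.mulVec_mulVec, ← Matrix.mulVec_mulVec,
          cm2 hq hQ a b Qa0 Qb0 Bab, cm2 hq hQ a b Qa0 Qb0 Bab]
        rw [Matrix.mulVec_add, Matrix.mulVec_add, Matrix.mulVec_smul, Matrix.mulVec_smul, hza, hzb]
        have e1' : QuadraticMap.polar Q ((z : Matrix ι ι F) *ᵥ v) b = QuadraticMap.polar Q v a := by
          rw [← hza, z_polar]
        have e2' : QuadraticMap.polar Q ((z : Matrix ι ι F) *ᵥ v) a =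
            QuadraticMap.polar Q v a + QuadraticMap.polar Q v b := by
          have haz : a = (z : Matrix ι ι F) *ᵥ (a + b) := by
            rw [Matrix.mulVec_add, hza, hzb]
            ext i
            simp only [Pi.add_apply]
            linear_combination (-(b i)) * h2F
          conv_lhs => rw [haz]
          rw [z_polar, hB.add_right]
        rw [e1', e2']
        ext i
        simp only [Pi.add_apply, Pi.smul_apply, smul_eq_mul]
        ring
      rw [← heq] at hmem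
      obtain ⟨a', b'', hact⟩ := tensor_act hmem.1
      have h1 := hact (tv e1 (y1 + y3))
      rw [kron_tv, cm2 hq hQ a b Qa0 Qb0 Bab] at h1
      have pa : QuadraticMap.polar Q (emb e P (tv e1 (y1 + y3))) a = 1 := by
        rw [ha]
        simp only [hB.add_right, hp, hb₂.add_left, h11f, h12f, g11, g12, g31, g32]
        norm_num
      have pb : QuadraticMap.polar Q (emb e P (tv e1 (y1 + y3))) b = 1 := by
        rw [hb]
        simp only [hB.add_right, hp, hb₂.add_left, h11f, h12f, g11, g12, g31, g32]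
        norm_num
      rw [pa, pb, h11, zero_smul, add_zero, one_smul, ha] at h1
      generalize ((a' : Matrix (Fin 2) (Fin 2) F) *ᵥ e1) = x' at h1
      generalize ((b'' : Matrix (Fin n₂) (Fin n₂) F) *ᵥ (y1 + y3)) = y' at h1
      have h3 : emb e P (tv e1 y3 + tv e2 y2) = emb e P (tv x' y') := by
        rw [← h1, tv_add_right, emb_add, emb_add]
        ext i
        simp only [Pi.add_apply]
        linear_combination (-(emb e P (tv e1 y1) i)) * h2F
      have h4 := emb_inj e P h3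
      have r0 : ∀ j, y3 j = x' 0 * y' j := by
        intro j
        have := congrFun h4 (0, j)
        simpa [tv, he1_0, he2_0] using this
      have r1 : ∀ j, y2 j = x' 1 * y' j := by
        intro j
        have := congrFun h4 (1, j)
        simpa [tv, he1_1, he2_1] using this
      rcases eq_zero_or_one2 hq (x' 0) with h0 | h0
      · apply hy3
        funext j
        rw [r0 j, h0, zero_mul]
        rfl
      rcases eq_zero_or_one2 hq (x' 1) with h1' | h1'
      · have : y2 = 0 := by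
          funext j
          rw [r1 j, h1', zero_mul]
          rfl
        rw [this, bf_zero_right hb₂] at g12
        exact zero_ne_one g12
      · have : y3 = y2 := by
          funext j
          rw [r0 j, r1 j, h0, h1']
        rw [this, g21] at g31
        exact one_ne_zero g31
  · rw [lt_iff_le_and_ne]
    refine ⟨inf_le_right, ?_⟩
    intro heq
    have hmem : cm hQ a b' Qa0 Qb'0 ∈ NZ z ⊓ Cfsg.Geo.omegaGL Q := by
      rw [heq]
      exact cm_mem_omega hQ a b' Qa0 Qb'0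
    have hg := cm2 hq hQ a b' Qa0 Qb'0 Bab'
    have v1a : QuadraticMap.polar Q (emb e P (tv e1 y2)) a = 0 := by
      rw [ha]
      simp only [hB.add_right, hp, h11f, h12f, g21, g22]
      norm_num
    have v1b : QuadraticMap.polar Q (emb e P (tv e1 y2)) b' = 1 := by
      rw [hb', hb]
      simp only [hB.add_right, hp, h11f, h12f, g21, g22, g23]
      norm_num
    have v2a : QuadraticMap.polar Q (emb e P (tv e2 y2)) a = 1 := by
      rw [ha]
      simp only [hB.add_right, hp, h21f, h22f, g21, g22]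
      norm_num
    have v2b : QuadraticMap.polar Q (emb e P (tv e2 y2)) b' = 0 := by
      rw [hb', hb]
      simp only [hB.add_right, hp, h21f, h22f, g21, g22, g23]
      norm_num
    have v3a : QuadraticMap.polar Q (emb e P (tv e1 y3)) a = 0 := by
      rw [ha]
      simp only [hB.add_right, hp, h11f, h12f, g31, g32]
      norm_num
    have v3b : QuadraticMap.polar Q (emb e P (tv e1 y3)) b' = 0 := by
      rw [hb', hb]
      simp only [hB.add_right, hp, h11f, h12f, g31, g32, g33]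
      norm_num
    have v4a : QuadraticMap.polar Q (emb e P (tv e2 y3)) a = 0 := by
      rw [ha]
      simp only [hB.add_right, hp, h21f, h22f, g31, g32]
      norm_num
    have v4b : QuadraticMap.polar Q (emb e P (tv e2 y3)) b' = 0 := by
      rw [hb', hb]
      simp only [hB.add_right, hp, h21f, h22f, g31, g32, g33]
      norm_num
    rcases hmem.1 with h | h
    · rw [mul_inv_eq_iff_eq_mul] at h
      have hv := congrArg (fun M : GL ι F => (M : Matrix ι ι F) *ᵥ emb e P (tv e1 y2)) h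
      simp only [Units.val_mul] at hv
      rw [← Matrix.mulVec_mulVec, ← Matrix.mulVec_mulVec, zE1, hg, hg, v1a, v1b, v2a, v2b] at hv
      rw [hb', hb, ha] at hv
      simp only [Matrix.mulVec_add, Matrix.mulVec_smul, zE1, zE2] at hv
      have h5 : emb e P (tv e1 y3) = emb e P (tv e2 y3) := by
        ext i
        have := congrFun hv i
        simp only [Pi.add_apply, Pi.smul_apply, smul_eq_mul] at this
        linear_combination this
      have h6 := emb_inj e P h5
      apply hy3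
      funext j
      have := congrFun h6 (0, j)
      simpa [tv, he1_0, he2_0] using this
    · rw [mul_inv_eq_iff_eq_mul] at h
      have h' : z * (cm hQ a b' Qa0 Qb'0 * z) = cm hQ a b' Qa0 Qb'0 := by
        rw [h, mul_inv_cancel_left]
      have hv := congrArg (fun M : GL ι F => (M : Matrix ι ι F) *ᵥ emb e P (tv e1 y3)) h'
      simp only [Units.val_mul] at hv
      rw [← Matrix.mulVec_mulVec, ← Matrix.mulVec_mulVec, zE1, hg, hg, v3a, v3b, v4a, v4b] at hv
      simp only [zero_smul, add_zero, zE2] at hv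
      have h5 : emb e P (tv e2 y3) = emb e P 0 := by
        rw [emb_zero]
        ext i
        have := congrFun hv i
        simp only [Pi.add_apply] at this
        simp only [Pi.zero_apply]
        linear_combination this
      exact tv_ne_zero he2n hy3 (emb_inj e P h5)

end F2

/-- Let F be the field with 2 elements, n = 2 n₂ ≥ 13 even, Q a non-degenerate quadratic form on F^n of plus type and Ω the commutator subgroup of its isometry group. Suppose that, through P and e, the polar form of Q is similar to the tensor product of non-degenerate symplectic forms f₁ on F^2 and f₂ on F^(n₂), and Q vanishes on the images of all pure tensors. Then the elements of Ω in the stabiliser of this tensor decomposition form a subgroup that is not maximal: some subgroup lies strictly between it and Ω. -/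
theorem result {F : Type*} [Field F] [Fintype F] {n : ℕ} (hn : 13 ≤ n) (heven : Even n) (Q : (Fin n → F) → F) (hQ : Cfsg.Geo.IsNondegenerateQuadraticForm Q) (hplus : Cfsg.Geo.IsPlusTypeOn Q ⊤) (hq : Fintype.card F = 2) (n₂ : ℕ) (h2 : 2 < n₂) (e : (Fin n) ≃ Fin 2 × Fin n₂) (P : Matrix.GeneralLinearGroup (Fin n) F) (f₁ : (Fin 2 → F) → (Fin 2 → F) → F) (f₂ : (Fin n₂ → F) → (Fin n₂ → F) → F) (hf₁ : Cfsg.Geo.IsSymplecticForm f₁) (hf₂ : Cfsg.Geo.IsSymplecticForm f₂) (hT : Cfsg.Geo.IsTensorFormStructure id (QuadraticMap.polar Q) f₁ f₂ e P) (hpure : (∀ (x₁ : Fin 2 → F) (x₂ : Fin n₂ → F), Q (Matrix.mulVec (P : Matrix (Fin n) (Fin n) F) ((fun a : Fin 2 × Fin n₂ => x₁ a.1 * x₂ a.2) ∘ e)) = 0)) : ∃ K : Subgroup (Matrix.GeneralLinearGroup (Fin n) F), Cfsg.Geo.tensorProductSubgroup 2 n₂ e P ⊓ Cfsg.Geo.omegaGL Q < K ∧ K < Cfsg.Geo.omegaGL Q :=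
  main hq ⟨hQ.smul, hQ.polar_bilinear⟩ n₂ h2 e P f₁ f₂ hf₁ hf₂ hT hpure

end Cfsg.Agent.S5705
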