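import Cfsg.Statements.S5938
import Cfsg.Agent.Lib.Helper16.Max3
import Cfsg.Agent.Lib.Helper2.Subfield2
import Cfsg.Agent.S0803

set_option autoImplicit false
open Cfsg

namespace Cfsg.Agent.S5938

/-- Let p be a prime with p ≡ ±1 (mod 8) and F a field with p elements. Then PSL_2(F) has a maximal subgroup isomorphic to the symmetric group S_4. -/
theorem result {F : Type*} [Field F] [Fintype F] (p : ℕ) [Fact p.Prime] (hF : Fintype.card F = p) (hp : p % 8 = 1 ∨ p % 8 = 7) : ∃ H : Subgroup (Matrix.ProjectiveSpecialLinearGroup (Fin 2) F), IsCoatom H ∧ Nonempty (H ≃* Equiv.Perm (Fin 4)) := by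
  have hp' := (Fact.out : p.Prime)
  have h7 : 7 ≤ p := by
    have := hp'.two_le
    omega
  have hodd : Fintype.card F % 2 = 1 := by rw [hF]; omega
  have h2 : (2 : F) ≠ 0 := Cfsg.Agent.Lib.Helper14.SL2Odd.two_ne_zero_of_odd hodd
  haveI := Cfsg.Agent.Lib.Helper16.PSL2A4.finite_psl (F := F)
  have h16 : p ^ 2 % 16 = 1 := by
    have hr : p % 16 = 1 ∨ p % 16 = 7 ∨ p % 16 = 9 ∨ p % 16 = 15 := by omega
    rw [Nat.pow_mod]
    rcases hr with hh | hh | hh | hh <;> rw [hh] <;> norm_num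
  obtain ⟨H, ⟨e⟩⟩ := (Cfsg.Agent.S0803.result hF).mpr h16
  have hcH : Nat.card H = 24 := by
    rw [Nat.card_congr e.toEquiv, Nat.card_eq_fintype_card, Fintype.card_perm,
      Fintype.card_fin]
    decide
  have hG : 2 * Nat.card (Matrix.ProjectiveSpecialLinearGroup (Fin 2) F) = p * (p ^ 2 - 1) := by
    have h := Cfsg.Agent.Lib.Helper2.Subfield2.card_psl2 (F := F) (Nat.odd_iff.mpr hodd)
    rw [hF] at h
    exact h
  obtain ⟨m, hm⟩ : ∃ m, m + 1 = p ^ 2 :=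
    ⟨p ^ 2 - 1, Nat.sub_add_cancel (Nat.one_le_pow _ _ hp'.pos)⟩
  have hm' : p ^ 2 - 1 = m := by omega
  rw [hm'] at hG
  have hbig : 336 ≤ p * m := by
    have h6 : 7 ^ 2 ≤ p ^ 2 := Nat.pow_le_pow_left h7 2
    have h7' : 48 ≤ m := by omega
    calc 336 = 7 * 48 := by norm_num
      _ ≤ p * m := Nat.mul_le_mul h7 h7'
  refine ⟨H, ⟨?_, ?_⟩, ⟨e⟩⟩
  · intro htop
    rw [htop, Subgroup.card_top] at hcH
    omega
  · intro K hHK
    obtain ⟨a₀, b₀, x₀, y₀, f1, f2, f3, f4, f5, f6, f7, f8, f9⟩ :=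
      Cfsg.Agent.Lib.Helper16.Max.s4_elts
    obtain ⟨a, b, x, y, ha, hb, hx, hy, g1, g2, g3, g4, g5, g6, g7, g8, g9⟩ :=
      Cfsg.Agent.Lib.Helper16.Max.elts_of_equiv H e a₀ b₀ x₀ y₀ f1 f2 f3 f4 f5 f6 f7 f8 f9
    have hd := Subgroup.card_dvd_of_le hHK.le
    rw [hcH] at hd
    obtain ⟨j, hj⟩ := hd
    rcases Cfsg.Agent.Lib.Helper16.Max.max_psl hp' hF h2 K a b x y (hHK.le ha) (hHK.le hb)
      (hHK.le hx) (hHK.le hy) g1 g2 g3 g4 g5 g6 g7 g8 g9 with h | h | h | h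
    · exact h
    · exfalso
      omega
    · exfalso
      have h6 := Subgroup.eq_of_le_of_card_ge hHK.le (by omega)
      exact (ne_of_lt hHK) h6
    · exfalso
      omega

end Cfsg.Agent.S5938
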