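import Cfsg.Statements.S5941
import Cfsg.Agent.Lib.Helper16.Max7

set_option autoImplicit false
open Cfsg

namespace Cfsg.Agent.S5941

/-- Let K and F be finite fields of odd characteristic with #F = (#K)². Then PSL_2(F) has a maximal subgroup isomorphic to PGL_2(K). -/
theorem result {F K : Type*} [Field F] [Fintype F] [Field K] [Fintype K] (q : ℕ) (hK : Fintype.card K = q) (hF : Fintype.card F = q ^ 2) (hq : Odd q) : ∃ H : Subgroup (Matrix.ProjectiveSpecialLinearGroup (Fin 2) F), IsCoatom H ∧ Nonempty (H ≃* Matrix.ProjGenLinGroup (Fin 2) K) := by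
  haveI := Cfsg.Agent.Lib.Helper16.PSL2A4.finite_psl (F := F)
  have hKF : Fintype.card K ^ 2 = Fintype.card F := by rw [hK, hF]
  have hoddF : Odd (Fintype.card F) := by
    rw [hF]
    exact hq.pow
  have h2 : (2 : F) ≠ 0 :=
    Cfsg.Agent.Lib.Helper14.SL2Odd.two_ne_zero_of_odd (Nat.odd_iff.mp hoddF)
  obtain ⟨φ⟩ := Cfsg.Agent.Lib.Helper2.Subfield2.exists_emb (F := F) (K := K) 2 (by norm_num) hKF
  have hsq := Cfsg.Agent.Lib.Helper2.Subfield2.all_sq φ hoddF 2 (by norm_num) even_two hKF
  have hq1 : 1 < q := by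
    rw [← hK]
    exact Fintype.one_lt_card
  have hq3 : 3 ≤ q := by
    obtain ⟨j, hj⟩ := hq
    omega
  have hcH : Nat.card (Cfsg.Agent.Lib.Helper2.Subfield2.pglMap φ hsq).range =
      q * (q ^ 2 - 1) := by
    rw [Nat.card_congr (MonoidHom.ofInjective
      (Cfsg.Agent.Lib.Helper2.Subfield2.pglMap_injective φ hsq)).symm.toEquiv,
      Cfsg.Agent.Lib.Helper2.Subfield2.card_pgl, hK]
  have hG := Cfsg.Agent.Lib.Helper2.Subfield2.card_psl2 (F := F) hoddF
  rw [hF] at hG
  refine ⟨(Cfsg.Agent.Lib.Helper2.Subfield2.pglMap φ hsq).range, ⟨?_, ?_⟩,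
    ⟨(MonoidHom.ofInjective (Cfsg.Agent.Lib.Helper2.Subfield2.pglMap_injective φ hsq)).symm⟩⟩
  · intro htop
    rw [htop, Subgroup.card_top] at hcH
    rw [hcH] at hG
    have h9 : 3 ^ 2 ≤ q ^ 2 := Nat.pow_le_pow_left hq3 2
    have hX : q ^ 2 - 1 ≤ (q ^ 2) ^ 2 - 1 :=
      Nat.sub_le_sub_right (Nat.le_self_pow (by norm_num) (q ^ 2)) 1
    have h3q : 3 * q ≤ q ^ 2 := by
      rw [sq]
      exact Nat.mul_le_mul_right q hq3
    have h5 : 3 * q * (q ^ 2 - 1) ≤ q ^ 2 * ((q ^ 2) ^ 2 - 1) := Nat.mul_le_mul h3q hX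
    rw [Nat.mul_assoc] at h5
    have hpos : 0 < q * (q ^ 2 - 1) := Nat.mul_pos (by omega) (by omega)
    omega
  · intro K' hHK
    by_cases hq3' : q = 3
    · subst hq3'
      have hF4 : 4 ≤ Nat.card F := by
        rw [Nat.card_eq_fintype_card, hF]
        norm_num
      haveI : IsSimpleGroup (Matrix.ProjectiveSpecialLinearGroup (Fin 2) F) :=
        Matrix.ProjectiveSpecialLinearGroup.rank_two_simple hF4
      have hG360 : Nat.card (Matrix.ProjectiveSpecialLinearGroup (Fin 2) F) = 360 := by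
        norm_num at hG
        omega
      have hcH24 : Nat.card (Cfsg.Agent.Lib.Helper2.Subfield2.pglMap φ hsq).range = 24 :=
        hcH.trans (by norm_num)
      have hd := Subgroup.card_dvd_of_le hHK.le
      rw [hcH24] at hd
      have hgt : 24 < Nat.card K' := by
        by_contra hle
        have h6 := Subgroup.eq_of_le_of_card_ge hHK.le (by omega)
        exact (ne_of_lt hHK) h6
      have hidx := Subgroup.index_mul_card K'
      rw [hG360] at hidx
      obtain ⟨j, hj⟩ := hd
      rw [hj] at hidx hgt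
      have hij : K'.index * j = 15 := by
        have h7 : K'.index * (24 * j) = 24 * (K'.index * j) := by ring
        omega
      have hj3 : 3 ≤ j := by
        by_contra h
        have hj2 : j = 2 := by omega
        rw [hj2] at hij
        omega
      apply Cfsg.Agent.Lib.Helper16.Max.top_of_index_le K' 5
      · by_contra h6
        have h7 : 6 * 3 ≤ K'.index * j := Nat.mul_le_mul (by omega) hj3
        omega
      · rw [hG360]
        decide
    · have hq4 : 4 ≤ q := by omega
      exact Cfsg.Agent.Lib.Helper16.Max.max_pgl φ hsq hK hF hq4 h2 K' hHK.le (not_le_of_gt hHK)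

end Cfsg.Agent.S5941
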