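import Cfsg.Statements.S5944

set_option autoImplicit false
open Cfsg

namespace Cfsg.Agent.S5944

open Nat in
theorem result (n : ℕ) (hn : n ≠ 4) (H : Subgroup (Equiv.Perm (Fin n))) (hH : H ≠ ⊤) (hA : H ≠ alternatingGroup (Fin n)) : n ≤ H.index := by
  by_contra hlt
  push Not at hlt
  have h0 : H.index ≠ 0 := Subgroup.index_ne_zero_of_finite
  have h1 : H.index ≠ 1 := fun h => hH (Subgroup.index_eq_one.mp h)
  have h2 : H.index ≠ 2 := fun h => hA (Equiv.Perm.eq_alternatingGroup_of_index_eq_two h)
  have hn5 : 5 ≤ n := by omega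
  haveI : Nontrivial (Fin n) := Fin.nontrivial_iff_two_le.mpr (by omega)
  by_cases hN : Nontrivial H.normalCore
  · have hle : alternatingGroup (Fin n) ≤ H.normalCore :=
      Equiv.Perm.alternatingGroup_le_of_normal (by simpa using hn5) hN
    have hdvd := Subgroup.index_dvd_of_le (hle.trans H.normalCore_le)
    rw [alternatingGroup.index_eq_two] at hdvd
    have := Nat.le_of_dvd (by norm_num) hdvd
    omega
  · rw [Subgroup.nontrivial_iff_ne_bot, not_not, Subgroup.normalCore_eq_ker] at hN
    have hinj : Function.Injective (MulAction.toPermHom (Equiv.Perm (Fin n)) (Equiv.Perm (Fin n) ⧸ H)) :=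
      (MonoidHom.ker_eq_bot_iff _).mp hN
    have hcard := Nat.card_le_card_of_injective _ hinj
    rw [Nat.card_perm, Nat.card_perm, Nat.card_fin, ← Subgroup.index_eq_card] at hcard
    have := (Nat.factorial_lt (by omega : 0 < H.index)).mpr hlt
    omega

end Cfsg.Agent.S5944
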