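import Cfsg.Statements.S5949
import Mathlib

set_option autoImplicit false
set_option maxHeartbeats 400000
open scoped MatrixGroups
open Cfsg

namespace Cfsg.Agent.S5949

open Polynomial Module

section count

variable {F : Type*} [Field F] [Fintype F] {V : Type*} [AddCommGroup V] [Module F V] [Finite V]

/-- fibre of the span map over an `m`-space is the set of its ordered bases -/
noncomputable def fiberEquiv (m : ℕ) (W : {W : Submodule F V // finrank F W = m}) :
    {s : {s : Fin m → V // LinearIndependent F s} //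
      (⟨Submodule.span F (Set.range s.1), by
        rw [finrank_span_eq_card s.2, Fintype.card_fin]⟩ :
          {W : Submodule F V // finrank F W = m}) = W} ≃
    {t : Fin m → W.1 // LinearIndependent F t} where
  toFun s := ⟨fun j => ⟨s.1.1 j, by
      have := congrArg Subtype.val s.2
      simp only at this
      rw [← this]; exact Submodule.subset_span ⟨j, rfl⟩⟩, by
      apply LinearIndependent.of_comp W.1.subtype
      exact s.1.2⟩
  invFun t := ⟨⟨fun j => (t.1 j : V), t.2.map' W.1.subtype (Submodule.ker_subtype _)⟩, by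
      apply Subtype.ext
      simp only
      have h1 : Submodule.span F (Set.range t.1) = ⊤ :=
        t.2.span_eq_top_of_card_eq_finrank' (by rw [Fintype.card_fin, W.2])
      have h2 : Set.range (fun j => (t.1 j : V)) = W.1.subtype '' Set.range t.1 := by
        rw [← Set.range_comp]; rfl
      rw [h2, Submodule.span_image, h1, Submodule.map_top, Submodule.range_subtype]⟩
  left_inv s := by apply Subtype.ext; apply Subtype.ext; rfl
  right_inv t := by apply Subtype.ext; rfl

theorem count_eq (m : ℕ) (hm : m ≤ finrank F V) :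
    Nat.card {W : Submodule F V // finrank F W = m} *
        ∏ j : Fin m, (Fintype.card F ^ m - Fintype.card F ^ j.val)
      = ∏ j : Fin m, (Fintype.card F ^ finrank F V - Fintype.card F ^ j.val) := by
  classical
  rw [← card_linearIndependent hm]
  let f : {s : Fin m → V // LinearIndependent F s} → {W : Submodule F V // finrank F W = m} :=
    fun s => ⟨Submodule.span F (Set.range s.1), by
      rw [finrank_span_eq_card s.2, Fintype.card_fin]⟩
  have : Fintype {W : Submodule F V // finrank F W = m} := Fintype.ofFinite _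
  rw [← Nat.card_congr (Equiv.sigmaFiberEquiv f), Nat.card_sigma]
  have key : ∀ W : {W : Submodule F V // finrank F W = m}, Nat.card {s // f s = W} =
      ∏ j : Fin m, (Fintype.card F ^ m - Fintype.card F ^ j.val) := by
    intro W
    rw [Nat.card_congr (fiberEquiv m W)]
    have := card_linearIndependent (K := F) (V := W.1) (k := m) (by rw [W.2])
    rw [this, W.2]
  simp only [key]
  rw [Finset.sum_const, Finset.card_univ, smul_eq_mul, Nat.card_eq_fintype_card]

theorem prod_split (q d m : ℕ) (_hq : 0 < q) (hd : m ≤ d) :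
    ∏ j : Fin m, (q ^ d - q ^ j.val) =
      (∏ j : Fin m, q ^ j.val) * ∏ j : Fin m, (q ^ (d - j.val) - 1) := by
  rw [← Finset.prod_mul_distrib]
  apply Finset.prod_congr rfl
  intro j _
  have hj : j.val ≤ d := by have := j.2; omega
  rw [Nat.mul_sub, mul_one, ← pow_add, Nat.add_sub_cancel' hj]

theorem count_dvd {ℓ : ℕ} (hℓ : ℓ.Prime) (m : ℕ) (hm : m ≤ finrank F V)
    (h : ℓ ∣ Nat.card {W : Submodule F V // finrank F W = m}) :
    ∃ j < m, ℓ ∣ Fintype.card F ^ (finrank F V - j) - 1 := by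
  have h1 := count_eq (F := F) (V := V) m hm
  have hq : 0 < Fintype.card F := Fintype.card_pos
  rw [prod_split _ _ _ hq le_rfl, prod_split _ _ _ hq hm] at h1
  have h2 : Nat.card {W : Submodule F V // finrank F W = m} *
      ∏ j : Fin m, (Fintype.card F ^ (m - j.val) - 1) =
      ∏ j : Fin m, (Fintype.card F ^ (finrank F V - j.val) - 1) := by
    have hpos : 0 < ∏ j : Fin m, Fintype.card F ^ j.val :=
      Finset.prod_pos (fun j _ => pow_pos hq _)
    apply Nat.eq_of_mul_eq_mul_left hpos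
    rw [← h1]; ring
  have h3 : ℓ ∣ ∏ j : Fin m, (Fintype.card F ^ (finrank F V - j.val) - 1) := by
    rw [← h2]; exact Dvd.dvd.mul_right h _
  obtain ⟨j, _, hj⟩ := (Prime.dvd_finsetProd_iff hℓ.prime _).mp h3
  exact ⟨j.val, j.2, hj⟩

end count

section lemT

variable {F : Type*} [Field F] {V : Type*} [AddCommGroup V] [Module F V]

theorem aeval_mem (f : V →ₗ[F] V) (W : Submodule F V) (hW : ∀ w ∈ W, f w ∈ W) (P : F[X]) :
    ∀ w ∈ W, aeval f P w ∈ W := by
  induction P using Polynomial.induction_on' with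
  | add p q hp hq => intro w hw; rw [map_add]; exact W.add_mem (hp w hw) (hq w hw)
  | monomial n a =>
    intro w hw
    rw [aeval_monomial]
    simp only [Module.End.mul_apply, Module.algebraMap_end_apply]
    apply W.smul_mem
    induction n with
    | zero => simpa using hw
    | succ n ih => rw [pow_succ', Module.End.mul_apply]; exact hW _ ih

variable [FiniteDimensional F V]

theorem ext_one (f : V →ₗ[F] V) (W : Submodule F V) (hW : ∀ w ∈ W, f w ∈ W) (v : V)
    (hv : v ∉ W) (μ : F) (hμ : f v - μ • v ∈ W) :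
    (∀ w ∈ W ⊔ Submodule.span F {v}, f w ∈ W ⊔ Submodule.span F {v}) ∧
    finrank F ↥(W ⊔ Submodule.span F {v}) = finrank F W + 1 := by
  constructor
  · intro w hw
    rw [Submodule.mem_sup] at hw
    obtain ⟨a, ha, b, hb, rfl⟩ := hw
    rw [Submodule.mem_span_singleton] at hb
    obtain ⟨t, rfl⟩ := hb
    rw [map_add, map_smul]
    have : f v = (f v - μ • v) + μ • v := by abel
    rw [this, smul_add]
    apply Submodule.add_mem
    · exact Submodule.mem_sup_left (hW a ha)
    · apply Submodule.add_mem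
      · exact Submodule.mem_sup_left (W.smul_mem _ hμ)
      · exact Submodule.mem_sup_right (Submodule.smul_mem _ _
          (Submodule.smul_mem _ _ (Submodule.mem_span_singleton_self v)))
  · have hv0 : v ≠ 0 := fun h => hv (h ▸ W.zero_mem)
    have hdis : W ⊓ Submodule.span F {v} = ⊥ := by
      rw [eq_bot_iff]
      intro x hx
      obtain ⟨hx1, hx2⟩ := Submodule.mem_inf.mp hx
      rw [Submodule.mem_span_singleton] at hx2
      obtain ⟨t, rfl⟩ := hx2
      by_cases ht : t = 0
      · simp [ht]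
      · exfalso; apply hv
        have := W.smul_mem t⁻¹ hx1
        rwa [smul_smul, inv_mul_cancel₀ ht, one_smul] at this
    have := Submodule.finrank_sup_add_finrank_inf_eq W (Submodule.span F {v})
    rw [hdis, finrank_bot, finrank_span_singleton hv0] at this
    omega

theorem prod_all [Fintype F] : ∏ a : F, (X - C a) = (X ^ Fintype.card F - X : F[X]) := by
  have hmon : (X ^ Fintype.card F - X : F[X]).Monic := by
    apply monic_X_pow_sub
    rw [degree_X]
    exact_mod_cast Fintype.one_lt_card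
  have hroots := FiniteField.roots_X_pow_card_sub_X F
  have hcard : Multiset.card (X ^ Fintype.card F - X : F[X]).roots =
      (X ^ Fintype.card F - X : F[X]).natDegree := by
    rw [hroots, FiniteField.X_pow_card_sub_X_natDegree_eq F Fintype.one_lt_card]
    simp
  have := prod_multiset_X_sub_C_of_monic_of_roots_card_eq hmon hcard
  rw [hroots] at this
  exact this

theorem all_dims [Fintype F] (f : V →ₗ[F] V) (hf : f ^ Fintype.card F = f) :
    ∀ m, m ≤ finrank F V → ∃ W : Submodule F V, finrank F W = m ∧ ∀ w ∈ W, f w ∈ W := by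
  classical
  intro m
  induction m with
  | zero =>
    intro _
    exact ⟨⊥, finrank_bot F V, fun w hw => by
      rw [Submodule.mem_bot] at hw; rw [hw, map_zero]; exact Submodule.zero_mem _⟩
  | succ m ih =>
    intro hm
    obtain ⟨W, hWd, hW⟩ := ih (by omega)
    have hWtop : W ≠ ⊤ := by
      intro h; rw [h, finrank_top] at hWd; omega
    obtain ⟨v₀, hv₀⟩ : ∃ v, v ∉ W := by
      by_contra hcon; push Not at hcon
      exact hWtop (eq_top_iff.mpr fun x _ => hcon x)
    by_contra hno
    have key : ∀ v, v ∉ W → ∀ μ : F, f v - μ • v ∉ W := by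
      intro v hv μ hμ
      obtain ⟨h1, h2⟩ := ext_one f W hW v hv μ hμ
      exact hno ⟨_, by rw [h2, hWd], h1⟩
    have hS : ∀ S : Finset F, aeval f (∏ a ∈ S, (X - C a)) v₀ ∉ W := by
      intro S
      induction S using Finset.induction_on with
      | empty => simpa using hv₀
      | insert a S ha ih2 =>
        rw [Finset.prod_insert ha, map_mul, Module.End.mul_apply]
        have := key _ ih2 a
        simpa [sub_smul] using this
    have := hS Finset.univ
    rw [prod_all] at this
    apply this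
    simp [hf]

end lemT

section charpoly

variable {F : Type*} [Field F]

theorem charpoly_dvd {ι : Type*} [Fintype ι] [DecidableEq ι] (A : Matrix ι ι F) (r : ℕ) (c : F)
    (hA : A ^ r = c • (1 : Matrix ι ι F)) :
    A.charpoly ∣ (X ^ r - C c) ^ Fintype.card ι := by
  set S : Matrix ι ι F[X] := Matrix.scalar ι (X : F[X]) with hS
  set T : Matrix ι ι F[X] := (C : F →+* F[X]).mapMatrix A with hT
  have hcomm : Commute S T := Matrix.scalar_commute _ (fun r' => Commute.all _ _) _
  have h1 := hcomm.mul_geom_sum₂ r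
  have h2 : S ^ r - T ^ r = Matrix.scalar ι (X ^ r - C c : F[X]) := by
    rw [hS, hT, ← map_pow, ← map_pow, hA, map_sub]
    congr 1
    ext i j
    by_cases hij : i = j
    · subst hij; simp
    · simp [hij]
  have h3 : A.charpoly = (S - T).det := rfl
  rw [h3]
  have h4 := congrArg Matrix.det h1
  rw [Matrix.det_mul, h2] at h4
  have h5 : (Matrix.scalar ι (X ^ r - C c : F[X])).det = (X ^ r - C c) ^ Fintype.card ι := by
    simp [Matrix.scalar_apply]
  rw [h5] at h4
  exact Dvd.intro _ h4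

theorem charpoly_eq {ι : Type*} [Fintype ι] [DecidableEq ι] (A : Matrix ι ι F) (r : ℕ)
    (hr : r ≠ 0) (c : F) (hirr : Irreducible (X ^ r - C c : F[X]))
    (hA : A ^ r = c • (1 : Matrix ι ι F)) :
    ∃ k, Fintype.card ι = r * k ∧ A.det = (-1) ^ Fintype.card ι * (-c) ^ k := by
  obtain ⟨k, _, hk⟩ := (dvd_prime_pow hirr.prime _).mp (charpoly_dvd A r c hA)
  have hmon : (X ^ r - C c : F[X]).Monic := monic_X_pow_sub_C c hr
  have heq : A.charpoly = (X ^ r - C c) ^ k :=
    eq_of_monic_of_associated (Matrix.charpoly_monic A) (hmon.pow k) hk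
  refine ⟨k, ?_, ?_⟩
  · have := congrArg natDegree heq
    rw [Matrix.charpoly_natDegree_eq_dim, natDegree_pow, natDegree_X_pow_sub_C] at this
    rw [this]; ring
  · rw [Matrix.det_eq_sign_charpoly_coeff, heq, coeff_zero_eq_eval_zero]
    simp [zero_pow hr]

variable {V : Type*} [AddCommGroup V] [Module F V] [FiniteDimensional F V]

theorem lin_charpoly (f : V →ₗ[F] V) (r : ℕ) (hr : r ≠ 0) (c : F)
    (hirr : Irreducible (X ^ r - C c : F[X]))
    (hf : f ^ r = c • (1 : Module.End F V)) :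
    ∃ k, finrank F V = r * k ∧ LinearMap.det f = (-1) ^ finrank F V * (-c) ^ k := by
  classical
  let b := Module.finBasis F V
  have hA : (LinearMap.toMatrix b b f) ^ r = c • (1 : Matrix _ _ F) := by
    have := congrArg (LinearMap.toMatrixAlgEquiv b) hf
    rw [map_pow, map_smul, map_one] at this
    exact this
  obtain ⟨k, hk1, hk2⟩ := charpoly_eq _ r hr c hirr hA
  rw [Fintype.card_fin] at hk1 hk2
  exact ⟨k, hk1, by rw [← LinearMap.det_toMatrix b f]; exact hk2⟩

theorem inv_dvd (f : V →ₗ[F] V) (r : ℕ) (hr : r ≠ 0) (c : F)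
    (hirr : Irreducible (X ^ r - C c : F[X]))
    (hf : f ^ r = c • (1 : Module.End F V)) (W : Submodule F V) (hW : ∀ w ∈ W, f w ∈ W) :
    r ∣ finrank F W := by
  have h : (f.restrict hW) ^ r = c • (1 : Module.End F W) := by
    rw [Module.End.pow_restrict]
    ext w
    simp [LinearMap.restrict_apply, hf]
  obtain ⟨k, hk, _⟩ := lin_charpoly (f.restrict hW) r hr c hirr h
  exact ⟨k, hk⟩

theorem exists_mult (f : V →ₗ[F] V) (r : ℕ) (hr : r ≠ 0) (c : F)
    (hirr : Irreducible (X ^ r - C c : F[X]))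
    (hf : f ^ r = c • (1 : Module.End F V)) :
    ∀ t, r * t ≤ finrank F V →
      ∃ W : Submodule F V, finrank F W = r * t ∧ ∀ w ∈ W, f w ∈ W := by
  have hr0 := Nat.pos_of_ne_zero hr
  intro t
  induction t with
  | zero =>
    intro _
    exact ⟨⊥, by simp, fun w hw => by
      rw [Submodule.mem_bot] at hw; rw [hw, map_zero]; exact Submodule.zero_mem _⟩
  | succ t ih =>
    intro ht
    rw [Nat.mul_succ] at ht
    obtain ⟨W, hWd, hW⟩ := ih (by omega)
    have hWtop : W ≠ ⊤ := by
      intro h; rw [h, finrank_top] at hWd; omega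
    obtain ⟨v, hv⟩ : ∃ v, v ∉ W := by
      by_contra hcon; push Not at hcon
      exact hWtop (eq_top_iff.mpr fun x _ => hcon x)
    let Z : Submodule F V := Submodule.span F (Set.range (fun j : Fin r => (f ^ j.val) v))
    have hZ : ∀ w ∈ Z, f w ∈ Z := by
      intro w hw
      induction hw using Submodule.span_induction with
      | mem x hx =>
        obtain ⟨j, rfl⟩ := hx
        by_cases hj : j.val + 1 < r
        · have : f ((f ^ j.val) v) = (f ^ (⟨j.val + 1, hj⟩ : Fin r).val) v := by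
            simp [pow_succ', Module.End.mul_apply]
          rw [this]; exact Submodule.subset_span ⟨_, rfl⟩
        · have hj' : j.val + 1 = r := by have := j.2; omega
          have : f ((f ^ j.val) v) = c • (f ^ (⟨0, hr0⟩ : Fin r).val) v := by
            rw [← Module.End.mul_apply, ← pow_succ', hj', hf]; simp
          rw [this]; exact Submodule.smul_mem _ _ (Submodule.subset_span ⟨_, rfl⟩)
      | zero => rw [map_zero]; exact Submodule.zero_mem _
      | add x y _ _ hx hy => rw [map_add]; exact Submodule.add_mem _ hx hy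
      | smul a x _ hx => rw [map_smul]; exact Submodule.smul_mem _ _ hx
    have hWZ : ∀ w ∈ W ⊔ Z, f w ∈ W ⊔ Z := by
      intro w hw
      obtain ⟨a, ha, b, hb, rfl⟩ := Submodule.mem_sup.mp hw
      rw [map_add]
      exact Submodule.add_mem _ (Submodule.mem_sup_left (hW a ha))
        (Submodule.mem_sup_right (hZ b hb))
    have hvZ : v ∈ Z := Submodule.subset_span ⟨⟨0, hr0⟩, by simp⟩
    have hlt : W < W ⊔ Z := by
      refine lt_of_le_of_ne le_sup_left ?_
      intro h; apply hv; rw [h]; exact Submodule.mem_sup_right hvZ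
    have h1 := Submodule.finrank_lt_finrank_of_lt hlt
    have h2 : finrank F ↥(W ⊔ Z) ≤ finrank F W + r := by
      have hZr : finrank F Z ≤ r := by
        have := finrank_range_le_card (R := F) (fun j : Fin r => (f ^ j.val) v)
        simpa [Set.finrank] using this
      have := Submodule.finrank_add_le_finrank_add_finrank W Z
      omega
    obtain ⟨k, hk⟩ := inv_dvd f r hr c hirr hf (W ⊔ Z) hWZ
    refine ⟨W ⊔ Z, ?_, hWZ⟩
    rw [hWd] at h1 h2
    rw [hk] at h1 h2 ⊢
    have h3 : t < k := lt_of_mul_lt_mul_left h1 (Nat.zero_le r)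
    have h4 : r * k ≤ r * (t + 1) := by rw [Nat.mul_succ]; exact h2
    have h5 : k ≤ t + 1 := le_of_mul_le_mul_left h4 hr0
    have : k = t + 1 := by omega
    rw [this]

end charpoly

section semis

variable {F : Type*} [Field F] {V : Type*} [AddCommGroup V] [Module F V]

theorem exists_sub_le [FiniteDimensional F V] (C : Submodule F V) (r : ℕ)
    (hr : r ≤ finrank F ↥C) :
    ∃ W0 : Submodule F V, W0 ≤ C ∧ finrank F ↥W0 = r := by
  let b := Module.finBasis F C
  let v : Fin r → V := fun i => (b (Fin.castLE hr i) : V)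
  have hli : LinearIndependent F v := by
    have h1 : LinearIndependent F (fun i : Fin r => b (Fin.castLE hr i)) :=
      b.linearIndependent.comp _ (Fin.castLE_injective hr)
    exact h1.map' C.subtype (Submodule.ker_subtype C)
  refine ⟨Submodule.span F (Set.range v), ?_, ?_⟩
  · rw [Submodule.span_le]
    rintro _ ⟨i, rfl⟩
    exact (b (Fin.castLE hr i)).2
  · rw [finrank_span_eq_card hli]
    simp

/-- orbit counting: an invariant subspace without fixed vectors has `q ^ dim ≡ 1` -/
theorem card_modEq [Fintype F] [FiniteDimensional F V] (g : V →ₗ[F] V) (r : ℕ) [Fact r.Prime]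
    (hg : g ^ r = 1) (W : Submodule F V)
    (hW : ∀ w ∈ W, g w ∈ W) (hfix : ∀ w ∈ W, g w = w → w = 0) :
    Fintype.card F ^ finrank F W ≡ 1 [MOD r] := by
  classical
  have : Finite V := Module.finite_of_finite F
  have : Fintype W := Fintype.ofFinite _
  let φ : Function.End W := fun w => ⟨g w.1, hW w.1 w.2⟩
  have hφ : ∀ k (w : W), ((φ ^ k) w : V) = (g ^ k) w.1 := by
    intro k
    induction k with
    | zero => intro w; rfl
    | succ k ih =>
      intro w
      rw [pow_succ', pow_succ']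
      show g ((φ ^ k) w : V) = _
      rw [ih, Module.End.mul_apply]
  have hφr : φ ^ r ^ 1 = 1 := by
    rw [pow_one]; funext w; apply Subtype.ext; rw [hφ, hg]; rfl
  have h := Equiv.Perm.card_fixedPoints_modEq (p := r) (n := 1) hφr
  have hfp : Fintype.card (Function.fixedPoints φ) = 1 := by
    rw [Fintype.card_eq_one_iff]
    refine ⟨⟨0, ?_⟩, ?_⟩
    · show φ 0 = 0
      apply Subtype.ext
      show g ((0 : W) : V) = _
      simp
    · rintro ⟨w, hw⟩
      apply Subtype.ext
      have h1 : g w.1 = w.1 := congrArg Subtype.val hw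
      apply Subtype.ext
      exact hfix w.1 w.2 h1
  rw [hfp] at h
  rw [← Module.card_eq_pow_finrank (K := F) (V := W)]
  exact h

theorem exists_irred (g : V →ₗ[F] V) (M : Submodule F V) (hM : ∀ w ∈ M, g w ∈ M) :
    ∀ d : ℕ, ∀ P : F[X], P.natDegree ≤ d → P ≠ 0 → ∀ v ∈ M, v ≠ 0 → aeval g P v = 0 →
      ∃ P' : F[X], Irreducible P' ∧ P' ∣ P ∧ ∃ v' ∈ M, v' ≠ 0 ∧ aeval g P' v' = 0 := by
  have hunit : ∀ P : F[X], IsUnit P → ∀ v : V, v ≠ 0 → aeval g P v ≠ 0 := by
    intro P hu v hv0 h
    obtain ⟨a, ha, rfl⟩ := Polynomial.isUnit_iff.mp hu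
    rw [aeval_C, Module.algebraMap_end_apply] at h
    exact hv0 ((smul_eq_zero.mp h).resolve_left ha.ne_zero)
  intro d
  induction d with
  | zero =>
    intro P hP hP0 v hv hv0 h
    exfalso
    have h1 : P = C (P.coeff 0) := eq_C_of_natDegree_le_zero hP
    have h2 : P.coeff 0 ≠ 0 := by
      intro h3; rw [h3, C_0] at h1; exact hP0 h1
    apply hunit P _ v hv0 h
    rw [h1]; exact isUnit_C.mpr (isUnit_iff_ne_zero.mpr h2)
  | succ d ih =>
    intro P hP hP0 v hv hv0 h
    have hnu : ¬ IsUnit P := fun hu => hunit P hu v hv0 h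
    obtain ⟨P', hirr, hdvd⟩ := WfDvdMonoid.exists_irreducible_factor hnu hP0
    obtain ⟨H, rfl⟩ := hdvd
    by_cases hH : aeval g H v = 0
    · have hH0 : H ≠ 0 := right_ne_zero_of_mul hP0
      have hP'0 : P' ≠ 0 := hirr.ne_zero
      have hdeg : H.natDegree ≤ d := by
        have h1 := natDegree_mul hP'0 hH0
        have h2 := hirr.natDegree_pos
        omega
      obtain ⟨P'', h1, h2, h3⟩ := ih H hdeg hH0 v hv hv0 hH
      exact ⟨P'', h1, Dvd.dvd.mul_left h2 _, h3⟩
    · refine ⟨P', hirr, Dvd.intro _ rfl, aeval g H v, aeval_mem g M hM H v hv, hH, ?_⟩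
      rw [← Module.End.mul_apply, ← map_mul]; exact h

theorem cyclic_small (g : V →ₗ[F] V) (P : F[X]) (hP : P ≠ 0) (v : V)
    (hPv : aeval g P v = 0) :
    ∃ Z : Submodule F V, v ∈ Z ∧ (∀ w ∈ Z, g w ∈ Z) ∧ finrank F Z ≤ P.natDegree ∧
      ∀ M : Submodule F V, (∀ w ∈ M, g w ∈ M) → v ∈ M → Z ≤ M := by
  let ev : F[X] →ₗ[F] V := (LinearMap.applyₗ v).comp (aeval g).toLinearMap
  have hev : ∀ Q, ev Q = aeval g Q v := fun Q => rfl
  refine ⟨LinearMap.range ev, ⟨1, by simp [hev]⟩, ?_, ?_, ?_⟩
  · rintro w ⟨Q, rfl⟩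
    refine ⟨X * Q, ?_⟩
    rw [hev, hev, map_mul, aeval_X, Module.End.mul_apply]
  · have h1 : LinearMap.range ev ≤ Submodule.map ev (degreeLT F P.natDegree) := by
      rintro w ⟨Q, rfl⟩
      refine ⟨Q % P, ?_, ?_⟩
      · rw [SetLike.mem_coe, mem_degreeLT]
        calc (Q % P).degree < P.degree := degree_mod_lt Q hP
          _ = P.natDegree := degree_eq_natDegree hP
      · rw [hev, hev]
        have h2 : Q = (Q / P) * P + Q % P := by
          have := EuclideanDomain.div_add_mod Q P
          rw [mul_comm] at this; exact this.symm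
        conv_rhs => rw [h2]
        rw [map_add, map_mul, LinearMap.add_apply, Module.End.mul_apply, hPv, map_zero, zero_add]
    have : Module.Finite F (degreeLT F P.natDegree) :=
      Module.Finite.equiv (degreeLTEquiv F P.natDegree).symm
    have h3 : Module.Finite F (Submodule.map ev (degreeLT F P.natDegree)) :=
      Module.Finite.map _ _
    calc finrank F (LinearMap.range ev)
        ≤ finrank F (Submodule.map ev (degreeLT F P.natDegree)) := Submodule.finrank_mono h1
      _ ≤ finrank F (degreeLT F P.natDegree) := Submodule.finrank_map_le _ _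
      _ = P.natDegree := by
          rw [LinearEquiv.finrank_eq (degreeLTEquiv F P.natDegree)]; simp
  · rintro M hM hv w ⟨Q, rfl⟩
    exact aeval_mem g M hM Q v hv

theorem exists_small [Fintype F] (g : V →ₗ[F] V) (i : ℕ)
    (hgi : g ^ (Fintype.card F ^ i) = g) (hi : 0 < i)
    (M : Submodule F V) (hM : ∀ w ∈ M, g w ∈ M) (hne : M ≠ ⊥) :
    ∃ Z : Submodule F V, Z ≤ M ∧ (∀ w ∈ Z, g w ∈ Z) ∧ Z ≠ ⊥ ∧ finrank F Z ≤ i := by
  obtain ⟨v, hv, hv0⟩ := (Submodule.ne_bot_iff M).mp hne
  have hP0 : (X ^ (Fintype.card F ^ i) - X : F[X]) ≠ 0 :=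
    FiniteField.X_pow_card_pow_sub_X_ne_zero F hi.ne' Fintype.one_lt_card
  have hPv : aeval g (X ^ (Fintype.card F ^ i) - X : F[X]) v = 0 := by simp [hgi]
  obtain ⟨P', hirr, hdvd, v', hv', hv'0, hP'v⟩ :=
    exists_irred g M hM _ _ le_rfl hP0 v hv hv0 hPv
  obtain ⟨Z, hvZ, hZ, hZd, hZmin⟩ := cyclic_small g P' hirr.ne_zero v' hP'v
  refine ⟨Z, hZmin M hM hv', hZ, ?_, ?_⟩
  · intro h; rw [h, Submodule.mem_bot] at hvZ; exact hv'0 hvZ
  · have : P'.natDegree ∣ i := by
      apply hirr.natDegree_dvd_of_dvd_X_pow_card_pow_sub_X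
      rw [Nat.card_eq_fintype_card]; exact hdvd
    exact le_trans hZd (Nat.le_of_dvd hi this)

/-- fixed space -/
def Cg (g : V →ₗ[F] V) : Submodule F V := LinearMap.ker (g - 1)

/-- kernel of the norm `1 + g + ... + g^(r-1)` -/
def Dg (g : V →ₗ[F] V) (r : ℕ) : Submodule F V := LinearMap.ker (∑ j ∈ Finset.range r, g ^ j)

theorem mem_Cg (g : V →ₗ[F] V) (v : V) : v ∈ Cg g ↔ g v = v := by
  simp [Cg, sub_eq_zero]

theorem Dg_inv (g : V →ₗ[F] V) (r : ℕ) : ∀ w ∈ Dg g r, g w ∈ Dg g r := by
  intro w hw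
  simp only [Dg, LinearMap.mem_ker] at hw ⊢
  have : (∑ j ∈ Finset.range r, g ^ j) * g = g * (∑ j ∈ Finset.range r, g ^ j) := by
    rw [Finset.sum_mul, Finset.mul_sum]
    apply Finset.sum_congr rfl; intro j _; rw [← pow_succ, ← pow_succ']
  rw [← Module.End.mul_apply, this, Module.End.mul_apply, hw, map_zero]

theorem pow_fix (g : V →ₗ[F] V) (v : V) (hv : g v = v) (j : ℕ) : (g ^ j) v = v := by
  induction j with
  | zero => simp
  | succ j ih => rw [pow_succ, Module.End.mul_apply, hv, ih]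

theorem phi_fix (g : V →ₗ[F] V) (r : ℕ) (v : V) (hv : g v = v) :
    (∑ j ∈ Finset.range r, g ^ j) v = (r : F) • v := by
  rw [LinearMap.sum_apply]
  simp only [pow_fix g v hv]
  rw [Finset.sum_const, Finset.card_range, Nat.cast_smul_eq_nsmul]

theorem phi_mem_Cg (g : V →ₗ[F] V) (r : ℕ) (hg : g ^ r = 1) (v : V) :
    (∑ j ∈ Finset.range r, g ^ j) v ∈ Cg g := by
  rw [mem_Cg, ← Module.End.mul_apply]
  have : (g - 1) * ∑ j ∈ Finset.range r, g ^ j = 0 := by rw [mul_geom_sum, hg, sub_self]
  have h2 : g * ∑ j ∈ Finset.range r, g ^ j = ∑ j ∈ Finset.range r, g ^ j := by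
    rw [sub_mul, one_mul, sub_eq_zero] at this; exact this
  rw [h2]

theorem CD_disj (g : V →ₗ[F] V) (r : ℕ) (hr : (r : F) ≠ 0) : Cg g ⊓ Dg g r = ⊥ := by
  rw [eq_bot_iff]
  intro v hv
  obtain ⟨h1, h2⟩ := Submodule.mem_inf.mp hv
  rw [mem_Cg] at h1
  simp only [Dg, LinearMap.mem_ker] at h2
  rw [phi_fix g r v h1] at h2
  rw [Submodule.mem_bot]
  exact (smul_eq_zero.mp h2).resolve_left hr

theorem split (g : V →ₗ[F] V) (r : ℕ) (hr : (r : F) ≠ 0) (hg : g ^ r = 1)
    (W : Submodule F V) (hW : ∀ w ∈ W, g w ∈ W) : W = (W ⊓ Cg g) ⊔ (W ⊓ Dg g r) := by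
  apply le_antisymm
  · intro w hw
    set u := (∑ j ∈ Finset.range r, g ^ j) w with hu
    have huW : u ∈ W := by
      rw [hu, LinearMap.sum_apply]
      apply Submodule.sum_mem
      intro j _
      have := aeval_mem g W hW (X ^ j) w hw
      simpa using this
    have huC : u ∈ Cg g := phi_mem_Cg g r hg w
    have hw2 : w = (r : F)⁻¹ • u + (w - (r : F)⁻¹ • u) := by abel
    rw [hw2]
    apply Submodule.add_mem
    · exact Submodule.mem_sup_left ⟨W.smul_mem _ huW, (Cg g).smul_mem _ huC⟩
    · refine Submodule.mem_sup_right ⟨W.sub_mem hw (W.smul_mem _ huW), ?_⟩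
      show (∑ j ∈ Finset.range r, g ^ j) (w - (r : F)⁻¹ • u) = 0
      rw [map_sub, map_smul, phi_fix g r u ((mem_Cg g u).mp huC), smul_smul,
        inv_mul_cancel₀ hr, one_smul, ← hu, sub_self]
  · exact sup_le inf_le_left inf_le_left

theorem split_finrank [FiniteDimensional F V] (g : V →ₗ[F] V) (r : ℕ) (hr : (r : F) ≠ 0)
    (hg : g ^ r = 1) (W : Submodule F V) (hW : ∀ w ∈ W, g w ∈ W) :
    finrank F W = finrank F ↥(W ⊓ Cg g) + finrank F ↥(W ⊓ Dg g r) := by
  have h1 := Submodule.finrank_sup_add_finrank_inf_eq (W ⊓ Cg g) (W ⊓ Dg g r)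
  have h2 : (W ⊓ Cg g) ⊓ (W ⊓ Dg g r) = ⊥ := by
    rw [eq_bot_iff, ← CD_disj g r hr]
    exact le_inf (inf_le_left.trans inf_le_right) (inf_le_right.trans inf_le_right)
  rw [h2, finrank_bot, ← split g r hr hg W hW] at h1
  omega

theorem D_dvd [Fintype F] [FiniteDimensional F V] (g : V →ₗ[F] V) (r : ℕ) [Fact r.Prime]
    (hr : (r : F) ≠ 0) (hg : g ^ r = 1)
    (W : Submodule F V) (hW : ∀ w ∈ W, g w ∈ W) (hWD : W ≤ Dg g r) :
    orderOf (Fintype.card F : ZMod r) ∣ finrank F W := by
  have h := card_modEq g r hg W hW (fun w hw hfix => by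
    have : w ∈ Cg g ⊓ Dg g r := ⟨(mem_Cg g w).mpr hfix, hWD hw⟩
    rw [CD_disj g r hr] at this; exact (Submodule.mem_bot F).mp this)
  apply orderOf_dvd_of_pow_eq_one
  have := (ZMod.natCast_eq_natCast_iff _ _ _).mpr h
  push_cast at this
  exact this

theorem pow_card_pow_eq [Fintype F] (g : V →ₗ[F] V) (r : ℕ) (hg : g ^ r = 1) :
    g ^ (Fintype.card F ^ orderOf (Fintype.card F : ZMod r)) = g := by
  have h1 : (Fintype.card F : ZMod r) ^ orderOf (Fintype.card F : ZMod r) = 1 :=
    pow_orderOf_eq_one _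
  have h2 : Fintype.card F ^ orderOf (Fintype.card F : ZMod r) ≡ 1 [MOD r] := by
    rw [← ZMod.natCast_eq_natCast_iff]; push_cast; exact h1
  have hpos : 1 ≤ Fintype.card F ^ orderOf (Fintype.card F : ZMod r) :=
    Nat.one_le_pow _ _ Fintype.card_pos
  have h3 : r ∣ Fintype.card F ^ orderOf (Fintype.card F : ZMod r) - 1 :=
    (Nat.modEq_iff_dvd' hpos).mp h2.symm
  obtain ⟨s, hs⟩ := h3
  have h4 : Fintype.card F ^ orderOf (Fintype.card F : ZMod r) = r * s + 1 := by omega
  rw [h4, pow_succ, pow_mul, hg, one_pow, one_mul]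

theorem chain [Fintype F] [FiniteDimensional F V] (g : V →ₗ[F] V) (r : ℕ) [Fact r.Prime]
    (hr : (r : F) ≠ 0) (hg : g ^ r = 1)
    (hi0 : 0 < orderOf (Fintype.card F : ZMod r)) :
    ∀ t, orderOf (Fintype.card F : ZMod r) * t ≤ finrank F (Dg g r) →
      ∃ W : Submodule F V, W ≤ Dg g r ∧ (∀ w ∈ W, g w ∈ W) ∧
        finrank F W = orderOf (Fintype.card F : ZMod r) * t := by
  have hss : Module.End.IsSemisimple g := by
    apply Module.End.isSemisimple_of_squarefree_aeval_eq_zero (p := X ^ r - C 1)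
    · exact (separable_X_pow_sub_C (1 : F) hr one_ne_zero).squarefree
    · simp [hg]
  have hgi := pow_card_pow_eq g r hg
  intro t
  induction t with
  | zero =>
    intro _
    exact ⟨⊥, bot_le, fun w hw => by
      rw [Submodule.mem_bot] at hw; rw [hw, map_zero]; exact Submodule.zero_mem _, by simp⟩
  | succ t ih =>
    intro ht
    rw [Nat.mul_succ] at ht
    obtain ⟨W, hWD, hW, hWd⟩ := ih (by omega)
    obtain ⟨Q, hQ, hcompl⟩ := (Module.End.isSemisimple_iff.mp hss) W
      ((Module.End.mem_invtSubmodule_iff_forall_mem_of_mem g).mpr hW)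
    have hQ' : ∀ w ∈ Q, g w ∈ Q := (Module.End.mem_invtSubmodule_iff_forall_mem_of_mem g).mp hQ
    have hM : ∀ w ∈ Q ⊓ Dg g r, g w ∈ Q ⊓ Dg g r :=
      fun w hw => ⟨hQ' w hw.1, Dg_inv g r w hw.2⟩
    have hMne : Q ⊓ Dg g r ≠ ⊥ := by
      intro h
      have h1 : Dg g r = W := by
        have h2 : (W ⊔ Q) ⊓ Dg g r = W ⊔ Q ⊓ Dg g r := sup_inf_assoc_of_le Q hWD
        rw [hcompl.sup_eq_top, top_inf_eq, h, sup_bot_eq] at h2
        exact h2
      rw [h1, hWd] at ht; omega
    obtain ⟨Z, hZM, hZ, hZne, hZd⟩ := exists_small g _ hgi hi0 (Q ⊓ Dg g r) hM hMne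
    have hZD : Z ≤ Dg g r := hZM.trans inf_le_right
    have hZdvd := D_dvd g r hr hg Z hZ hZD
    have hZpos : 0 < finrank F Z :=
      Nat.pos_of_ne_zero (fun h => hZne (Submodule.finrank_eq_zero.mp h))
    have hZi : finrank F Z = orderOf (Fintype.card F : ZMod r) :=
      le_antisymm hZd (Nat.le_of_dvd hZpos hZdvd)
    refine ⟨W ⊔ Z, sup_le hWD hZD, ?_, ?_⟩
    · intro w hw
      obtain ⟨a, ha, b, hb, rfl⟩ := Submodule.mem_sup.mp hw
      rw [map_add]
      exact Submodule.add_mem _ (Submodule.mem_sup_left (hW a ha))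
        (Submodule.mem_sup_right (hZ b hb))
    · have h1 := Submodule.finrank_sup_add_finrank_inf_eq W Z
      have h2 : W ⊓ Z = ⊥ := by
        rw [eq_bot_iff, ← hcompl.inf_eq_bot]
        exact inf_le_inf_left W (hZM.trans inf_le_left)
      rw [h2, finrank_bot, hWd, hZi] at h1
      omega

theorem exists_inv_dim [Fintype F] [FiniteDimensional F V] (g : V →ₗ[F] V) (r : ℕ)
    [Fact r.Prime] (hr : (r : F) ≠ 0) (hg : g ^ r = 1)
    (hi0 : 0 < orderOf (Fintype.card F : ZMod r)) (m : ℕ) (hm : m ≤ finrank F V)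
    (hmod : m % orderOf (Fintype.card F : ZMod r) ≤
      finrank F V % orderOf (Fintype.card F : ZMod r)) :
    ∃ W : Submodule F V, finrank F W = m ∧ ∀ w ∈ W, g w ∈ W := by
  set i := orderOf (Fintype.card F : ZMod r) with hi
  have hsplit := split_finrank g r hr hg ⊤ (fun _ _ => Submodule.mem_top)
  rw [finrank_top, top_inf_eq, top_inf_eq] at hsplit
  obtain ⟨d, hd⟩ := D_dvd g r hr hg (Dg g r) (Dg_inv g r) le_rfl
  rw [← hi] at hd
  have ht1 : i * min (m / i) d ≤ finrank F (Dg g r) := by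
    rw [hd]; exact Nat.mul_le_mul_left _ (min_le_right _ _)
  obtain ⟨W, hWD, hW, hWd⟩ := chain g r hr hg hi0 (min (m / i) d) ht1
  rw [← hi] at hWd
  have hit : i * min (m / i) d ≤ m :=
    calc i * min (m / i) d ≤ i * (m / i) := Nat.mul_le_mul_left _ (min_le_left _ _)
      _ ≤ m := Nat.mul_div_le m i
  have hℓ : m - i * min (m / i) d ≤ finrank F (Cg g) := by
    rcases le_total (m / i) d with h | h
    · rw [min_eq_left h]
      have h1 : m - i * (m / i) = m % i := by have := Nat.div_add_mod m i; omega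
      have h2 : finrank F V % i ≤ finrank F (Cg g) := by
        rw [hsplit, hd, Nat.add_mul_mod_self_left]; exact Nat.mod_le _ _
      omega
    · rw [min_eq_right h]; omega
  obtain ⟨C', hC'le, hC'd⟩ := exists_sub_le (Cg g) (m - i * min (m / i) d) hℓ
  refine ⟨W ⊔ C', ?_, ?_⟩
  · have h1 := Submodule.finrank_sup_add_finrank_inf_eq W C'
    have h2 : W ⊓ C' = ⊥ := by
      rw [eq_bot_iff, ← CD_disj g r hr, inf_comm]; exact inf_le_inf hC'le hWD
    rw [h2, finrank_bot, hWd, hC'd] at h1
    omega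
  · intro w hw
    obtain ⟨a, ha, b, hb, rfl⟩ := Submodule.mem_sup.mp hw
    rw [map_add]
    have : g b = b := (mem_Cg g b).mp (hC'le hb)
    rw [this]
    exact Submodule.add_mem _ (Submodule.mem_sup_left (hW a ha)) (Submodule.mem_sup_right hb)

/-- in an invariant subspace, the residue of the dimension is the dimension of the fixed part -/
theorem inv_mod_le [Fintype F] [FiniteDimensional F V] (g : V →ₗ[F] V) (r : ℕ)
    [Fact r.Prime] (hr : (r : F) ≠ 0) (hg : g ^ r = 1) (a : ℕ)
    (ha : finrank F (Cg g) ≤ a)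
    (W : Submodule F V) (hW : ∀ w ∈ W, g w ∈ W) :
    finrank F W % orderOf (Fintype.card F : ZMod r) ≤ a := by
  have h1 := split_finrank g r hr hg W hW
  obtain ⟨d, hd⟩ := D_dvd g r hr hg (W ⊓ Dg g r)
    (fun w hw => ⟨hW w hw.1, Dg_inv g r w hw.2⟩) inf_le_right
  have h2 : finrank F ↥(W ⊓ Cg g) ≤ finrank F (Cg g) := Submodule.finrank_mono inf_le_right
  rw [h1, hd, Nat.add_mul_mod_self_left]
  exact (Nat.mod_le _ _).trans (h2.trans ha)

end semis

section transport

variable {F : Type*} [Field F]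

theorem transport {V : Type*} [AddCommGroup V] [Module F V] [FiniteDimensional F V]
    (n m r : ℕ) (hV : finrank F V = n) (f : V →ₗ[F] V) (c : F)
    (hf : f ^ r = c • (1 : Module.End F V)) (hdet : LinearMap.det f = 1)
    (hno : ∀ W : Submodule F V, finrank F W = m → ¬ (∀ w ∈ W, f w ∈ W)) (hmn : m ≤ n) :
    ∃ x : Matrix.SpecialLinearGroup (Fin n) F,
      (∃ c : F, ((x ^ r : Matrix.SpecialLinearGroup (Fin n) F) : Matrix (Fin n) (Fin n) F) =
        c • (1 : Matrix (Fin n) (Fin n) F)) ∧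
      (∀ c : F, (x : Matrix (Fin n) (Fin n) F) ≠ c • (1 : Matrix (Fin n) (Fin n) F)) ∧
      ∀ W : Submodule F (Fin n → F), finrank F W = m →
        ¬ W.map (Matrix.toLin' (x : Matrix (Fin n) (Fin n) F)) ≤ W := by
  classical
  have e : (Fin n → F) ≃ₗ[F] V := LinearEquiv.ofFinrankEq _ _ (by rw [hV]; simp)
  let f' : Module.End F (Fin n → F) :=
    (e.symm : V →ₗ[F] (Fin n → F)) ∘ₗ f ∘ₗ (e.symm.symm : (Fin n → F) →ₗ[F] V)
  have hf'app : ∀ v, f' v = e.symm (f (e v)) := fun v => rfl
  have hf'k : ∀ k v, (f' ^ k) v = e.symm ((f ^ k) (e v)) := by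
    intro k
    induction k with
    | zero => intro v; simp
    | succ k ih =>
      intro v
      rw [pow_succ', Module.End.mul_apply, hf'app, ih, LinearEquiv.apply_symm_apply, pow_succ',
        Module.End.mul_apply]
  have hf'pow : f' ^ r = c • (1 : Module.End F (Fin n → F)) := by
    apply LinearMap.ext
    intro v
    rw [hf'k, hf]; simp
  have hdet' : LinearMap.det f' = 1 := by
    rw [← hdet]; exact LinearMap.det_conj f e.symm
  let A : Matrix (Fin n) (Fin n) F := LinearMap.toMatrix' f'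
  have hAdet : A.det = 1 := by rw [LinearMap.det_toMatrix', hdet']
  have hApow : A ^ r = c • (1 : Matrix (Fin n) (Fin n) F) := by
    have := congrArg (LinearMap.toMatrixAlgEquiv' (R := F) (n := Fin n)) hf'pow
    rw [map_pow, map_smul, map_one] at this
    exact this
  have hlin : Matrix.toLin' A = f' := Matrix.toLin'_toMatrix' f'
  have h3 : ∀ W : Submodule F (Fin n → F), finrank F W = m →
      ¬ W.map (Matrix.toLin' A) ≤ W := by
    intro W hWd hW
    apply hno (W.map e.toLinearMap) (by rw [LinearEquiv.finrank_map_eq]; exact hWd)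
    rintro w ⟨u, hu, rfl⟩
    refine ⟨f' u, hW ⟨u, hu, by rw [hlin]⟩, ?_⟩
    rw [hf'app]; simp
  let x : Matrix.SpecialLinearGroup (Fin n) F := ⟨A, hAdet⟩
  refine ⟨x, ⟨c, ?_⟩, ?_, h3⟩
  · rw [Matrix.SpecialLinearGroup.coe_pow]; exact hApow
  · intro c' hc'
    obtain ⟨W₀, _, hW₀⟩ := exists_sub_le (⊤ : Submodule F (Fin n → F)) m
      (by rw [finrank_top]; simpa using hmn)
    apply h3 W₀ hW₀
    rintro _ ⟨w, hw, rfl⟩
    have hA : A = c' • 1 := hc'
    rw [hA]
    simp only [map_smul, Matrix.toLin'_one, LinearMap.smul_apply, LinearMap.id_coe, id_eq]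
    exact W₀.smul_mem _ hw

theorem derange_irred (n m r k : ℕ) (hr : r ≠ 0) (c : F)
    (hirr : Irreducible (X ^ r - C c : F[X])) (hn : n = r * k)
    (hdet : (-1 : F) ^ n * (-c) ^ k = 1) (hrm : ¬ r ∣ m) (hmn : m ≤ n) :
    ∃ x : Matrix.SpecialLinearGroup (Fin n) F,
      (∃ c : F, ((x ^ r : Matrix.SpecialLinearGroup (Fin n) F) : Matrix (Fin n) (Fin n) F) =
        c • (1 : Matrix (Fin n) (Fin n) F)) ∧
      (∀ c : F, (x : Matrix (Fin n) (Fin n) F) ≠ c • (1 : Matrix (Fin n) (Fin n) F)) ∧
      ∀ W : Submodule F (Fin n → F), finrank F W = m →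
        ¬ W.map (Matrix.toLin' (x : Matrix (Fin n) (Fin n) F)) ≤ W := by
  classical
  have hne : (X ^ r - C c : F[X]) ≠ 0 := hirr.ne_zero
  have : Module.Finite F (AdjoinRoot (X ^ r - C c : F[X])) :=
    PowerBasis.finite (AdjoinRoot.powerBasis hne)
  have hKd : finrank F (AdjoinRoot (X ^ r - C c : F[X])) = r := by
    rw [PowerBasis.finrank (AdjoinRoot.powerBasis hne), AdjoinRoot.powerBasis_dim,
      natDegree_X_pow_sub_C]
  let μ : AdjoinRoot (X ^ r - C c : F[X]) →ₗ[F] AdjoinRoot (X ^ r - C c : F[X]) :=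
    LinearMap.mulLeft F (AdjoinRoot.root (X ^ r - C c : F[X]))
  let f : (Fin k → AdjoinRoot (X ^ r - C c : F[X])) →ₗ[F]
      (Fin k → AdjoinRoot (X ^ r - C c : F[X])) := μ.compLeft (Fin k)
  have hroot : (AdjoinRoot.root (X ^ r - C c : F[X])) ^ r =
      algebraMap F (AdjoinRoot (X ^ r - C c : F[X])) c := by
    have := AdjoinRoot.eval₂_root (X ^ r - C c : F[X])
    rw [eval₂_sub, eval₂_pow, eval₂_X, eval₂_C, sub_eq_zero] at this
    rw [this, AdjoinRoot.algebraMap_eq]
  have hfk : ∀ s (v : Fin k → AdjoinRoot (X ^ r - C c : F[X])) (j : Fin k),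
      (f ^ s) v j = (AdjoinRoot.root (X ^ r - C c : F[X])) ^ s * v j := by
    intro s
    induction s with
    | zero => intro v j; simp
    | succ s ih =>
      intro v j
      rw [pow_succ', Module.End.mul_apply]
      show AdjoinRoot.root _ * (f ^ s) v j = _
      rw [ih, pow_succ', mul_assoc]
  have hfr : f ^ r = c • (1 : Module.End F (Fin k → AdjoinRoot (X ^ r - C c : F[X]))) := by
    apply LinearMap.ext; intro v; funext j
    rw [hfk, hroot]
    simp [Algebra.smul_def]
  have hV : finrank F (Fin k → AdjoinRoot (X ^ r - C c : F[X])) = n := by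
    rw [Module.finrank_pi_fintype]
    simp only [hKd, Finset.sum_const, Finset.card_univ, Fintype.card_fin, smul_eq_mul]
    rw [hn, mul_comm]
  have hdetf : LinearMap.det f = 1 := by
    obtain ⟨k', hk1, hk2⟩ := lin_charpoly f r hr c hirr hfr
    rw [hV] at hk1 hk2
    have hkk : k' = k := by
      have h1 : r * k' = r * k := by rw [← hk1, hn]
      exact Nat.eq_of_mul_eq_mul_left (Nat.pos_of_ne_zero hr) h1
    rw [hk2, hkk]; exact hdet
  apply transport n m r hV f c hfr hdetf _ hmn
  intro W hWd hW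
  apply hrm
  rw [← hWd]
  exact inv_dvd f r hr c hirr hfr W hW

theorem derange_semis [Fintype F] (n m r : ℕ) [Fact r.Prime] (hrF : (r : F) ≠ 0)
    (hcop : Nat.Coprime r (Fintype.card F - 1))
    (hi0 : 0 < orderOf (Fintype.card F : ZMod r))
    (hmod : n % orderOf (Fintype.card F : ZMod r) < m % orderOf (Fintype.card F : ZMod r))
    (hmn : m ≤ n) :
    ∃ x : Matrix.SpecialLinearGroup (Fin n) F,
      (∃ c : F, ((x ^ r : Matrix.SpecialLinearGroup (Fin n) F) : Matrix (Fin n) (Fin n) F) =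
        c • (1 : Matrix (Fin n) (Fin n) F)) ∧
      (∀ c : F, (x : Matrix (Fin n) (Fin n) F) ≠ c • (1 : Matrix (Fin n) (Fin n) F)) ∧
      ∀ W : Submodule F (Fin n → F), finrank F W = m →
        ¬ W.map (Matrix.toLin' (x : Matrix (Fin n) (Fin n) F)) ≤ W := by
  classical
  have hrp := (Fact.out : r.Prime)
  have : NeZero r := ⟨hrp.ne_zero⟩
  let σ : (ZMod r → F) →ₗ[F] (ZMod r → F) := LinearMap.funLeft F F (fun t : ZMod r => t + 1)
  have hσk : ∀ (k : ℕ) (v : ZMod r → F) (t : ZMod r), (σ ^ k) v t = v (t + (k : ZMod r)) := by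
    intro k
    induction k with
    | zero => intro v t; simp
    | succ k ih =>
      intro v t
      rw [pow_succ, Module.End.mul_apply, ih]
      show v (t + (k : ZMod r) + 1) = _
      push_cast; rw [add_assoc]
  have hσr : σ ^ r = 1 := by
    apply LinearMap.ext; intro v; funext t
    rw [hσk]; simp
  have hC1 : finrank F (Cg σ) ≤ 1 := by
    have hne1 : (fun _ => 1 : ZMod r → F) ≠ 0 := fun h => one_ne_zero (congrFun h 0)
    have hle : Cg σ ≤ Submodule.span F {(fun _ => 1 : ZMod r → F)} := by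
      intro v hv
      rw [mem_Cg] at hv
      have h1 : ∀ t : ZMod r, v (t + 1) = v t := fun t => congrFun hv t
      have h2 : ∀ k : ℕ, v (k : ZMod r) = v 0 := by
        intro k
        induction k with
        | zero => simp
        | succ k ih => rw [Nat.cast_succ, h1, ih]
      rw [Submodule.mem_span_singleton]
      refine ⟨v 0, ?_⟩
      funext t
      have h3 := h2 t.val
      rw [ZMod.natCast_zmod_val] at h3
      simp [h3]
    exact (Submodule.finrank_mono hle).trans (finrank_span_singleton hne1).le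
  have hVr : finrank F (ZMod r → F) = r := by simp [ZMod.card]
  have hsplit := split_finrank σ r hrF hσr ⊤ (fun _ _ => Submodule.mem_top)
  rw [finrank_top, top_inf_eq, top_inf_eq, hVr] at hsplit
  have hDne : Dg σ r ≠ ⊥ := by
    intro h
    rw [h, finrank_bot] at hsplit
    have := hrp.two_le; omega
  obtain ⟨Z, hZD, hZ, hZne, hZd⟩ :=
    exists_small σ _ (pow_card_pow_eq σ r hσr) hi0 (Dg σ r) (Dg_inv σ r) hDne
  have hZi : finrank F Z = orderOf (Fintype.card F : ZMod r) := by
    have hdvd := D_dvd σ r hrF hσr Z hZ hZD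
    have hpos : 0 < finrank F Z :=
      Nat.pos_of_ne_zero (fun h => hZne (Submodule.finrank_eq_zero.mp h))
    exact le_antisymm hZd (Nat.le_of_dvd hpos hdvd)
  let s : Z →ₗ[F] Z := σ.restrict hZ
  have hsr : s ^ r = 1 := by
    show (σ.restrict hZ) ^ r = 1
    rw [Module.End.pow_restrict]
    apply LinearMap.ext; intro z; apply Subtype.ext
    simp [LinearMap.restrict_apply, hσr]
  have hsfix : ∀ z : Z, s z = z → z = 0 := by
    intro z hz
    have h1 : σ z.1 = z.1 := congrArg Subtype.val hz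
    have h2 : z.1 ∈ Cg σ ⊓ Dg σ r := ⟨(mem_Cg σ z.1).mpr h1, hZD z.2⟩
    rw [CD_disj σ r hrF] at h2
    exact Subtype.ext ((Submodule.mem_bot F).mp h2)
  set i := orderOf (Fintype.card F : ZMod r) with hi
  let g' : ((Fin (n / i) → Z) × (Fin (n % i) → F)) →ₗ[F]
      ((Fin (n / i) → Z) × (Fin (n % i) → F)) :=
    (s.compLeft (Fin (n / i))).prodMap LinearMap.id
  have hg'k : ∀ k (u : Fin (n / i) → Z) (w : Fin (n % i) → F),
      (g' ^ k) (u, w) = (fun j => (s ^ k) (u j), w) := by
    intro k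
    induction k with
    | zero => intro u w; simp
    | succ k ih =>
      intro u w
      rw [pow_succ', Module.End.mul_apply, ih]
      show (fun j => s ((s ^ k) (u j)), w) = _
      simp [pow_succ', Module.End.mul_apply]
  have hg'r : g' ^ r = 1 := by
    apply LinearMap.ext
    rintro ⟨u, w⟩
    rw [hg'k, hsr]; rfl
  have hV' : finrank F ((Fin (n / i) → Z) × (Fin (n % i) → F)) = n := by
    rw [Module.finrank_prod, Module.finrank_pi_fintype, Module.finrank_fin_fun]
    simp only [hZi, Finset.sum_const, Finset.card_univ, Fintype.card_fin, smul_eq_mul]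
    exact Nat.div_add_mod' n i
  have hC' : finrank F (Cg g') ≤ n % i := by
    let π : Cg g' →ₗ[F] (Fin (n % i) → F) := (LinearMap.snd F _ _).comp (Cg g').subtype
    have hinj : Function.Injective π := by
      rw [injective_iff_map_eq_zero]
      rintro ⟨⟨u, w⟩, huw⟩ hπ
      have hw : w = 0 := hπ
      rw [mem_Cg] at huw
      have h1 : (fun j => s (u j), w) = (u, w) := huw
      have h2 : ∀ j, u j = 0 := fun j => hsfix (u j) (congrFun (Prod.ext_iff.mp h1).1 j)
      apply Subtype.ext
      exact Prod.ext (funext h2) hw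
    have := LinearMap.finrank_le_finrank_of_injective hinj
    simpa using this
  have hdet : LinearMap.det g' = 1 := by
    have h1 : (LinearMap.det g') ^ r = 1 := by rw [← map_pow, hg'r, map_one]
    have h0 : LinearMap.det g' ≠ 0 := by
      intro h; rw [h, zero_pow hrp.ne_zero] at h1; exact zero_ne_one h1
    have h2 : (LinearMap.det g') ^ (Fintype.card F - 1) = 1 :=
      FiniteField.pow_card_sub_one_eq_one _ h0
    have h3 := pow_gcd_eq_one.mpr ⟨h1, h2⟩
    rw [Nat.Coprime.gcd_eq_one hcop, pow_one] at h3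
    exact h3
  apply transport n m r hV' g' 1 (by rw [one_smul]; exact hg'r) hdet _ hmn
  intro W hWd hW
  have := inv_mod_le g' r hrF hg'r (n % i) hC' W hW
  rw [hWd, ← hi] at this
  omega

end transport

section nt

variable {F : Type*} [Field F] [Fintype F]

theorem exists_gen :
    ∃ g : Fˣ, orderOf g = Fintype.card F - 1 ∧ ∀ u : Fˣ, ∃ t : ℕ, g ^ t = u := by
  obtain ⟨g, hg⟩ := IsCyclic.exists_monoid_generator (α := Fˣ)
  refine ⟨g, ?_, fun u => ?_⟩
  · rw [orderOf_eq_card_of_forall_mem_powers hg, Nat.card_units, Nat.card_eq_fintype_card]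
  · obtain ⟨t, ht⟩ := (Submonoid.mem_powers_iff _ _).mp (hg u); exact ⟨t, ht⟩

theorem order_one_iff (q r : ℕ) (hq : 1 ≤ q) : orderOf (q : ZMod r) = 1 ↔ r ∣ q - 1 := by
  rw [orderOf_eq_one_iff]
  have : ((q : ZMod r) = 1) ↔ ((1 : ℕ) : ZMod r) = (q : ZMod r) := by
    rw [Nat.cast_one]; exact eq_comm
  rw [this, ZMod.natCast_eq_natCast_iff, Nat.modEq_iff_dvd' hq]

theorem order_pos (q r : ℕ) [Fact r.Prime] (h : Nat.Coprime q r) :
    0 < orderOf (q : ZMod r) := by
  have : NeZero r := ⟨(Fact.out : r.Prime).ne_zero⟩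
  rw [← ZMod.coe_unitOfCoprime q h, orderOf_units]
  exact orderOf_pos _

theorem exists_root_of_coprime (r : ℕ) (hcop : Nat.Coprime r (Fintype.card F - 1)) (c : F)
    (hc : c ≠ 0) : ∃ b : F, b ≠ 0 ∧ b ^ r = c := by
  have h : (Nat.card Fˣ).Coprime r := by
    rw [Nat.card_units, Nat.card_eq_fintype_card]; exact hcop.symm
  obtain ⟨b, hb⟩ := (powCoprime h).surjective (Units.mk0 c hc)
  refine ⟨(b : F), b.ne_zero, ?_⟩
  have := congrArg Units.val hb
  simpa using this

theorem nt_no (r : ℕ) [Fact r.Prime] (n k : ℕ) (c : F) (hc : ∀ b : F, b ^ r ≠ c)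
    (hn : n = r * k) (hn0 : n ≠ 0)
    (hdet : (-1 : F) ^ n * (-c) ^ k = 1)
    (hv : padicValNat r n ≤ padicValNat r (Fintype.card F - 1))
    (h4 : r = 2 → Even n → Fintype.card F % 4 = 1) : False := by
  have hrp := (Fact.out : r.Prime)
  have hq1 : Fintype.card F - 1 ≠ 0 := by have := Fintype.one_lt_card (α := F); omega
  obtain ⟨d, hd⟩ : ∃ d : F, d = (-1) ^ (r + 1) * c := ⟨_, rfl⟩
  have hdk : d ^ k = 1 := by
    rw [← hdet, hn, hd]; ring
  have hd0 : d ≠ 0 := by
    intro h; rw [h] at hdk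
    have hk0 : k ≠ 0 := by rintro rfl; simp at hn; exact hn0 hn
    rw [zero_pow hk0] at hdk; exact zero_ne_one hdk
  obtain ⟨g, hg, hgen⟩ := exists_gen (F := F)
  obtain ⟨t, ht⟩ := hgen (Units.mk0 d hd0)
  have h1 : (Fintype.card F - 1) ∣ t * k := by
    rw [← hg]; apply orderOf_dvd_of_pow_eq_one
    rw [pow_mul, ht]; apply Units.ext; simpa using hdk
  have h2 : r ∣ t := by
    by_contra hnt
    have hcop : Nat.Coprime (r ^ padicValNat r (Fintype.card F - 1)) t :=
      Nat.Coprime.pow_left _ ((Nat.Prime.coprime_iff_not_dvd hrp).mpr hnt)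
    have h3 : r ^ padicValNat r (Fintype.card F - 1) ∣ k :=
      hcop.dvd_of_dvd_mul_left (dvd_trans pow_padicValNat_dvd h1)
    have h5 : r ^ (padicValNat r (Fintype.card F - 1) + 1) ∣ n := by
      rw [hn, pow_succ']; exact Nat.mul_dvd_mul_left r h3
    have := (padicValNat_dvd_iff_le hn0).mp h5
    omega
  obtain ⟨t', rfl⟩ := h2
  have hb : ((g ^ t' : Fˣ) : F) ^ r = d := by
    have h6 := congrArg Units.val ht
    rw [mul_comm, pow_mul] at h6
    simpa using h6
  by_cases hr2 : r = 2
  · subst hr2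
    have hev : Even n := ⟨k, by rw [hn]; ring⟩
    have hq4 := h4 rfl hev
    obtain ⟨ε, hε⟩ := (FiniteField.isSquare_neg_one_iff (F := F)).mpr (by omega)
    apply hc (ε * ((g ^ t' : Fˣ) : F))
    rw [mul_pow, hb, hd, sq, ← hε]; ring
  · have hodd : Even (r + 1) := by
      rcases hrp.eq_two_or_odd' with h | h
      · exact absurd h hr2
      · exact h.add_one
    apply hc ((g ^ t' : Fˣ) : F)
    rw [hb, hd, hodd.neg_one_pow, one_mul]

theorem nt_exists (r : ℕ) [Fact r.Prime] (n : ℕ) (hn0 : n ≠ 0)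
    (hrq : r ∣ Fintype.card F - 1)
    (hfail : ¬ (padicValNat r n ≤ padicValNat r (Fintype.card F - 1) ∧
      (r = 2 → Even n → Fintype.card F % 4 = 1))) :
    ∃ (c : F) (k : ℕ), (∀ b : F, b ^ r ≠ c) ∧ n = r * k ∧ (-1 : F) ^ n * (-c) ^ k = 1 := by
  have hrp := (Fact.out : r.Prime)
  have hq2 := Fintype.one_lt_card (α := F)
  have hq1 : Fintype.card F - 1 ≠ 0 := by omega
  by_cases hβ : r = 2 ∧ Even n ∧ Fintype.card F % 4 ≠ 1
  · obtain ⟨rfl, hev, h4⟩ := hβ
    obtain ⟨k, hk⟩ := hev
    refine ⟨-1, k, ?_, by omega, ?_⟩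
    · intro b hb
      have h3 : Fintype.card F % 4 = 3 := by
        obtain ⟨w, hw⟩ := hrq
        omega
      have := (FiniteField.isSquare_neg_one_iff (F := F)).mp ⟨b, by rw [← hb]; ring⟩
      exact this h3
    · rw [neg_neg, one_pow, mul_one, Even.neg_one_pow ⟨k, hk⟩]
  · obtain ⟨e, he⟩ : ∃ e, e = padicValNat r (Fintype.card F - 1) := ⟨_, rfl⟩
    rw [← he] at hfail
    have hv : e + 1 ≤ padicValNat r n := by
      by_contra h
      apply hfail
      refine ⟨by omega, fun h2 hev => ?_⟩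
      by_contra h4
      exact hβ ⟨h2, hev, h4⟩
    have he1 : 1 ≤ e := by rw [he]; exact one_le_padicValNat_of_dvd hq1 hrq
    obtain ⟨k₀, hk₀⟩ := (padicValNat_dvd_iff_le hn0).mpr hv
    obtain ⟨s, hs⟩ : r ^ e ∣ Fintype.card F - 1 := by rw [he]; exact pow_padicValNat_dvd
    have hrs : ¬ r ∣ s := by
      rintro ⟨s', rfl⟩
      have h1 : r ^ (e + 1) ∣ Fintype.card F - 1 := ⟨s', by rw [hs, pow_succ]; ring⟩
      have h2 := (padicValNat_dvd_iff_le hq1).mp h1
      omega
    obtain ⟨g, hg, -⟩ := exists_gen (F := F)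
    obtain ⟨w, hw⟩ := hrq
    have hw0 : w ≠ 0 := by rintro rfl; simp at hw; exact hq1 hw
    refine ⟨((g ^ s : Fˣ) : F), r ^ e * k₀, ?_, by rw [hk₀, pow_succ]; ring, ?_⟩
    · intro b hb
      have hb0 : b ≠ 0 := by
        rintro rfl
        rw [zero_pow hrp.ne_zero] at hb
        exact (g ^ s).ne_zero hb.symm
      have h1 : ((g ^ s : Fˣ) : F) ^ w = 1 := by
        rw [← hb, ← pow_mul, ← hw]; exact FiniteField.pow_card_sub_one_eq_one b hb0
      have h2 : (g ^ s) ^ w = 1 := by apply Units.ext; simpa using h1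
      rw [← pow_mul] at h2
      have h3 := orderOf_dvd_of_pow_eq_one h2
      rw [hg, hw] at h3
      exact hrs (Nat.dvd_of_mul_dvd_mul_right (Nat.pos_of_ne_zero hw0) h3)
    · have hck : ((g ^ s : Fˣ) : F) ^ (r ^ e * k₀) = 1 := by
        have h1 : (g ^ s) ^ (r ^ e * k₀) = 1 := by
          rw [← pow_mul, ← mul_assoc, mul_comm s, ← hs, pow_mul, ← hg, pow_orderOf_eq_one,
            one_pow]
        have h2 := congrArg Units.val h1
        simpa using h2
      rw [neg_pow (((g ^ s : Fˣ) : F)), hck, mul_one, ← pow_add]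
      apply Even.neg_one_pow
      rw [hk₀]
      rcases hrp.eq_two_or_odd' with h | h
      · subst h
        obtain ⟨e', rfl⟩ : ∃ e', e = e' + 1 := ⟨e - 1, by omega⟩
        exact ⟨2 ^ (e' + 1) * k₀ + 2 ^ e' * k₀, by ring⟩
      · have h5 : r ^ (e + 1) * k₀ + r ^ e * k₀ = r ^ e * k₀ * (r + 1) := by ring
        rw [h5]; exact Even.mul_left h.add_one _

end nt

/-- Elements of prime order of PSL_n(q) with no fixed `m`-space. Here `T = PSL_n(F)` for a field `F` with `q = p^f` elements (`n ≥ 2`, `(n, q) ≠ (2, 2), (2, 3)`); an element of `T` of prime order `r` is represented by a matrix `x` of determinant 1 with `x^r` scalar and `x` not scalar; `i` denotes the multiplicative order of `q` modulo `r` (when `r ≠ p`), and `(a)_r` the `r`-part of `a`. Let `1 ≤ m ≤ n/2` and let `r` be a prime dividing the number of `m`-dimensional subspaces of `F^n`. Then every element of `T` of order `r` fixes some `m`-dimensional subspace (the action on `m`-spaces is `r`-elusive) if and only if `r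 ≠ p` and either (i) `i = 1` and (`r ∣ m`, or `(q−1)_r ≥ (n)_r` where in addition `q ≡ 1 (mod 4)` is required when `r = 2` and `n` is even), or (ii) `2 ≤ i ≤ m` and `n mod i ≥ m mod i`. -/
theorem result {F : Type*} [Field F] [Fintype F] {p : ℕ} [Fact p.Prime] [CharP F p] {q : ℕ} (hq : Fintype.card F = q)
    (n m : ℕ) (hn : 2 ≤ n) (hT : (n, q) ≠ (2, 2) ∧ (n, q) ≠ (2, 3)) (hm : 1 ≤ m) (hmn : 2 * m ≤ n)
    (r : ℕ) [Fact r.Prime] (hrΩ : r ∣ Nat.card {W : Submodule F (Fin n → F) // Module.finrank F ↥W = m}) :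
    (∀ x : Matrix.SpecialLinearGroup (Fin n) F,
      (∃ c : F, ((x ^ r : Matrix.SpecialLinearGroup (Fin n) F) : Matrix (Fin n) (Fin n) F) = c • (1 : Matrix (Fin n) (Fin n) F)) →
      (∀ c : F, (x : Matrix (Fin n) (Fin n) F) ≠ c • (1 : Matrix (Fin n) (Fin n) F)) →
      ∃ W : Submodule F (Fin n → F), Module.finrank F ↥W = m ∧ W.map (Matrix.toLin' (x : Matrix (Fin n) (Fin n) F)) ≤ W) ↔
    (r ≠ p ∧
      ((orderOf (q : ZMod r) = 1 ∧ (r ∣ m ∨ (padicValNat r n ≤ padicValNat r (q - 1) ∧ (r = 2 → Even n → q % 4 = 1)))) ∨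
       (2 ≤ orderOf (q : ZMod r) ∧ orderOf (q : ZMod r) ≤ m ∧ m % orderOf (q : ZMod r) ≤ n % orderOf (q : ZMod r)))) := by
  classical
  have hrp := (Fact.out : r.Prime)
  have hpp := (Fact.out : p.Prime)
  subst hq
  have hq2 : 2 ≤ Fintype.card F := Fintype.one_lt_card
  have hmn' : m ≤ n := by omega
  have hfin : finrank F (Fin n → F) = n := by simp
  obtain ⟨kq, -, hkq⟩ := FiniteField.card F p
  have hpq : p ∣ Fintype.card F := by
    rw [hkq]; exact dvd_pow_self p kq.ne_zero
  have hrne : r ≠ p := by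
    intro hrp_eq
    obtain ⟨j, hj, hdvd⟩ := count_dvd hrp m (by rw [hfin]; exact hmn') hrΩ
    rw [hfin] at hdvd
    have h1 : r ∣ Fintype.card F ^ (n - j) := by
      rw [hrp_eq]; exact dvd_pow hpq (by omega)
    have h2 : 1 ≤ Fintype.card F ^ (n - j) := Nat.one_le_pow _ _ (by omega)
    have h3 : r ∣ 1 := by
      have h4 := Nat.dvd_sub h1 hdvd
      rwa [Nat.sub_sub_self h2] at h4
    exact hrp.one_lt.ne' (Nat.dvd_one.mp h3)
  have hrq : Nat.Coprime (Fintype.card F) r := by
    rw [Nat.coprime_comm, Nat.Prime.coprime_iff_not_dvd hrp]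
    intro h
    rw [hkq] at h
    exact hrne ((Nat.prime_dvd_prime_iff_eq hrp hpp).mp (hrp.dvd_of_dvd_pow h))
  have hrF : (r : F) ≠ 0 := by
    intro h
    rw [CharP.cast_eq_zero_iff F p] at h
    exact hrne ((Nat.prime_dvd_prime_iff_eq hpp hrp).mp h).symm
  have hi0 : 0 < orderOf ((Fintype.card F : ℕ) : ZMod r) := order_pos _ r hrq
  constructor
  · intro hall
    refine ⟨hrne, ?_⟩
    by_contra hcon
    have hx : ∃ x : Matrix.SpecialLinearGroup (Fin n) F,
        (∃ c : F, ((x ^ r : Matrix.SpecialLinearGroup (Fin n) F) : Matrix (Fin n) (Fin n) F) =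
          c • (1 : Matrix (Fin n) (Fin n) F)) ∧
        (∀ c : F, (x : Matrix (Fin n) (Fin n) F) ≠ c • (1 : Matrix (Fin n) (Fin n) F)) ∧
        ∀ W : Submodule F (Fin n → F), finrank F W = m →
          ¬ W.map (Matrix.toLin' (x : Matrix (Fin n) (Fin n) F)) ≤ W := by
      rcases (show orderOf ((Fintype.card F : ℕ) : ZMod r) = 1 ∨
          2 ≤ orderOf ((Fintype.card F : ℕ) : ZMod r) by omega) with h1 | h2
      · have hrq1 : r ∣ Fintype.card F - 1 := (order_one_iff _ r (by omega)).mp h1
        have hrm : ¬ r ∣ m := fun h => hcon (Or.inl ⟨h1, Or.inl h⟩)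
        have hfail : ¬ (padicValNat r n ≤ padicValNat r (Fintype.card F - 1) ∧
            (r = 2 → Even n → Fintype.card F % 4 = 1)) :=
          fun h => hcon (Or.inl ⟨h1, Or.inr h⟩)
        obtain ⟨c, k, hc, hnk, hdet⟩ := nt_exists r n (by omega) hrq1 hfail
        exact derange_irred n m r k hrp.ne_zero c (X_pow_sub_C_irreducible_of_prime hrp hc)
          hnk hdet hrm hmn'
      · have hnrq : ¬ r ∣ Fintype.card F - 1 := by
          intro h; have := (order_one_iff _ r (by omega)).mpr h; omega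
        have hcop : Nat.Coprime r (Fintype.card F - 1) :=
          (Nat.Prime.coprime_iff_not_dvd hrp).mpr hnrq
        have hmod : n % orderOf ((Fintype.card F : ℕ) : ZMod r) <
            m % orderOf ((Fintype.card F : ℕ) : ZMod r) := by
          by_cases him : orderOf ((Fintype.card F : ℕ) : ZMod r) ≤ m
          · by_contra h
            exact hcon (Or.inr ⟨h2, him, by omega⟩)
          · obtain ⟨j, hj, hdvd⟩ := count_dvd hrp m (by rw [hfin]; exact hmn') hrΩ
            rw [hfin] at hdvd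
            have h3 : ((Fintype.card F : ℕ) : ZMod r) ^ (n - j) = 1 := by
              have h5 := (ZMod.natCast_eq_zero_iff _ _).mpr hdvd
              rw [Nat.cast_sub (Nat.one_le_pow _ _ Fintype.card_pos)] at h5
              push_cast at h5
              exact sub_eq_zero.mp h5
            obtain ⟨t, ht⟩ := orderOf_dvd_of_pow_eq_one h3
            have h4 : n = j + orderOf ((Fintype.card F : ℕ) : ZMod r) * t := by omega
            rw [h4, Nat.add_mul_mod_self_left, Nat.mod_eq_of_lt (by omega),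
              Nat.mod_eq_of_lt (by omega)]
            exact hj
        exact derange_semis n m r hrF hcop hi0 hmod hmn'
    obtain ⟨x, hx1, hx2, hx3⟩ := hx
    obtain ⟨W, hWd, hW⟩ := hall x hx1 hx2
    exact hx3 W hWd hW
  · rintro ⟨-, hcond⟩ x ⟨c, hxc⟩ -
    set f : Module.End F (Fin n → F) := Matrix.toLin' (x : Matrix (Fin n) (Fin n) F) with hf
    have hfr : f ^ r = c • (1 : Module.End F (Fin n → F)) := by
      have h1 : (x : Matrix (Fin n) (Fin n) F) ^ r = c • 1 := by
        rw [← Matrix.SpecialLinearGroup.coe_pow]; exact hxc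
      have h2 := congrArg (Matrix.toLinAlgEquiv' (R := F) (n := Fin n)) h1
      rw [map_pow, map_smul, map_one] at h2
      exact h2
    have hdetf : LinearMap.det f = 1 := by rw [hf, LinearMap.det_toLin', x.det_coe]
    have hc0 : c ≠ 0 := by
      rintro rfl
      have h1 := (x ^ r).det_coe
      have : Nonempty (Fin n) := ⟨⟨0, by omega⟩⟩
      rw [hxc, zero_smul, Matrix.det_zero] at h1
      exact zero_ne_one h1
    suffices h : ∃ W : Submodule F (Fin n → F), finrank F W = m ∧ ∀ w ∈ W, f w ∈ W by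
      obtain ⟨W, hWd, hW⟩ := h
      exact ⟨W, hWd, by rintro _ ⟨w, hw, rfl⟩; exact hW w hw⟩
    rcases hcond with ⟨h1, hcond⟩ | ⟨h2, him, hmod⟩
    · have hrq1 : r ∣ Fintype.card F - 1 := (order_one_iff _ r (by omega)).mp h1
      by_cases hb : ∃ b, b ^ r = c
      · obtain ⟨b, rfl⟩ := hb
        have hb0 : b ≠ 0 := by rintro rfl; exact hc0 (zero_pow hrp.ne_zero)
        obtain ⟨w, hw⟩ := hrq1
        have hfq : f ^ Fintype.card F = f := by
          have h3 : f ^ (Fintype.card F - 1) = 1 := by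
            rw [hw, pow_mul, hfr, _root_.smul_pow, one_pow, ← pow_mul, ← hw,
              FiniteField.pow_card_sub_one_eq_one b hb0, one_smul]
          have h4 : Fintype.card F = (Fintype.card F - 1) + 1 := by omega
          rw [h4, pow_succ, h3, one_mul]
        exact all_dims f hfq m (by rw [hfin]; exact hmn')
      · push Not at hb
        have hirr := X_pow_sub_C_irreducible_of_prime hrp hb
        by_cases hrm : r ∣ m
        · obtain ⟨t, rfl⟩ := hrm
          exact exists_mult f r hrp.ne_zero c hirr hfr t (by rw [hfin]; exact hmn')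
        · exfalso
          rcases hcond with hrm' | ⟨hv, h4⟩
          · exact hrm hrm'
          · obtain ⟨k, hk1, hk2⟩ := lin_charpoly f r hrp.ne_zero c hirr hfr
            rw [hfin] at hk1 hk2; rw [hdetf] at hk2
            exact nt_no r n k c hb hk1 (by omega) hk2.symm hv h4
    · have hnrq : ¬ r ∣ Fintype.card F - 1 := by
        intro h; have := (order_one_iff _ r (by omega)).mpr h; omega
      have hcop : Nat.Coprime r (Fintype.card F - 1) :=
        (Nat.Prime.coprime_iff_not_dvd hrp).mpr hnrq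
      obtain ⟨b, hb0, rfl⟩ := exists_root_of_coprime r hcop c hc0
      have hg : (b⁻¹ • f) ^ r = 1 := by
        rw [_root_.smul_pow, hfr, smul_smul, inv_pow, inv_mul_cancel₀ (pow_ne_zero _ hb0), one_smul]
      obtain ⟨W, hWd, hW⟩ := exists_inv_dim (b⁻¹ • f) r hrF hg hi0 m
        (by rw [hfin]; exact hmn') (by rw [hfin]; exact hmod)
      refine ⟨W, hWd, fun w hw => ?_⟩
      have h5 := W.smul_mem b (hW w hw)
      rwa [LinearMap.smul_apply, smul_smul, mul_inv_cancel₀ hb0, one_smul] at h5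


end Cfsg.Agent.S5949
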