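import Cfsg.Statements.S5959
import Mathlib
import Cfsg.Agent.S5949

set_option autoImplicit false
set_option maxHeartbeats 400000
open scoped MatrixGroups
open Cfsg

namespace Cfsg.Agent.S5959

open Polynomial Module

universe u

section kap

variable {F : Type*} [Field F] {V : Type*} [AddCommGroup V] [Module F V]

/-- `ker N ∩ N^j X`; its dimension counts Jordan blocks of size `> j` inside `X` -/
abbrev A (N : V →ₗ[F] V) (j : ℕ) (X : Submodule F V) : Submodule F V :=
  LinearMap.ker N ⊓ X.map (N ^ j)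

theorem pow_mem (N : V →ₗ[F] V) (U : Submodule F V) (hU : ∀ u ∈ U, N u ∈ U) (j : ℕ) :
    ∀ u ∈ U, (N ^ j) u ∈ U := by
  induction j with
  | zero => intro u hu; simpa using hu
  | succ j ih => intro u hu; rw [pow_succ', Module.End.mul_apply]; exact hU _ (ih u hu)

theorem map_pow_le (N : V →ₗ[F] V) (U : Submodule F V) (hU : ∀ u ∈ U, N u ∈ U) (j : ℕ) :
    U.map (N ^ j) ≤ U := by
  rintro _ ⟨u, hu, rfl⟩; exact pow_mem N U hU j u hu

theorem A_le (N : V →ₗ[F] V) (U : Submodule F V) (hU : ∀ u ∈ U, N u ∈ U) (j : ℕ) :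
    A N j U ≤ U := inf_le_right.trans (map_pow_le N U hU j)

theorem A_succ_le (N : V →ₗ[F] V) (U : Submodule F V) (hU : ∀ u ∈ U, N u ∈ U) (j : ℕ) :
    A N (j + 1) U ≤ A N j U := by
  apply inf_le_inf_left
  rintro _ ⟨u, hu, rfl⟩
  exact ⟨N u, hU u hu, by rw [pow_succ, Module.End.mul_apply]⟩

theorem A_split (N : V →ₗ[F] V) (U W : Submodule F V) (hU : ∀ u ∈ U, N u ∈ U)
    (hW : ∀ w ∈ W, N w ∈ W) (hc : IsCompl U W) (j : ℕ) :
    A N j ⊤ = A N j U ⊔ A N j W ∧ A N j U ⊓ A N j W = ⊥ := by
  constructor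
  · apply le_antisymm
    · rintro v ⟨hv1, v', -, rfl⟩
      have hv' : v' ∈ U ⊔ W := by rw [hc.sup_eq_top]; exact Submodule.mem_top
      obtain ⟨u', hu', w', hw', rfl⟩ := Submodule.mem_sup.mp hv'
      have h1 : (N ^ j) u' ∈ U := pow_mem N U hU j u' hu'
      have h2 : (N ^ j) w' ∈ W := pow_mem N W hW j w' hw'
      have h3 : N ((N ^ j) u') + N ((N ^ j) w') = 0 := by
        rw [← map_add, ← map_add]; exact hv1
      have h4 : N ((N ^ j) u') ∈ U ⊓ W := ⟨hU _ h1, by
        have h6 : N ((N ^ j) u') = - N ((N ^ j) w') := eq_neg_of_add_eq_zero_left h3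
        rw [h6]; exact W.neg_mem (hW _ h2)⟩
      rw [hc.inf_eq_bot, Submodule.mem_bot] at h4
      have h5 : N ((N ^ j) w') = 0 := by rw [h4, zero_add] at h3; exact h3
      rw [map_add]
      exact Submodule.add_mem _ (Submodule.mem_sup_left ⟨h4, u', hu', rfl⟩)
        (Submodule.mem_sup_right ⟨h5, w', hw', rfl⟩)
    · exact sup_le (inf_le_inf_left _ (Submodule.map_mono le_top))
        (inf_le_inf_left _ (Submodule.map_mono le_top))
  · rw [eq_bot_iff, ← hc.inf_eq_bot]
    exact inf_le_inf (A_le N U hU j) (A_le N W hW j)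

theorem finrank_map_succ [FiniteDimensional F V] (N : V →ₗ[F] V) (U : Submodule F V) (j : ℕ) :
    finrank F (U.map (N ^ j)) = finrank F (U.map (N ^ (j + 1))) + finrank F (A N j U) := by
  have h1 := LinearMap.finrank_range_add_finrank_ker (N.domRestrict (U.map (N ^ j)))
  have h2 : LinearMap.range (N.domRestrict (U.map (N ^ j))) = U.map (N ^ (j + 1)) := by
    rw [LinearMap.range_domRestrict, ← Submodule.map_comp, pow_succ']; rfl
  have h3 : finrank F (LinearMap.ker (N.domRestrict (U.map (N ^ j)))) = finrank F (A N j U) := by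
    rw [LinearMap.ker_domRestrict]
    have h4 : A N j U = (Submodule.comap (U.map (N ^ j)).subtype (LinearMap.ker N)).map
        (U.map (N ^ j)).subtype := by
      rw [Submodule.map_comap_subtype, inf_comm]
    rw [h4]
    exact (LinearEquiv.finrank_eq (Submodule.equivSubtypeMap (U.map (N ^ j)) _))
  rw [h2, h3] at h1
  omega

theorem finrank_eq_sum [FiniteDimensional F V] (N : V →ₗ[F] V) (U : Submodule F V) (J : ℕ) :
    finrank F U = finrank F (U.map (N ^ J)) + ∑ j ∈ Finset.range J, finrank F (A N j U) := by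
  induction J with
  | zero =>
    have : U.map (N ^ 0) = U := by rw [pow_zero]; exact Submodule.map_id U
    rw [this]; simp
  | succ J ih => rw [Finset.sum_range_succ, ih, finrank_map_succ N U J]; ring

theorem count_filter (μ : Multiset ℕ) (j : ℕ) :
    Multiset.count (j + 1) μ + Multiset.card (μ.filter (fun a => j + 1 < a)) =
      Multiset.card (μ.filter (fun a => j < a)) := by
  rw [← Multiset.countP_eq_card_filter, ← Multiset.countP_eq_card_filter]
  induction μ using Multiset.induction_on with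
  | empty => simp
  | cons a μ ih =>
    rw [Multiset.count_cons, Multiset.countP_cons, Multiset.countP_cons]
    split_ifs <;> omega

/-- the partition with `κ j - κ (j+1)` parts equal to `j+1`, for `j < J` -/
def nu (κ : ℕ → ℕ) (J : ℕ) : Multiset ℕ :=
  ∑ j ∈ Finset.range J, Multiset.replicate (κ j - κ (j + 1)) (j + 1)

theorem nu_succ (κ : ℕ → ℕ) (J : ℕ) :
    nu κ (J + 1) = nu κ J + Multiset.replicate (κ J - κ (J + 1)) (J + 1) := by
  unfold nu; rw [Finset.sum_range_succ]

theorem nu_sum (κ : ℕ → ℕ) (hκ : ∀ j, κ (j + 1) ≤ κ j) (J : ℕ) :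
    (nu κ J).sum + J * κ J = ∑ j ∈ Finset.range J, κ j := by
  induction J with
  | zero => simp [nu]
  | succ J ih =>
    rw [nu_succ, Multiset.sum_add, Multiset.sum_replicate, Finset.sum_range_succ, ← ih]
    obtain ⟨d, hd⟩ := Nat.exists_eq_add_of_le (hκ J)
    rw [hd, Nat.add_sub_cancel_left, smul_eq_mul]; ring

theorem nu_count (κ : ℕ → ℕ) (J b : ℕ) :
    Multiset.count b (nu κ J) = if 1 ≤ b ∧ b ≤ J then κ (b - 1) - κ b else 0 := by
  induction J with
  | zero =>
    have : ¬ (1 ≤ b ∧ b ≤ 0) := by omega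
    rw [if_neg this]; simp [nu]
  | succ J ih =>
    rw [nu_succ, Multiset.count_add, ih, Multiset.count_replicate]
    by_cases h1 : J + 1 = b
    · subst h1
      rw [if_pos rfl, if_neg (by omega), if_pos (by omega)]; simp
    · rw [if_neg h1, add_zero]
      by_cases h2 : 1 ≤ b ∧ b ≤ J
      · rw [if_pos h2, if_pos (by omega)]
      · rw [if_neg h2, if_neg (by omega)]

/-- key lemma: an invariant direct summand has a Jordan type contained in that of the whole -/
theorem lemK [FiniteDimensional F V] (N : V →ₗ[F] V) (p : ℕ) (hN : N ^ p = 0)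
    (U W : Submodule F V) (hU : ∀ u ∈ U, N u ∈ U) (hW : ∀ w ∈ W, N w ∈ W) (hc : IsCompl U W)
    (μ : Multiset ℕ)
    (hμ : ∀ j, finrank F ↥(LinearMap.ker N ⊓ LinearMap.range (N ^ j)) =
      Multiset.card (μ.filter (fun a => j < a))) :
    ∃ ν : Multiset ℕ, ν ≤ μ ∧ ν.sum = finrank F U := by
  obtain ⟨κ, hκ⟩ : ∃ κ : ℕ → ℕ, κ = fun j => finrank F (A N j U) := ⟨_, rfl⟩
  have hκj : ∀ j, κ j = finrank F (A N j U) := fun j => by rw [hκ]
  have hκmono : ∀ j, κ (j + 1) ≤ κ j := fun j => by
    rw [hκj, hκj]; exact Submodule.finrank_mono (A_succ_le N U hU j)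
  have hκW : ∀ j, finrank F (A N (j + 1) W) ≤ finrank F (A N j W) :=
    fun j => Submodule.finrank_mono (A_succ_le N W hW j)
  have hadd : ∀ j, Multiset.card (μ.filter (fun a => j < a)) = κ j + finrank F (A N j W) := by
    intro j
    obtain ⟨h1, h2⟩ := A_split N U W hU hW hc j
    have h3 := Submodule.finrank_sup_add_finrank_inf_eq (A N j U) (A N j W)
    rw [h2, finrank_bot, ← h1] at h3
    rw [← hμ j, hκj]
    have h4 : A N j ⊤ = LinearMap.ker N ⊓ LinearMap.range (N ^ j) := by
      rw [A, Submodule.map_top]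
    rw [← h4]; omega
  have hκp : κ p = 0 := by
    have h1 : A N p U = ⊥ := by
      rw [eq_bot_iff]; rintro v ⟨-, u, -, rfl⟩; rw [hN]; simp
    rw [hκj, h1, finrank_bot]
  refine ⟨nu κ p, ?_, ?_⟩
  · rw [Multiset.le_iff_count]
    intro b
    rw [nu_count]
    split_ifs with hb
    · obtain ⟨b', rfl⟩ : ∃ b', b = b' + 1 := ⟨b - 1, by omega⟩
      have h1 := count_filter μ b'
      rw [hadd b', hadd (b' + 1)] at h1
      have h2 := hκW b'
      simp only [Nat.add_sub_cancel]
      omega
    · exact Nat.zero_le _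
  · have h1 := nu_sum κ hκmono p
    rw [hκp, mul_zero, add_zero] at h1
    rw [h1]
    have h2 := finrank_eq_sum N U p
    have h3 : U.map (N ^ p) = ⊥ := by rw [hN]; exact Submodule.map_zero _
    rw [h3, finrank_bot, zero_add] at h2
    rw [h2]
    exact Finset.sum_congr rfl (fun j _ => hκj j)

end kap

section blocks

variable (F : Type u) [Field F]

/-- nilpotent single Jordan block -/
def shift (a : ℕ) : (Fin a → F) →ₗ[F] (Fin a → F) where
  toFun v := fun t => if h : t.val + 1 < a then v ⟨t.val + 1, h⟩ else 0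
  map_add' v w := by funext t; simp only [Pi.add_apply]; split_ifs <;> simp
  map_smul' c v := by funext t; simp only [Pi.smul_apply, RingHom.id_apply]; split_ifs <;> simp

theorem shift_apply (a : ℕ) (v : Fin a → F) (t : Fin a) :
    shift F a v t = if h : t.val + 1 < a then v ⟨t.val + 1, h⟩ else 0 := rfl

theorem shift_pow (a j : ℕ) (v : Fin a → F) (t : Fin a) :
    ((shift F a) ^ j) v t = if h : t.val + j < a then v ⟨t.val + j, h⟩ else 0 := by
  induction j generalizing v with
  | zero => simp
  | succ j ih =>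
    rw [pow_succ, Module.End.mul_apply, ih]
    by_cases h1 : t.val + j < a
    · rw [dif_pos h1, shift_apply]
      by_cases h2 : t.val + (j + 1) < a
      · rw [dif_pos h2, dif_pos (by omega)]; rfl
      · rw [dif_neg h2, dif_neg (by omega)]
    · rw [dif_neg h1, dif_neg (by omega)]

theorem shift_pow_zero (a j : ℕ) (hj : a ≤ j) : (shift F a) ^ j = 0 := by
  apply LinearMap.ext; intro v; funext t
  rw [shift_pow, dif_neg (by have := t.2; omega)]; rfl

theorem shift_kap (a j : ℕ) :
    finrank F ↥(LinearMap.ker (shift F a) ⊓ LinearMap.range ((shift F a) ^ j)) =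
      if j < a then 1 else 0 := by
  classical
  by_cases hj : j < a
  · rw [if_pos hj]
    have ha : 0 < a := by omega
    have hker : LinearMap.ker (shift F a) =
        Submodule.span F {(Pi.single (⟨0, ha⟩ : Fin a) (1 : F) : Fin a → F)} := by
      ext v
      rw [LinearMap.mem_ker, Submodule.mem_span_singleton]
      constructor
      · intro hv
        refine ⟨v ⟨0, ha⟩, ?_⟩
        funext t
        by_cases ht : t = ⟨0, ha⟩
        · subst ht; simp
        · have ht' : t.val ≠ 0 := fun h => ht (Fin.ext h)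
          have hlt : t.val - 1 < a := by have := t.2; omega
          have h1 := congrFun hv ⟨t.val - 1, hlt⟩
          rw [shift_apply, dif_pos (by have := t.2; simp only; omega)] at h1
          have h2 : (⟨t.val - 1 + 1, by have := t.2; omega⟩ : Fin a) = t := by
            apply Fin.ext; simp only; omega
          rw [h2] at h1
          simp [ht, h1]
      · rintro ⟨c, rfl⟩
        funext t
        rw [shift_apply]
        split_ifs with h
        · have hne : (⟨t.val + 1, h⟩ : Fin a) ≠ ⟨0, ha⟩ := by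
            intro h3; have := congrArg Fin.val h3; simp at this
          simp [hne]
        · rfl
    have hrange : (Pi.single (⟨0, ha⟩ : Fin a) (1 : F) : Fin a → F) ∈
        LinearMap.range ((shift F a) ^ j) := by
      refine ⟨Pi.single ⟨j, hj⟩ 1, ?_⟩
      funext t
      rw [shift_pow]
      by_cases ht : t = ⟨0, ha⟩
      · subst ht
        rw [dif_pos (by simp only; omega)]
        have h2 : (⟨(⟨0, ha⟩ : Fin a).val + j, by simp only; omega⟩ : Fin a) = ⟨j, hj⟩ := by
          apply Fin.ext; simp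
        rw [h2]; simp
      · have ht' : t.val ≠ 0 := fun h => ht (Fin.ext h)
        split_ifs with h
        · have hne : (⟨t.val + j, h⟩ : Fin a) ≠ ⟨j, hj⟩ := by
            intro h3; have := congrArg Fin.val h3; simp at this; exact ht' this
          simp [hne, ht]
        · simp [ht]
    have hinf : LinearMap.ker (shift F a) ⊓ LinearMap.range ((shift F a) ^ j) =
        Submodule.span F {(Pi.single (⟨0, ha⟩ : Fin a) (1 : F) : Fin a → F)} := by
      rw [hker]; apply inf_eq_left.mpr
      rw [Submodule.span_singleton_le_iff_mem]; exact hrange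
    rw [hinf, finrank_span_singleton]
    intro h; have := congrFun h ⟨0, ha⟩; simp at this
  · rw [if_neg hj, shift_pow_zero F a j (by omega), LinearMap.range_zero, inf_bot_eq,
      finrank_bot]

variable {F}

/-- product of submodules as a product type -/
def prodSubEquiv {V₁ V₂ : Type*} [AddCommGroup V₁] [Module F V₁] [AddCommGroup V₂] [Module F V₂]
    (P : Submodule F V₁) (Q : Submodule F V₂) : (P.prod Q) ≃ₗ[F] (P × Q) where
  toFun x := (⟨x.1.1, (Submodule.mem_prod.mp x.2).1⟩, ⟨x.1.2, (Submodule.mem_prod.mp x.2).2⟩)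
  invFun y := ⟨(y.1.1, y.2.1), Submodule.mem_prod.mpr ⟨y.1.2, y.2.2⟩⟩
  map_add' _ _ := rfl
  map_smul' _ _ := rfl
  left_inv _ := rfl
  right_inv _ := rfl

theorem prodMap_pow {V₁ V₂ : Type*} [AddCommGroup V₁] [Module F V₁] [AddCommGroup V₂]
    [Module F V₂] (f : V₁ →ₗ[F] V₁) (g : V₂ →ₗ[F] V₂) (k : ℕ) :
    (f.prodMap g) ^ k = (f ^ k).prodMap (g ^ k) := by
  induction k with
  | zero => rw [pow_zero, pow_zero, pow_zero, LinearMap.prodMap_one]
  | succ k ih => rw [pow_succ, ih, pow_succ, pow_succ, LinearMap.prodMap_mul]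

theorem prod_kap {V₁ V₂ : Type*} [AddCommGroup V₁] [Module F V₁] [AddCommGroup V₂]
    [Module F V₂] [FiniteDimensional F V₁] [FiniteDimensional F V₂]
    (f : V₁ →ₗ[F] V₁) (g : V₂ →ₗ[F] V₂) (j : ℕ) :
    finrank F ↥(LinearMap.ker (f.prodMap g) ⊓ LinearMap.range ((f.prodMap g) ^ j)) =
      finrank F ↥(LinearMap.ker f ⊓ LinearMap.range (f ^ j)) +
        finrank F ↥(LinearMap.ker g ⊓ LinearMap.range (g ^ j)) := by
  rw [prodMap_pow, LinearMap.ker_prodMap, LinearMap.range_prodMap, Submodule.prod_inf_prod,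
    LinearEquiv.finrank_eq (prodSubEquiv _ _), Module.finrank_prod]

variable (F)

theorem exists_type (p : ℕ) (μ : Multiset ℕ) (hμ : ∀ b ∈ μ, 0 < b ∧ b ≤ p) :
    ∃ (V : Type u) (_ : AddCommGroup V) (_ : Module F V) (_ : FiniteDimensional F V)
      (N : V →ₗ[F] V), finrank F V = μ.sum ∧ N ^ p = 0 ∧
      ∀ j, finrank F ↥(LinearMap.ker N ⊓ LinearMap.range (N ^ j)) =
        Multiset.card (μ.filter (fun a => j < a)) := by
  induction μ using Multiset.induction_on with
  | empty =>
    refine ⟨Fin 0 → F, inferInstance, inferInstance, inferInstance, 0, by simp,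
      LinearMap.ext fun v => Subsingleton.elim _ _, fun j => ?_⟩
    have h1 : (LinearMap.ker (0 : (Fin 0 → F) →ₗ[F] (Fin 0 → F)) ⊓
        LinearMap.range ((0 : (Fin 0 → F) →ₗ[F] (Fin 0 → F)) ^ j)) = ⊥ := by
      rw [eq_bot_iff]; intro v _; rw [Submodule.mem_bot]; exact Subsingleton.elim _ _
    rw [h1, finrank_bot]; simp
  | cons a μ ih =>
    obtain ⟨V, i1, i2, i3, N, h1, h2, h3⟩ := ih (fun b hb => hμ b (Multiset.mem_cons_of_mem hb))
    obtain ⟨ha0, hap⟩ := hμ a (Multiset.mem_cons_self a μ)
    refine ⟨(Fin a → F) × V, inferInstance, inferInstance, inferInstance,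
      (shift F a).prodMap N, ?_, ?_, fun j => ?_⟩
    · rw [Module.finrank_prod, Module.finrank_fin_fun, h1, Multiset.sum_cons]
    · rw [prodMap_pow, h2, shift_pow_zero F a p hap, LinearMap.prodMap_zero]
    · rw [prod_kap, shift_kap, h3, Multiset.filter_cons, Multiset.card_add]
      split_ifs <;> simp

end blocks

section unip

variable {F : Type u} [Field F]

theorem exists_unipotent (p : ℕ) [Fact p.Prime] [CharP F p] (n : ℕ) (μ : Multiset ℕ)
    (hμ : ∀ b ∈ μ, 0 < b ∧ b ≤ p) (hsum : μ.sum = n) :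
    ∃ x : Matrix.SpecialLinearGroup (Fin n) F,
      ((x ^ p : Matrix.SpecialLinearGroup (Fin n) F) : Matrix (Fin n) (Fin n) F) = 1 ∧
      (Matrix.toLin' (x : Matrix (Fin n) (Fin n) F) - 1) ^ p = 0 ∧
      ∀ j, finrank F ↥(LinearMap.ker (Matrix.toLin' (x : Matrix (Fin n) (Fin n) F) - 1) ⊓
        LinearMap.range ((Matrix.toLin' (x : Matrix (Fin n) (Fin n) F) - 1) ^ j)) =
          Multiset.card (μ.filter (fun a => j < a)) := by
  classical
  obtain ⟨V, i1, i2, i3, N, h1, h2, h3⟩ := exists_type F p μ hμ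
  have e : (Fin n → F) ≃ₗ[F] V := LinearEquiv.ofFinrankEq _ _ (by rw [h1, hsum]; simp)
  let N' : Module.End F (Fin n → F) :=
    (e.symm : V →ₗ[F] (Fin n → F)) ∘ₗ N ∘ₗ (e.symm.symm : (Fin n → F) →ₗ[F] V)
  have hN'app : ∀ v, N' v = e.symm (N (e v)) := fun v => rfl
  have hN'k : ∀ k v, (N' ^ k) v = e.symm ((N ^ k) (e v)) := by
    intro k
    induction k with
    | zero => intro v; simp
    | succ k ih =>
      intro v
      rw [pow_succ', Module.End.mul_apply, hN'app, ih, LinearEquiv.apply_symm_apply, pow_succ',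
        Module.End.mul_apply]
  have hN'pow : N' ^ p = 0 := by
    apply LinearMap.ext
    intro v
    rw [hN'k, h2]; simp
  have hpoly : ((X : F[X]) + 1) ^ p = X ^ p + 1 := by
    rw [add_pow_char, one_pow]
  have hgpow : (N' + 1) ^ p = 1 := by
    have h4 := congrArg (aeval N') hpoly
    simp only [map_pow, map_add, aeval_X, map_one] at h4
    rw [h4, hN'pow, zero_add]
  have hdet : LinearMap.det (N' + 1) = 1 := by
    have h4 : (LinearMap.det (N' + 1)) ^ p = 1 := by rw [← map_pow, hgpow, map_one]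
    apply frobenius_inj F p
    rw [frobenius_def, frobenius_def, h4, one_pow]
  let M : Matrix (Fin n) (Fin n) F := LinearMap.toMatrix' (N' + 1)
  have hMdet : M.det = 1 := by rw [LinearMap.det_toMatrix', hdet]
  have hMpow : M ^ p = (1 : Matrix (Fin n) (Fin n) F) := by
    have := congrArg (LinearMap.toMatrixAlgEquiv' (R := F) (n := Fin n)) hgpow
    rw [map_pow, map_one] at this
    exact this
  have hlin : Matrix.toLin' M - 1 = N' := by
    rw [Matrix.toLin'_toMatrix']; exact add_sub_cancel_right N' 1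
  let x : Matrix.SpecialLinearGroup (Fin n) F := ⟨M, hMdet⟩
  refine ⟨x, ?_, ?_, ?_⟩
  · rw [Matrix.SpecialLinearGroup.coe_pow]; exact hMpow
  · show (Matrix.toLin' M - 1) ^ p = 0
    rw [hlin]; exact hN'pow
  · intro j
    show finrank F ↥(LinearMap.ker (Matrix.toLin' M - 1) ⊓
      LinearMap.range ((Matrix.toLin' M - 1) ^ j)) = _
    rw [hlin, ← h3 j]
    have hmap : LinearMap.ker N' ⊓ LinearMap.range (N' ^ j) =
        (LinearMap.ker N ⊓ LinearMap.range (N ^ j)).map e.symm.toLinearMap := by
      ext v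
      constructor
      · rintro ⟨hv1, u, rfl⟩
        refine ⟨e ((N' ^ j) u), ⟨?_, ?_⟩, by simp⟩
        · have h5 : N' ((N' ^ j) u) = 0 := hv1
          rw [hN'app] at h5
          have h6 := congrArg e h5
          rw [LinearEquiv.apply_symm_apply, map_zero] at h6
          exact h6
        · refine ⟨e u, ?_⟩
          rw [hN'k, LinearEquiv.apply_symm_apply]
      · rintro ⟨w, ⟨hw1, u, rfl⟩, rfl⟩
        refine ⟨?_, e.symm u, ?_⟩
        · show N' (e.symm ((N ^ j) u)) = 0
          rw [hN'app, LinearEquiv.apply_symm_apply]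
          have h5 : N ((N ^ j) u) = 0 := hw1
          rw [h5, map_zero]
        · show (N' ^ j) (e.symm u) = e.symm ((N ^ j) u)
          rw [hN'k, LinearEquiv.apply_symm_apply]
    rw [hmap]
    exact LinearEquiv.finrank_map_eq e.symm _

end unip

section main

variable {F : Type*} [Field F]

theorem perm_pow_fix {t : ℕ} (τ : Equiv.Perm (Fin t)) (j : Fin t) (h : τ j = j) (u : ℕ) :
    (τ ^ u) j = j := by
  induction u with
  | zero => simp
  | succ u ih => rw [pow_succ, Equiv.Perm.mul_apply, h, ih]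

theorem geom_char (p : ℕ) [Fact p.Prime] [CharP F p] {V : Type*} [AddCommGroup V] [Module F V]
    (g : V →ₗ[F] V) : (g - 1) ^ (p - 1) = ∑ k ∈ Finset.range p, g ^ k := by
  have hpp := (Fact.out : p.Prime)
  have hpoly : ((X : F[X]) - 1) ^ (p - 1) = ∑ k ∈ Finset.range p, X ^ k := by
    have hne : ((X : F[X]) - 1) ≠ 0 := by
      intro h
      have h2 := congrArg (eval 0) h
      simp at h2
    have h1 : ((X : F[X]) - 1) * (X - 1) ^ (p - 1) = (X - 1) * ∑ k ∈ Finset.range p, X ^ k := by
      rw [mul_geom_sum, ← pow_succ', Nat.sub_add_cancel hpp.pos, sub_pow_char, one_pow]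
    exact mul_left_cancel₀ hne h1
  have h4 := congrArg (aeval g) hpoly
  simpa using h4

end main

/-- Elements of order `p` of PSL_n(q) and imprimitive subgroups: a necessary condition. Here `T = PSL_n(F)` for a field `F` with `q = p^f` elements (`n ≥ 2`, `(n, q) ≠ (2, 2), (2, 3)`), `n = a·t` with `t ≥ 2`, and Ω is the set of direct-sum decompositions of `F^n` into `t` subspaces of dimension `a` (unordered; their number is the number of ordered ones divided by `t!`), whose stabilizers are the imprimitive subgroups of type GL_a(q) ≀ S_t (maximal except in some small cases; maximality is not assumed); an element of `T` of prime order `r` (a matrix `x` of determinant 1 with `x^r` scalar, `x` not scalar) fixes a point of Ω when it permutes the summands of some such decomposition. Suppose `p > 2` divides the number of such decompositions. If every element of `T` of order `p` stabilizes such a decomposition, then every partition of `n` into parts of size at most `p` in which the part `p` occurs fewer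 than `a` times contains (as a sub-multiset) a partition of `a`. -/
theorem result {F : Type*} [Field F] [Fintype F] {p : ℕ} [Fact p.Prime] [CharP F p] {q : ℕ} (hq : Fintype.card F = q)
    (n a t : ℕ) (hn : 2 ≤ n) (hT : (n, q) ≠ (2, 2) ∧ (n, q) ≠ (2, 3)) (hat : n = a * t) (ha : 1 ≤ a) (ht : 2 ≤ t)
    (hp : 2 < p) (hΩ : p ∣ Nat.card {D : Fin t → Submodule F (Fin n → F) // Cfsg.Geo.IsMDecomposition a D} / Nat.factorial t)
    (h : ∀ x : Matrix.SpecialLinearGroup (Fin n) F,
      (∃ z : F, ((x ^ p : Matrix.SpecialLinearGroup (Fin n) F) : Matrix (Fin n) (Fin n) F) = z • (1 : Matrix (Fin n) (Fin n) F)) →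
      (∀ z : F, (x : Matrix (Fin n) (Fin n) F) ≠ z • (1 : Matrix (Fin n) (Fin n) F)) →
      ∃ D : Fin t → Submodule F (Fin n → F), Cfsg.Geo.IsMDecomposition a D ∧
        ∃ σ : Equiv.Perm (Fin t), ∀ j, (D j).map (Matrix.toLin' (x : Matrix (Fin n) (Fin n) F)) = D (σ j)) :
    (∀ μ : Multiset ℕ, (∀ b ∈ μ, 0 < b ∧ b ≤ p) → μ.sum = n → μ.count p < a → ∃ ν : Multiset ℕ, ν ≤ μ ∧ ν.sum = a) := by
  classical
  intro μ hμ hsum hcount
  have hpp := (Fact.out : p.Prime)
  by_cases hones : ∀ b ∈ μ, b = 1
  · refine ⟨Multiset.replicate a 1, ?_, by simp⟩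
    have h1 : μ = Multiset.replicate (Multiset.card μ) 1 := Multiset.eq_replicate_card.mpr hones
    have h2 : Multiset.card μ = n := by
      rw [← hsum]; conv_rhs => rw [h1]
      simp
    rw [h1, h2]
    apply Multiset.replicate_le_replicate 1 |>.mpr
    rw [hat]; exact Nat.le_mul_of_pos_right a (by omega)
  · push Not at hones
    obtain ⟨b₀, hb₀, hb₀1⟩ := hones
    obtain ⟨x, hx1, hx2, hx3⟩ := exists_unipotent (F := F) p n μ hμ hsum
    obtain ⟨g, hg⟩ : ∃ g : Module.End F (Fin n → F),
        g = Matrix.toLin' (x : Matrix (Fin n) (Fin n) F) := ⟨_, rfl⟩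
    rw [← hg] at hx2 hx3
    obtain ⟨N, hN⟩ : ∃ N : Module.End F (Fin n → F), N = g - 1 := ⟨_, rfl⟩
    rw [← hN] at hx2 hx3
    have hgN : ∀ v, N v = g v - v := fun v => by rw [hN]; rfl
    have hns : ∀ z : F, (x : Matrix (Fin n) (Fin n) F) ≠ z • 1 := by
      intro z hz
      have hNz : ∀ v, N v = (z - 1) • v := by
        intro v
        rw [hgN, hg, hz, sub_smul, one_smul]
        simp
      have h1 := hx3 1
      have h2 : 0 < Multiset.card (μ.filter (fun a => 1 < a)) := by
        apply Multiset.card_pos_iff_exists_mem.mpr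
        exact ⟨b₀, Multiset.mem_filter.mpr ⟨hb₀, by have := (hμ b₀ hb₀).1; omega⟩⟩
      have h3 : LinearMap.ker N ⊓ LinearMap.range (N ^ 1) = ⊥ := by
        rw [eq_bot_iff]
        rintro v ⟨hv1, u, rfl⟩
        rw [Submodule.mem_bot]
        have hv2 : N ((N ^ 1) u) = 0 := hv1
        rw [pow_one] at hv2 ⊢
        rw [hNz] at hv2
        by_cases hz1 : z - 1 = 0
        · rw [hNz, hz1, zero_smul]
        · exact (smul_eq_zero.mp hv2).resolve_left hz1
      rw [h3, finrank_bot] at h1
      omega
    obtain ⟨D, hD, σ, hσ⟩ := h x ⟨1, by rw [hx1, one_smul]⟩ hns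
    rw [← hg] at hσ
    have hgD : ∀ j, ∀ u ∈ D j, g u ∈ D (σ j) := fun j u hu => by
      rw [← hσ j]; exact ⟨u, hu, rfl⟩
    by_cases hfix : ∃ j₀, σ j₀ = j₀
    · obtain ⟨j₀, hj₀⟩ := hfix
      have hU : ∀ u ∈ D j₀, N u ∈ D j₀ := by
        intro u hu
        rw [hgN]
        have h1 := hgD j₀ u hu
        rw [hj₀] at h1
        exact Submodule.sub_mem _ h1 hu
      have hWg : ∀ w ∈ ⨆ (j) (_ : j ≠ j₀), D j, g w ∈ ⨆ (j) (_ : j ≠ j₀), D j := by
        intro w hw
        have h1 : (⨆ (j) (_ : j ≠ j₀), D j).map g ≤ ⨆ (j) (_ : j ≠ j₀), D j := by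
          simp only [Submodule.map_iSup]
          apply iSup₂_le
          intro j hj
          rw [hσ j]
          have hne : σ j ≠ j₀ := by
            intro h2; apply hj
            apply σ.injective; rw [h2, hj₀]
          exact le_iSup₂ (f := fun (j : Fin t) (_ : j ≠ j₀) => D j) (σ j) hne
        exact h1 ⟨w, hw, rfl⟩
      have hW : ∀ w ∈ ⨆ (j) (_ : j ≠ j₀), D j, N w ∈ ⨆ (j) (_ : j ≠ j₀), D j := by
        intro w hw
        rw [hgN]
        exact Submodule.sub_mem _ (hWg w hw) hw
      have hc : IsCompl (D j₀) (⨆ (j) (_ : j ≠ j₀), D j) :=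
        ⟨hD.indep j₀, codisjoint_iff.mpr (by rw [← iSup_split_single]; exact hD.iSup_eq_top)⟩
      obtain ⟨ν, hν1, hν2⟩ := lemK N p hx2 (D j₀) _ hU hW hc μ hx3
      exact ⟨ν, hν1, by rw [hν2, hD.finrank_eq j₀]⟩
    · exfalso
      push Not at hfix
      have ht0 : 0 < t := by omega
      obtain ⟨j₀, -⟩ : ∃ j₀ : Fin t, True := ⟨⟨0, ht0⟩, trivial⟩
      have hgk : ∀ k, ∀ j, ∀ u ∈ D j, (g ^ k) u ∈ D ((σ ^ k) j) := by
        intro k
        induction k with
        | zero => intro j u hu; simpa using hu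
        | succ k ih =>
          intro j u hu
          rw [pow_succ' g, Module.End.mul_apply, pow_succ' σ, Equiv.Perm.mul_apply]
          exact hgD _ _ (ih j u hu)
      have hgp : g ^ p = 1 := by
        have h2 : (x : Matrix (Fin n) (Fin n) F) ^ p = 1 := by
          rw [← Matrix.SpecialLinearGroup.coe_pow]; exact hx1
        have h3 := congrArg (Matrix.toLinAlgEquiv' (R := F) (n := Fin n)) h2
        rw [map_pow, map_one] at h3
        rw [hg]; exact h3
      have hDne : ∀ j, D j ≠ ⊥ := by
        intro j h1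
        have h2 := hD.finrank_eq j
        rw [h1, finrank_bot] at h2
        omega
      have hDinj : ∀ i i', D i = D i' → i = i' := by
        intro i i' h1
        by_contra hne
        have h2 : Disjoint (D i) (D i') := hD.indep.pairwiseDisjoint hne
        rw [h1, disjoint_self] at h2
        exact hDne i' h2
      have hσp : (σ ^ p) j₀ = j₀ := by
        obtain ⟨u, hu, hu0⟩ := (Submodule.ne_bot_iff _).mp (hDne j₀)
        have h1 := hgk p j₀ u hu
        rw [hgp] at h1
        by_contra hne
        have h2 : Disjoint (D ((σ ^ p) j₀)) (D j₀) := hD.indep.pairwiseDisjoint hne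
        have h3 : u ∈ D ((σ ^ p) j₀) ⊓ D j₀ := ⟨h1, hu⟩
        rw [h2.eq_bot, Submodule.mem_bot] at h3
        exact hu0 h3
      have hσk : ∀ k, 0 < k → k < p → (σ ^ k) j₀ ≠ j₀ := by
        intro k hk0 hkp hk
        have hcop : Nat.Coprime k p :=
          Nat.Coprime.symm ((Nat.Prime.coprime_iff_not_dvd hpp).mpr
            (Nat.not_dvd_of_pos_of_lt hk0 hkp))
        obtain ⟨u, -, hu⟩ := Nat.exists_mul_mod_eq_one_of_coprime hcop hpp.one_lt
        have h1 : k * u = p * (k * u / p) + 1 := by
          have := Nat.div_add_mod (k * u) p; omega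
        have h2 : (σ ^ (k * u)) j₀ = j₀ := by
          rw [pow_mul]; exact perm_pow_fix (σ ^ k) j₀ hk u
        rw [h1, pow_succ', Equiv.Perm.mul_apply, pow_mul,
          perm_pow_fix (σ ^ p) j₀ hσp (k * u / p)] at h2
        exact hfix j₀ h2
      have hp1 : p = (p - 1) + 1 := by have := hpp.pos; omega
      have hinj : ∀ d ∈ D j₀, (N ^ (p - 1)) d = 0 → d = 0 := by
        intro d hd h0
        rw [hN, geom_char p g, LinearMap.sum_apply, hp1, Finset.sum_range_succ'] at h0
        simp only [pow_zero, Module.End.one_apply] at h0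
        have hrest : ∑ k ∈ Finset.range (p - 1), (g ^ (k + 1)) d ∈ ⨆ (j) (_ : j ≠ j₀), D j := by
          apply Submodule.sum_mem
          intro k hk
          rw [Finset.mem_range] at hk
          have h1 := hgk (k + 1) j₀ d hd
          exact (le_iSup₂ (f := fun (j : Fin t) (_ : j ≠ j₀) => D j) ((σ ^ (k + 1)) j₀)
            (hσk (k + 1) (by omega) (by omega))) h1
        have hd2 : d = - ∑ k ∈ Finset.range (p - 1), (g ^ (k + 1)) d :=
          eq_neg_of_add_eq_zero_right h0
        have hd3 : d ∈ D j₀ ⊓ ⨆ (j) (_ : j ≠ j₀), D j :=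
          ⟨hd, by rw [hd2]; exact Submodule.neg_mem _ hrest⟩
        rw [(hD.indep j₀).eq_bot, Submodule.mem_bot] at hd3
        exact hd3
      have hfr : finrank F ((D j₀).map (N ^ (p - 1))) = a := by
        have hinj' : Function.Injective ((N ^ (p - 1)).domRestrict (D j₀)) := by
          rw [injective_iff_map_eq_zero]
          intro d hd0
          exact Subtype.ext (hinj d.1 d.2 hd0)
        have h1 := LinearMap.finrank_range_of_inj hinj'
        rw [LinearMap.range_domRestrict, hD.finrank_eq j₀] at h1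
        exact h1
      have hle : (D j₀).map (N ^ (p - 1)) ≤ LinearMap.ker N ⊓ LinearMap.range (N ^ (p - 1)) := by
        rintro _ ⟨d, -, rfl⟩
        refine ⟨?_, d, rfl⟩
        show N ((N ^ (p - 1)) d) = 0
        rw [← Module.End.mul_apply, ← pow_succ', ← hp1, hx2]
        rfl
      have h1 := Submodule.finrank_mono hle
      rw [hfr, hx3 (p - 1)] at h1
      have h2 : Multiset.filter (fun b => p - 1 < b) μ = Multiset.filter (fun b => p = b) μ := by
        apply Multiset.filter_congr
        intro b hb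
        have := (hμ b hb).2
        omega
      rw [h2, ← Multiset.count_eq_card_filter_eq] at h1
      omega


end Cfsg.Agent.S5959
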