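import Cfsg.Statements.S5950
import Mathlib
import Cfsg.Agent.S5949
import Cfsg.Agent.S5959

set_option autoImplicit false
set_option maxHeartbeats 400000
open scoped MatrixGroups
open Cfsg

namespace Cfsg.Agent.S5950

open Polynomial Module

universe u

section count

variable {F : Type*} [Field F] {V : Type*} [AddCommGroup V] [Module F V]

/-- the complements of `U` correspond to the linear maps from a fixed complement to `U` -/
noncomputable def complEquiv (U W₀ : Submodule F V) (h : IsCompl U W₀) :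
    {W : Submodule F V // IsCompl U W} ≃ (W₀ →ₗ[F] U) :=
  (U.isComplEquivProj).trans
    { toFun := fun f => f.1.domRestrict W₀
      invFun := fun φ => ⟨LinearMap.ofIsCompl h LinearMap.id φ, fun x => by
        rw [LinearMap.ofIsCompl_apply_left]; rfl⟩
      left_inv := fun f => by
        apply Subtype.ext
        apply LinearMap.ofIsCompl_eq
        · intro u
          rw [f.2 u]; rfl
        · intro w; rfl
      right_inv := fun φ => by
        ext w
        simp }

theorem card_compl [Fintype F] [FiniteDimensional F V] (U : Submodule F V) :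
    Nat.card {W : Submodule F V // IsCompl U W} =
      Fintype.card F ^ ((finrank F V - finrank F U) * finrank F U) := by
  obtain ⟨W₀, h⟩ := Submodule.exists_isCompl U
  rw [Nat.card_congr (complEquiv U W₀ h), Module.natCard_eq_pow_finrank (K := F),
    Module.finrank_linearMap, Nat.card_eq_fintype_card]
  have h1 := Submodule.finrank_add_eq_of_isCompl h
  have h2 : finrank F W₀ = finrank F V - finrank F U := by omega
  rw [h2]

/-- regrouping pairs by their first component -/
def pairsEquiv (m : ℕ) :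
    {P : Submodule F V × Submodule F V // IsCompl P.1 P.2 ∧ finrank F ↥P.1 = m} ≃
    Σ U : {U : Submodule F V // finrank F ↥U = m}, {W : Submodule F V // IsCompl U.1 W} where
  toFun P := ⟨⟨P.1.1, P.2.2⟩, ⟨P.1.2, P.2.1⟩⟩
  invFun S := ⟨(S.1.1, S.2.1), S.2.2, S.1.2⟩
  left_inv _ := rfl
  right_inv _ := rfl

theorem card_pairs [Fintype F] [FiniteDimensional F V] (m : ℕ) :
    Nat.card {P : Submodule F V × Submodule F V // IsCompl P.1 P.2 ∧ finrank F ↥P.1 = m} =
      Nat.card {U : Submodule F V // finrank F ↥U = m} *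
        Fintype.card F ^ ((finrank F V - m) * m) := by
  classical
  have : Finite V := Module.finite_of_finite F
  have : Fintype {U : Submodule F V // finrank F ↥U = m} := Fintype.ofFinite _
  rw [Nat.card_congr (pairsEquiv m), Nat.card_sigma]
  have h1 : ∀ U : {U : Submodule F V // finrank F ↥U = m},
      Nat.card {W : Submodule F V // IsCompl U.1 W} =
        Fintype.card F ^ ((finrank F V - m) * m) := by
    intro U
    rw [card_compl U.1, U.2]
  rw [Finset.sum_congr rfl (fun U _ => h1 U), Finset.sum_const, Finset.card_univ, smul_eq_mul,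
    Nat.card_eq_fintype_card]

end count

section jordan

variable {F : Type*} [Field F]

/-- split off a cyclic summand with an invariant complement -/
theorem exists_split {V : Type*} [AddCommGroup V] [Module F V] [FiniteDimensional F V]
    (N : V →ₗ[F] V) (p : ℕ) (hN : N ^ p = 0) (hV : 0 < finrank F V) :
    ∃ Z W : Submodule F V, IsCompl Z W ∧ (∀ z ∈ Z, N z ∈ Z) ∧ (∀ w ∈ W, N w ∈ W) ∧
      0 < finrank F Z ∧ finrank F Z ≤ p := by
  classical
  have hex : ∃ k, N ^ k = 0 := ⟨p, hN⟩
  obtain ⟨e, he⟩ : ∃ e, e = Nat.find hex := ⟨_, rfl⟩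
  have he0 : N ^ e = 0 := he ▸ Nat.find_spec hex
  have hep : e ≤ p := he ▸ Nat.find_min' hex hN
  have hnt : Nontrivial V := Module.finrank_pos_iff.mp hV
  have he1 : e ≠ 0 := by
    intro h
    rw [h, pow_zero] at he0
    obtain ⟨v, hv⟩ := exists_ne (0 : V)
    have h1 := LinearMap.congr_fun he0 v
    exact hv h1
  have hne : N ^ (e - 1) ≠ 0 := by
    intro h
    have h1 := Nat.find_min' hex h
    omega
  obtain ⟨v, hv⟩ : ∃ v, (N ^ (e - 1)) v ≠ 0 := by
    by_contra hcon
    push Not at hcon
    exact hne (LinearMap.ext hcon)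
  obtain ⟨φ, hφ⟩ : ∃ φ : Module.Dual F V, φ ((N ^ (e - 1)) v) ≠ 0 := by
    by_contra hcon
    push Not at hcon
    exact hv ((Module.forall_dual_apply_eq_zero_iff F _).mp hcon)
  have hzero : ∀ k, e ≤ k → ∀ w, (N ^ k) w = 0 := by
    intro k hk w
    obtain ⟨d, rfl⟩ := Nat.exists_eq_add_of_le hk
    rw [pow_add, he0, zero_mul]; rfl
  let Φ : V →ₗ[F] (Fin e → F) := LinearMap.pi (fun j : Fin e => φ ∘ₗ (N ^ (j : ℕ)))
  let Ψ : (Fin e → F) →ₗ[F] V := Fintype.linearCombination F (fun j : Fin e => (N ^ (j : ℕ)) v)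
  have hΦ : ∀ w (j : Fin e), Φ w j = φ ((N ^ (j : ℕ)) w) := fun w j => rfl
  have hΨ : ∀ c, Ψ c = ∑ j : Fin e, c j • (N ^ (j : ℕ)) v := fun c => by
    rw [Fintype.linearCombination_apply]
  have hinj : ∀ c, Φ (Ψ c) = 0 → c = 0 := by
    intro c hc
    have key : ∀ i : ℕ, ∀ hi : i < e, c ⟨i, hi⟩ = 0 := by
      intro i
      induction i using Nat.strong_induction_on with
      | _ i ih =>
        intro hi
        have h1 := congrFun hc ⟨e - 1 - i, by omega⟩
        rw [hΦ, hΨ, map_sum, map_sum] at h1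
        rw [Finset.sum_eq_single ⟨i, hi⟩] at h1
        · rw [map_smul, map_smul, ← Module.End.mul_apply, ← pow_add] at h1
          have h2 : e - 1 - i + i = e - 1 := by omega
          simp only [h2, Pi.zero_apply, smul_eq_mul] at h1
          exact (mul_eq_zero.mp h1).resolve_right hφ
        · intro j _ hj
          rcases Nat.lt_or_ge j.val i with hlt | hge
          · have := ih j.val hlt j.isLt
            rw [Fin.eta] at this
            rw [this, zero_smul, map_zero, map_zero]
          · have hji : i < j.val := by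
              rcases Nat.lt_or_eq_of_le hge with h | h
              · exact h
              · exact absurd (Fin.ext h.symm) hj
            rw [map_smul, ← Module.End.mul_apply, ← pow_add, hzero _ (by simp only []; omega),
              smul_zero, map_zero]
        · intro h; exact absurd (Finset.mem_univ _) h
    funext j
    exact key j.val j.isLt
  have hsurj : Function.Surjective (Φ ∘ₗ Ψ) := by
    apply LinearMap.injective_iff_surjective.mp
    rw [injective_iff_map_eq_zero]
    intro c hc
    exact hinj c hc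
  have hmemZ : ∀ j, j < e → (N ^ j) v ∈ LinearMap.range Ψ := by
    intro j hj
    refine ⟨Pi.single ⟨j, hj⟩ 1, ?_⟩
    show Fintype.linearCombination F (fun j : Fin e => (N ^ (j : ℕ)) v) (Pi.single ⟨j, hj⟩ 1) = _
    rw [Fintype.linearCombination_apply_single, one_smul]
  refine ⟨LinearMap.range Ψ, LinearMap.ker Φ, ⟨?_, ?_⟩, ?_, ?_, ?_, ?_⟩
  · rw [Submodule.disjoint_def]
    rintro x ⟨c, rfl⟩ hx
    have h1 : Φ (Ψ c) = 0 := hx
    rw [hinj c h1, map_zero]
  · rw [codisjoint_iff, Submodule.eq_top_iff']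
    intro x
    obtain ⟨c, hc⟩ := hsurj (Φ x)
    rw [Submodule.mem_sup]
    refine ⟨Ψ c, ⟨c, rfl⟩, x - Ψ c, ?_, by abel⟩
    show Φ (x - Ψ c) = 0
    rw [map_sub, ← hc]
    exact sub_self _
  · rintro _ ⟨c, rfl⟩
    rw [hΨ, map_sum]
    apply Submodule.sum_mem
    intro j _
    rw [map_smul]
    apply Submodule.smul_mem
    rw [← Module.End.mul_apply, ← pow_succ']
    rcases Nat.lt_or_ge (j.val + 1) e with h | h
    · exact hmemZ _ h
    · rw [hzero _ h]; exact Submodule.zero_mem _
  · intro w hw
    have hw' : Φ w = 0 := hw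
    show Φ (N w) = 0
    funext j
    rw [hΦ, ← Module.End.mul_apply, ← pow_succ]
    rcases Nat.lt_or_ge (j.val + 1) e with h | h
    · have := congrFun hw' ⟨j.val + 1, h⟩
      rw [hΦ] at this
      exact this
    · rw [hzero _ h, map_zero]; rfl
  · rw [Module.finrank_pos_iff_exists_ne_zero]
    refine ⟨⟨v, ?_⟩, ?_⟩
    · have := hmemZ 0 (by omega)
      rwa [pow_zero] at this
    · intro h
      have h1 : v = 0 := congrArg Subtype.val h
      rw [h1, map_zero] at hv
      exact hv rfl
  · calc finrank F (LinearMap.range Ψ) ≤ finrank F (Fin e → F) := LinearMap.finrank_range_le Ψ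
      _ = e := by simp
      _ ≤ p := hep

/-- lifting a complementary pair from a direct summand -/
theorem compl_lift {V : Type*} [AddCommGroup V] [Module F V]
    (Z W₁ : Submodule F V) (hc : IsCompl Z W₁) (U' W' : Submodule F W₁) (hc' : IsCompl U' W') :
    IsCompl (U'.map W₁.subtype ⊔ Z) (W'.map W₁.subtype) := by
  constructor
  · rw [Submodule.disjoint_def]
    rintro x hx ⟨w, hw, rfl⟩
    obtain ⟨u, ⟨u', hu', rfl⟩, z, hz, hxe⟩ := Submodule.mem_sup.mp hx
    have hxe' : (u' : V) + z = (w : V) := hxe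
    have hz1 : z ∈ W₁ := by
      have : z = (w : V) - (u' : V) := by
        rw [← hxe']; abel
      rw [this]
      exact Submodule.sub_mem _ w.2 u'.2
    have hz0 : z = 0 := by
      have h1 : z ∈ Z ⊓ W₁ := ⟨hz, hz1⟩
      rw [hc.inf_eq_bot, Submodule.mem_bot] at h1
      exact h1
    rw [hz0, add_zero] at hxe'
    have h2 : u' = w := Subtype.ext hxe'
    have h3 : w ∈ U' ⊓ W' := ⟨h2 ▸ hu', hw⟩
    rw [hc'.inf_eq_bot, Submodule.mem_bot] at h3
    rw [h3]; simp
  · rw [codisjoint_iff, Submodule.eq_top_iff']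
    intro x
    have hx : x ∈ Z ⊔ W₁ := by rw [hc.sup_eq_top]; exact Submodule.mem_top
    obtain ⟨z, hz, w₁, hw₁, rfl⟩ := Submodule.mem_sup.mp hx
    have hw : (⟨w₁, hw₁⟩ : W₁) ∈ U' ⊔ W' := by rw [hc'.sup_eq_top]; exact Submodule.mem_top
    obtain ⟨u', hu', w', hw', he⟩ := Submodule.mem_sup.mp hw
    have he' : (u' : V) + (w' : V) = w₁ := congrArg Subtype.val he
    rw [Submodule.mem_sup]
    refine ⟨(u' : V) + z, Submodule.add_mem _ (Submodule.mem_sup_left ⟨u', hu', rfl⟩)
      (Submodule.mem_sup_right hz), (w' : V), ⟨w', hw', rfl⟩, ?_⟩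
    rw [← he']; abel

theorem exists_decomp (p : ℕ) : ∀ (d : ℕ) (V : Type u) [AddCommGroup V] [Module F V]
    [FiniteDimensional F V] (N : V →ₗ[F] V), N ^ p = 0 → finrank F V = d →
    ∃ μ : Multiset ℕ, (∀ a ∈ μ, 0 < a ∧ a ≤ p) ∧ μ.sum = d ∧
      ∀ ν ≤ μ, ∃ U W : Submodule F V, IsCompl U W ∧ finrank F U = ν.sum ∧
        (∀ u ∈ U, N u ∈ U) ∧ (∀ w ∈ W, N w ∈ W) := by
  intro d
  induction d using Nat.strong_induction_on with
  | _ d ih =>
    intro V _ _ _ N hN hd
    rcases Nat.eq_zero_or_pos d with h0 | hpos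
    · refine ⟨0, by simp, by simp [h0], ?_⟩
      intro ν hν
      have hν0 : ν = 0 := by simpa using hν
      subst hν0
      exact ⟨⊥, ⊤, isCompl_bot_top, by simp, by simp, by simp⟩
    · obtain ⟨Z, W₁, hc, hZ, hW₁, hZ0, hZp⟩ := exists_split N p hN (hd ▸ hpos)
      have hdim : finrank F Z + finrank F W₁ = finrank F V :=
        Submodule.finrank_add_eq_of_isCompl hc
      obtain ⟨N', hN'def⟩ : ∃ N' : W₁ →ₗ[F] W₁, N' = N.restrict hW₁ := ⟨_, rfl⟩
      have hN'app : ∀ w : W₁, ((N' w : W₁) : V) = N w := fun w => by rw [hN'def]; rfl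
      have hN'k : ∀ k, ∀ w : W₁, (((N' ^ k) w : W₁) : V) = (N ^ k) w := by
        intro k
        induction k with
        | zero => intro w; rfl
        | succ k ihk =>
          intro w
          rw [pow_succ', Module.End.mul_apply, hN'app, ihk, pow_succ' N, Module.End.mul_apply]
      have hN' : N' ^ p = 0 := by
        ext w
        rw [hN'k, hN]; rfl
      obtain ⟨μ', hμ'1, hμ'2, hμ'3⟩ := ih (finrank F W₁) (by omega) W₁ N' hN' rfl
      have hmapinv : ∀ U' : Submodule F W₁, (∀ u ∈ U', N' u ∈ U') →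
          ∀ u ∈ U'.map W₁.subtype, N u ∈ U'.map W₁.subtype := by
        rintro U' hU' _ ⟨u, hu, rfl⟩
        exact ⟨N' u, hU' u hu, hN'app u⟩
      have hsupinv : ∀ U : Submodule F V, (∀ u ∈ U, N u ∈ U) → ∀ u ∈ U ⊔ Z, N u ∈ U ⊔ Z := by
        intro U hU u hu
        obtain ⟨a, ha, b, hb, rfl⟩ := Submodule.mem_sup.mp hu
        rw [map_add]
        exact Submodule.add_mem _ (Submodule.mem_sup_left (hU a ha))
          (Submodule.mem_sup_right (hZ b hb))
      have hfrsup : ∀ U' : Submodule F W₁,
          finrank F ↥(U'.map W₁.subtype ⊔ Z) = finrank F U' + finrank F Z := by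
        intro U'
        have h1 := Submodule.finrank_sup_add_finrank_inf_eq (U'.map W₁.subtype) Z
        have h2 : U'.map W₁.subtype ⊓ Z = ⊥ := by
          rw [eq_bot_iff]
          rintro x ⟨⟨u, hu, rfl⟩, hx2⟩
          have h3 : (u : V) ∈ Z ⊓ W₁ := ⟨hx2, u.2⟩
          rw [hc.inf_eq_bot] at h3
          exact h3
        rw [h2, finrank_bot, add_zero, Submodule.finrank_map_subtype_eq] at h1
        exact h1
      refine ⟨finrank F Z ::ₘ μ', ?_, ?_, ?_⟩
      · intro a ha
        rcases Multiset.mem_cons.mp ha with rfl | ha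
        · exact ⟨hZ0, hZp⟩
        · exact hμ'1 a ha
      · rw [Multiset.sum_cons, hμ'2, hdim, hd]
      · intro ν hν
        by_cases hmem : finrank F Z ∈ ν
        · obtain ⟨ν', rfl⟩ := Multiset.exists_cons_of_mem hmem
          have hν' : ν' ≤ μ' := (Multiset.cons_le_cons_iff _).mp hν
          obtain ⟨U', W', hc', hU'd, hU'i, hW'i⟩ := hμ'3 ν' hν'
          refine ⟨U'.map W₁.subtype ⊔ Z, W'.map W₁.subtype, compl_lift Z W₁ hc U' W' hc', ?_,
            hsupinv _ (hmapinv U' hU'i), hmapinv W' hW'i⟩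
          rw [hfrsup, hU'd, Multiset.sum_cons, add_comm]
        · have hν' : ν ≤ μ' := (Multiset.le_cons_of_notMem hmem).mp hν
          obtain ⟨U', W', hc', hU'd, hU'i, hW'i⟩ := hμ'3 ν hν'
          refine ⟨U'.map W₁.subtype, W'.map W₁.subtype ⊔ Z,
            (compl_lift Z W₁ hc W' U' hc'.symm).symm, ?_,
            hmapinv U' hU'i, hsupinv _ (hmapinv W' hW'i)⟩
          rw [Submodule.finrank_map_subtype_eq, hU'd]

end jordan

section arith

theorem part_two (n m p : ℕ) (hp : p = 2) (hmn : 2 * m < n) :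
    (∀ μ : Multiset ℕ, (∀ a ∈ μ, 0 < a ∧ a ≤ p) → μ.sum = n →
      ∃ ν : Multiset ℕ, ν ≤ μ ∧ ν.sum = m) ↔ (Odd n ∨ Even m) := by
  subst hp
  constructor
  · intro h
    by_contra hcon
    push Not at hcon
    obtain ⟨h1, h2⟩ := hcon
    rw [Nat.not_odd_iff_even] at h1
    rw [Nat.not_even_iff_odd] at h2
    obtain ⟨a, ha⟩ := h1
    obtain ⟨b, hb⟩ := h2
    obtain ⟨ν, hν1, hν2⟩ := h (Multiset.replicate a 2) (by
      intro c hc; rw [Multiset.eq_of_mem_replicate hc]; omega) (by simp; omega)
    obtain ⟨k, -, rfl⟩ := Multiset.le_replicate_iff.mp hν1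
    simp at hν2
    omega
  · intro h μ hμ hsum
    have hμeq : μ = Multiset.replicate (μ.count 1) 1 + Multiset.replicate (μ.count 2) 2 := by
      ext c
      rw [Multiset.count_add, Multiset.count_replicate, Multiset.count_replicate]
      by_cases h1 : c = 1
      · subst h1; simp
      · by_cases h2 : c = 2
        · subst h2; simp
        · have hc : c ∉ μ := fun hc => by have := hμ c hc; omega
          rw [Multiset.count_eq_zero.mpr hc, if_neg (by omega), if_neg (by omega)]
    obtain ⟨a, ha⟩ : ∃ a, a = μ.count 1 := ⟨_, rfl⟩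
    obtain ⟨b, hb⟩ : ∃ b, b = μ.count 2 := ⟨_, rfl⟩
    rw [← ha, ← hb] at hμeq
    have hs : a + b * 2 = n := by
      rw [← hsum]; conv_rhs => rw [hμeq]
      simp
    refine ⟨Multiset.replicate (m - 2 * min b (m / 2)) 1 + Multiset.replicate (min b (m / 2)) 2,
      ?_, ?_⟩
    · rw [hμeq]
      apply add_le_add
      · apply (Multiset.replicate_le_replicate 1).mpr
        rcases h with ⟨k, hk⟩ | ⟨j, hj⟩ <;> omega
      · apply (Multiset.replicate_le_replicate 2).mpr
        exact min_le_left _ _
    · simp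
      omega

end arith

/-- Elements of prime order of PSL_n(q) fixing no decomposition `F^n = U ⊕ W` with `dim U = m`. Here `T = PSL_n(F)` for a field `F` with `q = p^f` elements (`n ≥ 2`, `(n, q) ≠ (2, 2), (2, 3)`); an element of `T` of prime order `r` is represented by a matrix `x` of determinant 1 with `x^r` scalar and `x` not scalar; `i` denotes the multiplicative order of `q` modulo `r` (when `r ≠ p`), and `(a)_r` the `r`-part of `a`. Let `n ≥ 3`, `1 ≤ m < n/2`, and let `r` be a prime dividing the number of such decompositions (unordered pairs `{U, W}` of complementary subspaces with `dim U = m`; since `m ≠ n − m` these are the ordered pairs with `dim U = m`). Then every element of `T` of order `r` fixes such a pair (fixes both `U` and `W` for some complementary `U, W` with `dim U = m`) if and only if one of: (i) `r = p > 2` and every partition of `n` into parts of size at most `p` contains, as a sub-multiset, a partition of `m`; (ii) `r = p = 2` and `n` is odd or `m` is even; (iii) `r ≠ p`,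 `i = 1`, and `r ∣ m` or `(q−1)_r ≥ (n)_r` (with `q ≡ 1 (mod 4)` required when `r = 2` and `n` is even); (iv) `r ≠ p`, `2 ≤ i ≤ m` and `n mod i ≥ m mod i`. -/
theorem result {F : Type*} [Field F] [Fintype F] {p : ℕ} [Fact p.Prime] [CharP F p] {q : ℕ} (hq : Fintype.card F = q)
    (n m : ℕ) (hn : 3 ≤ n) (hm : 1 ≤ m) (hmn : 2 * m < n)
    (r : ℕ) [Fact r.Prime]
    (hrΩ : r ∣ Nat.card {P : Submodule F (Fin n → F) × Submodule F (Fin n → F) // IsCompl P.1 P.2 ∧ Module.finrank F ↥P.1 = m}) :
    (∀ x : Matrix.SpecialLinearGroup (Fin n) F,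
      (∃ c : F, ((x ^ r : Matrix.SpecialLinearGroup (Fin n) F) : Matrix (Fin n) (Fin n) F) = c • (1 : Matrix (Fin n) (Fin n) F)) →
      (∀ c : F, (x : Matrix (Fin n) (Fin n) F) ≠ c • (1 : Matrix (Fin n) (Fin n) F)) →
      ∃ U W : Submodule F (Fin n → F), IsCompl U W ∧ Module.finrank F ↥U = m ∧
        U.map (Matrix.toLin' (x : Matrix (Fin n) (Fin n) F)) ≤ U ∧ W.map (Matrix.toLin' (x : Matrix (Fin n) (Fin n) F)) ≤ W) ↔
    ((r = p ∧ 2 < p ∧ (∀ μ : Multiset ℕ, (∀ a ∈ μ, 0 < a ∧ a ≤ p) → μ.sum = n → ∃ ν : Multiset ℕ, ν ≤ μ ∧ ν.sum = m)) ∨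
     (r = p ∧ p = 2 ∧ (Odd n ∨ Even m)) ∨
     (r ≠ p ∧
      ((orderOf (q : ZMod r) = 1 ∧ (r ∣ m ∨ (padicValNat r n ≤ padicValNat r (q - 1) ∧ (r = 2 → Even n → q % 4 = 1)))) ∨
       (2 ≤ orderOf (q : ZMod r) ∧ orderOf (q : ZMod r) ≤ m ∧ m % orderOf (q : ZMod r) ≤ n % orderOf (q : ZMod r))))) := by
  classical
  have hpp := (Fact.out : p.Prime)
  have hrp := (Fact.out : r.Prime)
  have hfr : finrank F (Fin n → F) = n := by simp
  by_cases hr : r = p
  · have key : (∀ x : Matrix.SpecialLinearGroup (Fin n) F,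
      (∃ c : F, ((x ^ r : Matrix.SpecialLinearGroup (Fin n) F) : Matrix (Fin n) (Fin n) F) = c • (1 : Matrix (Fin n) (Fin n) F)) →
      (∀ c : F, (x : Matrix (Fin n) (Fin n) F) ≠ c • (1 : Matrix (Fin n) (Fin n) F)) →
      ∃ U W : Submodule F (Fin n → F), IsCompl U W ∧ Module.finrank F ↥U = m ∧
        U.map (Matrix.toLin' (x : Matrix (Fin n) (Fin n) F)) ≤ U ∧ W.map (Matrix.toLin' (x : Matrix (Fin n) (Fin n) F)) ≤ W) ↔
      (∀ μ : Multiset ℕ, (∀ a ∈ μ, 0 < a ∧ a ≤ p) → μ.sum = n →
        ∃ ν : Multiset ℕ, ν ≤ μ ∧ ν.sum = m) := by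
      constructor
      · intro h μ hμ hsum
        by_cases hones : ∀ b ∈ μ, b = 1
        · refine ⟨Multiset.replicate m 1, ?_, by simp⟩
          have h1 : μ = Multiset.replicate (Multiset.card μ) 1 :=
            Multiset.eq_replicate_card.mpr hones
          have h2 : Multiset.card μ = n := by
            rw [← hsum]; conv_rhs => rw [h1]
            simp
          rw [h1, h2]
          apply (Multiset.replicate_le_replicate 1).mpr
          omega
        · push Not at hones
          obtain ⟨b₀, hb₀, hb₀1⟩ := hones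
          obtain ⟨x, hx1, hx2, hx3⟩ := S5959.exists_unipotent (F := F) p n μ hμ hsum
          obtain ⟨g, hg⟩ : ∃ g : Module.End F (Fin n → F),
              g = Matrix.toLin' (x : Matrix (Fin n) (Fin n) F) := ⟨_, rfl⟩
          rw [← hg] at hx2 hx3
          obtain ⟨N, hN⟩ : ∃ N : Module.End F (Fin n → F), N = g - 1 := ⟨_, rfl⟩
          rw [← hN] at hx2 hx3
          have hgN : ∀ v, N v = g v - v := fun v => by rw [hN]; rfl
          have hns : ∀ z : F, (x : Matrix (Fin n) (Fin n) F) ≠ z • 1 := by
            intro z hz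
            have hNz : ∀ v, N v = (z - 1) • v := by
              intro v
              rw [hgN, hg, hz, sub_smul, one_smul]
              simp
            have h1 := hx3 1
            have h2 : 0 < Multiset.card (μ.filter (fun a => 1 < a)) := by
              apply Multiset.card_pos_iff_exists_mem.mpr
              exact ⟨b₀, Multiset.mem_filter.mpr ⟨hb₀, by have := (hμ b₀ hb₀).1; omega⟩⟩
            have h3 : LinearMap.ker N ⊓ LinearMap.range (N ^ 1) = ⊥ := by
              rw [eq_bot_iff]
              rintro v ⟨hv1, u, rfl⟩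
              rw [Submodule.mem_bot]
              have hv2 : N ((N ^ 1) u) = 0 := hv1
              rw [pow_one] at hv2 ⊢
              rw [hNz] at hv2
              by_cases hz1 : z - 1 = 0
              · rw [hNz, hz1, zero_smul]
              · exact (smul_eq_zero.mp hv2).resolve_left hz1
            rw [h3, finrank_bot] at h1
            omega
          obtain ⟨U, W, hc, hUd, hUi, hWi⟩ := h x ⟨1, by rw [hr, hx1, one_smul]⟩ hns
          rw [← hg] at hUi hWi
          have hU : ∀ u ∈ U, N u ∈ U := fun u hu => by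
            rw [hgN]; exact Submodule.sub_mem _ (hUi ⟨u, hu, rfl⟩) hu
          have hW : ∀ w ∈ W, N w ∈ W := fun w hw => by
            rw [hgN]; exact Submodule.sub_mem _ (hWi ⟨w, hw, rfl⟩) hw
          obtain ⟨ν, hν1, hν2⟩ := S5959.lemK N p hx2 U W hU hW hc μ hx3
          exact ⟨ν, hν1, by rw [hν2, hUd]⟩
      · intro hP x ⟨c, hxc⟩ _
        obtain ⟨b, hb⟩ : ∃ b : F, b ^ p = c := by
          obtain ⟨b, hb⟩ := Finite.surjective_of_injective (frobenius_inj F p) c
          exact ⟨b, by rw [← hb, frobenius_def]⟩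
        obtain ⟨g, hg⟩ : ∃ g : Module.End F (Fin n → F),
            g = Matrix.toLin' (x : Matrix (Fin n) (Fin n) F) := ⟨_, rfl⟩
        rw [← hg]
        have hgr : g ^ p = c • (1 : Module.End F (Fin n → F)) := by
          have h1 : (x : Matrix (Fin n) (Fin n) F) ^ p = c • 1 := by
            rw [← Matrix.SpecialLinearGroup.coe_pow, ← hr]; exact hxc
          have h2 := congrArg (Matrix.toLinAlgEquiv' (R := F) (n := Fin n)) h1
          rw [map_pow, map_smul, map_one] at h2
          rw [hg]; exact h2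
        obtain ⟨N, hN⟩ : ∃ N : Module.End F (Fin n → F), N = g - b • 1 := ⟨_, rfl⟩
        have hNp : N ^ p = 0 := by
          have hpoly : ((X : F[X]) - C b) ^ p = X ^ p - C (b ^ p) := by
            rw [sub_pow_char, ← C_pow]
          have h4 := congrArg (aeval g) hpoly
          rw [map_pow, map_sub, map_sub, aeval_X, aeval_C, map_pow, aeval_X, aeval_C,
            Algebra.algebraMap_eq_smul_one, Algebra.algebraMap_eq_smul_one] at h4
          rw [hN, h4, hgr, hb]; exact sub_self _
        have hgN : ∀ v, g v = N v + b • v := fun v => by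
          rw [hN]; simp
        obtain ⟨μ, hμ1, hμ2, hμ3⟩ := exists_decomp (F := F) p n (Fin n → F) N hNp hfr
        obtain ⟨ν, hν1, hν2⟩ := hP μ hμ1 hμ2
        obtain ⟨U, W, hc, hUd, hUi, hWi⟩ := hμ3 ν hν1
        refine ⟨U, W, hc, by rw [hUd, hν2], ?_, ?_⟩
        · rintro _ ⟨u, hu, rfl⟩
          rw [hgN]; exact U.add_mem (hUi u hu) (U.smul_mem b hu)
        · rintro _ ⟨w, hw, rfl⟩
          rw [hgN]; exact W.add_mem (hWi w hw) (W.smul_mem b hw)
    rw [key]
    constructor
    · intro hP
      by_cases h2 : p = 2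
      · right; left
        exact ⟨hr, h2, (part_two n m p h2 hmn).mp hP⟩
      · left
        exact ⟨hr, by have := hpp.two_le; omega, hP⟩
    · rintro (⟨-, -, hP⟩ | ⟨-, h2, hP⟩ | ⟨hne, -⟩)
      · exact hP
      · exact (part_two n m p h2 hmn).mpr hP
      · exact absurd hr hne
  · have hcount := card_pairs (F := F) (V := Fin n → F) m
    rw [hfr] at hcount
    have hrΩ' : r ∣ Nat.card {W : Submodule F (Fin n → F) // finrank F ↥W = m} := by
      rw [hcount] at hrΩ
      rcases (Nat.Prime.dvd_mul hrp).mp hrΩ with h | h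
      · exact h
      · exfalso
        have h1 := hrp.dvd_of_dvd_pow h
        obtain ⟨f, -, hf⟩ := FiniteField.card F p
        rw [hf] at h1
        have h2 := hrp.dvd_of_dvd_pow h1
        exact hr ((Nat.prime_dvd_prime_iff_eq hrp hpp).mp h2)
    have h49 := S5949.result hq n m (by omega)
      ⟨fun h => by have := (Prod.mk.inj h).1; omega, fun h => by have := (Prod.mk.inj h).1; omega⟩
      hm (by omega) r hrΩ'
    constructor
    · intro h
      right; right
      apply h49.mp
      intro x hx1 hx2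
      obtain ⟨U, W, hc, hU, hUi, hWi⟩ := h x hx1 hx2
      exact ⟨U, hU, hUi⟩
    · rintro (⟨h1, -⟩ | ⟨h1, -⟩ | hC)
      · exact absurd h1 hr
      · exact absurd h1 hr
      · intro x hx1 hx2
        obtain ⟨U, hU, hUi⟩ := h49.mpr hC x hx1 hx2
        obtain ⟨c, hxc⟩ := hx1
        obtain ⟨g, hg⟩ : ∃ g : Module.End F (Fin n → F),
            g = Matrix.toLin' (x : Matrix (Fin n) (Fin n) F) := ⟨_, rfl⟩
        rw [← hg] at hUi ⊢
        have hgr : g ^ r = c • (1 : Module.End F (Fin n → F)) := by
          have h1 : (x : Matrix (Fin n) (Fin n) F) ^ r = c • 1 := by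
            rw [← Matrix.SpecialLinearGroup.coe_pow]; exact hxc
          have h2 := congrArg (Matrix.toLinAlgEquiv' (R := F) (n := Fin n)) h1
          rw [map_pow, map_smul, map_one] at h2
          rw [hg]; exact h2
        have hc0 : c ≠ 0 := by
          rintro rfl
          have h1 := (x ^ r).det_coe
          have : Nonempty (Fin n) := ⟨⟨0, by omega⟩⟩
          rw [hxc, zero_smul, Matrix.det_zero] at h1
          exact zero_ne_one h1
        have hrF : (r : F) ≠ 0 := by
          intro h
          have h1 := (CharP.cast_eq_zero_iff F p r).mp h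
          exact hr ((Nat.prime_dvd_prime_iff_eq hpp hrp).mp h1).symm
        have hss : Module.End.IsSemisimple g := by
          apply Module.End.isSemisimple_of_squarefree_aeval_eq_zero (p := X ^ r - C c)
          · exact (separable_X_pow_sub_C c hrF hc0).squarefree
          · rw [map_sub, map_pow, aeval_X, aeval_C, Algebra.algebraMap_eq_smul_one, hgr]
            exact sub_self _
        have hUi' : ∀ u ∈ U, g u ∈ U := fun u hu => hUi ⟨u, hu, rfl⟩
        obtain ⟨W, hW, hcompl⟩ := (Module.End.isSemisimple_iff.mp hss) U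
          ((Module.End.mem_invtSubmodule_iff_forall_mem_of_mem g).mpr hUi')
        have hW' : ∀ w ∈ W, g w ∈ W :=
          (Module.End.mem_invtSubmodule_iff_forall_mem_of_mem g).mp hW
        exact ⟨U, W, hcompl, hU, hUi, by rintro _ ⟨w, hw, rfl⟩; exact hW' w hw⟩


end Cfsg.Agent.S5950
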