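import Cfsg.Statements.S5951
import Mathlib
import Cfsg.Agent.S5949

set_option autoImplicit false
set_option maxHeartbeats 400000
open scoped MatrixGroups
open Cfsg

namespace Cfsg.Agent.S5951

open Polynomial Module

section gen

variable {F : Type*} [Field F] {V : Type*} [AddCommGroup V] [Module F V] [FiniteDimensional F V]

theorem iterate_step (P : Submodule F V → Prop) (s bound : ℕ)
    (hstep : ∀ W, P W → finrank F W + s ≤ bound →
      ∃ W', W ≤ W' ∧ P W' ∧ finrank F W' = finrank F W + s)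
    (W₀ : Submodule F V) (h₀ : P W₀) :
    ∀ k, finrank F W₀ + s * k ≤ bound →
      ∃ W, W₀ ≤ W ∧ P W ∧ finrank F W = finrank F W₀ + s * k := by
  intro k
  induction k with
  | zero => intro _; exact ⟨W₀, le_rfl, h₀, by simp⟩
  | succ k ih =>
    intro hk
    rw [Nat.mul_succ] at hk
    obtain ⟨W, h1, h2, h3⟩ := ih (by omega)
    obtain ⟨W', h4, h5, h6⟩ := hstep W h2 (by omega)
    exact ⟨W', h1.trans h4, h5, by rw [h6, h3, Nat.mul_succ]; ring⟩

theorem sub_ext (A B : Submodule F V) (hAB : A ≤ B) :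
    ∀ k, finrank F A + k ≤ finrank F B →
      ∃ A' : Submodule F V, A ≤ A' ∧ A' ≤ B ∧ finrank F A' = finrank F A + k := by
  intro k
  induction k with
  | zero => intro _; exact ⟨A, le_rfl, hAB, rfl⟩
  | succ k ih =>
    intro hk
    obtain ⟨A', h1, h2, h3⟩ := ih (by omega)
    have hne : A' ≠ B := by intro h; rw [h] at h3; omega
    obtain ⟨v, hvB, hvA⟩ : ∃ v ∈ B, v ∉ A' := by
      by_contra hcon; push Not at hcon
      exact hne (le_antisymm h2 hcon)
    obtain ⟨-, h4⟩ := S5949.ext_one (0 : V →ₗ[F] V) A' (fun w _ => by simp) v hvA 0 (by simp)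
    exact ⟨A' ⊔ Submodule.span F {v}, h1.trans le_sup_left,
      sup_le h2 ((Submodule.span_singleton_le_iff_mem v B).mpr hvB), by rw [h4, h3]; ring⟩

theorem step_one [Fintype F] (f : V →ₗ[F] V) (hf : f ^ Fintype.card F = f)
    (W : Submodule F V) (hW : ∀ w ∈ W, f w ∈ W) (hlt : finrank F W + 1 ≤ finrank F V) :
    ∃ W', W ≤ W' ∧ (∀ w ∈ W', f w ∈ W') ∧ finrank F W' = finrank F W + 1 := by
  classical
  have hWtop : W ≠ ⊤ := by
    intro h; rw [h, finrank_top] at hlt; omega
  obtain ⟨v₀, hv₀⟩ : ∃ v, v ∉ W := by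
    by_contra hcon; push Not at hcon
    exact hWtop (eq_top_iff.mpr fun x _ => hcon x)
  by_contra hno
  have key : ∀ v, v ∉ W → ∀ μ : F, f v - μ • v ∉ W := by
    intro v hv μ hμ
    obtain ⟨h1, h2⟩ := S5949.ext_one f W hW v hv μ hμ
    exact hno ⟨_, le_sup_left, h1, h2⟩
  have hS : ∀ S : Finset F, aeval f (∏ a ∈ S, (X - C a)) v₀ ∉ W := by
    intro S
    induction S using Finset.induction_on with
    | empty => simpa using hv₀
    | insert a S ha ih2 =>
      rw [Finset.prod_insert ha, map_mul, Module.End.mul_apply]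
      have := key _ ih2 a
      simpa [sub_smul] using this
  have := hS Finset.univ
  rw [S5949.prod_all] at this
  apply this
  simp [hf]

theorem step_r (f : V →ₗ[F] V) (r : ℕ) (hr : r ≠ 0) (c : F)
    (hirr : Irreducible (X ^ r - C c : F[X]))
    (hf : f ^ r = c • (1 : Module.End F V)) (W : Submodule F V) (hW : ∀ w ∈ W, f w ∈ W)
    (hlt : finrank F W + r ≤ finrank F V) :
    ∃ W', W ≤ W' ∧ (∀ w ∈ W', f w ∈ W') ∧ finrank F W' = finrank F W + r := by
  have hr0 := Nat.pos_of_ne_zero hr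
  have hWtop : W ≠ ⊤ := by
    intro h; rw [h, finrank_top] at hlt; omega
  obtain ⟨v, hv⟩ : ∃ v, v ∉ W := by
    by_contra hcon; push Not at hcon
    exact hWtop (eq_top_iff.mpr fun x _ => hcon x)
  let Z : Submodule F V := Submodule.span F (Set.range (fun j : Fin r => (f ^ j.val) v))
  have hZ : ∀ w ∈ Z, f w ∈ Z := by
    intro w hw
    induction hw using Submodule.span_induction with
    | mem x hx =>
      obtain ⟨j, rfl⟩ := hx
      by_cases hj : j.val + 1 < r
      · have : f ((f ^ j.val) v) = (f ^ (⟨j.val + 1, hj⟩ : Fin r).val) v := by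
          simp [pow_succ', Module.End.mul_apply]
        rw [this]; exact Submodule.subset_span ⟨_, rfl⟩
      · have hj' : j.val + 1 = r := by have := j.2; omega
        have : f ((f ^ j.val) v) = c • (f ^ (⟨0, hr0⟩ : Fin r).val) v := by
          rw [← Module.End.mul_apply, ← pow_succ', hj', hf]; simp
        rw [this]; exact Submodule.smul_mem _ _ (Submodule.subset_span ⟨_, rfl⟩)
    | zero => rw [map_zero]; exact Submodule.zero_mem _
    | add x y _ _ hx hy => rw [map_add]; exact Submodule.add_mem _ hx hy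
    | smul a x _ hx => rw [map_smul]; exact Submodule.smul_mem _ _ hx
  have hWZ : ∀ w ∈ W ⊔ Z, f w ∈ W ⊔ Z := by
    intro w hw
    obtain ⟨a, ha, b, hb, rfl⟩ := Submodule.mem_sup.mp hw
    rw [map_add]
    exact Submodule.add_mem _ (Submodule.mem_sup_left (hW a ha))
      (Submodule.mem_sup_right (hZ b hb))
  have hvZ : v ∈ Z := Submodule.subset_span ⟨⟨0, hr0⟩, by simp⟩
  have hlt2 : W < W ⊔ Z := by
    refine lt_of_le_of_ne le_sup_left ?_
    intro h; apply hv; rw [h]; exact Submodule.mem_sup_right hvZ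
  have h1 := Submodule.finrank_lt_finrank_of_lt hlt2
  have h2 : finrank F ↥(W ⊔ Z) ≤ finrank F W + r := by
    have hZr : finrank F Z ≤ r := by
      have := finrank_range_le_card (R := F) (fun j : Fin r => (f ^ j.val) v)
      simpa [Set.finrank] using this
    have := Submodule.finrank_add_le_finrank_add_finrank W Z
    omega
  obtain ⟨k, hk⟩ := S5949.inv_dvd f r hr c hirr hf (W ⊔ Z) hWZ
  obtain ⟨t, ht⟩ := S5949.inv_dvd f r hr c hirr hf W hW
  refine ⟨W ⊔ Z, le_sup_left, hWZ, ?_⟩
  rw [ht] at h1 h2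
  rw [hk] at h1 h2 ⊢
  rw [ht]
  have h3 : t < k := lt_of_mul_lt_mul_left h1 (Nat.zero_le r)
  have h4 : r * k ≤ r * (t + 1) := by rw [Nat.mul_succ]; exact h2
  have h5 : k ≤ t + 1 := le_of_mul_le_mul_left h4 hr0
  have : k = t + 1 := by omega
  rw [this, Nat.mul_succ]

theorem step_i [Fintype F] (g : V →ₗ[F] V) (r : ℕ) [Fact r.Prime] (hr : (r : F) ≠ 0)
    (hg : g ^ r = 1) (hi0 : 0 < orderOf (Fintype.card F : ZMod r)) (W : Submodule F V)
    (hWP : W ≤ S5949.Dg g r ∧ ∀ w ∈ W, g w ∈ W)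
    (ht : finrank F W + orderOf (Fintype.card F : ZMod r) ≤ finrank F (S5949.Dg g r)) :
    ∃ W', W ≤ W' ∧ (W' ≤ S5949.Dg g r ∧ ∀ w ∈ W', g w ∈ W') ∧
      finrank F W' = finrank F W + orderOf (Fintype.card F : ZMod r) := by
  obtain ⟨hWD, hW⟩ := hWP
  have hss : Module.End.IsSemisimple g := by
    apply Module.End.isSemisimple_of_squarefree_aeval_eq_zero (p := X ^ r - C 1)
    · exact (separable_X_pow_sub_C (1 : F) hr one_ne_zero).squarefree
    · simp [hg]
  have hgi := S5949.pow_card_pow_eq g r hg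
  obtain ⟨Q, hQ, hcompl⟩ := (Module.End.isSemisimple_iff.mp hss) W
    ((Module.End.mem_invtSubmodule_iff_forall_mem_of_mem g).mpr hW)
  have hQ' : ∀ w ∈ Q, g w ∈ Q := (Module.End.mem_invtSubmodule_iff_forall_mem_of_mem g).mp hQ
  have hM : ∀ w ∈ Q ⊓ S5949.Dg g r, g w ∈ Q ⊓ S5949.Dg g r :=
    fun w hw => ⟨hQ' w hw.1, S5949.Dg_inv g r w hw.2⟩
  have hMne : Q ⊓ S5949.Dg g r ≠ ⊥ := by
    intro h
    have h1 : S5949.Dg g r = W := by
      have h2 : (W ⊔ Q) ⊓ S5949.Dg g r = W ⊔ Q ⊓ S5949.Dg g r := sup_inf_assoc_of_le Q hWD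
      rw [hcompl.sup_eq_top, top_inf_eq, h, sup_bot_eq] at h2
      exact h2
    rw [h1] at ht; omega
  obtain ⟨Z, hZM, hZ, hZne, hZd⟩ := S5949.exists_small g _ hgi hi0 (Q ⊓ S5949.Dg g r) hM hMne
  have hZD : Z ≤ S5949.Dg g r := hZM.trans inf_le_right
  have hZdvd := S5949.D_dvd g r hr hg Z hZ hZD
  have hZpos : 0 < finrank F Z :=
    Nat.pos_of_ne_zero (fun h => hZne (Submodule.finrank_eq_zero.mp h))
  have hZi : finrank F Z = orderOf (Fintype.card F : ZMod r) :=
    le_antisymm hZd (Nat.le_of_dvd hZpos hZdvd)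
  refine ⟨W ⊔ Z, le_sup_left, ⟨sup_le hWD hZD, ?_⟩, ?_⟩
  · intro w hw
    obtain ⟨a, ha, b, hb, rfl⟩ := Submodule.mem_sup.mp hw
    rw [map_add]
    exact Submodule.add_mem _ (Submodule.mem_sup_left (hW a ha))
      (Submodule.mem_sup_right (hZ b hb))
  · have h1 := Submodule.finrank_sup_add_finrank_inf_eq W Z
    have h2 : W ⊓ Z = ⊥ := by
      rw [eq_bot_iff, ← hcompl.inf_eq_bot]
      exact inf_le_inf_left W (hZM.trans inf_le_left)
    rw [h2, finrank_bot, hZi] at h1
    omega

theorem mod_aux (i n m : ℕ) (hi0 : 0 < i) (hm : 2 * m ≤ n)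
    (hmod : 2 * (m % i) ≤ n % i) : (n - 2 * m) % i + 2 * (m % i) ≤ n % i := by
  have ha : n % i < i := Nat.mod_lt _ hi0
  have he : (n - 2 * m) % i < i := Nat.mod_lt _ hi0
  have h1 : n % i = ((n - 2 * m) % i + (m % i + m % i)) % i := by
    have h2 := Nat.add_mod (n - 2 * m) (m + m) i
    have h3 : n - 2 * m + (m + m) = n := by omega
    rw [h3, Nat.add_mod m m i, Nat.mod_eq_of_lt (show m % i + m % i < i by omega)] at h2
    exact h2
  by_cases hlt : (n - 2 * m) % i + (m % i + m % i) < i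
  · rw [Nat.mod_eq_of_lt hlt] at h1; omega
  · exfalso
    have hge : i ≤ (n - 2 * m) % i + (m % i + m % i) := by omega
    have h6 : ((n - 2 * m) % i + (m % i + m % i)) % i =
        (n - 2 * m) % i + (m % i + m % i) - i := by
      rw [Nat.mod_eq_sub_mod hge]; exact Nat.mod_eq_of_lt (by omega)
    rw [h6] at h1
    omega

theorem exists_flag [Fintype F] (g : V →ₗ[F] V) (r : ℕ) [Fact r.Prime] (hr : (r : F) ≠ 0)
    (hg : g ^ r = 1) (hi0 : 0 < orderOf (Fintype.card F : ZMod r)) (m : ℕ)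
    (hm : 2 * m ≤ finrank F V)
    (hmod : 2 * (m % orderOf (Fintype.card F : ZMod r)) ≤
      finrank F V % orderOf (Fintype.card F : ZMod r)) :
    ∃ U W : Submodule F V, U ≤ W ∧ finrank F U = m ∧ finrank F W = finrank F V - m ∧
      (∀ w ∈ U, g w ∈ U) ∧ (∀ w ∈ W, g w ∈ W) := by
  obtain ⟨i, hi⟩ : ∃ i, i = orderOf (Fintype.card F : ZMod r) := ⟨_, rfl⟩
  obtain ⟨n, hn⟩ : ∃ n, n = finrank F V := ⟨_, rfl⟩
  rw [← hi] at hi0 hmod
  rw [← hn] at hm hmod ⊢
  have hsplit := S5949.split_finrank g r hr hg ⊤ (fun _ _ => Submodule.mem_top)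
  rw [finrank_top, top_inf_eq, top_inf_eq, ← hn] at hsplit
  obtain ⟨d, hd⟩ := S5949.D_dvd g r hr hg (S5949.Dg g r) (S5949.Dg_inv g r) le_rfl
  rw [← hi] at hd
  have hP : i * (m / i) + m % i = m := Nat.div_add_mod m i
  have hR : i * ((n - 2 * m) / i) + (n - 2 * m) % i = n - 2 * m := Nat.div_add_mod _ i
  have hca : n % i ≤ finrank F (S5949.Cg g) := by
    rw [hsplit, hd, Nat.add_mul_mod_self_left]; exact Nat.mod_le _ _
  have he2 := mod_aux i n m hi0 hm hmod
  obtain ⟨ud, hud⟩ : ∃ ud, ud = min (m / i) d := ⟨_, rfl⟩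
  have h_iud : i * ud = min (i * (m / i)) (i * d) := by rw [hud, Nat.mul_min_mul_left]
  obtain ⟨δd, hδd⟩ : ∃ δd, δd = min ((n - 2 * m) / i) (d - ud) := ⟨_, rfl⟩
  have h_iδd : i * δd = min (i * ((n - 2 * m) / i)) (i * d - i * ud) := by
    rw [hδd, ← Nat.mul_sub, Nat.mul_min_mul_left]
  have hbotP : (⊥ : Submodule F V) ≤ S5949.Dg g r ∧ ∀ w ∈ (⊥ : Submodule F V), g w ∈ (⊥ : Submodule F V) :=
    ⟨bot_le, fun w hw => by
      rw [Submodule.mem_bot] at hw; rw [hw, map_zero]; exact Submodule.zero_mem _⟩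
  have hstep : ∀ W : Submodule F V, (W ≤ S5949.Dg g r ∧ ∀ w ∈ W, g w ∈ W) →
      finrank F W + i ≤ finrank F (S5949.Dg g r) →
      ∃ W', W ≤ W' ∧ (W' ≤ S5949.Dg g r ∧ ∀ w ∈ W', g w ∈ W') ∧
        finrank F W' = finrank F W + i := by
    intro W hW hlt
    rw [hi] at hlt ⊢
    exact step_i g r hr hg (by rw [← hi]; exact hi0) W hW hlt
  obtain ⟨UD, -, ⟨hUD1, hUD2⟩, hUD3⟩ := iterate_step
    (fun W : Submodule F V => W ≤ S5949.Dg g r ∧ ∀ w ∈ W, g w ∈ W) i
    (finrank F (S5949.Dg g r)) hstep ⊥ hbotP ud (by rw [finrank_bot, hd]; omega)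
  rw [finrank_bot, zero_add] at hUD3
  obtain ⟨WD, hUW, ⟨hWD1, hWD2⟩, hWD3⟩ := iterate_step
    (fun W : Submodule F V => W ≤ S5949.Dg g r ∧ ∀ w ∈ W, g w ∈ W) i
    (finrank F (S5949.Dg g r)) hstep UD ⟨hUD1, hUD2⟩ δd (by rw [hUD3, hd]; omega)
  rw [hUD3] at hWD3
  obtain ⟨UC, -, hUC1, hUC2⟩ := sub_ext ⊥ (S5949.Cg g) bot_le (m - i * ud)
    (by rw [finrank_bot, zero_add]; omega)
  rw [finrank_bot, zero_add] at hUC2
  obtain ⟨WC, hUWC, hWC1, hWC2⟩ := sub_ext UC (S5949.Cg g) hUC1 (n - 2 * m - i * δd)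
    (by rw [hUC2]; omega)
  rw [hUC2] at hWC2
  have hdis : ∀ A B : Submodule F V, A ≤ S5949.Dg g r → B ≤ S5949.Cg g → A ⊓ B = ⊥ := by
    intro A B hA hB
    rw [eq_bot_iff, ← S5949.CD_disj g r hr, inf_comm]; exact inf_le_inf hB hA
  have hinv : ∀ A B : Submodule F V, (∀ w ∈ A, g w ∈ A) → B ≤ S5949.Cg g →
      ∀ w ∈ A ⊔ B, g w ∈ A ⊔ B := by
    intro A B hA hB w hw
    obtain ⟨a, ha, b, hb, rfl⟩ := Submodule.mem_sup.mp hw
    rw [map_add]
    have : g b = b := (S5949.mem_Cg g b).mp (hB hb)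
    rw [this]
    exact Submodule.add_mem _ (Submodule.mem_sup_left (hA a ha)) (Submodule.mem_sup_right hb)
  refine ⟨UD ⊔ UC, WD ⊔ WC, sup_le_sup hUW hUWC, ?_, ?_, hinv UD UC hUD2 hUC1,
    hinv WD WC hWD2 hWC1⟩
  · have h1 := Submodule.finrank_sup_add_finrank_inf_eq UD UC
    rw [hdis UD UC hUD1 hUC1, finrank_bot, hUD3, hUC2] at h1
    omega
  · have h1 := Submodule.finrank_sup_add_finrank_inf_eq WD WC
    rw [hdis WD WC hWD1 hWC1, finrank_bot, hWD3, hWC2] at h1
    omega

theorem flag_mod [Fintype F] (g : V →ₗ[F] V) (r : ℕ) [Fact r.Prime] (hr : (r : F) ≠ 0)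
    (hg : g ^ r = 1) (hi0 : 0 < orderOf (Fintype.card F : ZMod r))
    (hC : finrank F (S5949.Cg g) ≤ finrank F V % orderOf (Fintype.card F : ZMod r))
    (m : ℕ) (hm : m ≤ finrank F V) (U W : Submodule F V) (hUW : U ≤ W)
    (hUd : finrank F U = m) (hWd : finrank F W = finrank F V - m)
    (hU : ∀ w ∈ U, g w ∈ U) (hW : ∀ w ∈ W, g w ∈ W) :
    2 * (m % orderOf (Fintype.card F : ZMod r)) ≤
      finrank F V % orderOf (Fintype.card F : ZMod r) := by
  obtain ⟨i, hi⟩ : ∃ i, i = orderOf (Fintype.card F : ZMod r) := ⟨_, rfl⟩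
  obtain ⟨n, hn⟩ : ∃ n, n = finrank F V := ⟨_, rfl⟩
  rw [← hi] at hi0 hC ⊢
  rw [← hn] at hm hC hWd ⊢
  have ha : n % i < i := Nat.mod_lt _ hi0
  have h1 := S5949.split_finrank g r hr hg U hU
  obtain ⟨d1, hd1⟩ := S5949.D_dvd g r hr hg (U ⊓ S5949.Dg g r)
    (fun w hw => ⟨hU w hw.1, S5949.Dg_inv g r w hw.2⟩) inf_le_right
  have h2 := S5949.split_finrank g r hr hg W hW
  obtain ⟨d2, hd2⟩ := S5949.D_dvd g r hr hg (W ⊓ S5949.Dg g r)
    (fun w hw => ⟨hW w hw.1, S5949.Dg_inv g r w hw.2⟩) inf_le_right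
  rw [← hi] at hd1 hd2
  have h3 : finrank F ↥(U ⊓ S5949.Cg g) ≤ finrank F ↥(W ⊓ S5949.Cg g) :=
    Submodule.finrank_mono (inf_le_inf_right _ hUW)
  have h4 : finrank F ↥(W ⊓ S5949.Cg g) ≤ finrank F (S5949.Cg g) :=
    Submodule.finrank_mono inf_le_right
  have hmi : m % i = finrank F ↥(U ⊓ S5949.Cg g) := by
    rw [← hUd, h1, hd1, Nat.add_mul_mod_self_left]; exact Nat.mod_eq_of_lt (by omega)
  have hwi : (n - m) % i = finrank F ↥(W ⊓ S5949.Cg g) := by
    rw [← hWd, h2, hd2, Nat.add_mul_mod_self_left]; exact Nat.mod_eq_of_lt (by omega)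
  have h5 := Nat.add_mod (n - m) m i
  rw [Nat.sub_add_cancel hm] at h5
  by_cases hlt : (n - m) % i + m % i < i
  · rw [Nat.mod_eq_of_lt hlt] at h5; omega
  · exfalso
    have hℓ : m % i < i := Nat.mod_lt _ hi0
    have hw : (n - m) % i < i := Nat.mod_lt _ hi0
    have hge : i ≤ (n - m) % i + m % i := by omega
    have h6 : ((n - m) % i + m % i) % i = (n - m) % i + m % i - i := by
      rw [Nat.mod_eq_sub_mod hge]; exact Nat.mod_eq_of_lt (by omega)
    rw [h6] at h5
    omega

end gen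

section flagcount

variable {F : Type*} [Field F] [Fintype F] {V : Type*} [AddCommGroup V] [Module F V] [Finite V]

/-- scaled `q`-factorial -/
def qf (q t : ℕ) : ℕ := ∏ j ∈ Finset.range t, (q ^ (j + 1) - 1)

theorem qf_pos (q t : ℕ) (hq : 2 ≤ q) : 0 < qf q t := by
  apply Finset.prod_pos; intro j _
  have : 2 ≤ q ^ (j + 1) :=
    calc 2 ≤ q := hq
      _ = q ^ 1 := (pow_one q).symm
      _ ≤ q ^ (j + 1) := Nat.pow_le_pow_right (by omega) (by omega)
  omega

theorem qf_split (q n k : ℕ) (hk : k ≤ n) :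
    (∏ j : Fin k, (q ^ (n - j.val) - 1)) * qf q (n - k) = qf q n := by
  have h1 : n = (n - k) + k := by omega
  have h2 : qf q n = qf q (n - k) * ∏ x ∈ Finset.range k, (q ^ (n - k + x + 1) - 1) := by
    unfold qf
    conv_lhs => rw [h1]
    rw [Finset.prod_range_add]
  rw [h2, mul_comm]
  congr 1
  rw [Fin.prod_univ_eq_prod_range (fun j => q ^ (n - j) - 1) k,
    ← Finset.prod_range_reflect (fun x => q ^ (n - k + x + 1) - 1) k]
  apply Finset.prod_congr rfl
  intro j hj
  rw [Finset.mem_range] at hj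
  have : n - j = n - k + (k - 1 - j) + 1 := by omega
  rw [this]

theorem count_sym (k : ℕ) (hk : k ≤ finrank F V) :
    Nat.card {W : Submodule F V // finrank F W = k} * qf (Fintype.card F) k *
        qf (Fintype.card F) (finrank F V - k) = qf (Fintype.card F) (finrank F V) := by
  have h1 := S5949.count_eq (F := F) (V := V) k hk
  have hq : 0 < Fintype.card F := Fintype.card_pos
  rw [S5949.prod_split _ _ _ hq le_rfl, S5949.prod_split _ _ _ hq hk] at h1
  have h2 : Nat.card {W : Submodule F V // finrank F W = k} *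
      ∏ j : Fin k, (Fintype.card F ^ (k - j.val) - 1) =
      ∏ j : Fin k, (Fintype.card F ^ (finrank F V - j.val) - 1) := by
    have hpos : 0 < ∏ j : Fin k, Fintype.card F ^ j.val :=
      Finset.prod_pos (fun j _ => pow_pos hq _)
    apply Nat.eq_of_mul_eq_mul_left hpos
    rw [← h1]; ring
  have h3 := qf_split (Fintype.card F) k k le_rfl
  rw [Nat.sub_self] at h3
  have h30 : qf (Fintype.card F) 0 = 1 := by simp [qf]
  rw [h30, mul_one] at h3
  rw [← h3, h2, qf_split _ _ _ hk]

theorem dual_dvd {ℓ : ℕ} (hℓ : ℓ.Prime) (m : ℕ) (hm : m ≤ finrank F V)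
    (h : ℓ ∣ Nat.card {W : Submodule F V // finrank F W = finrank F V - m}) :
    ∃ j < m, ℓ ∣ Fintype.card F ^ (finrank F V - j) - 1 := by
  have h1 := count_sym (F := F) (V := V) (finrank F V - m) (Nat.sub_le _ _)
  rw [Nat.sub_sub_self hm] at h1
  have h2 := qf_split (Fintype.card F) (finrank F V) m hm
  have hq2 : 2 ≤ Fintype.card F := Fintype.one_lt_card
  have h3 : Nat.card {W : Submodule F V // finrank F W = finrank F V - m} *
      qf (Fintype.card F) m = ∏ j : Fin m, (Fintype.card F ^ (finrank F V - j.val) - 1) := by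
    apply Nat.eq_of_mul_eq_mul_right (qf_pos (Fintype.card F) (finrank F V - m) hq2)
    rw [h2, ← h1]; ring
  have h4 : ℓ ∣ ∏ j : Fin m, (Fintype.card F ^ (finrank F V - j.val) - 1) := by
    rw [← h3]; exact Dvd.dvd.mul_right h _
  obtain ⟨j, _, hj⟩ := (Prime.dvd_finsetProd_iff hℓ.prime _).mp h4
  exact ⟨j.val, j.2, hj⟩

/-- flags fibred over the big subspace -/
def flagSigma (m k : ℕ) :
    {P : Submodule F V × Submodule F V //
      P.1 ≤ P.2 ∧ finrank F P.1 = m ∧ finrank F P.2 = k} ≃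
    Σ W : {W : Submodule F V // finrank F W = k},
      {U : Submodule F V // U ≤ W.1 ∧ finrank F U = m} where
  toFun P := ⟨⟨P.1.2, P.2.2.2⟩, ⟨P.1.1, P.2.1, P.2.2.1⟩⟩
  invFun S := ⟨(S.2.1, S.1.1), S.2.2.1, S.2.2.2, S.1.2⟩
  left_inv _ := rfl
  right_inv _ := rfl

/-- subspaces below `W` are subspaces of `W` -/
noncomputable def subEquiv (W : Submodule F V) (m : ℕ) :
    {U : Submodule F V // U ≤ W ∧ finrank F U = m} ≃
      {U' : Submodule F W // finrank F U' = m} where
  toFun U := ⟨U.1.comap W.subtype, by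
    rw [LinearEquiv.finrank_eq (Submodule.comapSubtypeEquivOfLe U.2.1)]; exact U.2.2⟩
  invFun U' := ⟨U'.1.map W.subtype, Submodule.map_subtype_le W U'.1, by
    rw [← LinearEquiv.finrank_eq (Submodule.equivSubtypeMap W U'.1)]; exact U'.2⟩
  left_inv U := by
    apply Subtype.ext
    simp only
    rw [Submodule.map_comap_subtype]; exact inf_eq_right.mpr U.2.1
  right_inv U' := by
    apply Subtype.ext
    simp only
    exact Submodule.comap_map_eq_of_injective (Submodule.injective_subtype W) U'.1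

theorem flag_dvd {ℓ : ℕ} (hℓ : ℓ.Prime) (m : ℕ) (hm : 2 * m ≤ finrank F V)
    (h : ℓ ∣ Nat.card {P : Submodule F V × Submodule F V //
      P.1 ≤ P.2 ∧ finrank F P.1 = m ∧ finrank F P.2 = finrank F V - m}) :
    (∃ j < m, ℓ ∣ Fintype.card F ^ (finrank F V - j) - 1) ∨
    (∃ j < m, ℓ ∣ Fintype.card F ^ (finrank F V - m - j) - 1) := by
  classical
  have : Fintype {W : Submodule F V // finrank F W = finrank F V - m} := Fintype.ofFinite _
  rw [Nat.card_congr (flagSigma m (finrank F V - m)), Nat.card_sigma] at h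
  by_cases hex : ∃ W₁ : {W : Submodule F V // finrank F W = finrank F V - m},
      ℓ ∣ Nat.card {U' : Submodule F W₁.1 // finrank F U' = m}
  · obtain ⟨W₁, hW₁⟩ := hex
    right
    obtain ⟨j, hj, hdvd⟩ := S5949.count_dvd hℓ m (by rw [W₁.2]; omega) hW₁
    rw [W₁.2] at hdvd
    exact ⟨j, hj, hdvd⟩
  · push Not at hex
    left
    have hterm : ∀ W W' : {W : Submodule F V // finrank F W = finrank F V - m},
        Nat.card {U : Submodule F V // U ≤ W.1 ∧ finrank F U = m} =
        Nat.card {U : Submodule F V // U ≤ W'.1 ∧ finrank F U = m} := by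
      intro W W'
      rw [Nat.card_congr (subEquiv W.1 m), Nat.card_congr (subEquiv W'.1 m)]
      have h1 := S5949.count_eq (F := F) (V := W.1) m (by rw [W.2]; omega)
      have h2 := S5949.count_eq (F := F) (V := W'.1) m (by rw [W'.2]; omega)
      rw [W.2] at h1; rw [W'.2] at h2
      have hpos : 0 < ∏ j : Fin m, (Fintype.card F ^ m - Fintype.card F ^ j.val) := by
        apply Finset.prod_pos; intro j _
        have := Nat.pow_lt_pow_right (Fintype.one_lt_card (α := F)) j.2
        omega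
      exact Nat.eq_of_mul_eq_mul_right hpos (h1.trans h2.symm)
    by_cases hne : Nonempty {W : Submodule F V // finrank F W = finrank F V - m}
    · obtain ⟨W₁⟩ := hne
      have hsum : ∑ W : {W : Submodule F V // finrank F W = finrank F V - m},
          Nat.card {U : Submodule F V // U ≤ W.1 ∧ finrank F U = m} =
          Nat.card {W : Submodule F V // finrank F W = finrank F V - m} *
            Nat.card {U : Submodule F V // U ≤ W₁.1 ∧ finrank F U = m} := by
        rw [Finset.sum_congr rfl (fun W _ => hterm W W₁), Finset.sum_const, Finset.card_univ,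
          smul_eq_mul, ← Nat.card_eq_fintype_card]
      rw [hsum] at h
      rcases (Nat.Prime.dvd_mul hℓ).mp h with h5 | h5
      · exact dual_dvd hℓ m (by omega) h5
      · exfalso; apply hex W₁; rw [← Nat.card_congr (subEquiv W₁.1 m)]; exact h5
    · have h0 : Nat.card {W : Submodule F V // finrank F W = finrank F V - m} = 0 := by
        rw [Nat.card_eq_zero]; left; exact not_nonempty_iff.mp hne
      exact dual_dvd hℓ m (by omega) (by rw [h0]; exact dvd_zero _)

end flagcount

section minelt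

variable {F : Type*} [Field F] [Fintype F]

/-- an element of order `r` of `SL_n(F)` with the smallest possible fixed space -/
theorem exists_min_elt (n r : ℕ) [Fact r.Prime] (hrF : (r : F) ≠ 0)
    (hcop : Nat.Coprime r (Fintype.card F - 1))
    (hi0 : 0 < orderOf (Fintype.card F : ZMod r)) :
    ∃ x : Matrix.SpecialLinearGroup (Fin n) F,
      ((x ^ r : Matrix.SpecialLinearGroup (Fin n) F) : Matrix (Fin n) (Fin n) F) = 1 ∧
      (Matrix.toLin' (x : Matrix (Fin n) (Fin n) F)) ^ r = 1 ∧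
      finrank F (S5949.Cg (Matrix.toLin' (x : Matrix (Fin n) (Fin n) F))) ≤
        n % orderOf (Fintype.card F : ZMod r) := by
  classical
  have hrp := (Fact.out : r.Prime)
  have : NeZero r := ⟨hrp.ne_zero⟩
  let σ : (ZMod r → F) →ₗ[F] (ZMod r → F) := LinearMap.funLeft F F (fun t : ZMod r => t + 1)
  have hσk : ∀ (k : ℕ) (v : ZMod r → F) (t : ZMod r), (σ ^ k) v t = v (t + (k : ZMod r)) := by
    intro k
    induction k with
    | zero => intro v t; simp
    | succ k ih =>
      intro v t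
      rw [pow_succ, Module.End.mul_apply, ih]
      show v (t + (k : ZMod r) + 1) = _
      push_cast; rw [add_assoc]
  have hσr : σ ^ r = 1 := by
    apply LinearMap.ext; intro v; funext t
    rw [hσk]; simp
  have hC1 : finrank F (S5949.Cg σ) ≤ 1 := by
    have hne1 : (fun _ => 1 : ZMod r → F) ≠ 0 := fun h => one_ne_zero (congrFun h 0)
    have hle : S5949.Cg σ ≤ Submodule.span F {(fun _ => 1 : ZMod r → F)} := by
      intro v hv
      rw [S5949.mem_Cg] at hv
      have h1 : ∀ t : ZMod r, v (t + 1) = v t := fun t => congrFun hv t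
      have h2 : ∀ k : ℕ, v (k : ZMod r) = v 0 := by
        intro k
        induction k with
        | zero => simp
        | succ k ih => rw [Nat.cast_succ, h1, ih]
      rw [Submodule.mem_span_singleton]
      refine ⟨v 0, ?_⟩
      funext t
      have h3 := h2 t.val
      rw [ZMod.natCast_zmod_val] at h3
      simp [h3]
    exact (Submodule.finrank_mono hle).trans (finrank_span_singleton hne1).le
  have hVr : finrank F (ZMod r → F) = r := by simp [ZMod.card]
  have hsplit := S5949.split_finrank σ r hrF hσr ⊤ (fun _ _ => Submodule.mem_top)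
  rw [finrank_top, top_inf_eq, top_inf_eq, hVr] at hsplit
  have hDne : S5949.Dg σ r ≠ ⊥ := by
    intro h
    rw [h, finrank_bot] at hsplit
    have := hrp.two_le; omega
  obtain ⟨Z, hZD, hZ, hZne, hZd⟩ :=
    S5949.exists_small σ _ (S5949.pow_card_pow_eq σ r hσr) hi0 (S5949.Dg σ r)
      (S5949.Dg_inv σ r) hDne
  have hZi : finrank F Z = orderOf (Fintype.card F : ZMod r) := by
    have hdvd := S5949.D_dvd σ r hrF hσr Z hZ hZD
    have hpos : 0 < finrank F Z :=
      Nat.pos_of_ne_zero (fun h => hZne (Submodule.finrank_eq_zero.mp h))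
    exact le_antisymm hZd (Nat.le_of_dvd hpos hdvd)
  let s : Z →ₗ[F] Z := σ.restrict hZ
  have hsr : s ^ r = 1 := by
    show (σ.restrict hZ) ^ r = 1
    rw [Module.End.pow_restrict]
    apply LinearMap.ext; intro z; apply Subtype.ext
    simp [LinearMap.restrict_apply, hσr]
  have hsfix : ∀ z : Z, s z = z → z = 0 := by
    intro z hz
    have h1 : σ z.1 = z.1 := congrArg Subtype.val hz
    have h2 : z.1 ∈ S5949.Cg σ ⊓ S5949.Dg σ r := ⟨(S5949.mem_Cg σ z.1).mpr h1, hZD z.2⟩
    rw [S5949.CD_disj σ r hrF] at h2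
    exact Subtype.ext ((Submodule.mem_bot F).mp h2)
  set i := orderOf (Fintype.card F : ZMod r) with hi
  let g' : ((Fin (n / i) → Z) × (Fin (n % i) → F)) →ₗ[F]
      ((Fin (n / i) → Z) × (Fin (n % i) → F)) :=
    (s.compLeft (Fin (n / i))).prodMap LinearMap.id
  have hg'k : ∀ k (u : Fin (n / i) → Z) (w : Fin (n % i) → F),
      (g' ^ k) (u, w) = (fun j => (s ^ k) (u j), w) := by
    intro k
    induction k with
    | zero => intro u w; simp
    | succ k ih =>
      intro u w
      rw [pow_succ', Module.End.mul_apply, ih]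
      show (fun j => s ((s ^ k) (u j)), w) = _
      simp [pow_succ', Module.End.mul_apply]
  have hg'r : g' ^ r = 1 := by
    apply LinearMap.ext
    rintro ⟨u, w⟩
    rw [hg'k, hsr]; rfl
  have hV' : finrank F ((Fin (n / i) → Z) × (Fin (n % i) → F)) = n := by
    rw [Module.finrank_prod, Module.finrank_pi_fintype, Module.finrank_fin_fun]
    simp only [hZi, Finset.sum_const, Finset.card_univ, Fintype.card_fin, smul_eq_mul]
    exact Nat.div_add_mod' n i
  have hC' : finrank F (S5949.Cg g') ≤ n % i := by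
    let π : S5949.Cg g' →ₗ[F] (Fin (n % i) → F) :=
      (LinearMap.snd F _ _).comp (S5949.Cg g').subtype
    have hinj : Function.Injective π := by
      rw [injective_iff_map_eq_zero]
      rintro ⟨⟨u, w⟩, huw⟩ hπ
      have hw : w = 0 := hπ
      rw [S5949.mem_Cg] at huw
      have h1 : (fun j => s (u j), w) = (u, w) := huw
      have h2 : ∀ j, u j = 0 := fun j => hsfix (u j) (congrFun (Prod.ext_iff.mp h1).1 j)
      apply Subtype.ext
      exact Prod.ext (funext h2) hw
    have := LinearMap.finrank_le_finrank_of_injective hinj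
    simpa using this
  have hdet : LinearMap.det g' = 1 := by
    have h1 : (LinearMap.det g') ^ r = 1 := by rw [← map_pow, hg'r, map_one]
    have h0 : LinearMap.det g' ≠ 0 := by
      intro h; rw [h, zero_pow hrp.ne_zero] at h1; exact zero_ne_one h1
    have h2 : (LinearMap.det g') ^ (Fintype.card F - 1) = 1 :=
      FiniteField.pow_card_sub_one_eq_one _ h0
    have h3 := pow_gcd_eq_one.mpr ⟨h1, h2⟩
    rw [Nat.Coprime.gcd_eq_one hcop, pow_one] at h3
    exact h3
  have e : (Fin n → F) ≃ₗ[F] ((Fin (n / i) → Z) × (Fin (n % i) → F)) :=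
    LinearEquiv.ofFinrankEq _ _ (by rw [hV']; simp)
  let f' : Module.End F (Fin n → F) :=
    (e.symm : ((Fin (n / i) → Z) × (Fin (n % i) → F)) →ₗ[F] (Fin n → F)) ∘ₗ g' ∘ₗ
      (e.symm.symm : (Fin n → F) →ₗ[F] ((Fin (n / i) → Z) × (Fin (n % i) → F)))
  have hf'app : ∀ v, f' v = e.symm (g' (e v)) := fun v => rfl
  have hf'k : ∀ k v, (f' ^ k) v = e.symm ((g' ^ k) (e v)) := by
    intro k
    induction k with
    | zero => intro v; simp
    | succ k ih =>
      intro v
      rw [pow_succ', Module.End.mul_apply, hf'app, ih, LinearEquiv.apply_symm_apply, pow_succ',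
        Module.End.mul_apply]
  have hf'pow : f' ^ r = 1 := by
    apply LinearMap.ext
    intro v
    rw [hf'k, hg'r]; simp
  have hdet' : LinearMap.det f' = 1 := by
    rw [← hdet]; exact LinearMap.det_conj g' e.symm
  let A : Matrix (Fin n) (Fin n) F := LinearMap.toMatrix' f'
  have hAdet : A.det = 1 := by rw [LinearMap.det_toMatrix', hdet']
  have hApow : A ^ r = (1 : Matrix (Fin n) (Fin n) F) := by
    have := congrArg (LinearMap.toMatrixAlgEquiv' (R := F) (n := Fin n)) hf'pow
    rw [map_pow, map_one] at this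
    exact this
  have hlin : Matrix.toLin' A = f' := Matrix.toLin'_toMatrix' f'
  let x : Matrix.SpecialLinearGroup (Fin n) F := ⟨A, hAdet⟩
  refine ⟨x, ?_, ?_, ?_⟩
  · rw [Matrix.SpecialLinearGroup.coe_pow]; exact hApow
  · show (Matrix.toLin' A) ^ r = 1
    rw [hlin]; exact hf'pow
  · show finrank F (S5949.Cg (Matrix.toLin' A)) ≤ n % i
    rw [hlin]
    have hmap : (S5949.Cg f').map e.toLinearMap ≤ S5949.Cg g' := by
      rintro _ ⟨v, hv, rfl⟩
      have hv' : f' v = v := (S5949.mem_Cg f' v).mp hv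
      apply (S5949.mem_Cg g' _).mpr
      have h1 := congrArg e hv'
      rw [hf'app, LinearEquiv.apply_symm_apply] at h1
      exact h1
    calc finrank F (S5949.Cg f') = finrank F ((S5949.Cg f').map e.toLinearMap) :=
          (LinearEquiv.finrank_map_eq e _).symm
      _ ≤ finrank F (S5949.Cg g') := Submodule.finrank_mono hmap
      _ ≤ n % i := hC'

end minelt

/-- Elements of prime order of PSL_n(q) fixing no pair of subspaces `U < W` with `dim U = m`, `dim W = n − m`. Here `T = PSL_n(F)` for a field `F` with `q = p^f` elements (`n ≥ 2`, `(n, q) ≠ (2, 2), (2, 3)`); an element of `T` of prime order `r` is represented by a matrix `x` of determinant 1 with `x^r` scalar and `x` not scalar; `i` denotes the multiplicative order of `q` modulo `r` (when `r ≠ p`), and `(a)_r` the `r`-part of `a`. Let `1 ≤ m < n/2` and let `r` be a prime dividing the number of such pairs. Then every element of `T` of order `r` fixes such a pair (both `U` and `W`) if and only if `r ≠ p` and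 either (i) `i = 1` and (`r ∣ m`, or `(q−1)_r ≥ (n)_r` with `q ≡ 1 (mod 4)` required when `r = 2` and `n` is even), or (ii) `2 ≤ i ≤ m` and `n mod i ≥ 2 (m mod i)`. -/
theorem result {F : Type*} [Field F] [Fintype F] {p : ℕ} [Fact p.Prime] [CharP F p] {q : ℕ} (hq : Fintype.card F = q)
    (n m : ℕ) (hn : 2 ≤ n) (hT : (n, q) ≠ (2, 2) ∧ (n, q) ≠ (2, 3)) (hm : 1 ≤ m) (hmn : 2 * m < n)
    (r : ℕ) [Fact r.Prime]
    (hrΩ : r ∣ Nat.card {P : Submodule F (Fin n → F) × Submodule F (Fin n → F) //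
        P.1 ≤ P.2 ∧ Module.finrank F ↥P.1 = m ∧ Module.finrank F ↥P.2 = n - m}) :
    (∀ x : Matrix.SpecialLinearGroup (Fin n) F,
      (∃ c : F, ((x ^ r : Matrix.SpecialLinearGroup (Fin n) F) : Matrix (Fin n) (Fin n) F) = c • (1 : Matrix (Fin n) (Fin n) F)) →
      (∀ c : F, (x : Matrix (Fin n) (Fin n) F) ≠ c • (1 : Matrix (Fin n) (Fin n) F)) →
      ∃ U W : Submodule F (Fin n → F), U ≤ W ∧ Module.finrank F ↥U = m ∧ Module.finrank F ↥W = n - m ∧
        U.map (Matrix.toLin' (x : Matrix (Fin n) (Fin n) F)) ≤ U ∧ W.map (Matrix.toLin' (x : Matrix (Fin n) (Fin n) F)) ≤ W) ↔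
    (r ≠ p ∧
      ((orderOf (q : ZMod r) = 1 ∧ (r ∣ m ∨ (padicValNat r n ≤ padicValNat r (q - 1) ∧ (r = 2 → Even n → q % 4 = 1)))) ∨
       (2 ≤ orderOf (q : ZMod r) ∧ orderOf (q : ZMod r) ≤ m ∧ 2 * (m % orderOf (q : ZMod r)) ≤ n % orderOf (q : ZMod r)))) := by
  classical
  have hrp := (Fact.out : r.Prime)
  have hpp := (Fact.out : p.Prime)
  subst hq
  have hq2 : 2 ≤ Fintype.card F := Fintype.one_lt_card
  have hmn' : m ≤ n := by omega
  have hfin : finrank F (Fin n → F) = n := by simp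
  obtain ⟨kq, -, hkq⟩ := FiniteField.card F p
  have hpq : p ∣ Fintype.card F := by
    rw [hkq]; exact dvd_pow_self p kq.ne_zero
  have hrΩ' : r ∣ Nat.card {P : Submodule F (Fin n → F) × Submodule F (Fin n → F) //
      P.1 ≤ P.2 ∧ finrank F P.1 = m ∧ finrank F P.2 = finrank F (Fin n → F) - m} := by
    rw [hfin]; exact hrΩ
  have hflag := flag_dvd hrp m (by rw [hfin]; omega) hrΩ'
  rw [hfin] at hflag
  have hrne : r ≠ p := by
    intro hrp_eq
    have key : ∀ t, 1 ≤ t → ¬ r ∣ Fintype.card F ^ t - 1 := by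
      intro t ht hdvd
      have h1 : r ∣ Fintype.card F ^ t := by
        rw [hrp_eq]; exact dvd_pow hpq (by omega)
      have h2 : 1 ≤ Fintype.card F ^ t := Nat.one_le_pow _ _ (by omega)
      have h3 : r ∣ 1 := by
        have h4 := Nat.dvd_sub h1 hdvd
        rwa [Nat.sub_sub_self h2] at h4
      exact hrp.one_lt.ne' (Nat.dvd_one.mp h3)
    rcases hflag with ⟨j, hj, hdvd⟩ | ⟨j, hj, hdvd⟩
    · exact key _ (by omega) hdvd
    · exact key _ (by omega) hdvd
  have hrq : Nat.Coprime (Fintype.card F) r := by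
    rw [Nat.coprime_comm, Nat.Prime.coprime_iff_not_dvd hrp]
    intro h
    rw [hkq] at h
    exact hrne ((Nat.prime_dvd_prime_iff_eq hrp hpp).mp (hrp.dvd_of_dvd_pow h))
  have hrF : (r : F) ≠ 0 := by
    intro h
    rw [CharP.cast_eq_zero_iff F p] at h
    exact hrne ((Nat.prime_dvd_prime_iff_eq hpp hrp).mp h).symm
  have hi0 : 0 < orderOf ((Fintype.card F : ℕ) : ZMod r) := S5949.order_pos _ r hrq
  obtain ⟨U₀, -, -, hU₀⟩ := sub_ext (⊥ : Submodule F (Fin n → F)) ⊤ bot_le m
    (by rw [finrank_bot, finrank_top, hfin]; omega)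
  rw [finrank_bot, zero_add] at hU₀
  obtain ⟨W₀, hUW₀, -, hW₀⟩ := sub_ext U₀ ⊤ le_top (n - 2 * m)
    (by rw [hU₀, finrank_top, hfin]; omega)
  rw [hU₀] at hW₀
  constructor
  · intro hall
    refine ⟨hrne, ?_⟩
    by_contra hcon
    have hx : ∃ x : Matrix.SpecialLinearGroup (Fin n) F,
        (∃ c : F, ((x ^ r : Matrix.SpecialLinearGroup (Fin n) F) : Matrix (Fin n) (Fin n) F) =
          c • (1 : Matrix (Fin n) (Fin n) F)) ∧
        (∀ c : F, (x : Matrix (Fin n) (Fin n) F) ≠ c • (1 : Matrix (Fin n) (Fin n) F)) ∧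
        ∀ U W : Submodule F (Fin n → F), U ≤ W → finrank F U = m → finrank F W = n - m →
          U.map (Matrix.toLin' (x : Matrix (Fin n) (Fin n) F)) ≤ U →
          ¬ W.map (Matrix.toLin' (x : Matrix (Fin n) (Fin n) F)) ≤ W := by
      rcases (show orderOf ((Fintype.card F : ℕ) : ZMod r) = 1 ∨
          2 ≤ orderOf ((Fintype.card F : ℕ) : ZMod r) by omega) with h1 | h2
      · have hrq1 : r ∣ Fintype.card F - 1 := (S5949.order_one_iff _ r (by omega)).mp h1
        have hrm : ¬ r ∣ m := fun h => hcon (Or.inl ⟨h1, Or.inl h⟩)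
        have hfail : ¬ (padicValNat r n ≤ padicValNat r (Fintype.card F - 1) ∧
            (r = 2 → Even n → Fintype.card F % 4 = 1)) :=
          fun h => hcon (Or.inl ⟨h1, Or.inr h⟩)
        obtain ⟨c, k, hc, hnk, hdet⟩ := S5949.nt_exists r n (by omega) hrq1 hfail
        obtain ⟨x, hx1, hx2, hx3⟩ := S5949.derange_irred n m r k hrp.ne_zero c
          (X_pow_sub_C_irreducible_of_prime hrp hc) hnk hdet hrm hmn'
        exact ⟨x, hx1, hx2, fun U W _ hUd _ hU _ => hx3 U hUd hU⟩
      · have hnrq : ¬ r ∣ Fintype.card F - 1 := by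
          intro h; have := (S5949.order_one_iff _ r (by omega)).mpr h; omega
        have hcop : Nat.Coprime r (Fintype.card F - 1) :=
          (Nat.Prime.coprime_iff_not_dvd hrp).mpr hnrq
        have hmod : ¬ 2 * (m % orderOf ((Fintype.card F : ℕ) : ZMod r)) ≤
            n % orderOf ((Fintype.card F : ℕ) : ZMod r) := by
          intro h2ℓ
          have him : ¬ orderOf ((Fintype.card F : ℕ) : ZMod r) ≤ m :=
            fun him => hcon (Or.inr ⟨h2, him, h2ℓ⟩)
          rw [Nat.mod_eq_of_lt (by omega : m < orderOf ((Fintype.card F : ℕ) : ZMod r))] at h2ℓ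
          have key : ∀ t, 1 ≤ t → r ∣ Fintype.card F ^ t - 1 →
              orderOf ((Fintype.card F : ℕ) : ZMod r) ∣ t := by
            intro t ht hdvd
            apply orderOf_dvd_of_pow_eq_one
            have h5 := (ZMod.natCast_eq_zero_iff _ _).mpr hdvd
            rw [Nat.cast_sub (Nat.one_le_pow _ _ Fintype.card_pos)] at h5
            push_cast at h5
            exact sub_eq_zero.mp h5
          have hai : n % orderOf ((Fintype.card F : ℕ) : ZMod r) <
              orderOf ((Fintype.card F : ℕ) : ZMod r) := Nat.mod_lt _ hi0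
          rcases hflag with ⟨j, hj, hdvd⟩ | ⟨j, hj, hdvd⟩
          · obtain ⟨t, ht⟩ := key _ (by omega) hdvd
            have h4 : n = j + orderOf ((Fintype.card F : ℕ) : ZMod r) * t := by omega
            rw [h4, Nat.add_mul_mod_self_left, Nat.mod_eq_of_lt (by omega)] at h2ℓ
            omega
          · obtain ⟨t, ht⟩ := key _ (by omega) hdvd
            have h4 : n = (m + j) + orderOf ((Fintype.card F : ℕ) : ZMod r) * t := by omega
            have h6 : m + j < orderOf ((Fintype.card F : ℕ) : ZMod r) := by omega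
            rw [h4, Nat.add_mul_mod_self_left, Nat.mod_eq_of_lt h6] at h2ℓ
            omega
        obtain ⟨x, hx1, hx2, hx3⟩ := exists_min_elt (F := F) n r hrF hcop hi0
        have hnoflag : ∀ U W : Submodule F (Fin n → F), U ≤ W → finrank F U = m →
            finrank F W = n - m →
            U.map (Matrix.toLin' (x : Matrix (Fin n) (Fin n) F)) ≤ U →
            ¬ W.map (Matrix.toLin' (x : Matrix (Fin n) (Fin n) F)) ≤ W := by
          intro U W hUW hUd hWd hU hW
          apply hmod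
          have := flag_mod (Matrix.toLin' (x : Matrix (Fin n) (Fin n) F)) r hrF hx2 hi0
            (by rw [hfin]; exact hx3) m (by rw [hfin]; exact hmn') U W hUW hUd
            (by rw [hfin]; exact hWd) (fun w hw => hU ⟨w, hw, rfl⟩) (fun w hw => hW ⟨w, hw, rfl⟩)
          rw [hfin] at this
          exact this
        refine ⟨x, ⟨1, by rw [hx1, one_smul]⟩, ?_, hnoflag⟩
        intro c' hc'
        apply hnoflag U₀ W₀ hUW₀ hU₀ (by rw [hW₀]; omega)
        · rintro _ ⟨w, hw, rfl⟩
          rw [hc']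
          simp only [map_smul, Matrix.toLin'_one, LinearMap.smul_apply, LinearMap.id_coe, id_eq]
          exact U₀.smul_mem _ hw
        · rintro _ ⟨w, hw, rfl⟩
          rw [hc']
          simp only [map_smul, Matrix.toLin'_one, LinearMap.smul_apply, LinearMap.id_coe, id_eq]
          exact W₀.smul_mem _ hw
    obtain ⟨x, hx1, hx2, hx3⟩ := hx
    obtain ⟨U, W, hUW, hUd, hWd, hU, hW⟩ := hall x hx1 hx2
    exact hx3 U W hUW hUd hWd hU hW
  · rintro ⟨-, hcond⟩ x ⟨c, hxc⟩ -
    set f : Module.End F (Fin n → F) := Matrix.toLin' (x : Matrix (Fin n) (Fin n) F) with hf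
    have hfr : f ^ r = c • (1 : Module.End F (Fin n → F)) := by
      have h1 : (x : Matrix (Fin n) (Fin n) F) ^ r = c • 1 := by
        rw [← Matrix.SpecialLinearGroup.coe_pow]; exact hxc
      have h2 := congrArg (Matrix.toLinAlgEquiv' (R := F) (n := Fin n)) h1
      rw [map_pow, map_smul, map_one] at h2
      exact h2
    have hdetf : LinearMap.det f = 1 := by rw [hf, LinearMap.det_toLin', x.det_coe]
    have hc0 : c ≠ 0 := by
      rintro rfl
      have h1 := (x ^ r).det_coe
      have : Nonempty (Fin n) := ⟨⟨0, by omega⟩⟩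
      rw [hxc, zero_smul, Matrix.det_zero] at h1
      exact zero_ne_one h1
    suffices h : ∃ U W : Submodule F (Fin n → F), U ≤ W ∧ finrank F U = m ∧
        finrank F W = n - m ∧ (∀ w ∈ U, f w ∈ U) ∧ ∀ w ∈ W, f w ∈ W by
      obtain ⟨U, W, hUW, hUd, hWd, hU, hW⟩ := h
      exact ⟨U, W, hUW, hUd, hWd, by rintro _ ⟨w, hw, rfl⟩; exact hU w hw,
        by rintro _ ⟨w, hw, rfl⟩; exact hW w hw⟩
    have hbot : ∀ w ∈ (⊥ : Submodule F (Fin n → F)), f w ∈ (⊥ : Submodule F (Fin n → F)) :=
      fun w hw => by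
        rw [Submodule.mem_bot] at hw; rw [hw, map_zero]; exact Submodule.zero_mem _
    rcases hcond with ⟨h1, hcond⟩ | ⟨h2, him, hmod⟩
    · have hrq1 : r ∣ Fintype.card F - 1 := (S5949.order_one_iff _ r (by omega)).mp h1
      by_cases hb : ∃ b, b ^ r = c
      · obtain ⟨b, rfl⟩ := hb
        have hb0 : b ≠ 0 := by rintro rfl; exact hc0 (zero_pow hrp.ne_zero)
        obtain ⟨w, hw⟩ := hrq1
        have hfq : f ^ Fintype.card F = f := by
          have h3 : f ^ (Fintype.card F - 1) = 1 := by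
            rw [hw, pow_mul, hfr, _root_.smul_pow, one_pow, ← pow_mul, ← hw,
              FiniteField.pow_card_sub_one_eq_one b hb0, one_smul]
          have h4 : Fintype.card F = (Fintype.card F - 1) + 1 := by omega
          rw [h4, pow_succ, h3, one_mul]
        obtain ⟨U, -, hU, hUd⟩ := iterate_step (fun W : Submodule F (Fin n → F) => ∀ w ∈ W, f w ∈ W)
          1 (finrank F (Fin n → F)) (fun W hW hlt => step_one f hfq W hW hlt) ⊥ hbot m
          (by rw [finrank_bot, hfin]; omega)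
        rw [finrank_bot, zero_add, one_mul] at hUd
        obtain ⟨W, hUW, hW, hWd⟩ := iterate_step (fun W : Submodule F (Fin n → F) => ∀ w ∈ W, f w ∈ W)
          1 (finrank F (Fin n → F)) (fun W hW hlt => step_one f hfq W hW hlt) U hU (n - 2 * m)
          (by rw [hUd, hfin]; omega)
        exact ⟨U, W, hUW, hUd, by rw [hWd, hUd]; omega, hU, hW⟩
      · push Not at hb
        have hirr := X_pow_sub_C_irreducible_of_prime hrp hb
        obtain ⟨k, hk1, hk2⟩ := S5949.lin_charpoly f r hrp.ne_zero c hirr hfr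
        rw [hfin] at hk1 hk2; rw [hdetf] at hk2
        by_cases hrm : r ∣ m
        · obtain ⟨t, rfl⟩ := hrm
          have hr0 := hrp.pos
          have htk : 2 * t < k := by
            rw [hk1] at hmn
            have : r * (2 * t) < r * k := by nlinarith
            exact lt_of_mul_lt_mul_left this (Nat.zero_le r)
          obtain ⟨U, -, hU, hUd⟩ := iterate_step
            (fun W : Submodule F (Fin n → F) => ∀ w ∈ W, f w ∈ W)
            r (finrank F (Fin n → F))
            (fun W hW hlt => step_r f r hrp.ne_zero c hirr hfr W hW hlt) ⊥ hbot t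
            (by rw [finrank_bot, hfin]; omega)
          rw [finrank_bot, zero_add] at hUd
          have hnk : n = r * t + r * (k - 2 * t) + r * t := by
            rw [hk1, ← Nat.mul_add, ← Nat.mul_add]; congr 1; omega
          obtain ⟨W, hUW, hW, hWd⟩ := iterate_step
            (fun W : Submodule F (Fin n → F) => ∀ w ∈ W, f w ∈ W)
            r (finrank F (Fin n → F))
            (fun W hW hlt => step_r f r hrp.ne_zero c hirr hfr W hW hlt) U hU (k - 2 * t)
            (by rw [hUd, hfin]; omega)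
          exact ⟨U, W, hUW, hUd, by rw [hWd, hUd]; omega, hU, hW⟩
        · exfalso
          rcases hcond with hrm' | ⟨hv, h4⟩
          · exact hrm hrm'
          · exact S5949.nt_no r n k c hb hk1 (by omega) hk2.symm hv h4
    · have hnrq : ¬ r ∣ Fintype.card F - 1 := by
        intro h; have := (S5949.order_one_iff _ r (by omega)).mpr h; omega
      have hcop : Nat.Coprime r (Fintype.card F - 1) :=
        (Nat.Prime.coprime_iff_not_dvd hrp).mpr hnrq
      obtain ⟨b, hb0, rfl⟩ := S5949.exists_root_of_coprime r hcop c hc0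
      have hg : (b⁻¹ • f) ^ r = 1 := by
        rw [_root_.smul_pow, hfr, smul_smul, inv_pow, inv_mul_cancel₀ (pow_ne_zero _ hb0), one_smul]
      obtain ⟨U, W, hUW, hUd, hWd, hU, hW⟩ := exists_flag (b⁻¹ • f) r hrF hg hi0 m
        (by rw [hfin]; omega) (by rw [hfin]; exact hmod)
      rw [hfin] at hWd
      have hback : ∀ A : Submodule F (Fin n → F), (∀ w ∈ A, (b⁻¹ • f) w ∈ A) →
          ∀ w ∈ A, f w ∈ A := by
        intro A hA w hw
        have h5 := A.smul_mem b (hA w hw)
        rwa [LinearMap.smul_apply, smul_smul, mul_inv_cancel₀ hb0, one_smul] at h5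
      exact ⟨U, W, hUW, hUd, hWd, hback U hU, hback W hW⟩


end Cfsg.Agent.S5951
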