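import Cfsg.Statements.S5952

set_option autoImplicit false
open Cfsg

namespace Cfsg.Agent.S5952

open Module

variable {F V : Type*} [Field F] [AddCommGroup V] [Module F V]

set_option linter.unusedSectionVars false
set_option linter.unusedVariables false

theorem inv_inf (f : V →ₗ[F] V) {A B : Submodule F V} (hA : A.map f ≤ A) (hB : B.map f ≤ B) :
    (A ⊓ B).map f ≤ A ⊓ B :=
  (Submodule.map_inf_le f).trans (inf_le_inf hA hB)

theorem inv_sup (f : V →ₗ[F] V) {A B : Submodule F V} (hA : A.map f ≤ A) (hB : B.map f ≤ B) :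
    (A ⊔ B).map f ≤ A ⊔ B := by
  rw [Submodule.map_sup]
  exact sup_le_sup hA hB

def T {s : ℕ} (U : Fin s → Submodule F V) (k : ℕ) (W0 : Submodule F V) : Submodule F V :=
  W0 ⊔ ⨆ (j : Fin s) (_ : j.val < k), U j

theorem T_zero {s : ℕ} (U : Fin s → Submodule F V) (W0 : Submodule F V) : T U 0 W0 = W0 := by
  unfold T
  have : (⨆ (j : Fin s) (_ : j.val < 0), U j) = ⊥ := by
    rw [eq_bot_iff]
    apply iSup₂_le
    intro j hj
    omega
  rw [this, sup_bot_eq]

theorem T_succ {s : ℕ} (U : Fin s → Submodule F V) (k : ℕ) (hk : k < s) (W0 : Submodule F V) :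
    T U (k + 1) W0 = T U k W0 ⊔ U ⟨k, hk⟩ := by
  unfold T
  rw [sup_assoc]
  congr 1
  apply le_antisymm
  · apply iSup₂_le
    intro j hj
    by_cases hjk : j.val < k
    · exact (le_iSup₂ (f := fun (j : Fin s) (_ : j.val < k) => U j) j hjk).trans le_sup_left
    · have : j = ⟨k, hk⟩ := Fin.ext (by simp; omega)
      rw [this]
      exact le_sup_right
  · apply sup_le
    · apply iSup₂_le
      intro j hj
      exact le_iSup₂ (f := fun (j : Fin s) (_ : j.val < k + 1) => U j) j (by omega)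
    · exact le_iSup₂ (f := fun (j : Fin s) (_ : j.val < k + 1) => U j) ⟨k, hk⟩ (by simp)

theorem T_inv (f : V →ₗ[F] V) {s : ℕ} (U : Fin s → Submodule F V) (hUinv : ∀ j, (U j).map f ≤ U j)
    (k : ℕ) (W0 : Submodule F V) (hW0 : W0.map f ≤ W0) : (T U k W0).map f ≤ T U k W0 := by
  unfold T
  apply inv_sup f hW0
  rw [Submodule.map_iSup]
  apply iSup_le
  intro j
  rw [Submodule.map_iSup]
  apply iSup_le
  intro hj
  exact (hUinv j).trans (le_iSup₂ (f := fun (j : Fin s) (_ : j.val < k) => U j) j hj)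

theorem T_mono {s : ℕ} (U : Fin s → Submodule F V) (k : ℕ) {W0 W1 : Submodule F V} (h : W0 ≤ W1) :
    T U k W0 ≤ T U k W1 := sup_le_sup_right h _

theorem T_disj {s : ℕ} (C : Submodule F V) (U : Fin s → Submodule F V)
    (hind : iSupIndep (fun o : Option (Fin s) => o.elim C U))
    (k : ℕ) (hk : k < s) (W0 : Submodule F V) (hW0 : W0 ≤ C) :
    T U k W0 ⊓ U ⟨k, hk⟩ = ⊥ := by
  have h := hind (some ⟨k, hk⟩)
  rw [disjoint_iff] at h
  rw [eq_bot_iff, ← h, inf_comm]
  apply inf_le_inf_left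
  unfold T
  apply sup_le
  · exact hW0.trans (le_iSup₂ (f := fun (o : Option (Fin s)) (_ : o ≠ some ⟨k, hk⟩) => o.elim C U) none (by simp))
  · apply iSup₂_le
    intro j hj
    exact le_iSup₂ (f := fun (o : Option (Fin s)) (_ : o ≠ some ⟨k, hk⟩) => o.elim C U) (some j)
      (by simp; intro h; rw [h] at hj; simp at hj)

theorem T_top {s : ℕ} (C : Submodule F V) (U : Fin s → Submodule F V)
    (htop : (⨆ o : Option (Fin s), o.elim C U) = ⊤) : T U s C = ⊤ := by
  rw [eq_top_iff, ← htop]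
  apply iSup_le
  intro o
  cases o with
  | none => exact le_sup_left
  | some j => exact (le_iSup₂ (f := fun (j : Fin s) (_ : j.val < s) => U j) j j.2).trans le_sup_right

theorem T_finrank [FiniteDimensional F V] {s a : ℕ} (C : Submodule F V) (U : Fin s → Submodule F V)
    (hUdim : ∀ j, finrank F ↥(U j) = a)
    (hind : iSupIndep (fun o : Option (Fin s) => o.elim C U))
    (W0 : Submodule F V) (hW0 : W0 ≤ C) (k : ℕ) (hk : k ≤ s) :
    finrank F ↥(T U k W0) = finrank F ↥W0 + k * a := by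
  induction k with
  | zero =>
    rw [T_zero]
    simp
  | succ k ih =>
    have hk' : k < s := hk
    rw [T_succ U k hk']
    have h := Submodule.finrank_sup_add_finrank_inf_eq (T U k W0) (U ⟨k, hk'⟩)
    rw [T_disj C U hind k hk' W0 hW0, finrank_bot, ih (by omega), hUdim] at h
    rw [add_zero] at h
    rw [h]
    ring

theorem exists_sub [FiniteDimensional F V] (C : Submodule F V) (r : ℕ) (hr : r ≤ finrank F ↥C) :
    ∃ W0 : Submodule F V, W0 ≤ C ∧ finrank F ↥W0 = r := by
  let b := Module.finBasis F C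
  let v : Fin r → V := fun i => (b (Fin.castLE hr i) : V)
  have hli : LinearIndependent F v := by
    have h1 : LinearIndependent F (fun i : Fin r => b (Fin.castLE hr i)) :=
      b.linearIndependent.comp _ (Fin.castLE_injective hr)
    exact h1.map' C.subtype (Submodule.ker_subtype C)
  refine ⟨Submodule.span F (Set.range v), ?_, ?_⟩
  · rw [Submodule.span_le]
    rintro _ ⟨i, rfl⟩
    exact (b (Fin.castLE hr i)).2
  · rw [finrank_span_eq_card hli]
    simp

theorem step [FiniteDimensional F V] (f : V →ₗ[F] V) {s a : ℕ} (C : Submodule F V)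
    (hC : C.map f ≤ C) (U : Fin s → Submodule F V)
    (hUinv : ∀ j, (U j).map f ≤ U j) (hUdim : ∀ j, finrank F ↥(U j) = a)
    (hUirr : ∀ j, ∀ W : Submodule F V, W ≤ U j → W.map f ≤ W → W = ⊥ ∨ W = U j)
    (hind : iSupIndep (fun o : Option (Fin s) => o.elim C U))
    (W : Submodule F V) (hW : W.map f ≤ W) (k : ℕ) (hk : k < s) :
    finrank F ↥(W ⊓ T U (k + 1) C) = finrank F ↥(W ⊓ T U k C) ∨
    finrank F ↥(W ⊓ T U (k + 1) C) = finrank F ↥(W ⊓ T U k C) + a := by
  set Vk := T U k C with hVk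
  set Vk1 := T U (k + 1) C with hVk1
  set Uk := U ⟨k, hk⟩ with hUk
  have hsucc : Vk1 = Vk ⊔ Uk := T_succ U k hk C
  have hdisj : Vk ⊓ Uk = ⊥ := T_disj C U hind k hk C le_rfl
  have hVkinv : Vk.map f ≤ Vk := T_inv f U hUinv k C hC
  have hVk1inv : Vk1.map f ≤ Vk1 := T_inv f U hUinv (k + 1) C hC
  set X := (W ⊓ Vk1) ⊔ Vk with hX
  set P := Uk ⊓ X with hP
  have hPinv : P.map f ≤ P := inv_inf f (hUinv _) (inv_sup f (inv_inf f hW hVk1inv) hVkinv)
  have hVkle : Vk ≤ Vk1 := by
    rw [hsucc]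
    exact le_sup_left
  have hXle : X ≤ Vk1 := sup_le inf_le_right hVkle
  have hXeq : X = Vk ⊔ P := by
    have h1 : (Vk ⊔ Uk) ⊓ X = Vk ⊔ Uk ⊓ X := sup_inf_assoc_of_le Uk (le_sup_right : Vk ≤ X)
    rw [← hsucc, inf_eq_right.mpr hXle] at h1
    exact h1
  have hVP : Vk ⊓ P = ⊥ := by
    rw [eq_bot_iff, ← hdisj]
    exact inf_le_inf_left _ inf_le_left
  have e1 := Submodule.finrank_sup_add_finrank_inf_eq Vk P
  rw [hVP, finrank_bot, add_zero, ← hXeq] at e1
  have e2 := Submodule.finrank_sup_add_finrank_inf_eq (W ⊓ Vk1) Vk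
  have hinf : W ⊓ Vk1 ⊓ Vk = W ⊓ Vk := by
    rw [inf_assoc, inf_eq_right.mpr hVkle]
  rw [hinf, ← hX, e1] at e2
  rcases hUirr ⟨k, hk⟩ P inf_le_left hPinv with h | h
  · left
    rw [h, finrank_bot] at e2
    omega
  · right
    rw [h, hUdim] at e2
    omega

theorem forward [FiniteDimensional F V] (f : V →ₗ[F] V) {s a : ℕ} (C : Submodule F V)
    (hC : C.map f ≤ C) (U : Fin s → Submodule F V)
    (hUinv : ∀ j, (U j).map f ≤ U j) (hUdim : ∀ j, finrank F ↥(U j) = a)
    (hUirr : ∀ j, ∀ W : Submodule F V, W ≤ U j → W.map f ≤ W → W = ⊥ ∨ W = U j)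
    (hind : iSupIndep (fun o : Option (Fin s) => o.elim C U))
    (W : Submodule F V) (hW : W.map f ≤ W) (k : ℕ) (hk : k ≤ s) :
    ∃ t : ℕ, finrank F ↥(W ⊓ T U k C) = finrank F ↥(W ⊓ C) + t * a := by
  induction k with
  | zero =>
    refine ⟨0, ?_⟩
    rw [T_zero]
    simp
  | succ k ih =>
    obtain ⟨t, ht⟩ := ih (by omega)
    rcases step f C hC U hUinv hUdim hUirr hind W hW k hk with h | h
    · exact ⟨t, by rw [h, ht]⟩
    · exact ⟨t + 1, by rw [h, ht]; ring⟩

theorem result {F V : Type*} [Field F] [AddCommGroup V] [Module F V]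
    [FiniteDimensional F V] (f : V →ₗ[F] V) (hf : Function.Bijective f) (hss : Module.End.IsSemisimple f)
    {s a : ℕ} (ha : 1 ≤ a) (U : Fin s → Submodule F V)
    (hUinv : ∀ j, (U j).map f ≤ U j) (hUdim : ∀ j, Module.finrank F ↥(U j) = a)
    (hUirr : ∀ j, ∀ W : Submodule F V, W ≤ U j → W.map f ≤ W → W = ⊥ ∨ W = U j)
    (hdec : DirectSum.IsInternal (fun o : Option (Fin s) => o.elim (Module.End.eigenspace f 1) U))
    (m : ℕ) (hm : 0 < m) (hmV : m < Module.finrank F V) :
    (∃ W : Submodule F V, Module.finrank F ↥W = m ∧ W.map f ≤ W) ↔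
    (m ≤ Module.finrank F ↥(Module.End.eigenspace f 1) ∨
      (a ≤ m ∧ m % a ≤ Module.finrank F ↥(Module.End.eigenspace f 1))) := by
  rw [DirectSum.isInternal_submodule_iff_iSupIndep_and_iSup_eq_top] at hdec
  obtain ⟨hind, htop⟩ := hdec
  set C := Module.End.eigenspace f 1 with hCdef
  have hCfix : ∀ w ∈ C, f w = w := by
    intro w hw
    rw [hCdef, Module.End.mem_eigenspace_iff, one_smul] at hw
    exact hw
  have hsubinv : ∀ W0 : Submodule F V, W0 ≤ C → W0.map f ≤ W0 := by
    rintro W0 hW0 _ ⟨w, hw, rfl⟩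
    rw [hCfix w (hW0 hw)]
    exact hw
  have hC : C.map f ≤ C := hsubinv C le_rfl
  have hdimV : finrank F V = finrank F ↥C + s * a := by
    have h := T_finrank C U hUdim hind C le_rfl s le_rfl
    rw [T_top C U htop, finrank_top] at h
    exact h
  constructor
  · rintro ⟨W, hWm, hW⟩
    obtain ⟨t, ht⟩ := forward f C hC U hUinv hUdim hUirr hind W hW s le_rfl
    rw [T_top C U htop, inf_top_eq, hWm] at ht
    have hle : finrank F ↥(W ⊓ C) ≤ finrank F ↥C := Submodule.finrank_mono inf_le_right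
    rcases Nat.eq_zero_or_pos t with h0 | hpos
    · left
      rw [h0] at ht
      omega
    · right
      constructor
      · have : a ≤ t * a := Nat.le_mul_of_pos_left a hpos
        omega
      · rw [ht, Nat.add_mul_mod_self_right]
        exact (Nat.mod_le _ _).trans hle
  · intro h
    have hex : ∃ k r : ℕ, k ≤ s ∧ r ≤ finrank F ↥C ∧ m = r + k * a := by
      rcases h with h | ⟨h1, h2⟩
      · exact ⟨0, m, by omega, h, by simp⟩
      · by_cases hq : m / a ≤ s
        · exact ⟨m / a, m % a, hq, h2, by rw [add_comm, Nat.div_add_mod']⟩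
        · refine ⟨s, m - s * a, le_rfl, by omega, ?_⟩
          have : s * a ≤ m := by
            have h3 : (s + 1) * a ≤ m / a * a := Nat.mul_le_mul_right a (by omega)
            have h4 : m / a * a ≤ m := Nat.div_mul_le_self m a
            nlinarith
          omega
    obtain ⟨k, r, hk, hr, hmeq⟩ := hex
    obtain ⟨W0, hW0, hW0r⟩ := exists_sub C r hr
    refine ⟨T U k W0, ?_, T_inv f U hUinv k W0 (hsubinv W0 hW0)⟩
    rw [T_finrank C U hUdim hind W0 hW0 k hk, hW0r, hmeq]

end Cfsg.Agent.S5952
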