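import Cfsg.Statements.S5957
import Mathlib

set_option autoImplicit false
set_option maxHeartbeats 400000
open scoped MatrixGroups
open Cfsg

namespace Cfsg.Agent.S5957

open Module

universe u

section comb

variable {ι : Type*} [LinearOrder ι]

/-- an involution on a finite set of size `a * t`: colouring into `t` classes of size `a`
permuted by the involution -/
theorem exists_coloring (a : ℕ) (τ : ι → ι) (hτ : ∀ k, τ (τ k) = k) :
    ∀ t, ∀ S : Finset ι, (∀ k ∈ S, τ k ∈ S) → S.card = a * t →
    ∃ (π : ι → ℕ) (σ : ℕ → ℕ), (∀ k ∈ S, π k < t) ∧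
      (∀ j < t, (S.filter (fun k => π k = j)).card = a) ∧ (∀ k ∈ S, π (τ k) = σ (π k)) := by
  classical
  have hinj : Function.Injective τ := fun k k' h => by rw [← hτ k, ← hτ k', h]
  intro t
  induction t using Nat.strong_induction_on with
  | _ t ih =>
    intro S hS hcard
    rcases Nat.eq_zero_or_pos t with h0 | hpos
    · subst h0
      refine ⟨fun _ => 0, id, ?_, ?_, ?_⟩
      · intro k hk
        rw [Nat.mul_zero, Finset.card_eq_zero] at hcard
        rw [hcard] at hk
        exact absurd hk (Finset.notMem_empty k)
      · intro j hj; omega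
      · intro k hk; rfl
    · obtain ⟨T, hT⟩ : ∃ T, T = S.filter (fun k => k < τ k) := ⟨_, rfl⟩
      obtain ⟨Fx, hFx⟩ : ∃ Fx, Fx = S.filter (fun k => τ k = k) := ⟨_, rfl⟩
      have hTS : T ⊆ S := hT ▸ Finset.filter_subset _ _
      have hFS : Fx ⊆ S := hFx ▸ Finset.filter_subset _ _
      have hTlt : ∀ k ∈ T, k < τ k := fun k hk => by
        rw [hT] at hk; exact (Finset.mem_filter.mp hk).2
      have hTτ : ∀ k ∈ T, τ k ∉ T := by
        intro k hk hk'
        have h1 := hTlt k hk
        have h2 := hTlt (τ k) hk'
        rw [hτ] at h2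
        exact lt_asymm h1 h2
      have hFfix : ∀ k ∈ Fx, τ k = k := fun k hk => by
        rw [hFx] at hk; exact (Finset.mem_filter.mp hk).2
      have hd1 : Disjoint T (T.image τ) := by
        rw [Finset.disjoint_left]
        intro k hk hk'
        obtain ⟨k', hk'', rfl⟩ := Finset.mem_image.mp hk'
        exact hTτ k' hk'' hk
      have hd2 : Disjoint Fx (T ∪ T.image τ) := by
        rw [Finset.disjoint_left]
        intro k hk hk'
        have hfix := hFfix k hk
        rcases Finset.mem_union.mp hk' with h | h
        · have h1 := hTlt k h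
          rw [hfix] at h1
          exact lt_irrefl _ h1
        · obtain ⟨k', hk'', rfl⟩ := Finset.mem_image.mp h
          have h1 := hTlt k' hk''
          rw [hτ] at hfix
          rw [← hfix] at h1
          exact lt_irrefl _ h1
      have hcount : S.card = Fx.card + 2 * T.card := by
        have h1 : S = Fx ∪ (T ∪ T.image τ) := by
          ext k
          constructor
          · intro hk
            rcases lt_trichotomy k (τ k) with h | h | h
            · exact Finset.mem_union_right _ (Finset.mem_union_left _
                (by rw [hT]; exact Finset.mem_filter.mpr ⟨hk, h⟩))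
            · exact Finset.mem_union_left _ (by rw [hFx]; exact Finset.mem_filter.mpr ⟨hk, h.symm⟩)
            · refine Finset.mem_union_right _ (Finset.mem_union_right _
                (Finset.mem_image.mpr ⟨τ k, ?_, hτ k⟩))
              rw [hT]; exact Finset.mem_filter.mpr ⟨hS k hk, by rw [hτ]; exact h⟩
          · intro hk
            rcases Finset.mem_union.mp hk with h | h
            · exact hFS h
            · rcases Finset.mem_union.mp h with h | h
              · exact hTS h
              · obtain ⟨k', hk', rfl⟩ := Finset.mem_image.mp h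
                exact hS k' (hTS hk')
        conv_lhs => rw [h1]
        rw [Finset.card_union_of_disjoint hd2, Finset.card_union_of_disjoint hd1,
          Finset.card_image_of_injective _ hinj]
        omega
      by_cases hsw : 2 ≤ t ∧ a ≤ T.card
      · obtain ⟨ht2, haT⟩ := hsw
        obtain ⟨A, hAT, hAc⟩ := Finset.exists_subset_card_eq haT
        have hAS : A ⊆ S := hAT.trans hTS
        have hA2S : A.image τ ⊆ S := by
          intro k hk
          obtain ⟨k', hk', rfl⟩ := Finset.mem_image.mp hk
          exact hS k' (hAS hk')
        have hdisj : Disjoint A (A.image τ) :=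
          Disjoint.mono hAT (Finset.image_subset_image hAT) hd1
        have hmem2 : ∀ k, k ∈ A.image τ ↔ τ k ∈ A := by
          intro k
          constructor
          · intro hk
            obtain ⟨k', hk', rfl⟩ := Finset.mem_image.mp hk
            rw [hτ]; exact hk'
          · intro hk
            exact Finset.mem_image.mpr ⟨τ k, hk, hτ k⟩
        have hAA : ∀ k ∈ A, τ k ∉ A := fun k hk h =>
          Finset.disjoint_left.mp hdisj hk ((hmem2 k).mpr h)
        obtain ⟨S', hS'⟩ : ∃ S', S' = S \ (A ∪ A.image τ) := ⟨_, rfl⟩
        have hS'mem : ∀ k, k ∈ S' ↔ k ∈ S ∧ k ∉ A ∧ τ k ∉ A := by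
          intro k
          rw [hS', Finset.mem_sdiff, Finset.mem_union, hmem2]
          tauto
        have hS'inv : ∀ k ∈ S', τ k ∈ S' := by
          intro k hk
          rw [hS'mem] at hk ⊢
          exact ⟨hS k hk.1, hk.2.2, by rw [hτ]; exact hk.2.1⟩
        have hS'card : S'.card = a * (t - 2) := by
          rw [hS', Finset.card_sdiff_of_subset (Finset.union_subset hAS hA2S),
            Finset.card_union_of_disjoint hdisj, Finset.card_image_of_injective _ hinj, hAc, hcard]
          obtain ⟨t', rfl⟩ : ∃ t', t = t' + 2 := ⟨t - 2, by omega⟩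
          rw [Nat.add_sub_cancel, Nat.mul_add]
          omega
        obtain ⟨π', σ', h1, h2, h3⟩ := ih (t - 2) (by omega) S' hS'inv hS'card
        obtain ⟨π, hπ⟩ : ∃ π : ι → ℕ, ∀ k, π k =
            if k ∈ A then t - 2 else if τ k ∈ A then t - 1 else π' k := ⟨_, fun _ => rfl⟩
        obtain ⟨σ, hσ⟩ : ∃ σ : ℕ → ℕ, ∀ j, σ j =
            if j = t - 2 then t - 1 else if j = t - 1 then t - 2 else σ' j := ⟨_, fun _ => rfl⟩
        have hπA : ∀ k ∈ A, π k = t - 2 := fun k hk => by rw [hπ, if_pos hk]
        have hπA2 : ∀ k, τ k ∈ A → π k = t - 1 := fun k hk => by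
          have hkA : k ∉ A := fun h => hAA k h hk
          rw [hπ, if_neg hkA, if_pos hk]
        have hπS' : ∀ k ∈ S', π k = π' k := fun k hk => by
          rw [hS'mem] at hk
          rw [hπ, if_neg hk.2.1, if_neg hk.2.2]
        have hcases : ∀ k ∈ S, k ∈ A ∨ τ k ∈ A ∨ k ∈ S' := by
          intro k hk
          by_cases h1 : k ∈ A
          · exact Or.inl h1
          · by_cases h2 : τ k ∈ A
            · exact Or.inr (Or.inl h2)
            · exact Or.inr (Or.inr ((hS'mem k).mpr ⟨hk, h1, h2⟩))
        refine ⟨π, σ, ?_, ?_, ?_⟩
        · intro k hk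
          rcases hcases k hk with h | h | h
          · rw [hπA k h]; omega
          · rw [hπA2 k h]; omega
          · rw [hπS' k h]; have := h1 k h; omega
        · intro j hj
          by_cases hj1 : j = t - 2
          · have hfil : S.filter (fun k => π k = j) = A := by
              ext k
              rw [Finset.mem_filter]
              constructor
              · rintro ⟨hk, hk2⟩
                rcases hcases k hk with h | h | h
                · exact h
                · rw [hπA2 k h] at hk2; omega
                · rw [hπS' k h] at hk2; have := h1 k h; omega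
              · intro hk
                exact ⟨hAS hk, by rw [hπA k hk, hj1]⟩
            rw [hfil, hAc]
          · by_cases hj2 : j = t - 1
            · have hfil : S.filter (fun k => π k = j) = A.image τ := by
                ext k
                rw [Finset.mem_filter, hmem2]
                constructor
                · rintro ⟨hk, hk2⟩
                  rcases hcases k hk with h | h | h
                  · rw [hπA k h] at hk2; omega
                  · exact h
                  · rw [hπS' k h] at hk2; have := h1 k h; omega
                · intro hk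
                  exact ⟨hA2S ((hmem2 k).mpr hk), by rw [hπA2 k hk, hj2]⟩
              rw [hfil, Finset.card_image_of_injective _ hinj, hAc]
            · have hfil : S.filter (fun k => π k = j) = S'.filter (fun k => π' k = j) := by
                ext k
                rw [Finset.mem_filter, Finset.mem_filter]
                constructor
                · rintro ⟨hk, hk2⟩
                  rcases hcases k hk with h | h | h
                  · rw [hπA k h] at hk2; omega
                  · rw [hπA2 k h] at hk2; omega
                  · exact ⟨h, by rw [← hπS' k h]; exact hk2⟩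
                · rintro ⟨hk, hk2⟩
                  exact ⟨((hS'mem k).mp hk).1, by rw [hπS' k hk]; exact hk2⟩
              rw [hfil]
              exact h2 j (by omega)
        · intro k hk
          rcases hcases k hk with h | h | h
          · rw [hπA k h, hπA2 (τ k) (by rw [hτ]; exact h), hσ, if_pos rfl]
          · rw [hπA2 k h, hπA (τ k) h, hσ, if_neg (by omega), if_pos rfl]
          · have hlt := h1 k h
            rw [hπS' k h, hπS' (τ k) (hS'inv k h), h3 k h, hσ, if_neg (by omega), if_neg (by omega)]
      · have hA : ∃ A ⊆ S, A.card = a ∧ ∀ k ∈ A, τ k ∈ A := by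
          have he : a - 2 * min T.card (a / 2) ≤ Fx.card := by
            rcases Nat.lt_or_ge T.card (a / 2) with h | h
            · rw [min_eq_left h.le]
              have : a ≤ a * t := Nat.le_mul_of_pos_right a hpos
              omega
            · rw [min_eq_right h]
              by_contra hcon
              have hF0 : Fx.card = 0 := by omega
              have hodd : a % 2 = 1 := by omega
              have h1 : a * t = 2 * T.card := by omega
              have ht2 : 2 ≤ t := by
                by_contra ht
                have ht1 : t = 1 := by omega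
                rw [ht1, Nat.mul_one] at h1
                omega
              apply hsw
              refine ⟨ht2, ?_⟩
              have := Nat.mul_le_mul_left a ht2
              omega
          obtain ⟨T', hT'T, hT'c⟩ := Finset.exists_subset_card_eq (min_le_left T.card (a / 2))
          obtain ⟨E', hE'F, hE'c⟩ := Finset.exists_subset_card_eq he
          refine ⟨E' ∪ (T' ∪ T'.image τ), ?_, ?_, ?_⟩
          · intro k hk
            rcases Finset.mem_union.mp hk with h | h
            · exact hFS (hE'F h)
            · rcases Finset.mem_union.mp h with h | h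
              · exact hTS (hT'T h)
              · obtain ⟨k', hk', rfl⟩ := Finset.mem_image.mp h
                exact hS k' (hTS (hT'T hk'))
          · have hd1' : Disjoint T' (T'.image τ) :=
              Disjoint.mono hT'T (Finset.image_subset_image hT'T) hd1
            have hd2' : Disjoint E' (T' ∪ T'.image τ) :=
              Disjoint.mono hE'F (Finset.union_subset_union hT'T (Finset.image_subset_image hT'T)) hd2
            rw [Finset.card_union_of_disjoint hd2', Finset.card_union_of_disjoint hd1',
              Finset.card_image_of_injective _ hinj, hT'c, hE'c]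
            omega
          · intro k hk
            rcases Finset.mem_union.mp hk with h | h
            · rw [hFfix k (hE'F h)]; exact hk
            · rcases Finset.mem_union.mp h with h | h
              · exact Finset.mem_union_right _ (Finset.mem_union_right _
                  (Finset.mem_image.mpr ⟨k, h, rfl⟩))
              · obtain ⟨k', hk', rfl⟩ := Finset.mem_image.mp h
                rw [hτ]
                exact Finset.mem_union_right _ (Finset.mem_union_left _ hk')
        obtain ⟨A, hAS, hAc, hAinv⟩ := hA
        obtain ⟨S', hS'⟩ : ∃ S', S' = S \ A := ⟨_, rfl⟩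
        have hS'mem : ∀ k, k ∈ S' ↔ k ∈ S ∧ k ∉ A := by
          intro k
          rw [hS', Finset.mem_sdiff]
        have hS'inv : ∀ k ∈ S', τ k ∈ S' := by
          intro k hk
          rw [hS'mem] at hk ⊢
          refine ⟨hS k hk.1, fun h => hk.2 ?_⟩
          have := hAinv _ h
          rwa [hτ] at this
        have hS'card : S'.card = a * (t - 1) := by
          rw [hS', Finset.card_sdiff_of_subset hAS, hAc, hcard]
          obtain ⟨t', rfl⟩ : ∃ t', t = t' + 1 := ⟨t - 1, by omega⟩
          rw [Nat.add_sub_cancel, Nat.mul_add]
          omega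
        obtain ⟨π', σ', h1, h2, h3⟩ := ih (t - 1) (by omega) S' hS'inv hS'card
        obtain ⟨π, hπ⟩ : ∃ π : ι → ℕ, ∀ k, π k = if k ∈ A then t - 1 else π' k :=
          ⟨_, fun _ => rfl⟩
        obtain ⟨σ, hσ⟩ : ∃ σ : ℕ → ℕ, ∀ j, σ j = if j = t - 1 then t - 1 else σ' j :=
          ⟨_, fun _ => rfl⟩
        have hπA : ∀ k ∈ A, π k = t - 1 := fun k hk => by rw [hπ, if_pos hk]
        have hπS' : ∀ k ∈ S', π k = π' k := fun k hk => by
          rw [hS'mem] at hk
          rw [hπ, if_neg hk.2]
        have hcases : ∀ k ∈ S, k ∈ A ∨ k ∈ S' := by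
          intro k hk
          by_cases h1 : k ∈ A
          · exact Or.inl h1
          · exact Or.inr ((hS'mem k).mpr ⟨hk, h1⟩)
        refine ⟨π, σ, ?_, ?_, ?_⟩
        · intro k hk
          rcases hcases k hk with h | h
          · rw [hπA k h]; omega
          · rw [hπS' k h]; have := h1 k h; omega
        · intro j hj
          by_cases hj1 : j = t - 1
          · have hfil : S.filter (fun k => π k = j) = A := by
              ext k
              rw [Finset.mem_filter]
              constructor
              · rintro ⟨hk, hk2⟩
                rcases hcases k hk with h | h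
                · exact h
                · rw [hπS' k h] at hk2; have := h1 k h; omega
              · intro hk
                exact ⟨hAS hk, by rw [hπA k hk, hj1]⟩
            rw [hfil, hAc]
          · have hfil : S.filter (fun k => π k = j) = S'.filter (fun k => π' k = j) := by
              ext k
              rw [Finset.mem_filter, Finset.mem_filter]
              constructor
              · rintro ⟨hk, hk2⟩
                rcases hcases k hk with h | h
                · rw [hπA k h] at hk2; omega
                · exact ⟨h, by rw [← hπS' k h]; exact hk2⟩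
              · rintro ⟨hk, hk2⟩
                exact ⟨((hS'mem k).mp hk).1, by rw [hπS' k hk]; exact hk2⟩
            rw [hfil]
            exact h2 j (by omega)
        · intro k hk
          rcases hcases k hk with h | h
          · rw [hπA k h, hπA (τ k) (hAinv k h), hσ, if_pos rfl]
          · have hlt := h1 k h
            rw [hπS' k h, hπS' (τ k) (hS'inv k h), h3 k h, hσ, if_neg (by omega)]

end comb

section lin

variable {F : Type*} [Field F]

/-- a linear map with `x ∘ x = z` is monomial in a suitable basis -/
theorem exists_monomial (z : F) (hz : z ≠ 0) : ∀ (d : ℕ) (V : Type u) [AddCommGroup V] [Module F V]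
    [FiniteDimensional F V] (x : V →ₗ[F] V), (∀ v, x (x v) = z • v) → finrank F V = d →
    ∃ (ι : Type) (_ : Fintype ι) (B : ι → V) (τ : ι → ι) (c : ι → F),
      LinearIndependent F B ∧ Submodule.span F (Set.range B) = ⊤ ∧ (∀ k, τ (τ k) = k) ∧
      (∀ k, c k ≠ 0) ∧ ∀ k, x (B k) = c k • B (τ k) := by
  intro d
  induction d using Nat.strong_induction_on with
  | _ d ih =>
    intro V _ _ _ x hx hd
    by_cases hall : ∀ v, x v ∈ Submodule.span F {v}
    · obtain ⟨b, hb⟩ : ∃ b : Basis (Fin (finrank F V)) F V, b = Module.finBasis F V := ⟨_, rfl⟩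
      have hc : ∀ k, ∃ c : F, c • b k = x (b k) := fun k =>
        Submodule.mem_span_singleton.mp (hall (b k))
      choose c hc using hc
      refine ⟨Fin (finrank F V), inferInstance, b, id, c, b.linearIndependent, b.span_eq,
        fun k => rfl, ?_, fun k => (hc k).symm⟩
      intro k hk0
      have h1 := hx (b k)
      rw [← hc k, hk0, zero_smul, map_zero] at h1
      exact b.ne_zero k ((smul_eq_zero.mp h1.symm).resolve_left hz)
    · push Not at hall
      obtain ⟨v, hv⟩ := hall
      obtain ⟨φ, hφ1, hφ2⟩ := Submodule.exists_le_ker_of_notMem hv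
      have hφv : φ v = 0 := hφ2 (Submodule.mem_span_singleton_self v)
      obtain ⟨W, hWdef⟩ : ∃ W : Submodule F V,
          W = LinearMap.ker φ ⊓ LinearMap.ker (φ ∘ₗ x) := ⟨_, rfl⟩
      have hWmem : ∀ w, w ∈ W ↔ φ w = 0 ∧ φ (x w) = 0 := by
        intro w; rw [hWdef]; rfl
      have hWinv : ∀ w ∈ W, x w ∈ W := by
        intro w hw
        rw [hWmem] at hw ⊢
        exact ⟨hw.2, by rw [hx, map_smul, hw.1, smul_zero]⟩
      have key1 : ∀ α β : F, φ (α • v + β • x v) = β * φ (x v) := by
        intro α β
        rw [map_add, map_smul, map_smul, hφv, smul_zero, zero_add, smul_eq_mul]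
      have key2 : ∀ α β : F, φ (x (α • v + β • x v)) = α * φ (x v) := by
        intro α β
        rw [map_add, map_smul, map_smul, hx, map_add, map_smul, map_smul, map_smul, hφv,
          smul_zero, smul_zero, add_zero, smul_eq_mul]
      obtain ⟨f, hf⟩ : ∃ f : Fin 2 → V, f = ![v, x v] := ⟨_, rfl⟩
      have hf0 : f 0 = v := by rw [hf]; rfl
      have hf1 : f 1 = x v := by rw [hf]; rfl
      have hfli : LinearIndependent F f := by
        rw [Fintype.linearIndependent_iff]
        intro g hg
        rw [Fin.sum_univ_two, hf0, hf1] at hg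
        have e1 := key1 (g 0) (g 1)
        have e2 := key2 (g 0) (g 1)
        rw [hg, map_zero] at e1
        rw [hg, map_zero, map_zero] at e2
        have h1 : g 1 = 0 := (mul_eq_zero.mp e1.symm).resolve_right hφ1
        have h0 : g 0 = 0 := (mul_eq_zero.mp e2.symm).resolve_right hφ1
        intro i
        fin_cases i
        · exact h0
        · exact h1
      have hZmem : ∀ w, w ∈ Submodule.span F (Set.range f) ↔ ∃ α β : F, α • v + β • x v = w := by
        intro w
        rw [Submodule.mem_span_range_iff_exists_fun]
        constructor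
        · rintro ⟨g, hg⟩
          rw [Fin.sum_univ_two, hf0, hf1] at hg
          exact ⟨g 0, g 1, hg⟩
        · rintro ⟨α, β, hαβ⟩
          refine ⟨![α, β], ?_⟩
          rw [Fin.sum_univ_two, hf0, hf1]
          exact hαβ
      have hcompl : IsCompl (Submodule.span F (Set.range f)) W := by
        constructor
        · rw [Submodule.disjoint_def]
          intro w hw1 hw2
          obtain ⟨α, β, rfl⟩ := (hZmem w).mp hw1
          rw [hWmem, key1, key2] at hw2
          have h1 : β = 0 := (mul_eq_zero.mp hw2.1).resolve_right hφ1
          have h0 : α = 0 := (mul_eq_zero.mp hw2.2).resolve_right hφ1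
          rw [h0, h1, zero_smul, zero_smul, add_zero]
        · rw [codisjoint_iff, Submodule.eq_top_iff']
          intro w
          rw [Submodule.mem_sup]
          refine ⟨(φ (x w) / φ (x v)) • v + (φ w / φ (x v)) • x v,
            (hZmem _).mpr ⟨_, _, rfl⟩,
            w - ((φ (x w) / φ (x v)) • v + (φ w / φ (x v)) • x v), ?_, by abel⟩
          rw [hWmem, map_sub, map_sub, map_sub, key1, key2, div_mul_cancel₀ _ hφ1,
            div_mul_cancel₀ _ hφ1, sub_self, sub_self]
          exact ⟨rfl, rfl⟩
      have hdim := Submodule.finrank_add_eq_of_isCompl hcompl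
      have hZ2 : finrank F (Submodule.span F (Set.range f)) = 2 := by
        rw [finrank_span_eq_card hfli, Fintype.card_fin]
      obtain ⟨x', hx'def⟩ : ∃ x' : W →ₗ[F] W, x' = x.restrict hWinv := ⟨_, rfl⟩
      have hx'app : ∀ w : W, ((x' w : W) : V) = x w := fun w => by rw [hx'def]; rfl
      have hx'2 : ∀ w : W, x' (x' w) = z • w := by
        intro w
        apply Subtype.ext
        rw [hx'app, hx'app, hx]; rfl
      obtain ⟨ι', hι', B', τ', c', hli', hsp', hτ', hc', hxB'⟩ :=
        ih (finrank F W) (by omega) W x' hx'2 rfl
      refine ⟨Fin 2 ⊕ ι', inferInstance, Sum.elim f (fun k => (B' k : V)),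
        Sum.elim (fun i => Sum.inl (Fin.rev i)) (fun k => Sum.inr (τ' k)),
        Sum.elim ![1, z] c', ?_, ?_, ?_, ?_, ?_⟩
      · apply LinearIndependent.sum_type hfli
        · exact hli'.map' W.subtype (Submodule.ker_subtype W)
        · apply Disjoint.mono_right _ hcompl.disjoint
          rw [Submodule.span_le]
          rintro _ ⟨k, rfl⟩
          exact (B' k).2
      · rw [Set.Sum.elim_range, Submodule.span_union]
        have h1 : Submodule.span F (Set.range fun k => (B' k : V)) = W := by
          have h2 : (Set.range fun k => (B' k : V)) = W.subtype '' Set.range B' := by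
            rw [← Set.range_comp]; rfl
          rw [h2, ← Submodule.map_span, hsp', Submodule.map_subtype_top]
        rw [h1]
        exact hcompl.sup_eq_top
      · rintro (i | k)
        · simp
        · simp [hτ']
      · rintro (i | k)
        · fin_cases i
          · simp
          · simpa using hz
        · exact hc' k
      · rintro (i | k)
        · fin_cases i
          · simp [hf0, hf1]
          · simp [hf0, hf1, hx]
        · have h1 := congrArg Subtype.val (hxB' k)
          rw [hx'app] at h1
          simpa using h1

end lin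

section decomp

variable {F : Type*} [Field F]

theorem inv_decomp {V : Type u} [AddCommGroup V] [Module F V] [FiniteDimensional F V]
    (x : V →ₗ[F] V) (z : F) (hz : z ≠ 0) (hx : ∀ v, x (x v) = z • v) (a t : ℕ) (ha : 1 ≤ a)
    (hd : finrank F V = a * t) :
    ∃ D : Fin t → Submodule F V, (∀ j, finrank F (D j) = a) ∧ iSupIndep D ∧ iSup D = ⊤ ∧
      ∃ σ : Equiv.Perm (Fin t), ∀ j, (D j).map x = D (σ j) := by
  classical
  obtain ⟨ι, _, B, τ, c, hli, hsp, hτ, hc, hxB⟩ := exists_monomial z hz _ V x hx rfl
  letI : LinearOrder ι := LinearOrder.lift' (Fintype.equivFin ι) (Fintype.equivFin ι).injective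
  obtain ⟨b, hb⟩ : ∃ b : Basis ι F V, b = Basis.mk hli hsp.ge := ⟨_, rfl⟩
  have hbB : ∀ k, b k = B k := fun k => by rw [hb, Basis.mk_apply]
  have hxb : ∀ k, x (b k) = c k • b (τ k) := fun k => by rw [hbB, hbB, hxB]
  have hcardι : Fintype.card ι = a * t := by
    rw [← hd]; exact (finrank_eq_card_basis b).symm
  obtain ⟨π, σ, h1, h2, h3⟩ := exists_coloring a τ hτ t Finset.univ
    (fun k _ => Finset.mem_univ _) (by rw [Finset.card_univ, hcardι])
  have hfib : ∀ j < t, ∃ k, π k = j := by
    intro j hj
    have h4 := h2 j hj
    have h5 : 0 < (Finset.univ.filter (fun k => π k = j)).card := by omega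
    obtain ⟨k, hk⟩ := Finset.card_pos.mp h5
    exact ⟨k, (Finset.mem_filter.mp hk).2⟩
  have hσlt : ∀ j < t, σ j < t := by
    intro j hj
    obtain ⟨k, rfl⟩ := hfib j hj
    rw [← h3 k (Finset.mem_univ _)]
    exact h1 _ (Finset.mem_univ _)
  have hσinv : ∀ j < t, σ (σ j) = j := by
    intro j hj
    obtain ⟨k, rfl⟩ := hfib j hj
    rw [← h3 k (Finset.mem_univ _), ← h3 (τ k) (Finset.mem_univ _), hτ]
  obtain ⟨σF, hσF⟩ : ∃ σF : Fin t → Fin t, ∀ j, (σF j : ℕ) = σ j :=
    ⟨fun j => ⟨σ j, hσlt j j.2⟩, fun _ => rfl⟩
  have hσFinv : Function.Involutive σF := by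
    intro j
    apply Fin.ext
    rw [hσF, hσF, hσinv j j.2]
  obtain ⟨D, hD⟩ : ∃ D : Fin t → Submodule F V,
      ∀ j, D j = Submodule.span F (b '' {k | π k = (j : ℕ)}) := ⟨_, fun _ => rfl⟩
  refine ⟨D, ?_, ?_, ?_, hσFinv.toPerm σF, ?_⟩
  · intro j
    rw [hD, Set.image_eq_range,
      finrank_span_eq_card (b := fun k : {k | π k = (j : ℕ)} => b k)
        (b.linearIndependent.comp _ Subtype.val_injective)]
    rw [← h2 j j.2]
    exact Fintype.card_subtype _
  · intro j
    rw [Submodule.disjoint_def]
    intro w hw1 hw2
    have e1 : (⨆ (j') (_ : j' ≠ j), D j') =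
        Submodule.span F (b '' ⋃ (j') (_ : j' ≠ j), {k | π k = (j' : ℕ)}) := by
      rw [Set.image_iUnion₂, Submodule.span_iUnion₂]
      apply iSup_congr; intro j'
      apply iSup_congr; intro _
      rw [hD]
    rw [e1, Basis.mem_span_image] at hw2
    rw [hD, Basis.mem_span_image] at hw1
    have hsupp : (b.repr w).support = ∅ := by
      apply Finset.eq_empty_of_forall_notMem
      intro k hk
      have hk1 : π k = (j : ℕ) := hw1 hk
      have hk2 := hw2 hk
      simp only [Set.mem_iUnion, Set.mem_setOf_eq] at hk2
      obtain ⟨j', hj', hk2⟩ := hk2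
      exact hj' (Fin.ext (by rw [← hk2, hk1]))
    rw [Finsupp.support_eq_empty] at hsupp
    exact (LinearEquiv.map_eq_zero_iff b.repr).mp hsupp
  · rw [eq_top_iff, ← b.span_eq, Submodule.span_le]
    rintro _ ⟨k, rfl⟩
    apply (le_iSup D ⟨π k, h1 k (Finset.mem_univ _)⟩)
    rw [hD]
    exact Submodule.subset_span ⟨k, rfl, rfl⟩
  · intro j
    rw [Function.Involutive.coe_toPerm, hD, hD, Submodule.map_span]
    apply le_antisymm
    · rw [Submodule.span_le]
      rintro _ ⟨_, ⟨k, hk, rfl⟩, rfl⟩
      rw [hxb]
      apply Submodule.smul_mem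
      apply Submodule.subset_span
      refine ⟨τ k, ?_, rfl⟩
      show π (τ k) = (σF j : ℕ)
      have hk' : π k = (j : ℕ) := hk
      rw [h3 k (Finset.mem_univ _), hk', hσF]
    · rw [Submodule.span_le]
      rintro _ ⟨k, hk, rfl⟩
      have hk' : π k = (σF j : ℕ) := hk
      have h4 : b k = (c (τ k))⁻¹ • x (b (τ k)) := by
        rw [hxb, hτ, smul_smul, inv_mul_cancel₀ (hc _), one_smul]
      rw [h4]
      apply Submodule.smul_mem
      apply Submodule.subset_span
      refine ⟨b (τ k), ⟨τ k, ?_, rfl⟩, rfl⟩
      show π (τ k) = (j : ℕ)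
      rw [h3 k (Finset.mem_univ _), hk', hσF, hσinv j j.2]

end decomp

/-- Involutions of PSL_n(q) and imprimitive subgroups. Here `T = PSL_n(F)` for a field `F` with `q = p^f` elements (`n ≥ 2`, `(n, q) ≠ (2, 2), (2, 3)`), `n = a·t` with `t ≥ 2`, and Ω is the set of direct-sum decompositions of `F^n` into `t` subspaces of dimension `a` (unordered; their number is the number of ordered ones divided by `t!`), whose stabilizers are the imprimitive subgroups of type GL_a(q) ≀ S_t (maximal except in some small cases; maximality is not assumed); an element of `T` of prime order `r` (a matrix `x` of determinant 1 with `x^r` scalar, `x` not scalar) fixes a point of Ω when it permutes the summands of some such decomposition. If the number of such decompositions is even, then every involution of `T` stabilizes one of them (the action is 2-elusive). -/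
theorem result {F : Type*} [Field F] [Fintype F] {p : ℕ} [Fact p.Prime] [CharP F p] {q : ℕ} (hq : Fintype.card F = q)
    (n a t : ℕ) (hn : 2 ≤ n) (hT : (n, q) ≠ (2, 2) ∧ (n, q) ≠ (2, 3)) (hat : n = a * t) (ha : 1 ≤ a) (ht : 2 ≤ t)
    (hΩ : 2 ∣ Nat.card {D : Fin t → Submodule F (Fin n → F) // Cfsg.Geo.IsMDecomposition a D} / Nat.factorial t)
    (x : Matrix.SpecialLinearGroup (Fin n) F)
    (hx1 : ∃ z : F, ((x ^ 2 : Matrix.SpecialLinearGroup (Fin n) F) : Matrix (Fin n) (Fin n) F) = z • (1 : Matrix (Fin n) (Fin n) F))
    (hx2 : ∀ z : F, (x : Matrix (Fin n) (Fin n) F) ≠ z • (1 : Matrix (Fin n) (Fin n) F)) :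
    ∃ D : Fin t → Submodule F (Fin n → F), Cfsg.Geo.IsMDecomposition a D ∧
        ∃ σ : Equiv.Perm (Fin t), ∀ j, (D j).map (Matrix.toLin' (x : Matrix (Fin n) (Fin n) F)) = D (σ j) := by
  obtain ⟨z, hz⟩ := hx1
  have hz0 : z ≠ 0 := by
    rintro rfl
    have h1 := (x ^ 2).det_coe
    have : Nonempty (Fin n) := ⟨⟨0, by omega⟩⟩
    rw [hz, zero_smul, Matrix.det_zero] at h1
    exact zero_ne_one h1
  have hxx : ∀ v, Matrix.toLin' (x : Matrix (Fin n) (Fin n) F)
      (Matrix.toLin' (x : Matrix (Fin n) (Fin n) F) v) = z • v := by
    intro v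
    have h1 : (x : Matrix (Fin n) (Fin n) F) * (x : Matrix (Fin n) (Fin n) F) = z • 1 := by
      rw [← sq, ← Matrix.SpecialLinearGroup.coe_pow]; exact hz
    rw [← Matrix.toLin'_mul_apply, h1]
    simp
  have hfr : finrank F (Fin n → F) = a * t := by
    rw [Module.finrank_fin_fun, hat]
  obtain ⟨D, hD1, hD2, hD3, σ, hσ⟩ :=
    inv_decomp (Matrix.toLin' (x : Matrix (Fin n) (Fin n) F)) z hz0 hxx a t ha hfr
  exact ⟨D, ⟨ht, ha, hD1, hD2, hD3⟩, σ, hσ⟩


end Cfsg.Agent.S5957
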