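import Cfsg.Statements.S5958
import Mathlib
import Cfsg.Agent.S5949
import Cfsg.Agent.S5951

set_option autoImplicit false
set_option maxHeartbeats 400000
open scoped MatrixGroups
open Cfsg

namespace Cfsg.Agent.S5958

open Polynomial Module

section gen

variable {F : Type*} [Field F] {V : Type*} [AddCommGroup V] [Module F V] [FiniteDimensional F V]

theorem basis_decomp {κ : Type*} [Fintype κ] (b : Basis κ F V) (a t : ℕ) (π : κ → ℕ)
    (hπ : ∀ k, π k < t)
    (hfib : ∀ j < t, (Finset.univ.filter (fun k => π k = j)).card = a)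
    (σ σ' : ℕ → ℕ) (hσ : ∀ j < t, σ j < t) (hσ' : ∀ j < t, σ' j < t)
    (h1 : ∀ j < t, σ' (σ j) = j) (h2 : ∀ j < t, σ (σ' j) = j)
    (g : V →ₗ[F] V) (hg : Function.Injective g)
    (hgb : ∀ k, g (b k) ∈ Submodule.span F (b '' {k' | π k' = σ (π k)})) :
    ∃ D : Fin t → Submodule F V, (∀ j, finrank F (D j) = a) ∧ iSupIndep D ∧ iSup D = ⊤ ∧
      ∃ τ : Equiv.Perm (Fin t), ∀ j, (D j).map g = D (τ j) := by
  classical
  obtain ⟨D, hD⟩ : ∃ D : Fin t → Submodule F V,
      ∀ j, D j = Submodule.span F (b '' {k | π k = (j : ℕ)}) := ⟨_, fun _ => rfl⟩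
  have hfr : ∀ j, finrank F (D j) = a := by
    intro j
    rw [hD, Set.image_eq_range,
      finrank_span_eq_card (b := fun k : {k | π k = (j : ℕ)} => b k)
        (b.linearIndependent.comp _ Subtype.val_injective)]
    rw [← hfib j j.2]
    exact Fintype.card_subtype _
  let τ : Equiv.Perm (Fin t) :=
    { toFun := fun j => ⟨σ j, hσ j j.2⟩
      invFun := fun j => ⟨σ' j, hσ' j j.2⟩
      left_inv := fun j => Fin.ext (h1 j j.2)
      right_inv := fun j => Fin.ext (h2 j j.2) }
  have hτ : ∀ j, ((τ j : Fin t) : ℕ) = σ j := fun j => rfl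
  refine ⟨D, hfr, ?_, ?_, τ, ?_⟩
  · intro j
    rw [Submodule.disjoint_def]
    intro w hw1 hw2
    have e1 : (⨆ (j') (_ : j' ≠ j), D j') =
        Submodule.span F (b '' ⋃ (j') (_ : j' ≠ j), {k | π k = (j' : ℕ)}) := by
      rw [Set.image_iUnion₂, Submodule.span_iUnion₂]
      apply iSup_congr; intro j'
      apply iSup_congr; intro _
      rw [hD]
    rw [e1, Basis.mem_span_image] at hw2
    rw [hD, Basis.mem_span_image] at hw1
    have hsupp : (b.repr w).support = ∅ := by
      apply Finset.eq_empty_of_forall_notMem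
      intro k hk
      have hk1 : π k = (j : ℕ) := hw1 hk
      have hk2 := hw2 hk
      simp only [Set.mem_iUnion, Set.mem_ofPred_eq] at hk2
      obtain ⟨j', hj', hk2⟩ := hk2
      exact hj' (Fin.ext (by rw [← hk2, hk1]))
    rw [Finsupp.support_eq_empty] at hsupp
    exact (LinearEquiv.map_eq_zero_iff b.repr).mp hsupp
  · rw [eq_top_iff, ← b.span_eq, Submodule.span_le]
    rintro _ ⟨k, rfl⟩
    apply (le_iSup D ⟨π k, hπ k⟩)
    rw [hD]
    exact Submodule.subset_span ⟨k, rfl, rfl⟩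
  · intro j
    have hle : (D j).map g ≤ D (τ j) := by
      rw [hD, hD, Submodule.map_span, Submodule.span_le]
      rintro _ ⟨_, ⟨k, hk, rfl⟩, rfl⟩
      have hk' : π k = (j : ℕ) := hk
      have := hgb k
      rw [hk'] at this
      rw [hτ]
      exact this
    apply Submodule.eq_of_le_of_finrank_eq hle
    rw [hfr, ← hfr j]
    exact (LinearEquiv.finrank_eq (Submodule.equivMapOfInjective g hg (D j))).symm

theorem mono_decomp {κ : Type*} [Fintype κ] (b : Basis κ F V) (t : ℕ)
    (hcard : Fintype.card κ = t) (τκ : Equiv.Perm κ) (g : V →ₗ[F] V)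
    (hgb : ∀ k, g (b k) = b (τκ k)) :
    ∃ D : Fin t → Submodule F V, (∀ j, finrank F (D j) = 1) ∧ iSupIndep D ∧ iSup D = ⊤ ∧
      ∃ τ : Equiv.Perm (Fin t), ∀ j, (D j).map g = D (τ j) := by
  classical
  subst hcard
  obtain ⟨e, -⟩ : ∃ e : κ ≃ Fin (Fintype.card κ), e = e := ⟨Fintype.equivFin κ, rfl⟩
  refine ⟨fun j => Submodule.span F {b (e.symm j)}, ?_, ?_, ?_, e.symm.trans (τκ.trans e), ?_⟩
  · intro j
    exact finrank_span_singleton (b.ne_zero _)
  · exact (b.linearIndependent.iSupIndep_span_singleton).comp e.symm.injective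
  · rw [eq_top_iff, ← b.span_eq, Submodule.span_le]
    rintro _ ⟨k, rfl⟩
    apply (le_iSup (fun j => Submodule.span F {b (e.symm j)}) (e k))
    show b k ∈ Submodule.span F {b (e.symm (e k))}
    rw [e.symm_apply_apply]
    exact Submodule.subset_span rfl
  · intro j
    show (Submodule.span F {b (e.symm j)}).map g =
      Submodule.span F {b (e.symm ((e.symm.trans (τκ.trans e)) j))}
    rw [Submodule.map_span, Set.image_singleton, hgb]
    simp

theorem sum_fiber {κ : Type*} [Fintype κ] (a t : ℕ) (π : κ → ℕ) (hπ : ∀ k, π k < t)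
    (hfib : ∀ j < t, (Finset.univ.filter (fun k => π k = j)).card = a) :
    ∀ j < t + 1, (Finset.univ.filter
      (fun k : Fin a ⊕ κ => Sum.elim (fun _ => t) π k = j)).card = a := by
  intro j hj
  rw [Finset.card_filter, Fintype.sum_sum_type]
  by_cases hjt : j = t
  · subst hjt
    have h1 : ∀ k, π k ≠ j := fun k => (hπ k).ne
    simp [h1]
  · have h2 := hfib j (by omega)
    rw [Finset.card_filter] at h2
    simp [Ne.symm hjt]
    convert h2 using 2
    rename_i x hx
    by_cases h : π x = j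
    · exact (if_pos h).trans (if_pos h).symm
    · exact (if_neg h).trans (if_neg h).symm

theorem chain_basis (g : V →ₗ[F] V)
    (hcomp : ∀ W : Submodule F V, (∀ w ∈ W, g w ∈ W) →
      ∃ C : Submodule F V, (∀ w ∈ C, g w ∈ C) ∧ IsCompl W C)
    (a : ℕ) (Wc : ℕ → Submodule F V) (h0 : Wc 0 = ⊥) (hinv : ∀ j, ∀ w ∈ Wc j, g w ∈ Wc j)
    (hmono : ∀ j, Wc j ≤ Wc (j + 1)) :
    ∀ t, (∀ j ≤ t, finrank F (Wc j) = a * j) →
    ∃ (κ : Type) (_ : Fintype κ) (b : κ → V) (π : κ → ℕ), LinearIndependent F b ∧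
      Submodule.span F (Set.range b) = Wc t ∧ (∀ k, π k < t) ∧
      (∀ j < t, (Finset.univ.filter (fun k => π k = j)).card = a) ∧
      ∀ k, g (b k) ∈ Submodule.span F (b '' {k' | π k' = π k}) := by
  classical
  intro t
  induction t with
  | zero =>
    intro _
    refine ⟨Fin 0, inferInstance, fun k => k.elim0, fun k => k.elim0, linearIndependent_empty_type,
      ?_, fun k => k.elim0, fun j hj => absurd hj (Nat.not_lt_zero _), fun k => k.elim0⟩
    rw [h0, Set.range_eq_empty, Submodule.span_empty]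
  | succ t ih =>
    intro hfr
    obtain ⟨κ, hκ, b, π, hli, hsp, hπ, hfib, hgb⟩ := ih (fun j hj => hfr j (by omega))
    obtain ⟨C, hC, hcompl⟩ := hcomp (Wc t) (hinv t)
    obtain ⟨D, hDdef⟩ : ∃ D : Submodule F V, D = C ⊓ Wc (t + 1) := ⟨_, rfl⟩
    have hDinv : ∀ w ∈ D, g w ∈ D := by
      intro w hw; rw [hDdef] at hw ⊢
      exact ⟨hC w hw.1, hinv (t + 1) w hw.2⟩
    have hsup : Wc t ⊔ D = Wc (t + 1) := by
      have h2 : (Wc t ⊔ C) ⊓ Wc (t + 1) = Wc t ⊔ C ⊓ Wc (t + 1) :=
        sup_inf_assoc_of_le C (hmono t)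
      rw [hcompl.sup_eq_top, top_inf_eq] at h2
      rw [hDdef]; exact h2.symm
    have hinf : Wc t ⊓ D = ⊥ := by
      rw [eq_bot_iff, ← hcompl.inf_eq_bot, hDdef]
      exact inf_le_inf_left _ inf_le_left
    have hDfr : finrank F D = a := by
      have h3 := Submodule.finrank_sup_add_finrank_inf_eq (Wc t) D
      rw [hsup, hinf, finrank_bot, hfr (t + 1) le_rfl, hfr t (by omega)] at h3
      rw [Nat.mul_succ] at h3
      omega
    obtain ⟨bD, -⟩ : ∃ bD : Basis (Fin a) F D, bD = bD := ⟨Module.finBasisOfFinrankEq F D hDfr, rfl⟩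
    have hvli : LinearIndependent F (fun i : Fin a => (bD i : V)) :=
      LinearIndependent.map' bD.linearIndependent D.subtype (Submodule.ker_subtype D)
    have hvsp : Submodule.span F (Set.range (fun i : Fin a => (bD i : V))) = D := by
      have : (fun i : Fin a => (bD i : V)) = D.subtype ∘ bD := rfl
      rw [this, Set.range_comp, Submodule.span_image, bD.span_eq, Submodule.map_top,
        Submodule.range_subtype]
    refine ⟨Fin a ⊕ κ, inferInstance, Sum.elim (fun i : Fin a => (bD i : V)) b,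
      Sum.elim (fun _ => t) π, ?_, ?_, ?_, sum_fiber a t π hπ hfib, ?_⟩
    · apply LinearIndependent.sum_type hvli hli
      rw [hvsp, hsp, disjoint_iff, inf_comm]; exact hinf
    · rw [Set.Sum.elim_range, Submodule.span_union, hvsp, hsp, sup_comm]; exact hsup
    · rintro (i | k)
      · simp
      · have := hπ k; simp only [Sum.elim_inr]; omega
    · rintro (i | k)
      · have h4 : g (bD i : V) ∈ Submodule.span F (Set.range (fun i : Fin a => (bD i : V))) := by
          rw [hvsp]; exact hDinv _ (bD i).2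
        refine Submodule.span_mono ?_ h4
        rintro _ ⟨i', rfl⟩
        exact ⟨Sum.inl i', rfl, rfl⟩
      · have h4 := hgb k
        refine Submodule.span_mono ?_ h4
        rintro _ ⟨k', hk', rfl⟩
        exact ⟨Sum.inr k', hk', rfl⟩

theorem chain_decomp (g : V →ₗ[F] V) (hginj : Function.Injective g)
    (hcomp : ∀ W : Submodule F V, (∀ w ∈ W, g w ∈ W) →
      ∃ C : Submodule F V, (∀ w ∈ C, g w ∈ C) ∧ IsCompl W C)
    (a t : ℕ) (hV : finrank F V = a * t)
    (Wc : ℕ → Submodule F V) (h0 : Wc 0 = ⊥) (hinv : ∀ j, ∀ w ∈ Wc j, g w ∈ Wc j)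
    (hmono : ∀ j, Wc j ≤ Wc (j + 1)) (hfr : ∀ j ≤ t, finrank F (Wc j) = a * j) :
    ∃ D : Fin t → Submodule F V, (∀ j, finrank F (D j) = a) ∧ iSupIndep D ∧ iSup D = ⊤ ∧
      ∃ τ : Equiv.Perm (Fin t), ∀ j, (D j).map g = D (τ j) := by
  classical
  obtain ⟨κ, hκ, b, π, hli, hsp, hπ, hfib, hgb⟩ := chain_basis g hcomp a Wc h0 hinv hmono t hfr
  have htop : Wc t = ⊤ := Submodule.eq_top_of_finrank_eq (by rw [hfr t le_rfl, hV])
  rw [htop] at hsp
  obtain ⟨B, hB⟩ : ∃ B : Basis κ F V, B = Basis.mk hli hsp.ge := ⟨_, rfl⟩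
  have hBb : ∀ k, B k = b k := fun k => by rw [hB, Basis.mk_apply]
  have hBb' : (B : κ → V) = b := funext hBb
  refine basis_decomp B a t π hπ hfib id id (fun j hj => hj) (fun j hj => hj) (fun j _ => rfl)
    (fun j _ => rfl) g hginj ?_
  intro k
  rw [hBb']
  exact hgb k

theorem exists_seq (P : Submodule F V → Prop) (s bound : ℕ)
    (hstep : ∀ W, P W → finrank F W + s ≤ bound →
      ∃ W', W ≤ W' ∧ P W' ∧ finrank F W' = finrank F W + s)
    (h₀ : P ⊥) :
    ∃ Wc : ℕ → Submodule F V, Wc 0 = ⊥ ∧ (∀ j, P (Wc j)) ∧ (∀ j, Wc j ≤ Wc (j + 1)) ∧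
      ∀ j, s * j ≤ bound → finrank F (Wc j) = s * j := by
  classical
  let nxt : Submodule F V → Submodule F V := fun W =>
    if h : P W ∧ finrank F W + s ≤ bound then Classical.choose (hstep W h.1 h.2) else W
  have hnxt1 : ∀ W, W ≤ nxt W := by
    intro W
    show W ≤ (if h : P W ∧ finrank F W + s ≤ bound then Classical.choose (hstep W h.1 h.2) else W)
    split_ifs with h
    · exact (Classical.choose_spec (hstep W h.1 h.2)).1
    · exact le_rfl
  have hnxt2 : ∀ W, P W → P (nxt W) := by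
    intro W hW
    show P (if h : P W ∧ finrank F W + s ≤ bound then Classical.choose (hstep W h.1 h.2) else W)
    split_ifs with h
    · exact (Classical.choose_spec (hstep W h.1 h.2)).2.1
    · exact hW
  have hnxt3 : ∀ W, P W → finrank F W + s ≤ bound → finrank F (nxt W) = finrank F W + s := by
    intro W hW hb
    show finrank F ↥(if h : P W ∧ finrank F W + s ≤ bound then
      Classical.choose (hstep W h.1 h.2) else W) = _
    rw [dif_pos ⟨hW, hb⟩]
    exact (Classical.choose_spec (hstep W hW hb)).2.2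
  have hsucc : ∀ j, nxt^[j + 1] ⊥ = nxt (nxt^[j] ⊥) := fun j => Function.iterate_succ_apply' _ _ _
  have hP : ∀ j, P (nxt^[j] ⊥) := by
    intro j
    induction j with
    | zero => exact h₀
    | succ j ih => rw [hsucc]; exact hnxt2 _ ih
  refine ⟨fun j => nxt^[j] ⊥, rfl, hP, fun j => by
    show nxt^[j] ⊥ ≤ nxt^[j + 1] ⊥
    rw [hsucc]; exact hnxt1 _, ?_⟩
  intro j
  induction j with
  | zero =>
    intro _
    show finrank F ↥(⊥ : Submodule F V) = s * 0
    rw [finrank_bot, Nat.mul_zero]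
  | succ j ih =>
    intro hj
    rw [Nat.mul_succ] at hj
    have h1 : finrank F ↥(nxt^[j] ⊥) = s * j := ih (by omega)
    show finrank F ↥(nxt^[j + 1] ⊥) = _
    rw [hsucc, hnxt3 _ (hP j) (by rw [h1]; exact hj), h1, Nat.mul_succ]

end gen

section arith

theorem fiber_card (a t g : ℕ) (ha : 0 < a) (hg : g < t) :
    (Finset.univ.filter (fun x : Fin (a * t) => x.val / a = g)).card = a := by
  have hlt : ∀ i : Fin a, g * a + i.val < a * t := fun i => by
    calc g * a + i.val < g * a + a := by have := i.2; omega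
      _ = a * (g + 1) := by ring
      _ ≤ a * t := Nat.mul_le_mul_left a (by omega)
  have h : Finset.univ.filter (fun x : Fin (a * t) => x.val / a = g) =
      Finset.univ.image (fun i : Fin a => (⟨g * a + i.val, hlt i⟩ : Fin (a * t))) := by
    ext x
    simp only [Finset.mem_filter, Finset.mem_univ, true_and, Finset.mem_image]
    constructor
    · intro hx
      refine ⟨⟨x.val % a, Nat.mod_lt _ ha⟩, ?_⟩
      apply Fin.ext
      show g * a + x.val % a = x.val
      rw [← hx]; exact Nat.div_add_mod' _ _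
    · rintro ⟨i, rfl⟩
      show (g * a + i.val) / a = g
      rw [Nat.mul_comm, Nat.mul_add_div ha, Nat.div_eq_of_lt i.2, Nat.add_zero]
  rw [h, Finset.card_image_of_injective, Finset.card_univ, Fintype.card_fin]
  intro i i' hii
  apply Fin.ext
  have h3 : g * a + i.val = g * a + i'.val := congrArg Fin.val hii
  omega

theorem lt_aux (G I r t₁ : ℕ) (hG : G < t₁) (hI : I < r) : G * r + I < r * t₁ := by
  calc G * r + I < G * r + r := by omega
    _ = (G + 1) * r := by ring
    _ ≤ t₁ * r := Nat.mul_le_mul_right r (by omega)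
    _ = r * t₁ := Nat.mul_comm _ _

theorem div_aux (G I r : ℕ) (hI : I < r) : (G * r + I) / r = G := by
  rw [Nat.mul_comm, Nat.mul_add_div (by omega), Nat.div_eq_of_lt hI, Nat.add_zero]

theorem mod_aux' (G I r : ℕ) (hI : I < r) : (G * r + I) % r = I := by
  rw [Nat.mul_comm, Nat.mul_add_mod, Nat.mod_eq_of_lt hI]

theorem rot1 (I r : ℕ) (hI : I < r) : ((I + 1) % r + (r - 1)) % r = I := by
  by_cases h : I + 1 < r
  · rw [Nat.mod_eq_of_lt h]
    have : I + 1 + (r - 1) = I + r := by omega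
    rw [this, Nat.add_mod_right, Nat.mod_eq_of_lt hI]
  · have h2 : I + 1 = r := by omega
    rw [h2, Nat.mod_self, Nat.zero_add, Nat.mod_eq_of_lt (by omega)]
    omega

theorem rot2 (I r : ℕ) (hI : I < r) : ((I + (r - 1)) % r + 1) % r = I := by
  by_cases h : I = 0
  · subst h
    rw [Nat.zero_add, Nat.mod_eq_of_lt (show r - 1 < r by omega)]
    have : r - 1 + 1 = r := by omega
    rw [this, Nat.mod_self]
  · have h2 : I + (r - 1) = (I - 1) + r := by omega
    rw [h2, Nat.add_mod_right, Nat.mod_eq_of_lt (show I - 1 < r by omega)]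
    have : I - 1 + 1 = I := by omega
    rw [this, Nat.mod_eq_of_lt hI]

end arith

section semis

variable {F : Type*} [Field F] {V : Type*} [AddCommGroup V] [Module F V] [FiniteDimensional F V]

theorem semis_comp (g : V →ₗ[F] V) (P : F[X]) (hP : Squarefree P) (hPg : aeval g P = 0) :
    ∀ W : Submodule F V, (∀ w ∈ W, g w ∈ W) →
      ∃ C : Submodule F V, (∀ w ∈ C, g w ∈ C) ∧ IsCompl W C := by
  have hss : Module.End.IsSemisimple g :=
    Module.End.isSemisimple_of_squarefree_aeval_eq_zero hP hPg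
  intro W hW
  obtain ⟨Q, hQ, hc⟩ := (Module.End.isSemisimple_iff.mp hss) W
    ((Module.End.mem_invtSubmodule_iff_forall_mem_of_mem g).mpr hW)
  exact ⟨Q, (Module.End.mem_invtSubmodule_iff_forall_mem_of_mem g).mp hQ, hc⟩

theorem comp_z (f : V →ₗ[F] V) (r : ℕ) (hr : (r : F) ≠ 0) (z : F) (hz : z ≠ 0)
    (hf : f ^ r = z • (1 : Module.End F V)) :
    ∀ W : Submodule F V, (∀ w ∈ W, f w ∈ W) →
      ∃ C : Submodule F V, (∀ w ∈ C, f w ∈ C) ∧ IsCompl W C := by
  apply semis_comp f (X ^ r - C z) (separable_X_pow_sub_C z hr hz).squarefree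
  simp [hf, Algebra.algebraMap_eq_smul_one]

theorem comp_one (g : V →ₗ[F] V) (r : ℕ) (hr : (r : F) ≠ 0) (hg : g ^ r = 1) :
    ∀ W : Submodule F V, (∀ w ∈ W, g w ∈ W) →
      ∃ C : Submodule F V, (∀ w ∈ C, g w ∈ C) ∧ IsCompl W C :=
  comp_z g r hr 1 one_ne_zero (by rw [hg, one_smul])

theorem inj_of_pow (g : V →ₗ[F] V) (r : ℕ) (hr0 : r ≠ 0) (z : F) (hz : z ≠ 0)
    (hg : g ^ r = z • (1 : Module.End F V)) : Function.Injective g := by
  rw [injective_iff_map_eq_zero]
  intro v hv
  have h1 : (g ^ r) v = z • v := by rw [hg]; simp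
  obtain ⟨m, rfl⟩ : ∃ m, r = m + 1 := Nat.exists_eq_succ_of_ne_zero hr0
  rw [pow_succ, Module.End.mul_apply, hv, map_zero] at h1
  exact (smul_eq_zero.mp h1.symm).resolve_left hz

theorem step_c [Fintype F] (g : V →ₗ[F] V) (r : ℕ) [Fact r.Prime] (hr : (r : F) ≠ 0)
    (hg : g ^ r = 1) (hi0 : 0 < orderOf (Fintype.card F : ZMod r)) (M : Submodule F V)
    (hM : ∀ w ∈ M, g w ∈ M) (W : Submodule F V)
    (hWP : W ≤ M ∧ ∀ w ∈ W, g w ∈ W)
    (ht : finrank F W + orderOf (Fintype.card F : ZMod r) ≤ finrank F M) :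
    ∃ W', W ≤ W' ∧ (W' ≤ M ∧ ∀ w ∈ W', g w ∈ W') ∧
      finrank F W' = finrank F W + orderOf (Fintype.card F : ZMod r) := by
  obtain ⟨hWM, hW⟩ := hWP
  obtain ⟨Q, hQ', hcompl⟩ := comp_one g r hr hg W hW
  obtain ⟨N, hN⟩ : ∃ N : Submodule F V, N = Q ⊓ M := ⟨_, rfl⟩
  have hNinv : ∀ w ∈ N, g w ∈ N := by
    intro w hw; rw [hN] at hw ⊢; exact ⟨hQ' w hw.1, hM w hw.2⟩
  have hsup : W ⊔ N = M := by
    have h2 : (W ⊔ Q) ⊓ M = W ⊔ Q ⊓ M := sup_inf_assoc_of_le Q hWM
    rw [hcompl.sup_eq_top, top_inf_eq] at h2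
    rw [hN]; exact h2.symm
  have hinf : W ⊓ N = ⊥ := by
    rw [eq_bot_iff, ← hcompl.inf_eq_bot, hN]; exact inf_le_inf_left _ inf_le_left
  have hNfr : finrank F N = finrank F M - finrank F W := by
    have h3 := Submodule.finrank_sup_add_finrank_inf_eq W N
    rw [hsup, hinf, finrank_bot] at h3; omega
  have hZ : ∃ Z : Submodule F V, Z ≤ N ∧ (∀ w ∈ Z, g w ∈ Z) ∧
      finrank F Z = orderOf (Fintype.card F : ZMod r) := by
    by_cases hND : N ⊓ S5949.Dg g r = ⊥
    · have h4 := S5949.split g r hr hg N hNinv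
      rw [hND, sup_bot_eq] at h4
      have hNC : N ≤ S5949.Cg g := by rw [h4]; exact inf_le_right
      obtain ⟨W0, hW0, hW0fr⟩ := S5949.exists_sub_le N (orderOf (Fintype.card F : ZMod r))
        (by rw [hNfr]; omega)
      refine ⟨W0, hW0, ?_, hW0fr⟩
      intro w hw
      rw [(S5949.mem_Cg g w).mp (hNC (hW0 hw))]; exact hw
    · have hgi := S5949.pow_card_pow_eq g r hg
      have hMi : ∀ w ∈ N ⊓ S5949.Dg g r, g w ∈ N ⊓ S5949.Dg g r :=
        fun w hw => ⟨hNinv w hw.1, S5949.Dg_inv g r w hw.2⟩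
      obtain ⟨Z, hZM, hZ, hZne, hZd⟩ := S5949.exists_small g _ hgi hi0 (N ⊓ S5949.Dg g r) hMi hND
      have hZD : Z ≤ S5949.Dg g r := hZM.trans inf_le_right
      have hZdvd := S5949.D_dvd g r hr hg Z hZ hZD
      have hZpos : 0 < finrank F Z :=
        Nat.pos_of_ne_zero (fun h => hZne (Submodule.finrank_eq_zero.mp h))
      exact ⟨Z, hZM.trans inf_le_left, hZ, le_antisymm hZd (Nat.le_of_dvd hZpos hZdvd)⟩
  obtain ⟨Z, hZN, hZ, hZfr⟩ := hZ
  refine ⟨W ⊔ Z, le_sup_left, ⟨sup_le hWM (hZN.trans (by rw [hN]; exact inf_le_right)), ?_⟩, ?_⟩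
  · intro w hw
    obtain ⟨a, ha, b, hb, rfl⟩ := Submodule.mem_sup.mp hw
    rw [map_add]
    exact Submodule.add_mem _ (Submodule.mem_sup_left (hW a ha))
      (Submodule.mem_sup_right (hZ b hb))
  · have h1 := Submodule.finrank_sup_add_finrank_inf_eq W Z
    have h2 : W ⊓ Z = ⊥ := by
      rw [eq_bot_iff, ← hinf]; exact inf_le_inf_left W hZN
    rw [h2, finrank_bot, hZfr] at h1
    omega

theorem exists_chain_semis [Fintype F] (g : V →ₗ[F] V) (r : ℕ) [Fact r.Prime] (hr : (r : F) ≠ 0)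
    (hg : g ^ r = 1) (hi0 : 0 < orderOf (Fintype.card F : ZMod r)) (a t : ℕ)
    (hV : finrank F V = a * t)
    (hmod : finrank F V % orderOf (Fintype.card F : ZMod r) =
      t * (a % orderOf (Fintype.card F : ZMod r))) :
    ∃ Wc : ℕ → Submodule F V, Wc 0 = ⊥ ∧ (∀ j, ∀ w ∈ Wc j, g w ∈ Wc j) ∧
      (∀ j, Wc j ≤ Wc (j + 1)) ∧ ∀ j ≤ t, finrank F (Wc j) = a * j := by
  obtain ⟨c, hc⟩ : ∃ c, c = orderOf (Fintype.card F : ZMod r) := ⟨_, rfl⟩
  rw [← hc] at hi0 hmod
  have hsplit := S5949.split_finrank g r hr hg ⊤ (fun _ _ => Submodule.mem_top)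
  rw [finrank_top, top_inf_eq, top_inf_eq] at hsplit
  obtain ⟨e, he⟩ := S5949.D_dvd g r hr hg (S5949.Dg g r) (S5949.Dg_inv g r) le_rfl
  rw [← hc] at he
  have hCmod : finrank F (S5949.Cg g) % c = t * (a % c) := by
    rw [← hmod, hsplit, he, Nat.add_mul_mod_self_left]
  have hCge : t * (a % c) ≤ finrank F (S5949.Cg g) := by rw [← hCmod]; exact Nat.mod_le _ _
  obtain ⟨L₀, hL₀C, hL₀fr⟩ := S5949.exists_sub_le (S5949.Cg g) (t * (a % c)) hCge
  have hL₀inv : ∀ w ∈ L₀, g w ∈ L₀ := by
    intro w hw; rw [(S5949.mem_Cg g w).mp (hL₀C hw)]; exact hw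
  obtain ⟨M, hMinv, hcompl⟩ := comp_one g r hr hg L₀ hL₀inv
  have hMfr : finrank F M = t * (c * (a / c)) := by
    have h1 := Submodule.finrank_add_eq_of_isCompl hcompl
    rw [hL₀fr, hV] at h1
    have h2 : a = c * (a / c) + a % c := (Nat.div_add_mod a c).symm
    have h3 : a * t = t * (c * (a / c)) + t * (a % c) := by
      conv_lhs => rw [h2]
      ring
    omega
  obtain ⟨Lc, hLc0, hLcP, hLcmono, hLcfr⟩ := exists_seq (fun W : Submodule F V => W ≤ L₀) (a % c)
    (finrank F L₀) (fun W hW hb => S5951.sub_ext W L₀ hW (a % c) hb) bot_le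
  have hstepc : ∀ W : Submodule F V, (W ≤ M ∧ ∀ w ∈ W, g w ∈ W) →
      finrank F W + c ≤ finrank F M →
      ∃ W', W ≤ W' ∧ (W' ≤ M ∧ ∀ w ∈ W', g w ∈ W') ∧ finrank F W' = finrank F W + c := by
    intro W hW hlt
    rw [hc] at hlt ⊢
    exact step_c g r hr hg (by rw [← hc]; exact hi0) M hMinv W hW hlt
  obtain ⟨Mc, hMc0, hMcP, hMcmono, hMcfr⟩ := exists_seq
    (fun W : Submodule F V => W ≤ M ∧ ∀ w ∈ W, g w ∈ W) (c * (a / c)) (finrank F M)
    (fun W hW hb => S5951.iterate_step
        (fun W : Submodule F V => W ≤ M ∧ ∀ w ∈ W, g w ∈ W) c (finrank F M) hstepc W hW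
        (a / c) hb)
    ⟨bot_le, fun w hw => by
      rw [Submodule.mem_bot] at hw; rw [hw, map_zero]; exact Submodule.zero_mem _⟩
  refine ⟨fun j => Lc j ⊔ Mc j, ?_, ?_, ?_, ?_⟩
  · show Lc 0 ⊔ Mc 0 = ⊥
    rw [hLc0, hMc0, sup_bot_eq]
  · intro j w hw
    obtain ⟨x, hx, y, hy, rfl⟩ := Submodule.mem_sup.mp hw
    rw [map_add, (S5949.mem_Cg g x).mp (hL₀C (hLcP j hx))]
    exact Submodule.add_mem _ (Submodule.mem_sup_left hx)
      (Submodule.mem_sup_right ((hMcP j).2 y hy))
  · intro j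
    exact sup_le_sup (hLcmono j) (hMcmono j)
  · intro j hj
    show finrank F ↥(Lc j ⊔ Mc j) = a * j
    have h1 := Submodule.finrank_sup_add_finrank_inf_eq (Lc j) (Mc j)
    have h2 : Lc j ⊓ Mc j = ⊥ := by
      rw [eq_bot_iff, ← hcompl.inf_eq_bot]; exact inf_le_inf (hLcP j) (hMcP j).1
    have h3 : finrank F (Lc j) = (a % c) * j :=
      hLcfr j (by rw [hL₀fr, Nat.mul_comm (a % c) j]; exact Nat.mul_le_mul_right _ hj)
    have h4 : finrank F (Mc j) = (c * (a / c)) * j :=
      hMcfr j (by rw [hMfr, Nat.mul_comm (c * (a / c)) j]; exact Nat.mul_le_mul_right _ hj)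
    rw [h2, finrank_bot, h3, h4] at h1
    have h5 : a = c * (a / c) + a % c := (Nat.div_add_mod a c).symm
    have h6 : a * j = (a % c) * j + (c * (a / c)) * j := by
      conv_lhs => rw [h5]
      ring
    omega

theorem decomp_semis [Fintype F] (y : V →ₗ[F] V) (r : ℕ) [Fact r.Prime] (hr : (r : F) ≠ 0)
    (hy : y ^ r = 1) (hi0 : 0 < orderOf (Fintype.card F : ZMod r)) (a t : ℕ)
    (hV : finrank F V = a * t)
    (hmod : finrank F V % orderOf (Fintype.card F : ZMod r) =
      t * (a % orderOf (Fintype.card F : ZMod r))) :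
    ∃ D : Fin t → Submodule F V, (∀ j, finrank F (D j) = a) ∧ iSupIndep D ∧ iSup D = ⊤ ∧
      ∃ τ : Equiv.Perm (Fin t), ∀ j, (D j).map y = D (τ j) := by
  obtain ⟨Wc, h0, hinv, hmono, hfr⟩ := exists_chain_semis y r hr hy hi0 a t hV hmod
  have hinj : Function.Injective y :=
    inj_of_pow y r (Fact.out : r.Prime).ne_zero 1 one_ne_zero (by rw [hy, one_smul])
  exact chain_decomp y hinj (comp_one y r hr hy) a t hV Wc h0 hinv hmono hfr

theorem decomp_irr_dvd (f : V →ₗ[F] V) (r : ℕ) (hr0 : r ≠ 0) (hr : (r : F) ≠ 0) (z : F)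
    (hz : z ≠ 0) (hirr : Irreducible (X ^ r - C z : F[X]))
    (hf : f ^ r = z • (1 : Module.End F V))
    (a t : ℕ) (hV : finrank F V = a * t) (hra : r ∣ a) :
    ∃ D : Fin t → Submodule F V, (∀ j, finrank F (D j) = a) ∧ iSupIndep D ∧ iSup D = ⊤ ∧
      ∃ τ : Equiv.Perm (Fin t), ∀ j, (D j).map f = D (τ j) := by
  obtain ⟨a₁, rfl⟩ := hra
  have hbot : ∀ w ∈ (⊥ : Submodule F V), f w ∈ (⊥ : Submodule F V) := fun w hw => by
    rw [Submodule.mem_bot] at hw; rw [hw, map_zero]; exact Submodule.zero_mem _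
  obtain ⟨Wc, h0, hP, hmono, hfr⟩ := exists_seq (fun W : Submodule F V => ∀ w ∈ W, f w ∈ W)
    (r * a₁) (finrank F V)
    (fun W hW hb => S5951.iterate_step (fun W : Submodule F V => ∀ w ∈ W, f w ∈ W) r
      (finrank F V) (fun W hW hlt => S5951.step_r f r hr0 z hirr hf W hW hlt) W hW a₁ hb) hbot
  exact chain_decomp f (inj_of_pow f r hr0 z hz hf) (comp_z f r hr z hz hf) (r * a₁) t hV Wc
    h0 hP hmono (fun j hj => hfr j (by rw [hV]; exact Nat.mul_le_mul_left _ hj))

theorem exists_cyc (g : V →ₗ[F] V) (r c' : ℕ) (hc' : 0 < c')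
    (hcomp : ∀ W : Submodule F V, (∀ w ∈ W, g w ∈ W) →
      ∃ C : Submodule F V, (∀ w ∈ C, g w ∈ C) ∧ IsCompl W C)
    (M : Submodule F V) (hM : ∀ w ∈ M, g w ∈ M)
    (hcyc : ∀ N : Submodule F V, N ≤ M → (∀ w ∈ N, g w ∈ N) → N ≠ ⊥ →
      ∃ v ∈ N, (∀ w ∈ Submodule.span F (Set.range (fun i : Fin r => (g ^ i.val) v)),
          g w ∈ Submodule.span F (Set.range (fun i : Fin r => (g ^ i.val) v))) ∧
        finrank F (Submodule.span F (Set.range (fun i : Fin r => (g ^ i.val) v))) = c') :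
    ∀ j, c' * j ≤ finrank F M → ∃ W : Submodule F V, W ≤ M ∧ (∀ w ∈ W, g w ∈ W) ∧
      finrank F W = c' * j ∧
      ∃ w : Fin j → V,
        Submodule.span F (Set.range (fun p : Fin j × Fin r => (g ^ p.2.val) (w p.1))) = W := by
  intro j
  induction j with
  | zero =>
    intro _
    refine ⟨⊥, bot_le, fun w hw => by
      rw [Submodule.mem_bot] at hw; rw [hw, map_zero]; exact Submodule.zero_mem _, by simp,
      fun k => k.elim0, ?_⟩
    rw [Set.range_eq_empty, Submodule.span_empty]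
  | succ j ih =>
    intro hj
    rw [Nat.mul_succ] at hj
    obtain ⟨W, hWM, hW, hWfr, w, hw⟩ := ih (by omega)
    obtain ⟨Q, hQ, hcompl⟩ := hcomp W hW
    obtain ⟨N, hN⟩ : ∃ N : Submodule F V, N = Q ⊓ M := ⟨_, rfl⟩
    have hNinv : ∀ w ∈ N, g w ∈ N := by
      intro w hw; rw [hN] at hw ⊢; exact ⟨hQ w hw.1, hM w hw.2⟩
    have hsup : W ⊔ N = M := by
      have h2 : (W ⊔ Q) ⊓ M = W ⊔ Q ⊓ M := sup_inf_assoc_of_le Q hWM
      rw [hcompl.sup_eq_top, top_inf_eq] at h2
      rw [hN]; exact h2.symm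
    have hinf : W ⊓ N = ⊥ := by
      rw [eq_bot_iff, ← hcompl.inf_eq_bot, hN]; exact inf_le_inf_left _ inf_le_left
    have hNne : N ≠ ⊥ := by
      intro h
      rw [h, sup_bot_eq] at hsup
      rw [hsup] at hWfr; omega
    obtain ⟨v, hvN, hZinv, hZfr⟩ := hcyc N (by rw [hN]; exact inf_le_right) hNinv hNne
    obtain ⟨Z, hZ⟩ : ∃ Z : Submodule F V,
        Z = Submodule.span F (Set.range (fun i : Fin r => (g ^ i.val) v)) := ⟨_, rfl⟩
    rw [← hZ] at hZinv hZfr
    have hpowN : ∀ i : ℕ, (g ^ i) v ∈ N := by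
      intro i
      induction i with
      | zero => simpa using hvN
      | succ i ih2 => rw [pow_succ', Module.End.mul_apply]; exact hNinv _ ih2
    have hZN : Z ≤ N := by
      rw [hZ, Submodule.span_le]; rintro _ ⟨i, rfl⟩; exact hpowN i
    refine ⟨W ⊔ Z, sup_le hWM (hZN.trans (by rw [hN]; exact inf_le_right)), ?_, ?_,
      Fin.cons (α := fun _ => V) v w, ?_⟩
    · intro x hx
      obtain ⟨a, ha, b, hb, rfl⟩ := Submodule.mem_sup.mp hx
      rw [map_add]
      exact Submodule.add_mem _ (Submodule.mem_sup_left (hW a ha))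
        (Submodule.mem_sup_right (hZinv b hb))
    · have h1 := Submodule.finrank_sup_add_finrank_inf_eq W Z
      have h2 : W ⊓ Z = ⊥ := by rw [eq_bot_iff, ← hinf]; exact inf_le_inf_left W hZN
      rw [h2, finrank_bot, hZfr, hWfr] at h1
      rw [Nat.mul_succ]; omega
    · apply le_antisymm
      · rw [Submodule.span_le]
        rintro _ ⟨⟨k, i⟩, rfl⟩
        rcases Fin.eq_zero_or_eq_succ k with rfl | ⟨k', rfl⟩
        · apply Submodule.mem_sup_right
          rw [hZ]
          exact Submodule.subset_span ⟨i, by simp⟩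
        · apply Submodule.mem_sup_left
          rw [← hw]
          exact Submodule.subset_span ⟨(k', i), by simp⟩
      · apply sup_le
        · rw [← hw]
          apply Submodule.span_mono
          rintro _ ⟨⟨k, i⟩, rfl⟩
          exact ⟨(k.succ, i), by simp⟩
        · rw [hZ]
          apply Submodule.span_mono
          rintro _ ⟨i, rfl⟩
          exact ⟨(0, i), by simp⟩

theorem cyc_inv (f : V →ₗ[F] V) (r : ℕ) (hr0 : 0 < r) (z : F)
    (hf : f ^ r = z • (1 : Module.End F V)) (v : V) :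
    ∀ w ∈ Submodule.span F (Set.range (fun j : Fin r => (f ^ j.val) v)),
      f w ∈ Submodule.span F (Set.range (fun j : Fin r => (f ^ j.val) v)) := by
  intro w hw
  induction hw using Submodule.span_induction with
  | mem x hx =>
    obtain ⟨j, rfl⟩ := hx
    by_cases hj : j.val + 1 < r
    · have : f ((f ^ j.val) v) = (f ^ (⟨j.val + 1, hj⟩ : Fin r).val) v := by
        simp [pow_succ', Module.End.mul_apply]
      rw [this]; exact Submodule.subset_span ⟨_, rfl⟩
    · have hj' : j.val + 1 = r := by have := j.2; omega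
      have : f ((f ^ j.val) v) = z • (f ^ (⟨0, hr0⟩ : Fin r).val) v := by
        rw [← Module.End.mul_apply, ← pow_succ', hj', hf]; simp
      rw [this]; exact Submodule.smul_mem _ _ (Submodule.subset_span ⟨_, rfl⟩)
  | zero => rw [map_zero]; exact Submodule.zero_mem _
  | add x y _ _ hx hy => rw [map_add]; exact Submodule.add_mem _ hx hy
  | smul a x _ hx => rw [map_smul]; exact Submodule.smul_mem _ _ hx

theorem cyc_irr (f : V →ₗ[F] V) (r : ℕ) (hr0 : r ≠ 0) (z : F)
    (hirr : Irreducible (X ^ r - C z : F[X])) (hf : f ^ r = z • (1 : Module.End F V)) :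
    ∀ N : Submodule F V, N ≤ ⊤ → (∀ w ∈ N, f w ∈ N) → N ≠ ⊥ →
      ∃ v ∈ N, (∀ w ∈ Submodule.span F (Set.range (fun i : Fin r => (f ^ i.val) v)),
          f w ∈ Submodule.span F (Set.range (fun i : Fin r => (f ^ i.val) v))) ∧
        finrank F (Submodule.span F (Set.range (fun i : Fin r => (f ^ i.val) v))) = r := by
  intro N _ hNinv hNne
  obtain ⟨v, hvN, hv0⟩ := (Submodule.ne_bot_iff N).mp hNne
  have hinv := cyc_inv f r (Nat.pos_of_ne_zero hr0) z hf v
  refine ⟨v, hvN, hinv, ?_⟩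
  have hZr : finrank F (Submodule.span F (Set.range (fun i : Fin r => (f ^ i.val) v))) ≤ r := by
    have := finrank_range_le_card (R := F) (fun j : Fin r => (f ^ j.val) v)
    simpa [Set.finrank] using this
  obtain ⟨k, hk⟩ := S5949.inv_dvd f r hr0 z hirr hf _ hinv
  have hpos : 0 < finrank F (Submodule.span F (Set.range (fun i : Fin r => (f ^ i.val) v))) := by
    apply Nat.pos_of_ne_zero; intro h
    have h1 := Submodule.finrank_eq_zero.mp h
    have hvZ : v ∈ Submodule.span F (Set.range (fun i : Fin r => (f ^ i.val) v)) :=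
      Submodule.subset_span ⟨⟨0, Nat.pos_of_ne_zero hr0⟩, by simp⟩
    rw [h1, Submodule.mem_bot] at hvZ; exact hv0 hvZ
  rw [hk] at hZr hpos ⊢
  have hk1 : k = 1 := by
    rcases k with _ | _ | k
    · simp at hpos
    · rfl
    · exfalso
      have : r * (k + 1 + 1) = r * k + r + r := by ring
      have := Nat.pos_of_ne_zero hr0
      omega
  rw [hk1, Nat.mul_one]

theorem basis_of_span {κ : Type*} [Fintype κ] (b : κ → V)
    (hsp : ⊤ ≤ Submodule.span F (Set.range b)) (hcard : Fintype.card κ = finrank F V) :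
    ∃ B : Basis κ F V, ∀ k, B k = b k := by
  have hli : LinearIndependent F b :=
    linearIndependent_of_top_le_span_of_card_eq_finrank hsp hcard
  exact ⟨Basis.mk hli hsp, fun k => Basis.mk_apply hli hsp k⟩

theorem decomp_irr_cyc (f : V →ₗ[F] V) (r : ℕ) (hr0 : r ≠ 0) (hr : (r : F) ≠ 0) (z : F)
    (hz : z ≠ 0) (hirr : Irreducible (X ^ r - C z : F[X]))
    (hf : f ^ r = z • (1 : Module.End F V))
    (a t₁ : ℕ) (ha : 0 < a) (hV : finrank F V = a * (r * t₁)) :
    ∃ D : Fin (r * t₁) → Submodule F V, (∀ j, finrank F (D j) = a) ∧ iSupIndep D ∧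
      iSup D = ⊤ ∧ ∃ τ : Equiv.Perm (Fin (r * t₁)), ∀ j, (D j).map f = D (τ j) := by
  classical
  have hrpos := Nat.pos_of_ne_zero hr0
  obtain ⟨W, -, -, hWfr, w, hw⟩ := exists_cyc f r r hrpos (comp_z f r hr z hz hf) ⊤
    (fun _ _ => Submodule.mem_top) (cyc_irr f r hr0 z hirr hf) (a * t₁)
    (by rw [finrank_top, hV]; exact le_of_eq (by ring))
  have hWtop : W = ⊤ := Submodule.eq_top_of_finrank_eq (by rw [hWfr, hV]; ring)
  rw [hWtop] at hw
  obtain ⟨B, hB⟩ := basis_of_span (fun p : Fin (a * t₁) × Fin r => (f ^ p.2.val) (w p.1)) hw.ge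
    (by rw [Fintype.card_prod, Fintype.card_fin, Fintype.card_fin, hV]; ring)
  obtain ⟨π, hπ⟩ : ∃ π : Fin (a * t₁) × Fin r → ℕ, ∀ p, π p = p.1.val / a * r + p.2.val :=
    ⟨_, fun _ => rfl⟩
  obtain ⟨σ, hσ⟩ : ∃ σ : ℕ → ℕ, ∀ cl, σ cl = cl / r * r + (cl % r + 1) % r := ⟨_, fun _ => rfl⟩
  obtain ⟨σ', hσ'⟩ : ∃ σ' : ℕ → ℕ, ∀ cl, σ' cl = cl / r * r + (cl % r + (r - 1)) % r :=
    ⟨_, fun _ => rfl⟩
  refine basis_decomp B a (r * t₁) π ?_ ?_ σ σ' ?_ ?_ ?_ ?_ f (inj_of_pow f r hr0 z hz hf) ?_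
  · intro p
    rw [hπ]
    exact lt_aux _ _ r t₁ (Nat.div_lt_of_lt_mul p.1.2) p.2.2
  · intro j hj
    have key : ∀ (p : Fin (a * t₁) × Fin r), π p = j ↔ p.1.val / a = j / r ∧ p.2.val = j % r := by
      intro p
      rw [hπ]
      constructor
      · intro h
        rw [← h]
        exact ⟨(div_aux _ _ r p.2.2).symm, (mod_aux' _ _ r p.2.2).symm⟩
      · rintro ⟨h1, h2⟩; rw [h1, h2]; exact Nat.div_add_mod' j r
    have hset : (Finset.univ.filter (fun p : Fin (a * t₁) × Fin r => π p = j)) =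
        (Finset.univ.filter (fun x : Fin (a * t₁) => x.val / a = j / r)) ×ˢ
          {(⟨j % r, Nat.mod_lt _ hrpos⟩ : Fin r)} := by
      ext p
      simp only [Finset.mem_filter, Finset.mem_univ, true_and, Finset.mem_product,
        Finset.mem_singleton]
      rw [key p]
      constructor
      · rintro ⟨h1, h2⟩; exact ⟨h1, Fin.ext h2⟩
      · rintro ⟨h1, h2⟩; exact ⟨h1, congrArg Fin.val h2⟩
    rw [hset, Finset.card_product, fiber_card a t₁ (j / r) ha (Nat.div_lt_of_lt_mul hj),
      Finset.card_singleton, Nat.mul_one]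
  · intro j hj
    rw [hσ]
    exact lt_aux _ _ r t₁ (Nat.div_lt_of_lt_mul hj) (Nat.mod_lt _ hrpos)
  · intro j hj
    rw [hσ']
    exact lt_aux _ _ r t₁ (Nat.div_lt_of_lt_mul hj) (Nat.mod_lt _ hrpos)
  · intro j hj
    rw [hσ' (σ j), hσ j, div_aux _ _ r (Nat.mod_lt _ hrpos), mod_aux' _ _ r (Nat.mod_lt _ hrpos),
      rot1 _ r (Nat.mod_lt _ hrpos)]
    exact Nat.div_add_mod' j r
  · intro j hj
    rw [hσ (σ' j), hσ' j, div_aux _ _ r (Nat.mod_lt _ hrpos), mod_aux' _ _ r (Nat.mod_lt _ hrpos),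
      rot2 _ r (Nat.mod_lt _ hrpos)]
    exact Nat.div_add_mod' j r
  · rintro ⟨k, i⟩
    have hmem : ∀ (i' : Fin r) (c₀ : F), i'.val = (i.val + 1) % r →
        c₀ • B (k, i') ∈ Submodule.span F (B '' {p' | π p' = σ (π (k, i))}) := by
      intro i' c₀ hi'
      refine Submodule.smul_mem _ _ (Submodule.subset_span ⟨(k, i'), ?_, rfl⟩)
      show π (k, i') = σ (π (k, i))
      rw [hσ, hπ, hπ, div_aux _ _ r i.2, mod_aux' _ _ r i.2, hi']
    rw [hB]
    show f ((f ^ i.val) (w k)) ∈ _
    by_cases hi : i.val + 1 < r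
    · have h3 : f ((f ^ i.val) (w k)) = (1 : F) • B (k, ⟨i.val + 1, hi⟩) := by
        rw [hB, one_smul]
        simp [pow_succ', Module.End.mul_apply]
      rw [h3]
      exact hmem _ _ (Nat.mod_eq_of_lt hi).symm
    · have hi' : i.val + 1 = r := by have := i.2; omega
      have h3 : f ((f ^ i.val) (w k)) = z • B (k, ⟨0, hrpos⟩) := by
        rw [hB, ← Module.End.mul_apply, ← pow_succ', hi', hf]; simp
      rw [h3]
      exact hmem _ _ (by rw [hi', Nat.mod_self])

end semis

section perm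

variable {F : Type*} [Field F] {V : Type*} [AddCommGroup V] [Module F V] [FiniteDimensional F V]

theorem indep_sum {ι : Type*} [DecidableEq ι] (D : ι → Submodule F V) (hind : iSupIndep D)
    {κ : Type*} (s : Finset κ) (φ : κ → ι) (x : κ → V)
    (hx : ∀ k ∈ s, x k ∈ D (φ k)) (hsum : ∑ k ∈ s, x k = 0) (j₀ : ι) :
    ∑ k ∈ s.filter (fun k => φ k = j₀), x k = 0 := by
  have h1 : ∑ k ∈ s.filter (fun k => φ k = j₀), x k ∈ D j₀ :=
    Submodule.sum_mem _ (fun k hk => by
      have := hx k (Finset.mem_filter.mp hk).1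
      rw [(Finset.mem_filter.mp hk).2] at this; exact this)
  have h2 : ∑ k ∈ s.filter (fun k => φ k = j₀), x k ∈ ⨆ (j') (_ : j' ≠ j₀), D j' := by
    have h3 : ∑ k ∈ s.filter (fun k => φ k = j₀), x k =
        -∑ k ∈ s.filter (fun k => ¬ φ k = j₀), x k := by
      have := Finset.sum_filter_add_sum_filter_not s (fun k => φ k = j₀) x
      rw [hsum] at this
      exact eq_neg_of_add_eq_zero_left this
    rw [h3]
    apply Submodule.neg_mem
    apply Submodule.sum_mem
    intro k hk
    obtain ⟨hk1, hk2⟩ := Finset.mem_filter.mp hk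
    exact Submodule.mem_iSup_of_mem (φ k) (Submodule.mem_iSup_of_mem hk2 (hx k hk1))
  exact Submodule.disjoint_def.mp (hind j₀) _ h1 h2

theorem indep_sum_inj {ι : Type*} [DecidableEq ι] (D : ι → Submodule F V) (hind : iSupIndep D)
    {κ : Type*} (s : Finset κ) (φ : κ → ι) (x : κ → V)
    (hx : ∀ k ∈ s, x k ∈ D (φ k)) (hsum : ∑ k ∈ s, x k = 0)
    (hφ : ∀ k ∈ s, ∀ k' ∈ s, φ k = φ k' → k = k') : ∀ k ∈ s, x k = 0 := by
  intro k hk
  have h := indep_sum D hind s φ x hx hsum (φ k)
  have hf : s.filter (fun k' => φ k' = φ k) = {k} := by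
    ext k'; simp only [Finset.mem_filter, Finset.mem_singleton]
    constructor
    · rintro ⟨h1, h2⟩; exact hφ k' h1 k hk h2
    · rintro rfl; exact ⟨hk, rfl⟩
  rw [hf, Finset.sum_singleton] at h; exact h

theorem block_pow {t : ℕ} (D : Fin t → Submodule F V) (f : V →ₗ[F] V) (σ : Equiv.Perm (Fin t))
    (hσ : ∀ j, (D j).map f = D (σ j)) :
    ∀ (m : ℕ) (j : Fin t), ∀ v ∈ D j, (f ^ m) v ∈ D ((σ ^ m) j) := by
  intro m
  induction m with
  | zero => intro j v hv; simpa using hv
  | succ m ih =>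
    intro j v hv
    rw [pow_succ' f, Module.End.mul_apply, pow_succ' σ, Equiv.Perm.mul_apply, ← hσ]
    exact Submodule.mem_map_of_mem (ih j v hv)

theorem block_eq {t : ℕ} (D : Fin t → Submodule F V) (hind : iSupIndep D) (i j : Fin t) (v : V)
    (hi : v ∈ D i) (hj : v ∈ D j) (hv : v ≠ 0) : i = j := by
  by_contra h
  exact hv (Submodule.disjoint_def.mp (hind.pairwiseDisjoint h) v hi hj)

theorem sigma_pow {t : ℕ} (D : Fin t → Submodule F V) (hind : iSupIndep D)
    (hne : ∀ j, D j ≠ ⊥) (f : V →ₗ[F] V) (r : ℕ) (hf : f ^ r = 1) (σ : Equiv.Perm (Fin t))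
    (hσ : ∀ j, (D j).map f = D (σ j)) : σ ^ r = 1 := by
  apply Equiv.ext
  intro j
  obtain ⟨v, hvD, hv0⟩ := (Submodule.ne_bot_iff (D j)).mp (hne j)
  have h1 := block_pow D f σ hσ r j v hvD
  rw [hf] at h1
  exact block_eq D hind _ _ v h1 hvD hv0

theorem orbit_ne {t : ℕ} (σ : Equiv.Perm (Fin t)) (r : ℕ) [Fact r.Prime] (hσr : σ ^ r = 1)
    (j : Fin t) (hj : σ j ≠ j) : ∀ i, 0 < i → i < r → (σ ^ i) j ≠ j := by
  intro i hi0 hir h
  have hrp := (Fact.out : r.Prime)
  have hcop : Nat.Coprime i r :=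
    Nat.Coprime.symm ((Nat.Prime.coprime_iff_not_dvd hrp).mpr (Nat.not_dvd_of_pos_of_lt hi0 hir))
  obtain ⟨m, -, hm⟩ := Nat.exists_mul_mod_eq_one_of_coprime hcop hrp.one_lt
  have h1 : (σ ^ (i * m)) j = j := by
    rw [pow_mul]; exact Equiv.Perm.pow_apply_eq_self_of_apply_eq_self h m
  rw [pow_eq_pow_mod (i * m) hσr, hm, pow_one] at h1
  exact hj h1

theorem orbit_inj {t : ℕ} (σ : Equiv.Perm (Fin t)) (r : ℕ) [Fact r.Prime] (hσr : σ ^ r = 1)
    (j : Fin t) (hj : σ j ≠ j) :
    ∀ i i', i < r → i' < r → (σ ^ i) j = (σ ^ i') j → i = i' := by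
  have key : ∀ i i', i < i' → i' < r → (σ ^ i) j ≠ (σ ^ i') j := by
    intro i i' hlt hi' h
    have h2 : (σ ^ i') j = (σ ^ i) ((σ ^ (i' - i)) j) := by
      rw [← Equiv.Perm.mul_apply, ← pow_add]; congr 2; omega
    rw [h2] at h
    exact orbit_ne σ r hσr j hj (i' - i) (by omega) (by omega) ((σ ^ i).injective h).symm
  intro i i' hi hi' h
  by_contra hne
  rcases Nat.lt_or_gt_of_ne hne with h1 | h1
  · exact key i i' h1 hi' h
  · exact key i' i h1 hi h.symm

theorem phi_pow (f : V →ₗ[F] V) (r : ℕ) (hf : f ^ r = 1) :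
    ∀ m, (∑ i ∈ Finset.range r, f ^ i) * f ^ m = ∑ i ∈ Finset.range r, f ^ i := by
  have h1 : (∑ i ∈ Finset.range r, f ^ i) * f = ∑ i ∈ Finset.range r, f ^ i := by
    have := geom_sum_mul f r
    rw [hf, sub_self, mul_sub, mul_one, sub_eq_zero] at this
    exact this
  intro m
  induction m with
  | zero => rw [pow_zero, mul_one]
  | succ m ih => rw [pow_succ, ← mul_assoc, ih, h1]

theorem pow_inj (f : V →ₗ[F] V) (r : ℕ) (hr0 : r ≠ 0) (hf : f ^ r = 1) :
    ∀ (m : ℕ) (u : V), (f ^ m) u = 0 → u = 0 := by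
  have hinj := inj_of_pow f r hr0 1 one_ne_zero (by rw [hf, one_smul])
  intro m
  induction m with
  | zero => intro u hu; simpa using hu
  | succ m ih =>
    intro u hu
    rw [pow_succ', Module.End.mul_apply] at hu
    exact ih u (hinj (by rw [hu, map_zero]))

theorem fix_ge {t : ℕ} (D : Fin t → Submodule F V) (hind : iSupIndep D) (f : V →ₗ[F] V)
    (r : ℕ) [Fact r.Prime] (hf : f ^ r = 1) (σ : Equiv.Perm (Fin t))
    (hσ : ∀ j, (D j).map f = D (σ j)) (hσr : σ ^ r = 1) (j : Fin t) (hj : σ j ≠ j) :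
    finrank F (D j) ≤ finrank F (S5949.Cg f) := by
  let L : D j →ₗ[F] S5949.Cg f := LinearMap.codRestrict (S5949.Cg f)
    ((∑ i ∈ Finset.range r, f ^ i) ∘ₗ (D j).subtype) (fun v => S5949.phi_mem_Cg f r hf v)
  apply LinearMap.finrank_le_finrank_of_injective (f := L)
  rw [injective_iff_map_eq_zero]
  intro v hv
  have h1 : (∑ i ∈ Finset.range r, f ^ i) (v : V) = 0 := congrArg Subtype.val hv
  rw [LinearMap.sum_apply] at h1
  have h2 := indep_sum_inj D hind (Finset.range r) (fun i => (σ ^ i) j)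
    (fun i => (f ^ i) (v : V)) (fun i _ => block_pow D f σ hσ i j v v.2) h1
    (fun i hi i' hi' h => orbit_inj σ r hσr j hj i i' (Finset.mem_range.mp hi)
      (Finset.mem_range.mp hi') h)
    0 (Finset.mem_range.mpr (Fact.out : r.Prime).pos)
  apply Subtype.ext
  simpa using h2

theorem move_ge {t : ℕ} (D : Fin t → Submodule F V) (hind : iSupIndep D) (f : V →ₗ[F] V)
    (r : ℕ) [Fact r.Prime] (hf : f ^ r = 1) (σ : Equiv.Perm (Fin t))
    (hσ : ∀ j, (D j).map f = D (σ j)) (hσr : σ ^ r = 1) (j : Fin t) (hj : σ j ≠ j) :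
    finrank F (D j) * (r - 1) ≤ finrank F (S5949.Dg f r) := by
  have hrp := (Fact.out : r.Prime)
  obtain ⟨L0, hL0⟩ : ∃ L0 : (Fin (r - 1) → D j) →ₗ[F] V, ∀ w : Fin (r - 1) → D j,
      L0 w = ∑ i : Fin (r - 1), ((f ^ (i.val + 1)) (w i : V) - (w i : V)) :=
    ⟨∑ i : Fin (r - 1), ((f ^ (i.val + 1) - 1) ∘ₗ (D j).subtype) ∘ₗ LinearMap.proj i,
      fun w => by simp [LinearMap.sum_apply]⟩
  have hmem : ∀ w, L0 w ∈ S5949.Dg f r := by
    intro w
    rw [hL0]
    apply Submodule.sum_mem; intro i _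
    show (∑ k ∈ Finset.range r, f ^ k) ((f ^ (i.val + 1)) (w i : V) - (w i : V)) = 0
    rw [map_sub, ← Module.End.mul_apply, phi_pow f r hf, sub_self]
  have hinj : Function.Injective (LinearMap.codRestrict (S5949.Dg f r) L0 hmem) := by
    rw [injective_iff_map_eq_zero]
    intro w hw
    have h1 : L0 w = 0 := congrArg Subtype.val hw
    rw [hL0] at h1
    have h2 := indep_sum_inj D hind (Finset.univ : Finset (Option (Fin (r - 1))))
      (fun o => o.elim j (fun i => (σ ^ (i.val + 1)) j))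
      (fun o => o.elim (-∑ i : Fin (r - 1), (w i : V)) (fun i => (f ^ (i.val + 1)) (w i : V)))
      ?_ ?_ ?_
    · funext i
      have h3 := h2 (some i) (Finset.mem_univ _)
      apply Subtype.ext
      exact pow_inj f r hrp.ne_zero hf (i.val + 1) _ h3
    · rintro (_ | i) _
      · exact Submodule.neg_mem _ (Submodule.sum_mem _ (fun i _ => (w i).2))
      · exact block_pow D f σ hσ (i.val + 1) j _ (w i).2
    · rw [Fintype.sum_option]
      show -∑ i : Fin (r - 1), (w i : V) + ∑ i : Fin (r - 1), (f ^ (i.val + 1)) (w i : V) = 0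
      rw [← h1, Finset.sum_sub_distrib]; abel
    · rintro (_ | i) _ (_ | i') _ h
      · rfl
      · exfalso
        exact orbit_ne σ r hσr j hj (i'.val + 1) (by omega) (by have := i'.2; omega) h.symm
      · exfalso
        exact orbit_ne σ r hσr j hj (i.val + 1) (by omega) (by have := i.2; omega) h
      · have := orbit_inj σ r hσr j hj (i.val + 1) (i'.val + 1) (by have := i.2; omega)
          (by have := i'.2; omega) h
        congr 1; apply Fin.ext; omega
  have h3 := LinearMap.finrank_le_finrank_of_injective hinj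
  rw [Module.finrank_pi_fintype] at h3
  simpa [Finset.sum_const, mul_comm] using h3

theorem fix_sum {t : ℕ} (D : Fin t → Submodule F V) (hind : iSupIndep D) (f : V →ₗ[F] V) :
    ∑ j : Fin t, finrank F ↥(D j ⊓ S5949.Cg f) ≤ finrank F (S5949.Cg f) := by
  obtain ⟨L0, hL0⟩ : ∃ L0 : (∀ j : Fin t, ↥(D j ⊓ S5949.Cg f)) →ₗ[F] V,
      ∀ w, L0 w = ∑ j : Fin t, (w j : V) :=
    ⟨∑ j : Fin t, (Submodule.subtype _) ∘ₗ LinearMap.proj j,
      fun w => by simp [LinearMap.sum_apply]⟩
  have hmem : ∀ w, L0 w ∈ S5949.Cg f := fun w => by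
    rw [hL0]; exact Submodule.sum_mem _ (fun j _ => (w j).2.2)
  have hinj : Function.Injective (LinearMap.codRestrict (S5949.Cg f) L0 hmem) := by
    rw [injective_iff_map_eq_zero]
    intro w hw
    have h1 : L0 w = 0 := congrArg Subtype.val hw
    rw [hL0] at h1
    have h2 := indep_sum_inj D hind Finset.univ id (fun j => (w j : V)) (fun j _ => (w j).2.1) h1
      (fun k _ k' _ h => h)
    funext j
    apply Subtype.ext
    exact h2 j (Finset.mem_univ _)
  have h3 := LinearMap.finrank_le_finrank_of_injective hinj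
  rw [Module.finrank_pi_fintype] at h3
  exact h3

theorem small_fix [Fintype F] (f : V →ₗ[F] V) (r : ℕ) [Fact r.Prime] (hr : (r : F) ≠ 0)
    (hf : f ^ r = 1) (W : Submodule F V) (hW : ∀ w ∈ W, f w ∈ W)
    (hlt : finrank F W < orderOf (Fintype.card F : ZMod r)) : W ≤ S5949.Cg f := by
  have h1 := S5949.split_finrank f r hr hf W hW
  obtain ⟨e, he⟩ := S5949.D_dvd f r hr hf (W ⊓ S5949.Dg f r)
    (fun w hw => ⟨hW w hw.1, S5949.Dg_inv f r w hw.2⟩) inf_le_right
  have h2 : finrank F ↥(W ⊓ S5949.Dg f r) = 0 := by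
    rcases Nat.eq_zero_or_pos e with h | h
    · rw [he, h, Nat.mul_zero]
    · exfalso
      have : orderOf (Fintype.card F : ZMod r) ≤ orderOf (Fintype.card F : ZMod r) * e :=
        Nat.le_mul_of_pos_right _ h
      omega
  have h3 := S5949.split f r hr hf W hW
  rw [Submodule.finrank_eq_zero.mp h2, sup_bot_eq] at h3
  rw [h3]; exact inf_le_right

end perm

section perm2

variable {F : Type*} [Field F] {V : Type*} [AddCommGroup V] [Module F V] [FiniteDimensional F V]

theorem orbit_bound {t : ℕ} (D : Fin t → Submodule F V) (hind : iSupIndep D) (a : ℕ)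
    (hfr : ∀ j, finrank F (D j) = a) (f : V →ₗ[F] V) (r : ℕ) [Fact r.Prime] (hrF : (r : F) ≠ 0)
    (hf : f ^ r = 1) (σ : Equiv.Perm (Fin t)) (hσ : ∀ j, (D j).map f = D (σ j))
    (hσr : σ ^ r = 1) (hfix : ∀ j, σ j = j → D j ≤ S5949.Cg f) :
    t * a ≤ r * finrank F (S5949.Cg f) := by
  classical
  have hrp := (Fact.out : r.Prime)
  have hback : ∀ (i : ℕ) (x y : Fin t), (σ ^ i) x = y → (σ ^ (i * (r - 1))) y = x := by
    intro i x y h
    rw [← h, ← Equiv.Perm.mul_apply, ← pow_add]
    have e : i * (r - 1) + i = r * i := by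
      obtain ⟨r', hr'⟩ : ∃ r', r = r' + 1 := ⟨r - 1, by have := hrp.pos; omega⟩
      subst hr'
      simp only [Nat.add_sub_cancel]
      ring
    rw [e, pow_mul, hσr, one_pow]; rfl
  have hOne : ∀ j : Fin t, ((Finset.range r).image (fun i => (σ ^ i) j)).Nonempty := fun j =>
    ⟨j, Finset.mem_image.mpr ⟨0, Finset.mem_range.mpr hrp.pos, by simp⟩⟩
  obtain ⟨ρ, hρ⟩ : ∃ ρ : Fin t → Fin t,
      ∀ j, ρ j = ((Finset.range r).image (fun i => (σ ^ i) j)).min' (hOne j) := ⟨_, fun _ => rfl⟩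
  have hρmem : ∀ j, ∃ i, (σ ^ i) j = ρ j := by
    intro j
    have := Finset.min'_mem _ (hOne j)
    rw [← hρ] at this
    obtain ⟨i, -, h⟩ := Finset.mem_image.mp this
    exact ⟨i, h⟩
  have hρle : ∀ j i, ρ j ≤ (σ ^ i) j := by
    intro j i
    rw [hρ]
    apply Finset.min'_le
    rw [pow_eq_pow_mod i hσr]
    exact Finset.mem_image.mpr ⟨i % r, Finset.mem_range.mpr (Nat.mod_lt _ hrp.pos), rfl⟩
  obtain ⟨R, hR⟩ : ∃ R : Finset (Fin t),
      R = Finset.univ.filter (fun m => ∀ i, m ≤ (σ ^ i) m) := ⟨_, rfl⟩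
  have hRmem : ∀ m, m ∈ R ↔ ∀ i, m ≤ (σ ^ i) m := by intro m; rw [hR]; simp
  have hρR : ∀ j, ρ j ∈ R := by
    intro j
    rw [hRmem]
    intro i
    obtain ⟨i₀, h⟩ := hρmem j
    have h2 : (σ ^ i) (ρ j) = (σ ^ (i + i₀)) j := by
      rw [← h, ← Equiv.Perm.mul_apply, ← pow_add]
    rw [h2]; exact hρle j _
  have huniq : ∀ m ∈ R, ∀ m' ∈ R, ∀ i, (σ ^ i) m = m' → m = m' := by
    intro m hm m' hm' i h
    apply le_antisymm
    · rw [← h]; exact (hRmem m).mp hm i
    · have h2 := hback i m m' h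
      have h3 := (hRmem m').mp hm' (i * (r - 1))
      rw [h2] at h3; exact h3
  have hcard : t ≤ r * R.card := by
    have h1 := Finset.card_le_mul_card_image (s := (Finset.univ : Finset (Fin t))) (f := ρ) r (by
      intro m _
      have hsub : Finset.univ.filter (fun j => ρ j = m) ⊆
          (Finset.range r).image (fun i => (σ ^ i) m) := by
        intro j hj
        have hj' : ρ j = m := (Finset.mem_filter.mp hj).2
        obtain ⟨i₀, h⟩ := hρmem j
        rw [hj'] at h
        have h2 := hback i₀ j m h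
        rw [pow_eq_pow_mod (i₀ * (r - 1)) hσr] at h2
        exact Finset.mem_image.mpr ⟨_, Finset.mem_range.mpr (Nat.mod_lt _ hrp.pos), h2⟩
      calc _ ≤ ((Finset.range r).image (fun i => (σ ^ i) m)).card := Finset.card_le_card hsub
        _ ≤ (Finset.range r).card := Finset.card_image_le
        _ = r := Finset.card_range r)
    rw [Finset.card_univ, Fintype.card_fin] at h1
    have h2 : (Finset.univ.image ρ).card ≤ R.card := Finset.card_le_card (by
      intro m hm
      obtain ⟨j, -, rfl⟩ := Finset.mem_image.mp hm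
      exact hρR j)
    exact h1.trans (Nat.mul_le_mul_left r h2)
  obtain ⟨L0, hL0⟩ : ∃ L0 : (∀ m : R, D m.1) →ₗ[F] V,
      ∀ w, L0 w = ∑ m : R, ∑ i ∈ Finset.range r, (f ^ i) (w m : V) :=
    ⟨∑ m : R, ((∑ i ∈ Finset.range r, f ^ i) ∘ₗ (D m.1).subtype) ∘ₗ LinearMap.proj m,
      fun w => by simp [LinearMap.sum_apply]⟩
  have hmem : ∀ w, L0 w ∈ S5949.Cg f := by
    intro w
    rw [hL0]
    apply Submodule.sum_mem; intro m _
    rw [← LinearMap.sum_apply]
    exact S5949.phi_mem_Cg f r hf _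
  have hinj : Function.Injective (LinearMap.codRestrict (S5949.Cg f) L0 hmem) := by
    rw [injective_iff_map_eq_zero]
    intro w hw
    have h1 : L0 w = 0 := congrArg Subtype.val hw
    rw [hL0] at h1
    have h1' : ∑ p ∈ (Finset.univ : Finset R) ×ˢ Finset.range r, (f ^ p.2) (w p.1 : V) = 0 := by
      rw [Finset.sum_product]; exact h1
    funext m₀
    apply Subtype.ext
    have h2 : ∑ p ∈ ((Finset.univ : Finset R) ×ˢ Finset.range r).filter
        (fun p => (σ ^ p.2) p.1.1 = m₀.1), (f ^ p.2) (w p.1 : V) = 0 :=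
      indep_sum D hind ((Finset.univ : Finset R) ×ˢ Finset.range r)
        (fun p => (σ ^ p.2) p.1.1) (fun p => (f ^ p.2) (w p.1 : V))
        (fun p _ => block_pow D f σ hσ p.2 p.1.1 _ (w p.1).2) h1' m₀.1
    by_cases hm : σ m₀.1 = m₀.1
    · have hfil : ((Finset.univ : Finset R) ×ˢ Finset.range r).filter
          (fun p => (σ ^ p.2) p.1.1 = m₀.1) = {m₀} ×ˢ Finset.range r := by
        ext p
        simp only [Finset.mem_filter, Finset.mem_product, Finset.mem_univ, true_and,
          Finset.mem_singleton]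
        constructor
        · rintro ⟨h3, h4⟩
          exact ⟨Subtype.ext (huniq p.1.1 p.1.2 m₀.1 m₀.2 p.2 h4), h3⟩
        · rintro ⟨h3, h4⟩
          refine ⟨h4, ?_⟩
          rw [h3]; exact Equiv.Perm.pow_apply_eq_self_of_apply_eq_self hm p.2
      rw [hfil, Finset.sum_product, Finset.sum_singleton] at h2
      have h2' : ∑ i ∈ Finset.range r, (f ^ i) (w m₀ : V) = 0 := h2
      rw [← LinearMap.sum_apply,
        S5949.phi_fix f r _ ((S5949.mem_Cg f _).mp (hfix m₀.1 hm (w m₀).2))] at h2'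
      exact (smul_eq_zero.mp h2').resolve_left hrF
    · have hfil : ((Finset.univ : Finset R) ×ˢ Finset.range r).filter
          (fun p => (σ ^ p.2) p.1.1 = m₀.1) = {(m₀, 0)} := by
        ext p
        simp only [Finset.mem_filter, Finset.mem_product, Finset.mem_univ, true_and,
          Finset.mem_singleton, Finset.mem_range]
        constructor
        · rintro ⟨h3, h4⟩
          have h5 : p.1 = m₀ := Subtype.ext (huniq p.1.1 p.1.2 m₀.1 m₀.2 p.2 h4)
          rw [h5] at h4
          have h6 : p.2 = 0 := by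
            by_contra h7
            exact orbit_ne σ r hσr m₀.1 hm p.2 (Nat.pos_of_ne_zero h7) h3 h4
          exact Prod.ext h5 h6
        · rintro rfl
          exact ⟨hrp.pos, by simp⟩
      rw [hfil, Finset.sum_singleton] at h2
      simpa using h2
  have h3 := LinearMap.finrank_le_finrank_of_injective hinj
  rw [Module.finrank_pi_fintype] at h3
  have h4 : ∑ m : R, finrank F (D m.1) = R.card * a := by
    simp [hfr]
  rw [h4] at h3
  calc t * a ≤ (r * R.card) * a := Nat.mul_le_mul_right a hcard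
    _ = r * (R.card * a) := by ring
    _ ≤ r * finrank F (S5949.Cg f) := Nat.mul_le_mul_left r h3

theorem cyc_D [Fintype F] (y : V →ₗ[F] V) (r : ℕ) [Fact r.Prime] (hr : (r : F) ≠ 0)
    (hy : y ^ r = 1) (hi0 : 0 < orderOf (Fintype.card F : ZMod r)) :
    ∀ N : Submodule F V, N ≤ S5949.Dg y r → (∀ w ∈ N, y w ∈ N) → N ≠ ⊥ →
      ∃ v ∈ N, (∀ w ∈ Submodule.span F (Set.range (fun i : Fin r => (y ^ i.val) v)),
          y w ∈ Submodule.span F (Set.range (fun i : Fin r => (y ^ i.val) v))) ∧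
        finrank F (Submodule.span F (Set.range (fun i : Fin r => (y ^ i.val) v))) =
          orderOf (Fintype.card F : ZMod r) := by
  intro N hND hNinv hNne
  have hrp := (Fact.out : r.Prime)
  obtain ⟨Z', hZ'N, hZ'inv, hZ'ne, hZ'd⟩ :=
    S5949.exists_small y _ (S5949.pow_card_pow_eq y r hy) hi0 N hNinv hNne
  obtain ⟨v, hvZ', hv0⟩ := (Submodule.ne_bot_iff Z').mp hZ'ne
  have hinv := cyc_inv y r hrp.pos 1 (by rw [hy, one_smul]) v
  refine ⟨v, hZ'N hvZ', hinv, ?_⟩
  have hpow : ∀ i : ℕ, (y ^ i) v ∈ Z' := by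
    intro i
    induction i with
    | zero => simpa using hvZ'
    | succ i ih => rw [pow_succ', Module.End.mul_apply]; exact hZ'inv _ ih
  have hZle : Submodule.span F (Set.range (fun i : Fin r => (y ^ i.val) v)) ≤ Z' := by
    rw [Submodule.span_le]; rintro _ ⟨i, rfl⟩; exact hpow i
  have hdvd := S5949.D_dvd y r hr hy _ hinv (hZle.trans (hZ'N.trans hND))
  have hpos : 0 < finrank F (Submodule.span F (Set.range (fun i : Fin r => (y ^ i.val) v))) := by
    apply Nat.pos_of_ne_zero; intro h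
    have h1 := Submodule.finrank_eq_zero.mp h
    have hvZ : v ∈ Submodule.span F (Set.range (fun i : Fin r => (y ^ i.val) v)) :=
      Submodule.subset_span ⟨⟨0, hrp.pos⟩, by simp⟩
    rw [h1, Submodule.mem_bot] at hvZ; exact hv0 hvZ
  exact le_antisymm ((Submodule.finrank_mono hZle).trans hZ'd) (Nat.le_of_dvd hpos hdvd)

theorem decomp_perm [Fintype F] (y : V →ₗ[F] V) (r : ℕ) [Fact r.Prime] (hr : (r : F) ≠ 0)
    (hy : y ^ r = 1) (hi0 : 0 < orderOf (Fintype.card F : ZMod r)) (n : ℕ)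
    (hV : finrank F V = n) (hc : orderOf (Fintype.card F : ZMod r) = r - 1)
    (hn : n ≤ (n % (r - 1)) * r) :
    ∃ D : Fin n → Submodule F V, (∀ j, finrank F (D j) = 1) ∧ iSupIndep D ∧ iSup D = ⊤ ∧
      ∃ τ : Equiv.Perm (Fin n), ∀ j, (D j).map y = D (τ j) := by
  classical
  have hrp := (Fact.out : r.Prime)
  have hcyc := cyc_D y r hr hy hi0
  obtain ⟨c, hcdef⟩ : ∃ c, c = r - 1 := ⟨_, rfl⟩
  rw [← hcdef] at hc hn
  rw [hc] at hi0 hcyc
  have hrc : r = c + 1 := by have := hrp.pos; omega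
  have hsplit := S5949.split_finrank y r hr hy ⊤ (fun _ _ => Submodule.mem_top)
  rw [finrank_top, top_inf_eq, top_inf_eq, hV] at hsplit
  obtain ⟨s, hs⟩ := S5949.D_dvd y r hr hy (S5949.Dg y r) (S5949.Dg_inv y r) le_rfl
  rw [hc] at hs
  obtain ⟨d, hd⟩ : ∃ d, d = finrank F (S5949.Cg y) := ⟨_, rfl⟩
  rw [← hd, hs] at hsplit
  have hsd : s ≤ d := by
    have h1 : n % c = d % c := by rw [hsplit, Nat.add_mul_mod_self_left]
    have h2 : d = c * (d / c) + d % c := (Nat.div_add_mod d c).symm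
    have h3 : (n % c) * r = (d % c) * c + d % c := by rw [h1, hrc, Nat.mul_succ]
    have h4 : c * (d / c + s) ≤ c * (d % c) := by
      rw [Nat.mul_add, Nat.mul_comm c (d % c)]
      omega
    have h5 := Nat.le_of_mul_le_mul_left h4 hi0
    have h5' : s ≤ d % c := le_trans (Nat.le_add_left s (d / c)) h5
    have h6 := Nat.mod_le d c
    exact h5'.trans h6
  obtain ⟨W, hWD, -, hWfr, zz, hzz⟩ := exists_cyc y r c hi0 (comp_one y r hr hy) (S5949.Dg y r)
    (S5949.Dg_inv y r) hcyc s (by rw [hs])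
  have hWeq : W = S5949.Dg y r := Submodule.eq_of_le_of_finrank_eq hWD (by rw [hWfr, hs])
  rw [hWeq] at hzz
  have hzzD : ∀ j, zz j ∈ S5949.Dg y r := by
    intro j; rw [← hzz]
    exact Submodule.subset_span ⟨(j, ⟨0, hrp.pos⟩), by simp⟩
  obtain ⟨u, -⟩ : ∃ u : Basis (Fin d) F (S5949.Cg y), u = u :=
    ⟨Module.finBasisOfFinrankEq F _ hd.symm, rfl⟩
  have hufix : ∀ m, y (u m : V) = (u m : V) := fun m => (S5949.mem_Cg y _).mp (u m).2
  have huspan : Submodule.span F (Set.range (fun m : Fin d => (u m : V))) = S5949.Cg y := by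
    have : (fun m : Fin d => (u m : V)) = (S5949.Cg y).subtype ∘ u := rfl
    rw [this, Set.range_comp, Submodule.span_image, u.span_eq, Submodule.map_top,
      Submodule.range_subtype]
  obtain ⟨b, hb⟩ : ∃ b : (Fin s × Fin r) ⊕ Fin (d - s) → V, b = Sum.elim
      (fun p : Fin s × Fin r =>
        (y ^ p.2.val) ((u ⟨p.1.val, by have := p.1.2; omega⟩ : V) + zz p.1))
      (fun m : Fin (d - s) => (u ⟨s + m.val, by have := m.2; omega⟩ : V)) := ⟨_, rfl⟩
  have hbl0 : ∀ (j : Fin s) (i : Fin r), b (Sum.inl (j, i)) =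
      (y ^ i.val) ((u ⟨j.val, by have := j.2; omega⟩ : V) + zz j) := by
    intro j i; rw [hb]; rfl
  have hbl : ∀ (j : Fin s) (i : Fin r), b (Sum.inl (j, i)) =
      (u ⟨j.val, by have := j.2; omega⟩ : V) + (y ^ i.val) (zz j) := by
    intro j i; rw [hbl0, map_add, S5949.pow_fix y _ (hufix _) i.val]
  have hbr : ∀ m : Fin (d - s), b (Sum.inr m) =
      (u ⟨s + m.val, by have := m.2; omega⟩ : V) := by
    intro m; rw [hb]; rfl
  have hS : ⊤ ≤ Submodule.span F (Set.range b) := by
    have hmemb : ∀ k, b k ∈ Submodule.span F (Set.range b) :=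
      fun k => Submodule.subset_span ⟨k, rfl⟩
    have hu1 : ∀ j : Fin s, (u ⟨j.val, by have := j.2; omega⟩ : V) ∈
        Submodule.span F (Set.range b) := by
      intro j
      have h1 : ∑ i ∈ Finset.range r, ((u ⟨j.val, by have := j.2; omega⟩ : V) +
          (y ^ i) (zz j)) ∈ Submodule.span F (Set.range b) := by
        apply Submodule.sum_mem
        intro i hi
        have := hmemb (Sum.inl (j, ⟨i, Finset.mem_range.mp hi⟩))
        rw [hbl] at this; exact this
      rw [Finset.sum_add_distrib, Finset.sum_const, Finset.card_range,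
        ← LinearMap.sum_apply] at h1
      have h2 : (∑ i ∈ Finset.range r, y ^ i) (zz j) = 0 := hzzD j
      rw [h2, add_zero] at h1
      have h3 := Submodule.smul_mem _ ((r : F)⁻¹) h1
      rw [← Nat.cast_smul_eq_nsmul F, smul_smul, inv_mul_cancel₀ hr, one_smul] at h3
      exact h3
    have hC : S5949.Cg y ≤ Submodule.span F (Set.range b) := by
      rw [← huspan, Submodule.span_le]
      rintro _ ⟨m, rfl⟩
      by_cases hm : m.val < s
      · exact hu1 ⟨m.val, hm⟩
      · have := hmemb (Sum.inr ⟨m.val - s, by have := m.2; omega⟩)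
        rw [hbr] at this
        have e : (⟨s + (m.val - s), by have := m.2; omega⟩ : Fin d) = m := by
          apply Fin.ext; show s + (m.val - s) = m.val; omega
        rw [e] at this
        exact this
    have hDle : S5949.Dg y r ≤ Submodule.span F (Set.range b) := by
      rw [← hzz, Submodule.span_le]
      rintro _ ⟨⟨j, i⟩, rfl⟩
      have h1 := hmemb (Sum.inl (j, i))
      rw [hbl] at h1
      have h2 := Submodule.sub_mem _ h1 (hu1 j)
      rwa [add_sub_cancel_left] at h2
    have htop := S5949.split y r hr hy ⊤ (fun _ _ => Submodule.mem_top)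
    rw [top_inf_eq, top_inf_eq] at htop
    rw [htop]; exact sup_le hC hDle
  have hcardκ : Fintype.card ((Fin s × Fin r) ⊕ Fin (d - s)) = n := by
    rw [Fintype.card_sum, Fintype.card_prod, Fintype.card_fin, Fintype.card_fin,
      Fintype.card_fin, hsplit, hrc, Nat.mul_succ, Nat.mul_comm s c]
    omega
  obtain ⟨B, hB⟩ := basis_of_span b hS (by rw [hcardκ, hV])
  let rotE : Equiv.Perm (Fin r) :=
    { toFun := fun i => ⟨(i.val + 1) % r, Nat.mod_lt _ hrp.pos⟩
      invFun := fun i => ⟨(i.val + (r - 1)) % r, Nat.mod_lt _ hrp.pos⟩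
      left_inv := fun i => Fin.ext (rot1 i.val r i.2)
      right_inv := fun i => Fin.ext (rot2 i.val r i.2) }
  have hrotE : ∀ i : Fin r, ((rotE i : Fin r) : ℕ) = (i.val + 1) % r := fun i => rfl
  have hpowmod : ∀ (i : ℕ) (v : V), (y ^ (i % r)) v = (y ^ i) v := by
    intro i v; rw [← pow_eq_pow_mod i hy]
  refine mono_decomp B n hcardκ
    (Equiv.sumCongr (Equiv.prodCongr (Equiv.refl _) rotE) (Equiv.refl _)) y ?_
  rintro (⟨j, i⟩ | m)
  · rw [hB, hB]
    show y (b (Sum.inl (j, i))) = b (Sum.inl (j, rotE i))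
    rw [hbl0, hbl0, hrotE, hpowmod, pow_succ', Module.End.mul_apply]
  · rw [hB, hB]
    show y (b (Sum.inr m)) = b (Sum.inr m)
    rw [hbr]; exact hufix _

theorem dir_mpr [Fintype F] (f : V →ₗ[F] V) (r : ℕ) [Fact r.Prime] (hr : (r : F) ≠ 0)
    (hi0 : 0 < orderOf (Fintype.card F : ZMod r))
    (z : F) (hz : z ≠ 0) (hf : f ^ r = z • (1 : Module.End F V)) (n a t : ℕ) (ha : 1 ≤ a)
    (hV : finrank F V = n) (hat : n = a * t) (c : ℕ)
    (hc : c = orderOf (Fintype.card F : ZMod r))
    (hRHS : (a = 1 ∧ 1 < c ∧ c = r - 1 ∧ n ≤ (n % c) * r) ∨ (c ≤ a ∧ n % c = t * (a % c))) :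
    ∃ D : Fin t → Submodule F V, (∀ j, finrank F (D j) = a) ∧ iSupIndep D ∧ iSup D = ⊤ ∧
      ∃ τ : Equiv.Perm (Fin t), ∀ j, (D j).map f = D (τ j) := by
  have hrp := (Fact.out : r.Prime)
  by_cases hb : ∃ b, b ^ r = z
  · obtain ⟨b, rfl⟩ := hb
    have hb0 : b ≠ 0 := by rintro rfl; exact hz (zero_pow hrp.ne_zero)
    have hy : (b⁻¹ • f) ^ r = 1 := by
      rw [_root_.smul_pow, hf, smul_smul, inv_pow, inv_mul_cancel₀ (pow_ne_zero _ hb0), one_smul]
    have hmap : ∀ W : Submodule F V, W.map (b⁻¹ • f) = W.map f :=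
      fun W => Submodule.map_smul f W b⁻¹ (inv_ne_zero hb0)
    rcases hRHS with ⟨ha1, hc1, hcr, hn⟩ | ⟨hca, hmod⟩
    · subst ha1
      rw [one_mul] at hat
      subst hat
      rw [hcr] at hn
      obtain ⟨D, h1, h2, h3, τ, h4⟩ := decomp_perm (b⁻¹ • f) r hr hy hi0 n hV
        (by rw [← hc]; exact hcr) hn
      exact ⟨D, h1, h2, h3, τ, fun j => by rw [← hmap]; exact h4 j⟩
    · obtain ⟨D, h1, h2, h3, τ, h4⟩ := decomp_semis (b⁻¹ • f) r hr hy hi0 a t
        (by rw [hV, hat]) (by rw [hV, ← hc]; exact hmod)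
      exact ⟨D, h1, h2, h3, τ, fun j => by rw [← hmap]; exact h4 j⟩
  · push Not at hb
    have hirr := X_pow_sub_C_irreducible_of_prime hrp hb
    have hdvd : r ∣ a * t := by
      have := S5949.inv_dvd f r hrp.ne_zero z hirr hf ⊤ (fun _ _ => Submodule.mem_top)
      rw [finrank_top, hV, hat] at this; exact this
    rcases (Nat.Prime.dvd_mul hrp).mp hdvd with h | h
    · exact decomp_irr_dvd f r hrp.ne_zero hr z hz hirr hf a t (by rw [hV, hat]) h
    · obtain ⟨t₁, rfl⟩ := h
      exact decomp_irr_cyc f r hrp.ne_zero hr z hz hirr hf a t₁ ha (by rw [hV, hat])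

end perm2

section elt

variable {F : Type*} [Field F] [Fintype F]

/-- an element of order `r` of `SL_n(F)` with the largest possible fixed space -/
theorem exists_one_elt (n r : ℕ) [Fact r.Prime] (hrF : (r : F) ≠ 0)
    (hcop : Nat.Coprime r (Fintype.card F - 1))
    (hi0 : 0 < orderOf (Fintype.card F : ZMod r))
    (hcn : orderOf (Fintype.card F : ZMod r) ≤ n) :
    ∃ x : Matrix.SpecialLinearGroup (Fin n) F,
      ((x ^ r : Matrix.SpecialLinearGroup (Fin n) F) : Matrix (Fin n) (Fin n) F) = 1 ∧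
      (Matrix.toLin' (x : Matrix (Fin n) (Fin n) F)) ^ r = 1 ∧
      Matrix.toLin' (x : Matrix (Fin n) (Fin n) F) ≠ 1 ∧
      n ≤ orderOf (Fintype.card F : ZMod r) +
        finrank F (S5949.Cg (Matrix.toLin' (x : Matrix (Fin n) (Fin n) F))) := by
  classical
  have hrp := (Fact.out : r.Prime)
  have : NeZero r := ⟨hrp.ne_zero⟩
  let σ : (ZMod r → F) →ₗ[F] (ZMod r → F) := LinearMap.funLeft F F (fun t : ZMod r => t + 1)
  have hσk : ∀ (k : ℕ) (v : ZMod r → F) (t : ZMod r), (σ ^ k) v t = v (t + (k : ZMod r)) := by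
    intro k
    induction k with
    | zero => intro v t; simp
    | succ k ih =>
      intro v t
      rw [pow_succ, Module.End.mul_apply, ih]
      show v (t + (k : ZMod r) + 1) = _
      push_cast; rw [add_assoc]
  have hσr : σ ^ r = 1 := by
    apply LinearMap.ext; intro v; funext t
    rw [hσk]; simp
  have hC1 : finrank F (S5949.Cg σ) ≤ 1 := by
    have hne1 : (fun _ => 1 : ZMod r → F) ≠ 0 := fun h => one_ne_zero (congrFun h 0)
    have hle : S5949.Cg σ ≤ Submodule.span F {(fun _ => 1 : ZMod r → F)} := by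
      intro v hv
      rw [S5949.mem_Cg] at hv
      have h1 : ∀ t : ZMod r, v (t + 1) = v t := fun t => congrFun hv t
      have h2 : ∀ k : ℕ, v (k : ZMod r) = v 0 := by
        intro k
        induction k with
        | zero => simp
        | succ k ih => rw [Nat.cast_succ, h1, ih]
      rw [Submodule.mem_span_singleton]
      refine ⟨v 0, ?_⟩
      funext t
      have h3 := h2 t.val
      rw [ZMod.natCast_zmod_val] at h3
      simp [h3]
    exact (Submodule.finrank_mono hle).trans (finrank_span_singleton hne1).le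
  have hVr : finrank F (ZMod r → F) = r := by simp [ZMod.card]
  have hsplit := S5949.split_finrank σ r hrF hσr ⊤ (fun _ _ => Submodule.mem_top)
  rw [finrank_top, top_inf_eq, top_inf_eq, hVr] at hsplit
  have hDne : S5949.Dg σ r ≠ ⊥ := by
    intro h
    rw [h, finrank_bot] at hsplit
    have := hrp.two_le; omega
  obtain ⟨Z, hZD, hZ, hZne, hZd⟩ :=
    S5949.exists_small σ _ (S5949.pow_card_pow_eq σ r hσr) hi0 (S5949.Dg σ r)
      (S5949.Dg_inv σ r) hDne
  have hZi : finrank F Z = orderOf (Fintype.card F : ZMod r) := by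
    have hdvd := S5949.D_dvd σ r hrF hσr Z hZ hZD
    have hpos : 0 < finrank F Z :=
      Nat.pos_of_ne_zero (fun h => hZne (Submodule.finrank_eq_zero.mp h))
    exact le_antisymm hZd (Nat.le_of_dvd hpos hdvd)
  let s : Z →ₗ[F] Z := σ.restrict hZ
  have hsr : s ^ r = 1 := by
    show (σ.restrict hZ) ^ r = 1
    rw [Module.End.pow_restrict]
    apply LinearMap.ext; intro z; apply Subtype.ext
    simp [LinearMap.restrict_apply, hσr]
  have hsfix : ∀ z : Z, s z = z → z = 0 := by
    intro z hz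
    have h1 : σ z.1 = z.1 := congrArg Subtype.val hz
    have h2 : z.1 ∈ S5949.Cg σ ⊓ S5949.Dg σ r := ⟨(S5949.mem_Cg σ z.1).mpr h1, hZD z.2⟩
    rw [S5949.CD_disj σ r hrF] at h2
    exact Subtype.ext ((Submodule.mem_bot F).mp h2)
  set i := orderOf (Fintype.card F : ZMod r) with hi
  let g' : (Z × (Fin (n - i) → F)) →ₗ[F] (Z × (Fin (n - i) → F)) := s.prodMap LinearMap.id
  have hg'k : ∀ k (u : Z) (w : Fin (n - i) → F), (g' ^ k) (u, w) = ((s ^ k) u, w) := by
    intro k
    induction k with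
    | zero => intro u w; simp
    | succ k ih =>
      intro u w
      rw [pow_succ', Module.End.mul_apply, ih]
      show (s ((s ^ k) u), w) = _
      simp [pow_succ', Module.End.mul_apply]
  have hg'r : g' ^ r = 1 := by
    apply LinearMap.ext
    rintro ⟨u, w⟩
    rw [hg'k, hsr]; rfl
  have hV' : finrank F (Z × (Fin (n - i) → F)) = n := by
    rw [Module.finrank_prod, Module.finrank_fin_fun, hZi]; omega
  have hC' : n - i ≤ finrank F (S5949.Cg g') := by
    have hmem : ∀ w : Fin (n - i) → F,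
        LinearMap.inr F Z (Fin (n - i) → F) w ∈ S5949.Cg g' := by
      intro w
      rw [S5949.mem_Cg]
      show (s 0, w) = (0, w)
      rw [map_zero]
    have hinj : Function.Injective
        (LinearMap.codRestrict (S5949.Cg g') (LinearMap.inr F Z (Fin (n - i) → F)) hmem) := by
      intro w w' h
      have h2 := congrArg (fun v : S5949.Cg g' => (v : Z × (Fin (n - i) → F)).2) h
      exact h2
    have := LinearMap.finrank_le_finrank_of_injective hinj
    simpa using this
  have hg'ne : g' ≠ 1 := by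
    intro h
    obtain ⟨v, hv, hv0⟩ := (Submodule.ne_bot_iff Z).mp hZne
    have h1 : g' ((⟨v, hv⟩ : Z), 0) = ((⟨v, hv⟩ : Z), 0) := by rw [h]; rfl
    have h2 : s (⟨v, hv⟩ : Z) = (⟨v, hv⟩ : Z) := (Prod.ext_iff.mp h1).1
    exact hv0 (congrArg Subtype.val (hsfix _ h2))
  have hdet : LinearMap.det g' = 1 := by
    have h1 : (LinearMap.det g') ^ r = 1 := by rw [← map_pow, hg'r, map_one]
    have h0 : LinearMap.det g' ≠ 0 := by
      intro h; rw [h, zero_pow hrp.ne_zero] at h1; exact zero_ne_one h1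
    have h2 : (LinearMap.det g') ^ (Fintype.card F - 1) = 1 :=
      FiniteField.pow_card_sub_one_eq_one _ h0
    have h3 := pow_gcd_eq_one.mpr ⟨h1, h2⟩
    rw [Nat.Coprime.gcd_eq_one hcop, pow_one] at h3
    exact h3
  have e : (Fin n → F) ≃ₗ[F] (Z × (Fin (n - i) → F)) :=
    LinearEquiv.ofFinrankEq _ _ (by rw [hV']; simp)
  let f' : Module.End F (Fin n → F) :=
    (e.symm : (Z × (Fin (n - i) → F)) →ₗ[F] (Fin n → F)) ∘ₗ g' ∘ₗ
      (e.symm.symm : (Fin n → F) →ₗ[F] (Z × (Fin (n - i) → F)))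
  have hf'app : ∀ v, f' v = e.symm (g' (e v)) := fun v => rfl
  have hf'k : ∀ k v, (f' ^ k) v = e.symm ((g' ^ k) (e v)) := by
    intro k
    induction k with
    | zero => intro v; simp
    | succ k ih =>
      intro v
      rw [pow_succ', Module.End.mul_apply, hf'app, ih, LinearEquiv.apply_symm_apply, pow_succ',
        Module.End.mul_apply]
  have hf'pow : f' ^ r = 1 := by
    apply LinearMap.ext
    intro v
    rw [hf'k, hg'r]; simp
  have hdet' : LinearMap.det f' = 1 := by
    rw [← hdet]; exact LinearMap.det_conj g' e.symm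
  let A : Matrix (Fin n) (Fin n) F := LinearMap.toMatrix' f'
  have hAdet : A.det = 1 := by rw [LinearMap.det_toMatrix', hdet']
  have hApow : A ^ r = (1 : Matrix (Fin n) (Fin n) F) := by
    have := congrArg (LinearMap.toMatrixAlgEquiv' (R := F) (n := Fin n)) hf'pow
    rw [map_pow, map_one] at this
    exact this
  have hlin : Matrix.toLin' A = f' := Matrix.toLin'_toMatrix' f'
  let x : Matrix.SpecialLinearGroup (Fin n) F := ⟨A, hAdet⟩
  refine ⟨x, ?_, ?_, ?_, ?_⟩
  · rw [Matrix.SpecialLinearGroup.coe_pow]; exact hApow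
  · show (Matrix.toLin' A) ^ r = 1
    rw [hlin]; exact hf'pow
  · show Matrix.toLin' A ≠ 1
    rw [hlin]
    intro h
    apply hg'ne
    apply LinearMap.ext; intro w
    have h1 := hf'app (e.symm w)
    rw [h, LinearEquiv.apply_symm_apply] at h1
    have h2 : e.symm w = e.symm (g' w) := h1
    exact (e.symm.injective h2).symm
  · show n ≤ i + finrank F (S5949.Cg (Matrix.toLin' A))
    rw [hlin]
    have hmap : (S5949.Cg g').map e.symm.toLinearMap ≤ S5949.Cg f' := by
      rintro _ ⟨v, hv, rfl⟩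
      have hv' : g' v = v := (S5949.mem_Cg g' v).mp hv
      apply (S5949.mem_Cg f' _).mpr
      show f' (e.symm v) = e.symm v
      rw [hf'app, LinearEquiv.apply_symm_apply, hv']
    have h1 : finrank F (S5949.Cg g') ≤ finrank F (S5949.Cg f') :=
      calc finrank F (S5949.Cg g') = finrank F ((S5949.Cg g').map e.symm.toLinearMap) :=
            (LinearEquiv.finrank_map_eq e.symm _).symm
        _ ≤ finrank F (S5949.Cg f') := Submodule.finrank_mono hmap
    omega

theorem scalar_one (n r : ℕ) (hn : 0 < n) [Fact r.Prime]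
    (hcop : Nat.Coprime r (Fintype.card F - 1))
    (x : Matrix (Fin n) (Fin n) F) (hx : (Matrix.toLin' x) ^ r = 1) (z : F)
    (hz : x = z • (1 : Matrix (Fin n) (Fin n) F)) : Matrix.toLin' x = 1 := by
  have hrp := (Fact.out : r.Prime)
  subst hz
  have h1 : Matrix.toLin' (z • (1 : Matrix (Fin n) (Fin n) F)) =
      z • (1 : Module.End F (Fin n → F)) := by
    rw [map_smul, Matrix.toLin'_one]; rfl
  rw [h1] at hx ⊢
  rw [_root_.smul_pow, one_pow] at hx
  have hzr : z ^ r = 1 := by
    have h2 := congrArg (fun g : Module.End F (Fin n → F) => g (fun _ => 1) ⟨0, hn⟩) hx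
    simpa using h2
  have h0 : z ≠ 0 := by
    intro h; rw [h, zero_pow hrp.ne_zero] at hzr; exact zero_ne_one hzr
  have h2 : z ^ (Fintype.card F - 1) = 1 := FiniteField.pow_card_sub_one_eq_one _ h0
  have h3 := pow_gcd_eq_one.mpr ⟨hzr, h2⟩
  rw [Nat.Coprime.gcd_eq_one hcop, pow_one] at h3
  rw [h3, one_smul]

theorem exists_decomp (n a t : ℕ) (hat : n = a * t) (ha : 1 ≤ a) (ht : 2 ≤ t) :
    ∃ D : Fin t → Submodule F (Fin n → F), Cfsg.Geo.IsMDecomposition a D := by
  subst hat
  obtain ⟨D, h1, h2, h3, -⟩ := basis_decomp (Pi.basisFun F (Fin (a * t))) a t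
    (fun k => k.val / a) (fun k => Nat.div_lt_of_lt_mul k.2) (fun j hj => fiber_card a t j ha hj)
    id id (fun j hj => hj) (fun j hj => hj) (fun j _ => rfl) (fun j _ => rfl) LinearMap.id
    (fun _ _ h => h) (fun k => Submodule.subset_span ⟨k, rfl, rfl⟩)
  exact ⟨D, ht, ha, h1, h2, h3⟩

theorem fact_dvd (n a t : ℕ) :
    Nat.factorial t ∣ Nat.card {D : Fin t → Submodule F (Fin n → F) //
      Cfsg.Geo.IsMDecomposition a D} := by
  letI : MulAction (Equiv.Perm (Fin t)) {D : Fin t → Submodule F (Fin n → F) //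
      Cfsg.Geo.IsMDecomposition a D} :=
    { smul := fun σ D => ⟨fun j => D.1 (σ.symm j), ⟨D.2.two_le, D.2.pos,
        fun j => D.2.finrank_eq _, D.2.indep.comp σ.symm.injective, by
          have := D.2.iSup_eq_top
          rw [← this]
          exact Equiv.iSup_comp (g := D.1) σ.symm⟩⟩
      one_smul := fun D => Subtype.ext rfl
      mul_smul := fun σ τ D => Subtype.ext rfl }
  have hfree : ∀ D : {D : Fin t → Submodule F (Fin n → F) // Cfsg.Geo.IsMDecomposition a D},
      MulAction.stabilizer (Equiv.Perm (Fin t)) D = ⊥ := by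
    intro D
    rw [Subgroup.eq_bot_iff_forall]
    intro σ hσ
    rw [MulAction.mem_stabilizer_iff] at hσ
    have h1 : ∀ j, D.1 (σ.symm j) = D.1 j := fun j => congrFun (congrArg Subtype.val hσ) j
    have hinj : Function.Injective D.1 := D.2.indep.injective (fun j h => by
      have h2 := D.2.finrank_eq j
      rw [h, finrank_bot] at h2
      have := D.2.pos; omega)
    apply Equiv.ext; intro j
    have h2 := hinj (h1 (σ j))
    rw [Equiv.symm_apply_apply] at h2
    exact h2.symm
  have e := MulAction.selfEquivOrbitsQuotientProd hfree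
  have hfin' : Nat.card (Fin t) = t := by rw [Nat.card_eq_fintype_card, Fintype.card_fin]
  rw [Nat.card_congr e, Nat.card_prod, Nat.card_perm, hfin']
  exact Dvd.intro_left _ rfl

theorem card_dvd_GL (n a t : ℕ) (hat : n = a * t) (ha : 1 ≤ a) (ht : 2 ≤ t) :
    Nat.card {D : Fin t → Submodule F (Fin n → F) // Cfsg.Geo.IsMDecomposition a D} ∣
      Nat.card (GL (Fin n) F) := by
  obtain ⟨D₀, hD₀⟩ := exists_decomp (F := F) n a t hat ha ht
  letI : MulAction ((Fin n → F) ≃ₗ[F] (Fin n → F)) (Fin t → Submodule F (Fin n → F)) :=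
    { smul := fun e D j => (D j).map e.toLinearMap
      one_smul := fun D => funext fun j => Submodule.map_id _
      mul_smul := fun e₁ e₂ D => funext fun j =>
        Submodule.map_comp e₂.toLinearMap e₁.toLinearMap (D j) }
  have hsmul : ∀ (e : (Fin n → F) ≃ₗ[F] (Fin n → F)) (D : Fin t → Submodule F (Fin n → F))
      (j : Fin t), (e • D) j = (D j).map e.toLinearMap := fun _ _ _ => rfl
  have horb : ∀ D : Fin t → Submodule F (Fin n → F), Cfsg.Geo.IsMDecomposition a D ↔
      D ∈ MulAction.orbit ((Fin n → F) ≃ₗ[F] (Fin n → F)) D₀ := by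
    intro D
    constructor
    · intro hD
      have hint₀ := DirectSum.isInternal_submodule_of_iSupIndep_of_iSup_eq_top hD₀.indep
        hD₀.iSup_eq_top
      have hint := DirectSum.isInternal_submodule_of_iSupIndep_of_iSup_eq_top hD.indep
        hD.iSup_eq_top
      obtain ⟨b₀, -⟩ : ∃ b₀ : ∀ j, Basis (Fin a) F (D₀ j), b₀ = b₀ :=
        ⟨fun j => Module.finBasisOfFinrankEq F _ (hD₀.finrank_eq j), rfl⟩
      obtain ⟨b₁, -⟩ : ∃ b₁ : ∀ j, Basis (Fin a) F (D j), b₁ = b₁ :=
        ⟨fun j => Module.finBasisOfFinrankEq F _ (hD.finrank_eq j), rfl⟩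
      obtain ⟨e, he⟩ : ∃ e : (Fin n → F) ≃ₗ[F] (Fin n → F),
          e = (hint₀.collectedBasis b₀).equiv (hint.collectedBasis b₁) (Equiv.refl _) :=
        ⟨_, rfl⟩
      have hemap : ∀ (j : Fin t) (i : Fin a),
          e (b₀ j i : Fin n → F) = (b₁ j i : Fin n → F) := by
        intro j i
        have h1 : (b₀ j i : Fin n → F) = hint₀.collectedBasis b₀ ⟨j, i⟩ := by
          rw [DirectSum.IsInternal.collectedBasis_coe]
        have h2 : (b₁ j i : Fin n → F) = hint.collectedBasis b₁ ⟨j, i⟩ := by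
          rw [DirectSum.IsInternal.collectedBasis_coe]
        rw [h1, h2, he, Basis.equiv_apply]; rfl
      refine ⟨e, ?_⟩
      funext j
      show (D₀ j).map e.toLinearMap = D j
      have hsp : Submodule.span F (Set.range (fun i : Fin a => (b₀ j i : Fin n → F))) = D₀ j := by
        have : (fun i : Fin a => (b₀ j i : Fin n → F)) = (D₀ j).subtype ∘ (b₀ j) := rfl
        rw [this, Set.range_comp, Submodule.span_image, (b₀ j).span_eq, Submodule.map_top,
          Submodule.range_subtype]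
      have hle : (D₀ j).map e.toLinearMap ≤ D j := by
        rw [← hsp, Submodule.map_span, Submodule.span_le]
        rintro _ ⟨_, ⟨i, rfl⟩, rfl⟩
        show e (b₀ j i : Fin n → F) ∈ D j
        rw [hemap]; exact (b₁ j i).2
      apply Submodule.eq_of_le_of_finrank_eq hle
      rw [LinearEquiv.finrank_map_eq, hD₀.finrank_eq, hD.finrank_eq]
    · rintro ⟨e, rfl⟩
      refine ⟨ht, ha, fun j => ?_, ?_, ?_⟩
      · show finrank F ↥((D₀ j).map e.toLinearMap) = a
        rw [LinearEquiv.finrank_map_eq]; exact hD₀.finrank_eq j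
      · exact hD₀.indep.map_orderIso (Submodule.orderIsoMapComap e)
      · show ⨆ j, (D₀ j).map e.toLinearMap = ⊤
        rw [← Submodule.map_iSup, hD₀.iSup_eq_top, Submodule.map_top, LinearEquiv.range]
  have h1 : Nat.card {D : Fin t → Submodule F (Fin n → F) // Cfsg.Geo.IsMDecomposition a D} =
      Nat.card (MulAction.orbit ((Fin n → F) ≃ₗ[F] (Fin n → F)) D₀) :=
    Nat.card_congr (Equiv.subtypeEquivRight horb)
  rw [h1, Nat.card_congr (MulAction.orbitEquivQuotientStabilizer _ D₀)]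
  have h2 : Nat.card ((Fin n → F) ≃ₗ[F] (Fin n → F)) = Nat.card (GL (Fin n) F) :=
    Nat.card_congr ((Matrix.GeneralLinearGroup.toLin.trans
      (LinearMap.GeneralLinearGroup.generalLinearEquiv F (Fin n → F))).toEquiv).symm
  rw [← h2]
  exact Subgroup.index_dvd_card (MulAction.stabilizer ((Fin n → F) ≃ₗ[F] (Fin n → F)) D₀)

theorem order_le_of_dvd (n r : ℕ) [Fact r.Prime] (hrq : Nat.Coprime (Fintype.card F) r)
    (h : r ∣ Nat.card (GL (Fin n) F)) : orderOf (Fintype.card F : ZMod r) ≤ n := by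
  have hrp := (Fact.out : r.Prime)
  rw [Matrix.card_GL_field] at h
  obtain ⟨i, -, hi⟩ := (Prime.dvd_finsetProd_iff (Nat.Prime.prime hrp) _).mp h
  have h1 : Fintype.card F ^ n - Fintype.card F ^ (i : ℕ) =
      Fintype.card F ^ (i : ℕ) * (Fintype.card F ^ (n - i) - 1) := by
    rw [Nat.mul_sub, mul_one, ← pow_add, Nat.add_sub_cancel' (le_of_lt i.2)]
  rw [h1] at hi
  rcases (Nat.Prime.dvd_mul hrp).mp hi with h2 | h2
  · exfalso
    have h3 := hrp.dvd_of_dvd_pow h2
    exact (Nat.Prime.coprime_iff_not_dvd hrp).mp hrq.symm h3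
  · have h5 := (ZMod.natCast_eq_zero_iff _ _).mpr h2
    rw [Nat.cast_sub (Nat.one_le_pow _ _ Fintype.card_pos)] at h5
    push_cast at h5
    have h6 := orderOf_dvd_of_pow_eq_one (sub_eq_zero.mp h5)
    exact (Nat.le_of_dvd (by have := i.2; omega) h6).trans (Nat.sub_le _ _)

end elt

/-- Elements of odd prime order of PSL_n(q) and imprimitive subgroups. Here `T = PSL_n(F)` for a field `F` with `q = p^f` elements (`n ≥ 2`, `(n, q) ≠ (2, 2), (2, 3)`), `n = a·t` with `t ≥ 2`, and Ω is the set of direct-sum decompositions of `F^n` into `t` subspaces of dimension `a` (unordered; their number is the number of ordered ones divided by `t!`), whose stabilizers are the imprimitive subgroups of type GL_a(q) ≀ S_t (maximal except in some small cases; maximality is not assumed); an element of `T` of prime order `r` (a matrix `x` of determinant 1 with `x^r` scalar, `x` not scalar) fixes a point of Ω when it permutes the summands of some such decomposition. Let `r ≠ p` be an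 odd prime dividing the number of such decompositions, let `c` be the multiplicative order of `q` modulo `r`, and write `k = n mod c`, `ℓ = a mod c`. Then every element of `T` of order `r` stabilizes such a decomposition if and only if either `a = 1`, `c = r − 1 > 1` and `n ≤ k·r`, or `c ≤ a` and `k = t·ℓ`. -/
theorem result {F : Type*} [Field F] [Fintype F] {p : ℕ} [Fact p.Prime] [CharP F p] {q : ℕ} (hq : Fintype.card F = q)
    (n a t : ℕ) (hn : 2 ≤ n) (hT : (n, q) ≠ (2, 2) ∧ (n, q) ≠ (2, 3)) (hat : n = a * t) (ha : 1 ≤ a) (ht : 2 ≤ t)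
    (r : ℕ) [Fact r.Prime] (hr2 : r ≠ 2) (hrp : r ≠ p) (hΩ : r ∣ Nat.card {D : Fin t → Submodule F (Fin n → F) // Cfsg.Geo.IsMDecomposition a D} / Nat.factorial t)
    (c : ℕ) (hc : c = orderOf (q : ZMod r)) :
    (∀ x : Matrix.SpecialLinearGroup (Fin n) F,
      (∃ z : F, ((x ^ r : Matrix.SpecialLinearGroup (Fin n) F) : Matrix (Fin n) (Fin n) F) = z • (1 : Matrix (Fin n) (Fin n) F)) →
      (∀ z : F, (x : Matrix (Fin n) (Fin n) F) ≠ z • (1 : Matrix (Fin n) (Fin n) F)) →
      ∃ D : Fin t → Submodule F (Fin n → F), Cfsg.Geo.IsMDecomposition a D ∧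
        ∃ σ : Equiv.Perm (Fin t), ∀ j, (D j).map (Matrix.toLin' (x : Matrix (Fin n) (Fin n) F)) = D (σ j)) ↔
    ((a = 1 ∧ 1 < c ∧ c = r - 1 ∧ n ≤ (n % c) * r) ∨ (c ≤ a ∧ n % c = t * (a % c))) := by
  classical
  have hrP := (Fact.out : r.Prime)
  have hpP := (Fact.out : p.Prime)
  subst hq
  have hq2 : 2 ≤ Fintype.card F := Fintype.one_lt_card
  have hfin : finrank F (Fin n → F) = n := by simp
  obtain ⟨kq, -, hkq⟩ := FiniteField.card F p
  have hrq : Nat.Coprime (Fintype.card F) r := by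
    rw [Nat.coprime_comm, Nat.Prime.coprime_iff_not_dvd hrP]
    intro h
    rw [hkq] at h
    exact hrp ((Nat.prime_dvd_prime_iff_eq hrP hpP).mp (hrP.dvd_of_dvd_pow h))
  have hrF : (r : F) ≠ 0 := by
    intro h
    rw [CharP.cast_eq_zero_iff F p] at h
    exact hrp ((Nat.prime_dvd_prime_iff_eq hpP hrP).mp h).symm
  have hi0 : 0 < orderOf ((Fintype.card F : ℕ) : ZMod r) := S5949.order_pos _ r hrq
  have hc0 : 0 < c := by rw [hc]; exact hi0
  have ha_le : a ≤ n := by rw [hat]; exact Nat.le_mul_of_pos_right a (by omega)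
  have hn0 : 0 < n := by omega
  constructor
  · intro hall
    by_contra hcon
    have hcn : c ≤ n := by
      have h1 := fact_dvd (F := F) n a t
      have h2 := card_dvd_GL (F := F) n a t hat ha ht
      have h3 : r ∣ Nat.card {D : Fin t → Submodule F (Fin n → F) //
          Cfsg.Geo.IsMDecomposition a D} := by
        obtain ⟨m, hm⟩ := h1
        rw [hm, Nat.mul_div_cancel_left _ (Nat.factorial_pos t)] at hΩ
        rw [hm]; exact Dvd.dvd.mul_left hΩ _
      rw [hc]; exact order_le_of_dvd n r hrq (h3.trans h2)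
    have hcop : 2 ≤ c → Nat.Coprime r (Fintype.card F - 1) := by
      intro h2
      have hnrq : ¬ r ∣ Fintype.card F - 1 := by
        intro h
        have h3 := (S5949.order_one_iff _ r (by omega)).mpr h
        rw [← hc] at h3; omega
      exact (Nat.Prime.coprime_iff_not_dvd hrP).mpr hnrq
    rcases le_or_gt c a with hca | hca
    · have hmodne : n % c ≠ t * (a % c) := fun h => hcon (Or.inr ⟨hca, h⟩)
      have hc2 : 2 ≤ c := by
        by_contra h
        have hc1 : c = 1 := by omega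
        apply hmodne
        rw [hc1, Nat.mod_one, Nat.mod_one, Nat.mul_zero]
      have hcop' := hcop hc2
      obtain ⟨x, hx1, hx2, hx3⟩ := S5951.exists_min_elt (F := F) n r hrF hcop' hi0
      rw [← hc] at hx3
      obtain ⟨f, hf⟩ : ∃ f : Module.End F (Fin n → F),
          f = Matrix.toLin' (x : Matrix (Fin n) (Fin n) F) := ⟨_, rfl⟩
      rw [← hf] at hx2 hx3
      have hkc : n % c < c := Nat.mod_lt _ hc0
      have hns : ∀ z : F, (x : Matrix (Fin n) (Fin n) F) ≠
          z • (1 : Matrix (Fin n) (Fin n) F) := by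
        intro z hz
        have h1 := scalar_one n r hn0 hcop' _ (by rw [← hf]; exact hx2) z hz
        rw [← hf] at h1
        have h2 : S5949.Cg f = ⊤ := by
          rw [eq_top_iff]; intro v _; rw [S5949.mem_Cg, h1]; rfl
        rw [h2, finrank_top, hfin] at hx3
        omega
      obtain ⟨D, hD, σ, hσ⟩ := hall x ⟨1, by rw [hx1, one_smul]⟩ hns
      rw [← hf] at hσ
      have hne : ∀ j, D j ≠ ⊥ := fun j h => by
        have h2 := hD.finrank_eq j
        rw [h, finrank_bot] at h2; omega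
      have hσr := sigma_pow D hD.indep hne f r hx2 σ hσ
      have hσ1 : ∀ j, σ j = j := by
        intro j
        by_contra hj
        have h2 := fix_ge D hD.indep f r hx2 σ hσ hσr j hj
        rw [hD.finrank_eq j] at h2
        omega
      have hinv : ∀ j, ∀ v ∈ D j, f v ∈ D j := by
        intro j v hv
        have h2 : f v ∈ (D j).map f := Submodule.mem_map_of_mem hv
        rw [hσ, hσ1] at h2; exact h2
      have hge : ∀ j, a % c ≤ finrank F ↥(D j ⊓ S5949.Cg f) := by
        intro j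
        have h1 := S5949.split_finrank f r hrF hx2 (D j) (hinv j)
        obtain ⟨e, he⟩ := S5949.D_dvd f r hrF hx2 (D j ⊓ S5949.Dg f r)
          (fun w hw => ⟨hinv j w hw.1, S5949.Dg_inv f r w hw.2⟩) inf_le_right
        rw [← hc] at he
        rw [hD.finrank_eq j, he] at h1
        rw [h1, Nat.add_mul_mod_self_left]; exact Nat.mod_le _ _
      have hsum := fix_sum D hD.indep f
      have h5 : t * (a % c) ≤ ∑ j : Fin t, finrank F ↥(D j ⊓ S5949.Cg f) := by
        calc t * (a % c) = ∑ _j : Fin t, (a % c) := by simp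
          _ ≤ _ := Finset.sum_le_sum (fun j _ => hge j)
      have h6 : t * (a % c) < c := by omega
      apply hmodne
      rw [hat, ← Nat.mod_mul_mod, Nat.mod_eq_of_lt (by rw [Nat.mul_comm]; exact h6), Nat.mul_comm]
    · have hc2 : 2 ≤ c := by omega
      have hcop' := hcop hc2
      have hcr : c ≤ r - 1 := by
        have h1 : ((Fintype.card F : ℕ) : ZMod r) ≠ 0 := by
          intro h
          rw [ZMod.natCast_eq_zero_iff] at h
          exact (Nat.Prime.coprime_iff_not_dvd hrP).mp hrq.symm h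
        have h2 := ZMod.pow_card_sub_one_eq_one h1
        have h3 := orderOf_dvd_of_pow_eq_one h2
        rw [← hc] at h3
        exact Nat.le_of_dvd (by have := hrP.two_le; omega) h3
      by_cases h1 : a = 1 ∧ c = r - 1
      · have hn' : ¬ n ≤ (n % c) * r := fun h => hcon (Or.inl ⟨h1.1, by omega, h1.2, h⟩)
        obtain ⟨x, hx1, hx2, hx3⟩ := S5951.exists_min_elt (F := F) n r hrF hcop' hi0
        rw [← hc] at hx3
        obtain ⟨f, hf⟩ : ∃ f : Module.End F (Fin n → F),
            f = Matrix.toLin' (x : Matrix (Fin n) (Fin n) F) := ⟨_, rfl⟩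
        rw [← hf] at hx2 hx3
        have hkc : n % c < c := Nat.mod_lt _ hc0
        have hns : ∀ z : F, (x : Matrix (Fin n) (Fin n) F) ≠
            z • (1 : Matrix (Fin n) (Fin n) F) := by
          intro z hz
          have h2 := scalar_one n r hn0 hcop' _ (by rw [← hf]; exact hx2) z hz
          rw [← hf] at h2
          have h3 : S5949.Cg f = ⊤ := by
            rw [eq_top_iff]; intro v _; rw [S5949.mem_Cg, h2]; rfl
          rw [h3, finrank_top, hfin] at hx3
          omega
        obtain ⟨D, hD, σ, hσ⟩ := hall x ⟨1, by rw [hx1, one_smul]⟩ hns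
        rw [← hf] at hσ
        have hne : ∀ j, D j ≠ ⊥ := fun j h => by
          have h2 := hD.finrank_eq j
          rw [h, finrank_bot] at h2; omega
        have hσr := sigma_pow D hD.indep hne f r hx2 σ hσ
        have hfix : ∀ j, σ j = j → D j ≤ S5949.Cg f := by
          intro j hj
          apply small_fix f r hrF hx2 (D j)
          · intro v hv
            have h2 : f v ∈ (D j).map f := Submodule.mem_map_of_mem hv
            rw [hσ, hj] at h2; exact h2
          · rw [hD.finrank_eq j, ← hc]; exact hca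
        have h2 := orbit_bound D hD.indep a hD.finrank_eq f r hrF hx2 σ hσ hσr hfix
        apply hn'
        calc n = t * a := by rw [hat, Nat.mul_comm]
          _ ≤ r * finrank F (S5949.Cg f) := h2
          _ ≤ r * (n % c) := Nat.mul_le_mul_left r hx3
          _ = (n % c) * r := Nat.mul_comm _ _
      · obtain ⟨x, hx1, hx2, hx3, hx4⟩ := exists_one_elt (F := F) n r hrF hcop' hi0
          (by rw [← hc]; exact hcn)
        rw [← hc] at hx4
        obtain ⟨f, hf⟩ : ∃ f : Module.End F (Fin n → F),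
            f = Matrix.toLin' (x : Matrix (Fin n) (Fin n) F) := ⟨_, rfl⟩
        rw [← hf] at hx2 hx3 hx4
        have hns : ∀ z : F, (x : Matrix (Fin n) (Fin n) F) ≠
            z • (1 : Matrix (Fin n) (Fin n) F) := by
          intro z hz
          have h2 := scalar_one n r hn0 hcop' _ (by rw [← hf]; exact hx2) z hz
          rw [← hf] at h2
          exact hx3 h2
        obtain ⟨D, hD, σ, hσ⟩ := hall x ⟨1, by rw [hx1, one_smul]⟩ hns
        rw [← hf] at hσ
        have hne : ∀ j, D j ≠ ⊥ := fun j h => by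
          have h2 := hD.finrank_eq j
          rw [h, finrank_bot] at h2; omega
        have hσr := sigma_pow D hD.indep hne f r hx2 σ hσ
        by_cases hσ1 : ∀ j, σ j = j
        · apply hx3
          have hle : ∀ j, D j ≤ S5949.Cg f := by
            intro j
            apply small_fix f r hrF hx2 (D j)
            · intro v hv
              have h2 : f v ∈ (D j).map f := Submodule.mem_map_of_mem hv
              rw [hσ, hσ1] at h2; exact h2
            · rw [hD.finrank_eq j, ← hc]; exact hca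
          have htop : S5949.Cg f = ⊤ := by
            rw [eq_top_iff, ← hD.iSup_eq_top]; exact iSup_le hle
          apply LinearMap.ext; intro v
          have h2 : v ∈ S5949.Cg f := by rw [htop]; exact Submodule.mem_top
          exact (S5949.mem_Cg f v).mp h2
        · push Not at hσ1
          obtain ⟨j, hj⟩ := hσ1
          have h2 := move_ge D hD.indep f r hx2 σ hσ hσr j hj
          rw [hD.finrank_eq j] at h2
          have hsplit := S5949.split_finrank f r hrF hx2 ⊤ (fun _ _ => Submodule.mem_top)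
          rw [finrank_top, top_inf_eq, top_inf_eq, hfin] at hsplit
          have h3 : a * (r - 1) ≤ r - 1 := by omega
          apply h1
          have ha1 : a = 1 := by
            by_contra hne1
            have h4 : 2 * (r - 1) ≤ a * (r - 1) := Nat.mul_le_mul_right _ (by omega)
            have := hrP.two_le
            omega
          refine ⟨ha1, ?_⟩
          rw [ha1, one_mul] at h2
          omega
  · intro hRHS x hx _
    obtain ⟨z, hxz⟩ := hx
    obtain ⟨f, hf⟩ : ∃ f : Module.End F (Fin n → F),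
        f = Matrix.toLin' (x : Matrix (Fin n) (Fin n) F) := ⟨_, rfl⟩
    have hfr : f ^ r = z • (1 : Module.End F (Fin n → F)) := by
      have h1 : (x : Matrix (Fin n) (Fin n) F) ^ r = z • 1 := by
        rw [← Matrix.SpecialLinearGroup.coe_pow]; exact hxz
      have h2 := congrArg (Matrix.toLinAlgEquiv' (R := F) (n := Fin n)) h1
      rw [map_pow, map_smul, map_one] at h2
      rw [hf]; exact h2
    have hz0 : z ≠ 0 := by
      rintro rfl
      have h1 := (x ^ r).det_coe
      have : Nonempty (Fin n) := ⟨⟨0, by omega⟩⟩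
      rw [hxz, zero_smul, Matrix.det_zero] at h1
      exact zero_ne_one h1
    obtain ⟨D, h1, h2, h3, τ, h4⟩ := dir_mpr f r hrF hi0 z hz0 hfr n a t ha hfin hat c hc hRHS
    rw [hf] at h4
    exact ⟨D, ⟨ht, ha, h1, h2, h3⟩, τ, h4⟩


end Cfsg.Agent.S5958
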