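import Cfsg.Statements.S5962
import Mathlib

set_option autoImplicit false
set_option maxHeartbeats 400000
open scoped MatrixGroups
open Cfsg

namespace Cfsg.Agent.S5962

open Module

universe u

section abs

variable {F : Type*} [Field F]

/-- combining complementary pairs along a direct sum -/
theorem compl_lift2 {V : Type*} [AddCommGroup V] [Module F V]
    (Z₁ Z₂ W₁ : Submodule F V) (hZ : Disjoint Z₁ Z₂) (hc : IsCompl (Z₁ ⊔ Z₂) W₁)
    (U' W' : Submodule F W₁) (hc' : IsCompl U' W') :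
    IsCompl (U'.map W₁.subtype ⊔ Z₁) (W'.map W₁.subtype ⊔ Z₂) := by
  constructor
  · rw [Submodule.disjoint_def]
    intro v hv1 hv2
    obtain ⟨_, ⟨u', hu', rfl⟩, z₁, hz₁, h1⟩ := Submodule.mem_sup.mp hv1
    obtain ⟨_, ⟨w', hw', rfl⟩, z₂, hz₂, h2⟩ := Submodule.mem_sup.mp hv2
    have h1' : (u' : V) + z₁ = v := h1
    have h2' : (w' : V) + z₂ = v := h2
    have h3 : z₁ - z₂ ∈ (Z₁ ⊔ Z₂) ⊓ W₁ := by
      refine ⟨Submodule.sub_mem _ (Submodule.mem_sup_left hz₁) (Submodule.mem_sup_right hz₂), ?_⟩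
      have h4 : z₁ - z₂ = (w' : V) - (u' : V) := by
        rw [sub_eq_sub_iff_add_eq_add, add_comm z₁ _, h1', h2']
      rw [h4]; exact Submodule.sub_mem _ w'.2 u'.2
    rw [hc.inf_eq_bot, Submodule.mem_bot, sub_eq_zero] at h3
    have h4 : z₁ ∈ Z₁ ⊓ Z₂ := ⟨hz₁, h3 ▸ hz₂⟩
    rw [hZ.eq_bot, Submodule.mem_bot] at h4
    have h5 : z₂ = 0 := by rw [← h3, h4]
    rw [h4, add_zero] at h1'
    rw [h5, add_zero] at h2'
    have h6 : u' = w' := Subtype.ext (by rw [h1', h2'])
    have h7 : u' ∈ U' ⊓ W' := ⟨hu', h6 ▸ hw'⟩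
    rw [hc'.inf_eq_bot, Submodule.mem_bot] at h7
    rw [← h1', h7]; rfl
  · rw [codisjoint_iff, Submodule.eq_top_iff']
    intro v
    have hv : v ∈ (Z₁ ⊔ Z₂) ⊔ W₁ := by rw [hc.sup_eq_top]; exact Submodule.mem_top
    obtain ⟨z, hz, w₁, hw₁, rfl⟩ := Submodule.mem_sup.mp hv
    obtain ⟨z₁, hz₁, z₂, hz₂, rfl⟩ := Submodule.mem_sup.mp hz
    have hw : (⟨w₁, hw₁⟩ : W₁) ∈ U' ⊔ W' := by rw [hc'.sup_eq_top]; exact Submodule.mem_top
    obtain ⟨u', hu', w', hw', he⟩ := Submodule.mem_sup.mp hw
    have he' : (u' : V) + (w' : V) = w₁ := congrArg Subtype.val he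
    rw [Submodule.mem_sup]
    refine ⟨(u' : V) + z₁, Submodule.add_mem _ (Submodule.mem_sup_left ⟨u', hu', rfl⟩)
      (Submodule.mem_sup_right hz₁), (w' : V) + z₂,
      Submodule.add_mem _ (Submodule.mem_sup_left ⟨w', hw', rfl⟩) (Submodule.mem_sup_right hz₂), ?_⟩
    rw [← he']; abel

theorem exists_pair (z : F) (h2 : (2 : F) ≠ 0) (hz : z = 1 ∨ z = -1) :
    ∀ (d : ℕ) (V : Type u) [AddCommGroup V] [Module F V] [FiniteDimensional F V]
    (f : V →ₗ[F] V →ₗ[F] F) (x : V →ₗ[F] V), (∀ v, f v v = 0) → (∀ u, u ≠ 0 → ∃ v, f u v ≠ 0) →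
    (∀ u v, f (x u) (x v) = f u v) → (∀ v, x (x v) = z • v) → finrank F V = d →
    ∃ U W : Submodule F V, IsCompl U W ∧ (∀ u ∈ U, ∀ v ∈ U, f u v = 0) ∧
      (∀ u ∈ W, ∀ v ∈ W, f u v = 0) ∧
      ((z = 1 ∧ (∀ u ∈ U, x u ∈ U) ∧ (∀ w ∈ W, x w ∈ W)) ∨
       (z = -1 ∧ (∀ u ∈ U, x u ∈ W) ∧ (∀ w ∈ W, x w ∈ U))) := by
  have h1m : (1 : F) ≠ -1 := by
    intro h
    apply h2
    have : (2 : F) = 1 + 1 := by norm_num
    rw [this]; nth_rewrite 2 [h]; ring
  intro d
  induction d using Nat.strong_induction_on with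
  | _ d ih =>
    intro V _ _ _ f x halt hnd hiso hxx hd
    have hanti : ∀ a b, f a b = - f b a := by
      intro a b
      have h := halt (a + b)
      simp only [map_add, LinearMap.add_apply, halt, zero_add, add_zero] at h
      linear_combination h
    by_cases hV : ∀ v : V, v = 0
    · refine ⟨⊥, ⊤, isCompl_bot_top, ?_, ?_, ?_⟩
      · intro u _ v _; rw [hV u]; simp
      · intro u _ v _; rw [hV u]; simp
      · rcases hz with h | h
        · left
          exact ⟨h, fun u _ => by rw [hV (x u)]; exact Submodule.zero_mem _,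
            fun w _ => Submodule.mem_top⟩
        · right
          exact ⟨h, fun u _ => Submodule.mem_top,
            fun w _ => by rw [hV (x w)]; exact Submodule.zero_mem _⟩
    · push Not at hV
      obtain ⟨v₀, hv₀⟩ := hV
      have hpair : ∃ u w : V, f u w ≠ 0 ∧
          ((z = 1 ∧ ∃ ε : F, ε * ε = 1 ∧ x u = ε • u ∧ x w = ε • w) ∨ (z = -1 ∧ x u = w)) := by
        rcases hz with h | h
        · have hxx1 : ∀ v, x (x v) = v := fun v => by rw [hxx, h, one_smul]
          have heig : ∃ u : V, u ≠ 0 ∧ ∃ ε : F, ε * ε = 1 ∧ x u = ε • u := by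
            by_cases h0 : v₀ + x v₀ = 0
            · refine ⟨v₀, hv₀, -1, by ring, ?_⟩
              rw [neg_one_smul]; exact eq_neg_of_add_eq_zero_right h0
            · refine ⟨v₀ + x v₀, h0, 1, by ring, ?_⟩
              rw [map_add, hxx1, one_smul, add_comm]
          obtain ⟨u, hu, ε, hε, hxu⟩ := heig
          obtain ⟨w₀, hw₀⟩ := hnd u hu
          refine ⟨u, w₀ + ε • x w₀, ?_, Or.inl ⟨h, ε, hε, hxu, ?_⟩⟩
          · have h1 : f u (x w₀) = ε * f u w₀ := by
              have h3 := hiso u (x w₀)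
              rw [hxx1, hxu, map_smul, LinearMap.smul_apply, smul_eq_mul] at h3
              exact h3.symm
            rw [map_add, map_smul, smul_eq_mul, h1, ← mul_assoc, hε, one_mul]
            intro h3
            have h4 : (2 : F) * f u w₀ = 0 := by rw [two_mul]; exact h3
            rcases mul_eq_zero.mp h4 with h5 | h5
            · exact h2 h5
            · exact hw₀ h5
          · rw [map_add, map_smul, hxx1, smul_add, smul_smul, hε, one_smul, add_comm]
        · have hxxm : ∀ v, x (x v) = -v := fun v => by rw [hxx, h, neg_one_smul]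
          have hsym : ∀ a b, f b (x a) = f a (x b) := by
            intro a b
            have h3 := hiso b (x a)
            rw [hxxm, map_neg, hanti (x b) a, neg_neg] at h3
            exact h3.symm
          have hex : ∃ u, f u (x u) ≠ 0 := by
            by_contra hcon
            push Not at hcon
            have h1 : ∀ a b, f a (x b) = 0 := by
              intro a b
              have h3 := hcon (a + b)
              simp only [map_add, LinearMap.add_apply, hcon, zero_add, add_zero] at h3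
              have h4 : (2 : F) * f a (x b) = 0 := by linear_combination h3 - hsym a b
              exact (mul_eq_zero.mp h4).resolve_left h2
            obtain ⟨w, hw⟩ := hnd v₀ hv₀
            apply hw
            have h3 := h1 v₀ (-(x w))
            rw [map_neg, hxxm, neg_neg] at h3
            exact h3
          obtain ⟨u, hu⟩ := hex
          exact ⟨u, x u, hu, Or.inr ⟨h, rfl⟩⟩
      obtain ⟨u, w, hγ, hstr⟩ := hpair
      have hwu : f w u = - f u w := hanti w u
      obtain ⟨W₁, hW₁def⟩ : ∃ W₁ : Submodule F V,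
          W₁ = LinearMap.ker (f u) ⊓ LinearMap.ker (f w) := ⟨_, rfl⟩
      have hW₁mem : ∀ v, v ∈ W₁ ↔ f u v = 0 ∧ f w v = 0 := by
        intro v; rw [hW₁def]; rfl
      have hW₁' : ∀ v ∈ W₁, f v u = 0 ∧ f v w = 0 := by
        intro v hv
        rw [hW₁mem] at hv
        exact ⟨by rw [hanti, hv.1, neg_zero], by rw [hanti, hv.2, neg_zero]⟩
      have hZmem : ∀ a, a ∈ Submodule.span F {u} ⊔ Submodule.span F {w} ↔
          ∃ α β : F, α • u + β • w = a := by
        intro a
        rw [Submodule.mem_sup]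
        constructor
        · rintro ⟨a₁, ha₁, a₂, ha₂, rfl⟩
          obtain ⟨α, rfl⟩ := Submodule.mem_span_singleton.mp ha₁
          obtain ⟨β, rfl⟩ := Submodule.mem_span_singleton.mp ha₂
          exact ⟨α, β, rfl⟩
        · rintro ⟨α, β, rfl⟩
          exact ⟨α • u, Submodule.mem_span_singleton.mpr ⟨α, rfl⟩, β • w,
            Submodule.mem_span_singleton.mpr ⟨β, rfl⟩, rfl⟩
      have key1 : ∀ α β : F, f u (α • u + β • w) = β * f u w := by
        intro α β
        rw [map_add, map_smul, map_smul, halt, smul_zero, zero_add, smul_eq_mul]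
      have key2 : ∀ α β : F, f w (α • u + β • w) = - (α * f u w) := by
        intro α β
        rw [map_add, map_smul, map_smul, halt, smul_zero, add_zero, smul_eq_mul, hwu, mul_neg]
      have hZdisj : Disjoint (Submodule.span F {u}) (Submodule.span F {w}) := by
        rw [Submodule.disjoint_def]
        intro a ha1 ha2
        obtain ⟨α, rfl⟩ := Submodule.mem_span_singleton.mp ha1
        obtain ⟨β, hβ⟩ := Submodule.mem_span_singleton.mp ha2
        have h3 : f u (α • u) = f u (β • w) := by rw [hβ]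
        rw [map_smul, map_smul, halt, smul_zero, smul_eq_mul] at h3
        have hβ0 : β = 0 := (mul_eq_zero.mp h3.symm).resolve_right hγ
        rw [← hβ, hβ0, zero_smul]
      have hcompl : IsCompl (Submodule.span F {u} ⊔ Submodule.span F {w}) W₁ := by
        constructor
        · rw [Submodule.disjoint_def]
          intro a ha1 ha2
          obtain ⟨α, β, rfl⟩ := (hZmem a).mp ha1
          rw [hW₁mem, key1, key2] at ha2
          have hβ0 : β = 0 := (mul_eq_zero.mp ha2.1).resolve_right hγ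
          have hα0 : α = 0 := (mul_eq_zero.mp (neg_eq_zero.mp ha2.2)).resolve_right hγ
          rw [hα0, hβ0, zero_smul, zero_smul, add_zero]
        · rw [codisjoint_iff, Submodule.eq_top_iff']
          intro v
          rw [Submodule.mem_sup]
          refine ⟨(-(f w v / f u w)) • u + (f u v / f u w) • w, (hZmem _).mpr ⟨_, _, rfl⟩,
            v - ((-(f w v / f u w)) • u + (f u v / f u w) • w), ?_, by abel⟩
          rw [hW₁mem, map_sub, map_sub, key1, key2, div_mul_cancel₀ _ hγ, neg_mul,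
            div_mul_cancel₀ _ hγ, neg_neg, sub_self, sub_self]
          exact ⟨rfl, rfl⟩
      have hu0 : u ≠ 0 := by
        rintro rfl
        apply hγ
        simp
      have hdim := Submodule.finrank_add_eq_of_isCompl hcompl
      have hZpos : 0 < finrank F ↥(Submodule.span F {u} ⊔ Submodule.span F {w}) := by
        rw [Module.finrank_pos_iff_exists_ne_zero]
        refine ⟨⟨u, Submodule.mem_sup_left (Submodule.mem_span_singleton_self u)⟩, ?_⟩
        intro h
        exact hu0 (congrArg Subtype.val h)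
      have hz0 : z ≠ 0 := by
        rcases hz with h | h
        · rw [h]; exact one_ne_zero
        · rw [h]; exact neg_ne_zero.mpr one_ne_zero
      have hW₁inv : ∀ v ∈ W₁, x v ∈ W₁ := by
        intro v hv
        rw [hW₁mem] at hv ⊢
        rcases hstr with ⟨-, ε, hε, hxu, hxw⟩ | ⟨h, hxu⟩
        · have hε0 : ε ≠ 0 := by
            rintro rfl
            rw [mul_zero] at hε
            exact zero_ne_one hε
          have e1 := hiso u v
          have e2 := hiso w v
          rw [hxu, map_smul, LinearMap.smul_apply, smul_eq_mul, hv.1] at e1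
          rw [hxw, map_smul, LinearMap.smul_apply, smul_eq_mul, hv.2] at e2
          exact ⟨(mul_eq_zero.mp e1).resolve_left hε0, (mul_eq_zero.mp e2).resolve_left hε0⟩
        · have e1 := hiso (x u) v
          have e2 := hiso u v
          rw [hxx, h, neg_one_smul, map_neg, LinearMap.neg_apply, hxu, hv.2] at e1
          rw [hxu, hv.1] at e2
          exact ⟨neg_eq_zero.mp e1, e2⟩
      obtain ⟨f', hf'⟩ : ∃ f' : W₁ →ₗ[F] W₁ →ₗ[F] F,
          ∀ a b : W₁, f' a b = f (a : V) (b : V) :=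
        ⟨f.compl₁₂ W₁.subtype W₁.subtype, fun a b => rfl⟩
      obtain ⟨x', hx'def⟩ : ∃ x' : W₁ →ₗ[F] W₁, x' = x.restrict hW₁inv := ⟨_, rfl⟩
      have hx'app : ∀ a : W₁, ((x' a : W₁) : V) = x a := fun a => by rw [hx'def]; rfl
      have hnd' : ∀ a : W₁, a ≠ 0 → ∃ b : W₁, f' a b ≠ 0 := by
        intro a ha
        have ha' : (a : V) ≠ 0 := fun h => ha (Subtype.ext h)
        obtain ⟨v, hv⟩ := hnd a ha'
        have hvmem : v ∈ (Submodule.span F {u} ⊔ Submodule.span F {w}) ⊔ W₁ := by
          rw [hcompl.sup_eq_top]; exact Submodule.mem_top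
        obtain ⟨p, hp, b, hb, rfl⟩ := Submodule.mem_sup.mp hvmem
        obtain ⟨α, β, rfl⟩ := (hZmem p).mp hp
        refine ⟨⟨b, hb⟩, ?_⟩
        rw [hf']
        have h3 := hW₁' a a.2
        rw [map_add, map_add, map_smul, map_smul, h3.1, h3.2, smul_zero, smul_zero, add_zero,
          zero_add] at hv
        exact hv
      obtain ⟨U', W', hc', hU'iso, hW'iso, hstr'⟩ :=
        ih (finrank F W₁) (by omega) W₁ f' x' (fun a => by rw [hf']; exact halt _) hnd'
          (fun a b => by rw [hf', hf', hx'app, hx'app]; exact hiso _ _)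
          (fun a => by apply Subtype.ext; rw [hx'app, hx'app, hxx]; rfl) rfl
      have hUmem : ∀ a, a ∈ U'.map W₁.subtype ⊔ Submodule.span F {u} ↔
          ∃ a' ∈ U', ∃ α : F, (a' : V) + α • u = a := by
        intro a
        rw [Submodule.mem_sup]
        constructor
        · rintro ⟨_, ⟨a', ha', rfl⟩, a₂, ha₂, rfl⟩
          obtain ⟨α, rfl⟩ := Submodule.mem_span_singleton.mp ha₂
          exact ⟨a', ha', α, rfl⟩
        · rintro ⟨a', ha', α, rfl⟩
          exact ⟨a', ⟨a', ha', rfl⟩, α • u, Submodule.mem_span_singleton.mpr ⟨α, rfl⟩, rfl⟩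
      have hWmem : ∀ a, a ∈ W'.map W₁.subtype ⊔ Submodule.span F {w} ↔
          ∃ a' ∈ W', ∃ α : F, (a' : V) + α • w = a := by
        intro a
        rw [Submodule.mem_sup]
        constructor
        · rintro ⟨_, ⟨a', ha', rfl⟩, a₂, ha₂, rfl⟩
          obtain ⟨α, rfl⟩ := Submodule.mem_span_singleton.mp ha₂
          exact ⟨a', ha', α, rfl⟩
        · rintro ⟨a', ha', α, rfl⟩
          exact ⟨a', ⟨a', ha', rfl⟩, α • w, Submodule.mem_span_singleton.mpr ⟨α, rfl⟩, rfl⟩
      refine ⟨U'.map W₁.subtype ⊔ Submodule.span F {u}, W'.map W₁.subtype ⊔ Submodule.span F {w},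
        compl_lift2 _ _ W₁ hZdisj hcompl U' W' hc', ?_, ?_, ?_⟩
      · intro a ha b hb
        obtain ⟨a', ha', α, rfl⟩ := (hUmem a).mp ha
        obtain ⟨b', hb', β, rfl⟩ := (hUmem b).mp hb
        have e1 := hU'iso a' ha' b' hb'
        rw [hf'] at e1
        have e2 := (hW₁' a' a'.2).1
        have e3 := ((hW₁mem b').mp b'.2).1
        simp only [map_add, map_smul, LinearMap.add_apply, LinearMap.smul_apply, smul_eq_mul,
          e1, e2, e3, halt]
        ring
      · intro a ha b hb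
        obtain ⟨a', ha', α, rfl⟩ := (hWmem a).mp ha
        obtain ⟨b', hb', β, rfl⟩ := (hWmem b).mp hb
        have e1 := hW'iso a' ha' b' hb'
        rw [hf'] at e1
        have e2 := (hW₁' a' a'.2).2
        have e3 := ((hW₁mem b').mp b'.2).2
        simp only [map_add, map_smul, LinearMap.add_apply, LinearMap.smul_apply, smul_eq_mul,
          e1, e2, e3, halt]
        ring
      · rcases hstr with ⟨h, ε, hε, hxu, hxw⟩ | ⟨h, hxu⟩
        · left
          rcases hstr' with ⟨-, hU'i, hW'i⟩ | ⟨h', -, -⟩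
          · refine ⟨h, ?_, ?_⟩
            · intro a ha
              obtain ⟨a', ha', α, rfl⟩ := (hUmem a).mp ha
              rw [map_add, map_smul, hxu, smul_smul, ← hx'app]
              exact (hUmem _).mpr ⟨x' a', hU'i a' ha', α * ε, rfl⟩
            · intro a ha
              obtain ⟨a', ha', α, rfl⟩ := (hWmem a).mp ha
              rw [map_add, map_smul, hxw, smul_smul, ← hx'app]
              exact (hWmem _).mpr ⟨x' a', hW'i a' ha', α * ε, rfl⟩
          · exact absurd (h.symm.trans h') h1m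
        · right
          rcases hstr' with ⟨h', -, -⟩ | ⟨-, hU'i, hW'i⟩
          · exact absurd (h'.symm.trans h) h1m
          · refine ⟨h, ?_, ?_⟩
            · intro a ha
              obtain ⟨a', ha', α, rfl⟩ := (hUmem a).mp ha
              rw [map_add, map_smul, hxu, ← hx'app]
              exact (hWmem _).mpr ⟨x' a', hU'i a' ha', α, rfl⟩
            · intro a ha
              obtain ⟨a', ha', α, rfl⟩ := (hWmem a).mp ha
              rw [map_add, map_smul, ← hxu, hxx, h, neg_one_smul, smul_neg, ← neg_smul, ← hx'app]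
              exact (hUmem _).mpr ⟨x' a', hW'i a' ha', -α, rfl⟩

end abs

section conc

variable {F : Type*} [Field F]

theorem J_mulVec (d : ℕ) (v : Fin d ⊕ Fin d → F) :
    Matrix.mulVec (Matrix.J (Fin d) F) v =
      Sum.elim (fun i => - v (Sum.inr i)) (fun i => v (Sum.inl i)) := by
  funext k
  rcases k with i | i <;>
    simp [Matrix.J, Matrix.mulVec, dotProduct, Fintype.sum_sum_type, Matrix.one_apply]

theorem symp_eq (d : ℕ) (u v : Fin d ⊕ Fin d → F) :
    Cfsg.sympForm d F u v =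
      ∑ i, u (Sum.inl i) * (- v (Sum.inr i)) + ∑ i, u (Sum.inr i) * v (Sum.inl i) := by
  unfold Cfsg.sympForm
  rw [J_mulVec, dotProduct, Fintype.sum_sum_type]
  rfl

theorem symp_alt (d : ℕ) (v : Fin d ⊕ Fin d → F) : Cfsg.sympForm d F v v = 0 := by
  rw [symp_eq, ← Finset.sum_add_distrib]
  apply Finset.sum_eq_zero
  intro i _
  ring

theorem symp_nondeg (d : ℕ) (u : Fin d ⊕ Fin d → F) (hu : u ≠ 0) :
    ∃ v, Cfsg.sympForm d F u v ≠ 0 := by
  classical
  obtain ⟨k, hk⟩ : ∃ k, u k ≠ 0 := by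
    by_contra hcon
    push Not at hcon
    exact hu (funext hcon)
  rcases k with i | i
  · refine ⟨Pi.single (Sum.inr i) (-1), ?_⟩
    rw [symp_eq]
    simp [Pi.single_apply]
    exact hk
  · refine ⟨Pi.single (Sum.inl i) 1, ?_⟩
    rw [symp_eq]
    simp [Pi.single_apply]
    exact hk

end conc

/-- Involutions of PSp_n(q), q odd, and the subgroups GL_{n/2}(q).2. Here `T = PSp_n(q)`, `n = 2d ≥ 4`, `q` odd, realised through the symplectic matrices over the field `F` with `q` elements; Ω is the set of unordered pairs `{U, W}` of complementary totally isotropic `d`-spaces (`F^n = U ⊕ W`), whose stabilizers are the subgroups of type GL_d(q).2 (maximal except in some small cases; maximality is not assumed); an element of `T` of prime order `r` (a symplectic matrix `x` with `x^r` scalar, `x` not scalar) fixes such a pair when it fixes or interchanges `U` and `W`. If the number of such pairs is even, every involution of `T` fixes one of them (the action is 2-elusive). -/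
theorem result {F : Type*} [Field F] [Fintype F] {p : ℕ} [Fact p.Prime] [CharP F p] {q : ℕ} (hq : Fintype.card F = q)
    (d : ℕ) (hd : 2 ≤ d) (hT : (d, q) ≠ (2, 2)) (hodd : Odd q)
    (hΩ : 2 ∣ Nat.card {P : Submodule F (Fin d ⊕ Fin d → F) × Submodule F (Fin d ⊕ Fin d → F) // IsCompl P.1 P.2 ∧ (∀ u ∈ P.1, ∀ v ∈ P.1, Cfsg.sympForm d F u v = 0) ∧ (∀ u ∈ P.2, ∀ v ∈ P.2, Cfsg.sympForm d F u v = 0)} / 2)
    (x : ↥(Matrix.symplecticGroup (Fin d) F))
    (hx1 : ∃ z : F, ((x ^ 2 : ↥(Matrix.symplecticGroup (Fin d) F)) : Matrix (Fin d ⊕ Fin d) (Fin d ⊕ Fin d) F) = z • (1 : Matrix (Fin d ⊕ Fin d) (Fin d ⊕ Fin d) F))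
    (hx2 : ∀ z : F, (x : Matrix (Fin d ⊕ Fin d) (Fin d ⊕ Fin d) F) ≠ z • (1 : Matrix (Fin d ⊕ Fin d) (Fin d ⊕ Fin d) F)) :
    ∃ U W : Submodule F (Fin d ⊕ Fin d → F), IsCompl U W ∧ (∀ u ∈ U, ∀ v ∈ U, Cfsg.sympForm d F u v = 0) ∧ (∀ u ∈ W, ∀ v ∈ W, Cfsg.sympForm d F u v = 0) ∧
        ((U.map (Matrix.toLin' (x : Matrix (Fin d ⊕ Fin d) (Fin d ⊕ Fin d) F)) = U ∧ W.map (Matrix.toLin' (x : Matrix (Fin d ⊕ Fin d) (Fin d ⊕ Fin d) F)) = W) ∨
         (U.map (Matrix.toLin' (x : Matrix (Fin d ⊕ Fin d) (Fin d ⊕ Fin d) F)) = W ∧ W.map (Matrix.toLin' (x : Matrix (Fin d ⊕ Fin d) (Fin d ⊕ Fin d) F)) = U)) := by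
  classical
  have hpp := (Fact.out : p.Prime)
  obtain ⟨z, hz⟩ := hx1
  have h2 : (2 : F) ≠ 0 := by
    intro h
    have h1 : ((2 : ℕ) : F) = 0 := by exact_mod_cast h
    have h3 := (CharP.cast_eq_zero_iff F p 2).mp h1
    have h4 : p = 2 := (Nat.prime_dvd_prime_iff_eq hpp Nat.prime_two).mp h3
    obtain ⟨n, -, hn⟩ := FiniteField.card F p
    rw [hq, h4] at hn
    rw [hn] at hodd
    exact (Nat.not_even_iff_odd.mpr hodd) (Nat.even_pow.mpr ⟨even_two, n.ne_zero⟩)
  obtain ⟨f, hf⟩ : ∃ f : (Fin d ⊕ Fin d → F) →ₗ[F] (Fin d ⊕ Fin d → F) →ₗ[F] F,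
      ∀ u v, f u v = Cfsg.sympForm d F u v :=
    ⟨Matrix.toLinearMap₂' F (Matrix.J (Fin d) F), fun u v => by
      rw [Matrix.toLinearMap₂'_apply']; rfl⟩
  obtain ⟨g, hg⟩ : ∃ g : Module.End F (Fin d ⊕ Fin d → F),
      g = Matrix.toLin' (x : Matrix (Fin d ⊕ Fin d) (Fin d ⊕ Fin d) F) := ⟨_, rfl⟩
  rw [← hg]
  have hiso : ∀ u v, f (g u) (g v) = f u v := by
    intro u v
    have hx := SymplecticGroup.mem_iff'.mp x.2
    rw [hf, hf, hg, Matrix.toLin'_apply, Matrix.toLin'_apply]
    unfold Cfsg.sympForm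
    rw [← Matrix.vecMul_transpose, ← Matrix.dotProduct_mulVec, Matrix.mulVec_mulVec,
      Matrix.mulVec_mulVec, hx]
  have hgg : ∀ v, g (g v) = z • v := by
    intro v
    have h1 : (x : Matrix (Fin d ⊕ Fin d) (Fin d ⊕ Fin d) F) *
        (x : Matrix (Fin d ⊕ Fin d) (Fin d ⊕ Fin d) F) = z • 1 := by
      rw [← sq, ← SubmonoidClass.coe_pow]; exact hz
    rw [hg, ← Matrix.toLin'_mul_apply, h1]
    simp
  have hz1 : z = 1 ∨ z = -1 := by
    have hd0 : 0 < d := by omega
    obtain ⟨v, hv⟩ := symp_nondeg d (Pi.single (Sum.inl ⟨0, hd0⟩) (1 : F)) (by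
      intro h
      have := congrFun h (Sum.inl ⟨0, hd0⟩)
      simp at this)
    have h1 := hiso (g (Pi.single (Sum.inl ⟨0, hd0⟩) (1 : F))) (g v)
    rw [hgg, hgg, hiso, map_smul, map_smul, LinearMap.smul_apply, smul_eq_mul, smul_eq_mul,
      ← mul_assoc] at h1
    rw [hf] at h1
    have h3 : z * z = 1 := by
      have h4 : (z * z - 1) * Cfsg.sympForm d F (Pi.single (Sum.inl ⟨0, hd0⟩) (1 : F)) v = 0 := by
        linear_combination h1
      rcases mul_eq_zero.mp h4 with h5 | h5
      · exact sub_eq_zero.mp h5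
      · exact absurd h5 hv
    exact mul_self_eq_one_iff.mp h3
  obtain ⟨U, W, hc, hU, hW, hstr⟩ := exists_pair z h2 hz1 _ (Fin d ⊕ Fin d → F) f g
    (fun v => by rw [hf]; exact symp_alt d v)
    (fun u hu => by
      obtain ⟨v, hv⟩ := symp_nondeg d u hu
      exact ⟨v, by rw [hf]; exact hv⟩) hiso hgg rfl
  refine ⟨U, W, hc, fun u hu v hv => by rw [← hf]; exact hU u hu v hv,
    fun u hu v hv => by rw [← hf]; exact hW u hu v hv, ?_⟩
  rcases hstr with ⟨h, hUi, hWi⟩ | ⟨h, hUi, hWi⟩
  · left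
    have hgg1 : ∀ v, g (g v) = v := fun v => by rw [hgg, h, one_smul]
    constructor
    · apply le_antisymm
      · rintro _ ⟨u, hu, rfl⟩; exact hUi u hu
      · intro u hu; exact ⟨g u, hUi u hu, hgg1 u⟩
    · apply le_antisymm
      · rintro _ ⟨u, hu, rfl⟩; exact hWi u hu
      · intro u hu; exact ⟨g u, hWi u hu, hgg1 u⟩
  · right
    have hggm : ∀ v, g (-(g v)) = v := fun v => by rw [map_neg, hgg, h, neg_one_smul, neg_neg]
    constructor
    · apply le_antisymm
      · rintro _ ⟨u, hu, rfl⟩; exact hUi u hu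
      · intro w hw; exact ⟨-(g w), U.neg_mem (hWi w hw), hggm w⟩
    · apply le_antisymm
      · rintro _ ⟨u, hu, rfl⟩; exact hWi u hu
      · intro u hu; exact ⟨-(g u), W.neg_mem (hUi u hu), hggm u⟩


end Cfsg.Agent.S5962
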