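import Cfsg.Statements.S5960
import Mathlib
import Cfsg.Agent.S5957
import Cfsg.Agent.S5962

set_option autoImplicit false
set_option maxHeartbeats 400000
open scoped MatrixGroups
open Cfsg

namespace Cfsg.Agent.S5960

open Module

universe u

section gram

variable {F : Type*} [Field F] {V : Type*} [AddCommGroup V] [Module F V]

/-- Gram conditions for a family of mutually orthogonal hyperbolic pairs -/
def IsGram (f : V →ₗ[F] V →ₗ[F] F) {ι : Type*} (e w : ι → V) (γ : ι → F) : Prop :=
  (∀ k, γ k ≠ 0) ∧ (∀ k l, f (e k) (e l) = 0) ∧ (∀ k l, f (w k) (w l) = 0) ∧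
  (∀ k, f (e k) (w k) = γ k) ∧ (∀ k l, k ≠ l → f (e k) (w l) = 0)

theorem anti (f : V →ₗ[F] V →ₗ[F] F) (halt : ∀ v, f v v = 0) (a b : V) : f a b = - f b a := by
  have h := halt (a + b)
  simp only [map_add, LinearMap.add_apply, halt, zero_add, add_zero] at h
  linear_combination h

variable {ι : Type*} [Fintype ι]

theorem gram_e (f : V →ₗ[F] V →ₗ[F] F) (e w : ι → V) (γ : ι → F)
    (hG : IsGram f e w γ) (g₁ g₂ : ι → F) (l : ι) :
    f (e l) (∑ k, (g₁ k • e k + g₂ k • w k)) = g₂ l * γ l := by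
  classical
  obtain ⟨-, hee, -, hew, hew'⟩ := hG
  rw [map_sum, Finset.sum_eq_single l]
  · rw [map_add, map_smul, map_smul, hee, hew, smul_zero, zero_add, smul_eq_mul]
  · intro k _ hk
    rw [map_add, map_smul, map_smul, hee, hew' l k (Ne.symm hk), smul_zero, smul_zero, add_zero]
  · intro h; exact absurd (Finset.mem_univ _) h

theorem gram_w (f : V →ₗ[F] V →ₗ[F] F) (halt : ∀ v, f v v = 0) (e w : ι → V) (γ : ι → F)
    (hG : IsGram f e w γ) (g₁ g₂ : ι → F) (l : ι) :
    f (w l) (∑ k, (g₁ k • e k + g₂ k • w k)) = - (g₁ l * γ l) := by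
  classical
  obtain ⟨-, -, hww, hew, hew'⟩ := hG
  rw [map_sum, Finset.sum_eq_single l]
  · rw [map_add, map_smul, map_smul, hww, anti f halt, hew, smul_zero, add_zero, smul_eq_mul,
      mul_neg]
  · intro k _ hk
    rw [map_add, map_smul, map_smul, hww, anti f halt, hew' k l hk, neg_zero, smul_zero,
      smul_zero, add_zero]
  · intro h; exact absurd (Finset.mem_univ _) h

theorem mem_span_gram (e w : ι → V) (v : V) :
    v ∈ Submodule.span F (Set.range (Sum.elim e w)) ↔
      ∃ g₁ g₂ : ι → F, ∑ k, (g₁ k • e k + g₂ k • w k) = v := by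
  rw [Submodule.mem_span_range_iff_exists_fun]
  constructor
  · rintro ⟨g, hg⟩
    refine ⟨fun k => g (Sum.inl k), fun k => g (Sum.inr k), ?_⟩
    rw [Fintype.sum_sum_type] at hg
    rw [Finset.sum_add_distrib]
    exact hg
  · rintro ⟨g₁, g₂, hg⟩
    refine ⟨Sum.elim g₁ g₂, ?_⟩
    rw [Fintype.sum_sum_type]
    rw [Finset.sum_add_distrib] at hg
    exact hg

theorem gram_indep (f : V →ₗ[F] V →ₗ[F] F) (halt : ∀ v, f v v = 0) (e w : ι → V) (γ : ι → F)
    (hG : IsGram f e w γ) : LinearIndependent F (Sum.elim e w) := by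
  rw [Fintype.linearIndependent_iff]
  intro g hg
  rw [Fintype.sum_sum_type] at hg
  have hg' : ∑ k, ((fun k => g (Sum.inl k)) k • e k + (fun k => g (Sum.inr k)) k • w k) = 0 := by
    rw [Finset.sum_add_distrib]; exact hg
  have h1 := fun l => gram_e f e w γ hG (fun k => g (Sum.inl k)) (fun k => g (Sum.inr k)) l
  have h2 := fun l => gram_w f halt e w γ hG (fun k => g (Sum.inl k)) (fun k => g (Sum.inr k)) l
  rintro (l | l)
  · have h3 := h2 l
    rw [hg', map_zero] at h3
    exact (mul_eq_zero.mp (neg_eq_zero.mp h3.symm)).resolve_right (hG.1 l)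
  · have h3 := h1 l
    rw [hg', map_zero] at h3
    exact (mul_eq_zero.mp h3.symm).resolve_right (hG.1 l)

/-- the orthogonal complement of the family -/
def perp (f : V →ₗ[F] V →ₗ[F] F) (e w : ι → V) : Submodule F V :=
  ⨅ k, (LinearMap.ker (f (e k)) ⊓ LinearMap.ker (f (w k)))

theorem mem_perp (f : V →ₗ[F] V →ₗ[F] F) (e w : ι → V) (v : V) :
    v ∈ perp f e w ↔ ∀ k, f (e k) v = 0 ∧ f (w k) v = 0 := by
  unfold perp
  rw [Submodule.mem_iInf]
  rfl

theorem gram_compl (f : V →ₗ[F] V →ₗ[F] F) (halt : ∀ v, f v v = 0) (e w : ι → V) (γ : ι → F)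
    (hG : IsGram f e w γ) :
    IsCompl (Submodule.span F (Set.range (Sum.elim e w))) (perp f e w) := by
  constructor
  · rw [Submodule.disjoint_def]
    intro v hv1 hv2
    obtain ⟨g₁, g₂, rfl⟩ := (mem_span_gram e w v).mp hv1
    rw [mem_perp] at hv2
    have h1 : ∀ k, g₁ k = 0 := by
      intro k
      have h3 := (hv2 k).2
      rw [gram_w f halt e w γ hG] at h3
      exact (mul_eq_zero.mp (neg_eq_zero.mp h3)).resolve_right (hG.1 k)
    have h2 : ∀ k, g₂ k = 0 := by
      intro k
      have h3 := (hv2 k).1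
      rw [gram_e f e w γ hG] at h3
      exact (mul_eq_zero.mp h3).resolve_right (hG.1 k)
    apply Finset.sum_eq_zero
    intro k _
    rw [h1, h2, zero_smul, zero_smul, add_zero]
  · rw [codisjoint_iff, Submodule.eq_top_iff']
    intro v
    rw [Submodule.mem_sup]
    refine ⟨∑ k, ((-(f (w k) v / γ k)) • e k + (f (e k) v / γ k) • w k),
      (mem_span_gram e w _).mpr ⟨_, _, rfl⟩,
      v - ∑ k, ((-(f (w k) v / γ k)) • e k + (f (e k) v / γ k) • w k), ?_, by abel⟩
    rw [mem_perp]
    intro l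
    rw [map_sub, map_sub, gram_e f e w γ hG, gram_w f halt e w γ hG, div_mul_cancel₀ _ (hG.1 l),
      neg_mul, div_mul_cancel₀ _ (hG.1 l), neg_neg, sub_self, sub_self]
    exact ⟨rfl, rfl⟩

theorem gram_ne_zero (f : V →ₗ[F] V →ₗ[F] F) (e w : ι → V) (γ : ι → F)
    (hG : IsGram f e w γ) (k : ι) : e k ≠ 0 := by
  intro h
  have h1 := hG.2.2.2.1 k
  rw [h, map_zero, LinearMap.zero_apply] at h1
  exact hG.1 k h1.symm

end gram

section planes

variable {F : Type*} [Field F]

/-- combining two Gram families with vanishing cross terms -/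
theorem gram_sum {V : Type*} [AddCommGroup V] [Module F V] (f : V →ₗ[F] V →ₗ[F] F)
    (halt : ∀ v, f v v = 0) {κ ι : Type*} (e₀ w₀ : κ → V) (γ₀ : κ → F) (e₁ w₁ : ι → V) (γ₁ : ι → F)
    (h₀ : IsGram f e₀ w₀ γ₀) (h₁ : IsGram f e₁ w₁ γ₁)
    (hc : ∀ k l, f (e₀ k) (e₁ l) = 0 ∧ f (w₀ k) (e₁ l) = 0 ∧ f (e₀ k) (w₁ l) = 0 ∧
      f (w₀ k) (w₁ l) = 0) :
    IsGram f (Sum.elim e₀ e₁) (Sum.elim w₀ w₁) (Sum.elim γ₀ γ₁) := by
  obtain ⟨a1, a2, a3, a4, a5⟩ := h₀
  obtain ⟨b1, b2, b3, b4, b5⟩ := h₁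
  refine ⟨?_, ?_, ?_, ?_, ?_⟩
  · rintro (k | k)
    · exact a1 k
    · exact b1 k
  · rintro (k | k) (l | l)
    · exact a2 k l
    · exact (hc k l).1
    · show f (e₁ k) (e₀ l) = 0
      rw [anti f halt, (hc l k).1, neg_zero]
    · exact b2 k l
  · rintro (k | k) (l | l)
    · exact a3 k l
    · exact (hc k l).2.2.2
    · show f (w₁ k) (w₀ l) = 0
      rw [anti f halt, (hc l k).2.2.2, neg_zero]
    · exact b3 k l
  · rintro (k | k)
    · exact a4 k
    · exact b4 k
  · rintro (k | k) (l | l) hkl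
    · exact a5 k l (fun h => hkl (by rw [h]))
    · exact (hc k l).2.2.1
    · show f (e₁ k) (w₀ l) = 0
      rw [anti f halt, (hc l k).2.1, neg_zero]
    · exact b5 k l (fun h => hkl (by rw [h]))

theorem exists_seed {V : Type u} [AddCommGroup V] [Module F V] (z : F)
    (f : V →ₗ[F] V →ₗ[F] F) (x : V →ₗ[F] V) (halt : ∀ v, f v v = 0)
    (hnd : ∀ u, u ≠ 0 → ∃ v, f u v ≠ 0)
    (hiso : ∀ u v, f (x u) (x v) = f u v) (hxx : ∀ v, x (x v) = z • v) (v₀ : V) (hv₀ : v₀ ≠ 0) :
    ∃ (κ : Type) (_ : Fintype κ) (_ : Nonempty κ) (e₀ w₀ : κ → V) (γ₀ : κ → F) (τ₀ : κ → κ),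
      IsGram f e₀ w₀ γ₀ ∧ (∀ k, τ₀ (τ₀ k) = k) ∧
      (∀ k, x (e₀ k) ∈ Submodule.span F {e₀ (τ₀ k), w₀ (τ₀ k)}) ∧
      (∀ k, x (w₀ k) ∈ Submodule.span F {e₀ (τ₀ k), w₀ (τ₀ k)}) := by
  have hanti := anti f halt
  have single : ∀ u w : V, f u w ≠ 0 → x u ∈ Submodule.span F {u, w} →
      x w ∈ Submodule.span F {u, w} →
      ∃ (κ : Type) (_ : Fintype κ) (_ : Nonempty κ) (e₀ w₀ : κ → V) (γ₀ : κ → F) (τ₀ : κ → κ),
      IsGram f e₀ w₀ γ₀ ∧ (∀ k, τ₀ (τ₀ k) = k) ∧
      (∀ k, x (e₀ k) ∈ Submodule.span F {e₀ (τ₀ k), w₀ (τ₀ k)}) ∧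
      (∀ k, x (w₀ k) ∈ Submodule.span F {e₀ (τ₀ k), w₀ (τ₀ k)}) := by
    intro u w huw h1 h2
    exact ⟨Unit, inferInstance, inferInstance, fun _ => u, fun _ => w, fun _ => f u w, id,
      ⟨fun _ => huw, fun _ _ => halt u, fun _ _ => halt w, fun _ => rfl,
        fun k l hkl => absurd (Subsingleton.elim k l) hkl⟩, fun _ => rfl, fun _ => h1, fun _ => h2⟩
  by_cases hA : ∃ v, f v (x v) ≠ 0
  · obtain ⟨v, hv⟩ := hA
    apply single v (x v) hv
    · exact Submodule.subset_span (Set.mem_insert_of_mem _ (Set.mem_singleton _))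
    · rw [hxx]; exact Submodule.smul_mem _ _ (Submodule.subset_span (Set.mem_insert _ _))
  · push Not at hA
    have hsa : ∀ a b, f (x a) b = f a (x b) := by
      intro a b
      have h := hA (a + b)
      simp only [map_add, LinearMap.add_apply, hA, zero_add, add_zero] at h
      have h' := hanti (x a) b
      linear_combination h' - h
    obtain ⟨w₀, hw₀⟩ := hnd v₀ hv₀
    have hz1 : z = 1 := by
      have h := hiso v₀ w₀
      rw [hsa, hxx, map_smul, smul_eq_mul] at h
      have h3 : (z - 1) * f v₀ w₀ = 0 := by linear_combination h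
      rcases mul_eq_zero.mp h3 with h | h
      · exact sub_eq_zero.mp h
      · exact absurd h hw₀
    have hxx1 : ∀ v, x (x v) = v := fun v => by rw [hxx, hz1, one_smul]
    by_cases h2 : (2 : F) = 0
    · by_cases hx1 : ∀ v, x v = v
      · apply single v₀ w₀ hw₀
        · rw [hx1]; exact Submodule.subset_span (Set.mem_insert _ _)
        · rw [hx1]; exact Submodule.subset_span (Set.mem_insert_of_mem _ (Set.mem_singleton _))
      · push Not at hx1
        obtain ⟨a₂, ha₂⟩ := hx1
        have he : x a₂ - a₂ ≠ 0 := sub_ne_zero.mpr ha₂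
        obtain ⟨c, hc⟩ := hnd _ he
        obtain ⟨E, hE⟩ : ∃ E, E = f c (x a₂) - f c a₂ := ⟨_, rfl⟩
        have hce : E ≠ 0 := by
          intro h
          apply hc
          rw [hanti, map_sub, ← hE, h, neg_zero]
        obtain ⟨μ, hμ⟩ : ∃ μ, μ = (f c a₂ + E) / E := ⟨_, rfl⟩
        obtain ⟨a₁, ha₁⟩ : ∃ a₁, a₁ = c + μ • (x c - c) := ⟨_, rfl⟩
        have hμE : μ * E = f c a₂ + E := by rw [hμ, div_mul_cancel₀ _ hce]
        have h12 : f a₁ a₂ = E := by
          rw [ha₁]
          simp only [map_add, map_sub, map_smul, LinearMap.add_apply, LinearMap.sub_apply,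
            LinearMap.smul_apply, smul_eq_mul]
          rw [hsa c a₂]
          have h3 : (2 : F) * f c a₂ = 0 := by rw [h2, zero_mul]
          linear_combination hμE + h3 - μ * hE
        have h12' : f a₁ (x a₂) = 0 := by
          rw [ha₁]
          simp only [map_add, map_sub, map_smul, LinearMap.add_apply, LinearMap.sub_apply,
            LinearMap.smul_apply, smul_eq_mul]
          rw [hiso c a₂]
          linear_combination (-1 : F) * hμE - hE + μ * hE
        refine ⟨Bool, inferInstance, inferInstance, fun b => cond b (x a₁) a₁,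
          fun b => cond b (x a₂) a₂, fun _ => E, not, ⟨fun _ => hce, ?_, ?_, ?_, ?_⟩,
          Bool.not_not, ?_, ?_⟩
        · intro k l
          cases k <;> cases l
          · exact halt a₁
          · exact hA a₁
          · show f (x a₁) a₁ = 0
            rw [hanti, hA a₁, neg_zero]
          · exact halt (x a₁)
        · intro k l
          cases k <;> cases l
          · exact halt a₂
          · exact hA a₂
          · show f (x a₂) a₂ = 0
            rw [hanti, hA a₂, neg_zero]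
          · exact halt (x a₂)
        · intro k
          cases k
          · exact h12
          · exact (hiso a₁ a₂).trans h12
        · intro k l hkl
          cases k <;> cases l
          · exact absurd rfl hkl
          · exact h12'
          · exact (hsa a₁ a₂).trans h12'
          · exact absurd rfl hkl
        · intro k
          cases k
          · show x a₁ ∈ Submodule.span F {x a₁, x a₂}
            exact Submodule.subset_span (Set.mem_insert _ _)
          · show x (x a₁) ∈ Submodule.span F {a₁, a₂}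
            rw [hxx1]; exact Submodule.subset_span (Set.mem_insert _ _)
        · intro k
          cases k
          · show x a₂ ∈ Submodule.span F {x a₁, x a₂}
            exact Submodule.subset_span (Set.mem_insert_of_mem _ (Set.mem_singleton _))
          · show x (x a₂) ∈ Submodule.span F {a₁, a₂}
            rw [hxx1]; exact Submodule.subset_span (Set.mem_insert_of_mem _ (Set.mem_singleton _))
    · have heig : ∃ u : V, u ≠ 0 ∧ ∃ ε : F, ε * ε = 1 ∧ x u = ε • u := by
        by_cases h0 : v₀ + x v₀ = 0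
        · refine ⟨v₀, hv₀, -1, by ring, ?_⟩
          rw [neg_one_smul]; exact eq_neg_of_add_eq_zero_right h0
        · refine ⟨v₀ + x v₀, h0, 1, by ring, ?_⟩
          rw [map_add, hxx1, one_smul, add_comm]
      obtain ⟨u, hu, ε, hε, hxu⟩ := heig
      obtain ⟨w₁, hw₁⟩ := hnd u hu
      apply single u (w₁ + ε • x w₁)
      · have h1 : f u (x w₁) = ε * f u w₁ := by
          have h3 := hiso u (x w₁)
          rw [hxx1, hxu, map_smul, LinearMap.smul_apply, smul_eq_mul] at h3
          exact h3.symm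
        rw [map_add, map_smul, smul_eq_mul, h1, ← mul_assoc, hε, one_mul]
        intro h3
        have h4 : (2 : F) * f u w₁ = 0 := by rw [two_mul]; exact h3
        rcases mul_eq_zero.mp h4 with h5 | h5
        · exact h2 h5
        · exact hw₁ h5
      · rw [hxu]; exact Submodule.smul_mem _ _ (Submodule.subset_span (Set.mem_insert _ _))
      · have h3 : x (w₁ + ε • x w₁) = ε • (w₁ + ε • x w₁) := by
          rw [map_add, map_smul, hxx1, smul_add, smul_smul, hε, one_smul, add_comm]
        rw [h3]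
        exact Submodule.smul_mem _ _
          (Submodule.subset_span (Set.mem_insert_of_mem _ (Set.mem_singleton _)))

theorem exists_planes (z : F) (hzz : z * z = 1) :
    ∀ (d : ℕ) (V : Type u) [AddCommGroup V] [Module F V] [FiniteDimensional F V]
    (f : V →ₗ[F] V →ₗ[F] F) (x : V →ₗ[F] V), (∀ v, f v v = 0) → (∀ u, u ≠ 0 → ∃ v, f u v ≠ 0) →
    (∀ u v, f (x u) (x v) = f u v) → (∀ v, x (x v) = z • v) → finrank F V = d →
    ∃ (ι : Type) (_ : Fintype ι) (e w : ι → V) (γ : ι → F) (τ : ι → ι),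
      IsGram f e w γ ∧ Submodule.span F (Set.range (Sum.elim e w)) = ⊤ ∧ (∀ k, τ (τ k) = k) ∧
      (∀ k, x (e k) ∈ Submodule.span F {e (τ k), w (τ k)}) ∧
      (∀ k, x (w k) ∈ Submodule.span F {e (τ k), w (τ k)}) := by
  intro d
  induction d using Nat.strong_induction_on with
  | _ d ih =>
    intro V _ _ _ f x halt hnd hiso hxx hd
    have hanti := anti f halt
    by_cases hV : ∀ v : V, v = 0
    · refine ⟨Empty, inferInstance, Empty.elim, Empty.elim, Empty.elim, id,
        ⟨fun k => k.elim, fun k => k.elim, fun k => k.elim, fun k => k.elim, fun k => k.elim⟩,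
        ?_, fun k => k.elim, fun k => k.elim, fun k => k.elim⟩
      rw [Submodule.eq_top_iff']
      intro v; rw [hV v]; exact Submodule.zero_mem _
    · push Not at hV
      obtain ⟨v₀, hv₀⟩ := hV
      obtain ⟨κ, _, hκ, e₀, w₀, γ₀, τ₀, hG₀, hτ₀, hxe₀, hxw₀⟩ :=
        exists_seed z f x halt hnd hiso hxx v₀ hv₀
      have hcompl := gram_compl f halt e₀ w₀ γ₀ hG₀
      obtain ⟨W₁, hW₁⟩ : ∃ W₁, W₁ = perp f e₀ w₀ := ⟨_, rfl⟩
      rw [← hW₁] at hcompl
      have hW₁mem : ∀ v, v ∈ W₁ ↔ ∀ k, f (e₀ k) v = 0 ∧ f (w₀ k) v = 0 := fun v => by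
        rw [hW₁]; exact mem_perp f e₀ w₀ v
      have hpre : ∀ a v : V, f a (x v) = z * f (x a) v := by
        intro a v
        have h := hiso (x (z • a)) v
        rw [hxx, smul_smul, hzz, one_smul, map_smul, map_smul, LinearMap.smul_apply,
          smul_eq_mul] at h
        exact h
      have hW₁inv : ∀ v ∈ W₁, x v ∈ W₁ := by
        intro v hv
        rw [hW₁mem] at hv ⊢
        intro k
        obtain ⟨α, β, hαβ⟩ := Submodule.mem_span_pair.mp (hxe₀ k)
        obtain ⟨α', β', hαβ'⟩ := Submodule.mem_span_pair.mp (hxw₀ k)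
        constructor
        · rw [hpre, ← hαβ]
          simp only [map_add, map_smul, LinearMap.add_apply, LinearMap.smul_apply,
            (hv (τ₀ k)).1, (hv (τ₀ k)).2, smul_zero, add_zero, mul_zero]
        · rw [hpre, ← hαβ']
          simp only [map_add, map_smul, LinearMap.add_apply, LinearMap.smul_apply,
            (hv (τ₀ k)).1, (hv (τ₀ k)).2, smul_zero, add_zero, mul_zero]
      have hdim := Submodule.finrank_add_eq_of_isCompl hcompl
      have hpos : 0 < finrank F ↥(Submodule.span F (Set.range (Sum.elim e₀ w₀))) := by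
        obtain ⟨k₀⟩ := hκ
        rw [Module.finrank_pos_iff_exists_ne_zero]
        refine ⟨⟨e₀ k₀, Submodule.subset_span ⟨Sum.inl k₀, rfl⟩⟩, ?_⟩
        intro h
        exact gram_ne_zero f e₀ w₀ γ₀ hG₀ k₀ (congrArg Subtype.val h)
      obtain ⟨f', hf'⟩ : ∃ f' : W₁ →ₗ[F] W₁ →ₗ[F] F,
          ∀ a b : W₁, f' a b = f (a : V) (b : V) :=
        ⟨f.compl₁₂ W₁.subtype W₁.subtype, fun a b => rfl⟩
      obtain ⟨x', hx'def⟩ : ∃ x' : W₁ →ₗ[F] W₁, x' = x.restrict hW₁inv := ⟨_, rfl⟩
      have hx'app : ∀ a : W₁, ((x' a : W₁) : V) = x a := fun a => by rw [hx'def]; rfl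
      have hnd' : ∀ a : W₁, a ≠ 0 → ∃ b : W₁, f' a b ≠ 0 := by
        intro a ha
        have ha' : (a : V) ≠ 0 := fun h => ha (Subtype.ext h)
        obtain ⟨v, hv⟩ := hnd a ha'
        have hvmem : v ∈ Submodule.span F (Set.range (Sum.elim e₀ w₀)) ⊔ W₁ := by
          rw [hcompl.sup_eq_top]; exact Submodule.mem_top
        obtain ⟨p, hp, b, hb, rfl⟩ := Submodule.mem_sup.mp hvmem
        refine ⟨⟨b, hb⟩, ?_⟩
        rw [hf']
        have hle : Submodule.span F (Set.range (Sum.elim e₀ w₀)) ≤ LinearMap.ker (f a) := by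
          rw [Submodule.span_le]
          rintro _ ⟨s, rfl⟩
          have h3 := (hW₁mem a).mp a.2
          rcases s with k | k
          · show f a (e₀ k) = 0
            rw [hanti, (h3 k).1, neg_zero]
          · show f a (w₀ k) = 0
            rw [hanti, (h3 k).2, neg_zero]
        have h4 : f a p = 0 := hle hp
        rw [map_add, h4, zero_add] at hv
        exact hv
      obtain ⟨ι', _, e', w', γ', τ', hG', hsp', hτ', hxe', hxw'⟩ :=
        ih (finrank F W₁) (by omega) W₁ f' x' (fun a => by rw [hf']; exact halt _) hnd'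
          (fun a b => by rw [hf', hf', hx'app, hx'app]; exact hiso _ _)
          (fun a => by apply Subtype.ext; rw [hx'app, hx'app, hxx]; rfl) rfl
      refine ⟨κ ⊕ ι', inferInstance, Sum.elim e₀ (fun k => (e' k : V)),
        Sum.elim w₀ (fun k => (w' k : V)), Sum.elim γ₀ γ', Sum.map τ₀ τ', ?_, ?_, ?_, ?_, ?_⟩
      · apply gram_sum f halt e₀ w₀ γ₀ _ _ γ' hG₀ ?_ ?_
        · obtain ⟨b1, b2, b3, b4, b5⟩ := hG'
          exact ⟨b1, fun k l => by rw [← hf']; exact b2 k l, fun k l => by rw [← hf']; exact b3 k l,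
            fun k => by rw [← hf']; exact b4 k, fun k l h => by rw [← hf']; exact b5 k l h⟩
        · intro k l
          have h1 := (hW₁mem _).mp (e' l).2 k
          have h2 := (hW₁mem _).mp (w' l).2 k
          exact ⟨h1.1, h1.2, h2.1, h2.2⟩
      · have hr : Set.range (Sum.elim (Sum.elim e₀ (fun k => (e' k : V)))
            (Sum.elim w₀ (fun k => (w' k : V)))) =
            Set.range (Sum.elim e₀ w₀) ∪
              Set.range (Sum.elim (fun k => (e' k : V)) (fun k => (w' k : V))) := by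
          simp only [Set.Sum.elim_range]
          ac_rfl
        rw [hr, Submodule.span_union]
        have h1 : Submodule.span F
            (Set.range (Sum.elim (fun k => (e' k : V)) (fun k => (w' k : V)))) = W₁ := by
          have h2 : Set.range (Sum.elim (fun k => (e' k : V)) (fun k => (w' k : V))) =
              W₁.subtype '' Set.range (Sum.elim e' w') := by
            rw [← Set.range_comp]
            congr 1
            funext s
            cases s <;> rfl
          rw [h2, ← Submodule.map_span, hsp', Submodule.map_subtype_top]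
        rw [h1]; exact hcompl.sup_eq_top
      · rintro (k | k)
        · simp [hτ₀]
        · simp [hτ']
      · rintro (k | k)
        · exact hxe₀ k
        · obtain ⟨α, β, hαβ⟩ := Submodule.mem_span_pair.mp (hxe' k)
          have h' := congrArg Subtype.val hαβ
          rw [hx'app] at h'
          show x (e' k : V) ∈ Submodule.span F {(e' (τ' k) : V), (w' (τ' k) : V)}
          rw [← h']
          exact Submodule.mem_span_pair.mpr ⟨α, β, rfl⟩
      · rintro (k | k)
        · exact hxw₀ k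
        · obtain ⟨α, β, hαβ⟩ := Submodule.mem_span_pair.mp (hxw' k)
          have h' := congrArg Subtype.val hαβ
          rw [hx'app] at h'
          show x (w' k : V) ∈ Submodule.span F {(e' (τ' k) : V), (w' (τ' k) : V)}
          rw [← h']
          exact Submodule.mem_span_pair.mpr ⟨α, β, rfl⟩

end planes

section decomp

variable {F : Type*} [Field F]

theorem sp_decomp {V : Type u} [AddCommGroup V] [Module F V] [FiniteDimensional F V]
    (z : F) (hzz : z * z = 1) (f : V →ₗ[F] V →ₗ[F] F) (x : V →ₗ[F] V) (halt : ∀ v, f v v = 0)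
    (hnd : ∀ u, u ≠ 0 → ∃ v, f u v ≠ 0) (hiso : ∀ u v, f (x u) (x v) = f u v)
    (hxx : ∀ v, x (x v) = z • v) (a' t : ℕ) (ha : 1 ≤ a') (hd : finrank F V = 2 * a' * t) :
    ∃ D : Fin t → Submodule F V, (∀ j, finrank F (D j) = 2 * a') ∧ iSupIndep D ∧ iSup D = ⊤ ∧
      (∀ j, ∀ u ∈ D j, u ≠ 0 → ∃ v ∈ D j, f u v ≠ 0) ∧
      (∀ j j', j ≠ j' → ∀ u ∈ D j, ∀ v ∈ D j', f u v = 0) ∧
      ∃ σ : Equiv.Perm (Fin t), ∀ j, (D j).map x = D (σ j) := by
  classical
  have hanti := anti f halt
  obtain ⟨ι, _, e, w, γ, τ, hG, hsp, hτ, hxe, hxw⟩ :=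
    exists_planes z hzz _ V f x halt hnd hiso hxx rfl
  letI : LinearOrder ι := LinearOrder.lift' (Fintype.equivFin ι) (Fintype.equivFin ι).injective
  have hli := gram_indep f halt e w γ hG
  obtain ⟨b, hb⟩ : ∃ b : Basis (ι ⊕ ι) F V, b = Basis.mk hli hsp.ge := ⟨_, rfl⟩
  have hbl : ∀ k, b (Sum.inl k) = e k := fun k => by rw [hb, Basis.mk_apply]; rfl
  have hbr : ∀ k, b (Sum.inr k) = w k := fun k => by rw [hb, Basis.mk_apply]; rfl
  have hcardι : Fintype.card ι = a' * t := by
    have h1 := finrank_eq_card_basis b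
    rw [hd, Fintype.card_sum] at h1
    have h4 : 2 * a' * t = 2 * (a' * t) := by ring
    omega
  obtain ⟨π, σ, h1, h2, h3⟩ := S5957.exists_coloring a' τ hτ t Finset.univ
    (fun k _ => Finset.mem_univ _) (by rw [Finset.card_univ, hcardι])
  have hfib : ∀ j < t, ∃ k, π k = j := by
    intro j hj
    have h4 := h2 j hj
    have h5 : 0 < (Finset.univ.filter (fun k => π k = j)).card := by omega
    obtain ⟨k, hk⟩ := Finset.card_pos.mp h5
    exact ⟨k, (Finset.mem_filter.mp hk).2⟩
  have hσlt : ∀ j < t, σ j < t := by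
    intro j hj
    obtain ⟨k, rfl⟩ := hfib j hj
    rw [← h3 k (Finset.mem_univ _)]
    exact h1 _ (Finset.mem_univ _)
  have hσinv : ∀ j < t, σ (σ j) = j := by
    intro j hj
    obtain ⟨k, rfl⟩ := hfib j hj
    rw [← h3 k (Finset.mem_univ _), ← h3 (τ k) (Finset.mem_univ _), hτ]
  obtain ⟨σF, hσF⟩ : ∃ σF : Fin t → Fin t, ∀ j, (σF j : ℕ) = σ j :=
    ⟨fun j => ⟨σ j, hσlt j j.2⟩, fun _ => rfl⟩
  have hσFinv : Function.Involutive σF := by
    intro j
    apply Fin.ext
    rw [hσF, hσF, hσinv j j.2]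
  obtain ⟨π', hπ'l, hπ'r⟩ : ∃ π' : ι ⊕ ι → ℕ,
      (∀ k, π' (Sum.inl k) = π k) ∧ (∀ k, π' (Sum.inr k) = π k) :=
    ⟨fun s => π (Sum.elim id id s), fun k => rfl, fun k => rfl⟩
  obtain ⟨D, hD⟩ : ∃ D : Fin t → Submodule F V,
      ∀ j, D j = Submodule.span F (b '' {s | π' s = (j : ℕ)}) := ⟨_, fun _ => rfl⟩
  have hgenl : ∀ k (j : Fin t), π k = (j : ℕ) → e k ∈ D j := by
    intro k j hk
    rw [hD, ← hbl]
    exact Submodule.subset_span ⟨Sum.inl k, (hπ'l k).trans hk, rfl⟩
  have hgenr : ∀ k (j : Fin t), π k = (j : ℕ) → w k ∈ D j := by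
    intro k j hk
    rw [hD, ← hbr]
    exact Submodule.subset_span ⟨Sum.inr k, (hπ'r k).trans hk, rfl⟩
  have hDle : ∀ (j : Fin t) (S : Submodule F V),
      (∀ k, π k = (j : ℕ) → e k ∈ S ∧ w k ∈ S) → D j ≤ S := by
    intro j S hS
    rw [hD, Submodule.span_le]
    rintro _ ⟨s, hs, rfl⟩
    rcases s with k | k
    · rw [hbl]; exact (hS k ((hπ'l k).symm.trans hs)).1
    · rw [hbr]; exact (hS k ((hπ'r k).symm.trans hs)).2
  have horth : ∀ j j' : Fin t, j ≠ j' → ∀ u ∈ D j, ∀ v ∈ D j', f u v = 0 := by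
    intro j j' hjj' u hu v hv
    have step1 : ∀ l, π l = (j' : ℕ) → f u (e l) = 0 ∧ f u (w l) = 0 := by
      intro l hl
      have hkl : ∀ k, π k = (j : ℕ) → k ≠ l := by
        intro k hk h
        apply hjj'
        apply Fin.ext
        rw [← hk, ← hl, h]
      constructor
      · have hle : D j ≤ LinearMap.ker (f.flip (e l)) := by
          apply hDle
          intro k hk
          constructor
          · show f.flip (e l) (e k) = 0
            rw [LinearMap.flip_apply]; exact hG.2.1 k l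
          · show f.flip (e l) (w k) = 0
            rw [LinearMap.flip_apply, hanti, hG.2.2.2.2 l k (Ne.symm (hkl k hk)), neg_zero]
        have h4 := hle hu
        rw [LinearMap.mem_ker, LinearMap.flip_apply] at h4
        exact h4
      · have hle : D j ≤ LinearMap.ker (f.flip (w l)) := by
          apply hDle
          intro k hk
          constructor
          · show f.flip (w l) (e k) = 0
            rw [LinearMap.flip_apply]; exact hG.2.2.2.2 k l (hkl k hk)
          · show f.flip (w l) (w k) = 0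
            rw [LinearMap.flip_apply]; exact hG.2.2.1 k l
        have h4 := hle hu
        rw [LinearMap.mem_ker, LinearMap.flip_apply] at h4
        exact h4
    have hle : D j' ≤ LinearMap.ker (f u) := by
      apply hDle
      intro l hl
      exact ⟨(step1 l hl).1, (step1 l hl).2⟩
    exact hle hv
  have htop : iSup D = ⊤ := by
    rw [eq_top_iff, ← b.span_eq, Submodule.span_le]
    rintro _ ⟨s, rfl⟩
    rcases s with k | k
    · rw [hbl]
      exact (le_iSup D ⟨π k, h1 k (Finset.mem_univ _)⟩) (hgenl k ⟨π k, h1 k (Finset.mem_univ _)⟩ rfl)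
    · rw [hbr]
      exact (le_iSup D ⟨π k, h1 k (Finset.mem_univ _)⟩) (hgenr k ⟨π k, h1 k (Finset.mem_univ _)⟩ rfl)
  have hxpre : ∀ v, x (z • x v) = v := by
    intro v
    rw [map_smul, hxx, smul_smul, hzz, one_smul]
  have hxgen : ∀ k (j : Fin t), π (τ k) = (j : ℕ) → x (e k) ∈ D j ∧ x (w k) ∈ D j := by
    intro k j hk
    have hle : Submodule.span F {e (τ k), w (τ k)} ≤ D j := by
      rw [Submodule.span_le]
      intro y hy
      rcases hy with rfl | hy
      · exact hgenl _ j hk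
      · rw [Set.mem_singleton_iff] at hy
        rw [hy]; exact hgenr _ j hk
    exact ⟨hle (hxe k), hle (hxw k)⟩
  refine ⟨D, ?_, ?_, htop, ?_, horth, hσFinv.toPerm σF, ?_⟩
  · intro j
    rw [hD, Set.image_eq_range,
      finrank_span_eq_card (b := fun s : {s | π' s = (j : ℕ)} => b s)
        (b.linearIndependent.comp _ Subtype.val_injective)]
    have h4 : (Finset.univ.filter (fun s : ι ⊕ ι => π' s = (j : ℕ))).card = 2 * a' := by
      rw [Finset.card_filter, Fintype.sum_sum_type]
      simp only [hπ'l, hπ'r]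
      rw [← Finset.card_filter, h2 j j.2]
      ring
    rw [← h4]
    exact Fintype.card_subtype _
  · intro j
    rw [Submodule.disjoint_def]
    intro v hv1 hv2
    have e1 : (⨆ (j') (_ : j' ≠ j), D j') =
        Submodule.span F (b '' ⋃ (j') (_ : j' ≠ j), {s | π' s = (j' : ℕ)}) := by
      rw [Set.image_iUnion₂, Submodule.span_iUnion₂]
      apply iSup_congr; intro j'
      apply iSup_congr; intro _
      rw [hD]
    rw [e1, Basis.mem_span_image] at hv2
    rw [hD, Basis.mem_span_image] at hv1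
    have hsupp : (b.repr v).support = ∅ := by
      apply Finset.eq_empty_of_forall_notMem
      intro s hs
      have hs1 : π' s = (j : ℕ) := hv1 hs
      have hs2 := hv2 hs
      simp only [Set.mem_iUnion] at hs2
      obtain ⟨j', hj', hs2⟩ := hs2
      have hs3 : π' s = (j' : ℕ) := hs2
      exact hj' (Fin.ext (by rw [← hs3, hs1]))
    rw [Finsupp.support_eq_empty] at hsupp
    exact (LinearEquiv.map_eq_zero_iff b.repr).mp hsupp
  · intro j u hu hu0
    obtain ⟨v, hv⟩ := hnd u hu0
    have hvmem : v ∈ D j ⊔ ⨆ (j') (_ : j' ≠ j), D j' := by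
      rw [← iSup_split_single D j, htop]; exact Submodule.mem_top
    obtain ⟨v₁, hv₁, v₂, hv₂, rfl⟩ := Submodule.mem_sup.mp hvmem
    refine ⟨v₁, hv₁, ?_⟩
    have hle : (⨆ (j') (_ : j' ≠ j), D j') ≤ LinearMap.ker (f u) := by
      apply iSup₂_le
      intro j' hj' y hy
      exact horth j j' (Ne.symm hj') u hu y hy
    have h4 : f u v₂ = 0 := hle hv₂
    rw [map_add, h4, add_zero] at hv
    exact hv
  · intro j
    rw [Function.Involutive.coe_toPerm]
    apply le_antisymm
    · rw [Submodule.map_le_iff_le_comap]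
      apply hDle
      intro k hk
      have h5 : π (τ k) = (σF j : ℕ) := by rw [h3 k (Finset.mem_univ _), hk, hσF]
      exact hxgen k (σF j) h5
    · apply hDle
      intro k hk
      have h5 : π (τ k) = (j : ℕ) := by
        rw [h3 k (Finset.mem_univ _), hk, hσF, hσinv j j.2]
      have h6 := hxgen k j h5
      constructor
      · exact ⟨z • x (e k), (D j).smul_mem z h6.1, hxpre (e k)⟩
      · exact ⟨z • x (w k), (D j).smul_mem z h6.2, hxpre (w k)⟩

end decomp

/-- Involutions of PSp_n(q) and imprimitive subgroups. Here `T = PSp_n(q)`, `n = 2d ≥ 4`, `(n, q) ≠ (4, 2)`, realised through the symplectic matrices over the field `F` with `q` elements and the standard alternating form; `n = a·t` with `a` even and `t ≥ 2`, and Ω is the (nonempty) set of orthogonal decompositions of `F^n` into `t` nondegenerate subspaces of dimension `a` (unordered; counted as ordered ones divided by `t!`), whose stabilizers are the imprimitive subgroups of type Sp_a(q) ≀ S_t (maximality is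 not assumed); an element of `T` of prime order `r` (a symplectic matrix `x` with `x^r` scalar, `x` not scalar) fixes a point of Ω when it permutes the summands of some such decomposition. If the number of such decompositions is even, then every involution of `T` stabilizes one of them (the action is 2-elusive). -/
theorem result {F : Type*} [Field F] [Fintype F] {p : ℕ} [Fact p.Prime] [CharP F p] {q : ℕ} (hq : Fintype.card F = q)
    (d : ℕ) (hd : 2 ≤ d) (hT : (d, q) ≠ (2, 2))
    (a t : ℕ) (hat : 2 * d = a * t) (ha : 2 ≤ a) (hae : Even a) (ht : 2 ≤ t) (hΩ : 2 ∣ Nat.card {D : Fin t → Submodule F (Fin d ⊕ Fin d → F) // (Cfsg.Geo.IsMDecomposition a D ∧ (∀ j, ∀ u ∈ D j, u ≠ 0 → ∃ v ∈ D j, Cfsg.sympForm d F u v ≠ 0) ∧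
          (∀ j j', j ≠ j' → ∀ u ∈ D j, ∀ v ∈ D j', Cfsg.sympForm d F u v = 0))} / Nat.factorial t)
    (x : ↥(Matrix.symplecticGroup (Fin d) F))
    (hx1 : ∃ z : F, ((x ^ 2 : ↥(Matrix.symplecticGroup (Fin d) F)) : Matrix (Fin d ⊕ Fin d) (Fin d ⊕ Fin d) F) = z • (1 : Matrix (Fin d ⊕ Fin d) (Fin d ⊕ Fin d) F))
    (hx2 : ∀ z : F, (x : Matrix (Fin d ⊕ Fin d) (Fin d ⊕ Fin d) F) ≠ z • (1 : Matrix (Fin d ⊕ Fin d) (Fin d ⊕ Fin d) F)) :
    ∃ D : Fin t → Submodule F (Fin d ⊕ Fin d → F), (Cfsg.Geo.IsMDecomposition a D ∧ (∀ j, ∀ u ∈ D j, u ≠ 0 → ∃ v ∈ D j, Cfsg.sympForm d F u v ≠ 0) ∧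
          (∀ j j', j ≠ j' → ∀ u ∈ D j, ∀ v ∈ D j', Cfsg.sympForm d F u v = 0)) ∧
        ∃ σ : Equiv.Perm (Fin t), ∀ j, (D j).map (Matrix.toLin' (x : Matrix (Fin d ⊕ Fin d) (Fin d ⊕ Fin d) F)) = D (σ j) := by
  classical
  obtain ⟨z, hz⟩ := hx1
  obtain ⟨f, hf⟩ : ∃ f : (Fin d ⊕ Fin d → F) →ₗ[F] (Fin d ⊕ Fin d → F) →ₗ[F] F,
      ∀ u v, f u v = Cfsg.sympForm d F u v :=
    ⟨Matrix.toLinearMap₂' F (Matrix.J (Fin d) F), fun u v => by
      rw [Matrix.toLinearMap₂'_apply']; rfl⟩
  obtain ⟨g, hg⟩ : ∃ g : Module.End F (Fin d ⊕ Fin d → F),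
      g = Matrix.toLin' (x : Matrix (Fin d ⊕ Fin d) (Fin d ⊕ Fin d) F) := ⟨_, rfl⟩
  rw [← hg]
  have hiso : ∀ u v, f (g u) (g v) = f u v := by
    intro u v
    have hx := SymplecticGroup.mem_iff'.mp x.2
    rw [hf, hf, hg, Matrix.toLin'_apply, Matrix.toLin'_apply]
    unfold Cfsg.sympForm
    rw [← Matrix.vecMul_transpose, ← Matrix.dotProduct_mulVec, Matrix.mulVec_mulVec,
      Matrix.mulVec_mulVec, hx]
  have hgg : ∀ v, g (g v) = z • v := by
    intro v
    have h1 : (x : Matrix (Fin d ⊕ Fin d) (Fin d ⊕ Fin d) F) *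
        (x : Matrix (Fin d ⊕ Fin d) (Fin d ⊕ Fin d) F) = z • 1 := by
      rw [← sq, ← SubmonoidClass.coe_pow]; exact hz
    rw [hg, ← Matrix.toLin'_mul_apply, h1]
    simp
  have hzz : z * z = 1 := by
    have hd0 : 0 < d := by omega
    obtain ⟨v, hv⟩ := S5962.symp_nondeg d (Pi.single (Sum.inl ⟨0, hd0⟩) (1 : F)) (by
      intro h
      have := congrFun h (Sum.inl ⟨0, hd0⟩)
      simp at this)
    have h1 := hiso (g (Pi.single (Sum.inl ⟨0, hd0⟩) (1 : F))) (g v)
    rw [hgg, hgg, hiso, map_smul, map_smul, LinearMap.smul_apply, smul_eq_mul, smul_eq_mul,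
      ← mul_assoc] at h1
    rw [hf] at h1
    have h4 : (z * z - 1) * Cfsg.sympForm d F (Pi.single (Sum.inl ⟨0, hd0⟩) (1 : F)) v = 0 := by
      linear_combination h1
    rcases mul_eq_zero.mp h4 with h5 | h5
    · exact sub_eq_zero.mp h5
    · exact absurd h5 hv
  obtain ⟨a', rfl⟩ : ∃ a', a = 2 * a' := by
    obtain ⟨a', ha'⟩ := hae
    exact ⟨a', by omega⟩
  have hfr : finrank F (Fin d ⊕ Fin d → F) = 2 * a' * t := by
    rw [Module.finrank_fintype_fun_eq_card, Fintype.card_sum, Fintype.card_fin, ← hat]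
    omega
  obtain ⟨D, hD1, hD2, hD3, hD4, hD5, σ, hσ⟩ := sp_decomp z hzz f g
    (fun v => by rw [hf]; exact S5962.symp_alt d v)
    (fun u hu => by
      obtain ⟨v, hv⟩ := S5962.symp_nondeg d u hu
      exact ⟨v, by rw [hf]; exact hv⟩) hiso hgg a' t (by omega) hfr
  refine ⟨D, ⟨⟨ht, by omega, hD1, hD2, hD3⟩, ?_, ?_⟩, σ, hσ⟩
  · intro j u hu hu0
    obtain ⟨v, hv, hv2⟩ := hD4 j u hu hu0
    exact ⟨v, hv, by rw [← hf]; exact hv2⟩
  · intro j j' hjj' u hu v hv
    rw [← hf]; exact hD5 j j' hjj' u hu v hv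


end Cfsg.Agent.S5960
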