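import Cfsg.Statements.S5970
import Mathlib
import Cfsg.Agent.S5949
import Cfsg.Agent.S5951
import Cfsg.Agent.S5958

set_option autoImplicit false
set_option maxHeartbeats 400000
open scoped MatrixGroups
open Cfsg

namespace Cfsg.Agent.S5970

open Polynomial Module

section K

variable {F : Type*} [Field F] {n : ℕ} (K : Subalgebra F (Matrix (Fin n) (Fin n) F))

theorem K_inj (hinv : ∀ x ∈ K, x ≠ 0 → ∃ y ∈ K, x * y = 1)
    (hcomm : ∀ x ∈ K, ∀ y ∈ K, x * y = y * x)
    (κ : Matrix (Fin n) (Fin n) F) (hκ : κ ∈ K) (hκ0 : κ ≠ 0) (v : Fin n → F)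
    (hv : Matrix.mulVec κ v = 0) : v = 0 := by
  obtain ⟨y, hy, hxy⟩ := hinv κ hκ hκ0
  have h1 : y * κ = 1 := by rw [← hcomm κ hκ y hy]; exact hxy
  have h2 : Matrix.mulVec (y * κ) v = v := by rw [h1, Matrix.one_mulVec]
  rw [← Matrix.mulVec_mulVec, hv, Matrix.mulVec_zero] at h2
  exact h2.symm

/-- evaluation at a vector, as a linear map on the subalgebra -/
def evL (w : Fin n → F) : ↥K →ₗ[F] (Fin n → F) where
  toFun κ := Matrix.mulVec κ.1 w
  map_add' a b := by simp [Matrix.add_mulVec]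
  map_smul' c a := by simp [Matrix.smul_mulVec]

theorem evL_apply (w : Fin n → F) (κ : ↥K) : evL K w κ = Matrix.mulVec κ.1 w := rfl

theorem evL_inj (hK : Cfsg.Geo.IsFieldSubalgebra n K) (w : Fin n → F) (hw : w ≠ 0) :
    Function.Injective (evL K w) := by
  rw [injective_iff_map_eq_zero]
  intro κ hκ
  by_contra h0
  have h1 : κ.1 ≠ 0 := fun h => h0 (Subtype.ext h)
  exact hw (K_inj K hK.inv hK.comm κ.1 κ.2 h1 w hκ)

theorem evL_surj (hK : Cfsg.Geo.IsFieldSubalgebra n K) (w : Fin n → F) (hw : w ≠ 0) :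
    Function.Surjective (evL K w) := by
  have hfr : finrank F ↥K = finrank F (Fin n → F) := by rw [hK.finrank_eq]; simp
  haveI : FiniteDimensional F ↥K := Module.finite_of_finrank_pos (by
    rw [hK.finrank_eq]
    rcases Nat.eq_zero_or_pos n with h | h
    · subst h; exact absurd (_root_.funext fun i => Fin.elim0 i) hw
    · exact h)
  exact (LinearMap.injective_iff_surjective_of_finrank_eq_finrank hfr).mp (evL_inj K hK w hw)

theorem K_surj (hK : Cfsg.Geo.IsFieldSubalgebra n K) (w : Fin n → F) (hw : w ≠ 0)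
    (v : Fin n → F) : ∃ κ ∈ K, Matrix.mulVec κ w = v := by
  obtain ⟨κ, hκ⟩ := evL_surj K hK w hw v
  exact ⟨κ.1, κ.2, hκ⟩

theorem norm_fix (hK : Cfsg.Geo.IsFieldSubalgebra n K) (G Gi : Matrix (Fin n) (Fin n) F)
    (hGi : Gi * G = 1) (hnorm : ∀ κ ∈ K, G * κ * Gi ∈ K)
    (hdim : n < 2 * finrank F (S5949.Cg (Matrix.toLin' G))) : Matrix.toLin' G = 1 := by
  obtain ⟨W, hW⟩ : ∃ W, W = S5949.Cg (Matrix.toLin' G) := ⟨_, rfl⟩
  rw [← hW] at hdim
  have hfix : ∀ w ∈ W, Matrix.mulVec G w = w := by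
    intro w hw; rw [hW, S5949.mem_Cg, Matrix.toLin'_apply] at hw; exact hw
  have hcomm : ∀ κ ∈ K, G * κ = κ * G := by
    intro κ hκ
    by_cases hκ0 : κ = 0
    · rw [hκ0]; simp
    have hinjκ : Function.Injective (Matrix.toLin' κ) := by
      rw [injective_iff_map_eq_zero]
      intro v hv
      rw [Matrix.toLin'_apply] at hv
      exact K_inj K hK.inv hK.comm κ hκ hκ0 v hv
    have hdimκ : finrank F ↥(W.map (Matrix.toLin' κ)) = finrank F W :=
      (LinearEquiv.finrank_eq (Submodule.equivMapOfInjective _ hinjκ W)).symm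
    have h1 := Submodule.finrank_sup_add_finrank_inf_eq W (W.map (Matrix.toLin' κ))
    have h2 : finrank F ↥(W ⊔ W.map (Matrix.toLin' κ)) ≤ n := by
      have := Submodule.finrank_le (W ⊔ W.map (Matrix.toLin' κ))
      simpa using this
    have h3 : 0 < finrank F ↥(W ⊓ W.map (Matrix.toLin' κ)) := by omega
    have hne : W ⊓ W.map (Matrix.toLin' κ) ≠ ⊥ := by
      intro h; rw [h, finrank_bot] at h3; omega
    obtain ⟨w₂, hw₂, hw₂0⟩ := (Submodule.ne_bot_iff _).mp hne
    obtain ⟨hw₂W, w₁, hw₁W, hw₁⟩ := hw₂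
    rw [Matrix.toLin'_apply] at hw₁
    have hκ' := hnorm κ hκ
    have h4 : G * κ * Gi * G = G * κ := by rw [mul_assoc, hGi, mul_one]
    have h5 : Matrix.mulVec (G * κ * Gi - κ) w₁ = 0 := by
      rw [Matrix.sub_mulVec]
      have e1 : Matrix.mulVec (G * κ * Gi) w₁ = Matrix.mulVec (G * κ * Gi * G) w₁ := by
        rw [← Matrix.mulVec_mulVec w₁ (G * κ * Gi) G, hfix w₁ hw₁W]
      rw [e1, h4, ← Matrix.mulVec_mulVec, hw₁, hfix w₂ hw₂W, sub_self]
    have hw₁0 : w₁ ≠ 0 := by
      rintro rfl; apply hw₂0; rw [← hw₁, Matrix.mulVec_zero]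
    have h6 : G * κ * Gi - κ = 0 := by
      by_contra h7
      exact hw₁0 (K_inj K hK.inv hK.comm _ (K.sub_mem hκ' hκ) h7 w₁ h5)
    rw [← h4, sub_eq_zero.mp h6]
  have hWne : W ≠ ⊥ := by intro h; rw [h, finrank_bot] at hdim; omega
  obtain ⟨w, hwW, hw0⟩ := (Submodule.ne_bot_iff W).mp hWne
  apply LinearMap.ext; intro v
  obtain ⟨κ, hκ, rfl⟩ := K_surj K hK w hw0 v
  rw [Matrix.toLin'_apply, Matrix.mulVec_mulVec, hcomm κ hκ, ← Matrix.mulVec_mulVec, hfix w hwW]
  rfl

end K

section frob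

variable {F : Type*} [Field F] [Fintype F] {n : ℕ} (K : Subalgebra F (Matrix (Fin n) (Fin n) F))

theorem K_card (hn : 0 < n) (hK : Cfsg.Geo.IsFieldSubalgebra n K) [Fintype ↥K] :
    Fintype.card ↥K = Fintype.card F ^ n := by
  rw [Module.card_eq_pow_finrank (K := F) (V := ↥K), hK.finrank_eq]

theorem K_pow_card (hn : 0 < n) (hK : Cfsg.Geo.IsFieldSubalgebra n K) :
    (∀ κ ∈ K, κ ^ (Fintype.card F ^ n) = κ) ∧ (1 < n → ∃ κ ∈ K, κ ^ Fintype.card F ≠ κ) := by
  classical
  haveI : Nonempty (Fin n) := ⟨⟨0, hn⟩⟩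
  haveI : Finite ↥K := Finite.of_injective (fun κ : ↥K => κ.1) Subtype.val_injective
  letI : Fintype ↥K := Fintype.ofFinite ↥K
  have hcard : Fintype.card ↥K = Fintype.card F ^ n := K_card K hn hK
  have hfld : IsField ↥K := ⟨⟨0, 1, fun h => by
      have h2 : (0 : Matrix (Fin n) (Fin n) F) = 1 := congrArg Subtype.val h
      exact zero_ne_one h2⟩,
    fun x y => Subtype.ext (hK.comm x.1 x.2 y.1 y.2),
    fun {a} ha => by
      obtain ⟨y, hy, hxy⟩ := hK.inv a.1 a.2 (fun h => ha (Subtype.ext h))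
      exact ⟨⟨y, hy⟩, Subtype.ext hxy⟩⟩
  letI : Field ↥K := hfld.toField
  constructor
  · intro κ hκ
    have h1 := FiniteField.pow_card (⟨κ, hκ⟩ : ↥K)
    rw [hcard] at h1
    exact congrArg Subtype.val h1
  · intro hn1
    by_contra hcon
    push Not at hcon
    obtain ⟨g, hg, -⟩ := S5949.exists_gen (F := ↥K)
    have h1 : g ^ (Fintype.card F - 1) = 1 := by
      have h2 := hcon g.1.1 g.1.2
      apply Units.ext
      have h3 : ((g : ↥K)) ^ Fintype.card F = (g : ↥K) := Subtype.ext h2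
      have hq : Fintype.card F = (Fintype.card F - 1) + 1 := by
        have := Fintype.card_pos (α := F); omega
      rw [hq, pow_succ] at h3
      have h4 : ((g : ↥K)) ^ (Fintype.card F - 1) * (g : ↥K) = 1 * (g : ↥K) := by
        rw [one_mul]; exact h3
      rw [Units.val_pow_eq_pow_val, Units.val_one]
      exact mul_right_cancel₀ g.ne_zero h4
    have h5 := orderOf_dvd_of_pow_eq_one h1
    rw [hg, hcard] at h5
    have hq2 : 2 ≤ Fintype.card F := Fintype.one_lt_card
    have h6 : Fintype.card F ^ n - 1 ≤ Fintype.card F - 1 := Nat.le_of_dvd (by omega) h5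
    have h7 : Fintype.card F ^ 2 ≤ Fintype.card F ^ n := Nat.pow_le_pow_right (by omega) hn1
    have h8 : Fintype.card F ^ n ≤ Fintype.card F := by
      have := Nat.one_le_pow n _ (by omega : 0 < Fintype.card F); omega
    have h9 : Fintype.card F * 2 ≤ Fintype.card F * Fintype.card F := Nat.mul_le_mul_left _ hq2
    rw [← sq] at h9
    omega

theorem exists_frob (hn : 2 ≤ n) (hK : Cfsg.Geo.IsFieldSubalgebra n K) {p : ℕ} [Fact p.Prime]
    [CharP F p] :
    ∃ H Hi : Matrix (Fin n) (Fin n) F, H * Hi = 1 ∧ Hi * H = 1 ∧ H ^ n = 1 ∧ H ≠ 1 ∧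
      (∀ k, k ∈ K ↔ H * k * Hi ∈ K) := by
  classical
  haveI : Nonempty (Fin n) := ⟨⟨0, by omega⟩⟩
  obtain ⟨hpow, hne⟩ := K_pow_card K (by omega) hK
  obtain ⟨κ₀, hκ₀K, hκ₀⟩ := hne (by omega)
  obtain ⟨kq, -, hkq⟩ := FiniteField.card F p
  obtain ⟨v₀, hv₀⟩ : ∃ v₀ : Fin n → F, v₀ ≠ 0 :=
    ⟨Pi.single ⟨0, by omega⟩ 1, fun h => by
      have := congrFun h ⟨0, by omega⟩
      simp at this⟩
  obtain ⟨evE, hevE⟩ : ∃ evE : ↥K ≃ₗ[F] (Fin n → F), ∀ κ : ↥K, evE κ = Matrix.mulVec κ.1 v₀ :=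
    ⟨LinearEquiv.ofBijective (evL K v₀) ⟨evL_inj K hK v₀ hv₀, evL_surj K hK v₀ hv₀⟩, fun κ => rfl⟩
  let φL : ↥K →ₗ[F] ↥K :=
    { toFun := fun κ => ⟨κ.1 ^ Fintype.card F, K.pow_mem κ.2 _⟩
      map_add' := fun a b => by
        apply Subtype.ext
        show (a.1 + b.1) ^ Fintype.card F = a.1 ^ Fintype.card F + b.1 ^ Fintype.card F
        rw [hkq]
        exact add_pow_char_pow_of_commute p _ (hK.comm a.1 a.2 b.1 b.2)
      map_smul' := fun c a => by
        apply Subtype.ext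
        show (c • a.1) ^ Fintype.card F = c • a.1 ^ Fintype.card F
        rw [_root_.smul_pow, FiniteField.pow_card] }
  have hφL : ∀ κ : ↥K, (φL κ).1 = κ.1 ^ Fintype.card F := fun κ => rfl
  obtain ⟨h, hh⟩ : ∃ h : Module.End F (Fin n → F),
      h = evE.toLinearMap ∘ₗ φL ∘ₗ evE.symm.toLinearMap := ⟨_, rfl⟩
  have hhv : ∀ κ ∈ K, h (Matrix.mulVec κ v₀) = Matrix.mulVec (κ ^ Fintype.card F) v₀ := by
    intro κ hκ
    have h1 : Matrix.mulVec κ v₀ = evE ⟨κ, hκ⟩ := (hevE ⟨κ, hκ⟩).symm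
    rw [h1, hh]
    simp only [LinearMap.comp_apply, LinearEquiv.coe_coe, LinearEquiv.symm_apply_apply]
    rw [hevE, hφL]
  have hsurj : ∀ v, ∃ κ ∈ K, Matrix.mulVec κ v₀ = v := K_surj K hK v₀ hv₀
  have hhκ : ∀ κ ∈ K, ∀ v, h (Matrix.mulVec κ v) = Matrix.mulVec (κ ^ Fintype.card F) (h v) := by
    intro κ hκ v
    obtain ⟨κ', hκ', rfl⟩ := hsurj v
    rw [Matrix.mulVec_mulVec, hhv _ (K.mul_mem hκ hκ'), hhv _ hκ', Matrix.mulVec_mulVec,
      (show Commute κ κ' from hK.comm κ hκ κ' hκ').mul_pow]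
  have hhpow : ∀ (m : ℕ), ∀ κ ∈ K,
      (h ^ m) (Matrix.mulVec κ v₀) = Matrix.mulVec (κ ^ (Fintype.card F ^ m)) v₀ := by
    intro m
    induction m with
    | zero => intro κ hκ; simp
    | succ m ih =>
      intro κ hκ
      rw [pow_succ', Module.End.mul_apply, ih κ hκ, hhv _ (K.pow_mem hκ _), ← pow_mul, ← pow_succ]
  have hhn : h ^ n = 1 := by
    apply LinearMap.ext; intro v
    obtain ⟨κ, hκ, rfl⟩ := hsurj v
    rw [hhpow n κ hκ, hpow κ hκ]; rfl
  have hh1 : h ≠ 1 := by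
    intro h1
    have h2 := hhv κ₀ hκ₀K
    rw [h1] at h2
    have h3 : Matrix.mulVec (κ₀ ^ Fintype.card F - κ₀) v₀ = 0 := by
      rw [Matrix.sub_mulVec, ← h2]; simp
    have h4 : κ₀ ^ Fintype.card F - κ₀ ≠ 0 := fun h => hκ₀ (sub_eq_zero.mp h)
    exact hv₀ (K_inj K hK.inv hK.comm _ (K.sub_mem (K.pow_mem hκ₀K _) hκ₀K) h4 v₀ h3)
  obtain ⟨H, hH⟩ : ∃ H : Matrix (Fin n) (Fin n) F, H = LinearMap.toMatrix' h := ⟨_, rfl⟩
  have hlin : Matrix.toLin' H = h := by rw [hH]; exact Matrix.toLin'_toMatrix' h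
  have hHn : H ^ n = 1 := by
    have := congrArg (LinearMap.toMatrixAlgEquiv' (R := F) (n := Fin n)) hhn
    rw [map_pow, map_one] at this
    rw [hH]; exact this
  have hHκ : ∀ κ ∈ K, H * κ = κ ^ Fintype.card F * H := by
    intro κ hκ
    apply Matrix.toLin'.injective
    apply LinearMap.ext; intro v
    rw [Matrix.toLin'_apply, Matrix.toLin'_apply, ← Matrix.mulVec_mulVec, ← Matrix.mulVec_mulVec,
      ← Matrix.toLin'_apply H, ← Matrix.toLin'_apply H, hlin]
    exact hhκ κ hκ v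
  have hn' : n = (n - 1) + 1 := by omega
  have hHHi : H * H ^ (n - 1) = 1 := by rw [← pow_succ', ← hn', hHn]
  have hHiH : H ^ (n - 1) * H = 1 := by rw [← pow_succ, ← hn', hHn]
  refine ⟨H, H ^ (n - 1), hHHi, hHiH, hHn, ?_, ?_⟩
  · intro h1
    apply hh1
    rw [← hlin, h1, Matrix.toLin'_one]; rfl
  · intro k
    constructor
    · intro hk
      rw [hHκ k hk, mul_assoc, hHHi, mul_one]
      exact K.pow_mem hk _
    · intro hk
      obtain ⟨κ₁, hκ₁⟩ : ∃ κ₁, κ₁ = H * k * H ^ (n - 1) := ⟨_, rfl⟩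
      rw [← hκ₁] at hk
      have h2 : κ₁ ^ (Fintype.card F ^ (n - 1)) ∈ K := K.pow_mem hk _
      have h3 := hHκ _ h2
      rw [← pow_mul, ← pow_succ, ← hn', hpow _ hk] at h3
      have h4 : κ₁ * H = H * k := by rw [hκ₁, mul_assoc, hHiH, mul_one]
      rw [h4] at h3
      have h5 : κ₁ ^ (Fintype.card F ^ (n - 1)) = k := by
        have h6 := congrArg (fun M => H ^ (n - 1) * M) h3
        simp only [← mul_assoc, hHiH, one_mul] at h6
        exact h6
      rw [← h5]; exact h2

end frob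

section elts

variable {F : Type*} [Field F] [Fintype F]

theorem perm_basis {V : Type*} [AddCommGroup V] [Module F V] [FiniteDimensional F V]
    (y : V →ₗ[F] V) (r : ℕ) [Fact r.Prime] (hr3 : 3 ≤ r) (hr : (r : F) ≠ 0) (hy : y ^ r = 1)
    (hy1 : y ≠ 1) (hc : orderOf (Fintype.card F : ZMod r) = r - 1) (hV : finrank F V = r) :
    ∃ b : Basis (Fin r) F V, ∀ i : Fin r,
      y (b i) = b ⟨(i.val + 1) % r, Nat.mod_lt _ (Fact.out : r.Prime).pos⟩ := by
  classical
  have hrp := (Fact.out : r.Prime)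
  have hi0 : 0 < orderOf (Fintype.card F : ZMod r) := by rw [hc]; omega
  have hsplit := S5949.split_finrank y r hr hy ⊤ (fun _ _ => Submodule.mem_top)
  rw [finrank_top, top_inf_eq, top_inf_eq, hV] at hsplit
  obtain ⟨s, hs⟩ := S5949.D_dvd y r hr hy (S5949.Dg y r) (S5949.Dg_inv y r) le_rfl
  rw [hc] at hs
  have htop := S5949.split y r hr hy ⊤ (fun _ _ => Submodule.mem_top)
  rw [top_inf_eq, top_inf_eq] at htop
  have hDne : S5949.Dg y r ≠ ⊥ := by
    intro h
    rw [h, sup_bot_eq] at htop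
    apply hy1
    apply LinearMap.ext; intro v
    have h2 : v ∈ S5949.Cg y := by rw [← htop]; exact Submodule.mem_top
    exact (S5949.mem_Cg y v).mp h2
  have hs1 : s = 1 := by
    rcases s with _ | _ | s
    · exfalso; apply hDne
      rw [Nat.mul_zero] at hs
      exact Submodule.finrank_eq_zero.mp hs
    · rfl
    · exfalso
      have h3 : (r - 1) * (s + 1 + 1) = (r - 1) * s + (r - 1) + (r - 1) := by ring
      omega
  rw [hs1, Nat.mul_one] at hs
  have hCfr : finrank F (S5949.Cg y) = 1 := by omega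
  have hCne : S5949.Cg y ≠ ⊥ := by
    intro h; rw [h, finrank_bot] at hCfr; omega
  obtain ⟨u, huC, hu0⟩ := (Submodule.ne_bot_iff _).mp hCne
  have hufix : y u = u := (S5949.mem_Cg y u).mp huC
  have hCspan : S5949.Cg y = Submodule.span F {u} := by
    symm
    apply Submodule.eq_of_le_of_finrank_eq
    · rw [Submodule.span_singleton_le_iff_mem]; exact huC
    · rw [finrank_span_singleton hu0, hCfr]
  obtain ⟨v, hvD, hZinv, hZfr⟩ := S5958.cyc_D y r hr hy hi0 (S5949.Dg y r) le_rfl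
    (S5949.Dg_inv y r) hDne
  have hpowD : ∀ i : ℕ, (y ^ i) v ∈ S5949.Dg y r := by
    intro i
    induction i with
    | zero => simpa using hvD
    | succ i ih => rw [pow_succ', Module.End.mul_apply]; exact S5949.Dg_inv y r _ ih
  have hZD : Submodule.span F (Set.range (fun i : Fin r => (y ^ i.val) v)) = S5949.Dg y r := by
    apply Submodule.eq_of_le_of_finrank_eq
    · rw [Submodule.span_le]; rintro _ ⟨i, rfl⟩; exact hpowD i
    · rw [hZfr, hc, hs]
  obtain ⟨b, hb⟩ : ∃ b : Fin r → V, ∀ i, b i = (y ^ i.val) (u + v) := ⟨_, fun _ => rfl⟩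
  have hb' : ∀ i : Fin r, b i = u + (y ^ i.val) v := by
    intro i; rw [hb, map_add, S5949.pow_fix y u hufix i.val]
  have hS : ⊤ ≤ Submodule.span F (Set.range b) := by
    have hmemb : ∀ k, b k ∈ Submodule.span F (Set.range b) :=
      fun k => Submodule.subset_span ⟨k, rfl⟩
    have hu1 : u ∈ Submodule.span F (Set.range b) := by
      have h1 : ∑ i ∈ Finset.range r, (u + (y ^ i) v) ∈ Submodule.span F (Set.range b) := by
        apply Submodule.sum_mem
        intro i hi
        have := hmemb ⟨i, Finset.mem_range.mp hi⟩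
        rw [hb'] at this; exact this
      rw [Finset.sum_add_distrib, Finset.sum_const, Finset.card_range,
        ← LinearMap.sum_apply] at h1
      have h2 : (∑ i ∈ Finset.range r, y ^ i) v = 0 := hvD
      rw [h2, add_zero] at h1
      have h3 := Submodule.smul_mem _ ((r : F)⁻¹) h1
      rw [← Nat.cast_smul_eq_nsmul F, smul_smul, inv_mul_cancel₀ hr, one_smul] at h3
      exact h3
    have hC : S5949.Cg y ≤ Submodule.span F (Set.range b) := by
      rw [hCspan, Submodule.span_singleton_le_iff_mem]; exact hu1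
    have hDle : S5949.Dg y r ≤ Submodule.span F (Set.range b) := by
      rw [← hZD, Submodule.span_le]
      rintro _ ⟨i, rfl⟩
      have h1 := hmemb i
      rw [hb'] at h1
      have h2 := Submodule.sub_mem _ h1 hu1
      rwa [add_sub_cancel_left] at h2
    rw [htop]; exact sup_le hC hDle
  obtain ⟨B, hB⟩ := S5958.basis_of_span b hS (by rw [Fintype.card_fin, hV])
  refine ⟨B, fun i => ?_⟩
  rw [hB, hB, hb, hb]
  show y ((y ^ i.val) (u + v)) = (y ^ ((i.val + 1) % r)) (u + v)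
  rw [← pow_eq_pow_mod (i.val + 1) hy, pow_succ', Module.End.mul_apply]

theorem exists_diag_elt (n r : ℕ) (hn : 5 ≤ n) (ζ : F) (hζ1 : ζ ≠ 1) (hζr : ζ ^ r = 1)
    (hr0 : r ≠ 0) :
    ∃ x : Matrix.SpecialLinearGroup (Fin n) F,
      ((x ^ r : Matrix.SpecialLinearGroup (Fin n) F) : Matrix (Fin n) (Fin n) F) = 1 ∧
      (∀ z : F, (x : Matrix (Fin n) (Fin n) F) ≠ z • (1 : Matrix (Fin n) (Fin n) F)) ∧
      n ≤ 2 + finrank F (S5949.Cg (Matrix.toLin' (x : Matrix (Fin n) (Fin n) F))) := by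
  classical
  have hζ0 : ζ ≠ 0 := by rintro rfl; rw [zero_pow hr0] at hζr; exact zero_ne_one hζr
  obtain ⟨i0, hi0⟩ : ∃ i0 : Fin n, i0.val = 0 := ⟨⟨0, by omega⟩, rfl⟩
  obtain ⟨i1, hi1⟩ : ∃ i1 : Fin n, i1.val = 1 := ⟨⟨1, by omega⟩, rfl⟩
  obtain ⟨i2, hi2⟩ : ∃ i2 : Fin n, i2.val = 2 := ⟨⟨2, by omega⟩, rfl⟩
  have h01 : i0 ≠ i1 := by intro h; rw [h] at hi0; omega
  have h20 : i2 ≠ i0 := by intro h; rw [h] at hi2; omega
  have h21 : i2 ≠ i1 := by intro h; rw [h] at hi2; omega
  obtain ⟨d, hd⟩ : ∃ d : Fin n → F, ∀ i, d i = if i = i0 then ζ else if i = i1 then ζ⁻¹ else 1 :=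
    ⟨_, fun _ => rfl⟩
  have hd0 : d i0 = ζ := by rw [hd, if_pos rfl]
  have hd1 : d i1 = ζ⁻¹ := by rw [hd, if_neg h01.symm, if_pos rfl]
  have hd2 : d i2 = 1 := by rw [hd, if_neg h20, if_neg h21]
  have hdet : (Matrix.diagonal d).det = 1 := by
    rw [Matrix.det_diagonal, Finset.prod_eq_mul i0 i1 h01]
    · rw [hd0, hd1, mul_inv_cancel₀ hζ0]
    · intro c _ hc; rw [hd, if_neg hc.1, if_neg hc.2]
    · intro h; exact absurd (Finset.mem_univ _) h
    · intro h; exact absurd (Finset.mem_univ _) h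
  obtain ⟨x, hx⟩ : ∃ x : Matrix.SpecialLinearGroup (Fin n) F,
      (x : Matrix (Fin n) (Fin n) F) = Matrix.diagonal d := ⟨⟨Matrix.diagonal d, hdet⟩, rfl⟩
  refine ⟨x, ?_, ?_, ?_⟩
  · rw [Matrix.SpecialLinearGroup.coe_pow, hx]
    rw [Matrix.diagonal_pow, ← Matrix.diagonal_one]
    congr 1
    funext i
    show d i ^ r = 1
    rw [hd]
    split_ifs
    · exact hζr
    · rw [inv_pow, hζr, inv_one]
    · exact one_pow r
  · intro z hz
    have hz' : Matrix.diagonal d = z • (1 : Matrix (Fin n) (Fin n) F) := by rw [← hx]; exact hz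
    have e0 := congrFun (congrFun hz' i0) i0
    have e2 := congrFun (congrFun hz' i2) i2
    rw [Matrix.diagonal_apply_eq, Matrix.smul_apply, Matrix.one_apply_eq, smul_eq_mul, mul_one]
      at e0 e2
    apply hζ1
    rw [← hd0, e0, ← e2, hd2]
  · have hker : LinearMap.ker ((LinearMap.proj i0 : (Fin n → F) →ₗ[F] F).prod
        (LinearMap.proj i1 : (Fin n → F) →ₗ[F] F)) ≤
        S5949.Cg (Matrix.toLin' (Matrix.diagonal d)) := by
      intro v hv
      rw [LinearMap.mem_ker] at hv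
      have hv0 : v i0 = 0 := congrArg Prod.fst hv
      have hv1 : v i1 = 0 := congrArg Prod.snd hv
      rw [S5949.mem_Cg, Matrix.toLin'_apply]
      funext i
      rw [Matrix.mulVec_diagonal, hd]
      split_ifs with h1 h2
      · rw [h1, hv0, mul_zero]
      · rw [h2, hv1, mul_zero]
      · rw [one_mul]
    have h1 := LinearMap.finrank_range_add_finrank_ker ((LinearMap.proj i0 :
      (Fin n → F) →ₗ[F] F).prod (LinearMap.proj i1 : (Fin n → F) →ₗ[F] F))
    have h2 : finrank F ↥(LinearMap.range ((LinearMap.proj i0 :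
        (Fin n → F) →ₗ[F] F).prod (LinearMap.proj i1 : (Fin n → F) →ₗ[F] F))) ≤ 2 := by
      have := Submodule.finrank_le (LinearMap.range ((LinearMap.proj i0 :
        (Fin n → F) →ₗ[F] F).prod (LinearMap.proj i1 : (Fin n → F) →ₗ[F] F)))
      simpa using this
    have h3 := Submodule.finrank_mono hker
    rw [Module.finrank_fin_fun] at h1
    rw [hx]
    omega

end elts

/-- Elements of order `n` of PSL_n(q), `n` prime, and the normalizer of a Singer cycle. Here `T = PSL_n(F)` for a field `F` with `q = p^f` elements (`n ≥ 2`, `(n, q) ≠ (2, 2), (2, 3)`), `k` is a prime dividing `n`, `K` is a subalgebra of the `n × n` matrices that is a field of degree `k` over `F` (an extension-field structure F_{q^k} on `F^n`), and `H` is the subgroup of matrices of determinant 1 normalizing `K` — a subgroup of type GL_{n/k}(q^k) (maximal except in some small cases; maximality is not assumed); Ω is the set of cosets of `H` in `T`, so an element of `T` of prime order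 `r` (a matrix `x` of determinant 1 with `x^r` scalar, `x` not scalar) fixes a point of Ω when some conjugate of `x` by a matrix of determinant 1 normalizes `K`. Take `k = n > 3` prime with `n ≠ p` (so `H` is the normalizer of a Singer cycle), and suppose `n` divides the index of `H`. Then every element of `T` of order `n` is conjugate in `T` into `H` if and only if the multiplicative order of `q` modulo `n` is `n − 1`. -/
theorem result {F : Type*} [Field F] [Fintype F] {p : ℕ} [Fact p.Prime] [CharP F p] {q : ℕ} (hq : Fintype.card F = q)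
    (n : ℕ) (hn : 2 ≤ n) (hT : (n, q) ≠ (2, 2) ∧ (n, q) ≠ (2, 3))
    (k : ℕ) (hk : k.Prime) (hkn : k ∣ n) (K : Subalgebra F (Matrix (Fin n) (Fin n) F)) (hK : Cfsg.Geo.IsFieldSubalgebra k K) (hkn' : k = n) (hn3 : 3 < n) (hnp : n ≠ p) (hΩ : n ∣ ((Cfsg.Geo.subalgebraNormalizer K).comap (Matrix.SpecialLinearGroup.toGL : Matrix.SpecialLinearGroup (Fin n) F →* GL (Fin n) F)).index) :
    (∀ x : Matrix.SpecialLinearGroup (Fin n) F,
      (∃ z : F, ((x ^ n : Matrix.SpecialLinearGroup (Fin n) F) : Matrix (Fin n) (Fin n) F) = z • (1 : Matrix (Fin n) (Fin n) F)) →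
      (∀ z : F, (x : Matrix (Fin n) (Fin n) F) ≠ z • (1 : Matrix (Fin n) (Fin n) F)) →
      ∃ P : Matrix.SpecialLinearGroup (Fin n) F, P⁻¹ * x * P ∈ ((Cfsg.Geo.subalgebraNormalizer K).comap (Matrix.SpecialLinearGroup.toGL : Matrix.SpecialLinearGroup (Fin n) F →* GL (Fin n) F))) ↔
    orderOf (q : ZMod n) = n - 1 := by
  classical
  have hnP : n.Prime := hkn' ▸ hk
  have hK' : Cfsg.Geo.IsFieldSubalgebra n K := hkn' ▸ hK
  haveI : Fact n.Prime := ⟨hnP⟩
  have hpP := (Fact.out : p.Prime)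
  have hn5 : 5 ≤ n := by
    rcases Nat.lt_or_ge n 5 with h | h
    · exfalso
      have h4 : n = 4 := by omega
      rw [h4] at hnP
      exact absurd hnP (by norm_num)
    · exact h
  subst hq
  have hq2 : 2 ≤ Fintype.card F := Fintype.one_lt_card
  have hfin : finrank F (Fin n → F) = n := by simp
  obtain ⟨kq, -, hkq⟩ := FiniteField.card F p
  have hrq : Nat.Coprime (Fintype.card F) n := by
    rw [Nat.coprime_comm, Nat.Prime.coprime_iff_not_dvd hnP]
    intro h
    rw [hkq] at h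
    exact hnp ((Nat.prime_dvd_prime_iff_eq hnP hpP).mp (hnP.dvd_of_dvd_pow h))
  have hrF : (n : F) ≠ 0 := by
    intro h
    rw [CharP.cast_eq_zero_iff F p] at h
    exact hnp ((Nat.prime_dvd_prime_iff_eq hpP hnP).mp h).symm
  have hi0 : 0 < orderOf ((Fintype.card F : ℕ) : ZMod n) := S5949.order_pos _ n hrq
  have hcdvd : orderOf ((Fintype.card F : ℕ) : ZMod n) ∣ n - 1 := by
    have h1 : ((Fintype.card F : ℕ) : ZMod n) ≠ 0 := by
      intro h
      rw [ZMod.natCast_eq_zero_iff] at h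
      exact (Nat.Prime.coprime_iff_not_dvd hnP).mp hrq.symm h
    exact orderOf_dvd_of_pow_eq_one (ZMod.pow_card_sub_one_eq_one h1)
  obtain ⟨c, hc⟩ : ∃ c, c = orderOf ((Fintype.card F : ℕ) : ZMod n) := ⟨_, rfl⟩
  rw [← hc] at hi0 hcdvd ⊢
  have hcop : 2 ≤ c → Nat.Coprime n (Fintype.card F - 1) := by
    intro h2
    have hnrq : ¬ n ∣ Fintype.card F - 1 := by
      intro h
      have h3 := (S5949.order_one_iff _ n (by omega)).mpr h
      rw [← hc] at h3; omega
    exact (Nat.Prime.coprime_iff_not_dvd hnP).mpr hnrq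
  have hmemN : ∀ g : Matrix.SpecialLinearGroup (Fin n) F,
      g ∈ ((Cfsg.Geo.subalgebraNormalizer K).comap
        (Matrix.SpecialLinearGroup.toGL : Matrix.SpecialLinearGroup (Fin n) F →* GL (Fin n) F)) ↔
      ∀ k : Matrix (Fin n) (Fin n) F, k ∈ K ↔ (g : Matrix (Fin n) (Fin n) F) * k *
        ((g⁻¹ : Matrix.SpecialLinearGroup (Fin n) F) : Matrix (Fin n) (Fin n) F) ∈ K := by
    intro g
    rw [Subgroup.mem_comap]
    rfl
  have hinvmul : ∀ g : Matrix.SpecialLinearGroup (Fin n) F,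
      ((g⁻¹ : Matrix.SpecialLinearGroup (Fin n) F) : Matrix (Fin n) (Fin n) F) *
        (g : Matrix (Fin n) (Fin n) F) = 1 := by
    intro g
    rw [← Matrix.SpecialLinearGroup.coe_mul, inv_mul_cancel, Matrix.SpecialLinearGroup.coe_one]
  have hmulinv : ∀ g : Matrix.SpecialLinearGroup (Fin n) F,
      (g : Matrix (Fin n) (Fin n) F) *
        ((g⁻¹ : Matrix.SpecialLinearGroup (Fin n) F) : Matrix (Fin n) (Fin n) F) = 1 := by
    intro g
    rw [← Matrix.SpecialLinearGroup.coe_mul, mul_inv_cancel, Matrix.SpecialLinearGroup.coe_one]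
  constructor
  · intro hall
    by_contra hcon
    have hc2 : 2 * c ≤ n - 1 := by
      obtain ⟨e, he⟩ := hcdvd
      rcases e with _ | _ | e
      · omega
      · exfalso; apply hcon; omega
      · have h3 : c * (e + 1 + 1) = c * e + 2 * c := by ring
        omega
    have hx : ∃ x : Matrix.SpecialLinearGroup (Fin n) F,
        ((x ^ n : Matrix.SpecialLinearGroup (Fin n) F) : Matrix (Fin n) (Fin n) F) = 1 ∧
        (∀ z : F, (x : Matrix (Fin n) (Fin n) F) ≠ z • (1 : Matrix (Fin n) (Fin n) F)) ∧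
        n < 2 * finrank F (S5949.Cg (Matrix.toLin' (x : Matrix (Fin n) (Fin n) F))) := by
      rcases Nat.lt_or_ge c 2 with h1 | h2
      · have hc1 : c = 1 := by omega
        have hdvd : n ∣ Fintype.card F - 1 :=
          (S5949.order_one_iff _ n (by omega)).mp (by rw [← hc]; exact hc1)
        obtain ⟨g, hg, -⟩ := S5949.exists_gen (F := F)
        obtain ⟨m, hm⟩ := hdvd
        have hζn : ((g ^ m : Fˣ) : F) ^ n = 1 := by
          rw [← Units.val_pow_eq_pow_val, ← pow_mul, Nat.mul_comm, ← hm, ← hg,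
            pow_orderOf_eq_one, Units.val_one]
        have hζ1 : ((g ^ m : Fˣ) : F) ≠ 1 := by
          intro h
          have h2 : g ^ m = 1 := Units.ext h
          have h3 := orderOf_dvd_of_pow_eq_one h2
          rw [hg, hm] at h3
          have hm0 : 0 < m := by
            rcases Nat.eq_zero_or_pos m with h | h
            · rw [h, Nat.mul_zero] at hm; omega
            · exact h
          have h4 := Nat.le_of_dvd hm0 h3
          have h5 : 2 * m ≤ n * m := Nat.mul_le_mul_right m (by omega)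
          omega
        obtain ⟨x, hx1, hx2, hx3⟩ := exists_diag_elt (F := F) n n (by omega) _ hζ1 hζn
          (by omega)
        exact ⟨x, hx1, hx2, by omega⟩
      · obtain ⟨x, hx1, hx2, hx3, hx4⟩ := S5958.exists_one_elt (F := F) n n hrF (hcop h2)
          (by rw [← hc]; exact hi0) (by rw [← hc]; omega)
        rw [← hc] at hx4
        refine ⟨x, hx1, ?_, by omega⟩
        intro z hz
        exact hx3 (S5958.scalar_one n n (by omega) (hcop h2) _ hx2 z hz)
    obtain ⟨x, hx1, hx2, hx3⟩ := hx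
    obtain ⟨P, hP⟩ := hall x ⟨1, by rw [hx1, one_smul]⟩ hx2
    rw [hmemN] at hP
    obtain ⟨g, hg⟩ : ∃ g : Matrix.SpecialLinearGroup (Fin n) F, g = P⁻¹ * x * P := ⟨_, rfl⟩
    rw [← hg] at hP
    have hgM : (g : Matrix (Fin n) (Fin n) F) =
        ((P⁻¹ : Matrix.SpecialLinearGroup (Fin n) F) : Matrix (Fin n) (Fin n) F) *
          (x : Matrix (Fin n) (Fin n) F) * (P : Matrix (Fin n) (Fin n) F) := by
      rw [hg, Matrix.SpecialLinearGroup.coe_mul, Matrix.SpecialLinearGroup.coe_mul]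
    have hle : finrank F (S5949.Cg (Matrix.toLin' (x : Matrix (Fin n) (Fin n) F))) ≤
        finrank F (S5949.Cg (Matrix.toLin' (g : Matrix (Fin n) (Fin n) F))) := by
      have hinj : Function.Injective (Matrix.toLin'
          ((P⁻¹ : Matrix.SpecialLinearGroup (Fin n) F) : Matrix (Fin n) (Fin n) F)) := by
        rw [injective_iff_map_eq_zero]
        intro v hv
        rw [Matrix.toLin'_apply] at hv
        have h1 : Matrix.mulVec ((P : Matrix (Fin n) (Fin n) F) *
            ((P⁻¹ : Matrix.SpecialLinearGroup (Fin n) F) : Matrix (Fin n) (Fin n) F)) v = v := by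
          rw [hmulinv, Matrix.one_mulVec]
        rw [← Matrix.mulVec_mulVec, hv, Matrix.mulVec_zero] at h1
        exact h1.symm
      have hmap : (S5949.Cg (Matrix.toLin' (x : Matrix (Fin n) (Fin n) F))).map (Matrix.toLin'
          ((P⁻¹ : Matrix.SpecialLinearGroup (Fin n) F) : Matrix (Fin n) (Fin n) F)) ≤
          S5949.Cg (Matrix.toLin' (g : Matrix (Fin n) (Fin n) F)) := by
        rintro _ ⟨v, hv0, rfl⟩
        have hv : v ∈ S5949.Cg (Matrix.toLin' (x : Matrix (Fin n) (Fin n) F)) := hv0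
        rw [S5949.mem_Cg, Matrix.toLin'_apply] at hv
        rw [S5949.mem_Cg, Matrix.toLin'_apply, Matrix.toLin'_apply, hgM, Matrix.mulVec_mulVec,
          mul_assoc _ (P : Matrix (Fin n) (Fin n) F), hmulinv, mul_one, ← Matrix.mulVec_mulVec, hv]
      calc finrank F (S5949.Cg (Matrix.toLin' (x : Matrix (Fin n) (Fin n) F)))
          = finrank F ((S5949.Cg (Matrix.toLin' (x : Matrix (Fin n) (Fin n) F))).map (Matrix.toLin'
              ((P⁻¹ : Matrix.SpecialLinearGroup (Fin n) F) : Matrix (Fin n) (Fin n) F))) :=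
            LinearEquiv.finrank_eq (Submodule.equivMapOfInjective _ hinj _)
        _ ≤ _ := Submodule.finrank_mono hmap
    have hG1 := norm_fix K hK' (g : Matrix (Fin n) (Fin n) F)
      ((g⁻¹ : Matrix.SpecialLinearGroup (Fin n) F) : Matrix (Fin n) (Fin n) F) (hinvmul g)
      (fun κ hκ => (hP κ).mp hκ) (by omega)
    have hG : (g : Matrix (Fin n) (Fin n) F) = 1 := by
      have h2 := congrArg LinearMap.toMatrix' hG1
      rw [LinearMap.toMatrix'_toLin'] at h2
      rw [h2]; exact LinearMap.toMatrix'_one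
    have hg1 : g = 1 := Subtype.ext hG
    have hx' : x = 1 := by
      rw [hg] at hg1
      have h2 : x = P * (P⁻¹ * x * P) * P⁻¹ := by group
      rw [h2, hg1]; group
    apply hx2 1
    rw [hx', one_smul]; rfl
  · intro hcn1 x hx hxns
    have hc2 : 2 ≤ c := by omega
    have hcop' := hcop hc2
    obtain ⟨z, hxz⟩ := hx
    have hz1 : z = 1 := by
      have h1 := (x ^ n).det_coe
      rw [hxz, Matrix.det_smul, Matrix.det_one, mul_one, Fintype.card_fin] at h1
      have h0 : z ≠ 0 := by rintro rfl; rw [zero_pow (by omega)] at h1; exact zero_ne_one h1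
      have h2 : z ^ (Fintype.card F - 1) = 1 := FiniteField.pow_card_sub_one_eq_one _ h0
      have h3 := pow_gcd_eq_one.mpr ⟨h1, h2⟩
      rw [Nat.Coprime.gcd_eq_one hcop', pow_one] at h3
      exact h3
    rw [hz1, one_smul] at hxz
    obtain ⟨f, hf⟩ : ∃ f : Module.End F (Fin n → F),
        f = Matrix.toLin' (x : Matrix (Fin n) (Fin n) F) := ⟨_, rfl⟩
    have hfr : f ^ n = 1 := by
      have h1 : (x : Matrix (Fin n) (Fin n) F) ^ n = 1 := by
        rw [← Matrix.SpecialLinearGroup.coe_pow]; exact hxz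
      have h2 := congrArg (Matrix.toLinAlgEquiv' (R := F) (n := Fin n)) h1
      rw [map_pow, map_one] at h2
      rw [hf]; exact h2
    have hf1 : f ≠ 1 := by
      intro h
      apply hxns 1
      rw [one_smul]
      have h2 := congrArg LinearMap.toMatrix' h
      rw [hf, LinearMap.toMatrix'_toLin'] at h2
      rw [h2]; exact LinearMap.toMatrix'_one
    obtain ⟨H, Hi, hHHi, hHiH, hHn, hH1, hHN⟩ := exists_frob K (by omega) hK' (p := p)
    obtain ⟨h, hh⟩ : ∃ h : Module.End F (Fin n → F), h = Matrix.toLin' H := ⟨_, rfl⟩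
    have hhn : h ^ n = 1 := by
      have h2 := congrArg (Matrix.toLinAlgEquiv' (R := F) (n := Fin n)) hHn
      rw [map_pow, map_one] at h2
      rw [hh]; exact h2
    have hh1 : h ≠ 1 := by
      intro h2
      apply hH1
      have h3 := congrArg LinearMap.toMatrix' h2
      rw [hh, LinearMap.toMatrix'_toLin'] at h3
      rw [h3]; exact LinearMap.toMatrix'_one
    obtain ⟨bx, hbx⟩ := perm_basis f n (by omega) hrF hfr hf1 (by rw [← hc]; exact hcn1) hfin
    obtain ⟨bh, hbh⟩ := perm_basis h n (by omega) hrF hhn hh1 (by rw [← hc]; exact hcn1) hfin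
    obtain ⟨T, hT⟩ : ∃ T : (Fin n → F) ≃ₗ[F] (Fin n → F), T = bh.equiv bx (Equiv.refl _) :=
      ⟨_, rfl⟩
    have hTb : ∀ i, T (bh i) = bx i := by intro i; rw [hT, Basis.equiv_apply]; rfl
    have hfT : f ∘ₗ T.toLinearMap = T.toLinearMap ∘ₗ h := by
      apply bh.ext
      intro i
      simp only [LinearMap.comp_apply, LinearEquiv.coe_coe]
      rw [hTb, hbx, hbh, hTb]
    have hδ : LinearMap.det T.toLinearMap ≠ 0 := (LinearEquiv.isUnit_det' T).ne_zero
    obtain ⟨μ, hμ0, hμ⟩ := S5949.exists_root_of_coprime n hcop' (LinearMap.det T.toLinearMap)⁻¹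
      (inv_ne_zero hδ)
    obtain ⟨MT, hMT⟩ : ∃ MT : Matrix (Fin n) (Fin n) F, MT = LinearMap.toMatrix' T.toLinearMap :=
      ⟨_, rfl⟩
    have hXMT : (x : Matrix (Fin n) (Fin n) F) * MT = MT * H := by
      have h1 := congrArg LinearMap.toMatrix' hfT
      rw [LinearMap.toMatrix'_comp, LinearMap.toMatrix'_comp, hf, hh, LinearMap.toMatrix'_toLin',
        LinearMap.toMatrix'_toLin'] at h1
      rw [hMT]; exact h1
    have hdetP : (μ • MT).det = 1 := by
      rw [Matrix.det_smul, Fintype.card_fin, hMT, LinearMap.det_toMatrix', hμ, inv_mul_cancel₀ hδ]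
    have hdetH : H.det = 1 := by
      have h1 : H.det ^ n = 1 := by rw [← Matrix.det_pow, hHn, Matrix.det_one]
      have h0 : H.det ≠ 0 := by
        intro h; rw [h, zero_pow (by omega)] at h1; exact zero_ne_one h1
      have h2 : H.det ^ (Fintype.card F - 1) = 1 := FiniteField.pow_card_sub_one_eq_one _ h0
      have h3 := pow_gcd_eq_one.mpr ⟨h1, h2⟩
      rw [Nat.Coprime.gcd_eq_one hcop', pow_one] at h3
      exact h3
    obtain ⟨P, hPdef⟩ : ∃ P : Matrix.SpecialLinearGroup (Fin n) F,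
        (P : Matrix (Fin n) (Fin n) F) = μ • MT := ⟨⟨μ • MT, hdetP⟩, rfl⟩
    obtain ⟨xh, hxh⟩ : ∃ xh : Matrix.SpecialLinearGroup (Fin n) F,
        (xh : Matrix (Fin n) (Fin n) F) = H := ⟨⟨H, hdetH⟩, rfl⟩
    have hconj : P⁻¹ * x * P = xh := by
      have h1 : x * P = P * xh := by
        apply Subtype.ext
        show (x : Matrix (Fin n) (Fin n) F) * (P : Matrix (Fin n) (Fin n) F) =
          (P : Matrix (Fin n) (Fin n) F) * (xh : Matrix (Fin n) (Fin n) F)
        rw [hPdef, hxh, Matrix.mul_smul, Matrix.smul_mul, hXMT]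
      rw [mul_assoc, h1, ← mul_assoc, inv_mul_cancel, one_mul]
    refine ⟨P, ?_⟩
    rw [hconj, hmemN]
    intro k
    have hxhi : ((xh⁻¹ : Matrix.SpecialLinearGroup (Fin n) F) : Matrix (Fin n) (Fin n) F) = Hi := by
      have h1 := hinvmul xh
      rw [hxh] at h1
      calc ((xh⁻¹ : Matrix.SpecialLinearGroup (Fin n) F) : Matrix (Fin n) (Fin n) F)
          = ((xh⁻¹ : Matrix.SpecialLinearGroup (Fin n) F) : Matrix (Fin n) (Fin n) F) * (H * Hi) := by
            rw [hHHi, mul_one]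
        _ = Hi := by rw [← mul_assoc, h1, one_mul]
    rw [hxhi, hxh]
    exact hHN k


end Cfsg.Agent.S5970
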