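import Cfsg.Statements.S5971
import Mathlib
import Cfsg.Agent.S5949
import Cfsg.Agent.S5951
import Cfsg.Agent.S5958
import Cfsg.Agent.S5970

set_option autoImplicit false
set_option maxHeartbeats 400000
open scoped MatrixGroups
open Cfsg

namespace Cfsg.Agent.S5971

open Polynomial Module

section lin

variable {F : Type*} [Field F] {V : Type*} [AddCommGroup V] [Module F V] [FiniteDimensional F V]

theorem diag_toLin {ι : Type*} [Fintype ι] [DecidableEq ι] (B : Basis ι F V) (d : ι → F) (k : ι) :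
    Matrix.toLin B B (Matrix.diagonal d) (B k) = d k • B k := by
  rw [Matrix.toLin_self, Finset.sum_eq_single k]
  · rw [Matrix.diagonal_apply_eq]
  · intro i _ hik; rw [Matrix.diagonal_apply_ne _ hik, zero_smul]
  · intro h; exact absurd (Finset.mem_univ k) h

theorem no_refl (y : Module.End F V) (h3 : (3 : F) ≠ 0) (hy3 : y ^ 3 = 1)
    (hdet : LinearMap.det y = 1) (hV : finrank F V = 3) (hC : 2 ≤ finrank F (S5949.Cg y)) :
    y = 1 := by
  classical
  have h3' : ((3 : ℕ) : F) ≠ 0 := by exact_mod_cast h3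
  have hsplit := S5949.split_finrank y 3 h3' hy3 ⊤ (fun w _ => Submodule.mem_top)
  rw [top_inf_eq, top_inf_eq, finrank_top, hV] at hsplit
  by_contra hne
  have hCle : finrank F (S5949.Cg y) ≤ 2 := by
    by_contra h
    have h4 : finrank F (S5949.Cg y) = finrank F V := by
      have := Submodule.finrank_le (S5949.Cg y); omega
    have h5 : S5949.Cg y = ⊤ := Submodule.eq_top_of_finrank_eq h4
    apply hne
    apply LinearMap.ext; intro v
    have h6 : v ∈ S5949.Cg y := by rw [h5]; exact Submodule.mem_top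
    rw [S5949.mem_Cg] at h6
    rw [h6]; rfl
  have hC2 : finrank F (S5949.Cg y) = 2 := by omega
  have hD1 : finrank F (S5949.Dg y 3) = 1 := by omega
  obtain ⟨⟨w, hwD⟩, hw0, hw⟩ := finrank_eq_one_iff'.mp hD1
  have hw0' : w ≠ 0 := fun h => hw0 (Subtype.ext h)
  obtain ⟨β, hβ⟩ := hw ⟨y w, S5949.Dg_inv y 3 w hwD⟩
  have hβ' : y w = β • w := (congrArg Subtype.val hβ).symm
  have hβ2 : 1 + β + β ^ 2 = 0 := by
    have h1 : (∑ j ∈ Finset.range 3, y ^ j) w = 0 := hwD
    rw [Finset.sum_range_succ, Finset.sum_range_succ, Finset.sum_range_one, LinearMap.add_apply,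
      LinearMap.add_apply, pow_zero, pow_one, pow_two, Module.End.one_apply, Module.End.mul_apply,
      hβ', map_smul, hβ'] at h1
    have h2 : (1 + β + β ^ 2) • w = 0 := by rw [← h1]; module
    exact (smul_eq_zero.mp h2).resolve_right hw0'
  obtain ⟨bc⟩ : Nonempty (Basis (Fin 2) F (S5949.Cg y)) :=
    ⟨Module.finBasisOfFinrankEq F (S5949.Cg y) hC2⟩
  obtain ⟨b, hb⟩ : ∃ b : Fin 2 ⊕ Unit → V, b = Sum.elim (fun i => (bc i : V)) (fun _ => w) :=
    ⟨_, rfl⟩
  have hspan : ⊤ ≤ Submodule.span F (Set.range b) := by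
    have hCD : (⊤ : Submodule F V) = S5949.Cg y ⊔ S5949.Dg y 3 := by
      have := S5949.split y 3 h3' hy3 ⊤ (fun w _ => Submodule.mem_top)
      rw [top_inf_eq, top_inf_eq] at this; exact this
    rw [hCD]
    apply sup_le
    · intro v hv
      have h1 := bc.sum_repr ⟨v, hv⟩
      have h2 := congrArg Subtype.val h1
      rw [Submodule.coe_sum] at h2
      simp only [Submodule.coe_smul] at h2
      rw [← h2]
      exact Submodule.sum_mem _ (fun i _ => Submodule.smul_mem _ _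
        (Submodule.subset_span ⟨Sum.inl i, by rw [hb]; rfl⟩))
    · intro v hv
      obtain ⟨c, hc⟩ := hw ⟨v, hv⟩
      have h2 : c • w = v := congrArg Subtype.val hc
      rw [← h2]
      exact Submodule.smul_mem _ _ (Submodule.subset_span ⟨Sum.inr (), by rw [hb]; rfl⟩)
  obtain ⟨B, hB⟩ := S5958.basis_of_span b hspan (by simp [hV])
  obtain ⟨d, hd⟩ : ∃ d : Fin 2 ⊕ Unit → F, d = Sum.elim (fun _ => 1) (fun _ => β) := ⟨_, rfl⟩
  have hyB : ∀ k, y (B k) = d k • B k := by
    intro k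
    rw [hB, hb, hd]
    rcases k with i | u
    · simp only [Sum.elim_inl]; rw [one_smul]; exact (S5949.mem_Cg y _).mp (bc i).2
    · simp only [Sum.elim_inr]; exact hβ'
  have hy : y = Matrix.toLin B B (Matrix.diagonal d) := by
    apply B.ext; intro k
    rw [diag_toLin, hyB]
  have hdet2 : LinearMap.det (Matrix.toLin B B (Matrix.diagonal d)) = 1 := by
    rw [← hy]; exact hdet
  rw [LinearMap.det_toLin, Matrix.det_diagonal, Fintype.prod_sum_type, hd] at hdet2
  simp at hdet2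
  rw [hdet2] at hβ2
  apply h3; rw [← hβ2]; norm_num

theorem eig_le_one (f : Module.End F V) (h3 : (3 : F) ≠ 0) (hf3 : f ^ 3 = 1)
    (hdet : LinearMap.det f = 1) (hV : finrank F V = 3) (c : F) (hc : c ^ 3 = 1)
    (hns : f ≠ c • (1 : Module.End F V)) :
    finrank F (LinearMap.ker (f - c • (1 : Module.End F V))) ≤ 1 := by
  by_contra hcon
  have hc0 : c ≠ 0 := by rintro rfl; rw [zero_pow (by norm_num)] at hc; exact zero_ne_one hc
  have hci : (c⁻¹) ^ 3 = 1 := by rw [inv_pow, hc, inv_one]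
  have h1 : (c⁻¹ • f) ^ 3 = 1 := by rw [_root_.smul_pow, hci, one_smul, hf3]
  have h2 : LinearMap.det (c⁻¹ • f) = 1 := by
    rw [LinearMap.det_smul, hV, hci, one_mul, hdet]
  have h4 : LinearMap.ker (f - c • (1 : Module.End F V)) ≤ S5949.Cg (c⁻¹ • f) := by
    intro v hv
    rw [LinearMap.mem_ker, LinearMap.sub_apply, LinearMap.smul_apply, Module.End.one_apply,
      sub_eq_zero] at hv
    rw [S5949.mem_Cg, LinearMap.smul_apply, hv, smul_smul, inv_mul_cancel₀ hc0, one_smul]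
  have h5 := Submodule.finrank_mono h4
  have h6 := no_refl (c⁻¹ • f) h3 h1 h2 hV (by omega)
  apply hns
  rw [← h6, smul_smul, mul_inv_cancel₀ hc0, one_smul]

theorem eig_basis3 (f : Module.End F V) (e : Fin 3 → F) (he3 : ∀ j, e j ^ 3 = 1)
    (hs1 : e 0 + e 1 + e 2 = 0) (hs2 : e 0 ^ 2 + e 1 ^ 2 + e 2 ^ 2 = 0)
    (h3 : (3 : F) ≠ 0) (hf3 : f ^ 3 = 1) (hV : finrank F V = 3)
    (hE : ∀ j : Fin 3, finrank F (LinearMap.ker (f - e j • (1 : Module.End F V))) ≤ 1) :
    ∃ b : Basis (Fin 3) F V, ∀ j : Fin 3, f (b j) = e j • b j := by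
  have hfff : ∀ v, f (f (f v)) = v := by
    intro v
    have h : (f ^ 3) v = v := by rw [hf3]; rfl
    rw [Module.End.pow_apply] at h
    exact h
  have hpi : ∀ (j : Fin 3) (v : V), (3 : F)⁻¹ • (v + e j ^ 2 • f v + e j • f (f v)) ∈
      LinearMap.ker (f - e j • (1 : Module.End F V)) := by
    intro j v
    rw [LinearMap.mem_ker, LinearMap.sub_apply, LinearMap.smul_apply, Module.End.one_apply,
      sub_eq_zero]
    rw [map_smul, map_add, map_add, map_smul, map_smul, hfff]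
    have h1 : e j • (3 : F)⁻¹ • (v + e j ^ 2 • f v + e j • f (f v)) =
        (3 : F)⁻¹ • (e j • v + e j ^ 3 • f v + e j ^ 2 • f (f v)) := by module
    rw [h1, he3 j, one_smul]
    congr 1
    abel
  have hsum : ∀ v : V, v = (3 : F)⁻¹ • (v + e 0 ^ 2 • f v + e 0 • f (f v)) +
      (3 : F)⁻¹ • (v + e 1 ^ 2 • f v + e 1 • f (f v)) +
      (3 : F)⁻¹ • (v + e 2 ^ 2 • f v + e 2 • f (f v)) := by
    intro v
    have h1 : (3 : F)⁻¹ • (v + e 0 ^ 2 • f v + e 0 • f (f v)) +
      (3 : F)⁻¹ • (v + e 1 ^ 2 • f v + e 1 • f (f v)) +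
      (3 : F)⁻¹ • (v + e 2 ^ 2 • f v + e 2 • f (f v)) =
      (3 : F)⁻¹ • ((3 : F) • v + (e 0 ^ 2 + e 1 ^ 2 + e 2 ^ 2) • f v +
        (e 0 + e 1 + e 2) • f (f v)) := by module
    rw [h1, hs1, hs2, zero_smul, zero_smul, add_zero, add_zero, smul_smul, inv_mul_cancel₀ h3,
      one_smul]
  obtain ⟨E, hEdef⟩ : ∃ E : Fin 3 → Submodule F V,
      E = fun j => LinearMap.ker (f - e j • (1 : Module.End F V)) := ⟨_, rfl⟩
  have hEj : ∀ j, E j = LinearMap.ker (f - e j • (1 : Module.End F V)) := by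
    intro j; rw [hEdef]
  have htop : (⊤ : Submodule F V) ≤ E 0 ⊔ E 1 ⊔ E 2 := by
    intro v _
    rw [hsum v]
    refine Submodule.add_mem _ (Submodule.add_mem _ ?_ ?_) ?_
    · exact Submodule.mem_sup_left (Submodule.mem_sup_left (by rw [hEj]; exact hpi 0 v))
    · exact Submodule.mem_sup_left (Submodule.mem_sup_right (by rw [hEj]; exact hpi 1 v))
    · exact Submodule.mem_sup_right (by rw [hEj]; exact hpi 2 v)
  have hd : 3 ≤ finrank F (E 0) + finrank F (E 1) + finrank F (E 2) := by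
    have h1 := Submodule.finrank_mono htop
    rw [finrank_top, hV] at h1
    have h2 := Submodule.finrank_add_le_finrank_add_finrank (E 0 ⊔ E 1) (E 2)
    have h3 := Submodule.finrank_add_le_finrank_add_finrank (E 0) (E 1)
    omega
  have hE' : ∀ j, finrank F (E j) ≤ 1 := by intro j; rw [hEj]; exact hE j
  have hE0 : finrank F (E 0) = 1 := by
    have := hE' 0; have := hE' 1; have := hE' 2; omega
  have hE1 : finrank F (E 1) = 1 := by
    have := hE' 0; have := hE' 1; have := hE' 2; omega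
  have hE2 : finrank F (E 2) = 1 := by
    have := hE' 0; have := hE' 1; have := hE' 2; omega
  have hEall : ∀ j, finrank F (E j) = 1 := by
    intro j; fin_cases j
    · exact hE0
    · exact hE1
    · exact hE2
  have hb : ∀ j, ∃ w : V, w ∈ E j ∧ ∀ v ∈ E j, ∃ c : F, c • w = v := by
    intro j
    obtain ⟨⟨w, hwE⟩, -, hw⟩ := finrank_eq_one_iff'.mp (hEall j)
    refine ⟨w, hwE, fun v hv => ?_⟩
    obtain ⟨c, hc⟩ := hw ⟨v, hv⟩
    exact ⟨c, congrArg Subtype.val hc⟩
  choose b hbE hbs using hb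
  have hspan : ⊤ ≤ Submodule.span F (Set.range b) := by
    refine htop.trans (sup_le (sup_le ?_ ?_) ?_)
    · intro v hv; obtain ⟨c, rfl⟩ := hbs _ v hv
      exact Submodule.smul_mem _ _ (Submodule.subset_span ⟨_, rfl⟩)
    · intro v hv; obtain ⟨c, rfl⟩ := hbs _ v hv
      exact Submodule.smul_mem _ _ (Submodule.subset_span ⟨_, rfl⟩)
    · intro v hv; obtain ⟨c, rfl⟩ := hbs _ v hv
      exact Submodule.smul_mem _ _ (Submodule.subset_span ⟨_, rfl⟩)
  obtain ⟨B, hB⟩ := S5958.basis_of_span b hspan (by simp [hV])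
  refine ⟨B, fun j => ?_⟩
  rw [hB]
  have h1 := hbE j
  rw [hEj, LinearMap.mem_ker, LinearMap.sub_apply, LinearMap.smul_apply, Module.End.one_apply,
    sub_eq_zero] at h1
  exact h1

theorem eig_conj {ι : Type*} [Fintype ι] [DecidableEq ι] (i₀ : ι) (f h : Module.End F V)
    (e : ι → F) (bf bh : Basis ι F V)
    (hf : ∀ i, f (bf i) = e i • bf i) (hh : ∀ i, h (bh i) = e i • bh i) :
    ∃ T : Module.End F V, LinearMap.det T = 1 ∧ f ∘ₗ T = T ∘ₗ h := by
  obtain ⟨T₀, hT₀⟩ : ∃ T₀ : V ≃ₗ[F] V, T₀ = bh.equiv bf (Equiv.refl _) := ⟨_, rfl⟩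
  have hT₀b : ∀ i, T₀ (bh i) = bf i := by intro i; rw [hT₀, Basis.equiv_apply]; rfl
  have hδ : LinearMap.det T₀.toLinearMap ≠ 0 := (LinearEquiv.isUnit_det' T₀).ne_zero
  obtain ⟨w, hw⟩ : ∃ w : ι → F,
      w = Function.update (fun _ => (1 : F)) i₀ (LinearMap.det T₀.toLinearMap)⁻¹ := ⟨_, rfl⟩
  refine ⟨Matrix.toLin bf bf (Matrix.diagonal w) ∘ₗ T₀.toLinearMap, ?_, ?_⟩
  · rw [LinearMap.det_comp, LinearMap.det_toLin, Matrix.det_diagonal, hw,
      Finset.prod_update_of_mem (Finset.mem_univ i₀)]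
    simp [inv_mul_cancel₀ hδ]
  · apply bh.ext; intro i
    simp only [LinearMap.comp_apply, LinearEquiv.coe_coe]
    rw [hT₀b, diag_toLin, map_smul, hf, hh, map_smul, hT₀b, map_smul, diag_toLin]
    exact smul_comm _ _ _

end lin

section mat

variable {F : Type*} [Field F]

theorem not_conj {n : ℕ} (K : Subalgebra F (Matrix (Fin n) (Fin n) F))
    (hK : Cfsg.Geo.IsFieldSubalgebra n K)
    (x : Matrix.SpecialLinearGroup (Fin n) F) (μ : F) (hμ : μ ≠ 0)
    (hdim : n < 2 * finrank F (S5949.Cg (Matrix.toLin' (μ • (x : Matrix (Fin n) (Fin n) F)))))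
    (hns : ∀ z : F, (x : Matrix (Fin n) (Fin n) F) ≠ z • (1 : Matrix (Fin n) (Fin n) F))
    (P : Matrix.SpecialLinearGroup (Fin n) F)
    (hP : P⁻¹ * x * P ∈ ((Cfsg.Geo.subalgebraNormalizer K).comap
      (Matrix.SpecialLinearGroup.toGL : Matrix.SpecialLinearGroup (Fin n) F →* GL (Fin n) F))) :
    False := by
  have hmemN : ∀ g : Matrix.SpecialLinearGroup (Fin n) F,
      g ∈ ((Cfsg.Geo.subalgebraNormalizer K).comap
        (Matrix.SpecialLinearGroup.toGL : Matrix.SpecialLinearGroup (Fin n) F →* GL (Fin n) F)) ↔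
      ∀ k : Matrix (Fin n) (Fin n) F, k ∈ K ↔ (g : Matrix (Fin n) (Fin n) F) * k *
        ((g⁻¹ : Matrix.SpecialLinearGroup (Fin n) F) : Matrix (Fin n) (Fin n) F) ∈ K := by
    intro g
    rw [Subgroup.mem_comap]
    rfl
  have hinvmul : ∀ g : Matrix.SpecialLinearGroup (Fin n) F,
      ((g⁻¹ : Matrix.SpecialLinearGroup (Fin n) F) : Matrix (Fin n) (Fin n) F) *
        (g : Matrix (Fin n) (Fin n) F) = 1 := by
    intro g
    rw [← Matrix.SpecialLinearGroup.coe_mul, inv_mul_cancel, Matrix.SpecialLinearGroup.coe_one]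
  have hmulinv : ∀ g : Matrix.SpecialLinearGroup (Fin n) F,
      (g : Matrix (Fin n) (Fin n) F) *
        ((g⁻¹ : Matrix.SpecialLinearGroup (Fin n) F) : Matrix (Fin n) (Fin n) F) = 1 := by
    intro g
    rw [← Matrix.SpecialLinearGroup.coe_mul, mul_inv_cancel, Matrix.SpecialLinearGroup.coe_one]
  rw [hmemN] at hP
  obtain ⟨g, hg⟩ : ∃ g : Matrix.SpecialLinearGroup (Fin n) F, g = P⁻¹ * x * P := ⟨_, rfl⟩
  rw [← hg] at hP
  have hgM : (g : Matrix (Fin n) (Fin n) F) =
      ((P⁻¹ : Matrix.SpecialLinearGroup (Fin n) F) : Matrix (Fin n) (Fin n) F) *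
        (x : Matrix (Fin n) (Fin n) F) * (P : Matrix (Fin n) (Fin n) F) := by
    rw [hg, Matrix.SpecialLinearGroup.coe_mul, Matrix.SpecialLinearGroup.coe_mul]
  have hle : finrank F (S5949.Cg (Matrix.toLin' (μ • (x : Matrix (Fin n) (Fin n) F)))) ≤
      finrank F (S5949.Cg (Matrix.toLin' (μ • (g : Matrix (Fin n) (Fin n) F)))) := by
    have hinj : Function.Injective (Matrix.toLin'
        ((P⁻¹ : Matrix.SpecialLinearGroup (Fin n) F) : Matrix (Fin n) (Fin n) F)) := by
      rw [injective_iff_map_eq_zero]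
      intro v hv
      rw [Matrix.toLin'_apply] at hv
      have h1 : Matrix.mulVec ((P : Matrix (Fin n) (Fin n) F) *
          ((P⁻¹ : Matrix.SpecialLinearGroup (Fin n) F) : Matrix (Fin n) (Fin n) F)) v = v := by
        rw [hmulinv, Matrix.one_mulVec]
      rw [← Matrix.mulVec_mulVec, hv, Matrix.mulVec_zero] at h1
      exact h1.symm
    have hmap : (S5949.Cg (Matrix.toLin' (μ • (x : Matrix (Fin n) (Fin n) F)))).map (Matrix.toLin'
        ((P⁻¹ : Matrix.SpecialLinearGroup (Fin n) F) : Matrix (Fin n) (Fin n) F)) ≤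
        S5949.Cg (Matrix.toLin' (μ • (g : Matrix (Fin n) (Fin n) F))) := by
      rintro _ ⟨v, hv0, rfl⟩
      have hv : v ∈ S5949.Cg (Matrix.toLin' (μ • (x : Matrix (Fin n) (Fin n) F))) := hv0
      rw [S5949.mem_Cg, Matrix.toLin'_apply, Matrix.smul_mulVec] at hv
      rw [S5949.mem_Cg, Matrix.toLin'_apply, Matrix.toLin'_apply, Matrix.smul_mulVec, hgM,
        Matrix.mulVec_mulVec, mul_assoc _ (P : Matrix (Fin n) (Fin n) F), hmulinv, mul_one,
        ← Matrix.mulVec_mulVec, ← Matrix.mulVec_smul, hv]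
    calc finrank F (S5949.Cg (Matrix.toLin' (μ • (x : Matrix (Fin n) (Fin n) F))))
        = finrank F ((S5949.Cg (Matrix.toLin' (μ • (x : Matrix (Fin n) (Fin n) F)))).map
            (Matrix.toLin'
            ((P⁻¹ : Matrix.SpecialLinearGroup (Fin n) F) : Matrix (Fin n) (Fin n) F))) :=
          LinearEquiv.finrank_eq (Submodule.equivMapOfInjective _ hinj _)
      _ ≤ _ := Submodule.finrank_mono hmap
  have hGi : (μ⁻¹ • ((g⁻¹ : Matrix.SpecialLinearGroup (Fin n) F) : Matrix (Fin n) (Fin n) F)) *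
      (μ • (g : Matrix (Fin n) (Fin n) F)) = 1 := by
    rw [Matrix.smul_mul, Matrix.mul_smul, smul_smul, inv_mul_cancel₀ hμ, one_smul, hinvmul]
  have hnorm : ∀ κ ∈ K, (μ • (g : Matrix (Fin n) (Fin n) F)) * κ *
      (μ⁻¹ • ((g⁻¹ : Matrix.SpecialLinearGroup (Fin n) F) : Matrix (Fin n) (Fin n) F)) ∈ K := by
    intro κ hκ
    have h1 : (μ • (g : Matrix (Fin n) (Fin n) F)) * κ *
        (μ⁻¹ • ((g⁻¹ : Matrix.SpecialLinearGroup (Fin n) F) : Matrix (Fin n) (Fin n) F)) =
        (g : Matrix (Fin n) (Fin n) F) * κ *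
        ((g⁻¹ : Matrix.SpecialLinearGroup (Fin n) F) : Matrix (Fin n) (Fin n) F) := by
      rw [Matrix.smul_mul, Matrix.smul_mul, Matrix.mul_smul, smul_smul, mul_inv_cancel₀ hμ,
        one_smul]
    rw [h1]
    exact (hP κ).mp hκ
  have hG1 := S5970.norm_fix K hK _ _ hGi hnorm (by omega)
  have hG : μ • (g : Matrix (Fin n) (Fin n) F) = 1 := by
    have h2 := congrArg LinearMap.toMatrix' hG1
    rw [LinearMap.toMatrix'_toLin'] at h2
    rw [h2]; exact LinearMap.toMatrix'_one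
  have hg2 : (g : Matrix (Fin n) (Fin n) F) = μ⁻¹ • (1 : Matrix (Fin n) (Fin n) F) := by
    rw [← hG, smul_smul, inv_mul_cancel₀ hμ, one_smul]
  have hx' : x = P * g * P⁻¹ := by
    rw [hg]; group
  apply hns μ⁻¹
  rw [hx', Matrix.SpecialLinearGroup.coe_mul, Matrix.SpecialLinearGroup.coe_mul, hg2,
    Matrix.mul_smul, Matrix.smul_mul, mul_one, hmulinv]

theorem conj_final {n : ℕ} (K : Subalgebra F (Matrix (Fin n) (Fin n) F))
    (x : Matrix.SpecialLinearGroup (Fin n) F) (H Hi MT : Matrix (Fin n) (Fin n) F)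
    (hHHi : H * Hi = 1) (hHN : ∀ k, k ∈ K ↔ H * k * Hi ∈ K) (hdetP : MT.det = 1)
    (hXMT : (x : Matrix (Fin n) (Fin n) F) * MT = MT * H) :
    ∃ P : Matrix.SpecialLinearGroup (Fin n) F, P⁻¹ * x * P ∈
      ((Cfsg.Geo.subalgebraNormalizer K).comap
      (Matrix.SpecialLinearGroup.toGL : Matrix.SpecialLinearGroup (Fin n) F →* GL (Fin n) F)) := by
  have hmemN : ∀ g : Matrix.SpecialLinearGroup (Fin n) F,
      g ∈ ((Cfsg.Geo.subalgebraNormalizer K).comap
        (Matrix.SpecialLinearGroup.toGL : Matrix.SpecialLinearGroup (Fin n) F →* GL (Fin n) F)) ↔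
      ∀ k : Matrix (Fin n) (Fin n) F, k ∈ K ↔ (g : Matrix (Fin n) (Fin n) F) * k *
        ((g⁻¹ : Matrix.SpecialLinearGroup (Fin n) F) : Matrix (Fin n) (Fin n) F) ∈ K := by
    intro g
    rw [Subgroup.mem_comap]
    rfl
  have hinvmul : ∀ g : Matrix.SpecialLinearGroup (Fin n) F,
      ((g⁻¹ : Matrix.SpecialLinearGroup (Fin n) F) : Matrix (Fin n) (Fin n) F) *
        (g : Matrix (Fin n) (Fin n) F) = 1 := by
    intro g
    rw [← Matrix.SpecialLinearGroup.coe_mul, inv_mul_cancel, Matrix.SpecialLinearGroup.coe_one]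
  have hdetH : H.det = 1 := by
    have h1 := congrArg Matrix.det hXMT
    rw [Matrix.det_mul, Matrix.det_mul, x.det_coe, hdetP, one_mul, one_mul] at h1
    exact h1.symm
  obtain ⟨P, hPdef⟩ : ∃ P : Matrix.SpecialLinearGroup (Fin n) F,
      (P : Matrix (Fin n) (Fin n) F) = MT := ⟨⟨MT, hdetP⟩, rfl⟩
  obtain ⟨xh, hxh⟩ : ∃ xh : Matrix.SpecialLinearGroup (Fin n) F,
      (xh : Matrix (Fin n) (Fin n) F) = H := ⟨⟨H, hdetH⟩, rfl⟩
  have hconj : P⁻¹ * x * P = xh := by
    have h1 : x * P = P * xh := by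
      apply Subtype.ext
      show (x : Matrix (Fin n) (Fin n) F) * (P : Matrix (Fin n) (Fin n) F) =
        (P : Matrix (Fin n) (Fin n) F) * (xh : Matrix (Fin n) (Fin n) F)
      rw [hPdef, hxh, hXMT]
    rw [mul_assoc, h1, ← mul_assoc, inv_mul_cancel, one_mul]
  refine ⟨P, ?_⟩
  rw [hconj, hmemN]
  intro k
  have hxhi : ((xh⁻¹ : Matrix.SpecialLinearGroup (Fin n) F) : Matrix (Fin n) (Fin n) F) = Hi := by
    have h1 := hinvmul xh
    rw [hxh] at h1
    calc ((xh⁻¹ : Matrix.SpecialLinearGroup (Fin n) F) : Matrix (Fin n) (Fin n) F)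
        = ((xh⁻¹ : Matrix.SpecialLinearGroup (Fin n) F) : Matrix (Fin n) (Fin n) F) * (H * Hi) := by
          rw [hHHi, mul_one]
      _ = Hi := by rw [← mul_assoc, h1, one_mul]
  rw [hxhi, hxh]
  exact hHN k

theorem frob_eig (K : Subalgebra F (Matrix (Fin 3) (Fin 3) F))
    (hK : Cfsg.Geo.IsFieldSubalgebra 3 K) (H Hi : Matrix (Fin 3) (Fin 3) F)
    (hHiH : Hi * H = 1) (hHN : ∀ k, k ∈ K ↔ H * k * Hi ∈ K)
    (hns : ∀ c : F, H ≠ c • (1 : Matrix (Fin 3) (Fin 3) F)) (c : F) (hc0 : c ≠ 0) :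
    finrank F (LinearMap.ker (Matrix.toLin' H - c • (1 : Module.End F (Fin 3 → F)))) ≤ 1 := by
  by_contra hcon
  have h4 : LinearMap.ker (Matrix.toLin' H - c • (1 : Module.End F (Fin 3 → F))) ≤
      S5949.Cg (Matrix.toLin' (c⁻¹ • H)) := by
    intro v hv
    rw [LinearMap.mem_ker, LinearMap.sub_apply, LinearMap.smul_apply, Module.End.one_apply,
      sub_eq_zero, Matrix.toLin'_apply] at hv
    rw [S5949.mem_Cg, Matrix.toLin'_apply, Matrix.smul_mulVec, hv, smul_smul,
      inv_mul_cancel₀ hc0, one_smul]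
  have h5 := Submodule.finrank_mono h4
  have hGi : (c • Hi) * (c⁻¹ • H) = 1 := by
    rw [Matrix.smul_mul, Matrix.mul_smul, smul_smul, mul_inv_cancel₀ hc0, one_smul, hHiH]
  have hnorm : ∀ κ ∈ K, (c⁻¹ • H) * κ * (c • Hi) ∈ K := by
    intro κ hκ
    have h1 : (c⁻¹ • H) * κ * (c • Hi) = H * κ * Hi := by
      rw [Matrix.smul_mul, Matrix.smul_mul, Matrix.mul_smul, smul_smul, inv_mul_cancel₀ hc0,
        one_smul]
    rw [h1]
    exact (hHN κ).mp hκ
  have hG1 := S5970.norm_fix K hK _ _ hGi hnorm (by omega)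
  have hG : c⁻¹ • H = 1 := by
    have h2 := congrArg LinearMap.toMatrix' hG1
    rw [LinearMap.toMatrix'_toLin'] at h2
    rw [h2]; exact LinearMap.toMatrix'_one
  apply hns c
  rw [← hG, smul_smul, mul_inv_cancel₀ hc0, one_smul]

theorem ker_proj_dim (j : Fin 3) :
    2 ≤ finrank F (LinearMap.ker (LinearMap.proj (R := F) (φ := fun _ : Fin 3 => F) j)) := by
  have h := LinearMap.finrank_range_add_finrank_ker
    (LinearMap.proj (R := F) (φ := fun _ : Fin 3 => F) j)
  have h2 : finrank F (LinearMap.range (LinearMap.proj (R := F) (φ := fun _ : Fin 3 => F) j)) ≤ 1 := by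
    have := Submodule.finrank_le
      (LinearMap.range (LinearMap.proj (R := F) (φ := fun _ : Fin 3 => F) j))
    simpa using this
  have h3 : finrank F (Fin 3 → F) = 3 := by simp
  omega

theorem fix_dim (M : Matrix (Fin 3) (Fin 3) F) (j : Fin 3)
    (hM : ∀ v : Fin 3 → F, v j = 0 → Matrix.mulVec M v = v) :
    3 < 2 * finrank F (S5949.Cg (Matrix.toLin' M)) := by
  have h1 : LinearMap.ker (LinearMap.proj (R := F) (φ := fun _ : Fin 3 => F) j) ≤
      S5949.Cg (Matrix.toLin' M) := by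
    intro v hv
    rw [LinearMap.mem_ker, LinearMap.proj_apply] at hv
    rw [S5949.mem_Cg, Matrix.toLin'_apply]
    exact hM v hv
  have h2 := Submodule.finrank_mono h1
  have h3 := ker_proj_dim (F := F) j
  omega

theorem mod9_aux (q : ℕ) (hq : q % 9 = 2 ∨ q % 9 = 5) (hq1 : 1 ≤ q) :
    ¬ 9 ∣ (q ^ 3 - 1) * (q ^ 3 - q) * (q ^ 3 - q ^ 2) := by
  intro h
  have h1 := (ZMod.natCast_eq_zero_iff _ 9).mpr h
  have hA : 1 ≤ q ^ 3 := Nat.one_le_pow _ _ hq1
  have hB : q ≤ q ^ 3 := by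
    calc q = q ^ 1 := (pow_one q).symm
      _ ≤ q ^ 3 := Nat.pow_le_pow_right hq1 (by norm_num)
  have hC : q ^ 2 ≤ q ^ 3 := Nat.pow_le_pow_right hq1 (by norm_num)
  rw [Nat.cast_mul, Nat.cast_mul, Nat.cast_sub hA, Nat.cast_sub hB, Nat.cast_sub hC] at h1
  push_cast at h1
  have h2 : ((q : ℕ) : ZMod 9) = ((q % 9 : ℕ) : ZMod 9) := (ZMod.natCast_mod q 9).symm
  rcases hq with hq | hq
  · rw [h2, hq] at h1; revert h1; decide
  · rw [h2, hq] at h1; revert h1; decide

end mat

section frob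

variable {F : Type*} [Field F] [Fintype F]

theorem exists_frob' {n : ℕ} (K : Subalgebra F (Matrix (Fin n) (Fin n) F)) (hn : 2 ≤ n)
    (hK : Cfsg.Geo.IsFieldSubalgebra n K) {p : ℕ} [Fact p.Prime]
    [CharP F p] :
    ∃ H Hi : Matrix (Fin n) (Fin n) F, H * Hi = 1 ∧ Hi * H = 1 ∧ H ^ n = 1 ∧
      (∀ c : F, H ≠ c • (1 : Matrix (Fin n) (Fin n) F)) ∧
      (∀ k, k ∈ K ↔ H * k * Hi ∈ K) := by
  classical
  haveI : Nonempty (Fin n) := ⟨⟨0, by omega⟩⟩
  obtain ⟨hpow, hne⟩ := S5970.K_pow_card K (by omega) hK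
  obtain ⟨κ₀, hκ₀K, hκ₀⟩ := hne (by omega)
  obtain ⟨kq, -, hkq⟩ := FiniteField.card F p
  obtain ⟨v₀, hv₀⟩ : ∃ v₀ : Fin n → F, v₀ ≠ 0 :=
    ⟨Pi.single ⟨0, by omega⟩ 1, fun h => by
      have := congrFun h ⟨0, by omega⟩
      simp at this⟩
  obtain ⟨evE, hevE⟩ : ∃ evE : ↥K ≃ₗ[F] (Fin n → F), ∀ κ : ↥K, evE κ = Matrix.mulVec κ.1 v₀ :=
    ⟨LinearEquiv.ofBijective (S5970.evL K v₀)
      ⟨S5970.evL_inj K hK v₀ hv₀, S5970.evL_surj K hK v₀ hv₀⟩, fun κ => rfl⟩
  let φL : ↥K →ₗ[F] ↥K :=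
    { toFun := fun κ => ⟨κ.1 ^ Fintype.card F, K.pow_mem κ.2 _⟩
      map_add' := fun a b => by
        apply Subtype.ext
        show (a.1 + b.1) ^ Fintype.card F = a.1 ^ Fintype.card F + b.1 ^ Fintype.card F
        rw [hkq]
        exact add_pow_char_pow_of_commute p _ (hK.comm a.1 a.2 b.1 b.2)
      map_smul' := fun c a => by
        apply Subtype.ext
        show (c • a.1) ^ Fintype.card F = c • a.1 ^ Fintype.card F
        rw [_root_.smul_pow, FiniteField.pow_card] }
  have hφL : ∀ κ : ↥K, (φL κ).1 = κ.1 ^ Fintype.card F := fun κ => rfl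
  obtain ⟨h, hh⟩ : ∃ h : Module.End F (Fin n → F),
      h = evE.toLinearMap ∘ₗ φL ∘ₗ evE.symm.toLinearMap := ⟨_, rfl⟩
  have hhv : ∀ κ ∈ K, h (Matrix.mulVec κ v₀) = Matrix.mulVec (κ ^ Fintype.card F) v₀ := by
    intro κ hκ
    have h1 : Matrix.mulVec κ v₀ = evE ⟨κ, hκ⟩ := (hevE ⟨κ, hκ⟩).symm
    rw [h1, hh]
    simp only [LinearMap.comp_apply, LinearEquiv.coe_coe, LinearEquiv.symm_apply_apply]
    rw [hevE, hφL]
  have hsurj : ∀ v, ∃ κ ∈ K, Matrix.mulVec κ v₀ = v := S5970.K_surj K hK v₀ hv₀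
  have hhκ : ∀ κ ∈ K, ∀ v, h (Matrix.mulVec κ v) = Matrix.mulVec (κ ^ Fintype.card F) (h v) := by
    intro κ hκ v
    obtain ⟨κ', hκ', rfl⟩ := hsurj v
    rw [Matrix.mulVec_mulVec, hhv _ (K.mul_mem hκ hκ'), hhv _ hκ', Matrix.mulVec_mulVec,
      (show Commute κ κ' from hK.comm κ hκ κ' hκ').mul_pow]
  have hhpow : ∀ (m : ℕ), ∀ κ ∈ K,
      (h ^ m) (Matrix.mulVec κ v₀) = Matrix.mulVec (κ ^ (Fintype.card F ^ m)) v₀ := by
    intro m
    induction m with
    | zero => intro κ hκ; simp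
    | succ m ih =>
      intro κ hκ
      rw [pow_succ', Module.End.mul_apply, ih κ hκ, hhv _ (K.pow_mem hκ _), ← pow_mul, ← pow_succ]
  have hhn : h ^ n = 1 := by
    apply LinearMap.ext; intro v
    obtain ⟨κ, hκ, rfl⟩ := hsurj v
    rw [hhpow n κ hκ, hpow κ hκ]; rfl
  obtain ⟨H, hH⟩ : ∃ H : Matrix (Fin n) (Fin n) F, H = LinearMap.toMatrix' h := ⟨_, rfl⟩
  have hlin : Matrix.toLin' H = h := by rw [hH]; exact Matrix.toLin'_toMatrix' h
  have hHn : H ^ n = 1 := by
    have := congrArg (LinearMap.toMatrixAlgEquiv' (R := F) (n := Fin n)) hhn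
    rw [map_pow, map_one] at this
    rw [hH]; exact this
  have hHκ : ∀ κ ∈ K, H * κ = κ ^ Fintype.card F * H := by
    intro κ hκ
    apply Matrix.toLin'.injective
    apply LinearMap.ext; intro v
    rw [Matrix.toLin'_apply, Matrix.toLin'_apply, ← Matrix.mulVec_mulVec, ← Matrix.mulVec_mulVec,
      ← Matrix.toLin'_apply H, ← Matrix.toLin'_apply H, hlin]
    exact hhκ κ hκ v
  have hn' : n = (n - 1) + 1 := by omega
  have hHHi : H * H ^ (n - 1) = 1 := by rw [← pow_succ', ← hn', hHn]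
  have hHiH : H ^ (n - 1) * H = 1 := by rw [← pow_succ, ← hn', hHn]
  refine ⟨H, H ^ (n - 1), hHHi, hHiH, hHn, ?_, ?_⟩
  · intro c hc
    have hc0 : c ≠ 0 := by
      rintro rfl
      rw [zero_smul] at hc
      rw [hc, zero_mul] at hHHi
      exact zero_ne_one hHHi
    have h1 := hHκ κ₀ hκ₀K
    rw [hc, Matrix.smul_mul, Matrix.mul_smul, one_mul, mul_one] at h1
    have h2 : κ₀ = κ₀ ^ Fintype.card F := by
      have h3 := congrArg (fun M => c⁻¹ • M) h1
      simp only [smul_smul, inv_mul_cancel₀ hc0, one_smul] at h3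
      exact h3
    exact hκ₀ h2.symm
  · intro k
    constructor
    · intro hk
      rw [hHκ k hk, mul_assoc, hHHi, mul_one]
      exact K.pow_mem hk _
    · intro hk
      obtain ⟨κ₁, hκ₁⟩ : ∃ κ₁, κ₁ = H * k * H ^ (n - 1) := ⟨_, rfl⟩
      rw [← hκ₁] at hk
      have h2 : κ₁ ^ (Fintype.card F ^ (n - 1)) ∈ K := K.pow_mem hk _
      have h3 := hHκ _ h2
      rw [← pow_mul, ← pow_succ, ← hn', hpow _ hk] at h3
      have h4 : κ₁ * H = H * k := by rw [hκ₁, mul_assoc, hHiH, mul_one]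
      rw [h4] at h3
      have h5 : κ₁ ^ (Fintype.card F ^ (n - 1)) = k := by
        have h6 := congrArg (fun M => H ^ (n - 1) * M) h3
        simp only [← mul_assoc, hHiH, one_mul] at h6
        exact h6
      rw [← h5]; exact h2

end frob

theorem zmod3_aux : (((2 : ℕ) : ZMod 3)) ^ 2 = 1 ∧ (((2 : ℕ) : ZMod 3)) ≠ 1 := by decide

/-- Elements of order 3 of PSL_3(q) and the normalizer of a Singer cycle. Here `T = PSL_n(F)` for a field `F` with `q = p^f` elements (`n ≥ 2`, `(n, q) ≠ (2, 2), (2, 3)`), `k` is a prime dividing `n`, `K` is a subalgebra of the `n × n` matrices that is a field of degree `k` over `F` (an extension-field structure F_{q^k} on `F^n`), and `H` is the subgroup of matrices of determinant 1 normalizing `K` — a subgroup of type GL_{n/k}(q^k) (maximal except in some small cases; maximality is not assumed); Ω is the set of cosets of `H` in `T`, so an element of `T` of prime order `r` (a matrix `x` of determinant 1 with `x^r` scalar,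 `x` not scalar) fixes a point of Ω when some conjugate of `x` by a matrix of determinant 1 normalizes `K`. Take `n = k = 3` and suppose 3 divides the index of `H`. Then every element of `T` of order 3 is conjugate in `T` into `H` if and only if `q ≡ 4, 7` or `8 (mod 9)`. -/
theorem result {F : Type*} [Field F] [Fintype F] {p : ℕ} [Fact p.Prime] [CharP F p] {q : ℕ} (hq : Fintype.card F = q)
    (n : ℕ) (hn : n = 3) (k : ℕ) (hk : k.Prime) (hkn : k ∣ n) (K : Subalgebra F (Matrix (Fin n) (Fin n) F)) (hK : Cfsg.Geo.IsFieldSubalgebra k K) (hk3 : k = 3) (hΩ : 3 ∣ ((Cfsg.Geo.subalgebraNormalizer K).comap (Matrix.SpecialLinearGroup.toGL : Matrix.SpecialLinearGroup (Fin n) F →* GL (Fin n) F)).index) :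
    (∀ x : Matrix.SpecialLinearGroup (Fin n) F,
      (∃ z : F, ((x ^ 3 : Matrix.SpecialLinearGroup (Fin n) F) : Matrix (Fin n) (Fin n) F) = z • (1 : Matrix (Fin n) (Fin n) F)) →
      (∀ z : F, (x : Matrix (Fin n) (Fin n) F) ≠ z • (1 : Matrix (Fin n) (Fin n) F)) →
      ∃ P : Matrix.SpecialLinearGroup (Fin n) F, P⁻¹ * x * P ∈ ((Cfsg.Geo.subalgebraNormalizer K).comap (Matrix.SpecialLinearGroup.toGL : Matrix.SpecialLinearGroup (Fin n) F →* GL (Fin n) F))) ↔
    (q % 9 = 4 ∨ q % 9 = 7 ∨ q % 9 = 8) := by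
  classical
  subst hn
  have hK' : Cfsg.Geo.IsFieldSubalgebra 3 K := hk3 ▸ hK
  haveI : Fact (Nat.Prime 3) := ⟨Nat.prime_three⟩
  have hpP := (Fact.out : p.Prime)
  subst hq
  have hq2 : 2 ≤ Fintype.card F := Fintype.one_lt_card
  have hfin : finrank F (Fin 3 → F) = 3 := by simp
  obtain ⟨kq, -, hkq⟩ := FiniteField.card F p
  have h3F : Fintype.card F % 3 ≠ 0 → (3 : F) ≠ 0 := by
    intro hq3 h
    have h' : ((3 : ℕ) : F) = 0 := by exact_mod_cast h
    rw [CharP.cast_eq_zero_iff F p] at h'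
    have hp3 : p = 3 := (Nat.prime_dvd_prime_iff_eq hpP Nat.prime_three).mp h'
    apply hq3
    rw [hkq, hp3]
    exact Nat.mod_eq_zero_of_dvd (dvd_pow_self 3 kq.ne_zero)
  have hmemN : ∀ g : Matrix.SpecialLinearGroup (Fin 3) F,
      g ∈ ((Cfsg.Geo.subalgebraNormalizer K).comap
        (Matrix.SpecialLinearGroup.toGL : Matrix.SpecialLinearGroup (Fin 3) F →* GL (Fin 3) F)) ↔
      ∀ k : Matrix (Fin 3) (Fin 3) F, k ∈ K ↔ (g : Matrix (Fin 3) (Fin 3) F) * k *
        ((g⁻¹ : Matrix.SpecialLinearGroup (Fin 3) F) : Matrix (Fin 3) (Fin 3) F) ∈ K := by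
    intro g
    rw [Subgroup.mem_comap]
    rfl
  have hinvmul : ∀ g : Matrix.SpecialLinearGroup (Fin 3) F,
      ((g⁻¹ : Matrix.SpecialLinearGroup (Fin 3) F) : Matrix (Fin 3) (Fin 3) F) *
        (g : Matrix (Fin 3) (Fin 3) F) = 1 := by
    intro g
    rw [← Matrix.SpecialLinearGroup.coe_mul, inv_mul_cancel, Matrix.SpecialLinearGroup.coe_one]
  rcases (by omega : Fintype.card F % 3 = 0 ∨ Fintype.card F % 3 = 1 ∨
      Fintype.card F % 3 = 2) with h0 | h1 | h2
  · -- characteristic three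
    have hp3 : p = 3 := by
      have h1 : 3 ∣ p ^ (kq : ℕ) := by rw [← hkq]; exact Nat.dvd_of_mod_eq_zero h0
      exact ((Nat.prime_dvd_prime_iff_eq Nat.prime_three hpP).mp
        (Nat.Prime.dvd_of_dvd_pow Nat.prime_three h1)).symm
    have h3z : (1 : F) + 1 + 1 = 0 := by
      have h1 := CharP.cast_eq_zero F p
      rw [hp3] at h1
      have h2 : ((3 : ℕ) : F) = 1 + 1 + 1 := by norm_num
      rw [← h2]; exact h1
    constructor
    · intro hall
      exfalso
      obtain ⟨M, hM⟩ : ∃ M : Matrix (Fin 3) (Fin 3) F, M = Matrix.transvection 0 1 1 := ⟨_, rfl⟩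
      have h01 : (0 : Fin 3) ≠ 1 := by decide
      have hdet : M.det = 1 := by rw [hM]; exact Matrix.det_transvection_of_ne _ _ h01 1
      obtain ⟨x, hx⟩ : ∃ x : Matrix.SpecialLinearGroup (Fin 3) F,
          (x : Matrix (Fin 3) (Fin 3) F) = M := ⟨⟨M, hdet⟩, rfl⟩
      have hx3 : ((x ^ 3 : Matrix.SpecialLinearGroup (Fin 3) F) : Matrix (Fin 3) (Fin 3) F) =
          (1 : F) • (1 : Matrix (Fin 3) (Fin 3) F) := by
        rw [Matrix.SpecialLinearGroup.coe_pow, hx, hM, one_smul, pow_succ, pow_succ, pow_one,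
          Matrix.transvection_mul_transvection_same _ _ h01,
          Matrix.transvection_mul_transvection_same _ _ h01, h3z, Matrix.transvection_zero]
      have hxns : ∀ z : F, (x : Matrix (Fin 3) (Fin 3) F) ≠
          z • (1 : Matrix (Fin 3) (Fin 3) F) := by
        intro z h
        rw [hx, hM] at h
        have h1 := congrFun (congrFun h 0) 1
        simp [Matrix.transvection] at h1
      obtain ⟨P, hP⟩ := hall x ⟨1, hx3⟩ hxns
      refine not_conj K hK' x 1 one_ne_zero ?_ hxns P hP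
      rw [one_smul, hx]
      apply fix_dim M 1
      intro v hv
      rw [hM, Matrix.transvection, Matrix.add_mulVec, Matrix.one_mulVec, Matrix.single_mulVec,
        hv, mul_zero]
      simp
    · intro h; omega
  · -- q = 1 mod 3
    have h3 : (3 : F) ≠ 0 := h3F (by omega)
    obtain ⟨γ, hγ, -⟩ := S5949.exists_gen (F := F)
    obtain ⟨m, hm⟩ : ∃ m, Fintype.card F - 1 = 3 * m := ⟨(Fintype.card F - 1) / 3, by omega⟩
    have hm0 : 0 < m := by omega
    obtain ⟨ω, hωdef⟩ : ∃ ω : F, ω = ((γ ^ m : Fˣ) : F) := ⟨_, rfl⟩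
    have hω3 : ω ^ 3 = 1 := by
      rw [hωdef, ← Units.val_pow_eq_pow_val, ← pow_mul, Nat.mul_comm, ← hm, ← hγ,
        pow_orderOf_eq_one, Units.val_one]
    have hω1 : ω ≠ 1 := by
      intro h
      rw [hωdef] at h
      have h2 : γ ^ m = 1 := Units.ext h
      have h3 := orderOf_dvd_of_pow_eq_one h2
      rw [hγ, hm] at h3
      have h4 := Nat.le_of_dvd hm0 h3
      omega
    have hω : 1 + ω + ω ^ 2 = 0 := by
      have h1 : (ω - 1) * (1 + ω + ω ^ 2) = 0 := by linear_combination hω3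
      exact (mul_eq_zero.mp h1).resolve_left (sub_ne_zero.mpr hω1)
    obtain ⟨e, he⟩ : ∃ e : Fin 3 → F, e = ![1, ω, ω ^ 2] := ⟨_, rfl⟩
    have he0 : e 0 = 1 := by rw [he]; rfl
    have he1 : e 1 = ω := by rw [he]; rfl
    have he2 : e 2 = ω ^ 2 := by rw [he]; rfl
    have he3 : ∀ j, e j ^ 3 = 1 := by
      intro j; fin_cases j
      · show e 0 ^ 3 = 1
        rw [he0, one_pow]
      · show e 1 ^ 3 = 1
        rw [he1, hω3]
      · show e 2 ^ 3 = 1
        rw [he2, ← pow_mul, Nat.mul_comm, pow_mul, hω3, one_pow]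
    have hs1 : e 0 + e 1 + e 2 = 0 := by rw [he0, he1, he2]; exact hω
    have hs2 : e 0 ^ 2 + e 1 ^ 2 + e 2 ^ 2 = 0 := by
      rw [he0, he1, he2]; linear_combination hω + ω * hω3
    constructor
    · intro hall
      by_contra hcon
      have h91 : Fintype.card F % 9 = 1 := by omega
      obtain ⟨m', hm'⟩ : ∃ m', Fintype.card F - 1 = 9 * m' :=
        ⟨(Fintype.card F - 1) / 9, by omega⟩
      have hm'0 : 0 < m' := by omega
      obtain ⟨u, hu⟩ : ∃ u : Fˣ, u = γ ^ (2 * m') := ⟨_, rfl⟩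
      obtain ⟨w, hw⟩ : ∃ w : Fˣ, w = γ ^ (5 * m') := ⟨_, rfl⟩
      have huw : u * u * w = 1 := by
        rw [hu, hw, ← pow_add, ← pow_add, (by ring : 2 * m' + 2 * m' + 5 * m' = 9 * m'), ← hm',
          ← hγ, pow_orderOf_eq_one]
      have hu3 : w ^ 3 = u ^ 3 := by
        rw [hu, hw, ← pow_mul, ← pow_mul, (by ring : 5 * m' * 3 = 2 * m' * 3 + 9 * m'), pow_add,
          ← hm', ← hγ, pow_orderOf_eq_one, mul_one]
      have hne : u ≠ w := by
        intro h
        have h2 : γ ^ (3 * m') = 1 := by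
          have h3 : γ ^ (2 * m') * γ ^ (3 * m') = γ ^ (2 * m') * 1 := by
            rw [← pow_add, mul_one, (by ring : 2 * m' + 3 * m' = 5 * m'), ← hu, ← hw]
            exact h.symm
          exact mul_left_cancel h3
        have h4 := orderOf_dvd_of_pow_eq_one h2
        rw [hγ, hm'] at h4
        have h5 := Nat.le_of_dvd (by omega) h4
        omega
      obtain ⟨d, hd⟩ : ∃ d : Fin 3 → F, d = ![(u : F), (u : F), (w : F)] := ⟨_, rfl⟩
      have hd0 : d 0 = u := by rw [hd]; rfl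
      have hd1 : d 1 = u := by rw [hd]; rfl
      have hd2 : d 2 = w := by rw [hd]; rfl
      have hdet : (Matrix.diagonal d).det = 1 := by
        rw [Matrix.det_diagonal, Fin.prod_univ_three, hd0, hd1, hd2, ← Units.val_mul,
          ← Units.val_mul, huw, Units.val_one]
      obtain ⟨x, hx⟩ : ∃ x : Matrix.SpecialLinearGroup (Fin 3) F,
          (x : Matrix (Fin 3) (Fin 3) F) = Matrix.diagonal d := ⟨⟨_, hdet⟩, rfl⟩
      have hx3 : ((x ^ 3 : Matrix.SpecialLinearGroup (Fin 3) F) : Matrix (Fin 3) (Fin 3) F) =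
          ((u : F) ^ 3) • (1 : Matrix (Fin 3) (Fin 3) F) := by
        rw [Matrix.SpecialLinearGroup.coe_pow, hx, Matrix.diagonal_pow,
          Matrix.smul_one_eq_diagonal]
        congr 1
        funext i
        fin_cases i
        · show (d ^ 3) 0 = _
          rw [Pi.pow_apply, hd0]
        · show (d ^ 3) 1 = _
          rw [Pi.pow_apply, hd1]
        · show (d ^ 3) 2 = _
          rw [Pi.pow_apply, hd2, ← Units.val_pow_eq_pow_val, hu3, Units.val_pow_eq_pow_val]
      have hxns : ∀ z : F, (x : Matrix (Fin 3) (Fin 3) F) ≠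
          z • (1 : Matrix (Fin 3) (Fin 3) F) := by
        intro z h
        rw [hx] at h
        have h0 := congrFun (congrFun h 0) 0
        have h2 := congrFun (congrFun h 2) 2
        rw [Matrix.diagonal_apply_eq, Matrix.smul_apply, Matrix.one_apply_eq, smul_eq_mul,
          mul_one] at h0 h2
        rw [hd0] at h0; rw [hd2] at h2
        exact hne (Units.ext (h0.trans h2.symm))
      obtain ⟨P, hP⟩ := hall x ⟨_, hx3⟩ hxns
      refine not_conj K hK' x ((u : F)⁻¹) (inv_ne_zero u.ne_zero) ?_ hxns P hP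
      rw [hx]
      apply fix_dim _ 2
      intro v hv
      rw [Matrix.smul_mulVec]
      funext i
      rw [Pi.smul_apply, Matrix.mulVec_diagonal, smul_eq_mul]
      fin_cases i
      · show (u : F)⁻¹ * (d 0 * v 0) = v 0
        rw [hd0, ← mul_assoc, inv_mul_cancel₀ u.ne_zero, one_mul]
      · show (u : F)⁻¹ * (d 1 * v 1) = v 1
        rw [hd1, ← mul_assoc, inv_mul_cancel₀ u.ne_zero, one_mul]
      · show (u : F)⁻¹ * (d 2 * v 2) = v 2
        rw [hv, mul_zero, mul_zero]
    · intro h47 x hx hxns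
      have h9 : ¬ 9 ∣ Fintype.card F - 1 := by omega
      obtain ⟨z, hxz⟩ := hx
      obtain ⟨f, hf⟩ : ∃ f : Module.End F (Fin 3 → F),
          f = Matrix.toLin' (x : Matrix (Fin 3) (Fin 3) F) := ⟨_, rfl⟩
      have hdetf : LinearMap.det f = 1 := by rw [hf, LinearMap.det_toLin']; exact x.det_coe
      have hfz : f ^ 3 = z • (1 : Module.End F (Fin 3 → F)) := by
        have h1 : (x : Matrix (Fin 3) (Fin 3) F) ^ 3 = z • 1 := by
          rw [← Matrix.SpecialLinearGroup.coe_pow]; exact hxz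
        have h2 := congrArg (Matrix.toLinAlgEquiv' (R := F) (n := Fin 3)) h1
        rw [map_pow, map_smul, map_one] at h2
        rw [hf]; exact h2
      have hz3 : z ^ 3 = 1 := by
        have h1 := (x ^ 3).det_coe
        rw [hxz, Matrix.det_smul, Matrix.det_one, mul_one, Fintype.card_fin] at h1
        exact h1
      have hz0 : z ≠ 0 := by
        rintro rfl; rw [zero_pow (by norm_num)] at hz3; exact zero_ne_one hz3
      have hz1 : z = 1 := by
        by_contra hz1
        by_cases hroot : ∃ l : F, l ^ 3 = z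
        · obtain ⟨l, hl⟩ := hroot
          have hl0 : l ≠ 0 := by
            rintro rfl; rw [zero_pow (by norm_num)] at hl; exact hz0 hl.symm
          have h1 : ¬ l ^ 3 ^ 1 = 1 := by rw [pow_one, hl]; exact hz1
          have h2 : l ^ 3 ^ (1 + 1) = 1 := by
            rw [(by norm_num : 3 ^ (1 + 1) = 3 * 3), pow_mul, hl, hz3]
          have h3 := orderOf_eq_prime_pow h1 h2
          have h4 : orderOf l ∣ Fintype.card F - 1 :=
            orderOf_dvd_of_pow_eq_one (FiniteField.pow_card_sub_one_eq_one l hl0)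
          rw [h3] at h4
          exact h9 h4
        · push Not at hroot
          have hirr : Irreducible (X ^ 3 - C z : F[X]) :=
            X_pow_sub_C_irreducible_of_prime Nat.prime_three hroot
          obtain ⟨k', hk1, hk2⟩ := S5949.lin_charpoly f 3 (by norm_num) z hirr hfz
          rw [hfin] at hk1 hk2
          have hk'1 : k' = 1 := by omega
          rw [hk'1, hdetf] at hk2
          apply hz1
          have h5 : (1 : F) = z := by rw [hk2]; ring
          exact h5.symm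
      rw [hz1, one_smul] at hfz
      have hfns : ∀ c : F, f ≠ c • (1 : Module.End F (Fin 3 → F)) := by
        intro c h
        apply hxns c
        have h2 := congrArg LinearMap.toMatrix' h
        rw [hf, LinearMap.toMatrix'_toLin', map_smul] at h2
        rw [h2, LinearMap.toMatrix'_one]
      have hEf : ∀ j, finrank F (LinearMap.ker (f - e j • (1 : Module.End F (Fin 3 → F)))) ≤ 1 :=
        fun j => eig_le_one f h3 hfz hdetf hfin (e j) (he3 j) (hfns (e j))
      obtain ⟨bf, hbf⟩ := eig_basis3 f e he3 hs1 hs2 h3 hfz hfin hEf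
      obtain ⟨H, Hi, hHHi, hHiH, hHn, hHns, hHN⟩ := exists_frob' K (by norm_num) hK' (p := p)
      obtain ⟨h, hh⟩ : ∃ h : Module.End F (Fin 3 → F), h = Matrix.toLin' H := ⟨_, rfl⟩
      have hhn : h ^ 3 = 1 := by
        have h2 := congrArg (Matrix.toLinAlgEquiv' (R := F) (n := Fin 3)) hHn
        rw [map_pow, map_one] at h2
        rw [hh]; exact h2
      have he0' : ∀ j, e j ≠ 0 := by
        intro j hj
        have h5 := he3 j
        rw [hj, zero_pow (by norm_num)] at h5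
        exact zero_ne_one h5
      have hEh : ∀ j, finrank F (LinearMap.ker (h - e j • (1 : Module.End F (Fin 3 → F)))) ≤ 1 := by
        intro j; rw [hh]; exact frob_eig K hK' H Hi hHiH hHN hHns (e j) (he0' j)
      obtain ⟨bh, hbh⟩ := eig_basis3 h e he3 hs1 hs2 h3 hhn hfin hEh
      obtain ⟨T, hTdet, hfT⟩ := eig_conj (0 : Fin 3) f h e bf bh hbf hbh
      obtain ⟨MT, hMT⟩ : ∃ MT : Matrix (Fin 3) (Fin 3) F, MT = LinearMap.toMatrix' T := ⟨_, rfl⟩
      have hXMT : (x : Matrix (Fin 3) (Fin 3) F) * MT = MT * H := by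
        have h1 := congrArg LinearMap.toMatrix' hfT
        rw [LinearMap.toMatrix'_comp, LinearMap.toMatrix'_comp, hf, hh,
          LinearMap.toMatrix'_toLin', LinearMap.toMatrix'_toLin'] at h1
        rw [hMT]; exact h1
      have hdetP : MT.det = 1 := by rw [hMT, LinearMap.det_toMatrix', hTdet]
      exact conj_final K x H Hi MT hHHi hHN hdetP hXMT
  · -- q = 2 mod 3
    have h3 : (3 : F) ≠ 0 := h3F (by omega)
    have h3' : ((3 : ℕ) : F) ≠ 0 := by exact_mod_cast h3
    have hcop : Nat.Coprime 3 (Fintype.card F - 1) :=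
      (Nat.Prime.coprime_iff_not_dvd Nat.prime_three).mpr (by omega)
    have hord3 : orderOf ((Fintype.card F : ℕ) : ZMod 3) = 3 - 1 := by
      have h1 : ((Fintype.card F : ℕ) : ZMod 3) = ((2 : ℕ) : ZMod 3) := by
        rw [← ZMod.natCast_mod, h2]
      rw [h1]
      haveI : Fact (Nat.Prime 2) := ⟨Nat.prime_two⟩
      show orderOf ((2 : ℕ) : ZMod 3) = 2
      exact orderOf_eq_prime zmod3_aux.1 zmod3_aux.2
    obtain ⟨H, Hi, hHHi, hHiH, hHn, hH1, hHN⟩ := S5970.exists_frob K (by norm_num) hK' (p := p)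
    have hdetH : H.det = 1 := by
      have h1 : H.det ^ 3 = 1 := by rw [← Matrix.det_pow, hHn, Matrix.det_one]
      have h0 : H.det ≠ 0 := by
        intro h; rw [h, zero_pow (by norm_num)] at h1; exact zero_ne_one h1
      have h2 : H.det ^ (Fintype.card F - 1) = 1 := FiniteField.pow_card_sub_one_eq_one _ h0
      have h3 := pow_gcd_eq_one.mpr ⟨h1, h2⟩
      rw [Nat.Coprime.gcd_eq_one hcop, pow_one] at h3
      exact h3
    have h8 : Fintype.card F % 9 = 8 := by
      by_contra hne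
      have h25 : Fintype.card F % 9 = 2 ∨ Fintype.card F % 9 = 5 := by omega
      obtain ⟨xh, hxh⟩ : ∃ xh : Matrix.SpecialLinearGroup (Fin 3) F,
          (xh : Matrix (Fin 3) (Fin 3) F) = H := ⟨⟨H, hdetH⟩, rfl⟩
      have hxhi : ((xh⁻¹ : Matrix.SpecialLinearGroup (Fin 3) F) : Matrix (Fin 3) (Fin 3) F) = Hi := by
        have h1 := hinvmul xh
        rw [hxh] at h1
        calc ((xh⁻¹ : Matrix.SpecialLinearGroup (Fin 3) F) : Matrix (Fin 3) (Fin 3) F)
            = ((xh⁻¹ : Matrix.SpecialLinearGroup (Fin 3) F) : Matrix (Fin 3) (Fin 3) F) * (H * Hi) := by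
              rw [hHHi, mul_one]
          _ = Hi := by rw [← mul_assoc, h1, one_mul]
      obtain ⟨Hs, hHs⟩ : ∃ Hs : Subgroup (Matrix.SpecialLinearGroup (Fin 3) F),
          Hs = ((Cfsg.Geo.subalgebraNormalizer K).comap
          (Matrix.SpecialLinearGroup.toGL : Matrix.SpecialLinearGroup (Fin 3) F →* GL (Fin 3) F)) :=
        ⟨_, rfl⟩
      rw [← hHs] at hΩ
      have hmem : xh ∈ Hs := by
        rw [hHs, hmemN]; intro k; rw [hxhi, hxh]; exact hHN k
      have hx3 : xh ^ 3 = 1 := by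
        apply Subtype.ext
        rw [Matrix.SpecialLinearGroup.coe_pow, hxh, hHn]; rfl
      have hx1 : xh ≠ 1 := by
        intro h; apply hH1; rw [← hxh, h]; rfl
      have hord : orderOf xh = 3 := orderOf_eq_prime hx3 hx1
      have hdvd1 : 3 ∣ Nat.card ↥Hs := by
        have h1 := orderOf_dvd_natCard (⟨xh, hmem⟩ : ↥Hs)
        rw [← Subgroup.orderOf_coe] at h1
        have h2 : orderOf ((⟨xh, hmem⟩ : ↥Hs) : Matrix.SpecialLinearGroup (Fin 3) F) = 3 := hord
        rw [h2] at h1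
        exact h1
      have hdvd2 : 9 ∣ Nat.card (Matrix.SpecialLinearGroup (Fin 3) F) := by
        rw [← Subgroup.card_mul_index Hs]
        exact Nat.mul_dvd_mul hdvd1 hΩ
      have hdvd3 : 9 ∣ Nat.card (GL (Fin 3) F) :=
        hdvd2.trans (Subgroup.card_dvd_of_injective Matrix.SpecialLinearGroup.toGL
          Matrix.SpecialLinearGroup.toGL_injective)
      rw [Matrix.card_GL_field, Fin.prod_univ_three] at hdvd3
      simp only [Fin.val_zero, Fin.val_one, Fin.val_two, pow_zero, pow_one] at hdvd3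
      exact mod9_aux _ h25 (by omega) hdvd3
    constructor
    · intro _; right; right; exact h8
    · intro _ x hx hxns
      obtain ⟨z, hxz⟩ := hx
      have hz1 : z = 1 := by
        have h1 := (x ^ 3).det_coe
        rw [hxz, Matrix.det_smul, Matrix.det_one, mul_one, Fintype.card_fin] at h1
        have h0 : z ≠ 0 := by
          rintro rfl; rw [zero_pow (by norm_num)] at h1; exact zero_ne_one h1
        have h2 : z ^ (Fintype.card F - 1) = 1 := FiniteField.pow_card_sub_one_eq_one _ h0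
        have h3 := pow_gcd_eq_one.mpr ⟨h1, h2⟩
        rw [Nat.Coprime.gcd_eq_one hcop, pow_one] at h3
        exact h3
      rw [hz1, one_smul] at hxz
      obtain ⟨f, hf⟩ : ∃ f : Module.End F (Fin 3 → F),
          f = Matrix.toLin' (x : Matrix (Fin 3) (Fin 3) F) := ⟨_, rfl⟩
      have hfr : f ^ 3 = 1 := by
        have h1 : (x : Matrix (Fin 3) (Fin 3) F) ^ 3 = 1 := by
          rw [← Matrix.SpecialLinearGroup.coe_pow]; exact hxz
        have h2 := congrArg (Matrix.toLinAlgEquiv' (R := F) (n := Fin 3)) h1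
        rw [map_pow, map_one] at h2
        rw [hf]; exact h2
      have hf1 : f ≠ 1 := by
        intro h
        apply hxns 1
        rw [one_smul]
        have h2 := congrArg LinearMap.toMatrix' h
        rw [hf, LinearMap.toMatrix'_toLin'] at h2
        rw [h2]; exact LinearMap.toMatrix'_one
      obtain ⟨h, hh⟩ : ∃ h : Module.End F (Fin 3 → F), h = Matrix.toLin' H := ⟨_, rfl⟩
      have hhn : h ^ 3 = 1 := by
        have h2 := congrArg (Matrix.toLinAlgEquiv' (R := F) (n := Fin 3)) hHn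
        rw [map_pow, map_one] at h2
        rw [hh]; exact h2
      have hh1 : h ≠ 1 := by
        intro h2
        apply hH1
        have h3 := congrArg LinearMap.toMatrix' h2
        rw [hh, LinearMap.toMatrix'_toLin'] at h3
        rw [h3]; exact LinearMap.toMatrix'_one
      obtain ⟨bx, hbx⟩ := S5970.perm_basis f 3 (le_refl 3) h3' hfr hf1 hord3 hfin
      obtain ⟨bh, hbh⟩ := S5970.perm_basis h 3 (le_refl 3) h3' hhn hh1 hord3 hfin
      obtain ⟨T, hT⟩ : ∃ T : (Fin 3 → F) ≃ₗ[F] (Fin 3 → F), T = bh.equiv bx (Equiv.refl _) :=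
        ⟨_, rfl⟩
      have hTb : ∀ i, T (bh i) = bx i := by intro i; rw [hT, Basis.equiv_apply]; rfl
      have hfT : f ∘ₗ T.toLinearMap = T.toLinearMap ∘ₗ h := by
        apply bh.ext
        intro i
        simp only [LinearMap.comp_apply, LinearEquiv.coe_coe]
        rw [hTb, hbx, hbh, hTb]
      have hδ : LinearMap.det T.toLinearMap ≠ 0 := (LinearEquiv.isUnit_det' T).ne_zero
      obtain ⟨μ, hμ0, hμ⟩ := S5949.exists_root_of_coprime 3 hcop (LinearMap.det T.toLinearMap)⁻¹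
        (inv_ne_zero hδ)
      obtain ⟨MT, hMT⟩ : ∃ MT : Matrix (Fin 3) (Fin 3) F, MT = LinearMap.toMatrix' T.toLinearMap :=
        ⟨_, rfl⟩
      have hXMT : (x : Matrix (Fin 3) (Fin 3) F) * MT = MT * H := by
        have h1 := congrArg LinearMap.toMatrix' hfT
        rw [LinearMap.toMatrix'_comp, LinearMap.toMatrix'_comp, hf, hh, LinearMap.toMatrix'_toLin',
          LinearMap.toMatrix'_toLin'] at h1
        rw [hMT]; exact h1
      have hdetP : (μ • MT).det = 1 := by
        rw [Matrix.det_smul, Fintype.card_fin, hMT, LinearMap.det_toMatrix', hμ, inv_mul_cancel₀ hδ]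
      exact conj_final K x H Hi (μ • MT) hHHi hHN hdetP
        (by rw [Matrix.mul_smul, Matrix.smul_mul, hXMT])


end Cfsg.Agent.S5971
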