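import Cfsg.Statements.S5969
import Mathlib
import Cfsg.Agent.S5949
import Cfsg.Agent.S5951
import Cfsg.Agent.S5958
import Cfsg.Agent.S5970
import Cfsg.Agent.S5971

set_option autoImplicit false
set_option maxHeartbeats 400000
open scoped MatrixGroups
open Cfsg

namespace Cfsg.Agent.S5969

open Polynomial Module

section K2

variable {F : Type*} [Field F] {n : ℕ} (K : Subalgebra F (Matrix (Fin n) (Fin n) F))

theorem norm_comm (hinv : ∀ x ∈ K, x ≠ 0 → ∃ y ∈ K, x * y = 1)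
    (hcomm : ∀ x ∈ K, ∀ y ∈ K, x * y = y * x) (G Gi : Matrix (Fin n) (Fin n) F)
    (hGi : Gi * G = 1) (hnorm : ∀ κ ∈ K, G * κ * Gi ∈ K)
    (hdim : n < 2 * finrank F (S5949.Cg (Matrix.toLin' G))) : ∀ κ ∈ K, G * κ = κ * G := by
  obtain ⟨W, hW⟩ : ∃ W, W = S5949.Cg (Matrix.toLin' G) := ⟨_, rfl⟩
  rw [← hW] at hdim
  have hfix : ∀ w ∈ W, Matrix.mulVec G w = w := by
    intro w hw; rw [hW, S5949.mem_Cg, Matrix.toLin'_apply] at hw; exact hw
  intro κ hκ
  by_cases hκ0 : κ = 0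
  · rw [hκ0]; simp
  have hinjκ : Function.Injective (Matrix.toLin' κ) := by
    rw [injective_iff_map_eq_zero]
    intro v hv
    rw [Matrix.toLin'_apply] at hv
    exact S5970.K_inj K hinv hcomm κ hκ hκ0 v hv
  have hdimκ : finrank F ↥(W.map (Matrix.toLin' κ)) = finrank F W :=
    (LinearEquiv.finrank_eq (Submodule.equivMapOfInjective _ hinjκ W)).symm
  have h1 := Submodule.finrank_sup_add_finrank_inf_eq W (W.map (Matrix.toLin' κ))
  have h2 : finrank F ↥(W ⊔ W.map (Matrix.toLin' κ)) ≤ n := by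
    have := Submodule.finrank_le (W ⊔ W.map (Matrix.toLin' κ))
    simpa using this
  have h3 : 0 < finrank F ↥(W ⊓ W.map (Matrix.toLin' κ)) := by omega
  have hne : W ⊓ W.map (Matrix.toLin' κ) ≠ ⊥ := by
    intro h; rw [h, finrank_bot] at h3; omega
  obtain ⟨w₂, hw₂, hw₂0⟩ := (Submodule.ne_bot_iff _).mp hne
  obtain ⟨hw₂W, w₁, hw₁W, hw₁⟩ := hw₂
  rw [Matrix.toLin'_apply] at hw₁
  have hκ' := hnorm κ hκ
  have h4 : G * κ * Gi * G = G * κ := by rw [mul_assoc, hGi, mul_one]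
  have h5 : Matrix.mulVec (G * κ * Gi - κ) w₁ = 0 := by
    rw [Matrix.sub_mulVec]
    have e1 : Matrix.mulVec (G * κ * Gi) w₁ = Matrix.mulVec (G * κ * Gi * G) w₁ := by
      rw [← Matrix.mulVec_mulVec w₁ (G * κ * Gi) G, hfix w₁ hw₁W]
    rw [e1, h4, ← Matrix.mulVec_mulVec, hw₁, hfix w₂ hw₂W, sub_self]
  have hw₁0 : w₁ ≠ 0 := by
    rintro rfl; apply hw₂0; rw [← hw₁, Matrix.mulVec_zero]
  have h6 : G * κ * Gi - κ = 0 := by
    by_contra h7
    exact hw₁0 (S5970.K_inj K hinv hcomm _ (K.sub_mem hκ' hκ) h7 w₁ h5)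
  rw [← h4, sub_eq_zero.mp h6]

theorem not_conj2 (hK : Cfsg.Geo.IsFieldSubalgebra 2 K) (hn : 3 ≤ n)
    (x : Matrix.SpecialLinearGroup (Fin n) F) (μ : F) (hμ : μ ≠ 0)
    (hdim : n ≤ finrank F (S5949.Cg (Matrix.toLin' (μ • (x : Matrix (Fin n) (Fin n) F)))) + 1)
    (hns : ∀ z : F, (x : Matrix (Fin n) (Fin n) F) ≠ z • (1 : Matrix (Fin n) (Fin n) F))
    (P : Matrix.SpecialLinearGroup (Fin n) F)
    (hP : P⁻¹ * x * P ∈ ((Cfsg.Geo.subalgebraNormalizer K).comap
      (Matrix.SpecialLinearGroup.toGL : Matrix.SpecialLinearGroup (Fin n) F →* GL (Fin n) F))) :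
    False := by
  have hmemN : ∀ g : Matrix.SpecialLinearGroup (Fin n) F,
      g ∈ ((Cfsg.Geo.subalgebraNormalizer K).comap
        (Matrix.SpecialLinearGroup.toGL : Matrix.SpecialLinearGroup (Fin n) F →* GL (Fin n) F)) ↔
      ∀ k : Matrix (Fin n) (Fin n) F, k ∈ K ↔ (g : Matrix (Fin n) (Fin n) F) * k *
        ((g⁻¹ : Matrix.SpecialLinearGroup (Fin n) F) : Matrix (Fin n) (Fin n) F) ∈ K := by
    intro g
    rw [Subgroup.mem_comap]
    rfl
  have hinvmul : ∀ g : Matrix.SpecialLinearGroup (Fin n) F,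
      ((g⁻¹ : Matrix.SpecialLinearGroup (Fin n) F) : Matrix (Fin n) (Fin n) F) *
        (g : Matrix (Fin n) (Fin n) F) = 1 := by
    intro g
    rw [← Matrix.SpecialLinearGroup.coe_mul, inv_mul_cancel, Matrix.SpecialLinearGroup.coe_one]
  have hmulinv : ∀ g : Matrix.SpecialLinearGroup (Fin n) F,
      (g : Matrix (Fin n) (Fin n) F) *
        ((g⁻¹ : Matrix.SpecialLinearGroup (Fin n) F) : Matrix (Fin n) (Fin n) F) = 1 := by
    intro g
    rw [← Matrix.SpecialLinearGroup.coe_mul, mul_inv_cancel, Matrix.SpecialLinearGroup.coe_one]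
  rw [hmemN] at hP
  obtain ⟨g, hg⟩ : ∃ g : Matrix.SpecialLinearGroup (Fin n) F, g = P⁻¹ * x * P := ⟨_, rfl⟩
  rw [← hg] at hP
  have hgM : (g : Matrix (Fin n) (Fin n) F) =
      ((P⁻¹ : Matrix.SpecialLinearGroup (Fin n) F) : Matrix (Fin n) (Fin n) F) *
        (x : Matrix (Fin n) (Fin n) F) * (P : Matrix (Fin n) (Fin n) F) := by
    rw [hg, Matrix.SpecialLinearGroup.coe_mul, Matrix.SpecialLinearGroup.coe_mul]
  have hle : finrank F (S5949.Cg (Matrix.toLin' (μ • (x : Matrix (Fin n) (Fin n) F)))) ≤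
      finrank F (S5949.Cg (Matrix.toLin' (μ • (g : Matrix (Fin n) (Fin n) F)))) := by
    have hinj : Function.Injective (Matrix.toLin'
        ((P⁻¹ : Matrix.SpecialLinearGroup (Fin n) F) : Matrix (Fin n) (Fin n) F)) := by
      rw [injective_iff_map_eq_zero]
      intro v hv
      rw [Matrix.toLin'_apply] at hv
      have h1 : Matrix.mulVec ((P : Matrix (Fin n) (Fin n) F) *
          ((P⁻¹ : Matrix.SpecialLinearGroup (Fin n) F) : Matrix (Fin n) (Fin n) F)) v = v := by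
        rw [hmulinv, Matrix.one_mulVec]
      rw [← Matrix.mulVec_mulVec, hv, Matrix.mulVec_zero] at h1
      exact h1.symm
    have hmap : (S5949.Cg (Matrix.toLin' (μ • (x : Matrix (Fin n) (Fin n) F)))).map (Matrix.toLin'
        ((P⁻¹ : Matrix.SpecialLinearGroup (Fin n) F) : Matrix (Fin n) (Fin n) F)) ≤
        S5949.Cg (Matrix.toLin' (μ • (g : Matrix (Fin n) (Fin n) F))) := by
      rintro _ ⟨v, hv0, rfl⟩
      have hv : v ∈ S5949.Cg (Matrix.toLin' (μ • (x : Matrix (Fin n) (Fin n) F))) := hv0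
      rw [S5949.mem_Cg, Matrix.toLin'_apply, Matrix.smul_mulVec] at hv
      rw [S5949.mem_Cg, Matrix.toLin'_apply, Matrix.toLin'_apply, Matrix.smul_mulVec, hgM,
        Matrix.mulVec_mulVec, mul_assoc _ (P : Matrix (Fin n) (Fin n) F), hmulinv, mul_one,
        ← Matrix.mulVec_mulVec, ← Matrix.mulVec_smul, hv]
    calc finrank F (S5949.Cg (Matrix.toLin' (μ • (x : Matrix (Fin n) (Fin n) F))))
        = finrank F ((S5949.Cg (Matrix.toLin' (μ • (x : Matrix (Fin n) (Fin n) F)))).map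
            (Matrix.toLin'
            ((P⁻¹ : Matrix.SpecialLinearGroup (Fin n) F) : Matrix (Fin n) (Fin n) F))) :=
          LinearEquiv.finrank_eq (Submodule.equivMapOfInjective _ hinj _)
      _ ≤ _ := Submodule.finrank_mono hmap
  have hGi : (μ⁻¹ • ((g⁻¹ : Matrix.SpecialLinearGroup (Fin n) F) : Matrix (Fin n) (Fin n) F)) *
      (μ • (g : Matrix (Fin n) (Fin n) F)) = 1 := by
    rw [Matrix.smul_mul, Matrix.mul_smul, smul_smul, inv_mul_cancel₀ hμ, one_smul, hinvmul]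
  have hnorm : ∀ κ ∈ K, (μ • (g : Matrix (Fin n) (Fin n) F)) * κ *
      (μ⁻¹ • ((g⁻¹ : Matrix.SpecialLinearGroup (Fin n) F) : Matrix (Fin n) (Fin n) F)) ∈ K := by
    intro κ hκ
    have h1 : (μ • (g : Matrix (Fin n) (Fin n) F)) * κ *
        (μ⁻¹ • ((g⁻¹ : Matrix.SpecialLinearGroup (Fin n) F) : Matrix (Fin n) (Fin n) F)) =
        (g : Matrix (Fin n) (Fin n) F) * κ *
        ((g⁻¹ : Matrix.SpecialLinearGroup (Fin n) F) : Matrix (Fin n) (Fin n) F) := by
      rw [Matrix.smul_mul, Matrix.smul_mul, Matrix.mul_smul, smul_smul, mul_inv_cancel₀ hμ,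
        one_smul]
    rw [h1]
    exact (hP κ).mp hκ
  have hcm := norm_comm K hK.inv hK.comm _ _ hGi hnorm (by omega)
  obtain ⟨G, hG⟩ : ∃ G : Matrix (Fin n) (Fin n) F, G = μ • (g : Matrix (Fin n) (Fin n) F) :=
    ⟨_, rfl⟩
  rw [← hG] at hcm hle
  have hG1 : G ≠ 1 := by
    intro h
    have hg2 : (g : Matrix (Fin n) (Fin n) F) = μ⁻¹ • (1 : Matrix (Fin n) (Fin n) F) := by
      rw [← h, hG, smul_smul, inv_mul_cancel₀ hμ, one_smul]
    have hx' : x = P * g * P⁻¹ := by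
      rw [hg]; group
    apply hns μ⁻¹
    rw [hx', Matrix.SpecialLinearGroup.coe_mul, Matrix.SpecialLinearGroup.coe_mul, hg2,
      Matrix.mul_smul, Matrix.smul_mul, mul_one, hmulinv]
  obtain ⟨v, hv⟩ : ∃ v : Fin n → F, Matrix.mulVec G v ≠ v := by
    by_contra hcon
    push Not at hcon
    apply hG1
    apply Matrix.toLin'.injective
    apply LinearMap.ext; intro v
    rw [Matrix.toLin'_apply, hcon v, Matrix.toLin'_one]; rfl
  obtain ⟨u, hu⟩ : ∃ u, u = Matrix.mulVec G v - v := ⟨_, rfl⟩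
  have hu0 : u ≠ 0 := by rw [hu]; exact sub_ne_zero.mpr hv
  have hr : finrank F (LinearMap.range (Matrix.toLin' G - 1)) ≤ 1 := by
    have h1 := LinearMap.finrank_range_add_finrank_ker (Matrix.toLin' G - 1)
    have h2 : finrank F (LinearMap.ker (Matrix.toLin' G - 1)) =
        finrank F (S5949.Cg (Matrix.toLin' G)) := rfl
    have h3 : finrank F (Fin n → F) = n := by simp
    omega
  have hrange : ∀ y ∈ LinearMap.range (Matrix.toLin' G - 1), ∃ c : F, y = c • u := by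
    have huR : u ∈ LinearMap.range (Matrix.toLin' G - 1) :=
      ⟨v, by rw [hu, LinearMap.sub_apply, Matrix.toLin'_apply]; rfl⟩
    have hle1 : Submodule.span F {u} ≤ LinearMap.range (Matrix.toLin' G - 1) := by
      rw [Submodule.span_singleton_le_iff_mem]; exact huR
    have heq : Submodule.span F {u} = LinearMap.range (Matrix.toLin' G - 1) :=
      Submodule.eq_of_le_of_finrank_le hle1 (by rw [finrank_span_singleton hu0]; exact hr)
    intro y hy
    rw [← heq, Submodule.mem_span_singleton] at hy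
    obtain ⟨c, hc⟩ := hy; exact ⟨c, hc.symm⟩
  have hscal : ∀ κ ∈ K, ∃ c : F, κ = c • (1 : Matrix (Fin n) (Fin n) F) := by
    intro κ hκ
    have h1 : Matrix.mulVec κ u ∈ LinearMap.range (Matrix.toLin' G - 1) := by
      refine ⟨Matrix.mulVec κ v, ?_⟩
      rw [LinearMap.sub_apply, Matrix.toLin'_apply, Module.End.one_apply, Matrix.mulVec_mulVec,
        hcm κ hκ, ← Matrix.mulVec_mulVec, hu, Matrix.mulVec_sub]
    obtain ⟨c, hc⟩ := hrange _ h1
    refine ⟨c, ?_⟩
    by_contra hne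
    have h2 : κ - c • (1 : Matrix (Fin n) (Fin n) F) ∈ K :=
      K.sub_mem hκ (K.smul_mem K.one_mem c)
    have h3 : Matrix.mulVec (κ - c • (1 : Matrix (Fin n) (Fin n) F)) u = 0 := by
      rw [Matrix.sub_mulVec, Matrix.smul_mulVec, Matrix.one_mulVec, hc, sub_self]
    exact hu0 (S5970.K_inj K hK.inv hK.comm _ h2 (sub_ne_zero.mpr hne) u h3)
  have hfr : finrank F ↥K ≤ 1 := by
    have hsurj : Function.Surjective (LinearMap.toSpanSingleton F ↥K 1) := by
      intro κ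
      obtain ⟨c, hc⟩ := hscal κ.1 κ.2
      refine ⟨c, ?_⟩
      apply Subtype.ext
      rw [LinearMap.toSpanSingleton_apply]
      exact hc.symm
    have h1 := LinearMap.finrank_range_le (LinearMap.toSpanSingleton F ↥K 1)
    rw [LinearMap.range_eq_top.mpr hsurj, finrank_top, Module.finrank_self] at h1
    exact h1
  rw [hK.finrank_eq] at hfr
  omega

theorem K_span (hn : 0 < n) (hK : Cfsg.Geo.IsFieldSubalgebra 2 K)
    (θ : Matrix (Fin n) (Fin n) F) (hθ : θ ∈ K)
    (hθns : ∀ c : F, θ ≠ c • (1 : Matrix (Fin n) (Fin n) F)) :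
    ∀ κ ∈ K, ∃ a b : F, κ = a • (1 : Matrix (Fin n) (Fin n) F) + b • θ := by
  haveI : Nonempty (Fin n) := ⟨⟨0, hn⟩⟩
  haveI : FiniteDimensional F ↥K := Module.finite_of_finrank_pos (by rw [hK.finrank_eq]; norm_num)
  have hli : LinearIndependent F ![(1 : ↥K), (⟨θ, hθ⟩ : ↥K)] := by
    rw [LinearIndependent.pair_iff]
    intro s t hst
    have h1 : s • (1 : Matrix (Fin n) (Fin n) F) + t • θ = 0 := congrArg Subtype.val hst
    have ht : t = 0 := by
      by_contra ht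
      apply hθns (-(t⁻¹ * s))
      have h2 : t • θ = -(s • (1 : Matrix (Fin n) (Fin n) F)) := by
        rw [eq_neg_iff_add_eq_zero, add_comm]; exact h1
      have h3 : θ = t⁻¹ • (t • θ) := by rw [smul_smul, inv_mul_cancel₀ ht, one_smul]
      rw [h3, h2, smul_neg, smul_smul, neg_smul]
    refine ⟨?_, ht⟩
    rw [ht, zero_smul, add_zero] at h1
    have h4 := congrFun (congrFun h1 ⟨0, hn⟩) ⟨0, hn⟩
    simpa using h4
  have hsp := hli.span_eq_top_of_card_eq_finrank' (by rw [Fintype.card_fin, hK.finrank_eq])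
  intro κ hκ
  have h1 : (⟨κ, hκ⟩ : ↥K) ∈ Submodule.span F (Set.range ![(1 : ↥K), (⟨θ, hθ⟩ : ↥K)]) := by
    rw [hsp]; exact Submodule.mem_top
  obtain ⟨c, hc⟩ := (Submodule.mem_span_range_iff_exists_fun F).mp h1
  rw [Fin.sum_univ_two] at hc
  refine ⟨c 0, c 1, ?_⟩
  have h2 := congrArg Subtype.val hc
  exact h2.symm

end K2

section K3

variable {F : Type*} [Field F] [Fintype F] {n : ℕ} (K : Subalgebra F (Matrix (Fin n) (Fin n) F))

theorem sqrtK (hn : 0 < n) (hK : Cfsg.Geo.IsFieldSubalgebra 2 K) (hodd : Odd (Fintype.card F))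
    (c : F) (hc : c ≠ 0) :
    ∃ θ ∈ K, θ * θ = c • (1 : Matrix (Fin n) (Fin n) F) := by
  classical
  haveI : Nonempty (Fin n) := ⟨⟨0, hn⟩⟩
  haveI : Finite ↥K := Finite.of_injective (fun κ : ↥K => κ.1) Subtype.val_injective
  letI : Fintype ↥K := Fintype.ofFinite ↥K
  have hcard : Fintype.card ↥K = Fintype.card F ^ 2 := by
    rw [Module.card_eq_pow_finrank (K := F) (V := ↥K), hK.finrank_eq]
  have hfld : IsField ↥K := ⟨⟨0, 1, fun h => by
      have h2 : (0 : Matrix (Fin n) (Fin n) F) = 1 := congrArg Subtype.val h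
      exact zero_ne_one h2⟩,
    fun x y => Subtype.ext (hK.comm x.1 x.2 y.1 y.2),
    fun {a} ha => by
      obtain ⟨y, hy, hxy⟩ := hK.inv a.1 a.2 (fun h => ha (Subtype.ext h))
      exact ⟨⟨y, hy⟩, Subtype.ext hxy⟩⟩
  letI : Field ↥K := hfld.toField
  obtain ⟨g, hg, hgen⟩ := S5949.exists_gen (F := ↥K)
  have hcK : c • (1 : Matrix (Fin n) (Fin n) F) ∈ K := K.smul_mem K.one_mem c
  have hc0 : (⟨c • 1, hcK⟩ : ↥K) ≠ 0 := by
    intro h
    have h2 : c • (1 : Matrix (Fin n) (Fin n) F) = 0 := congrArg Subtype.val h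
    have h3 := congrFun (congrFun h2 ⟨0, hn⟩) ⟨0, hn⟩
    simp at h3
    exact hc h3
  obtain ⟨t, ht⟩ := hgen (Units.mk0 _ hc0)
  have h1 : (Units.mk0 (⟨c • 1, hcK⟩ : ↥K) hc0) ^ (Fintype.card F - 1) = 1 := by
    apply Units.ext
    rw [Units.val_pow_eq_pow_val, Units.val_mk0, Units.val_one]
    apply Subtype.ext
    show (c • (1 : Matrix (Fin n) (Fin n) F)) ^ (Fintype.card F - 1) = 1
    rw [_root_.smul_pow, one_pow, FiniteField.pow_card_sub_one_eq_one c hc, one_smul]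
  rw [← ht, ← pow_mul] at h1
  have h2 := orderOf_dvd_of_pow_eq_one h1
  rw [hg, hcard] at h2
  have hq2 : 2 ≤ Fintype.card F := Fintype.one_lt_card
  have h3 : Fintype.card F ^ 2 - 1 = (Fintype.card F + 1) * (Fintype.card F - 1) := by
    obtain ⟨u, hu⟩ : ∃ u, Fintype.card F = u + 1 := ⟨Fintype.card F - 1, by omega⟩
    rw [hu, Nat.add_sub_cancel]
    exact Nat.sub_eq_of_eq_add (by ring)
  rw [h3] at h2
  have h4 : Fintype.card F + 1 ∣ t := Nat.dvd_of_mul_dvd_mul_right (by omega) h2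
  obtain ⟨s, hs⟩ := hodd
  have h5 : 2 ∣ t := Dvd.dvd.trans ⟨s + 1, by omega⟩ h4
  obtain ⟨t', ht'⟩ := h5
  refine ⟨((g ^ t' : (↥K)ˣ) : ↥K).1, ((g ^ t' : (↥K)ˣ) : ↥K).2, ?_⟩
  have h6 : (g ^ t' * g ^ t' : (↥K)ˣ) = Units.mk0 _ hc0 := by
    rw [← pow_add, ← two_mul, ← ht', ht]
  have h7 := congrArg (fun u : (↥K)ˣ => ((u : ↥K) : Matrix (Fin n) (Fin n) F)) h6
  exact h7

theorem two_eq_zero_of_even (he : Even (Fintype.card F)) : (2 : F) = 0 := by
  obtain ⟨pp, hpp⟩ := CharP.exists F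
  haveI := hpp
  haveI : Fact pp.Prime := ⟨CharP.char_is_prime F pp⟩
  obtain ⟨kq, -, hkq⟩ := FiniteField.card F pp
  have h12 : 2 ∣ pp ^ (kq : ℕ) := by rw [← hkq]; exact even_iff_two_dvd.mp he
  have h11 : pp = 2 := ((Nat.prime_dvd_prime_iff_eq Nat.prime_two (Fact.out : pp.Prime)).mp
    (Nat.Prime.dvd_of_dvd_pow Nat.prime_two h12)).symm
  have h13 := CharP.cast_eq_zero F pp
  rw [h11] at h13
  exact_mod_cast h13

theorem two_ne_zero_of_odd (ho : Odd (Fintype.card F)) : (2 : F) ≠ 0 := by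
  intro h
  obtain ⟨pp, hpp⟩ := CharP.exists F
  haveI := hpp
  haveI : Fact pp.Prime := ⟨CharP.char_is_prime F pp⟩
  obtain ⟨kq, -, hkq⟩ := FiniteField.card F pp
  have h' : ((2 : ℕ) : F) = 0 := by exact_mod_cast h
  rw [CharP.cast_eq_zero_iff F pp] at h'
  have hp2 : pp = 2 := (Nat.prime_dvd_prime_iff_eq (Fact.out : pp.Prime) Nat.prime_two).mp h'
  have h2 : 2 ∣ Fintype.card F := by rw [hkq, hp2]; exact dvd_pow_self 2 kq.ne_zero
  obtain ⟨s, hs⟩ := ho
  omega

theorem negone (hn : 0 < n) (hK : Cfsg.Geo.IsFieldSubalgebra 2 K) :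
    ∃ κ ∈ K, κ ^ (Fintype.card F + 1) = -1 := by
  classical
  haveI : Nonempty (Fin n) := ⟨⟨0, hn⟩⟩
  rcases Nat.even_or_odd (Fintype.card F) with he | ho
  · refine ⟨1, K.one_mem, ?_⟩
    rw [one_pow]
    have h2 : (2 : F) = 0 := two_eq_zero_of_even he
    rw [eq_comm, neg_eq_iff_add_eq_zero, ← two_smul F (1 : Matrix (Fin n) (Fin n) F), h2, zero_smul]
  · haveI : Finite ↥K := Finite.of_injective (fun κ : ↥K => κ.1) Subtype.val_injective
    letI : Fintype ↥K := Fintype.ofFinite ↥K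
    have hcard : Fintype.card ↥K = Fintype.card F ^ 2 := by
      rw [Module.card_eq_pow_finrank (K := F) (V := ↥K), hK.finrank_eq]
    have hfld : IsField ↥K := ⟨⟨0, 1, fun h => by
        have h2 : (0 : Matrix (Fin n) (Fin n) F) = 1 := congrArg Subtype.val h
        exact zero_ne_one h2⟩,
      fun x y => Subtype.ext (hK.comm x.1 x.2 y.1 y.2),
      fun {a} ha => by
        obtain ⟨y, hy, hxy⟩ := hK.inv a.1 a.2 (fun h => ha (Subtype.ext h))
        exact ⟨⟨y, hy⟩, Subtype.ext hxy⟩⟩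
    letI : Field ↥K := hfld.toField
    obtain ⟨g, hg, -⟩ := S5949.exists_gen (F := ↥K)
    obtain ⟨s, hs⟩ := ho
    have hq2 : 2 ≤ Fintype.card F := Fintype.one_lt_card
    have hs1 : 1 ≤ s := by omega
    obtain ⟨N, hN⟩ : ∃ N, N = s * (Fintype.card F + 1) := ⟨_, rfl⟩
    have hN2 : 2 * N = Fintype.card F ^ 2 - 1 := by
      rw [hN, hs]
      symm
      apply Nat.sub_eq_of_eq_add
      ring
    have hy2 : (g ^ N) * (g ^ N) = 1 := by
      rw [← pow_add, ← two_mul, hN2, ← hcard, ← hg, pow_orderOf_eq_one]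
    have hy1 : g ^ N ≠ 1 := by
      intro h
      have h3 := orderOf_dvd_of_pow_eq_one h
      rw [hg, hcard] at h3
      have hNpos : 0 < N := by rw [hN]; positivity
      have h4 := Nat.le_of_dvd hNpos h3
      omega
    have hy : ((g ^ N : (↥K)ˣ) : ↥K) = -1 := by
      have h5 : ((g ^ N : (↥K)ˣ) : ↥K) * ((g ^ N : (↥K)ˣ) : ↥K) = 1 := by
        rw [← Units.val_mul, hy2, Units.val_one]
      rcases mul_self_eq_one_iff.mp h5 with h6 | h6
      · exact absurd (Units.ext h6) hy1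
      · exact h6
    refine ⟨((g ^ s : (↥K)ˣ) : ↥K).1, ((g ^ s : (↥K)ˣ) : ↥K).2, ?_⟩
    have h7 : ((g ^ s : (↥K)ˣ) : ↥K) ^ (Fintype.card F + 1) = -1 := by
      rw [← Units.val_pow_eq_pow_val, ← pow_mul, ← hN]; exact hy
    exact congrArg Subtype.val h7

end K3

section frob

variable {F : Type*} [Field F] [Fintype F]

theorem exists_frob2 {n : ℕ} (K : Subalgebra F (Matrix (Fin n) (Fin n) F)) (hn : 2 ≤ n)
    (hK : Cfsg.Geo.IsFieldSubalgebra n K) {p : ℕ} [Fact p.Prime]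
    [CharP F p] :
    ∃ H Hi : Matrix (Fin n) (Fin n) F, H * Hi = 1 ∧ Hi * H = 1 ∧ H ^ n = 1 ∧
      (∀ κ ∈ K, H * κ = κ ^ Fintype.card F * H) ∧
      (∃ κ₀ ∈ K, κ₀ ^ Fintype.card F ≠ κ₀) ∧
      (∀ k, k ∈ K ↔ H * k * Hi ∈ K) := by
  classical
  haveI : Nonempty (Fin n) := ⟨⟨0, by omega⟩⟩
  obtain ⟨hpow, hne⟩ := S5970.K_pow_card K (by omega) hK
  obtain ⟨κ₀, hκ₀K, hκ₀⟩ := hne (by omega)
  obtain ⟨kq, -, hkq⟩ := FiniteField.card F p
  obtain ⟨v₀, hv₀⟩ : ∃ v₀ : Fin n → F, v₀ ≠ 0 :=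
    ⟨Pi.single ⟨0, by omega⟩ 1, fun h => by
      have := congrFun h ⟨0, by omega⟩
      simp at this⟩
  obtain ⟨evE, hevE⟩ : ∃ evE : ↥K ≃ₗ[F] (Fin n → F), ∀ κ : ↥K, evE κ = Matrix.mulVec κ.1 v₀ :=
    ⟨LinearEquiv.ofBijective (S5970.evL K v₀)
      ⟨S5970.evL_inj K hK v₀ hv₀, S5970.evL_surj K hK v₀ hv₀⟩, fun κ => rfl⟩
  let φL : ↥K →ₗ[F] ↥K :=
    { toFun := fun κ => ⟨κ.1 ^ Fintype.card F, K.pow_mem κ.2 _⟩
      map_add' := fun a b => by
        apply Subtype.ext
        show (a.1 + b.1) ^ Fintype.card F = a.1 ^ Fintype.card F + b.1 ^ Fintype.card F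
        rw [hkq]
        exact add_pow_char_pow_of_commute p _ (hK.comm a.1 a.2 b.1 b.2)
      map_smul' := fun c a => by
        apply Subtype.ext
        show (c • a.1) ^ Fintype.card F = c • a.1 ^ Fintype.card F
        rw [_root_.smul_pow, FiniteField.pow_card] }
  have hφL : ∀ κ : ↥K, (φL κ).1 = κ.1 ^ Fintype.card F := fun κ => rfl
  obtain ⟨h, hh⟩ : ∃ h : Module.End F (Fin n → F),
      h = evE.toLinearMap ∘ₗ φL ∘ₗ evE.symm.toLinearMap := ⟨_, rfl⟩
  have hhv : ∀ κ ∈ K, h (Matrix.mulVec κ v₀) = Matrix.mulVec (κ ^ Fintype.card F) v₀ := by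
    intro κ hκ
    have h1 : Matrix.mulVec κ v₀ = evE ⟨κ, hκ⟩ := (hevE ⟨κ, hκ⟩).symm
    rw [h1, hh]
    simp only [LinearMap.comp_apply, LinearEquiv.coe_coe, LinearEquiv.symm_apply_apply]
    rw [hevE, hφL]
  have hsurj : ∀ v, ∃ κ ∈ K, Matrix.mulVec κ v₀ = v := S5970.K_surj K hK v₀ hv₀
  have hhκ : ∀ κ ∈ K, ∀ v, h (Matrix.mulVec κ v) = Matrix.mulVec (κ ^ Fintype.card F) (h v) := by
    intro κ hκ v
    obtain ⟨κ', hκ', rfl⟩ := hsurj v
    rw [Matrix.mulVec_mulVec, hhv _ (K.mul_mem hκ hκ'), hhv _ hκ', Matrix.mulVec_mulVec,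
      (show Commute κ κ' from hK.comm κ hκ κ' hκ').mul_pow]
  have hhpow : ∀ (m : ℕ), ∀ κ ∈ K,
      (h ^ m) (Matrix.mulVec κ v₀) = Matrix.mulVec (κ ^ (Fintype.card F ^ m)) v₀ := by
    intro m
    induction m with
    | zero => intro κ hκ; simp
    | succ m ih =>
      intro κ hκ
      rw [pow_succ', Module.End.mul_apply, ih κ hκ, hhv _ (K.pow_mem hκ _), ← pow_mul, ← pow_succ]
  have hhn : h ^ n = 1 := by
    apply LinearMap.ext; intro v
    obtain ⟨κ, hκ, rfl⟩ := hsurj v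
    rw [hhpow n κ hκ, hpow κ hκ]; rfl
  obtain ⟨H, hH⟩ : ∃ H : Matrix (Fin n) (Fin n) F, H = LinearMap.toMatrix' h := ⟨_, rfl⟩
  have hlin : Matrix.toLin' H = h := by rw [hH]; exact Matrix.toLin'_toMatrix' h
  have hHn : H ^ n = 1 := by
    have := congrArg (LinearMap.toMatrixAlgEquiv' (R := F) (n := Fin n)) hhn
    rw [map_pow, map_one] at this
    rw [hH]; exact this
  have hHκ : ∀ κ ∈ K, H * κ = κ ^ Fintype.card F * H := by
    intro κ hκ
    apply Matrix.toLin'.injective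
    apply LinearMap.ext; intro v
    rw [Matrix.toLin'_apply, Matrix.toLin'_apply, ← Matrix.mulVec_mulVec, ← Matrix.mulVec_mulVec,
      ← Matrix.toLin'_apply H, ← Matrix.toLin'_apply H, hlin]
    exact hhκ κ hκ v
  have hn' : n = (n - 1) + 1 := by omega
  have hHHi : H * H ^ (n - 1) = 1 := by rw [← pow_succ', ← hn', hHn]
  have hHiH : H ^ (n - 1) * H = 1 := by rw [← pow_succ, ← hn', hHn]
  refine ⟨H, H ^ (n - 1), hHHi, hHiH, hHn, hHκ, ⟨κ₀, hκ₀K, hκ₀⟩, ?_⟩
  · intro k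
    constructor
    · intro hk
      rw [hHκ k hk, mul_assoc, hHHi, mul_one]
      exact K.pow_mem hk _
    · intro hk
      obtain ⟨κ₁, hκ₁⟩ : ∃ κ₁, κ₁ = H * k * H ^ (n - 1) := ⟨_, rfl⟩
      rw [← hκ₁] at hk
      have h2 : κ₁ ^ (Fintype.card F ^ (n - 1)) ∈ K := K.pow_mem hk _
      have h3 := hHκ _ h2
      rw [← pow_mul, ← pow_succ, ← hn', hpow _ hk] at h3
      have h4 : κ₁ * H = H * k := by rw [hκ₁, mul_assoc, hHiH, mul_one]
      rw [h4] at h3
      have h5 : κ₁ ^ (Fintype.card F ^ (n - 1)) = k := by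
        have h6 := congrArg (fun M => H ^ (n - 1) * M) h3
        simp only [← mul_assoc, hHiH, one_mul] at h6
        exact h6
      rw [← h5]; exact h2

end frob

section lin

variable {F : Type*} [Field F] {V : Type*} [AddCommGroup V] [Module F V] [FiniteDimensional F V]

theorem cyc_basis2 (f : Module.End F V) (h2 : (2 : F) ≠ 0) (z : F) (hz : ∀ b : F, b ^ 2 ≠ z)
    (hf : f ^ 2 = z • (1 : Module.End F V)) {κ : Type*} [Fintype κ]
    (hV : finrank F V = 2 * Fintype.card κ) :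
    ∃ B : Basis (Fin 2 × κ) F V, ∀ s, f (B (0, s)) = B (1, s) ∧ f (B (1, s)) = z • B (0, s) := by
  have hz0 : z ≠ 0 := by
    intro h; exact hz 0 (by rw [h]; norm_num)
  have h2' : ((2 : ℕ) : F) ≠ 0 := by exact_mod_cast h2
  have hirr : Irreducible (X ^ 2 - C z : F[X]) :=
    X_pow_sub_C_irreducible_of_prime Nat.prime_two hz
  have hcomp := S5958.comp_z f 2 h2' z hz0 hf
  have hcyc := S5958.cyc_irr f 2 (by norm_num) z hirr hf
  obtain ⟨W, -, -, hWfr, w, hw⟩ := S5958.exists_cyc f 2 2 (by norm_num) hcomp ⊤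
    (fun _ _ => Submodule.mem_top) hcyc (Fintype.card κ) (by rw [finrank_top, hV])
  have hWtop : W = ⊤ := Submodule.eq_top_of_finrank_eq (by rw [hWfr, hV])
  obtain ⟨e₀⟩ : Nonempty (κ ≃ Fin (Fintype.card κ)) := ⟨Fintype.equivFin κ⟩
  obtain ⟨b, hb⟩ : ∃ b : Fin 2 × κ → V, b = fun p => (f ^ p.1.val) (w (e₀ p.2)) := ⟨_, rfl⟩
  have hspan : ⊤ ≤ Submodule.span F (Set.range b) := by
    rw [← hWtop, ← hw]
    apply Submodule.span_mono
    rintro _ ⟨p, rfl⟩
    exact ⟨(p.2, e₀.symm p.1), by rw [hb]; simp⟩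
  obtain ⟨B, hB⟩ := S5958.basis_of_span b hspan (by simp [hV])
  refine ⟨B, fun s => ⟨?_, ?_⟩⟩
  · rw [hB, hB, hb]
    show f ((f ^ 0) (w (e₀ s))) = (f ^ 1) (w (e₀ s))
    rw [pow_zero, pow_one]; rfl
  · rw [hB, hB, hb]
    show f ((f ^ 1) (w (e₀ s))) = z • (f ^ 0) (w (e₀ s))
    rw [pow_one, pow_zero, ← Module.End.mul_apply, ← pow_two, hf]; simp

theorem blk (f : Module.End F V) (z : F) {κ : Type*} [Fintype κ] [DecidableEq κ]
    (B : Basis (Fin 2 × κ) F V)
    (hB : ∀ s, f (B (0, s)) = B (1, s) ∧ f (B (1, s)) = z • B (0, s)) (j₀ : κ) (a b : F) :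
    ∃ D : Module.End F V, LinearMap.det D = a ^ 2 - z * b ^ 2 ∧ D ∘ₗ f = f ∘ₗ D := by
  obtain ⟨Mj, hMj⟩ : ∃ Mj : κ → Matrix (Fin 2) (Fin 2) F,
      Mj = fun j => if j = j₀ then !![a, z * b; b, a] else 1 := ⟨_, rfl⟩
  have hrel : ∀ j, Mj j 0 1 = z * Mj j 1 0 ∧ Mj j 0 0 = Mj j 1 1 := by
    intro j
    rw [hMj]
    by_cases hj : j = j₀
    · simp [hj]
    · simp [hj]
  have hD : ∀ (i : Fin 2) (j : κ), Matrix.toLin B B (Matrix.blockDiagonal Mj) (B (i, j)) =
      Mj j 0 i • B (0, j) + Mj j 1 i • B (1, j) := by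
    intro i j
    rw [Matrix.toLin_self, Fintype.sum_prod_type, Fin.sum_univ_two]
    rw [Finset.sum_eq_single j, Finset.sum_eq_single j]
    · rw [Matrix.blockDiagonal_apply', Matrix.blockDiagonal_apply', if_pos rfl, if_pos rfl]
    · intro j' _ hne; rw [Matrix.blockDiagonal_apply', if_neg hne, zero_smul]
    · intro h; exact absurd (Finset.mem_univ j) h
    · intro j' _ hne; rw [Matrix.blockDiagonal_apply', if_neg hne, zero_smul]
    · intro h; exact absurd (Finset.mem_univ j) h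
  refine ⟨Matrix.toLin B B (Matrix.blockDiagonal Mj), ?_, ?_⟩
  · rw [LinearMap.det_toLin, Matrix.det_blockDiagonal, Finset.prod_eq_single j₀]
    · rw [hMj]; simp only [if_pos]; rw [Matrix.det_fin_two_of]; ring
    · intro j _ hne; rw [hMj]; simp only [if_neg hne]; exact Matrix.det_one
    · intro h; exact absurd (Finset.mem_univ j₀) h
  · apply B.ext
    rintro ⟨i, j⟩
    obtain ⟨h1, h2⟩ := hrel j
    obtain ⟨hB0, hB1⟩ := hB j
    simp only [LinearMap.comp_apply]
    fin_cases i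
    · show Matrix.toLin B B (Matrix.blockDiagonal Mj) (f (B (0, j))) =
        f (Matrix.toLin B B (Matrix.blockDiagonal Mj) (B (0, j)))
      rw [hB0, hD, hD, map_add, map_smul, map_smul, hB0, hB1, h1, h2]
      module
    · show Matrix.toLin B B (Matrix.blockDiagonal Mj) (f (B (1, j))) =
        f (Matrix.toLin B B (Matrix.blockDiagonal Mj) (B (1, j)))
      rw [hB1, map_smul, hD, hD, map_add, map_smul, map_smul, hB0, hB1, h1, h2]
      module

theorem inv_basis_gen (y : Module.End F V) (h2 : (2 : F) ≠ 0) (hy : y ^ 2 = 1)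
    {ι₁ ι₂ : Type*} [Fintype ι₁] [Fintype ι₂]
    (hD : finrank F (S5949.Dg y 2) = Fintype.card ι₁)
    (hC : finrank F (S5949.Cg y) = Fintype.card ι₂) :
    ∃ B : Basis (ι₁ ⊕ ι₂) F V,
      ∀ k, y (B k) = Sum.elim (fun _ => (-1 : F)) (fun _ => 1) k • B k := by
  classical
  have h2' : ((2 : ℕ) : F) ≠ 0 := by exact_mod_cast h2
  have hsplit := S5949.split_finrank y 2 h2' hy ⊤ (fun w _ => Submodule.mem_top)
  rw [top_inf_eq, top_inf_eq, finrank_top] at hsplit
  obtain ⟨bD⟩ : Nonempty (Basis ι₁ F (S5949.Dg y 2)) :=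
    ⟨(Module.finBasisOfFinrankEq F _ hD).reindex (Fintype.equivFin ι₁).symm⟩
  obtain ⟨bC⟩ : Nonempty (Basis ι₂ F (S5949.Cg y)) :=
    ⟨(Module.finBasisOfFinrankEq F _ hC).reindex (Fintype.equivFin ι₂).symm⟩
  obtain ⟨b, hb⟩ : ∃ b : ι₁ ⊕ ι₂ → V,
      b = Sum.elim (fun i => (bD i : V)) (fun i => (bC i : V)) := ⟨_, rfl⟩
  have hspan : ⊤ ≤ Submodule.span F (Set.range b) := by
    have hCD : (⊤ : Submodule F V) = S5949.Cg y ⊔ S5949.Dg y 2 := by
      have := S5949.split y 2 h2' hy ⊤ (fun w _ => Submodule.mem_top)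
      rw [top_inf_eq, top_inf_eq] at this; exact this
    rw [hCD]
    apply sup_le
    · intro v hv
      have h1 := bC.sum_repr ⟨v, hv⟩
      have h3 := congrArg Subtype.val h1
      rw [Submodule.coe_sum] at h3
      simp only [Submodule.coe_smul] at h3
      rw [← h3]
      exact Submodule.sum_mem _ (fun i _ => Submodule.smul_mem _ _
        (Submodule.subset_span ⟨Sum.inr i, by rw [hb]; rfl⟩))
    · intro v hv
      have h1 := bD.sum_repr ⟨v, hv⟩
      have h3 := congrArg Subtype.val h1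
      rw [Submodule.coe_sum] at h3
      simp only [Submodule.coe_smul] at h3
      rw [← h3]
      exact Submodule.sum_mem _ (fun i _ => Submodule.smul_mem _ _
        (Submodule.subset_span ⟨Sum.inl i, by rw [hb]; rfl⟩))
  obtain ⟨B, hB⟩ := S5958.basis_of_span b hspan
    (by rw [Fintype.card_sum, ← hD, ← hC, hsplit, add_comm])
  refine ⟨B, fun k => ?_⟩
  rw [hB, hb]
  rcases k with i | i
  · simp only [Sum.elim_inl]
    have h1 : (∑ j ∈ Finset.range 2, y ^ j) (bD i : V) = 0 := (bD i).2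
    rw [Finset.sum_range_succ, Finset.sum_range_one, LinearMap.add_apply, pow_zero, pow_one,
      Module.End.one_apply] at h1
    rw [neg_smul, one_smul]
    exact eq_neg_of_add_eq_zero_right h1
  · simp only [Sum.elim_inr]
    rw [one_smul]
    exact (S5949.mem_Cg y _).mp (bC i).2

theorem inv_det (y : Module.End F V) (h2 : (2 : F) ≠ 0) (hy : y ^ 2 = 1) :
    LinearMap.det y = (-1) ^ finrank F (S5949.Dg y 2) := by
  classical
  obtain ⟨B, hB⟩ := inv_basis_gen y h2 hy (ι₁ := Fin (finrank F (S5949.Dg y 2)))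
    (ι₂ := Fin (finrank F (S5949.Cg y))) (by simp) (by simp)
  have hy' : y = Matrix.toLin B B
      (Matrix.diagonal (Sum.elim (fun _ => (-1 : F)) (fun _ => 1))) := by
    apply B.ext; intro k
    rw [S5971.diag_toLin, hB]
  have h1 := congrArg LinearMap.det hy'
  rw [h1, LinearMap.det_toLin, Matrix.det_diagonal, Fintype.prod_sum_type]
  simp

theorem ker_proj_dimn {n : ℕ} (j : Fin n) :
    n ≤ finrank F (LinearMap.ker (LinearMap.proj (R := F) (φ := fun _ : Fin n => F) j)) + 1 := by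
  have h := LinearMap.finrank_range_add_finrank_ker
    (LinearMap.proj (R := F) (φ := fun _ : Fin n => F) j)
  have h2 : finrank F (LinearMap.range (LinearMap.proj (R := F) (φ := fun _ : Fin n => F) j)) ≤ 1 := by
    have := Submodule.finrank_le
      (LinearMap.range (LinearMap.proj (R := F) (φ := fun _ : Fin n => F) j))
    simpa using this
  have h3 : finrank F (Fin n → F) = n := by simp
  omega

theorem fix_dimn {n : ℕ} (M : Matrix (Fin n) (Fin n) F) (j : Fin n)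
    (hM : ∀ v : Fin n → F, v j = 0 → Matrix.mulVec M v = v) :
    n ≤ finrank F (S5949.Cg (Matrix.toLin' M)) + 1 := by
  have h1 : LinearMap.ker (LinearMap.proj (R := F) (φ := fun _ : Fin n => F) j) ≤
      S5949.Cg (Matrix.toLin' M) := by
    intro v hv
    rw [LinearMap.mem_ker, LinearMap.proj_apply] at hv
    rw [S5949.mem_Cg, Matrix.toLin'_apply]
    exact hM v hv
  have h2 := Submodule.finrank_mono h1
  have h3 := ker_proj_dimn (F := F) j
  omega

end lin

section fin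

variable {F : Type*} [Field F] [Fintype F]

theorem neg_one_root (n : ℕ) (hn : 0 < n) (h2 : (2 : F) ≠ 0) (l : F) (hl : l ^ n = -1) :
    padicValNat 2 n < padicValNat 2 (Fintype.card F - 1) := by
  haveI : Fact (Nat.Prime 2) := ⟨Nat.prime_two⟩
  obtain ⟨k, n', hodd, hnk⟩ := Nat.exists_eq_two_pow_mul_odd hn.ne'
  have hq2 : 2 ≤ Fintype.card F := Fintype.one_lt_card
  have h11 : (-1 : F) ≠ 1 := by
    intro h; apply h2; linear_combination -h
  obtain ⟨μ, hμ⟩ : ∃ μ : F, μ = l ^ n' := ⟨_, rfl⟩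
  have hμ1 : μ ^ 2 ^ k = -1 := by rw [hμ, ← pow_mul, Nat.mul_comm, ← hnk, hl]
  have hnot : ¬ μ ^ 2 ^ k = 1 := by rw [hμ1]; exact h11
  have hfin : μ ^ 2 ^ (k + 1) = 1 := by rw [pow_succ, pow_mul, hμ1]; norm_num
  have hord := orderOf_eq_prime_pow hnot hfin
  have hμ0 : μ ≠ 0 := by
    rintro rfl
    rw [zero_pow (by positivity)] at hμ1
    exact one_ne_zero (neg_eq_zero.mp hμ1.symm)
  have hdvd : orderOf μ ∣ Fintype.card F - 1 :=
    orderOf_dvd_of_pow_eq_one (FiniteField.pow_card_sub_one_eq_one μ hμ0)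
  rw [hord] at hdvd
  have h1 : k + 1 ≤ padicValNat 2 (Fintype.card F - 1) :=
    (padicValNat_dvd_iff_le (by omega)).mp hdvd
  have h3 : padicValNat 2 n < k + 1 := by
    by_contra hcon
    push Not at hcon
    have h4 : 2 ^ (k + 1) ∣ n := (padicValNat_dvd_iff_le hn.ne').mpr hcon
    rw [hnk, pow_succ] at h4
    have h5 : 2 ∣ n' := Nat.dvd_of_mul_dvd_mul_left (by positivity) h4
    obtain ⟨t, ht⟩ := hodd
    omega
  omega

theorem exists_neg_one_root (n : ℕ) (hn : 0 < n)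
    (hv : padicValNat 2 n < padicValNat 2 (Fintype.card F - 1)) :
    ∃ l : F, l ≠ 0 ∧ l ^ n = -1 := by
  haveI : Fact (Nat.Prime 2) := ⟨Nat.prime_two⟩
  obtain ⟨k, n', hodd, hnk⟩ := Nat.exists_eq_two_pow_mul_odd hn.ne'
  have hq2 : 2 ≤ Fintype.card F := Fintype.one_lt_card
  have hk : k ≤ padicValNat 2 n := (padicValNat_dvd_iff_le hn.ne').mp ⟨n', hnk⟩
  have hdvd : 2 ^ (k + 1) ∣ Fintype.card F - 1 :=
    (padicValNat_dvd_iff_le (by omega)).mpr (by omega)
  obtain ⟨u, hu⟩ := hdvd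
  have hu0 : 0 < u := by
    rcases Nat.eq_zero_or_pos u with h | h
    · rw [h, Nat.mul_zero] at hu; omega
    · exact h
  obtain ⟨γ, hγ, -⟩ := S5949.exists_gen (F := F)
  obtain ⟨ξ, hξ⟩ : ∃ ξ : Fˣ, ξ = γ ^ (u * 2 ^ k) := ⟨_, rfl⟩
  have hsum : 2 * (u * 2 ^ k) = Fintype.card F - 1 := by rw [hu, pow_succ]; ring
  have hpos : 0 < u * 2 ^ k := by positivity
  have hξ2 : ξ * ξ = 1 := by
    rw [hξ, ← pow_add, ← two_mul, hsum, ← hγ, pow_orderOf_eq_one]
  have hξ1 : ξ ≠ 1 := by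
    intro h
    rw [hξ] at h
    have h3 := orderOf_dvd_of_pow_eq_one h
    rw [hγ] at h3
    have h4 := Nat.le_of_dvd hpos h3
    omega
  have hξv : (ξ : F) = -1 := by
    have h5 : (ξ : F) * (ξ : F) = 1 := by rw [← Units.val_mul, hξ2, Units.val_one]
    rcases mul_self_eq_one_iff.mp h5 with h6 | h6
    · exact absurd (Units.ext h6) hξ1
    · exact h6
  refine ⟨((γ ^ u : Fˣ) : F), (γ ^ u).ne_zero, ?_⟩
  rw [hnk, pow_mul, ← Units.val_pow_eq_pow_val, ← pow_mul, ← hξ, hξv]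
  exact Odd.neg_one_pow hodd

theorem sum_sq (c : F) (hc : c ≠ 0) : ∃ a b : F, a ^ 2 + b ^ 2 = c := by
  rcases Nat.even_or_odd (Fintype.card F) with he | ho
  · have hcop : Nat.Coprime 2 (Fintype.card F - 1) := by
      rw [Nat.coprime_two_left]
      obtain ⟨s, hs⟩ := he
      have := Fintype.one_lt_card (α := F)
      exact ⟨s - 1, by omega⟩
    obtain ⟨a, -, ha⟩ := S5949.exists_root_of_coprime 2 hcop c hc
    exact ⟨a, 0, by rw [ha]; ring⟩
  · have h1 : (C (1 : F) * X ^ 2 + C 0 * X + C 0 : F[X]).degree = 2 :=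
      degree_quadratic one_ne_zero
    have h2 : (C (1 : F) * X ^ 2 + C 0 * X + C (-c) : F[X]).degree = 2 :=
      degree_quadratic one_ne_zero
    obtain ⟨a, b, hab⟩ := FiniteField.exists_root_sum_quadratic h1 h2 (Nat.odd_iff.mp ho)
    refine ⟨a, b, ?_⟩
    simp at hab
    linear_combination hab

theorem norm_form (z c : F) (hz : z ≠ 0) (ho : Odd (Fintype.card F)) :
    ∃ a b : F, a ^ 2 - z * b ^ 2 = c := by
  have h1 : (C (1 : F) * X ^ 2 + C 0 * X + C 0 : F[X]).degree = 2 :=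
    degree_quadratic one_ne_zero
  have h2 : (C (-z) * X ^ 2 + C 0 * X + C (-c) : F[X]).degree = 2 :=
    degree_quadratic (neg_ne_zero.mpr hz)
  obtain ⟨a, b, hab⟩ := FiniteField.exists_root_sum_quadratic h1 h2 (Nat.odd_iff.mp ho)
  refine ⟨a, b, ?_⟩
  simp at hab
  linear_combination hab

end fin

section two

variable {F : Type*} [Field F]

theorem tr_zero (X : Matrix (Fin 2) (Fin 2) F) (z : F)
    (hX2 : X * X = z • (1 : Matrix (Fin 2) (Fin 2) F))
    (hdet : X.det = 1) (hns : ∀ c : F, X ≠ c • (1 : Matrix (Fin 2) (Fin 2) F)) :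
    X 0 0 + X 1 1 = 0 ∧ z = -1 := by
  have e00 : X 0 0 * X 0 0 + X 0 1 * X 1 0 = z := by
    have := congrFun (congrFun hX2 0) 0
    simpa [Matrix.mul_apply, Fin.sum_univ_two] using this
  have e01 : X 0 0 * X 0 1 + X 0 1 * X 1 1 = 0 := by
    have := congrFun (congrFun hX2 0) 1
    simpa [Matrix.mul_apply, Fin.sum_univ_two] using this
  have e10 : X 1 0 * X 0 0 + X 1 1 * X 1 0 = 0 := by
    have := congrFun (congrFun hX2 1) 0
    simpa [Matrix.mul_apply, Fin.sum_univ_two] using this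
  have e11 : X 1 0 * X 0 1 + X 1 1 * X 1 1 = z := by
    have := congrFun (congrFun hX2 1) 1
    simpa [Matrix.mul_apply, Fin.sum_univ_two] using this
  have hd : X 0 0 * X 1 1 - X 0 1 * X 1 0 = 1 := by rw [← Matrix.det_fin_two]; exact hdet
  have htr : X 0 0 + X 1 1 = 0 := by
    by_contra htr
    have h01 : X 0 1 = 0 := by
      have : X 0 1 * (X 0 0 + X 1 1) = 0 := by linear_combination e01
      exact (mul_eq_zero.mp this).resolve_right htr
    have h10 : X 1 0 = 0 := by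
      have : X 1 0 * (X 0 0 + X 1 1) = 0 := by linear_combination e10
      exact (mul_eq_zero.mp this).resolve_right htr
    have h0011 : X 0 0 = X 1 1 := by
      have : (X 0 0 - X 1 1) * (X 0 0 + X 1 1) = 0 := by linear_combination e00 - e11
      exact sub_eq_zero.mp ((mul_eq_zero.mp this).resolve_right htr)
    apply hns (X 0 0)
    ext i j
    fin_cases i <;> fin_cases j
    · simp
    · simp [h01]
    · simp [h10]
    · simp [h0011]
  refine ⟨htr, ?_⟩
  have h11 : X 1 1 = -X 0 0 := eq_neg_of_add_eq_zero_right htr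
  rw [h11] at hd
  linear_combination -e00 - hd

theorem cyc_vec (X : Matrix (Fin 2) (Fin 2) F)
    (hns : ∀ c : F, X ≠ c • (1 : Matrix (Fin 2) (Fin 2) F)) :
    ∃ B : Basis (Fin 2) F (Fin 2 → F), B 1 = Matrix.mulVec X (B 0) := by
  have hex : ∃ v : Fin 2 → F, ∀ c : F, c • v ≠ Matrix.mulVec X v := by
    by_contra hcon
    push Not at hcon
    obtain ⟨c0, h0⟩ := hcon ![1, 0]
    obtain ⟨c1, h1⟩ := hcon ![0, 1]
    obtain ⟨c2, h2⟩ := hcon ![1, 1]
    have m : ∀ (v : Fin 2 → F) (i : Fin 2), Matrix.mulVec X v i = X i 0 * v 0 + X i 1 * v 1 := by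
      intro v i; simp [Matrix.mulVec, dotProduct, Fin.sum_univ_two]
    have a1 : c0 * 0 = X 1 0 * 1 + X 1 1 * 0 := by
      have := congrFun h0 1; rw [m] at this; exact this
    have b0 : c1 * 0 = X 0 0 * 0 + X 0 1 * 1 := by
      have := congrFun h1 0; rw [m] at this; exact this
    have d0 : c2 * 1 = X 0 0 * 1 + X 0 1 * 1 := by
      have := congrFun h2 0; rw [m] at this; exact this
    have d1 : c2 * 1 = X 1 0 * 1 + X 1 1 * 1 := by
      have := congrFun h2 1; rw [m] at this; exact this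
    have h10 : X 1 0 = 0 := by linear_combination -a1
    have h01 : X 0 1 = 0 := by linear_combination -b0
    have h0011 : X 0 0 = X 1 1 := by linear_combination d1 - d0 - h01 + h10
    apply hns (X 0 0)
    ext i j
    fin_cases i <;> fin_cases j
    · simp
    · simp [h01]
    · simp [h10]
    · simp [h0011]
  obtain ⟨v, hv⟩ := hex
  have hv0 : v ≠ 0 := by
    rintro rfl
    exact hv 0 (by simp)
  have hli : LinearIndependent F ![v, Matrix.mulVec X v] := by
    rw [LinearIndependent.pair_iff]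
    intro s t hst
    have ht : t = 0 := by
      by_contra ht
      apply hv (-(t⁻¹ * s))
      have h2 : t • Matrix.mulVec X v = -(s • v) := by
        rw [eq_neg_iff_add_eq_zero, add_comm]; exact hst
      have h3 : Matrix.mulVec X v = t⁻¹ • (t • Matrix.mulVec X v) := by
        rw [smul_smul, inv_mul_cancel₀ ht, one_smul]
      rw [h3, h2, smul_neg, smul_smul, neg_smul]
    refine ⟨?_, ht⟩
    rw [ht, zero_smul, add_zero] at hst
    exact (smul_eq_zero.mp hst).resolve_right hv0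
  have hB := coe_basisOfLinearIndependentOfCardEqFinrank hli (by simp)
  refine ⟨basisOfLinearIndependentOfCardEqFinrank hli (by simp), ?_⟩
  rw [hB]
  rfl

end two

section two'

variable {F : Type*} [Field F] [Fintype F]

theorem case_two {p : ℕ} [Fact p.Prime] [CharP F p]
    (K : Subalgebra F (Matrix (Fin 2) (Fin 2) F)) (hK : Cfsg.Geo.IsFieldSubalgebra 2 K)
    (x : Matrix.SpecialLinearGroup (Fin 2) F) (z : F)
    (hxz : ((x ^ 2 : Matrix.SpecialLinearGroup (Fin 2) F) : Matrix (Fin 2) (Fin 2) F) =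
      z • (1 : Matrix (Fin 2) (Fin 2) F))
    (hxns : ∀ z : F, (x : Matrix (Fin 2) (Fin 2) F) ≠ z • (1 : Matrix (Fin 2) (Fin 2) F)) :
    ∃ P : Matrix.SpecialLinearGroup (Fin 2) F, P⁻¹ * x * P ∈
      ((Cfsg.Geo.subalgebraNormalizer K).comap
      (Matrix.SpecialLinearGroup.toGL : Matrix.SpecialLinearGroup (Fin 2) F →* GL (Fin 2) F)) := by
  classical
  obtain ⟨X, hX⟩ : ∃ X : Matrix (Fin 2) (Fin 2) F, X = (x : Matrix (Fin 2) (Fin 2) F) := ⟨_, rfl⟩
  have hX2 : X * X = z • (1 : Matrix (Fin 2) (Fin 2) F) := by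
    rw [hX, ← pow_two, ← Matrix.SpecialLinearGroup.coe_pow]; exact hxz
  have hdet : X.det = 1 := by rw [hX]; exact x.det_coe
  have hns : ∀ c : F, X ≠ c • (1 : Matrix (Fin 2) (Fin 2) F) := by rw [hX]; exact hxns
  obtain ⟨htr, hz⟩ := tr_zero X z hX2 hdet hns
  obtain ⟨H, Hi, hHHi, hHiH, hHn, hHκ, ⟨κ₀, hκ₀K, hκ₀⟩, hHN⟩ :=
    exists_frob2 K (le_refl 2) hK (p := p)
  obtain ⟨κ, hκK, hκ⟩ := negone K (by norm_num) hK
  have hκ0 : κ ≠ 0 := by
    rintro rfl
    rw [zero_pow (by omega)] at hκ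
    have h1 := congrFun (congrFun hκ 0) 0
    simp at h1
  obtain ⟨κi, hκiK, hκκi⟩ := hK.inv κ hκK hκ0
  have hκiκ : κi * κ = 1 := by rw [hK.comm κi hκiK κ hκK]; exact hκκi
  obtain ⟨G, hG⟩ : ∃ G : Matrix (Fin 2) (Fin 2) F, G = κ * H := ⟨_, rfl⟩
  obtain ⟨Gi, hGi⟩ : ∃ Gi : Matrix (Fin 2) (Fin 2) F, Gi = Hi * κi := ⟨_, rfl⟩
  have hGGi : G * Gi = 1 := by
    rw [hG, hGi, mul_assoc, ← mul_assoc H, hHHi, one_mul, hκκi]
  have hHH : H * H = 1 := by rw [← pow_two]; exact hHn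
  have hG2 : G * G = z • (1 : Matrix (Fin 2) (Fin 2) F) := by
    rw [hG, hz, neg_smul, one_smul, ← hκ]
    calc κ * H * (κ * H) = κ * (H * κ) * H := by simp only [mul_assoc]
      _ = κ * (κ ^ Fintype.card F * H) * H := by rw [hHκ κ hκK]
      _ = κ * κ ^ Fintype.card F * (H * H) := by simp only [mul_assoc]
      _ = κ ^ (Fintype.card F + 1) := by rw [hHH, mul_one, ← pow_succ']
  have hGns : ∀ c : F, G ≠ c • (1 : Matrix (Fin 2) (Fin 2) F) := by
    intro c hc
    have h1 : H = c • κi := by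
      calc H = κi * κ * H := by rw [hκiκ, one_mul]
        _ = κi * G := by rw [hG, mul_assoc]
        _ = c • κi := by rw [hc, Matrix.mul_smul, mul_one]
    have hHK : H ∈ K := by rw [h1]; exact K.smul_mem hκiK c
    have h2 := hHκ κ₀ hκ₀K
    rw [hK.comm H hHK κ₀ hκ₀K] at h2
    have h3 := congrArg (fun M => M * Hi) h2
    simp only [mul_assoc, hHHi, mul_one] at h3
    exact hκ₀ h3.symm
  have hGN : ∀ k, k ∈ K ↔ G * k * Gi ∈ K := by
    intro k
    have h1 : G * k * Gi = κ * (H * k * Hi) * κi := by rw [hG, hGi]; simp only [mul_assoc]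
    rw [h1]
    constructor
    · intro hk
      exact K.mul_mem (K.mul_mem hκK ((hHN k).mp hk)) hκiK
    · intro hk
      rw [hHN k]
      have h2 : H * k * Hi = κi * (κ * (H * k * Hi) * κi) * κ := by
        calc H * k * Hi = (κi * κ) * (H * k * Hi) * (κi * κ) := by rw [hκiκ, one_mul, mul_one]
          _ = κi * (κ * (H * k * Hi) * κi) * κ := by simp only [mul_assoc]
      rw [h2]
      exact K.mul_mem (K.mul_mem hκiK hk) hκK
  obtain ⟨Bx, hBx⟩ := cyc_vec X hns
  obtain ⟨Bg, hBg⟩ := cyc_vec G hGns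
  have hBx2 : Matrix.mulVec X (Bx 1) = z • Bx 0 := by
    rw [hBx, Matrix.mulVec_mulVec, hX2, Matrix.smul_mulVec, Matrix.one_mulVec]
  have hBg2 : Matrix.mulVec G (Bg 1) = z • Bg 0 := by
    rw [hBg, Matrix.mulVec_mulVec, hG2, Matrix.smul_mulVec, Matrix.one_mulVec]
  obtain ⟨T, hT⟩ : ∃ T : (Fin 2 → F) ≃ₗ[F] (Fin 2 → F), T = Bg.equiv Bx (Equiv.refl _) :=
    ⟨_, rfl⟩
  have hTb : ∀ i, T (Bg i) = Bx i := by intro i; rw [hT, Basis.equiv_apply]; rfl
  have hfT : Matrix.toLin' X ∘ₗ T.toLinearMap = T.toLinearMap ∘ₗ Matrix.toLin' G := by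
    apply Bg.ext
    intro i
    simp only [LinearMap.comp_apply, LinearEquiv.coe_coe, Matrix.toLin'_apply]
    fin_cases i
    · show Matrix.mulVec X (T (Bg 0)) = T (Matrix.mulVec G (Bg 0))
      rw [hTb, ← hBx, ← hBg, hTb]
    · show Matrix.mulVec X (T (Bg 1)) = T (Matrix.mulVec G (Bg 1))
      rw [hTb, hBx2, hBg2, map_smul, hTb]
  have hδ : LinearMap.det T.toLinearMap ≠ 0 := (LinearEquiv.isUnit_det' T).ne_zero
  obtain ⟨a, b, hab⟩ := sum_sq (LinearMap.det T.toLinearMap)⁻¹ (inv_ne_zero hδ)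
  obtain ⟨MT₀, hMT₀⟩ : ∃ MT₀ : Matrix (Fin 2) (Fin 2) F,
      MT₀ = LinearMap.toMatrix' T.toLinearMap := ⟨_, rfl⟩
  have hXMT₀ : X * MT₀ = MT₀ * G := by
    have h1 := congrArg LinearMap.toMatrix' hfT
    rw [LinearMap.toMatrix'_comp, LinearMap.toMatrix'_comp, LinearMap.toMatrix'_toLin',
      LinearMap.toMatrix'_toLin'] at h1
    rw [hMT₀]; exact h1
  obtain ⟨Cm, hCm⟩ : ∃ Cm : Matrix (Fin 2) (Fin 2) F, Cm = a • 1 + b • X := ⟨_, rfl⟩
  have hCX : X * Cm = Cm * X := by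
    rw [hCm, Matrix.mul_add, Matrix.add_mul, Matrix.mul_smul, Matrix.smul_mul, Matrix.mul_smul,
      Matrix.smul_mul, mul_one, one_mul]
  have hCdet : Cm.det = a ^ 2 + b ^ 2 := by
    have hd : X 0 0 * X 1 1 - X 0 1 * X 1 0 = 1 := by rw [← Matrix.det_fin_two]; exact hdet
    rw [hCm, Matrix.det_fin_two]
    simp [Matrix.one_apply]
    linear_combination (a * b) * htr + b ^ 2 * hd
  have hXMT : X * (Cm * MT₀) = (Cm * MT₀) * G := by
    rw [← mul_assoc, hCX, mul_assoc, hXMT₀, mul_assoc]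
  have hdetP : (Cm * MT₀).det = 1 := by
    rw [Matrix.det_mul, hCdet, hab, hMT₀, LinearMap.det_toMatrix', inv_mul_cancel₀ hδ]
  rw [hX] at hXMT
  exact S5971.conj_final K x G Gi (Cm * MT₀) hGGi hGN hdetP hXMT

end two'

section odd

variable {F : Type*} [Field F] [Fintype F]

theorem case_odd {n : ℕ} (K : Subalgebra F (Matrix (Fin n) (Fin n) F))
    (hK : Cfsg.Geo.IsFieldSubalgebra 2 K) (m : ℕ) (hm : n = 2 * m) (hn : 0 < n)
    (hodd : Odd (Fintype.card F))
    (hval : padicValNat 2 (Fintype.card F - 1) ≤ padicValNat 2 n)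
    (x : Matrix.SpecialLinearGroup (Fin n) F) (z : F)
    (hxz : ((x ^ 2 : Matrix.SpecialLinearGroup (Fin n) F) : Matrix (Fin n) (Fin n) F) =
      z • (1 : Matrix (Fin n) (Fin n) F)) :
    ∃ P : Matrix.SpecialLinearGroup (Fin n) F, P⁻¹ * x * P ∈
      ((Cfsg.Geo.subalgebraNormalizer K).comap
      (Matrix.SpecialLinearGroup.toGL : Matrix.SpecialLinearGroup (Fin n) F →* GL (Fin n) F)) := by
  classical
  have h2 : (2 : F) ≠ 0 := two_ne_zero_of_odd hodd
  have hfin : finrank F (Fin n → F) = n := by simp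
  have hm0 : 0 < m := by omega
  obtain ⟨f, hf⟩ : ∃ f : Module.End F (Fin n → F),
      f = Matrix.toLin' (x : Matrix (Fin n) (Fin n) F) := ⟨_, rfl⟩
  have hdetf : LinearMap.det f = 1 := by rw [hf, LinearMap.det_toLin']; exact x.det_coe
  have hfz : f ^ 2 = z • (1 : Module.End F (Fin n → F)) := by
    have h1 : (x : Matrix (Fin n) (Fin n) F) ^ 2 = z • 1 := by
      rw [← Matrix.SpecialLinearGroup.coe_pow]; exact hxz
    have h3 := congrArg (Matrix.toLinAlgEquiv' (R := F) (n := Fin n)) h1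
    rw [map_pow, map_smul, map_one] at h3
    rw [hf]; exact h3
  have hz0 : z ≠ 0 := by
    rintro rfl
    have h1 := (x ^ 2).det_coe
    haveI : Nonempty (Fin n) := ⟨⟨0, hn⟩⟩
    rw [hxz, zero_smul, Matrix.det_zero] at h1
    exact zero_ne_one h1
  by_cases hsq : ∃ l : F, l ^ 2 = z
  · obtain ⟨l, hl⟩ := hsq
    have hl0 : l ≠ 0 := by
      rintro rfl; rw [zero_pow (by norm_num)] at hl; exact hz0 hl.symm
    obtain ⟨y, hy⟩ : ∃ y : Module.End F (Fin n → F), y = l⁻¹ • f := ⟨_, rfl⟩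
    have hy2 : y ^ 2 = 1 := by
      rw [hy, _root_.smul_pow, hfz, smul_smul, inv_pow, hl, inv_mul_cancel₀ hz0, one_smul]
    have hdety : LinearMap.det y = (l⁻¹) ^ n := by
      rw [hy, LinearMap.det_smul, hfin, hdetf, mul_one]
    have hdety2 := inv_det y h2 hy2
    obtain ⟨a, ha⟩ : ∃ a, a = finrank F (S5949.Dg y 2) := ⟨_, rfl⟩
    rw [← ha] at hdety2
    have h2' : ((2 : ℕ) : F) ≠ 0 := by exact_mod_cast h2
    have hsplit := S5949.split_finrank y 2 h2' hy2 ⊤ (fun w _ => Submodule.mem_top)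
    rw [top_inf_eq, top_inf_eq, finrank_top, hfin, ← ha] at hsplit
    have haeven : Even a := by
      by_contra hao
      rw [Nat.not_even_iff_odd] at hao
      have h3 : (l⁻¹) ^ n = -1 := by rw [← hdety, hdety2]; exact Odd.neg_one_pow hao
      have h4 := neg_one_root n hn h2 l⁻¹ h3
      omega
    obtain ⟨a', ha'⟩ := haeven
    obtain ⟨b', hb'⟩ : ∃ b', finrank F (S5949.Cg y) = 2 * b' := ⟨m - a', by omega⟩
    have hab : a' + b' = m := by omega
    obtain ⟨By₀, hBy₀⟩ := inv_basis_gen y h2 hy2 (ι₁ := Fin 2 × Fin a') (ι₂ := Fin 2 × Fin b')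
      (by rw [← ha, ha']; simp; ring) (by rw [hb']; simp)
    obtain ⟨By, hByd⟩ : ∃ By : Basis (Fin 2 × (Fin a' ⊕ Fin b')) F (Fin n → F),
        By = By₀.reindex (Equiv.prodSumDistrib (Fin 2) (Fin a') (Fin b')).symm := ⟨_, rfl⟩
    obtain ⟨e, he⟩ : ∃ e : Fin 2 × (Fin a' ⊕ Fin b') → F,
        e = fun p => Sum.elim (fun _ => (-1 : F)) (fun _ => 1) p.2 := ⟨_, rfl⟩
    have hBy : ∀ p, y (By p) = e p • By p := by
      intro p
      rw [hByd, Basis.reindex_apply, Equiv.symm_symm, hBy₀, he]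
      rcases p with ⟨i, j | j⟩
      · simp
      · simp
    obtain ⟨γ, hγ, -⟩ := S5949.exists_gen (F := F)
    have hγns : ∀ b : F, b ^ 2 ≠ (γ : F) := by
      intro b hb
      have hq2 : 2 ≤ Fintype.card F := Fintype.one_lt_card
      obtain ⟨s, hs⟩ := hodd
      have hb0 : b ≠ 0 := by
        rintro rfl; rw [zero_pow (by norm_num)] at hb; exact γ.ne_zero hb.symm
      have h3 : (γ : F) ^ s = 1 := by
        rw [← hb, ← pow_mul, (by omega : 2 * s = Fintype.card F - 1)]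
        exact FiniteField.pow_card_sub_one_eq_one b hb0
      have h4 : γ ^ s = 1 := Units.ext (by rw [Units.val_pow_eq_pow_val, h3, Units.val_one])
      have h5 := orderOf_dvd_of_pow_eq_one h4
      rw [hγ] at h5
      have h6 := Nat.le_of_dvd (by omega) h5
      omega
    obtain ⟨θ, hθK, hθ2⟩ := sqrtK K hn hK hodd (γ : F) γ.ne_zero
    have hθns : ∀ c : F, θ ≠ c • (1 : Matrix (Fin n) (Fin n) F) := by
      intro c hc
      rw [hc, Matrix.smul_mul, Matrix.mul_smul, mul_one, smul_smul] at hθ2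
      have h3 := congrFun (congrFun hθ2 ⟨0, hn⟩) ⟨0, hn⟩
      simp at h3
      exact hγns c (by rw [pow_two]; exact h3)
    obtain ⟨h, hh⟩ : ∃ h : Module.End F (Fin n → F), h = Matrix.toLin' θ := ⟨_, rfl⟩
    have hh2 : h ^ 2 = (γ : F) • (1 : Module.End F (Fin n → F)) := by
      have h3 := congrArg (Matrix.toLinAlgEquiv' (R := F) (n := Fin n)) hθ2
      rw [map_mul, map_smul, map_one] at h3
      rw [hh, pow_two]; exact h3
    obtain ⟨Bθ, hBθ⟩ := cyc_basis2 h h2 (γ : F) hγns hh2 (κ := Fin a' ⊕ Fin b')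
      (by rw [hfin, hm]; simp; omega)
    obtain ⟨y', hy'⟩ : ∃ y' : Module.End F (Fin n → F),
        y' = Matrix.toLin Bθ Bθ (Matrix.diagonal e) := ⟨_, rfl⟩
    have hy'B : ∀ p, y' (Bθ p) = e p • Bθ p := by intro p; rw [hy', S5971.diag_toLin]
    have he0 : ∀ s, e (0, s) = e (1, s) := by intro s; rw [he]
    have hcomm : y' ∘ₗ h = h ∘ₗ y' := by
      apply Bθ.ext
      rintro ⟨i, s⟩
      obtain ⟨hB0, hB1⟩ := hBθ s
      simp only [LinearMap.comp_apply]
      fin_cases i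
      · show y' (h (Bθ (0, s))) = h (y' (Bθ (0, s)))
        rw [hB0, hy'B, hy'B, map_smul, hB0, he0]
      · show y' (h (Bθ (1, s))) = h (y' (Bθ (1, s)))
        rw [hB1, map_smul, hy'B, hy'B, map_smul, hB1, he0, smul_comm]
    have hy'2 : y' * y' = 1 := by
      apply Bθ.ext; intro p
      rw [Module.End.mul_apply, hy'B, map_smul, hy'B, smul_smul, Module.End.one_apply]
      have h3 : e p * e p = 1 := by
        rw [he]; rcases p with ⟨i, j | j⟩ <;> simp
      rw [h3, one_smul]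
    obtain ⟨Y, hY⟩ : ∃ Y : Matrix (Fin n) (Fin n) F, Y = LinearMap.toMatrix' y' := ⟨_, rfl⟩
    have hYθ : Y * θ = θ * Y := by
      have h3 := congrArg LinearMap.toMatrix' hcomm
      rw [LinearMap.toMatrix'_comp, LinearMap.toMatrix'_comp, hh, LinearMap.toMatrix'_toLin'] at h3
      rw [hY]; exact h3
    have hYY : Y * Y = 1 := by
      have h3 := congrArg LinearMap.toMatrix' hy'2
      rw [LinearMap.toMatrix'_mul, LinearMap.toMatrix'_one] at h3
      rw [hY]; exact h3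
    have hYK : ∀ κ ∈ K, Y * κ = κ * Y := by
      intro κ hκ
      obtain ⟨c, d, rfl⟩ := K_span K hn hK θ hθK hθns κ hκ
      rw [Matrix.mul_add, Matrix.add_mul, Matrix.mul_smul, Matrix.smul_mul, Matrix.mul_smul,
        Matrix.smul_mul, mul_one, one_mul, hYθ]
    have hHHi : (l • Y) * (l⁻¹ • Y) = 1 := by
      rw [Matrix.smul_mul, Matrix.mul_smul, smul_smul, mul_inv_cancel₀ hl0, one_smul, hYY]
    have hHiH : (l⁻¹ • Y) * (l • Y) = 1 := by
      rw [Matrix.smul_mul, Matrix.mul_smul, smul_smul, inv_mul_cancel₀ hl0, one_smul, hYY]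
    have hconjK : ∀ κ ∈ K, (l • Y) * κ * (l⁻¹ • Y) = κ := by
      intro κ hκ
      rw [Matrix.smul_mul, Matrix.smul_mul, Matrix.mul_smul, smul_smul, mul_inv_cancel₀ hl0,
        one_smul, hYK κ hκ, mul_assoc, hYY, mul_one]
    have hconjK' : ∀ κ ∈ K, (l⁻¹ • Y) * κ * (l • Y) = κ := by
      intro κ hκ
      rw [Matrix.smul_mul, Matrix.smul_mul, Matrix.mul_smul, smul_smul, inv_mul_cancel₀ hl0,
        one_smul, hYK κ hκ, mul_assoc, hYY, mul_one]
    have hHN : ∀ k, k ∈ K ↔ (l • Y) * k * (l⁻¹ • Y) ∈ K := by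
      intro k
      constructor
      · intro hk; rw [hconjK k hk]; exact hk
      · intro hk
        have h3 : k = (l⁻¹ • Y) * ((l • Y) * k * (l⁻¹ • Y)) * (l • Y) := by
          calc k = ((l⁻¹ • Y) * (l • Y)) * k * ((l⁻¹ • Y) * (l • Y)) := by
                rw [hHiH, one_mul, mul_one]
            _ = _ := by simp only [mul_assoc]
        have h4 := hconjK' _ hk
        rw [← h3] at h4
        rw [h4]; exact hk
    have hfB : ∀ p, f (By p) = (l * e p) • By p := by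
      intro p
      have h3 := hBy p
      rw [hy, LinearMap.smul_apply] at h3
      have h4 : f (By p) = l • (l⁻¹ • f (By p)) := by
        rw [smul_smul, mul_inv_cancel₀ hl0, one_smul]
      rw [h4, h3, smul_smul]
    have hhB : ∀ p, Matrix.toLin' (l • Y) (Bθ p) = (l * e p) • Bθ p := by
      intro p
      have h3 : Matrix.toLin' (l • Y) = l • y' := by
        rw [map_smul, hY, Matrix.toLin'_toMatrix']
      rw [h3, LinearMap.smul_apply, hy'B, smul_smul]
    obtain ⟨i₀⟩ : Nonempty (Fin 2 × (Fin a' ⊕ Fin b')) := by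
      rcases Nat.eq_zero_or_pos a' with h | h
      · exact ⟨(0, Sum.inr ⟨0, by omega⟩)⟩
      · exact ⟨(0, Sum.inl ⟨0, h⟩)⟩
    obtain ⟨T, hTdet, hfT⟩ := S5971.eig_conj i₀ f (Matrix.toLin' (l • Y)) (fun p => l * e p)
      By Bθ hfB hhB
    obtain ⟨MT, hMT⟩ : ∃ MT : Matrix (Fin n) (Fin n) F, MT = LinearMap.toMatrix' T := ⟨_, rfl⟩
    have hXMT : (x : Matrix (Fin n) (Fin n) F) * MT = MT * (l • Y) := by
      have h1 := congrArg LinearMap.toMatrix' hfT
      rw [LinearMap.toMatrix'_comp, LinearMap.toMatrix'_comp, hf, LinearMap.toMatrix'_toLin',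
        LinearMap.toMatrix'_toLin'] at h1
      rw [hMT]; exact h1
    have hdetP : MT.det = 1 := by rw [hMT, LinearMap.det_toMatrix', hTdet]
    exact S5971.conj_final K x (l • Y) (l⁻¹ • Y) MT hHHi hHN hdetP hXMT
  · push Not at hsq
    obtain ⟨Bx, hBx⟩ := cyc_basis2 f h2 z hsq hfz (κ := Fin m) (by rw [hfin, hm]; simp)
    obtain ⟨θ, hθK, hθ2⟩ := sqrtK K hn hK hodd z hz0
    obtain ⟨h, hh⟩ : ∃ h : Module.End F (Fin n → F), h = Matrix.toLin' θ := ⟨_, rfl⟩
    have hh2 : h ^ 2 = z • (1 : Module.End F (Fin n → F)) := by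
      have h3 := congrArg (Matrix.toLinAlgEquiv' (R := F) (n := Fin n)) hθ2
      rw [map_mul, map_smul, map_one] at h3
      rw [hh, pow_two]; exact h3
    obtain ⟨Bθ, hBθ⟩ := cyc_basis2 h h2 z hsq hh2 (κ := Fin m) (by rw [hfin, hm]; simp)
    obtain ⟨T₀, hT₀⟩ : ∃ T₀ : (Fin n → F) ≃ₗ[F] (Fin n → F), T₀ = Bθ.equiv Bx (Equiv.refl _) :=
      ⟨_, rfl⟩
    have hTb : ∀ p, T₀ (Bθ p) = Bx p := by intro p; rw [hT₀, Basis.equiv_apply]; rfl
    have hfT₀ : f ∘ₗ T₀.toLinearMap = T₀.toLinearMap ∘ₗ h := by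
      apply Bθ.ext
      rintro ⟨i, s⟩
      simp only [LinearMap.comp_apply, LinearEquiv.coe_coe]
      fin_cases i
      · show f (T₀ (Bθ (0, s))) = T₀ (h (Bθ (0, s)))
        rw [hTb, (hBx s).1, (hBθ s).1, hTb]
      · show f (T₀ (Bθ (1, s))) = T₀ (h (Bθ (1, s)))
        rw [hTb, (hBx s).2, (hBθ s).2, map_smul, hTb]
    have hδ : LinearMap.det T₀.toLinearMap ≠ 0 := (LinearEquiv.isUnit_det' T₀).ne_zero
    obtain ⟨a, b, hab⟩ := norm_form z (LinearMap.det T₀.toLinearMap)⁻¹ hz0 hodd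
    obtain ⟨D, hDdet, hDh⟩ := blk h z Bθ hBθ (⟨0, hm0⟩ : Fin m) a b
    obtain ⟨MT, hMT⟩ : ∃ MT : Matrix (Fin n) (Fin n) F,
        MT = LinearMap.toMatrix' (T₀.toLinearMap ∘ₗ D) := ⟨_, rfl⟩
    have hfT : f ∘ₗ (T₀.toLinearMap ∘ₗ D) = (T₀.toLinearMap ∘ₗ D) ∘ₗ h := by
      rw [← LinearMap.comp_assoc, hfT₀, LinearMap.comp_assoc, ← hDh, LinearMap.comp_assoc]
    have hXMT : (x : Matrix (Fin n) (Fin n) F) * MT = MT * θ := by
      have h1 := congrArg LinearMap.toMatrix' hfT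
      rw [LinearMap.toMatrix'_comp, LinearMap.toMatrix'_comp _ h, hf, hh,
        LinearMap.toMatrix'_toLin', LinearMap.toMatrix'_toLin'] at h1
      rw [hMT]; exact h1
    have hdetP : MT.det = 1 := by
      rw [hMT, LinearMap.det_toMatrix', LinearMap.det_comp, hDdet, hab, mul_inv_cancel₀ hδ]
    have hθ0 : θ ≠ 0 := by
      rintro rfl
      rw [zero_mul] at hθ2
      have h3 := congrFun (congrFun hθ2 ⟨0, hn⟩) ⟨0, hn⟩
      simp at h3
      exact hz0 h3.symm
    obtain ⟨θi, hθiK, hθθi⟩ := hK.inv θ hθK hθ0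
    have hθiθ : θi * θ = 1 := by rw [hK.comm θi hθiK θ hθK]; exact hθθi
    have hHN : ∀ k, k ∈ K ↔ θ * k * θi ∈ K := by
      intro k
      constructor
      · intro hk; exact K.mul_mem (K.mul_mem hθK hk) hθiK
      · intro hk
        have h3 : k = θi * (θ * k * θi) * θ := by
          calc k = (θi * θ) * k * (θi * θ) := by rw [hθiθ, one_mul, mul_one]
            _ = _ := by simp only [mul_assoc]
        rw [h3]; exact K.mul_mem (K.mul_mem hθiK hk) hθK
    exact S5971.conj_final K x θ θi MT hθθi hHN hdetP hXMT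

end odd

/-- Involutions of PSL_n(q) and extension-field subgroups of degree 2. Here `T = PSL_n(F)` for a field `F` with `q = p^f` elements (`n ≥ 2`, `(n, q) ≠ (2, 2), (2, 3)`), `k` is a prime dividing `n`, `K` is a subalgebra of the `n × n` matrices that is a field of degree `k` over `F` (an extension-field structure F_{q^k} on `F^n`), and `H` is the subgroup of matrices of determinant 1 normalizing `K` — a subgroup of type GL_{n/k}(q^k) (maximal except in some small cases; maximality is not assumed); Ω is the set of cosets of `H` in `T`, so an element of `T` of prime order `r` (a matrix `x` of determinant 1 with `x^r` scalar, `x` not scalar) fixes a point of Ω when some conjugate of `x` by a matrix of determinant 1 normalizes `K`. Take `k = 2` and suppose the index of `H` is even. Then every involution of `T` is conjugate in `T` into `H` if and only if `n = 2`, or `q` is odd and `(q − 1)_2 ≤ (n)_2`. -/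
theorem result {F : Type*} [Field F] [Fintype F] {p : ℕ} [Fact p.Prime] [CharP F p] {q : ℕ} (hq : Fintype.card F = q)
    (n : ℕ) (hn : 2 ≤ n) (hT : (n, q) ≠ (2, 2) ∧ (n, q) ≠ (2, 3))
    (k : ℕ) (hk : k.Prime) (hkn : k ∣ n) (K : Subalgebra F (Matrix (Fin n) (Fin n) F)) (hK : Cfsg.Geo.IsFieldSubalgebra k K) (hk2 : k = 2) (hΩ : 2 ∣ ((Cfsg.Geo.subalgebraNormalizer K).comap (Matrix.SpecialLinearGroup.toGL : Matrix.SpecialLinearGroup (Fin n) F →* GL (Fin n) F)).index) :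
    (∀ x : Matrix.SpecialLinearGroup (Fin n) F,
      (∃ z : F, ((x ^ 2 : Matrix.SpecialLinearGroup (Fin n) F) : Matrix (Fin n) (Fin n) F) = z • (1 : Matrix (Fin n) (Fin n) F)) →
      (∀ z : F, (x : Matrix (Fin n) (Fin n) F) ≠ z • (1 : Matrix (Fin n) (Fin n) F)) →
      ∃ P : Matrix.SpecialLinearGroup (Fin n) F, P⁻¹ * x * P ∈ ((Cfsg.Geo.subalgebraNormalizer K).comap (Matrix.SpecialLinearGroup.toGL : Matrix.SpecialLinearGroup (Fin n) F →* GL (Fin n) F))) ↔
    (n = 2 ∨ (Odd q ∧ padicValNat 2 (q - 1) ≤ padicValNat 2 n)) := by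
  classical
  have hK' : Cfsg.Geo.IsFieldSubalgebra 2 K := hk2 ▸ hK
  have hn2 : 2 ∣ n := hk2 ▸ hkn
  subst hq
  obtain ⟨m, hm⟩ := hn2
  constructor
  · intro hall
    by_contra hcon
    push Not at hcon
    obtain ⟨hne2, hcon2⟩ := hcon
    have hn3 : 3 ≤ n := by omega
    have h01 : (⟨0, by omega⟩ : Fin n) ≠ ⟨1, by omega⟩ := by
      intro h; exact absurd (congrArg Fin.val h) (by norm_num)
    rcases Nat.even_or_odd (Fintype.card F) with he | ho
    · have h2z : (1 : F) + 1 = 0 := by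
        have h3 := two_eq_zero_of_even he
        rw [← h3]; norm_num
      obtain ⟨M, hM⟩ : ∃ M : Matrix (Fin n) (Fin n) F,
          M = Matrix.transvection ⟨0, by omega⟩ ⟨1, by omega⟩ 1 := ⟨_, rfl⟩
      have hdet : M.det = 1 := by rw [hM]; exact Matrix.det_transvection_of_ne _ _ h01 1
      obtain ⟨x, hx⟩ : ∃ x : Matrix.SpecialLinearGroup (Fin n) F,
          (x : Matrix (Fin n) (Fin n) F) = M := ⟨⟨M, hdet⟩, rfl⟩
      have hx2 : ((x ^ 2 : Matrix.SpecialLinearGroup (Fin n) F) : Matrix (Fin n) (Fin n) F) =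
          (1 : F) • (1 : Matrix (Fin n) (Fin n) F) := by
        rw [Matrix.SpecialLinearGroup.coe_pow, hx, hM, one_smul, pow_two,
          Matrix.transvection_mul_transvection_same _ _ h01, h2z, Matrix.transvection_zero]
      have hxns : ∀ z : F, (x : Matrix (Fin n) (Fin n) F) ≠
          z • (1 : Matrix (Fin n) (Fin n) F) := by
        intro z h
        rw [hx, hM] at h
        have h1 := congrFun (congrFun h ⟨0, by omega⟩) ⟨1, by omega⟩
        rw [Matrix.transvection, Matrix.add_apply, Matrix.one_apply_ne h01,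
          Matrix.single_apply_same, Matrix.smul_apply, Matrix.one_apply_ne h01, smul_zero,
          zero_add] at h1
        exact one_ne_zero h1
      obtain ⟨P, hP⟩ := hall x ⟨1, hx2⟩ hxns
      refine not_conj2 K hK' hn3 x 1 one_ne_zero ?_ hxns P hP
      rw [one_smul, hx]
      apply fix_dimn M ⟨1, by omega⟩
      intro v hv
      rw [hM, Matrix.transvection, Matrix.add_mulVec, Matrix.one_mulVec, Matrix.single_mulVec,
        hv, mul_zero]
      simp
    · have h2 : (2 : F) ≠ 0 := two_ne_zero_of_odd ho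
      have hv := hcon2 ho
      obtain ⟨l, hl0, hl⟩ := exists_neg_one_root (F := F) n (by omega) hv
      obtain ⟨d, hd⟩ : ∃ d : Fin n → F,
          d = Function.update (fun _ => l) ⟨0, by omega⟩ (-l) := ⟨_, rfl⟩
      have hd0 : d ⟨0, by omega⟩ = -l := by rw [hd, Function.update_self]
      have hdi : ∀ i : Fin n, i ≠ ⟨0, by omega⟩ → d i = l := by
        intro i hi; rw [hd, Function.update_of_ne hi]
      have hdet : (Matrix.diagonal d).det = 1 := by
        rw [Matrix.det_diagonal, hd, Finset.prod_update_of_mem (Finset.mem_univ _),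
          Finset.prod_const, Finset.sdiff_singleton_eq_erase,
          Finset.card_erase_of_mem (Finset.mem_univ _), Finset.card_univ, Fintype.card_fin]
        have h3 : l ^ n = l ^ (n - 1) * l := by rw [← pow_succ]; congr 1; omega
        rw [h3] at hl
        linear_combination -hl
      obtain ⟨x, hx⟩ : ∃ x : Matrix.SpecialLinearGroup (Fin n) F,
          (x : Matrix (Fin n) (Fin n) F) = Matrix.diagonal d := ⟨⟨_, hdet⟩, rfl⟩
      have hx2 : ((x ^ 2 : Matrix.SpecialLinearGroup (Fin n) F) : Matrix (Fin n) (Fin n) F) =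
          (l ^ 2) • (1 : Matrix (Fin n) (Fin n) F) := by
        rw [Matrix.SpecialLinearGroup.coe_pow, hx, Matrix.diagonal_pow,
          Matrix.smul_one_eq_diagonal]
        congr 1
        funext i
        rw [Pi.pow_apply]
        by_cases hi : i = ⟨0, by omega⟩
        · rw [hi, hd0]; ring
        · rw [hdi i hi]
      have hxns : ∀ z : F, (x : Matrix (Fin n) (Fin n) F) ≠
          z • (1 : Matrix (Fin n) (Fin n) F) := by
        intro z h
        rw [hx] at h
        have e0 := congrFun (congrFun h ⟨0, by omega⟩) ⟨0, by omega⟩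
        have e1 := congrFun (congrFun h ⟨1, by omega⟩) ⟨1, by omega⟩
        rw [Matrix.diagonal_apply_eq, Matrix.smul_apply, Matrix.one_apply_eq, smul_eq_mul,
          mul_one] at e0 e1
        rw [hd0] at e0
        rw [hdi _ h01.symm] at e1
        have h3 : (2 : F) * l = 0 := by linear_combination e1 - e0
        rcases mul_eq_zero.mp h3 with h4 | h4
        · exact h2 h4
        · exact hl0 h4
      obtain ⟨P, hP⟩ := hall x ⟨_, hx2⟩ hxns
      refine not_conj2 K hK' hn3 x l⁻¹ (inv_ne_zero hl0) ?_ hxns P hP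
      rw [hx]
      apply fix_dimn _ ⟨0, by omega⟩
      intro v hv
      rw [Matrix.smul_mulVec]
      funext i
      rw [Pi.smul_apply, Matrix.mulVec_diagonal, smul_eq_mul]
      by_cases hi : i = ⟨0, by omega⟩
      · rw [hi, hv, mul_zero, mul_zero]
      · rw [hdi i hi, ← mul_assoc, inv_mul_cancel₀ hl0, one_mul]
  · rintro (h2 | ⟨hodd, hval⟩)
    · subst h2
      intro x hx hxns
      obtain ⟨z, hxz⟩ := hx
      exact case_two K hK' x z hxz hxns
    · intro x hx hxns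
      obtain ⟨z, hxz⟩ := hx
      exact case_odd K hK' m hm (by omega) hodd hval x z hxz


end Cfsg.Agent.S5969
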