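import Cfsg.Statements.S5966
import Mathlib
import Cfsg.Agent.S5949
import Cfsg.Agent.S5951
import Cfsg.Agent.S5958
import Cfsg.Agent.S5970
import Cfsg.Agent.S5971
import Cfsg.Agent.S5969

set_option autoImplicit false
set_option maxHeartbeats 400000
open scoped MatrixGroups
open Cfsg

namespace Cfsg.Agent.S5966

open Polynomial Module

universe u

section nil

variable {E : Type*} [Field E] {V : Type*} [AddCommGroup V] [Module E V] [FiniteDimensional E V]

theorem split (N : Module.End E V) (ℓ : ℕ) (hℓ : 0 < ℓ) (hN : N ^ ℓ = 0) (v : V)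
    (hv : (N ^ (ℓ - 1)) v ≠ 0) :
    ∃ V' : Submodule E V, (∀ w ∈ V', N w ∈ V') ∧
      IsCompl (Submodule.span E (Set.range (fun j : Fin ℓ => (N ^ j.val) v))) V' ∧
      LinearIndependent E (fun j : Fin ℓ => (N ^ j.val) v) := by
  obtain ⟨φ, hφ⟩ : ∃ φ : Module.Dual E V, φ ((N ^ (ℓ - 1)) v) ≠ 0 := by
    by_contra hcon
    push Not at hcon
    exact hv ((Module.forall_dual_apply_eq_zero_iff E _).mp hcon)
  obtain ⟨Φ, hΦ⟩ : ∃ Φ : V →ₗ[E] (Fin ℓ → E),
      Φ = LinearMap.pi (fun j : Fin ℓ => φ ∘ₗ (N ^ j.val)) := ⟨_, rfl⟩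
  have hmem : ∀ w, w ∈ LinearMap.ker Φ ↔ ∀ j : Fin ℓ, φ ((N ^ j.val) w) = 0 := by
    intro w
    rw [LinearMap.mem_ker, hΦ]
    constructor
    · intro h j
      have h1 := congrFun h j
      simpa using h1
    · intro h
      funext j
      simpa using h j
  have hcoef : ∀ c : Fin ℓ → E, (∑ j, c j • (N ^ j.val) v) ∈ LinearMap.ker Φ → ∀ j, c j = 0 := by
    intro c hc
    rw [hmem] at hc
    have key : ∀ (t : ℕ) (j : Fin ℓ), j.val = t → c j = 0 := by
      intro t
      induction t using Nat.strong_induction_on with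
      | _ t ih =>
        intro j hj
        have h1 := hc ⟨ℓ - 1 - j.val, by omega⟩
        simp only [map_sum, map_smul, smul_eq_mul] at h1
        rw [Finset.sum_eq_single j] at h1
        · have h2 : (N ^ (ℓ - 1 - j.val)) ((N ^ j.val) v) = (N ^ (ℓ - 1)) v := by
            rw [← Module.End.mul_apply, ← pow_add]
            congr 2
            have := j.2
            omega
          rw [h2] at h1
          exact (mul_eq_zero.mp h1).resolve_right hφ
        · intro i _ hij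
          rcases Nat.lt_or_ge i.val j.val with h | h
          · rw [ih i.val (by omega) i rfl, zero_mul]
          · have h3 : (N ^ (ℓ - 1 - j.val)) ((N ^ i.val) v) = 0 := by
              rw [← Module.End.mul_apply, ← pow_add]
              have h4 : ℓ - 1 - j.val + i.val = ℓ + (i.val - j.val - 1) := by
                have h5 := Fin.val_ne_of_ne hij
                have := j.2
                omega
              rw [h4, pow_add, hN, zero_mul]; rfl
            rw [h3, map_zero, mul_zero]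
        · intro h; exact absurd (Finset.mem_univ j) h
    intro j; exact key j.val j rfl
  have hli : LinearIndependent E (fun j : Fin ℓ => (N ^ j.val) v) := by
    rw [Fintype.linearIndependent_iff]
    intro g hg
    exact hcoef g (by rw [hg]; exact Submodule.zero_mem _)
  have hinv : ∀ w ∈ LinearMap.ker Φ, N w ∈ LinearMap.ker Φ := by
    intro w hw
    rw [hmem] at hw ⊢
    intro j
    rw [← Module.End.mul_apply, ← pow_succ]
    by_cases h : j.val + 1 < ℓ
    · exact hw ⟨j.val + 1, h⟩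
    · have h2 : j.val + 1 = ℓ := by have := j.2; omega
      rw [h2, hN]; simp
  have hinf : Submodule.span E (Set.range (fun j : Fin ℓ => (N ^ j.val) v)) ⊓ LinearMap.ker Φ = ⊥ := by
    rw [eq_bot_iff]
    rintro w ⟨hw1, hw2⟩
    obtain ⟨c, hc⟩ := (Submodule.mem_span_range_iff_exists_fun E).mp hw1
    have hw2' : w ∈ LinearMap.ker Φ := hw2
    rw [← hc] at hw2'
    have h0 := hcoef c hw2'
    rw [Submodule.mem_bot, ← hc]
    apply Finset.sum_eq_zero
    intro j _
    rw [h0 j, zero_smul]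
  have hZfr : finrank E (Submodule.span E (Set.range (fun j : Fin ℓ => (N ^ j.val) v))) = ℓ := by
    rw [finrank_span_eq_card hli, Fintype.card_fin]
  have hker : finrank E V ≤ finrank E (LinearMap.ker Φ) + ℓ := by
    have h1 := LinearMap.finrank_range_add_finrank_ker Φ
    have h2 : finrank E (LinearMap.range Φ) ≤ ℓ := by
      have := Submodule.finrank_le (LinearMap.range Φ)
      simpa using this
    omega
  have hsup : Submodule.span E (Set.range (fun j : Fin ℓ => (N ^ j.val) v)) ⊔ LinearMap.ker Φ = ⊤ := by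
    apply Submodule.eq_top_of_finrank_eq
    have h1 := Submodule.finrank_sup_add_finrank_inf_eq
      (Submodule.span E (Set.range (fun j : Fin ℓ => (N ^ j.val) v))) (LinearMap.ker Φ)
    rw [hinf, finrank_bot] at h1
    have h2 := Submodule.finrank_le
      (Submodule.span E (Set.range (fun j : Fin ℓ => (N ^ j.val) v)) ⊔ LinearMap.ker Φ)
    omega
  exact ⟨LinearMap.ker Φ, hinv, ⟨disjoint_iff.mpr hinf, codisjoint_iff.mpr hsup⟩, hli⟩

theorem restrict_pow (N : Module.End E V) (V' : Submodule E V) (hV' : ∀ w ∈ V', N w ∈ V')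
    (k : ℕ) (w : V') : (((N.restrict hV') ^ k) w : V) = (N ^ k) (w : V) := by
  induction k generalizing w with
  | zero => simp
  | succ k ih =>
    rw [pow_succ, Module.End.mul_apply, ih, pow_succ, Module.End.mul_apply]; rfl

theorem scale_sub (N : Module.End E V) (Z V' : Submodule E V) (hc : IsCompl Z V')
    (hZ : ∀ w ∈ Z, N w ∈ Z) (hV' : ∀ w ∈ V', N w ∈ V') (c : E) :
    ∃ C : Module.End E V, LinearMap.det C = c ^ finrank E Z ∧ C ∘ₗ N = N ∘ₗ C := by
  classical
  obtain ⟨bZ⟩ : Nonempty (Basis (Fin (finrank E Z)) E Z) := ⟨Module.finBasis E Z⟩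
  obtain ⟨bV⟩ : Nonempty (Basis (Fin (finrank E V')) E V') := ⟨Module.finBasis E V'⟩
  obtain ⟨b, hb⟩ : ∃ b : Fin (finrank E Z) ⊕ Fin (finrank E V') → V,
      b = Sum.elim (fun i => (bZ i : V)) (fun i => (bV i : V)) := ⟨_, rfl⟩
  have hspan : ⊤ ≤ Submodule.span E (Set.range b) := by
    rw [← hc.sup_eq_top]
    apply sup_le
    · intro w hw
      have h1 := bZ.sum_repr ⟨w, hw⟩
      have h3 := congrArg Subtype.val h1
      rw [Submodule.coe_sum] at h3
      simp only [Submodule.coe_smul] at h3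
      rw [← h3]
      exact Submodule.sum_mem _ (fun i _ => Submodule.smul_mem _ _
        (Submodule.subset_span ⟨Sum.inl i, by rw [hb]; rfl⟩))
    · intro w hw
      have h1 := bV.sum_repr ⟨w, hw⟩
      have h3 := congrArg Subtype.val h1
      rw [Submodule.coe_sum] at h3
      simp only [Submodule.coe_smul] at h3
      rw [← h3]
      exact Submodule.sum_mem _ (fun i _ => Submodule.smul_mem _ _
        (Submodule.subset_span ⟨Sum.inr i, by rw [hb]; rfl⟩))
  have hcard : Fintype.card (Fin (finrank E Z) ⊕ Fin (finrank E V')) = finrank E V := by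
    rw [Fintype.card_sum, Fintype.card_fin, Fintype.card_fin]
    exact Submodule.finrank_add_eq_of_isCompl hc
  obtain ⟨B, hB⟩ := S5958.basis_of_span b hspan hcard
  obtain ⟨d, hd⟩ : ∃ d : Fin (finrank E Z) ⊕ Fin (finrank E V') → E,
      d = Sum.elim (fun _ => c) (fun _ => 1) := ⟨_, rfl⟩
  obtain ⟨C, hC⟩ : ∃ C : Module.End E V, C = Matrix.toLin B B (Matrix.diagonal d) := ⟨_, rfl⟩
  have hCB : ∀ k, C (B k) = d k • B k := by intro k; rw [hC, S5971.diag_toLin]
  have hCZ : ∀ w ∈ Z, C w = c • w := by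
    intro w hw
    have h1 := bZ.sum_repr ⟨w, hw⟩
    have h3 := congrArg Subtype.val h1
    rw [Submodule.coe_sum] at h3
    simp only [Submodule.coe_smul] at h3
    rw [← h3, map_sum, Finset.smul_sum]
    apply Finset.sum_congr rfl
    intro i _
    have h4 : (bZ i : V) = B (Sum.inl i) := by rw [hB, hb]; rfl
    rw [map_smul, h4, hCB, hd]
    simp only [Sum.elim_inl]
    rw [smul_comm]
  have hCV : ∀ w ∈ V', C w = w := by
    intro w hw
    have h1 := bV.sum_repr ⟨w, hw⟩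
    have h3 := congrArg Subtype.val h1
    rw [Submodule.coe_sum] at h3
    simp only [Submodule.coe_smul] at h3
    rw [← h3, map_sum]
    apply Finset.sum_congr rfl
    intro i _
    have h4 : (bV i : V) = B (Sum.inr i) := by rw [hB, hb]; rfl
    rw [map_smul, h4, hCB, hd]
    simp only [Sum.elim_inr]
    rw [one_smul]
  refine ⟨C, ?_, ?_⟩
  · rw [hC, LinearMap.det_toLin, Matrix.det_diagonal, Fintype.prod_sum_type, hd]
    simp
  · apply B.ext; intro k
    simp only [LinearMap.comp_apply]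
    rcases k with i | i
    · have h4 : B (Sum.inl i) = (bZ i : V) := by rw [hB, hb]; rfl
      rw [h4, hCZ _ (hZ _ (bZ i).2), hCZ _ (bZ i).2, map_smul]
    · have h4 : B (Sum.inr i) = (bV i : V) := by rw [hB, hb]; rfl
      rw [h4, hCV _ (hV' _ (bV i).2), hCV _ (bV i).2]

theorem split1 (N : Module.End E V) (w : V) (hw : N w = 0) (hwr : w ∉ LinearMap.range N) :
    ∃ Z V'' : Submodule E V, IsCompl Z V'' ∧ (∀ u ∈ Z, N u ∈ Z) ∧ (∀ u ∈ V'', N u ∈ V'') ∧
      finrank E Z = 1 := by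
  obtain ⟨φ, hφr, hφw⟩ : ∃ φ : Module.Dual E V, (∀ u, φ (N u) = 0) ∧ φ w ≠ 0 := by
    have h1 : (LinearMap.range N).mkQ w ≠ 0 := by
      rw [Ne, Submodule.mkQ_apply, Submodule.Quotient.mk_eq_zero]; exact hwr
    obtain ⟨ψ, hψ⟩ : ∃ ψ : Module.Dual E (V ⧸ LinearMap.range N),
        ψ ((LinearMap.range N).mkQ w) ≠ 0 := by
      by_contra hcon
      push Not at hcon
      exact h1 ((Module.forall_dual_apply_eq_zero_iff E _).mp hcon)
    refine ⟨ψ ∘ₗ (LinearMap.range N).mkQ, fun u => ?_, hψ⟩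
    rw [LinearMap.comp_apply, Submodule.mkQ_apply,
      (Submodule.Quotient.mk_eq_zero _).mpr (LinearMap.mem_range_self N u), map_zero]
  refine ⟨Submodule.span E {w}, LinearMap.ker φ, ?_, ?_, ?_, ?_⟩
  · constructor
    · rw [disjoint_iff, eq_bot_iff]
      rintro u ⟨hu1, hu2⟩
      obtain ⟨a, rfl⟩ := Submodule.mem_span_singleton.mp hu1
      have h3 : φ (a • w) = 0 := hu2
      rw [map_smul, smul_eq_mul] at h3
      rcases mul_eq_zero.mp h3 with h | h
      · rw [h, zero_smul]; exact Submodule.zero_mem _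
      · exact absurd h hφw
    · rw [codisjoint_iff, eq_top_iff]
      intro u _
      have hu : u = (φ u / φ w) • w + (u - (φ u / φ w) • w) := by abel
      rw [hu]
      refine Submodule.add_mem _ (Submodule.mem_sup_left (Submodule.smul_mem _ _
        (Submodule.mem_span_singleton_self w))) (Submodule.mem_sup_right ?_)
      rw [LinearMap.mem_ker, map_sub, map_smul, smul_eq_mul, div_mul_cancel₀ _ hφw, sub_self]
  · intro u hu
    obtain ⟨a, rfl⟩ := Submodule.mem_span_singleton.mp hu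
    rw [map_smul, hw, smul_zero]; exact Submodule.zero_mem _
  · intro u _; rw [LinearMap.mem_ker]; exact hφr u
  · exact finrank_span_singleton (fun h => hφw (by rw [h, map_zero]))

theorem span_inv (N : Module.End E V) (ℓ : ℕ) (hN : N ^ ℓ = 0) (v : V) :
    ∀ w ∈ Submodule.span E (Set.range (fun j : Fin ℓ => (N ^ j.val) v)),
      N w ∈ Submodule.span E (Set.range (fun j : Fin ℓ => (N ^ j.val) v)) := by
  intro w hw
  have h1 : Submodule.span E (Set.range (fun j : Fin ℓ => (N ^ j.val) v)) ≤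
      Submodule.comap N (Submodule.span E (Set.range (fun j : Fin ℓ => (N ^ j.val) v))) := by
    rw [Submodule.span_le]
    rintro _ ⟨j, rfl⟩
    rw [SetLike.mem_coe, Submodule.mem_comap]
    show N ((N ^ j.val) v) ∈ Submodule.span E (Set.range (fun j : Fin ℓ => (N ^ j.val) v))
    rw [← Module.End.mul_apply, ← pow_succ']
    by_cases h : j.val + 1 < ℓ
    · exact Submodule.subset_span ⟨⟨j.val + 1, h⟩, rfl⟩
    · have h2 : j.val + 1 = ℓ := by have := j.2; omega
      rw [h2, hN]; exact Submodule.zero_mem _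
  exact h1 hw

end nil

theorem jordan {E : Type*} [Field E] : ∀ (d : ℕ) (V : Type u) [AddCommGroup V] [Module E V]
    [FiniteDimensional E V] (N : Module.End E V), finrank E V = d → (∃ k, N ^ k = 0) →
    ∃ (ι : Type) (_ : Fintype ι) (B : Basis ι E V) (σ : ι → Option ι),
      ∀ i, N (B i) = (σ i).elim 0 (fun j => B j) := by
  classical
  intro d
  induction d using Nat.strong_induction_on with
  | _ d ih =>
    intro V _ _ _ N hd hnil
    rcases Nat.eq_zero_or_pos d with h0 | hpos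
    · haveI : Subsingleton V := by
        rw [h0] at hd; exact Module.finrank_zero_iff.mp hd
      exact ⟨Fin 0, inferInstance, Basis.empty V, fun i => i.elim0, fun i => i.elim0⟩
    · haveI : Nontrivial V := Module.nontrivial_of_finrank_pos (R := E) (by omega)
      obtain ⟨ℓ, hNℓ, hmin⟩ : ∃ ℓ, N ^ ℓ = 0 ∧ ∀ m < ℓ, N ^ m ≠ 0 :=
        ⟨Nat.find hnil, Nat.find_spec hnil, fun m hm => Nat.find_min hnil hm⟩
      have hℓ0 : 0 < ℓ := by
        rcases Nat.eq_zero_or_pos ℓ with h | h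
        · exfalso
          rw [h, pow_zero] at hNℓ
          obtain ⟨w, hw⟩ := exists_ne (0 : V)
          have h1 := congrArg (fun g : Module.End E V => g w) hNℓ
          exact hw h1
        · exact h
      obtain ⟨v, hv⟩ : ∃ v, (N ^ (ℓ - 1)) v ≠ 0 := by
        by_contra hcon
        push Not at hcon
        exact hmin (ℓ - 1) (by omega) (LinearMap.ext hcon)
      obtain ⟨V', hV'inv, hcompl, hli⟩ := split N ℓ hℓ0 hNℓ v hv
      obtain ⟨Z, hZ⟩ : ∃ Z, Z = Submodule.span E (Set.range (fun j : Fin ℓ => (N ^ j.val) v)) :=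
        ⟨_, rfl⟩
      rw [← hZ] at hcompl
      have hZfr : finrank E Z = ℓ := by rw [hZ, finrank_span_eq_card hli, Fintype.card_fin]
      have hsum := Submodule.finrank_add_eq_of_isCompl hcompl
      have hV'd : finrank E V' < d := by omega
      obtain ⟨ι', hι', B', σ', hB'⟩ := ih (finrank E V') hV'd ↥V' (N.restrict hV'inv) rfl
        (by
          obtain ⟨k, hk⟩ := hnil
          refine ⟨k, ?_⟩
          apply LinearMap.ext; intro w
          apply Subtype.ext
          rw [restrict_pow, hk]; rfl)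
      letI : Fintype ι' := hι'
      classical
      obtain ⟨b, hb⟩ : ∃ b : Fin ℓ ⊕ ι' → V,
          b = Sum.elim (fun j : Fin ℓ => (N ^ j.val) v) (fun i => (B' i : V)) := ⟨_, rfl⟩
      have hspan : ⊤ ≤ Submodule.span E (Set.range b) := by
        rw [← hcompl.sup_eq_top]
        apply sup_le
        · rw [hZ]
          apply Submodule.span_mono
          rintro _ ⟨j, rfl⟩
          exact ⟨Sum.inl j, by rw [hb]; rfl⟩
        · intro w hw
          have h1 := B'.sum_repr ⟨w, hw⟩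
          have h3 := congrArg Subtype.val h1
          rw [Submodule.coe_sum] at h3
          simp only [Submodule.coe_smul] at h3
          rw [← h3]
          exact Submodule.sum_mem _ (fun i _ => Submodule.smul_mem _ _
            (Submodule.subset_span ⟨Sum.inr i, by rw [hb]; rfl⟩))
      have hcard : Fintype.card (Fin ℓ ⊕ ι') = finrank E V := by
        rw [Fintype.card_sum, Fintype.card_fin, ← Module.finrank_eq_card_basis B']; omega
      obtain ⟨B, hB⟩ := S5958.basis_of_span b hspan hcard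
      refine ⟨Fin ℓ ⊕ ι', inferInstance, B, fun i => Sum.elim
        (fun j : Fin ℓ => if h : j.val + 1 < ℓ then some (Sum.inl ⟨j.val + 1, h⟩) else none)
        (fun i' => (σ' i').map Sum.inr) i, ?_⟩
      intro i
      rcases i with j | i'
      · simp only [Sum.elim_inl]
        rw [hB, hb]
        simp only [Sum.elim_inl]
        by_cases h : j.val + 1 < ℓ
        · rw [dif_pos h]
          simp only [Option.elim]
          rw [hB, hb]
          simp only [Sum.elim_inl]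
          rw [← Module.End.mul_apply, ← pow_succ']
        · rw [dif_neg h]
          simp only [Option.elim]
          have h2 : j.val + 1 = ℓ := by have := j.2; omega
          rw [← Module.End.mul_apply, ← pow_succ', h2, hNℓ]; rfl
      · simp only [Sum.elim_inr]
        rw [hB, hb]
        simp only [Sum.elim_inr]
        have h1 := hB' i'
        have h2 : N (B' i' : V) = ((N.restrict hV'inv) (B' i') : V) := rfl
        rw [h2, h1]
        rcases σ' i' with _ | j'
        · simp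
        · simp only [Option.map_some, Option.elim]
          rw [hB, hb]
          rfl

theorem jordan_fin {E : Type*} [Field E] {V : Type u} [AddCommGroup V] [Module E V]
    [FiniteDimensional E V] (N : Module.End E V) (hnil : ∃ k, N ^ k = 0) (n : ℕ)
    (hn : finrank E V = n) :
    ∃ (B : Basis (Fin n) E V) (σ : Fin n → Option (Fin n)),
      ∀ j, N (B j) = (σ j).elim 0 (fun i => B i) := by
  obtain ⟨ι, hι, B, σ, hB⟩ := jordan n V N hn hnil
  letI := hι
  have hcard : Fintype.card ι = n := by rw [← Module.finrank_eq_card_basis B, hn]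
  obtain ⟨e⟩ : Nonempty (ι ≃ Fin n) := ⟨Fintype.equivFinOfCardEq hcard⟩
  refine ⟨B.reindex e, fun j => (σ (e.symm j)).map e, fun j => ?_⟩
  rw [Basis.reindex_apply, hB]
  cases hσ : σ (e.symm j) with
  | none => simp [hσ]
  | some i => simp [hσ, Basis.reindex_apply]

section fld
variable {F : Type*} [Field F] [Fintype F] [CharP F 3]

theorem char_ne_two : ringChar F ≠ 2 := by
  rw [ringChar.eq F 3]; norm_num

theorem three_zero : (3 : F) = 0 := by
  have := CharP.cast_eq_zero F 3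
  exact_mod_cast this

theorem cube_inj (a b : F) (h : a ^ 3 = b ^ 3) : a = b := by
  have h1 : (a - b) ^ 3 = a ^ 3 - b ^ 3 - 3 * (a * b * (a - b)) := by ring
  rw [h, three_zero, sub_self, zero_mul, sub_zero] at h1
  exact sub_eq_zero.mp (pow_eq_zero_iff (by norm_num) |>.mp h1)

theorem cube_surj (a : F) : ∃ b : F, b ^ 3 = a := by
  have hinj : Function.Injective (fun b : F => b ^ 3) := fun a b h => cube_inj a b h
  exact (Finite.injective_iff_surjective.mp hinj) a

theorem cube_surj_sub (F₀ : Subfield F) (a : F₀) : ∃ b : F₀, b ^ 3 = a := by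
  have hinj : Function.Injective (fun b : F₀ => b ^ 3) := by
    intro x y h
    apply Subtype.ext
    apply cube_inj
    have := congrArg Subtype.val h
    simpa using this
  exact (Finite.injective_iff_surjective.mp hinj) a

theorem geom_nat (a k : ℕ) :
    (2 * a + 1) ^ k = 2 * (a * (∑ j ∈ Finset.range k, (2 * a + 1) ^ j)) + 1 := by
  induction k with
  | zero => simp
  | succ k ih =>
    rw [Finset.sum_range_succ, pow_succ]
    have h2 : (2 * a + 1) ^ k * (2 * a + 1) = 2 * (a * (2 * a + 1) ^ k) + (2 * a + 1) ^ k := by ring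
    rw [h2, mul_add]
    linarith

theorem geom_mod2 (a : ℕ) (ha : a % 2 = 1) (k : ℕ) :
    (∑ j ∈ Finset.range k, a ^ j) % 2 = k % 2 := by
  induction k with
  | zero => simp
  | succ k ih =>
    rw [Finset.sum_range_succ, Nat.add_mod, ih, Nat.pow_mod, ha, one_pow]
    omega

theorem sq_times_sub (F₀ : Subfield F) (k q₀ : ℕ) (hkodd : Odd k) (hF₀ : Nat.card ↥F₀ = q₀)
    (hqk : Fintype.card F = q₀ ^ k) (δ : F) (hδ : δ ≠ 0) :
    ∃ (ε : F₀) (c : F), ε ≠ 0 ∧ c * c = δ * (ε : F) := by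
  classical
  have hF2 := char_ne_two (F := F)
  have hqodd : Fintype.card F % 2 = 1 := FiniteField.odd_card_of_char_ne_two hF2
  rcases FiniteField.pow_dichotomy hF2 hδ with h1 | h1
  · obtain ⟨c, hc⟩ := (FiniteField.isSquare_iff hF2 hδ).mpr h1
    exact ⟨1, c, one_ne_zero, by rw [← hc]; simp⟩
  · letI : Fintype ↥F₀ := Fintype.ofFinite _
    have hcard0 : Fintype.card ↥F₀ = q₀ := by rw [← Nat.card_eq_fintype_card, hF₀]
    have hq₀odd : q₀ % 2 = 1 := by
      rw [hqk] at hqodd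
      by_contra hcon
      have h0 : q₀ % 2 = 0 := by omega
      have : (q₀ ^ k) % 2 = 0 := by
        rw [Nat.pow_mod, h0]
        obtain ⟨t, rfl⟩ := hkodd
        simp [pow_succ]
      omega
    obtain ⟨a, ha⟩ : ∃ a, q₀ = 2 * a + 1 := ⟨q₀ / 2, by omega⟩
    have hq₀2 : 1 < q₀ := by rw [← hcard0]; exact Fintype.one_lt_card
    have ha0 : 0 < a := by omega
    obtain ⟨g, hgord, hgen⟩ := S5949.exists_gen (F := ↥F₀)
    rw [hcard0] at hgord
    have hg1 : (g ^ a) ^ 2 = 1 := by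
      rw [← pow_mul]
      have : a * 2 = orderOf g := by rw [hgord]; omega
      rw [this, pow_orderOf_eq_one]
    have hg2 : g ^ a ≠ 1 := pow_ne_one_of_lt_orderOf (by omega) (by rw [hgord]; omega)
    have hg3 : ((g : ↥F₀) ^ a) = -1 := by
      have h2 : ((g : ↥F₀) ^ a) ^ 2 = 1 := by
        have := congrArg Units.val hg1
        simpa using this
      rcases sq_eq_one_iff.mp h2 with h | h
      · exfalso; apply hg2
        apply Units.ext
        simpa using h
      · exact h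
    have hg4 : (((g : ↥F₀) : F) ^ a) = -1 := by
      have := congrArg Subtype.val hg3
      simpa using this
    have hS := geom_nat a k
    rw [← ha, ← hqk] at hS
    have hSodd : (∑ j ∈ Finset.range k, q₀ ^ j) % 2 = 1 := by
      rw [geom_mod2 q₀ hq₀odd k]; exact Nat.odd_iff.mp hkodd
    have hhalf : Fintype.card F / 2 = a * (∑ j ∈ Finset.range k, q₀ ^ j) := by omega
    have hg5 : (((g : ↥F₀) : F) ^ (Fintype.card F / 2)) = -1 := by
      rw [hhalf, pow_mul, hg4]
      exact Odd.neg_one_pow (Nat.odd_iff.mpr hSodd)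
    have hne : ((g : ↥F₀) : F) ≠ 0 := by
      intro h
      have : (g : ↥F₀) = 0 := Subtype.ext h
      exact g.ne_zero this
    have h6 : (δ * ((g : ↥F₀) : F)) ^ (Fintype.card F / 2) = 1 := by
      rw [mul_pow, h1, hg5]; simp
    obtain ⟨c, hc⟩ := (FiniteField.isSquare_iff hF2 (mul_ne_zero hδ hne)).mpr h6
    exact ⟨(g : ↥F₀), c, g.ne_zero, hc.symm⟩

theorem sub_is_sq (F₀ : Subfield F) (q₀ : ℕ) (hF₀ : Nat.card ↥F₀ = q₀)
    (hqk : Fintype.card F = q₀ ^ 2) (e : F₀) (he : e ≠ 0) : IsSquare (e : F) := by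
  classical
  have hF2 := char_ne_two (F := F)
  have hqodd : Fintype.card F % 2 = 1 := FiniteField.odd_card_of_char_ne_two hF2
  letI : Fintype ↥F₀ := Fintype.ofFinite _
  have hcard0 : Fintype.card ↥F₀ = q₀ := by rw [← Nat.card_eq_fintype_card, hF₀]
  have hq₀odd : q₀ % 2 = 1 := by
    rw [hqk] at hqodd
    by_contra hcon
    have h0 : q₀ % 2 = 0 := by omega
    have : (q₀ ^ 2) % 2 = 0 := by
      rw [Nat.pow_mod, h0]
    omega
  obtain ⟨a, ha⟩ : ∃ a, q₀ = 2 * a + 1 := ⟨q₀ / 2, by omega⟩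
  have hne : (e : F) ≠ 0 := by
    intro h
    exact he (Subtype.ext h)
  rw [FiniteField.isSquare_iff hF2 hne]
  have h1 : e ^ (q₀ - 1) = 1 := by
    have := FiniteField.pow_card_sub_one_eq_one e he
    rw [hcard0] at this; exact this
  have h2 : (e : F) ^ (q₀ - 1) = 1 := by
    have := congrArg Subtype.val h1
    simpa using this
  have hhalf : Fintype.card F / 2 = (q₀ - 1) * (a + 1) := by
    rw [hqk, ha]
    have : (2 * a + 1) ^ 2 = 2 * ((2 * a + 1 - 1) * (a + 1)) + 1 := by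
      have h3 : 2 * a + 1 - 1 = 2 * a := by omega
      rw [h3]; ring
    omega
  rw [hhalf, pow_mul, h2, one_pow]

end fld

section mem
variable {F : Type*} [Field F] {n : ℕ}

theorem mem_sub_of (F₀ : Subfield F) (y : GL (Fin n) F) (M₀ : Matrix (Fin n) (Fin n) F₀)
    (hM₀ : M₀.det ≠ 0) (c : F) (hc : c ≠ 0)
    (hy : (y : Matrix (Fin n) (Fin n) F) = c • M₀.map F₀.subtype) :
    y ∈ Cfsg.Geo.subfieldSubgroup F₀ (1 : GL (Fin n) F) := by
  obtain ⟨g₀, hg₀⟩ : ∃ g₀ : GL (Fin n) F₀, (g₀ : Matrix (Fin n) (Fin n) F₀) = M₀ :=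
    ⟨Matrix.GeneralLinearGroup.mkOfDetNeZero M₀ hM₀, rfl⟩
  obtain ⟨a, ha⟩ : ∃ a : GL (Fin n) F, a = Matrix.GeneralLinearGroup.map F₀.subtype g₀ := ⟨_, rfl⟩
  have haM : (a : Matrix (Fin n) (Fin n) F) = M₀.map F₀.subtype := by
    rw [ha, ← hg₀]; rfl
  have hb : a⁻¹ * y ∈ Cfsg.Geo.scalars (Fin n) F := by
    rw [Cfsg.Geo.mem_scalars_iff]
    refine ⟨Units.mk0 c hc, ?_⟩
    rw [Units.val_mul, hy, ← haM, Matrix.mul_smul]
    congr 1
    rw [← Units.val_mul, inv_mul_cancel, Units.val_one]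
  have hy2 : y = a * (a⁻¹ * y) := by group
  unfold Cfsg.Geo.subfieldSubgroup
  rw [Subgroup.mem_map]
  refine ⟨y, ?_, by simp⟩
  rw [hy2]
  exact Subgroup.mul_mem _ (Subgroup.mem_sup_left ⟨g₀, ha.symm⟩) (Subgroup.mem_sup_right hb)

theorem of_mem_sub (F₀ : Subfield F) (y : GL (Fin n) F)
    (hy : y ∈ Cfsg.Geo.subfieldSubgroup F₀ (1 : GL (Fin n) F)) :
    ∃ (M₀ : Matrix (Fin n) (Fin n) F₀) (c : F),
      (y : Matrix (Fin n) (Fin n) F) = c • M₀.map F₀.subtype := by
  unfold Cfsg.Geo.subfieldSubgroup at hy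
  rw [Subgroup.mem_map] at hy
  obtain ⟨y', hy', hyy⟩ := hy
  have h1 : y' = y := by simpa using hyy
  rw [h1] at hy'
  have h2 : y ∈ (((Matrix.GeneralLinearGroup.map (F₀.subtype : F₀ →+* F)).range ⊔
      Cfsg.Geo.scalars (Fin n) F : Subgroup (GL (Fin n) F)) : Set (GL (Fin n) F)) := hy'
  rw [Subgroup.mul_normal] at h2
  obtain ⟨h, hh, s, hs, rfl⟩ := Set.mem_mul.mp h2
  obtain ⟨g₀, rfl⟩ := hh
  obtain ⟨c, hc⟩ := (Cfsg.Geo.mem_scalars_iff s).mp hs
  refine ⟨(g₀ : Matrix (Fin n) (Fin n) F₀), (c : F), ?_⟩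
  rw [Units.val_mul, hc, Matrix.mul_smul, Matrix.mul_one]
  rfl

end mem

section mem2
variable {F : Type*} [Field F] {n : ℕ}

theorem subfield_final (F₀ : Subfield F)
    (x : Matrix.SpecialLinearGroup (Fin n) F) (MT : Matrix (Fin n) (Fin n) F)
    (M₀ : Matrix (Fin n) (Fin n) F₀) (lam : F) (hlam : lam ≠ 0)
    (hdet : MT.det = 1)
    (hrel : (x : Matrix (Fin n) (Fin n) F) * MT = MT * (lam • M₀.map F₀.subtype)) :
    ∃ P : Matrix.SpecialLinearGroup (Fin n) F, P⁻¹ * x * P ∈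
      ((Cfsg.Geo.subfieldSubgroup F₀ 1).comap
      (Matrix.SpecialLinearGroup.toGL : Matrix.SpecialLinearGroup (Fin n) F →* GL (Fin n) F)) := by
  have hdetH : (lam • M₀.map F₀.subtype).det = 1 := by
    have h1 := congrArg Matrix.det hrel
    rw [Matrix.det_mul, Matrix.det_mul, x.det_coe, hdet, one_mul, one_mul] at h1
    exact h1.symm
  have hM₀det : M₀.det ≠ 0 := by
    intro h
    rw [Matrix.det_smul, ← RingHom.mapMatrix_apply, ← RingHom.map_det, h, map_zero, mul_zero] at hdetH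
    exact zero_ne_one hdetH
  obtain ⟨P, hPdef⟩ : ∃ P : Matrix.SpecialLinearGroup (Fin n) F,
      (P : Matrix (Fin n) (Fin n) F) = MT := ⟨⟨MT, hdet⟩, rfl⟩
  obtain ⟨xh, hxh⟩ : ∃ xh : Matrix.SpecialLinearGroup (Fin n) F,
      (xh : Matrix (Fin n) (Fin n) F) = lam • M₀.map F₀.subtype := ⟨⟨_, hdetH⟩, rfl⟩
  have hconj : P⁻¹ * x * P = xh := by
    have h1 : x * P = P * xh := by
      apply Subtype.ext
      show (x : Matrix (Fin n) (Fin n) F) * (P : Matrix (Fin n) (Fin n) F) =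
        (P : Matrix (Fin n) (Fin n) F) * (xh : Matrix (Fin n) (Fin n) F)
      rw [hPdef, hxh, hrel]
    rw [mul_assoc, h1, ← mul_assoc, inv_mul_cancel, one_mul]
  refine ⟨P, ?_⟩
  rw [hconj, Subgroup.mem_comap]
  exact mem_sub_of F₀ _ M₀ hM₀det lam hlam hxh

end mem2

section fwd
variable {F : Type*} [Field F] [Fintype F] [CharP F 3]

theorem exists_comm (n : ℕ) (N : Module.End F (Fin n → F)) (hN3 : N ^ 3 = 0) (hN0 : N ≠ 0)
    (F₀ : Subfield F) (k q₀ : ℕ) (hF₀ : Nat.card ↥F₀ = q₀) (hqk : Fintype.card F = q₀ ^ k)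
    (hcase : Odd n ∨ Odd k) (δ : F) (hδ : δ ≠ 0) :
    ∃ (C : Module.End F (Fin n → F)) (ε : F₀), ε ≠ 0 ∧ C ∘ₗ N = N ∘ₗ C ∧
      LinearMap.det C * δ * (ε : F) = 1 := by
  by_cases hN2 : N ^ 2 = 0
  · by_cases hex : ∃ w, N w = 0 ∧ w ∉ LinearMap.range N
    · obtain ⟨w, hw, hwr⟩ := hex
      obtain ⟨Z, V'', hc, hZ, hV'', hfr⟩ := split1 N w hw hwr
      obtain ⟨C, hCdet, hCN⟩ := scale_sub N Z V'' hc hZ hV'' δ⁻¹
      refine ⟨C, 1, one_ne_zero, hCN, ?_⟩
      rw [hCdet, hfr, pow_one]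
      simp [hδ]
    · push Not at hex
      have hker : LinearMap.ker N = LinearMap.range N := by
        apply le_antisymm
        · intro w hw
          exact hex w (LinearMap.mem_ker.mp hw)
        · rintro _ ⟨u, rfl⟩
          rw [LinearMap.mem_ker, ← Module.End.mul_apply, ← pow_two, hN2]; rfl
      have hrn := LinearMap.finrank_range_add_finrank_ker N
      rw [hker] at hrn
      have hfr : finrank F (Fin n → F) = n := by simp
      have hkodd : Odd k := by
        rcases hcase with h | h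
        · exfalso
          obtain ⟨t, ht⟩ := h
          omega
        · exact h
      obtain ⟨v, hv⟩ : ∃ v, N v ≠ 0 := by
        by_contra hcon
        push Not at hcon
        exact hN0 (LinearMap.ext hcon)
      obtain ⟨V', hV'inv, hcompl, hli⟩ := split N 2 (by norm_num) hN2 v (by simpa using hv)
      obtain ⟨ε, c, hε, hc⟩ := sq_times_sub F₀ k q₀ hkodd hF₀ hqk δ hδ
      have hε' : (ε : F) ≠ 0 := fun h' => hε (Subtype.ext h')
      have hc0 : c ≠ 0 := by
        intro h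
        rw [h, mul_zero] at hc
        exact mul_ne_zero hδ hε' hc.symm
      obtain ⟨C, hCdet, hCN⟩ := scale_sub N _ V' hcompl (span_inv N 2 hN2 v) hV'inv c⁻¹
      refine ⟨C, ε, hε, hCN, ?_⟩
      rw [hCdet, finrank_span_eq_card hli, Fintype.card_fin]
      have h5 : c⁻¹ ^ 2 * δ * (ε : F) = (c * c)⁻¹ * (δ * (ε : F)) := by ring
      rw [h5, ← hc, inv_mul_cancel₀ (mul_ne_zero hc0 hc0)]
  · obtain ⟨v, hv⟩ : ∃ v, (N ^ 2) v ≠ 0 := by
      by_contra hcon
      push Not at hcon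
      exact hN2 (LinearMap.ext hcon)
    obtain ⟨V', hV'inv, hcompl, hli⟩ := split N 3 (by norm_num) hN3 v hv
    obtain ⟨c, hc⟩ := cube_surj (δ⁻¹)
    obtain ⟨C, hCdet, hCN⟩ := scale_sub N _ V' hcompl (span_inv N 3 hN3 v) hV'inv c
    refine ⟨C, 1, one_ne_zero, hCN, ?_⟩
    rw [hCdet, finrank_span_eq_card hli, Fintype.card_fin, hc]
    simp [hδ]

theorem fwd_main (n : ℕ) (hn : 2 ≤ n) (F₀ : Subfield F) (k q₀ : ℕ) (hF₀ : Nat.card ↥F₀ = q₀)
    (hqk : Fintype.card F = q₀ ^ k) (hcase : Odd n ∨ Odd k)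
    (x : Matrix.SpecialLinearGroup (Fin n) F)
    (hx3 : ∃ z : F, ((x ^ 3 : Matrix.SpecialLinearGroup (Fin n) F) : Matrix (Fin n) (Fin n) F) =
      z • (1 : Matrix (Fin n) (Fin n) F))
    (hxns : ∀ z : F, (x : Matrix (Fin n) (Fin n) F) ≠ z • (1 : Matrix (Fin n) (Fin n) F)) :
    ∃ P : Matrix.SpecialLinearGroup (Fin n) F, P⁻¹ * x * P ∈
      ((Cfsg.Geo.subfieldSubgroup F₀ 1).comap
      (Matrix.SpecialLinearGroup.toGL : Matrix.SpecialLinearGroup (Fin n) F →* GL (Fin n) F)) := by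
  classical
  obtain ⟨z, hz⟩ := hx3
  obtain ⟨X, hX⟩ : ∃ X : Matrix (Fin n) (Fin n) F, X = (x : Matrix (Fin n) (Fin n) F) := ⟨_, rfl⟩
  have hX3 : X * X * X = z • (1 : Matrix (Fin n) (Fin n) F) := by
    rw [hX, ← hz, pow_succ, pow_two]; rfl
  have hdetX : X.det = 1 := by rw [hX]; exact x.det_coe
  have hz0 : z ≠ 0 := by
    intro h
    have h1 := congrArg Matrix.det hX3
    haveI : Nonempty (Fin n) := ⟨⟨0, by omega⟩⟩
    rw [Matrix.det_mul, Matrix.det_mul, hdetX, h, zero_smul, Matrix.det_zero] at h1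
    simp at h1
  obtain ⟨lam, hlam⟩ := cube_surj z
  have hlam0 : lam ≠ 0 := by
    intro h; rw [h] at hlam; simp at hlam; exact hz0 hlam.symm
  obtain ⟨f, hf⟩ : ∃ f : Module.End F (Fin n → F), f = Matrix.toLin' X := ⟨_, rfl⟩
  have hf3 : f * f * f = z • (1 : Module.End F (Fin n → F)) := by
    rw [hf, Module.End.mul_eq_comp, Module.End.mul_eq_comp, ← Matrix.toLin'_mul,
      ← Matrix.toLin'_mul, hX3, map_smul, Matrix.toLin'_one]; rfl
  obtain ⟨A, hA⟩ : ∃ A : Module.End F (Fin n → F), A = lam⁻¹ • f := ⟨_, rfl⟩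
  obtain ⟨N, hNdef⟩ : ∃ N : Module.End F (Fin n → F), N = A - 1 := ⟨_, rfl⟩
  have hfN : f = lam • (1 + N) := by
    rw [hNdef, add_sub_cancel, hA, smul_smul, mul_inv_cancel₀ hlam0, one_smul]
  have hA3 : A * A * A = 1 := by
    rw [hA, smul_mul_smul_comm, smul_mul_smul_comm, hf3, smul_smul, ← hlam]
    have : lam⁻¹ * lam⁻¹ * lam⁻¹ * lam ^ 3 = 1 := by field_simp
    rw [this, one_smul]
  have hN3 : N ^ 3 = 0 := by
    have h4 : N ^ 3 = A * A * A - 1 - ((A * A - A) + (A * A - A) + (A * A - A)) := by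
      rw [hNdef, pow_succ, pow_two]
      simp only [sub_mul, mul_sub, one_mul, mul_one]
      abel
    have h5 : ∀ Y : Module.End F (Fin n → F), Y + Y + Y = 0 := by
      intro Y
      have : Y + Y + Y = (3 : F) • Y := by module
      rw [this, three_zero, zero_smul]
    rw [h4, hA3, h5, sub_self, sub_zero]
  have hN0 : N ≠ 0 := by
    intro h
    rw [h, add_zero] at hfN
    apply hxns lam
    rw [← hX]
    have h2 := congrArg LinearMap.toMatrix' hfN
    rw [hf, LinearMap.toMatrix'_toLin', map_smul] at h2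
    rw [h2, LinearMap.toMatrix'_one]
  obtain ⟨B, σ, hB⟩ := jordan_fin N ⟨3, hN3⟩ n (by simp)
  obtain ⟨M₀, hM₀⟩ : ∃ M₀ : Matrix (Fin n) (Fin n) F₀, M₀ = Matrix.of (fun i j =>
      (if i = j then (1 : F₀) else 0) + (if σ j = some i then (1 : F₀) else 0)) := ⟨_, rfl⟩
  obtain ⟨MT, hMT⟩ : ∃ MT : Matrix (Fin n) (Fin n) F, MT = Matrix.of (fun i j => B j i) :=
    ⟨_, rfl⟩
  have hrel : X * MT = MT * (lam • M₀.map F₀.subtype) := by
    ext i j
    have h1 : (X * MT) i j = (f (B j)) i := by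
      rw [hf, Matrix.toLin'_apply, Matrix.mul_apply, hMT]
      rfl
    rw [h1, hfN, Matrix.mul_apply]
    simp only [LinearMap.smul_apply, LinearMap.add_apply, Module.End.one_apply, Pi.smul_apply,
      Pi.add_apply, smul_eq_mul, Matrix.smul_apply, Matrix.map_apply, hMT, hM₀, Matrix.of_apply]
    rw [hB j]
    have hcoe : ∀ (p : Prop) [Decidable p],
        (((if p then (1 : F₀) else 0 : F₀)) : F) = if p then 1 else 0 := by
      intro p _; split_ifs <;> simp
    cases hσ : σ j with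
    | none => simp [mul_comm]
    | some k₀ =>
      simp [hcoe, mul_add, Finset.sum_add_distrib]
      ring
  have hMTdet : MT.det ≠ 0 := by
    have h1 : MT = (Pi.basisFun F (Fin n)).toMatrix B := by
      ext i j; rw [Basis.toMatrix_apply, Pi.basisFun_repr, hMT]; rfl
    rw [h1, ← Basis.det_apply]
    exact (Basis.isUnit_det _ B).ne_zero
  obtain ⟨C, ε, hε, hCN, hCdet⟩ := exists_comm n N hN3 hN0 F₀ k q₀ hF₀ hqk hcase MT.det hMTdet
  obtain ⟨Cm, hCm⟩ : ∃ Cm : Matrix (Fin n) (Fin n) F, Cm = LinearMap.toMatrix' C := ⟨_, rfl⟩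
  have hCf : C ∘ₗ f = f ∘ₗ C := by
    rw [hfN]
    apply LinearMap.ext; intro v
    have h1 := LinearMap.congr_fun hCN v
    simp only [LinearMap.comp_apply] at h1
    simp only [LinearMap.comp_apply, LinearMap.smul_apply, LinearMap.add_apply,
      Module.End.one_apply, map_smul, map_add, h1]
  have hCX : Cm * X = X * Cm := by
    have h1 := congrArg LinearMap.toMatrix' hCf
    rw [LinearMap.toMatrix'_comp, LinearMap.toMatrix'_comp, hf, LinearMap.toMatrix'_toLin'] at h1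
    rw [hCm]; exact h1
  have hCmdet : Cm.det = LinearMap.det C := by rw [hCm, LinearMap.det_toMatrix']
  obtain ⟨i₀⟩ : Nonempty (Fin n) := ⟨⟨0, by omega⟩⟩
  obtain ⟨D₀, hD₀⟩ : ∃ D₀ : Matrix (Fin n) (Fin n) F₀,
      D₀ = Matrix.diagonal (fun i => if i = i₀ then ε else 1) := ⟨_, rfl⟩
  obtain ⟨D₀i, hD₀i⟩ : ∃ D₀i : Matrix (Fin n) (Fin n) F₀,
      D₀i = Matrix.diagonal (fun i => if i = i₀ then ε⁻¹ else 1) := ⟨_, rfl⟩
  have hDD : D₀ * D₀i = 1 := by
    rw [hD₀, hD₀i, Matrix.diagonal_mul_diagonal, ← Matrix.diagonal_one]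
    congr 1
    funext i
    by_cases h : i = i₀
    · rw [if_pos h, if_pos h, mul_inv_cancel₀ hε]
    · rw [if_neg h, if_neg h, one_mul]
  have hD₀det : D₀.det = ε := by
    rw [hD₀, Matrix.det_diagonal, Finset.prod_ite_eq' Finset.univ i₀ (fun _ => ε)]
    simp
  obtain ⟨Dm, hDm⟩ : ∃ Dm : Matrix (Fin n) (Fin n) F, Dm = D₀.map F₀.subtype := ⟨_, rfl⟩
  obtain ⟨Dim, hDim⟩ : ∃ Dim : Matrix (Fin n) (Fin n) F, Dim = D₀i.map F₀.subtype := ⟨_, rfl⟩
  have hDDm : Dm * Dim = 1 := by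
    rw [hDm, hDim, ← Matrix.map_mul, hDD, Matrix.map_one _ (map_zero _) (map_one _)]
  have hDmdet : Dm.det = (ε : F) := by
    rw [hDm, ← RingHom.mapMatrix_apply, ← RingHom.map_det, hD₀det]; rfl
  obtain ⟨H, hH⟩ : ∃ H : Matrix (Fin n) (Fin n) F, H = lam • M₀.map F₀.subtype := ⟨_, rfl⟩
  rw [← hH] at hrel
  have hH' : lam • (D₀i * M₀ * D₀).map F₀.subtype = Dim * H * Dm := by
    rw [Matrix.map_mul, Matrix.map_mul, hH, ← hDm, ← hDim, Matrix.mul_smul, Matrix.smul_mul]
  have hrel' : X * (Cm * MT * Dm) = (Cm * MT * Dm) * (lam • (D₀i * M₀ * D₀).map F₀.subtype) := by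
    rw [hH']
    calc X * (Cm * MT * Dm) = (X * Cm) * MT * Dm := by simp only [Matrix.mul_assoc]
      _ = (Cm * X) * MT * Dm := by rw [hCX]
      _ = Cm * (X * MT) * Dm := by simp only [Matrix.mul_assoc]
      _ = Cm * (MT * H) * Dm := by rw [hrel]
      _ = Cm * MT * (Dm * Dim) * H * Dm := by rw [hDDm]; simp only [Matrix.mul_assoc, Matrix.mul_one]
      _ = (Cm * MT * Dm) * (Dim * H * Dm) := by simp only [Matrix.mul_assoc]
  have hdet' : (Cm * MT * Dm).det = 1 := by
    rw [Matrix.det_mul, Matrix.det_mul, hCmdet, hDmdet, hCdet]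
  rw [hX] at hrel'
  exact subfield_final F₀ x _ _ lam hlam0 hdet' hrel'

end fwd

section bwd
variable {K : Type*} [Field K] {m : ℕ}

theorem comm_J_det (C : Matrix (Fin m ⊕ Fin m) (Fin m ⊕ Fin m) K)
    (hC : C * Matrix.fromBlocks 0 1 0 0 = Matrix.fromBlocks 0 1 0 0 * C) :
    ∃ s : K, C.det = s * s := by
  have hC' := hC
  rw [← Matrix.fromBlocks_toBlocks C, Matrix.fromBlocks_multiply, Matrix.fromBlocks_multiply] at hC'
  simp only [Matrix.mul_zero, Matrix.zero_mul, Matrix.mul_one, Matrix.one_mul, add_zero,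
    zero_add] at hC'
  rw [Matrix.fromBlocks_inj] at hC'
  obtain ⟨h1, h2, h3, h4⟩ := hC'
  refine ⟨C.toBlocks₁₁.det, ?_⟩
  conv_lhs => rw [← Matrix.fromBlocks_toBlocks C, h4, Matrix.det_fromBlocks_zero₂₁, ← h2]

theorem E_mulVec (a : Fin m → K) (v : Fin m ⊕ Fin m → K) :
    (Matrix.fromBlocks 0 (Matrix.diagonal a) 0 0 :
      Matrix (Fin m ⊕ Fin m) (Fin m ⊕ Fin m) K).mulVec v =
      Sum.elim (fun i => a i * v (Sum.inr i)) (fun _ => 0) := by
  rw [Matrix.fromBlocks_mulVec]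
  funext s
  rcases s with i | i
  · simp [Matrix.mulVec_diagonal]
  · simp

theorem ker_range_E (a : Fin m → K) (ha : ∀ i, a i ≠ 0) (v : Fin m ⊕ Fin m → K)
    (hv : (Matrix.fromBlocks 0 (Matrix.diagonal a) 0 0 :
      Matrix (Fin m ⊕ Fin m) (Fin m ⊕ Fin m) K).mulVec v = 0) :
    ∃ w, (Matrix.fromBlocks 0 (Matrix.diagonal a) 0 0 :
      Matrix (Fin m ⊕ Fin m) (Fin m ⊕ Fin m) K).mulVec w = v := by
  rw [E_mulVec] at hv
  refine ⟨Sum.elim (fun _ => 0) (fun i => (a i)⁻¹ * v (Sum.inl i)), ?_⟩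
  rw [E_mulVec]
  funext s
  rcases s with i | i
  · simp only [Sum.elim_inl, Sum.elim_inr]
    rw [← mul_assoc, mul_inv_cancel₀ (ha i), one_mul]
  · simp only [Sum.elim_inr]
    have h1 := congrFun hv (Sum.inr i)
    simp only [Sum.elim_inr, Pi.zero_apply] at h1
    have h2 := congrFun hv (Sum.inl i)
    simp only [Sum.elim_inl, Pi.zero_apply] at h2
    rcases mul_eq_zero.mp h2 with h | h
    · exact absurd h (ha i)
    · exact h.symm

theorem frame_exists (hm : 0 < m) (N : Matrix (Fin m ⊕ Fin m) (Fin m ⊕ Fin m) K)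
    (hNN : N * N = 0)
    (hkr : ∀ v, N.mulVec v = 0 → ∃ w, N.mulVec w = v) :
    ∃ Q : Matrix (Fin m ⊕ Fin m) (Fin m ⊕ Fin m) K, Q.det ≠ 0 ∧
      N * Q = Q * Matrix.fromBlocks 0 1 0 0 := by
  classical
  haveI : Nonempty (Fin m ⊕ Fin m) := ⟨Sum.inl ⟨0, hm⟩⟩
  obtain ⟨L, hL⟩ : ∃ L : Module.End K (Fin m ⊕ Fin m → K), L = Matrix.toLin' N := ⟨_, rfl⟩
  have hLv : ∀ v, L v = N.mulVec v := by intro v; rw [hL, Matrix.toLin'_apply]
  have hLL : ∀ v, L (L v) = 0 := by
    intro v; rw [hLv, hLv, Matrix.mulVec_mulVec, hNN, Matrix.zero_mulVec]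
  have hker : LinearMap.ker L = LinearMap.range L := by
    apply le_antisymm
    · intro w hw
      obtain ⟨u, hu⟩ := hkr w (by rw [← hLv]; exact LinearMap.mem_ker.mp hw)
      exact ⟨u, by rw [hLv, hu]⟩
    · rintro _ ⟨u, rfl⟩
      exact LinearMap.mem_ker.mpr (hLL u)
  have hrn := LinearMap.finrank_range_add_finrank_ker L
  rw [← hker] at hrn
  have hfr : finrank K (Fin m ⊕ Fin m → K) = m + m := by simp
  have hkfr : finrank K (LinearMap.ker L) = m := by omega
  obtain ⟨bk⟩ : Nonempty (Basis (Fin m) K (LinearMap.ker L)) :=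
    ⟨Module.finBasisOfFinrankEq K _ hkfr⟩
  have hu : ∀ i : Fin m, ∃ u, L u = (bk i : Fin m ⊕ Fin m → K) := by
    intro i
    have h1 : (bk i : Fin m ⊕ Fin m → K) ∈ LinearMap.range L := by rw [← hker]; exact (bk i).2
    exact h1
  choose u hu using hu
  obtain ⟨b, hb⟩ : ∃ b : Fin m ⊕ Fin m → (Fin m ⊕ Fin m → K),
      b = Sum.elim (fun i => (bk i : Fin m ⊕ Fin m → K)) u := ⟨_, rfl⟩
  have hLbk : ∀ i, L (bk i : Fin m ⊕ Fin m → K) = 0 := fun i => LinearMap.mem_ker.mp (bk i).2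
  have hli : LinearIndependent K b := by
    rw [Fintype.linearIndependent_iff]
    intro g hg
    rw [Fintype.sum_sum_type, hb] at hg
    simp only [Sum.elim_inl, Sum.elim_inr] at hg
    have h1 := congrArg L hg
    rw [map_add, map_sum, map_sum, map_zero] at h1
    simp only [map_smul, hu, hLbk, smul_zero, Finset.sum_const_zero, zero_add] at h1
    have h3 : ∀ c : Fin m → K, ∑ i, c i • (bk i : Fin m ⊕ Fin m → K) = 0 → ∀ i, c i = 0 := by
      intro c hc
      have h4 : ∑ i, c i • bk i = 0 := by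
        apply Subtype.ext
        rw [Submodule.coe_sum]
        simpa using hc
      exact Fintype.linearIndependent_iff.mp bk.linearIndependent c h4
    have h5 := h3 _ h1
    have h6 : ∑ i, g (Sum.inr i) • u i = 0 := by
      apply Finset.sum_eq_zero; intro i _; rw [h5 i, zero_smul]
    rw [h6, add_zero] at hg
    have h7 := h3 _ hg
    intro s
    rcases s with i | i
    · exact h7 i
    · exact h5 i
  have hcard : Fintype.card (Fin m ⊕ Fin m) = finrank K (Fin m ⊕ Fin m → K) := by simp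
  obtain ⟨Bb, hBb⟩ : ∃ Bb : Basis (Fin m ⊕ Fin m) K (Fin m ⊕ Fin m → K), ⇑Bb = b :=
    ⟨basisOfLinearIndependentOfCardEqFinrank hli hcard,
      coe_basisOfLinearIndependentOfCardEqFinrank hli hcard⟩
  obtain ⟨Q, hQ⟩ : ∃ Q : Matrix (Fin m ⊕ Fin m) (Fin m ⊕ Fin m) K,
      Q = Matrix.of (fun r c => b c r) := ⟨_, rfl⟩
  refine ⟨Q, ?_, ?_⟩
  · have h1 : Q = (Pi.basisFun K (Fin m ⊕ Fin m)).toMatrix Bb := by
      ext i j; rw [Basis.toMatrix_apply, Pi.basisFun_repr, hQ, hBb]; rfl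
    rw [h1, ← Basis.det_apply]
    exact (Basis.isUnit_det _ Bb).ne_zero
  · ext r c
    have h1 : (N * Q) r c = L (b c) r := by
      rw [hLv, Matrix.mul_apply, hQ]; rfl
    rw [h1, Matrix.mul_apply, Fintype.sum_sum_type]
    rcases c with i | i
    · simp [hb, hLbk]
    · simp [hb, hu, hQ, Matrix.one_apply]

end bwd

theorem no_conj_core {F : Type*} [Field F] (F₀ : Subfield F) (m : ℕ) (hm : 0 < m) (a : Fin m → F)
    (ha : ∀ i, a i ≠ 0)
    (P : Matrix (Fin m ⊕ Fin m) (Fin m ⊕ Fin m) F) (hP : P.det = 1)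
    (N₁ : Matrix (Fin m ⊕ Fin m) (Fin m ⊕ Fin m) F₀)
    (hrel : Matrix.fromBlocks 0 (Matrix.diagonal a) 0 0 * P = P * N₁.map F₀.subtype) :
    ∃ (s : F) (e : F₀), e ≠ 0 ∧ s ≠ 0 ∧ (e : F) = s * s * ∏ i, a i := by
  classical
  obtain ⟨E, hE⟩ : ∃ E : Matrix (Fin m ⊕ Fin m) (Fin m ⊕ Fin m) F,
      E = Matrix.fromBlocks 0 (Matrix.diagonal a) 0 0 := ⟨_, rfl⟩
  rw [← hE] at hrel
  have hEE : E * E = 0 := by
    rw [hE, Matrix.fromBlocks_multiply]; simp
  obtain ⟨Pi, hPi⟩ : ∃ Pi : Matrix (Fin m ⊕ Fin m) (Fin m ⊕ Fin m) F, Pi = P⁻¹ := ⟨_, rfl⟩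
  have hPu : IsUnit P.det := by rw [hP]; exact isUnit_one
  have hPiP : Pi * P = 1 := by rw [hPi]; exact Matrix.nonsing_inv_mul P hPu
  have hPPi : P * Pi = 1 := by rw [hPi]; exact Matrix.mul_nonsing_inv P hPu
  obtain ⟨Nm, hNm⟩ : ∃ Nm : Matrix (Fin m ⊕ Fin m) (Fin m ⊕ Fin m) F,
      Nm = N₁.map F₀.subtype := ⟨_, rfl⟩
  rw [← hNm] at hrel
  have hPiE : Pi * E = Nm * Pi := by
    calc Pi * E = Pi * (E * P) * Pi := by
          rw [Matrix.mul_assoc, Matrix.mul_assoc, hPPi, Matrix.mul_one]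
      _ = Pi * (P * Nm) * Pi := by rw [hrel]
      _ = Nm * Pi := by rw [← Matrix.mul_assoc, hPiP, Matrix.one_mul]
  have hNmNm : Nm * Nm = 0 := by
    have h1 : Nm = Pi * E * P := by
      rw [Matrix.mul_assoc, hrel, ← Matrix.mul_assoc, hPiP, Matrix.one_mul]
    calc Nm * Nm = Nm * (Pi * E * P) := by rw [← h1]
      _ = (Nm * Pi) * E * P := by simp only [Matrix.mul_assoc]
      _ = Pi * (E * E) * P := by rw [← hPiE]; simp only [Matrix.mul_assoc]
      _ = 0 := by rw [hEE, Matrix.mul_zero, Matrix.zero_mul]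
  have hinj : Function.Injective
      (fun M : Matrix (Fin m ⊕ Fin m) (Fin m ⊕ Fin m) F₀ => M.map F₀.subtype) :=
    Matrix.map_injective F₀.subtype.injective
  have hN₁N₁ : N₁ * N₁ = 0 := by
    apply hinj
    show (N₁ * N₁).map F₀.subtype = (0 : Matrix (Fin m ⊕ Fin m) (Fin m ⊕ Fin m) F₀).map F₀.subtype
    rw [Matrix.map_mul, ← hNm, hNmNm, Matrix.map_zero _ (map_zero _)]
  obtain ⟨π, hπ⟩ := LinearMap.exists_leftInverse_of_injective (Algebra.linearMap F₀ F)
    (LinearMap.ker_eq_bot.mpr (algebraMap F₀ F).injective)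
  have hπ1 : ∀ a : F₀, π (a : F) = a := by
    intro a
    have := LinearMap.congr_fun hπ a
    exact this
  have hπ2 : ∀ (a : F₀) (y : F), π ((a : F) * y) = a * π y := by
    intro a y
    have := π.map_smul a y
    rw [smul_eq_mul] at this
    rw [← this]; rfl
  have hkr : ∀ v₀ : Fin m ⊕ Fin m → F₀, N₁.mulVec v₀ = 0 → ∃ w₀, N₁.mulVec w₀ = v₀ := by
    intro v₀ hv₀
    obtain ⟨v, hv⟩ : ∃ v : Fin m ⊕ Fin m → F, v = F₀.subtype ∘ v₀ := ⟨_, rfl⟩
    have h1 : Nm.mulVec v = 0 := by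
      funext r
      rw [hNm, hv, ← RingHom.map_mulVec, hv₀]; simp
    have h2 : E.mulVec (P.mulVec v) = 0 := by
      rw [Matrix.mulVec_mulVec, hrel, ← Matrix.mulVec_mulVec, h1, Matrix.mulVec_zero]
    rw [hE] at h2
    obtain ⟨w, hw⟩ := ker_range_E a ha _ h2
    rw [← hE] at hw
    obtain ⟨w', hw'⟩ : ∃ w' : Fin m ⊕ Fin m → F, w' = Pi.mulVec w := ⟨_, rfl⟩
    have h3 : Nm.mulVec w' = v := by
      rw [hw', Matrix.mulVec_mulVec, ← hPiE, ← Matrix.mulVec_mulVec, hw, Matrix.mulVec_mulVec,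
        hPiP, Matrix.one_mulVec]
    refine ⟨fun c => π (w' c), ?_⟩
    funext r
    have h4 := congrFun h3 r
    rw [hNm, Matrix.mulVec, dotProduct] at h4
    have h5 := congrArg π h4
    rw [map_sum] at h5
    simp only [Matrix.map_apply] at h5
    rw [hv] at h5
    simp only [Function.comp_apply] at h5
    rw [Matrix.mulVec, dotProduct]
    have h6 : π (F₀.subtype (v₀ r)) = v₀ r := hπ1 (v₀ r)
    rw [← h6, ← h5]
    apply Finset.sum_congr rfl
    intro c _
    exact (hπ2 _ _).symm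
  obtain ⟨Q₀, hQ₀det, hQ₀⟩ := frame_exists hm N₁ hN₁N₁ hkr
  obtain ⟨Qm, hQm⟩ : ∃ Qm : Matrix (Fin m ⊕ Fin m) (Fin m ⊕ Fin m) F,
      Qm = Q₀.map F₀.subtype := ⟨_, rfl⟩
  obtain ⟨J, hJ⟩ : ∃ J : Matrix (Fin m ⊕ Fin m) (Fin m ⊕ Fin m) F,
      J = Matrix.fromBlocks 0 1 0 0 := ⟨_, rfl⟩
  have hNQ : Nm * Qm = Qm * J := by
    rw [hNm, hQm, ← Matrix.map_mul, hQ₀, Matrix.map_mul, hJ, Matrix.fromBlocks_map]
    simp
  have hQmdet : Qm.det = (Q₀.det : F) := by
    rw [hQm, ← RingHom.mapMatrix_apply, ← RingHom.map_det]; rfl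
  obtain ⟨Di, hDi⟩ : ∃ Di : Matrix (Fin m ⊕ Fin m) (Fin m ⊕ Fin m) F,
      Di = Matrix.fromBlocks (Matrix.diagonal (fun i => (a i)⁻¹)) 0 0 1 := ⟨_, rfl⟩
  have hDiE : Di * E = J := by
    rw [hDi, hE, hJ, Matrix.fromBlocks_multiply]
    simp only [Matrix.mul_zero, Matrix.zero_mul, add_zero, zero_add,
      Matrix.diagonal_mul_diagonal]
    congr 1
    rw [← Matrix.diagonal_one]; congr 1; funext i; exact inv_mul_cancel₀ (ha i)
  have hJDi : J * Di = J := by
    rw [hDi, hJ, Matrix.fromBlocks_multiply]; simp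
  have hDidet : Di.det * ∏ i, a i = 1 := by
    rw [hDi, Matrix.det_fromBlocks_zero₂₁, Matrix.det_diagonal, Matrix.det_one, mul_one,
      ← Finset.prod_mul_distrib]
    apply Finset.prod_eq_one; intro i _; exact inv_mul_cancel₀ (ha i)
  obtain ⟨s, hs⟩ := comm_J_det (Di * (P * Qm)) (by
    rw [← hJ]
    calc Di * (P * Qm) * J = Di * (P * (Qm * J)) := by simp only [Matrix.mul_assoc]
      _ = Di * (P * (Nm * Qm)) := by rw [hNQ]
      _ = Di * ((P * Nm) * Qm) := by simp only [Matrix.mul_assoc]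
      _ = Di * ((E * P) * Qm) := by rw [hrel]
      _ = (Di * E) * (P * Qm) := by simp only [Matrix.mul_assoc]
      _ = J * (P * Qm) := by rw [hDiE]
      _ = J * (Di * (P * Qm)) := by rw [← Matrix.mul_assoc J Di, hJDi])
  rw [Matrix.det_mul, Matrix.det_mul, hP, one_mul, hQmdet] at hs
  have hfin : (Q₀.det : F) = s * s * ∏ i, a i := by
    rw [← hs]
    calc (Q₀.det : F) = (Di.det * ∏ i, a i) * (Q₀.det : F) := by rw [hDidet, one_mul]
      _ = _ := by ring
  refine ⟨s, Q₀.det, hQ₀det, ?_, hfin⟩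
  intro h
  rw [h, zero_mul, zero_mul] at hfin
  exact hQ₀det (Subtype.ext hfin)

theorem bwd_main {F : Type*} [Field F] [Fintype F] [CharP F 3] (m : ℕ) (hm : 1 ≤ m)
    (F₀ : Subfield F) (q₀ : ℕ) (hF₀ : Nat.card ↥F₀ = q₀) (hqk : Fintype.card F = q₀ ^ 2) :
    ∃ x : Matrix.SpecialLinearGroup (Fin (m + m)) F,
      (∃ z : F, ((x ^ 3 : Matrix.SpecialLinearGroup (Fin (m + m)) F) :
        Matrix (Fin (m + m)) (Fin (m + m)) F) = z • (1 : Matrix (Fin (m + m)) (Fin (m + m)) F)) ∧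
      (∀ z : F, (x : Matrix (Fin (m + m)) (Fin (m + m)) F) ≠
        z • (1 : Matrix (Fin (m + m)) (Fin (m + m)) F)) ∧
      ∀ P : Matrix.SpecialLinearGroup (Fin (m + m)) F, P⁻¹ * x * P ∉
        ((Cfsg.Geo.subfieldSubgroup F₀ 1).comap
        (Matrix.SpecialLinearGroup.toGL :
          Matrix.SpecialLinearGroup (Fin (m + m)) F →* GL (Fin (m + m)) F)) := by
  classical
  obtain ⟨ν, hν⟩ := FiniteField.exists_nonsquare (char_ne_two (F := F))
  have hν0 : ν ≠ 0 := by
    intro h; apply hν; rw [h]; exact ⟨0, by simp⟩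
  obtain ⟨i₀⟩ : Nonempty (Fin m) := ⟨⟨0, by omega⟩⟩
  obtain ⟨a, ha⟩ : ∃ a : Fin m → F, a = fun i => if i = i₀ then ν else 1 := ⟨_, rfl⟩
  have ha0 : ∀ i, a i ≠ 0 := by
    intro i; rw [ha]; by_cases h : i = i₀
    · simp [h, hν0]
    · simp [h]
  have hprod : ∏ i, a i = ν := by
    rw [ha, Finset.prod_ite_eq' Finset.univ i₀ (fun _ => ν)]; simp
  obtain ⟨E, hE⟩ : ∃ E : Matrix (Fin m ⊕ Fin m) (Fin m ⊕ Fin m) F,
      E = Matrix.fromBlocks 0 (Matrix.diagonal a) 0 0 := ⟨_, rfl⟩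
  have hEE : E * E = 0 := by
    rw [hE, Matrix.fromBlocks_multiply]; simp
  obtain ⟨Y, hY⟩ : ∃ Y : Matrix (Fin m ⊕ Fin m) (Fin m ⊕ Fin m) F, Y = 1 + E := ⟨_, rfl⟩
  have hY3 : Y * Y * Y = 1 := by
    have h1 : Y * Y * Y = 1 + (E + E + E) + (E * E + E * E + E * E) + E * E * E := by
      rw [hY]; simp only [add_mul, mul_add, one_mul, mul_one]; abel
    have h2 : E + E + E = 0 := by
      have : E + E + E = (3 : F) • E := by module
      rw [this, three_zero, zero_smul]
    rw [h1, h2, hEE, Matrix.zero_mul]; simp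
  have hYdet : Y.det = 1 := by
    have h1 : Y = Matrix.fromBlocks 1 (Matrix.diagonal a) 0 1 := by
      rw [hY, hE, ← Matrix.fromBlocks_one, Matrix.fromBlocks_add]; simp
    rw [h1, Matrix.det_fromBlocks_zero₂₁, Matrix.det_one, mul_one]
  obtain ⟨e, he⟩ : ∃ e : Fin (m + m) ≃ Fin m ⊕ Fin m, e = finSumFinEquiv.symm := ⟨_, rfl⟩
  obtain ⟨X, hX⟩ : ∃ X : Matrix (Fin (m + m)) (Fin (m + m)) F, X = Y.submatrix e e := ⟨_, rfl⟩
  have hXdet : X.det = 1 := by rw [hX, Matrix.det_submatrix_equiv_self, hYdet]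
  have hX3 : X * X * X = 1 := by
    rw [hX, Matrix.submatrix_mul_equiv, Matrix.submatrix_mul_equiv, hY3,
      Matrix.submatrix_one_equiv]
  have hYX : Y = X.submatrix e.symm e.symm := by
    rw [hX, Matrix.submatrix_submatrix]; simp
  obtain ⟨x, hx⟩ : ∃ x : Matrix.SpecialLinearGroup (Fin (m + m)) F,
      (x : Matrix (Fin (m + m)) (Fin (m + m)) F) = X := ⟨⟨X, hXdet⟩, rfl⟩
  refine ⟨x, ⟨1, ?_⟩, ?_, ?_⟩
  · rw [one_smul, pow_succ, pow_two, Matrix.SpecialLinearGroup.coe_mul,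
      Matrix.SpecialLinearGroup.coe_mul, hx]
    exact hX3
  · intro z hz
    rw [hx] at hz
    have hz' : X = z • 1 := hz
    have h1 := congrFun (congrFun hz' (e.symm (Sum.inl i₀))) (e.symm (Sum.inr i₀))
    rw [hX, Matrix.submatrix_apply, Equiv.apply_symm_apply, Equiv.apply_symm_apply, hY, hE] at h1
    have hne : e.symm (Sum.inl i₀) ≠ e.symm (Sum.inr i₀) := e.symm.injective.ne Sum.inl_ne_inr
    simp [Matrix.one_apply_ne hne, ha] at h1
    exact hν0 h1
  · intro P hP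
    rw [Subgroup.mem_comap] at hP
    obtain ⟨M₀, c, hMc⟩ := of_mem_sub F₀ _ hP
    obtain ⟨Pm, hPm⟩ : ∃ Pm : Matrix (Fin (m + m)) (Fin (m + m)) F,
        Pm = (P : Matrix (Fin (m + m)) (Fin (m + m)) F) := ⟨_, rfl⟩
    obtain ⟨Pim, hPim⟩ : ∃ Pim : Matrix (Fin (m + m)) (Fin (m + m)) F,
        Pim = ((P⁻¹ : Matrix.SpecialLinearGroup (Fin (m + m)) F) :
          Matrix (Fin (m + m)) (Fin (m + m)) F) := ⟨_, rfl⟩
    have hPiP : Pim * Pm = 1 := by
      rw [hPim, hPm, ← Matrix.SpecialLinearGroup.coe_mul, inv_mul_cancel,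
        Matrix.SpecialLinearGroup.coe_one]
    have hPPi : Pm * Pim = 1 := by
      rw [hPim, hPm, ← Matrix.SpecialLinearGroup.coe_mul, mul_inv_cancel,
        Matrix.SpecialLinearGroup.coe_one]
    have hPdet : Pm.det = 1 := by rw [hPm]; exact P.det_coe
    obtain ⟨Mm, hMm⟩ : ∃ Mm : Matrix (Fin (m + m)) (Fin (m + m)) F,
        Mm = M₀.map F₀.subtype := ⟨_, rfl⟩
    have hconj : Pim * X * Pm = c • Mm := by
      rw [hMm, ← hMc, hPim, hPm, ← hx]; rfl
    have hXP : X * Pm = Pm * (c • Mm) := by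
      rw [← hconj, ← Matrix.mul_assoc, ← Matrix.mul_assoc, hPPi, Matrix.one_mul]
    have hcube : (c • Mm) * (c • Mm) * (c • Mm) = 1 := by
      rw [← hconj]
      calc Pim * X * Pm * (Pim * X * Pm) * (Pim * X * Pm)
          = Pim * (X * (Pm * Pim) * X * (Pm * Pim) * X) * Pm := by
            simp only [Matrix.mul_assoc]
        _ = Pim * (X * X * X) * Pm := by rw [hPPi]; simp only [Matrix.mul_one]
        _ = 1 := by rw [hX3, Matrix.mul_one, hPiP]
    obtain ⟨j₀⟩ : Nonempty (Fin (m + m)) := ⟨⟨0, by omega⟩⟩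
    obtain ⟨T, hT⟩ : ∃ T : Matrix (Fin (m + m)) (Fin (m + m)) F₀, T = M₀ * M₀ * M₀ := ⟨_, rfl⟩
    have hcube2 : (c * c * c) * ((T j₀ j₀ : F₀) : F) = 1 := by
      have h0 : (c • Mm) * (c • Mm) * (c • Mm) = (c * c * c) • T.map F₀.subtype := by
        rw [hT, Matrix.map_mul, Matrix.map_mul, ← hMm]
        simp only [Matrix.smul_mul, Matrix.mul_smul, smul_smul]
        congr 1
        ring
      rw [h0] at hcube
      have h1 := congrFun (congrFun hcube j₀) j₀
      simpa using h1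
    obtain ⟨t, ht⟩ : ∃ t : F₀, t = T j₀ j₀ := ⟨_, rfl⟩
    rw [← ht] at hcube2
    have ht0 : t ≠ 0 := by
      intro h; rw [h] at hcube2; simp at hcube2
    obtain ⟨b, hb⟩ := cube_surj_sub F₀ t⁻¹
    have hcb : c = (b : F) := by
      apply cube_inj
      have h1 : ((b : F)) ^ 3 = ((t⁻¹ : F₀) : F) := by rw [← hb]; simp
      have ht' : ((t⁻¹ : F₀) : F) = (t : F)⁻¹ := by simp
      rw [h1, ht']
      exact eq_inv_of_mul_eq_one_left (by rw [← hcube2]; ring)
    obtain ⟨G₁, hG₁def⟩ : ∃ G₁ : Matrix (Fin (m + m)) (Fin (m + m)) F₀, G₁ = b • M₀ := ⟨_, rfl⟩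
    have hG₁ : c • Mm = G₁.map F₀.subtype := by
      ext r s
      simp [hcb, hMm, hG₁def]
    obtain ⟨P', hP'⟩ : ∃ P' : Matrix (Fin m ⊕ Fin m) (Fin m ⊕ Fin m) F,
        P' = Pm.submatrix e.symm e.symm := ⟨_, rfl⟩
    obtain ⟨G', hG'⟩ : ∃ G' : Matrix (Fin m ⊕ Fin m) (Fin m ⊕ Fin m) F₀,
        G' = G₁.submatrix e.symm e.symm := ⟨_, rfl⟩
    have hrel' : Y * P' = P' * G'.map F₀.subtype := by
      have h1 : G'.map F₀.subtype = (G₁.map F₀.subtype).submatrix e.symm e.symm := by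
        rw [hG']; rfl
      rw [h1, hYX, hP', Matrix.submatrix_mul_equiv, Matrix.submatrix_mul_equiv, hXP, hG₁]
    have hEP : E * P' = P' * (G' - 1).map F₀.subtype := by
      rw [Matrix.map_sub _ (map_sub F₀.subtype), Matrix.map_one _ (map_zero _) (map_one _),
        Matrix.mul_sub, Matrix.mul_one, ← hrel', hY, Matrix.add_mul, Matrix.one_mul,
        add_sub_cancel_left]
    have hP'det : P'.det = 1 := by rw [hP', Matrix.det_submatrix_equiv_self, hPdet]
    rw [hE] at hEP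
    obtain ⟨s, e₀, he₀, hs0, hse⟩ := no_conj_core F₀ m (by omega) a ha0 P' hP'det (G' - 1) hEP
    rw [hprod] at hse
    obtain ⟨r, hr⟩ := sub_is_sq F₀ q₀ hF₀ hqk e₀ he₀
    apply hν
    refine ⟨r / s, ?_⟩
    have h9 : s * s * ν = r * r := by rw [← hse, hr]
    field_simp
    linear_combination h9

/-- Elements of order 3 of PSL_n(q) in characteristic 3 and subfield subgroups. Here `T = PSL_n(F)` for a field `F` with `q` elements, `q` a power of 3 (`n ≥ 2`, `(n, q) ≠ (2, 2), (2, 3)`), `F₀` is the subfield with `q₀` elements where `q = q₀^k` for a prime `k`, and `H` is the subgroup of matrices of determinant 1 lying in the subfield group of `F₀` (invertible matrices over `F₀` times scalars) — a maximal subgroup of type GL_n(q₀) (the case `n = 2`, `q₀ = 2` is excluded); Ω is the set of `T`-conjugates of `H` (cosets of `H`), so an element of `T` of prime order `r` (a matrix `x` of determinant 1 with `x^r` scalar, `x` not scalar) fixes a point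 of Ω when some conjugate of `x` by a matrix of determinant 1 lies in `H`. Suppose 3 divides the index of `H`. Then every element of `T` of order 3 is conjugate in `T` into `H` if and only if `n` is odd, or `n` is even and `k > 2`. -/
theorem result {F : Type*} [Field F] [Fintype F] [CharP F 3] {q : ℕ} (hq : Fintype.card F = q)
    (n : ℕ) (hn : 2 ≤ n) (hT : (n, q) ≠ (2, 3))
    (F₀ : Subfield F) (k q₀ : ℕ) (hk : k.Prime) (hF₀ : Nat.card ↥F₀ = q₀) (hqk : q = q₀ ^ k) (hC5 : ¬ (n = 2 ∧ q₀ = 2)) (hΩ : 3 ∣ ((Cfsg.Geo.subfieldSubgroup F₀ 1).comap (Matrix.SpecialLinearGroup.toGL : Matrix.SpecialLinearGroup (Fin n) F →* GL (Fin n) F)).index) :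
    (∀ x : Matrix.SpecialLinearGroup (Fin n) F,
      (∃ z : F, ((x ^ 3 : Matrix.SpecialLinearGroup (Fin n) F) : Matrix (Fin n) (Fin n) F) = z • (1 : Matrix (Fin n) (Fin n) F)) →
      (∀ z : F, (x : Matrix (Fin n) (Fin n) F) ≠ z • (1 : Matrix (Fin n) (Fin n) F)) →
      ∃ P : Matrix.SpecialLinearGroup (Fin n) F, P⁻¹ * x * P ∈ ((Cfsg.Geo.subfieldSubgroup F₀ 1).comap (Matrix.SpecialLinearGroup.toGL : Matrix.SpecialLinearGroup (Fin n) F →* GL (Fin n) F))) ↔
    (Odd n ∨ (Even n ∧ 2 < k)) := by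
  subst hq
  constructor
  · intro h
    by_cases hodd : Odd n
    · exact Or.inl hodd
    · right
      have hev : Even n := Nat.not_odd_iff_even.mp hodd
      refine ⟨hev, ?_⟩
      by_contra hk2
      have hk2' : k = 2 := by have := hk.two_le; omega
      subst hk2'
      obtain ⟨m, rfl⟩ := hev
      obtain ⟨x, hx3, hxns, hxP⟩ := bwd_main m (by omega) F₀ q₀ hF₀ hqk
      obtain ⟨P, hP⟩ := h x hx3 hxns
      exact hxP P hP
  · intro h x hx3 hxns
    have hcase : Odd n ∨ Odd k := by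
      rcases h with h | ⟨_, h⟩
      · exact Or.inl h
      · right; exact hk.odd_of_ne_two (by omega)
    exact fwd_main n hn F₀ k q₀ hF₀ hqk hcase x hx3 hxns


end Cfsg.Agent.S5966
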