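import Cfsg.Statements.S5964
import Mathlib
import Cfsg.Agent.S5949
import Cfsg.Agent.S5951
import Cfsg.Agent.S5958
import Cfsg.Agent.S5970
import Cfsg.Agent.S5971
import Cfsg.Agent.S5969
import Cfsg.Agent.S5966

set_option autoImplicit false
set_option maxHeartbeats 400000
open scoped MatrixGroups
open Cfsg

namespace Cfsg.Agent.S5964

open Polynomial Module

theorem relIndex_dvd_of_normal {G : Type*} [Group G] [Finite G] (H K : Subgroup G) [K.Normal] :
    H.relIndex K ∣ H.index := by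
  have h1 := Subgroup.relIndex_mul_index (inf_le_right : H ⊓ K ≤ K)
  have h2 := Subgroup.relIndex_mul_index (inf_le_left : H ⊓ K ≤ H)
  have h3 := Subgroup.relIndex_mul_index (le_sup_right : K ≤ H ⊔ K)
  rw [Subgroup.inf_relIndex_right] at h1
  rw [Subgroup.inf_relIndex_left] at h2
  rw [Subgroup.relIndex_sup_right] at h3
  have h4 : K.relIndex H ≠ 0 := by
    unfold Subgroup.relIndex; exact Subgroup.index_ne_zero_of_finite
  refine ⟨(H ⊔ K).index, ?_⟩
  have h5 : K.relIndex H * H.index = K.relIndex H * (H.relIndex K * (H ⊔ K).index) := by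
    rw [h2, ← h1, ← h3]; ring
  exact Nat.eq_of_mul_eq_mul_left (Nat.pos_of_ne_zero h4) h5

theorem toGL_range_normal {F : Type*} [Field F] (n : ℕ) :
    ((Matrix.SpecialLinearGroup.toGL :
      Matrix.SpecialLinearGroup (Fin n) F →* GL (Fin n) F).range).Normal := by
  constructor
  intro g hg h
  obtain ⟨s, rfl⟩ := hg
  refine ⟨⟨((h * Matrix.SpecialLinearGroup.toGL s * h⁻¹ : GL (Fin n) F) :
    Matrix (Fin n) (Fin n) F), ?_⟩, ?_⟩
  · rw [Units.val_mul, Units.val_mul, Matrix.det_mul, Matrix.det_mul]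
    have h1 : ((Matrix.SpecialLinearGroup.toGL s : GL (Fin n) F) :
        Matrix (Fin n) (Fin n) F).det = 1 := s.det_coe
    have h2 : (h : Matrix (Fin n) (Fin n) F).det *
        ((h⁻¹ : GL (Fin n) F) : Matrix (Fin n) (Fin n) F).det = 1 := by
      rw [← Matrix.det_mul, ← Units.val_mul, mul_inv_cancel, Units.val_one, Matrix.det_one]
    rw [h1, mul_one, h2]
  · apply Units.ext
    rfl

theorem factor_odd (q₀ k i d : ℕ) (hq₀ : q₀ % 2 = 1) (hk : k % 2 = 1) :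
    ∃ O, O % 2 = 1 ∧ (q₀ ^ k) ^ (i + d) - (q₀ ^ k) ^ i = (q₀ ^ (i + d) - q₀ ^ i) * O := by
  obtain ⟨a, ha⟩ : ∃ a, q₀ ^ d = 2 * a + 1 := by
    have : (q₀ ^ d) % 2 = 1 := by simp [Nat.pow_mod, hq₀]
    exact ⟨q₀ ^ d / 2, by omega⟩
  obtain ⟨k', rfl⟩ : ∃ k', k = k' + 1 := ⟨k - 1, by omega⟩
  obtain ⟨S, hSdef⟩ : ∃ S, S = ∑ j ∈ Finset.range (k' + 1), (2 * a + 1) ^ j := ⟨_, rfl⟩
  have hS : (2 * a + 1) ^ (k' + 1) = 2 * (a * S) + 1 := by
    rw [hSdef]; exact S5966.geom_nat a (k' + 1)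
  have hSodd : S % 2 = 1 := by
    rw [hSdef, S5966.geom_mod2 (2 * a + 1) (by omega) (k' + 1)]; exact hk
  have e1 : q₀ ^ (i + d) - q₀ ^ i = q₀ ^ i * (2 * a) := by
    apply Nat.sub_eq_of_eq_add
    rw [pow_add, ha]; ring
  have e2 : (q₀ ^ (k' + 1)) ^ (i + d) =
      q₀ ^ i * (2 * a) * ((q₀ ^ i) ^ k' * S) + (q₀ ^ (k' + 1)) ^ i := by
    have h1 : (q₀ ^ (k' + 1)) ^ (i + d) = (q₀ ^ (k' + 1)) ^ i * (q₀ ^ d) ^ (k' + 1) := by ring
    rw [h1, ha, hS]; ring
  refine ⟨(q₀ ^ i) ^ k' * S, ?_, ?_⟩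
  · have hY : (q₀ ^ i) % 2 = 1 := by simp [Nat.pow_mod, hq₀]
    rw [Nat.mul_mod, Nat.pow_mod, hY, hSodd]; simp
  · rw [e1]; exact Nat.sub_eq_of_eq_add e2

theorem prod_odd (q₀ k n : ℕ) (hq₀ : q₀ % 2 = 1) (hk : k % 2 = 1) :
    ∃ O, O % 2 = 1 ∧ ∏ i : Fin n, ((q₀ ^ k) ^ n - (q₀ ^ k) ^ (i : ℕ)) =
      (∏ i : Fin n, (q₀ ^ n - q₀ ^ (i : ℕ))) * O := by
  have h : ∀ i : Fin n, ∃ O, O % 2 = 1 ∧
      (q₀ ^ k) ^ n - (q₀ ^ k) ^ (i : ℕ) = (q₀ ^ n - q₀ ^ (i : ℕ)) * O := by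
    intro i
    obtain ⟨d, hd⟩ : ∃ d, n = (i : ℕ) + d := ⟨n - i, by have := i.2; omega⟩
    have := factor_odd q₀ k i d hq₀ hk
    rw [← hd] at this; exact this
  choose O hO1 hO2 using h
  refine ⟨∏ i, O i, ?_, ?_⟩
  · rw [Finset.prod_nat_mod]
    simp [hO1]
  · rw [← Finset.prod_mul_distrib]
    exact Finset.prod_congr rfl (fun i _ => hO2 i)

theorem index_odd {F : Type*} [Field F] [Fintype F] (n : ℕ) (F₀ : Subfield F) (k q₀ : ℕ)
    (hkodd : k % 2 = 1) (hq₀odd : q₀ % 2 = 1) (hF₀ : Nat.card ↥F₀ = q₀)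
    (hqk : Fintype.card F = q₀ ^ k) :
    ¬ 2 ∣ ((Cfsg.Geo.subfieldSubgroup F₀ 1).comap (Matrix.SpecialLinearGroup.toGL :
      Matrix.SpecialLinearGroup (Fin n) F →* GL (Fin n) F)).index := by
  classical
  intro h2
  rw [Subgroup.index_comap] at h2
  haveI := toGL_range_normal (F := F) n
  have h3 := relIndex_dvd_of_normal (Cfsg.Geo.subfieldSubgroup F₀ (1 : GL (Fin n) F))
    (Matrix.SpecialLinearGroup.toGL : Matrix.SpecialLinearGroup (Fin n) F →* GL (Fin n) F).range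
  have hle : (Matrix.GeneralLinearGroup.map (F₀.subtype : F₀ →+* F) :
      GL (Fin n) F₀ →* GL (Fin n) F).range ≤
      Cfsg.Geo.subfieldSubgroup F₀ (1 : GL (Fin n) F) := by
    rintro _ ⟨g₀, rfl⟩
    exact S5966.mem_sub_of F₀ _ (g₀ : Matrix (Fin n) (Fin n) F₀)
      ((Matrix.isUnit_iff_isUnit_det _).mp g₀.isUnit).ne_zero 1 one_ne_zero
      (by rw [one_smul]; rfl)
  have h4 := Subgroup.index_dvd_of_le hle
  have h5 : 2 ∣ (Matrix.GeneralLinearGroup.map (F₀.subtype : F₀ →+* F) :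
      GL (Fin n) F₀ →* GL (Fin n) F).range.index := dvd_trans (dvd_trans h2 h3) h4
  have hinj : Function.Injective (Matrix.GeneralLinearGroup.map (F₀.subtype : F₀ →+* F) :
      GL (Fin n) F₀ →* GL (Fin n) F) := by
    intro a b hab
    apply Units.ext
    have h := congrArg Units.val hab
    exact Matrix.map_injective F₀.subtype.injective h
  have h6 := Subgroup.card_mul_index (Matrix.GeneralLinearGroup.map (F₀.subtype : F₀ →+* F) :
      GL (Fin n) F₀ →* GL (Fin n) F).range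
  rw [← Nat.card_congr (MonoidHom.ofInjective hinj).toEquiv] at h6
  letI : Fintype ↥F₀ := Fintype.ofFinite _
  rw [Matrix.card_GL_field, Matrix.card_GL_field] at h6
  have hc0 : Fintype.card ↥F₀ = q₀ := by rw [← Nat.card_eq_fintype_card, hF₀]
  rw [hc0, hqk] at h6
  obtain ⟨O, hO1, hO2⟩ := prod_odd q₀ k n hq₀odd hkodd
  rw [hO2] at h6
  have hpos : 0 < ∏ i : Fin n, (q₀ ^ n - q₀ ^ (i : ℕ)) := by
    rw [← hc0, ← Matrix.card_GL_field]; exact Nat.card_pos
  have h7 := Nat.eq_of_mul_eq_mul_left hpos h6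
  rw [h7] at h5
  omega

section gen
variable {F : Type*} [Field F]

theorem basis_det_ne {n : ℕ} (B : Basis (Fin n) F (Fin n → F)) :
    (Matrix.of (fun i j => B j i) : Matrix (Fin n) (Fin n) F).det ≠ 0 := by
  classical
  have h1 : (Matrix.of (fun i j => B j i) : Matrix (Fin n) (Fin n) F) =
      (Pi.basisFun F (Fin n)).toMatrix B := by
    ext i j; rw [Basis.toMatrix_apply, Pi.basisFun_repr]; rfl
  rw [h1, ← Basis.det_apply]
  exact (Basis.isUnit_det _ B).ne_zero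

theorem comm_of_comm {V : Type*} [AddCommGroup V] [Module F V] (C N f : Module.End F V) (lam : F)
    (hfN : f = lam • (1 + N)) (hCN : C ∘ₗ N = N ∘ₗ C) : C ∘ₗ f = f ∘ₗ C := by
  rw [hfN]
  apply LinearMap.ext; intro v
  have h1 := LinearMap.congr_fun hCN v
  simp only [LinearMap.comp_apply] at h1
  simp only [LinearMap.comp_apply, LinearMap.smul_apply, LinearMap.add_apply,
    Module.End.one_apply, map_smul, map_add, h1]

theorem conj_of_basis (n : ℕ) (hn : 2 ≤ n) (F₀ : Subfield F)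
    (x : Matrix.SpecialLinearGroup (Fin n) F) (lam : F) (hlam0 : lam ≠ 0)
    (B : Basis (Fin n) F (Fin n → F)) (M₀ : Matrix (Fin n) (Fin n) F₀)
    (hB : ∀ j, Matrix.toLin' (x : Matrix (Fin n) (Fin n) F) (B j) =
      lam • ∑ i, ((M₀ i j : F₀) : F) • B i)
    (hcomm : ∃ (C : Module.End F (Fin n → F)) (ε : F₀), ε ≠ 0 ∧
      C ∘ₗ Matrix.toLin' (x : Matrix (Fin n) (Fin n) F) =
        Matrix.toLin' (x : Matrix (Fin n) (Fin n) F) ∘ₗ C ∧
      LinearMap.det C * (Matrix.of (fun i j => B j i) : Matrix (Fin n) (Fin n) F).det *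
        (ε : F) = 1) :
    ∃ P : Matrix.SpecialLinearGroup (Fin n) F, P⁻¹ * x * P ∈
      ((Cfsg.Geo.subfieldSubgroup F₀ 1).comap
      (Matrix.SpecialLinearGroup.toGL : Matrix.SpecialLinearGroup (Fin n) F →* GL (Fin n) F)) := by
  classical
  obtain ⟨Xm, hX⟩ : ∃ Xm : Matrix (Fin n) (Fin n) F, Xm = (x : Matrix (Fin n) (Fin n) F) :=
    ⟨_, rfl⟩
  rw [← hX] at hB hcomm
  obtain ⟨MT, hMT⟩ : ∃ MT : Matrix (Fin n) (Fin n) F, MT = Matrix.of (fun i j => B j i) :=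
    ⟨_, rfl⟩
  rw [← hMT] at hcomm
  have hrel : Xm * MT = MT * (lam • M₀.map F₀.subtype) := by
    ext i j
    have h1 : (Xm * MT) i j = (Matrix.toLin' Xm (B j)) i := by
      rw [Matrix.toLin'_apply, Matrix.mul_apply, hMT]
      rfl
    rw [h1, hB j, Matrix.mul_apply]
    simp only [Pi.smul_apply, Finset.sum_apply, smul_eq_mul, Matrix.smul_apply,
      Matrix.map_apply, hMT, Matrix.of_apply]
    rw [Finset.mul_sum]
    apply Finset.sum_congr rfl
    intro k _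
    show lam * (((M₀ k j : F₀) : F) * B k i) = B k i * (lam * ((M₀ k j : F₀) : F))
    ring
  obtain ⟨C, ε, hε, hCf, hCdet⟩ := hcomm
  obtain ⟨Cm, hCm⟩ : ∃ Cm : Matrix (Fin n) (Fin n) F, Cm = LinearMap.toMatrix' C := ⟨_, rfl⟩
  have hCX : Cm * Xm = Xm * Cm := by
    have h1 := congrArg LinearMap.toMatrix' hCf
    rw [LinearMap.toMatrix'_comp, LinearMap.toMatrix'_comp, LinearMap.toMatrix'_toLin'] at h1
    rw [hCm]; exact h1
  have hCmdet : Cm.det = LinearMap.det C := by rw [hCm, LinearMap.det_toMatrix']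
  obtain ⟨i₀⟩ : Nonempty (Fin n) := ⟨⟨0, by omega⟩⟩
  obtain ⟨D₀, hD₀⟩ : ∃ D₀ : Matrix (Fin n) (Fin n) F₀,
      D₀ = Matrix.diagonal (fun i => if i = i₀ then ε else 1) := ⟨_, rfl⟩
  obtain ⟨D₀i, hD₀i⟩ : ∃ D₀i : Matrix (Fin n) (Fin n) F₀,
      D₀i = Matrix.diagonal (fun i => if i = i₀ then ε⁻¹ else 1) := ⟨_, rfl⟩
  have hDD : D₀ * D₀i = 1 := by
    rw [hD₀, hD₀i, Matrix.diagonal_mul_diagonal, ← Matrix.diagonal_one]
    congr 1
    funext i
    by_cases h : i = i₀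
    · rw [if_pos h, if_pos h, mul_inv_cancel₀ hε]
    · rw [if_neg h, if_neg h, one_mul]
  have hD₀det : D₀.det = ε := by
    rw [hD₀, Matrix.det_diagonal, Finset.prod_ite_eq' Finset.univ i₀ (fun _ => ε)]
    simp
  obtain ⟨Dm, hDm⟩ : ∃ Dm : Matrix (Fin n) (Fin n) F, Dm = D₀.map F₀.subtype := ⟨_, rfl⟩
  obtain ⟨Dim, hDim⟩ : ∃ Dim : Matrix (Fin n) (Fin n) F, Dim = D₀i.map F₀.subtype := ⟨_, rfl⟩
  have hDDm : Dm * Dim = 1 := by
    rw [hDm, hDim, ← Matrix.map_mul, hDD, Matrix.map_one _ (map_zero _) (map_one _)]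
  have hDmdet : Dm.det = (ε : F) := by
    rw [hDm, ← RingHom.mapMatrix_apply, ← RingHom.map_det, hD₀det]; rfl
  obtain ⟨H, hH⟩ : ∃ H : Matrix (Fin n) (Fin n) F, H = lam • M₀.map F₀.subtype := ⟨_, rfl⟩
  rw [← hH] at hrel
  have hH' : lam • (D₀i * M₀ * D₀).map F₀.subtype = Dim * H * Dm := by
    rw [Matrix.map_mul, Matrix.map_mul, hH, ← hDm, ← hDim, Matrix.mul_smul, Matrix.smul_mul]
  have hrel' : Xm * (Cm * MT * Dm) =
      (Cm * MT * Dm) * (lam • (D₀i * M₀ * D₀).map F₀.subtype) := by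
    rw [hH']
    calc Xm * (Cm * MT * Dm) = (Xm * Cm) * MT * Dm := by simp only [Matrix.mul_assoc]
      _ = (Cm * Xm) * MT * Dm := by rw [hCX]
      _ = Cm * (Xm * MT) * Dm := by simp only [Matrix.mul_assoc]
      _ = Cm * (MT * H) * Dm := by rw [hrel]
      _ = Cm * MT * (Dm * Dim) * H * Dm := by
          rw [hDDm]; simp only [Matrix.mul_assoc, Matrix.mul_one]
      _ = (Cm * MT * Dm) * (Dim * H * Dm) := by simp only [Matrix.mul_assoc]
  have hdet' : (Cm * MT * Dm).det = 1 := by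
    rw [Matrix.det_mul, Matrix.det_mul, hCmdet, hDmdet, hCdet]
  rw [hX] at hrel'
  exact S5966.subfield_final F₀ x _ _ lam hlam0 hdet' hrel'

theorem sqrt_char2 [Finite F] (h2 : (2 : F) = 0) (a : F) : ∃ b : F, b * b = a := by
  have hinj : Function.Injective (fun b : F => b * b) := by
    intro x y h
    have h' : x * x = y * y := h
    have h1 : (x - y) * (x - y) = x * x - y * y - 2 * (y * (x - y)) := by ring
    rw [h', h2, sub_self, zero_mul, sub_zero] at h1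
    exact sub_eq_zero.mp (mul_self_eq_zero.mp h1)
  exact (Finite.injective_iff_surjective.mp hinj) a

theorem even_main [Fintype F] (h2 : (2 : F) = 0) (n : ℕ) (hn : 2 ≤ n) (F₀ : Subfield F)
    (x : Matrix.SpecialLinearGroup (Fin n) F)
    (hx2 : ∃ z : F, ((x ^ 2 : Matrix.SpecialLinearGroup (Fin n) F) : Matrix (Fin n) (Fin n) F) =
      z • (1 : Matrix (Fin n) (Fin n) F))
    (hxns : ∀ z : F, (x : Matrix (Fin n) (Fin n) F) ≠ z • (1 : Matrix (Fin n) (Fin n) F)) :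
    ∃ P : Matrix.SpecialLinearGroup (Fin n) F, P⁻¹ * x * P ∈
      ((Cfsg.Geo.subfieldSubgroup F₀ 1).comap
      (Matrix.SpecialLinearGroup.toGL : Matrix.SpecialLinearGroup (Fin n) F →* GL (Fin n) F)) := by
  classical
  obtain ⟨z, hz⟩ := hx2
  obtain ⟨Xm, hX⟩ : ∃ Xm : Matrix (Fin n) (Fin n) F, Xm = (x : Matrix (Fin n) (Fin n) F) :=
    ⟨_, rfl⟩
  have hX2 : Xm * Xm = z • (1 : Matrix (Fin n) (Fin n) F) := by
    rw [hX, ← hz, pow_two]; rfl
  have hdetX : Xm.det = 1 := by rw [hX]; exact x.det_coe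
  have hz0 : z ≠ 0 := by
    intro h
    have h1 := congrArg Matrix.det hX2
    haveI : Nonempty (Fin n) := ⟨⟨0, by omega⟩⟩
    rw [Matrix.det_mul, hdetX, h, zero_smul, Matrix.det_zero] at h1
    simp at h1
  obtain ⟨lam, hlam⟩ := sqrt_char2 h2 z
  have hlam0 : lam ≠ 0 := by
    intro h; rw [h] at hlam; simp at hlam; exact hz0 hlam.symm
  obtain ⟨f, hf⟩ : ∃ f : Module.End F (Fin n → F), f = Matrix.toLin' Xm := ⟨_, rfl⟩
  have hf2 : f * f = z • (1 : Module.End F (Fin n → F)) := by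
    rw [hf, Module.End.mul_eq_comp, ← Matrix.toLin'_mul, hX2, map_smul, Matrix.toLin'_one]; rfl
  obtain ⟨A, hA⟩ : ∃ A : Module.End F (Fin n → F), A = lam⁻¹ • f := ⟨_, rfl⟩
  obtain ⟨N, hNdef⟩ : ∃ N : Module.End F (Fin n → F), N = A - 1 := ⟨_, rfl⟩
  have hfN : f = lam • (1 + N) := by
    rw [hNdef, add_sub_cancel, hA, smul_smul, mul_inv_cancel₀ hlam0, one_smul]
  have hA2 : A * A = 1 := by
    rw [hA, smul_mul_smul_comm, hf2, smul_smul, ← hlam]
    have : lam⁻¹ * lam⁻¹ * (lam * lam) = 1 := by field_simp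
    rw [this, one_smul]
  have hN2 : N ^ 2 = 0 := by
    have h4 : N ^ 2 = A * A - 1 - ((A - 1) + (A - 1)) := by
      rw [hNdef, pow_two]
      simp only [sub_mul, mul_sub, one_mul, mul_one]
      abel
    have h5 : ∀ Y : Module.End F (Fin n → F), Y + Y = 0 := by
      intro Y
      have : Y + Y = (2 : F) • Y := by module
      rw [this, h2, zero_smul]
    rw [h4, hA2, h5, sub_self, sub_zero]
  have hN0 : N ≠ 0 := by
    intro h
    rw [h, add_zero] at hfN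
    apply hxns lam
    rw [← hX]
    have h2' := congrArg LinearMap.toMatrix' hfN
    rw [hf, LinearMap.toMatrix'_toLin', map_smul] at h2'
    rw [h2', LinearMap.toMatrix'_one]
  obtain ⟨B, σ, hB⟩ := S5966.jordan_fin N ⟨2, hN2⟩ n (by simp)
  obtain ⟨M₀, hM₀⟩ : ∃ M₀ : Matrix (Fin n) (Fin n) F₀, M₀ = Matrix.of (fun i j =>
      (if i = j then (1 : F₀) else 0) + (if σ j = some i then (1 : F₀) else 0)) := ⟨_, rfl⟩
  have hBf : ∀ j, Matrix.toLin' (x : Matrix (Fin n) (Fin n) F) (B j) =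
      lam • ∑ i, ((M₀ i j : F₀) : F) • B i := by
    intro j
    rw [← hX, ← hf, hfN]
    simp only [LinearMap.smul_apply, LinearMap.add_apply, Module.End.one_apply]
    rw [hB j]
    congr 1
    have hcoe : ∀ (p : Prop) [Decidable p],
        (((if p then (1 : F₀) else 0 : F₀)) : F) = if p then 1 else 0 := by
      intro p _; split_ifs <;> simp
    rw [hM₀]
    simp only [Matrix.of_apply]
    cases hσ : σ j with
    | none => simp [hcoe, add_smul, Finset.sum_add_distrib]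
    | some k₀ => simp [hcoe, add_smul, Finset.sum_add_distrib]
  have hδ := basis_det_ne B
  have hCex : ∃ C : Module.End F (Fin n → F), C ∘ₗ N = N ∘ₗ C ∧
      LinearMap.det C * (Matrix.of (fun i j => B j i) : Matrix (Fin n) (Fin n) F).det = 1 := by
    by_cases hex : ∃ w, N w = 0 ∧ w ∉ LinearMap.range N
    · obtain ⟨w, hw, hwr⟩ := hex
      obtain ⟨Z, V'', hc, hZ, hV'', hfr⟩ := S5966.split1 N w hw hwr
      obtain ⟨C, hCdet, hCN⟩ := S5966.scale_sub N Z V'' hc hZ hV''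
        (Matrix.of (fun i j => B j i) : Matrix (Fin n) (Fin n) F).det⁻¹
      refine ⟨C, hCN, ?_⟩
      rw [hCdet, hfr, pow_one, inv_mul_cancel₀ hδ]
    · obtain ⟨v, hv⟩ : ∃ v, N v ≠ 0 := by
        by_contra hcon
        push Not at hcon
        exact hN0 (LinearMap.ext hcon)
      obtain ⟨V', hV'inv, hcompl, hli⟩ := S5966.split N 2 (by norm_num) hN2 v (by simpa using hv)
      obtain ⟨c, hc⟩ := sqrt_char2 h2
        (Matrix.of (fun i j => B j i) : Matrix (Fin n) (Fin n) F).det⁻¹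
      obtain ⟨C, hCdet, hCN⟩ := S5966.scale_sub N _ V' hcompl (S5966.span_inv N 2 hN2 v) hV'inv c
      refine ⟨C, hCN, ?_⟩
      rw [hCdet, finrank_span_eq_card hli, Fintype.card_fin, pow_two, hc, inv_mul_cancel₀ hδ]
  obtain ⟨C, hCN, hCdet⟩ := hCex
  have hCf : C ∘ₗ Matrix.toLin' (x : Matrix (Fin n) (Fin n) F) =
      Matrix.toLin' (x : Matrix (Fin n) (Fin n) F) ∘ₗ C := by
    rw [← hX, ← hf]; exact comm_of_comm C N f lam hfN hCN
  exact conj_of_basis n hn F₀ x lam hlam0 B M₀ hBf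
    ⟨C, 1, one_ne_zero, hCf, by rw [hCdet]; simp⟩

end gen

section oddq
variable {F : Type*} [Field F] [Fintype F]

theorem val_two (N : ℕ) (hN : N ≠ 0) : ∃ m, m % 2 = 1 ∧ N = 2 ^ (padicValNat 2 N) * m := by
  obtain ⟨k, m, hm, rfl⟩ := Nat.exists_eq_two_pow_mul_odd hN
  have hm0 : m ≠ 0 := by
    rintro rfl; simp at hm
  refine ⟨m, Nat.odd_iff.mp hm, ?_⟩
  have h2 : padicValNat 2 (2 ^ k * m) = k := by
    rw [padicValNat.mul (pow_ne_zero _ (by norm_num)) hm0, padicValNat.prime_pow,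
      padicValNat.eq_zero_of_not_dvd (by rw [Nat.two_dvd_ne_zero]; exact Nat.odd_iff.mp hm),
      add_zero]
  rw [h2]

theorem char_ne_two' (h2 : (2 : F) ≠ 0) : ringChar F ≠ 2 := by
  intro h
  have h1 := CharP.cast_eq_zero F (ringChar F)
  rw [h] at h1
  exact h2 (by exact_mod_cast h1)

theorem half_even (hF2 : ringChar F ≠ 2) (q₀ : ℕ) (hqk : Fintype.card F = q₀ ^ 2) :
    ∃ b, q₀ = 2 * b + 1 ∧ Fintype.card F / 2 = 2 * (b * (b + 1)) := by
  have hqodd : Fintype.card F % 2 = 1 := FiniteField.odd_card_of_char_ne_two hF2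
  have hq₀odd : q₀ % 2 = 1 := by
    rw [hqk] at hqodd
    by_contra hcon
    have h0 : q₀ % 2 = 0 := by omega
    have : (q₀ ^ 2) % 2 = 0 := by
      rw [Nat.pow_mod, h0]
    omega
  obtain ⟨b, hb⟩ : ∃ b, q₀ = 2 * b + 1 := ⟨q₀ / 2, by omega⟩
  refine ⟨b, hb, ?_⟩
  rw [hqk, hb]
  have : (2 * b + 1) ^ 2 = 2 * (2 * (b * (b + 1))) + 1 := by ring
  omega

theorem sub_is_sq' (hF2 : ringChar F ≠ 2) (F₀ : Subfield F) (q₀ : ℕ) (hF₀ : Nat.card ↥F₀ = q₀)
    (hqk : Fintype.card F = q₀ ^ 2) (e : F₀) (he : e ≠ 0) : IsSquare (e : F) := by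
  classical
  letI : Fintype ↥F₀ := Fintype.ofFinite _
  have hcard0 : Fintype.card ↥F₀ = q₀ := by rw [← Nat.card_eq_fintype_card, hF₀]
  obtain ⟨b, hb, hhalf⟩ := half_even hF2 q₀ hqk
  have hne : (e : F) ≠ 0 := by
    intro h
    exact he (Subtype.ext h)
  rw [FiniteField.isSquare_iff hF2 hne]
  have h1 : e ^ (q₀ - 1) = 1 := by
    have := FiniteField.pow_card_sub_one_eq_one e he
    rw [hcard0] at this; exact this
  have h2 : (e : F) ^ (q₀ - 1) = 1 := by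
    have := congrArg Subtype.val h1
    simpa using this
  have hhalf' : Fintype.card F / 2 = (q₀ - 1) * (b + 1) := by
    rw [hhalf, hb]
    have h3 : 2 * b + 1 - 1 = 2 * b := by omega
    rw [h3]; ring
  rw [hhalf', pow_mul, h2, one_pow]

theorem nonsq_pow (hF2 : ringChar F ≠ 2) (z : F) (hz0 : z ≠ 0) (hns : ¬ IsSquare z) :
    z ^ (Fintype.card F / 2) = -1 := by
  rcases FiniteField.pow_dichotomy hF2 hz0 with h | h
  · exact absurd ((FiniteField.isSquare_iff hF2 hz0).mpr h) hns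
  · exact h

theorem two_adic_contra (h2 : (2 : F) ≠ 0) (q₀ : ℕ) (hqk : Fintype.card F = q₀ ^ 2)
    (n k' : ℕ) (hn : n = 2 * k') (hn0 : n ≠ 0)
    (hval : padicValNat 2 n ≤ padicValNat 2 (Fintype.card F - 1)) (z : F) (hz0 : z ≠ 0)
    (hns : ¬ IsSquare z) (hpow : (-z) ^ k' = 1) : False := by
  have hF2 := char_ne_two' h2
  have hqodd : Fintype.card F % 2 = 1 := FiniteField.odd_card_of_char_ne_two hF2
  obtain ⟨b, hb, hhalf⟩ := half_even hF2 q₀ hqk
  have hzh := nonsq_pow hF2 z hz0 hns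
  have hnegz : (-z) ^ (Fintype.card F / 2) = -1 := by
    rw [neg_pow, hzh, hhalf, Even.neg_one_pow ⟨b * (b + 1), by ring⟩, one_mul]
  have hcard2 : 1 < Fintype.card F := Fintype.one_lt_card
  obtain ⟨n', hn'odd, hn'⟩ := val_two n hn0
  obtain ⟨u, huodd, hu⟩ := val_two (Fintype.card F - 1) (by omega)
  obtain ⟨a, ha⟩ : ∃ a, a = padicValNat 2 n := ⟨_, rfl⟩
  obtain ⟨v, hv⟩ : ∃ v, v = padicValNat 2 (Fintype.card F - 1) := ⟨_, rfl⟩
  rw [← ha] at hn' hval
  rw [← hv] at hu hval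
  have ha1 : 1 ≤ a := by
    by_contra hcon
    have h0 : a = 0 := by omega
    rw [h0, pow_zero, one_mul] at hn'
    omega
  obtain ⟨a', rfl⟩ : ∃ a', a = a' + 1 := ⟨a - 1, by omega⟩
  obtain ⟨w, rfl⟩ : ∃ w, v = a' + 1 + w := ⟨v - (a' + 1), by omega⟩
  have hk' : k' = 2 ^ a' * n' := by
    have h3 : 2 * k' = 2 * (2 ^ a' * n') := by rw [← hn, hn']; ring
    exact Nat.eq_of_mul_eq_mul_left (by norm_num) h3
  have hh : Fintype.card F / 2 = 2 ^ (a' + w) * u := by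
    have h3 : 2 * (Fintype.card F / 2) = 2 * (2 ^ (a' + w) * u) := by
      have h4 : 2 * (Fintype.card F / 2) = Fintype.card F - 1 := by omega
      rw [h4, hu]; ring
    exact Nat.eq_of_mul_eq_mul_left (by norm_num) h3
  have h5 : k' * (2 ^ w * u) = (Fintype.card F / 2) * n' := by
    rw [hk', hh]; ring
  have h6 : ((-z) ^ k') ^ (2 ^ w * u) = -1 := by
    rw [← pow_mul, h5, pow_mul, hnegz]
    exact Odd.neg_one_pow (Nat.odd_iff.mpr hn'odd)
  rw [hpow, one_pow] at h6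
  apply h2
  have h7 : (2 : F) = 1 - (-1) := by ring
  rw [h7, ← h6, sub_self]

theorem odd_main (hqodd : Odd (Fintype.card F)) (n : ℕ) (hn : 2 ≤ n) (F₀ : Subfield F) (q₀ : ℕ)
    (hqk : Fintype.card F = q₀ ^ 2)
    (hval : padicValNat 2 n ≤ padicValNat 2 (Fintype.card F - 1))
    (x : Matrix.SpecialLinearGroup (Fin n) F)
    (hx2 : ∃ z : F, ((x ^ 2 : Matrix.SpecialLinearGroup (Fin n) F) : Matrix (Fin n) (Fin n) F) =
      z • (1 : Matrix (Fin n) (Fin n) F))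
    (hxns : ∀ z : F, (x : Matrix (Fin n) (Fin n) F) ≠ z • (1 : Matrix (Fin n) (Fin n) F)) :
    ∃ P : Matrix.SpecialLinearGroup (Fin n) F, P⁻¹ * x * P ∈
      ((Cfsg.Geo.subfieldSubgroup F₀ 1).comap
      (Matrix.SpecialLinearGroup.toGL : Matrix.SpecialLinearGroup (Fin n) F →* GL (Fin n) F)) := by
  classical
  have h2 : (2 : F) ≠ 0 := S5969.two_ne_zero_of_odd hqodd
  obtain ⟨z, hz⟩ := hx2
  obtain ⟨Xm, hX⟩ : ∃ Xm : Matrix (Fin n) (Fin n) F, Xm = (x : Matrix (Fin n) (Fin n) F) :=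
    ⟨_, rfl⟩
  have hX2 : Xm * Xm = z • (1 : Matrix (Fin n) (Fin n) F) := by
    rw [hX, ← hz, pow_two]; rfl
  have hdetX : Xm.det = 1 := by rw [hX]; exact x.det_coe
  have hz0 : z ≠ 0 := by
    intro h
    have h1 := congrArg Matrix.det hX2
    haveI : Nonempty (Fin n) := ⟨⟨0, by omega⟩⟩
    rw [Matrix.det_mul, hdetX, h, zero_smul, Matrix.det_zero] at h1
    simp at h1
  have hzsq : IsSquare z := by
    by_contra hns
    have hirr : Irreducible (Polynomial.X ^ 2 - Polynomial.C z : F[X]) :=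
      X_pow_sub_C_irreducible_of_prime Nat.prime_two (fun b hb => hns ⟨b, by rw [← hb]; ring⟩)
    obtain ⟨k', hk1, hk2⟩ := S5949.charpoly_eq Xm 2 (by norm_num) z hirr (by rw [pow_two, hX2])
    rw [Fintype.card_fin] at hk1 hk2
    rw [hdetX, hk1, pow_mul] at hk2
    simp at hk2
    exact two_adic_contra h2 q₀ hqk n k' hk1 (by omega) hval z hz0 hns hk2.symm
  obtain ⟨lam, hlam⟩ := hzsq
  have hlam0 : lam ≠ 0 := by
    intro h; rw [h] at hlam; simp at hlam; exact hz0 hlam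
  obtain ⟨f, hf⟩ : ∃ f : Module.End F (Fin n → F), f = Matrix.toLin' Xm := ⟨_, rfl⟩
  have hf2 : f * f = z • (1 : Module.End F (Fin n → F)) := by
    rw [hf, Module.End.mul_eq_comp, ← Matrix.toLin'_mul, hX2, map_smul, Matrix.toLin'_one]; rfl
  obtain ⟨y, hy⟩ : ∃ y : Module.End F (Fin n → F), y = lam⁻¹ • f := ⟨_, rfl⟩
  have hfy : f = lam • y := by
    rw [hy, smul_smul, mul_inv_cancel₀ hlam0, one_smul]
  have hy2 : y ^ 2 = 1 := by
    rw [pow_two, hy, smul_mul_smul_comm, hf2, smul_smul, hlam]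
    have : lam⁻¹ * lam⁻¹ * (lam * lam) = 1 := by field_simp
    rw [this, one_smul]
  obtain ⟨B', hB'⟩ := S5969.inv_basis_gen y h2 hy2
    (ι₁ := Fin (finrank F (S5949.Dg y 2))) (ι₂ := Fin (finrank F (S5949.Cg y)))
    (by simp) (by simp)
  have hcard : Fintype.card (Fin (finrank F (S5949.Dg y 2)) ⊕ Fin (finrank F (S5949.Cg y))) = n := by
    rw [← Module.finrank_eq_card_basis B']; simp
  obtain ⟨e⟩ : Nonempty (Fin (finrank F (S5949.Dg y 2)) ⊕ Fin (finrank F (S5949.Cg y)) ≃ Fin n) :=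
    ⟨Fintype.equivFinOfCardEq hcard⟩
  obtain ⟨B, hBdef⟩ : ∃ B : Basis (Fin n) F (Fin n → F), B = B'.reindex e := ⟨_, rfl⟩
  obtain ⟨s, hs⟩ : ∃ s : Fin n → F₀, s = fun j =>
      Sum.elim (fun _ => (-1 : F₀)) (fun _ => 1) (e.symm j) := ⟨_, rfl⟩
  have hfB : ∀ j, f (B j) = (lam * ((s j : F₀) : F)) • B j := by
    intro j
    rw [hfy, LinearMap.smul_apply, hBdef, Basis.reindex_apply, hB', smul_smul, hs]
    congr 2
    rcases hej : e.symm j with a | b <;> simp [hej]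
  have hBf : ∀ j, Matrix.toLin' (x : Matrix (Fin n) (Fin n) F) (B j) =
      lam • ∑ i, (((Matrix.diagonal s : Matrix (Fin n) (Fin n) F₀) i j : F₀) : F) • B i := by
    intro j
    rw [← hX, ← hf, hfB j, Finset.sum_eq_single j]
    · rw [Matrix.diagonal_apply_eq, smul_smul]
    · intro i _ hij
      rw [Matrix.diagonal_apply_ne _ hij]; simp
    · intro h; exact absurd (Finset.mem_univ j) h
  have hδ := basis_det_ne B
  obtain ⟨j₀⟩ : Nonempty (Fin n) := ⟨⟨0, by omega⟩⟩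
  obtain ⟨d, hd⟩ : ∃ d : Fin n → F, d = fun j => if j = j₀ then
      (Matrix.of (fun i j => B j i) : Matrix (Fin n) (Fin n) F).det⁻¹ else 1 := ⟨_, rfl⟩
  obtain ⟨C, hC⟩ : ∃ C : Module.End F (Fin n → F), C = Matrix.toLin B B (Matrix.diagonal d) :=
    ⟨_, rfl⟩
  have hCB : ∀ j, C (B j) = d j • B j := by intro j; rw [hC, S5971.diag_toLin]
  have hCf : C ∘ₗ Matrix.toLin' (x : Matrix (Fin n) (Fin n) F) =
      Matrix.toLin' (x : Matrix (Fin n) (Fin n) F) ∘ₗ C := by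
    rw [← hX, ← hf]
    apply B.ext; intro j
    simp only [LinearMap.comp_apply]
    rw [hfB j, map_smul, hCB j, map_smul, hfB j, smul_comm]
  have hCdet : LinearMap.det C = (Matrix.of (fun i j => B j i) : Matrix (Fin n) (Fin n) F).det⁻¹ := by
    rw [hC, LinearMap.det_toLin, Matrix.det_diagonal, hd,
      Finset.prod_ite_eq' Finset.univ j₀ (fun _ => _)]
    simp
  exact conj_of_basis n hn F₀ x lam hlam0 B (Matrix.diagonal s) hBf
    ⟨C, 1, one_ne_zero, hCf, by rw [hCdet, inv_mul_cancel₀ hδ]; simp⟩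

end oddq

theorem deranged {F : Type*} [Field F] [Fintype F] (h2 : (2 : F) ≠ 0) (m : ℕ) (hm : 1 ≤ m)
    (F₀ : Subfield F) (q₀ : ℕ) (hF₀ : Nat.card ↥F₀ = q₀) (hqk : Fintype.card F = q₀ ^ 2)
    (hval : padicValNat 2 (Fintype.card F - 1) < padicValNat 2 (m + m)) :
    ∃ x : Matrix.SpecialLinearGroup (Fin (m + m)) F,
      (∃ z : F, ((x ^ 2 : Matrix.SpecialLinearGroup (Fin (m + m)) F) :
        Matrix (Fin (m + m)) (Fin (m + m)) F) = z • (1 : Matrix (Fin (m + m)) (Fin (m + m)) F)) ∧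
      (∀ z : F, (x : Matrix (Fin (m + m)) (Fin (m + m)) F) ≠
        z • (1 : Matrix (Fin (m + m)) (Fin (m + m)) F)) ∧
      ∀ P : Matrix.SpecialLinearGroup (Fin (m + m)) F, P⁻¹ * x * P ∉
        ((Cfsg.Geo.subfieldSubgroup F₀ 1).comap
        (Matrix.SpecialLinearGroup.toGL :
          Matrix.SpecialLinearGroup (Fin (m + m)) F →* GL (Fin (m + m)) F)) := by
  classical
  have hF2 := char_ne_two' h2
  have hqodd : Fintype.card F % 2 = 1 := FiniteField.odd_card_of_char_ne_two hF2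
  obtain ⟨b, hb, hhalf⟩ := half_even hF2 q₀ hqk
  obtain ⟨ν, hν⟩ := FiniteField.exists_nonsquare hF2
  have hν0 : ν ≠ 0 := by
    intro h; apply hν; rw [h]; exact ⟨0, by simp⟩
  have hνh := nonsq_pow hF2 ν hν0 hν
  have hcard2 : 1 < Fintype.card F := Fintype.one_lt_card
  obtain ⟨u, huodd, hu⟩ := val_two (Fintype.card F - 1) (by omega)
  obtain ⟨m', hm'odd, hm'⟩ := val_two (m + m) (by omega)
  obtain ⟨v, hv⟩ : ∃ v, v = padicValNat 2 (Fintype.card F - 1) := ⟨_, rfl⟩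
  obtain ⟨a, ha⟩ : ∃ a, a = padicValNat 2 (m + m) := ⟨_, rfl⟩
  rw [← hv] at hu hval
  rw [← ha] at hm' hval
  obtain ⟨w, rfl⟩ : ∃ w, a = v + 1 + w := ⟨a - (v + 1), by omega⟩
  have hm2 : m = 2 ^ v * (2 ^ w * m') := by
    have h3 : 2 * m = 2 * (2 ^ v * (2 ^ w * m')) := by
      have h4 : 2 * m = m + m := by ring
      rw [h4, hm']; ring
    exact Nat.eq_of_mul_eq_mul_left (by norm_num) h3
  obtain ⟨z, hzdef⟩ : ∃ z : F, z = -(ν ^ u) := ⟨_, rfl⟩
  have hz0 : z ≠ 0 := by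
    rw [hzdef]; exact neg_ne_zero.mpr (pow_ne_zero _ hν0)
  have hzm : (-z) ^ m = 1 := by
    rw [hzdef, neg_neg, ← pow_mul, hm2]
    have h3 : u * (2 ^ v * (2 ^ w * m')) = (Fintype.card F - 1) * (2 ^ w * m') := by
      rw [hu]; ring
    rw [h3, pow_mul, FiniteField.pow_card_sub_one_eq_one ν hν0, one_pow]
  have hzns : ¬ IsSquare z := by
    intro hsq
    have h3 := (FiniteField.isSquare_iff hF2 hz0).mp hsq
    rw [hzdef, neg_pow, ← pow_mul, mul_comm u, pow_mul, hνh, hhalf,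
      Even.neg_one_pow ⟨b * (b + 1), by ring⟩, one_mul,
      Odd.neg_one_pow (Nat.odd_iff.mpr huodd)] at h3
    apply h2
    have h7 : (2 : F) = 1 - (-1) := by ring
    rw [h7, h3, sub_self]
  obtain ⟨Y, hY⟩ : ∃ Y : Matrix (Fin m ⊕ Fin m) (Fin m ⊕ Fin m) F,
      Y = Matrix.fromBlocks 1 ((z - 1) • 1) 1 (-1) := ⟨_, rfl⟩
  have hYY : Y * Y = z • 1 := by
    have h11 : (1 : Matrix (Fin m) (Fin m) F) * 1 + ((z - 1) • (1 : Matrix (Fin m) (Fin m) F)) * 1
        = z • 1 := by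
      rw [Matrix.mul_one, Matrix.mul_one, sub_smul, one_smul]; abel
    have h12 : (1 : Matrix (Fin m) (Fin m) F) * ((z - 1) • (1 : Matrix (Fin m) (Fin m) F)) +
        ((z - 1) • (1 : Matrix (Fin m) (Fin m) F)) * (-1) = 0 := by
      rw [Matrix.one_mul, Matrix.mul_neg, Matrix.mul_one]; abel
    have h21 : (1 : Matrix (Fin m) (Fin m) F) * 1 + (-1 : Matrix (Fin m) (Fin m) F) * 1 = 0 := by
      rw [Matrix.mul_one, Matrix.mul_one]; abel
    have h22 : (1 : Matrix (Fin m) (Fin m) F) * ((z - 1) • (1 : Matrix (Fin m) (Fin m) F)) +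
        (-1 : Matrix (Fin m) (Fin m) F) * (-1) = z • 1 := by
      rw [Matrix.one_mul, Matrix.mul_neg, Matrix.mul_one, neg_neg, sub_smul, one_smul]; abel
    rw [hY, Matrix.fromBlocks_multiply, h11, h12, h21, h22, ← Matrix.fromBlocks_one,
      Matrix.fromBlocks_smul, smul_zero]
  have hYdet : Y.det = 1 := by
    rw [hY, Matrix.det_fromBlocks_one₁₁]
    have h3 : (-1 : Matrix (Fin m) (Fin m) F) - 1 * ((z - 1) • (1 : Matrix (Fin m) (Fin m) F)) =
        (-z) • 1 := by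
      rw [Matrix.one_mul, sub_smul, one_smul, neg_smul]; abel
    rw [h3, Matrix.det_smul, Matrix.det_one, mul_one, Fintype.card_fin, hzm]
  obtain ⟨i₀⟩ : Nonempty (Fin m) := ⟨⟨0, by omega⟩⟩
  obtain ⟨e, he⟩ : ∃ e : Fin (m + m) ≃ Fin m ⊕ Fin m, e = finSumFinEquiv.symm := ⟨_, rfl⟩
  obtain ⟨Xm, hX⟩ : ∃ Xm : Matrix (Fin (m + m)) (Fin (m + m)) F, Xm = Y.submatrix e e :=
    ⟨_, rfl⟩
  have hXdet : Xm.det = 1 := by rw [hX, Matrix.det_submatrix_equiv_self, hYdet]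
  have hX2 : Xm * Xm = z • 1 := by
    rw [hX, Matrix.submatrix_mul_equiv, hYY]
    ext i j
    simp [Matrix.one_apply]
  obtain ⟨x, hx⟩ : ∃ x : Matrix.SpecialLinearGroup (Fin (m + m)) F,
      (x : Matrix (Fin (m + m)) (Fin (m + m)) F) = Xm := ⟨⟨Xm, hXdet⟩, rfl⟩
  refine ⟨x, ⟨z, ?_⟩, ?_, ?_⟩
  · rw [pow_two, Matrix.SpecialLinearGroup.coe_mul, hx]
    exact hX2
  · intro z' hz'
    rw [hx] at hz'
    have h1 := congrFun (congrFun hz' (e.symm (Sum.inr i₀))) (e.symm (Sum.inl i₀))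
    rw [hX, Matrix.submatrix_apply, Equiv.apply_symm_apply, Equiv.apply_symm_apply, hY] at h1
    have hne : e.symm (Sum.inr i₀) ≠ e.symm (Sum.inl i₀) := e.symm.injective.ne Sum.inr_ne_inl
    simp [Matrix.one_apply_ne hne] at h1
  · intro P hP
    rw [Subgroup.mem_comap] at hP
    obtain ⟨M₀, c, hMc⟩ := S5966.of_mem_sub F₀ _ hP
    obtain ⟨Pm, hPm⟩ : ∃ Pm : Matrix (Fin (m + m)) (Fin (m + m)) F,
        Pm = (P : Matrix (Fin (m + m)) (Fin (m + m)) F) := ⟨_, rfl⟩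
    obtain ⟨Pim, hPim⟩ : ∃ Pim : Matrix (Fin (m + m)) (Fin (m + m)) F,
        Pim = ((P⁻¹ : Matrix.SpecialLinearGroup (Fin (m + m)) F) :
          Matrix (Fin (m + m)) (Fin (m + m)) F) := ⟨_, rfl⟩
    have hPiP : Pim * Pm = 1 := by
      rw [hPim, hPm, ← Matrix.SpecialLinearGroup.coe_mul, inv_mul_cancel,
        Matrix.SpecialLinearGroup.coe_one]
    have hPPi : Pm * Pim = 1 := by
      rw [hPim, hPm, ← Matrix.SpecialLinearGroup.coe_mul, mul_inv_cancel,
        Matrix.SpecialLinearGroup.coe_one]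
    obtain ⟨Mm, hMm⟩ : ∃ Mm : Matrix (Fin (m + m)) (Fin (m + m)) F,
        Mm = M₀.map F₀.subtype := ⟨_, rfl⟩
    have hconj : Pim * Xm * Pm = c • Mm := by
      rw [hMm, ← hMc, hPim, hPm, ← hx]; rfl
    have hsq : (c • Mm) * (c • Mm) = z • 1 := by
      rw [← hconj]
      calc Pim * Xm * Pm * (Pim * Xm * Pm)
          = Pim * (Xm * (Pm * Pim) * Xm) * Pm := by simp only [Matrix.mul_assoc]
        _ = Pim * (Xm * Xm) * Pm := by rw [hPPi, Matrix.mul_one]
        _ = z • 1 := by rw [hX2, Matrix.mul_smul, Matrix.smul_mul, Matrix.mul_one, hPiP]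
    obtain ⟨j₀⟩ : Nonempty (Fin (m + m)) := ⟨⟨0, by omega⟩⟩
    obtain ⟨T, hT⟩ : ∃ T : Matrix (Fin (m + m)) (Fin (m + m)) F₀, T = M₀ * M₀ := ⟨_, rfl⟩
    have hsq2 : (c * c) * ((T j₀ j₀ : F₀) : F) = z := by
      have h0 : (c • Mm) * (c • Mm) = (c * c) • T.map F₀.subtype := by
        rw [hT, Matrix.map_mul, ← hMm]
        simp only [Matrix.smul_mul, Matrix.mul_smul, smul_smul]
      rw [h0] at hsq
      have h1 := congrFun (congrFun hsq j₀) j₀
      simpa using h1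
    obtain ⟨t, ht⟩ : ∃ t : F₀, t = T j₀ j₀ := ⟨_, rfl⟩
    rw [← ht] at hsq2
    have ht0 : t ≠ 0 := by
      intro h; rw [h] at hsq2; simp at hsq2; exact hz0 hsq2.symm
    obtain ⟨r, hr⟩ := sub_is_sq' hF2 F₀ q₀ hF₀ hqk t ht0
    apply hzns
    refine ⟨c * r, ?_⟩
    rw [← hsq2, hr]; ring

/-- Involutions of PSL_n(q) and subfield subgroups. Here `T = PSL_n(F)` for a field `F` with `q = p^f` elements (`n ≥ 2`, `(n, q) ≠ (2, 2), (2, 3)`), `F₀` is the subfield with `q₀` elements where `q = q₀^k` for a prime `k`, and `H` is the subgroup of matrices of determinant 1 lying in the subfield group of `F₀` (invertible matrices over `F₀` times scalars) — a maximal subgroup of type GL_n(q₀) (the case `n = 2`, `q₀ = 2` is excluded); Ω is the set of `T`-conjugates of `H` (cosets of `H`), so an element of `T` of prime order `r` (a matrix `x` of determinant 1 with `x^r` scalar, `x` not scalar) fixes a point of Ω when some conjugate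 of `x` by a matrix of determinant 1 lies in `H`. Suppose the index of `H` is even. Then every involution of `T` is conjugate in `T` into `H` if and only if either `q` is even, or `k = 2` and `(n)_2 ≤ (q − 1)_2`. (For `q` odd and `k` odd the index of `H` is odd, so that case does not arise.) -/
theorem result {F : Type*} [Field F] [Fintype F] {p : ℕ} [Fact p.Prime] [CharP F p] {q : ℕ} (hq : Fintype.card F = q)
    (n : ℕ) (hn : 2 ≤ n) (hT : (n, q) ≠ (2, 2) ∧ (n, q) ≠ (2, 3))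
    (F₀ : Subfield F) (k q₀ : ℕ) (hk : k.Prime) (hF₀ : Nat.card ↥F₀ = q₀) (hqk : q = q₀ ^ k) (hC5 : ¬ (n = 2 ∧ q₀ = 2)) (hΩ : 2 ∣ ((Cfsg.Geo.subfieldSubgroup F₀ 1).comap (Matrix.SpecialLinearGroup.toGL : Matrix.SpecialLinearGroup (Fin n) F →* GL (Fin n) F)).index) :
    (∀ x : Matrix.SpecialLinearGroup (Fin n) F,
      (∃ z : F, ((x ^ 2 : Matrix.SpecialLinearGroup (Fin n) F) : Matrix (Fin n) (Fin n) F) = z • (1 : Matrix (Fin n) (Fin n) F)) →
      (∀ z : F, (x : Matrix (Fin n) (Fin n) F) ≠ z • (1 : Matrix (Fin n) (Fin n) F)) →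
      ∃ P : Matrix.SpecialLinearGroup (Fin n) F, P⁻¹ * x * P ∈ ((Cfsg.Geo.subfieldSubgroup F₀ 1).comap (Matrix.SpecialLinearGroup.toGL : Matrix.SpecialLinearGroup (Fin n) F →* GL (Fin n) F))) ↔
    (Odd q → (k = 2 ∧ padicValNat 2 n ≤ padicValNat 2 (q - 1))) := by
  subst hq
  classical
  by_cases hqodd : Odd (Fintype.card F)
  · have h2 : (2 : F) ≠ 0 := S5969.two_ne_zero_of_odd hqodd
    have hq₀odd : q₀ % 2 = 1 := by
      have h1 := Nat.odd_iff.mp hqodd
      rw [hqk] at h1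
      by_contra hcon
      have h0 : q₀ % 2 = 0 := by omega
      have : (q₀ ^ k) % 2 = 0 := by
        rw [Nat.pow_mod, h0]
        obtain ⟨t, rfl⟩ : ∃ t, k = t + 1 := ⟨k - 1, by have := hk.two_le; omega⟩
        simp [pow_succ]
      omega
    by_cases hk2 : k = 2
    · subst hk2
      constructor
      · intro h _
        refine ⟨rfl, ?_⟩
        by_contra hcon
        push Not at hcon
        have hev : Even n := by
          by_contra hodd
          have : padicValNat 2 n = 0 :=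
            padicValNat.eq_zero_of_not_dvd (fun hd => hodd (even_iff_two_dvd.mpr hd))
          omega
        obtain ⟨m, rfl⟩ := hev
        obtain ⟨x, hx2, hxns, hxP⟩ := deranged h2 m (by omega) F₀ q₀ hF₀ hqk hcon
        obtain ⟨P, hP⟩ := h x hx2 hxns
        exact hxP P hP
      · intro h x hx2 hxns
        obtain ⟨_, hval⟩ := h hqodd
        exact odd_main hqodd n hn F₀ q₀ hqk hval x hx2 hxns
    · exfalso
      have hkodd : k % 2 = 1 := Nat.odd_iff.mp (hk.odd_of_ne_two hk2)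
      exact index_odd n F₀ k q₀ hkodd hq₀odd hF₀ hqk hΩ
  · have hev : Even (Fintype.card F) := Nat.not_odd_iff_even.mp hqodd
    have h2 : (2 : F) = 0 := S5969.two_eq_zero_of_even hev
    constructor
    · intro _ ho; exact absurd ho hqodd
    · intro _ x hx2 hxns
      exact even_main h2 n hn F₀ x hx2 hxns


end Cfsg.Agent.S5964
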