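import Cfsg.Statements.S5967
import Mathlib
import Cfsg.Agent.S5949
import Cfsg.Agent.S5951
import Cfsg.Agent.S5958
import Cfsg.Agent.S5970
import Cfsg.Agent.S5971
import Cfsg.Agent.S5969
import Cfsg.Agent.S5966
import Cfsg.Agent.S5964

set_option autoImplicit false
set_option maxHeartbeats 400000
open scoped MatrixGroups
open Cfsg

namespace Cfsg.Agent.S5967

open Polynomial Module

universe u

section hb
variable {F : Type*} [Field F]

theorem hyp_aux : ∀ (d : ℕ) (V : Type u) [AddCommGroup V] [Module F V] [FiniteDimensional F V]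
    (ω : V →ₗ[F] V →ₗ[F] F), (∀ v, ω v v = 0) → (∀ v, v ≠ 0 → ∃ w, ω v w ≠ 0) →
    finrank F V = d →
    ∃ (ι : Type) (_ : Fintype ι) (_ : DecidableEq ι) (B : Basis (ι ⊕ ι) F V),
      (∀ i j, ω (B (Sum.inl i)) (B (Sum.inr j)) = if i = j then 1 else 0) ∧
      (∀ i j, ω (B (Sum.inl i)) (B (Sum.inl j)) = 0) ∧
      (∀ i j, ω (B (Sum.inr i)) (B (Sum.inr j)) = 0) := by
  classical
  intro d
  induction d using Nat.strong_induction_on with
  | _ d ih =>
    intro V _ _ _ ω halt hnd hd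
    have hskew : ∀ a b, ω a b = - ω b a := by
      intro a b
      have h := halt (a + b)
      simp only [map_add, LinearMap.add_apply, halt, zero_add, add_zero] at h
      exact eq_neg_of_add_eq_zero_right h
    rcases Nat.eq_zero_or_pos d with h0 | hpos
    · haveI : Subsingleton V := by rw [h0] at hd; exact Module.finrank_zero_iff.mp hd
      refine ⟨Empty, inferInstance, inferInstance, Basis.empty V, ?_, ?_, ?_⟩ <;>
        intro i <;> exact i.elim
    · haveI : Nontrivial V := Module.nontrivial_of_finrank_pos (R := F) (by omega)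
      obtain ⟨v, hv⟩ := exists_ne (0 : V)
      obtain ⟨w₀, hw₀⟩ := hnd v hv
      obtain ⟨w, hw⟩ : ∃ w, w = (ω v w₀)⁻¹ • w₀ := ⟨_, rfl⟩
      have hvw : ω v w = 1 := by rw [hw, map_smul, smul_eq_mul, inv_mul_cancel₀ hw₀]
      have hwv : ω w v = -1 := by rw [hskew, hvw]
      obtain ⟨W, hW⟩ : ∃ W : Submodule F V, W = LinearMap.ker (ω v) ⊓ LinearMap.ker (ω w) :=
        ⟨_, rfl⟩
      have hWmem : ∀ u, u ∈ W ↔ ω v u = 0 ∧ ω w u = 0 := by
        intro u; rw [hW, Submodule.mem_inf, LinearMap.mem_ker, LinearMap.mem_ker]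
      have hdecomp : ∀ u, u - (ω u w) • v + (ω u v) • w ∈ W := by
        intro u
        rw [hWmem]
        constructor
        · have e1 : ω v (u - ω u w • v + ω u v • w) = ω v u - ω u w * ω v v + ω u v * ω v w := by
            simp only [map_add, map_sub, map_smul, smul_eq_mul]
          rw [e1, halt, hvw, hskew u v]; ring
        · have e1 : ω w (u - ω u w • v + ω u v • w) = ω w u - ω u w * ω w v + ω u v * ω w w := by
            simp only [map_add, map_sub, map_smul, smul_eq_mul]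
          rw [e1, halt, hwv, hskew u w]; ring
      have hWv : ∀ u ∈ W, ω u v = 0 := by
        intro u hu; rw [hskew, ((hWmem u).mp hu).1, neg_zero]
      have hWw : ∀ u ∈ W, ω u w = 0 := by
        intro u hu; rw [hskew, ((hWmem u).mp hu).2, neg_zero]
      obtain ⟨Φ, hΦ⟩ : ∃ Φ : V →ₗ[F] F × F, Φ = (ω v).prod (ω w) := ⟨_, rfl⟩
      have hker : LinearMap.ker Φ = W := by
        rw [hΦ, hW, LinearMap.ker_prod]
      have hrange : LinearMap.range Φ = ⊤ := by
        rw [LinearMap.range_eq_top]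
        rintro ⟨a, b⟩
        refine ⟨a • w - b • v, ?_⟩
        rw [hΦ]
        apply Prod.ext
        · show ω v (a • w - b • v) = a
          rw [map_sub, map_smul, map_smul, hvw, halt]; simp
        · show ω w (a • w - b • v) = b
          rw [map_sub, map_smul, map_smul, hwv, halt]; simp
      have hdimW : finrank F W + 2 = d := by
        have h1 := LinearMap.finrank_range_add_finrank_ker Φ
        rw [hrange, hker, finrank_top, Module.finrank_prod, Module.finrank_self] at h1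
        omega
      obtain ⟨ωW, hωW⟩ : ∃ ωW : W →ₗ[F] W →ₗ[F] F, ∀ a b : W, ωW a b = ω (a : V) (b : V) :=
        ⟨ω.domRestrict₁₂ W W, fun a b => rfl⟩
      obtain ⟨ι', hι', hdec', BW, hB1, hB2, hB3⟩ := ih (finrank F W) (by omega) ↥W ωW
        (fun a => by rw [hωW]; exact halt _)
        (fun a ha => by
          have ha' : (a : V) ≠ 0 := fun h => ha (Subtype.ext h)
          obtain ⟨t, ht⟩ := hnd (a : V) ha'
          refine ⟨⟨_, hdecomp t⟩, ?_⟩
          rw [hωW]
          have e1 : ω (a : V) (t - ω t w • v + ω t v • w) =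
              ω (a : V) t - ω t w * ω (a : V) v + ω t v * ω (a : V) w := by
            simp only [map_add, map_sub, map_smul, smul_eq_mul]
          show ω (a : V) (t - ω t w • v + ω t v • w) ≠ 0
          rw [e1, hWv _ a.2, hWw _ a.2, mul_zero, mul_zero, sub_zero, add_zero]
          exact ht) rfl
      letI : Fintype ι' := hι'
      letI : DecidableEq ι' := hdec'
      obtain ⟨b, hb⟩ : ∃ b : Option ι' ⊕ Option ι' → V,
          b = Sum.elim (fun o => o.elim v (fun i => (BW (Sum.inl i) : V)))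
            (fun o => o.elim w (fun i => (BW (Sum.inr i) : V))) := ⟨_, rfl⟩
      have hspan : ⊤ ≤ Submodule.span F (Set.range b) := by
        intro u _
        have hv' : v ∈ Submodule.span F (Set.range b) :=
          Submodule.subset_span ⟨Sum.inl none, by rw [hb]; rfl⟩
        have hw' : w ∈ Submodule.span F (Set.range b) :=
          Submodule.subset_span ⟨Sum.inr none, by rw [hb]; rfl⟩
        have hWle : ∀ u' ∈ W, u' ∈ Submodule.span F (Set.range b) := by
          intro u' hu'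
          have h1 := BW.sum_repr ⟨u', hu'⟩
          have h3 := congrArg Subtype.val h1
          rw [Submodule.coe_sum] at h3
          simp only [Submodule.coe_smul] at h3
          rw [← h3]
          refine Submodule.sum_mem _ (fun k _ => Submodule.smul_mem _ _ ?_)
          rcases k with i | i
          · exact Submodule.subset_span ⟨Sum.inl (some i), by rw [hb]; rfl⟩
          · exact Submodule.subset_span ⟨Sum.inr (some i), by rw [hb]; rfl⟩
        have hu : u = (u - ω u w • v + ω u v • w) + ω u w • v - ω u v • w := by abel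
        rw [hu]
        exact Submodule.sub_mem _ (Submodule.add_mem _ (hWle _ (hdecomp u))
          (Submodule.smul_mem _ _ hv')) (Submodule.smul_mem _ _ hw')
      have hcard : Fintype.card (Option ι' ⊕ Option ι') = finrank F V := by
        have h1 := Module.finrank_eq_card_basis BW
        rw [Fintype.card_sum] at h1
        rw [Fintype.card_sum, Fintype.card_option]
        omega
      obtain ⟨B, hB⟩ := S5958.basis_of_span b hspan hcard
      have hBl : ∀ o, B (Sum.inl o) = o.elim v (fun i => (BW (Sum.inl i) : V)) := by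
        intro o; rw [hB, hb]; rfl
      have hBr : ∀ o, B (Sum.inr o) = o.elim w (fun i => (BW (Sum.inr i) : V)) := by
        intro o; rw [hB, hb]; rfl
      refine ⟨Option ι', inferInstance, inferInstance, B, ?_, ?_, ?_⟩
      · intro i j
        rw [hBl, hBr]
        rcases i with _ | i <;> rcases j with _ | j
        · simp [hvw]
        · simp only [Option.elim]
          rw [((hWmem _).mp (BW (Sum.inr j)).2).1]; simp
        · simp only [Option.elim]
          rw [hWw _ (BW (Sum.inl i)).2]; simp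
        · simp only [Option.elim]
          rw [← hωW, hB1]; simp
      · intro i j
        rw [hBl, hBl]
        rcases i with _ | i <;> rcases j with _ | j
        · simp [halt]
        · simp only [Option.elim]
          rw [((hWmem _).mp (BW (Sum.inl j)).2).1]
        · simp only [Option.elim]
          rw [hWv _ (BW (Sum.inl i)).2]
        · simp only [Option.elim]
          rw [← hωW, hB2]
      · intro i j
        rw [hBr, hBr]
        rcases i with _ | i <;> rcases j with _ | j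
        · simp [halt]
        · simp only [Option.elim]
          rw [((hWmem _).mp (BW (Sum.inr j)).2).2]
        · simp only [Option.elim]
          rw [hWw _ (BW (Sum.inr i)).2]
        · simp only [Option.elim]
          rw [← hωW, hB3]

theorem exists_bil {n : ℕ} (f : (Fin n → F) → (Fin n → F) → F)
    (hf : Cfsg.Geo.IsSymplecticForm f) :
    ∃ ω : (Fin n → F) →ₗ[F] (Fin n → F) →ₗ[F] F, ∀ u v, ω u v = f u v :=
  ⟨LinearMap.mk₂ F f hf.bilinear.add_left
    (fun c x v => by rw [hf.bilinear.smul_left, smul_eq_mul]) hf.bilinear.add_right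
    (fun c v x => by rw [hf.bilinear.smul_right, smul_eq_mul]), fun u v => rfl⟩

theorem hyp_basis {n : ℕ} (f : (Fin n → F) → (Fin n → F) → F)
    (hf : Cfsg.Geo.IsSymplecticForm f)
    {ι : Type} [Fintype ι] [DecidableEq ι] (hcard : n = 2 * Fintype.card ι) :
    ∃ B : Basis (ι ⊕ ι) F (Fin n → F),
      (∀ i j, f (B (Sum.inl i)) (B (Sum.inr j)) = if i = j then 1 else 0) ∧
      (∀ i j, f (B (Sum.inl i)) (B (Sum.inl j)) = 0) ∧
      (∀ i j, f (B (Sum.inr i)) (B (Sum.inr j)) = 0) ∧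
      (∀ i j, f (B (Sum.inr i)) (B (Sum.inl j)) = if i = j then -1 else 0) := by
  classical
  obtain ⟨ω, hω⟩ := exists_bil f hf
  obtain ⟨ι₀, hι₀, hdec, B₀, h1, h2, h3⟩ := hyp_aux n (Fin n → F) ω
    (fun v => by rw [hω]; exact hf.alternating v)
    (fun v hv => by
      obtain ⟨-, ⟨x, hx⟩⟩ := hf.nondegenerate v hv
      exact ⟨x, by rw [hω]; exact hx⟩) (by simp)
  letI := hι₀
  have hc : Fintype.card ι₀ = Fintype.card ι := by
    have h := Module.finrank_eq_card_basis B₀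
    rw [Fintype.card_sum] at h
    simp at h
    omega
  obtain ⟨e⟩ : Nonempty (ι₀ ≃ ι) := ⟨Fintype.equivOfCardEq hc⟩
  have hBl : ∀ i, (B₀.reindex (Equiv.sumCongr e e)) (Sum.inl i) = B₀ (Sum.inl (e.symm i)) := by
    intro i; rw [Basis.reindex_apply]; rfl
  have hBr : ∀ i, (B₀.reindex (Equiv.sumCongr e e)) (Sum.inr i) = B₀ (Sum.inr (e.symm i)) := by
    intro i; rw [Basis.reindex_apply]; rfl
  have key : ∀ i j, f (B₀ (Sum.inl (e.symm i))) (B₀ (Sum.inr (e.symm j))) =
      if i = j then 1 else 0 := by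
    intro i j
    rw [← hω, h1]
    by_cases h : i = j
    · subst h; simp
    · rw [if_neg h, if_neg (fun h' => h (e.symm.injective h'))]
  refine ⟨B₀.reindex (Equiv.sumCongr e e), ?_, ?_, ?_, ?_⟩
  · intro i j; rw [hBl, hBr]; exact key i j
  · intro i j; rw [hBl, hBl, ← hω, h2]
  · intro i j; rw [hBr, hBr, ← hω, h3]
  · intro i j
    rw [hBl, hBr, hf.skew, key j i]
    by_cases h : i = j
    · subst h; simp
    · rw [if_neg h, if_neg (fun h' => h h'.symm)]; simp

theorem conj_sim {n : ℕ} {κ : Type} [Fintype κ] [DecidableEq κ]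
    (f : (Fin n → F) → (Fin n → F) → F) (hf : Cfsg.Geo.IsSymplecticForm f)
    (𝔅 𝔅' : Basis κ F (Fin n → F)) (x : Matrix.SpecialLinearGroup (Fin n) F)
    (τ : κ → κ) (α β : κ → F)
    (hH : ∀ k, Matrix.toLin' (x : Matrix (Fin n) (Fin n) F) (𝔅' k) =
      α k • 𝔅' k + β k • 𝔅' (τ k))
    (c : F) (hc : c ≠ 0)
    (hJ : ∀ k l, α k * α l * f (𝔅 k) (𝔅 l) + α k * β l * f (𝔅 k) (𝔅 (τ l)) +
      β k * α l * f (𝔅 (τ k)) (𝔅 l) + β k * β l * f (𝔅 (τ k)) (𝔅 (τ l)) =
        c * f (𝔅 k) (𝔅 l))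
    (C : Module.End F (Fin n → F))
    (hCx : C ∘ₗ Matrix.toLin' (x : Matrix (Fin n) (Fin n) F) =
      Matrix.toLin' (x : Matrix (Fin n) (Fin n) F) ∘ₗ C)
    (hCdet : LinearMap.det C = LinearMap.det
      ((𝔅'.equiv 𝔅 (Equiv.refl κ)) : (Fin n → F) →ₗ[F] (Fin n → F))) :
    ∃ P : Matrix.SpecialLinearGroup (Fin n) F, P⁻¹ * x * P ∈
      ((Cfsg.Geo.similarityGroup f).comap (Matrix.SpecialLinearGroup.toGL :
        Matrix.SpecialLinearGroup (Fin n) F →* GL (Fin n) F)) := by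
  classical
  obtain ⟨ω, hω⟩ := exists_bil f hf
  obtain ⟨Xm, hX⟩ : ∃ Xm : Matrix (Fin n) (Fin n) F, Xm = (x : Matrix (Fin n) (Fin n) F) :=
    ⟨_, rfl⟩
  obtain ⟨g, hg⟩ : ∃ g : Module.End F (Fin n → F), g = Matrix.toLin' Xm := ⟨_, rfl⟩
  rw [← hX, ← hg] at hH hCx
  obtain ⟨T, hT⟩ : ∃ T : (Fin n → F) ≃ₗ[F] (Fin n → F), T = 𝔅'.equiv 𝔅 (Equiv.refl κ) :=
    ⟨_, rfl⟩
  rw [← hT] at hCdet
  have hT1 : ∀ k, T (𝔅' k) = 𝔅 k := by intro k; rw [hT, Basis.equiv_apply]; rfl
  have hT2 : ∀ k, T.symm (𝔅 k) = 𝔅' k := by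
    intro k; rw [← hT1 k, LinearEquiv.symm_apply_apply]
  obtain ⟨y, hy⟩ : ∃ y : Module.End F (Fin n → F),
      y = (T : (Fin n → F) →ₗ[F] (Fin n → F)) ∘ₗ g ∘ₗ
        (T.symm : (Fin n → F) →ₗ[F] (Fin n → F)) := ⟨_, rfl⟩
  have hyB : ∀ k, y (𝔅 k) = α k • 𝔅 k + β k • 𝔅 (τ k) := by
    intro k
    rw [hy]
    simp only [LinearMap.comp_apply, LinearEquiv.coe_coe]
    rw [hT2, hH, map_add, map_smul, map_smul, hT1, hT1]
  have hsim : ∀ u v, f (y u) (y v) = c * f u v := by
    have h1 : ω.compl₁₂ y y = c • ω := by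
      apply LinearMap.ext_basis 𝔅 𝔅
      intro k l
      rw [LinearMap.compl₁₂_apply, LinearMap.smul_apply, LinearMap.smul_apply, smul_eq_mul,
        hyB, hyB]
      simp only [map_add, map_smul, LinearMap.add_apply, LinearMap.smul_apply, smul_eq_mul, hω]
      rw [← hJ k l]; ring
    intro u v
    have h2 := LinearMap.congr_fun (LinearMap.congr_fun h1 u) v
    rw [LinearMap.compl₁₂_apply, LinearMap.smul_apply, LinearMap.smul_apply, smul_eq_mul,
      hω, hω] at h2
    exact h2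
  obtain ⟨Pl, hPl⟩ : ∃ Pl : Module.End F (Fin n → F),
      Pl = C ∘ₗ (T.symm : (Fin n → F) →ₗ[F] (Fin n → F)) := ⟨_, rfl⟩
  have hPldet : LinearMap.det Pl = 1 := by
    rw [hPl, LinearMap.det_comp, hCdet, ← LinearMap.det_comp]
    have : (T : (Fin n → F) →ₗ[F] (Fin n → F)) ∘ₗ
        (T.symm : (Fin n → F) →ₗ[F] (Fin n → F)) = LinearMap.id := by
      apply LinearMap.ext; intro v; simp
    rw [this, LinearMap.det_id]
  have hydet : LinearMap.det y = 1 := by
    rw [hy, LinearMap.det_conj, hg, LinearMap.det_toLin', hX]; exact x.det_coe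
  have hrel : g ∘ₗ Pl = Pl ∘ₗ y := by
    rw [hPl, hy]
    apply LinearMap.ext; intro v
    have h1 := LinearMap.congr_fun hCx (T.symm v)
    simp only [LinearMap.comp_apply, LinearEquiv.coe_coe] at h1 ⊢
    rw [LinearEquiv.symm_apply_apply, h1]
  obtain ⟨Pm, hPm⟩ : ∃ Pm : Matrix (Fin n) (Fin n) F, Pm = LinearMap.toMatrix' Pl := ⟨_, rfl⟩
  obtain ⟨Ym, hYm⟩ : ∃ Ym : Matrix (Fin n) (Fin n) F, Ym = LinearMap.toMatrix' y := ⟨_, rfl⟩
  have hPmdet : Pm.det = 1 := by rw [hPm, LinearMap.det_toMatrix', hPldet]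
  have hYmdet : Ym.det = 1 := by rw [hYm, LinearMap.det_toMatrix', hydet]
  have hrelm : Xm * Pm = Pm * Ym := by
    have h1 := congrArg LinearMap.toMatrix' hrel
    rw [LinearMap.toMatrix'_comp, LinearMap.toMatrix'_comp, hg,
      LinearMap.toMatrix'_toLin'] at h1
    rw [hPm, hYm]; exact h1
  obtain ⟨P, hP⟩ : ∃ P : Matrix.SpecialLinearGroup (Fin n) F,
      (P : Matrix (Fin n) (Fin n) F) = Pm := ⟨⟨Pm, hPmdet⟩, rfl⟩
  obtain ⟨xh, hxh⟩ : ∃ xh : Matrix.SpecialLinearGroup (Fin n) F,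
      (xh : Matrix (Fin n) (Fin n) F) = Ym := ⟨⟨Ym, hYmdet⟩, rfl⟩
  have hconj : P⁻¹ * x * P = xh := by
    have h1 : x * P = P * xh := by
      apply Subtype.ext
      show (x : Matrix (Fin n) (Fin n) F) * (P : Matrix (Fin n) (Fin n) F) =
        (P : Matrix (Fin n) (Fin n) F) * (xh : Matrix (Fin n) (Fin n) F)
      rw [hP, hxh, ← hX, hrelm]
    rw [mul_assoc, h1, ← mul_assoc, inv_mul_cancel, one_mul]
  refine ⟨P, ?_⟩
  rw [hconj, Subgroup.mem_comap]
  refine ⟨Units.mk0 c hc, fun u v => ?_⟩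
  have h1 : ∀ u, Matrix.mulVec ((Matrix.SpecialLinearGroup.toGL xh : GL (Fin n) F) :
      Matrix (Fin n) (Fin n) F) u = y u := by
    intro u
    have : ((Matrix.SpecialLinearGroup.toGL xh : GL (Fin n) F) :
        Matrix (Fin n) (Fin n) F) = Ym := hxh
    rw [this, hYm, LinearMap.toMatrix'_mulVec]
  rw [h1, h1]
  exact hsim u v

end hb

section cases
variable {F : Type*} [Field F] [Fintype F]

theorem nsq_sim (hodd : Odd (Fintype.card F)) (m : ℕ) (hm : 1 ≤ m)
    (f : (Fin (m + m) → F) → (Fin (m + m) → F) → F) (hf : Cfsg.Geo.IsSymplecticForm f)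
    (x : Matrix.SpecialLinearGroup (Fin (m + m)) F) (z : F) (hz : ∀ b : F, b ^ 2 ≠ z)
    (hx2 : (x : Matrix (Fin (m + m)) (Fin (m + m)) F) *
      (x : Matrix (Fin (m + m)) (Fin (m + m)) F) = z • 1) :
    ∃ P : Matrix.SpecialLinearGroup (Fin (m + m)) F, P⁻¹ * x * P ∈
      ((Cfsg.Geo.similarityGroup f).comap (Matrix.SpecialLinearGroup.toGL :
        Matrix.SpecialLinearGroup (Fin (m + m)) F →* GL (Fin (m + m)) F)) := by
  classical
  have h2 : (2 : F) ≠ 0 := S5969.two_ne_zero_of_odd hodd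
  have hz0 : z ≠ 0 := by
    intro h; exact hz 0 (by rw [h]; norm_num)
  obtain ⟨g, hg⟩ : ∃ g : Module.End F (Fin (m + m) → F),
      g = Matrix.toLin' (x : Matrix (Fin (m + m)) (Fin (m + m)) F) := ⟨_, rfl⟩
  have hg2 : g ^ 2 = z • (1 : Module.End F (Fin (m + m) → F)) := by
    rw [pow_two, hg, Module.End.mul_eq_comp, ← Matrix.toLin'_mul, hx2, map_smul,
      Matrix.toLin'_one]; rfl
  obtain ⟨Bc, hBc⟩ := S5969.cyc_basis2 g h2 z hz hg2 (κ := Fin m) (by simp; ring)
  obtain ⟨e, he1, he2⟩ : ∃ e : Fin 2 × Fin m ≃ Fin m ⊕ Fin m,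
      (∀ s, e.symm (Sum.inl s) = (0, s)) ∧ (∀ s, e.symm (Sum.inr s) = (1, s)) :=
    ⟨(Equiv.prodCongr finTwoEquiv (Equiv.refl (Fin m))).trans (Equiv.boolProdEquivSum (Fin m)),
      fun s => rfl, fun s => rfl⟩
  obtain ⟨𝔅', h𝔅'⟩ : ∃ 𝔅' : Basis (Fin m ⊕ Fin m) F (Fin (m + m) → F), 𝔅' = Bc.reindex e :=
    ⟨_, rfl⟩
  have hl : ∀ s, 𝔅' (Sum.inl s) = Bc (0, s) := by
    intro s; rw [h𝔅', Basis.reindex_apply, he1]
  have hr : ∀ s, 𝔅' (Sum.inr s) = Bc (1, s) := by
    intro s; rw [h𝔅', Basis.reindex_apply, he2]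
  obtain ⟨𝔅, h1, h2', h3, h4⟩ := hyp_basis f hf (ι := Fin m) (by simp; ring)
  obtain ⟨a, b, hab⟩ := S5969.norm_form z (LinearMap.det ((𝔅'.equiv 𝔅 (Equiv.refl _)) :
    (Fin (m + m) → F) →ₗ[F] (Fin (m + m) → F))) hz0 hodd
  obtain ⟨D, hDdet, hDg⟩ := S5969.blk g z Bc hBc (⟨0, by omega⟩ : Fin m) a b
  refine conj_sim f hf 𝔅 𝔅' x Sum.swap (fun _ => 0)
    (fun k => Sum.elim (fun _ => 1) (fun _ => z) k) ?_ (-z) (neg_ne_zero.mpr hz0) ?_ D
    (by rw [← hg]; exact hDg) (by rw [hDdet, hab])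
  · intro k
    rw [← hg]
    rcases k with s | s
    · simp only [Sum.swap_inl, Sum.elim_inl, zero_smul, zero_add, one_smul]
      rw [hl, hr]; exact (hBc s).1
    · simp only [Sum.swap_inr, Sum.elim_inr, zero_smul, zero_add]
      rw [hl, hr]; exact (hBc s).2
  · intro k l
    rcases k with i | i <;> rcases l with j | j <;> simp [h1, h2', h3, h4]

theorem sq_sim (hodd : Odd (Fintype.card F)) (m : ℕ) (hm : 1 ≤ m)
    (f : (Fin (m + m) → F) → (Fin (m + m) → F) → F) (hf : Cfsg.Geo.IsSymplecticForm f)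
    (hval : padicValNat 2 (Fintype.card F - 1) ≤ padicValNat 2 (m + m))
    (x : Matrix.SpecialLinearGroup (Fin (m + m)) F) (lam : F) (hlam0 : lam ≠ 0)
    (hx2 : (x : Matrix (Fin (m + m)) (Fin (m + m)) F) *
      (x : Matrix (Fin (m + m)) (Fin (m + m)) F) = (lam * lam) • 1) :
    ∃ P : Matrix.SpecialLinearGroup (Fin (m + m)) F, P⁻¹ * x * P ∈
      ((Cfsg.Geo.similarityGroup f).comap (Matrix.SpecialLinearGroup.toGL :
        Matrix.SpecialLinearGroup (Fin (m + m)) F →* GL (Fin (m + m)) F)) := by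
  classical
  have h2 : (2 : F) ≠ 0 := S5969.two_ne_zero_of_odd hodd
  obtain ⟨g, hg⟩ : ∃ g : Module.End F (Fin (m + m) → F),
      g = Matrix.toLin' (x : Matrix (Fin (m + m)) (Fin (m + m)) F) := ⟨_, rfl⟩
  have hg2 : g * g = (lam * lam) • (1 : Module.End F (Fin (m + m) → F)) := by
    rw [hg, Module.End.mul_eq_comp, ← Matrix.toLin'_mul, hx2, map_smul, Matrix.toLin'_one]; rfl
  obtain ⟨y, hy⟩ : ∃ y : Module.End F (Fin (m + m) → F), y = lam⁻¹ • g := ⟨_, rfl⟩
  have hgy : g = lam • y := by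
    rw [hy, smul_smul, mul_inv_cancel₀ hlam0, one_smul]
  have hy2 : y ^ 2 = 1 := by
    rw [pow_two, hy, smul_mul_smul_comm, hg2, smul_smul]
    have : lam⁻¹ * lam⁻¹ * (lam * lam) = 1 := by field_simp
    rw [this, one_smul]
  obtain ⟨b, hb⟩ : ∃ b, b = finrank F (S5949.Dg y 2) := ⟨_, rfl⟩
  obtain ⟨a, ha⟩ : ∃ a, a = finrank F (S5949.Cg y) := ⟨_, rfl⟩
  have hab : b + a = m + m := by
    obtain ⟨B₁, -⟩ := S5969.inv_basis_gen y h2 hy2 (ι₁ := Fin b) (ι₂ := Fin a)
      (by simp [hb]) (by simp [ha])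
    have h := Module.finrank_eq_card_basis B₁
    simp at h
    omega
  have hdetg : LinearMap.det g = 1 := by
    rw [hg, LinearMap.det_toLin']; exact x.det_coe
  have hdet2 : lam ^ (m + m) * (-1) ^ b = 1 := by
    rw [hgy, LinearMap.det_smul, S5969.inv_det y h2 hy2, ← hb] at hdetg
    simpa using hdetg
  have hbeven : Even b := by
    by_contra hbo
    have hbo' : Odd b := Nat.not_even_iff_odd.mp hbo
    rw [Odd.neg_one_pow hbo'] at hdet2
    have h5 : lam ^ (m + m) = -1 := by linear_combination -hdet2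
    have := S5969.neg_one_root (m + m) (by omega) h2 lam h5
    omega
  obtain ⟨b', hb'⟩ := hbeven
  obtain ⟨a', ha'⟩ : ∃ a', a = a' + a' := ⟨m - b', by omega⟩
  obtain ⟨Bi, hBi⟩ := S5969.inv_basis_gen y h2 hy2 (ι₁ := Fin b' ⊕ Fin b')
    (ι₂ := Fin a' ⊕ Fin a') (by simp; omega) (by simp; omega)
  obtain ⟨𝔅', h𝔅'⟩ : ∃ 𝔅' : Basis ((Fin b' ⊕ Fin a') ⊕ (Fin b' ⊕ Fin a')) F (Fin (m + m) → F),
      𝔅' = Bi.reindex (Equiv.sumSumSumComm (Fin b') (Fin b') (Fin a') (Fin a')) := ⟨_, rfl⟩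
  have e1 : ∀ i, 𝔅' (Sum.inl (Sum.inl i)) = Bi (Sum.inl (Sum.inl i)) := by
    intro i; rw [h𝔅', Basis.reindex_apply]; rfl
  have e2 : ∀ j, 𝔅' (Sum.inl (Sum.inr j)) = Bi (Sum.inr (Sum.inl j)) := by
    intro j; rw [h𝔅', Basis.reindex_apply]; rfl
  have e3 : ∀ i, 𝔅' (Sum.inr (Sum.inl i)) = Bi (Sum.inl (Sum.inr i)) := by
    intro i; rw [h𝔅', Basis.reindex_apply]; rfl
  have e4 : ∀ j, 𝔅' (Sum.inr (Sum.inr j)) = Bi (Sum.inr (Sum.inr j)) := by
    intro j; rw [h𝔅', Basis.reindex_apply]; rfl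
  obtain ⟨𝔅, h1, h2', h3, h4⟩ := hyp_basis f hf (ι := Fin b' ⊕ Fin a') (by simp; omega)
  obtain ⟨sgn, hsgn⟩ : ∃ sgn : (Fin b' ⊕ Fin a') ⊕ (Fin b' ⊕ Fin a') → F,
      sgn = Sum.elim (Sum.elim (fun _ => -1) (fun _ => 1))
        (Sum.elim (fun _ => -1) (fun _ => 1)) := ⟨_, rfl⟩
  have hgB : ∀ k, g (𝔅' k) = (lam * sgn k) • 𝔅' k := by
    intro k
    rcases k with (i | j) | (i | j)
    · rw [e1, hgy, LinearMap.smul_apply, hBi, hsgn]; simp [smul_smul]
    · rw [e2, hgy, LinearMap.smul_apply, hBi, hsgn]; simp [smul_smul]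
    · rw [e3, hgy, LinearMap.smul_apply, hBi, hsgn]; simp [smul_smul]
    · rw [e4, hgy, LinearMap.smul_apply, hBi, hsgn]; simp [smul_smul]
  obtain ⟨k₀⟩ : Nonempty ((Fin b' ⊕ Fin a') ⊕ (Fin b' ⊕ Fin a')) :=
    Fintype.card_pos_iff.mp (by simp; omega)
  obtain ⟨d, hd⟩ : ∃ d : (Fin b' ⊕ Fin a') ⊕ (Fin b' ⊕ Fin a') → F, d = fun k => if k = k₀ then
      LinearMap.det ((𝔅'.equiv 𝔅 (Equiv.refl _)) :
        (Fin (m + m) → F) →ₗ[F] (Fin (m + m) → F)) else 1 := ⟨_, rfl⟩
  obtain ⟨C, hC⟩ : ∃ C : Module.End F (Fin (m + m) → F),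
      C = Matrix.toLin 𝔅' 𝔅' (Matrix.diagonal d) := ⟨_, rfl⟩
  have hCB : ∀ k, C (𝔅' k) = d k • 𝔅' k := by intro k; rw [hC, S5971.diag_toLin]
  have hCg : C ∘ₗ g = g ∘ₗ C := by
    apply 𝔅'.ext; intro k
    simp only [LinearMap.comp_apply]
    rw [hgB k, map_smul, hCB k, map_smul, hgB k, smul_comm]
  have hCdet : LinearMap.det C = LinearMap.det ((𝔅'.equiv 𝔅 (Equiv.refl _)) :
      (Fin (m + m) → F) →ₗ[F] (Fin (m + m) → F)) := by
    rw [hC, LinearMap.det_toLin, Matrix.det_diagonal, hd,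
      Finset.prod_ite_eq' Finset.univ k₀ (fun _ => _)]
    simp
  refine conj_sim f hf 𝔅 𝔅' x id (fun k => lam * sgn k) (fun _ => 0) ?_ (lam * lam)
    (mul_ne_zero hlam0 hlam0) ?_ C (by rw [← hg]; exact hCg) hCdet
  · intro k
    rw [← hg, hgB k, zero_smul, add_zero]
  · intro k l
    rcases k with (i | j) | (i | j) <;> rcases l with (i' | j') | (i' | j') <;>
      simp [hsgn, h1, h2', h3, h4]

end cases

theorem refl_derange {F : Type*} [Field F] [Fintype F] (h2 : (2 : F) ≠ 0) (n : ℕ) (hn : 4 ≤ n)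
    (f : (Fin n → F) → (Fin n → F) → F) (hf : Cfsg.Geo.IsSymplecticForm f)
    (hval : padicValNat 2 n < padicValNat 2 (Fintype.card F - 1)) :
    ∃ x : Matrix.SpecialLinearGroup (Fin n) F,
      (∃ z : F, ((x ^ 2 : Matrix.SpecialLinearGroup (Fin n) F) : Matrix (Fin n) (Fin n) F) =
        z • (1 : Matrix (Fin n) (Fin n) F)) ∧
      (∀ z : F, (x : Matrix (Fin n) (Fin n) F) ≠ z • (1 : Matrix (Fin n) (Fin n) F)) ∧
      ∀ P : Matrix.SpecialLinearGroup (Fin n) F, P⁻¹ * x * P ∉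
        ((Cfsg.Geo.similarityGroup f).comap (Matrix.SpecialLinearGroup.toGL :
          Matrix.SpecialLinearGroup (Fin n) F →* GL (Fin n) F)) := by
  classical
  obtain ⟨lam, hlam0, hlam⟩ := S5969.exists_neg_one_root n (by omega) hval
  obtain ⟨i₀, i₁, i₂, h01, h02, h12⟩ : ∃ i₀ i₁ i₂ : Fin n, i₀ ≠ i₁ ∧ i₀ ≠ i₂ ∧ i₁ ≠ i₂ :=
    ⟨⟨0, by omega⟩, ⟨1, by omega⟩, ⟨2, by omega⟩, by simp [Fin.ext_iff], by simp [Fin.ext_iff],
      by simp [Fin.ext_iff]⟩
  obtain ⟨d, hd⟩ : ∃ d : Fin n → F, d = fun i => lam * (if i = i₀ then -1 else 1) := ⟨_, rfl⟩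
  have hd0 : d i₀ = -lam := by rw [hd]; simp
  have hdne : ∀ i, i ≠ i₀ → d i = lam := by intro i hi; rw [hd]; simp [hi]
  obtain ⟨Xm, hX⟩ : ∃ Xm : Matrix (Fin n) (Fin n) F, Xm = Matrix.diagonal d := ⟨_, rfl⟩
  have hXdet : Xm.det = 1 := by
    rw [hX, Matrix.det_diagonal, hd, Finset.prod_mul_distrib, Finset.prod_const,
      Finset.card_univ, Fintype.card_fin, hlam,
      Finset.prod_ite_eq' Finset.univ i₀ (fun _ => (-1 : F))]
    simp
  have hX2 : Xm * Xm = (lam * lam) • 1 := by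
    rw [hX, Matrix.diagonal_mul_diagonal, Matrix.smul_one_eq_diagonal]
    congr 1; funext i
    by_cases h : i = i₀
    · rw [h, hd0]; ring
    · rw [hdne i h]
  obtain ⟨x, hx⟩ : ∃ x : Matrix.SpecialLinearGroup (Fin n) F,
      (x : Matrix (Fin n) (Fin n) F) = Xm := ⟨⟨Xm, hXdet⟩, rfl⟩
  refine ⟨x, ⟨lam * lam, ?_⟩, ?_, ?_⟩
  · rw [pow_two, Matrix.SpecialLinearGroup.coe_mul, hx]; exact hX2
  · intro z hz
    rw [hx, hX] at hz
    have h1 := congrFun (congrFun hz i₀) i₀
    have h3 := congrFun (congrFun hz i₁) i₁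
    rw [Matrix.diagonal_apply_eq, hd0] at h1
    rw [Matrix.diagonal_apply_eq, hdne i₁ h01.symm] at h3
    simp at h1 h3
    have h4 : 2 * lam = 0 := by linear_combination h3 - h1
    rcases mul_eq_zero.mp h4 with h | h
    · exact h2 h
    · exact hlam0 h
  · intro P hP
    rw [Subgroup.mem_comap] at hP
    obtain ⟨c, hc⟩ := hP
    obtain ⟨Pm, hPm⟩ : ∃ Pm : Matrix (Fin n) (Fin n) F,
        Pm = (P : Matrix (Fin n) (Fin n) F) := ⟨_, rfl⟩
    obtain ⟨Pim, hPim⟩ : ∃ Pim : Matrix (Fin n) (Fin n) F,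
        Pim = ((P⁻¹ : Matrix.SpecialLinearGroup (Fin n) F) : Matrix (Fin n) (Fin n) F) :=
      ⟨_, rfl⟩
    have hPiP : Pim * Pm = 1 := by
      rw [hPim, hPm, ← Matrix.SpecialLinearGroup.coe_mul, inv_mul_cancel,
        Matrix.SpecialLinearGroup.coe_one]
    have hPPi : Pm * Pim = 1 := by
      rw [hPim, hPm, ← Matrix.SpecialLinearGroup.coe_mul, mul_inv_cancel,
        Matrix.SpecialLinearGroup.coe_one]
    have hG : ((Matrix.SpecialLinearGroup.toGL (P⁻¹ * x * P) : GL (Fin n) F) :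
        Matrix (Fin n) (Fin n) F) = Pim * Xm * Pm := by
      rw [hPim, hPm, ← hx]; rfl
    rw [hG] at hc
    obtain ⟨ω, hω⟩ := exists_bil f hf
    obtain ⟨L, hL⟩ : ∃ L : (Fin n → F) ≃ₗ[F] (Fin n → F), ∀ v, L v = Matrix.mulVec Pim v :=
      ⟨LinearEquiv.ofLinear (Matrix.toLin' Pim) (Matrix.toLin' Pm)
        (by rw [← Matrix.toLin'_mul, hPiP, Matrix.toLin'_one])
        (by rw [← Matrix.toLin'_mul, hPPi, Matrix.toLin'_one]),
        fun v => by simp [Matrix.toLin'_apply]⟩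
    obtain ⟨Wb, hWb⟩ : ∃ Wb : Basis (Fin n) F (Fin n → F),
        ∀ i, Wb i = Matrix.mulVec Pim (Pi.single i 1) :=
      ⟨(Pi.basisFun F (Fin n)).map L, fun i => by
        rw [Basis.map_apply, hL, Pi.basisFun_apply]⟩
    have heig : ∀ i, Matrix.mulVec (Pim * Xm * Pm) (Wb i) = d i • Wb i := by
      intro i
      rw [hWb i, Matrix.mulVec_mulVec, Matrix.mul_assoc, hPPi, Matrix.mul_one,
        ← Matrix.mulVec_mulVec, hX, Matrix.diagonal_mulVec_single, mul_one]
      have h5 : (Pi.single i (d i) : Fin n → F) = d i • Pi.single i 1 := by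
        rw [← Pi.single_smul]; simp
      rw [h5, Matrix.mulVec_smul]
    have hff : ∀ i j, d i * d j * f (Wb i) (Wb j) = c * f (Wb i) (Wb j) := by
      intro i j
      have h5 := hc (Wb i) (Wb j)
      rw [heig, heig, hf.bilinear.smul_left, hf.bilinear.smul_right] at h5
      rw [← h5]; ring
    have hzero_of : ∀ u, (∀ j, f u (Wb j) = 0) → u = 0 := by
      intro u hu
      by_contra hne
      obtain ⟨-, ⟨t, ht⟩⟩ := hf.nondegenerate u hne
      apply ht
      have h5 : ω u = 0 := by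
        apply Wb.ext; intro j
        rw [hω, hu j]; rfl
      rw [← hω, h5]; rfl
    have hW0 : Wb i₀ ≠ 0 := Wb.ne_zero i₀
    obtain ⟨j, hj⟩ : ∃ j, f (Wb i₀) (Wb j) ≠ 0 := by
      by_contra hcon
      push Not at hcon
      exact hW0 (hzero_of _ hcon)
    have hj0 : j ≠ i₀ := by
      intro h; rw [h] at hj; exact hj (hf.alternating _)
    have hcval : (c : F) = -(lam * lam) := by
      have h5 := hff i₀ j
      rw [hd0, hdne j hj0] at h5
      have h6 : (-(lam * lam) - (c : F)) * f (Wb i₀) (Wb j) = 0 := by linear_combination h5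
      rcases mul_eq_zero.mp h6 with h | h
      · linear_combination -h
      · exact absurd h hj
    have hzz : ∀ i k, i ≠ i₀ → k ≠ i₀ → f (Wb i) (Wb k) = 0 := by
      intro i k hi hk
      have h5 := hff i k
      rw [hdne i hi, hdne k hk, hcval] at h5
      have h6 : (2 * (lam * lam)) * f (Wb i) (Wb k) = 0 := by linear_combination h5
      rcases mul_eq_zero.mp h6 with h | h
      · exfalso
        rcases mul_eq_zero.mp h with h' | h'
        · exact h2 h'
        · rcases mul_eq_zero.mp h' with h'' | h'' <;> exact hlam0 h''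
      · exact h
    obtain ⟨u, hu⟩ : ∃ u : Fin n → F,
        u = f (Wb i₂) (Wb i₀) • Wb i₁ - f (Wb i₁) (Wb i₀) • Wb i₂ := ⟨_, rfl⟩
    have hfu : ∀ k, f u (Wb k) =
        f (Wb i₂) (Wb i₀) * f (Wb i₁) (Wb k) - f (Wb i₁) (Wb i₀) * f (Wb i₂) (Wb k) := by
      intro k
      rw [← hω, hu]
      simp only [map_sub, map_smul, LinearMap.sub_apply, LinearMap.smul_apply, smul_eq_mul, hω]
    have hu0 : u = 0 := by
      apply hzero_of
      intro k
      rw [hfu]
      by_cases hk : k = i₀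
      · rw [hk]; ring
      · rw [hzz i₁ k h01.symm hk, hzz i₂ k h02.symm hk]; ring
    have h7 : f (Wb i₁) (Wb i₀) = 0 := by
      have h8 := congrArg (fun t => Wb.repr t i₂) hu0
      simpa [hu, Finsupp.single_apply, h12] using h8
    have h9 : Wb i₁ = 0 := by
      apply hzero_of
      intro k
      by_cases hk : k = i₀
      · rw [hk]; exact h7
      · exact hzz i₁ k h01.symm hk
    exact Wb.ne_zero i₁ h9

section nil
variable {F : Type*} [Field F] {V : Type*} [AddCommGroup V] [Module F V] [FiniteDimensional F V]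

theorem nil2_basis (N : Module.End F V) (hN2 : ∀ v, N (N v) = 0) (m : ℕ)
    (hdim : finrank F V = m + m) :
    ∃ (s t : ℕ) (_ : s + t = m) (B : Basis ((Fin s ⊕ Fin t) ⊕ (Fin s ⊕ Fin t)) F V),
      (∀ i, N (B (Sum.inr (Sum.inl i))) = B (Sum.inl (Sum.inl i))) ∧
      (∀ i, N (B (Sum.inl (Sum.inl i))) = 0) ∧
      (∀ j, N (B (Sum.inl (Sum.inr j))) = 0) ∧
      (∀ j, N (B (Sum.inr (Sum.inr j))) = 0) := by
  classical
  obtain ⟨R, hR⟩ : ∃ R : Submodule F V, R = LinearMap.range N := ⟨_, rfl⟩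
  obtain ⟨K, hK⟩ : ∃ K : Submodule F V, K = LinearMap.ker N := ⟨_, rfl⟩
  have hRK : R ≤ K := by
    rw [hR, hK]
    rintro _ ⟨u, rfl⟩
    exact LinearMap.mem_ker.mpr (hN2 u)
  have hrn := LinearMap.finrank_range_add_finrank_ker N
  rw [← hR, ← hK, hdim] at hrn
  obtain ⟨K'', hK''⟩ := Submodule.exists_isCompl R
  obtain ⟨K', hK'⟩ : ∃ K' : Submodule F V, K' = K'' ⊓ K := ⟨_, rfl⟩
  have hsup : R ⊔ K' = K := by
    rw [hK', ← sup_inf_assoc_of_le K'' hRK, hK''.sup_eq_top, top_inf_eq]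
  have hinf : R ⊓ K' = ⊥ := by
    rw [eq_bot_iff, ← hK''.inf_eq_bot, hK']
    exact inf_le_inf_left R inf_le_left
  have hfr := Submodule.finrank_sup_add_finrank_inf_eq R K'
  rw [hsup, hinf, finrank_bot, add_zero] at hfr
  have hRle : finrank F R ≤ finrank F K := Submodule.finrank_mono hRK
  obtain ⟨s, hs⟩ : ∃ s, s = finrank F R := ⟨_, rfl⟩
  obtain ⟨t, ht⟩ : ∃ t, t = m - s := ⟨_, rfl⟩
  have hst : s + t = m := by omega
  have hK'fr : finrank F K' = t + t := by omega
  obtain ⟨bR⟩ : Nonempty (Basis (Fin s) F R) := ⟨Module.finBasisOfFinrankEq F R hs.symm⟩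
  obtain ⟨bK⟩ : Nonempty (Basis (Fin t ⊕ Fin t) F K') :=
    ⟨(Module.finBasisOfFinrankEq F K' hK'fr).reindex finSumFinEquiv.symm⟩
  have hu : ∀ i : Fin s, ∃ u, N u = (bR i : V) := by
    intro i
    have h1 : (bR i : V) ∈ LinearMap.range N := by rw [← hR]; exact (bR i).2
    exact h1
  choose u hu using hu
  obtain ⟨b, hb⟩ : ∃ b : (Fin s ⊕ Fin t) ⊕ (Fin s ⊕ Fin t) → V,
      b = Sum.elim (Sum.elim (fun i => (bR i : V)) (fun j => (bK (Sum.inl j) : V)))
        (Sum.elim u (fun j => (bK (Sum.inr j) : V))) := ⟨_, rfl⟩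
  have hspan : ⊤ ≤ Submodule.span F (Set.range b) := by
    have hRle' : R ≤ Submodule.span F (Set.range b) := by
      intro w hw
      have h1 := bR.sum_repr ⟨w, hw⟩
      have h3 := congrArg Subtype.val h1
      rw [Submodule.coe_sum] at h3
      simp only [Submodule.coe_smul] at h3
      rw [← h3]
      exact Submodule.sum_mem _ (fun i _ => Submodule.smul_mem _ _
        (Submodule.subset_span ⟨Sum.inl (Sum.inl i), by rw [hb]; rfl⟩))
    have hK'le : K' ≤ Submodule.span F (Set.range b) := by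
      intro w hw
      have h1 := bK.sum_repr ⟨w, hw⟩
      have h3 := congrArg Subtype.val h1
      rw [Submodule.coe_sum] at h3
      simp only [Submodule.coe_smul] at h3
      rw [← h3]
      refine Submodule.sum_mem _ (fun k _ => Submodule.smul_mem _ _ ?_)
      rcases k with j | j
      · exact Submodule.subset_span ⟨Sum.inl (Sum.inr j), by rw [hb]; rfl⟩
      · exact Submodule.subset_span ⟨Sum.inr (Sum.inr j), by rw [hb]; rfl⟩
    have hKle : K ≤ Submodule.span F (Set.range b) := by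
      rw [← hsup]; exact sup_le hRle' hK'le
    intro w _
    have hNw : N w ∈ R := by rw [hR]; exact LinearMap.mem_range_self N w
    obtain ⟨cf, hcf⟩ : ∃ cf : Fin s → F, N w = ∑ i, cf i • (bR i : V) := by
      have h1 := bR.sum_repr ⟨N w, hNw⟩
      have h3 := congrArg Subtype.val h1
      rw [Submodule.coe_sum] at h3
      simp only [Submodule.coe_smul] at h3
      exact ⟨fun i => bR.repr ⟨N w, hNw⟩ i, h3.symm⟩
    have hw' : w - ∑ i, cf i • u i ∈ K := by
      rw [hK, LinearMap.mem_ker, map_sub, map_sum, hcf]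
      simp only [map_smul, hu, sub_self]
    have hw2 : w = (w - ∑ i, cf i • u i) + ∑ i, cf i • u i := by abel
    rw [hw2]
    refine Submodule.add_mem _ (hKle hw') (Submodule.sum_mem _ (fun i _ =>
      Submodule.smul_mem _ _ (Submodule.subset_span ⟨Sum.inr (Sum.inl i), by rw [hb]; rfl⟩)))
  have hcard : Fintype.card ((Fin s ⊕ Fin t) ⊕ (Fin s ⊕ Fin t)) = finrank F V := by
    simp only [Fintype.card_sum, Fintype.card_fin]; omega
  obtain ⟨B, hB⟩ := S5958.basis_of_span b hspan hcard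
  refine ⟨s, t, hst, B, ?_, ?_, ?_, ?_⟩
  · intro i
    have h1 : B (Sum.inr (Sum.inl i)) = u i := by rw [hB, hb]; rfl
    have h2 : B (Sum.inl (Sum.inl i)) = (bR i : V) := by rw [hB, hb]; rfl
    rw [h1, h2, hu]
  · intro i
    have h2 : B (Sum.inl (Sum.inl i)) = (bR i : V) := by rw [hB, hb]; rfl
    rw [h2]
    have h3 : (bR i : V) ∈ K := hRK (bR i).2
    rw [hK] at h3; exact LinearMap.mem_ker.mp h3
  · intro j
    have h2 : B (Sum.inl (Sum.inr j)) = (bK (Sum.inl j) : V) := by rw [hB, hb]; rfl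
    rw [h2]
    have h3 : (bK (Sum.inl j) : V) ∈ K'' ⊓ K := by rw [← hK']; exact (bK (Sum.inl j)).2
    have h4 := h3.2
    rw [hK] at h4; exact LinearMap.mem_ker.mp h4
  · intro j
    have h2 : B (Sum.inr (Sum.inr j)) = (bK (Sum.inr j) : V) := by rw [hB, hb]; rfl
    rw [h2]
    have h3 : (bK (Sum.inr j) : V) ∈ K'' ⊓ K := by rw [← hK']; exact (bK (Sum.inr j)).2
    have h4 := h3.2
    rw [hK] at h4; exact LinearMap.mem_ker.mp h4

theorem nil2_comm [Finite F] (h2 : (2 : F) = 0) (N : Module.End F V) (hN2 : N ^ 2 = 0)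
    (hN0 : N ≠ 0) (δ : F) :
    ∃ C : Module.End F V, C ∘ₗ N = N ∘ₗ C ∧ LinearMap.det C = δ := by
  by_cases hex : ∃ w, N w = 0 ∧ w ∉ LinearMap.range N
  · obtain ⟨w, hw, hwr⟩ := hex
    obtain ⟨Z, V'', hc, hZ, hV'', hfr⟩ := S5966.split1 N w hw hwr
    obtain ⟨C, hCdet, hCN⟩ := S5966.scale_sub N Z V'' hc hZ hV'' δ
    exact ⟨C, hCN, by rw [hCdet, hfr, pow_one]⟩
  · obtain ⟨v, hv⟩ : ∃ v, N v ≠ 0 := by
      by_contra hcon
      push Not at hcon
      exact hN0 (LinearMap.ext hcon)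
    obtain ⟨V', hV'inv, hcompl, hli⟩ := S5966.split N 2 (by norm_num) hN2 v (by simpa using hv)
    obtain ⟨c, hc⟩ := S5964.sqrt_char2 h2 δ
    obtain ⟨C, hCdet, hCN⟩ := S5966.scale_sub N _ V' hcompl (S5966.span_inv N 2 hN2 v) hV'inv c
    exact ⟨C, hCN, by rw [hCdet, finrank_span_eq_card hli, Fintype.card_fin, pow_two, hc]⟩

end nil

theorem even_sim {F : Type*} [Field F] [Fintype F] (h2 : (2 : F) = 0) (m : ℕ) (hm : 1 ≤ m)
    (f : (Fin (m + m) → F) → (Fin (m + m) → F) → F) (hf : Cfsg.Geo.IsSymplecticForm f)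
    (x : Matrix.SpecialLinearGroup (Fin (m + m)) F)
    (hx2 : ∃ z : F, ((x ^ 2 : Matrix.SpecialLinearGroup (Fin (m + m)) F) :
      Matrix (Fin (m + m)) (Fin (m + m)) F) = z • (1 : Matrix (Fin (m + m)) (Fin (m + m)) F))
    (hxns : ∀ z : F, (x : Matrix (Fin (m + m)) (Fin (m + m)) F) ≠
      z • (1 : Matrix (Fin (m + m)) (Fin (m + m)) F)) :
    ∃ P : Matrix.SpecialLinearGroup (Fin (m + m)) F, P⁻¹ * x * P ∈
      ((Cfsg.Geo.similarityGroup f).comap (Matrix.SpecialLinearGroup.toGL :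
        Matrix.SpecialLinearGroup (Fin (m + m)) F →* GL (Fin (m + m)) F)) := by
  classical
  obtain ⟨z, hz⟩ := hx2
  obtain ⟨Xm, hX⟩ : ∃ Xm : Matrix (Fin (m + m)) (Fin (m + m)) F,
      Xm = (x : Matrix (Fin (m + m)) (Fin (m + m)) F) := ⟨_, rfl⟩
  have hX2 : Xm * Xm = z • (1 : Matrix (Fin (m + m)) (Fin (m + m)) F) := by
    rw [hX, ← hz, pow_two]; rfl
  have hdetX : Xm.det = 1 := by rw [hX]; exact x.det_coe
  have hz0 : z ≠ 0 := by
    intro h
    have h1 := congrArg Matrix.det hX2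
    haveI : Nonempty (Fin (m + m)) := ⟨⟨0, by omega⟩⟩
    rw [Matrix.det_mul, hdetX, h, zero_smul, Matrix.det_zero] at h1
    simp at h1
  obtain ⟨lam, hlam⟩ := S5964.sqrt_char2 h2 z
  have hlam0 : lam ≠ 0 := by
    intro h; rw [h] at hlam; simp at hlam; exact hz0 hlam.symm
  obtain ⟨g, hg⟩ : ∃ g : Module.End F (Fin (m + m) → F), g = Matrix.toLin' Xm := ⟨_, rfl⟩
  have hg2 : g * g = z • (1 : Module.End F (Fin (m + m) → F)) := by
    rw [hg, Module.End.mul_eq_comp, ← Matrix.toLin'_mul, hX2, map_smul, Matrix.toLin'_one]; rfl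
  obtain ⟨A, hA⟩ : ∃ A : Module.End F (Fin (m + m) → F), A = lam⁻¹ • g := ⟨_, rfl⟩
  obtain ⟨N, hNdef⟩ : ∃ N : Module.End F (Fin (m + m) → F), N = A - 1 := ⟨_, rfl⟩
  have hgN : g = lam • (1 + N) := by
    rw [hNdef, add_sub_cancel, hA, smul_smul, mul_inv_cancel₀ hlam0, one_smul]
  have hA2 : A * A = 1 := by
    rw [hA, smul_mul_smul_comm, hg2, smul_smul, ← hlam]
    have : lam⁻¹ * lam⁻¹ * (lam * lam) = 1 := by field_simp
    rw [this, one_smul]
  have hN2 : N ^ 2 = 0 := by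
    have h4 : N ^ 2 = A * A - 1 - ((A - 1) + (A - 1)) := by
      rw [hNdef, pow_two]
      simp only [sub_mul, mul_sub, one_mul, mul_one]
      abel
    have h5 : ∀ Y : Module.End F (Fin (m + m) → F), Y + Y = 0 := by
      intro Y
      have : Y + Y = (2 : F) • Y := by module
      rw [this, h2, zero_smul]
    rw [h4, hA2, h5, sub_self, sub_zero]
  have hN0 : N ≠ 0 := by
    intro h
    rw [h, add_zero] at hgN
    apply hxns lam
    rw [← hX]
    have h2' := congrArg LinearMap.toMatrix' hgN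
    rw [hg, LinearMap.toMatrix'_toLin', map_smul] at h2'
    rw [h2', LinearMap.toMatrix'_one]
  have hNN : ∀ v, N (N v) = 0 := by
    intro v
    have h := LinearMap.congr_fun hN2 v
    rw [pow_two] at h
    exact h
  obtain ⟨s, t, hst, 𝔅', hb1, hb2, hb3, hb4⟩ := nil2_basis N hNN m (by simp)
  obtain ⟨𝔅, h1, h2', h3, h4⟩ := hyp_basis f hf (ι := Fin s ⊕ Fin t) (by simp; omega)
  obtain ⟨C, hCN, hCdet⟩ := nil2_comm h2 N hN2 hN0 (LinearMap.det
    ((𝔅'.equiv 𝔅 (Equiv.refl _)) : (Fin (m + m) → F) →ₗ[F] (Fin (m + m) → F)))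
  have hCg : C ∘ₗ g = g ∘ₗ C := S5964.comm_of_comm C N g lam hgN hCN
  refine conj_sim f hf 𝔅 𝔅' x Sum.swap (fun _ => lam)
    (fun k => Sum.elim (fun _ => 0) (Sum.elim (fun _ => lam) (fun _ => 0)) k) ?_ (lam * lam)
    (mul_ne_zero hlam0 hlam0) ?_ C (by rw [← hX, ← hg]; exact hCg) hCdet
  · intro k
    rw [← hX, ← hg, hgN]
    simp only [LinearMap.smul_apply, LinearMap.add_apply, Module.End.one_apply]
    rcases k with (i | j) | (i | j)
    · rw [hb2]; simp
    · rw [hb3]; simp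
    · rw [hb1]; simp [smul_add]
    · rw [hb4]; simp
  · intro k l
    rcases k with (i | j) | (i | j) <;> rcases l with (i' | j') | (i' | j') <;>
      simp [h1, h2', h3, h4] <;> (try split_ifs) <;> (try ring)

theorem odd_sim {F : Type*} [Field F] [Fintype F] (hodd : Odd (Fintype.card F)) (m : ℕ)
    (hm : 1 ≤ m)
    (f : (Fin (m + m) → F) → (Fin (m + m) → F) → F) (hf : Cfsg.Geo.IsSymplecticForm f)
    (hval : padicValNat 2 (Fintype.card F - 1) ≤ padicValNat 2 (m + m))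
    (x : Matrix.SpecialLinearGroup (Fin (m + m)) F)
    (hx2 : ∃ z : F, ((x ^ 2 : Matrix.SpecialLinearGroup (Fin (m + m)) F) :
      Matrix (Fin (m + m)) (Fin (m + m)) F) = z • (1 : Matrix (Fin (m + m)) (Fin (m + m)) F)) :
    ∃ P : Matrix.SpecialLinearGroup (Fin (m + m)) F, P⁻¹ * x * P ∈
      ((Cfsg.Geo.similarityGroup f).comap (Matrix.SpecialLinearGroup.toGL :
        Matrix.SpecialLinearGroup (Fin (m + m)) F →* GL (Fin (m + m)) F)) := by
  obtain ⟨z, hz⟩ := hx2
  have hX2 : (x : Matrix (Fin (m + m)) (Fin (m + m)) F) *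
      (x : Matrix (Fin (m + m)) (Fin (m + m)) F) = z • 1 := by
    rw [← hz, pow_two]; rfl
  by_cases hsq : ∃ lam : F, lam * lam = z
  · obtain ⟨lam, rfl⟩ := hsq
    have hlam0 : lam ≠ 0 := by
      intro h
      have h1 := congrArg Matrix.det hX2
      haveI : Nonempty (Fin (m + m)) := ⟨⟨0, by omega⟩⟩
      rw [Matrix.det_mul, x.det_coe, h, zero_mul, zero_smul, Matrix.det_zero] at h1
      simp at h1
    exact sq_sim hodd m hm f hf hval x lam hlam0 hX2
  · push Not at hsq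
    exact nsq_sim hodd m hm f hf x z (fun b hb => hsq b (by rw [← hb]; ring)) hX2

/-- Involutions of PSL_n(q) and the symplectic-type subgroups. Here `T = PSL_n(F)` for a field `F` with `q` elements, `n ≥ 4` even, `f` is a nondegenerate alternating form on `F^n`, and `H` is the subgroup of matrices of determinant 1 preserving `f` up to a scalar — a maximal subgroup of type Sp_n(q); Ω is the set of `T`-conjugates of `H` (cosets of `H`), so an element of `T` of prime order `r` (a matrix `x` of determinant 1 with `x^r` scalar, `x` not scalar) fixes a point of Ω when some conjugate of `x` by a matrix of determinant 1 preserves `f` up to a scalar. Suppose the index of `H` is even. Then every involution of `T` is conjugate in `T` into `H` if and only if `(q − 1)_2 ≤ (n)_2`. -/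
theorem result {F : Type*} [Field F] [Fintype F] {p : ℕ} [Fact p.Prime] [CharP F p] {q : ℕ} (hq : Fintype.card F = q)
    (n : ℕ) (hn : 4 ≤ n) (he : Even n) (f : (Fin n → F) → (Fin n → F) → F) (hf : Cfsg.Geo.IsSymplecticForm f)
    (hΩ : 2 ∣ ((Cfsg.Geo.similarityGroup f).comap (Matrix.SpecialLinearGroup.toGL : Matrix.SpecialLinearGroup (Fin n) F →* GL (Fin n) F)).index) :
    (∀ x : Matrix.SpecialLinearGroup (Fin n) F,
      (∃ z : F, ((x ^ 2 : Matrix.SpecialLinearGroup (Fin n) F) : Matrix (Fin n) (Fin n) F) = z • (1 : Matrix (Fin n) (Fin n) F)) →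
      (∀ z : F, (x : Matrix (Fin n) (Fin n) F) ≠ z • (1 : Matrix (Fin n) (Fin n) F)) →
      ∃ P : Matrix.SpecialLinearGroup (Fin n) F, P⁻¹ * x * P ∈ ((Cfsg.Geo.similarityGroup f).comap (Matrix.SpecialLinearGroup.toGL : Matrix.SpecialLinearGroup (Fin n) F →* GL (Fin n) F))) ↔
    padicValNat 2 (q - 1) ≤ padicValNat 2 n := by
  subst hq
  classical
  obtain ⟨m, rfl⟩ := he
  by_cases hqodd : Odd (Fintype.card F)
  · have h2 : (2 : F) ≠ 0 := S5969.two_ne_zero_of_odd hqodd
    constructor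
    · intro h
      by_contra hcon
      push Not at hcon
      obtain ⟨x, hx2, hxns, hxP⟩ := refl_derange h2 (m + m) hn f hf hcon
      obtain ⟨P, hP⟩ := h x hx2 hxns
      exact hxP P hP
    · intro hval x hx2 hxns
      exact odd_sim hqodd m (by omega) f hf hval x hx2
  · have hev : Even (Fintype.card F) := Nat.not_odd_iff_even.mp hqodd
    have h2 : (2 : F) = 0 := S5969.two_eq_zero_of_even hev
    constructor
    · intro _
      have h0 : padicValNat 2 (Fintype.card F - 1) = 0 := by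
        apply padicValNat.eq_zero_of_not_dvd
        obtain ⟨s, hs⟩ := hev
        have := Fintype.one_lt_card (α := F)
        omega
      omega
    · intro _ x hx2 hxns
      exact even_sim h2 m (by omega) f hf x hx2 hxns


end Cfsg.Agent.S5967
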