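import Cfsg.Statements.S5968
import Mathlib
import Cfsg.Agent.S5949
import Cfsg.Agent.S5964
import Cfsg.Agent.S5967
import Cfsg.Agent.Lib.Helper5.SympCount

set_option autoImplicit false
set_option maxHeartbeats 400000
open scoped MatrixGroups
open Cfsg

namespace Cfsg.Agent.S5968

open Module
open scoped Matrix

theorem prod_pairs (q m : ℕ) :
    ∏ k ∈ Finset.range (2 * m), (q ^ (k + 1) - 1) =
      (∏ j ∈ Finset.range m, (q ^ (2 * (j + 1)) - 1)) *
        ∏ j ∈ Finset.range m, (q ^ (2 * j + 1) - 1) := by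
  induction m with
  | zero => simp
  | succ m ih =>
    have e : 2 * (m + 1) = 2 * m + 1 + 1 := by ring
    rw [e, Finset.prod_range_succ, Finset.prod_range_succ, ih, Finset.prod_range_succ,
      Finset.prod_range_succ, e]
    ring

theorem gl_prod (q n : ℕ) :
    ∏ i : Fin n, (q ^ n - q ^ (i : ℕ)) =
      (∏ j ∈ Finset.range n, q ^ j) * ∏ k ∈ Finset.range n, (q ^ (k + 1) - 1) := by
  rw [Fin.prod_univ_eq_prod_range (fun i => q ^ n - q ^ i) n,
    ← Finset.prod_range_reflect (fun k => q ^ (k + 1) - 1) n, ← Finset.prod_mul_distrib]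
  apply Finset.prod_congr rfl
  intro j hj
  rw [Finset.mem_range] at hj
  have h1 : n - 1 - j + 1 = n - j := by omega
  rw [h1, Nat.mul_sub, mul_one, ← pow_add]
  congr 2; omega

theorem nt_contra (q m r : ℕ) (hq : 2 ≤ q) (hr : r.Prime) (hrq : ¬ r ∣ q)
    (hodd : ∀ j < m, ¬ r ∣ q ^ (2 * j + 1) - 1)
    (h : r * (q ^ (m ^ 2) * ∏ i ∈ Finset.range m, (q ^ (2 * (i + 1)) - 1)) ∣
      ∏ i : Fin (2 * m), (q ^ (2 * m) - q ^ (i : ℕ))) : False := by
  rw [gl_prod q (2 * m), prod_pairs] at h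
  obtain ⟨A, hA⟩ : ∃ A, A = ∏ j ∈ Finset.range m, (q ^ (2 * (j + 1)) - 1) := ⟨_, rfl⟩
  obtain ⟨B, hB⟩ : ∃ B, B = ∏ j ∈ Finset.range m, (q ^ (2 * j + 1) - 1) := ⟨_, rfl⟩
  obtain ⟨Q, hQ⟩ : ∃ Q, Q = ∏ j ∈ Finset.range (2 * m), q ^ j := ⟨_, rfl⟩
  rw [← hA, ← hB, ← hQ] at h
  have hApos : 0 < A := by
    rw [hA]
    apply Finset.prod_pos
    intro j _
    have : 1 < q ^ (2 * (j + 1)) := Nat.one_lt_pow (by omega) (by omega)
    omega
  have h2 : A * (r * q ^ (m ^ 2)) ∣ A * (Q * B) := by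
    have e1 : r * (q ^ (m ^ 2) * A) = A * (r * q ^ (m ^ 2)) := by ring
    have e2 : Q * (A * B) = A * (Q * B) := by ring
    rw [← e1, ← e2]; exact h
  have h3 : r * q ^ (m ^ 2) ∣ Q * B := Nat.dvd_of_mul_dvd_mul_left hApos h2
  have h4 : r ∣ Q * B := (dvd_mul_right r _).trans h3
  rcases (Nat.Prime.dvd_mul hr).mp h4 with h5 | h5
  · rw [hQ] at h5
    obtain ⟨j, -, hj⟩ := (Prime.dvd_finset_prod_iff hr.prime _).mp h5
    exact hrq (hr.dvd_of_dvd_pow hj)
  · rw [hB] at h5
    obtain ⟨j, hj, hj2⟩ := (Prime.dvd_finset_prod_iff hr.prime _).mp h5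
    exact hodd j (Finset.mem_range.mp hj) hj2

theorem sp_embed {F : Type*} [Field F] [Fintype F] (m n : ℕ) (hn : n = 2 * m)
    (f : (Fin n → F) → (Fin n → F) → F) (hf : Cfsg.Geo.IsSymplecticForm f) :
    Nat.card (Matrix.symplecticGroup (Fin m) F) ∣ Nat.card (Cfsg.Geo.similarityGroup f) := by
  classical
  obtain ⟨B, h1, h2, h3, h4⟩ := S5967.hyp_basis f hf (ι := Fin m) (by simpa using hn)
  obtain ⟨ω, hω⟩ := S5967.exists_bil f hf
  let Ψ : Matrix (Fin m ⊕ Fin m) (Fin m ⊕ Fin m) F ≃ₐ[F] Matrix (Fin n) (Fin n) F :=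
    (Matrix.toLinAlgEquiv B).trans LinearMap.toMatrixAlgEquiv'
  let θ : Matrix.symplecticGroup (Fin m) F →* Matrix (Fin n) (Fin n) F :=
    (MonoidHomClass.toMonoidHom Ψ).comp (Matrix.symplecticGroup (Fin m) F).subtype
  let φ : Matrix.symplecticGroup (Fin m) F →* GL (Fin n) F := θ.toHomUnits
  have hφval : ∀ A, ((φ A : GL (Fin n) F) : Matrix (Fin n) (Fin n) F) =
      LinearMap.toMatrix' (Matrix.toLin B B A.1) := fun A => rfl
  have hφinj : Function.Injective φ := by
    intro a b hab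
    have h : Ψ a.1 = Ψ b.1 := congrArg Units.val hab
    exact Subtype.ext (Ψ.injective h)
  have hg : ∀ c d, f (B c) (B d) = - Matrix.J (Fin m) F c d := by
    rintro (c | c) (d | d) <;> simp [Matrix.J, h1, h2, h3, h4, Matrix.one_apply] <;>
      (try split_ifs) <;> simp
  have hrange : φ.range ≤ Cfsg.Geo.similarityGroup f := by
    rintro _ ⟨A, rfl⟩
    refine ⟨1, fun u v => ?_⟩
    rw [hφval, ← Matrix.toLin'_apply, ← Matrix.toLin'_apply, Matrix.toLin'_toMatrix',
      Units.val_one, one_mul, ← hω, ← hω]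
    have hJ : (A.1)ᵀ * Matrix.J (Fin m) F * A.1 = Matrix.J (Fin m) F :=
      SymplecticGroup.mem_iff'.mp A.2
    have key : ω.compl₁₂ (Matrix.toLin B B A.1) (Matrix.toLin B B A.1) = ω := by
      apply LinearMap.ext_basis B B
      intro a b
      rw [LinearMap.compl₁₂_apply, Matrix.toLin_self, Matrix.toLin_self]
      simp only [map_sum, LinearMap.sum_apply, map_smul, LinearMap.smul_apply, smul_eq_mul, hω,
        hg]
      have h5 := congrFun (congrFun hJ a) b
      simp only [Matrix.mul_apply, Matrix.transpose_apply] at h5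
      rw [← h5]
      simp only [Finset.mul_sum, Finset.sum_mul, mul_neg, Finset.sum_neg_distrib]
      congr 1
      apply Finset.sum_congr rfl; intro d _
      apply Finset.sum_congr rfl; intro c _
      ring
    have := congrArg (fun β => β u v) key
    simpa [LinearMap.compl₁₂_apply] using this
  rw [Nat.card_congr (MonoidHom.ofInjective hφinj).toEquiv]
  exact Subgroup.card_dvd_of_le hrange

theorem index_contra {F : Type*} [Field F] [Fintype F] {p : ℕ} [Fact p.Prime] [CharP F p]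
    (m n : ℕ) (hn : n = 2 * m)
    (f : (Fin n → F) → (Fin n → F) → F) (hf : Cfsg.Geo.IsSymplecticForm f)
    (r : ℕ) [Fact r.Prime] (hrp : r ≠ p)
    (hodd : ∀ j < m, ¬ r ∣ Fintype.card F ^ (2 * j + 1) - 1)
    (hΩ : r ∣ ((Cfsg.Geo.similarityGroup f).comap (Matrix.SpecialLinearGroup.toGL :
      Matrix.SpecialLinearGroup (Fin n) F →* GL (Fin n) F)).index) : False := by
  classical
  rw [Subgroup.index_comap] at hΩ
  haveI := S5964.toGL_range_normal (F := F) n
  have h3 := S5964.relIndex_dvd_of_normal (Cfsg.Geo.similarityGroup f)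
    (Matrix.SpecialLinearGroup.toGL : Matrix.SpecialLinearGroup (Fin n) F →* GL (Fin n) F).range
  have h4 : r ∣ (Cfsg.Geo.similarityGroup f).index := hΩ.trans h3
  have h5 := Subgroup.card_mul_index (Cfsg.Geo.similarityGroup f)
  have h6 := sp_embed m n hn f hf
  have h7 : r * Nat.card (Matrix.symplecticGroup (Fin m) F) ∣ Nat.card (GL (Fin n) F) := by
    rw [← h5, mul_comm r]; exact mul_dvd_mul h6 h4
  rw [Cfsg.Agent.Lib.Helper5.SympCount.card_sp F m (Fintype.card F) Nat.card_eq_fintype_card,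
    Matrix.card_GL_field] at h7
  subst hn
  obtain ⟨k, -, hk⟩ := FiniteField.card F p
  refine nt_contra (Fintype.card F) m r Fintype.one_lt_card Fact.out ?_ hodd h7
  intro hrq
  rw [hk] at hrq
  exact hrp ((Nat.prime_dvd_prime_iff_eq Fact.out Fact.out).mp
    ((Fact.out : r.Prime).dvd_of_dvd_pow hrq))

theorem unip_derange {F : Type*} [Field F] {p : ℕ} [Fact p.Prime] [CharP F p] (hp2 : p ≠ 2)
    (n : ℕ) (hn : 4 ≤ n) (f : (Fin n → F) → (Fin n → F) → F)
    (hf : Cfsg.Geo.IsSymplecticForm f) :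
    ∃ x : Matrix.SpecialLinearGroup (Fin n) F,
      (∃ z : F, ((x ^ p : Matrix.SpecialLinearGroup (Fin n) F) : Matrix (Fin n) (Fin n) F) =
        z • (1 : Matrix (Fin n) (Fin n) F)) ∧
      (∀ z : F, (x : Matrix (Fin n) (Fin n) F) ≠ z • (1 : Matrix (Fin n) (Fin n) F)) ∧
      ∀ P : Matrix.SpecialLinearGroup (Fin n) F, P⁻¹ * x * P ∉
        ((Cfsg.Geo.similarityGroup f).comap (Matrix.SpecialLinearGroup.toGL :
          Matrix.SpecialLinearGroup (Fin n) F →* GL (Fin n) F)) := by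
  classical
  obtain ⟨ω, hω⟩ := S5967.exists_bil f hf
  have hpp := (Fact.out : p.Prime)
  have hp3 : 3 ≤ p := by have := hpp.two_le; omega
  obtain ⟨i0, i1, i2, h01, h12, h02⟩ : ∃ i0 i1 i2 : Fin n, i0 ≠ i1 ∧ i1 ≠ i2 ∧ i0 ≠ i2 :=
    ⟨⟨0, by omega⟩, ⟨1, by omega⟩, ⟨2, by omega⟩, by simp [Fin.ext_iff], by simp [Fin.ext_iff],
      by simp [Fin.ext_iff]⟩
  haveI : Nonempty (Fin n) := ⟨i0⟩
  obtain ⟨N, hN⟩ : ∃ N : Matrix (Fin n) (Fin n) F,
      N = Matrix.single i0 i1 1 + Matrix.single i1 i2 1 + Matrix.single i0 i2 1 := ⟨_, rfl⟩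
  have hN2 : N * N = Matrix.single i0 i2 1 := by
    rw [hN]
    simp [add_mul, mul_add, Matrix.single_mul_single_same, Matrix.single_mul_single_of_ne, h01,
      h12, h02, h01.symm, h12.symm, h02.symm]
  have hN3 : N * N * N = 0 := by
    rw [hN2, hN]
    simp [mul_add, Matrix.single_mul_single_of_ne, h01, h12, h02, h01.symm, h12.symm, h02.symm]
  obtain ⟨X, hX⟩ : ∃ X : Matrix (Fin n) (Fin n) F, X = 1 + N := ⟨_, rfl⟩
  have hXdet : X.det = 1 := by
    have : X = Matrix.transvection i0 i1 1 * Matrix.transvection i1 i2 1 := by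
      rw [hX, hN]
      simp only [Matrix.transvection, add_mul, mul_add, one_mul, mul_one,
        Matrix.single_mul_single_same]
      abel
    rw [this, Matrix.det_mul, Matrix.det_transvection_of_ne _ _ h01,
      Matrix.det_transvection_of_ne _ _ h12, one_mul]
  have hXp : X ^ p = 1 := by
    have hc : Commute (1 : Matrix (Fin n) (Fin n) F) N := Commute.one_left N
    have hNp : N ^ p = 0 := by
      have : p = 3 + (p - 3) := by omega
      rw [this, pow_add, pow_succ, pow_two, hN3, zero_mul]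
    rw [hX, add_pow_char_of_commute p hc, one_pow, hNp, add_zero]
  have hXns : ∀ z : F, X ≠ z • (1 : Matrix (Fin n) (Fin n) F) := by
    intro z hz
    have := congrFun (congrFun hz i0) i1
    rw [hX, hN] at this
    simp [Matrix.one_apply, h01, h12, h02, h01.symm, h12.symm, h02.symm, Matrix.single_apply] at this
  obtain ⟨x, hx⟩ : ∃ x : Matrix.SpecialLinearGroup (Fin n) F,
      (x : Matrix (Fin n) (Fin n) F) = X := ⟨⟨X, hXdet⟩, rfl⟩
  refine ⟨x, ⟨1, ?_⟩, ?_, ?_⟩
  · rw [one_smul, Matrix.SpecialLinearGroup.coe_pow, hx]; exact hXp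
  · rw [hx]; exact hXns
  · intro P hP
    obtain ⟨c, hc⟩ := hP
    obtain ⟨Pm, hPm⟩ : ∃ Pm : Matrix (Fin n) (Fin n) F, Pm = (P : Matrix _ _ F) := ⟨_, rfl⟩
    obtain ⟨Pi', hPi⟩ : ∃ Pi' : Matrix (Fin n) (Fin n) F,
        Pi' = ((P⁻¹ : Matrix.SpecialLinearGroup (Fin n) F) : Matrix _ _ F) := ⟨_, rfl⟩
    have hPP : Pi' * Pm = 1 := by
      rw [hPi, hPm, ← Matrix.SpecialLinearGroup.coe_mul, inv_mul_cancel]; rfl
    have hPP' : Pm * Pi' = 1 := by
      rw [hPi, hPm, ← Matrix.SpecialLinearGroup.coe_mul, mul_inv_cancel]; rfl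
    have hy : ((Matrix.SpecialLinearGroup.toGL (P⁻¹ * x * P) : GL (Fin n) F) :
        Matrix (Fin n) (Fin n) F) = 1 + Pi' * N * Pm := by
      show ((P⁻¹ * x * P : Matrix.SpecialLinearGroup (Fin n) F) : Matrix (Fin n) (Fin n) F) = _
      rw [Matrix.SpecialLinearGroup.coe_mul, Matrix.SpecialLinearGroup.coe_mul, hx, hX, ← hPi,
        ← hPm, mul_add, add_mul, mul_one, hPP]
    rw [hy] at hc
    obtain ⟨M, hM⟩ : ∃ M : Matrix (Fin n) (Fin n) F, M = Pi' * N * Pm := ⟨_, rfl⟩
    rw [← hM] at hc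
    have hM2 : M * M = Pi' * Matrix.single i0 i2 1 * Pm := by
      rw [hM]
      calc Pi' * N * Pm * (Pi' * N * Pm) = Pi' * N * (Pm * Pi') * N * Pm := by
            simp only [Matrix.mul_assoc]
        _ = Pi' * (N * N) * Pm := by rw [hPP', Matrix.mul_one, Matrix.mul_assoc Pi' N N]
        _ = _ := by rw [hN2]
    have hM3 : M * M * M = 0 := by
      rw [hM2, hM]
      calc Pi' * Matrix.single i0 i2 1 * Pm * (Pi' * N * Pm)
          = Pi' * (Matrix.single i0 i2 1 * (Pm * Pi') * N) * Pm := by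
            simp only [Matrix.mul_assoc]
        _ = 0 := by rw [hPP', Matrix.mul_one, ← hN2, hN3, Matrix.mul_zero, Matrix.zero_mul]
    have hsim : ∀ u v, ω (u + M *ᵥ u) (v + M *ᵥ v) = (c : F) * ω u v := by
      intro u v
      have := hc u v
      rw [Matrix.add_mulVec, Matrix.add_mulVec, Matrix.one_mulVec, Matrix.one_mulVec] at this
      rw [hω, hω]; exact this
    have E : ∀ u v, ω (M *ᵥ u) v + ω u (M *ᵥ v) + ω (M *ᵥ u) (M *ᵥ v) =
        ((c : F) - 1) * ω u v := by
      intro u v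
      have := hsim u v
      simp only [map_add, LinearMap.add_apply] at this
      linear_combination this
    have hM3v : ∀ u, M *ᵥ (M *ᵥ (M *ᵥ u)) = 0 := by
      intro u
      rw [Matrix.mulVec_mulVec, Matrix.mulVec_mulVec, hM3, Matrix.zero_mulVec]
    have hA : ∀ u v, ω (M *ᵥ (M *ᵥ u)) (M *ᵥ v) = ((c : F) - 1) * ω (M *ᵥ (M *ᵥ u)) v := by
      intro u v
      have := E (M *ᵥ (M *ᵥ u)) v
      rw [hM3v, map_zero, LinearMap.zero_apply, LinearMap.zero_apply, zero_add, add_zero] at this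
      exact this
    obtain ⟨w, hw⟩ : ∃ w, w = Pi' *ᵥ Pi.single i0 (1 : F) := ⟨_, rfl⟩
    have hM2v : ∀ u, M *ᵥ (M *ᵥ u) = (Pm *ᵥ u) i2 • w := by
      intro u
      rw [Matrix.mulVec_mulVec, hM2, ← Matrix.mulVec_mulVec, ← Matrix.mulVec_mulVec,
        Matrix.single_mulVec_eq, Matrix.mulVec_smul, one_mul, hw]
    have hw0 : w ≠ 0 := by
      intro h0
      have h1 : Pm *ᵥ w = Pi.single i0 1 := by
        rw [hw, Matrix.mulVec_mulVec, hPP', Matrix.one_mulVec]
      rw [h0, Matrix.mulVec_zero] at h1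
      have := congrFun h1 i0
      simp at this
    obtain ⟨u₂, hu₂⟩ := (hf.nondegenerate w hw0).2
    rw [← hω] at hu₂
    obtain ⟨u₁, hu₁⟩ : ∃ u₁, u₁ = Pi' *ᵥ Pi.single i2 (1 : F) := ⟨_, rfl⟩
    have hu₁2 : (Pm *ᵥ u₁) i2 = 1 := by
      rw [hu₁, Matrix.mulVec_mulVec, hPP', Matrix.one_mulVec]; simp
    have hc1 : (c : F) = 1 := by
      by_contra hne
      have hne' : (c : F) - 1 ≠ 0 := sub_ne_zero.mpr hne
      have h3 : ((c : F) - 1) ^ 3 * ω (M *ᵥ (M *ᵥ u₁)) u₂ = 0 := by
        have e1 := hA u₁ (M *ᵥ (M *ᵥ u₂))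
        have e2 := hA u₁ (M *ᵥ u₂)
        have e3 := hA u₁ u₂
        rw [hM3v, map_zero] at e1
        rw [e2, e3] at e1
        linear_combination -e1
      have h4 : ω (M *ᵥ (M *ᵥ u₁)) u₂ = 0 := by
        rcases mul_eq_zero.mp h3 with h | h
        · exact absurd (pow_eq_zero_iff (by norm_num) |>.mp h) hne'
        · exact h
      rw [hM2v, hu₁2, one_smul] at h4
      exact hu₂ h4
    have hC : ∀ u, ω (M *ᵥ (M *ᵥ u)) u = 0 := by
      intro u
      have e1 := E (M *ᵥ u) u
      have e2 := hA u u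
      have e3 : ω (M *ᵥ u) (M *ᵥ u) = 0 := by rw [hω]; exact hf.alternating _
      rw [hc1, sub_self, zero_mul] at e1 e2
      rw [e2, e3] at e1
      linear_combination e1
    have hD : ∀ u, (Pm *ᵥ u) i2 * ω w u = 0 := by
      intro u
      have := hC u
      rw [hM2v, map_smul, LinearMap.smul_apply, smul_eq_mul] at this
      exact this
    have d1 := hD u₁
    rw [hu₁2, one_mul] at d1
    have d2 := hD u₂
    have d2' : (Pm *ᵥ u₂) i2 = 0 := (mul_eq_zero.mp d2).resolve_right hu₂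
    have d3 := hD (u₁ + u₂)
    rw [Matrix.mulVec_add, Pi.add_apply, hu₁2, d2', map_add, d1] at d3
    simp at d3
    exact hu₂ d3

theorem Cg_conj {F : Type*} [Field F] {V V' : Type*} [AddCommGroup V] [Module F V]
    [AddCommGroup V'] [Module F V']
    (e : V ≃ₗ[F] V') (g : V →ₗ[F] V) (g' : V' →ₗ[F] V') (h : ∀ v, g' (e v) = e (g v)) :
    finrank F (S5949.Cg g') = finrank F (S5949.Cg g) := by
  have : S5949.Cg g' = (S5949.Cg g).map (e : V →ₗ[F] V') := by
    ext v'
    rw [S5949.mem_Cg, Submodule.mem_map]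
    constructor
    · intro hv
      refine ⟨e.symm v', ?_, by simp⟩
      rw [S5949.mem_Cg]
      apply e.injective
      rw [← h, e.apply_symm_apply, hv]
    · rintro ⟨v, hv, rfl⟩
      rw [S5949.mem_Cg] at hv
      show g' (e v) = e v
      rw [h, hv]
  rw [this]
  exact LinearEquiv.finrank_map_eq e _

theorem isom_even {F : Type*} [Field F] {n : ℕ}
    (ω : (Fin n → F) →ₗ[F] (Fin n → F) →ₗ[F] F)
    (halt : ∀ v, ω v v = 0) (hnd : ∀ v, v ≠ 0 → ∃ w, ω v w ≠ 0)
    (Y : (Fin n → F) →ₗ[F] (Fin n → F)) (hY : ∀ u v, ω (Y u) (Y v) = ω u v)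
    (r : ℕ) (hr : (r : F) ≠ 0) (hYr : Y ^ r = 1) : Even (finrank F (S5949.Cg Y)) := by
  classical
  have hpow : ∀ (j : ℕ) u v, ω ((Y ^ j) u) ((Y ^ j) v) = ω u v := by
    intro j
    induction j with
    | zero => intro u v; simp
    | succ j ih =>
      intro u v
      rw [pow_succ', Module.End.mul_apply, Module.End.mul_apply, hY, ih]
  have horth : ∀ c ∈ S5949.Cg Y, ∀ d ∈ S5949.Dg Y r, ω c d = 0 := by
    intro c hc d hd
    rw [S5949.mem_Cg] at hc
    have h1 : ∀ j, ω c ((Y ^ j) d) = ω c d := by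
      intro j
      have := hpow j c d
      rwa [S5949.pow_fix Y c hc j] at this
    have h2 : (∑ j ∈ Finset.range r, Y ^ j) d = 0 := hd
    have h3 : ω c ((∑ j ∈ Finset.range r, Y ^ j) d) = (r : F) * ω c d := by
      rw [LinearMap.sum_apply, map_sum]
      simp only [h1, Finset.sum_const, Finset.card_range, nsmul_eq_mul]
    rw [h2, map_zero] at h3
    exact (mul_eq_zero.mp h3.symm).resolve_left hr
  let ωC : S5949.Cg Y →ₗ[F] S5949.Cg Y →ₗ[F] F :=
    ω.compl₁₂ (S5949.Cg Y).subtype (S5949.Cg Y).subtype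
  have hCalt : ∀ v, ωC v v = 0 := fun v => halt v.1
  have hCnd : ∀ v, v ≠ 0 → ∃ w, ωC v w ≠ 0 := by
    intro v hv
    obtain ⟨w, hw⟩ := hnd v.1 (fun h => hv (Subtype.ext h))
    have hsplit := S5949.split Y r hr hYr ⊤ (fun _ _ => Submodule.mem_top)
    have hw' : w ∈ (⊤ ⊓ S5949.Cg Y) ⊔ (⊤ ⊓ S5949.Dg Y r) := by
      rw [← hsplit]; exact Submodule.mem_top
    rw [top_inf_eq, top_inf_eq] at hw'
    obtain ⟨c, hc, d, hd, rfl⟩ := Submodule.mem_sup.mp hw'
    refine ⟨⟨c, hc⟩, ?_⟩
    intro h0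
    apply hw
    rw [map_add, horth v.1 v.2 d hd, add_zero]
    exact h0
  obtain ⟨ι, _, _, B, -⟩ :=
    S5967.hyp_aux (finrank F (S5949.Cg Y)) (S5949.Cg Y) ωC hCalt hCnd rfl
  rw [Module.finrank_eq_card_basis B, Fintype.card_sum]
  exact ⟨_, rfl⟩

theorem exists_block {F : Type*} [Field F] [Fintype F] (r : ℕ) [Fact r.Prime]
    (hrF : (r : F) ≠ 0) (hi0 : 0 < orderOf (Fintype.card F : ZMod r)) :
    ∃ (Z : Submodule F (ZMod r → F)) (s : Z →ₗ[F] Z),
      finrank F Z = orderOf (Fintype.card F : ZMod r) ∧ s ^ r = 1 ∧ ∀ z : Z, s z = z → z = 0 := by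
  classical
  have hrp := (Fact.out : r.Prime)
  have : NeZero r := ⟨hrp.ne_zero⟩
  let σ : (ZMod r → F) →ₗ[F] (ZMod r → F) := LinearMap.funLeft F F (fun t : ZMod r => t + 1)
  have hσk : ∀ (k : ℕ) (v : ZMod r → F) (t : ZMod r), (σ ^ k) v t = v (t + (k : ZMod r)) := by
    intro k
    induction k with
    | zero => intro v t; simp
    | succ k ih =>
      intro v t
      rw [pow_succ, Module.End.mul_apply, ih]
      show v (t + (k : ZMod r) + 1) = _
      push_cast; rw [add_assoc]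
  have hσr : σ ^ r = 1 := by
    apply LinearMap.ext; intro v; funext t
    rw [hσk]; simp
  have hC1 : finrank F (S5949.Cg σ) ≤ 1 := by
    have hne1 : (fun _ => 1 : ZMod r → F) ≠ 0 := fun h => one_ne_zero (congrFun h 0)
    have hle : S5949.Cg σ ≤ Submodule.span F {(fun _ => 1 : ZMod r → F)} := by
      intro v hv
      rw [S5949.mem_Cg] at hv
      have h1 : ∀ t : ZMod r, v (t + 1) = v t := fun t => congrFun hv t
      have h2 : ∀ k : ℕ, v (k : ZMod r) = v 0 := by
        intro k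
        induction k with
        | zero => simp
        | succ k ih => rw [Nat.cast_succ, h1, ih]
      rw [Submodule.mem_span_singleton]
      refine ⟨v 0, ?_⟩
      funext t
      have h3 := h2 t.val
      rw [ZMod.natCast_zmod_val] at h3
      simp [h3]
    exact (Submodule.finrank_mono hle).trans (finrank_span_singleton hne1).le
  have hVr : finrank F (ZMod r → F) = r := by simp [ZMod.card]
  have hsplit := S5949.split_finrank σ r hrF hσr ⊤ (fun _ _ => Submodule.mem_top)
  rw [finrank_top, top_inf_eq, top_inf_eq, hVr] at hsplit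
  have hDne : S5949.Dg σ r ≠ ⊥ := by
    intro h
    rw [h, finrank_bot] at hsplit
    have := hrp.two_le; omega
  obtain ⟨Z, hZD, hZ, hZne, hZd⟩ :=
    S5949.exists_small σ _ (S5949.pow_card_pow_eq σ r hσr) hi0 (S5949.Dg σ r)
      (S5949.Dg_inv σ r) hDne
  have hZi : finrank F Z = orderOf (Fintype.card F : ZMod r) := by
    have hdvd := S5949.D_dvd σ r hrF hσr Z hZ hZD
    have hpos : 0 < finrank F Z :=
      Nat.pos_of_ne_zero (fun h => hZne (Submodule.finrank_eq_zero.mp h))
    exact le_antisymm hZd (Nat.le_of_dvd hpos hdvd)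
  let s : Z →ₗ[F] Z := σ.restrict hZ
  have hsr : s ^ r = 1 := by
    show (σ.restrict hZ) ^ r = 1
    rw [Module.End.pow_restrict]
    apply LinearMap.ext; intro z; apply Subtype.ext
    simp [LinearMap.restrict_apply, hσr]
  have hsfix : ∀ z : Z, s z = z → z = 0 := by
    intro z hz
    have h1 : σ z.1 = z.1 := congrArg Subtype.val hz
    have h2 : z.1 ∈ S5949.Cg σ ⊓ S5949.Dg σ r := ⟨(S5949.mem_Cg σ z.1).mpr h1, hZD z.2⟩
    rw [S5949.CD_disj σ r hrF] at h2
    exact Subtype.ext ((Submodule.mem_bot F).mp h2)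
  exact ⟨Z, s, hZi, hsr, hsfix⟩

theorem semis_derange {F : Type*} [Field F] [Fintype F] (n : ℕ) (hn : 4 ≤ n) (he : Even n)
    (f : (Fin n → F) → (Fin n → F) → F) (hf : Cfsg.Geo.IsSymplecticForm f)
    (r : ℕ) [Fact r.Prime] (hrF : (r : F) ≠ 0)
    (hcop : Nat.Coprime r (Fintype.card F - 1))
    (i : ℕ) (hi : i = orderOf (Fintype.card F : ZMod r)) (hi0 : 0 < i) (hiodd : Odd i)
    (hin : i < n) :
    ∃ x : Matrix.SpecialLinearGroup (Fin n) F,
      (∃ z : F, ((x ^ r : Matrix.SpecialLinearGroup (Fin n) F) : Matrix (Fin n) (Fin n) F) =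
        z • (1 : Matrix (Fin n) (Fin n) F)) ∧
      (∀ z : F, (x : Matrix (Fin n) (Fin n) F) ≠ z • (1 : Matrix (Fin n) (Fin n) F)) ∧
      ∀ P : Matrix.SpecialLinearGroup (Fin n) F, P⁻¹ * x * P ∉
        ((Cfsg.Geo.similarityGroup f).comap (Matrix.SpecialLinearGroup.toGL :
          Matrix.SpecialLinearGroup (Fin n) F →* GL (Fin n) F)) := by
  classical
  have hrp := (Fact.out : r.Prime)
  obtain ⟨ω, hω⟩ := S5967.exists_bil f hf
  obtain ⟨Z, s, hZi, hsr, hsfix⟩ := exists_block (F := F) r hrF (hi ▸ hi0)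
  let g : (Z × (Fin (n - i) → F)) →ₗ[F] (Z × (Fin (n - i) → F)) := s.prodMap LinearMap.id
  have hgk : ∀ k (z : Z) (w : Fin (n - i) → F), (g ^ k) (z, w) = ((s ^ k) z, w) := by
    intro k
    induction k with
    | zero => intro z w; simp
    | succ k ih =>
      intro z w
      rw [pow_succ', Module.End.mul_apply, ih]
      show (s ((s ^ k) z), w) = _
      simp [pow_succ', Module.End.mul_apply]
  have hgr : g ^ r = 1 := by
    apply LinearMap.ext
    rintro ⟨z, w⟩
    rw [hgk, hsr]; rfl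
  have hV : finrank F (Z × (Fin (n - i) → F)) = n := by
    rw [Module.finrank_prod, Module.finrank_fin_fun, hZi, ← hi]; omega
  have hCg : finrank F (S5949.Cg g) = n - i := by
    let π : S5949.Cg g →ₗ[F] (Fin (n - i) → F) :=
      (LinearMap.snd F _ _).comp (S5949.Cg g).subtype
    have hinj : Function.Injective π := by
      rw [injective_iff_map_eq_zero]
      rintro ⟨⟨z, w⟩, hzw⟩ hπ
      have hw : w = 0 := hπ
      rw [S5949.mem_Cg] at hzw
      have h1 : (s z, w) = (z, w) := hzw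
      have h2 : z = 0 := hsfix z (Prod.ext_iff.mp h1).1
      apply Subtype.ext
      exact Prod.ext h2 hw
    have hsurj : Function.Surjective π := by
      intro w
      refine ⟨⟨(0, w), ?_⟩, rfl⟩
      rw [S5949.mem_Cg]
      show (s 0, w) = (0, w)
      rw [map_zero]
    rw [LinearEquiv.finrank_eq (LinearEquiv.ofBijective π ⟨hinj, hsurj⟩), Module.finrank_fin_fun]
  have hdet : LinearMap.det g = 1 := by
    have h1 : (LinearMap.det g) ^ r = 1 := by rw [← map_pow, hgr, map_one]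
    have h0 : LinearMap.det g ≠ 0 := by
      intro h; rw [h, zero_pow hrp.ne_zero] at h1; exact zero_ne_one h1
    have h2 : (LinearMap.det g) ^ (Fintype.card F - 1) = 1 :=
      FiniteField.pow_card_sub_one_eq_one _ h0
    have h3 := pow_gcd_eq_one.mpr ⟨h1, h2⟩
    rw [Nat.Coprime.gcd_eq_one hcop, pow_one] at h3
    exact h3
  have e : (Fin n → F) ≃ₗ[F] (Z × (Fin (n - i) → F)) :=
    LinearEquiv.ofFinrankEq _ _ (by rw [hV]; simp)
  let f' : Module.End F (Fin n → F) :=
    (e.symm : (Z × (Fin (n - i) → F)) →ₗ[F] (Fin n → F)) ∘ₗ g ∘ₗ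
      (e.symm.symm : (Fin n → F) →ₗ[F] (Z × (Fin (n - i) → F)))
  have hf'app : ∀ v, f' v = e.symm (g (e v)) := fun v => rfl
  have hf'k : ∀ k v, (f' ^ k) v = e.symm ((g ^ k) (e v)) := by
    intro k
    induction k with
    | zero => intro v; simp
    | succ k ih =>
      intro v
      rw [pow_succ', Module.End.mul_apply, hf'app, ih, LinearEquiv.apply_symm_apply, pow_succ',
        Module.End.mul_apply]
  have hf'pow : f' ^ r = 1 := by
    apply LinearMap.ext
    intro v
    rw [hf'k, hgr]; simp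
  have hdet' : LinearMap.det f' = 1 := by
    rw [← hdet]; exact LinearMap.det_conj g e.symm
  have hCf' : finrank F (S5949.Cg f') = n - i := by
    rw [← hCg]
    exact Cg_conj e.symm g f' (fun v => by rw [hf'app, LinearEquiv.apply_symm_apply])
  obtain ⟨A, hA⟩ : ∃ A : Matrix (Fin n) (Fin n) F, A = LinearMap.toMatrix' f' := ⟨_, rfl⟩
  have hAdet : A.det = 1 := by rw [hA, LinearMap.det_toMatrix', hdet']
  have hApow : A ^ r = 1 := by
    have := congrArg (LinearMap.toMatrixAlgEquiv' (R := F) (n := Fin n)) hf'pow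
    rw [map_pow, map_one] at this
    rw [hA]; exact this
  have hlin : Matrix.toLin' A = f' := by rw [hA]; exact Matrix.toLin'_toMatrix' f'
  obtain ⟨x, hx⟩ : ∃ x : Matrix.SpecialLinearGroup (Fin n) F,
      (x : Matrix (Fin n) (Fin n) F) = A := ⟨⟨A, hAdet⟩, rfl⟩
  have hxr : x ^ r = 1 := by
    apply Subtype.ext
    rw [Matrix.SpecialLinearGroup.coe_pow, hx, hApow]; rfl
  obtain ⟨a, ha⟩ := he
  obtain ⟨b, hb⟩ := hiodd
  refine ⟨x, ⟨1, ?_⟩, ?_, ?_⟩
  · rw [one_smul, hxr]; rfl
  · intro z hz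
    rw [hx] at hz
    have hfz : f' = z • (1 : Module.End F (Fin n → F)) := by
      rw [← hlin, hz, map_smul, Matrix.toLin'_one]; rfl
    by_cases hz1 : z = 1
    · have : S5949.Cg f' = ⊤ := by
        rw [eq_top_iff]; intro v _
        rw [S5949.mem_Cg, hfz, hz1]; simp
      rw [this, finrank_top] at hCf'
      simp at hCf'
      omega
    · have : S5949.Cg f' = ⊥ := by
        rw [eq_bot_iff]; intro v hv
        rw [S5949.mem_Cg, hfz] at hv
        have h1 : (z - 1) • v = 0 := by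
          rw [sub_smul, one_smul]
          simp only [LinearMap.smul_apply, Module.End.one_apply] at hv
          rw [hv, sub_self]
        rcases smul_eq_zero.mp h1 with h | h
        · exact absurd (sub_eq_zero.mp h) hz1
        · rw [Submodule.mem_bot]; exact h
      rw [this, finrank_bot] at hCf'
      omega
  · intro P hP
    obtain ⟨c, hc⟩ := hP
    obtain ⟨Pm, hPm⟩ : ∃ Pm : Matrix (Fin n) (Fin n) F, Pm = (P : Matrix _ _ F) := ⟨_, rfl⟩
    obtain ⟨Pi', hPi⟩ : ∃ Pi' : Matrix (Fin n) (Fin n) F,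
        Pi' = ((P⁻¹ : Matrix.SpecialLinearGroup (Fin n) F) : Matrix _ _ F) := ⟨_, rfl⟩
    have hPP : Pi' * Pm = 1 := by
      rw [hPi, hPm, ← Matrix.SpecialLinearGroup.coe_mul, inv_mul_cancel]; rfl
    have hPP' : Pm * Pi' = 1 := by
      rw [hPi, hPm, ← Matrix.SpecialLinearGroup.coe_mul, mul_inv_cancel]; rfl
    have hy : ((Matrix.SpecialLinearGroup.toGL (P⁻¹ * x * P) : GL (Fin n) F) :
        Matrix (Fin n) (Fin n) F) = Pi' * A * Pm := by
      show ((P⁻¹ * x * P : Matrix.SpecialLinearGroup (Fin n) F) : Matrix (Fin n) (Fin n) F) = _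
      rw [Matrix.SpecialLinearGroup.coe_mul, Matrix.SpecialLinearGroup.coe_mul, hx, ← hPi, ← hPm]
    rw [hy] at hc
    obtain ⟨Y, hYdef⟩ : ∃ Y : Module.End F (Fin n → F), Y = Matrix.toLin' (Pi' * A * Pm) :=
      ⟨_, rfl⟩
    have hYapp : ∀ u, Y u = (Pi' * A * Pm) *ᵥ u := by
      intro u; rw [hYdef, Matrix.toLin'_apply]
    have hYk : ∀ k : ℕ, Y ^ k = Matrix.toLin' (Pi' * A ^ k * Pm) := by
      intro k
      induction k with
      | zero => rw [pow_zero, pow_zero, Matrix.mul_one, hPP, Matrix.toLin'_one]; rfl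
      | succ k ih =>
        rw [pow_succ, ih, hYdef, Module.End.mul_eq_comp, ← Matrix.toLin'_mul]
        congr 1
        calc Pi' * A ^ k * Pm * (Pi' * A * Pm) = Pi' * A ^ k * (Pm * Pi') * A * Pm := by
              simp only [Matrix.mul_assoc]
          _ = Pi' * A ^ (k + 1) * Pm := by
              rw [hPP', Matrix.mul_one, pow_succ, Matrix.mul_assoc Pi' (A ^ k) A]
    have hYr : Y ^ r = 1 := by
      rw [hYk, hApow, Matrix.mul_one, hPP, Matrix.toLin'_one]; rfl
    have hsim : ∀ u v, ω (Y u) (Y v) = (c : F) * ω u v := by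
      intro u v
      rw [hYapp, hYapp, hω, hω]; exact hc u v
    have hsimk : ∀ (k : ℕ) u v, ω ((Y ^ k) u) ((Y ^ k) v) = (c : F) ^ k * ω u v := by
      intro k
      induction k with
      | zero => intro u v; simp
      | succ k ih =>
        intro u v
        rw [pow_succ', Module.End.mul_apply, Module.End.mul_apply, hsim, ih]; ring
    have hne0 : (Pi.single (⟨0, by omega⟩ : Fin n) (1 : F) : Fin n → F) ≠ 0 := by
      intro h
      have := congrFun h ⟨0, by omega⟩
      simp at this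
    obtain ⟨v₀, hv₀⟩ := (hf.nondegenerate _ hne0).2
    rw [← hω] at hv₀
    have hcr : (c : F) ^ r = 1 := by
      have := hsimk r (Pi.single (⟨0, by omega⟩ : Fin n) (1 : F)) v₀
      rw [hYr] at this
      simp only [Module.End.one_apply] at this
      have h2 : ((c : F) ^ r - 1) * ω (Pi.single (⟨0, by omega⟩ : Fin n) (1 : F)) v₀ = 0 := by
        linear_combination -this
      rcases mul_eq_zero.mp h2 with h | h
      · exact sub_eq_zero.mp h
      · exact absurd h hv₀
    have hc1 : (c : F) = 1 := by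
      have h2 : (c : F) ^ (Fintype.card F - 1) = 1 :=
        FiniteField.pow_card_sub_one_eq_one _ c.ne_zero
      have h3 := pow_gcd_eq_one.mpr ⟨hcr, h2⟩
      rw [Nat.Coprime.gcd_eq_one hcop, pow_one] at h3
      exact h3
    have hev := isom_even ω (fun v => by rw [hω]; exact hf.alternating v)
      (fun v hv => by
        obtain ⟨w, hw⟩ := (hf.nondegenerate v hv).2
        exact ⟨w, by rw [hω]; exact hw⟩)
      Y (fun u v => by rw [hsim, hc1, one_mul]) r hrF hYr
    let E : (Fin n → F) ≃ₗ[F] (Fin n → F) :=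
      LinearEquiv.ofLinear (Matrix.toLin' Pi') (Matrix.toLin' Pm)
        (by rw [← Matrix.toLin'_mul, hPP, Matrix.toLin'_one])
        (by rw [← Matrix.toLin'_mul, hPP', Matrix.toLin'_one])
    have hconj : finrank F (S5949.Cg Y) = finrank F (S5949.Cg f') := by
      apply Cg_conj E f' Y
      intro v
      show Y (Matrix.toLin' Pi' v) = Matrix.toLin' Pi' (f' v)
      rw [hYapp, ← hlin, Matrix.toLin'_apply, Matrix.toLin'_apply, Matrix.toLin'_apply,
        Matrix.mulVec_mulVec, Matrix.mulVec_mulVec]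
      congr 1
      rw [Matrix.mul_assoc, Matrix.mul_assoc, hPP', Matrix.mul_one]
    rw [hconj, hCf'] at hev
    obtain ⟨t, ht⟩ := hev
    omega

open Classical in
theorem count_le {F : Type*} [Field F] {n : ℕ}
    (ω : (Fin n → F) →ₗ[F] (Fin n → F) →ₗ[F] F) (hnd : ∀ v, v ≠ 0 → ∃ w, ω v w ≠ 0)
    (Y : (Fin n → F) →ₗ[F] (Fin n → F)) (c : F) (hY : ∀ u v, ω (Y u) (Y v) = c * ω u v)
    (w : Basis (Fin n) F (Fin n → F)) (d : Fin n → F) (hw : ∀ j, Y (w j) = d j • w j) (a : F) :
    Fintype.card {j : Fin n // d j = a} ≤ Fintype.card {k : Fin n // d k * a = c} := by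
  classical
  have hsupp : ∀ j k, d j * d k ≠ c → ω (w j) (w k) = 0 := by
    intro j k hne
    have := hY (w j) (w k)
    rw [hw, hw] at this
    simp only [map_smul, LinearMap.smul_apply, smul_eq_mul] at this
    have h2 : (d j * d k - c) * ω (w j) (w k) = 0 := by linear_combination this
    rcases mul_eq_zero.mp h2 with h | h
    · exact absurd (sub_eq_zero.mp h) hne
    · exact h
  let L : ({j : Fin n // d j = a} → F) →ₗ[F] (Fin n → F) :=
    Fintype.linearCombination F (fun j : {j : Fin n // d j = a} => w j.1)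
  let Φ : ({j : Fin n // d j = a} → F) →ₗ[F] ({k : Fin n // d k * a = c} → F) :=
    LinearMap.pi (fun k => (ω.flip (w k.1)).comp L)
  have hinj : Function.Injective Φ := by
    rw [injective_iff_map_eq_zero]
    intro t ht
    have hLt : L t = ∑ j, t j • w j.1 := Fintype.linearCombination_apply F _ t
    have h0 : ∀ k : Fin n, ω (L t) (w k) = 0 := by
      intro k
      by_cases hk : d k * a = c
      · exact congrFun ht ⟨k, hk⟩
      · rw [hLt, map_sum, LinearMap.sum_apply]
        apply Finset.sum_eq_zero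
        intro j _
        rw [map_smul, LinearMap.smul_apply,
          hsupp j.1 k (by rw [j.2, mul_comm]; exact hk), smul_zero]
    have h1 : ω (L t) = 0 := w.ext (fun k => by rw [h0]; rfl)
    have h2 : L t = 0 := by
      by_contra hne
      obtain ⟨v, hv⟩ := hnd _ hne
      rw [h1] at hv; exact hv rfl
    have hli : LinearIndependent F (fun j : {j : Fin n // d j = a} => w j.1) :=
      w.linearIndependent.comp _ Subtype.val_injective
    rw [hLt] at h2
    funext j
    exact Fintype.linearIndependent_iff.mp hli t h2 j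
  have := LinearMap.finrank_le_finrank_of_injective hinj
  simpa using this

theorem diag_derange {F : Type*} [Field F] (n : ℕ)
    (f : (Fin n → F) → (Fin n → F) → F) (hf : Cfsg.Geo.IsSymplecticForm f) (r : ℕ)
    (d : Fin n → F) (hprod : ∏ j, d j = 1) (hdr : ∀ j, d j ^ r = 1)
    (a₁ : F) (m₀ : ℕ) (hm₀ : 2 * m₀ < n) (hsmall : ∀ j : Fin n, d j ≠ a₁ → j.val < m₀)
    (j₀ : Fin n) (hj₀ : d j₀ ≠ a₁) (hj₀' : ∀ k, d k * d j₀ ≠ a₁ ^ 2) :
    ∃ x : Matrix.SpecialLinearGroup (Fin n) F,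
      (∃ z : F, ((x ^ r : Matrix.SpecialLinearGroup (Fin n) F) : Matrix (Fin n) (Fin n) F) =
        z • (1 : Matrix (Fin n) (Fin n) F)) ∧
      (∀ z : F, (x : Matrix (Fin n) (Fin n) F) ≠ z • (1 : Matrix (Fin n) (Fin n) F)) ∧
      ∀ P : Matrix.SpecialLinearGroup (Fin n) F, P⁻¹ * x * P ∉
        ((Cfsg.Geo.similarityGroup f).comap (Matrix.SpecialLinearGroup.toGL :
          Matrix.SpecialLinearGroup (Fin n) F →* GL (Fin n) F)) := by
  classical
  obtain ⟨ω, hω⟩ := S5967.exists_bil f hf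
  obtain ⟨x, hx⟩ : ∃ x : Matrix.SpecialLinearGroup (Fin n) F,
      (x : Matrix (Fin n) (Fin n) F) = Matrix.diagonal d :=
    ⟨⟨Matrix.diagonal d, by rw [Matrix.det_diagonal, hprod]⟩, rfl⟩
  refine ⟨x, ⟨1, ?_⟩, ?_, ?_⟩
  · rw [one_smul, Matrix.SpecialLinearGroup.coe_pow, hx, Matrix.diagonal_pow,
      ← Matrix.diagonal_one]
    congr 1
    funext j
    exact hdr j
  · intro z hz
    rw [hx] at hz
    have h1 := congrFun (congrFun hz j₀) j₀
    have h2 := congrFun (congrFun hz ⟨m₀, by omega⟩) ⟨m₀, by omega⟩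
    simp at h1 h2
    have h3 : d ⟨m₀, by omega⟩ = a₁ := by
      by_contra hne
      have := hsmall _ hne
      simp at this
    exact hj₀ (by rw [h1, ← h2, h3])
  · intro P hP
    obtain ⟨c, hc⟩ := hP
    obtain ⟨Pm, hPm⟩ : ∃ Pm : Matrix (Fin n) (Fin n) F, Pm = (P : Matrix _ _ F) := ⟨_, rfl⟩
    obtain ⟨Pi', hPi⟩ : ∃ Pi' : Matrix (Fin n) (Fin n) F,
        Pi' = ((P⁻¹ : Matrix.SpecialLinearGroup (Fin n) F) : Matrix _ _ F) := ⟨_, rfl⟩
    have hPP : Pi' * Pm = 1 := by
      rw [hPi, hPm, ← Matrix.SpecialLinearGroup.coe_mul, inv_mul_cancel]; rfl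
    have hPP' : Pm * Pi' = 1 := by
      rw [hPi, hPm, ← Matrix.SpecialLinearGroup.coe_mul, mul_inv_cancel]; rfl
    have hy : ((Matrix.SpecialLinearGroup.toGL (P⁻¹ * x * P) : GL (Fin n) F) :
        Matrix (Fin n) (Fin n) F) = Pi' * Matrix.diagonal d * Pm := by
      show ((P⁻¹ * x * P : Matrix.SpecialLinearGroup (Fin n) F) : Matrix (Fin n) (Fin n) F) = _
      rw [Matrix.SpecialLinearGroup.coe_mul, Matrix.SpecialLinearGroup.coe_mul, hx, ← hPi, ← hPm]
    rw [hy] at hc
    let E : (Fin n → F) ≃ₗ[F] (Fin n → F) :=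
      LinearEquiv.ofLinear (Matrix.toLin' Pi') (Matrix.toLin' Pm)
        (by rw [← Matrix.toLin'_mul, hPP, Matrix.toLin'_one])
        (by rw [← Matrix.toLin'_mul, hPP', Matrix.toLin'_one])
    let w : Basis (Fin n) F (Fin n → F) := (Pi.basisFun F (Fin n)).map E
    have hwj : ∀ j, w j = Pi' *ᵥ Pi.single j (1 : F) := by
      intro j
      show E (Pi.basisFun F (Fin n) j) = _
      rw [Pi.basisFun_apply]
      show Matrix.toLin' Pi' (Pi.single j 1) = _
      rw [Matrix.toLin'_apply]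
    obtain ⟨Y, hYdef⟩ : ∃ Y : Module.End F (Fin n → F),
        Y = Matrix.toLin' (Pi' * Matrix.diagonal d * Pm) := ⟨_, rfl⟩
    have hYw : ∀ j, Y (w j) = d j • w j := by
      intro j
      rw [hwj, hYdef, Matrix.toLin'_apply, Matrix.mulVec_mulVec, Matrix.mul_assoc,
        Matrix.mul_assoc, hPP', Matrix.mul_one, ← Matrix.mulVec_mulVec, ← Matrix.mulVec_smul,
        Matrix.diagonal_mulVec_single]
      congr 1
      ext k
      by_cases hk : k = j <;> simp [hk, Pi.single_apply]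
    have hsim : ∀ u v, ω (Y u) (Y v) = (c : F) * ω u v := by
      intro u v
      rw [hYdef, Matrix.toLin'_apply, Matrix.toLin'_apply, hω, hω]; exact hc u v
    have hnd : ∀ v, v ≠ 0 → ∃ w, ω v w ≠ 0 := fun v hv => by
      obtain ⟨w, hw⟩ := (hf.nondegenerate v hv).2
      exact ⟨w, by rw [hω]; exact hw⟩
    have hcount := count_le ω hnd Y (c : F) hsim w d hYw
    by_cases hcc : (c : F) = a₁ ^ 2
    · have h1 := hcount (d j₀)
      haveI h2 : IsEmpty {k : Fin n // d k * d j₀ = (c : F)} :=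
        ⟨fun k => hj₀' k.1 (by rw [k.2, hcc])⟩
      have h0 : Fintype.card {k : Fin n // d k * d j₀ = (c : F)} = 0 := Fintype.card_eq_zero
      rw [h0] at h1
      have h3 : 0 < Fintype.card {j : Fin n // d j = d j₀} :=
        Fintype.card_pos_iff.mpr ⟨⟨j₀, rfl⟩⟩
      omega
    · have h1 := hcount a₁
      have h2 : Fintype.card {k : Fin n // d k * a₁ = (c : F)} ≤ Fintype.card (Fin m₀) := by
        apply Fintype.card_le_of_injective (fun k =>
          (⟨k.1.val, hsmall k.1 (fun h => hcc (by rw [← k.2, h]; ring))⟩ : Fin m₀))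
        intro k k' hkk
        apply Subtype.ext; apply Fin.ext
        have hv := congrArg (fun t : Fin m₀ => t.val) hkk
        exact hv
      have h3 : Fintype.card {j : Fin n // ¬ d j = a₁} ≤ Fintype.card (Fin m₀) := by
        apply Fintype.card_le_of_injective (fun k => (⟨k.1.val, hsmall k.1 k.2⟩ : Fin m₀))
        intro k k' hkk
        apply Subtype.ext; apply Fin.ext
        have hv := congrArg (fun t : Fin m₀ => t.val) hkk
        exact hv
      have h4 := Fintype.card_subtype_compl (fun j : Fin n => d j = a₁)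
      have h5 := Fintype.card_subtype_le (fun j : Fin n => d j = a₁)
      simp only [Fintype.card_fin] at h2 h3 h4 h5
      omega

theorem prod_split {F : Type*} [Field F] (n m₀ : ℕ) (h : m₀ ≤ n) (g : ℕ → F) (β : F)
    (hg : ∀ k, m₀ ≤ k → g k = β) :
    ∏ j : Fin n, g j.val = (∏ k ∈ Finset.range m₀, g k) * β ^ (n - m₀) := by
  rw [Fin.prod_univ_eq_prod_range g n]
  obtain ⟨k, rfl⟩ : ∃ k, n = m₀ + k := ⟨n - m₀, by omega⟩
  rw [Finset.prod_range_add, Nat.add_sub_cancel_left]
  congr 1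
  rw [Finset.prod_congr rfl (fun x _ => hg (m₀ + x) (by omega)), Finset.prod_const,
    Finset.card_range]

/-- Derangements of odd prime order of PSL_n(q) on the cosets of a symplectic-type subgroup. Here `T = PSL_n(F)` for a field `F` with `q` elements, `n ≥ 4` even, `f` is a nondegenerate alternating form on `F^n`, and `H` is the subgroup of matrices of determinant 1 preserving `f` up to a scalar — a maximal subgroup of type Sp_n(q); Ω is the set of `T`-conjugates of `H` (cosets of `H`), so an element of `T` of prime order `r` (a matrix `x` of determinant 1 with `x^r` scalar, `x` not scalar) fixes a point of Ω when some conjugate of `x` by a matrix of determinant 1 preserves `f` up to a scalar. For every odd prime `r` dividing the index of `H`, with `(n, r) ≠ (6, 3)`, there is an element of `T` of order `r` with no conjugate in `H`. (For `n = 6`, `r = 3` this can fail: when `(q − 1)_3 = 3` every element of order 3 is conjugate into `H`.) -/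
theorem result {F : Type*} [Field F] [Fintype F] {p : ℕ} [Fact p.Prime] [CharP F p] {q : ℕ} (hq : Fintype.card F = q)
    (n : ℕ) (hn : 4 ≤ n) (he : Even n) (f : (Fin n → F) → (Fin n → F) → F) (hf : Cfsg.Geo.IsSymplecticForm f)
    (r : ℕ) [Fact r.Prime] (hr2 : r ≠ 2) (hgap : ¬ (n = 6 ∧ r = 3)) (hΩ : r ∣ ((Cfsg.Geo.similarityGroup f).comap (Matrix.SpecialLinearGroup.toGL : Matrix.SpecialLinearGroup (Fin n) F →* GL (Fin n) F)).index) :
    ∃ x : Matrix.SpecialLinearGroup (Fin n) F,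
      (∃ z : F, ((x ^ r : Matrix.SpecialLinearGroup (Fin n) F) : Matrix (Fin n) (Fin n) F) = z • (1 : Matrix (Fin n) (Fin n) F)) ∧
      (∀ z : F, (x : Matrix (Fin n) (Fin n) F) ≠ z • (1 : Matrix (Fin n) (Fin n) F)) ∧
      ∀ P : Matrix.SpecialLinearGroup (Fin n) F, P⁻¹ * x * P ∉ ((Cfsg.Geo.similarityGroup f).comap (Matrix.SpecialLinearGroup.toGL : Matrix.SpecialLinearGroup (Fin n) F →* GL (Fin n) F)) := by
  classical
  have hrp := (Fact.out : r.Prime)
  have hpp := (Fact.out : p.Prime)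
  subst hq
  obtain ⟨m, hm⟩ := he
  have hn2 : n = 2 * m := by omega
  by_cases hrpe : r = p
  · subst hrpe
    exact unip_derange hr2 n hn f hf
  have hrF : (r : F) ≠ 0 := by
    intro h
    have := (CharP.cast_eq_zero_iff F p r).mp h
    exact hrpe ((Nat.prime_dvd_prime_iff_eq hpp hrp).mp this).symm
  by_cases hex : ∃ j < m, r ∣ Fintype.card F ^ (2 * j + 1) - 1
  swap
  · push_neg at hex
    exact (index_contra m n hn2 f hf r hrpe hex hΩ).elim
  obtain ⟨j, hj, hdvd⟩ := hex
  obtain ⟨i, hi⟩ : ∃ i, i = orderOf (Fintype.card F : ZMod r) := ⟨_, rfl⟩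
  have hq1 : 1 ≤ Fintype.card F ^ (2 * j + 1) := Nat.one_le_pow _ _ Fintype.card_pos
  have hpow1 : (Fintype.card F : ZMod r) ^ (2 * j + 1) = 1 := by
    have := (ZMod.natCast_eq_zero_iff _ r).mpr hdvd
    rw [Nat.cast_sub hq1, Nat.cast_pow, Nat.cast_one, sub_eq_zero] at this
    exact this
  have hidvd : i ∣ 2 * j + 1 := by rw [hi]; exact orderOf_dvd_of_pow_eq_one hpow1
  have hiodd : Odd i := Odd.of_dvd_nat ⟨j, rfl⟩ hidvd
  have hi0 : 0 < i := Nat.pos_of_dvd_of_pos hidvd (by omega)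
  have hile : i ≤ 2 * j + 1 := Nat.le_of_dvd (by omega) hidvd
  have hin : i < n := by omega
  by_cases hi1 : i = 1
  swap
  · have hcop : Nat.Coprime r (Fintype.card F - 1) := by
      rw [Nat.Prime.coprime_iff_not_dvd hrp]
      intro h
      exact hi1 (by
        rw [hi]; exact (S5949.order_one_iff (Fintype.card F) r Fintype.card_pos).mpr h)
    exact semis_derange n hn ⟨m, hm⟩ f hf r hrF hcop i hi hi0 hiodd hin
  have hrq1 : r ∣ Fintype.card F - 1 :=
    (S5949.order_one_iff (Fintype.card F) r Fintype.card_pos).mp (by rw [← hi]; exact hi1)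
  have hcard : r ∣ Nat.card Fˣ := by rw [Nat.card_units, Nat.card_eq_fintype_card]; exact hrq1
  obtain ⟨gζ, hgζ⟩ := exists_prime_orderOf_dvd_card' r hcard
  obtain ⟨ζ, hζ⟩ : ∃ ζ : F, ζ = (gζ : F) := ⟨_, rfl⟩
  have hζ0 : ζ ≠ 0 := by rw [hζ]; exact gζ.ne_zero
  have hζk : ∀ k : ℕ, ζ ^ k = 1 → r ∣ k := by
    intro k hk
    rw [← hgζ]
    apply orderOf_dvd_of_pow_eq_one
    apply Units.ext
    rw [Units.val_pow_eq_pow_val, ← hζ, hk]; rfl
  have hζr : ζ ^ r = 1 := by
    have h1 : gζ ^ r = 1 := by rw [← hgζ]; exact pow_orderOf_eq_one gζ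
    have h2 := congrArg Units.val h1
    rw [Units.val_pow_eq_pow_val, ← hζ] at h2
    exact h2
  have hr3 : 3 ≤ r := by have := hrp.two_le; omega
  have hζ1 : ζ ≠ 1 := by
    intro h
    have h1 := hζk 1 (by rw [pow_one]; exact h)
    have := Nat.le_of_dvd (by norm_num) h1
    omega
  have hζ2 : ζ ^ 2 ≠ 1 := by
    intro h
    have := Nat.le_of_dvd (by norm_num) (hζk 2 h)
    omega
  have hpowr : ∀ k : ℕ, (ζ ^ k) ^ r = 1 := by
    intro k; rw [← pow_mul, mul_comm, pow_mul, hζr, one_pow]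
  by_cases hrn : r ∣ n
  · have hn7 : 7 ≤ n := by
      have h2n : 2 ∣ n := ⟨m, hn2⟩
      have hcop2 : Nat.Coprime 2 r := by
        rw [Nat.coprime_primes Nat.prime_two hrp]; omega
      have h2r : 2 * r ∣ n := Nat.Coprime.mul_dvd_of_dvd_of_dvd hcop2 h2n hrn
      have hle := Nat.le_of_dvd (by omega) h2r
      by_contra hlt
      have hn6 : n = 6 := by omega
      have hr3' : r = 3 := by omega
      exact hgap ⟨hn6, hr3'⟩
    obtain ⟨g, hg⟩ : ∃ g : ℕ → F,
        g = fun k => if k = 0 then ζ ^ 3 else if k < 3 then 1 else ζ := ⟨_, rfl⟩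
    have hgβ : ∀ k, 3 ≤ k → g k = ζ := by
      intro k hk
      simp only [hg]
      rw [if_neg (by omega), if_neg (by omega)]
    have hprod : ∏ j : Fin n, g j.val = 1 := by
      rw [prod_split n 3 (by omega) g ζ hgβ]
      have h3 : ∏ k ∈ Finset.range 3, g k = ζ ^ 3 := by
        simp [hg, Finset.prod_range_succ]
      have h3n : 3 + (n - 3) = n := by omega
      obtain ⟨t, ht⟩ := hrn
      rw [h3, ← pow_add, h3n, ht, pow_mul, hζr, one_pow]
    refine diag_derange n f hf r (fun j => g j.val) hprod ?_ ζ 3 (by omega) ?_ ⟨1, by omega⟩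
      ?_ ?_
    · intro j
      show g j.val ^ r = 1
      simp only [hg]
      split_ifs
      · exact hpowr 3
      · exact one_pow r
      · exact hζr
    · intro j hne
      by_contra hlt
      exact hne (hgβ j.val (by omega))
    · show g 1 ≠ ζ
      have hg1 : g 1 = 1 := by simp [hg]
      rw [hg1]
      exact fun h => hζ1 h.symm
    · intro k
      show g k.val * g 1 ≠ ζ ^ 2
      have hg1 : g 1 = 1 := by simp [hg]
      rw [hg1, mul_one]
      simp only [hg]
      split_ifs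
      · intro h
        apply hζ1
        have : ζ ^ 2 * ζ = ζ ^ 2 * 1 := by linear_combination h
        exact mul_left_cancel₀ (pow_ne_zero 2 hζ0) this
      · exact fun h => hζ2 h.symm
      · intro h
        apply hζ1
        have : ζ * ζ = ζ * 1 := by linear_combination -h
        exact mul_left_cancel₀ hζ0 this
  · have hcopn : Nat.Coprime n r :=
      Nat.Coprime.symm ((Nat.Prime.coprime_iff_not_dvd hrp).mpr hrn)
    obtain ⟨m', -, hm'⟩ := Nat.exists_mul_mod_eq_one_of_coprime hcopn (by omega : 1 < r)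
    obtain ⟨r', hr'⟩ : ∃ r', r = r' + 1 := ⟨r - 1, by omega⟩
    obtain ⟨t, ht⟩ : ∃ t, t = n * m' / r := ⟨_, rfl⟩
    have hnm : n * m' = r * t + 1 := by
      have := Nat.div_add_mod (n * m') r
      rw [hm', ← ht] at this
      exact this.symm
    obtain ⟨e, he⟩ : ∃ e, e = r' * m' := ⟨_, rfl⟩
    have hen : e * n + 1 = r * (r' * t + 1) := by
      calc e * n + 1 = r' * (n * m') + 1 := by rw [he]; ring
        _ = r' * (r * t + 1) + 1 := by rw [hnm]
        _ = r * (r' * t + 1) := by rw [hr']; ring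
    obtain ⟨g, hg⟩ : ∃ g : ℕ → F, g = fun k => if k = 0 then ζ ^ (e + 1) else ζ ^ e :=
      ⟨_, rfl⟩
    have hgβ : ∀ k, 1 ≤ k → g k = ζ ^ e := by
      intro k hk
      simp only [hg]
      rw [if_neg (by omega)]
    have hprod : ∏ j : Fin n, g j.val = 1 := by
      rw [prod_split n 1 (by omega) g (ζ ^ e) hgβ]
      have h1 : ∏ k ∈ Finset.range 1, g k = ζ ^ (e + 1) := by
        simp [hg]
      obtain ⟨k, hk⟩ : ∃ k, n = k + 1 := ⟨n - 1, by omega⟩
      have h2 : e + 1 + e * (n - 1) = r * (r' * t + 1) := by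
        rw [← hen, hk, Nat.add_sub_cancel]; ring
      rw [h1, ← pow_mul, ← pow_add, h2, pow_mul, hζr, one_pow]
    refine diag_derange n f hf r (fun j => g j.val) hprod ?_ (ζ ^ e) 1 (by omega) ?_
      ⟨0, by omega⟩ ?_ ?_
    · intro j
      show g j.val ^ r = 1
      simp only [hg]
      split_ifs
      · exact hpowr _
      · exact hpowr _
    · intro j hne
      by_contra hlt
      exact hne (hgβ j.val (by omega))
    · show g 0 ≠ ζ ^ e
      have hg0 : g 0 = ζ ^ (e + 1) := by simp [hg]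
      rw [hg0]
      intro h
      apply hζ1
      have : ζ ^ e * ζ = ζ ^ e * 1 := by linear_combination h
      exact mul_left_cancel₀ (pow_ne_zero e hζ0) this
    · intro k
      show g k.val * g 0 ≠ (ζ ^ e) ^ 2
      have hg0 : g 0 = ζ ^ (e + 1) := by simp [hg]
      rw [hg0]
      simp only [hg]
      split_ifs
      · intro h
        apply hζ2
        have : (ζ ^ e) ^ 2 * ζ ^ 2 = (ζ ^ e) ^ 2 * 1 := by linear_combination h
        exact mul_left_cancel₀ (pow_ne_zero 2 (pow_ne_zero e hζ0)) this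
      · intro h
        apply hζ1
        have : (ζ ^ e) ^ 2 * ζ = (ζ ^ e) ^ 2 * 1 := by linear_combination h
        exact mul_left_cancel₀ (pow_ne_zero 2 (pow_ne_zero e hζ0)) this


end Cfsg.Agent.S5968
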