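import Cfsg.Statements.S5997
import Cfsg.Agent.Lib.Helper16.QuatNorm3

set_option autoImplicit false
open scoped MatrixGroups
open Cfsg

namespace Cfsg.Agent.S5997

/-- Elements of prime order of PSL_2(p) and the normalizer of a quaternion subgroup. Here `T = PSL_2(F)` for the field `F` with `p` elements, `p ≥ 5` prime; `R` is a subgroup of GL_2(F) isomorphic to the quaternion group of order 8 (an absolutely irreducible 2-group of symplectic type), and `H` is the subgroup of matrices of determinant 1 normalizing `R` — a subgroup of type 2^{1+2}.O₂⁻(2), isomorphic modulo scalars to A₄ or S₄ (maximality is not assumed). Ω is the set of cosets of `H` in `T`, so an element of `T` of prime order `r` (a matrix `x` of determinant 1 with `x^r` scalar, `x` not scalar) fixes a point of Ω exactly when some conjugate of `x` by a matrix of determinant 1 normalizes `R`. Let `r` be a prime dividing the index of `H`. Then every element of `T` of order `r` fixes a point of Ω if and only if `r = 2` or `r = 3`. -/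
theorem result {F : Type*} [Field F] [Fintype F] {p : ℕ} [Fact p.Prime] [CharP F p] (hF : Fintype.card F = p) (hp : 5 ≤ p)
    (R : Subgroup (GL (Fin 2) F)) (hR : Nonempty (↥R ≃* QuaternionGroup 2))
    (r : ℕ) [Fact r.Prime]
    (hΩ : r ∣ (Cfsg.Geo.subgroupNormalizer R).relIndex (Cfsg.Geo.specialLinear (Fin 2) F)) :
    (∀ x ∈ Cfsg.Geo.specialLinear (Fin 2) F, (∃ z : F, ((x ^ r : GL (Fin 2) F) : Matrix (Fin 2) (Fin 2) F) = z • (1 : Matrix (Fin 2) (Fin 2) F)) →
      (∀ z : F, (x : Matrix (Fin 2) (Fin 2) F) ≠ z • (1 : Matrix (Fin 2) (Fin 2) F)) →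
      ∃ g ∈ Cfsg.Geo.specialLinear (Fin 2) F, g⁻¹ * x * g ∈ Cfsg.Geo.subgroupNormalizer R) ↔ (r = 2 ∨ r = 3) := by
  obtain ⟨e⟩ := hR
  have hpp : p.Prime := Fact.out
  have hrp : r.Prime := Fact.out
  have hodd : Fintype.card F % 2 = 1 := by
    rw [hF]
    rcases hpp.eq_two_or_odd with h | h
    · omega
    · exact h
  have h3 : (3 : F) ≠ 0 := by
    intro h
    have h' : ((3 : ℕ) : F) = 0 := by exact_mod_cast h
    rw [CharP.cast_eq_zero_iff F p 3] at h'
    have := Nat.le_of_dvd (by norm_num) h'
    omega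
  constructor
  · intro H
    by_contra hr23
    push_neg at hr23
    have hr5 : 5 ≤ r := by
      have h2 := hrp.two_le
      by_contra hlt
      have h4 : r = 4 := by omega
      rw [h4] at hrp
      norm_num at hrp
    have hdvd : r ∣ Nat.card ↥(Cfsg.Geo.specialLinear (Fin 2) F) :=
      hΩ.trans (Subgroup.relIndex_dvd_card _ _)
    obtain ⟨x, hx⟩ := exists_prime_orderOf_dvd_card' r hdvd
    have hxr : orderOf (x : GL (Fin 2) F) = r := by
      rw [Subgroup.orderOf_coe]
      exact hx
    have hxpow : (x : GL (Fin 2) F) ^ r = 1 := by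
      rw [← hxr]
      exact pow_orderOf_eq_one _
    have hns : ∀ z : F, ((x : GL (Fin 2) F) : Matrix (Fin 2) (Fin 2) F) ≠
        z • (1 : Matrix (Fin 2) (Fin 2) F) := by
      intro z hz
      have hdet := Cfsg.Agent.Lib.Helper16.QuatNorm.det_of_mem x.2
      rw [hz, Cfsg.Agent.Lib.Helper16.QuatNorm.smul_one_fin_two, Matrix.det_fin_two_of] at hdet
      have hxx : (x : GL (Fin 2) F) * (x : GL (Fin 2) F) = 1 := by
        apply Units.ext
        rw [Units.val_mul, hz, Cfsg.Agent.Lib.Helper16.QuatNorm.smul_one_fin_two,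
          Matrix.mul_fin_two]
        show _ = (1 : Matrix (Fin 2) (Fin 2) F)
        rw [Matrix.one_fin_two]
        apply Cfsg.Agent.Lib.Helper16.PSL2A4.mat_eq <;> first | linear_combination hdet | ring
      have hd2 : orderOf (x : GL (Fin 2) F) ∣ 2 :=
        orderOf_dvd_of_pow_eq_one (by rw [pow_two]; exact hxx)
      rw [hxr] at hd2
      have := Nat.le_of_dvd (by norm_num) hd2
      omega
    obtain ⟨g, hg, hgN⟩ := H (x : GL (Fin 2) F) x.2
      ⟨1, by rw [hxpow, one_smul]; rfl⟩ hns
    have hy : g⁻¹ * (x : GL (Fin 2) F) * g ∈ Cfsg.Geo.specialLinear (Fin 2) F :=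
      Subgroup.mul_mem _ (Subgroup.mul_mem _ (Subgroup.inv_mem _ hg) x.2) hg
    have hyr : orderOf (g⁻¹ * (x : GL (Fin 2) F) * g) = r := by
      have hy1 : (g⁻¹ * (x : GL (Fin 2) F) * g) ^ r = 1 := by
        have e1 : (g⁻¹ * (x : GL (Fin 2) F) * g) ^ r = g⁻¹ * (x : GL (Fin 2) F) ^ r * g := by
          have := conj_pow (a := g⁻¹) (b := (x : GL (Fin 2) F)) (i := r)
          rw [inv_inv] at this
          exact this
        rw [e1, hxpow]
        group
      have hy2 : g⁻¹ * (x : GL (Fin 2) F) * g ≠ 1 := by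
        intro h
        have hx1 : (x : GL (Fin 2) F) = 1 := by
          have e2 : (x : GL (Fin 2) F) = g * (g⁻¹ * (x : GL (Fin 2) F) * g) * g⁻¹ := by group
          rw [e2, h]
          group
        have : orderOf (x : GL (Fin 2) F) = 1 := by rw [hx1]; exact orderOf_one
        rw [hxr] at this
        omega
      exact orderOf_eq_prime hy1 hy2
    exact Cfsg.Agent.Lib.Helper16.QuatNorm.quat_necessary hodd R e _ hy hgN r hrp hr5 hyr
  · rintro (rfl | rfl) x hx hz hns
    · exact Cfsg.Agent.Lib.Helper16.QuatNorm.quat_sufficient2 hodd R e x hx hz hns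
    · exact Cfsg.Agent.Lib.Helper16.QuatNorm.quat_sufficient3 hodd h3 R e x hx hz hns

end Cfsg.Agent.S5997
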